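import Cfsg.Agent.H4_PlF

/-!
The multiplier of PSL₃(4).
-/

set_option autoImplicit false
set_option maxRecDepth 100000

namespace Cfsg.Agent.H4.PlB

open Cfsg.Agent.H8 Cfsg.Agent.H8.CE Cfsg.Agent.H8.CS Cfsg.Agent.H8.Net Cfsg.Agent.H8.Act Cfsg.Agent.H8.Cox
open Cfsg.Agent.H8.Act2 Cfsg.Agent.H4.Ltr
open scoped commutatorElement

universe u v w

theorem ub {Γ : Type u} {G : Type v} [Group Γ] [Finite Γ] [Group G] (e : S ≃* G) {σ : Γ →* G}
    (hσ : Cfsg.IsStemExtension σ) :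
    ∃ c d : Γ, c ∈ σ.ker ∧ d ∈ σ.ker ∧ c ^ 12 = 1 ∧ d ^ 4 = 1 ∧ σ.ker ≤ Subgroup.closure {c, d} := by
  haveI : Finite G := Finite.of_equiv _ e.toEquiv
  have hG := perf_of e
  have hcardG : Nat.card G = 20160 := by rw [← Nat.card_congr e.toEquiv]; exact cardS_eq
  have hc := hσ.2.1
  -- prime divisors of the order of the kernel
  have hodd : ∀ {p : ℕ}, p.Prime → p ∣ Nat.card σ.ker → p = 2 ∨ p = 3 := by
    intro p hp hd
    by_contra hne
    rw [not_or] at hne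
    haveI : Fact p.Prime := ⟨hp⟩
    exact Cfsg.Agent.S0102.result hG (p := p)
      (Cfsg.Agent.H14.Schur.isCyclic_of_not_sq_dvd (by rw [hcardG]; exact sq_dvd p hp hne.1 hne.2)) σ hσ.1 hσ.2.1
      (Cfsg.Agent.H14.Schur.perfect_of_stem σ hσ hG) hd
  have hn0 : Nat.card σ.ker ≠ 0 := Nat.card_pos.ne'
  obtain ⟨α, m, hm, hnm⟩ := Nat.exists_eq_two_pow_mul_odd hn0
  have hm0 : m ≠ 0 := by rintro rfl; rw [mul_zero] at hnm; exact hn0 hnm
  have hm3 : m = 3 ^ m.primeFactorsList.length := by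
    refine Nat.eq_prime_pow_of_unique_prime_dvd hm0 (fun {p} hp hd => ?_)
    rcases hodd hp (hnm ▸ hd.mul_left _) with h | h
    · exfalso
      rw [h] at hd
      have := hm
      rw [Nat.odd_iff] at this
      omega
    · exact h
  obtain ⟨β, hβ⟩ : ∃ β, m = 3 ^ β := ⟨_, hm3⟩
  rw [hβ] at hnm
  have hpow : ∀ k ∈ σ.ker, k ^ (2 ^ α * 3 ^ β) = 1 := by
    intro k hk
    have h1 : (⟨k, hk⟩ : σ.ker) ^ Nat.card σ.ker = 1 := pow_card_eq_one'
    rw [hnm] at h1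
    exact congrArg Subtype.val h1
  have hcop : ∀ q : ℕ, Nat.Coprime 2 q → Nat.Coprime 3 q → Nat.Coprime (2 ^ α * 3 ^ β) q := fun q h1 h2 =>
    Nat.Coprime.mul_left (Nat.Coprime.pow_left α h1) (Nat.Coprime.pow_left β h2)
  obtain ⟨x, hx, x7⟩ := lift_ord (q := 7) (by norm_num) (hcop 7 (by norm_num) (by norm_num)) hpow hσ.1
    (g := e xS) (by rw [← map_pow, sr.x7, map_one])
  obtain ⟨y, hy, y5⟩ := lift_ord (q := 5) (by norm_num) (hcop 5 (by norm_num) (by norm_num)) hpow hσ.1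
    (g := e yS) (by rw [← map_pow, sr.y5, map_one])
  have ho : orderOf (σ x) = 7 := by
    rw [hx, MulEquiv.orderOf_eq]; exact xS_ord
  have hker : ∀ g : Γ, σ g = 1 → g ∈ σ.ker := fun g h => h
  have ka : (x * y⁻¹) ^ 2 ∈ σ.ker := hker _ (by
    simp only [map_mul, map_pow, map_inv, hx, hy]; simp only [← map_mul, ← map_pow, ← map_inv]; rw [sr.r1, map_one])
  have kb : (x * (x * (y⁻¹ * y⁻¹))) ^ 3 ∈ σ.ker := hker _ (by
    simp only [map_mul, map_pow, map_inv, hx, hy]; simp only [← map_mul, ← map_pow, ← map_inv]; rw [sr.r2, map_one])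
  have kc : (x * (x * y)) ^ 5 ∈ σ.ker := hker _ (by
    simp only [map_mul, map_pow, hx, hy]; simp only [← map_mul, ← map_pow]; rw [sr.r3, map_one])
  have kd : (x * (x * (x * (y * (x * (y * y)))))) ^ 3 ∈ σ.ker := hker _ (by
    simp only [map_mul, map_pow, hx, hy]; simp only [← map_mul, ← map_pow]; rw [sr.r4, map_one])
  obtain ⟨a, ha⟩ : ∃ a, (x * y⁻¹) ^ 2 = a := ⟨_, rfl⟩
  obtain ⟨b, hb⟩ : ∃ b, (x * (x * (y⁻¹ * y⁻¹))) ^ 3 = b := ⟨_, rfl⟩
  obtain ⟨c, hcc⟩ : ∃ c, (x * (x * y)) ^ 5 = c := ⟨_, rfl⟩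
  obtain ⟨d, hd⟩ : ∃ d, (x * (x * (x * (y * (x * (y * y)))))) ^ 3 = d := ⟨_, rfl⟩
  rw [ha] at ka; rw [hb] at kb; rw [hcc] at kc; rw [hd] at kd
  have hM : Subgroup.closure {x, y} = ⊤ := by
    apply gen_of_stem hσ
    rw [MonoidHom.map_closure, Set.image_pair, hx, hy]
    have h1 : Subgroup.closure {e xS, e yS} = (Subgroup.closure {xS, yS}).map e.toMonoidHom := by
      rw [MonoidHom.map_closure, Set.image_pair]; rfl
    rw [h1, clS]
    exact Subgroup.map_top_of_surjective _ e.surjective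
  -- general: containment in `rtK`
  have hstep : ∀ (N M : ℕ) (_ : a ^ M ∈ pwK σ hc N) (_ : b ^ M ∈ pwK σ hc N) (_ : c ^ M ∈ pwK σ hc N)
      (_ : d ^ M ∈ pwK σ hc N), ∀ k ∈ σ.ker, ∃ m ∈ σ.ker, k ^ M = m ^ N := by
    intro N M h1 h2 h3 h4
    have hle : rtK σ hc N M ≤ Subgroup.center Γ := fun g hg => hc hg.1
    haveI := normal_of_cen hle
    have hz : ∀ g, g ∈ σ.ker → g ^ M ∈ pwK σ hc N → QuotientGroup.mk' (rtK σ hc N M) g = 1 :=
      fun g hg hg' => (QuotientGroup.eq_one_iff g).2 ⟨hg, hg'⟩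
    have hsr : SR (QuotientGroup.mk' (rtK σ hc N M) x) (QuotientGroup.mk' (rtK σ hc N M) y) :=
      { x7 := by rw [← map_pow, x7, map_one]
        y5 := by rw [← map_pow, y5, map_one]
        r1 := by simp only [← map_mul, ← map_pow, ← map_inv]; rw [ha]; exact hz a ka h1
        r2 := by simp only [← map_mul, ← map_pow, ← map_inv]; rw [hb]; exact hz b kb h2
        r3 := by simp only [← map_mul, ← map_pow]; rw [hcc]; exact hz c kc h3
        r4 := by simp only [← map_mul, ← map_pow]; rw [hd]; exact hz d kd h4 }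
    intro k hk
    obtain ⟨m, hm, hkm⟩ := (ker_le' e hM hx hy (rtK σ hc N M) hsr hk).2
    exact ⟨m, hm, hkm⟩
  -- eighth powers
  haveI n8 : (pwK σ hc 8).Normal := normal_of_cen ((pwK_le hc 8).trans hc)
  haveI n9 : (pwK σ hc 9).Normal := normal_of_cen ((pwK_le hc 9).trans hc)
  obtain ⟨a8, b8, c8, d8⟩ := Q8 (qs_quot (N := 8) hc x7 y5 ha hb hcc hd ka kb kc kd ho)
  obtain ⟨a9, b9, d9, c9⟩ := Q9 (qs_quot (N := 9) hc x7 y5 ha hb hcc hd ka kb kc kd ho)
  have A8 : a ∈ pwK σ hc 8 := (QuotientGroup.eq_one_iff a).1 a8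
  have A9 : a ∈ pwK σ hc 9 := (QuotientGroup.eq_one_iff a).1 a9
  have B9 : b ∈ pwK σ hc 9 := (QuotientGroup.eq_one_iff b).1 b9
  have D9 : d ∈ pwK σ hc 9 := (QuotientGroup.eq_one_iff d).1 d9
  have C8 : c ^ 4 ∈ pwK σ hc 8 := (QuotientGroup.eq_one_iff (c ^ 4)).1 (by
    have : QuotientGroup.mk' (pwK σ hc 8) (c ^ 4) = 1 := by rw [map_pow]; exact c8
    exact this)
  have D8 : d ^ 4 ∈ pwK σ hc 8 := (QuotientGroup.eq_one_iff (d ^ 4)).1 (by
    have : QuotientGroup.mk' (pwK σ hc 8) (d ^ 4) = 1 := by rw [map_pow]; exact d8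
    exact this)
  have C9 : c ^ 3 ∈ pwK σ hc 9 := (QuotientGroup.eq_one_iff (c ^ 3)).1 (by
    have : QuotientGroup.mk' (pwK σ hc 9) (c ^ 3) = 1 := by rw [map_pow]; exact c9
    exact this)
  have B8 : b * (c ^ 2)⁻¹ ∈ pwK σ hc 8 := (QuotientGroup.eq_one_iff (b * (c ^ 2)⁻¹)).1 (by
    have : QuotientGroup.mk' (pwK σ hc 8) (b * (c ^ 2)⁻¹) = 1 := by
      rw [map_mul, map_inv, map_pow, b8, mul_inv_cancel]
    exact this)
  have cbc : Commute b c := (Subgroup.mem_center_iff.1 (hc kb) c).symm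
  have B84 : b ^ 4 ∈ pwK σ hc 8 := by
    have h1 : b ^ 4 = (b * (c ^ 2)⁻¹) ^ 4 * (c ^ 4) ^ 2 := by
      have h2 : Commute b (c ^ 2)⁻¹ := (cbc.pow_right 2).inv_right
      rw [h2.mul_pow]
      group
    rw [h1]
    exact mul_mem (pow_mem B8 4) (pow_mem C8 2)
  have s8 := hstep 8 4 (pow_mem A8 4) B84 C8 D8
  have s9 := hstep 9 3 (pow_mem A9 3) (pow_mem B9 3) C9 (pow_mem D9 3)
  have k12 : ∀ k ∈ σ.ker, k ^ 12 = 1 := by
    intro k hk
    obtain ⟨m1, hm1, h1⟩ := iter_pow (M := 4) (t := 2) σ.ker s8 α k hk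
    obtain ⟨m2, hm2, h2⟩ := iter_pow (M := 3) (t := 3) σ.ker s9 β k hk
    have u1 : (k ^ 12) ^ 3 ^ β = 1 := by
      rw [show 12 = 4 * 3 from rfl, pow_mul, h1, ← pow_mul, ← pow_mul,
        show 4 * 2 ^ α * (3 * 3 ^ β) = (2 ^ α * 3 ^ β) * 12 by ring, pow_mul, hpow m1 hm1, one_pow]
    have u2 : (k ^ 12) ^ 2 ^ α = 1 := by
      rw [show 12 = 3 * 4 from rfl, pow_mul, h2, ← pow_mul, ← pow_mul,
        show 3 * 3 ^ β * (4 * 2 ^ α) = (2 ^ α * 3 ^ β) * 12 by ring, pow_mul, hpow m2 hm2, one_pow]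
    have o1 := orderOf_dvd_of_pow_eq_one u1
    have o2 := orderOf_dvd_of_pow_eq_one u2
    have hcp : Nat.Coprime (3 ^ β) (2 ^ α) := Nat.Coprime.pow β α (by norm_num)
    have o3 := Nat.dvd_gcd o1 o2
    rw [hcp.gcd_eq_one] at o3
    exact orderOf_eq_one_iff.1 (Nat.dvd_one.1 o3)
  have p8 : ∀ g ∈ pwK σ hc 8, g ^ 3 = 1 := by
    rintro _ ⟨k, hk, rfl⟩
    rw [← pow_mul, show 8 * 3 = 12 * 2 from rfl, pow_mul, k12 k hk, one_pow]
  have p9 : ∀ g ∈ pwK σ hc 9, g ^ 4 = 1 := by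
    rintro _ ⟨k, hk, rfl⟩
    rw [← pow_mul, show 9 * 4 = 12 * 3 from rfl, pow_mul, k12 k hk, one_pow]
  have a1 : a = 1 := by
    calc a = a ^ 4 * (a ^ 3)⁻¹ := by group
      _ = 1 := by rw [p9 a A9, p8 a A8, inv_one, mul_one]
  have hb6 : b * c⁻¹ ^ 6 = 1 := by
    have h1 := p8 _ B8
    have h2 : Commute b (c ^ 2)⁻¹ := (cbc.pow_right 2).inv_right
    rw [h2.mul_pow] at h1
    have h3 := p9 b B9
    have h4 := k12 c kc
    have h5 : b ^ 3 = c ^ 6 := by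
      have : b ^ 3 * (c ^ 6)⁻¹ = 1 := by rw [← h1]; group
      exact mul_inv_eq_one.1 this
    calc b * c⁻¹ ^ 6 = b ^ 4 * (b ^ 3)⁻¹ * c⁻¹ ^ 6 := by group
      _ = (c ^ 12)⁻¹ := by rw [h3, h5]; group
      _ = 1 := by rw [h4, inv_one]
  have cc := Subgroup.mem_center_iff.1 (hc kc)
  have cd := Subgroup.mem_center_iff.1 (hc kd)
  have hCR : CR x y c d :=
    { x7 := x7
      y5 := y5
      r1 := by rw [ha, a1]
      r2 := by rw [hb, hb6]
      r3 := by rw [hcc, mul_inv_cancel]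
      r4 := by rw [hd, mul_inv_cancel]
      c12 := k12 c kc
      d4 := p9 d D9
      cx := (cc x).symm
      cy := (cc y).symm
      dx := (cd x).symm
      dy := (cd y).symm
      cd := (cc d).symm }
  refine ⟨c, d, kc, kd, k12 c kc, p9 d D9, ker_le hCR ?_ (hc kc) (hc kd) e hx hy kc kd⟩
  rw [← top_le_iff, ← hM]
  apply Subgroup.closure_mono
  intro g hg
  simp only [Set.mem_insert_iff, Set.mem_singleton_iff] at hg ⊢
  tauto

theorem hasMult {G : Type u} [Group G] (e : S ≃* G) :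
    Cfsg.HasSchurMultiplier G (Multiplicative (ZMod 3 × ZMod 4 × ZMod 4)) := by
  refine ⟨?_, ?_⟩
  · -- existence
    let j : ULift.{u} T ≃* T := MulEquiv.ulift
    let σ : ULift.{u} T →* G := (e.toMonoidHom.comp pr).comp j.toMonoidHom
    have hσ : ∀ t, σ t = e (pr (j t)) := fun t => rfl
    have hk : ∀ t, t ∈ σ.ker ↔ j t ∈ pr.ker := by
      intro t
      rw [MonoidHom.mem_ker, MonoidHom.mem_ker, hσ]
      exact ⟨fun h => e.injective (by rw [h, map_one]), fun h => by rw [h, map_one]⟩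
    refine ⟨ULift.{u} T, inferInstance, inferInstance, σ, ⟨?_, ?_, ?_⟩, ?_⟩
    · intro g
      obtain ⟨t, ht⟩ := pr_stem.1 (e.symm g)
      refine ⟨j.symm t, ?_⟩
      rw [hσ, MulEquiv.apply_symm_apply, ht, MulEquiv.apply_symm_apply]
    · intro t ht
      rw [hk] at ht
      have h := Subgroup.mem_center_iff.1 (pr_stem.2.1 ht)
      rw [Subgroup.mem_center_iff]
      intro s
      apply j.injective
      rw [map_mul, map_mul]
      exact h (j s)
    · intro t ht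
      rw [hk] at ht
      have h := pr_stem.2.2 ht
      have h2 : (commutator T).map j.symm.toMonoidHom ≤ commutator (ULift.{u} T) := by
        rw [commutator_def, Subgroup.map_commutator, commutator_def]
        exact Subgroup.commutator_mono le_top le_top
      apply h2
      exact ⟨j t, h, j.symm_apply_apply t⟩
    · let k : σ.ker ≃* pr.ker :=
        { toFun := fun t => ⟨j t.1, (hk t.1).1 t.2⟩
          invFun := fun t => ⟨j.symm t.1, (hk _).2 (by rw [MulEquiv.apply_symm_apply]; exact t.2)⟩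
          left_inv := fun t => Subtype.ext (j.symm_apply_apply t.1)
          right_inv := fun t => Subtype.ext (j.apply_symm_apply t.1)
          map_mul' := fun s t => Subtype.ext (map_mul j s.1 t.1) }
      obtain ⟨f⟩ := pr_iso
      exact ⟨k.trans f.symm⟩
  · intro Γ _ _ σ hσ
    obtain ⟨c, d, kc, kd, c12, d4, hcl⟩ := ub e hσ
    obtain ⟨π, h1, -⟩ := pi_of kc kd c12 d4 (Subgroup.mem_center_iff.1 (hσ.2.1 kd) c) hcl
    exact ⟨π, h1⟩

end Cfsg.Agent.H4.PlB
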