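import Cfsg.Agent.H4_PlG
import Cfsg.Agent.H13_GF4
import Cfsg.Agent.S0243

/-!
The presented group `S` is PSL₃(4).
-/

set_option autoImplicit false
set_option maxRecDepth 100000

namespace Cfsg.Agent.H4.PlB

open Cfsg.Agent.H8 Cfsg.Agent.H8.CE Cfsg.Agent.H8.CS Cfsg.Agent.H8.Net Cfsg.Agent.H8.Act Cfsg.Agent.H8.Cox
open Cfsg.Agent.H8.Act2 Cfsg.Agent.H4.Ltr
open Cfsg.Agent.H13.GF4 Matrix
open scoped MatrixGroups

universe u v w

/-- explicit matrices -/
def mt (N : ℕ) : Matrix (Fin 3) (Fin 3) GF := Matrix.of fun i j => ofN (N >>> (2 * (3 * i.val + j.val)))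

theorem m_one : mt 65793 = 1 := by decide +kernel
theorem m_w : mt 131586 = (ofN 2) • (1 : Matrix (Fin 3) (Fin 3) GF) := by decide +kernel
theorem det_x : (mt 148947).det = 1 := by rw [Matrix.det_fin_three]; decide +kernel
theorem det_y : (mt 6988).det = 1 := by rw [Matrix.det_fin_three]; decide +kernel

theorem q0 : mt 148947 * mt 148947 = mt 192598 := by decide +kernel
theorem q1 : mt 192598 * mt 192598 = mt 46469 := by decide +kernel
theorem q2 : mt 46469 * mt 192598 = mt 258391 := by decide +kernel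
theorem q3 : mt 258391 * mt 148947 = mt 65793 := by decide +kernel
theorem q4 : mt 6988 * mt 6988 = mt 50523 := by decide +kernel
theorem q5 : mt 50523 * mt 50523 = mt 258192 := by decide +kernel
theorem q6 : mt 258192 * mt 6988 = mt 65793 := by decide +kernel
theorem q7 : mt 148947 * mt 258192 = mt 95055 := by decide +kernel
theorem q8 : mt 95055 * mt 95055 = mt 65793 := by decide +kernel
theorem q9 : mt 258192 * mt 258192 = mt 112703 := by decide +kernel
theorem q10 : mt 148947 * mt 112703 = mt 54385 := by decide +kernel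
theorem q11 : mt 148947 * mt 54385 = mt 98286 := by decide +kernel
theorem q12 : mt 98286 * mt 98286 = mt 201588 := by decide +kernel
theorem q13 : mt 201588 * mt 98286 = mt 65793 := by decide +kernel
theorem q14 : mt 148947 * mt 6988 = mt 194825 := by decide +kernel
theorem q15 : mt 148947 * mt 194825 = mt 70440 := by decide +kernel
theorem q16 : mt 70440 * mt 70440 = mt 234022 := by decide +kernel
theorem q17 : mt 234022 * mt 234022 = mt 54061 := by decide +kernel
theorem q18 : mt 54061 * mt 70440 = mt 131586 := by decide +kernel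
theorem q19 : mt 148947 * mt 50523 = mt 72698 := by decide +kernel
theorem q20 : mt 6988 * mt 72698 = mt 237722 := by decide +kernel
theorem q21 : mt 148947 * mt 237722 = mt 119631 := by decide +kernel
theorem q22 : mt 148947 * mt 119631 = mt 177815 := by decide +kernel
theorem q23 : mt 148947 * mt 177815 = mt 160725 := by decide +kernel
theorem q24 : mt 160725 * mt 160725 = mt 40317 := by decide +kernel
theorem q25 : mt 40317 * mt 160725 = mt 65793 := by decide +kernel

section pw
variable {M : Type*} [Monoid M] {a b c d e i : M}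
theorem pw2 (h1 : a * a = i) : a ^ 2 = i := by rw [pow_two, h1]
theorem pw3 (h1 : a * a = b) (h2 : b * a = i) : a ^ 3 = i := by
  rw [show 3 = 2 + 1 from rfl, pow_succ, pow_two, h1, h2]
theorem pw5 (h1 : a * a = b) (h2 : b * b = c) (h3 : c * a = i) : a ^ 5 = i := by
  rw [show 5 = 2 * 2 + 1 from rfl, pow_succ, pow_mul, pow_two a, h1, pow_two, h2, h3]
theorem pw7 (h1 : a * a = b) (h2 : b * b = c) (h3 : c * b = d) (h4 : d * a = i) : a ^ 7 = i := by
  rw [show 7 = 2 * 3 + 1 from rfl, pow_succ, pow_mul, pow_two a, h1, show 3 = 2 + 1 from rfl, pow_succ, pow_two, h2, h3, h4]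
end pw

section
variable {F : Type u} [Field F]

/-- `g` is given by the explicit matrix `A` -/
def Rp (f : GF ≃+* F) (g : SpecialLinearGroup (Fin 3) F) (A : Matrix (Fin 3) (Fin 3) GF) : Prop :=
  (g.1 : Matrix (Fin 3) (Fin 3) F) = A.map f

theorem Rp.mul {f : GF ≃+* F} {g h : SpecialLinearGroup (Fin 3) F} {A B C : Matrix (Fin 3) (Fin 3) GF} (hg : Rp f g A)
    (hh : Rp f h B) (e : A * B = C) : Rp f (g * h) C := by
  show (g.1 * h.1 : Matrix (Fin 3) (Fin 3) F) = C.map f
  rw [hg, hh, ← e, ← Matrix.map_mul]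

theorem Rp.pow {f : GF ≃+* F} {g : SpecialLinearGroup (Fin 3) F} {A : Matrix (Fin 3) (Fin 3) GF} (hg : Rp f g A) (n : ℕ) :
    Rp f (g ^ n) (A ^ n) := by
  induction n with
  | zero =>
    rw [pow_zero, pow_zero]
    show (1 : Matrix (Fin 3) (Fin 3) F) = (1 : Matrix (Fin 3) (Fin 3) GF).map f
    rw [Matrix.map_one f (map_zero f) (map_one f)]
  | succ n ih => rw [pow_succ, pow_succ]; exact ih.mul hg rfl

theorem Rp.one {f : GF ≃+* F} {g : SpecialLinearGroup (Fin 3) F} (hg : Rp f g 1) : g = 1 := by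
  apply Subtype.ext
  have h : (g.1 : Matrix (Fin 3) (Fin 3) F) = (1 : Matrix (Fin 3) (Fin 3) GF).map f := hg
  rw [Matrix.map_one f (map_zero f) (map_one f)] at h
  exact h

theorem Rp.cen {f : GF ≃+* F} {g : SpecialLinearGroup (Fin 3) F} {w : GF}
    (hg : Rp f g (w • (1 : Matrix (Fin 3) (Fin 3) GF))) : g ∈ Subgroup.center (SpecialLinearGroup (Fin 3) F) := by
  have h : (g.1 : Matrix (Fin 3) (Fin 3) F) = (f w) • (1 : Matrix (Fin 3) (Fin 3) F) := by
    have h1 : (g.1 : Matrix (Fin 3) (Fin 3) F) = (w • (1 : Matrix (Fin 3) (Fin 3) GF)).map f := hg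
    rw [h1]
    ext i j
    simp [Matrix.map_apply, Matrix.smul_apply, Matrix.one_apply, apply_ite f]
  rw [Subgroup.mem_center_iff]
  intro k
  apply Subtype.ext
  show (k.1 * g.1 : Matrix (Fin 3) (Fin 3) F) = g.1 * k.1
  rw [h]
  simp

theorem exists_sr (f : GF ≃+* F) : ∃ x y : SpecialLinearGroup (Fin 3) F ⧸ Subgroup.center (SpecialLinearGroup (Fin 3) F),
    SR x y ∧ x ≠ 1 := by
  have hdet : ∀ N, (mt N).det = 1 → ((mt N).map f).det = 1 := by
    intro N hN
    have h1 := RingHom.map_det (f : GF →+* F) (mt N)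
    rw [hN, map_one] at h1
    exact h1.symm
  let x : SpecialLinearGroup (Fin 3) F := ⟨(mt 148947).map f, hdet _ det_x⟩
  let y : SpecialLinearGroup (Fin 3) F := ⟨(mt 6988).map f, hdet _ det_y⟩
  have hx : Rp f x (mt 148947) := rfl
  have hy : Rp f y (mt 6988) := rfl
  have x7 : x ^ 7 = 1 := by
    have h1 := hx.pow 7
    rw [pw7 q0 q1 q2 (q3.trans m_one)] at h1
    exact h1.one
  have y5 : y ^ 5 = 1 := by
    have h1 := hy.pow 5
    rw [pw5 q4 q5 (q6.trans m_one)] at h1
    exact h1.one
  have hyy := hy.mul hy q4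
  have hY : Rp f y⁻¹ (mt 258192) := by
    have e : y⁻¹ = (y * y) * (y * y) := by
      rw [inv_eq_iff_mul_eq_one, ← y5]
      simp only [pow_succ, pow_zero, one_mul, mul_assoc]
    rw [e]
    exact hyy.mul hyy q5
  have r1 : (x * y⁻¹) ^ 2 = 1 := by
    have h1 := (hx.mul hY q7).pow 2
    rw [pw2 (q8.trans m_one)] at h1
    exact h1.one
  have r2 : (x * (x * (y⁻¹ * y⁻¹))) ^ 3 = 1 := by
    have h1 := (hx.mul (hx.mul (hY.mul hY q9) q10) q11).pow 3
    rw [pw3 q12 (q13.trans m_one)] at h1
    exact h1.one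
  have r3 : (x * (x * y)) ^ 5 ∈ Subgroup.center (SpecialLinearGroup (Fin 3) F) := by
    have h1 := (hx.mul (hx.mul hy q14) q15).pow 5
    rw [pw5 q16 q17 (q18.trans m_w)] at h1
    exact h1.cen
  have r4 : (x * (x * (x * (y * (x * (y * y)))))) ^ 3 = 1 := by
    have h1 := (hx.mul (hx.mul (hx.mul (hy.mul (hx.mul hyy q19) q20) q21) q22) q23).pow 3
    rw [pw3 q24 (q25.trans m_one)] at h1
    exact h1.one
  let mk := QuotientGroup.mk' (Subgroup.center (SpecialLinearGroup (Fin 3) F))
  refine ⟨mk x, mk y, ⟨?_, ?_, ?_, ?_, ?_, ?_⟩, ?_⟩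
  · rw [← map_pow, x7, map_one]
  · rw [← map_pow, y5, map_one]
  · simp only [← map_mul, ← map_pow, ← map_inv]; rw [r1, map_one]
  · simp only [← map_mul, ← map_pow, ← map_inv]; rw [r2, map_one]
  · simp only [← map_mul, ← map_pow]; exact (QuotientGroup.eq_one_iff _).2 r3
  · simp only [← map_mul, ← map_pow]; rw [r4, map_one]
  · intro h1
    have h2 : x ∈ Subgroup.center (SpecialLinearGroup (Fin 3) F) := (QuotientGroup.eq_one_iff _).1 h1
    have h3 := Subgroup.mem_center_iff.1 h2 y
    have h4 : (mt 6988 * mt 148947).map f = (mt 148947 * mt 6988).map f := by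
      rw [Matrix.map_mul, Matrix.map_mul]
      exact congrArg Subtype.val h3
    have h5 : mt 6988 * mt 148947 = mt 148947 * mt 6988 := by
      ext i j
      have := congrFun (congrFun h4 i) j
      simp only [Matrix.map_apply] at this
      exact f.injective this
    exact absurd h5 (by decide +kernel)

theorem exists_e [Fintype F] (hF : Fintype.card F = 4) : Nonempty (S ≃* Matrix.ProjectiveSpecialLinearGroup (Fin 3) F) := by
  have hc : Fintype.card GF = Fintype.card F := by rw [card_GF, hF]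
  let f : GF ≃+* F := FiniteField.ringEquivOfCardEq hc
  obtain ⟨x, y, hsr, hne⟩ := exists_sr f
  obtain ⟨Φ, hΦ⟩ := lift_ok (lS_ok hsr)
  have hker : Φ.ker = ⊥ := by
    haveI := simpleS
    rcases IsSimpleGroup.eq_bot_or_eq_top_of_normal Φ.ker inferInstance with h | h
    · exact h
    · exfalso
      have h1 : Φ (xg PlS.ic 4 PlS.rels 1) = 1 := by
        have : xg PlS.ic 4 PlS.rels 1 ∈ Φ.ker := by rw [h]; exact Subgroup.mem_top _
        exact this
      rw [hΦ] at h1
      exact hne h1
  have hinj : Function.Injective Φ := (MonoidHom.ker_eq_bot_iff Φ).1 hker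
  have hcs : Nat.card (Matrix.ProjectiveSpecialLinearGroup (Fin 3) F) = 20160 := by
    have h1 := Cfsg.Agent.S0243.result hF 3 (by norm_num)
    have h2 : Nat.gcd 3 (4 - 1) * ((4 - 1) * Nat.card (Matrix.ProjectiveSpecialLinearGroup (Fin 3) F)) = 181440 := by
      rw [h1]; decide
    norm_num at h2
    omega
  haveI : Finite (Matrix.ProjectiveSpecialLinearGroup (Fin 3) F) := Nat.finite_of_card_ne_zero (by rw [hcs]; decide)
  have hle : Nat.card (Matrix.ProjectiveSpecialLinearGroup (Fin 3) F) ≤ Nat.card S := by rw [cardS_eq, hcs]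
  exact ⟨MulEquiv.ofBijective Φ (hinj.bijective_of_nat_card_le hle)⟩

end

end Cfsg.Agent.H4.PlB
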