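import Cfsg.Agent.H4_Ltr

/-!
Relators for PSL₃(4) and its Schur cover.
-/

set_option autoImplicit false
set_option maxRecDepth 100000

namespace Cfsg.Agent.H4.PlS

open Cfsg.Agent.H8 Cfsg.Agent.H8.CE Cfsg.Agent.H8.Net Cfsg.Agent.H8.Act Cfsg.Agent.H8.Cox

/-- inverse letters: `x = 1`, `x⁻¹ = 2`, `y = 3`, `y⁻¹ = 4` -/
def ic : ℕ := 0x34120

/-- relators of PSL₃(4) -/
def rels : List (List ℕ) :=
  [powW [1] 7, powW [3] 5, powW [1, 4] 2, powW [1, 1, 4, 4] 3, powW [1, 1, 3] 5, powW [1, 1, 1, 3, 1, 3, 3] 3]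

end Cfsg.Agent.H4.PlS

namespace Cfsg.Agent.H4.PlT

open Cfsg.Agent.H8 Cfsg.Agent.H8.CE Cfsg.Agent.H8.Net Cfsg.Agent.H8.Act Cfsg.Agent.H8.Cox

/-- inverse letters: `x = 1`, `y = 3`, `c = 5`, `d = 7`, inverses `2, 4, 6, 8` -/
def ic : ℕ := 0x785634120

/-- relators of the cover of PSL₃(4) -/
def rels : List (List ℕ) :=
  [powW [1] 7, powW [3] 5, powW [1, 4] 2, powW [1, 1, 4, 4] 3 ++ powW [6] 6, powW [1, 1, 3] 5 ++ [6],
    powW [1, 1, 1, 3, 1, 3, 3] 3 ++ [8], [5, 1, 6, 2], [5, 3, 6, 4], [7, 1, 8, 2], [7, 3, 8, 4], [5, 7, 6, 8],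
    powW [5] 12, powW [7] 4]

/-- three quotients -/
def rels1 : List (List ℕ) := rels ++ [powW [5] 4, [7]]
def rels2 : List (List ℕ) := rels ++ [[5]]
def rels3 : List (List ℕ) := rels ++ [powW [5] 3, [7]]

end Cfsg.Agent.H4.PlT
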