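import Mathlib
import Cfsg.Agent.H4_QuatG

set_option autoImplicit false

/-! Local structure around the commutator subgroup of a quaternion Sylow 2-subgroup. -/

namespace Cfsg.Agent.H4.QuatG

open Cfsg Cfsg.Agent.H4.Inv Cfsg.Agent.H4.Iso QuaternionGroup Cfsg.Agent.H4.QuatData
open scoped commutatorElement

universe u

/-- the commutator subgroup of `S` -/
theorem commutator_eq {G : Type u} [Group G] [Finite G] (S : Sylow 2 G) {n : ℕ} {c b z : G}
    (hcS : c ∈ S) (hbS : b ∈ S) (hbc : b * c * b⁻¹ = c⁻¹) (hbb : b * b = z) (hcz : c ^ (2 ^ n) = z)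
    (hall : ∀ s ∈ S, s ∈ Subgroup.zpowers c ∨ ∃ t ∈ Subgroup.zpowers c, s = b * t) (hn : 1 ≤ n) :
    ⁅(S : Subgroup G), (S : Subgroup G)⁆ = Subgroup.zpowers (c ^ 2) := by
  apply le_antisymm
  · rw [Subgroup.commutator_le]
    have hconj : ∀ t ∈ Subgroup.zpowers c, b * t * b⁻¹ = t⁻¹ := by
      intro t ht
      obtain ⟨i, rfl⟩ := Subgroup.mem_zpowers_iff.mp ht
      rw [← conj_zpow, hbc, inv_zpow]
    have hsq : ∀ t ∈ Subgroup.zpowers c, t * t ∈ Subgroup.zpowers (c ^ 2) := by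
      intro t ht
      obtain ⟨i, rfl⟩ := Subgroup.mem_zpowers_iff.mp ht
      refine Subgroup.mem_zpowers_iff.mpr ⟨i, ?_⟩
      rw [← zpow_natCast, ← zpow_mul, ← zpow_add]
      congr 1; push_cast; ring
    have hcomm : ∀ s ∈ Subgroup.zpowers c, ∀ t ∈ Subgroup.zpowers c, s * t = t * s := by
      intro s hs t ht
      obtain ⟨i, rfl⟩ := Subgroup.mem_zpowers_iff.mp hs
      obtain ⟨j, rfl⟩ := Subgroup.mem_zpowers_iff.mp ht
      exact ((Commute.refl c).zpow_zpow i j).eq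
    have hb' : ∀ t ∈ Subgroup.zpowers c, b * t = t⁻¹ * b := fun t ht => by
      rw [← hconj t ht]; group
    intro s hs t ht
    rw [commutatorElement_def]
    rcases hall s hs with h1 | ⟨s', h1, rfl⟩ <;> rcases hall t ht with h2 | ⟨t', h2, rfl⟩
    · have : s * t * s⁻¹ * t⁻¹ = 1 := by rw [hcomm s h1 t h2]; group
      rw [this]; exact one_mem _
    · -- s b t' s⁻¹ t'⁻¹ b⁻¹ = s s
      have h3 : s * (b * t') * s⁻¹ * (b * t')⁻¹ = s * s := by
        have e1 : t' * s⁻¹ * t'⁻¹ = s⁻¹ := by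
          rw [hcomm t' h2 s⁻¹ (Subgroup.inv_mem _ h1)]; group
        have e2 := hconj s⁻¹ (Subgroup.inv_mem _ h1)
        rw [inv_inv] at e2
        calc s * (b * t') * s⁻¹ * (b * t')⁻¹ = s * (b * (t' * s⁻¹ * t'⁻¹) * b⁻¹) := by group
          _ = s * s := by rw [e1, e2]
      rw [h3]; exact hsq s h1
    · have h3 : (b * s') * t * (b * s')⁻¹ * t⁻¹ = t⁻¹ * t⁻¹ := by
        have e1 : s' * t * s'⁻¹ = t := by
          rw [hcomm s' h1 t h2]; group
        calc (b * s') * t * (b * s')⁻¹ * t⁻¹ = (b * (s' * t * s'⁻¹) * b⁻¹) * t⁻¹ := by group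
          _ = _ := by rw [e1, hconj t h2]
      rw [h3]; exact hsq _ (Subgroup.inv_mem _ h2)
    · -- b s' b t' s'⁻¹ b⁻¹ t'⁻¹ b⁻¹
      have h3 : (b * s') * (b * t') * (b * s')⁻¹ * (b * t')⁻¹ = s'⁻¹ * t' * (s'⁻¹ * t') := by
        have e1 : b * (t'⁻¹ * s') * b⁻¹ = s'⁻¹ * t' := by
          rw [hconj _ (Subgroup.mul_mem _ (Subgroup.inv_mem _ h2) h1)]; group
        have e2 : b * s' * b = s'⁻¹ * (b * b) := by rw [hb' s' h1]; group
        have e3 : b * (t' * s'⁻¹) * b⁻¹ = s' * t'⁻¹ := by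
          rw [hconj _ (Subgroup.mul_mem _ h2 (Subgroup.inv_mem _ h1))]; group
        have e4 : Commute (b * b) s' := by
          have h5 : b * b * s' = s' * (b * b) := by
            calc b * b * s' = b * (b * s') := by group
              _ = b * (s'⁻¹ * b) := by rw [hb' s' h1]
              _ = (b * s'⁻¹) * b := by group
              _ = (s'⁻¹⁻¹ * b) * b := by rw [hb' s'⁻¹ (Subgroup.inv_mem _ h1)]
              _ = s' * (b * b) := by group
          exact h5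
        calc (b * s') * (b * t') * (b * s')⁻¹ * (b * t')⁻¹
            = (b * s' * b) * (t' * s'⁻¹) * b⁻¹ * t'⁻¹ * b⁻¹ := by group
          _ = s'⁻¹ * (b * (b * (t' * s'⁻¹) * b⁻¹) * t'⁻¹ * b⁻¹) := by rw [e2]; group
          _ = s'⁻¹ * (b * (s' * t'⁻¹ * t'⁻¹) * b⁻¹) := by rw [e3]; group
          _ = s'⁻¹ * (s' * t'⁻¹ * t'⁻¹)⁻¹ := by
            rw [hconj _ (Subgroup.mul_mem _ (Subgroup.mul_mem _ h1 (Subgroup.inv_mem _ h2)) (Subgroup.inv_mem _ h2))]
          _ = s'⁻¹ * (t' * (t' * s'⁻¹)) := by simp only [mul_inv_rev, inv_inv, mul_assoc]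
          _ = s'⁻¹ * (t' * (s'⁻¹ * t')) := by rw [hcomm t' h2 s'⁻¹ (Subgroup.inv_mem _ h1)]
          _ = s'⁻¹ * t' * (s'⁻¹ * t') := by simp only [mul_assoc]
      rw [h3]
      exact hsq _ (Subgroup.mul_mem _ (Subgroup.inv_mem _ h1) h2)
  · rw [Subgroup.zpowers_le]
    have h2 : c ^ 2 = ⁅c, b⁆ := by
      rw [commutatorElement_def]
      have : b * c⁻¹ * b⁻¹ = c := by
        calc b * c⁻¹ * b⁻¹ = (b * c * b⁻¹)⁻¹ := by group
          _ = c := by rw [hbc, inv_inv]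
      calc c ^ 2 = c * c := pow_two c
        _ = c * (b * c⁻¹ * b⁻¹) := by rw [this]
        _ = c * b * c⁻¹ * b⁻¹ := by group
    rw [h2]
    exact Subgroup.commutator_mem_commutator hcS hbS

end Cfsg.Agent.H4.QuatG
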