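import Mathlib
import Cfsg.Agent.H4_QuatG2

set_option autoImplicit false

/-! Local structure around the commutator subgroup of a quaternion Sylow 2-subgroup, II. -/

namespace Cfsg.Agent.H4.QuatG

open Cfsg Cfsg.Agent.H4.Inv Cfsg.Agent.H4.Iso QuaternionGroup Cfsg.Agent.H4.QuatData

universe u

theorem normalizer_le_normalizer_centralizer {G : Type u} [Group G] (D : Subgroup G) :
    Subgroup.normalizer (D : Set G) ≤
      Subgroup.normalizer ((Subgroup.centralizer (D : Set G) : Subgroup G) : Set G) := by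
  intro g hg
  have key : ∀ g ∈ Subgroup.normalizer (D : Set G), ∀ x ∈ Subgroup.centralizer (D : Set G),
      g * x * g⁻¹ ∈ Subgroup.centralizer (D : Set G) := by
    intro g hg x hx
    rw [Subgroup.mem_centralizer_iff] at hx ⊢
    intro d hd
    have h1 : g⁻¹ * d * g ∈ D := by
      have := (Subgroup.mem_normalizer_iff.mp (Subgroup.inv_mem _ hg) d).mp hd
      rwa [inv_inv] at this
    have h2 := hx _ h1
    calc d * (g * x * g⁻¹) = g * ((g⁻¹ * d * g) * x) * g⁻¹ := by group
      _ = g * (x * (g⁻¹ * d * g)) * g⁻¹ := by rw [h2]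
      _ = g * x * g⁻¹ * d := by group
  rw [Subgroup.mem_normalizer_iff]
  intro x
  refine ⟨fun hx => key g hg x hx, fun hx => ?_⟩
  have := key g⁻¹ (Subgroup.inv_mem _ hg) _ hx
  have e : g⁻¹ * (g * x * g⁻¹) * g⁻¹⁻¹ = x := by group
  rwa [e] at this

variable {G : Type u} [Group G] [Finite G]

/-- centralizer of `D = ⟨c²⟩` inside the centralizer of `y` -/
theorem cent_le {n : ℕ} (hn : 2 ≤ n) (c : G) : Subgroup.centralizer ((Subgroup.zpowers (c ^ 2) : Subgroup G) : Set G) ≤
    Subgroup.centralizer ({c ^ (2 ^ (n - 1))} : Set G) := by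
  intro x hx
  rw [Subgroup.mem_centralizer_iff] at hx
  rw [Subgroup.mem_centralizer_singleton_iff]
  have h1 : c ^ (2 ^ (n - 1)) ∈ Subgroup.zpowers (c ^ 2) := by
    have : c ^ (2 ^ (n - 1)) = (c ^ 2) ^ (2 ^ (n - 2)) := by
      rw [← pow_mul]; congr 1
      rw [← pow_succ']; congr 1; omega
    rw [this]
    exact Subgroup.pow_mem _ (Subgroup.mem_zpowers _) _
  exact (hx _ h1).symm


omit [Finite G] in
theorem pPrimeCore_char (C : Subgroup G) [Finite C] : (pPrimeCore 2 C).Characteristic := by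
  rw [Subgroup.characteristic_iff_map_eq]
  intro φ
  exact Cfsg.Agent.H11.Cores.map_equiv_pPrimeCore 2 φ

theorem index_two_aux (S : Sylow 2 G) {n : ℕ} (hn : 2 ≤ n)
    (hSc : Nat.card (S : Subgroup G) = 2 * 2 ^ (n + 1))
    (C N : Subgroup G) (hCN : C ≤ N) (hSN : (S : Subgroup G) ≤ N) (T : Subgroup C)
    (hTcard : Nat.card T = 2 ^ (n + 1)) (hidxC : ¬ 2 ∣ T.index)
    (h1 : (C.subgroupOf N).index ∣ 2 ^ (n - 1)) : (C.subgroupOf N).index = 2 := by
  obtain ⟨k, hk, hk2⟩ := (Nat.dvd_prime_pow Nat.prime_two).mp h1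
  have e1 : Nat.card N = Nat.card C * 2 ^ k := by
    have h2 := (C.subgroupOf N).card_mul_index
    rw [hk2, Nat.card_congr (Subgroup.subgroupOfEquivOfLe hCN).toEquiv] at h2
    exact h2.symm
  have e2 : Nat.card C = 2 ^ (n + 1) * T.index := by
    have := T.card_mul_index
    rw [hTcard] at this
    exact this.symm
  have e3 : Nat.card N = 2 * 2 ^ (n + 1) * ((S : Subgroup G).subgroupOf N).index := by
    have h2 := ((S : Subgroup G).subgroupOf N).card_mul_index
    rw [Nat.card_congr (Subgroup.subgroupOfEquivOfLe hSN).toEquiv, hSc] at h2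
    exact h2.symm
  have h3 : ¬ 2 ∣ ((S : Subgroup G).subgroupOf N).index := by
    intro h4
    have h5 : ((S : Subgroup G).subgroupOf N).index ∣ (S : Subgroup G).index :=
      Subgroup.relIndex_dvd_index_of_le hSN
    have hf : Fact (Nat.Prime 2) := ⟨Nat.prime_two⟩
    exact S.not_dvd_index (h4.trans h5)
  have e4 : T.index * 2 ^ k = 2 * ((S : Subgroup G).subgroupOf N).index := by
    rw [e2] at e1
    rw [e1] at e3
    have hpos : 0 < 2 ^ (n + 1) := by positivity
    apply Nat.eq_of_mul_eq_mul_left hpos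
    linarith
  rw [hk2]
  rcases k with _ | _ | k
  · exfalso
    rw [pow_zero, mul_one] at e4
    exact hidxC ⟨_, e4⟩
  · norm_num
  · exfalso
    apply h3
    rw [pow_succ, pow_succ] at e4
    exact ⟨T.index * 2 ^ k, by linarith⟩

theorem complement_aux (C : Subgroup G) {n : ℕ} {c : G} (hord : orderOf c = 2 ^ (n + 1)) (hcC : c ∈ C)
    (hidxC : ¬ 2 ∣ ((Subgroup.zpowers c).subgroupOf C).index) :
    ∀ x ∈ C, ∃ k ∈ (pPrimeCore 2 C).map C.subtype, ∃ t ∈ Subgroup.zpowers c, x = k * t := by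
  have hf : Fact (Nat.Prime 2) := ⟨Nat.prime_two⟩
  have hTC : Subgroup.zpowers c ≤ C := by
    rw [Subgroup.zpowers_le]; exact hcC
  have hTcard : Nat.card ((Subgroup.zpowers c).subgroupOf C) = 2 ^ (n + 1) := by
    rw [Nat.card_congr (Subgroup.subgroupOfEquivOfLe hTC).toEquiv, Nat.card_zpowers, hord]
  have hTp : IsPGroup 2 ((Subgroup.zpowers c).subgroupOf C) := IsPGroup.of_card hTcard
  let P : Sylow 2 C := hTp.toSylow hidxC
  let c0 : C := ⟨c, hcC⟩
  have hc0P : c0 ∈ (P : Subgroup C) := by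
    change c0 ∈ (Subgroup.zpowers c).subgroupOf C
    rw [Subgroup.mem_subgroupOf]; exact Subgroup.mem_zpowers c
  let c1 : (P : Subgroup C) := ⟨c0, hc0P⟩
  have hgen : ∀ x : (P : Subgroup C), x ∈ Subgroup.zpowers c1 := by
    intro x
    have h1 : ((x : C) : G) ∈ Subgroup.zpowers c := x.2
    obtain ⟨i, hi⟩ := Subgroup.mem_zpowers_iff.mp h1
    refine Subgroup.mem_zpowers_iff.mpr ⟨i, ?_⟩
    apply Subtype.ext
    apply Subtype.ext
    simp only [Subgroup.coe_zpow]
    exact hi
  have hPcyc : IsCyclic (P : Subgroup C) := ⟨c1, hgen⟩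
  have h2C : 2 ∣ Nat.card C := by
    have h1 : Nat.card ((Subgroup.zpowers c).subgroupOf C) ∣ Nat.card C := Subgroup.card_subgroup_dvd_card _
    rw [hTcard, pow_succ] at h1
    exact (Dvd.intro_left _ rfl).trans h1
  have hmin : (Nat.card C).minFac = 2 := by
    rw [Nat.minFac_eq_two_iff]; exact h2C
  have hnc := hPcyc.normalizer_le_centralizer hmin
  have hcompl := MonoidHom.ker_transferSylow_isComplement' P hnc
  have hidxodd : Odd (P : Subgroup C).index := by
    rw [← Nat.not_even_iff_odd, even_iff_two_dvd]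
    exact hidxC
  have hkercard : (Nat.card (MonoidHom.transferSylow P hnc).ker).Coprime 2 := by
    have h2 : (P : Subgroup C).index = Nat.card (MonoidHom.transferSylow P hnc).ker := hcompl.index_eq_card
    rw [← h2]
    exact Nat.coprime_two_right.mpr hidxodd
  have hker : (MonoidHom.transferSylow P hnc).ker ≤ pPrimeCore 2 C :=
    Cfsg.Agent.H11.Cores.le_pPrimeCore 2 hkercard
  intro x hx
  obtain ⟨⟨κ0, t⟩, h⟩ := hcompl.2 (⟨x, hx⟩ : C)
  simp only at h
  refine ⟨((κ0 : C) : G), ⟨_, hker κ0.2, rfl⟩, ((t : C) : G), t.2, ?_⟩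
  have := congrArg (fun x : C => (x : G)) h
  exact this.symm

theorem structC (S : Sylow 2 G) {n : ℕ} (hn : 2 ≤ n) (e : (S : Subgroup G) ≃* QuaternionGroup (2 ^ n))
    {c b : G} (hcS : c ∈ S) (hbS : b ∈ S) (hord : orderOf c = 2 ^ (n + 1)) (hbc : b * c * b⁻¹ = c⁻¹)
    (hall : ∀ s ∈ S, s ∈ Subgroup.zpowers c ∨ ∃ t ∈ Subgroup.zpowers c, s = b * t)
    (hbb : b ∉ Subgroup.zpowers c) (D : Subgroup G) (hD : D = Subgroup.zpowers (c ^ 2)) (C : Subgroup G)
    (hC : C = Subgroup.centralizer (D : Set G)) :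
    ∃ K : Subgroup G, Odd (Nat.card K) ∧ K ≤ C ∧
      Subgroup.normalizer (D : Set G) ≤ Subgroup.normalizer (K : Set G) ∧
      (∀ x ∈ C, ∃ k ∈ K, ∃ t ∈ Subgroup.zpowers c, x = k * t) ∧
      (S : Subgroup G) ⊓ C = Subgroup.zpowers c ∧
      (C.subgroupOf (Subgroup.normalizer (D : Set G))).index = 2 ∧
      (S : Subgroup G) ≤ Subgroup.normalizer (D : Set G) := by
  have hf : Fact (Nat.Prime 2) := ⟨Nat.prime_two⟩
  have hcC : c ∈ C := by
    rw [hC, Subgroup.mem_centralizer_iff]
    intro d hd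
    rw [hD] at hd
    obtain ⟨i, rfl⟩ := Subgroup.mem_zpowers_iff.mp hd
    exact (((Commute.refl c).pow_left 2).zpow_left i).eq
  have hTC : Subgroup.zpowers c ≤ C := by
    rw [Subgroup.zpowers_le]; exact hcC
  have hc4 : c ^ 4 ≠ 1 := by
    intro h
    have h1 := orderOf_dvd_of_pow_eq_one h
    rw [hord] at h1
    have h2 : 2 ^ 3 ∣ 4 := (Nat.pow_dvd_pow 2 (by omega : 3 ≤ n + 1)).trans h1
    norm_num at h2
  have hbC : b ∉ C := by
    intro h
    rw [hC, Subgroup.mem_centralizer_iff] at h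
    have h1 := h (c ^ 2) (by rw [hD]; exact Subgroup.mem_zpowers _)
    have h2 : b * c ^ 2 * b⁻¹ = (c ^ 2)⁻¹ := by rw [← conj_pow, hbc, inv_pow]
    have h3 : b * c ^ 2 * b⁻¹ = c ^ 2 := by rw [← h1]; group
    rw [h3] at h2
    apply hc4
    have : c ^ 4 = c ^ 2 * c ^ 2 := by rw [← pow_add]
    rw [this]
    nth_rewrite 1 [h2]
    exact inv_mul_cancel _
  -- index of T in C is odd
  have hidxC : ¬ 2 ∣ ((Subgroup.zpowers c).subgroupOf C).index := by
    have h1 := index_odd S (by omega) e hord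
    intro h2
    apply h1
    have h3 : (Subgroup.zpowers c).relIndex C ∣ (Subgroup.zpowers c).relIndex
        (Subgroup.centralizer ({c ^ (2 ^ (n - 1))} : Set G)) := by
      have hle : C ≤ Subgroup.centralizer ({c ^ (2 ^ (n - 1))} : Set G) := by
        rw [hC, hD]; exact cent_le hn c
      rw [← Subgroup.relIndex_mul_relIndex _ _ _ hTC hle]
      exact Dvd.intro _ rfl
    exact h2.trans h3
  have hTcard : Nat.card ((Subgroup.zpowers c).subgroupOf C) = 2 ^ (n + 1) := by
    rw [Nat.card_congr (Subgroup.subgroupOfEquivOfLe hTC).toEquiv, Nat.card_zpowers, hord]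
  have hSN : (S : Subgroup G) ≤ Subgroup.normalizer (D : Set G) := by
    intro s hs
    apply Cfsg.Agent.H4.Util.mem_normalizer_of_forall
    intro y hy
    rw [hD] at hy ⊢
    obtain ⟨i, rfl⟩ := Subgroup.mem_zpowers_iff.mp hy
    rcases hall s hs with h1 | ⟨t, h1, rfl⟩
    · obtain ⟨j, rfl⟩ := Subgroup.mem_zpowers_iff.mp h1
      have : c ^ j * (c ^ 2) ^ i * (c ^ j)⁻¹ = (c ^ 2) ^ i := by
        have h2 : Commute (c ^ j) ((c ^ 2) ^ i) :=
          ((((Commute.refl c).zpow_left j).pow_right 2)).zpow_right i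
        rw [h2.eq]; group
      rw [this]; exact hy
    · obtain ⟨j, rfl⟩ := Subgroup.mem_zpowers_iff.mp h1
      have h2 : Commute (c ^ j) ((c ^ 2) ^ i) :=
        ((((Commute.refl c).zpow_left j).pow_right 2)).zpow_right i
      have h3 : b * c ^ j * (c ^ 2) ^ i * (b * c ^ j)⁻¹ = ((c ^ 2) ^ i)⁻¹ := by
        have h5 : b * (c ^ 2) ^ i * b⁻¹ = ((c ^ 2) ^ i)⁻¹ := by
          rw [← conj_zpow, ← conj_pow, hbc, inv_pow, inv_zpow]
        calc b * c ^ j * (c ^ 2) ^ i * (b * c ^ j)⁻¹ = b * (c ^ j * (c ^ 2) ^ i) * (c ^ j)⁻¹ * b⁻¹ := by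
              group
          _ = b * ((c ^ 2) ^ i * c ^ j) * (c ^ j)⁻¹ * b⁻¹ := by rw [h2.eq]
          _ = b * (c ^ 2) ^ i * b⁻¹ := by group
          _ = _ := h5
      rw [h3]; exact Subgroup.inv_mem _ hy
  have hinter : (S : Subgroup G) ⊓ C = Subgroup.zpowers c := by
    apply le_antisymm
    · rintro s ⟨hs, hsC⟩
      rcases hall s hs with h1 | ⟨t, h1, rfl⟩
      · exact h1
      · exfalso; apply hbC
        have : b = (b * t) * t⁻¹ := by group
        rw [this]
        exact C.mul_mem hsC (C.inv_mem (hTC h1))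
    · exact le_inf (by rw [Subgroup.zpowers_le]; exact hcS) hTC
  have hDcard : Nat.card D = 2 ^ n := by
    rw [hD, Nat.card_zpowers, orderOf_pow_of_dvd (by norm_num) (by rw [hord, pow_succ]; exact Dvd.intro_left _ rfl),
      hord, pow_succ, Nat.mul_div_cancel _ (by norm_num)]
  have hindex : (C.subgroupOf (Subgroup.normalizer (D : Set G))).index = 2 := by
    -- power of two
    have hDcyc : IsCyclic D := by
      rw [hD]; infer_instance
    have h1 : (C.subgroupOf (Subgroup.normalizer (D : Set G))).index ∣ 2 ^ (n - 1) := by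
      have key := Subgroup.card_dvd_of_injective _ (QuotientGroup.kerLift_injective D.normalizerMonoidHom)
      rw [Subgroup.normalizerMonoidHom_ker, ← hC, ← Subgroup.index, IsCyclic.card_mulAut, hDcard,
        Nat.totient_prime_pow Nat.prime_two (by omega)] at key
      simpa using key
    refine index_two_aux S hn ?_ C _ (by rw [hC]; exact Subgroup.centralizer_le_normalizer _) hSN
      ((Subgroup.zpowers c).subgroupOf C) hTcard hidxC h1
    haveI : NeZero (2 ^ n) := ⟨by positivity⟩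
    rw [Nat.card_congr e.toEquiv, Nat.card_eq_fintype_card, QuaternionGroup.card, pow_succ]
    ring
  refine ⟨(pPrimeCore 2 C).map C.subtype, ?_, ?_, ?_, ?_, hinter, hindex, hSN⟩
  · rw [Subgroup.card_map_of_injective C.subtype_injective]
    exact Nat.coprime_two_right.mp (Cfsg.Agent.H11.Cores.pPrimeCore_coprime 2)
  · exact Subgroup.map_subtype_le _
  · haveI hchar : (pPrimeCore 2 C).Characteristic := pPrimeCore_char C
    have h9 := normalizer_le_normalizer_centralizer D
    rw [← hC] at h9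
    exact h9.trans
      (Cfsg.Agent.H11.Cores.le_normalizer_map_subtype_of_characteristic C (pPrimeCore 2 C))
  · exact complement_aux C hord hcC hidxC

end Cfsg.Agent.H4.QuatG
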