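import Cfsg.Agent.H4_SzA
import Cfsg.Agent.H4_SzP
import Cfsg.Agent.H4_SzQ
import Cfsg.Agent.H4_SzSb
import Cfsg.Agent.H4_Stem
import Cfsg.Prelude.Def_KGroupFacts

/-!
Sz(8) and its Schur cover, presented.
-/

set_option autoImplicit false
set_option maxRecDepth 100000

namespace Cfsg.Agent.H4.SzB

open Cfsg.Agent.H8 Cfsg.Agent.H8.CE Cfsg.Agent.H8.CS Cfsg.Agent.H8.Net Cfsg.Agent.H8.Act Cfsg.Agent.H8.Cox
open Cfsg.Agent.H8.Act2 Cfsg.Agent.H4.Ltr

universe u v w

/-- letters of the cover -/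
def lT {Γ : Type u} [Group Γ] (t y z w : Γ) : ℕ → Γ
  | 1 => t
  | 2 => y
  | 3 => y⁻¹
  | 4 => z
  | 5 => w
  | _ => 1

/-- the relations of the cover -/
structure CR {Γ : Type u} [Group Γ] (t y z w : Γ) : Prop where
  t2 : t * t = 1
  z2 : z * z = 1
  w2 : w * w = 1
  y5 : y ^ 5 = 1
  x13 : (t * y) ^ 13 = 1
  r3 : (t * (y * y)) ^ 4 = 1
  r4 : (t * (y * (t * (y * y)))) ^ 7 * z = 1
  r5 : (t * (y * (t * (y⁻¹ * (t * (y * y)))))) ^ 5 * w = 1
  zt : z * t = t * z
  wt : w * t = t * w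
  zy : z * y = y * z
  wy : w * y = y * w
  zw : z * w = w * z

/-- the word for `g` -/
def gw {Γ : Type u} [Group Γ] (t y : Γ) : Γ := y * (t * (y * (t * (y⁻¹ * (t * (y⁻¹ * y⁻¹))))))

/-- letters of the quotient -/
def lS {Γ : Type u} [Group Γ] (t y : Γ) : ℕ → Γ
  | 1 => t
  | 2 => y
  | 3 => y⁻¹
  | 4 => gw t y
  | 5 => (gw t y)⁻¹
  | _ => 1

/-- the relations of the quotient -/
structure SR {Γ : Type u} [Group Γ] (t y : Γ) : Prop where
  t2 : t * t = 1
  y5 : y ^ 5 = 1
  x13 : (t * y) ^ 13 = 1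
  r3 : (t * (y * y)) ^ 4 = 1
  r4 : (t * (y * (t * (y * y)))) ^ 7 = 1
  r5 : (t * (y * (t * (y⁻¹ * (t * (y * y)))))) ^ 5 = 1

theorem lT_ok {Γ : Type u} [Group Γ] {t y z w : Γ} (h : CR t y z w) : Ok SzT.ic 5 SzT.rels (lT t y z w) where
  hic := by
    intro i hi
    interval_cases i
    · show (1 : Γ) = 1⁻¹; simp
    · exact eq_inv_of_mul_eq_one_left h.t2
    · rfl
    · show y = y⁻¹⁻¹; simp
    · exact eq_inv_of_mul_eq_one_left h.z2
    · exact eq_inv_of_mul_eq_one_left h.w2
    all_goals (show (1 : Γ) = 1⁻¹; simp)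
  hk := by
    intro i hi
    rcases hi with rfl | hi
    · rfl
    · match i, hi with
      | (n + 6), _ => rfl
  hrels := by
    intro r hr
    simp only [SzT.rels, List.mem_cons, List.not_mem_nil, or_false] at hr
    rcases hr with rfl | rfl | rfl | rfl | rfl | rfl | rfl | rfl | rfl | rfl
    · rw [ev_powW]; simpa [lT] using h.y5
    · rw [ev_powW]; simpa [lT] using h.x13
    · rw [ev_powW]; simpa [lT] using h.r3
    · rw [ev_append, ev_powW]; simpa [lT] using h.r4
    · rw [ev_append, ev_powW]; simpa [lT] using h.r5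
    · show z * (t * (z * (t * 1))) = 1
      have : z * (t * (z * (t * 1))) = (z * t) * (z * t) := by group
      rw [this, h.zt]
      nth_rewrite 2 [← h.zt]
      have : t * z * (z * t) = t * (z * z) * t := by group
      rw [this, h.z2, mul_one, h.t2]
    · show w * (t * (w * (t * 1))) = 1
      have : w * (t * (w * (t * 1))) = (w * t) * (w * t) := by group
      rw [this, h.wt]
      nth_rewrite 2 [← h.wt]
      have : t * w * (w * t) = t * (w * w) * t := by group
      rw [this, h.w2, mul_one, h.t2]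
    · show z * (y * (z * (y⁻¹ * 1))) = 1
      have : z * (y * (z * (y⁻¹ * 1))) = (z * y) * z * y⁻¹ := by group
      rw [this, h.zy]
      have : y * z * z * y⁻¹ = y * (z * z) * y⁻¹ := by group
      rw [this, h.z2, mul_one, mul_inv_cancel]
    · show w * (y * (w * (y⁻¹ * 1))) = 1
      have : w * (y * (w * (y⁻¹ * 1))) = (w * y) * w * y⁻¹ := by group
      rw [this, h.wy]
      have : y * w * w * y⁻¹ = y * (w * w) * y⁻¹ := by group
      rw [this, h.w2, mul_one, mul_inv_cancel]
    · show z * (w * (z * (w * 1))) = 1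
      have : z * (w * (z * (w * 1))) = (z * w) * (z * w) := by group
      rw [this]
      nth_rewrite 2 [h.zw]
      have : z * w * (w * z) = z * (w * w) * z := by group
      rw [this, h.w2, mul_one, h.z2]

theorem lS_ok {Γ : Type u} [Group Γ] {t y : Γ} (h : SR t y) : Ok SzS.ic 5 SzS.rels (lS t y) where
  hic := by
    intro i hi
    interval_cases i
    · show (1 : Γ) = 1⁻¹; simp
    · exact eq_inv_of_mul_eq_one_left h.t2
    · rfl
    · show y = y⁻¹⁻¹; simp
    · rfl
    · show gw t y = (gw t y)⁻¹⁻¹; simp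
    all_goals (show (1 : Γ) = 1⁻¹; simp)
  hk := by
    intro i hi
    rcases hi with rfl | hi
    · rfl
    · match i, hi with
      | (n + 6), _ => rfl
  hrels := by
    intro r hr
    simp only [SzS.rels, List.mem_cons, List.not_mem_nil, or_false] at hr
    rcases hr with rfl | rfl | rfl | rfl | rfl | rfl
    · rw [ev_powW]; simpa [lS] using h.y5
    · rw [ev_powW]; simpa [lS] using h.x13
    · rw [ev_powW]; simpa [lS] using h.r3
    · rw [ev_powW]; simpa [lS] using h.r4
    · rw [ev_powW]; simpa [lS] using h.r5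
    · show y * (t * (y * (t * (y⁻¹ * (t * (y⁻¹ * (y⁻¹ * ((gw t y)⁻¹ * 1)))))))) = 1
      unfold gw
      group

end Cfsg.Agent.H4.SzB
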