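import Cfsg.Agent.H4_SzB

/-!
Sz(8) and its Schur cover, presented: the groups.
-/

set_option autoImplicit false
set_option maxRecDepth 100000

namespace Cfsg.Agent.H4.SzB

open Cfsg.Agent.H8 Cfsg.Agent.H8.CE Cfsg.Agent.H8.CS Cfsg.Agent.H8.Net Cfsg.Agent.H8.Act Cfsg.Agent.H8.Cox
open Cfsg.Agent.H8.Act2 Cfsg.Agent.H4.Ltr

universe u v w

/-! ### The quotient -/

abbrev S : Type := P SzS.ic 5 SzS.rels
noncomputable abbrev xs : ℕ → S := xg SzS.ic 5 SzS.rels

theorem xs_ok : Ok SzS.ic 5 SzS.rels xs := xg_ok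

noncomputable abbrev ts : S := xs 1
noncomputable abbrev ys : S := xs 2

theorem xs3 : xs 3 = ys⁻¹ := xs_ok.hic 2 (by decide)
theorem xs5 : xs 5 = (xs 4)⁻¹ := xs_ok.hic 4 (by decide)

theorem ts_sq : ts * ts = 1 := by
  have h : xs 1 = (xs 1)⁻¹ := xs_ok.hic 1 (by decide)
  show xs 1 * xs 1 = 1
  nth_rewrite 2 [h]
  exact mul_inv_cancel _

theorem relS (w : List ℕ) (hw : (SzS.rels.contains w) = true) : ev xs w = 1 :=
  xs_ok.hrels w (by rwa [List.contains_iff_mem] at hw)

theorem sr : SR ts ys where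
  t2 := ts_sq
  y5 := by have h := relS (powW [2] 5) (by decide); rw [ev_powW] at h; simpa using h
  x13 := by have h := relS (powW [1, 2] 13) (by decide); rw [ev_powW] at h; simpa using h
  r3 := by have h := relS (powW [1, 2, 2] 4) (by decide); rw [ev_powW] at h; simpa using h
  r4 := by have h := relS (powW [1, 2, 1, 2, 2] 7) (by decide); rw [ev_powW] at h; simpa using h
  r5 := by
    have h := relS (powW [1, 2, 1, 3, 1, 2, 2] 5) (by decide)
    rw [ev_powW] at h
    simp only [ev_cons, ev_nil, mul_one] at h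
    rw [xs3] at h
    exact h

theorem xs4 : xs 4 = gw ts ys := by
  have h := relS [2, 1, 2, 1, 3, 1, 3, 3, 5] (by decide)
  simp only [ev_cons, ev_nil, mul_one] at h
  rw [xs3, xs5] at h
  unfold gw
  have h2 : ys * (ts * (ys * (ts * (ys⁻¹ * (ts * (ys⁻¹ * ys⁻¹)))))) * (xs 4)⁻¹ = 1 := by
    rw [← h]; group
  exact (mul_inv_eq_one.1 h2).symm

theorem xs_eq : ∀ i, xs i = lS ts ys i := by
  intro i
  match i with
  | 0 => exact xs_ok.h0
  | 1 => rfl
  | 2 => rfl
  | 3 => exact xs3
  | 4 => exact xs4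
  | 5 => rw [xs5, xs4]; rfl
  | (n + 6) => exact xs_ok.hk _ (Or.inr (by omega))

theorem clS : Subgroup.closure {ts, ys} = ⊤ := by
  rw [← top_le_iff, ← PresentedGroup.closure_range_of (RR SzS.ic 5 SzS.rels), Subgroup.closure_le]
  have h1 : ts ∈ Subgroup.closure {ts, ys} := Subgroup.subset_closure (by simp)
  have h2 : ys ∈ Subgroup.closure {ts, ys} := Subgroup.subset_closure (by simp)
  have h3 : gw ts ys ∈ Subgroup.closure {ts, ys} := by
    unfold gw
    exact mul_mem h2 (mul_mem h1 (mul_mem h2 (mul_mem h1 (mul_mem (inv_mem h2) (mul_mem h1 (mul_mem (inv_mem h2) (inv_mem h2)))))))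
  rintro _ ⟨i, rfl⟩
  show xs i ∈ Subgroup.closure {ts, ys}
  rw [xs_eq]
  match i with
  | 0 => exact one_mem _
  | 1 => exact h1
  | 2 => exact h2
  | 3 => exact inv_mem h2
  | 4 => exact h3
  | 5 => exact inv_mem h3
  | (n + 6) => exact one_mem _

/-- letters for the index bound -/
def lB {Γ : Type u} [Group Γ] (t y : Γ) : ℕ → Γ
  | 1 => t
  | 2 => y
  | 3 => y⁻¹
  | 4 => t * y
  | 5 => (t * y)⁻¹
  | _ => 1

theorem relB {Γ : Type u} [Group Γ] {t y : Γ} (h : SR t y) : ∀ w ∈ SzSb.rels, ev (lB t y) w = 1 := by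
  have h0 : (SzSb.rels.all fun w => ([powW [2] 5, powW [1, 2] 13, powW [1, 2, 2] 4, powW [1, 2, 1, 2, 2] 7,
    powW [1, 2, 1, 3, 1, 2, 2] 5, [1, 2, 5]] : List (List ℕ)).contains w) = true := by decide +kernel
  rw [List.all_eq_true] at h0
  intro w hw
  have h1 := h0 w hw
  rw [List.contains_iff_mem] at h1
  simp only [List.mem_cons, List.not_mem_nil, or_false] at h1
  rcases h1 with rfl | rfl | rfl | rfl | rfl | rfl
  · rw [ev_powW]; simpa [lB] using h.y5
  · rw [ev_powW]; simpa [lB] using h.x13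
  · rw [ev_powW]; simpa [lB] using h.r3
  · rw [ev_powW]; simpa [lB] using h.r4
  · rw [ev_powW]; simpa [lB] using h.r5
  · simp [lB]

theorem cardS : Nat.card S ≤ 29120 ∧ Nat.card S ≠ 0 := by
  have h := SzSb.bound (x := lB ts ys) (H := Subgroup.zpowers (ts * ys)) (by
    intro i hi
    interval_cases i
    · show (1 : S) = 1⁻¹; simp
    · exact eq_inv_of_mul_eq_one_left ts_sq
    · rfl
    · show ys = ys⁻¹⁻¹; simp
    · rfl
    · show ts * ys = (ts * ys)⁻¹⁻¹; simp
    all_goals (show (1 : S) = 1⁻¹; simp)) rfl (relB sr) (by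
      intro s hs
      simp only [SzSb.L, List.mem_cons, List.not_mem_nil, or_false] at hs
      rcases hs with rfl | rfl
      · exact Subgroup.mem_zpowers _
      · exact inv_mem (Subgroup.mem_zpowers _))
  have e : Subgroup.closure (lB ts ys '' {y | 1 ≤ y ∧ y ≤ 3}) = ⊤ := by
    rw [← top_le_iff, ← clS, Subgroup.closure_le]
    intro g hg
    simp only [Set.mem_insert_iff, Set.mem_singleton_iff] at hg
    rcases hg with rfl | rfl
    · exact Subgroup.subset_closure ⟨1, by constructor <;> decide, rfl⟩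
    · exact Subgroup.subset_closure ⟨2, by constructor <;> decide, rfl⟩
  rw [e, Subgroup.relIndex_top_right] at h
  have hf : (ts * ys) ^ 13 = 1 := sr.x13
  have hc : Nat.card (Subgroup.zpowers (ts * ys)) ∣ 13 := by
    rw [Nat.card_zpowers]
    exact orderOf_dvd_of_pow_eq_one hf
  have hc1 : Nat.card (Subgroup.zpowers (ts * ys)) ≤ 13 := Nat.le_of_dvd (by norm_num) hc
  have hc0 : Nat.card (Subgroup.zpowers (ts * ys)) ≠ 0 := by
    intro h0
    rw [h0] at hc
    exact absurd (Nat.eq_zero_of_zero_dvd hc) (by norm_num)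
  have hm := (Subgroup.zpowers (ts * ys)).card_mul_index
  constructor
  · rw [← hm]
    calc _ ≤ 13 * 2240 := Nat.mul_le_mul hc1 h.1
      _ = 29120 := by norm_num
  · rw [← hm]
    exact Nat.mul_ne_zero hc0 h.2

instance : Finite S := Nat.finite_of_card_ne_zero cardS.2

theorem netP : ∀ y, y < 16 → (y = 0 ∨ 5 < y) → net SzP.L y = .nil := by
  intro y h16 hy
  interval_cases y <;> first | rfl | omega

theorem hnP : 65 ≤ 2 ^ 7 := by decide

theorem phiS : ∃ φ : S →* Equiv.Perm (Fin 65), Compat φ xs SzP.L :=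
  compat_of SzP.sys hnP SzP.inv_ok (xP_ok SzP.sys hnP SzP.inv_ok netP SzP.rel_ok (by decide +kernel))

theorem cardS_eq : Nat.card S = 29120 := by
  obtain ⟨φ, hc⟩ := phiS
  have h := order_eq (φ := φ) SzP.sys (exists_g SzP.sys hnP hc SzP.sg_ok (by decide)) SzP.levs SzP.chain
    (by rw [SzP.prodM_levs]; exact cardS.1)
  rw [SzP.prodM_levs] at h
  exact h.1

theorem simpleS : IsSimpleGroup S := by
  obtain ⟨φ, hc⟩ := phiS
  have h := order_eq (φ := φ) SzP.sys (exists_g SzP.sys hnP hc SzP.sg_ok (by decide)) SzP.levs SzP.chain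
    (by rw [SzP.prodM_levs]; exact cardS.1)
  rw [SzP.prodM_levs] at h
  refine simple_of_data (p := 13) (e := 1) SzP.sys hnP hc h.2 xs_ok.hic (by decide) (by decide) (by decide) SzP.trans
    SzP.hfix SzP.orbs (by decide) (by decide) (by decide) (by decide) ?_ SzP.pw_ok ?_
  · rw [h.1]; decide
  · rw [← top_le_iff, ← clS]
    rw [Subgroup.closure_le]
    intro g hg
    simp only [Set.mem_insert_iff, Set.mem_singleton_iff] at hg
    rcases hg with rfl | rfl
    · exact Subgroup.subset_closure ⟨1, by decide, rfl⟩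
    · exact Subgroup.subset_closure ⟨2, by decide, rfl⟩

end Cfsg.Agent.H4.SzB
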