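import Cfsg.Agent.H4_SzC

/-!
The Schur cover of Sz(8), presented.
-/

set_option autoImplicit false
set_option maxRecDepth 100000

namespace Cfsg.Agent.H4.SzB

open Cfsg.Agent.H8 Cfsg.Agent.H8.CE Cfsg.Agent.H8.CS Cfsg.Agent.H8.Net Cfsg.Agent.H8.Act Cfsg.Agent.H8.Cox
open Cfsg.Agent.H8.Act2 Cfsg.Agent.H4.Ltr

universe u v w

abbrev T : Type := P SzT.ic 5 SzT.rels
noncomputable abbrev xt : ℕ → T := xg SzT.ic 5 SzT.rels

theorem xt_ok : Ok SzT.ic 5 SzT.rels xt := xg_ok

noncomputable abbrev tt : T := xt 1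
noncomputable abbrev yt : T := xt 2
noncomputable abbrev zt : T := xt 4
noncomputable abbrev wt : T := xt 5

theorem xt3 : xt 3 = yt⁻¹ := xt_ok.hic 2 (by decide)

theorem sq_of (i : ℕ) (hi : i < 16) (h : il SzT.ic i = i) : xt i * xt i = 1 := by
  have h1 := xt_ok.hic i hi
  rw [h] at h1
  nth_rewrite 2 [h1]
  exact mul_inv_cancel _

theorem relT (w : List ℕ) (hw : (SzT.rels.contains w) = true) : ev xt w = 1 :=
  xt_ok.hrels w (by rwa [List.contains_iff_mem] at hw)

theorem comm_inv' {Γ : Type u} [Group Γ] {z t : Γ} (hz : z * z = 1) (ht : t * t = 1) (h : z * (t * (z * t)) = 1) :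
    z * t = t * z := by
  have h2 : (z * t) * (z * t) = 1 := by rw [← h]; group
  have h3 := eq_inv_of_mul_eq_one_left h2
  rw [h3, mul_inv_rev, ← eq_inv_of_mul_eq_one_left hz, ← eq_inv_of_mul_eq_one_left ht]

theorem cr : CR tt yt zt wt where
  t2 := sq_of 1 (by decide) (by decide)
  z2 := sq_of 4 (by decide) (by decide)
  w2 := sq_of 5 (by decide) (by decide)
  y5 := by have h := relT (powW [2] 5) (by decide); rw [ev_powW] at h; simpa using h
  x13 := by have h := relT (powW [1, 2] 13) (by decide); rw [ev_powW] at h; simpa using h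
  r3 := by have h := relT (powW [1, 2, 2] 4) (by decide); rw [ev_powW] at h; simpa using h
  r4 := by have h := relT (powW [1, 2, 1, 2, 2] 7 ++ [4]) (by decide); rw [ev_append, ev_powW] at h; simpa using h
  r5 := by
    have h := relT (powW [1, 2, 1, 3, 1, 2, 2] 5 ++ [5]) (by decide)
    rw [ev_append, ev_powW] at h
    simp only [ev_cons, ev_nil, mul_one] at h
    rw [xt3] at h
    exact h
  zt := by
    have h := relT [4, 1, 4, 1] (by decide)
    simp only [ev_cons, ev_nil, mul_one] at h
    exact comm_inv' (sq_of 4 (by decide) (by decide)) (sq_of 1 (by decide) (by decide)) h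
  wt := by
    have h := relT [5, 1, 5, 1] (by decide)
    simp only [ev_cons, ev_nil, mul_one] at h
    exact comm_inv' (sq_of 5 (by decide) (by decide)) (sq_of 1 (by decide) (by decide)) h
  zy := by
    have h := relT [4, 2, 4, 3] (by decide)
    simp only [ev_cons, ev_nil, mul_one] at h
    rw [xt3] at h
    have h2 : (zt * yt) * (zt * yt⁻¹) = 1 := by rw [← h]; group
    have h3 := eq_inv_of_mul_eq_one_left h2
    rw [h3, mul_inv_rev, inv_inv, ← eq_inv_of_mul_eq_one_left (sq_of 4 (by decide) (by decide))]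
  wy := by
    have h := relT [5, 2, 5, 3] (by decide)
    simp only [ev_cons, ev_nil, mul_one] at h
    rw [xt3] at h
    have h2 : (wt * yt) * (wt * yt⁻¹) = 1 := by rw [← h]; group
    have h3 := eq_inv_of_mul_eq_one_left h2
    rw [h3, mul_inv_rev, inv_inv, ← eq_inv_of_mul_eq_one_left (sq_of 5 (by decide) (by decide))]
  zw := by
    have h := relT [4, 5, 4, 5] (by decide)
    simp only [ev_cons, ev_nil, mul_one] at h
    exact comm_inv' (sq_of 4 (by decide) (by decide)) (sq_of 5 (by decide) (by decide)) h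

theorem xt_eq : ∀ i, xt i = lT tt yt zt wt i := by
  intro i
  match i with
  | 0 => exact xt_ok.h0
  | 1 => rfl
  | 2 => rfl
  | 3 => exact xt3
  | 4 => rfl
  | 5 => rfl
  | (n + 6) => exact xt_ok.hk _ (Or.inr (by omega))

theorem clT : Subgroup.closure {tt, yt, zt, wt} = ⊤ := by
  rw [← top_le_iff, ← PresentedGroup.closure_range_of (RR SzT.ic 5 SzT.rels), Subgroup.closure_le]
  have h1 : tt ∈ Subgroup.closure {tt, yt, zt, wt} := Subgroup.subset_closure (by simp)
  have h2 : yt ∈ Subgroup.closure {tt, yt, zt, wt} := Subgroup.subset_closure (by simp)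
  have h3 : zt ∈ Subgroup.closure {tt, yt, zt, wt} := Subgroup.subset_closure (by simp)
  have h4 : wt ∈ Subgroup.closure {tt, yt, zt, wt} := Subgroup.subset_closure (by simp)
  rintro _ ⟨i, rfl⟩
  show xt i ∈ Subgroup.closure {tt, yt, zt, wt}
  rw [xt_eq]
  match i with
  | 0 => exact one_mem _
  | 1 => exact h1
  | 2 => exact h2
  | 3 => exact inv_mem h2
  | 4 => exact h3
  | 5 => exact h4
  | (n + 6) => exact one_mem _

theorem netA : ∀ y, y < 16 → (y = 0 ∨ 5 < y) → net SzA.L y = .nil := by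
  intro y h16 hy
  interval_cases y <;> first | rfl | omega

theorem hnA : 2080 ≤ 2 ^ 12 := by decide

theorem phiT : ∃ φ : T →* Equiv.Perm (Fin 2080), Compat φ xt SzA.L :=
  compat_of SzA.sys hnA SzA.inv_ok (xP_ok SzA.sys hnA SzA.inv_ok netA SzA.rel_ok (by decide +kernel))

theorem zt_ne : zt ≠ 1 := by
  obtain ⟨φ, hc⟩ := phiT
  intro h
  have h1 := hc 4 (by decide) ⟨0, by decide⟩
  have h2 : φ (xt 4) = 1 := by rw [show xt 4 = 1 from h, map_one]
  rw [h2, inv_one] at h1
  exact SzA.mv4 h1.symm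

theorem wt_ne : wt ≠ 1 := by
  obtain ⟨φ, hc⟩ := phiT
  intro h
  have h1 := hc 5 (by decide) ⟨0, by decide⟩
  have h2 : φ (xt 5) = 1 := by rw [show xt 5 = 1 from h, map_one]
  rw [h2, inv_one] at h1
  exact SzA.mv5 h1.symm

theorem zw_ne : zt ≠ wt := by
  obtain ⟨φ, hc⟩ := phiT
  intro h
  have h1 := hc 4 (by decide) ⟨0, by decide⟩
  have h2 := hc 5 (by decide) ⟨0, by decide⟩
  have h3 : φ (xt 4) = φ (xt 5) := by rw [show xt 4 = xt 5 from h]
  rw [h3] at h1
  exact SzA.mv45 (h1.symm.trans h2)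

/-- centrality on generators -/
theorem cen_of {Γ : Type u} [Group Γ] {X : Set Γ} (hX : Subgroup.closure X = ⊤) {z : Γ} (h : ∀ x ∈ X, z * x = x * z) :
    z ∈ Subgroup.center Γ := by
  have h1 : Subgroup.closure X ≤ Subgroup.centralizer {z} := by
    rw [Subgroup.closure_le]
    intro x hx
    show x ∈ Subgroup.centralizer {z}
    rw [Subgroup.mem_centralizer_singleton_iff]
    exact (h x hx).symm
  rw [Subgroup.mem_center_iff]
  intro g
  have : g ∈ Subgroup.centralizer {z} := h1 (by rw [hX]; trivial)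
  rw [Subgroup.mem_centralizer_singleton_iff] at this
  exact this

theorem zt_cen : zt ∈ Subgroup.center T := by
  apply cen_of clT
  intro x hx
  simp only [Set.mem_insert_iff, Set.mem_singleton_iff] at hx
  rcases hx with rfl | rfl | rfl | rfl
  · exact cr.zt
  · exact cr.zy
  · rfl
  · exact cr.zw

theorem wt_cen : wt ∈ Subgroup.center T := by
  apply cen_of clT
  intro x hx
  simp only [Set.mem_insert_iff, Set.mem_singleton_iff] at hx
  rcases hx with rfl | rfl | rfl | rfl
  · exact cr.wt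
  · exact cr.wy
  · exact cr.zw.symm
  · rfl

/-- the relations force an abelian group to be trivial -/
theorem ab_triv {A : Type u} [CommGroup A] {t y z w : A} (h : CR t y z w) : t = 1 ∧ y = 1 ∧ z = 1 ∧ w = 1 := by
  have ht : t ^ 2 = 1 := by rw [pow_two]; exact h.t2
  have hy := h.y5
  have h13 : t = y⁻¹ ^ 13 := by
    have h1 := h.x13
    rw [mul_pow] at h1
    have h2 : t ^ 13 = t := by
      calc t ^ 13 = (t ^ 2) ^ 6 * t := by rw [← pow_mul, ← pow_succ]
        _ = t := by rw [ht, one_pow, one_mul]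
    rw [h2] at h1
    rw [inv_pow]
    exact eq_inv_of_mul_eq_one_left h1
  have ht5 : t ^ 5 = 1 := by
    rw [h13, ← pow_mul, mul_comm 13 5, pow_mul, inv_pow, hy, inv_one, one_pow]
  have ht1 : t = 1 := by
    calc t = t ^ 5 * (t ^ 2)⁻¹ ^ 2 := by rw [ht, inv_one, one_pow, mul_one]; calc t = (t ^ 2) ^ 2 * t := by rw [ht, one_pow, one_mul]
                                                                                     _ = t ^ 5 := by rw [← pow_mul, ← pow_succ]
      _ = 1 := by rw [ht5, ht, inv_one, one_pow, mul_one]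
  have hy1 : y = 1 := by
    have h1 := h.x13
    rw [ht1, one_mul] at h1
    calc y = (y ^ 13) ^ 2 * ((y ^ 5) ^ 5)⁻¹ := by
            rw [← pow_mul, ← pow_mul, show 13 * 2 = 5 * 5 + 1 from rfl, pow_succ, mul_comm (y ^ (5 * 5)) y, mul_inv_cancel_right]
      _ = 1 := by rw [h1, hy, one_pow, one_pow, inv_one, mul_one]
  refine ⟨ht1, hy1, ?_, ?_⟩
  · have h1 := h.r4
    rw [ht1, hy1] at h1
    simpa using h1
  · have h1 := h.r5
    rw [ht1, hy1] at h1
    simpa using h1

theorem cr_map {Γ : Type u} {K : Type v} [Group Γ] [Group K] (φ : Γ →* K) {t y z w : Γ} (h : CR t y z w) :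
    CR (φ t) (φ y) (φ z) (φ w) where
  t2 := by rw [← map_mul, h.t2, map_one]
  z2 := by rw [← map_mul, h.z2, map_one]
  w2 := by rw [← map_mul, h.w2, map_one]
  y5 := by rw [← map_pow, h.y5, map_one]
  x13 := by rw [← map_mul, ← map_pow, h.x13, map_one]
  r3 := by simp only [← map_mul, ← map_pow]; rw [h.r3, map_one]
  r4 := by simp only [← map_mul, ← map_pow]; rw [h.r4, map_one]
  r5 := by simp only [← map_mul, ← map_pow, ← map_inv]; rw [h.r5, map_one]
  zt := by rw [← map_mul, h.zt, map_mul]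
  wt := by rw [← map_mul, h.wt, map_mul]
  zy := by rw [← map_mul, h.zy, map_mul]
  wy := by rw [← map_mul, h.wy, map_mul]
  zw := by rw [← map_mul, h.zw, map_mul]

theorem perfT : commutator T = ⊤ := by
  have h := ab_triv (cr_map (Abelianization.of (G := T)) cr)
  rw [← Abelianization.ker_of, ← top_le_iff, ← clT, Subgroup.closure_le]
  intro x hx
  simp only [Set.mem_insert_iff, Set.mem_singleton_iff] at hx
  show x ∈ (Abelianization.of (G := T)).ker
  rw [MonoidHom.mem_ker]
  rcases hx with rfl | rfl | rfl | rfl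
  · exact h.1
  · exact h.2.1
  · exact h.2.2.1
  · exact h.2.2.2

end Cfsg.Agent.H4.SzB
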