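import Cfsg.Agent.H4_SzD

/-!
The Schur cover of Sz(8): the projection.
-/

set_option autoImplicit false
set_option maxRecDepth 100000

namespace Cfsg.Agent.H4.SzB

open Cfsg.Agent.H8 Cfsg.Agent.H8.CE Cfsg.Agent.H8.CS Cfsg.Agent.H8.Net Cfsg.Agent.H8.Act Cfsg.Agent.H8.Cox
open Cfsg.Agent.H8.Act2 Cfsg.Agent.H4.Ltr

universe u v w

theorem cr_of_sr {Γ : Type u} [Group Γ] {t y : Γ} (h : SR t y) : CR t y 1 1 where
  t2 := h.t2
  z2 := by simp
  w2 := by simp
  y5 := h.y5
  x13 := h.x13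
  r3 := h.r3
  r4 := by rw [h.r4, one_mul]
  r5 := by rw [h.r5, one_mul]
  zt := by simp
  wt := by simp
  zy := by simp
  wy := by simp
  zw := by simp

theorem sr_of_cr {Γ : Type u} [Group Γ] {t y : Γ} (h : CR t y 1 1) : SR t y where
  t2 := h.t2
  y5 := h.y5
  x13 := h.x13
  r3 := h.r3
  r4 := by simpa using h.r4
  r5 := by simpa using h.r5

noncomputable def pr : T →* S := (lift_ok (lT_ok (cr_of_sr sr))).choose

theorem pr_x (i : ℕ) : pr (xt i) = lT ts ys 1 1 i := (lift_ok (lT_ok (cr_of_sr sr))).choose_spec i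

theorem pr_t : pr tt = ts := pr_x 1
theorem pr_y : pr yt = ys := pr_x 2
theorem pr_z : pr zt = 1 := pr_x 4
theorem pr_w : pr wt = 1 := pr_x 5

theorem pr_surj : Function.Surjective pr := by
  rw [← MonoidHom.range_eq_top, ← top_le_iff, ← clS, Subgroup.closure_le]
  intro g hg
  simp only [Set.mem_insert_iff, Set.mem_singleton_iff] at hg
  rcases hg with rfl | rfl
  · exact ⟨tt, pr_t⟩
  · exact ⟨yt, pr_y⟩

/-- subgroups generated by central elements are normal -/
theorem normal_of_cen {Γ : Type u} [Group Γ] {N : Subgroup Γ} (h : N ≤ Subgroup.center Γ) : N.Normal := by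
  constructor
  intro n hn g
  rw [Subgroup.mem_center_iff.1 (h hn) g, mul_inv_cancel_right]
  exact hn

/-- the key lemma: a group generated by `t, y, z, w` over its quotient by `z, w` -/
theorem ker_le {Γ : Type u} {G : Type v} [Group Γ] [Group G] {t y z w : Γ} (h : CR t y z w)
    (hcl : Subgroup.closure {t, y, z, w} = ⊤) (hz : z ∈ Subgroup.center Γ) (hw : w ∈ Subgroup.center Γ)
    (e : S ≃* G) {σ : Γ →* G} (ht : σ t = e ts) (hy : σ y = e ys) (h1 : σ z = 1) (h2 : σ w = 1) :
    σ.ker ≤ Subgroup.closure {z, w} := by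
  have hNc : Subgroup.closure {z, w} ≤ Subgroup.center Γ := by
    rw [Subgroup.closure_le]
    intro x hx
    simp only [Set.mem_insert_iff, Set.mem_singleton_iff] at hx
    rcases hx with rfl | rfl
    · exact hz
    · exact hw
  have hN := normal_of_cen hNc
  let mk : Γ →* Γ ⧸ Subgroup.closure {z, w} := QuotientGroup.mk' _
  have hmz : mk z = 1 := (QuotientGroup.eq_one_iff z).2 (Subgroup.subset_closure (by simp))
  have hmw : mk w = 1 := (QuotientGroup.eq_one_iff w).2 (Subgroup.subset_closure (by simp))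
  have hc := cr_map mk h
  rw [hmz, hmw] at hc
  obtain ⟨Ψ, hΨ⟩ := lift_ok (lS_ok (sr_of_cr hc))
  have hcomp : Ψ.comp (e.symm.toMonoidHom.comp σ) = mk := by
    apply MonoidHom.eq_of_eqOn_dense hcl
    intro x hx
    simp only [Set.mem_insert_iff, Set.mem_singleton_iff] at hx
    rcases hx with rfl | rfl | rfl | rfl
    · show Ψ (e.symm (σ x)) = mk x
      rw [ht, MulEquiv.symm_apply_apply]
      exact hΨ 1
    · show Ψ (e.symm (σ x)) = mk x
      rw [hy, MulEquiv.symm_apply_apply]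
      exact hΨ 2
    · show Ψ (e.symm (σ x)) = mk x
      rw [h1, map_one, map_one, hmz]
    · show Ψ (e.symm (σ x)) = mk x
      rw [h2, map_one, map_one, hmw]
  intro k hk
  have h3 : mk k = 1 := by
    rw [← hcomp, MonoidHom.comp_apply, MonoidHom.comp_apply, MonoidHom.mem_ker.1 hk, map_one, map_one]
  exact (QuotientGroup.eq_one_iff k).1 h3

theorem pr_ker : pr.ker = Subgroup.closure {zt, wt} := by
  apply le_antisymm
  · exact ker_le cr clT zt_cen wt_cen (MulEquiv.refl S) pr_t pr_y pr_z pr_w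
  · rw [Subgroup.closure_le]
    intro x hx
    simp only [Set.mem_insert_iff, Set.mem_singleton_iff] at hx
    rcases hx with rfl | rfl
    · exact pr_z
    · exact pr_w

theorem pr_stem : Cfsg.IsStemExtension pr := by
  refine ⟨pr_surj, ?_, ?_⟩
  · rw [pr_ker, Subgroup.closure_le]
    intro x hx
    simp only [Set.mem_insert_iff, Set.mem_singleton_iff] at hx
    rcases hx with rfl | rfl
    · exact zt_cen
    · exact wt_cen
  · rw [perfT]; exact le_top

/-- powers of an involution -/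
theorem pow_val {Γ : Type u} [Group Γ] {z : Γ} (hz : z * z = 1) (a b : ZMod 2) : z ^ (a + b).val = z ^ a.val * z ^ b.val := by
  have h2 : z ^ 2 = 1 := by rw [pow_two]; exact hz
  rw [← pow_add, ZMod.val_add]
  conv_rhs => rw [← Nat.mod_add_div (a.val + b.val) 2, pow_add, pow_mul, h2, one_pow, mul_one]

theorem pi_of {Γ : Type u} [Group Γ] {K : Subgroup Γ} {z w : Γ} (hz : z ∈ K) (hw : w ∈ K) (z2 : z * z = 1)
    (w2 : w * w = 1) (zw : z * w = w * z) (hK : K ≤ Subgroup.closure {z, w}) :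
    ∃ π : Multiplicative (ZMod 2 × ZMod 2) →* K, Function.Surjective π ∧
      (z ≠ 1 → w ≠ 1 → z ≠ w → Function.Injective π) := by
  let π : Multiplicative (ZMod 2 × ZMod 2) →* K :=
    { toFun := fun p => ⟨z ^ (p.toAdd.1.val) * w ^ (p.toAdd.2.val), mul_mem (pow_mem hz _) (pow_mem hw _)⟩
      map_one' := by
        apply Subtype.ext
        show z ^ ((0 : ZMod 2).val) * w ^ ((0 : ZMod 2).val) = 1
        simp
      map_mul' := by
        intro p q
        apply Subtype.ext
        show z ^ ((p.toAdd.1 + q.toAdd.1).val) * w ^ ((p.toAdd.2 + q.toAdd.2).val) =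
          (z ^ (p.toAdd.1.val) * w ^ (p.toAdd.2.val)) * (z ^ (q.toAdd.1.val) * w ^ (q.toAdd.2.val))
        rw [pow_val z2, pow_val w2]
        have hc : Commute (z ^ (q.toAdd.1.val)) (w ^ (p.toAdd.2.val)) := Commute.pow_pow (show Commute z w from zw) _ _
        calc _ = z ^ (p.toAdd.1.val) * (z ^ (q.toAdd.1.val) * w ^ (p.toAdd.2.val)) * w ^ (q.toAdd.2.val) := by group
          _ = z ^ (p.toAdd.1.val) * (w ^ (p.toAdd.2.val) * z ^ (q.toAdd.1.val)) * w ^ (q.toAdd.2.val) := by rw [hc.eq]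
          _ = _ := by group }
  have hval : ∀ p : Multiplicative (ZMod 2 × ZMod 2), ((π p : K) : Γ) = z ^ (p.toAdd.1.val) * w ^ (p.toAdd.2.val) := fun p => rfl
  refine ⟨π, ?_, ?_⟩
  · intro k
    have hr : Subgroup.closure {z, w} ≤ (K.subtype.comp π).range := by
      rw [Subgroup.closure_le]
      intro x hx
      simp only [Set.mem_insert_iff, Set.mem_singleton_iff] at hx
      rcases hx with rfl | rfl
      · refine ⟨Multiplicative.ofAdd (1, 0), ?_⟩
        show x ^ ((1 : ZMod 2).val) * w ^ ((0 : ZMod 2).val) = x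
        simp [ZMod.val_one]
      · refine ⟨Multiplicative.ofAdd (0, 1), ?_⟩
        show z ^ ((0 : ZMod 2).val) * x ^ ((1 : ZMod 2).val) = x
        simp [ZMod.val_one]
    obtain ⟨p, hp⟩ := hr (hK k.2)
    exact ⟨p, Subtype.ext hp⟩
  · intro z1 w1 hne
    rw [← MonoidHom.ker_eq_bot_iff, eq_bot_iff]
    intro p hp
    have h1 : z ^ (p.toAdd.1.val) * w ^ (p.toAdd.2.val) = 1 := by
      rw [← hval, MonoidHom.mem_ker.1 hp]; rfl
    rw [Subgroup.mem_bot]
    obtain ⟨a, b, rfl⟩ : ∃ a b : ZMod 2, p = Multiplicative.ofAdd (a, b) := ⟨p.toAdd.1, p.toAdd.2, rfl⟩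
    have h01 : ∀ a : ZMod 2, a = 0 ∨ a = 1 := by decide
    have ha := h01 a
    have hb := h01 b
    have v0 : (0 : ZMod 2).val = 0 := rfl
    have v1 : (1 : ZMod 2).val = 1 := rfl
    rcases ha with rfl | rfl <;> rcases hb with rfl | rfl
    · rfl
    · exfalso
      have h2 : z ^ ((0 : ZMod 2).val) * w ^ ((1 : ZMod 2).val) = 1 := h1
      rw [v0, v1, pow_zero, pow_one, one_mul] at h2
      exact w1 h2
    · exfalso
      have h2 : z ^ ((1 : ZMod 2).val) * w ^ ((0 : ZMod 2).val) = 1 := h1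
      rw [v0, v1, pow_zero, pow_one, mul_one] at h2
      exact z1 h2
    · exfalso
      have h2 : z ^ ((1 : ZMod 2).val) * w ^ ((1 : ZMod 2).val) = 1 := h1
      rw [v1, pow_one, pow_one] at h2
      exact hne ((eq_inv_of_mul_eq_one_left h2).trans (eq_inv_of_mul_eq_one_left w2).symm)

theorem pr_iso : Nonempty (Multiplicative (ZMod 2 × ZMod 2) ≃* pr.ker) := by
  obtain ⟨π, h1, h2⟩ := pi_of (K := pr.ker) (z := zt) (w := wt) pr_z pr_w cr.z2 cr.w2 cr.zw (le_of_eq pr_ker)
  exact ⟨MulEquiv.ofBijective π ⟨h2 zt_ne wt_ne zw_ne, h1⟩⟩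

instance finT : Finite T := by
  have h1 : Finite pr.ker := by
    obtain ⟨f⟩ := pr_iso
    exact Finite.of_equiv _ f.toEquiv
  have h2 : Finite (T ⧸ pr.ker) := Finite.of_injective _ (QuotientGroup.kerLift_injective pr)
  exact Finite.of_equiv _ (Subgroup.groupEquivQuotientProdSubgroup (s := pr.ker)).symm

end Cfsg.Agent.H4.SzB
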