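import Cfsg.Agent.H4_SzE

/-!
Upper bound for the multiplier of Sz(8), kernels of exponent dividing 4.
-/

set_option autoImplicit false
set_option maxRecDepth 100000

namespace Cfsg.Agent.H4.SzB

open Cfsg.Agent.H8 Cfsg.Agent.H8.CE Cfsg.Agent.H8.CS Cfsg.Agent.H8.Net Cfsg.Agent.H8.Act Cfsg.Agent.H8.Cox
open Cfsg.Agent.H8.Act2 Cfsg.Agent.H4.Ltr
open scoped commutatorElement

universe u v w

/-- letters for the query -/
def lQ {Γ : Type u} [Group Γ] (t y a b c d : Γ) : ℕ → Γ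
  | 1 => t
  | 2 => t⁻¹
  | 3 => y
  | 4 => y⁻¹
  | 5 => a
  | 6 => a⁻¹
  | 7 => b
  | 8 => b⁻¹
  | 9 => c
  | 10 => c⁻¹
  | 11 => d
  | 12 => d⁻¹
  | 13 => t * y
  | 14 => (t * y)⁻¹
  | _ => 1

theorem com_rel {Γ : Type u} [Group Γ] {a t : Γ} (h : a ∈ Subgroup.center Γ) : a * (t * (a⁻¹ * t⁻¹)) = 1 := by
  have h1 := Subgroup.mem_center_iff.1 h t
  calc a * (t * (a⁻¹ * t⁻¹)) = a * t * a⁻¹ * t⁻¹ := by group
    _ = t * a * a⁻¹ * t⁻¹ := by rw [h1]
    _ = 1 := by group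

theorem relQ {Γ : Type u} [Group Γ] {t y a b c d : Γ} (y5 : y ^ 5 = 1) (x13 : (t * y) ^ 13 = 1) (ha : t * t = a)
    (hb : (t * (y * y)) ^ 4 = b) (hc : (t * (y * (t * (y * y)))) ^ 7 = c)
    (hd : (t * (y * (t * (y⁻¹ * (t * (y * y)))))) ^ 5 = d) (ca : a ∈ Subgroup.center Γ) (cb : b ∈ Subgroup.center Γ)
    (cc : c ∈ Subgroup.center Γ) (cd : d ∈ Subgroup.center Γ) (a4 : a ^ 4 = 1) (b4 : b ^ 4 = 1) (c4 : c ^ 4 = 1)
    (d4 : d ^ 4 = 1) : ∀ w ∈ SzQ.rels, ev (lQ t y a b c d) w = 1 := by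
  have h0 : (SzQ.rels.all fun w => ([powW [3] 5, powW [1, 3] 13, [1, 1, 6], [5, 1, 6, 2], [5, 3, 6, 4], powW [5] 4,
    powW [1, 3, 3] 4 ++ [8], [7, 1, 8, 2], [7, 3, 8, 4], powW [7] 4,
    powW [1, 3, 1, 3, 3] 7 ++ [10], [9, 1, 10, 2], [9, 3, 10, 4], powW [9] 4,
    powW [1, 3, 1, 4, 1, 3, 3] 5 ++ [12], [11, 1, 12, 2], [11, 3, 12, 4], powW [11] 4,
    [7, 5, 8, 6], [9, 5, 10, 6], [9, 7, 10, 8], [11, 5, 12, 6], [11, 7, 12, 8], [11, 9, 12, 10], [1, 3, 14]] :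
      List (List ℕ)).contains w) = true := by decide +kernel
  rw [List.all_eq_true] at h0
  intro w hw
  have h1 := h0 w hw
  rw [List.contains_iff_mem] at h1
  simp only [List.mem_cons, List.not_mem_nil, or_false] at h1
  rcases h1 with rfl | rfl | rfl | rfl | rfl | rfl | rfl | rfl | rfl | rfl | rfl | rfl | rfl | rfl | rfl | rfl |
    rfl | rfl | rfl | rfl | rfl | rfl | rfl | rfl | rfl
  · rw [ev_powW]; simpa [lQ] using y5
  · rw [ev_powW]; simpa [lQ] using x13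
  · simp only [ev_cons, ev_nil, mul_one, lQ]
    rw [← ha]; group
  · simpa [lQ] using com_rel (t := t) ca
  · simpa [lQ] using com_rel (t := y) ca
  · rw [ev_powW]; simpa [lQ] using a4
  · rw [ev_append, ev_powW]; simp only [ev_cons, ev_nil, mul_one, lQ]; rw [hb, mul_inv_cancel]
  · simpa [lQ] using com_rel (t := t) cb
  · simpa [lQ] using com_rel (t := y) cb
  · rw [ev_powW]; simpa [lQ] using b4
  · rw [ev_append, ev_powW]; simp only [ev_cons, ev_nil, mul_one, lQ]; rw [hc, mul_inv_cancel]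
  · simpa [lQ] using com_rel (t := t) cc
  · simpa [lQ] using com_rel (t := y) cc
  · rw [ev_powW]; simpa [lQ] using c4
  · rw [ev_append, ev_powW]; simp only [ev_cons, ev_nil, mul_one, lQ]; rw [hd, mul_inv_cancel]
  · simpa [lQ] using com_rel (t := t) cd
  · simpa [lQ] using com_rel (t := y) cd
  · rw [ev_powW]; simpa [lQ] using d4
  · simpa [lQ] using com_rel (t := a) cb
  · simpa [lQ] using com_rel (t := a) cc
  · simpa [lQ] using com_rel (t := b) cc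
  · simpa [lQ] using com_rel (t := a) cd
  · simpa [lQ] using com_rel (t := b) cd
  · simpa [lQ] using com_rel (t := c) cd
  · simp only [ev_cons, ev_nil, mul_one, lQ]; group

theorem hicQ {Γ : Type u} [Group Γ] {t y a b c d : Γ} :
    ∀ i, i < 16 → lQ t y a b c d (il SzQ.ic i) = (lQ t y a b c d i)⁻¹ := by
  intro i hi
  interval_cases i
  · show (1 : Γ) = 1⁻¹; simp
  · rfl
  · show t = t⁻¹⁻¹; simp
  · rfl
  · show y = y⁻¹⁻¹; simp
  · rfl
  · show a = a⁻¹⁻¹; simp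
  · rfl
  · show b = b⁻¹⁻¹; simp
  · rfl
  · show c = c⁻¹⁻¹; simp
  · rfl
  · show d = d⁻¹⁻¹; simp
  · rfl
  · show t * y = (t * y)⁻¹⁻¹; simp
  · show (1 : Γ) = 1⁻¹; simp

theorem x_ne : ts * ys ≠ 1 := by
  intro h
  have h1 : ts = ys⁻¹ := eq_inv_of_mul_eq_one_left h
  have h2 : ts = ts⁻¹ := eq_inv_of_mul_eq_one_left sr.t2
  have h3 : ys = ts := by rw [h2, h1, inv_inv]
  have h4 : ys * ys = 1 := by rw [h3]; exact sr.t2
  have h5 : ys = 1 := by
    have h6 := sr.y5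
    calc ys = ys ^ 5 * ((ys * ys) * (ys * ys))⁻¹ := by group
      _ = 1 := by rw [h6, h4]; group
  have h6 : ts = 1 := by rw [← h3, h5]
  have h7 := clS
  rw [h5, h6] at h7
  have h8 : Subgroup.closure ({1, 1} : Set S) = ⊥ := by
    rw [Set.insert_eq_of_mem (Set.mem_singleton _), Subgroup.closure_singleton_one]
  rw [h8] at h7
  have h9 := cardS_eq
  rw [← Subgroup.card_top, ← h7, Subgroup.card_bot] at h9
  exact absurd h9 (by norm_num)

theorem gen_of_stem {Γ : Type u} {G : Type v} [Group Γ] [Group G] {σ : Γ →* G} (hσ : Cfsg.IsStemExtension σ)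
    {M : Subgroup Γ} (hM : M.map σ = ⊤) : M = ⊤ := by
  obtain ⟨hs, hc, hd⟩ := hσ
  have hk : ∀ g : Γ, ∃ m ∈ M, ∃ k ∈ σ.ker, g = m * k := by
    intro g
    have h1 : σ g ∈ M.map σ := by rw [hM]; trivial
    obtain ⟨m, hm, hmg⟩ := h1
    refine ⟨m, hm, m⁻¹ * g, ?_, by group⟩
    rw [MonoidHom.mem_ker, map_mul, map_inv, hmg, inv_mul_cancel]
  have hcomm : commutator Γ ≤ M := by
    rw [commutator_eq_closure, Subgroup.closure_le]
    rintro _ ⟨a, b, rfl⟩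
    obtain ⟨m, hm, k, hk1, rfl⟩ := hk a
    obtain ⟨m', hm', k', hk', rfl⟩ := hk b
    have c1 := Subgroup.mem_center_iff.1 (hc hk1)
    have c2 := Subgroup.mem_center_iff.1 (hc hk')
    have e : ⁅m * k, m' * k'⁆ = ⁅m, m'⁆ := by
      simp only [commutatorElement_def]
      have i1 : k * (m' * k') = (m' * k') * k := (c1 _).symm
      calc m * k * (m' * k') * (m * k)⁻¹ * (m' * k')⁻¹ = m * (k * (m' * k')) * (m * k)⁻¹ * (m' * k')⁻¹ := by group
        _ = m * (m' * k') * m⁻¹ * (m' * k')⁻¹ := by rw [i1]; group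
        _ = m * m' * (k' * m⁻¹) * k'⁻¹ * m'⁻¹ := by group
        _ = m * m' * (m⁻¹ * k') * k'⁻¹ * m'⁻¹ := by rw [← c2]
        _ = m * m' * m⁻¹ * m'⁻¹ := by group
    rw [e]
    simp only [commutatorElement_def]
    exact mul_mem (mul_mem (mul_mem hm hm') (inv_mem hm)) (inv_mem hm')
  rw [eq_top_iff]
  intro g _
  obtain ⟨m, hm, k, hk1, rfl⟩ := hk g
  exact mul_mem hm (hcomm (hd hk1))

theorem ub4 {Γ : Type u} {G : Type v} [Group Γ] [Group G] (e : S ≃* G) {σ : Γ →* G} (hσ : Cfsg.IsStemExtension σ)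
    (h4 : ∀ k ∈ σ.ker, k ^ 4 = 1) :
    ∃ z w : Γ, z ∈ σ.ker ∧ w ∈ σ.ker ∧ z * z = 1 ∧ w * w = 1 ∧ σ.ker ≤ Subgroup.closure {z, w} := by
  obtain ⟨y', hy'⟩ := hσ.1 (e ys)
  obtain ⟨x', hx'⟩ := hσ.1 (e (ts * ys))
  obtain ⟨y, hyd⟩ : ∃ y, y = y' ^ 16 := ⟨_, rfl⟩
  obtain ⟨x, hxd⟩ : ∃ x, x = x' ^ 40 := ⟨_, rfl⟩
  have y5 : y ^ 5 = 1 := by
    have h1 : (y' ^ 5) ^ 4 = 1 := h4 _ (by rw [MonoidHom.mem_ker, map_pow, hy', ← map_pow, sr.y5, map_one])
    rw [hyd, ← pow_mul, show 16 * 5 = 5 * 4 * 4 from rfl, pow_mul, pow_mul, h1, one_pow]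
  have x13 : x ^ 13 = 1 := by
    have h1 : (x' ^ 13) ^ 4 = 1 := h4 _ (by rw [MonoidHom.mem_ker, map_pow, hx', ← map_pow, sr.x13, map_one])
    rw [hxd, ← pow_mul, show 40 * 13 = 13 * 4 * 10 from rfl, pow_mul, pow_mul, h1, one_pow]
  have hy : σ y = e ys := by
    rw [hyd, map_pow, hy', ← map_pow]
    congr 1
    calc ys ^ 16 = (ys ^ 5) ^ 3 * ys := by rw [← pow_mul, ← pow_succ]
      _ = ys := by rw [sr.y5, one_pow, one_mul]
  have hx : σ x = e (ts * ys) := by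
    rw [hxd, map_pow, hx', ← map_pow]
    congr 1
    calc (ts * ys) ^ 40 = ((ts * ys) ^ 13) ^ 3 * (ts * ys) := by rw [← pow_mul, ← pow_succ]
      _ = ts * ys := by rw [sr.x13, one_pow, one_mul]
  obtain ⟨t, htd⟩ : ∃ t, t = x * y⁻¹ := ⟨_, rfl⟩
  have hty : t * y = x := by rw [htd]; group
  have ht : σ t = e ts := by
    rw [htd, map_mul, map_inv, hx, hy, ← map_inv, ← map_mul]
    congr 1
    group
  have ty13 : (t * y) ^ 13 = 1 := by rw [hty]; exact x13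
  have hker : ∀ g : Γ, σ g = 1 → g ∈ σ.ker := fun g h => h
  have ka : t * t ∈ σ.ker := hker _ (by rw [map_mul, ht, ← map_mul, sr.t2, map_one])
  have kb : (t * (y * y)) ^ 4 ∈ σ.ker := hker _ (by
    simp only [map_mul, map_pow, ht, hy]; simp only [← map_mul, ← map_pow]; rw [sr.r3, map_one])
  have kc : (t * (y * (t * (y * y)))) ^ 7 ∈ σ.ker := hker _ (by
    simp only [map_mul, map_pow, ht, hy]; simp only [← map_mul, ← map_pow]; rw [sr.r4, map_one])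
  have kd : (t * (y * (t * (y⁻¹ * (t * (y * y)))))) ^ 5 ∈ σ.ker := hker _ (by
    simp only [map_mul, map_pow, map_inv, ht, hy]; simp only [← map_mul, ← map_pow, ← map_inv]; rw [sr.r5, map_one])
  obtain ⟨a, ha⟩ : ∃ a, t * t = a := ⟨_, rfl⟩
  obtain ⟨b, hb⟩ : ∃ b, (t * (y * y)) ^ 4 = b := ⟨_, rfl⟩
  obtain ⟨c, hc⟩ : ∃ c, (t * (y * (t * (y * y)))) ^ 7 = c := ⟨_, rfl⟩
  obtain ⟨d, hd⟩ : ∃ d, (t * (y * (t * (y⁻¹ * (t * (y * y)))))) ^ 5 = d := ⟨_, rfl⟩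
  rw [ha] at ka; rw [hb] at kb; rw [hc] at kc; rw [hd] at kd
  have hrel := relQ y5 ty13 ha hb hc hd (hσ.2.1 ka) (hσ.2.1 kb) (hσ.2.1 kc) (hσ.2.1 kd) (h4 _ ka) (h4 _ kb) (h4 _ kc) (h4 _ kd)
  have hL : ∀ s ∈ SzQ.L, lQ t y a b c d s ∈ Subgroup.zpowers (t * y) := by
    intro s hs
    simp only [SzQ.L, List.mem_cons, List.not_mem_nil, or_false] at hs
    rcases hs with rfl | rfl
    · exact Subgroup.mem_zpowers _
    · exact inv_mem (Subgroup.mem_zpowers _)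
  have w0 := SzQ.word0 hicQ rfl hrel hL
  have w1 := SzQ.word1 hicQ rfl hrel hL
  have w2 := SzQ.word2 hicQ rfl hrel hL
  have w3 := SzQ.word3 hicQ rfl hrel hL
  simp only [ev_cons, ev_nil, mul_one] at w0 w1 w2 w3
  -- the subgroup meets the kernel trivially
  have ho : orderOf (ts * ys) = 13 := by
    haveI : Fact (Nat.Prime 13) := ⟨by norm_num⟩
    exact orderOf_eq_prime sr.x13 x_ne
  have hmeet : ∀ h ∈ Subgroup.zpowers (t * y), h ∈ σ.ker → h = 1 := by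
    intro h hh hk
    obtain ⟨n, rfl⟩ := Subgroup.mem_zpowers_iff.1 hh
    have h1 : (ts * ys) ^ n = 1 := by
      apply e.injective
      rw [map_zpow, map_one, ← hx, ← hty, ← map_zpow]
      exact hk
    have h2 : (13 : ℤ) ∣ n := by
      have := orderOf_dvd_iff_zpow_eq_one.2 h1
      rwa [ho] at this
    obtain ⟨m, rfl⟩ := h2
    rw [zpow_mul]
    have h3 : (t * y) ^ (13 : ℤ) = 1 := by
      rw [show (13 : ℤ) = ((13 : ℕ) : ℤ) from rfl, zpow_natCast]; exact ty13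
    rw [h3, one_zpow]
  have a1 : a = 1 := hmeet _ w0 ka
  have b1 : b = 1 := hmeet _ w1 kb
  have c2 : c * c = 1 := hmeet _ w2 (mul_mem kc kc)
  have d2 : d * d = 1 := hmeet _ w3 (mul_mem kd kd)
  have cc := Subgroup.mem_center_iff.1 (hσ.2.1 kc)
  have cd := Subgroup.mem_center_iff.1 (hσ.2.1 kd)
  have hCR : CR t y c d :=
    { t2 := by rw [ha, a1]
      z2 := c2
      w2 := d2
      y5 := y5
      x13 := ty13
      r3 := by rw [hb, b1]
      r4 := by rw [hc, c2]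
      r5 := by rw [hd, d2]
      zt := (cc t).symm
      wt := (cd t).symm
      zy := (cc y).symm
      wy := (cd y).symm
      zw := (cc d).symm }
  have hM : Subgroup.closure {t, y} = ⊤ := by
    apply gen_of_stem hσ
    rw [MonoidHom.map_closure, Set.image_pair, ht, hy]
    have h1 : Subgroup.closure {e ts, e ys} = (Subgroup.closure {ts, ys}).map e.toMonoidHom := by
      rw [MonoidHom.map_closure, Set.image_pair]; rfl
    rw [h1, clS]
    exact Subgroup.map_top_of_surjective _ e.surjective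
  refine ⟨c, d, kc, kd, c2, d2, ker_le hCR ?_ (hσ.2.1 kc) (hσ.2.1 kd) e ht hy kc kd⟩
  rw [← top_le_iff, ← hM]
  apply Subgroup.closure_mono
  intro g hg
  simp only [Set.mem_insert_iff, Set.mem_singleton_iff] at hg ⊢
  tauto

end Cfsg.Agent.H4.SzB
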