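import Cfsg.Agent.H4_SzF
import Cfsg.Agent.H14_Schur

/-!
Upper bound for the multiplier of Sz(8).
-/

set_option autoImplicit false
set_option maxRecDepth 100000

namespace Cfsg.Agent.H4.SzB

open Cfsg.Agent.H8 Cfsg.Agent.H8.CE Cfsg.Agent.H8.CS Cfsg.Agent.H8.Net Cfsg.Agent.H8.Act Cfsg.Agent.H8.Cox
open Cfsg.Agent.H8.Act2 Cfsg.Agent.H4.Ltr
open scoped commutatorElement

universe u v w

theorem perfS : commutator S = ⊤ := by
  have h : (commutator T).map pr = commutator S := by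
    rw [commutator_def, commutator_def, Subgroup.map_commutator, Subgroup.map_top_of_surjective _ pr_surj]
  rw [← h, perfT, Subgroup.map_top_of_surjective _ pr_surj]

theorem perf_of {G : Type v} [Group G] (e : S ≃* G) : commutator G = ⊤ := by
  have h : (commutator S).map e.toMonoidHom = commutator G := by
    rw [commutator_def, commutator_def, Subgroup.map_commutator, Subgroup.map_top_of_surjective _ e.surjective]
  rw [← h, perfS, Subgroup.map_top_of_surjective _ e.surjective]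

theorem sq_dvd (p : ℕ) (hp : p.Prime) (h2 : p ≠ 2) : ¬ p ^ 2 ∣ 29120 := by
  intro h
  have hc : Nat.Coprime (p ^ 2) 64 := by
    have h1 : Nat.Coprime p 2 := (Nat.coprime_primes hp Nat.prime_two).2 h2
    have : (64 : ℕ) = 2 ^ 6 := by norm_num
    rw [this]
    exact Nat.Coprime.pow 2 6 h1
  have h3 : p ^ 2 ∣ 455 := hc.dvd_of_dvd_mul_left (by simpa using h)
  have h4 : p ^ 2 ≤ 455 := Nat.le_of_dvd (by norm_num) h3
  have h5 : p ≤ 21 := by nlinarith
  interval_cases p <;> revert h3 hp <;> decide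

theorem ub {Γ : Type u} {G : Type v} [Group Γ] [Finite Γ] [Group G] (e : S ≃* G) {σ : Γ →* G}
    (hσ : Cfsg.IsStemExtension σ) :
    ∃ z w : Γ, z ∈ σ.ker ∧ w ∈ σ.ker ∧ z * z = 1 ∧ w * w = 1 ∧ σ.ker ≤ Subgroup.closure {z, w} := by
  haveI : Finite G := Finite.of_equiv _ e.toEquiv
  have hG := perf_of e
  have hcardG : Nat.card G = 29120 := by rw [← Nat.card_congr e.toEquiv]; exact cardS_eq
  -- the kernel is a 2-group
  have hodd : ∀ {p : ℕ}, p.Prime → p ∣ Nat.card σ.ker → p = 2 := by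
    intro p hp hd
    by_contra hne
    haveI : Fact p.Prime := ⟨hp⟩
    exact Cfsg.Agent.S0102.result hG (p := p)
      (Cfsg.Agent.H14.Schur.isCyclic_of_not_sq_dvd (by rw [hcardG]; exact sq_dvd p hp hne)) σ hσ.1 hσ.2.1
      (Cfsg.Agent.H14.Schur.perfect_of_stem σ hσ hG) hd
  obtain ⟨n, hn⟩ : ∃ n, Nat.card σ.ker = 2 ^ n :=
    ⟨_, Nat.eq_prime_pow_of_unique_prime_dvd Nat.card_pos.ne' (fun {d} hd h => hodd hd h)⟩
  have hpow : ∀ k ∈ σ.ker, k ^ 2 ^ n = 1 := by
    intro k hk
    have h1 : (⟨k, hk⟩ : σ.ker) ^ Nat.card σ.ker = 1 := pow_card_eq_one'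
    rw [hn] at h1
    exact congrArg Subtype.val h1
  have hcm : ∀ k ∈ σ.ker, ∀ g : Γ, Commute k g := fun k hk g => (Subgroup.mem_center_iff.1 (hσ.2.1 hk) g).symm
  -- fourth powers
  let N : Subgroup Γ :=
    { carrier := {g | ∃ k ∈ σ.ker, g = k ^ 4}
      mul_mem' := by
        rintro _ _ ⟨k, hk, rfl⟩ ⟨m, hm, rfl⟩
        exact ⟨k * m, mul_mem hk hm, ((hcm k hk m).mul_pow 4).symm⟩
      one_mem' := ⟨1, one_mem _, by simp⟩
      inv_mem' := by
        rintro _ ⟨k, hk, rfl⟩
        exact ⟨k⁻¹, inv_mem hk, by rw [inv_pow]⟩ }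
  have hNk : N ≤ σ.ker := by
    rintro _ ⟨k, hk, rfl⟩
    exact pow_mem hk 4
  have hN : N.Normal := normal_of_cen (hNk.trans hσ.2.1)
  let σ' : Γ ⧸ N →* G := QuotientGroup.lift N σ hNk
  have hσ'm : ∀ x : Γ, σ' (QuotientGroup.mk' N x) = σ x := fun x => rfl
  have hst : Cfsg.IsStemExtension σ' := by
    refine ⟨?_, ?_, ?_⟩
    · intro g
      obtain ⟨x, rfl⟩ := hσ.1 g
      exact ⟨QuotientGroup.mk' N x, rfl⟩
    · intro q hq
      obtain ⟨x, rfl⟩ := QuotientGroup.mk'_surjective N q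
      have hx : x ∈ σ.ker := hq
      rw [Subgroup.mem_center_iff]
      intro r
      obtain ⟨y, rfl⟩ := QuotientGroup.mk'_surjective N r
      rw [← map_mul, ← map_mul, Subgroup.mem_center_iff.1 (hσ.2.1 hx) y]
    · intro q hq
      obtain ⟨x, rfl⟩ := QuotientGroup.mk'_surjective N q
      have hx : x ∈ σ.ker := hq
      have h1 : (commutator Γ).map (QuotientGroup.mk' N) = commutator (Γ ⧸ N) := by
        rw [commutator_def, commutator_def, Subgroup.map_commutator, Subgroup.map_top_of_surjective _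
          (QuotientGroup.mk'_surjective N)]
      rw [← h1]
      exact ⟨x, hσ.2.2 hx, rfl⟩
  have h4' : ∀ q ∈ σ'.ker, q ^ 4 = 1 := by
    intro q hq
    obtain ⟨x, rfl⟩ := QuotientGroup.mk'_surjective N q
    have hx : x ∈ σ.ker := hq
    rw [← map_pow]
    exact (QuotientGroup.eq_one_iff _).2 ⟨x, hx, rfl⟩
  obtain ⟨z, w, hz, hw, z2, w2, hcl⟩ := ub4 e hst h4'
  have hsq : ∀ q ∈ σ'.ker, q * q = 1 := by
    intro q hq
    have h1 : ∀ q ∈ Subgroup.closure {z, w}, q ∈ Subgroup.center (Γ ⧸ N) ∧ q * q = 1 := by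
      intro q hq
      induction hq using Subgroup.closure_induction with
      | mem x hx =>
        simp only [Set.mem_insert_iff, Set.mem_singleton_iff] at hx
        rcases hx with rfl | rfl
        · exact ⟨hst.2.1 hz, z2⟩
        · exact ⟨hst.2.1 hw, w2⟩
      | one => exact ⟨one_mem _, by simp⟩
      | mul a b _ _ ha hb =>
        refine ⟨mul_mem ha.1 hb.1, ?_⟩
        have hc := Subgroup.mem_center_iff.1 ha.1 b
        calc a * b * (a * b) = a * (b * a) * b := by group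
          _ = a * (a * b) * b := by rw [hc]
          _ = (a * a) * (b * b) := by group
          _ = 1 := by rw [ha.2, hb.2, one_mul]
      | inv a _ ha =>
        refine ⟨inv_mem ha.1, ?_⟩
        rw [← mul_inv_rev, ha.2, inv_one]
    exact (h1 q (hcl hq)).2
  have hstep : ∀ k ∈ σ.ker, ∃ m ∈ σ.ker, k ^ 2 = m ^ 4 := by
    intro k hk
    have h1 := hsq (QuotientGroup.mk' N k) hk
    rw [← map_mul] at h1
    obtain ⟨m, hm, hkm⟩ : k * k ∈ N := (QuotientGroup.eq_one_iff _).1 h1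
    exact ⟨m, hm, by rw [pow_two]; exact hkm⟩
  have hiter : ∀ j : ℕ, ∀ k ∈ σ.ker, ∃ m ∈ σ.ker, k ^ 2 = m ^ 2 ^ (j + 1) := by
    intro j
    induction j with
    | zero => exact fun k hk => ⟨k, hk, by simp⟩
    | succ j ih =>
      intro k hk
      obtain ⟨m, hm, hkm⟩ := ih k hk
      obtain ⟨m', hm', hmm'⟩ := hstep m hm
      refine ⟨m', hm', ?_⟩
      rw [hkm, pow_succ 2 j, mul_comm, pow_mul, hmm', ← pow_mul]
      congr 1
      rw [pow_succ, pow_succ]; ring
  have h2 : ∀ k ∈ σ.ker, k ^ 2 = 1 := by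
    intro k hk
    obtain ⟨m, hm, hkm⟩ := hiter n k hk
    rw [hkm, pow_succ, pow_mul, hpow m hm, one_pow]
  refine ub4 e hσ (fun k hk => ?_)
  rw [show 4 = 2 * 2 from rfl, pow_mul, h2 k hk, one_pow]

theorem hasMult {G : Type u} [Group G] (e : S ≃* G) : Cfsg.HasSchurMultiplier G (Multiplicative (ZMod 2 × ZMod 2)) := by
  refine ⟨?_, ?_⟩
  · -- existence
    let j : ULift.{u} T ≃* T := MulEquiv.ulift
    let σ : ULift.{u} T →* G := (e.toMonoidHom.comp pr).comp j.toMonoidHom
    have hσ : ∀ t, σ t = e (pr (j t)) := fun t => rfl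
    have hk : ∀ t, t ∈ σ.ker ↔ j t ∈ pr.ker := by
      intro t
      rw [MonoidHom.mem_ker, MonoidHom.mem_ker, hσ]
      exact ⟨fun h => e.injective (by rw [h, map_one]), fun h => by rw [h, map_one]⟩
    refine ⟨ULift.{u} T, inferInstance, inferInstance, σ, ⟨?_, ?_, ?_⟩, ?_⟩
    · intro g
      obtain ⟨t, ht⟩ := pr_stem.1 (e.symm g)
      refine ⟨j.symm t, ?_⟩
      rw [hσ, MulEquiv.apply_symm_apply, ht, MulEquiv.apply_symm_apply]
    · intro t ht
      rw [hk] at ht
      have h := Subgroup.mem_center_iff.1 (pr_stem.2.1 ht)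
      rw [Subgroup.mem_center_iff]
      intro s
      apply j.injective
      rw [map_mul, map_mul]
      exact h (j s)
    · intro t ht
      rw [hk] at ht
      have h := pr_stem.2.2 ht
      have h2 : (commutator T).map j.symm.toMonoidHom ≤ commutator (ULift.{u} T) := by
        rw [commutator_def, Subgroup.map_commutator, commutator_def]
        exact Subgroup.commutator_mono le_top le_top
      apply h2
      exact ⟨j t, h, j.symm_apply_apply t⟩
    · let k : σ.ker ≃* pr.ker :=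
        { toFun := fun t => ⟨j t.1, (hk t.1).1 t.2⟩
          invFun := fun t => ⟨j.symm t.1, (hk _).2 (by rw [MulEquiv.apply_symm_apply]; exact t.2)⟩
          left_inv := fun t => Subtype.ext (j.symm_apply_apply t.1)
          right_inv := fun t => Subtype.ext (j.apply_symm_apply t.1)
          map_mul' := fun s t => Subtype.ext (map_mul j s.1 t.1) }
      obtain ⟨f⟩ := pr_iso
      exact ⟨k.trans f.symm⟩
  · intro Γ _ _ σ hσ
    obtain ⟨z, w, hz, hw, z2, w2, hcl⟩ := ub e hσ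
    obtain ⟨π, h1, -⟩ := pi_of hz hw z2 w2 (Subgroup.mem_center_iff.1 (hσ.2.1 hw) z) hcl
    exact ⟨π, h1⟩

end Cfsg.Agent.H4.SzB
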