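import Cfsg.Agent.H4_SzG
import Cfsg.Agent.H13_GF8
import Cfsg.Agent.HL_SzTorus
import Cfsg.Agent.HL_SzModelB

/-!
The presented group `S` is Sz(8).
-/

set_option autoImplicit false
set_option maxRecDepth 100000

namespace Cfsg.Agent.H4.SzB

open Cfsg.Agent.H8 Cfsg.Agent.H8.CE Cfsg.Agent.H8.CS Cfsg.Agent.H8.Net Cfsg.Agent.H8.Act Cfsg.Agent.H8.Cox
open Cfsg.Agent.H8.Act2 Cfsg.Agent.H4.Ltr
open Cfsg.Agent.H13.GF8 Cfsg.Agent.HL.Sz Matrix
open scoped MatrixGroups

universe u v w

/-- explicit matrices -/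
def mt (N : ℕ) : Matrix (Fin 4) (Fin 4) GF := Matrix.of fun i j => ofN (N >>> (3 * (4 * i.val + j.val)))

/-- the Tits endomorphism -/
def th8 : GF →+* GF where
  toFun x := (x * x) * (x * x)
  map_one' := by decide +kernel
  map_mul' := by decide +kernel
  map_zero' := by decide +kernel
  map_add' := by decide +kernel

theorem m_one : mt 35185445863425 = 1 := by decide +kernel
theorem m_t : Umat th8 0 (ofN 3) = mt 35185452158657 := by decide +kernel
theorem m_y : Umat th8 (ofN 3) (ofN 2) * Wmat GF = mt 68904526534 := by decide +kernel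

theorem q0 : mt 35185452158657 * mt 35185452158657 = mt 35185445863425 := by decide +kernel
theorem q1 : mt 68904526534 * mt 68904526534 = mt 48821887638622 := by decide +kernel
theorem q2 : mt 48821887638622 * mt 48821887638622 = mt 221627969438208 := by decide +kernel
theorem q3 : mt 221627969438208 * mt 68904526534 = mt 35185445863425 := by decide +kernel
theorem q4 : mt 35185452158657 * mt 68904526534 = mt 68904522460 := by decide +kernel
theorem q5 : mt 68904522460 * mt 68904522460 = mt 50333094021425 := by decide +kernel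
theorem q6 : mt 50333094021425 * mt 50333094021425 = mt 58924617470498 := by decide +kernel
theorem q7 : mt 58924617470498 * mt 58924617470498 = mt 219556384113761 := by decide +kernel
theorem q8 : mt 219556384113761 * mt 58924617470498 = mt 146886948553216 := by decide +kernel
theorem q9 : mt 146886948553216 * mt 68904522460 = mt 35185445863425 := by decide +kernel
theorem q10 : mt 35185452158657 * mt 48821887638622 = mt 48821886322959 := by decide +kernel
theorem q11 : mt 48821886322959 * mt 48821886322959 = mt 42303223404321 := by decide +kernel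
theorem q12 : mt 42303223404321 * mt 42303223404321 = mt 35185445863425 := by decide +kernel
theorem q13 : mt 68904526534 * mt 48821886322959 = mt 159415411434087 := by decide +kernel
theorem q14 : mt 35185452158657 * mt 159415411434087 = mt 159415395533634 := by decide +kernel
theorem q15 : mt 159415395533634 * mt 159415395533634 = mt 169033576639074 := by decide +kernel
theorem q16 : mt 169033576639074 * mt 169033576639074 = mt 214370399882431 := by decide +kernel
theorem q17 : mt 214370399882431 * mt 169033576639074 = mt 89544861270580 := by decide +kernel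
theorem q18 : mt 89544861270580 * mt 159415395533634 = mt 35185445863425 := by decide +kernel
theorem q19 : mt 221627969438208 * mt 48821886322959 = mt 252025627976390 := by decide +kernel
theorem q20 : mt 35185452158657 * mt 252025627976390 = mt 252025632259634 := by decide +kernel
theorem q21 : mt 68904526534 * mt 252025632259634 = mt 249728749067610 := by decide +kernel
theorem q22 : mt 35185452158657 * mt 249728749067610 = mt 249728744831740 := by decide +kernel
theorem q23 : mt 249728744831740 * mt 249728744831740 = mt 168208073381462 := by decide +kernel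
theorem q24 : mt 168208073381462 * mt 168208073381462 = mt 154679059221063 := by decide +kernel
theorem q25 : mt 154679059221063 * mt 249728744831740 = mt 35185445863425 := by decide +kernel

section pw
variable {M : Type*} [Monoid M] {a b c d e i : M}
theorem pw4 (h1 : a * a = b) (h2 : b * b = 1) : a ^ 4 = 1 := by
  rw [show 4 = 2 * 2 from rfl, pow_mul, pow_two a, h1, pow_two, h2]
theorem pw5 (h1 : a * a = b) (h2 : b * b = c) (h3 : c * a = 1) : a ^ 5 = 1 := by
  rw [show 5 = 2 * 2 + 1 from rfl, pow_succ, pow_mul, pow_two a, h1, pow_two, h2, h3]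
theorem pw7 (h1 : a * a = b) (h2 : b * b = c) (h3 : c * b = d) (h4 : d * a = 1) : a ^ 7 = 1 := by
  rw [show 7 = 2 * 3 + 1 from rfl, pow_succ, pow_mul, pow_two a, h1, show 3 = 2 + 1 from rfl, pow_succ, pow_two, h2, h3, h4]
theorem pw13 (h1 : a * a = b) (h2 : b * b = c) (h3 : c * c = d) (h4 : d * c = e) (h5 : e * a = 1) : a ^ 13 = 1 := by
  rw [show 13 = 4 * 3 + 1 from rfl, pow_succ, pow_mul, show 4 = 2 * 2 from rfl, pow_mul, pow_two a, h1, pow_two, h2,
    show 3 = 2 + 1 from rfl, pow_succ, pow_two, h3, h4, h5]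
end pw

section
variable {F : Type u} [Field F] [Fintype F]

theorem umap (f : GF ≃+* F) (θ : F →+* F) (hθ : ∀ x, θ x = x ^ (2 ^ (1 + 1))) (a b : GF) :
    (Umat th8 a b).map f = Umat θ (f a) (f b) := by
  have ht : ∀ x, f (th8 x) = θ (f x) := by
    intro x
    rw [hθ]
    show f ((x * x) * (x * x)) = _
    rw [map_mul, map_mul]; ring
  ext i j
  fin_cases i <;> fin_cases j <;> simp [Umat, ff, ht]

theorem wmap (f : GF ≃+* F) : (Wmat GF).map f = Wmat F := by
  ext i j
  fin_cases i <;> fin_cases j <;> simp [Wmat]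

/-- `g` is given by the explicit matrix `A` -/
def Rp (f : GF ≃+* F) (g : Cfsg.Sz F 1) (A : Matrix (Fin 4) (Fin 4) GF) : Prop := (g.1.1 : Matrix (Fin 4) (Fin 4) F) = A.map f

theorem Rp.mul {f : GF ≃+* F} {g h : Cfsg.Sz F 1} {A B C : Matrix (Fin 4) (Fin 4) GF} (hg : Rp f g A) (hh : Rp f h B)
    (e : A * B = C) : Rp f (g * h) C := by
  show (g.1.1 * h.1.1 : Matrix (Fin 4) (Fin 4) F) = C.map f
  rw [hg, hh, ← e, ← Matrix.map_mul]

theorem Rp.pow {f : GF ≃+* F} {g : Cfsg.Sz F 1} {A : Matrix (Fin 4) (Fin 4) GF} (hg : Rp f g A) (n : ℕ) :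
    Rp f (g ^ n) (A ^ n) := by
  induction n with
  | zero =>
    rw [pow_zero, pow_zero]
    show (1 : Matrix (Fin 4) (Fin 4) F) = (1 : Matrix (Fin 4) (Fin 4) GF).map f
    rw [Matrix.map_one f (map_zero f) (map_one f)]
  | succ n ih => rw [pow_succ, pow_succ]; exact ih.mul hg rfl

theorem Rp.one {f : GF ≃+* F} {g : Cfsg.Sz F 1} (hg : Rp f g 1) : g = 1 := by
  apply Subtype.ext
  apply Subtype.ext
  have h : (g.1.1 : Matrix (Fin 4) (Fin 4) F) = (1 : Matrix (Fin 4) (Fin 4) GF).map f := hg
  rw [Matrix.map_one f (map_zero f) (map_one f)] at h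
  exact h

theorem exists_sr (f : GF ≃+* F) (hF : Fintype.card F = 2 ^ (2 * 1 + 1)) : ∃ t y : Cfsg.Sz F 1, SR t y ∧ t ≠ 1 := by
  obtain ⟨θ, h, hθ⟩ := exists_theta hF
  let t : Cfsg.Sz F 1 := ⟨U θ (f 0) (f (ofN 3)), U_mem h hθ _ _⟩
  let y : Cfsg.Sz F 1 := ⟨U θ (f (ofN 3)) (f (ofN 2)), U_mem h hθ _ _⟩ * ⟨W F, W_mem h hθ⟩
  have ht : Rp f t (mt 35185452158657) := by
    show (Umat θ (f 0) (f (ofN 3)) : Matrix (Fin 4) (Fin 4) F) = _
    rw [← umap f θ hθ, m_t]
  have hy : Rp f y (mt 68904526534) := by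
    show (Umat θ (f (ofN 3)) (f (ofN 2)) * Wmat F : Matrix (Fin 4) (Fin 4) F) = _
    rw [← umap f θ hθ, ← wmap f, ← m_y]
    exact (Matrix.map_mul ..).symm
  have t2 : t * t = 1 := (ht.mul ht (q0.trans m_one)).one
  have y5 : y ^ 5 = 1 := by
    have h1 := hy.pow 5
    rw [pw5 q1 q2 (q3.trans m_one)] at h1
    exact h1.one
  have hx := ht.mul hy q4
  have x13 : (t * y) ^ 13 = 1 := by
    have h1 := hx.pow 13
    rw [pw13 q5 q6 q7 q8 (q9.trans m_one)] at h1
    exact h1.one
  have hyy := hy.mul hy q1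
  have h3 := ht.mul hyy q10
  have r3 : (t * (y * y)) ^ 4 = 1 := by
    have h1 := h3.pow 4
    rw [pw4 q11 (q12.trans m_one)] at h1
    exact h1.one
  have h4 := ht.mul (hy.mul h3 q13) q14
  have r4 : (t * (y * (t * (y * y)))) ^ 7 = 1 := by
    have h1 := h4.pow 7
    rw [pw7 q15 q16 q17 (q18.trans m_one)] at h1
    exact h1.one
  have hyi : Rp f y⁻¹ (mt 221627969438208) := by
    have e : y⁻¹ = (y * y) * (y * y) := by
      rw [inv_eq_iff_mul_eq_one, ← y5]
      simp only [pow_succ, pow_zero, one_mul, mul_assoc]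
    rw [e]
    exact hyy.mul hyy q2
  have h5 := ht.mul (hy.mul (ht.mul (hyi.mul h3 q19) q20) q21) q22
  have r5 : (t * (y * (t * (y⁻¹ * (t * (y * y)))))) ^ 5 = 1 := by
    have h1 := h5.pow 5
    rw [pw5 q23 q24 (q25.trans m_one)] at h1
    exact h1.one
  refine ⟨t, y, ⟨t2, y5, x13, r3, r4, r5⟩, ?_⟩
  intro h1
  have h2 : (Umat θ (f 0) (f (ofN 3)) : Matrix (Fin 4) (Fin 4) F) = 1 := by
    have := congrArg (fun g : Cfsg.Sz F 1 => (g.1.1 : Matrix (Fin 4) (Fin 4) F)) h1
    exact this
  have h3 : f (ofN 3) = 0 := by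
    have := congrFun (congrFun h2 1) 3
    simpa [Umat] using this
  have h4 : ofN 3 = 0 := f.injective (by rw [h3, map_zero])
  exact absurd h4 (by decide +kernel)

theorem exists_e (hF : Fintype.card F = 8) : Nonempty (S ≃* Cfsg.Lie.Sz F 4) := by
  have hF' : Fintype.card F = 2 ^ (2 * 1 + 1) := by rw [hF]; norm_num
  have hc : Fintype.card GF = Fintype.card F := by rw [card_GF, hF]
  let f : GF ≃+* F := FiniteField.ringEquivOfCardEq hc
  obtain ⟨t, y, hsr, hne⟩ := exists_sr f hF'
  obtain ⟨Φ, hΦ⟩ := lift_ok (lS_ok hsr)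
  have hker : Φ.ker = ⊥ := by
    haveI := simpleS
    rcases IsSimpleGroup.eq_bot_or_eq_top_of_normal Φ.ker inferInstance with h | h
    · exact h
    · exfalso
      have h1 : Φ (xg SzS.ic 5 SzS.rels 1) = 1 := by
        have : xg SzS.ic 5 SzS.rels 1 ∈ Φ.ker := by rw [h]; exact Subgroup.mem_top _
        exact this
      rw [hΦ] at h1
      exact hne h1
  have hinj : Function.Injective Φ := (MonoidHom.ker_eq_bot_iff Φ).1 hker
  have hcs : Nat.card (Cfsg.Sz F 1) = 29120 := by
    rw [card_Sz le_rfl hF']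
    norm_num
  haveI : Finite (Cfsg.Sz F 1) := Nat.finite_of_card_ne_zero (by rw [hcs]; decide)
  have hle : Nat.card (Cfsg.Sz F 1) ≤ Nat.card S := by rw [cardS_eq, hcs]
  exact ⟨(MulEquiv.ofBijective Φ (hinj.bijective_of_nat_card_le hle)).trans (modelEquiv le_rfl hF')⟩

end

end Cfsg.Agent.H4.SzB
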