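import Cfsg.Agent.H4_Ltr

/-!
Relators for Sz(8) and its Schur cover.
-/

set_option autoImplicit false
set_option maxRecDepth 100000

namespace Cfsg.Agent.H4.SzS

open Cfsg.Agent.H8 Cfsg.Agent.H8.CE Cfsg.Agent.H8.Net Cfsg.Agent.H8.Act Cfsg.Agent.H8.Cox

/-- inverse letters: `t = 1`, `y = 2`, `y⁻¹ = 3`, `g = 4`, `g⁻¹ = 5` -/
def ic : ℕ := 0x452310

/-- relators of Sz(8) -/
def rels : List (List ℕ) :=
  [powW [2] 5, powW [1, 2] 13, powW [1, 2, 2] 4, powW [1, 2, 1, 2, 2] 7, powW [1, 2, 1, 3, 1, 2, 2] 5,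
    [2, 1, 2, 1, 3, 1, 3, 3, 5]]

end Cfsg.Agent.H4.SzS

namespace Cfsg.Agent.H4.SzT

open Cfsg.Agent.H8 Cfsg.Agent.H8.CE Cfsg.Agent.H8.Net Cfsg.Agent.H8.Act Cfsg.Agent.H8.Cox

/-- inverse letters: `t = 1`, `y = 2`, `y⁻¹ = 3`, `z = 4`, `w = 5` -/
def ic : ℕ := 0x542310

/-- relators of the cover of Sz(8) -/
def rels : List (List ℕ) :=
  [powW [2] 5, powW [1, 2] 13, powW [1, 2, 2] 4, powW [1, 2, 1, 2, 2] 7 ++ [4], powW [1, 2, 1, 3, 1, 2, 2] 5 ++ [5],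
    [4, 1, 4, 1], [5, 1, 5, 1], [4, 2, 4, 3], [5, 2, 5, 3], [4, 5, 4, 5]]

end Cfsg.Agent.H4.SzT
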