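import Mathlib
import Cfsg.Agent.H5_CInv
import Cfsg.Agent.H11_PT2
import Cfsg.Agent.H11_Bal3

/-! 2-components of `C(x) ∩ C(y)` modulo `O(C(y))` under the B-property. -/

set_option autoImplicit false

open Subgroup Cfsg
open scoped commutatorElement

universe u

namespace Cfsg.Agent.H5.BJ

open Cfsg.Agent.H11.Components

theorem aux {G : Type u} [Group G] [Finite G] (hFT : ∀ (X : Type u) [Group X] [Finite X], Odd (Nat.card X) → Group.IsSolvable X)
    (x y : G) (hx : orderOf x = 2) (hxy : x * y = y * x)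
    (hB : HasBProperty (↥(centralizer ({y} : Set G)) ⧸ oddCore ↥(centralizer ({y} : Set G)))) (J : Subgroup G)
    (hJ : Cfsg.Agent.H11.Bal.RelPC 2 J (centralizer ({x} : Set G) ⊓ centralizer ({y} : Set G))) :
    Cfsg.IsComponent
        (((J.subgroupOf (Subgroup.centralizer ({y} : Set G))).map (QuotientGroup.mk' (Cfsg.oddCore ↥(Subgroup.centralizer ({y} : Set G))))).subgroupOf
          (Subgroup.centralizer ({(QuotientGroup.mk' (Cfsg.oddCore ↥(Subgroup.centralizer ({y} : Set G))) ⟨x, Subgroup.mem_centralizer_singleton_iff.mpr hxy⟩ : ↥(Subgroup.centralizer ({y} : Set G)) ⧸ Cfsg.oddCore ↥(Subgroup.centralizer ({y} : Set G)))} : Set _))) ∧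
      ∀ E : Subgroup G, E ≤ Subgroup.centralizer ({x} : Set G) ⊓ Subgroup.centralizer ({y} : Set G) → Odd (Nat.card ↥E) →
        (∀ j ∈ J, ∀ e ∈ E, j * e * j⁻¹ ∈ E) →
          ⁅J, E⁆ ≤ (Cfsg.oddCore ↥(Subgroup.centralizer ({y} : Set G))).map (Subgroup.centralizer ({y} : Set G)).subtype := by
  haveI : Fact (Nat.Prime 2) := ⟨Nat.prime_two⟩
  set Cx := centralizer ({x} : Set G) with hCx
  set Cy := centralizer ({y} : Set G) with hCy
  have hxC : x ∈ Cy := Subgroup.mem_centralizer_singleton_iff.mpr hxy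
  set f : Cy →* Cy ⧸ oddCore Cy := QuotientGroup.mk' (oddCore Cy) with hf
  have hfs : Function.Surjective f := QuotientGroup.mk'_surjective _
  have h3 : Cfsg.Agent.H11.Bal.RelPC 2 (J.subgroupOf Cy) ((Cx ⊓ Cy).subgroupOf Cy) :=
    (Cfsg.Agent.H11.Sub.relPC_subgroupOf inf_le_right hJ.1).2 hJ
  rw [Cfsg.Agent.H11.Sub.centralizer_singleton_subgroupOf hxC, Cfsg.Agent.H11.Bal.centralizer_singleton_eq] at h3
  have hord : orderOf (⟨x, hxC⟩ : Cy) = 2 := by rw [← Subgroup.orderOf_coe]; exact hx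
  have hT : IsPGroup 2 (zpowers (⟨x, hxC⟩ : Cy)) := by
    apply IsPGroup.of_card (n := 1)
    rw [Nat.card_zpowers, hord, pow_one]
  have hcop : (Nat.card (oddCore Cy)).Coprime 2 := Cfsg.Agent.H11.Cores.pPrimeCore_coprime 2
  have hker : (Nat.card f.ker).Coprime 2 := by rw [hf, QuotientGroup.ker_mk']; exact hcop
  have h4 := Cfsg.Agent.H11.LB.relPC_map f hker h3 hfs
  rw [Cfsg.Agent.H11.Bal.map_centralizer_of_coprime_ker f hfs 2 hker hT, MonoidHom.map_zpowers,
    ← Cfsg.Agent.H11.Bal.centralizer_singleton_eq] at h4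
  have hOQ : oddCore (Cy ⧸ oddCore Cy) = ⊥ := Cfsg.Agent.H11.Cores.pPrimeCore_quotient 2
  have hfx : orderOf (f ⟨x, hxC⟩) = 2 := by
    apply orderOf_eq_prime
    · have h8 := pow_orderOf_eq_one (⟨x, hxC⟩ : Cy)
      rw [hord] at h8
      rw [← map_pow, h8, map_one]
    · intro h
      have h5 : (⟨x, hxC⟩ : Cy) ∈ oddCore Cy := by rwa [hf, QuotientGroup.mk'_apply, QuotientGroup.eq_one_iff] at h
      have h6 := orderOf_dvd_natCard (oddCore Cy) h5
      rw [hord] at h6
      have h7 := Nat.Coprime.eq_one_of_dvd hcop.symm h6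
      omega
  have h5 := hB _ hfx
  rw [hOQ, le_bot_iff, Subgroup.map_eq_bot_iff_of_injective _ (subtype_injective _)] at h5
  have hcomp : IsComponent (((J.subgroupOf Cy).map f).subgroupOf (centralizer ({f ⟨x, hxC⟩} : Set (Cy ⧸ oddCore Cy)))) := by
    rw [Cfsg.Agent.H11.PT.isComponent_iff_commutator 2 h4.2, eq_bot_iff, ← h5]
    exact commutator_mono (Cfsg.Agent.H11.PComp.le_pLayer h4.2) le_rfl
  refine ⟨hcomp, ?_⟩
  intro E hE hEo hJE
  have hEs : Group.IsSolvable E := hFT E hEo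
  set C := centralizer ({f ⟨x, hxC⟩} : Set (Cy ⧸ oddCore Cy)) with hC
  have hEC : (E.subgroupOf Cy).map f ≤ C := by
    rintro _ ⟨e, he, rfl⟩
    rw [hC, mem_centralizer_singleton_iff, ← map_mul, ← map_mul]
    congr 1
    apply Subtype.ext
    have := (hE he).1
    rw [hCx] at this
    exact mem_centralizer_singleton_iff.1 this
  have hs : Group.IsSolvable (((E.subgroupOf Cy).map f).subgroupOf C) := by
    haveI e1 : Group.IsSolvable (E.subgroupOf Cy) := Group.isSolvable_of_isSolvable_injective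
      (f := (subgroupOfEquivOfLe (hE.trans inf_le_right) : E.subgroupOf Cy ≃* E).toMonoidHom)
      (subgroupOfEquivOfLe (hE.trans inf_le_right)).injective
    haveI e2 : Group.IsSolvable ((E.subgroupOf Cy).map f) := Group.isSolvable_of_surjective
      (f := f.subgroupMap (E.subgroupOf Cy)) (f.subgroupMap_surjective _)
    exact Group.isSolvable_of_isSolvable_injective
      (f := (subgroupOfEquivOfLe hEC : ((E.subgroupOf Cy).map f).subgroupOf C ≃* (E.subgroupOf Cy).map f).toMonoidHom)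
      (subgroupOfEquivOfLe hEC).injective
  have hn : ((J.subgroupOf Cy).map f).subgroupOf C ≤ normalizer ((((E.subgroupOf Cy).map f).subgroupOf C : Subgroup C) : Set C) := by
    rintro ⟨_, hjC⟩ ⟨j, hj, rfl⟩
    apply mem_normalizer_fintype
    intro e he
    obtain ⟨e', he', hee⟩ : (e : Cy ⧸ oddCore Cy) ∈ (E.subgroupOf Cy).map f := he
    refine ⟨j * e' * j⁻¹, hJE _ hj _ he', ?_⟩
    rw [map_mul, map_mul, map_inv, hee]
    rfl
  have h6 := commutator_eq_bot_of_solvable_of_le_normalizer hcomp hs hn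
  rw [commutator_subgroupOf_eq_bot_iff h4.1 hEC, ← Subgroup.map_commutator, Subgroup.map_eq_bot_iff, hf, QuotientGroup.ker_mk'] at h6
  have h7 := map_mono (f := Cy.subtype) h6
  rw [Subgroup.map_commutator, map_subgroupOf_eq_of_le (hJ.1.trans inf_le_right), map_subgroupOf_eq_of_le (hE.trans inf_le_right)] at h7
  exact h7

end Cfsg.Agent.H5.BJ
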