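import Mathlib

set_option autoImplicit false

/-! `D / D^n` for a finite cyclic group. -/

namespace Cfsg.Agent.H5.Cyc

/-- For a finite cyclic group `D` of order `N`, there is a surjection onto the cyclic group of order
`gcd(n, N)` with kernel the `n`-th powers. -/
theorem exists_quot {D : Type*} [CommGroup D] [Finite D] [IsCyclic D] (n N : ℕ)
    (hN : Nat.card D = N) :
    ∃ ψ : D →* Multiplicative (ZMod (Nat.gcd n N)), Function.Surjective ψ ∧
      ψ.ker = (powMonoidHom n : D →* D).range := by
  subst hN
  set R := (powMonoidHom n : D →* D).range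
  have hcyc : IsCyclic (D ⧸ R) := isCyclic_of_surjective (QuotientGroup.mk' R)
    (QuotientGroup.mk'_surjective R)
  have hcard : Nat.card (D ⧸ R) = Nat.gcd n (Nat.card D) := by
    rw [← Subgroup.index_eq_card, IsCyclic.index_powMonoidHom_range, Nat.gcd_comm]
  let e := zmodCyclicMulEquiv hcyc
  rw [← hcard]
  refine ⟨e.symm.toMonoidHom.comp (QuotientGroup.mk' R), ?_, ?_⟩
  · exact e.symm.surjective.comp (QuotientGroup.mk'_surjective R)
  · ext x
    rw [MonoidHom.mem_ker, MonoidHom.comp_apply]
    change e.symm (QuotientGroup.mk' R x) = 1 ↔ _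
    rw [MulEquiv.map_eq_one_iff, ← MonoidHom.mem_ker, QuotientGroup.ker_mk']

end Cfsg.Agent.H5.Cyc
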