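import Mathlib
import Cfsg.Agent.H5_FrmOrth
import Cfsg.Prelude.Def_GeometricClasses

set_option autoImplicit false

/-! Maps whose square is a scalar permute the summands of suitable decompositions. -/

namespace Cfsg.Agent.H5.Der

section Comb

variable {α : Type*} [DecidableEq α] (τ : α → α) (hτ : ∀ x, τ (τ x) = x)

include hτ in
theorem grow (A : Finset α) (hA : ∀ x ∈ A, τ x ∈ A) (S0 : Finset α) (hS0 : S0 ⊆ A)
    (hS0τ : ∀ x ∈ S0, τ x ∈ S0) :
    ∀ j, S0.card + 2 * j ≤ A.card → ∃ S, S0 ⊆ S ∧ S ⊆ A ∧ (∀ x ∈ S, τ x ∈ S) ∧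
      S.card = S0.card + 2 * j := by
  intro j
  induction j with
  | zero => intro _; exact ⟨S0, subset_rfl, hS0, hS0τ, rfl⟩
  | succ j ih =>
    intro hj
    obtain ⟨S, h1, h2, h3, h4⟩ := ih (by omega)
    have h5 : 2 ≤ (A \ S).card := by
      rw [Finset.card_sdiff_of_subset h2]
      omega
    have key : ∀ x y, x ∈ A \ S → y ∈ A \ S → x ≠ y → (τ x = y ∨ (τ x = x ∧ τ y = y)) →
        ∃ S', S0 ⊆ S' ∧ S' ⊆ A ∧ (∀ x ∈ S', τ x ∈ S') ∧ S'.card = S0.card + 2 * (j + 1) := by
      intro x y hx hy hxy h
      rw [Finset.mem_sdiff] at hx hy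
      have hy1 : y ∉ S := hy.2
      have hx1 : x ∉ insert y S := by
        rw [Finset.mem_insert]
        rintro (h | h)
        · exact hxy h
        · exact hx.2 h
      refine ⟨insert x (insert y S), fun z hz => ?_, fun z hz => ?_, fun z hz => ?_, ?_⟩
      · exact Finset.mem_insert_of_mem (Finset.mem_insert_of_mem (h1 hz))
      · rw [Finset.mem_insert, Finset.mem_insert] at hz
        rcases hz with rfl | rfl | hz
        · exact hx.1
        · exact hy.1
        · exact h2 hz
      · rw [Finset.mem_insert, Finset.mem_insert] at hz ⊢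
        rcases hz with rfl | rfl | hz
        · rcases h with h | h
          · exact Or.inr (Or.inl h)
          · exact Or.inl h.1
        · rcases h with h | h
          · left
            rw [← h, hτ]
          · exact Or.inr (Or.inl h.2)
        · exact Or.inr (Or.inr (h3 z hz))
      · rw [Finset.card_insert_of_notMem hx1, Finset.card_insert_of_notMem hy1, h4]
        ring
    by_cases h6 : ∃ x ∈ A \ S, τ x ≠ x
    · obtain ⟨x, hx, hxx⟩ := h6
      refine key x (τ x) hx ?_ (Ne.symm hxx) (Or.inl rfl)
      rw [Finset.mem_sdiff] at hx ⊢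
      refine ⟨hA x hx.1, fun h => hx.2 ?_⟩
      have := h3 _ h
      rwa [hτ] at this
    · push Not at h6
      obtain ⟨x, hx, y, hy, hxy⟩ := Finset.one_lt_card.1 h5
      exact key x y hx hy hxy (Or.inr ⟨h6 x hx, h6 y hy⟩)

include hτ in
theorem swapSet (A : Finset α) (hA : ∀ x ∈ A, τ x ∈ A) (hfix : ∀ x ∈ A, τ x ≠ x) :
    ∀ j, 2 * j ≤ A.card → ∃ S, S ⊆ A ∧ (∀ x ∈ S, τ x ∉ S) ∧ S.card = j := by
  intro j
  induction j with
  | zero => intro _; exact ⟨∅, Finset.empty_subset _, fun x hx => absurd hx (Finset.notMem_empty _), rfl⟩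
  | succ j ih =>
    intro hj
    obtain ⟨S, h1, h2, h3⟩ := ih (by omega)
    have h4 : ((S ∪ S.image τ)).card < A.card := by
      refine lt_of_le_of_lt (Finset.card_union_le _ _) ?_
      have := Finset.card_image_le (s := S) (f := τ)
      omega
    obtain ⟨x, hx, hxS⟩ := Finset.exists_mem_notMem_of_card_lt_card h4
    rw [Finset.mem_union, Finset.mem_image] at hxS
    push Not at hxS
    refine ⟨insert x S, fun z hz => ?_, fun z hz => ?_, ?_⟩
    · rw [Finset.mem_insert] at hz
      rcases hz with rfl | hz
      · exact hx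
      · exact h1 hz
    · rw [Finset.mem_insert] at hz ⊢
      push Not
      rcases hz with rfl | hz
      · refine ⟨hfix _ hx, fun h => ?_⟩
        exact hxS.2 _ h (hτ _)
      · exact ⟨hxS.2 z hz, h2 z hz⟩
    · rw [Finset.card_insert_of_notMem hxS.1, h3]

include hτ in
theorem blocks (a : ℕ) : ∀ t (A : Finset α), A.card = a * t → (∀ x ∈ A, τ x ∈ A) →
    ∃ D : Fin t → Finset α, (∀ j, (D j).card = a) ∧ (∀ j, D j ⊆ A) ∧
      (∀ i j, i ≠ j → Disjoint (D i) (D j)) ∧ (∀ x ∈ A, ∃ j, x ∈ D j) ∧
      ∃ σ : Fin t → Fin t, ∀ j, ∀ x ∈ D j, τ x ∈ D (σ j) := by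
  intro t
  induction t using Nat.strong_induction_on with
  | _ t ih =>
    intro A hcard hA
    rcases Nat.eq_zero_or_pos t with rfl | htpos
    · have hA0 : A = ∅ := by
        rw [← Finset.card_eq_zero, hcard, mul_zero]
      refine ⟨fun j => j.elim0, fun j => j.elim0, fun j => j.elim0, fun j => j.elim0, ?_, fun j => j.elim0,
        fun j => j.elim0⟩
      rw [hA0]
      intro x hx
      exact absurd hx (Finset.notMem_empty _)
    by_cases hS : ∃ S ⊆ A, (∀ x ∈ S, τ x ∈ S) ∧ S.card = a
    · obtain ⟨S, hSA, hSτ, hSc⟩ := hS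
      obtain ⟨s, rfl⟩ : ∃ s, t = s + 1 := ⟨t - 1, by omega⟩
      have hc' : (A \ S).card = a * s := by
        rw [Finset.card_sdiff_of_subset hSA, hcard, hSc, mul_add, mul_one, Nat.add_sub_cancel]
      obtain ⟨D, h1, h2, h3, h4, σ, h5⟩ := ih s (by omega) (A \ S) hc' (by
        intro x hx
        rw [Finset.mem_sdiff] at hx ⊢
        refine ⟨hA x hx.1, fun h => hx.2 ?_⟩
        have := hSτ _ h
        rwa [hτ] at this)
      have hdis : ∀ j, Disjoint S (D j) := fun j =>
        Finset.disjoint_of_subset_right (h2 j) Finset.disjoint_sdiff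
      refine ⟨Fin.cons S D, fun j => ?_, fun j => ?_, fun i j hij => ?_, fun x hx => ?_,
        Fin.cons 0 (fun j => (σ j).succ), fun j => ?_⟩
      · refine Fin.cases ?_ (fun j => ?_) j
        · exact hSc
        · exact h1 j
      · refine Fin.cases ?_ (fun j => ?_) j
        · exact hSA
        · exact (h2 j).trans Finset.sdiff_subset
      · revert hij
        refine Fin.cases ?_ (fun i => ?_) i <;> refine Fin.cases ?_ (fun j => ?_) j
        · intro h; exact absurd rfl h
        · intro _; exact hdis j
        · intro _; exact (hdis i).symm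
        · intro h
          exact h3 i j (fun h' => h (by rw [h']))
      · by_cases hxS : x ∈ S
        · exact ⟨0, hxS⟩
        · obtain ⟨j, hj⟩ := h4 x (Finset.mem_sdiff.2 ⟨hx, hxS⟩)
          exact ⟨j.succ, hj⟩
      · refine Fin.cases ?_ (fun j => ?_) j
        · exact hSτ
        · exact h5 j
    · push Not at hS
      -- t ≥ 2
      have ht1 : t ≠ 1 := by
        rintro rfl
        exact hS A subset_rfl hA (by rw [hcard, mul_one])
      have hge : 2 * a ≤ A.card := by
        rw [hcard, mul_comm]
        exact Nat.mul_le_mul_left _ (by omega)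
      -- a is odd
      have hodd : ¬ Even a := by
        rintro ⟨k, hk⟩
        obtain ⟨S, _, h2, h3, h4⟩ := grow τ hτ A hA ∅ (Finset.empty_subset _)
          (fun x hx => absurd hx (Finset.notMem_empty _)) k (by rw [Finset.card_empty]; omega)
        refine hS S h2 h3 ?_
        rw [h4, Finset.card_empty]
        omega
      have hfix : ∀ x ∈ A, τ x ≠ x := by
        intro x hx hxx
        obtain ⟨k, hk⟩ := Nat.not_even_iff_odd.1 hodd
        obtain ⟨S, _, h2, h3, h4⟩ := grow τ hτ A hA {x} (Finset.singleton_subset_iff.2 hx)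
          (fun y hy => by
            rw [Finset.mem_singleton] at hy ⊢
            rw [hy, hxx]) k (by rw [Finset.card_singleton]; omega)
        refine hS S h2 h3 ?_
        rw [h4, Finset.card_singleton]
        omega
      obtain ⟨S, hSA, hSτ, hSc⟩ := swapSet τ hτ A hA hfix a hge
      have hinj : Function.Injective τ := fun x y h => by rw [← hτ x, h, hτ]
      have hTc : (S.image τ).card = a := by rw [Finset.card_image_of_injective _ hinj, hSc]
      have hTA : S.image τ ⊆ A := by
        intro x hx
        obtain ⟨y, hy, rfl⟩ := Finset.mem_image.1 hx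
        exact hA y (hSA hy)
      have hST : Disjoint S (S.image τ) := by
        rw [Finset.disjoint_left]
        intro x hx hx'
        obtain ⟨y, hy, rfl⟩ := Finset.mem_image.1 hx'
        exact hSτ y hy hx
      obtain ⟨s, rfl⟩ : ∃ s, t = s + 1 + 1 := ⟨t - 2, by omega⟩
      have hc' : (A \ (S ∪ S.image τ)).card = a * s := by
        rw [Finset.card_sdiff_of_subset (Finset.union_subset hSA hTA), hcard,
          Finset.card_union_of_disjoint hST, hSc, hTc]
        have : a * (s + 1 + 1) = a * s + (a + a) := by ring
        rw [this, Nat.add_sub_cancel]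
      obtain ⟨D, h1, h2, h3, h4, σ, h5⟩ := ih s (by omega) (A \ (S ∪ S.image τ)) hc' (by
        intro x hx
        rw [Finset.mem_sdiff, Finset.mem_union] at hx ⊢
        refine ⟨hA x hx.1, fun h => hx.2 ?_⟩
        rcases h with h | h
        · right
          exact Finset.mem_image.2 ⟨τ x, h, hτ x⟩
        · left
          obtain ⟨y, hy, hyx⟩ := Finset.mem_image.1 h
          rwa [← hinj hyx])
      have hdis : ∀ j, Disjoint S (D j) := fun j =>
        Finset.disjoint_of_subset_right (h2 j)
          (Finset.disjoint_of_subset_left Finset.subset_union_left Finset.disjoint_sdiff)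
      have hdis' : ∀ j, Disjoint (S.image τ) (D j) := fun j =>
        Finset.disjoint_of_subset_right (h2 j)
          (Finset.disjoint_of_subset_left Finset.subset_union_right Finset.disjoint_sdiff)
      refine ⟨Fin.cons S (Fin.cons (S.image τ) D), fun j => ?_, fun j => ?_, fun i j hij => ?_, fun x hx => ?_,
        Fin.cons 1 (Fin.cons 0 (fun j => (σ j).succ.succ)), fun j => ?_⟩
      · refine Fin.cases ?_ (fun j => ?_) j
        · exact hSc
        · refine Fin.cases ?_ (fun j => ?_) j
          · exact hTc
          · exact h1 j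
      · refine Fin.cases ?_ (fun j => ?_) j
        · exact hSA
        · refine Fin.cases ?_ (fun j => ?_) j
          · exact hTA
          · exact (h2 j).trans Finset.sdiff_subset
      · revert hij
        refine Fin.cases ?_ (fun i => Fin.cases ?_ (fun i => ?_) i) i <;>
          refine Fin.cases ?_ (fun j => Fin.cases ?_ (fun j => ?_) j) j
        · intro h; exact absurd rfl h
        · intro _; exact hST
        · intro _; exact hdis j
        · intro _; exact hST.symm
        · intro h; exact absurd rfl h
        · intro _; exact hdis' j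
        · intro _; exact (hdis i).symm
        · intro _; exact (hdis' i).symm
        · intro h
          exact h3 i j (fun h' => h (by rw [h']))
      · by_cases hxS : x ∈ S
        · exact ⟨0, hxS⟩
        · by_cases hxT : x ∈ S.image τ
          · exact ⟨1, hxT⟩
          · obtain ⟨j, hj⟩ := h4 x (Finset.mem_sdiff.2 ⟨hx, fun h => by
              rcases Finset.mem_union.1 h with h | h
              · exact hxS h
              · exact hxT h⟩)
            exact ⟨j.succ.succ, hj⟩
      · refine Fin.cases ?_ (fun j => Fin.cases ?_ (fun j => ?_) j) j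
        · intro x hx
          exact Finset.mem_image_of_mem τ hx
        · intro x hx
          obtain ⟨y, hy, rfl⟩ := Finset.mem_image.1 hx
          change τ (τ y) ∈ S
          rw [hτ]
          exact hy
        · exact h5 j

end Comb

end Cfsg.Agent.H5.Der
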