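import Mathlib
import Cfsg.Agent.H5_Der1

set_option autoImplicit false

namespace Cfsg.Agent.H5.Der

open Module

section Span

variable {F : Type*} [Field F] {V : Type*} [AddCommGroup V] [Module F V]

theorem finrank_span_basis {κ : Type*} (b : Basis κ F V) (D : Finset κ) :
    finrank F (Submodule.span F (b '' (D : Set κ))) = D.card := by
  have h1 : LinearIndependent F (fun i : D => b i) := b.linearIndependent.comp _ Subtype.val_injective
  have h2 := finrank_span_eq_card h1
  rw [Fintype.card_coe] at h2
  have h3 : b '' (D : Set κ) = Set.range (fun i : D => b i) := by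
    ext v
    constructor
    · rintro ⟨i, hi, rfl⟩
      exact ⟨⟨i, hi⟩, rfl⟩
    · rintro ⟨i, rfl⟩
      exact ⟨i, i.2, rfl⟩
  rw [h3, h2]

theorem indep_of_basis {κ : Type*} (b : Basis κ F V) {t : ℕ} (D : Fin t → Set κ)
    (hdis : ∀ i j, i ≠ j → Disjoint (D i) (D j)) :
    iSupIndep (fun j => Submodule.span F (b '' (D j))) := by
  intro i
  have h1 : (⨆ (j : Fin t) (_ : j ≠ i), Submodule.span F (b '' (D j))) ≤
      Submodule.span F (b '' (⋃ (j : Fin t) (_ : j ≠ i), D j)) := by
    refine iSup₂_le (fun j hj => Submodule.span_mono (Set.image_mono ?_))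
    exact Set.subset_biUnion_of_mem (u := fun j => D j) (show j ∈ {j | j ≠ i} from hj)
  refine Disjoint.mono_right h1 (b.linearIndependent.disjoint_span_image ?_)
  rw [Set.disjoint_iUnion₂_right]
  intro j hj
  exact hdis i j (Ne.symm hj)

theorem top_of_basis {κ : Type*} (b : Basis κ F V) {t : ℕ} (D : Fin t → Set κ)
    (hcov : ∀ x, ∃ j, x ∈ D j) :
    (⨆ j, Submodule.span F (b '' (D j))) = ⊤ := by
  rw [eq_top_iff, ← b.span_eq, Submodule.span_le]
  rintro _ ⟨i, rfl⟩
  obtain ⟨j, hj⟩ := hcov i
  exact (le_iSup (fun j => Submodule.span F (b '' (D j))) j) (Submodule.subset_span ⟨i, hj, rfl⟩)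

end Span

section Lines

variable {F : Type*} [Field F]

theorem exists_lines (n : ℕ) : ∀ {V : Type*} [AddCommGroup V] [Module F V] [FiniteDimensional F V]
    (x : V →ₗ[F] V) (z : F) (_ : z ≠ 0) (_ : ∀ v, x (x v) = z • v) (_ : finrank F V = n),
    ∃ (κ : Type) (_ : Fintype κ) (b : Basis κ F V) (τ : κ → κ), (∀ i, τ (τ i) = i) ∧
      ∀ i, ∃ c : F, x (b i) = c • b (τ i) := by
  induction n using Nat.strong_induction_on with
  | _ n ih =>
  intro V _ _ _ x z hz hx hn
  by_cases hall : ∀ v, x v ∈ Submodule.span F {v}
  · refine ⟨Fin (finrank F V), inferInstance, finBasis F V, id, fun _ => rfl, fun i => ?_⟩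
    obtain ⟨c, hc⟩ := Submodule.mem_span_singleton.1 (hall (finBasis F V i))
    exact ⟨c, hc.symm⟩
  · push Not at hall
    obtain ⟨v, hv⟩ := hall
    obtain ⟨φ', hφ1, hφ2⟩ := Submodule.exists_dual_map_eq_bot_of_notMem hv inferInstance
    have hφv' : φ' v = 0 := by
      have : φ' v ∈ (Submodule.span F {v}).map φ' := ⟨v, Submodule.mem_span_singleton_self v, rfl⟩
      rwa [hφ2, Submodule.mem_bot] at this
    -- normalise
    set φ : V →ₗ[F] F := (φ' (x v))⁻¹ • φ' with hφ
    have hφv : φ v = 0 := by rw [hφ, LinearMap.smul_apply, hφv', smul_zero]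
    have hφx : φ (x v) = 1 := by rw [hφ, LinearMap.smul_apply, smul_eq_mul, inv_mul_cancel₀ hφ1]
    set C : Submodule F V := LinearMap.ker φ ⊓ LinearMap.ker (φ ∘ₗ x) with hC
    have hCm : ∀ w, w ∈ C ↔ φ w = 0 ∧ φ (x w) = 0 := fun w => by
      rw [hC, Submodule.mem_inf, LinearMap.mem_ker, LinearMap.mem_ker, LinearMap.comp_apply]
    have hCx : ∀ w ∈ C, x w ∈ C := by
      intro w hw
      rw [hCm] at hw ⊢
      refine ⟨hw.2, ?_⟩
      rw [hx, _root_.map_smul, hw.1, smul_zero]
    set P : Submodule F V := Submodule.span F {v, x v} with hP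
    have hcompl : IsCompl P C := by
      constructor
      · rw [Submodule.disjoint_def]
        intro w hw hwC
        rw [hP, Submodule.mem_span_pair] at hw
        obtain ⟨α, β, rfl⟩ := hw
        rw [hCm] at hwC
        have h1 : β = 0 := by
          have := hwC.1
          rw [_root_.map_add, _root_.map_smul, _root_.map_smul, hφv, hφx, smul_zero, zero_add,
            smul_eq_mul, mul_one] at this
          exact this
        have h2 : α = 0 := by
          have := hwC.2
          rw [h1, zero_smul, add_zero, _root_.map_smul, _root_.map_smul, hφx, smul_eq_mul, mul_one] at this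
          exact this
        rw [h1, h2, zero_smul, zero_smul, add_zero]
      · rw [codisjoint_iff, eq_top_iff]
        intro w _
        rw [Submodule.mem_sup]
        refine ⟨φ (x w) • v + φ w • x v, ?_, w - (φ (x w) • v + φ w • x v), ?_, by abel⟩
        · rw [hP, Submodule.mem_span_pair]
          exact ⟨_, _, rfl⟩
        · rw [hCm]
          constructor
          · rw [_root_.map_sub, _root_.map_add, _root_.map_smul, _root_.map_smul, hφv, hφx, smul_zero, zero_add,
              smul_eq_mul, mul_one, sub_self]
          · rw [_root_.map_sub, _root_.map_sub, _root_.map_add, _root_.map_add, _root_.map_smul, _root_.map_smul, _root_.map_smul,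
              _root_.map_smul, hx, _root_.map_smul, hφv, hφx, smul_zero, smul_zero, add_zero,
              smul_eq_mul, mul_one, sub_self]
    have hli : LinearIndependent F ![v, x v] := by
      rw [LinearIndependent.pair_iff]
      intro α β h
      have h1 : β = 0 := by
        have := congrArg φ h
        rw [_root_.map_add, _root_.map_smul, _root_.map_smul, hφv, hφx, smul_zero, zero_add,
          smul_eq_mul, mul_one, _root_.map_zero] at this
        exact this
      have h2 : α = 0 := by
        rw [h1, zero_smul, add_zero] at h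
        have := congrArg (fun y => φ (x y)) h
        simp only [_root_.map_smul, hφx, smul_eq_mul, mul_one, _root_.map_zero] at this
        exact this
      exact ⟨h2, h1⟩
    have hPr : P = Submodule.span F (Set.range ![v, x v]) := by
      rw [hP, Matrix.range_cons, Matrix.range_cons, Matrix.range_empty, Set.union_empty]
      rfl
    have hrank : finrank F P = 2 := by
      rw [hPr, finrank_span_eq_card hli, Fintype.card_fin]
    have hsum := Submodule.finrank_add_eq_of_isCompl hcompl
    obtain ⟨κ, hκ, b, τ, hτ, hb⟩ := ih (finrank F C) (by omega) (x.restrict hCx) z hz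
      (fun w => Subtype.ext (hx w)) rfl
    let bP : Basis (Fin 2) F P := (Basis.span hli).map (LinearEquiv.ofEq _ _ hPr.symm)
    have hbP : ∀ i, ((bP i : P) : V) = ![v, x v] i := by
      intro i
      rw [Basis.map_apply, LinearEquiv.coe_ofEq_apply, Basis.span_apply]
    let B : Basis (Fin 2 ⊕ κ) F V := (bP.prod b).map (Submodule.prodEquivOfIsCompl P C hcompl)
    have hB1 : ∀ i, B (Sum.inl i) = ![v, x v] i := by
      intro i
      rw [Basis.map_apply, ← hbP, Submodule.coe_prodEquivOfIsCompl', Basis.prod_apply_inl_fst,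
        Basis.prod_apply_inl_snd, Submodule.coe_zero, add_zero]
    have hB2 : ∀ i, B (Sum.inr i) = (b i : V) := by
      intro i
      rw [Basis.map_apply, Submodule.coe_prodEquivOfIsCompl', Basis.prod_apply_inr_fst,
        Basis.prod_apply_inr_snd, Submodule.coe_zero, zero_add]
    refine ⟨Fin 2 ⊕ κ, inferInstance, B, Sum.map (fun i => 1 - i) τ, ?_, ?_⟩
    · rintro (i | i)
      · simp only [Sum.map_inl, Sum.inl.injEq]
        fin_cases i <;> rfl
      · simp only [Sum.map_inr, Sum.inr.injEq]
        exact hτ i
    · rintro (i | i)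
      · rw [Sum.map_inl, hB1, hB1]
        fin_cases i
        · refine ⟨1, ?_⟩
          rw [one_smul]
          rfl
        · exact ⟨z, hx v⟩
      · obtain ⟨c, hc⟩ := hb i
        refine ⟨c, ?_⟩
        rw [Sum.map_inr, hB2, hB2]
        exact congrArg Subtype.val hc

end Lines

end Cfsg.Agent.H5.Der
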