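import Mathlib
import Cfsg.Agent.H5_Der2
import Cfsg.Agent.H5_Concrete

set_option autoImplicit false

namespace Cfsg.Agent.H5.Der

open Module

universe u

variable {F : Type*} [Field F]

/-- alternating forms -/
abbrev SF (F : Type*) [Field F] (V : Type*) [AddCommGroup V] [Module F V] : Type _ :=
  Frm F (RingHom.id F) (-1) (0 : F →+ F) V

section basic

variable {V : Type*} [AddCommGroup V] [Module F V] (A : SF F V)

theorem bsl (c : F) (x y : V) : A.B (c • x) y = c * A.B x y := by
  rw [LinearMap.map_smulₛₗ, LinearMap.smul_apply]; rfl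

theorem bsr (c : F) (x y : V) : A.B x (c • y) = c * A.B x y := by
  rw [LinearMap.map_smul]; rfl

theorem bal (x x' y : V) : A.B (x + x') y = A.B x y + A.B x' y := by
  rw [LinearMap.map_add, LinearMap.add_apply]

theorem bar (x y y' : V) : A.B x (y + y') = A.B x y + A.B x y' := by
  rw [LinearMap.map_add]

theorem bneg (x y : V) : A.B y x = - A.B x y := by
  rw [A.symm, RingHom.id_apply, neg_one_mul]

end basic

/-- a hyperbolic family compatible with `x`. -/
structure Good (S1 S2 : Set (F × F)) {V : Type*} [AddCommGroup V] [Module F V] (A : SF F V) (x : V →ₗ[F] V)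
    {κ : Type} (e f : κ → V) (τ : κ → κ) : Prop where
  ee : ∀ i j, A.B (e i) (e j) = 0
  ff : ∀ i j, A.B (f i) (f j) = 0
  ef : ∀ i, A.B (e i) (f i) = 1
  ef' : ∀ i j, i ≠ j → A.B (e i) (f j) = 0
  inv : ∀ i, τ (τ i) = i
  xe : ∀ i, ∃ p ∈ S1, x (e i) = p.1 • e (τ i) + p.2 • f (τ i)
  xf : ∀ i, ∃ p ∈ S2, x (f i) = p.1 • e (τ i) + p.2 • f (τ i)

theorem hyp_induct (S1 S2 : Set (F × F)) (z : F) (hz : z ≠ 0)
    (step : ∀ (V : Type u) [AddCommGroup V] [Module F V] [FiniteDimensional F V] (A : SF F V) (_ : A.Nondeg)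
      (_ : ∀ v, A.B v v = 0)
      (x : V →ₗ[F] V) (_ : ∀ u v, A.B (x u) (x v) = A.B u v) (_ : ∀ v, x (x v) = z • v), Nontrivial V →
      ∃ (κ : Type) (_ : Fintype κ) (_ : Nonempty κ) (e f : κ → V) (τ : κ → κ), Good S1 S2 A x e f τ) (n : ℕ) :
    ∀ (V : Type u) [AddCommGroup V] [Module F V] [FiniteDimensional F V] (A : SF F V) (_ : A.Nondeg)
      (_ : ∀ v, A.B v v = 0)
      (x : V →ₗ[F] V) (_ : ∀ u v, A.B (x u) (x v) = A.B u v) (_ : ∀ v, x (x v) = z • v), finrank F V = n →
      ∃ (κ : Type) (_ : Fintype κ) (e f : κ → V) (τ : κ → κ), Good S1 S2 A x e f τ ∧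
        ∀ v, v ∈ Submodule.span F (Set.range e ∪ Set.range f) := by
  induction n using Nat.strong_induction_on with
  | _ n ih =>
  intro V _ _ _ A hA hQ x hx hxx hn
  rcases Nat.eq_zero_or_pos n with rfl | hpos
  · haveI := Module.finrank_zero_iff.1 hn
    refine ⟨Empty, inferInstance, Empty.elim, Empty.elim, id, ⟨fun i => i.elim, fun i => i.elim, fun i => i.elim,
      fun i => i.elim, fun _ => rfl, fun i => i.elim, fun i => i.elim⟩, fun v => ?_⟩
    rw [Subsingleton.elim v 0]
    exact Submodule.zero_mem _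
  · haveI : Nontrivial V := Module.nontrivial_of_finrank_pos (R := F) (by omega)
    obtain ⟨κ, hκ, hne, e, f, τ, hg⟩ := step V A hA hQ x hx hxx this
    set P : Submodule F V := Submodule.span F (Set.range e ∪ Set.range f) with hP
    have heP : ∀ i, e i ∈ P := fun i => Submodule.subset_span (Or.inl ⟨i, rfl⟩)
    have hfP : ∀ i, f i ∈ P := fun i => Submodule.subset_span (Or.inr ⟨i, rfl⟩)
    set C : Submodule F V := A.orth P with hC
    have hCm : ∀ w, w ∈ C ↔ (∀ i, A.B (e i) w = 0) ∧ ∀ i, A.B (f i) w = 0 := by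
      intro w
      constructor
      · intro h
        exact ⟨fun i => h _ (heP i), fun i => h _ (hfP i)⟩
      · rintro ⟨h1, h2⟩ p hp
        rw [hP] at hp
        induction hp using Submodule.span_induction with
        | mem x hx =>
          rcases hx with ⟨i, rfl⟩ | ⟨i, rfl⟩
          · exact h1 i
          · exact h2 i
        | zero => rw [LinearMap.map_zero, LinearMap.zero_apply]
        | add x y _ _ hx hy => rw [bal, hx, hy, add_zero]
        | smul c x _ hx => rw [bsl, hx, mul_zero]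
    have hPx : ∀ p ∈ P, x p ∈ P := by
      intro p hp
      rw [hP] at hp
      induction hp using Submodule.span_induction with
      | mem y hy =>
        rcases hy with ⟨i, rfl⟩ | ⟨i, rfl⟩
        · obtain ⟨q, _, hq⟩ := hg.xe i
          rw [hq]
          exact P.add_mem (P.smul_mem _ (heP _)) (P.smul_mem _ (hfP _))
        · obtain ⟨q, _, hq⟩ := hg.xf i
          rw [hq]
          exact P.add_mem (P.smul_mem _ (heP _)) (P.smul_mem _ (hfP _))
      | zero => rw [LinearMap.map_zero]; exact P.zero_mem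
      | add a b _ _ ha hb => rw [LinearMap.map_add]; exact P.add_mem ha hb
      | smul c a _ ha => rw [LinearMap.map_smul]; exact P.smul_mem _ ha
    have hCx : ∀ w ∈ C, x w ∈ C := by
      intro w hw p hp
      have h1 : p = x (z⁻¹ • x p) := by
        rw [LinearMap.map_smul, hxx, smul_smul, inv_mul_cancel₀ hz, one_smul]
      rw [h1, hx]
      exact hw _ (P.smul_mem _ (hPx p hp))
    -- projection
    have hfe : ∀ i, A.B (f i) (e i) = -1 := fun i => by rw [bneg, hg.ef]
    have hfe' : ∀ i j, i ≠ j → A.B (f i) (e j) = 0 := fun i j hij => by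
      rw [bneg, hg.ef' j i (Ne.symm hij), neg_zero]
    classical
    have hproj : ∀ v, ∃ p ∈ P, ∃ c ∈ C, v = p + c := by
      intro v
      set p : V := (∑ i, (- A.B (f i) v) • e i) + ∑ i, (A.B (e i) v) • f i with hp
      have hpP : p ∈ P := P.add_mem (P.sum_mem (fun i _ => P.smul_mem _ (heP i)))
        (P.sum_mem (fun i _ => P.smul_mem _ (hfP i)))
      refine ⟨p, hpP, v - p, ?_, by abel⟩
      rw [hCm]
      constructor
      · intro i
        rw [LinearMap.map_sub, hp, bar, map_sum, map_sum, Finset.sum_eq_zero, Finset.sum_eq_single i, bsr, hg.ef,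
          mul_one, zero_add, sub_self]
        · intro j _ hj
          rw [bsr, hg.ef' i j (Ne.symm hj), mul_zero]
        · intro h
          exact absurd (Finset.mem_univ i) h
        · intro j _
          rw [bsr, hg.ee, mul_zero]
      · intro i
        rw [LinearMap.map_sub, hp, bar, map_sum, map_sum, Finset.sum_eq_single i, bsr, hfe, Finset.sum_eq_zero,
          add_zero, neg_mul_neg, mul_one, sub_self]
        · intro j _
          rw [bsr, hg.ff, mul_zero]
        · intro j _ hj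
          rw [bsr, hfe' i j (Ne.symm hj), mul_zero]
        · intro h
          exact absurd (Finset.mem_univ i) h
    have hsup : P ⊔ C = ⊤ := by
      rw [eq_top_iff]
      intro v _
      obtain ⟨p, hp, c, hc, rfl⟩ := hproj v
      exact Submodule.add_mem_sup hp hc
    have hnC : (A.restrict C).Nondeg := Frm.Nondeg.of_isCompl hA hsup (fun u hu w hw => hw u hu)
    have hlt : finrank F C < n := by
      rw [← hn]
      apply Submodule.finrank_lt
      intro h
      obtain ⟨i⟩ := hne
      have h1 : f i ∈ C := by rw [h]; exact Submodule.mem_top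
      have h2 := h1 _ (heP i)
      rw [hg.ef] at h2
      exact one_ne_zero h2
    obtain ⟨κ', hκ', e', f', τ', hg', hsp⟩ := ih (finrank F C) hlt C (A.restrict C) hnC
      (fun v => by rw [Frm.restrict_B]; exact hQ _) (x.restrict hCx) (fun u v => hx u v)
      (fun v => Subtype.ext (hxx v)) rfl
    have hPC : ∀ p ∈ P, ∀ c : C, A.B p c = 0 := fun p hp c => c.2 p hp
    have hCP : ∀ p ∈ P, ∀ c : C, A.B c p = 0 := fun p hp c => by rw [bneg, hPC p hp, neg_zero]
    refine ⟨κ ⊕ κ', inferInstance, Sum.elim e (fun i => (e' i : V)), Sum.elim f (fun i => (f' i : V)),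
      Sum.map τ τ', ⟨?_, ?_, ?_, ?_, ?_, ?_, ?_⟩, ?_⟩
    · rintro (i | i) (j | j)
      · exact hg.ee i j
      · exact hPC _ (heP i) _
      · exact hCP _ (heP j) _
      · exact hg'.ee i j
    · rintro (i | i) (j | j)
      · exact hg.ff i j
      · exact hPC _ (hfP i) _
      · exact hCP _ (hfP j) _
      · exact hg'.ff i j
    · rintro (i | i)
      · exact hg.ef i
      · exact hg'.ef i
    · rintro (i | i) (j | j) hij
      · exact hg.ef' i j (fun h => hij (by rw [h]))
      · exact hPC _ (heP i) _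
      · exact hCP _ (hfP j) _
      · exact hg'.ef' i j (fun h => hij (by rw [h]))
    · rintro (i | i)
      · exact congrArg Sum.inl (hg.inv i)
      · exact congrArg Sum.inr (hg'.inv i)
    · rintro (i | i)
      · exact hg.xe i
      · obtain ⟨p, hp, h⟩ := hg'.xe i
        exact ⟨p, hp, congrArg Subtype.val h⟩
    · rintro (i | i)
      · exact hg.xf i
      · obtain ⟨p, hp, h⟩ := hg'.xf i
        exact ⟨p, hp, congrArg Subtype.val h⟩
    · intro v
      obtain ⟨p, hp, c, hc, rfl⟩ := hproj v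
      refine Submodule.add_mem _ ?_ ?_
      · refine Submodule.span_mono ?_ hp
        rintro _ (⟨i, rfl⟩ | ⟨i, rfl⟩)
        · exact Or.inl ⟨Sum.inl i, rfl⟩
        · exact Or.inr ⟨Sum.inl i, rfl⟩
      · have h1 := hsp ⟨c, hc⟩
        have h2 : c ∈ (Submodule.span F (Set.range e' ∪ Set.range f')).map C.subtype := ⟨_, h1, rfl⟩
        rw [Submodule.map_span] at h2
        refine Submodule.span_mono ?_ h2
        rintro _ ⟨_, (⟨i, rfl⟩ | ⟨i, rfl⟩), rfl⟩
        · exact Or.inl ⟨Sum.inr i, rfl⟩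
        · exact Or.inr ⟨Sum.inr i, rfl⟩

section steps

variable {V : Type*} [AddCommGroup V] [Module F V] [FiniteDimensional F V] (A : SF F V)

theorem single_good {S1 S2 : Set (F × F)} {x : V →ₗ[F] V} (hQ : ∀ v, A.B v v = 0) {e f : V} (hef : A.B e f = 1)
    (h1 : ∃ p ∈ S1, x e = p.1 • e + p.2 • f) (h2 : ∃ p ∈ S2, x f = p.1 • e + p.2 • f) :
    ∃ (κ : Type) (_ : Fintype κ) (_ : Nonempty κ) (e f : κ → V) (τ : κ → κ), Good S1 S2 A x e f τ :=
  ⟨Unit, inferInstance, inferInstance, fun _ => e, fun _ => f, id, ⟨fun _ _ => hQ e, fun _ _ => hQ f, fun _ => hef,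
    fun i j hij => absurd (Subsingleton.elim i j) hij, fun _ => rfl, fun _ => h1, fun _ => h2⟩⟩

/-- `x² = 1`, odd characteristic -/
theorem step_one (h2 : (2 : F) ≠ 0) (hA : A.Nondeg) (hQ : ∀ v, A.B v v = 0) (x : V →ₗ[F] V)
    (hx : ∀ u v, A.B (x u) (x v) = A.B u v) (hxx : ∀ v, x (x v) = v) [Nontrivial V] :
    ∃ (κ : Type) (_ : Fintype κ) (_ : Nonempty κ) (e f : κ → V) (τ : κ → κ),
      Good {p : F × F | p.2 = 0} {p : F × F | p.1 = 0} A x e f τ := by
  have h1 : ∃ (ε : F) (u : V), u ≠ 0 ∧ ε * ε = 1 ∧ x u = ε • u := by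
    obtain ⟨u, hu⟩ := exists_ne (0 : V)
    by_cases h : u + x u = 0
    · refine ⟨-1, u, hu, by ring, ?_⟩
      rw [neg_one_smul]
      exact eq_neg_of_add_eq_zero_right h
    · refine ⟨1, u + x u, h, by ring, ?_⟩
      rw [one_smul, LinearMap.map_add, hxx, add_comm]
  obtain ⟨ε, u, hu, hε, hxu⟩ := h1
  obtain ⟨w, hw⟩ : ∃ w, A.B u w ≠ 0 := by
    by_contra h
    push Not at h
    exact hu (hA u h)
  have h3 : A.B u (w + ε • x w) = 2 * A.B u w := by
    rw [bar, bsr]
    have h4 : A.B u (x w) = ε * A.B u w := by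
      rw [← hx u (x w), hxx, hxu, bsl]
    rw [h4, ← mul_assoc, hε]
    ring
  refine single_good A hQ (e := u) (f := (2 * A.B u w)⁻¹ • (w + ε • x w)) ?_ ⟨(ε, 0), rfl, ?_⟩
    ⟨(0, ε), rfl, ?_⟩
  · rw [bsr, h3, inv_mul_cancel₀ (mul_ne_zero h2 hw)]
  · rw [hxu, zero_smul, add_zero]
  · simp only [zero_smul, zero_add]
    rw [LinearMap.map_smul, LinearMap.map_add, LinearMap.map_smul, hxx, smul_comm, smul_add ε, smul_smul ε ε, hε,
      one_smul, add_comm]

/-- `x² = -1`, odd characteristic -/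
theorem step_neg (h2 : (2 : F) ≠ 0) (hA : A.Nondeg) (hQ : ∀ v, A.B v v = 0) (x : V →ₗ[F] V)
    (hx : ∀ u v, A.B (x u) (x v) = A.B u v) (hxx : ∀ v, x (x v) = (-1 : F) • v) [Nontrivial V] :
    ∃ (κ : Type) (_ : Fintype κ) (_ : Nonempty κ) (e f : κ → V) (τ : κ → κ),
      Good {p : F × F | p.1 = 0} {p : F × F | p.2 = 0} A x e f τ := by
  have hs : ∀ u v, A.B v (x u) = A.B u (x v) := by
    intro u v
    rw [← hx v (x u), hxx, bsr, bneg, neg_one_mul, neg_neg]
  obtain ⟨u, hu⟩ : ∃ u, A.B u (x u) ≠ 0 := by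
    by_contra h
    push Not at h
    obtain ⟨u, hu⟩ := exists_ne (0 : V)
    apply hu
    apply hA
    intro y
    have h3 := h (u + x y)
    rw [bal, LinearMap.map_add, bar, bar, h u, h (x y), zero_add, add_zero, hxx, bsr, hx, bneg A u y] at h3
    have h4 : (2 : F) * A.B u y = 0 := by linear_combination -h3
    exact (mul_eq_zero.1 h4).resolve_left h2
  refine single_good A hQ (e := u) (f := (A.B u (x u))⁻¹ • x u) ?_ ⟨(0, A.B u (x u)), rfl, ?_⟩
    ⟨(-(A.B u (x u))⁻¹, 0), rfl, ?_⟩
  · rw [bsr, inv_mul_cancel₀ hu]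
  · simp only [zero_smul, zero_add]
    rw [smul_smul, mul_inv_cancel₀ hu, one_smul]
  · simp only [zero_smul, add_zero]
    rw [LinearMap.map_smul, hxx, smul_smul, mul_neg_one]

/-- `x² = 1`, characteristic two -/
theorem step_two [CharP F 2] (hA : A.Nondeg) (hQ : ∀ v, A.B v v = 0) (x : V →ₗ[F] V)
    (hx : ∀ u v, A.B (x u) (x v) = A.B u v) (hxx : ∀ v, x (x v) = v) [Nontrivial V] :
    ∃ (κ : Type) (_ : Fintype κ) (_ : Nonempty κ) (e f : κ → V) (τ : κ → κ),
      Good Set.univ Set.univ A x e f τ := by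
  by_cases h0 : ∃ v, A.B v (x v) ≠ 0
  · obtain ⟨v, hv⟩ := h0
    refine single_good A hQ (e := v) (f := (A.B v (x v))⁻¹ • x v) ?_ ⟨(0, A.B v (x v)), trivial, ?_⟩
      ⟨((A.B v (x v))⁻¹, 0), trivial, ?_⟩
    · rw [bsr, inv_mul_cancel₀ hv]
    · simp only [zero_smul, zero_add]
      rw [smul_smul, mul_inv_cancel₀ hv, one_smul]
    · simp only [zero_smul, add_zero]
      rw [LinearMap.map_smul, hxx]
  push Not at h0
  by_cases h1 : ∀ v, x v = v
  · obtain ⟨u, hu⟩ := exists_ne (0 : V)
    obtain ⟨w, hw⟩ : ∃ w, A.B u w ≠ 0 := by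
      by_contra h
      push Not at h
      exact hu (hA u h)
    refine single_good A hQ (e := u) (f := (A.B u w)⁻¹ • w) ?_ ⟨(1, 0), trivial, ?_⟩
      ⟨(0, 1), trivial, ?_⟩
    · rw [bsr, inv_mul_cancel₀ hw]
    · simp only [zero_smul, one_smul, add_zero]
      exact h1 u
    · simp only [zero_smul, one_smul, zero_add]
      exact h1 _
  push Not at h1
  obtain ⟨v, hv⟩ := h1
  have hsw : ∀ a b, A.B a (x b) = A.B (x a) b := by
    intro a b
    rw [← hx a (x b), hxx]
  have hch : ∀ c : F, c + c = 0 := fun c => CharTwo.add_self_eq_zero c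
  obtain ⟨w, hw⟩ : ∃ w, A.B v w + A.B v (x w) ≠ 0 := by
    by_contra h
    push Not at h
    apply hv
    have h2 : v + x v = 0 := by
      apply hA
      intro y
      rw [bal, ← hsw]
      exact h y
    have h3 : x v = v + x v + v := by
      rw [add_right_comm, ← two_smul F v, CharTwo.two_eq_zero, zero_smul, zero_add]
    rw [h3, h2, zero_add]
  obtain ⟨w', hw1, hw2⟩ : ∃ w', A.B v w' ≠ 0 ∧ A.B v (x w') = 0 := by
    by_cases ha : A.B v w = 0
    · refine ⟨x w, ?_, ?_⟩
      · rwa [ha, zero_add] at hw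
      · rw [hxx, ha]
    · refine ⟨w + (A.B v (x w) / A.B v w) • x w, ?_, ?_⟩
      · rw [bar, bsr]
        intro h
        apply hw
        have h3 : A.B v w * A.B v w + A.B v (x w) * A.B v (x w) = 0 := by
          have h4 := congrArg (fun y => A.B v w * y) h
          simp only [mul_zero] at h4
          rw [← h4]
          field_simp
        have h5 : (A.B v w + A.B v (x w)) * (A.B v w + A.B v (x w)) = 0 := by
          have h6 := hch (A.B v w * A.B v (x w))
          linear_combination h3 + h6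
        exact mul_self_eq_zero.1 h5
      · rw [LinearMap.map_add, LinearMap.map_smul, hxx, bar, bsr, div_mul_cancel₀ _ ha, hch]
  set c : F := (A.B v w')⁻¹ with hc
  have hcv : c * A.B v w' = 1 := inv_mul_cancel₀ hw1
  refine ⟨Bool, inferInstance, inferInstance, fun i => bif i then x v else v, fun i => bif i then c • x w' else c • w',
    fun i => !i, ⟨?_, ?_, ?_, ?_, ?_, ?_, ?_⟩⟩
  · rintro (_ | _) (_ | _)
    · exact hQ _
    · exact h0 v
    · change A.B (x v) v = 0
      rw [bneg, h0 v, neg_zero]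
    · exact hQ _
  · rintro (_ | _) (_ | _)
    · exact hQ _
    · change A.B (c • w') (c • x w') = 0
      rw [bsl, bsr, h0 w', mul_zero, mul_zero]
    · change A.B (c • x w') (c • w') = 0
      rw [bsl, bsr, bneg, h0 w', neg_zero, mul_zero, mul_zero]
    · exact hQ _
  · rintro (_ | _)
    · change A.B v (c • w') = 1
      rw [bsr, hcv]
    · change A.B (x v) (c • x w') = 1
      rw [bsr, hx, hcv]
  · rintro (_ | _) (_ | _) h
    · exact absurd rfl h
    · change A.B v (c • x w') = 0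
      rw [bsr, hw2, mul_zero]
    · change A.B (x v) (c • w') = 0
      rw [bsr, ← hsw, hw2, mul_zero]
    · exact absurd rfl h
  · rintro (_ | _) <;> rfl
  · rintro (_ | _)
    · refine ⟨(1, 0), trivial, ?_⟩
      change x v = (1 : F) • x v + (0 : F) • (c • x w')
      rw [one_smul, zero_smul, add_zero]
    · refine ⟨(1, 0), trivial, ?_⟩
      change x (x v) = (1 : F) • v + (0 : F) • (c • w')
      rw [one_smul, zero_smul, add_zero, hxx]
  · rintro (_ | _)
    · refine ⟨(0, 1), trivial, ?_⟩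
      change x (c • w') = (0 : F) • x v + (1 : F) • (c • x w')
      rw [one_smul, zero_smul, zero_add, LinearMap.map_smul]
    · refine ⟨(0, 1), trivial, ?_⟩
      change x (c • x w') = (0 : F) • v + (1 : F) • (c • w')
      rw [one_smul, zero_smul, zero_add, LinearMap.map_smul, hxx]

end steps


section Concrete

open Cfsg.Agent.H5.Conc

variable {d : ℕ}

theorem sp_isom (x : ↥(Matrix.symplecticGroup (Fin d) F)) (u v : Fin d ⊕ Fin d → F) :
    (sympFrm d F).B (Matrix.toLin' (x : Matrix (Fin d ⊕ Fin d) (Fin d ⊕ Fin d) F) u)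
      (Matrix.toLin' (x : Matrix (Fin d ⊕ Fin d) (Fin d ⊕ Fin d) F) v) = (sympFrm d F).B u v := by
  rw [sympFrm_B, sympFrm_B, Matrix.toLin'_apply, Matrix.toLin'_apply]
  exact (mem_symplecticGroup_iff _).1 x.2 u v

theorem two_ne [Fintype F] (h : Odd (Fintype.card F)) : (2 : F) ≠ 0 := by
  intro h2
  haveI : CharP F 2 := CharTwo.of_one_ne_zero_of_two_eq_zero one_ne_zero h2
  have h3 := FiniteField.even_card_iff_char_two.1 (ringChar.eq_iff.2 (inferInstance : CharP F 2))
  rw [Nat.odd_iff] at h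
  omega

theorem sp_sq (hd : 0 < d) (x : ↥(Matrix.symplecticGroup (Fin d) F))
    (hx1 : ∃ z : F, ((x ^ 2 : ↥(Matrix.symplecticGroup (Fin d) F)) : Matrix (Fin d ⊕ Fin d) (Fin d ⊕ Fin d) F) =
      z • (1 : Matrix (Fin d ⊕ Fin d) (Fin d ⊕ Fin d) F)) :
    ∃ z : F, z ≠ 0 ∧ z * z = 1 ∧ ∀ v, Matrix.toLin' (x : Matrix (Fin d ⊕ Fin d) (Fin d ⊕ Fin d) F)
      (Matrix.toLin' (x : Matrix (Fin d ⊕ Fin d) (Fin d ⊕ Fin d) F) v) = z • v := by
  obtain ⟨z, hz⟩ := hx1
  have h1 : (x : Matrix (Fin d ⊕ Fin d) (Fin d ⊕ Fin d) F) * (x : Matrix (Fin d ⊕ Fin d) (Fin d ⊕ Fin d) F) =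
      z • (1 : Matrix (Fin d ⊕ Fin d) (Fin d ⊕ Fin d) F) := by
    rw [← hz, pow_two]
    rfl
  have hxx : ∀ v, Matrix.toLin' (x : Matrix (Fin d ⊕ Fin d) (Fin d ⊕ Fin d) F)
      (Matrix.toLin' (x : Matrix (Fin d ⊕ Fin d) (Fin d ⊕ Fin d) F) v) = z • v := fun v => by
    rw [Matrix.toLin'_apply, Matrix.toLin'_apply, Matrix.mulVec_mulVec, h1, Matrix.smul_mulVec, Matrix.one_mulVec]
  have h2 : z * z = 1 := by
    have h3 : (Pi.single (Sum.inl ⟨0, hd⟩) 1 : Fin d ⊕ Fin d → F) ≠ 0 := by
      intro h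
      have := congrFun h (Sum.inl ⟨0, hd⟩)
      rw [Pi.single_eq_same] at this
      exact one_ne_zero this
    obtain ⟨w, hw⟩ : ∃ w, (sympFrm d F).B (Pi.single (Sum.inl ⟨0, hd⟩) 1 : Fin d ⊕ Fin d → F) w ≠ 0 := by
      by_contra h
      push Not at h
      exact h3 (sympFrm_nondeg d F _ h)
    have h4 := sp_isom x (Matrix.toLin' (x : Matrix (Fin d ⊕ Fin d) (Fin d ⊕ Fin d) F)
      (Pi.single (Sum.inl ⟨0, hd⟩) 1)) (Matrix.toLin' (x : Matrix (Fin d ⊕ Fin d) (Fin d ⊕ Fin d) F) w)
    rw [hxx, hxx, bsl, bsr, ← mul_assoc, sp_isom] at h4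
    exact mul_right_cancel₀ hw (by rw [h4, one_mul])
  refine ⟨z, ?_, h2, hxx⟩
  rintro rfl
  rw [zero_mul] at h2
  exact zero_ne_one h2

end Concrete


section dec

variable {V : Type*} [AddCommGroup V] [Module F V] {A : SF F V}

theorem bspan {S T : Set V} (h : ∀ s ∈ S, ∀ t ∈ T, A.B s t = 0) {u v : V} (hu : u ∈ Submodule.span F S)
    (hv : v ∈ Submodule.span F T) : A.B u v = 0 := by
  induction hu using Submodule.span_induction with
  | mem a ha =>
    induction hv using Submodule.span_induction with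
    | mem b hb => exact h a ha b hb
    | zero => rw [LinearMap.map_zero]
    | add b c _ _ hb hc => rw [bar, hb, hc, add_zero]
    | smul c b _ hb => rw [bsr, hb, mul_zero]
  | zero => rw [LinearMap.map_zero, LinearMap.zero_apply]
  | add b c _ _ hb hc => rw [bal, hb, hc, add_zero]
  | smul c b _ hb => rw [bsl, hb, mul_zero]

theorem Good.basis {S1 S2 : Set (F × F)} {x : V →ₗ[F] V} {κ : Type} [Fintype κ] {e f : κ → V} {τ : κ → κ}
    (hg : Good S1 S2 A x e f τ) (hsp : ∀ v, v ∈ Submodule.span F (Set.range e ∪ Set.range f)) :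
    ∃ b : Basis (κ ⊕ κ) F V, (∀ i, b (Sum.inl i) = e i) ∧ ∀ i, b (Sum.inr i) = f i := by
  classical
  have hli : LinearIndependent F (Sum.elim e f) := by
    rw [Fintype.linearIndependent_iff]
    intro g h
    rw [Fintype.sum_sum_type] at h
    simp only [Sum.elim_inl, Sum.elim_inr] at h
    rintro (i | i)
    · have h1 := congrArg (fun y => A.B y (f i)) h
      simp only [bal, LinearMap.map_zero, LinearMap.zero_apply] at h1
      rw [map_sum, map_sum, LinearMap.sum_apply, LinearMap.sum_apply, Finset.sum_eq_single i, bsl, hg.ef,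
        Finset.sum_eq_zero, add_zero, mul_one] at h1
      · exact h1
      · intro j _
        rw [bsl, hg.ff, mul_zero]
      · intro j _ hj
        rw [bsl, hg.ef' j i hj, mul_zero]
      · intro h
        exact absurd (Finset.mem_univ i) h
    · have h1 := congrArg (fun y => A.B (e i) y) h
      simp only [bar, LinearMap.map_zero] at h1
      rw [map_sum, map_sum, Finset.sum_eq_zero, zero_add, Finset.sum_eq_single i, bsr, hg.ef, mul_one] at h1
      · exact h1
      · intro j _ hj
        rw [bsr, hg.ef' i j (Ne.symm hj), mul_zero]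
      · intro h
        exact absurd (Finset.mem_univ i) h
      · intro j _
        rw [bsr, hg.ee, mul_zero]
  refine ⟨Basis.mk hli ?_, fun i => ?_, fun i => ?_⟩
  · intro v _
    rw [Set.Sum.elim_range]
    exact hsp v
  · rw [Basis.mk_apply, Sum.elim_inl]
  · rw [Basis.mk_apply, Sum.elim_inr]

end dec

end Cfsg.Agent.H5.Der
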