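import Mathlib
import Cfsg.Agent.H5_FrmWitt
import Cfsg.Agent.H5_FrmAniso

set_option autoImplicit false

/-! Counting totally singular tuples; orders of the stabilisers of totally singular subspaces. -/

namespace Cfsg.Agent.H5.Frm

universe u

variable {F : Type*} [Field F] {σ : F →+* F} {ε : F} {t : F →+ F}

section basic

variable {V : Type*} [AddCommGroup V] [Module F V]

/-- linearly independent tuples of pairwise orthogonal singular vectors -/
def IsTS (A : Frm F σ ε t V) {k : ℕ} (v : Fin k → V) : Prop :=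
  LinearIndependent F v ∧ (∀ i, A.Q (v i) = 0) ∧ ∀ i j, A.B (v i) (v j) = 0

/-- their number -/
noncomputable def tsCard (A : Frm F σ ε t V) (k : ℕ) : ℕ := Nat.card {v : Fin k → V // A.IsTS v}

theorem isTS_isom {A : Frm F σ ε t V} {k : ℕ} {v : Fin k → V} (hv : A.IsTS v) {g : V ≃ₗ[F] V}
    (hg : g ∈ A.isom) : A.IsTS (fun i => g (v i)) := by
  refine ⟨?_, fun i => ?_, fun i j => ?_⟩
  · exact hv.1.map' g.toLinearMap (LinearMap.ker_eq_bot.mpr g.injective)
  · rw [hg.2, hv.2.1]
  · rw [hg.1, hv.2.2]

theorem isTS_cons_iff {A : Frm F σ ε t V} {u f : V} (hp : A.HPair u f) {k : ℕ} (c : Fin k → F)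
    (w : Fin k → A.perp2 u f) :
    A.IsTS (Fin.cons u (fun i => c i • u + (w i : V)) : Fin (k + 1) → V) ↔
      (A.restrict (A.perp2 u f)).IsTS w := by
  have hw : ∀ i, A.B u (w i : V) = 0 ∧ A.B f (w i : V) = 0 := fun i => (A.mem_perp2).mp (w i).2
  have hQ : ∀ i, A.Q (c i • u + (w i : V)) = A.Q (w i : V) := by
    intro i
    have := Q_pair hp (c i) 0 (w i)
    rw [zero_smul, add_zero, mul_zero, map_zero, zero_add] at this
    exact this
  have hB : ∀ i j, A.B (c i • u + (w i : V)) (c j • u + (w j : V)) =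
      A.B (w i : V) (w j : V) := by
    intro i j
    simp only [map_add, LinearMap.add_apply, B_smul_smul, LinearMap.map_smulₛₗ₂, hp.Buu,
      (hw j).1, smul_zero, mul_zero, zero_add]
    rw [(A.B (w i : V)).map_smul, A.refl (hw i).1, (A.B u).map_smul, hp.Buu]
    simp
  have hBu : ∀ i, A.B u (c i • u + (w i : V)) = 0 := by
    intro i
    rw [map_add, (A.B u).map_smul, hp.Buu, (hw i).1, smul_zero, add_zero]
  have hsum : ∀ (g0 : F) (g : Fin k → F), g0 • u + ∑ i, g i • (c i • u + (w i : V)) =
      pairEquiv hp (g0 + ∑ i, g i * c i, 0, ∑ i, g i • w i) := by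
    intro g0 g
    rw [pairEquiv_apply, zero_smul, add_zero, add_smul, Finset.sum_smul, add_assoc]
    congr 1
    rw [Submodule.coe_sum, ← Finset.sum_add_distrib]
    refine Finset.sum_congr rfl (fun i _ => ?_)
    rw [smul_add, smul_smul, Submodule.coe_smul]
  constructor
  · rintro ⟨h1, h2, h3⟩
    refine ⟨?_, fun i => ?_, fun i j => ?_⟩
    · rw [Fintype.linearIndependent_iff] at h1 ⊢
      intro g hg i
      have h4 := h1 (Fin.cons (-∑ i, g i * c i) g) (by
        rw [Fin.sum_univ_succ]
        simp only [Fin.cons_zero, Fin.cons_succ]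
        rw [hsum, hg, neg_add_cancel]
        exact map_zero _) i.succ
      rwa [Fin.cons_succ] at h4
    · have := h2 i.succ
      rwa [Fin.cons_succ, hQ] at this
    · have := h3 i.succ j.succ
      rwa [Fin.cons_succ, Fin.cons_succ, hB] at this
  · rintro ⟨h1, h2, h3⟩
    refine ⟨?_, ?_, ?_⟩
    · rw [Fintype.linearIndependent_iff] at h1 ⊢
      intro g hg
      rw [Fin.sum_univ_succ] at hg
      simp only [Fin.cons_zero, Fin.cons_succ] at hg
      rw [hsum (g 0) (fun i => g i.succ), LinearEquiv.map_eq_zero_iff, Prod.mk_eq_zero,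
        Prod.mk_eq_zero] at hg
      have h4 := h1 _ hg.2.2
      have h5 : g 0 = 0 := by
        have := hg.1
        rw [Finset.sum_eq_zero (fun i _ => by rw [h4 i, zero_mul]), add_zero] at this
        exact this
      intro i
      refine Fin.cases h5 (fun j => h4 j) i
    · intro i
      refine Fin.cases ?_ (fun i => ?_) i
      · exact hp.Qu
      · rw [Fin.cons_succ, hQ]; exact h2 i
    · intro i j
      refine Fin.cases ?_ (fun i => ?_) i <;> refine Fin.cases ?_ (fun j => ?_) j
      · exact hp.Buu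
      · rw [Fin.cons_zero, Fin.cons_succ, hBu]
      · rw [Fin.cons_zero, Fin.cons_succ]; exact A.refl (hBu i)
      · rw [Fin.cons_succ, Fin.cons_succ, hB]; exact h3 i j

theorem card_fiber_ts [Fintype F] {A : Frm F σ ε t V} {u f : V} (hp : A.HPair u f) (k : ℕ) :
    Nat.card {x : Fin k → V // A.IsTS (Fin.cons u x : Fin (k + 1) → V)} =
      Fintype.card F ^ k * (A.restrict (A.perp2 u f)).tsCard k := by
  have e : {x : Fin k → V // A.IsTS (Fin.cons u x : Fin (k + 1) → V)} ≃
      (Fin k → F) × {w : Fin k → A.perp2 u f // (A.restrict (A.perp2 u f)).IsTS w} := by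
    have key : ∀ x : {x : Fin k → V // A.IsTS (Fin.cons u x : Fin (k + 1) → V)}, ∀ i,
        x.1 i = ((pairEquiv hp).symm (x.1 i)).1 • u + (((pairEquiv hp).symm (x.1 i)).2.2 : V) := by
      intro x i
      obtain ⟨⟨a, b, w⟩, hab⟩ := (pairEquiv hp).surjective (x.1 i)
      have h1 := x.2.2.2 0 i.succ
      rw [Fin.cons_zero, Fin.cons_succ, ← hab, pairEquiv_apply, map_add, map_add,
        (A.B u).map_smul, (A.B u).map_smul, hp.Buu, hp.Buf, ((A.mem_perp2).mp w.2).1, smul_zero,
        zero_add, add_zero, smul_eq_mul, mul_one] at h1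
      rw [← hab, LinearEquiv.symm_apply_apply, pairEquiv_apply, h1, zero_smul, add_zero]
    have key2 : ∀ x : {x : Fin k → V // A.IsTS (Fin.cons u x : Fin (k + 1) → V)},
        x.1 = fun i => ((pairEquiv hp).symm (x.1 i)).1 • u +
          (((pairEquiv hp).symm (x.1 i)).2.2 : V) := fun x => funext (key x)
    exact
    { toFun := fun x => (fun i => ((pairEquiv hp).symm (x.1 i)).1,
        ⟨fun i => ((pairEquiv hp).symm (x.1 i)).2.2, by
          rw [← isTS_cons_iff hp (fun i => ((pairEquiv hp).symm (x.1 i)).1), ← key2]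
          exact x.2⟩)
      invFun := fun p => ⟨fun i => p.1 i • u + (p.2.1 i : V),
        (isTS_cons_iff hp p.1 p.2.1).mpr p.2.2⟩
      left_inv := fun x => Subtype.ext (key2 x).symm
      right_inv := fun p => by
        have h : ∀ i, (pairEquiv hp).symm (p.1 i • u + (p.2.1 i : V)) = (p.1 i, 0, p.2.1 i) := by
          intro i
          rw [LinearEquiv.symm_apply_eq, pairEquiv_apply, zero_smul, add_zero]
        refine Prod.ext ?_ (Subtype.ext ?_)
        · funext i
          change ((pairEquiv hp).symm (p.1 i • u + (p.2.1 i : V))).1 = p.1 i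
          rw [h]
        · funext i
          change ((pairEquiv hp).symm (p.1 i • u + (p.2.1 i : V))).2.2 = p.2.1 i
          rw [h] }
  rw [Nat.card_congr e, Nat.card_prod, Nat.card_eq_fintype_card, Fintype.card_fun,
    Fintype.card_fin]
  rfl

theorem card_nonzero_sing [Finite V] (A : Frm F σ ε t V) :
    Nat.card {v : V // A.Q v = 0 ∧ v ≠ 0} = A.N0 - 1 := by
  classical
  have e : {v : V // A.Q v = 0} ≃ Option {v : V // A.Q v = 0 ∧ v ≠ 0} :=
    { toFun := fun v => if hv : v.1 = 0 then none else some ⟨v.1, v.2, hv⟩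
      invFun := fun o => match o with
        | none => ⟨0, A.Q_zero⟩
        | some u => ⟨u.1, u.2.1⟩
      left_inv := fun v => by
        by_cases hv : v.1 = 0
        · simp only [hv, dite_true]
          exact Subtype.ext hv.symm
        · simp only [hv, dite_false]
      right_inv := fun o => by
        cases o with
        | none => simp
        | some u => simp [u.2.2] }
  rw [N0, Nat.card_congr e, Finite.card_option]
  rfl

theorem tsCard_succ [Fintype F] [FiniteDimensional F V] {A : Frm F σ ε t V} (hn : A.Nondeg)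
    {u f : V} (hp : A.HPair u f) (k : ℕ) :
    A.tsCard (k + 1) = (A.N0 - 1) *
      (Fintype.card F ^ k * (A.restrict (A.perp2 u f)).tsCard k) := by
  classical
  have hfin : Finite V := Module.finite_of_finite F
  have e1 : {v : Fin (k + 1) → V // A.IsTS v} ≃ Σ v0 : {v : V // A.Q v = 0 ∧ v ≠ 0},
      {x : Fin k → V // A.IsTS (Fin.cons v0.1 x : Fin (k + 1) → V)} :=
    { toFun := fun v => ⟨⟨v.1 0, v.2.2.1 0, v.2.1.ne_zero 0⟩, ⟨Fin.tail v.1, by
        rw [Fin.cons_self_tail]; exact v.2⟩⟩
      invFun := fun p => ⟨Fin.cons p.1.1 p.2.1, p.2.2⟩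
      left_inv := fun v => Subtype.ext (Fin.cons_self_tail v.1)
      right_inv := fun p => by
        obtain ⟨⟨v0, hv0⟩, ⟨x, hx⟩⟩ := p
        rfl }
  have e2 : ∀ v0 : {v : V // A.Q v = 0 ∧ v ≠ 0},
      Nat.card {x : Fin k → V // A.IsTS (Fin.cons v0.1 x : Fin (k + 1) → V)} =
      Nat.card {x : Fin k → V // A.IsTS (Fin.cons u x : Fin (k + 1) → V)} := by
    rintro ⟨v0, h0, h1⟩
    obtain ⟨g, hg, hgi⟩ := witt_tuple hn (fun _ : Unit => v0) (fun _ : Unit => u)
        (linearIndependent_unique_iff.mpr h1) (linearIndependent_unique_iff.mpr hp.u_ne)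
        (fun _ _ => by rw [A.B_self_of_Q h0, hp.Buu]) (fun _ => by rw [h0, hp.Qu])
    have hg0 := hgi ()
    have hcons : ∀ (h : V ≃ₗ[F] V) (a b : V) (x : Fin k → V), h a = b →
        (fun i => h ((Fin.cons a x : Fin (k + 1) → V) i)) = Fin.cons b (fun i => h (x i)) := by
      intro h a b x hab
      funext i
      refine Fin.cases ?_ (fun i => ?_) i
      · rw [Fin.cons_zero, Fin.cons_zero, hab]
      · rw [Fin.cons_succ, Fin.cons_succ]
    refine Nat.card_congr
      { toFun := fun x => ⟨fun i => g (x.1 i), by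
          rw [← hcons g v0 u x.1 hg0]
          exact isTS_isom x.2 hg⟩
        invFun := fun x => ⟨fun i => g⁻¹ (x.1 i), by
          rw [← hcons g⁻¹ u v0 x.1 (by rw [← hg0]; exact g.symm_apply_apply v0)]
          exact isTS_isom x.2 (A.isom.inv_mem hg)⟩
        left_inv := fun x => Subtype.ext (funext fun i => g.symm_apply_apply _)
        right_inv := fun x => Subtype.ext (funext fun i => g.apply_symm_apply _) }
  have hfin2 : Fintype {v : V // A.Q v = 0 ∧ v ≠ 0} := Fintype.ofFinite _
  rw [tsCard, Nat.card_congr e1, Nat.card_sigma, Finset.sum_congr rfl (fun c _ => e2 c),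
    Finset.sum_const, Finset.card_univ, smul_eq_mul, ← Nat.card_eq_fintype_card,
    card_nonzero_sing, card_fiber_ts hp]

theorem tsCard_zero (A : Frm F σ ε t V) : A.tsCard 0 = 1 := by
  have : Unique {v : Fin 0 → V // A.IsTS v} :=
    { default := ⟨Fin.elim0, linearIndependent_empty_type, fun i => i.elim0, fun i => i.elim0⟩
      uniq := fun v => Subtype.ext (funext fun i => i.elim0) }
  rw [tsCard, Nat.card_unique]

end basic

/-- the number of totally singular `k`-tuples -/
def tsProd (Q κ a : ℕ) : ℕ → ℕ → ℕ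
  | 0, _ => 1
  | k + 1, m => ((Q ^ (m + k + 1) - 1) * (1 + κ * Q ^ (m + k + a))) * (Q ^ k * tsProd Q κ a k m)

theorem tsProd_pos (Q κ a : ℕ) (hQ : 1 < Q) : ∀ k m, 0 < tsProd Q κ a k m := by
  intro k
  induction k with
  | zero => intro m; exact Nat.one_pos
  | succ k ih =>
    intro m
    rw [tsProd]
    have h1 : 0 < Q ^ (m + k + 1) - 1 := Nat.sub_pos_of_lt (Nat.one_lt_pow (by omega) hQ)
    have h2 : 0 < Q ^ k := Nat.pow_pos (by omega)
    have := ih m
    positivity

theorem WittDec.card_ts [Fintype F] (a : ℕ) : ∀ (k m : ℕ) {V : Type u} [AddCommGroup V]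
    [Module F V] [FiniteDimensional F V] (A : Frm F σ ε t V), A.Nondeg → WittDec (m + k) a A →
    A.tsCard k = tsProd (Fintype.card F) (kt t) a k m := by
  intro k
  induction k with
  | zero => intro m V _ _ _ A _ _; rw [tsCard_zero, tsProd]
  | succ k ih =>
    intro m V _ _ _ A hn h
    have h0 := WittDec.N0_eq _ _ A h
    rw [← add_assoc] at h
    obtain ⟨u, f, hp, h⟩ := h
    rw [tsCard_succ hn hp, ih m _ (nondeg_perp2 hn hp) h, h0, Nat.add_sub_cancel_left, tsProd]
    have e1 : m + (k + 1) + a - 1 = m + k + a := by omega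
    rw [e1, ← add_assoc]

/-- the order of the pointwise stabiliser of a totally singular subspace of dimension `k`. -/
def fixProd (Q κ a k m : ℕ) : ℕ := κ ^ k * Q ^ (2 * m * k + a * k + k * (k - 1) / 2)

theorem ordProd_add (Q κ a : ℕ) (k m : ℕ) :
    ordProd Q κ a (m + k) = tsProd Q κ a k m * fixProd Q κ a k m * ordProd Q κ a m := by
  induction k with
  | zero => simp [tsProd, fixProd]
  | succ k ih =>
    have e1 : ordProd Q κ a (m + (k + 1)) = ordProd Q κ a (m + k) *
        ((Q ^ (m + k + 1) - 1) * (1 + κ * Q ^ (m + k + a)) * (Q ^ (2 * (m + k) + a) * κ)) := by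
      rw [← add_assoc, ordProd, ordProd, Finset.prod_range_succ]
    rw [e1, ih, tsProd, fixProd, fixProd]
    have e2 : (k + 1) * (k + 1 - 1) / 2 = k * (k - 1) / 2 + k := by
      have h1 : (k + 1) * (k + 1 - 1) = k * (k - 1) + k * 2 := by
        rcases k with _ | k
        · rfl
        · simp only [Nat.add_sub_cancel, Nat.succ_add_sub_one]
          ring_nf
      rw [h1, Nat.add_mul_div_right _ _ (by norm_num)]
    have e3 : Q ^ (2 * m * (k + 1) + a * (k + 1) + (k + 1) * (k + 1 - 1) / 2) * Q ^ k =
        Q ^ (2 * m * k + a * k + k * (k - 1) / 2) * Q ^ (2 * (m + k) + a) := by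
      rw [← pow_add, ← pow_add, e2]
      congr 1
      ring
    have e4 : κ ^ (k + 1) = κ ^ k * κ := pow_succ _ _
    rw [e4]
    calc _ = (tsProd Q κ a k m * κ ^ k * ordProd Q κ a m *
          ((Q ^ (m + k + 1) - 1) * (1 + κ * Q ^ (m + k + a)) * κ)) *
          (Q ^ (2 * m * k + a * k + k * (k - 1) / 2) * Q ^ (2 * (m + k) + a)) := by ring
      _ = _ := by rw [← e3]; ring

section stab

variable {V : Type*} [AddCommGroup V] [Module F V]

/-- the stabiliser of a subspace in the isometry group -/
def stabW (A : Frm F σ ε t V) (W : Submodule F V) : Subgroup A.isom :=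
  (stab W).subgroupOf A.isom

/-- the pointwise stabiliser of a tuple -/
def fixT (A : Frm F σ ε t V) {k : ℕ} (w : Fin k → V) : Subgroup A.isom where
  carrier := {g | ∀ i, g.1 (w i) = w i}
  mul_mem' {a b} ha hb := fun i => by
    change a.1 (b.1 (w i)) = w i
    rw [hb i, ha i]
  one_mem' := fun _ => rfl
  inv_mem' {a} ha := fun i => by
    change a.1.symm (w i) = w i
    rw [LinearEquiv.symm_apply_eq, ha i]

theorem mem_fixT {A : Frm F σ ε t V} {k : ℕ} {w : Fin k → V} {g : A.isom} :
    g ∈ A.fixT w ↔ ∀ i, g.1 (w i) = w i := Iff.rfl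

/-- `|G| = #frames * |fixer|` -/
theorem card_isom_eq_tsCard_mul [FiniteDimensional F V] {A : Frm F σ ε t V} (hn : A.Nondeg)
    {k : ℕ} {w : Fin k → V} (hw : A.IsTS w) :
    Nat.card A.isom = A.tsCard k * Nat.card (A.fixT w) := by
  let act : MulAction A.isom (Fin k → V) :=
    { smul := fun g v => fun i => g.1 (v i)
      one_smul := fun v => rfl
      mul_smul := fun g h v => rfl }
  have h := card_eq_card_orbit_mul (G := A.isom) w {v | A.IsTS v} (by
    intro y
    constructor
    · intro hy
      obtain ⟨g, hg, hgi⟩ := witt_tuple hn w y hw.1 hy.1 (fun i j => by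
        rw [hw.2.2, hy.2.2]) (fun i => by rw [hw.2.1, hy.2.1])
      exact ⟨⟨g, hg⟩, funext hgi⟩
    · rintro ⟨g, rfl⟩
      exact isTS_isom hw g.2)
  have e : Nat.card (MulAction.stabilizer A.isom w) = Nat.card (A.fixT w) := by
    refine Nat.card_congr (Equiv.subtypeEquivRight (fun g => ?_))
    rw [MulAction.mem_stabilizer_iff, mem_fixT]
    constructor
    · intro h i; exact congrFun h i
    · intro h; exact funext h
  rw [e] at h
  exact h

theorem mem_stabW {A : Frm F σ ε t V} {W : Submodule F V} {g : A.isom} :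
    g ∈ A.stabW W ↔ ∀ v, v ∈ W ↔ g.1 v ∈ W := by
  rw [stabW, Subgroup.mem_subgroupOf, mem_stab]

theorem card_stabW [Fintype F] [FiniteDimensional F V] {A : Frm F σ ε t V} (hn : A.Nondeg)
    {k : ℕ} {W : Submodule F V} (hWk : Module.finrank F W = k) (hQ : ∀ v ∈ W, A.Q v = 0)
    (hB : ∀ v ∈ W, ∀ w ∈ W, A.B v w = 0) :
    ∃ w : Fin k → V, A.IsTS w ∧ (∀ i, w i ∈ W) ∧ Nat.card (A.stabW W) =
      (∏ i : Fin k, (Fintype.card F ^ k - Fintype.card F ^ (i : ℕ))) *
        Nat.card (A.fixT w) := by
  classical
  have hfin : Finite V := Module.finite_of_finite F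
  let b := Module.finBasisOfFinrankEq F W hWk
  let w : Fin k → V := fun i => (b i : V)
  have hw : A.IsTS w := ⟨b.linearIndependent.map' W.subtype (by simp), fun i => hQ _ (b i).2,
    fun i j => hB _ (b i).2 _ (b j).2⟩
  refine ⟨w, hw, fun i => (b i).2, ?_⟩
  let act : MulAction (A.stabW W) (Fin k → V) :=
    { smul := fun g v => fun i => g.1.1 (v i)
      one_smul := fun v => rfl
      mul_smul := fun g h v => rfl }
  have hspan : ∀ y : Fin k → V, LinearIndependent F y → (∀ i, y i ∈ W) →
      Submodule.span F (Set.range y) = W := by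
    intro y hy hyW
    apply Submodule.eq_of_le_of_finrank_eq
    · rw [Submodule.span_le]
      rintro _ ⟨i, rfl⟩
      exact hyW i
    · rw [finrank_span_eq_card hy, Fintype.card_fin, hWk]
  have h := card_eq_card_orbit_mul (G := A.stabW W) w {v | LinearIndependent F v ∧ ∀ i, v i ∈ W} (by
    intro y
    constructor
    · intro hy
      have hyTS : A.IsTS y := ⟨hy.1, fun i => hQ _ (hy.2 i), fun i j => hB _ (hy.2 i) _ (hy.2 j)⟩
      obtain ⟨g, hg, hgi⟩ := witt_tuple hn w y hw.1 hy.1 (fun i j => by
        rw [hw.2.2, hyTS.2.2]) (fun i => by rw [hw.2.1, hyTS.2.1])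
      have hgW : W.map (g : V →ₗ[F] V) = W := by
        conv_lhs => rw [← hspan w hw.1 (fun i => (b i).2)]
        rw [Submodule.map_span, ← hspan y hy.1 hy.2]
        congr 1
        ext x
        simp only [Set.mem_image, Set.mem_range]
        constructor
        · rintro ⟨_, ⟨i, rfl⟩, rfl⟩
          exact ⟨i, (hgi i).symm⟩
        · rintro ⟨i, rfl⟩
          exact ⟨_, ⟨i, rfl⟩, hgi i⟩
      refine ⟨⟨⟨g, hg⟩, ?_⟩, funext hgi⟩
      rw [mem_stabW]
      intro v
      constructor
      · intro hv
        rw [← hgW]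
        exact Submodule.mem_map_of_mem hv
      · intro hv
        rw [← hgW] at hv
        obtain ⟨x, hx, hxv⟩ := hv
        have := g.injective hxv
        rwa [← this]
    · rintro ⟨g, rfl⟩
      refine ⟨(isTS_isom hw g.1.2).1, fun i => ?_⟩
      exact (mem_stabW.mp g.2 _).mp (b i).2)
  have e : Nat.card (MulAction.stabilizer (A.stabW W) w) = Nat.card (A.fixT w) := by
    refine Nat.card_congr
      { toFun := fun g => ⟨g.1.1, fun i => congrFun g.2 i⟩
        invFun := fun g => ⟨⟨g.1, ?_⟩, ?_⟩
        left_inv := fun g => rfl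
        right_inv := fun g => rfl }
    · rw [mem_stabW]
      intro v
      have hgv : ∀ v ∈ W, g.1.1 v = v := by
        intro v hv
        rw [← hspan w hw.1 (fun i => (b i).2)] at hv
        induction hv using Submodule.span_induction with
        | mem x hx =>
          obtain ⟨i, rfl⟩ := hx
          exact g.2 i
        | zero => exact map_zero _
        | add x y _ _ hx hy => rw [map_add, hx, hy]
        | smul c x _ hx => rw [map_smul, hx]
      constructor
      · intro hv; rw [hgv v hv]; exact hv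
      · intro hv
        have h1 := hgv _ hv
        have := g.1.1.injective h1
        rwa [this] at hv
    · exact funext g.2
  have e2 : Nat.card {v : Fin k → V | LinearIndependent F v ∧ ∀ i, v i ∈ W} =
      ∏ i : Fin k, (Fintype.card F ^ k - Fintype.card F ^ (i : ℕ)) := by
    have h2 := card_linearIndependent (K := F) (V := W) (k := k) (by rw [hWk])
    rw [hWk] at h2
    rw [← h2]
    refine Nat.card_congr
      { toFun := fun v => ⟨fun i => ⟨v.1 i, v.2.2 i⟩, ?_⟩
        invFun := fun v => ⟨fun i => (v.1 i : V), v.2.map' W.subtype (by simp), fun i => (v.1 i).2⟩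
        left_inv := fun v => rfl
        right_inv := fun v => rfl }
    exact LinearIndependent.of_comp W.subtype v.2.1
  rw [h, e, e2]

end stab

/-- the order of the stabiliser of a totally singular subspace. -/
theorem WittDec.card_stabW [Fintype F] (a k m : ℕ) {V : Type u} [AddCommGroup V]
    [Module F V] [FiniteDimensional F V] (A : Frm F σ ε t V) (hn : A.Nondeg)
    (h : WittDec (m + k) a A) (c : ℕ)
    (hc : ∀ {V : Type u} [AddCommGroup V] [Module F V] [FiniteDimensional F V]
      (A : Frm F σ ε t V), A.Nondeg → (∀ v : V, A.Q v = 0 → v = 0) → Module.finrank F V = a →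
      Nat.card A.isom = c)
    {W : Submodule F V} (hWk : Module.finrank F W = k) (hQ : ∀ v ∈ W, A.Q v = 0)
    (hB : ∀ v ∈ W, ∀ w ∈ W, A.B v w = 0) :
    Nat.card (A.stabW W) = (∏ i : Fin k, (Fintype.card F ^ k - Fintype.card F ^ (i : ℕ))) *
      (fixProd (Fintype.card F) (kt t) a k m * (ordProd (Fintype.card F) (kt t) a m * c)) := by
  obtain ⟨w, hw, hwW, h1⟩ := Frm.card_stabW hn hWk hQ hB
  rw [h1]
  congr 1
  have h2 := card_isom_eq_tsCard_mul hn hw
  rw [WittDec.card_isom a c hc (m + k) A hn h, WittDec.card_ts a k m A hn h, ordProd_add] at h2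
  have h3 := tsProd_pos (Fintype.card F) (kt t) a Fintype.one_lt_card k m
  apply Nat.eq_of_mul_eq_mul_left h3
  rw [← h2]
  ring

/-- the number of totally singular subspaces of dimension `k` times the number of bases. -/
theorem WittDec.card_subspaces [Fintype F] (a k m : ℕ) {V : Type u} [AddCommGroup V]
    [Module F V] [FiniteDimensional F V] (A : Frm F σ ε t V) (hn : A.Nondeg)
    (h : WittDec (m + k) a A) :
    Nat.card {W : Submodule F V // Module.finrank F W = k ∧ (∀ v ∈ W, A.Q v = 0) ∧
      ∀ v ∈ W, ∀ w ∈ W, A.B v w = 0} *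
      (∏ i : Fin k, (Fintype.card F ^ k - Fintype.card F ^ (i : ℕ))) =
      tsProd (Fintype.card F) (kt t) a k m := by
  classical
  have hfin : Finite V := Module.finite_of_finite F
  rw [← WittDec.card_ts a k m A hn h]
  have e : {v : Fin k → V // A.IsTS v} ≃ Σ W : {W : Submodule F V // Module.finrank F W = k ∧
      (∀ v ∈ W, A.Q v = 0) ∧ ∀ v ∈ W, ∀ w ∈ W, A.B v w = 0},
      {s : Fin k → W.1 // LinearIndependent F s} := by
    have key : ∀ (v : Fin k → V), A.IsTS v →
        Module.finrank F (Submodule.span F (Set.range v)) = k ∧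
        (∀ x ∈ Submodule.span F (Set.range v), A.Q x = 0) ∧
        ∀ x ∈ Submodule.span F (Set.range v), ∀ y ∈ Submodule.span F (Set.range v),
          A.B x y = 0 := by
      intro v hv
      have hBB : ∀ x ∈ Submodule.span F (Set.range v), ∀ y ∈ Submodule.span F (Set.range v),
          A.B x y = 0 := by
        intro x hx y hy
        induction hx using Submodule.span_induction with
        | mem x hx =>
          obtain ⟨i, rfl⟩ := hx
          induction hy using Submodule.span_induction with
          | mem y hy =>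
            obtain ⟨j, rfl⟩ := hy
            exact hv.2.2 i j
          | zero => exact map_zero _
          | add x y _ _ hx hy => rw [map_add, hx, hy, add_zero]
          | smul c x _ hx => rw [(A.B _).map_smul, hx, smul_zero]
        | zero => rw [map_zero, LinearMap.zero_apply]
        | add x y _ _ hx hy => rw [map_add, LinearMap.add_apply, hx, hy, add_zero]
        | smul c x _ hx => rw [LinearMap.map_smulₛₗ₂, hx, smul_zero]
      refine ⟨by rw [finrank_span_eq_card hv.1, Fintype.card_fin], ?_, hBB⟩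
      intro x hx
      induction hx using Submodule.span_induction with
      | mem x hx =>
        obtain ⟨i, rfl⟩ := hx
        exact hv.2.1 i
      | zero => exact A.Q_zero
      | add x y hx' hy' hx hy => rw [A.Q_add, hx, hy, hBB x hx' y hy', map_zero]; simp
      | smul c x _ hx => rw [A.Q_smul, hx, mul_zero]
    have key2 : ∀ (W : Submodule F V) (_ : Module.finrank F W = k) (s : Fin k → W)
        (_ : LinearIndependent F s), Submodule.span F (Set.range (fun i => (s i : V))) = W := by
      intro W hW s hs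
      apply Submodule.eq_of_le_of_finrank_eq
      · rw [Submodule.span_le]
        rintro _ ⟨i, rfl⟩
        exact (s i).2
      · have hs' : LinearIndependent F (fun i => (s i : V)) := hs.map' W.subtype (by simp)
        rw [finrank_span_eq_card hs', Fintype.card_fin, hW]
    exact
    { toFun := fun v => ⟨⟨_, key v.1 v.2⟩, ⟨fun i => ⟨v.1 i, Submodule.subset_span ⟨i, rfl⟩⟩,
        LinearIndependent.of_comp (Submodule.subtype _) v.2.1⟩⟩
      invFun := fun p => ⟨fun i => (p.2.1 i : V), p.2.2.map' p.1.1.subtype (by simp),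
        fun i => p.1.2.2.1 _ (p.2.1 i).2, fun i j => p.1.2.2.2 _ (p.2.1 i).2 _ (p.2.1 j).2⟩
      left_inv := fun v => rfl
      right_inv := fun p => by
        obtain ⟨⟨W, hW⟩, ⟨s, hs⟩⟩ := p
        have h1 := key2 W hW.1 s hs
        refine Sigma.ext (Subtype.ext h1) ?_
        -- heterogeneous equality
        simp only
        have : ∀ (W' : Submodule F V) (hW' : Module.finrank F W' = k ∧
          (∀ v ∈ W', A.Q v = 0) ∧ ∀ v ∈ W', ∀ w ∈ W', A.B v w = 0) (hWW : W' = W)
          (hm : ∀ i, (s i : V) ∈ W') (hli : LinearIndependent F (fun i => (⟨s i, hm i⟩ : W'))),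
          HEq (⟨fun i => (⟨s i, hm i⟩ : W'), hli⟩ : {s : Fin k → W' // LinearIndependent F s})
            (⟨s, hs⟩ : {s : Fin k → W // LinearIndependent F s}) := by
          intro W' hW' hWW hm hli
          subst hWW
          rfl
        exact this _ (by rw [h1]; exact hW) h1 _ _ }
  rw [tsCard, Nat.card_congr e]
  have hfin2 : Finite (Submodule F V) := Finite.of_injective (fun W : Submodule F V => (W : Set V))
    SetLike.coe_injective
  have hfin3 : Fintype {W : Submodule F V // Module.finrank F W = k ∧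
      (∀ v ∈ W, A.Q v = 0) ∧ ∀ v ∈ W, ∀ w ∈ W, A.B v w = 0} := Fintype.ofFinite _
  rw [Nat.card_sigma]
  have h4 : ∀ W : {W : Submodule F V // Module.finrank F W = k ∧
      (∀ v ∈ W, A.Q v = 0) ∧ ∀ v ∈ W, ∀ w ∈ W, A.B v w = 0},
      Nat.card {s : Fin k → W.1 // LinearIndependent F s} =
      ∏ i : Fin k, (Fintype.card F ^ k - Fintype.card F ^ (i : ℕ)) := by
    intro W
    have h2 := card_linearIndependent (K := F) (V := W.1) (k := k) (by rw [W.2.1])
    rwa [W.2.1] at h2
  rw [Finset.sum_congr rfl (fun W _ => h4 W), Finset.sum_const, Finset.card_univ, smul_eq_mul,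
    Nat.card_eq_fintype_card]

end Cfsg.Agent.H5.Frm
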