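import Cfsg.Agent.H5_Inv3
import Cfsg.Agent.H5_TS
import Cfsg.Agent.H5_FrmAniso
import Cfsg.Agent.H5_QuadC

set_option autoImplicit false
set_option linter.unusedSectionVars false

/-! Centralisers of involutions in characteristic two. -/

namespace Cfsg.Agent.H5.I2

open Module

section Cent

open Cfsg.Agent.H5 Cfsg.Agent.H5.Frm

variable {F : Type*} [Field F] [CharP F 2] {σ : F →+* F} {ε : F} {t : F →+ F} {V : Type*} [AddCommGroup V]
  [Module F V] [FiniteDimensional F V] {A : Frm F σ ε t V}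

/-- the isometries of the form on the image -/
def isoW (A : Frm F σ ε t V) (τ : V ≃ₗ[F] V) : Subgroup (LinearMap.range (nn τ) ≃ₗ[F] LinearMap.range (nn τ)) where
  carrier := {φ | (∀ w w', bf A τ (φ w) (φ w') = bf A τ w w') ∧ ∀ w, A.Q (φ w : V) = A.Q (w : V)}
  mul_mem' {a b} ha hb := ⟨fun w w' => by rw [LinearEquiv.mul_apply, LinearEquiv.mul_apply, ha.1, hb.1],
    fun w => by rw [LinearEquiv.mul_apply, ha.2, hb.2]⟩
  one_mem' := ⟨fun _ _ => rfl, fun _ => rfl⟩
  inv_mem' {a} ha := ⟨fun w w' => by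
    rw [← ha.1, ← LinearEquiv.mul_apply, ← LinearEquiv.mul_apply, mul_inv_cancel]; rfl,
    fun w => by rw [← ha.2, ← LinearEquiv.mul_apply, mul_inv_cancel]; rfl⟩

/-- pointwise stabiliser of the image -/
def fixW (A : Frm F σ ε t V) (W : Submodule F V) : Subgroup A.isom where
  carrier := {g | ∀ w ∈ W, g.1 w = w}
  mul_mem' {a b} ha hb := fun w hw => by
    change a.1 (b.1 w) = w
    rw [hb w hw, ha w hw]
  one_mem' := fun _ _ => rfl
  inv_mem' {a} ha := fun w hw => by
    change a.1.symm w = w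
    rw [LinearEquiv.symm_apply_eq, ha w hw]

theorem cent_stab {τ : V ≃ₗ[F] V} {g : V ≃ₗ[F] V} (h : ∀ v, g (τ v) = τ (g v)) :
    g ∈ stab (LinearMap.range (nn τ)) := by
  intro v
  constructor
  · rintro ⟨u, rfl⟩
    exact ⟨g u, by rw [nn_apply, nn_apply, map_sub, h]⟩
  · rintro ⟨u, hu⟩
    refine ⟨g.symm u, ?_⟩
    apply g.injective
    rw [← hu, nn_apply, nn_apply, map_sub, h, LinearEquiv.apply_symm_apply]

theorem cent_apply {τ : A.isom} (g : Subgroup.centralizer ({τ} : Set A.isom)) (v : V) :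
    g.1.1 (τ.1 v) = τ.1 (g.1.1 v) := by
  have h := Subgroup.mem_centralizer_singleton_iff.1 g.2
  first
    | exact congrArg (fun x : A.isom => x.1 v) h
    | exact congrArg (fun x : A.isom => x.1 v) h.symm

/-- restriction to the image -/
noncomputable def toW (τ : A.isom) : Subgroup.centralizer ({τ} : Set A.isom) →*
    (LinearMap.range (nn τ.1) ≃ₗ[F] LinearMap.range (nn τ.1)) where
  toFun g := restr g.1.1 (cent_stab (cent_apply g))
  map_one' := by
    apply LinearEquiv.ext
    intro w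
    apply Subtype.ext
    rw [restr_apply]
    rfl
  map_mul' g h := by
    apply LinearEquiv.ext
    intro w
    apply Subtype.ext
    rw [restr_apply, LinearEquiv.mul_apply, restr_apply, restr_apply]
    rfl

theorem toW_apply (τ : A.isom) (g : Subgroup.centralizer ({τ} : Set A.isom)) (w : LinearMap.range (nn τ.1)) :
    (toW τ g w : V) = g.1.1 w := restr_apply g.1.1 (cent_stab (cent_apply g)) w

theorem range_toW (hA : A.Nondeg) {τ : A.isom} (hτ : ∀ v, τ.1 (τ.1 v) = v) : (toW τ).range = isoW A τ.1 := by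
  ext φ
  constructor
  · rintro ⟨g, rfl⟩
    refine ⟨fun w w' => ?_, fun w => ?_⟩
    · obtain ⟨u, hu⟩ := w.2
      rw [bf_eq τ.2 hτ u w w' hu, bf_eq τ.2 hτ (g.1.1 u), toW_apply, g.1.2.1]
      rw [toW_apply, ← hu, nn_apply, nn_apply, map_sub, cent_apply]
    · rw [toW_apply, g.1.2.2]
  · rintro ⟨h1, h2⟩
    obtain ⟨g, hg, hgφ, hgτ⟩ := conj_of_equiv hA τ.2 hτ τ.2 hτ φ h1 h2
    refine ⟨⟨⟨g, hg⟩, ?_⟩, ?_⟩
    · rw [Subgroup.mem_centralizer_singleton_iff]
      apply Subtype.ext
      apply LinearEquiv.ext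
      intro v
      first
        | exact hgτ v
        | exact (hgτ v).symm
    · apply LinearEquiv.ext
      intro w
      apply Subtype.ext
      rw [toW_apply]
      exact hgφ w

theorem card_centralizer [Finite F] (hA : A.Nondeg) {τ : A.isom} (hτ : ∀ v, τ.1 (τ.1 v) = v) :
    Nat.card (Subgroup.centralizer ({τ} : Set A.isom)) =
      Nat.card (isoW A τ.1) * Nat.card (fixW A (LinearMap.range (nn τ.1))) := by
  rw [← range_toW hA hτ, ← (toW τ).ker.card_mul_index, Subgroup.index_ker, mul_comm]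
  congr 1
  -- the kernel
  refine Nat.card_congr
    { toFun := fun g => ⟨g.1.1, fun w hw => ?_⟩
      invFun := fun g => ⟨⟨g.1, ?_⟩, ?_⟩
      left_inv := fun g => rfl
      right_inv := fun g => rfl }
  · have h1 := g.2
    rw [MonoidHom.mem_ker] at h1
    have h2 := congrArg (fun φ : LinearMap.range (nn τ.1) ≃ₗ[F] LinearMap.range (nn τ.1) => (φ ⟨w, hw⟩ : V)) h1
    exact h2
  · rw [Subgroup.mem_centralizer_singleton_iff]
    apply Subtype.ext
    apply LinearEquiv.ext
    intro v
    -- g fixes the image pointwise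
    have key : g.1.1 (nn τ.1 v) = nn τ.1 (g.1.1 v) := by
      obtain ⟨w, hw⟩ : ∃ w : LinearMap.range (nn τ.1), nn τ.1 v = w := ⟨⟨nn τ.1 v, v, rfl⟩, rfl⟩
      have hg : ∀ w : LinearMap.range (nn τ.1), g.1.1 (w : V) = w := fun w => g.2 w w.2
      rw [hw, hg]
      suffices w - ⟨nn τ.1 (g.1.1 v), g.1.1 v, rfl⟩ = 0 from congrArg Subtype.val (sub_eq_zero.1 this)
      apply bf_nondeg hA τ.2 hτ
      intro x
      rw [map_sub, LinearMap.sub_apply, bf_eq τ.2 hτ v w x hw, bf_eq τ.2 hτ (g.1.1 v) _ _ rfl]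
      nth_rw 2 [← hg x]
      rw [g.1.2.1, sub_self]
    rw [nn_apply, nn_apply, map_sub, sub_left_inj] at key
    first
      | exact key
      | exact key.symm
  · rw [MonoidHom.mem_ker]
    apply LinearEquiv.ext
    intro w
    apply Subtype.ext
    exact g.2 w w.2

theorem fixW_eq_fixT {k : ℕ} {w : Fin k → V} {W : Submodule F V} (hW : Submodule.span F (Set.range w) = W) :
    fixW A W = A.fixT w := by
  ext g
  rw [mem_fixT]
  constructor
  · intro h i
    exact h _ (hW ▸ Submodule.subset_span ⟨i, rfl⟩)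
  · intro h x hx
    rw [← hW] at hx
    induction hx using Submodule.span_induction with
    | mem x hx => obtain ⟨i, rfl⟩ := hx; exact h i
    | zero => exact map_zero _
    | add x y _ _ h1 h2 => rw [map_add, h1, h2]
    | smul c x _ h1 => rw [map_smul, h1]

end Cent

section ON

variable {F : Type*} [Field F]

/-- orthonormal tuples -/
def ONt {V : Type*} [AddCommGroup V] [Module F V] (b : V →ₗ[F] V →ₗ[F] F) (n : ℕ) : Type _ :=
  {e : Fin n → V // ∀ i j, b (e i) (e j) = if i = j then 1 else 0}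

/-- their number in dimension `n` -/
def onCount (q : ℕ) : ℕ → ℕ
  | 0 => 1
  | n + 1 => (if Even n ∧ n ≠ 0 then q ^ n - 1 else q ^ n) * onCount q n

open Cfsg.Agent.H5.Sym2

/-- fibration of orthonormal tuples -/
def onEquiv {V : Type*} [AddCommGroup V] [Module F V] (b : V →ₗ[F] V →ₗ[F] F) (hs : ∀ x y, b x y = b y x) (n : ℕ) :
    ONt b (n + 1) ≃ Σ w : {w : V // b w w = 1}, ONt (b.domRestrict₁₂ (pv b w.1) (pv b w.1)) n where
  toFun e := ⟨⟨e.1 0, by rw [e.2, if_pos rfl]⟩, ⟨fun i => ⟨e.1 i.succ, by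
    rw [mem_pv, e.2, if_neg (Fin.succ_ne_zero i).symm]⟩, fun i j => by
      change b (e.1 i.succ) (e.1 j.succ) = _
      rw [e.2]; simp [Fin.succ_inj]⟩⟩
  invFun p := ⟨Fin.cons p.1.1 (fun i => (p.2.1 i : V)), fun i j => by
    refine Fin.cases ?_ (fun i => ?_) i <;> refine Fin.cases ?_ (fun j => ?_) j
    · rw [Fin.cons_zero, p.1.2, if_pos rfl]
    · rw [Fin.cons_zero, Fin.cons_succ, mem_pv.1 (p.2.1 j).2, if_neg (Fin.succ_ne_zero j).symm]
    · rw [Fin.cons_zero, Fin.cons_succ, hs, mem_pv.1 (p.2.1 i).2, if_neg (Fin.succ_ne_zero i)]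
    · rw [Fin.cons_succ, Fin.cons_succ]
      have := p.2.2 i j
      rw [LinearMap.domRestrict₁₂_apply] at this
      rw [this]; simp [Fin.succ_inj]⟩
  left_inv e := by
    apply Subtype.ext
    funext i
    refine Fin.cases ?_ (fun i => ?_) i
    · rfl
    · rfl
  right_inv p := by
    obtain ⟨⟨w, hw⟩, ⟨e, he⟩⟩ := p
    rfl

variable {V : Type*} [AddCommGroup V] [Module F V] [FiniteDimensional F V]

theorem pv_finrank {b : V →ₗ[F] V →ₗ[F] F} {w : V} (hw : b w w = 1) {n : ℕ} (hV : finrank F V = n + 1) :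
    finrank F (pv b w) = n := by
  have h1 := LinearMap.finrank_range_add_finrank_ker (b w)
  have h3 : LinearMap.range (b w) = ⊤ := by
    rw [LinearMap.range_eq_top]
    intro c
    exact ⟨c • w, by rw [map_smul, hw, smul_eq_mul, mul_one]⟩
  rw [h3, finrank_top, finrank_self, hV] at h1
  change finrank F (LinearMap.ker (b w)) = n
  omega

theorem pv_nondeg {b : V →ₗ[F] V →ₗ[F] F} (hs : ∀ x y, b x y = b y x) (hn : ∀ x, (∀ y, b x y = 0) → x = 0) {w : V}
    (hw : b w w = 1) (x : pv b w) (h : ∀ y : pv b w, b x y = 0) : x = 0 := by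
  apply Subtype.ext
  apply hn
  intro y
  have h0 : b w (y - b w y • w) = 0 := by
    rw [map_sub, map_smul, hw, smul_eq_mul, mul_one, sub_self]
  have h1 := h ⟨_, mem_pv.2 h0⟩
  change b x (y - b w y • w) = 0 at h1
  rw [map_sub, map_smul, hs x w, mem_pv.1 x.2, smul_zero, sub_zero] at h1
  exact h1

/-- number of unit vectors -/
theorem card_unit [Finite F] (h2 : (2 : F) = 0) (hsq : ∀ a : F, IsSquare a) {b : V →ₗ[F] V →ₗ[F] F}
    (hs : ∀ x y, b x y = b y x) {w0 : V} (hw0 : b w0 w0 = 1) {n : ℕ} (hV : finrank F V = n + 1) :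
    Nat.card {w : V // b w w = 1} = Nat.card F ^ n := by
  choose sq hsq using hsq
  have hsqi : ∀ {a c : F}, a * a = c * c → a = c := by
    intro a c h
    have : (a - c) ^ 2 = 0 := by linear_combination h - (a * c - c ^ 2) * h2
    exact sub_eq_zero.1 (pow_eq_zero_iff two_ne_zero |>.1 this)
  have hb : ∀ (x : V) (a : F), b (x + a • w0) (x + a • w0) = b x x + a * a := by
    intro x a
    simp only [map_add, LinearMap.add_apply, map_smul, LinearMap.smul_apply, smul_eq_mul, hw0]
    rw [hs w0 x]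
    linear_combination a * b x w0 * h2
  have h2v : ∀ v : V, v + v = 0 := fun v => by rw [← two_smul F, h2, zero_smul]
  let e : V ≃ F × {w : V // b w w = 1} :=
    { toFun := fun x => (sq (b x x), ⟨x + (1 + sq (b x x)) • w0, by
        rw [hb]
        linear_combination (hsq (b x x)) + (sq (b x x) + sq (b x x) * sq (b x x)) * h2⟩)
      invFun := fun p => p.2.1 + (1 + p.1) • w0
      left_inv := fun x => by
        change x + (1 + sq (b x x)) • w0 + (1 + sq (b x x)) • w0 = x
        rw [add_assoc, h2v, add_zero]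
      right_inv := fun p => by
        obtain ⟨c, w, hw⟩ := p
        have h1 : b (w + (1 + c) • w0) (w + (1 + c) • w0) = c * c := by
          rw [hb, hw]
          linear_combination (1 + c) * h2
        have h3 : sq (b (w + (1 + c) • w0) (w + (1 + c) • w0)) = c := by
          apply hsqi
          rw [← hsq, h1]
        apply Prod.ext
        · exact h3
        · apply Subtype.ext
          change w + (1 + c) • w0 + (1 + sq (b (w + (1 + c) • w0) (w + (1 + c) • w0))) • w0 = w
          rw [h3, add_assoc, h2v, add_zero] }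
  have h3 := Nat.card_congr e
  rw [Nat.card_prod, Module.natCard_eq_pow_finrank (K := F), hV, pow_succ'] at h3
  have hF : 0 < Nat.card F := Nat.card_pos
  exact (Nat.eq_of_mul_eq_mul_left hF h3).symm

theorem card_ON [Finite F] [CharP F 2] : ∀ (n : ℕ) {V : Type*} [AddCommGroup V] [Module F V]
    [FiniteDimensional F V] (b : V →ₗ[F] V →ₗ[F] F), (∀ x y, b x y = b y x) →
    (∀ x, (∀ y, b x y = 0) → x = 0) → (n ≠ 0 → ∃ x, b x x ≠ 0) → finrank F V = n →
    Nat.card (ONt b n) = onCount (Nat.card F) n := by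
  have h2 : (2 : F) = 0 := CharTwo.two_eq_zero
  have hsq : ∀ a : F, IsSquare a := fun a => Cfsg.Agent.H16.Quad.isSquare_of_two_eq_zero h2 a
  classical
  intro n
  induction n with
  | zero =>
    intro V _ _ _ b _ _ _ hV
    have : Unique (ONt b 0) := ⟨⟨⟨Fin.elim0, fun i => i.elim0⟩⟩, fun e => Subtype.ext (funext fun i => i.elim0)⟩
    rw [Nat.card_unique, onCount]
  | succ n ih =>
    intro V _ _ _ b hs hn hx hV
    have hfin : Finite V := Module.finite_of_finite F
    obtain ⟨e0, he0⟩ := orthonormal h2 hsq (n + 1) b hs hn (hx (Nat.succ_ne_zero n)) hV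
    have hw0 : b (e0 0) (e0 0) = 1 := by rw [he0, if_pos rfl]
    have hcu := card_unit h2 hsq hs hw0 hV
    rw [Nat.card_congr (onEquiv b hs n)]
    haveI : Fintype {w : V // b w w = 1} := Fintype.ofFinite _
    have hfb : ∀ w : {w : V // b w w = 1}, Finite (ONt (b.domRestrict₁₂ (pv b w.1) (pv b w.1)) n) := fun w =>
      Subtype.finite
    rw [Nat.card_sigma]
    -- good vectors
    have hgood : ∀ w : {w : V // b w w = 1}, (n ≠ 0 → ∃ x : pv b w.1, b x x ≠ 0) →
        Nat.card (ONt (b.domRestrict₁₂ (pv b w.1) (pv b w.1)) n) = onCount (Nat.card F) n := fun w hw =>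
      ih (b.domRestrict₁₂ (pv b w.1) (pv b w.1)) (fun x y => hs _ _) (fun x hx => pv_nondeg hs hn w.2 x hx)
        hw (pv_finrank w.2 hV)
    have hbad : ∀ w : {w : V // b w w = 1}, n ≠ 0 → (∀ x : pv b w.1, b x x = 0) →
        Nat.card (ONt (b.domRestrict₁₂ (pv b w.1) (pv b w.1)) n) = 0 := by
      intro w hn0 hal
      rw [Nat.card_eq_zero]
      left
      refine ⟨fun e => ?_⟩
      have h3 := e.2 ⟨0, by omega⟩ ⟨0, by omega⟩
      rw [if_pos rfl] at h3
      have h4 := hal (e.1 ⟨0, by omega⟩)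
      exact zero_ne_one (h4.symm.trans h3)
    rw [onCount]
    by_cases hcase : Even n ∧ n ≠ 0
    · rw [if_pos hcase]
      obtain ⟨hev, hn0⟩ := hcase
      -- the special vector
      obtain ⟨c, hc⟩ : ∃ c, c = ∑ i, e0 i := ⟨_, rfl⟩
      have hbc : ∀ x, b c x = ∑ i, e0.repr x i := by
        intro x
        conv_lhs => rw [← e0.sum_repr x, hc]
        rw [map_sum]
        refine Finset.sum_congr rfl fun i _ => ?_
        rw [map_smul, map_sum, LinearMap.sum_apply, Finset.sum_eq_single i (fun j _ hj => by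
            rw [he0, if_neg hj]) (fun h => absurd (Finset.mem_univ i) h), he0,
            if_pos rfl, smul_eq_mul, mul_one]
      have hbx : ∀ x, b x x = ∑ i, e0.repr x i ^ 2 := by
        intro x
        conv_lhs => rw [← e0.sum_repr x]
        rw [map_sum]
        refine Finset.sum_congr rfl fun i _ => ?_
        rw [map_sum, LinearMap.sum_apply, Finset.sum_eq_single i (fun j _ hj => by
            rw [map_smul, map_smul, LinearMap.smul_apply, he0, if_neg hj, smul_zero, smul_zero])
            (fun h => absurd (Finset.mem_univ i) h), map_smul, map_smul, LinearMap.smul_apply, he0,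
            if_pos rfl, smul_eq_mul, smul_eq_mul, mul_one, pow_two]
      have hbcx : ∀ x, b x x = b c x ^ 2 := by
        intro x
        rw [hbx, hbc, CharTwo.sum_sq]
      have hcc : b c c = 1 := by
        rw [hbc, hc]
        have : ∀ i, e0.repr (∑ i, e0 i) i = 1 := by
          intro i
          rw [map_sum, Finsupp.finset_sum_apply, Finset.sum_eq_single i (fun j _ hj => by
            rw [Basis.repr_self, Finsupp.single_eq_of_ne hj.symm]) (fun h => absurd (Finset.mem_univ i) h),
            Basis.repr_self, Finsupp.single_eq_same]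
        rw [Finset.sum_congr rfl (fun i _ => this i)]
        simp only [Finset.sum_const, Finset.card_univ, Fintype.card_fin, nsmul_eq_mul, mul_one, Nat.cast_add, Nat.cast_one]
        obtain ⟨k, rfl⟩ := hev
        rw [Nat.cast_add, CharTwo.add_self_eq_zero, zero_add]
      have hspec : ∀ w : {w : V // b w w = 1}, (∀ x : pv b w.1, b x x = 0) ↔ w = ⟨c, hcc⟩ := by
        intro w
        constructor
        · intro hal
          have hsub : pv b w.1 ≤ pv b c := by
            intro x hx
            rw [mem_pv]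
            have := hal ⟨x, hx⟩
            change b x x = 0 at this
            rw [hbcx] at this
            exact pow_eq_zero_iff two_ne_zero |>.1 this
          have heq : pv b w.1 = pv b c := Submodule.eq_of_le_of_finrank_eq hsub
            (by rw [pv_finrank w.2 hV, pv_finrank hcc hV])
          -- `w - b c w • c` is orthogonal to everything
          apply Subtype.ext
          have h3 : w.1 - b c w.1 • c = 0 := by
            apply hn
            intro y
            have hy : y - b c y • c ∈ pv b w.1 := by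
              rw [heq, mem_pv, map_sub, map_smul, hcc, smul_eq_mul, mul_one, sub_self]
            rw [mem_pv, map_sub, map_smul, smul_eq_mul, sub_eq_zero] at hy
            rw [map_sub, LinearMap.sub_apply, map_smul, LinearMap.smul_apply, smul_eq_mul, hy, hs w.1 c]
            ring
          have h4 : b c w.1 = 1 := by
            have := hbcx w.1
            rw [w.2] at this
            have h5 : (b c w.1 - 1) ^ 2 = 0 := by linear_combination -this - (b c w.1 - 1) * h2
            exact sub_eq_zero.1 (pow_eq_zero_iff two_ne_zero |>.1 h5)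
          rw [h4, one_smul, sub_eq_zero] at h3
          exact h3
        · rintro rfl x
          rw [hbcx, mem_pv.1 x.2, zero_pow two_ne_zero]
      rw [← Finset.sum_erase_add _ _ (Finset.mem_univ (⟨c, hcc⟩ : {w : V // b w w = 1})),
        hbad _ hn0 ((hspec _).2 rfl), add_zero, Finset.sum_congr rfl (fun w hw => hgood w (fun _ => by
          by_contra hcon
          push Not at hcon
          exact (Finset.mem_erase.1 hw).1 ((hspec w).1 hcon)))]
      rw [Finset.sum_const, Finset.card_erase_of_mem (Finset.mem_univ _), Finset.card_univ, ← Nat.card_eq_fintype_card,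
        hcu, smul_eq_mul]
    · rw [if_neg hcase]
      rw [Finset.sum_congr rfl (fun w _ => hgood w (fun hn0 => by
        by_contra hcon
        push Not at hcon
        have hodd : ¬ Even n := fun h => hcase ⟨h, hn0⟩
        apply hodd
        have h3 := alt_even (b.domRestrict₁₂ (pv b w.1) (pv b w.1)) hcon (fun x hx => pv_nondeg hs hn w.2 x hx)
        rwa [pv_finrank w.2 hV] at h3))]
      rw [Finset.sum_const, Finset.card_univ, ← Nat.card_eq_fintype_card, hcu, smul_eq_mul]

/-- the isometry group of a bilinear form -/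
def isoB (b : V →ₗ[F] V →ₗ[F] F) : Subgroup (V ≃ₗ[F] V) where
  carrier := {φ | ∀ w w', b (φ w) (φ w') = b w w'}
  mul_mem' {a c} ha hc := fun w w' => by rw [LinearEquiv.mul_apply, LinearEquiv.mul_apply, ha, hc]
  one_mem' := fun _ _ => rfl
  inv_mem' {a} ha := fun w w' => by
    rw [← ha, ← LinearEquiv.mul_apply, ← LinearEquiv.mul_apply, mul_inv_cancel]; rfl

theorem card_isoB [Finite F] [CharP F 2] {n : ℕ} (b : V →ₗ[F] V →ₗ[F] F) (hs : ∀ x y, b x y = b y x)
    (hn : ∀ x, (∀ y, b x y = 0) → x = 0) (hx : ∃ x, b x x ≠ 0) (hV : finrank F V = n) :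
    Nat.card (isoB b) = onCount (Nat.card F) n := by
  have h2 : (2 : F) = 0 := CharTwo.two_eq_zero
  have hsq : ∀ a : F, IsSquare a := fun a => Cfsg.Agent.H16.Quad.isSquare_of_two_eq_zero h2 a
  rw [← card_ON n b hs hn (fun _ => hx) hV]
  obtain ⟨e0, he0⟩ := orthonormal h2 hsq n b hs hn hx hV
  refine Nat.card_congr (Equiv.ofBijective (fun g => ⟨fun i => g.1 (e0 i), fun i j => by rw [g.2, he0]⟩) ⟨?_, ?_⟩)
  · intro g g' h
    apply Subtype.ext
    apply LinearEquiv.toLinearMap_injective
    apply e0.ext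
    intro i
    exact congrFun (congrArg Subtype.val h) i
  · intro e
    have hli : LinearIndependent F e.1 := by
      rw [Fintype.linearIndependent_iff]
      intro g hg i
      have h1 : b (e.1 i) (∑ j, g j • e.1 j) = 0 := by rw [hg, map_zero]
      rw [map_sum, Finset.sum_eq_single i (fun j _ hj => by
        rw [map_smul, e.2, if_neg hj.symm, smul_zero]) (fun h => absurd (Finset.mem_univ i) h), map_smul, e.2,
        if_pos rfl, smul_eq_mul, mul_one] at h1
      exact h1
    have hcard : Fintype.card (Fin n) = finrank F V := by rw [Fintype.card_fin, hV]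
    rcases Nat.eq_zero_or_pos n with hn0 | hn0
    · exfalso
      obtain ⟨x, hx⟩ := hx
      apply hx
      have : Subsingleton V := Module.finrank_zero_iff.1 (hV.trans hn0)
      rw [Subsingleton.elim x 0, map_zero]
    haveI : Nonempty (Fin n) := ⟨⟨0, hn0⟩⟩
    let e1 : Basis (Fin n) F V := basisOfLinearIndependentOfCardEqFinrank hli hcard
    have he1 : ∀ i, e1 i = e.1 i := fun i => by
      rw [coe_basisOfLinearIndependentOfCardEqFinrank]
    refine ⟨⟨e0.equiv e1 (Equiv.refl _), ?_⟩, ?_⟩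
    · intro x y
      have : b.compl₁₂ (e0.equiv e1 (Equiv.refl _)).toLinearMap (e0.equiv e1 (Equiv.refl _)).toLinearMap = b := by
        apply e0.ext
        intro i
        apply e0.ext
        intro j
        rw [LinearMap.compl₁₂_apply]
        change b (e0.equiv e1 (Equiv.refl _) (e0 i)) (e0.equiv e1 (Equiv.refl _) (e0 j)) = _
        rw [Basis.equiv_apply, Basis.equiv_apply, he0, Equiv.refl_apply, Equiv.refl_apply, he1, he1, e.2]
      exact LinearMap.congr_fun (LinearMap.congr_fun this x) y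
    · apply Subtype.ext
      funext i
      change e0.equiv e1 (Equiv.refl _) (e0 i) = e.1 i
      rw [Basis.equiv_apply, Equiv.refl_apply, he1]

end ON

section Cards

open Cfsg.Agent.H5 Cfsg.Agent.H5.Frm

/-- closed forms -/
theorem onCount_odd (q : ℕ) (k : ℕ) : onCount q (2 * k + 1) = q ^ (k ^ 2) * ∏ i ∈ Finset.range k, (q ^ (2 * (i + 1)) - 1) := by
  induction k with
  | zero => simp [onCount]
  | succ k ih =>
    rw [show 2 * (k + 1) + 1 = (2 * k + 1) + 1 + 1 by ring, onCount, onCount, ih, if_pos ⟨⟨k + 1, by ring⟩, by omega⟩,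
      if_neg (fun h => by
        have h1 := h.1
        rw [Nat.even_add_one] at h1
        exact h1 (even_two_mul k)), Finset.prod_range_succ, show 2 * k + 1 + 1 = 2 * (k + 1) by ring]
    rw [show (k + 1) ^ 2 = k ^ 2 + (2 * k + 1) by ring, pow_add]
    ring

theorem onCount_even (q : ℕ) (k : ℕ) : onCount q (2 * k + 2) =
    q ^ (2 * k + 1) * (q ^ (k ^ 2) * ∏ i ∈ Finset.range k, (q ^ (2 * (i + 1)) - 1)) := by
  rw [← onCount_odd, show 2 * k + 2 = (2 * k + 1) + 1 by ring, onCount, if_neg (fun h => by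
        have h1 := h.1
        rw [Nat.even_add_one] at h1
        exact h1 (even_two_mul k))]

variable {F : Type*} [Field F]

theorem card_isoB_alt [Fintype F] {V : Type*} [AddCommGroup V] [Module F V] [FiniteDimensional F V]
    (b : V →ₗ[F] V →ₗ[F] F) (hs : ∀ x, b x x = 0) (hn : ∀ x, (∀ y, b x y = 0) → x = 0) {k : ℕ}
    (hV : finrank F V = 2 * k) : Nat.card (isoB b) =
      Fintype.card F ^ (k ^ 2) * ∏ i ∈ Finset.range k, (Fintype.card F ^ (2 * (i + 1)) - 1) := by
  have h1 : Nat.card (isoB b) = Nat.card (ofAlt b hs).isom := by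
    refine Nat.card_congr (Equiv.subtypeEquivRight fun g => ?_)
    exact ⟨fun h => ⟨h, fun _ => rfl⟩, fun h => h.1⟩
  obtain ⟨k', a, ha, hw⟩ := exists_wittDec (F := F) (σ := RingHom.id F) (ε := -1) (t := (0 : F →+ F)) 0
    (fun {V} _ _ _ A hA h => by
      have : Nontrivial V := Module.nontrivial_of_finrank_pos (R := F) h
      obtain ⟨v, hv⟩ := exists_ne (0 : V)
      obtain ⟨s, hs⟩ := A.Q_t v
      exact ⟨v, hv, by rw [← hs]; rfl⟩) _ (ofAlt b hs) (fun x hx => hn x hx) rfl
  have e1 := hw.finrank_eq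
  obtain rfl : a = 0 := by omega
  obtain rfl : k' = k := by omega
  rw [h1, WittDec.card_isom 0 1 (fun A _ _ h => card_isom_zero A h) _ (ofAlt b hs) (fun x hx => hn x hx) hw, mul_one,
    kt_zero, ordProd_sp _ _ Fintype.card_pos]

universe u

theorem card_fixW_ts [Fintype F] [CharP F 2] {σ : F →+* F} {ε : F} {t : F →+ F} {V : Type u} [AddCommGroup V] [Module F V]
    [FiniteDimensional F V] {A : Frm F σ ε t V} (hA : A.Nondeg) {k m : ℕ} (h : WittDec (m + k) 0 A)
    {W : Submodule F V} (hW : finrank F W = k) (hQ : ∀ v ∈ W, A.Q v = 0) (hB : ∀ v ∈ W, ∀ w ∈ W, A.B v w = 0) :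
    Nat.card (fixW A W) = fixProd (Fintype.card F) (kt t) 0 k m * ordProd (Fintype.card F) (kt t) 0 m := by
  let e : Basis (Fin k) F W := Module.finBasisOfFinrankEq F W hW
  have hli : LinearIndependent F (fun i => (e i : V)) := e.linearIndependent.map' W.subtype (Submodule.ker_subtype W)
  have hspan : Submodule.span F (Set.range (fun i => (e i : V))) = W := by
    have h1 : Set.range (fun i => (e i : V)) = W.subtype '' Set.range e := by
      rw [← Set.range_comp]; rfl
    rw [h1, Submodule.span_image, e.span_eq, Submodule.map_top, Submodule.range_subtype]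
  rw [fixW_eq_fixT hspan]
  have hts : A.IsTS (fun i => (e i : V)) := ⟨hli, fun i => hQ _ (e i).2, fun i j => hB _ (e i).2 _ (e j).2⟩
  have h2 := card_isom_eq_tsCard_mul hA hts
  rw [WittDec.card_isom 0 1 (fun A _ _ h => card_isom_zero A h) (m + k) A hA h, WittDec.card_ts 0 k m A hA h,
    ordProd_add, mul_one] at h2
  have h3 := tsProd_pos (Fintype.card F) (kt t) 0 Fintype.one_lt_card k m
  apply Nat.eq_of_mul_eq_mul_left h3
  rw [← h2]
  ring

theorem expo1 (s d : ℕ) : 2 * (s + d) * s - (3 * s ^ 2 - s) / 2 = s + (2 * d * s + 0 * s + s * (s - 1) / 2) := by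
  rcases s with _ | s
  · simp
  · obtain ⟨k, hk⟩ := Nat.even_mul_succ_self s
    have e1 : (s + 1) * (s + 1 - 1) = 2 * k := by
      rw [Nat.add_sub_cancel, mul_comm, hk]; ring
    have e2 : 3 * (s + 1) ^ 2 - (s + 1) = 2 * ((s + 1) + 3 * k) := by
      have h3 : (s + 1) ^ 2 = (s + 1) + 2 * k := by
        have : (s + 1) ^ 2 = (s + 1) + s * (s + 1) := by ring
        rw [this, hk]; ring
      omega
    have e3 : 2 * (s + 1 + d) * (s + 1) = 2 * ((s + 1) + 2 * k) + 2 * d * (s + 1) := by
      have h3 : (s + 1) * (s + 1) = (s + 1) + 2 * k := by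
        have : (s + 1) * (s + 1) = (s + 1) + s * (s + 1) := by ring
        rw [this, hk]; ring
      calc 2 * (s + 1 + d) * (s + 1) = 2 * ((s + 1) * (s + 1)) + 2 * d * (s + 1) := by ring
        _ = _ := by rw [h3]
    rw [e1, e2, e3, Nat.mul_div_cancel_left _ (by norm_num), Nat.mul_div_cancel_left _ (by norm_num)]
    omega

end Cards

section SpCent

open Cfsg.Agent.H5 Cfsg.Agent.H5.Frm Cfsg.Agent.H5.Conc Matrix

variable {F : Type*} [Field F] [Fintype F] [CharP F 2] {m : ℕ}

theorem sp_sq' {a : Matrix.symplecticGroup (Fin m) F} (ha : a ^ 2 = 1)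
    (v : Fin m ⊕ Fin m → F) : (spEquiv m F a).1 ((spEquiv m F a).1 v) = v := by
  have h1 : spEquiv m F a * spEquiv m F a = 1 := by rw [← _root_.map_mul, ← pow_two, ha, _root_.map_one]
  exact congrArg (fun x : (sympFrm m F).isom => x.1 v) h1

theorem centEquiv_card {G H : Type*} [Group G] [Group H] (e : G ≃* H) (g : G) :
    Nat.card (Subgroup.centralizer ({g} : Set G)) = Nat.card (Subgroup.centralizer ({e g} : Set H)) := by
  refine Nat.card_congr (e.toEquiv.subtypeEquiv fun x => ?_)
  rw [Subgroup.mem_centralizer_singleton_iff, Subgroup.mem_centralizer_singleton_iff]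
  change _ ↔ e _ * _ = _ * e _
  rw [← _root_.map_mul, ← _root_.map_mul, e.injective.eq_iff]

/-- centraliser order in the symplectic group -/
theorem sp_cent {t : Matrix.symplecticGroup (Fin m) F} (ht : t ^ 2 = 1) {s : ℕ}
    (hs : ((t : Matrix (Fin m ⊕ Fin m) (Fin m ⊕ Fin m) F) - 1).rank = s) :
    s ≤ m ∧ Nat.card (Subgroup.centralizer ({t} : Set (Matrix.symplecticGroup (Fin m) F))) =
      Nat.card (isoB (bf (sympFrm m F) (spEquiv m F t).1)) * (Fintype.card F ^ (2 * m * s - (3 * s ^ 2 - s) / 2) *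
        (Fintype.card F ^ ((m - s) ^ 2) * ∏ i ∈ Finset.range (m - s), (Fintype.card F ^ (2 * (i + 1)) - 1))) := by
  have hnd := sympFrm_nondeg m F
  have hW : finrank F (LinearMap.range (nn (spEquiv m F t).1)) = s := by
    rw [finrank_range_nn (A := (t : Matrix (Fin m ⊕ Fin m) (Fin m ⊕ Fin m) F)) (fun v => spEquiv_apply m F t v), hs]
  have hB : ∀ v ∈ LinearMap.range (nn (spEquiv m F t).1), ∀ w ∈ LinearMap.range (nn (spEquiv m F t).1),
      (sympFrm m F).B v w = 0 := by
    rintro _ ⟨u, rfl⟩ _ ⟨v, rfl⟩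
    exact B_nn_nn (spEquiv m F t).2 (sp_sq' ht) u v
  have hle : s ≤ m := by
    have h1 := finrank_orth hnd (LinearMap.range (nn (spEquiv m F t).1))
    have h2 : LinearMap.range (nn (spEquiv m F t).1) ≤ (sympFrm m F).orth (LinearMap.range (nn (spEquiv m F t).1)) :=
      fun v hv w hw => hB w hw v hv
    have h3 := Submodule.finrank_mono h2
    rw [Cfsg.Agent.H16.Quad.finrank_plus] at h1
    omega
  refine ⟨hle, ?_⟩
  obtain ⟨d, rfl⟩ : ∃ d, m = s + d := ⟨m - s, by omega⟩
  rw [centEquiv_card (spEquiv (s + d) F) t, card_centralizer hnd (sp_sq' ht)]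
  congr 1
  · refine Nat.card_congr (Equiv.subtypeEquivRight fun g => ?_)
    exact ⟨fun h => h.1, fun h => ⟨h, fun _ => rfl⟩⟩
  · have hwd : WittDec (d + s) 0 (sympFrm (s + d) F) := by
      rw [add_comm d s]; exact sympFrm_wittDec _ _
    rw [card_fixW_ts hnd hwd hW (fun _ _ => rfl) hB, kt_zero, ordProd_sp _ _ Fintype.card_pos, fixProd, ← pow_add,
      expo1, Nat.add_sub_cancel_left]

end SpCent

section T1

open Cfsg.Agent.H5 Cfsg.Agent.H5.Frm Cfsg.Agent.H16.Quad
open QuadraticMap (polar)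

variable {F : Type*} [Field F] [Finite F] [CharP F 2] {V : Type*} [AddCommGroup V] [Module F V]
  [FiniteDimensional F V] {Q : QuadraticForm F V}

/-- tuples of independent pairwise orthogonal vectors of norm one -/
def IsT1 (Q : QuadraticForm F V) {k : ℕ} (v : Fin k → V) : Prop :=
  LinearIndependent F v ∧ (∀ i, Q (v i) = 1) ∧ ∀ i j, polar Q (v i) (v j) = 0

theorem pol_self (v : V) : polar Q v v = 0 := by
  rw [QuadraticMap.polar_self, two_nsmul, CharTwo.add_self_eq_zero]

theorem card_unitY {Y : Submodule F V} {z : V} (hz : z ∈ Y) (hQz : Q z = 1) (hY : ∀ y ∈ Y, polar Q y z = 0) :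
    Nat.card F * Nat.card {x : V // x ∈ Y ∧ Q x = 1} = Nat.card F ^ finrank F Y := by
  have h2 : (2 : F) = 0 := CharTwo.two_eq_zero
  have hsq : ∀ a : F, IsSquare a := fun a => isSquare_of_two_eq_zero h2 a
  choose sq hsq using hsq
  have hsqi : ∀ {a c : F}, a * a = c * c → a = c := by
    intro a c h
    have : (a - c) ^ 2 = 0 := by linear_combination h - (a * c - c ^ 2) * h2
    exact sub_eq_zero.1 (pow_eq_zero_iff two_ne_zero |>.1 this)
  have hb : ∀ (x : V) (a : F), x ∈ Y → Q (x + a • z) = Q x + a * a := by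
    intro x a hx
    rw [Cfsg.Agent.H16.Quad.map_add, QuadraticMap.map_smul, hQz, QuadraticMap.polar_smul_right, hY x hx, smul_zero, add_zero,
      smul_eq_mul, mul_one]
  have h2v : ∀ v : V, v + v = 0 := fun v => by rw [← two_smul F, h2, zero_smul]
  let e : Y ≃ F × {x : V // x ∈ Y ∧ Q x = 1} :=
    { toFun := fun x => (sq (Q x), ⟨x + (1 + sq (Q x)) • z, Y.add_mem x.2 (Y.smul_mem _ hz), by
        rw [hb _ _ x.2]
        linear_combination (hsq (Q (x : V))) + (sq (Q (x : V)) + sq (Q (x : V)) * sq (Q (x : V))) * h2⟩)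
      invFun := fun p => ⟨p.2.1 + (1 + p.1) • z, Y.add_mem p.2.2.1 (Y.smul_mem _ hz)⟩
      left_inv := fun x => by
        apply Subtype.ext
        change (x : V) + (1 + sq (Q x)) • z + (1 + sq (Q x)) • z = x
        rw [add_assoc, h2v, add_zero]
      right_inv := fun p => by
        obtain ⟨c, w, hwY, hw⟩ := p
        have h1 : Q (w + (1 + c) • z) = c * c := by
          rw [hb _ _ hwY, hw]
          linear_combination (1 + c) * h2
        have h3 : sq (Q (w + (1 + c) • z)) = c := by
          apply hsqi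
          rw [← hsq, h1]
        apply Prod.ext
        · exact h3
        · apply Subtype.ext
          change w + (1 + c) • z + (1 + sq (Q (w + (1 + c) • z))) • z = w
          rw [h3, add_assoc, h2v, add_zero] }
  have h3 := Nat.card_congr e
  rw [Nat.card_prod, Module.natCard_eq_pow_finrank (K := F)] at h3
  exact h3.symm

/-- number of extensions of a tuple -/
theorem card_ext (hQ : (QuadraticMap.polarBilin Q).Nondegenerate) {k : ℕ} {v : Fin (k + 1) → V} (hv : IsT1 Q v) :
    Nat.card F * Nat.card {x : V // Q x = 1 ∧ (∀ i, polar Q (v i) x = 0) ∧ x ∉ Submodule.span F (Set.range v)} +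
      Nat.card F ^ (k + 1) = Nat.card F ^ (finrank F V - (k + 1)) := by
  classical
  have hfin : Finite V := Module.finite_of_finite F
  obtain ⟨X, hX⟩ : ∃ X, X = Submodule.span F (Set.range v) := ⟨_, rfl⟩
  have hfX : finrank F X = k + 1 := by rw [hX, finrank_span_eq_card hv.1, Fintype.card_fin]
  have hfU : finrank F (perp Q X) = finrank F V - (k + 1) := by
    have := finrank_add_finrank_perp hQ X
    omega
  have hmU : ∀ x, x ∈ perp Q X ↔ ∀ i, polar Q (v i) x = 0 := by
    intro x
    rw [mem_perp]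
    constructor
    · intro h i
      exact h _ (by rw [hX]; exact Submodule.subset_span ⟨i, rfl⟩)
    · intro h y hy
      rw [hX] at hy
      induction hy using Submodule.span_induction with
      | mem y hy => obtain ⟨i, rfl⟩ := hy; exact h i
      | zero => exact QuadraticMap.polar_zero_left _ _
      | add y z _ _ h1 h2 => rw [QuadraticMap.polar_add_left, h1, h2, add_zero]
      | smul c y _ h1 => rw [QuadraticMap.polar_smul_left, h1, smul_zero]
  have hXU : X ≤ perp Q X := by
    intro x hx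
    rw [hmU]
    intro i
    rw [hX] at hx
    induction hx using Submodule.span_induction with
    | mem y hy => obtain ⟨j, rfl⟩ := hy; exact hv.2.2 i j
    | zero => exact QuadraticMap.polar_zero_right _ _
    | add y z _ _ h1 h2 => rw [QuadraticMap.polar_add_right, h1, h2, add_zero]
    | smul c y _ h1 => rw [QuadraticMap.polar_smul_right, h1, smul_zero]
  have hzX : v 0 ∈ X := by rw [hX]; exact Submodule.subset_span ⟨0, rfl⟩
  have c1 := card_unitY (Y := X) hzX (hv.2.1 0) (fun y hy => by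
    rw [polar_symm]; exact (hmU y).1 (hXU hy) 0)
  have c2 := card_unitY (Y := perp Q X) (hXU hzX) (hv.2.1 0) (fun y hy => by
    rw [polar_symm]; exact (hmU y).1 hy 0)
  rw [hfX] at c1
  rw [hfU] at c2
  rw [← c1, ← c2, ← mul_add]
  congr 1
  -- disjoint union
  have e : {x : V // x ∈ perp Q X ∧ Q x = 1} ≃
      {x : V // Q x = 1 ∧ (∀ i, polar Q (v i) x = 0) ∧ x ∉ Submodule.span F (Set.range v)} ⊕ {x : V // x ∈ X ∧ Q x = 1} :=
    { toFun := fun x => if hx : x.1 ∈ X then Sum.inr ⟨x.1, hx, x.2.2⟩ else Sum.inl ⟨x.1, x.2.2, (hmU _).1 x.2.1, by rwa [← hX]⟩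
      invFun := fun y => match y with
        | Sum.inl y => ⟨y.1, (hmU _).2 y.2.2.1, y.2.1⟩
        | Sum.inr y => ⟨y.1, hXU y.2.1, y.2.2⟩
      left_inv := fun x => by
        by_cases hx : x.1 ∈ X
        · simp [hx]
        · simp [hx]
      right_inv := fun y => by
        rcases y with y | y
        · have : y.1 ∉ X := by rw [hX]; exact y.2.2.2
          simp [this]
        · simp [y.2.1] }
  rw [Nat.card_congr e, Nat.card_sum]

/-- fibration of tuples -/
def t1Equiv (Q : QuadraticForm F V) (k : ℕ) : {v : Fin (k + 1) → V // IsT1 Q v} ≃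
    Σ v : {v : Fin k → V // IsT1 Q v}, {x : V // Q x = 1 ∧ (∀ i, polar Q (v.1 i) x = 0) ∧ x ∉ Submodule.span F (Set.range v.1)} where
  toFun v := ⟨⟨fun i => v.1 i.succ, by
      have h := v.2.1
      have h1 : v.1 = Fin.cons (v.1 0) (fun i => v.1 i.succ) := (Fin.cons_self_tail v.1).symm
      rw [h1, linearIndependent_finCons] at h
      exact h.1, fun i => v.2.2.1 _, fun i j => v.2.2.2 _ _⟩, ⟨v.1 0, v.2.2.1 0, fun i => v.2.2.2 _ _, by
      have h := v.2.1
      have h1 : v.1 = Fin.cons (v.1 0) (fun i => v.1 i.succ) := (Fin.cons_self_tail v.1).symm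
      rw [h1, linearIndependent_finCons] at h
      exact h.2⟩⟩
  invFun p := ⟨Fin.cons p.2.1 p.1.1, by
    refine ⟨linearIndependent_finCons.2 ⟨p.1.2.1, p.2.2.2.2⟩, fun i => ?_, fun i j => ?_⟩
    · refine Fin.cases ?_ (fun i => ?_) i
      · rw [Fin.cons_zero]; exact p.2.2.1
      · rw [Fin.cons_succ]; exact p.1.2.2.1 i
    · refine Fin.cases ?_ (fun i => ?_) i <;> refine Fin.cases ?_ (fun j => ?_) j
      · exact pol_self _
      · rw [Fin.cons_zero, Fin.cons_succ, polar_symm]; exact p.2.2.2.1 j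
      · rw [Fin.cons_zero, Fin.cons_succ]; exact p.2.2.2.1 i
      · rw [Fin.cons_succ, Fin.cons_succ]; exact p.1.2.2.2 i j⟩
  left_inv v := by
    apply Subtype.ext
    exact Fin.cons_self_tail v.1
  right_inv p := by
    obtain ⟨⟨v, hv⟩, ⟨x, hx⟩⟩ := p
    rfl

/-- the number of tuples -/
noncomputable def t1Card (Q : QuadraticForm F V) (k : ℕ) : ℕ := Nat.card {v : Fin k → V // IsT1 Q v}

theorem t1Card_one : t1Card Q 1 = Nat.card {x : V // Q x = 1} := by
  refine Nat.card_congr
    { toFun := fun v => ⟨v.1 0, v.2.2.1 0⟩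
      invFun := fun x => ⟨fun _ => x.1, ?_, fun _ => x.2, fun _ _ => pol_self _⟩
      left_inv := fun v => by
        apply Subtype.ext
        funext i
        rw [Subsingleton.elim i 0]
      right_inv := fun x => rfl }
  have hx0 : x.1 ≠ 0 := by
    intro h
    have := x.2
    rw [h, QuadraticMap.map_zero] at this
    exact zero_ne_one this
  rw [linearIndependent_unique_iff]
  exact hx0

theorem t1Card_succ (hQ : (QuadraticMap.polarBilin Q).Nondegenerate) (k : ℕ) :
    Nat.card F * t1Card Q (k + 2) = t1Card Q (k + 1) * (Nat.card F ^ (finrank F V - (k + 1)) - Nat.card F ^ (k + 1)) := by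
  classical
  have hfin : Finite V := Module.finite_of_finite F
  haveI : Fintype {v : Fin (k + 1) → V // IsT1 Q v} := Fintype.ofFinite _
  rw [t1Card, Nat.card_congr (t1Equiv Q (k + 1)), Nat.card_sigma, Finset.mul_sum]
  rw [Finset.sum_congr rfl (fun v _ => by
    have h := card_ext hQ v.2
    exact Nat.eq_sub_of_add_eq h), Finset.sum_const, Finset.card_univ, ← Nat.card_eq_fintype_card, smul_eq_mul]
  rfl

theorem card_isom_t1 (hQ : (QuadraticMap.polarBilin Q).Nondegenerate) {k : ℕ} {w : Fin k → V} (hw : IsT1 Q w) :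
    Nat.card (ofQuad Q).isom = t1Card Q k * Nat.card ((ofQuad Q).fixT w) := by
  let act : MulAction (ofQuad Q).isom (Fin k → V) :=
    { smul := fun g v => fun i => g.1 (v i)
      one_smul := fun v => rfl
      mul_smul := fun g h v => rfl }
  have h := card_eq_card_orbit_mul (G := (ofQuad Q).isom) w {v | IsT1 Q v} (by
    intro y
    constructor
    · intro hy
      obtain ⟨g, hg, hgi⟩ := witt_tuple (nondeg_ofQuad hQ) w y hw.1 hy.1 (fun i j => by
        change polar Q _ _ = polar Q _ _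
        rw [hw.2.2, hy.2.2]) (fun i => by
        change Q _ = Q _
        rw [hw.2.1, hy.2.1])
      exact ⟨⟨g, hg⟩, funext hgi⟩
    · rintro ⟨g, rfl⟩
      refine ⟨hw.1.map' g.1.toLinearMap (LinearMap.ker_eq_bot.mpr g.1.injective), fun i => ?_, fun i j => ?_⟩
      · exact (g.2.2 _).trans (hw.2.1 i)
      · exact (g.2.1 _ _).trans (hw.2.2 i j))
  have e : Nat.card (MulAction.stabilizer (ofQuad Q).isom w) = Nat.card ((ofQuad Q).fixT w) := by
    refine Nat.card_congr (Equiv.subtypeEquivRight (fun g => ?_))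
    rw [MulAction.mem_stabilizer_iff, mem_fixT]
    constructor
    · intro h i; exact congrFun h i
    · intro h; exact funext h
  rw [e] at h
  exact h

/-- vectors of norm one and singular vectors -/
theorem card_norm_one : (Nat.card F - 1) * Nat.card {x : V // Q x = 1} + Nat.card {x : V // Q x = 0} =
    Nat.card F ^ finrank F V := by
  classical
  have h2 : (2 : F) = 0 := CharTwo.two_eq_zero
  have hfin : Finite V := Module.finite_of_finite F
  have hsq : ∀ a : F, IsSquare a := fun a => isSquare_of_two_eq_zero h2 a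
  choose sq hsq using hsq
  have hsqi : ∀ {a c : F}, a * a = c * c → a = c := by
    intro a c h
    have : (a - c) ^ 2 = 0 := by linear_combination h - (a * c - c ^ 2) * h2
    exact sub_eq_zero.1 (pow_eq_zero_iff two_ne_zero |>.1 this)
  have hsq0 : ∀ a, a ≠ 0 → sq a ≠ 0 := fun a ha h => ha (by rw [hsq a, h, mul_zero])
  have e1 : V ≃ {x : V // Q x ≠ 0} ⊕ {x : V // Q x = 0} :=
    ((Equiv.sumCompl (fun x : V => Q x = 0)).symm.trans (Equiv.sumComm _ _))
  have e2 : {x : V // Q x ≠ 0} ≃ Fˣ × {x : V // Q x = 1} :=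
    { toFun := fun x => (Units.mk0 (sq (Q x)) (hsq0 _ x.2), ⟨(sq (Q x))⁻¹ • x.1, by
        rw [QuadraticMap.map_smul, smul_eq_mul]
        nth_rw 3 [hsq (Q x.1)]
        have := hsq0 _ x.2
        field_simp⟩)
      invFun := fun p => ⟨(p.1 : F) • p.2.1, by
        rw [QuadraticMap.map_smul, p.2.2, smul_eq_mul, mul_one]
        exact mul_ne_zero p.1.ne_zero p.1.ne_zero⟩
      left_inv := fun x => by
        apply Subtype.ext
        change sq (Q x.1) • (sq (Q x.1))⁻¹ • x.1 = x.1
        rw [smul_smul, mul_inv_cancel₀ (hsq0 _ x.2), one_smul]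
      right_inv := fun p => by
        obtain ⟨c, w, hw⟩ := p
        have h1 : Q ((c : F) • w) = (c : F) * c := by rw [QuadraticMap.map_smul, hw, smul_eq_mul, mul_one]
        have h3 : sq (Q ((c : F) • w)) = c := by
          apply hsqi
          rw [← hsq, h1]
        apply Prod.ext
        · apply Units.ext
          exact h3
        · apply Subtype.ext
          change (sq (Q ((c : F) • w)))⁻¹ • (c : F) • w = w
          rw [h3, smul_smul, inv_mul_cancel₀ c.ne_zero, one_smul] }
  have h3 := Nat.card_congr e1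
  rw [Nat.card_sum, Nat.card_congr e2, Nat.card_prod, Nat.card_units, Module.natCard_eq_pow_finrank (K := F)] at h3
  exact h3.symm

end T1

section PlusCent

open Cfsg.Agent.H5 Cfsg.Agent.H5.Frm Cfsg.Agent.H16.Quad Cfsg.Agent.H5.Conc Cfsg.Agent.H5.QuadC
open QuadraticMap (polar)

/-- half of the centraliser -/
theorem om_half {F : Type*} [Field F] [Finite F] [CharP F 2] {ι : Type} [Fintype ι] [DecidableEq ι]
    {Q : QuadraticForm F (ι → F)} (hQ : (QuadraticMap.polarBilin Q).Nondegenerate)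
    (h : Nat.card F ≠ 2 ∨ finrank F (ι → F) ≠ 4) (hn : 1 ≤ finrank F (ι → F)) {x r : Cfsg.isometryGroup F ⇑Q}
    (hr : r ∉ Cfsg.Omega F ⇑Q) (hrx : r * x = x * r) :
    Nat.card {g : Cfsg.Omega F ⇑Q // (g : Cfsg.isometryGroup F ⇑Q) * x = x * g} * 2 =
      Nat.card (Subgroup.centralizer ({x} : Set (Cfsg.isometryGroup F ⇑Q))) := by
  have h2 : (2 : F) = 0 := CharTwo.two_eq_zero
  have hrC : r ∈ Subgroup.centralizer ({x} : Set (Cfsg.isometryGroup F ⇑Q)) :=
    Subgroup.mem_centralizer_singleton_iff.2 hrx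
  have hidx : ((Cfsg.Omega F ⇑Q).subgroupOf (Subgroup.centralizer ({x} : Set (Cfsg.isometryGroup F ⇑Q)))).index = 2 := by
    rw [Subgroup.index_eq_two_iff]
    refine ⟨⟨r, hrC⟩, fun b => ?_⟩
    rw [Subgroup.mem_subgroupOf, Subgroup.mem_subgroupOf]
    change Xor (b.1 * r ∈ _) (b.1 ∈ _)
    rw [Subgroup.mul_mem_iff_of_index_two (Omega_index_two hQ h2 hn h)]
    by_cases hb : b.1 ∈ Cfsg.Omega F ⇑Q
    · exact Or.inr ⟨hb, fun h => hr (h.1 hb)⟩
    · exact Or.inl ⟨⟨fun h => absurd h hb, fun h => absurd h hr⟩, hb⟩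
  rw [← ((Cfsg.Omega F ⇑Q).subgroupOf (Subgroup.centralizer ({x} : Set (Cfsg.isometryGroup F ⇑Q)))).card_mul_index, hidx]
  congr 1
  exact Nat.card_congr
    { toFun := fun g => ⟨⟨g.1.1, Subgroup.mem_centralizer_singleton_iff.2 g.2⟩, g.1.2⟩
      invFun := fun g => ⟨⟨g.1.1, g.2⟩, Subgroup.mem_centralizer_singleton_iff.1 g.1.2⟩
      left_inv := fun g => rfl
      right_inv := fun g => rfl }

/-- the centraliser in the isometry group -/
theorem card_cent_O {F : Type*} [Field F] [Finite F] [CharP F 2] {ι : Type} [Fintype ι] [DecidableEq ι]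
    {Q : QuadraticForm F (ι → F)} (hQ : (QuadraticMap.polarBilin Q).Nondegenerate) {x : Cfsg.isometryGroup F ⇑Q}
    (hx : x ^ 2 = 1) :
    Nat.card (Subgroup.centralizer ({x} : Set (Cfsg.isometryGroup F ⇑Q))) =
      Nat.card (isoB (bf (ofQuad Q) (toOG Q x).1)) *
      Nat.card (fixW (ofQuad Q) (LinearMap.range (nn (toOG Q x).1))) := by
  have e := orthEquiv Q ⇑Q (fun _ => rfl)
  rw [centEquiv_card (orthEquiv Q ⇑Q (fun _ => rfl)) x]
  have hsq : ∀ v, (orthEquiv Q ⇑Q (fun _ => rfl) x).1 ((orthEquiv Q ⇑Q (fun _ => rfl) x).1 v) = v := toOG_sq hx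
  rw [card_centralizer (nondeg_ofQuad hQ) hsq]
  congr 1
  refine Nat.card_congr (Equiv.subtypeEquivRight fun g => ?_)
  constructor
  · intro h; exact h.1
  · intro h
    refine ⟨h, fun w => ?_⟩
    change Q _ = Q _
    rw [quad_Q_bf (orthEquiv Q ⇑Q (fun _ => rfl) x).2 hsq, quad_Q_bf (orthEquiv Q ⇑Q (fun _ => rfl) x).2 hsq]
    exact h w w

theorem qPlus_eq {F : Type*} [Field F] (m : ℕ) : qPlus m F = plusQ F m := by
  apply QuadraticMap.ext
  intro v
  rw [qPlus_apply, plusQ_apply]

theorem wittDec_plusQ {F : Type*} [Field F] (m : ℕ) : WittDec m 0 (ofQuad (plusQ F m)) := by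
  rw [← qPlus_eq]
  exact wittDec_plus

variable {F : Type*} [Field F] [Fintype F] [CharP F 2] {m : ℕ}

theorem card_O_plus' : Nat.card (ofQuad (plusQ F m)).isom = ordProd (Fintype.card F) 1 0 m := by
  rw [WittDec.card_isom 0 1 (fun A _ _ h => card_isom_zero A h) _ _ (nondeg_ofQuad (nd_plusQ m)) (wittDec_plusQ m),
    mul_one, kt_id]

theorem t1_one (M : ℕ) : t1Card (plusQ F (M + 1)) 1 = Fintype.card F ^ M * (Fintype.card F ^ (M + 1) - 1) := by
  have h1 := card_norm_one (Q := plusQ F (M + 1))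
  have h2 := WittDec.N0_eq _ _ _ (wittDec_plusQ (F := F) (M + 1))
  rw [kt_id] at h2
  change Nat.card {x // plusQ F (M + 1) x = 0} = _ at h2
  rw [h2, ← t1Card_one, finrank_plus, Nat.card_eq_fintype_card] at h1
  have hq : 1 < Fintype.card F := Fintype.one_lt_card
  obtain ⟨q, hqd⟩ : ∃ q, Fintype.card F = q + 1 := ⟨Fintype.card F - 1, by omega⟩
  rw [hqd] at h1 hq ⊢
  have h3 : 0 < (q + 1) ^ (M + 1) := by positivity
  obtain ⟨a, ha⟩ : ∃ a, (q + 1) ^ (M + 1) = a + 1 := ⟨(q + 1) ^ (M + 1) - 1, by omega⟩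
  have h4 : (q + 1) ^ (2 * (M + 1)) = (a + 1) * (a + 1) := by rw [two_mul, pow_add, ha]
  have h5 : (q + 1) ^ M * (q + 1) = a + 1 := by rw [← ha, pow_succ]
  rw [h4, ha, Nat.add_sub_cancel, Nat.add_sub_cancel, Nat.add_zero, Nat.add_sub_cancel, one_mul] at h1
  rw [ha, Nat.add_sub_cancel]
  have hq0 : 0 < q := by omega
  apply Nat.eq_of_mul_eq_mul_left hq0
  obtain ⟨B, hB⟩ : ∃ B, B = (q + 1) ^ M := ⟨_, rfl⟩
  rw [← hB] at h1 h5 ⊢
  zify at h1 h5 ⊢
  linear_combination h1 - (a : ℤ) * h5

theorem t1_prod : ∀ k d, m = k + 1 + d → t1Card (plusQ F m) (k + 1) *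
    (2 * (Fintype.card F ^ (d ^ 2 + 2 * k * d + k * (k + 1) / 2) *
      ∏ i ∈ Finset.range d, (Fintype.card F ^ (2 * (i + 1)) - 1))) = ordProd (Fintype.card F) 1 0 m := by
  intro k
  induction k with
  | zero =>
    intro d hd
    obtain rfl : m = d + 1 := by omega
    rw [t1_one, ordProd_quad_plus _ Fintype.card_pos]
    rw [show d ^ 2 + 2 * 0 * d + 0 * (0 + 1) / 2 = d ^ 2 by simp, show (d + 1) * d = d ^ 2 + d by ring, pow_add]
    ring
  | succ k ih =>
    intro d hd
    have h1 := ih (d + 1) (by omega)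
    have h2 := t1Card_succ (nd_plusQ (F := F) m) k
    rw [finrank_plus, Nat.card_eq_fintype_card] at h2
    have hq : 0 < Fintype.card F := Fintype.card_pos
    apply Nat.eq_of_mul_eq_mul_left hq
    rw [← h1, ← mul_assoc, h2, Finset.prod_range_succ]
    have e1 : Fintype.card F ^ (2 * m - (k + 1)) - Fintype.card F ^ (k + 1) =
        Fintype.card F ^ (k + 1) * (Fintype.card F ^ (2 * (d + 1)) - 1) := by
      rw [Nat.mul_sub, mul_one, ← pow_add]
      congr 2
      omega
    have e2 : (k + 1) * (k + 1 + 1) / 2 = k * (k + 1) / 2 + (k + 1) := by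
      have : (k + 1) * (k + 1 + 1) = k * (k + 1) + (k + 1) * 2 := by ring
      rw [this, Nat.add_mul_div_right _ _ (by norm_num)]
    have e3 : (k + 1) + (d ^ 2 + 2 * (k + 1) * d + (k + 1) * (k + 1 + 1) / 2) =
        ((d + 1) ^ 2 + 2 * k * (d + 1) + k * (k + 1) / 2) + 1 := by
      rw [e2]; ring
    rw [e1]
    calc _ = t1Card (plusQ F m) (k + 1) * (Fintype.card F ^ (k + 1) *
          Fintype.card F ^ (d ^ 2 + 2 * (k + 1) * d + (k + 1) * (k + 1 + 1) / 2)) *
          (2 * (∏ i ∈ Finset.range d, (Fintype.card F ^ (2 * (i + 1)) - 1)) * (Fintype.card F ^ (2 * (d + 1)) - 1)) := by ring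
      _ = _ := by rw [← pow_add, e3, pow_succ]; ring

/-- pointwise stabiliser of the image, non-alternating case -/
theorem card_fixW_t1 {k d : ℕ} (hm : m = k + 1 + d) {w : Fin (k + 1) → (Fin m ⊕ Fin m → F)} (hw : IsT1 (plusQ F m) w) :
    Nat.card ((ofQuad (plusQ F m)).fixT w) = 2 * (Fintype.card F ^ (d ^ 2 + 2 * k * d + k * (k + 1) / 2) *
      ∏ i ∈ Finset.range d, (Fintype.card F ^ (2 * (i + 1)) - 1)) := by
  have h1 := card_isom_t1 (nd_plusQ m) hw
  have h2 := t1_prod (F := F) k d hm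
  rw [card_O_plus'] at h1
  have h3 : 0 < t1Card (plusQ F m) (k + 1) := by
    have hfin : Finite (Fin m ⊕ Fin m → F) := inferInstance
    have : Nonempty {v : Fin (k + 1) → (Fin m ⊕ Fin m → F) // IsT1 (plusQ F m) v} := ⟨⟨w, hw⟩⟩
    exact Nat.card_pos
  apply Nat.eq_of_mul_eq_mul_left h3
  rw [← h1, h2]

end PlusCent

section PlusCent2

open Cfsg.Agent.H5 Cfsg.Agent.H5.Frm Cfsg.Agent.H16.Quad Cfsg.Agent.H5.Conc Cfsg.Agent.H5.QuadC
open QuadraticMap (polar)

variable {F : Type*} [Field F] [Fintype F] [CharP F 2] {m : ℕ}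

theorem rk_le_m {x : Cfsg.isometryGroup F ⇑(plusQ F m)} (hx : x ^ 2 = 1) : rk x ≤ m := by
  have := rk_le (nd_plusQ m) hx
  rw [finrank_plus] at this
  omega

/-- centraliser, non-alternating case -/
theorem cent_t1 {x : Cfsg.isometryGroup F ⇑(plusQ F m)} (hx : x ^ 2 = 1) (hna : ¬ IsAl x) {k d : ℕ} (hk : rk x = k + 1)
    (hm : m = k + 1 + d) :
    Nat.card (Subgroup.centralizer ({x} : Set (Cfsg.isometryGroup F ⇑(plusQ F m)))) =
      onCount (Fintype.card F) (k + 1) * (2 * (Fintype.card F ^ (d ^ 2 + 2 * k * d + k * (k + 1) / 2) *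
      ∏ i ∈ Finset.range d, (Fintype.card F ^ (2 * (i + 1)) - 1))) := by
  have h2 : (2 : F) = 0 := CharTwo.two_eq_zero
  have hsq : ∀ a : F, IsSquare a := fun a => isSquare_of_two_eq_zero h2 a
  rw [card_cent_O (nd_plusQ m) hx]
  have hτ := toOG_isom x
  have hτ2 := toOG_sq hx
  have hsy : ∀ y z, bf (ofQuad (plusQ F m)) (toOG (plusQ F m) x).1 y z = bf (ofQuad (plusQ F m)) (toOG (plusQ F m) x).1 z y := by
    intro y z
    rw [bf_symm hτ hτ2 z y, RingHom.id_apply, one_mul]
  have hnb := bf_nondeg (nondeg_ofQuad (nd_plusQ m)) hτ hτ2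
  have hna' : ∃ y, bf (ofQuad (plusQ F m)) (toOG (plusQ F m) x).1 y y ≠ 0 := by
    by_contra hcon
    push Not at hcon
    apply hna
    intro v
    have h3 := quad_Q_bf hτ hτ2 ⟨nn (toOG (plusQ F m) x).1 v, v, rfl⟩
    rw [hcon] at h3
    exact h3
  congr 1
  · rw [← Nat.card_eq_fintype_card]
    exact card_isoB _ hsy hnb hna' hk
  · obtain ⟨e, he⟩ := Cfsg.Agent.H5.Sym2.orthonormal h2 hsq (k + 1) _ hsy hnb hna' hk
    have hspan : Submodule.span F (Set.range (fun i => (e i : Fin m ⊕ Fin m → F))) =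
        LinearMap.range (nn (toOG (plusQ F m) x).1) := by
      have h1 : Set.range (fun i => (e i : Fin m ⊕ Fin m → F)) =
          (LinearMap.range (nn (toOG (plusQ F m) x).1)).subtype '' Set.range e := by
        rw [← Set.range_comp]; rfl
      rw [h1, Submodule.span_image, e.span_eq, Submodule.map_top, Submodule.range_subtype]
    rw [fixW_eq_fixT hspan]
    apply card_fixW_t1 hm
    refine ⟨e.linearIndependent.map' _ (Submodule.ker_subtype _), fun i => ?_, fun i j => ?_⟩
    · rw [quad_Q_bf hτ hτ2, he, if_pos rfl]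
    · obtain ⟨u, hu⟩ := (e i).2
      obtain ⟨v, hv⟩ := (e j).2
      change polar (plusQ F m) (e i : Fin m ⊕ Fin m → F) (e j : Fin m ⊕ Fin m → F) = 0
      rw [← hu, ← hv]
      exact B_nn_nn hτ hτ2 u v

/-- centraliser, alternating case -/
theorem cent_al {x : Cfsg.isometryGroup F ⇑(plusQ F m)} (hx : x ^ 2 = 1) (hal : IsAl x) {k d : ℕ} (hk : rk x = 2 * k)
    (hm : m = 2 * k + d) :
    Nat.card (Subgroup.centralizer ({x} : Set (Cfsg.isometryGroup F ⇑(plusQ F m)))) =
      (Fintype.card F ^ (k ^ 2) * ∏ i ∈ Finset.range k, (Fintype.card F ^ (2 * (i + 1)) - 1)) *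
        (Fintype.card F ^ (2 * d * (2 * k) + 0 * (2 * k) + 2 * k * (2 * k - 1) / 2) * ordProd (Fintype.card F) 1 0 d) := by
  rw [card_cent_O (nd_plusQ m) hx]
  have hτ := toOG_isom x
  have hτ2 := toOG_sq hx
  have hnb := bf_nondeg (nondeg_ofQuad (nd_plusQ m)) hτ hτ2
  have hal' : ∀ w, bf (ofQuad (plusQ F m)) (toOG (plusQ F m) x).1 w w = 0 := by
    rintro ⟨_, v, rfl⟩
    rw [← quad_Q_bf hτ hτ2]
    exact hal v
  congr 1
  · exact card_isoB_alt _ hal' hnb hk
  · have hwd : WittDec (d + 2 * k) 0 (ofQuad (plusQ F m)) := by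
      rw [show d + 2 * k = m by omega]; exact wittDec_plusQ m
    rw [card_fixW_ts (nondeg_ofQuad (nd_plusQ m)) hwd hk
      (by rintro _ ⟨v, rfl⟩; exact hal v)
      (by rintro _ ⟨u, rfl⟩ _ ⟨v, rfl⟩; exact B_nn_nn hτ hτ2 u v), kt_id, fixProd, one_pow, one_mul]

/-- elements outside `Ω` in the centraliser -/
theorem exists_out (h : Nat.card F ≠ 2 ∨ finrank F (Fin m ⊕ Fin m → F) ≠ 4) {x : Cfsg.isometryGroup F ⇑(plusQ F m)} (hx : x ^ 2 = 1)
    (hna : ¬ IsMax (plusQ F m) (imS (toOG (plusQ F m) x).1)) :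
    ∃ r : Cfsg.isometryGroup F ⇑(plusQ F m), r ∉ Cfsg.Omega F ⇑(plusQ F m) ∧ r * x = x * r := by
  by_cases hs : ∀ v, (toOG (plusQ F m) x).1 v = v → plusQ F m v = 0
  · exact absurd (isMax_imS (nd_plusQ m) (toOG (plusQ F m) x).2 (toOG_sq hx) hs) hna
  · push Not at hs
    obtain ⟨w, hw1, hw2⟩ := hs
    exact exists_comm_notMem (nd_plusQ m) h x hw2 hw1

theorem om_all (h : Nat.card F ≠ 2 ∨ finrank F (Fin m ⊕ Fin m → F) ≠ 4) {x : Cfsg.isometryGroup F ⇑(plusQ F m)}
    (hM : IsMax (plusQ F m) (imS (toOG (plusQ F m) x).1)) (hev : Even (finrank F (imS (toOG (plusQ F m) x).1))) :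
    Nat.card {g : Cfsg.Omega F ⇑(plusQ F m) // (g : Cfsg.isometryGroup F ⇑(plusQ F m)) * x = x * g} =
      Nat.card (Subgroup.centralizer ({x} : Set (Cfsg.isometryGroup F ⇑(plusQ F m)))) := by
  refine Nat.card_congr
    { toFun := fun g => ⟨g.1.1, Subgroup.mem_centralizer_singleton_iff.2 g.2⟩
      invFun := fun g => ⟨⟨g.1, ?_⟩, Subgroup.mem_centralizer_singleton_iff.1 g.2⟩
      left_inv := fun g => rfl
      right_inv := fun g => rfl }
  rw [mem_Omega_iff_max (nd_plusQ m) h hM hev]
  have h1 : g.1 * x * g.1⁻¹ = x := by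
    rw [mul_inv_eq_iff_eq_mul]
    exact Subgroup.mem_centralizer_singleton_iff.1 g.2
  rw [← imS_conj h1, inf_idem]
  exact hev

end PlusCent2

end Cfsg.Agent.H5.I2
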