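import Mathlib
import Cfsg.Agent.H21_GLo2
import Cfsg.Agent.H5_Inv4
import Cfsg.Prelude.Def_GeometricClasses

set_option autoImplicit false

/-! Elements of prime order without fixed nonsingular points. -/

namespace Cfsg.Agent.H5.Der

open Module QuadraticMap
open Cfsg.Agent.H16.Quad hiding map_add map_sub map_smul
open Cfsg.Agent.H5.I2

section points

variable {F : Type*} [Field F] [Fintype F] {V : Type*} [AddCommGroup V] [Module F V] [Finite V]

theorem card_points (Q : V → F) (hQ : ∀ (c : F) v, Q (c • v) = c * c * Q v) :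
    (Fintype.card F - 1) * Nat.card {W : Submodule F V // finrank F W = 1 ∧ ∃ v ∈ W, Q v ≠ 0} =
      Nat.card {v : V // Q v ≠ 0} := by
  classical
  have hQ0 : Q 0 = 0 := by
    have := hQ 0 0
    rw [zero_smul, mul_zero, zero_mul] at this
    exact this
  have hne : ∀ v : {v : V // Q v ≠ 0}, (v : V) ≠ 0 := fun v h => v.2 (by rw [h, hQ0])
  let φ : {v : V // Q v ≠ 0} → {W : Submodule F V // finrank F W = 1 ∧ ∃ v ∈ W, Q v ≠ 0} := fun v =>
    ⟨Submodule.span F {(v : V)}, finrank_span_singleton (hne v), v, Submodule.mem_span_singleton_self _, v.2⟩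
  haveI : Finite (Submodule F V) := Finite.of_injective (fun W : Submodule F V => (W : Set V)) SetLike.coe_injective
  haveI := Fintype.ofFinite {W : Submodule F V // finrank F W = 1 ∧ ∃ v ∈ W, Q v ≠ 0}
  have hfib : ∀ W : {W : Submodule F V // finrank F W = 1 ∧ ∃ v ∈ W, Q v ≠ 0},
      Nat.card {v : {v : V // Q v ≠ 0} // φ v = W} = Fintype.card F - 1 := by
    rintro ⟨W, hW1, w, hw, hQw⟩
    have hw0 : w ≠ 0 := fun h => hQw (by rw [h, hQ0])
    have hWs : W = Submodule.span F {w} := by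
      symm
      apply Submodule.eq_of_le_of_finrank_eq
      · rw [Submodule.span_singleton_le_iff_mem]
        exact hw
      · rw [hW1, finrank_span_singleton hw0]
    have hmem : ∀ c : Fˣ, Q ((c : F) • w) ≠ 0 := by
      intro c
      rw [hQ]
      exact mul_ne_zero (mul_ne_zero c.ne_zero c.ne_zero) hQw
    let g : Fˣ → {v : {v : V // Q v ≠ 0} // φ v = ⟨W, hW1, w, hw, hQw⟩} := fun c =>
      ⟨⟨(c : F) • w, hmem c⟩, Subtype.ext (by
        change Submodule.span F {(c : F) • w} = W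
        rw [hWs, Submodule.span_singleton_smul_eq c.isUnit])⟩
    have hg : Function.Bijective g := by
      constructor
      · intro c c' h
        have h1 : (c : F) • w = (c' : F) • w := congrArg (fun y => ((y : {v : V // Q v ≠ 0}) : V)) (congrArg Subtype.val h)
        exact Units.ext (smul_left_injective F hw0 h1)
      · rintro ⟨⟨v, hv⟩, h⟩
        have h1 : Submodule.span F {v} = W := congrArg Subtype.val h
        have h2 : v ∈ W := h1 ▸ Submodule.mem_span_singleton_self v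
        rw [hWs, Submodule.mem_span_singleton] at h2
        obtain ⟨c, rfl⟩ := h2
        have hc : c ≠ 0 := by
          rintro rfl
          rw [zero_smul, hQ0] at hv
          exact hv rfl
        exact ⟨Units.mk0 c hc, rfl⟩
    rw [← Nat.card_eq_of_bijective g hg, Nat.card_units, Nat.card_eq_fintype_card]
  rw [← Nat.card_congr (Equiv.sigmaFiberEquiv φ), Nat.card_sigma, Finset.sum_congr rfl (fun W _ => hfib W),
    Finset.sum_const, smul_eq_mul, Finset.card_univ, Nat.card_eq_fintype_card (α := {W : Submodule F V //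
      finrank F W = 1 ∧ ∃ v ∈ W, Q v ≠ 0}), mul_comm]

theorem card_ne_add (Q : V → F) : Nat.card {v : V // Q v ≠ 0} + Nat.card {v : V // Q v = 0} = Nat.card V := by
  classical
  haveI := Fintype.ofFinite V
  rw [Nat.card_eq_fintype_card, Nat.card_eq_fintype_card, Nat.card_eq_fintype_card, Fintype.card_subtype_compl]
  have := Fintype.card_subtype_le (fun v : V => Q v = 0)
  omega

theorem card_plus_points {q : ℕ} (hF : Fintype.card F = q) {m : ℕ} (hm : 0 < m) :
    Nat.card {W : Submodule F (Fin m ⊕ Fin m → F) // finrank F W = 1 ∧ ∃ v ∈ W, Cfsg.quadFormPlus m F v ≠ 0} =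
      q ^ (m - 1) * (q ^ m - 1) := by
  have h1 := card_points (F := F) (V := Fin m ⊕ Fin m → F) (Cfsg.quadFormPlus m F) (fun c v => by
    rw [← plusQ_apply, ← plusQ_apply, QuadraticMap.map_smul, smul_eq_mul])
  have h2 := card_ne_add (F := F) (V := Fin m ⊕ Fin m → F) (Cfsg.quadFormPlus m F)
  have h3 := QuadC.card_zeros hF m 0 _ (wittDec_plusQ (F := F) m)
  have h4 : (Frm.ofQuad (plusQ F m)).N0 = Nat.card {v : Fin m ⊕ Fin m → F // Cfsg.quadFormPlus m F v = 0} := by
    rw [Frm.N0]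
    refine Nat.card_congr (Equiv.subtypeEquivRight (fun v => ?_))
    rw [← plusQ_apply]
    rfl
  rw [h4] at h3
  rw [h3, ← h1, hF] at h2
  have h5 : Nat.card (Fin m ⊕ Fin m → F) = q ^ m * q ^ m := by
    rw [Nat.card_eq_fintype_card, Fintype.card_fun, hF, Fintype.card_sum, Fintype.card_fin, pow_add]
  rw [h5] at h2
  obtain ⟨k, rfl⟩ : ∃ k, m = k + 1 := ⟨m - 1, by omega⟩
  have hq : 1 < q := hF ▸ Fintype.one_lt_card
  have hle : 1 ≤ q ^ (k + 1) := Nat.one_le_pow _ _ (by omega)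
  set N := Nat.card {W : Submodule F (Fin (k + 1) ⊕ Fin (k + 1) → F) // finrank F W = 1 ∧ ∃ v ∈ W, Cfsg.quadFormPlus (k + 1) F v ≠ 0}
  rw [Nat.add_sub_cancel, show k + 1 + 0 - 1 = k from rfl] at *
  zify [hq.le, hle] at h2 ⊢
  have h6 : (q : ℤ) - 1 ≠ 0 := by
    have : (1 : ℤ) < q := by exact_mod_cast hq
    omega
  apply mul_left_cancel₀ h6
  rw [pow_succ] at h2 ⊢
  linear_combination h2

theorem card_minus_points {q : ℕ} (hF : Fintype.card F = q) {m : ℕ} {a b : F}
    (hab : ∀ z₁ z₂ : F, z₁ ^ 2 + a * z₁ * z₂ + b * z₂ ^ 2 = 0 → z₁ = 0 ∧ z₂ = 0) :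
    Nat.card {W : Submodule F ((Fin m ⊕ Fin m) ⊕ Fin 2 → F) // finrank F W = 1 ∧
      ∃ v ∈ W, Cfsg.quadFormMinus m F a b v ≠ 0} = q ^ m * (q ^ (m + 1) + 1) := by
  have h1 := card_points (F := F) (V := (Fin m ⊕ Fin m) ⊕ Fin 2 → F) (Cfsg.quadFormMinus m F a b) (fun c v => by
    rw [← minusQ_apply, ← minusQ_apply, QuadraticMap.map_smul, smul_eq_mul])
  have h2 := card_ne_add (F := F) (V := (Fin m ⊕ Fin m) ⊕ Fin 2 → F) (Cfsg.quadFormMinus m F a b)
  have h3 := QuadC.card_zeros hF m 2 _ (QuadC.wittDec_minus (m := m) hab)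
  have h4 : (Frm.ofQuad (QuadC.qMinus m F a b)).N0 = Nat.card {v : (Fin m ⊕ Fin m) ⊕ Fin 2 → F // Cfsg.quadFormMinus m F a b v = 0} := by
    rw [Frm.N0]
    refine Nat.card_congr (Equiv.subtypeEquivRight (fun v => ?_))
    rw [← QuadC.qMinus_apply]
    rfl
  rw [h4] at h3
  rw [h3, ← h1, hF] at h2
  have h5 : Nat.card ((Fin m ⊕ Fin m) ⊕ Fin 2 → F) = q ^ (m + 1) * q ^ (m + 1) := by
    rw [Nat.card_eq_fintype_card, Fintype.card_fun, hF, Fintype.card_sum, Fintype.card_sum, Fintype.card_fin,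
      Fintype.card_fin, ← pow_add]
    congr 1
    omega
  rw [h5] at h2
  have hq : 1 < q := hF ▸ Fintype.one_lt_card
  have hle : 1 ≤ q ^ m := Nat.one_le_pow _ _ (by omega)
  set N := Nat.card {W : Submodule F ((Fin m ⊕ Fin m) ⊕ Fin 2 → F) // finrank F W = 1 ∧
      ∃ v ∈ W, Cfsg.quadFormMinus m F a b v ≠ 0}
  rw [show m + 2 - 1 = m + 1 from rfl] at h2
  zify [hq.le, hle] at h2 ⊢
  have h6 : (q : ℤ) - 1 ≠ 0 := by
    have : (1 : ℤ) < q := by exact_mod_cast hq
    omega
  apply mul_left_cancel₀ h6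
  rw [pow_succ] at h2 ⊢
  linear_combination h2

end points

section fpf

/-- a linear map of prime order without nonzero fixed vectors -/
theorem exists_fpf (F : Type*) [Field F] [Fintype F] {d r : ℕ} (hd : d ≠ 0) (hr : r.Prime)
    (h : r ∣ Fintype.card F ^ d - 1) :
    ∃ Y : Matrix (Fin d) (Fin d) F, Y ^ r = 1 ∧ ∀ v, Y.mulVec v = v → v = 0 := by
  obtain ⟨E, _, _, _, _, hE, hcE⟩ := H21.GLo.exists_ext F d hd
  obtain ⟨y, hy⟩ := H21.GLo.exists_order (E := E) (m := r) (by rw [hcE]; exact h)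
  have hy1 : y - 1 ≠ 0 := by
    intro h1
    rw [sub_eq_zero.1 h1, orderOf_one] at hy
    exact hr.one_lt.ne hy
  let b : Basis (Fin d) F E := Module.finBasisOfFinrankEq F E hE
  refine ⟨Algebra.leftMulMatrix b y, ?_, fun v hv => ?_⟩
  · rw [← _root_.map_pow, ← hy, pow_orderOf_eq_one, _root_.map_one]
  · set e : E := b.equivFun.symm v with he
    have h1 : b.repr e = v := by
      ext i
      rw [he, ← Basis.equivFun_apply, LinearEquiv.apply_symm_apply]
    have h2 := Algebra.leftMulMatrix_mulVec_repr b y e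
    rw [h1, hv, ← h1] at h2
    have h3 : e = y * e := by
      apply b.repr.injective
      ext i
      exact congrFun h2 i
    have h4 : (y - 1) * e = 0 := by rw [sub_mul, one_mul, ← h3, sub_self]
    have h5 : e = 0 := (mul_eq_zero.1 h4).resolve_left hy1
    rw [← h1, h5]
    ext i
    rw [_root_.map_zero]
    rfl

/-- doubling -/
theorem exists_fpf2 (F : Type*) [Field F] [Fintype F] {d r : ℕ} (hd : d ≠ 0) (hr : r.Prime)
    (h : r ∣ Fintype.card F ^ d - 1) :
    ∃ Y Z : Matrix (Fin d) (Fin d) F, Y.transpose * Z = 1 ∧ Y ^ r = 1 ∧ Z ^ r = 1 ∧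
      (∀ v, Y.mulVec v = v → v = 0) ∧ ∀ v, Z.mulVec v = v → v = 0 := by
  obtain ⟨Y, h1, h2⟩ := exists_fpf F hd hr h
  have h3 : Y ^ (r - 1) * Y = 1 := by
    rw [← pow_succ, Nat.sub_add_cancel hr.one_lt.le, h1]
  have h4 : Y.transpose * (Y ^ (r - 1)).transpose = 1 := by
    rw [← Matrix.transpose_mul, h3, Matrix.transpose_one]
  have h5 : (Y ^ (r - 1)).transpose ^ r = 1 := by
    rw [← Matrix.transpose_pow, ← pow_mul, mul_comm, pow_mul, h1, one_pow, Matrix.transpose_one]
  refine ⟨Y, (Y ^ (r - 1)).transpose, h4, h1, h5, h2, fun v hv => ?_⟩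
  have h6 : Y.transpose.mulVec v = v := by
    have h7 := congrArg (fun w => Y.transpose.mulVec w) hv
    simp only [Matrix.mulVec_mulVec, h4, Matrix.one_mulVec] at h7
    exact h7.symm
  by_contra hv0
  have h8 : (Y - 1).det = 0 := by
    rw [← Matrix.det_transpose, Matrix.transpose_sub, Matrix.transpose_one]
    exact Matrix.exists_mulVec_eq_zero_iff.1 ⟨v, hv0, by rw [Matrix.sub_mulVec, h6, Matrix.one_mulVec, sub_self]⟩
  obtain ⟨w, hw0, hw⟩ := Matrix.exists_mulVec_eq_zero_iff.2 h8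
  rw [Matrix.sub_mulVec, Matrix.one_mulVec, sub_eq_zero] at hw
  exact hw0 (h2 w hw)

end fpf


section main

variable {F : Type*} [Field F] [Fintype F] {ι : Type} [Fintype ι] [DecidableEq ι] {Q : QuadraticForm F (ι → F)}

theorem exists_ne_of_nd [Nonempty ι] (hQ : (QuadraticMap.polarBilin Q).Nondegenerate) : ∃ v, Q v ≠ 0 := by
  by_contra h
  push Not at h
  have h1 : (Pi.single (Classical.arbitrary ι) 1 : ι → F) = 0 := by
    apply nd_eq_zero hQ
    intro y
    rw [QuadraticMap.polar, h, h, h]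
    ring
  have h2 := congrFun h1 (Classical.arbitrary ι)
  rw [Pi.single_eq_same] at h2
  exact one_ne_zero h2

/-- scalar square in characteristic two -/
theorem sq_one_of_scalar [CharP F 2] [Nonempty ι] (hQ : (QuadraticMap.polarBilin Q).Nondegenerate)
    (g : Cfsg.isometryGroup F ⇑Q) {n : ℕ} {z : F}
    (hz : (((g : GL ι F) ^ n : GL ι F) : Matrix ι ι F) = z • (1 : Matrix ι ι F)) : g ^ n = 1 := by
  obtain ⟨v, hv⟩ := exists_ne_of_nd hQ
  have h1 := mem_isometryGroup.1 (g ^ n).2 v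
  rw [Subgroup.coe_pow, hz, Matrix.smul_mulVec, Matrix.one_mulVec, QuadraticMap.map_smul, smul_eq_mul] at h1
  have h2 : z * z = 1 := mul_right_cancel₀ hv (by rw [h1, one_mul])
  have h3 : (z + 1) * (z + 1) = 0 := by
    have h4 : (2 : F) = 0 := CharTwo.two_eq_zero
    linear_combination h2 + (z + 1) * h4
  have h5 : z = 1 := by
    have := mul_self_eq_zero.1 h3
    have h6 := eq_neg_of_add_eq_zero_left this
    rwa [CharTwo.neg_eq] at h6
  apply Subtype.ext
  apply Units.ext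
  rw [Subgroup.coe_pow, hz, h5, one_smul]
  rfl

/-- involutions of `Ω` fix nonsingular points -/
theorem inv_fixes [CharP F 2] [Nonempty ι] (hQ : (QuadraticMap.polarBilin Q).Nondegenerate)
    (h : Nat.card F ≠ 2 ∨ finrank F (ι → F) ≠ 4) {N N' : ℕ} (hN : finrank F (ι → F) = 2 * N)
    (hN' : ∀ U : Submodule F (ι → F), (∀ u ∈ U, Q u = 0) → finrank F U ≤ N') (hc : N' < N ∨ (N' = N ∧ Odd N))
    (x : GL ι F) (hx : x ∈ Cfsg.Geo.omegaGL ⇑Q) (hx1 : ∃ z : F, ((x ^ 2 : GL ι F) : Matrix ι ι F) = z • (1 : Matrix ι ι F)) :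
    ∃ W : Submodule F (ι → F), (finrank F W = 1 ∧ ∃ v ∈ W, Q v ≠ 0) ∧
      W.map (Matrix.toLin' (x : Matrix ι ι F)) ≤ W := by
  obtain ⟨g, hg, rfl⟩ := hx
  obtain ⟨z, hz⟩ := hx1
  have hg2 : g ^ 2 = 1 := sq_one_of_scalar hQ g hz
  have hev := (mem_Omega_iff_even hQ h g).1 hg
  rw [← rk_eq] at hev
  have hrk : finrank F (imS (toOG Q g).1) = rk g := rfl
  have h4 := finrank_add_finrank_perp hQ (imS (toOG Q g).1)
  rw [perp_imS hQ (toOG Q g).2, hrk] at h4
  have h5 := rk_le hQ hg2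
  by_contra hcon
  have hts : ∀ u ∈ fixS (toOG Q g).1, Q u = 0 := by
    intro u hu
    by_contra hQu
    apply hcon
    have hu0 : u ≠ 0 := by
      rintro rfl
      exact hQu (QuadraticMap.map_zero Q)
    refine ⟨Submodule.span F {u}, ⟨finrank_span_singleton hu0, u, Submodule.mem_span_singleton_self u, hQu⟩, ?_⟩
    rw [Submodule.map_span, Set.image_singleton, Submodule.span_singleton_le_iff_mem]
    have h6 : Matrix.toLin' ((g : GL ι F) : Matrix ι ι F) u = u := mem_fixS.1 hu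
    change Matrix.toLin' ((g : GL ι F) : Matrix ι ι F) u ∈ _
    rw [h6]
    exact Submodule.mem_span_singleton_self u
  have h6 := hN' _ hts
  rcases hc with hc | ⟨hc, hodd⟩
  · omega
  · rw [Nat.odd_iff] at hodd
    rw [Nat.even_iff] at hev
    omega

/-- a fixed-point-free isometry fixes no nonsingular point -/
theorem fpf_no [CharP F 2] {X : Matrix ι ι F} (hX : ∀ v, Q (X.mulVec v) = Q v) (hf : ∀ v, X.mulVec v = v → v = 0)
    {W : Submodule F (ι → F)} (hW : finrank F W = 1 ∧ ∃ v ∈ W, Q v ≠ 0) :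
    ¬ W.map (Matrix.toLin' X) ≤ W := by
  intro hle
  obtain ⟨hW1, v, hv, hQv⟩ := hW
  have hv0 : v ≠ 0 := by
    rintro rfl
    exact hQv (QuadraticMap.map_zero Q)
  have hWs : W = Submodule.span F {v} := by
    symm
    apply Submodule.eq_of_le_of_finrank_eq
    · rw [Submodule.span_singleton_le_iff_mem]
      exact hv
    · rw [hW1, finrank_span_singleton hv0]
  have h1 : X.mulVec v ∈ W := hle ⟨v, hv, rfl⟩
  rw [hWs, Submodule.mem_span_singleton] at h1
  obtain ⟨c, hc⟩ := h1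
  have h2 := hX v
  rw [← hc, QuadraticMap.map_smul, smul_eq_mul] at h2
  have h3 : c * c = 1 := mul_right_cancel₀ hQv (by rw [h2, one_mul])
  have h4 : c = 1 := by
    have h5 : (c + 1) * (c + 1) = 0 := by
      have h4 : (2 : F) = 0 := CharTwo.two_eq_zero
      linear_combination h3 + (c + 1) * h4
    have h6 := eq_neg_of_add_eq_zero_left (mul_self_eq_zero.1 h5)
    rwa [CharTwo.neg_eq] at h6
  rw [h4, one_smul] at hc
  exact hv0 (hf v hc.symm)

/-- a fixed-point-free isometry of order `r` gives a derangement -/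
theorem fpf_derange [CharP F 2] [Nonempty ι] (hQ : (QuadraticMap.polarBilin Q).Nondegenerate)
    (h : Nat.card F ≠ 2 ∨ finrank F (ι → F) ≠ 4) {N r : ℕ} (hN : finrank F (ι → F) = 2 * N)
    (hr : 0 < r) {X : Matrix ι ι F} (hX : ∀ v, Q (X.mulVec v) = Q v) (hf : ∀ v, X.mulVec v = v → v = 0) (hXr : X ^ r = 1) :
    ¬ (∀ x : GL ι F, x ∈ Cfsg.Geo.omegaGL ⇑Q →
      (∃ z : F, ((x ^ r : GL ι F) : Matrix ι ι F) = z • (1 : Matrix ι ι F)) →
      (∀ z : F, (x : Matrix ι ι F) ≠ z • (1 : Matrix ι ι F)) →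
      ∃ W : Submodule F (ι → F), (finrank F W = 1 ∧ ∃ v ∈ W, Q v ≠ 0) ∧
        W.map (Matrix.toLin' (x : Matrix ι ι F)) ≤ W) := by
  intro hall
  have hu : X * X ^ (r - 1) = 1 := by rw [← pow_succ', Nat.sub_add_cancel hr, hXr]
  let x : GL ι F := ⟨X, X ^ (r - 1), hu, by rw [← pow_succ, Nat.sub_add_cancel hr, hXr]⟩
  have hx : x ∈ Cfsg.isometryGroup F ⇑Q := mem_isometryGroup.2 hX
  obtain ⟨v0, hv0⟩ := exists_ne_of_nd hQ
  have hv00 : v0 ≠ 0 := by
    rintro rfl
    exact hv0 (QuadraticMap.map_zero Q)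
  have hns : ∀ z : F, (x : Matrix ι ι F) ≠ z • (1 : Matrix ι ι F) := by
    intro z hz
    refine fpf_no hX hf (W := Submodule.span F {v0})
      ⟨finrank_span_singleton hv00, v0, Submodule.mem_span_singleton_self _, hv0⟩ ?_
    rw [Submodule.map_span, Set.image_singleton, Submodule.span_singleton_le_iff_mem,
      show X = z • 1 from hz, Matrix.toLin'_apply, Matrix.smul_mulVec, Matrix.one_mulVec]
    exact Submodule.smul_mem _ _ (Submodule.mem_span_singleton_self _)
  have hΩ : x ∈ Cfsg.Geo.omegaGL ⇑Q := by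
    refine ⟨⟨x, hx⟩, ?_, rfl⟩
    apply (mem_Omega_iff_even hQ h ⟨x, hx⟩).2
    have h1 : ((x : Matrix ι ι F) - 1).rank = finrank F (ι → F) := by
      rw [Matrix.rank]
      have h2 : LinearMap.ker ((x : Matrix ι ι F) - 1).mulVecLin = ⊥ := by
        rw [LinearMap.ker_eq_bot']
        intro v hv
        rw [Matrix.mulVecLin_apply, Matrix.sub_mulVec, Matrix.one_mulVec, sub_eq_zero] at hv
        exact hf v hv
      have h3 := LinearMap.finrank_range_add_finrank_ker ((x : Matrix ι ι F) - 1).mulVecLin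
      rw [h2, finrank_bot, add_zero] at h3
      exact h3
    change Even ((x : Matrix ι ι F) - 1).rank
    rw [h1, hN]
    exact even_two_mul N
  obtain ⟨W, hW, hWx⟩ := hall x hΩ ⟨1, by
    rw [one_smul, Units.val_pow_eq_pow_val]
    exact hXr⟩ hns
  exact fpf_no hX hf hW hWx

/-- an involution with totally singular fixed space gives a derangement -/
theorem ts_derange [CharP F 2] [Nonempty ι] (hQ : (QuadraticMap.polarBilin Q).Nondegenerate)
    (h : Nat.card F ≠ 2 ∨ finrank F (ι → F) ≠ 4) {N : ℕ} (hN : finrank F (ι → F) = 2 * N) (hNpos : 0 < N)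
    (hev : Even N) (w : Fin N → (ι → F)) (hw : LinearIndependent F w)
    (hts : ∀ v ∈ Submodule.span F (Set.range w), Q v = 0) :
    ¬ (∀ x : GL ι F, x ∈ Cfsg.Geo.omegaGL ⇑Q →
      (∃ z : F, ((x ^ 2 : GL ι F) : Matrix ι ι F) = z • (1 : Matrix ι ι F)) →
      (∀ z : F, (x : Matrix ι ι F) ≠ z • (1 : Matrix ι ι F)) →
      ∃ W : Submodule F (ι → F), (finrank F W = 1 ∧ ∃ v ∈ W, Q v ≠ 0) ∧
        W.map (Matrix.toLin' (x : Matrix ι ι F)) ≤ W) := by
  intro hall
  have hwm : ∀ i, w i ∈ Submodule.span F (Set.range w) := fun i => Submodule.subset_span ⟨i, rfl⟩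
  obtain ⟨t, h1, h2, h3⟩ := exists_mat hQ hNpos Fin.revPerm (fun i => by simp) w hw
    (fun i j => by
      rw [QuadraticMap.polar, hts _ (Submodule.add_mem _ (hwm i) (hwm j)), hts _ (hwm i), hts _ (hwm j)]
      ring)
    (Or.inr ⟨fun i h => by
      have h4 := congrArg Fin.val h
      rw [Fin.revPerm_apply, Fin.val_rev] at h4
      obtain ⟨k, hk⟩ := hev
      have := i.2
      omega, fun i => hts _ (hwm i)⟩)
  have ht2 : t ^ 2 = 1 := orderOf_dvd_iff_pow_eq_one.1 h1.dvd
  have hΩ : t ∈ Cfsg.Omega F ⇑Q := by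
    apply (mem_Omega_iff_even hQ h t).2
    rw [← rk_eq, h3]
    exact hev
  have hle : imS (toOG Q t).1 ≤ fixS (toOG Q t).1 := by
    rintro _ ⟨v, rfl⟩
    rw [mem_fixS]
    have := nn_nn (toOG_sq ht2) v
    rw [nn_apply, sub_eq_zero] at this
    exact this
  have hfix : fixS (toOG Q t).1 = Submodule.span F (Set.range w) := by
    rw [← h2]
    symm
    apply Submodule.eq_of_le_of_finrank_eq hle
    have h4 := finrank_add_finrank_perp hQ (imS (toOG Q t).1)
    rw [perp_imS hQ (toOG Q t).2] at h4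
    have h5 : finrank F (imS (toOG Q t).1) = N := h3
    omega
  have hone : ∀ (v : ι → F) (c : F), Q v ≠ 0 → ((t : GL ι F) : Matrix ι ι F).mulVec v = c • v → False := by
    intro v c hQv hc
    have h5 := mem_isometryGroup.1 t.2 v
    rw [hc, QuadraticMap.map_smul, smul_eq_mul] at h5
    have h6 : c * c = 1 := mul_right_cancel₀ hQv (by rw [h5, one_mul])
    have h7 : c = 1 := by
      have h8 : (c + 1) * (c + 1) = 0 := by
        have h4 : (2 : F) = 0 := CharTwo.two_eq_zero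
        linear_combination h6 + (c + 1) * h4
      have h9 := eq_neg_of_add_eq_zero_left (mul_self_eq_zero.1 h8)
      rwa [CharTwo.neg_eq] at h9
    rw [h7, one_smul] at hc
    have h8 : v ∈ fixS (toOG Q t).1 := mem_fixS.2 hc
    rw [hfix] at h8
    exact hQv (hts v h8)
  obtain ⟨v0, hv0⟩ := exists_ne_of_nd hQ
  obtain ⟨W, ⟨hW1, v, hv, hQv⟩, hWx⟩ := hall (t : GL ι F) ⟨t, hΩ, rfl⟩ ⟨1, by
    rw [one_smul, ← Subgroup.coe_pow, ht2]
    rfl⟩ (fun z hz => hone v0 z hv0 (by rw [hz, Matrix.smul_mulVec, Matrix.one_mulVec]))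
  have hv00 : v ≠ 0 := by
    rintro rfl
    exact hQv (QuadraticMap.map_zero Q)
  have hWs : W = Submodule.span F {v} := by
    symm
    apply Submodule.eq_of_le_of_finrank_eq
    · rw [Submodule.span_singleton_le_iff_mem]
      exact hv
    · rw [hW1, finrank_span_singleton hv00]
  have h4 : ((t : GL ι F) : Matrix ι ι F).mulVec v ∈ W := hWx ⟨v, hv, rfl⟩
  rw [hWs, Submodule.mem_span_singleton] at h4
  obtain ⟨c, hc⟩ := h4
  exact hone v c hQv hc.symm

end main

end Cfsg.Agent.H5.Der
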