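import Mathlib
import Cfsg.Agent.H5_Der4

set_option autoImplicit false

/-! Fixed-point-free elements of the torus of order `q^d + 1`. -/

namespace Cfsg.Agent.H5.Der

open Module QuadraticMap
open Cfsg.Agent.H16.Quad hiding map_add map_sub map_smul

section quad

variable (K E : Type*) [Field K] [Fintype K] [Field E] [Algebra K E] [Module.Finite K E]

/-- the involution -/
noncomputable def cj : E →ₐ[K] E := FiniteField.frobeniusAlgHom K E

variable {K E}

theorem cj_apply (x : E) : cj K E x = x ^ Fintype.card K := rfl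

theorem card_E (h2 : finrank K E = 2) : Nat.card E = Fintype.card K ^ 2 := by
  rw [Module.natCard_eq_pow_finrank (K := K), h2, Nat.card_eq_fintype_card]

theorem cj_cj (h2 : finrank K E = 2) (x : E) : cj K E (cj K E x) = x := by
  haveI : Finite E := Module.finite_of_finite K
  haveI := Fintype.ofFinite E
  rw [cj_apply, cj_apply, ← pow_mul, ← pow_two, ← card_E h2, Nat.card_eq_fintype_card, FiniteField.pow_card]

theorem norm_cj (h2 : finrank K E = 2) (x : E) : algebraMap K E (Algebra.norm K x) = x * cj K E x := by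
  haveI : Finite E := Module.finite_of_finite K
  rw [FiniteField.algebraMap_norm_eq_pow_sum, h2, Finset.sum_range_succ, Finset.sum_range_one, pow_zero, pow_one,
    Nat.card_eq_fintype_card, pow_add, pow_one, cj_apply]

theorem trace_cj (h2 : finrank K E = 2) (x : E) : algebraMap K E (Algebra.trace K E x) = x + cj K E x := by
  haveI : Finite E := Module.finite_of_finite K
  rw [FiniteField.algebraMap_trace_eq_sum_pow, h2, Finset.sum_range_succ, Finset.sum_range_one, pow_zero, pow_one,
    pow_one, Nat.card_eq_fintype_card, cj_apply]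

theorem norm_add (h2 : finrank K E = 2) (x y : E) :
    Algebra.norm K (x + y) = Algebra.norm K x + Algebra.norm K y + Algebra.trace K E (x * cj K E y) := by
  apply (algebraMap K E).injective
  rw [norm_cj h2, _root_.map_add (cj K E), _root_.map_add (algebraMap K E), _root_.map_add (algebraMap K E),
    norm_cj h2, norm_cj h2, trace_cj h2, _root_.map_mul, cj_cj h2]
  ring

theorem exists_cj_ne (h2 : finrank K E = 2) : ∃ x : E, cj K E x ≠ x := by
  by_contra h
  push Not at h
  classical
  haveI : Finite E := Module.finite_of_finite K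
  haveI := Fintype.ofFinite E
  have h1 : Fintype.card E ≤ Fintype.card K := by
    have hq : 1 < Fintype.card K := Fintype.one_lt_card
    have h3 : ∀ x : E, x ∈ (Polynomial.X ^ Fintype.card K - Polynomial.X : Polynomial E).roots.toFinset := by
      intro x
      rw [Multiset.mem_toFinset, Polynomial.mem_roots (FiniteField.X_pow_card_sub_X_ne_zero E hq)]
      simp only [Polynomial.IsRoot.def, Polynomial.eval_sub, Polynomial.eval_pow, Polynomial.eval_X]
      rw [← cj_apply, h, sub_self]
    calc Fintype.card E = (Finset.univ : Finset E).card := rfl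
      _ ≤ (Polynomial.X ^ Fintype.card K - Polynomial.X : Polynomial E).roots.toFinset.card :=
        Finset.card_le_card (fun x _ => h3 x)
      _ ≤ Multiset.card (Polynomial.X ^ Fintype.card K - Polynomial.X : Polynomial E).roots := Multiset.toFinset_card_le _
      _ ≤ (Polynomial.X ^ Fintype.card K - Polynomial.X : Polynomial E).natDegree := Polynomial.card_roots' _
      _ = Fintype.card K := FiniteField.X_pow_card_sub_X_natDegree_eq E hq
  have h3 := card_E h2
  rw [Nat.card_eq_fintype_card] at h3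
  have h4 : 1 < Fintype.card K := Fintype.one_lt_card
  nlinarith

end quad

section forms

variable {F K E : Type*} [Field F] [Fintype F] [Field K] [Fintype K] [Field E] [Algebra K E] [Module.Finite K E] [Algebra F K] [Algebra F E]
  [IsScalarTower F K E] [Module.Finite F K]

/-- `Tr (x * conj y)` composed -/
noncomputable def trB (l : E) : LinearMap.BilinForm F E :=
  LinearMap.mk₂ F (fun x y => Algebra.trace F K (Algebra.trace K E (l * x * cj K E y)))
    (fun x x' y => by rw [mul_add, add_mul, _root_.map_add, _root_.map_add])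
    (fun c x y => by
      have : l * (c • x) * cj K E y = (algebraMap F K c) • (l * x * cj K E y) := by
        rw [algebraMap_smul, mul_smul_comm, smul_mul_assoc]
      rw [this, _root_.map_smul, smul_eq_mul, ← Algebra.smul_def, _root_.map_smul])
    (fun x y y' => by rw [_root_.map_add, mul_add, _root_.map_add, _root_.map_add])
    (fun c x y => by
      have : l * x * cj K E (c • y) = (algebraMap F K c) • (l * x * cj K E y) := by
        rw [← algebraMap_smul K c y, _root_.map_smul, mul_smul_comm]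
      rw [this, _root_.map_smul, smul_eq_mul, ← Algebra.smul_def, _root_.map_smul])

theorem trB_apply (l x y : E) : trB (F := F) (K := K) l x y = Algebra.trace F K (Algebra.trace K E (l * x * cj K E y)) := rfl

theorem trB_nondeg (h2 : finrank K E = 2) {l : E} (hl : l ≠ 0) {x : E}
    (h : ∀ y, trB (F := F) (K := K) l x y = 0) : x = 0 := by
  by_contra hx
  haveI : Finite E := Module.finite_of_finite K
  have h1 : ∀ z : E, Algebra.trace F K (Algebra.trace K E z) = 0 := by
    intro z
    have h3 := h (cj K E ((l * x)⁻¹ * z))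
    rw [trB_apply, cj_cj h2, mul_inv_cancel_left₀ (mul_ne_zero hl hx)] at h3
    exact h3
  obtain ⟨c, hc⟩ := Algebra.trace_surjective F K 1
  obtain ⟨z, hz⟩ := Algebra.trace_surjective K E c
  have h3 := h1 z
  rw [hz, hc] at h3
  exact one_ne_zero h3

theorem trB_self (h2 : finrank K E = 2) {l : E} (hl : cj K E l = - l) (x : E) :
    trB (F := F) (K := K) l x x = 0 := by
  have h1 : Algebra.trace K E (l * x * cj K E x) = 0 := by
    apply (algebraMap K E).injective
    rw [trace_cj h2, _root_.map_mul, _root_.map_mul, cj_cj h2, hl, _root_.map_zero]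
    ring
  rw [trB_apply, h1, _root_.map_zero]

/-- the quadratic form `Tr (N x)` -/
noncomputable def trQ (h2 : finrank K E = 2) : QuadraticForm F E where
  toFun x := Algebra.trace F K (Algebra.norm K x)
  toFun_smul c x := by
    have : Algebra.norm K (c • x) = (c * c) • Algebra.norm K x := by
      apply (algebraMap K E).injective
      rw [norm_cj h2, ← algebraMap_smul K c x, _root_.map_smul, ← algebraMap_smul K (c * c) (Algebra.norm K x),
        smul_eq_mul, _root_.map_mul (algebraMap K E), norm_cj h2, _root_.map_mul (algebraMap F K), _root_.map_mul (algebraMap K E),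
        Algebra.smul_def, Algebra.smul_def]
      ring
    rw [this, _root_.map_smul, smul_eq_mul]
  exists_companion' := ⟨trB (F := F) (K := K) 1, fun x y => by
    rw [norm_add h2, _root_.map_add, _root_.map_add, trB_apply, one_mul]⟩

theorem trQ_apply (h2 : finrank K E = 2) (x : E) : trQ (F := F) h2 x = Algebra.trace F K (Algebra.norm K x) := rfl

theorem trQ_polar (h2 : finrank K E = 2) (x y : E) : polar (trQ (F := F) h2) x y = trB (F := F) (K := K) 1 x y := by
  rw [polar, trQ_apply, trQ_apply, trQ_apply, norm_add h2, _root_.map_add, _root_.map_add, trB_apply, one_mul]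
  ring

theorem trQ_nd (h2 : finrank K E = 2) : (QuadraticMap.polarBilin (trQ (F := F) h2)).Nondegenerate := by
  apply nd_of
  intro x hx
  apply trB_nondeg (F := F) (K := K) h2 one_ne_zero
  intro y
  rw [← trQ_polar h2]
  exact hx y

end forms

/-- free action of an element of prime order -/
theorem dvd_card_of_free {α : Type*} [Finite α] {r : ℕ} (hr : r.Prime) (f : α → α) (hf : ∀ x, f^[r] x = x)
    (h1 : ∀ x, f x ≠ x) : r ∣ Nat.card α := by
  classical
  haveI := Fintype.ofFinite α
  haveI : Fact r.Prime := ⟨hr⟩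
  have h2 : (show Function.End α from f) ^ r ^ 1 = 1 := by
    rw [pow_one]
    have h0 : ∀ (n : ℕ) (x : α), ((show Function.End α from f) ^ n : Function.End α) x = f^[n] x := by
      intro n
      induction n with
      | zero => intro x; rfl
      | succ n ih =>
        intro x
        rw [pow_succ', Function.iterate_succ_apply', ← ih]
        rfl
    funext x
    exact (h0 r x).trans (hf x)
  have h3 := Equiv.Perm.card_fixedPoints_modEq h2
  have h4 : Fintype.card (Function.fixedPoints (show Function.End α from f)) = 0 := by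
    rw [Fintype.card_eq_zero_iff]
    exact ⟨fun x => h1 x.1 x.2⟩
  rw [Nat.card_eq_fintype_card]
  rw [h4] at h3
  exact (Nat.modEq_zero_iff_dvd).1 h3


section torus

theorem nt1 {q m r : ℕ} (hr : r.Prime) (hr2 : r ≠ 2) (h : r ∣ q ^ (m + 1) + 1) : ¬ r ∣ q ^ (m + 1) - 1 := by
  intro h1
  rcases Nat.eq_zero_or_pos (q ^ (m + 1)) with h0 | h0
  · rw [h0] at h
    exact hr.one_lt.ne' (Nat.dvd_one.1 h)
  · have h2 : r ∣ 2 := by
      have h3 := (Nat.dvd_sub h h1)
      have h4 : q ^ (m + 1) + 1 - (q ^ (m + 1) - 1) = 2 := by omega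
      rwa [h4] at h3
    exact hr2 ((Nat.prime_dvd_prime_iff_eq hr Nat.prime_two).1 h2)

theorem nt2 {q m r : ℕ} (hq : 0 < q) (hr : r.Prime) (hr2 : r ≠ 2) (h : r ∣ q ^ (m + 1) + 1) :
    ¬ r ∣ (q ^ (m + 1) - 1) * (1 + q ^ m) := by
  intro h1
  rcases (Nat.Prime.dvd_mul hr).1 h1 with h2 | h2
  · exact nt1 hr hr2 h h2
  · have h3 : r ∣ q ^ m * (q - 1) := by
      have h4 := Nat.dvd_sub h h2
      have h5 : q ^ (m + 1) + 1 - (1 + q ^ m) = q ^ m * (q - 1) := by
        rw [Nat.mul_sub, mul_one, ← pow_succ]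
        omega
      rwa [h5] at h4
    rcases (Nat.Prime.dvd_mul hr).1 h3 with h4 | h4
    · have h5 := hr.dvd_of_dvd_pow h4
      have h6 : r ∣ q ^ (m + 1) := h5.trans (dvd_pow_self q (by omega))
      have h7 := (Nat.dvd_add_right h6).1 h
      exact hr.one_lt.ne' (Nat.dvd_one.1 h7)
    · refine nt1 hr hr2 h (h4.trans ?_)
      have := Nat.sub_dvd_pow_sub_pow q 1 (m + 1)
      rwa [one_pow] at this

/-- the torus element -/
theorem exists_tower (F : Type*) [Field F] [Fintype F] {m r : ℕ} (hr : r.Prime) (h : r ∣ Fintype.card F ^ (m + 1) + 1) :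
    ∃ (K E : Type) (_ : Field K) (_ : Fintype K) (_ : Field E) (_ : Algebra K E) (_ : Module.Finite K E)
      (_ : Algebra F K) (_ : Algebra F E) (_ : IsScalarTower F K E) (_ : Module.Finite F K) (_ : Module.Finite F E)
      (_ : Finite E) (y : E),
      finrank K E = 2 ∧ finrank F E = 2 * m + 2 ∧ y ^ r = 1 ∧ y ≠ 1 ∧ y * cj K E y = 1 := by
  obtain ⟨K, iK1, iK2, iK3, iK4, hK, hcK⟩ := H21.GLo.exists_ext F (m + 1) (by omega)
  letI iK5 : Fintype K := Fintype.ofFinite K
  obtain ⟨E, iE1, iE2, iE3, iE4, hE, hcE⟩ := H21.GLo.exists_ext K 2 (by omega)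
  letI iE5 : Algebra F E := ((algebraMap K E).comp (algebraMap F K)).toAlgebra
  haveI iE6 : IsScalarTower F K E := IsScalarTower.of_algebraMap_eq (fun x => rfl)
  haveI iE7 : Module.Finite F E := Module.Finite.trans K E
  have hcK' : Fintype.card K = Fintype.card F ^ (m + 1) := by rw [← Nat.card_eq_fintype_card, hcK]
  obtain ⟨y, hy⟩ := H21.GLo.exists_order (E := E) (m := r) (by
    rw [hcE, hcK']
    have h1 : (Fintype.card F ^ (m + 1)) ^ 2 - 1 = (Fintype.card F ^ (m + 1) + 1) * (Fintype.card F ^ (m + 1) - 1) := by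
      have := Nat.sq_sub_sq (Fintype.card F ^ (m + 1)) 1
      rwa [one_pow] at this
    rw [h1]
    exact h.mul_right _)
  refine ⟨K, E, iK1, iK5, iE1, iE3, iE4, iK3, iE5, iE6, iK4, iE7, iE2, y, hE, ?_, ?_, ?_, ?_⟩
  · rw [← Module.finrank_mul_finrank F K E, hK, hE]
    ring
  · rw [← hy, pow_orderOf_eq_one]
  · rintro rfl
    rw [orderOf_one] at hy
    exact hr.one_lt.ne hy
  · rw [cj_apply, ← pow_succ', hcK']
    exact orderOf_dvd_iff_pow_eq_one.1 (hy ▸ h)

/-- fixed-point-free element of order `r ∣ q^(m+1) + 1` in the orthogonal group of minus type -/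
theorem exists_minus_elt (F : Type*) [Field F] [Fintype F] {m r : ℕ} (hr : r.Prime) (hr2 : r ≠ 2)
    (h : r ∣ Fintype.card F ^ (m + 1) + 1) {a b : F}
    (hab : ∀ z₁ z₂ : F, z₁ ^ 2 + a * z₁ * z₂ + b * z₂ ^ 2 = 0 → z₁ = 0 ∧ z₂ = 0) :
    ∃ X : Matrix ((Fin m ⊕ Fin m) ⊕ Fin 2) ((Fin m ⊕ Fin m) ⊕ Fin 2) F,
      (∀ v, minusQ F m a b (X.mulVec v) = minusQ F m a b v) ∧ (∀ v, X.mulVec v = v → v = 0) ∧ X ^ r = 1 := by
  obtain ⟨K, E, _, _, _, _, _, _, _, _, _, _, _, y, h2, hfr, hy1, hy2, hy3⟩ := exists_tower F hr h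
  have hQ := trQ_nd (F := F) h2
  have hyN : Algebra.norm K y = 1 := by
    apply (algebraMap K E).injective
    rw [norm_cj h2, hy3, _root_.map_one]
  have hinv : ∀ x, trQ (F := F) h2 (y * x) = trQ (F := F) h2 x := by
    intro x
    rw [trQ_apply, trQ_apply, _root_.map_mul, hyN, one_mul]
  have hit : ∀ (n : ℕ) (x : E), (fun z => y * z)^[n] x = y ^ n * x := by
    intro n
    induction n with
    | zero => intro x; rw [pow_zero, one_mul]; rfl
    | succ n ih => intro x; rw [Function.iterate_succ_apply', ih, pow_succ', mul_assoc]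
  rcases plus_or_minus hQ hfr with hp | hmn
  · exfalso
    obtain ⟨φ, hφ⟩ := hp.isom (plusQ_isPlus (F := F) (m + 1))
    have h3 : Nat.card {x : E // trQ (F := F) h2 x = 0 ∧ x ≠ 0} = (Fintype.card F ^ (m + 1) - 1) * (1 + Fintype.card F ^ m) := by
      have h4 := QuadC.card_zeros (F := F) rfl (m + 1) 0 _ (I2.wittDec_plusQ (F := F) (m + 1))
      have h5 := Frm.card_nonzero_sing (Frm.ofQuad (plusQ F (m + 1)))
      rw [h4, Nat.add_sub_cancel_left] at h5
      refine Eq.trans ?_ h5
      refine Nat.card_congr (φ.toEquiv.subtypeEquiv (fun x => ?_))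
      change _ ∧ x ≠ 0 ↔ plusQ F (m + 1) (φ x) = 0 ∧ φ x ≠ 0
      rw [hφ, Ne, Ne, LinearEquiv.map_eq_zero_iff]
    refine nt2 Fintype.card_pos hr hr2 h ?_
    rw [← h3]
    have hy0 : y ≠ 0 := by
      rintro rfl
      rw [zero_pow hr.pos.ne'] at hy1
      exact zero_ne_one hy1
    refine dvd_card_of_free hr (fun x : {x : E // trQ (F := F) h2 x = 0 ∧ x ≠ 0} =>
      (⟨y * x.1, by rw [hinv]; exact x.2.1, mul_ne_zero hy0 x.2.2⟩ : {x : E // trQ (F := F) h2 x = 0 ∧ x ≠ 0})) ?_ ?_
    · intro x
      have h4 : ∀ n (x : {x : E // trQ (F := F) h2 x = 0 ∧ x ≠ 0}), ((fun x : {x : E // trQ (F := F) h2 x = 0 ∧ x ≠ 0} =>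
          (⟨y * x.1, by rw [hinv]; exact x.2.1, mul_ne_zero hy0 x.2.2⟩ : {x : E // trQ (F := F) h2 x = 0 ∧ x ≠ 0}))^[n] x).1 =
          y ^ n * x.1 := by
        intro n
        induction n with
        | zero => intro x; rw [pow_zero, one_mul]; rfl
        | succ n ih => intro x; rw [Function.iterate_succ_apply', pow_succ', mul_assoc, ← ih]
      apply Subtype.ext
      rw [h4, hy1, one_mul]
    · intro x hx
      have h4 : y * x.1 = x.1 := congrArg Subtype.val hx
      exact hy2 (mul_right_cancel₀ x.2.2 (by rw [h4, one_mul]))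
  · obtain ⟨φ, hφ⟩ := hmn.isom hQ (nd_minusQ m hab) (minusQ_isMinus m hab)
    let f : ((Fin m ⊕ Fin m) ⊕ Fin 2 → F) →ₗ[F] ((Fin m ⊕ Fin m) ⊕ Fin 2 → F) :=
      (φ : E →ₗ[F] _) ∘ₗ (LinearMap.mulLeft F y) ∘ₗ (φ.symm : _ →ₗ[F] E)
    have hf : ∀ v, f v = φ (y * φ.symm v) := fun v => rfl
    have hX : ∀ v, (LinearMap.toMatrix' f).mulVec v = φ (y * φ.symm v) := fun v => by
      rw [LinearMap.toMatrix'_mulVec, hf]
    refine ⟨LinearMap.toMatrix' f, fun v => ?_, fun v hv => ?_, ?_⟩
    · rw [hX, hφ, hinv, ← hφ, LinearEquiv.apply_symm_apply]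
    · rw [hX] at hv
      have h3 : y * φ.symm v = φ.symm v := by
        apply φ.injective
        rw [hv, LinearEquiv.apply_symm_apply]
      by_contra hv0
      have h4 : φ.symm v ≠ 0 := fun h5 => hv0 ((LinearEquiv.map_eq_zero_iff _).1 h5)
      exact hy2 (mul_right_cancel₀ h4 (by rw [h3, one_mul]))
    · apply mat_ext
      intro v
      have h3 : ∀ n v, ((LinearMap.toMatrix' f) ^ n).mulVec v = φ (y ^ n * φ.symm v) := by
        intro n
        induction n with
        | zero => intro v; rw [pow_zero, pow_zero, one_mul, Matrix.one_mulVec, LinearEquiv.apply_symm_apply]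
        | succ n ih =>
          intro v
          rw [pow_succ', ← Matrix.mulVec_mulVec, ih, hX, LinearEquiv.symm_apply_apply, ← mul_assoc, ← pow_succ']
      rw [h3, hy1, one_mul, LinearEquiv.apply_symm_apply, Matrix.one_mulVec]

/-- fixed-point-free isometry of order `r ∣ q^(m+1)+1` of an alternating space of dimension `2(m+1)` -/
theorem exists_alt_elt (F : Type*) [Field F] [Fintype F] {m r : ℕ} (hr : r.Prime) (h : r ∣ Fintype.card F ^ (m + 1) + 1) :
    ∃ (V : Type) (_ : AddCommGroup V) (_ : Module F V) (_ : FiniteDimensional F V) (B : LinearMap.BilinForm F V)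
      (f : V →ₗ[F] V), finrank F V = 2 * (m + 1) ∧ (∀ x, B x x = 0) ∧ (∀ x, (∀ y, B x y = 0) → x = 0) ∧
      (∀ u v, B (f u) (f v) = B u v) ∧ (∀ v, f v = v → v = 0) ∧ f ^ r = 1 := by
  obtain ⟨K, E, _, _, _, _, _, _, _, _, _, _, _, y, h2, hfr, hy1, hy2, hy3⟩ := exists_tower F hr h
  obtain ⟨x0, hx0⟩ := exists_cj_ne h2
  have hl : x0 - cj K E x0 ≠ 0 := fun h => hx0 (sub_eq_zero.1 h).symm
  have hlc : cj K E (x0 - cj K E x0) = - (x0 - cj K E x0) := by
    rw [_root_.map_sub, cj_cj h2]
    ring
  refine ⟨E, inferInstance, inferInstance, ‹_›, trB (F := F) (K := K) (x0 - cj K E x0), LinearMap.mulLeft F y,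
    by omega, trB_self h2 hlc, fun x hx => trB_nondeg h2 hl hx, fun u v => ?_, fun v hv => ?_, ?_⟩
  · rw [trB_apply, trB_apply, LinearMap.mulLeft_apply, LinearMap.mulLeft_apply]
    have h3 : (x0 - cj K E x0) * (y * u) * cj K E (y * v) = (x0 - cj K E x0) * u * cj K E v := by
      rw [_root_.map_mul]
      linear_combination ((x0 - cj K E x0) * u * cj K E v) * hy3
    rw [h3]
  · by_contra hv0
    rw [LinearMap.mulLeft_apply] at hv
    exact hy2 (mul_right_cancel₀ hv0 (by rw [hv, one_mul]))
  · rw [LinearMap.pow_mulLeft, hy1, LinearMap.mulLeft_one]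
    rfl

end torus

end Cfsg.Agent.H5.Der
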