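import Mathlib
import Cfsg.Agent.H5_Der3
import Cfsg.Agent.H5_Der5
import Cfsg.Agent.S0245

set_option autoImplicit false

/-! Pairs of complementary totally isotropic subspaces. -/

namespace Cfsg.Agent.H5.Der

open Module Cfsg.Agent.H5.Conc

section count

variable {F : Type*} [Field F] {d : ℕ}

/-- pairs of complementary totally isotropic subspaces -/
abbrev Prs (d : ℕ) (F : Type*) [Field F] : Type _ :=
  {P : Submodule F (Fin d ⊕ Fin d → F) × Submodule F (Fin d ⊕ Fin d → F) // IsCompl P.1 P.2 ∧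
    (∀ u ∈ P.1, ∀ v ∈ P.1, Cfsg.sympForm d F u v = 0) ∧ (∀ u ∈ P.2, ∀ v ∈ P.2, Cfsg.sympForm d F u v = 0)}

theorem vrank (d : ℕ) (F : Type*) [Field F] : finrank F (Fin d ⊕ Fin d → F) = 2 * d := by
  rw [Module.finrank_fintype_fun_eq_card, Fintype.card_sum, Fintype.card_fin]; ring

theorem ti_le {V : Type*} [AddCommGroup V] [Module F V] [FiniteDimensional F V] {A : SF F V} (hA : A.Nondeg)
    {U : Submodule F V} (hU : ∀ u ∈ U, ∀ v ∈ U, A.B u v = 0) : 2 * finrank F U ≤ finrank F V := by
  have h1 : U ≤ A.orth U := fun u hu v hv => hU v hv u hu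
  have h2 := Submodule.finrank_mono h1
  have h3 := Frm.finrank_orth hA U
  omega

theorem compl_rank {V : Type*} [AddCommGroup V] [Module F V] [FiniteDimensional F V] {A : SF F V} (hA : A.Nondeg)
    {U W : Submodule F V} (hU : ∀ u ∈ U, ∀ v ∈ U, A.B u v = 0) (hW : ∀ u ∈ W, ∀ v ∈ W, A.B u v = 0)
    (h : IsCompl U W) : 2 * finrank F U = finrank F V ∧ 2 * finrank F W = finrank F V := by
  have h1 := ti_le hA hU
  have h2 := ti_le hA hW
  have h3 := Submodule.finrank_add_eq_of_isCompl h
  omega

variable [Fintype F]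

theorem card_prs (hd : 0 < d) : Nat.card (Matrix.symplecticGroup (Fin d) F) =
    Nat.card (Prs d F) * ∏ i : Fin d, (Fintype.card F ^ d - Fintype.card F ^ i.val) := by
  classical
  haveI : Nonempty (Fin d) := ⟨⟨0, hd⟩⟩
  set A := sympFrm d F with hA
  have hn : A.Nondeg := sympFrm_nondeg d F
  have hU : ∀ P : Prs d F, finrank F P.1.1 = d ∧ finrank F P.1.2 = d := by
    intro P
    have h1 := compl_rank hn (U := P.1.1) (W := P.1.2) (fun u hu v hv => by rw [sympFrm_B]; exact P.2.2.1 u hu v hv)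
      (fun u hu v hv => by rw [sympFrm_B]; exact P.2.2.2 u hu v hv) P.2.1
    rw [vrank] at h1
    omega
  -- standard vectors
  let e0 : Fin d → (Fin d ⊕ Fin d → F) := fun i => Pi.single (Sum.inl i) 1
  let f0 : Fin d → (Fin d ⊕ Fin d → F) := fun i => Pi.single (Sum.inr i) 1
  have B_ee : ∀ i j, A.B (e0 i) (e0 j) = 0 := by
    intro i j
    rw [sympFrm_B, sympForm_single_inl]
    change -((Pi.single (Sum.inl j) 1 : Fin d ⊕ Fin d → F) (Sum.inr i)) = 0
    rw [Pi.single_apply, if_neg (by simp), neg_zero]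
  have B_ff : ∀ i j, A.B (f0 i) (f0 j) = 0 := by
    intro i j
    rw [sympFrm_B, sympForm_single_inr]
    change (Pi.single (Sum.inr j) 1 : Fin d ⊕ Fin d → F) (Sum.inl i) = 0
    rw [Pi.single_apply, if_neg (by simp)]
  have B_fe : ∀ i j, A.B (f0 i) (e0 j) = if j = i then 1 else 0 := by
    intro i j
    rw [sympFrm_B, sympForm_single_inr]
    change (Pi.single (Sum.inl j) 1 : Fin d ⊕ Fin d → F) (Sum.inl i) = _
    rw [Pi.single_apply]
    by_cases h : j = i
    · subst h; simp
    · rw [if_neg (by intro h'; exact h (Sum.inl_injective h').symm), if_neg h]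
  have hexp : ∀ v : Fin d ⊕ Fin d → F, v = ∑ i, v (Sum.inl i) • e0 i + ∑ i, v (Sum.inr i) • f0 i := by
    intro v
    funext k
    rw [Pi.add_apply, Finset.sum_apply, Finset.sum_apply]
    rcases k with k | k
    · rw [Finset.sum_eq_single k, Finset.sum_eq_zero]
      · simp [e0]
      · intro j _; simp [f0]
      · intro j _ hj
        simp only [e0, Pi.smul_apply, Pi.single_apply, smul_eq_mul]
        rw [if_neg (fun h => hj (Sum.inl_injective h).symm), mul_zero]
      · intro h; exact absurd (Finset.mem_univ k) h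
    · rw [Finset.sum_eq_zero, Finset.sum_eq_single k]
      · simp [f0]
      · intro j _ hj
        simp only [f0, Pi.smul_apply, Pi.single_apply, smul_eq_mul]
        rw [if_neg (fun h => hj (Sum.inr_injective h).symm), mul_zero]
      · intro h; exact absurd (Finset.mem_univ k) h
      · intro j _; simp [e0]
  -- the data of an element
  let Xe : Matrix.symplecticGroup (Fin d) F → Fin d → (Fin d ⊕ Fin d → F) := fun X i =>
    (X : Matrix (Fin d ⊕ Fin d) (Fin d ⊕ Fin d) F).mulVec (e0 i)
  let Xf : Matrix.symplecticGroup (Fin d) F → Fin d → (Fin d ⊕ Fin d → F) := fun X i =>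
    (X : Matrix (Fin d ⊕ Fin d) (Fin d ⊕ Fin d) F).mulVec (f0 i)
  have hiso : ∀ (X : Matrix.symplecticGroup (Fin d) F) u v, A.B ((X : Matrix (Fin d ⊕ Fin d) (Fin d ⊕ Fin d) F).mulVec u)
      ((X : Matrix (Fin d ⊕ Fin d) (Fin d ⊕ Fin d) F).mulVec v) = A.B u v := sp_isom
  have hspan : ∀ X : Matrix.symplecticGroup (Fin d) F, Submodule.span F (Set.range (Xe X)) ⊔
      Submodule.span F (Set.range (Xf X)) = ⊤ := by
    intro X
    rw [eq_top_iff]
    intro v _
    obtain ⟨w, rfl⟩ : ∃ w, (X : Matrix (Fin d ⊕ Fin d) (Fin d ⊕ Fin d) F).mulVec w = v := by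
      refine ⟨((X⁻¹ : Matrix.symplecticGroup (Fin d) F) : Matrix (Fin d ⊕ Fin d) (Fin d ⊕ Fin d) F).mulVec v, ?_⟩
      rw [Matrix.mulVec_mulVec]
      have : (X : Matrix (Fin d ⊕ Fin d) (Fin d ⊕ Fin d) F) *
          ((X⁻¹ : Matrix.symplecticGroup (Fin d) F) : Matrix (Fin d ⊕ Fin d) (Fin d ⊕ Fin d) F) = 1 := by
        have h := congrArg (fun Y : Matrix.symplecticGroup (Fin d) F => (Y : Matrix (Fin d ⊕ Fin d) (Fin d ⊕ Fin d) F))
          (mul_inv_cancel X)
        exact h
      rw [this, Matrix.one_mulVec]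
    rw [hexp w, Matrix.mulVec_add]
    refine Submodule.add_mem_sup ?_ ?_
    · rw [← Matrix.mulVecLin_apply, map_sum]
      refine Submodule.sum_mem _ (fun i _ => ?_)
      rw [_root_.map_smul]
      exact Submodule.smul_mem _ _ (Submodule.subset_span ⟨i, rfl⟩)
    · rw [← Matrix.mulVecLin_apply, map_sum]
      refine Submodule.sum_mem _ (fun i _ => ?_)
      rw [_root_.map_smul]
      exact Submodule.smul_mem _ _ (Submodule.subset_span ⟨i, rfl⟩)
  have hti : ∀ (g : Fin d → (Fin d ⊕ Fin d → F)), (∀ i j, A.B (g i) (g j) = 0) →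
      ∀ u ∈ Submodule.span F (Set.range g), ∀ v ∈ Submodule.span F (Set.range g), A.B u v = 0 := by
    intro g hg u hu v hv
    refine bspan ?_ hu hv
    rintro _ ⟨i, rfl⟩ _ ⟨j, rfl⟩
    exact hg i j
  have htie : ∀ X, ∀ u ∈ Submodule.span F (Set.range (Xe X)), ∀ v ∈ Submodule.span F (Set.range (Xe X)), A.B u v = 0 :=
    fun X => hti _ (fun i j => by rw [hiso, B_ee])
  have htif : ∀ X, ∀ u ∈ Submodule.span F (Set.range (Xf X)), ∀ v ∈ Submodule.span F (Set.range (Xf X)), A.B u v = 0 :=
    fun X => hti _ (fun i j => by rw [hiso, B_ff])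
  have hcompl : ∀ X : Matrix.symplecticGroup (Fin d) F, IsCompl (Submodule.span F (Set.range (Xe X)))
      (Submodule.span F (Set.range (Xf X))) := by
    intro X
    refine ⟨?_, codisjoint_iff.2 (hspan X)⟩
    rw [Submodule.disjoint_def]
    intro v hv hv'
    apply hn
    intro y
    have hy : y ∈ Submodule.span F (Set.range (Xe X)) ⊔ Submodule.span F (Set.range (Xf X)) := (hspan X) ▸ Submodule.mem_top
    obtain ⟨a, ha, b, hb, rfl⟩ := Submodule.mem_sup.1 hy
    rw [bar, htie X v hv a ha, htif X v hv' b hb, add_zero]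
  let P : Matrix.symplecticGroup (Fin d) F → Prs d F := fun X =>
    ⟨(Submodule.span F (Set.range (Xe X)), Submodule.span F (Set.range (Xf X))), hcompl X,
      fun u hu v hv => by rw [← sympFrm_B]; exact htie X u hu v hv,
      fun u hu v hv => by rw [← sympFrm_B]; exact htif X u hu v hv⟩
  have hinj0 : ∀ X : Matrix.symplecticGroup (Fin d) F, LinearIndependent F (Xe X) := by
    intro X
    rw [Fintype.linearIndependent_iff]
    intro g hg i
    have h1 := congrArg (fun y => A.B (Xf X i) y) hg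
    simp only [map_sum, LinearMap.map_zero] at h1
    rw [Finset.sum_eq_single i, bsr, hiso, B_fe, if_pos rfl, mul_one] at h1
    · exact h1
    · intro j _ hj
      rw [bsr, hiso, B_fe, if_neg hj, mul_zero]
    · intro h; exact absurd (Finset.mem_univ i) h
  let Φ : Matrix.symplecticGroup (Fin d) F → (Σ Q : Prs d F, {b : Fin d → Q.1.1 // LinearIndependent F b}) := fun X =>
    ⟨P X, fun i => ⟨Xe X i, Submodule.subset_span ⟨i, rfl⟩⟩, by
      apply LinearIndependent.of_comp (Submodule.subtype _)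
      exact hinj0 X⟩
  have hΦ : Function.Bijective Φ := by
    constructor
    · intro X Y hXY
      have h1 : P X = P Y := congrArg Sigma.fst hXY
      have h2 : Xe X = Xe Y := by
        have h3 : ∀ s t : (Σ Q : Prs d F, {b : Fin d → Q.1.1 // LinearIndependent F b}), s = t →
            (fun i => ((s.2.1 i : s.1.1.1) : Fin d ⊕ Fin d → F)) = fun i => ((t.2.1 i : t.1.1.1) : Fin d ⊕ Fin d → F) := by
          rintro s _ rfl
          rfl
        exact h3 _ _ hXY
      have h4 : Submodule.span F (Set.range (Xf X)) = Submodule.span F (Set.range (Xf Y)) :=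
        congrArg (fun Q : Prs d F => Q.1.2) h1
      have h5 : Xf X = Xf Y := by
        funext i
        rw [← sub_eq_zero]
        have h6 : Xf X i - Xf Y i ∈ Submodule.span F (Set.range (Xf X)) :=
          Submodule.sub_mem _ (Submodule.subset_span ⟨i, rfl⟩) (h4 ▸ Submodule.subset_span ⟨i, rfl⟩)
        apply hn
        intro y
        have hy : y ∈ Submodule.span F (Set.range (Xe X)) ⊔ Submodule.span F (Set.range (Xf X)) := (hspan X) ▸ Submodule.mem_top
        obtain ⟨a, ha, b, hb, rfl⟩ := Submodule.mem_sup.1 hy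
        rw [bar, htif X _ h6 b hb, add_zero]
        refine bspan (S := {Xf X i - Xf Y i}) (T := Set.range (Xe X)) ?_ (Submodule.mem_span_singleton_self _) ha
        rintro _ rfl _ ⟨j, rfl⟩
        have h7 : A.B (Xf Y i) (Xe X j) = A.B (f0 i) (e0 j) := by rw [h2]; exact hiso Y _ _
        rw [LinearMap.map_sub, LinearMap.sub_apply, h7, hiso, sub_self]
      apply Subtype.ext
      apply H16.Quad.mat_ext
      intro v
      rw [hexp v, Matrix.mulVec_add, Matrix.mulVec_add]
      congr 1
      · rw [← Matrix.mulVecLin_apply, ← Matrix.mulVecLin_apply, map_sum, map_sum]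
        refine Finset.sum_congr rfl (fun i _ => ?_)
        rw [_root_.map_smul, _root_.map_smul]
        exact congrArg _ (congrFun h2 i)
      · rw [← Matrix.mulVecLin_apply, ← Matrix.mulVecLin_apply, map_sum, map_sum]
        refine Finset.sum_congr rfl (fun i _ => ?_)
        rw [_root_.map_smul, _root_.map_smul]
        exact congrArg _ (congrFun h5 i)
    · rintro ⟨Q, b, hb⟩
      -- dual family
      have hUr := (hU Q).1
      have hbs : Submodule.span F (Set.range (fun i => (b i : Fin d ⊕ Fin d → F))) = Q.1.1 := by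
        apply Submodule.eq_of_le_of_finrank_eq
        · rw [Submodule.span_le]
          rintro _ ⟨i, rfl⟩
          exact (b i).2
        · have hb' : LinearIndependent F (fun i => (b i : Fin d ⊕ Fin d → F)) :=
            hb.map' (Submodule.subtype _) (Submodule.ker_subtype _)
          rw [finrank_span_eq_card hb', hUr, Fintype.card_fin]
      let bb : Basis (Fin d) F Q.1.1 := basisOfLinearIndependentOfCardEqFinrank hb (by rw [hUr, Fintype.card_fin])
      have hbb : ∀ i, bb i = b i := fun i => by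
        rw [coe_basisOfLinearIndependentOfCardEqFinrank]
      have hdual : ∀ i : Fin d, ∃ v ∈ Q.1.2, ∀ j, A.B v (b j) = if j = i then 1 else 0 := by
        intro i
        obtain ⟨v, hv⟩ := Frm.exists_rep hn ((bb.coord i) ∘ₗ (Submodule.projectionOnto Q.1.1 Q.1.2 Q.2.1))
        have h1 : ∀ w ∈ Q.1.2, A.B v w = 0 := by
          intro w hw
          rw [hv, LinearMap.comp_apply, Submodule.projectionOnto_apply_of_mem_right Q.2.1 hw, _root_.map_zero]
        refine ⟨v, ?_, ?_⟩
        · -- v ∈ W^⊥ = W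
          have h2 : Q.1.2 = A.orth Q.1.2 := by
            apply Submodule.eq_of_le_of_finrank_eq
            · intro u hu w hw
              rw [sympFrm_B]
              exact Q.2.2.2 w hw u hu
            · have h3 := Frm.finrank_orth hn Q.1.2
              rw [vrank, (hU Q).2] at h3
              rw [(hU Q).2]
              omega
          rw [h2]
          intro w hw
          exact A.refl (h1 w hw)
        · intro j
          rw [hv, LinearMap.comp_apply, Submodule.projectionOnto_apply_left, ← hbb, Basis.coord_apply,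
            Basis.repr_self, Finsupp.single_apply]
      choose f hf1 hf2 using hdual
      let L : (Fin d ⊕ Fin d → F) →ₗ[F] (Fin d ⊕ Fin d → F) :=
        (Pi.basisFun F (Fin d ⊕ Fin d)).constr F (Sum.elim (fun i => (b i : Fin d ⊕ Fin d → F)) f)
      have hLe : ∀ i, L (e0 i) = b i := by
        intro i
        have := (Pi.basisFun F (Fin d ⊕ Fin d)).constr_basis F (Sum.elim (fun i => (b i : Fin d ⊕ Fin d → F)) f) (Sum.inl i)
        rw [Pi.basisFun_apply] at this
        exact this
      have hLf : ∀ i, L (f0 i) = f i := by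
        intro i
        have := (Pi.basisFun F (Fin d ⊕ Fin d)).constr_basis F (Sum.elim (fun i => (b i : Fin d ⊕ Fin d → F)) f) (Sum.inr i)
        rw [Pi.basisFun_apply] at this
        exact this
      have hLB : ∀ u v, A.B (L u) (L v) = A.B u v := by
        have h1 : ∀ u, ∀ i, A.B (L u) (b i) = A.B u (e0 i) := by
          intro u i
          conv_lhs => rw [hexp u]
          conv_rhs => rw [hexp u]
          rw [_root_.map_add, map_sum, map_sum, bal, bal]
          simp only [_root_.map_smul, hLe, hLf, map_sum, LinearMap.sum_apply, LinearMap.smul_apply, smul_eq_mul]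
          congr 1
          · refine Finset.sum_congr rfl (fun j _ => ?_)
            rw [B_ee, sympFrm_B, Q.2.2.1 _ (b j).2 _ (b i).2]
          · refine Finset.sum_congr rfl (fun j _ => ?_)
            rw [hf2, B_fe]
        have h2 : ∀ u, ∀ i, A.B (L u) (f i) = A.B u (f0 i) := by
          intro u i
          conv_lhs => rw [hexp u]
          conv_rhs => rw [hexp u]
          rw [_root_.map_add, map_sum, map_sum, bal, bal]
          simp only [_root_.map_smul, hLe, hLf, map_sum, LinearMap.sum_apply, LinearMap.smul_apply, smul_eq_mul]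
          congr 1
          · refine Finset.sum_congr rfl (fun j _ => ?_)
            rw [bneg A (f i), bneg A (f0 i), hf2, B_fe]
          · refine Finset.sum_congr rfl (fun j _ => ?_)
            rw [B_ff, sympFrm_B, Q.2.2.2 _ (hf1 j) _ (hf1 i)]
        intro u v
        conv_lhs => rw [hexp v]
        conv_rhs => rw [hexp v]
        rw [_root_.map_add, map_sum, map_sum, bar, bar]
        simp only [_root_.map_smul, hLe, hLf, map_sum, LinearMap.sum_apply, LinearMap.smul_apply, smul_eq_mul, h1, h2]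
      have hmem : LinearMap.toMatrix' L ∈ Matrix.symplecticGroup (Fin d) F := by
        rw [mem_symplecticGroup_iff]
        intro u v
        rw [LinearMap.toMatrix'_mulVec, LinearMap.toMatrix'_mulVec, ← sympFrm_B, ← sympFrm_B]
        exact hLB u v
      refine ⟨⟨_, hmem⟩, ?_⟩
      have hXe : Xe ⟨_, hmem⟩ = fun i => (b i : Fin d ⊕ Fin d → F) := by
        funext i
        change (LinearMap.toMatrix' L).mulVec (e0 i) = _
        rw [LinearMap.toMatrix'_mulVec, hLe]
      have hXf : Xf ⟨_, hmem⟩ = f := by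
        funext i
        change (LinearMap.toMatrix' L).mulVec (f0 i) = _
        rw [LinearMap.toMatrix'_mulVec, hLf]
      have hP1 : (P ⟨_, hmem⟩).1.1 = Q.1.1 := by
        change Submodule.span F (Set.range (Xe ⟨_, hmem⟩)) = _
        rw [hXe, hbs]
      have hP2 : (P ⟨_, hmem⟩).1.2 = Q.1.2 := by
        change Submodule.span F (Set.range (Xf ⟨_, hmem⟩)) = _
        rw [hXf]
        have h3 : Submodule.span F (Set.range f) ≤ Q.1.2 := by
          rw [Submodule.span_le]
          rintro _ ⟨i, rfl⟩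
          exact hf1 i
        apply Submodule.eq_of_le_of_finrank_eq h3
        have h4 := (hU (P ⟨_, hmem⟩)).2
        change finrank F (Submodule.span F (Set.range (Xf ⟨_, hmem⟩))) = d at h4
        rw [hXf] at h4
        rw [h4, (hU Q).2]
      have hPQ : P ⟨_, hmem⟩ = Q := Subtype.ext (Prod.ext hP1 hP2)
      have key : ∀ (R : Prs d F) (hR : R = Q) (c : Fin d → R.1.1) (hc : LinearIndependent F c)
          (_ : ∀ i, ((c i : R.1.1) : Fin d ⊕ Fin d → F) = b i),
          (⟨R, c, hc⟩ : Σ Q : Prs d F, {b : Fin d → Q.1.1 // LinearIndependent F b}) = ⟨Q, b, hb⟩ := by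
        rintro R rfl c hc h
        congr
        funext i
        exact Subtype.ext (h i)
      exact key _ hPQ _ _ (fun i => congrFun hXe i)
  haveI : Finite (Submodule F (Fin d ⊕ Fin d → F)) :=
    Finite.of_injective (fun W : Submodule F (Fin d ⊕ Fin d → F) => (W : Set (Fin d ⊕ Fin d → F))) SetLike.coe_injective
  haveI : Finite (Prs d F) := inferInstance
  haveI := Fintype.ofFinite (Prs d F)
  rw [Nat.card_eq_of_bijective Φ hΦ, Nat.card_sigma]
  have hb : ∀ Q : Prs d F, Nat.card {b : Fin d → Q.1.1 // LinearIndependent F b} =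
      ∏ i : Fin d, (Fintype.card F ^ d - Fintype.card F ^ i.val) := by
    intro Q
    have := card_linearIndependent (K := F) (V := Q.1.1) (k := d) (by rw [(hU Q).1])
    rw [(hU Q).1] at this
    exact this
  rw [Finset.sum_congr rfl (fun Q _ => hb Q), Finset.sum_const, smul_eq_mul, Finset.card_univ,
    Nat.card_eq_fintype_card (α := Prs d F)]

end count


section nt

variable {F : Type*} [Field F] [Fintype F] {d : ℕ}

theorem prod_sub (q d : ℕ) (hq : 0 < q) : ∏ i : Fin d, (q ^ d - q ^ i.val) =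
    (∏ i ∈ Finset.range d, q ^ i) * ∏ i ∈ Finset.range d, (q ^ (i + 1) - 1) := by
  rw [Fin.prod_univ_eq_prod_range (fun i => q ^ d - q ^ i) d, ← Finset.prod_range_reflect (fun i => q ^ (i + 1) - 1) d,
    ← Finset.prod_mul_distrib]
  refine Finset.prod_congr rfl (fun i hi => ?_)
  rw [Finset.mem_range] at hi
  rw [Nat.mul_sub, mul_one, ← pow_add]
  congr 2
  omega

theorem card_prs_mul (hd : 0 < d) : Nat.card (Prs d F) * (∏ i ∈ Finset.range d, Fintype.card F ^ i) =
    Fintype.card F ^ (d ^ 2) * ∏ i ∈ Finset.range d, (Fintype.card F ^ (i + 1) + 1) := by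
  have h1 := card_prs (F := F) (d := d) hd
  rw [Cfsg.Agent.S0245.result rfl d, prod_sub _ _ Fintype.card_pos] at h1
  have h2 : ∏ i ∈ Finset.range d, (Fintype.card F ^ (2 * (i + 1)) - 1) =
      (∏ i ∈ Finset.range d, (Fintype.card F ^ (i + 1) - 1)) * ∏ i ∈ Finset.range d, (Fintype.card F ^ (i + 1) + 1) := by
    rw [← Finset.prod_mul_distrib]
    refine Finset.prod_congr rfl (fun i _ => ?_)
    have := Nat.sq_sub_sq (Fintype.card F ^ (i + 1)) 1
    rw [one_pow, ← pow_mul, mul_comm (i + 1) 2] at this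
    rw [this, mul_comm]
  rw [h2] at h1
  have h3 : 0 < ∏ i ∈ Finset.range d, (Fintype.card F ^ (i + 1) - 1) := by
    apply Finset.prod_pos
    intro i _
    have := Nat.one_lt_pow (n := i + 1) (by omega) (Fintype.one_lt_card (α := F))
    omega
  apply Nat.eq_of_mul_eq_mul_left h3
  rw [← mul_assoc, mul_comm (∏ i ∈ Finset.range d, (Fintype.card F ^ (i + 1) - 1)) (Nat.card (Prs d F)), mul_assoc,
    mul_comm (∏ i ∈ Finset.range d, (Fintype.card F ^ (i + 1) - 1)) (∏ i ∈ Finset.range d, Fintype.card F ^ i), ← h1]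
  ring

theorem prs_dvd (hd : 0 < d) {r : ℕ} (hr : r.Prime) (hrq : ¬ r ∣ Fintype.card F) (h : r ∣ Nat.card (Prs d F)) :
    ∃ i < d, r ∣ Fintype.card F ^ (i + 1) + 1 := by
  have h1 : r ∣ Fintype.card F ^ (d ^ 2) * ∏ i ∈ Finset.range d, (Fintype.card F ^ (i + 1) + 1) := by
    rw [← card_prs_mul hd]
    exact h.mul_right _
  rcases (Nat.Prime.dvd_mul hr).1 h1 with h2 | h2
  · exact absurd (hr.dvd_of_dvd_pow h2) hrq
  · obtain ⟨i, hi, h3⟩ := (Prime.dvd_finset_prod_iff hr.prime _).1 h2
    exact ⟨i, Finset.mem_range.1 hi, h3⟩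

theorem prs_even (hd : 0 < d) (hodd : Odd (Fintype.card F)) : Even (Nat.card (Prs d F)) := by
  have h1 : Even (Nat.card (Prs d F) * (∏ i ∈ Finset.range d, Fintype.card F ^ i)) := by
    rw [card_prs_mul hd]
    apply Even.mul_left
    rw [even_iff_two_dvd]
    refine (?_ : 2 ∣ Fintype.card F ^ (0 + 1) + 1).trans (Finset.dvd_prod_of_mem _ (Finset.mem_range.2 hd))
    rw [zero_add, pow_one]
    exact even_iff_two_dvd.1 hodd.add_one
  rcases Nat.even_mul.1 h1 with h2 | h2
  · exact h2
  · exfalso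
    rw [even_iff_two_dvd] at h2
    obtain ⟨i, _, h3⟩ := (Prime.dvd_finset_prod_iff Nat.prime_two.prime _).1 h2
    have h4 := Nat.prime_two.dvd_of_dvd_pow h3
    rw [← even_iff_two_dvd, ← Nat.not_odd_iff_even] at h4
    exact h4 hodd

/-- realisation of isometries in the symplectic group -/
theorem realize {V : Type*} [AddCommGroup V] [Module F V] [FiniteDimensional F V] (hV : finrank F V = 2 * d)
    (B : LinearMap.BilinForm F V) (hs : ∀ x, B x x = 0) (hn : ∀ x, (∀ y, B x y = 0) → x = 0) (f : V →ₗ[F] V)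
    (hf : ∀ u v, B (f u) (f v) = B u v) :
    ∃ (X : Matrix.symplecticGroup (Fin d) F) (E : (Fin d ⊕ Fin d → F) ≃ₗ[F] V),
      (∀ u v, B (E u) (E v) = Cfsg.sympForm d F u v) ∧
      ∀ v, E ((X : Matrix (Fin d ⊕ Fin d) (Fin d ⊕ Fin d) F).mulVec v) = f (E v) := by
  obtain ⟨E, hE⟩ := Sym2.alt_isometric (F := F) (sympB d F) (fun x => sympB_alt d F x)
    (fun x hx => sympFrm_nondeg d F x hx) B hs hn (by rw [vrank, hV])
  have hE' : ∀ u v, B (E u) (E v) = Cfsg.sympForm d F u v := fun u v => by rw [hE, sympB_apply]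
  let L : (Fin d ⊕ Fin d → F) →ₗ[F] (Fin d ⊕ Fin d → F) := (E.symm : V →ₗ[F] _) ∘ₗ f ∘ₗ (E : _ →ₗ[F] V)
  have hL : ∀ v, E (L v) = f (E v) := fun v => E.apply_symm_apply _
  have hmem : LinearMap.toMatrix' L ∈ Matrix.symplecticGroup (Fin d) F := by
    rw [mem_symplecticGroup_iff]
    intro u v
    rw [LinearMap.toMatrix'_mulVec, LinearMap.toMatrix'_mulVec, ← hE', hL, hL, hf, hE']
  refine ⟨⟨_, hmem⟩, E, hE', fun v => ?_⟩
  change E ((LinearMap.toMatrix' L).mulVec v) = _
  rw [LinearMap.toMatrix'_mulVec, hL]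

end nt

section free

variable {F : Type*} [Field F] [Fintype F] {V : Type*} [AddCommGroup V] [Module F V] [FiniteDimensional F V]

/-- invariant subspaces of a fixed-point-free map of prime order -/
theorem dvd_of_inv {r : ℕ} (hr : r.Prime) {f : V →ₗ[F] V} (hf : f ^ r = 1) (hfix : ∀ v, f v = v → v = 0)
    {U : Submodule F V} (hU : ∀ u ∈ U, f u ∈ U) : r ∣ Fintype.card F ^ finrank F U - 1 := by
  haveI : Finite V := Module.finite_of_finite F
  have hinj : Function.Injective f := by
    intro u v h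
    have h1 : (f ^ (r - 1)) (f u) = (f ^ (r - 1)) (f v) := by rw [h]
    rw [← Module.End.mul_apply, ← Module.End.mul_apply, ← pow_succ, Nat.sub_add_cancel hr.pos, hf] at h1
    exact h1
  have h1 : Nat.card {u : U // u ≠ 0} = Fintype.card F ^ finrank F U - 1 := by
    classical
    haveI := Fintype.ofFinite U
    rw [Nat.card_eq_fintype_card, Fintype.card_subtype_compl, Fintype.card_subtype_eq, ← Nat.card_eq_fintype_card,
      Module.natCard_eq_pow_finrank (K := F), Nat.card_eq_fintype_card]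
  rw [← h1]
  have hne : ∀ u : {u : U // u ≠ 0}, (⟨f u.1, hU _ u.1.2⟩ : U) ≠ 0 := by
    intro u h
    have h2 : f u.1 = 0 := congrArg Subtype.val h
    have h3 : (u.1 : V) = 0 := hinj (by rw [h2, LinearMap.map_zero])
    exact u.2 (Subtype.ext h3)
  have hit : ∀ (n : ℕ) (u : {u : U // u ≠ 0}), ((((fun u : {u : U // u ≠ 0} => (⟨⟨f u.1, hU _ u.1.2⟩, hne u⟩ :
      {u : U // u ≠ 0}))^[n] u : {u : U // u ≠ 0}) : U) : V) = (f ^ n) u.1 := by
    intro n
    induction n with
    | zero => intro u; rfl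
    | succ n ih =>
      intro u
      rw [Function.iterate_succ_apply', pow_succ', Module.End.mul_apply, ← ih]
  refine dvd_card_of_free hr (fun u : {u : U // u ≠ 0} => (⟨⟨f u.1, hU _ u.1.2⟩, hne u⟩ : {u : U // u ≠ 0})) ?_ ?_
  · intro u
    apply Subtype.ext
    apply Subtype.ext
    rw [hit, hf]
    rfl
  · intro u hu
    have h2 : f u.1 = u.1 := congrArg (fun y : {u : U // u ≠ 0} => ((y : U) : V)) hu
    exact u.2 (Subtype.ext (hfix _ h2))

end free


section nopair

variable {F : Type*} [Field F] [Fintype F] {V₁ V₂ : Type*} [AddCommGroup V₁] [Module F V₁] [FiniteDimensional F V₁]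
  [AddCommGroup V₂] [Module F V₂] [FiniteDimensional F V₂]

theorem no_pair {r k : ℕ} (hr : r.Prime) (B : LinearMap.BilinForm F V₁) (hs : ∀ x, B x x = 0)
    (hn : ∀ x, (∀ y, B x y = 0) → x = 0) (f : V₁ →ₗ[F] V₁) (hf : f ^ r = 1) (hfix : ∀ v, f v = v → v = 0)
    (hk : finrank F V₁ = 2 * k) {U W : Submodule F (V₁ × V₂)} (hc : IsCompl U W)
    (hU : ∀ u v : V₁, (u, (0 : V₂)) ∈ U → (v, (0 : V₂)) ∈ U → B u v = 0)
    (hW : ∀ u v : V₁, (u, (0 : V₂)) ∈ W → (v, (0 : V₂)) ∈ W → B u v = 0)
    (hfU : ∀ u ∈ U, (f u.1, u.2) ∈ U) (hfW : ∀ u ∈ W, (f u.1, u.2) ∈ W) :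
    r ∣ Fintype.card F ^ k - 1 := by
  let U1 : Submodule F V₁ := U.comap (LinearMap.inl F V₁ V₂)
  let W1 : Submodule F V₁ := W.comap (LinearMap.inl F V₁ V₂)
  have hU1 : ∀ v, v ∈ U1 ↔ (v, (0 : V₂)) ∈ U := fun v => Iff.rfl
  have hW1 : ∀ v, v ∈ W1 ↔ (v, (0 : V₂)) ∈ W := fun v => Iff.rfl
  have hsurj : Function.Surjective (f - 1 : V₁ →ₗ[F] V₁) := by
    apply LinearMap.surjective_of_injective
    rw [← LinearMap.ker_eq_bot, LinearMap.ker_eq_bot']
    intro v hv
    apply hfix
    rw [LinearMap.sub_apply, Module.End.one_apply, sub_eq_zero] at hv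
    exact hv
  have hmem : ∀ (S : Submodule F (V₁ × V₂)), (∀ u ∈ S, (f u.1, u.2) ∈ S) → ∀ u ∈ S, (f u.1 - u.1, (0 : V₂)) ∈ S := by
    intro S hS u hu
    have h1 := S.sub_mem (hS u hu) hu
    have h2 : (f u.1, u.2) - u = (f u.1 - u.1, (0 : V₂)) := by
      ext
      · rfl
      · change u.2 - u.2 = 0
        rw [sub_self]
    rwa [h2] at h1
  have hcompl : IsCompl U1 W1 := by
    constructor
    · rw [Submodule.disjoint_def]
      intro v hv hv'
      have h1 := Submodule.disjoint_def.1 hc.disjoint _ ((hU1 v).1 hv) ((hW1 v).1 hv')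
      exact congrArg Prod.fst h1
    · rw [codisjoint_iff, eq_top_iff]
      intro v _
      obtain ⟨w, hw⟩ := hsurj v
      rw [LinearMap.sub_apply, Module.End.one_apply] at hw
      have h1 : ((w, (0 : V₂)) : V₁ × V₂) ∈ U ⊔ W := by rw [hc.sup_eq_top]; exact Submodule.mem_top
      obtain ⟨a, ha, b, hb, hab⟩ := Submodule.mem_sup.1 h1
      have h2 : v = (f a.1 - a.1) + (f b.1 - b.1) := by
        have h3 : a.1 + b.1 = w := congrArg Prod.fst hab
        rw [← hw, ← h3, _root_.map_add]
        abel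
      rw [h2]
      exact Submodule.add_mem_sup ((hU1 _).2 (hmem U hfU a ha)) ((hW1 _).2 (hmem W hfW b hb))
  have hrk := compl_rank (A := (Frm.ofAlt B hs)) hn (U := U1) (W := W1)
    (fun u hu v hv => hU u v hu hv) (fun u hu v hv => hW u v hu hv) hcompl
  have h1 := dvd_of_inv hr hf hfix (U := U1) (fun u hu => by
    have := hfU _ ((hU1 u).1 hu)
    exact this)
  have h2 : finrank F U1 = k := by omega
  rwa [h2] at h1

end nopair

end Cfsg.Agent.H5.Der
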