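import Mathlib
import Cfsg.Agent.H5_Exc6
import Cfsg.Agent.H5_SpSim
import Cfsg.Agent.S0245
import Cfsg.Agent.S0286

set_option autoImplicit false
set_option linter.unusedSectionVars false

/-! `PΩ_5(q) ≅ PSp_4(q)`, `q` odd. -/

namespace Cfsg.Agent.H5.Exc

open Matrix Module
open QuadraticMap (polar)
open Cfsg.Agent.H16.Quad hiding map_smul map_add map_sub

variable {F : Type*} [Field F]

local notation "V6" => (Fin 3 ⊕ Fin 3 → F)
local notation "V5" => (Unit ⊕ (Fin 2 ⊕ Fin 2) → F)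
local notation "M4" => Matrix (Fin 4) (Fin 4) F
local notation "Sp" => Matrix.symplecticGroup (Fin 2) F

/-- the symplectic form matrix -/
def J4 : M4 := !![0, 0, -1, 0; 0, 0, 0, -1; 1, 0, 0, 0; 0, 1, 0, 0]

/-- the index equivalence -/
def e22 : Fin 2 ⊕ Fin 2 ≃ Fin 4 := finSumFinEquiv (m := 2) (n := 2)

/-- reindexing -/
def re4 (A : Matrix (Fin 2 ⊕ Fin 2) (Fin 2 ⊕ Fin 2) F) : M4 := A.submatrix e22.symm e22.symm

theorem re4_mul (A B : Matrix (Fin 2 ⊕ Fin 2) (Fin 2 ⊕ Fin 2) F) : re4 (A * B) = re4 A * re4 B :=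
  (Matrix.submatrix_mul_equiv A B e22.symm e22.symm e22.symm).symm

theorem re4_one : re4 (1 : Matrix (Fin 2 ⊕ Fin 2) (Fin 2 ⊕ Fin 2) F) = 1 :=
  Matrix.submatrix_one_equiv _

theorem re4_inj {A B : Matrix (Fin 2 ⊕ Fin 2) (Fin 2 ⊕ Fin 2) F} (h : re4 A = re4 B) : A = B := by
  ext i j
  have := congrFun (congrFun h (e22 i)) (e22 j)
  simpa [re4] using this

theorem re4_smul (c : F) (A : Matrix (Fin 2 ⊕ Fin 2) (Fin 2 ⊕ Fin 2) F) : re4 (c • A) = c • re4 A := rfl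

theorem re4_transpose (A : Matrix (Fin 2 ⊕ Fin 2) (Fin 2 ⊕ Fin 2) F) : re4 Aᵀ = (re4 A)ᵀ := rfl

theorem e22_0 : e22.symm 0 = .inl 0 := rfl
theorem e22_1 : e22.symm 1 = .inl 1 := rfl
theorem e22_2 : e22.symm 2 = .inr 0 := rfl
theorem e22_3 : e22.symm 3 = .inr 1 := rfl

theorem re4_J : re4 (Matrix.J (Fin 2) F) = J4 := by
  ext i j
  rw [re4, Matrix.submatrix_apply, Matrix.J, J4]
  fin_cases i <;> fin_cases j <;> simp [e22_0, e22_1, e22_2, e22_3, Matrix.fromBlocks]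

theorem re4_sp (g : Sp) : re4 (g : Matrix (Fin 2 ⊕ Fin 2) (Fin 2 ⊕ Fin 2) F) * J4 * (re4 (g : Matrix (Fin 2 ⊕ Fin 2) (Fin 2 ⊕ Fin 2) F))ᵀ = J4 := by
  rw [← re4_J, ← re4_transpose, ← re4_mul, ← re4_mul]
  congr 1
  exact SymplecticGroup.mem_iff.1 g.2

theorem alt_J4 : Alt (J4 : M4) := by
  constructor
  · intro i; fin_cases i <;> simp [J4]
  · intro i j; fin_cases i <;> fin_cases j <;> simp [J4]

theorem pf_J4 : pf (J4 : M4) = -1 := by
  simp [pf, J4]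

theorem det_re4 (g : Sp) : (re4 (g : Matrix (Fin 2 ⊕ Fin 2) (Fin 2 ⊕ Fin 2) F)).det = 1 := by
  have h := pf_conj (re4 (g : Matrix (Fin 2 ⊕ Fin 2) (Fin 2 ⊕ Fin 2) F)) J4 alt_J4
  rw [re4_sp, pf_J4] at h
  linear_combination h

theorem alt_add {M N : M4} (h : Alt M) (h' : Alt N) : Alt (M + N) := by
  constructor
  · intro i; rw [Matrix.add_apply, h.1, h'.1, add_zero]
  · intro i j; rw [Matrix.add_apply, Matrix.add_apply, h.2, h'.2]; ring

theorem pf_add_J4 (M : M4) : pf (M + J4) = pf M + pf J4 + (M 0 2 + M 1 3) := by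
  simp [pf, J4]; ring

/-- the trace-zero condition is preserved -/
theorem perp_conj {g : M4} (hg : g * J4 * gᵀ = J4) (hd : g.det = 1) {M : M4} (h : Alt M) (h0 : M 0 2 + M 1 3 = 0) :
    (g * M * gᵀ) 0 2 + (g * M * gᵀ) 1 3 = 0 := by
  have h1 := pf_add_J4 (g * M * gᵀ)
  have h2 : g * M * gᵀ + J4 = g * (M + J4) * gᵀ := by rw [mul_add, add_mul, hg]
  rw [h2, pf_conj _ _ (alt_add h alt_J4), pf_conj _ _ h, hd, pf_add_J4, h0] at h1
  linear_combination -h1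

/-- coordinates to alternating matrices -/
def toM5 : V5 →ₗ[F] M4 where
  toFun x := !![0, x (.inr (.inl 0)), x (.inl ()), x (.inr (.inl 1)); - x (.inr (.inl 0)), 0, x (.inr (.inr 1)), - x (.inl ());
    - x (.inl ()), - x (.inr (.inr 1)), 0, x (.inr (.inr 0)); - x (.inr (.inl 1)), x (.inl ()), - x (.inr (.inr 0)), 0]
  map_add' x y := by ext i j; fin_cases i <;> fin_cases j <;> simp <;> ring
  map_smul' c x := by ext i j; fin_cases i <;> fin_cases j <;> simp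

/-- coordinates of a matrix -/
def ofM5 : M4 →ₗ[F] V5 where
  toFun M := Sum.elim (fun _ => M 0 2) (Sum.elim ![M 0 1, M 0 3] ![M 2 3, M 1 2])
  map_add' x y := by
    ext (i | i | i)
    · rfl
    · fin_cases i <;> simp
    · fin_cases i <;> simp
  map_smul' c x := by
    ext (i | i | i)
    · rfl
    · fin_cases i <;> simp
    · fin_cases i <;> simp

theorem ofM5_toM5 (x : V5) : ofM5 (toM5 x) = x := by
  ext (i | i | i)
  · rfl
  · fin_cases i <;> simp [ofM5, toM5]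
  · fin_cases i <;> simp [ofM5, toM5]

theorem alt_toM5 (x : V5) : Alt (toM5 x) := by
  constructor
  · intro i; fin_cases i <;> simp [toM5]
  · intro i j; fin_cases i <;> fin_cases j <;> simp [toM5]

theorem perp_toM5 (x : V5) : toM5 x 0 2 + toM5 x 1 3 = 0 := by
  simp [toM5]

theorem toM5_ofM5 {M : M4} (h : Alt M) (h0 : M 0 2 + M 1 3 = 0) : toM5 (ofM5 M) = M := by
  obtain ⟨h1, h2⟩ := h
  have e13 : - M 0 2 = M 1 3 := by linear_combination -h0
  have e31 : M 0 2 = M 3 1 := by rw [h2 3 1]; linear_combination h0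
  ext i j
  fin_cases i <;> fin_cases j
  · exact (h1 0).symm
  · rfl
  · rfl
  · rfl
  · exact (h2 1 0).symm
  · exact (h1 1).symm
  · rfl
  · exact e13
  · exact (h2 2 0).symm
  · exact (h2 2 1).symm
  · exact (h1 2).symm
  · rfl
  · exact (h2 3 0).symm
  · exact e31
  · exact (h2 3 2).symm
  · exact (h1 3).symm

theorem pf_toM5 (x : V5) : pf (toM5 x) = oddQ F 2 x := by
  rw [oddQ_apply, Cfsg.quadFormOdd, pf]
  simp [toM5, Fin.sum_univ_two]
  ring

/-- the action on coordinates -/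
def ad5 (g : M4) : V5 →ₗ[F] V5 :=
  ofM5 ∘ₗ (LinearMap.mulRight F gᵀ) ∘ₗ (LinearMap.mulLeft F g) ∘ₗ toM5

theorem ad5_apply (g : M4) (x : V5) : ad5 g x = ofM5 (g * toM5 x * gᵀ) := rfl

theorem toM5_ad5 {g : M4} (hg : g * J4 * gᵀ = J4) (hd : g.det = 1) (x : V5) : toM5 (ad5 g x) = g * toM5 x * gᵀ := by
  rw [ad5_apply, toM5_ofM5 (alt_conj g _ (alt_toM5 x)) (perp_conj hg hd (alt_toM5 x) (perp_toM5 x))]

theorem ad5_one : ad5 (1 : M4) = LinearMap.id := by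
  apply LinearMap.ext
  intro x
  rw [ad5_apply, Matrix.transpose_one, one_mul, mul_one, ofM5_toM5]; rfl

theorem ad5_mul {s t : M4} (hg : t * J4 * tᵀ = J4) (hd : t.det = 1) : ad5 (s * t) = ad5 s ∘ₗ ad5 t := by
  apply LinearMap.ext
  intro x
  rw [LinearMap.comp_apply, ad5_apply s, toM5_ad5 hg hd, ad5_apply, Matrix.transpose_mul]
  simp only [mul_assoc]

theorem Q_ad5 {g : M4} (hg : g * J4 * gᵀ = J4) (hd : g.det = 1) (x : V5) : oddQ F 2 (ad5 g x) = oddQ F 2 x := by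
  rw [← pf_toM5, toM5_ad5 hg hd, pf_conj _ _ (alt_toM5 x), pf_toM5, hd, one_mul]

theorem exists_ad5 : ∃ f : Sp →* OG (oddQ F 2), ∀ g v, (f g).1 v = ad5 (re4 (g : Matrix (Fin 2 ⊕ Fin 2) (Fin 2 ⊕ Fin 2) F)) v := by
  apply exists_OG_hom
  · rw [OneMemClass.coe_one, re4_one, ad5_one]
  · intro s t
    rw [← ad5_mul (re4_sp t) (det_re4 t), ← re4_mul]
    rfl
  · intro s v
    exact Q_ad5 (re4_sp s) (det_re4 s) v

theorem fix6_of_fix5 (h2 : (2 : F) ≠ 0) {g : M4} (hg : g * J4 * gᵀ = J4) (hd : g.det = 1) (h : ∀ v, ad5 g v = v) (v : V6) : ad6 g v = v := by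
  -- decompose
  obtain ⟨c, hc⟩ : ∃ c : F, c * 2 = toM6 v 0 2 + toM6 v 1 3 := ⟨(toM6 v 0 2 + toM6 v 1 3) / 2, by field_simp⟩
  have h0 : (toM6 v + c • J4 : M4) 0 2 + (toM6 v + c • J4 : M4) 1 3 = 0 := by
    simp [J4]
    linear_combination -hc
  have hA : Alt (toM6 v + c • J4) := by
    apply alt_add (alt_toM6 v)
    constructor
    · intro i; rw [Matrix.smul_apply, alt_J4.1, smul_zero]
    · intro i j; rw [Matrix.smul_apply, Matrix.smul_apply, alt_J4.2 i j, smul_neg]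
  have h1 := toM5_ad5 hg hd (ofM5 (toM6 v + c • J4))
  rw [h, toM5_ofM5 hA h0] at h1
  rw [ad6_apply]
  have h3 : g * toM6 v * gᵀ = toM6 v := by
    have h4 : g * (toM6 v + c • J4) * gᵀ = g * toM6 v * gᵀ + c • J4 := by
      rw [mul_add, add_mul, mul_smul_comm, smul_mul_assoc, hg]
    rw [h4] at h1
    exact (add_right_cancel h1).symm
  rw [h3, ofM6_toM6]

theorem ad5_smul_one {c : F} (hc : c * c = 1) (v : V5) : ad5 (c • (1 : M4)) v = v := by
  rw [ad5_apply, Matrix.transpose_smul, Matrix.transpose_one, smul_mul_assoc, one_mul, smul_mul_assoc, mul_smul_comm, mul_one, smul_smul, hc,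
    one_smul, ofM5_toM5]

/-- `PΩ_5(q) ≅ PSp_4(q)` -/
theorem iso5 [Fintype F] (hodd : Odd (Fintype.card F)) : Nonempty (Cfsg.POmega F (Cfsg.quadFormOdd 2 F) ≃* Cfsg.PSp 2 F) := by
  have h2 : (2 : F) ≠ 0 := two_ne_zero_of_odd_card rfl hodd
  have hQ := nd_oddQ (F := F) h2 2
  obtain ⟨f, hf⟩ := exists_ad5 (F := F)
  have hker : ∀ g : Sp, g ∈ f.ker ↔ ∃ c : F, c * c = 1 ∧ re4 (g : Matrix (Fin 2 ⊕ Fin 2) (Fin 2 ⊕ Fin 2) F) = c • (1 : M4) := by
    intro g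
    rw [MonoidHom.mem_ker]
    constructor
    · intro h
      apply scalar_of_fix6
      intro v
      apply fix6_of_fix5 h2 (re4_sp g) (det_re4 g)
      intro v
      rw [← hf, h]; rfl
    · rintro ⟨c, hc, hg⟩
      apply Subtype.ext
      apply LinearEquiv.ext
      intro v
      rw [hf, hg, ad5_smul_one hc]; rfl
  have hq3 : 3 ≤ Fintype.card F := by
    have := Fintype.one_lt_card (α := F)
    obtain ⟨k, hk⟩ := hodd
    omega
  have hperf : commutator Sp = ⊤ := SpSim.perfect (Or.inr (Or.inl ⟨rfl, hq3⟩))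
  have hkc : f.ker ≤ Subgroup.center Sp := by
    intro g hg
    obtain ⟨c, -, hg⟩ := (hker g).1 hg
    rw [Subgroup.mem_center_iff]
    intro k
    apply Subtype.ext
    apply re4_inj
    show re4 ((k : Matrix (Fin 2 ⊕ Fin 2) (Fin 2 ⊕ Fin 2) F) * (g : Matrix (Fin 2 ⊕ Fin 2) (Fin 2 ⊕ Fin 2) F)) =
      re4 ((g : Matrix (Fin 2 ⊕ Fin 2) (Fin 2 ⊕ Fin 2) F) * (k : Matrix (Fin 2 ⊕ Fin 2) (Fin 2 ⊕ Fin 2) F))
    rw [re4_mul, re4_mul, hg, smul_mul_assoc, mul_smul_comm, one_mul, mul_one]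
  have hneg : ∃ g : Sp, re4 (g : Matrix (Fin 2 ⊕ Fin 2) (Fin 2 ⊕ Fin 2) F) = (-1 : F) • (1 : M4) :=
    ⟨⟨-1, by
      rw [SymplecticGroup.mem_iff]
      simp⟩, by rw [← re4_one, ← re4_smul]; simp⟩
  obtain ⟨-, hk2⟩ := card_ker_pm f (fun g : Sp => re4 (g : Matrix (Fin 2 ⊕ Fin 2) (Fin 2 ⊕ Fin 2) F))
    (fun a b h => Subtype.ext (re4_inj h)) re4_one hker hneg
  have hcard0 := S0286.result (F := F) rfl hodd 2
  rw [← coe_oddQ] at hcard0 ⊢
  have hfr : finrank F V5 = 5 := by rw [Module.finrank_fintype_fun_eq_card]; decide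
  have hmul := (Cfsg.Omega F ⇑(oddQ F 2)).card_mul_index
  rw [hcard0, Omega_index_odd hQ h2 (by omega)] at hmul
  have hS := S0245.result (F := F) rfl 2
  refine main_iso f (range_le_of_perfect f hperf) ?_ (fun z hz => grun f hkc hperf z hz)
  rw [hk2 h2]
  simp only [mul_assoc] at hmul
  rw [← hS] at hmul
  omega

end Cfsg.Agent.H5.Exc
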