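import Mathlib
import Cfsg.Agent.H5_Exc6
import Cfsg.Agent.H5_Norm
import Cfsg.Agent.H5_Field
import Cfsg.Agent.H5_SL2Tor
import Cfsg.Agent.S0288

set_option autoImplicit false
set_option linter.unusedSectionVars false

/-! Norm forms and actions on Hermitian data. -/

namespace Cfsg.Agent.H5.Exc

open Matrix Module
open QuadraticMap (polar)
open Cfsg.Agent.H16.Quad hiding map_smul map_add map_sub

/-- an action on a module restricting to a submodule parametrised by `T` -/
theorem exists_OG_hom' {F V W S : Type*} [Field F] [AddCommGroup V] [Module F V] [AddCommGroup W] [Module F W] [Group S]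
    (Q : QuadraticForm F V) (T : V →ₗ[F] W) (hT : Function.Injective T)
    (ρ : S → W →ₗ[F] W) (h1 : ρ 1 = LinearMap.id) (hm : ∀ s t, ρ (s * t) = ρ s ∘ₗ ρ t)
    (hst : ∀ s v, ∃ v', T v' = ρ s (T v)) (hQ : ∀ s v v', T v' = ρ s (T v) → Q v' = Q v) :
    ∃ f : S →* OG Q, ∀ s v, T ((f s).1 v) = ρ s (T v) := by
  let e := LinearEquiv.ofInjective T hT
  have he : ∀ v, (e v : W) = T v := fun v => rfl
  have hr : ∀ s, ∀ w ∈ LinearMap.range T, ρ s w ∈ LinearMap.range T := by
    rintro s _ ⟨v, rfl⟩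
    obtain ⟨v', hv'⟩ := hst s v
    exact ⟨v', hv'⟩
  let r : S → V →ₗ[F] V := fun s => e.symm.toLinearMap ∘ₗ (ρ s).restrict (hr s) ∘ₗ e.toLinearMap
  have hrT : ∀ s v, T (r s v) = ρ s (T v) := by
    intro s v
    rw [← he]
    show ((e (e.symm ((ρ s).restrict (hr s) (e v))) : LinearMap.range T) : W) = _
    rw [e.apply_symm_apply]
    rfl
  obtain ⟨f, hf⟩ := exists_OG_hom Q r (by
      apply LinearMap.ext
      intro v
      apply hT
      rw [hrT, h1]; rfl) (by
      intro s t
      apply LinearMap.ext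
      intro v
      apply hT
      rw [hrT, hm, LinearMap.comp_apply, LinearMap.comp_apply, hrT, hrT]) (by
      intro s v
      exact hQ s v _ (hrT s v))
  exact ⟨f, fun s v => by rw [hf, hrT]⟩

variable {F K : Type*} [Field F] [Fintype F] [Field K] [Fintype K] [Algebra F K] {q : ℕ} (hF : Fintype.card F = q)
  (hK : Fintype.card K = q ^ 2)

local notation "σ" => Fld.frob hK
local notation "al" => algebraMap F K

include hF in
theorem sig_al (x : F) : σ (al x) = al x := by
  rw [Fld.frob_apply, ← map_pow, ← hF, FiniteField.pow_card]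

include hF in
theorem exists_al {x : K} (h : σ x = x) : ∃ y, al y = x := by
  rw [Fld.frob_apply] at h
  exact SL2Tor.range_fixed (algebraMap F K) x (by rw [hF]; exact h)

theorem sig_sig (x : K) : σ (σ x) = x := Fld.frob_frob hK x

/-- coordinates on `K` -/
def phi (θ : K) : (Fin 2 → F) →ₗ[F] K where
  toFun z := al (z 0) + al (z 1) * θ
  map_add' x y := by simp; ring
  map_smul' c x := by simp [Algebra.smul_def]; ring

theorem phi_apply (θ : K) (z : Fin 2 → F) : phi θ z = al (z 0) + al (z 1) * θ := rfl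

/-- norm of `phi` -/
def IsNorm (θ : K) (a b : F) : Prop :=
  (∀ z : Fin 2 → F, phi θ z * σ (phi θ z) = al (z 0 ^ 2 + a * z 0 * z 1 + b * z 1 ^ 2)) ∧ Function.Bijective (phi (F := F) θ)

include hF in
theorem exists_isNorm {a b : F} (hab : ∀ z₁ z₂ : F, z₁ ^ 2 + a * z₁ * z₂ + b * z₂ ^ 2 = 0 → z₁ = 0 ∧ z₂ = 0) :
    ∃ θ : K, IsNorm hK θ a b := by
  obtain ⟨θ, h1, -, h3⟩ := Norm.exists_theta hF hab (K := K) hK
  have h4 : ∀ z : Fin 2 → F, phi θ z * σ (phi θ z) = al (z 0 ^ 2 + a * z 0 * z 1 + b * z 1 ^ 2) := by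
    intro z
    rw [← h1, Fld.frob_apply, phi_apply, pow_succ']
  refine ⟨θ, h4, ?_, ?_⟩
  · rw [injective_iff_map_eq_zero]
    intro z hz
    have h5 := h4 z
    rw [hz, zero_mul] at h5
    have h6 := hab _ _ ((map_eq_zero _).1 h5.symm)
    ext i
    fin_cases i
    · exact h6.1
    · exact h6.2
  · intro x
    obtain ⟨z₁, z₂, hz⟩ := h3 x
    exact ⟨![z₁, z₂], by rw [phi_apply]; simp [hz]⟩


/-- the Frobenius as a linear map -/
noncomputable def sigL : K →ₗ[F] K where
  toFun := σ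
  map_add' := map_add _
  map_smul' c x := by
    rw [Algebra.smul_def, map_mul, sig_al hF hK, ← Algebra.smul_def]; rfl

theorem sigL_apply (x : K) : sigL hF hK x = σ x := rfl

/-! ### `PΩ_4^-(q) ≅ PSL_2(q²)` -/

section Four

local notation "V4m" => ((Fin 1 ⊕ Fin 1) ⊕ Fin 2 → F)
local notation "M2K" => Matrix (Fin 2) (Fin 2) K

/-- the `z`-part -/
def zpart (m : ℕ) : ((Fin m ⊕ Fin m) ⊕ Fin 2 → F) →ₗ[F] (Fin 2 → F) := LinearMap.funLeft F F Sum.inr

theorem zpart_apply (m : ℕ) (x : (Fin m ⊕ Fin m) ⊕ Fin 2 → F) (i : Fin 2) : zpart m x i = x (.inr i) := rfl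

/-- Hermitian matrices -/
noncomputable def toH (θ : K) : V4m →ₗ[F] M2K where
  toFun x := !![al (x (.inl (.inl 0))), phi θ (zpart 1 x); sigL hF hK (phi θ (zpart 1 x)), - al (x (.inl (.inr 0)))]
  map_add' x y := by
    rw [map_add, map_add, map_add]
    ext i j; fin_cases i <;> fin_cases j <;> simp
    ring
  map_smul' c x := by
    rw [map_smul, map_smul, map_smul]
    ext i j; fin_cases i <;> fin_cases j <;> simp
    · rw [Algebra.smul_def]
    · rw [Algebra.smul_def]

variable {a b : F} {θ : K}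

theorem toH_00 (x : V4m) : toH hF hK θ x 0 0 = al (x (.inl (.inl 0))) := rfl
theorem toH_01 (x : V4m) : toH hF hK θ x 0 1 = phi θ (zpart 1 x) := rfl
theorem toH_10 (x : V4m) : toH hF hK θ x 1 0 = σ (phi θ (zpart 1 x)) := rfl
theorem toH_11 (x : V4m) : toH hF hK θ x 1 1 = - al (x (.inl (.inr 0))) := rfl

/-- conjugate transpose -/
noncomputable def ct (M : M2K) : M2K := (M.map σ)ᵀ

theorem ct_mul (M N : M2K) : ct hK (M * N) = ct hK N * ct hK M := by
  rw [ct, Matrix.map_mul, Matrix.transpose_mul]; rfl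

theorem ct_ct (M : M2K) : ct hK (ct hK M) = M := by
  ext i j
  exact sig_sig hK _

theorem ct_one : ct hK (1 : M2K) = 1 := by
  rw [ct, Matrix.map_one _ (map_zero _) (map_one _), Matrix.transpose_one]

theorem det_ct (M : M2K) : (ct hK M).det = σ M.det := by
  rw [ct, Matrix.det_transpose, RingHom.map_det]; rfl

theorem ct_toH (x : V4m) : ct hK (toH hF hK θ x) = toH hF hK θ x := by
  ext i j
  show σ (toH hF hK θ x j i) = _
  fin_cases i <;> fin_cases j
  · show σ (toH hF hK θ x 0 0) = _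
    rw [toH_00, sig_al hF hK]; rfl
  · exact sig_sig hK _
  · rfl
  · show σ (toH hF hK θ x 1 1) = _
    rw [toH_11, map_neg, sig_al hF hK]; rfl

include hF in
theorem exists_toH (hθ : IsNorm hK θ a b) {M : M2K} (h : ct hK M = M) : ∃ x, toH hF hK θ x = M := by
  have h00 : σ (M 0 0) = M 0 0 := congrFun (congrFun h 0) 0
  have h01 : σ (M 0 1) = M 1 0 := congrFun (congrFun h 1) 0
  have h11 : σ (M 1 1) = M 1 1 := congrFun (congrFun h 1) 1
  obtain ⟨u, hu⟩ := exists_al hF hK h00
  obtain ⟨v, hv⟩ := exists_al hF hK h11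
  obtain ⟨z, hz⟩ := hθ.2.2 (M 0 1)
  refine ⟨Sum.elim (Sum.elim (fun _ => u) (fun _ => -v)) z, ?_⟩
  ext i j
  fin_cases i <;> fin_cases j
  · exact hu
  · exact hz
  · show σ (phi θ z) = M 1 0
    rw [hz, h01]
  · show - al (-v) = M 1 1
    rw [map_neg, neg_neg, hv]

theorem toH_injective (hθ : IsNorm hK θ a b) : Function.Injective (toH hF hK θ) := by
  rw [injective_iff_map_eq_zero]
  intro x hx
  have h00 := congrFun (congrFun hx 0) 0
  have h01 := congrFun (congrFun hx 0) 1
  have h11 := congrFun (congrFun hx 1) 1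
  rw [toH_00, Matrix.zero_apply, map_eq_zero] at h00
  rw [toH_01, Matrix.zero_apply] at h01
  rw [toH_11, Matrix.zero_apply, neg_eq_zero, map_eq_zero] at h11
  have h2 := hθ.2.1 (h01.trans (map_zero _).symm)
  ext ((i | i) | i)
  · rw [Fin.fin_one_eq_zero i]; exact h00
  · rw [Fin.fin_one_eq_zero i]; exact h11
  · exact congrFun h2 i

theorem det_toH (hθ : IsNorm hK θ a b) (x : V4m) : (toH hF hK θ x).det = - al (minusQ F 1 a b x) := by
  rw [Matrix.det_fin_two, toH_00, toH_01, toH_10, toH_11, hθ.1, minusQ_apply, Cfsg.quadFormMinus, Fin.sum_univ_one]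
  simp [zpart_apply]
  ring

/-- the action -/
noncomputable def rho4 (g : M2K) : M2K →ₗ[F] M2K := LinearMap.mulRight F (ct hK g) ∘ₗ LinearMap.mulLeft F g

theorem rho4_apply (g M : M2K) : rho4 (F := F) hK g M = g * M * ct hK g := rfl

theorem exists_rho4 (hθ : IsNorm hK θ a b) : ∃ f : Matrix.SpecialLinearGroup (Fin 2) K →* OG (minusQ F 1 a b),
    ∀ g v, toH hF hK θ ((f g).1 v) = (g : M2K) * toH hF hK θ v * ct hK (g : M2K) := by
  apply exists_OG_hom' (minusQ F 1 a b) (toH hF hK θ) (toH_injective hF hK hθ) (fun g : Matrix.SpecialLinearGroup (Fin 2) K => rho4 hK (g : M2K))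
  · apply LinearMap.ext
    intro M
    rw [rho4_apply, Matrix.SpecialLinearGroup.coe_one, ct_one, one_mul, mul_one]; rfl
  · intro s t
    apply LinearMap.ext
    intro M
    rw [rho4_apply, LinearMap.comp_apply, rho4_apply, rho4_apply, Matrix.SpecialLinearGroup.coe_mul, ct_mul]
    simp only [mul_assoc]
  · intro s v
    apply exists_toH hF hK hθ
    rw [rho4_apply, ct_mul, ct_mul, ct_ct, ct_toH, mul_assoc]
  · intro s v v' h
    have h1 := congrArg Matrix.det h
    rw [det_toH hF hK hθ, rho4_apply, Matrix.det_mul, Matrix.det_mul, det_ct, s.2, map_one, one_mul, mul_one, det_toH hF hK hθ] at h1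
    exact (algebraMap F K).injective (neg_injective h1)

include hF in
theorem scalar_of_fixH (hθ : IsNorm hK θ a b) {g : M2K} (hg : g.det = 1) (h : ∀ M : M2K, ct hK M = M → g * M * ct hK g = M) :
    ∃ c : K, c * c = 1 ∧ g = c • (1 : M2K) := by
  have hs0 : ∀ x : K, σ x = 0 → x = 0 := fun x hx => (map_eq_zero _).1 hx
  have e : ∀ M : M2K, ∀ i j, (g * M * ct hK g) i j = ∑ k, ∑ l, g i k * M k l * σ (g j l) := by
    intro M i j
    rw [Matrix.mul_apply, Finset.sum_comm]
    apply Finset.sum_congr rfl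
    intro l _
    rw [Matrix.mul_apply, Finset.sum_mul]
    rfl
  have h1 := h !![1, 0; 0, 0] (by ext i j; fin_cases i <;> fin_cases j <;> simp [ct])
  have h2 := h !![0, 0; 0, 1] (by ext i j; fin_cases i <;> fin_cases j <;> simp [ct])
  have h3 := h !![0, 1; 1, 0] (by ext i j; fin_cases i <;> fin_cases j <;> simp [ct])
  have a1 := congrFun (congrFun h1 1) 1
  have a2 := congrFun (congrFun h2 0) 0
  have a3 := congrFun (congrFun h3 0) 1
  have a4 := congrFun (congrFun h1 0) 0
  rw [e] at a1 a2 a3 a4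
  simp [Fin.sum_univ_two] at a1 a2 a3 a4
  rw [a1, a2] at a3
  simp at a3
  have h5 : g 0 0 = g 1 1 := by
    have h6 : σ (g 1 1) = σ (g 0 0) := by
      have h7 : g 0 0 ≠ 0 := fun h0 => by rw [h0, zero_mul] at a4; exact zero_ne_one a4
      exact mul_left_cancel₀ h7 (a3.trans a4.symm)
    exact (σ).injective h6.symm
  refine ⟨g 0 0, ?_, ?_⟩
  · rw [Matrix.det_fin_two, a1, a2, ← h5] at hg
    linear_combination hg
  · ext i j
    fin_cases i <;> fin_cases j <;> simp [a1, a2, h5]

end Four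


theorem com_map {A B : Type*} [Group A] [Group B] (e : A ≃* B) : (commutator A).map e.toMonoidHom = commutator B := by
  rw [commutator_def, commutator_def, Subgroup.map_commutator, ← MonoidHom.range_eq_map, MonoidHom.range_eq_top.2 e.surjective]

include hF hK in
/-- `PΩ_4^-(q) ≅ PSL_2(q²)` for `q ≠ 2` -/
theorem iso4m_ne {a b : F} (hab : ∀ z₁ z₂ : F, z₁ ^ 2 + a * z₁ * z₂ + b * z₂ ^ 2 = 0 → z₁ = 0 ∧ z₂ = 0) (hq2 : q ≠ 2) :
    Nonempty (Cfsg.POmega F (Cfsg.quadFormMinus 1 F a b) ≃* Matrix.ProjectiveSpecialLinearGroup (Fin 2) K) := by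
  have hQ := nd_minusQ (F := F) 1 hab
  obtain ⟨θ, hθ⟩ := exists_isNorm hF hK hab
  obtain ⟨f, hf⟩ := exists_rho4 hF hK hθ
  have hq : 1 < q := by rw [← hF]; exact Fintype.one_lt_card
  have hker : ∀ g : Matrix.SpecialLinearGroup (Fin 2) K, g ∈ f.ker ↔ ∃ c : K, c * c = 1 ∧ (g : Matrix (Fin 2) (Fin 2) K) = c • (1 : Matrix (Fin 2) (Fin 2) K) := by
    intro g
    rw [MonoidHom.mem_ker]
    constructor
    · intro h
      apply scalar_of_fixH hF hK hθ g.2
      intro M hM
      obtain ⟨x, hx⟩ := exists_toH hF hK hθ hM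
      have h1 := hf g x
      rw [h, hx] at h1
      rw [← h1]
      exact hx
    · rintro ⟨c, hc, hg⟩
      have hcc : σ c = c := by
        rcases mul_self_eq_one_iff.1 hc with rfl | rfl
        · exact map_one _
        · rw [map_neg, map_one]
      apply Subtype.ext
      apply LinearEquiv.ext
      intro v
      apply toH_injective hF hK hθ
      rw [hf, hg]
      have h1 : ct hK (c • (1 : Matrix (Fin 2) (Fin 2) K)) = c • 1 := by
        ext i j
        show σ ((c • (1 : Matrix (Fin 2) (Fin 2) K)) j i) = _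
        fin_cases i <;> fin_cases j <;> simp [hcc]
      rw [h1, smul_mul_assoc, one_mul, mul_smul_comm, mul_one, smul_smul, hc, one_smul]
      rfl
  have hK4 : 4 ≤ Fintype.card K := by rw [hK]; nlinarith
  have hperf : commutator (Matrix.SpecialLinearGroup (Fin 2) K) = ⊤ := perfect_SL2 hK4
  have hkc : f.ker ≤ Subgroup.center (Matrix.SpecialLinearGroup (Fin 2) K) := by
    intro g hg
    obtain ⟨c, -, hg⟩ := (hker g).1 hg
    rw [Subgroup.mem_center_iff]
    intro k
    apply Subtype.ext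
    show (k : Matrix (Fin 2) (Fin 2) K) * (g : Matrix (Fin 2) (Fin 2) K) = (g : Matrix (Fin 2) (Fin 2) K) * (k : Matrix (Fin 2) (Fin 2) K)
    rw [hg, smul_mul_assoc, mul_smul_comm, one_mul, mul_one]
  have hneg : ∃ g : Matrix.SpecialLinearGroup (Fin 2) K, (g : Matrix (Fin 2) (Fin 2) K) = (-1 : K) • (1 : Matrix (Fin 2) (Fin 2) K) :=
    ⟨⟨(-1 : K) • (1 : Matrix (Fin 2) (Fin 2) K), by rw [Matrix.det_smul, Matrix.det_one]; simp⟩, rfl⟩
  obtain ⟨hk1, hk2⟩ := card_ker_pm f (fun g : Matrix.SpecialLinearGroup (Fin 2) K => (g : Matrix (Fin 2) (Fin 2) K)) Subtype.val_injective rfl hker hneg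
  have hcard0 := S0288.result (F := F) rfl 2 (by norm_num) a b hab
  have hfr : finrank F ((Fin 1 ⊕ Fin 1) ⊕ Fin 2 → F) = 4 := by rw [Module.finrank_fintype_fun_eq_card]; decide
  have hmul := (Cfsg.Omega F (Cfsg.quadFormMinus 1 F a b)).card_mul_index
  have hcard1 : Nat.card (Cfsg.isometryGroup F (Cfsg.quadFormMinus 1 F a b)) = 2 * Nat.card (Matrix.SpecialLinearGroup (Fin 2) K) := by
    have e1 : Nat.card (Cfsg.isometryGroup F (Cfsg.quadFormMinus 1 F a b)) = _ := hcard0
    rw [e1, show Nat.card (Matrix.SpecialLinearGroup (Fin 2) K) = _ from SL2.card_SL2 (F := K), hK, hF]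
    simp
    ring
  rw [hcard1] at hmul
  rw [← coe_minusQ] at hmul ⊢
  have hal : ((2 : F) = 0 → (2 : K) = 0) ∧ ((2 : F) ≠ 0 → (2 : K) ≠ 0) := by
    constructor
    · intro h; have := congrArg al h; rwa [map_ofNat, map_zero] at this
    · intro h h'
      apply h
      apply (algebraMap F K).injective
      rw [map_ofNat, map_zero, h']
  refine main_iso f (range_le_of_perfect f hperf) ?_ (fun z hz => grun f hkc hperf z hz)
  rcases even_or_odd_cases (F := F) with ⟨h2, hqq⟩ | ⟨h2, hqq⟩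
  · rw [Omega_index_two hQ h2 (by omega) (Or.inl (by rw [Nat.card_eq_fintype_card, hF]; exact hq2))] at hmul
    rw [hk1 (hal.1 h2)]; omega
  · rw [Omega_index_odd hQ h2 (by omega)] at hmul
    rw [hk2 (hal.2 h2)]; omega

end Cfsg.Agent.H5.Exc
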