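import Cfsg.Statements.S0289
import Mathlib
import Cfsg.Agent.H5_QuadC

set_option autoImplicit false
open Cfsg

namespace Cfsg.Agent.S0289

/-- The hyperbolic quadratic form on F^(2m), m at least 1, has q^(2m-1) + q^m - q^(m-1) zeros (that is, (q^m - 1)(q^(m-1) + 1) non-zero isotropic vectors). -/
theorem result {F : Type*} [Field F] [Fintype F] {q : ℕ} (hF : Fintype.card F = q) (m : ℕ) (hm : 1 ≤ m) : Nat.card {v : Fin m ⊕ Fin m → F // Cfsg.quadFormPlus m F v = 0} = q ^ (2 * m - 1) + q ^ m - q ^ (m - 1) := by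
  have h := Cfsg.Agent.H5.QuadC.card_zeros hF m 0 _
    (Cfsg.Agent.H5.QuadC.wittDec_plus (m := m) (F := F))
  have e : Nat.card {v : Fin m ⊕ Fin m → F // Cfsg.quadFormPlus m F v = 0} =
      (Cfsg.Agent.H5.Frm.ofQuad (Cfsg.Agent.H5.QuadC.qPlus m F)).N0 :=
    Nat.card_congr (Equiv.subtypeEquivRight (fun v => by
      rw [Cfsg.Agent.H5.Quad.ofQuad_Q, Cfsg.Agent.H5.QuadC.qPlus_apply]))
  rw [e, h]
  have hq : 0 < q := by rw [← hF]; exact Fintype.card_pos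
  obtain ⟨k, rfl⟩ : ∃ k, m = k + 1 := ⟨m - 1, by omega⟩
  obtain ⟨x, hx⟩ := Cfsg.Agent.H5.QuadC.pow_pred_eq hq k
  have e1 : k + 1 + 0 - 1 = k := rfl
  have e2 : 2 * (k + 1) - 1 = k + (k + 1) := by omega
  have e3 : k + 1 - 1 = k := rfl
  obtain ⟨y, rfl⟩ : ∃ y, q = y + 1 := ⟨q - 1, by omega⟩
  have p1 : (y + 1) ^ (k + 1) = (x + 1) * (y + 1) := by rw [pow_succ, hx]
  have p2 : (y + 1) ^ (k + (k + 1)) = (x + 1) * ((x + 1) * (y + 1)) := by rw [pow_add, p1, hx]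
  rw [e1, e2, p2, p1, hx]
  have e4 : (x + 1) * (y + 1) - 1 = x * y + x + y := by
    have : (x + 1) * (y + 1) = x * y + x + y + 1 := by ring
    omega
  rw [e4]
  have e5 : (x + 1) * ((x + 1) * (y + 1)) + (x + 1) * (y + 1) =
      (1 + (x * y + x + y) * (1 + (x + 1))) + (x + 1) := by ring
  rw [e5, Nat.add_sub_cancel]

end Cfsg.Agent.S0289
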