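import Mathlib
import Cfsg.Agent.H5_ExcM
import Cfsg.Agent.H5_USim
import Cfsg.Agent.S0285
import Cfsg.Agent.S0289
import Cfsg.Agent.S0278

set_option autoImplicit false
set_option linter.unusedSectionVars false

/-! `PΩ_6^-(q) ≅ PSU_4(q)`. -/

namespace Cfsg.Agent.H5.Exc

open Matrix Module
open QuadraticMap (polar)
open Cfsg.Agent.H16.Quad hiding map_smul map_add map_sub

section Star

variable {K : Type*} [Field K]

local notation "M4K" => Matrix (Fin 4) (Fin 4) K

/-- Hodge star -/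
def star4 (A : M4K) : M4K := !![0, A 2 3, - A 1 3, A 1 2; - A 2 3, 0, A 0 3, - A 0 2; A 1 3, - A 0 3, 0, A 0 1; - A 1 2, A 0 2, - A 0 1, 0]

theorem alt_star4 (A : M4K) : Alt (star4 A) := by
  constructor
  · intro i; fin_cases i <;> simp [star4]
  · intro i j; fin_cases i <;> fin_cases j <;> simp [star4]

theorem alt_ext {A B : M4K} (hA : Alt A) (hB : Alt B) (h01 : A 0 1 = B 0 1) (h02 : A 0 2 = B 0 2) (h03 : A 0 3 = B 0 3)
    (h12 : A 1 2 = B 1 2) (h13 : A 1 3 = B 1 3) (h23 : A 2 3 = B 2 3) : A = B := by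
  ext i j
  fin_cases i <;> fin_cases j
  · exact (hA.1 0).trans (hB.1 0).symm
  · exact h01
  · exact h02
  · exact h03
  · show A 1 0 = B 1 0
    rw [hA.2, hB.2, h01]
  · exact (hA.1 1).trans (hB.1 1).symm
  · exact h12
  · exact h13
  · show A 2 0 = B 2 0
    rw [hA.2, hB.2, h02]
  · show A 2 1 = B 2 1
    rw [hA.2, hB.2, h12]
  · exact (hA.1 2).trans (hB.1 2).symm
  · exact h23
  · show A 3 0 = B 3 0
    rw [hA.2, hB.2, h03]
  · show A 3 1 = B 3 1
    rw [hA.2, hB.2, h13]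
  · show A 3 2 = B 3 2
    rw [hA.2, hB.2, h23]
  · exact (hA.1 3).trans (hB.1 3).symm

theorem alt_conj' (g M : M4K) (h : Alt M) : Alt (gᵀ * M * g) := by
  have := alt_conj gᵀ M h
  rwa [Matrix.transpose_transpose] at this

theorem alt_smul (c : K) {M : M4K} (h : Alt M) : Alt (c • M) := by
  constructor
  · intro i; rw [Matrix.smul_apply, h.1, smul_zero]
  · intro i j; rw [Matrix.smul_apply, Matrix.smul_apply, h.2 i j, smul_neg]

theorem alt_add' {M N : M4K} (h : Alt M) (h' : Alt N) : Alt (M + N) := by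
  constructor
  · intro i; rw [Matrix.add_apply, h.1, h'.1, add_zero]
  · intro i j; rw [Matrix.add_apply, Matrix.add_apply, h.2, h'.2]; ring

set_option maxHeartbeats 4000000 in
theorem star4_conj (g A : M4K) (h : Alt A) : gᵀ * star4 (g * A * gᵀ) * g = g.det • star4 A := by
  have e : ∀ i j, (g * A * gᵀ) i j = ∑ k, ∑ l, g i k * A k l * g j l := by
    intro i j
    rw [Matrix.mul_apply, Finset.sum_comm]
    apply Finset.sum_congr rfl
    intro l _
    rw [Matrix.mul_apply, Finset.sum_mul]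
    rfl
  have e' : ∀ B : M4K, ∀ i j, (gᵀ * B * g) i j = ∑ k, ∑ l, g k i * B k l * g l j := by
    intro B i j
    rw [Matrix.mul_apply, Finset.sum_comm]
    apply Finset.sum_congr rfl
    intro l _
    rw [Matrix.mul_apply, Finset.sum_mul]
    rfl
  have h1 := h.1
  have h10 := h.2 1 0
  have h20 := h.2 2 0
  have h30 := h.2 3 0
  have h21 := h.2 2 1
  have h31 := h.2 3 1
  have h32 := h.2 3 2
  have hd : g.det = g 0 0 * (g 1 1 * (g 2 2 * g 3 3 - g 2 3 * g 3 2) - g 1 2 * (g 2 1 * g 3 3 - g 2 3 * g 3 1) + g 1 3 * (g 2 1 * g 3 2 - g 2 2 * g 3 1))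
     - g 0 1 * (g 1 0 * (g 2 2 * g 3 3 - g 2 3 * g 3 2) - g 1 2 * (g 2 0 * g 3 3 - g 2 3 * g 3 0) + g 1 3 * (g 2 0 * g 3 2 - g 2 2 * g 3 0))
     + g 0 2 * (g 1 0 * (g 2 1 * g 3 3 - g 2 3 * g 3 1) - g 1 1 * (g 2 0 * g 3 3 - g 2 3 * g 3 0) + g 1 3 * (g 2 0 * g 3 1 - g 2 1 * g 3 0))
     - g 0 3 * (g 1 0 * (g 2 1 * g 3 2 - g 2 2 * g 3 1) - g 1 1 * (g 2 0 * g 3 2 - g 2 2 * g 3 0) + g 1 2 * (g 2 0 * g 3 1 - g 2 1 * g 3 0)) := by
    simp only [Matrix.det_succ_row_zero, Fin.sum_univ_succ]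
    simp [Matrix.submatrix, Fin.succAbove]
    ring
  have hs : star4 (g * A * gᵀ) = !![0, (g * A * gᵀ) 2 3, - (g * A * gᵀ) 1 3, (g * A * gᵀ) 1 2; - (g * A * gᵀ) 2 3, 0, (g * A * gᵀ) 0 3, - (g * A * gᵀ) 0 2; (g * A * gᵀ) 1 3, - (g * A * gᵀ) 0 3, 0, (g * A * gᵀ) 0 1; - (g * A * gᵀ) 1 2, (g * A * gᵀ) 0 2, - (g * A * gᵀ) 0 1, 0] := rfl
  have hgen : ∀ i j, (gᵀ * star4 (g * A * gᵀ) * g) i j =
      (g 0 i * g 1 j - g 1 i * g 0 j) * (g * A * gᵀ) 2 3 - (g 0 i * g 2 j - g 2 i * g 0 j) * (g * A * gᵀ) 1 3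
      + (g 0 i * g 3 j - g 3 i * g 0 j) * (g * A * gᵀ) 1 2 + (g 1 i * g 2 j - g 2 i * g 1 j) * (g * A * gᵀ) 0 3
      - (g 1 i * g 3 j - g 3 i * g 1 j) * (g * A * gᵀ) 0 2 + (g 2 i * g 3 j - g 3 i * g 2 j) * (g * A * gᵀ) 0 1 := by
    intro i j
    rw [hs, e']
    simp [Fin.sum_univ_four]
    ring
  have hent : ∀ i j, i ≠ j → (g * A * gᵀ) i j = (g i 0 * g j 1 - g i 1 * g j 0) * A 0 1 + (g i 0 * g j 2 - g i 2 * g j 0) * A 0 2
      + (g i 0 * g j 3 - g i 3 * g j 0) * A 0 3 + (g i 1 * g j 2 - g i 2 * g j 1) * A 1 2 + (g i 1 * g j 3 - g i 3 * g j 1) * A 1 3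
      + (g i 2 * g j 3 - g i 3 * g j 2) * A 2 3 := by
    intro i j _
    rw [e]
    simp only [Fin.sum_univ_four, h1, h10, h20, h30, h21, h31, h32]
    ring
  apply alt_ext (alt_conj' g _ (alt_star4 _)) (alt_smul _ (alt_star4 _))
  · rw [hgen, hent _ _ (by decide), hent _ _ (by decide), hent _ _ (by decide), hent _ _ (by decide), hent _ _ (by decide), hent _ _ (by decide),
      Matrix.smul_apply, hd, smul_eq_mul, show star4 A 0 1 = A 2 3 from rfl]
    ring
  · rw [hgen, hent _ _ (by decide), hent _ _ (by decide), hent _ _ (by decide), hent _ _ (by decide), hent _ _ (by decide), hent _ _ (by decide),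
      Matrix.smul_apply, hd, smul_eq_mul, show star4 A 0 2 = - A 1 3 from rfl]
    ring
  · rw [hgen, hent _ _ (by decide), hent _ _ (by decide), hent _ _ (by decide), hent _ _ (by decide), hent _ _ (by decide), hent _ _ (by decide),
      Matrix.smul_apply, hd, smul_eq_mul, show star4 A 0 3 = A 1 2 from rfl]
    ring
  · rw [hgen, hent _ _ (by decide), hent _ _ (by decide), hent _ _ (by decide), hent _ _ (by decide), hent _ _ (by decide), hent _ _ (by decide),
      Matrix.smul_apply, hd, smul_eq_mul, show star4 A 1 2 = A 0 3 from rfl]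
    ring
  · rw [hgen, hent _ _ (by decide), hent _ _ (by decide), hent _ _ (by decide), hent _ _ (by decide), hent _ _ (by decide), hent _ _ (by decide),
      Matrix.smul_apply, hd, smul_eq_mul, show star4 A 1 3 = - A 0 2 from rfl]
    ring
  · rw [hgen, hent _ _ (by decide), hent _ _ (by decide), hent _ _ (by decide), hent _ _ (by decide), hent _ _ (by decide), hent _ _ (by decide),
      Matrix.smul_apply, hd, smul_eq_mul, show star4 A 2 3 = A 0 1 from rfl]
    ring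

end Star


section Unitary

variable {F K : Type*} [Field F] [Fintype F] [Field K] [Fintype K] [Algebra F K] {q : ℕ} (hF : Fintype.card F = q)
  (hK : Fintype.card K = q ^ 2)

local notation "σ" => Fld.frob hK
local notation "al" => algebraMap F K
local notation "M4K" => Matrix (Fin 4) (Fin 4) K
local notation "K3" => (Fin 3 → K)
local notation "SUq" => Cfsg.SU 4 K q

/-- real alternating matrices -/
noncomputable def toR : K3 →ₗ[F] M4K where
  toFun z := !![0, z 0, z 1, z 2; - z 0, 0, sigL hF hK (z 2), - sigL hF hK (z 1);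
    - z 1, - sigL hF hK (z 2), 0, sigL hF hK (z 0); - z 2, sigL hF hK (z 1), - sigL hF hK (z 0), 0]
  map_add' x y := by ext i j; fin_cases i <;> fin_cases j <;> simp <;> ring
  map_smul' c x := by ext i j; fin_cases i <;> fin_cases j <;> simp

theorem alt_toR (z : K3) : Alt (toR hF hK z) := by
  constructor
  · intro i; fin_cases i <;> simp [toR]
  · intro i j; fin_cases i <;> fin_cases j <;> simp [toR]

theorem star_toR (z : K3) : star4 (toR hF hK z) = (toR hF hK z).map σ := by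
  have hs : ∀ x, σ (sigL hF hK x) = x := fun x => sig_sig hK x
  have hs' : ∀ x, sigL hF hK x = σ x := fun x => rfl
  ext i j; fin_cases i <;> fin_cases j <;> simp [toR, star4, hs] <;> simp [hs']

theorem pf_toR (z : K3) : pf (toR hF hK z) = ∑ j, z j * σ (z j) := by
  simp only [pf, toR, Fin.sum_univ_three, ← sigL_apply hF hK]
  simp

theorem exists_toR {M : M4K} (hA : Alt M) (hs : star4 M = M.map σ) : ∃ z, toR hF hK z = M := by
  have h01 : M 2 3 = σ (M 0 1) := congrFun (congrFun hs 0) 1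
  have h02 : - M 1 3 = σ (M 0 2) := congrFun (congrFun hs 0) 2
  have h03 : M 1 2 = σ (M 0 3) := congrFun (congrFun hs 0) 3
  refine ⟨![M 0 1, M 0 2, M 0 3], alt_ext (alt_toR hF hK _) hA rfl rfl rfl ?_ ?_ ?_⟩
  · exact h03.symm
  · show - σ (M 0 2) = M 1 3
    rw [← h02, neg_neg]
  · exact h01.symm

theorem toR_injective : Function.Injective (toR (F := F) hF hK) := by
  intro x y h
  ext i
  fin_cases i
  · exact congrFun (congrFun h 0) 1
  · exact congrFun (congrFun h 0) 2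
  · exact congrFun (congrFun h 0) 3

omit [Fintype F] [Field F] [Algebra F K] in
theorem SU_mat (n : ℕ) (g : Cfsg.SU n K q) : (Unit.mat g)ᵀ * (Unit.mat g).map σ = 1 :=
  (Unit.mem_GU_iff hK n (Matrix.SpecialLinearGroup.toGL g.1)).1 g.2

omit [Fintype F] [Field F] [Algebra F K] in
theorem real_conj (g : SUq) {A : M4K} (hA : Alt A) (hs : star4 A = A.map σ) :
    star4 (Unit.mat g * A * (Unit.mat g)ᵀ) = (Unit.mat g * A * (Unit.mat g)ᵀ).map σ := by
  obtain ⟨G, hG⟩ : ∃ G, G = Unit.mat g := ⟨_, rfl⟩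
  have h1 := SU_mat hK 4 g
  have hd : G.det = 1 := by rw [hG]; exact g.1.2
  rw [← hG] at h1 ⊢
  have h2 : G.map σ * Gᵀ = 1 := _root_.mul_eq_one_comm.1 h1
  have h3 : G * (G.map σ)ᵀ = 1 := by
    have := congrArg Matrix.transpose h2
    rwa [Matrix.transpose_mul, Matrix.transpose_transpose, Matrix.transpose_one] at this
  have h4 := star4_conj G A hA
  rw [hd, one_smul] at h4
  calc star4 (G * A * Gᵀ) = (G.map σ * Gᵀ) * star4 (G * A * Gᵀ) * (G * (G.map σ)ᵀ) := by rw [h2, h3, one_mul, mul_one]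
    _ = G.map σ * (Gᵀ * star4 (G * A * Gᵀ) * G) * (G.map σ)ᵀ := by simp only [mul_assoc]
    _ = G.map σ * A.map σ * (G.map σ)ᵀ := by rw [h4, hs]
    _ = _ := by
      rw [Matrix.map_mul, Matrix.map_mul, Matrix.transpose_map]

theorem exists_Q3 {θ : K} {a b : F} (hθ : IsNorm hK θ a b) : ∃ Q : QuadraticForm F K3, ∀ z, al (Q z) = ∑ j, z j * σ (z j) := by
  let e : (Fin 2 → F) ≃ₗ[F] K := LinearEquiv.ofBijective (phi θ) hθ.2
  let q2 : QuadraticForm F (Fin 2 → F) := QuadraticMap.linMulLin (LinearMap.proj 0) (LinearMap.proj 0)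
      + a • QuadraticMap.linMulLin (LinearMap.proj 0) (LinearMap.proj 1)
      + b • QuadraticMap.linMulLin (LinearMap.proj 1) (LinearMap.proj 1)
  let N : QuadraticForm F K := q2.comp e.symm.toLinearMap
  have hN : ∀ x, al (N x) = x * σ x := by
    intro x
    have h1 := hθ.1 (e.symm x)
    have h2 : phi θ (e.symm x) = x := e.apply_symm_apply x
    rw [h2] at h1
    rw [h1]
    show al (q2 (e.symm x)) = _
    congr 1
    simp [q2, QuadraticMap.linMulLin_apply]
    ring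
  refine ⟨∑ j, N.comp (LinearMap.proj j), ?_⟩
  intro z
  rw [QuadraticMap.sum_apply, map_sum]
  apply Finset.sum_congr rfl
  intro j _
  exact hN (z j)


theorem polar_Q3 {Q : QuadraticForm F K3} (hQ : ∀ z, al (Q z) = ∑ j, z j * σ (z j)) (z w : K3) :
    al (polar Q z w) = ∑ j, (z j * σ (w j) + w j * σ (z j)) := by
  rw [polar, map_sub, map_sub, hQ, hQ, hQ, ← Finset.sum_sub_distrib, ← Finset.sum_sub_distrib]
  apply Finset.sum_congr rfl
  intro j _
  rw [Pi.add_apply, map_add]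
  ring

theorem nd_Q3 {Q : QuadraticForm F K3} (hQ : ∀ z, al (Q z) = ∑ j, z j * σ (z j)) : (QuadraticMap.polarBilin Q).Nondegenerate := by
  apply nd_of
  intro x hx
  by_contra hne
  obtain ⟨j, hj⟩ : ∃ j, x j ≠ 0 := by
    by_contra hcon
    push Not at hcon
    exact hne (funext hcon)
  obtain ⟨t, ht⟩ := USim.exists_tr_ne hK
  apply ht
  have h1 := polar_Q3 hK hQ x (Pi.single j (σ (t / x j)))
  rw [hx, map_zero, Finset.sum_eq_single j] at h1
  · rw [Pi.single_eq_same, sig_sig, mul_div_cancel₀ _ hj, ← map_mul, div_mul_cancel₀ _ hj, Fld.frob_apply] at h1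
    exact h1.symm
  · intro i _ hij
    rw [Pi.single_eq_of_ne hij, map_zero, mul_zero, zero_mul, add_zero]
  · intro h; exact absurd (Finset.mem_univ _) h

include hF hK in
theorem finrank_K : finrank F K = 2 := by
  have hq : 1 < q := by rw [← hF]; exact Fintype.one_lt_card
  have h1 := Module.card_eq_pow_finrank (K := F) (V := K)
  rw [hF, hK] at h1
  exact (Nat.pow_right_injective hq h1).symm

include hF hK in
theorem finrank_K3 : finrank F K3 = 6 := by
  rw [Module.finrank_pi_fintype]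
  simp [finrank_K hF hK]

include hF in
theorem isMinus_Q3 {Q : QuadraticForm F K3} (hQ : ∀ z, al (Q z) = ∑ j, z j * σ (z j)) : IsMinus Q 2 := by
  have hq : 1 < q := by rw [← hF]; exact Fintype.one_lt_card
  rcases plus_or_minus (nd_Q3 hK hQ) (m := 2) (by rw [finrank_K3 hF hK]) with h | h
  · exfalso
    obtain ⟨φ, hφ⟩ := IsPlus.isom h (plusQ_isPlus (F := F) 3)
    have c1 := S0289.result (F := F) hF 3 (by norm_num)
    have c2 := S0285.result (F := K) hK 3
    have hiff : ∀ z : K3, Cfsg.hermForm 3 K q z z = 0 ↔ Cfsg.quadFormPlus 3 F (φ z) = 0 := by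
      intro z
      rw [← plusQ_apply, hφ, ← (map_eq_zero_iff (algebraMap F K) (algebraMap F K).injective), hQ, Cfsg.hermForm]
      simp only [Fld.frob_apply]
    have c3 : Nat.card {v : K3 // Cfsg.hermForm 3 K q v v = 0} = Nat.card {v : Fin 3 ⊕ Fin 3 → F // Cfsg.quadFormPlus 3 F v = 0} :=
      Nat.card_congr (φ.toEquiv.subtypeEquiv hiff)
    rw [c1, c2, if_neg (by decide)] at c3
    norm_num at c3
    zify [Nat.one_le_pow 2 q (by omega), Nat.pow_le_pow_right (show 0 < q by omega) (show 2 ≤ 3 by norm_num),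
      (Nat.pow_le_pow_right (show 0 < q by omega) (show 2 ≤ 5 by norm_num)).trans (Nat.le_add_right _ (q ^ 3))] at c3
    have hq' : (1 : ℤ) < q := by exact_mod_cast hq
    have h5 : (q : ℤ) ^ 2 * (q - 1) = 0 := by linarith [c3, show ((q : ℤ) ^ 3 + 1) * (q ^ 2 - 1) + 1 - (q ^ 5 + q ^ 3 - q ^ 2) = -2 * (q ^ 2 * (q - 1)) by ring]
    rcases mul_eq_zero.1 h5 with h6 | h6
    · have : (q : ℤ) = 0 := by simpa using h6
      omega
    · omega
  · exact h

include hF in
/-- the representation on `minusQ` coordinates -/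
theorem exists_rep6 {a b : F} (hab : ∀ z₁ z₂ : F, z₁ ^ 2 + a * z₁ * z₂ + b * z₂ ^ 2 = 0 → z₁ = 0 ∧ z₂ = 0) :
    ∃ (T : ((Fin 2 ⊕ Fin 2) ⊕ Fin 2 → F) →ₗ[F] M4K) (f : SUq →* OG (minusQ F 2 a b)), Function.Injective T ∧
      (∀ M : M4K, Alt M → star4 M = M.map σ → ∃ x, T x = M) ∧
      ∀ g x, T ((f g).1 x) = Unit.mat g * T x * (Unit.mat g)ᵀ := by
  obtain ⟨θ, hθ⟩ := exists_isNorm hF hK hab
  obtain ⟨Q, hQ⟩ := exists_Q3 hK hθ
  obtain ⟨φ, hφ⟩ := IsMinus.isom (nd_Q3 hK hQ) (nd_minusQ 2 hab) (isMinus_Q3 hF hK hQ) (minusQ_isMinus 2 hab)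
  have hT : Function.Injective (toR hF hK ∘ₗ φ.symm.toLinearMap) := (toR_injective hF hK).comp φ.symm.injective
  have hT' : ∀ M : M4K, Alt M → star4 M = M.map σ → ∃ x, (toR hF hK ∘ₗ φ.symm.toLinearMap) x = M := by
    intro M h1 h2
    obtain ⟨z, hz⟩ := exists_toR hF hK h1 h2
    refine ⟨φ z, ?_⟩
    show toR hF hK (φ.symm (φ z)) = M
    rw [φ.symm_apply_apply, hz]
  have hpf : ∀ x, pf ((toR hF hK ∘ₗ φ.symm.toLinearMap) x) = al (minusQ F 2 a b x) := by
    intro x
    show pf (toR hF hK (φ.symm x)) = _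
    rw [pf_toR, ← hQ, ← hφ, φ.apply_symm_apply]
  obtain ⟨f, hf⟩ := exists_OG_hom' (minusQ F 2 a b) (toR hF hK ∘ₗ φ.symm.toLinearMap) hT
    (fun g : SUq => LinearMap.mulRight F (Unit.mat g)ᵀ ∘ₗ LinearMap.mulLeft F (Unit.mat g))
    (by
      apply LinearMap.ext
      intro M
      show (1 : M4K) * M * (1 : M4K)ᵀ = M
      rw [one_mul, Matrix.transpose_one, mul_one])
    (by
      intro s t
      apply LinearMap.ext
      intro M
      show (Unit.mat s * Unit.mat t) * M * (Unit.mat s * Unit.mat t)ᵀ = Unit.mat s * (Unit.mat t * M * (Unit.mat t)ᵀ) * (Unit.mat s)ᵀ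
      rw [Matrix.transpose_mul]
      simp only [mul_assoc])
    (by
      intro s v
      exact hT' _ (alt_conj _ _ (alt_toR hF hK _)) (real_conj hK s (alt_toR hF hK _) (star_toR hF hK _)))
    (by
      intro s v v' h
      have h1 := congrArg pf h
      rw [hpf] at h1
      have h2 := pf_conj (Unit.mat s) ((toR hF hK ∘ₗ φ.symm.toLinearMap) v) (alt_toR hF hK _)
      rw [show (Unit.mat s).det = 1 from s.1.2, one_mul, hpf] at h2
      exact (algebraMap F K).injective (h1.trans h2))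
  exact ⟨_, f, hT, hT', hf⟩


theorem exists_lam : ∃ l : K, l - σ l ≠ 0 := by
  by_contra hcon
  push Not at hcon
  apply Fld.frob_ne_id hK
  ext x
  exact (sub_eq_zero.1 (hcon x)).symm

include hF in
theorem decomp {M : M4K} (hM : Alt M) {l : K} (hl : l - σ l ≠ 0) : ∃ z w : K3, toR hF hK z + l • toR hF hK w = M := by
  have hl' : σ l - l ≠ 0 := fun h => hl (by linear_combination -h)
  have hs : ∀ x : K, σ (σ x) = x := sig_sig hK
  refine ⟨![M 0 1 - l * ((M 0 1 - σ (M 2 3)) / (l - σ l)), M 0 2 - l * ((M 0 2 + σ (M 1 3)) / (l - σ l)),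
    M 0 3 - l * ((M 0 3 - σ (M 1 2)) / (l - σ l))],
    ![(M 0 1 - σ (M 2 3)) / (l - σ l), (M 0 2 + σ (M 1 3)) / (l - σ l), (M 0 3 - σ (M 1 2)) / (l - σ l)], ?_⟩
  apply alt_ext (alt_add' (alt_toR hF hK _) (alt_smul _ (alt_toR hF hK _))) hM
  · show M 0 1 - l * ((M 0 1 - σ (M 2 3)) / (l - σ l)) + l * ((M 0 1 - σ (M 2 3)) / (l - σ l)) = M 0 1
    ring
  · show M 0 2 - l * ((M 0 2 + σ (M 1 3)) / (l - σ l)) + l * ((M 0 2 + σ (M 1 3)) / (l - σ l)) = M 0 2
    ring
  · show M 0 3 - l * ((M 0 3 - σ (M 1 2)) / (l - σ l)) + l * ((M 0 3 - σ (M 1 2)) / (l - σ l)) = M 0 3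
    ring
  · show σ (M 0 3 - l * ((M 0 3 - σ (M 1 2)) / (l - σ l))) + l * σ ((M 0 3 - σ (M 1 2)) / (l - σ l)) = M 1 2
    simp only [map_sub, map_mul, map_div₀, hs]
    field_simp
    ring
  · show - σ (M 0 2 - l * ((M 0 2 + σ (M 1 3)) / (l - σ l))) + l * (- σ ((M 0 2 + σ (M 1 3)) / (l - σ l))) = M 1 3
    simp only [map_sub, map_add, map_mul, map_div₀, hs]
    field_simp
    ring
  · show σ (M 0 1 - l * ((M 0 1 - σ (M 2 3)) / (l - σ l))) + l * σ ((M 0 1 - σ (M 2 3)) / (l - σ l)) = M 2 3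
    simp only [map_sub, map_mul, map_div₀, hs]
    field_simp
    ring

include hF in
theorem scalar_of_fixR {G : M4K} (h : ∀ M : M4K, Alt M → star4 M = M.map σ → G * M * Gᵀ = M) :
    ∃ c : K, c * c = 1 ∧ G = c • (1 : M4K) := by
  obtain ⟨l, hl⟩ := exists_lam hK
  apply scalar_of_fix6
  intro v
  obtain ⟨z, w, hzw⟩ := decomp hF hK (alt_toM6 v) hl
  rw [ad6_apply, ← hzw, mul_add, add_mul, mul_smul_comm, smul_mul_assoc, h _ (alt_toR hF hK _) (star_toR hF hK _),
    h _ (alt_toR hF hK _) (star_toR hF hK _), hzw, ofM6_toM6]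

theorem mat_eq_of_mulVec {n : ℕ} {A : Matrix (Fin n) (Fin n) K} {c : K} (h : ∀ x, A *ᵥ x = c • x) : A = c • (1 : Matrix (Fin n) (Fin n) K) := by
  ext i j
  have h1 := congrFun (h (Pi.single j 1)) i
  rw [Matrix.mulVec_single_one] at h1
  show A i j = _
  have h2 : A i j = (c • (Pi.single j (1 : K) : Fin n → K)) i := h1
  rw [h2, Pi.smul_apply, Matrix.smul_apply, Matrix.one_apply, Pi.single_apply]

include hK in
theorem exists_neg_SU : ∃ g : Cfsg.SU 4 K q, Unit.mat g = (-1 : K) • (1 : M4K) := by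
  obtain ⟨g, hg⟩ := USim.exists_SU (q := q) ((-1 : K) • (1 : M4K)) (by rw [Matrix.det_smul, Matrix.det_one]; simp; norm_num)
    (f := fun x => (-1 : K) • x) (fun x => by rw [Matrix.smul_mulVec, Matrix.one_mulVec])
    (fun x z => by
      rw [Unit.herm_smul_left, Unit.herm_smul_right, USim.pneg hK, one_pow]; ring)
  exact ⟨g, mat_eq_of_mulVec hg⟩

include hF hK in
/-- `PΩ_6^-(q) ≅ PSU_4(q)` -/
theorem iso6m {a b : F} (hab : ∀ z₁ z₂ : F, z₁ ^ 2 + a * z₁ * z₂ + b * z₂ ^ 2 = 0 → z₁ = 0 ∧ z₂ = 0) :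
    Nonempty (Cfsg.POmega F (Cfsg.quadFormMinus 2 F a b) ≃* Cfsg.PSU 4 K q) := by
  have hQ := nd_minusQ (F := F) 2 hab
  obtain ⟨T, f, hT, hT', hf⟩ := exists_rep6 hF hK hab
  have hq : 1 < q := by rw [← hF]; exact Fintype.one_lt_card
  have hker : ∀ g : SUq, g ∈ f.ker ↔ ∃ c : K, c * c = 1 ∧ Unit.mat g = c • (1 : M4K) := by
    intro g
    rw [MonoidHom.mem_ker]
    constructor
    · intro h
      apply scalar_of_fixR hF hK
      intro M hM hM'
      obtain ⟨x, hx⟩ := hT' M hM hM'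
      have h1 := hf g x
      rw [h, hx] at h1
      rw [← h1]
      exact hx
    · rintro ⟨c, hc, hg⟩
      apply Subtype.ext
      apply LinearEquiv.ext
      intro v
      apply hT
      rw [hf, hg, Matrix.transpose_smul, Matrix.transpose_one, smul_mul_assoc, one_mul, mul_smul_comm, mul_one, smul_smul, hc, one_smul]
      rfl
  have hperf : commutator SUq = ⊤ := USim.perfect hK (by norm_num) (by omega)
  have hkc : f.ker ≤ Subgroup.center SUq := by
    intro g hg
    obtain ⟨c, -, hg⟩ := (hker g).1 hg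
    rw [Subgroup.mem_center_iff]
    intro k
    apply Subtype.ext
    apply Subtype.ext
    show Unit.mat k * Unit.mat g = Unit.mat g * Unit.mat k
    rw [hg, smul_mul_assoc, mul_smul_comm, one_mul, mul_one]
  obtain ⟨hk1, hk2⟩ := card_ker_pm f (fun g : SUq => Unit.mat g) (fun x y h => Subtype.ext (Subtype.ext h)) rfl hker (exists_neg_SU hK)
  have hcard0 := S0288.result (F := F) rfl 3 (by norm_num) a b hab
  have hfr : finrank F ((Fin 2 ⊕ Fin 2) ⊕ Fin 2 → F) = 6 := by rw [Module.finrank_fintype_fun_eq_card]; decide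
  have hmul := (Cfsg.Omega F (Cfsg.quadFormMinus 2 F a b)).card_mul_index
  have hcard1 : Nat.card (Cfsg.isometryGroup F (Cfsg.quadFormMinus 2 F a b)) = 2 * Nat.card SUq := by
    have e1 : Nat.card (Cfsg.isometryGroup F (Cfsg.quadFormMinus 2 F a b)) = _ := hcard0
    have e2 := S0278.result (F := K) hK 4 (by norm_num)
    rw [e1, hF]
    apply Nat.eq_of_mul_eq_mul_left (show 0 < q + 1 by omega)
    rw [← mul_assoc (q + 1) 2 (Nat.card SUq), mul_comm (q + 1) 2, mul_assoc 2 (q + 1) (Nat.card SUq), e2]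
    simp [Finset.prod_range_succ]
    have hc0 : Even (0 : ℕ) := by decide
    have hc1 : ¬ Even (1 : ℕ) := by decide
    have hc2 : Even (2 : ℕ) := by decide
    have hc3 : ¬ Even (3 : ℕ) := by decide
    simp only [hc0, hc1, hc2, hc3, if_true, if_false]
    ring
  rw [hcard1] at hmul
  rw [← coe_minusQ] at hmul ⊢
  have hal : ((2 : F) = 0 → (2 : K) = 0) ∧ ((2 : F) ≠ 0 → (2 : K) ≠ 0) := by
    constructor
    · intro h; have := congrArg al h; rwa [map_ofNat, map_zero] at this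
    · intro h h'
      apply h
      apply (algebraMap F K).injective
      rw [map_ofNat, map_zero, h']
  have hfin : Finite SUq := inferInstance
  refine main_iso f (range_le_of_perfect f hperf) ?_ (fun z hz => grun f hkc hperf z hz)
  rcases even_or_odd_cases (F := F) with ⟨h2, hqq⟩ | ⟨h2, hqq⟩
  · rw [Omega_index_two hQ h2 (by omega) (Or.inr (by omega))] at hmul
    rw [hk1 (hal.1 h2)]; omega
  · rw [Omega_index_odd hQ h2 (by omega)] at hmul
    rw [hk2 (hal.2 h2)]; omega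

end Unitary

end Cfsg.Agent.H5.Exc
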