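import Mathlib
import Cfsg.Agent.H5_Exc5
import Cfsg.Agent.H5_Exc6m

set_option autoImplicit false
set_option linter.unusedSectionVars false

/-! The reflections of `E_6` modulo 2 and 3: `PΩ_6^-(2) ≅ PΩ_5(3)`. -/

namespace Cfsg.Agent.H5.E6

open Module
open QuadraticMap (polar)
open Cfsg.Agent.H16.Quad hiding map_smul map_add map_sub

abbrev V3 := ZMod 3 × ZMod 3 × ZMod 3 × ZMod 3 × ZMod 3
abbrev V2 := ZMod 2 × ZMod 2 × ZMod 2 × ZMod 2 × ZMod 2 × ZMod 2

def q3 : V3 → ZMod 3 := fun ⟨a, b, c, d, e⟩ => a * a + b * b + c * c + d * d + e * e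
def dot : V3 → V3 → ZMod 3 := fun ⟨a, b, c, d, e⟩ ⟨a', b', c', d', e'⟩ => a * a' + b * b' + c * c' + d * d' + e * e'
def nz (x : ZMod 3) : ZMod 2 := if x = 0 then 0 else 1
def bb (x y : ZMod 3) : ZMod 2 := if x = y then 1 else 0
/-- roots modulo 3 to roots modulo 2 -/
def rho : V3 → V2 := fun ⟨a, b, c, d, e⟩ =>
  if a * b * c * d * e = 0 then (nz a, nz b, nz c, nz d, nz (a + b + c + d + e), 0)
  else (bb a (-(a * b * c * d * e)), bb b (-(a * b * c * d * e)), bb c (-(a * b * c * d * e)), bb d (-(a * b * c * d * e)),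
    bb (a * b * c * d * e * (a + b + c + d + e)) 1, 1)
def q2 : V2 → ZMod 2 := fun ⟨a, b, c, d, t, u⟩ =>
  a * a + b * b + c * c + d * d + (a * b + a * c + a * d + b * c + b * d + c * d) + u * t + u * u
def b2 : V2 → V2 → ZMod 2 := fun ⟨a, b, c, d, t, u⟩ ⟨a', b', c', d', t', u'⟩ =>
  (a * b' + b * a') + (a * c' + c * a') + (a * d' + d * a') + (b * c' + c * b') + (b * d' + d * b') + (c * d' + d * c') + (u * t' + t * u')

def L : List V3 := [(0, 0, 0, 1, 1), (0, 0, 0, 1, 2), (0, 0, 1, 0, 1), (0, 0, 1, 0, 2), (0, 0, 1, 1, 0), (0, 0, 1, 2, 0), (0, 1, 0, 0, 1), (0, 1, 0, 0, 2), (0, 1, 0, 1, 0), (0, 1, 0, 2, 0), (0, 1, 1, 0, 0), (0, 1, 2, 0, 0), (1, 0, 0, 0, 1), (1, 0, 0, 0, 2), (1, 0, 0, 1, 0), (1, 0, 0, 2, 0), (1, 0, 1, 0, 0), (1, 0, 2, 0, 0), (1, 1, 0, 0, 0), (1, 1, 1, 1, 1), (1, 1, 1, 1, 2), (1, 1, 1, 2, 1), (1, 1, 1, 2, 2), (1, 1, 2, 1, 1), (1, 1, 2, 1, 2), (1, 1, 2, 2, 1), (1, 1, 2, 2, 2), (1, 2, 0, 0, 0), (1, 2, 1, 1, 1), (1, 2, 1, 1,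 2), (1, 2, 1, 2, 1), (1, 2, 1, 2, 2), (1, 2, 2, 1, 1), (1, 2, 2, 1, 2), (1, 2, 2, 2, 1), (1, 2, 2, 2, 2)]

def chk : Bool := L.all (fun y => L.all (fun z => decide (rho (z - dot z y • y) = rho z + b2 (rho z) (rho y) • rho y)))
theorem hchk : chk = true := by decide +kernel
theorem hL : ∀ y : V3, q3 y = 2 → y ∈ L ∨ -y ∈ L := by decide +kernel
theorem hL' : ∀ y ∈ L, q3 y = 2 := by decide +kernel
theorem rho_neg : ∀ y : V3, rho (-y) = rho y := by decide +kernel
def chk4 : Bool := L.all (fun y => L.all (fun z => decide (rho y = rho z → y = z)))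
theorem hchk4 : chk4 = true := by decide +kernel
def V2l : List V2 := do
  let a ← [0,1]; let b ← [0,1]; let c ← [0,1]; let d ← [0,1]; let t ← [0,1]; let u ← [0,1]
  return (a,b,c,d,t,u)
def chk3 : Bool := V2l.all (fun v => L.any (fun y => L.any (fun z => decide (v = rho y + rho z))))
theorem hchk3 : chk3 = true := by decide +kernel
theorem hV2l : ∀ v : V2, v ∈ V2l := by decide +kernel
theorem c2 : ∀ y : V3, q3 y = 2 → q2 (rho y) = 1 := by decide +kernel
theorem c6 : ∀ y : V3, q3 y = 1 → ∃ w : V3, q3 w = 1 ∧ w.1 = 0 ∧ dot w y = 0 := by decide +kernel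

theorem dot_neg_left (y z : V3) : dot (-y) z = - dot y z := by
  obtain ⟨a, b, c, d, e⟩ := y
  obtain ⟨a', b', c', d', e'⟩ := z
  simp [dot]; ring

theorem dot_neg_right (y z : V3) : dot y (-z) = - dot y z := by
  obtain ⟨a, b, c, d, e⟩ := y
  obtain ⟨a', b', c', d', e'⟩ := z
  simp [dot]; ring

theorem c1 {y z : V3} (hy : q3 y = 2) (hz : q3 z = 2) : rho (z - dot z y • y) = rho z + b2 (rho z) (rho y) • rho y := by
  have key : ∀ y ∈ L, ∀ z ∈ L, rho (z - dot z y • y) = rho z + b2 (rho z) (rho y) • rho y := by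
    have h := hchk
    rw [chk, List.all_eq_true] at h
    intro y hy z hz
    have h1 := h y hy
    rw [List.all_eq_true] at h1
    exact of_decide_eq_true (h1 z hz)
  rcases hL y hy with h1 | h1 <;> rcases hL z hz with h2 | h2
  · exact key y h1 z h2
  · have := key y h1 (-z) h2
    rw [rho_neg, dot_neg_left, neg_smul, show -z - -(dot z y • y) = -(z - dot z y • y) by abel, rho_neg] at this
    exact this
  · have := key (-y) h1 z h2
    rw [rho_neg, dot_neg_right, smul_neg, neg_smul, neg_neg] at this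
    exact this
  · have := key (-y) h1 (-z) h2
    rw [rho_neg, rho_neg, dot_neg_right, dot_neg_left, neg_neg, smul_neg, show -z - -(dot z y • y) = -(z - dot z y • y) by abel, rho_neg] at this
    exact this

theorem c4 {y z : V3} (hy : q3 y = 2) (hz : q3 z = 2) (h : rho y = rho z) : z = y ∨ z = -y := by
  have key : ∀ y ∈ L, ∀ z ∈ L, rho y = rho z → y = z := by
    have h := hchk4
    rw [chk4, List.all_eq_true] at h
    intro y hy z hz
    have h1 := h y hy
    rw [List.all_eq_true] at h1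
    exact of_decide_eq_true (h1 z hz)
  rcases hL y hy with h1 | h1 <;> rcases hL z hz with h2 | h2
  · left; exact (key y h1 z h2 h).symm
  · right
    have := key y h1 (-z) h2 (by rw [rho_neg, h])
    rw [this, neg_neg]
  · right
    exact (key (-y) h1 z h2 (by rw [rho_neg, h])).symm
  · left
    have := key (-y) h1 (-z) h2 (by rw [rho_neg, rho_neg, h])
    exact (neg_injective this).symm

theorem c3 (v : V2) : ∃ y z : V3, q3 y = 2 ∧ q3 z = 2 ∧ v = rho y + rho z := by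
  have h := hchk3
  rw [chk3, List.all_eq_true] at h
  have h1 := h v (hV2l v)
  rw [List.any_eq_true] at h1
  obtain ⟨y, hy, h1⟩ := h1
  rw [List.any_eq_true] at h1
  obtain ⟨z, hz, h1⟩ := h1
  exact ⟨y, z, hL' y hy, hL' z hz, of_decide_eq_true h1⟩


/-! ### The forms -/

section Forms

/-- explicit isometry mod 3 -/
def T3 : (Unit ⊕ (Fin 2 ⊕ Fin 2) → ZMod 3) →ₗ[ZMod 3] V3 where
  toFun x := (x (.inr (.inl 1)) + x (.inr (.inr 1)), x (.inr (.inl 0)) + x (.inr (.inr 0)),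
    x (.inr (.inl 0)) + 2 * x (.inr (.inr 0)) + x (.inr (.inl 1)) + 2 * x (.inr (.inr 1)),
    x (.inr (.inl 0)) + 2 * x (.inr (.inr 0)) + 2 * x (.inr (.inl 1)) + x (.inr (.inr 1)), x (.inl ()))
  map_add' x y := by ext <;> simp <;> ring
  map_smul' c x := by ext <;> simp <;> ring

/-- explicit isometry mod 2 -/
def T2 : ((Fin 2 ⊕ Fin 2) ⊕ Fin 2 → ZMod 2) →ₗ[ZMod 2] V2 where
  toFun x := (x (.inl (.inr 1)), x (.inl (.inl 1)), x (.inl (.inl 1)) + x (.inl (.inr 1)) + x (.inr 1),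
    x (.inl (.inl 1)) + x (.inl (.inr 1)) + x (.inr 0), x (.inl (.inl 0)) + x (.inl (.inr 0)), x (.inl (.inr 0)))
  map_add' x y := by ext <;> simp <;> ring
  map_smul' c x := by ext <;> simp <;> ring

theorem hab2 : ∀ z₁ z₂ : ZMod 2, z₁ ^ 2 + 1 * z₁ * z₂ + 1 * z₂ ^ 2 = 0 → z₁ = 0 ∧ z₂ = 0 := by decide

theorem T3_q (x : Unit ⊕ (Fin 2 ⊕ Fin 2) → ZMod 3) : q3 (T3 x) = oddQ (ZMod 3) 2 x := by
  have key : ∀ a b c d e : ZMod 3, q3 (d + e, b + c, b + 2 * c + d + 2 * e, b + 2 * c + 2 * d + e, a) = a ^ 2 + (b * c + d * e) := by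
    decide +kernel
  rw [oddQ_apply, Cfsg.quadFormOdd, Fin.sum_univ_two]
  exact key _ _ _ _ _

theorem T2_q (x : (Fin 2 ⊕ Fin 2) ⊕ Fin 2 → ZMod 2) : q2 (T2 x) = minusQ (ZMod 2) 2 1 1 x := by
  have key : ∀ a b c d s t : ZMod 2, q2 (d, c, c + d + t, c + d + s, a + b, b) = (a * b + c * d) + (s ^ 2 + 1 * s * t + 1 * t ^ 2) := by
    decide +kernel
  rw [minusQ_apply, Cfsg.quadFormMinus, Fin.sum_univ_two]
  exact key _ _ _ _ _ _

theorem T3_inj : Function.Injective T3 := by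
  rw [injective_iff_map_eq_zero]
  intro x hx
  have key : ∀ a b c d e : ZMod 3, (d + e, b + c, b + 2 * c + d + 2 * e, b + 2 * c + 2 * d + e, a) = (0 : V3) → (a, b, c, d, e) = (0 : V3) := by
    decide +kernel
  have h := key _ _ _ _ _ hx
  simp only [Prod.mk_eq_zero] at h
  obtain ⟨h1, h2, h3, h4, h5⟩ := h
  ext (i | i | i)
  · exact h1
  · fin_cases i
    · exact h2
    · exact h4
  · fin_cases i
    · exact h3
    · exact h5

theorem T2_inj : Function.Injective T2 := by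
  rw [injective_iff_map_eq_zero]
  intro x hx
  have key : ∀ a b c d s t : ZMod 2, (d, c, c + d + t, c + d + s, a + b, b) = (0 : V2) → a = 0 ∧ b = 0 ∧ c = 0 ∧ d = 0 ∧ s = 0 ∧ t = 0 := by
    intro a b c d s t h
    simp only [Prod.mk_eq_zero] at h
    obtain ⟨rfl, rfl, h3, h4, h5, rfl⟩ := h
    simp at h3 h4 h5
    exact ⟨h5, rfl, rfl, rfl, h4, h3⟩
  obtain ⟨h1, h2, h3, h4, h5, h6⟩ := key _ _ _ _ _ _ hx
  ext ((i | i) | i)
  · fin_cases i
    · exact h1
    · exact h3
  · fin_cases i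
    · exact h2
    · exact h4
  · fin_cases i
    · exact h5
    · exact h6

theorem fr3 : finrank (ZMod 3) V3 = 5 := by simp

theorem fr2 : finrank (ZMod 2) V2 = 6 := by simp

noncomputable def E3 : (Unit ⊕ (Fin 2 ⊕ Fin 2) → ZMod 3) ≃ₗ[ZMod 3] V3 :=
  LinearEquiv.ofBijective T3 ⟨T3_inj, (LinearMap.injective_iff_surjective_of_finrank_eq_finrank (by
    rw [fr3, Module.finrank_fintype_fun_eq_card]; decide)).1 T3_inj⟩

noncomputable def E2 : ((Fin 2 ⊕ Fin 2) ⊕ Fin 2 → ZMod 2) ≃ₗ[ZMod 2] V2 :=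
  LinearEquiv.ofBijective T2 ⟨T2_inj, (LinearMap.injective_iff_surjective_of_finrank_eq_finrank (by
    rw [fr2, Module.finrank_fintype_fun_eq_card]; decide)).1 T2_inj⟩

noncomputable def Q3 : QuadraticForm (ZMod 3) V3 := (oddQ (ZMod 3) 2).comp E3.symm.toLinearMap
noncomputable def Q2 : QuadraticForm (ZMod 2) V2 := (minusQ (ZMod 2) 2 1 1).comp E2.symm.toLinearMap

theorem Q3_E3 (x : Unit ⊕ (Fin 2 ⊕ Fin 2) → ZMod 3) : Q3 (E3 x) = oddQ (ZMod 3) 2 x := by
  show oddQ (ZMod 3) 2 (E3.symm (E3 x)) = _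
  rw [E3.symm_apply_apply]

theorem Q2_E2 (x : (Fin 2 ⊕ Fin 2) ⊕ Fin 2 → ZMod 2) : Q2 (E2 x) = minusQ (ZMod 2) 2 1 1 x := by
  show minusQ (ZMod 2) 2 1 1 (E2.symm (E2 x)) = _
  rw [E2.symm_apply_apply]

theorem Q3_apply (v : V3) : Q3 v = q3 v := by
  show oddQ (ZMod 3) 2 (E3.symm v) = _
  rw [← T3_q]
  exact congrArg q3 (E3.apply_symm_apply v)

theorem Q2_apply (v : V2) : Q2 v = q2 v := by
  show minusQ (ZMod 2) 2 1 1 (E2.symm v) = _
  rw [← T2_q]
  exact congrArg q2 (E2.apply_symm_apply v)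

theorem two_ne : (2 : ZMod 3) ≠ 0 := by decide

theorem nd3 : (QuadraticMap.polarBilin Q3).Nondegenerate := nd_of_isom Q3_E3 (nd_oddQ two_ne 2)

theorem nd2 : (QuadraticMap.polarBilin Q2).Nondegenerate := nd_of_isom Q2_E2 (nd_minusQ 2 hab2)

theorem polar_Q3 (v w : V3) : polar Q3 v w = 2 * dot v w := by
  rw [polar, Q3_apply, Q3_apply, Q3_apply]
  obtain ⟨a, b, c, d, e⟩ := v
  obtain ⟨a', b', c', d', e'⟩ := w
  simp [q3, dot]
  ring

theorem polar_Q2 (v w : V2) : polar Q2 v w = b2 v w := by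
  rw [polar, Q2_apply, Q2_apply, Q2_apply]
  obtain ⟨a, b, c, d, t, u⟩ := v
  obtain ⟨a', b', c', d', t', u'⟩ := w
  have h2 : (2 : ZMod 2) = 0 := rfl
  simp [q2, b2]
  linear_combination (a * a' + b * b' + c * c' + d * d' + u * u') * h2

theorem refl3 {y : V3} (hy : q3 y = 2) (z : V3) : refl Q3 y z = z - dot z y • y := by
  rw [refl_apply, Q3_apply, hy, polar_Q3, ← mul_assoc]
  have : (2 : ZMod 3)⁻¹ * 2 = 1 := inv_mul_cancel₀ two_ne
  rw [this, one_mul]

theorem refl2 {y : V2} (hy : q2 y = 1) (z : V2) : refl Q2 y z = z + b2 z y • y := by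
  rw [refl_apply, Q2_apply, hy, polar_Q2, inv_one, one_mul, sub_eq_add_neg, ← neg_smul]
  congr 2
  exact ZMod.neg_eq_self_mod_two _

end Forms


/-! ### The group homomorphism -/

section Grp

/-- compatibility -/
def Comp (b : OG Q3) (a : OG Q2) : Prop := ∀ y : V3, q3 y = 2 → rho (b.1 y) = a.1 (rho y)

theorem q3_og (b : OG Q3) (y : V3) : q3 (b.1 y) = q3 y := by
  rw [← Q3_apply, ← Q3_apply]; exact b.2 y

theorem Comp.mul {b b' : OG Q3} {a a' : OG Q2} (h : Comp b a) (h' : Comp b' a') : Comp (b * b') (a * a') := by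
  intro y hy
  show rho (b.1 (b'.1 y)) = a.1 (a'.1 (rho y))
  rw [h _ (by rw [q3_og, hy]), h' y hy]

theorem Comp.one : Comp 1 1 := fun _ _ => rfl

theorem Comp.inv {b : OG Q3} {a : OG Q2} (h : Comp b a) : Comp b⁻¹ a⁻¹ := by
  intro y hy
  have h1 := h (b⁻¹.1 y) (by rw [q3_og, hy])
  have h2 : b.1 ((b⁻¹).1 y) = y := LinearEquiv.apply_symm_apply b.1 y
  rw [h2] at h1
  rw [h1]
  exact (LinearEquiv.symm_apply_apply a.1 _).symm

theorem Comp.unique {b : OG Q3} {a a' : OG Q2} (h : Comp b a) (h' : Comp b a') : a = a' := by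
  apply Subtype.ext
  apply LinearEquiv.ext
  intro v
  obtain ⟨y, z, hy, hz, rfl⟩ := c3 v
  rw [map_add, map_add, ← h y hy, ← h z hz, ← h' y hy, ← h' z hz]

theorem comp_rf {y : V3} (hy : q3 y = 2) : Comp (rf Q3 y) (rf Q2 (rho y)) := by
  intro z hz
  show rho (refl Q3 y z) = refl Q2 (rho y) (rho z)
  rw [refl3 hy, refl2 (c2 y hy), c1 hy hz]

/-- compatible elements -/
noncomputable def BB : Subgroup (OG Q3) where
  carrier := {b | ∃ a, Comp b a}
  mul_mem' := by rintro b b' ⟨a, h⟩ ⟨a', h'⟩; exact ⟨a * a', h.mul h'⟩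
  one_mem' := ⟨1, Comp.one⟩
  inv_mem' := by rintro b ⟨a, h⟩; exact ⟨a⁻¹, h.inv⟩

theorem exists_Psi : ∃ f : BB →* OG Q2, ∀ b : BB, Comp b.1 (f b) := by
  choose φ hφ using fun b : BB => b.2
  refine ⟨MonoidHom.mk' φ (fun b b' => ?_), hφ⟩
  exact (hφ (b * b')).unique ((hφ b).mul (hφ b'))

/-- the set of reflections -/
def RS : Set (OG Q3) := {g | ∃ y : V3, q3 y = 2 ∧ g = rf Q3 y}

/-- the normal subgroup generated by the reflections -/
noncomputable def B0 : Subgroup (OG Q3) := Subgroup.closure RS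

theorem RS_conj (g : OG Q3) {r : OG Q3} (hr : r ∈ RS) : g * r * g⁻¹ ∈ RS := by
  obtain ⟨y, hy, rfl⟩ := hr
  exact ⟨g.1 y, by rw [q3_og, hy], rf_conj g y⟩

instance : B0.Normal := by
  constructor
  intro n hn g
  induction hn using Subgroup.closure_induction with
  | mem x hx => exact Subgroup.subset_closure (RS_conj g hx)
  | one => simp
  | mul x y _ _ hx hy =>
    have : g * (x * y) * g⁻¹ = (g * x * g⁻¹) * (g * y * g⁻¹) := by group
    rw [this]; exact Subgroup.mul_mem _ hx hy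
  | inv x _ hx =>
    have : g * x⁻¹ * g⁻¹ = (g * x * g⁻¹)⁻¹ := by group
    rw [this]; exact Subgroup.inv_mem _ hx

theorem rf_mem_B0 {y : V3} (hy : q3 y = 2) : rf Q3 y ∈ B0 := Subgroup.subset_closure ⟨y, hy, rfl⟩

theorem B0_le : B0 ≤ BB := by
  rw [B0, Subgroup.closure_le]
  rintro _ ⟨y, hy, rfl⟩
  exact ⟨_, comp_rf hy⟩

/-- orthogonal vectors of norm 1 -/
theorem orth_one {z w : V3} (hz : q3 z = 1) (hw : q3 w = 1) (h : dot w z = 0) : rf Q3 w * rf Q3 z ∈ B0 := by
  have h1 : q3 (z - w) = 2 := by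
    have e1 : Q3 (z - w) = Q3 z + Q3 w - polar Q3 z w := H16.Quad.map_sub Q3 z w
    have e2 : dot z w = dot w z := by
      obtain ⟨a, b, c, d, e⟩ := z
      obtain ⟨a', b', c', d', e'⟩ := w
      simp [dot]; ring
    rw [Q3_apply, Q3_apply, Q3_apply, polar_Q3, hz, hw, e2, h] at e1
    rw [e1]; rfl
  have h2 : refl Q3 (z - w) z = w := refl_swap (by rw [Q3_apply, Q3_apply, hz, hw]) (by rw [Q3_apply, h1]; exact two_ne)
  have h3 : rf Q3 w = rf Q3 (z - w) * rf Q3 z * (rf Q3 (z - w))⁻¹ := by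
    rw [rf_conj]
    show rf Q3 w = rf Q3 (refl Q3 (z - w) z)
    rw [h2]
  have h4 : rf Q3 w * rf Q3 z = rf Q3 (z - w) * (rf Q3 z * (rf Q3 (z - w))⁻¹ * (rf Q3 z)⁻¹) := by
    have : (rf Q3 z)⁻¹ = rf Q3 z := inv_eq_of_mul_eq_one_left (rf_sq z)
    rw [h3, this]; group
  rw [h4]
  exact B0.mul_mem (rf_mem_B0 h1) ((inferInstance : B0.Normal).conj_mem _ (B0.inv_mem (rf_mem_B0 h1)) _)

/-- the vector e_1 -/
def e1 : V3 := (1, 0, 0, 0, 0)

theorem q3_e1 : q3 e1 = 1 := by decide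

theorem one_mem {z : V3} (hz : q3 z = 1) : rf Q3 z * rf Q3 e1 ∈ B0 := by
  obtain ⟨w, hw, hw1, hwz⟩ := c6 z hz
  have h1 : dot w e1 = 0 := by
    obtain ⟨a, b, c, d, e⟩ := w
    simp only at hw1
    subst hw1
    simp [dot, e1]
  have h2 := orth_one q3_e1 hw h1
  have h3 := orth_one hz hw hwz
  have h4 : rf Q3 z * rf Q3 e1 = (rf Q3 w * rf Q3 z)⁻¹ * (rf Q3 w * rf Q3 e1) := by
    rw [mul_inv_rev, inv_eq_of_mul_eq_one_left (rf_sq z)]; group
  rw [h4]
  exact B0.mul_mem (B0.inv_mem h3) h2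

theorem cases3 (g : OG Q3) : g ∈ B0 ∨ g * rf Q3 e1 ∈ B0 := by
  obtain ⟨vs, hvs, hg⟩ := isProd_of_mem nd3 (Or.inl (by simp)) g.2
  have key : ∀ (vs : List V3), (∀ v ∈ vs, Q3 v ≠ 0) → ∀ g : OG Q3, g.1 = rprod Q3 vs → g ∈ B0 ∨ g * rf Q3 e1 ∈ B0 := by
    intro vs
    induction vs with
    | nil =>
      intro _ g hg
      left
      have : g = 1 := Subtype.ext hg
      rw [this]; exact B0.one_mem
    | cons v vs ih =>
      intro h g hg
      obtain ⟨g', hg'⟩ : ∃ g' : OG Q3, g'.1 = rprod Q3 vs := ⟨⟨rprod Q3 vs, rprod_mem vs⟩, rfl⟩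
      have hgg : g = rf Q3 v * g' := by
        apply Subtype.ext
        rw [hg, rprod_cons, ← hg']; rfl
      have h1 := ih (fun w hw => h w (List.mem_cons_of_mem _ hw)) g' hg'
      have h2 : q3 v ≠ 0 := by rw [← Q3_apply]; exact h v (List.mem_cons_self)
      have h3 : q3 v = 1 ∨ q3 v = 2 := by
        have : ∀ x : ZMod 3, x ≠ 0 → x = 1 ∨ x = 2 := by decide
        exact this _ h2
      have hs : rf Q3 e1 * rf Q3 e1 = 1 := rf_sq e1
      rw [hgg]
      rcases h3 with h3 | h3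
      · have h4 := one_mem h3
        rcases h1 with h1 | h1
        · right
          have : rf Q3 v * g' * rf Q3 e1 = (rf Q3 v * rf Q3 e1) * ((rf Q3 e1) * g' * (rf Q3 e1)⁻¹) := by
            rw [inv_eq_of_mul_eq_one_left hs]
            calc _ = rf Q3 v * 1 * g' * rf Q3 e1 := by group
              _ = _ := by rw [← hs]; group
          rw [this]
          exact B0.mul_mem h4 ((inferInstance : B0.Normal).conj_mem _ h1 _)
        · left
          have : rf Q3 v * g' = (rf Q3 v * rf Q3 e1) * ((rf Q3 e1) * (g' * rf Q3 e1) * (rf Q3 e1)⁻¹) := by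
            rw [inv_eq_of_mul_eq_one_left hs]
            calc _ = rf Q3 v * 1 * g' * 1 := by group
              _ = _ := by rw [← hs]; group
          rw [this]
          exact B0.mul_mem h4 ((inferInstance : B0.Normal).conj_mem _ h1 _)
      · have h4 := rf_mem_B0 h3
        rcases h1 with h1 | h1
        · left; exact B0.mul_mem h4 h1
        · right
          rw [mul_assoc]
          exact B0.mul_mem h4 h1
  exact key vs hvs g hg

theorem comm_le : commutator (OG Q3) ≤ B0 := by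
  rw [← Subgroup.Normal.quotient_commutative_iff_commutator_le]
  have hs : rf Q3 e1 * rf Q3 e1 = 1 := rf_sq e1
  have key : ∀ x : OG Q3 ⧸ B0, x = 1 ∨ x = (rf Q3 e1 : OG Q3) := by
    intro x
    obtain ⟨g, rfl⟩ := QuotientGroup.mk_surjective x
    rcases cases3 g with h | h
    · left; exact (QuotientGroup.eq_one_iff g).2 h
    · right
      rw [QuotientGroup.eq]
      have h1 : g⁻¹ * rf Q3 e1 = (rf Q3 e1)⁻¹ * (g * rf Q3 e1)⁻¹ * (rf Q3 e1)⁻¹⁻¹ := by
        rw [inv_eq_of_mul_eq_one_left hs, inv_eq_of_mul_eq_one_left hs, mul_inv_rev, inv_eq_of_mul_eq_one_left hs]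
        calc g⁻¹ * rf Q3 e1 = 1 * g⁻¹ * rf Q3 e1 := by group
          _ = _ := by rw [← hs]; group
      rw [h1]
      exact (inferInstance : B0.Normal).conj_mem _ (B0.inv_mem h) _
  constructor
  constructor
  intro x y
  rcases key x with rfl | rfl <;> rcases key y with rfl | rfl <;> simp

end Grp


section Fin

theorem perfect_of {G : Type*} [Group G] {H : Subgroup G} (h : ⁅H, H⁆ = H) : commutator ↥H = ⊤ := by
  have h1 : (commutator ↥H).map H.subtype = ⁅H, H⁆ := by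
    rw [commutator_def, Subgroup.map_commutator, ← MonoidHom.range_eq_map, Subgroup.range_subtype]
  rw [h] at h1
  apply Subgroup.map_injective H.subtype_injective
  rw [h1, ← MonoidHom.range_eq_map, Subgroup.range_subtype]

theorem iso_of_card {S T : Type*} [Group S] [Group T] [Finite S] [Finite T] (h : S →* T) (hk : h.ker ≤ Subgroup.center S)
    (hc : Nat.card (S ⧸ Subgroup.center S) = Nat.card T) : Nonempty (S ⧸ Subgroup.center S ≃* T) := by
  have h1 : h.ker.index ≤ Nat.card T := by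
    rw [Subgroup.index_ker]; exact Subgroup.card_le_card_group _
  have h2 : (Subgroup.center S).index ≤ h.ker.index := Subgroup.index_antitone hk
  have h3 : h.ker.index = Nat.card T := le_antisymm h1 (by rw [← hc]; exact h2)
  have hsurj : Function.Surjective h := by
    rw [← MonoidHom.range_eq_top]
    apply Subgroup.eq_top_of_card_eq
    rw [← Subgroup.index_ker, h3]
  have hker : h.ker = Subgroup.center S := by
    apply Subgroup.eq_of_le_of_card_ge hk
    have e1 := h.ker.card_mul_index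
    have e2 := (Subgroup.center S).card_mul_index
    have e3 : (Subgroup.center S).index = Nat.card T := hc
    rw [h3] at e1
    rw [e3] at e2
    exact (Nat.eq_of_mul_eq_mul_right Nat.card_pos (e1.trans e2.symm)).ge
  exact ⟨(QuotientGroup.quotientMulEquivOfEq hker.symm).trans (QuotientGroup.quotientKerEquivOfSurjective h hsurj)⟩

/-- transport of isometry groups -/
def ogCongr {F V V' : Type*} [Field F] [AddCommGroup V] [Module F V] [AddCommGroup V'] [Module F V'] {Q : QuadraticForm F V}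
    {Q' : QuadraticForm F V'} (e : V ≃ₗ[F] V') (h : ∀ v, Q' (e v) = Q v) : OG Q ≃* OG Q' where
  toFun g := ⟨(e.symm.trans g.1).trans e, fun v => by
    show Q' (e (g.1 (e.symm v))) = Q' v
    rw [h, g.2, ← h, e.apply_symm_apply]⟩
  invFun g := ⟨(e.trans g.1).trans e.symm, fun v => by
    show Q (e.symm (g.1 (e v))) = Q v
    rw [← h, e.apply_symm_apply, g.2, h]⟩
  left_inv g := by
    apply Subtype.ext; apply LinearEquiv.ext; intro v
    show e.symm (e (g.1 (e.symm (e v)))) = g.1 v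
    rw [e.symm_apply_apply, e.symm_apply_apply]
  right_inv g := by
    apply Subtype.ext; apply LinearEquiv.ext; intro v
    show e (e.symm (g.1 (e (e.symm v)))) = g.1 v
    rw [e.apply_symm_apply, e.apply_symm_apply]
  map_mul' g g' := by
    apply Subtype.ext; apply LinearEquiv.ext; intro v
    show e (g.1 (g'.1 (e.symm v))) = e (g.1 (e.symm (e (g'.1 (e.symm v)))))
    rw [e.symm_apply_apply]

theorem finite_OG {F V : Type*} [Field F] [Finite F] [AddCommGroup V] [Module F V] [FiniteDimensional F V] (Q : QuadraticForm F V) :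
    Finite (OG Q) := by
  have : Finite V := Module.finite_of_finite F
  have : Finite (V ≃ₗ[F] V) := Finite.of_injective (fun g => (g : V → V)) (fun a b h => LinearEquiv.ext (fun v => congrFun h v))
  infer_instance

/-- the commutator subgroups -/
noncomputable def comE {A B : Type*} [Group A] [Group B] (e : A ≃* B) : ↥(commutator A) ≃* ↥(commutator B) :=
  (e.subgroupMap _).trans (MulEquiv.subgroupCongr (Exc.com_map e))

theorem abs_iso {G H : Type*} [Group G] [Group H] [Finite G] [Finite H] {BB B0 : Subgroup G} {R : Set G} (hB0 : B0 = Subgroup.closure R)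
    (hle : B0 ≤ BB) (hcomm : commutator G ≤ B0) (hperf : ⁅commutator G, commutator G⁆ = commutator G) (f : BB →* H)
    (hk : ∀ x : BB, f x = 1 → ∀ r ∈ R, x.1 * r = r * x.1)
    (hc : Nat.card (↥(commutator G) ⧸ Subgroup.center ↥(commutator G)) = Nat.card ↥(commutator H)) :
    Nonempty (↥(commutator G) ⧸ Subgroup.center ↥(commutator G) ≃* ↥(commutator H)) := by
  have hle' : commutator G ≤ BB := hcomm.trans hle
  let g : ↥(commutator G) →* H := f.comp (Subgroup.inclusion hle')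
  have hr := Exc.range_le_of_perfect g (perfect_of hperf)
  let h : ↥(commutator G) →* ↥(commutator H) := g.codRestrict _ (fun x => hr ⟨x, rfl⟩)
  apply iso_of_card h _ hc
  intro x hx
  have hx1 : g x = 1 := congrArg Subtype.val (MonoidHom.mem_ker.1 hx)
  have hx4 : ∀ b ∈ B0, x.1 * b = b * x.1 := by
    intro b hb
    have : B0 ≤ Subgroup.centralizer {x.1} := by
      rw [hB0, Subgroup.closure_le]
      intro r hr
      rw [SetLike.mem_coe, Subgroup.mem_centralizer_singleton_iff]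
      exact (hk ⟨x.1, hle' x.2⟩ hx1 r hr).symm
    exact (Subgroup.mem_centralizer_singleton_iff.1 (this hb)).symm
  rw [Subgroup.mem_center_iff]
  intro b
  apply Subtype.ext
  exact (hx4 b.1 (hcomm b.2)).symm

theorem comm_of_comp {x : OG Q3} (h : Comp x 1) (r : OG Q3) (hr : r ∈ RS) : x * r = r * x := by
  obtain ⟨y, hy, rfl⟩ := hr
  have h1 : x * rf Q3 y * x⁻¹ = rf Q3 y := by
    rw [rf_conj]
    rcases c4 hy (by rw [q3_og, hy]) (h y hy).symm with h | h
    · rw [h]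
    · rw [h, ← neg_one_smul (ZMod 3) y]
      exact rf_smul (neg_ne_zero.2 one_ne_zero)
  exact mul_inv_eq_iff_eq_mul.1 h1

theorem main_iso' (hc : Nat.card (↥(commutator (OG Q3)) ⧸ Subgroup.center ↥(commutator (OG Q3))) = Nat.card ↥(commutator (OG Q2))) :
    Nonempty (↥(commutator (OG Q3)) ⧸ Subgroup.center ↥(commutator (OG Q3)) ≃* ↥(commutator (OG Q2))) := by
  obtain ⟨f, hf⟩ := exists_Psi
  have i1 : Finite (OG Q3) := finite_OG Q3
  have i2 : Finite (OG Q2) := finite_OG Q2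
  refine abs_iso (R := RS) rfl B0_le comm_le (commutator_perfect nd3 (by rw [fr3])) f ?_ hc
  intro x hx r hr
  have h1 := hf x
  rw [hx] at h1
  exact comm_of_comp h1 r hr

end Fin

end Cfsg.Agent.H5.E6
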