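import Mathlib
import Cfsg.Prelude.Def_GeometricClasses
import Cfsg.Agent.H21_GLo2

set_option autoImplicit false

/-! field subalgebras of matrix algebras: conjugacy, determinants, elements with large eigenspaces -/

namespace Cfsg.Agent.H5.Fld

open Matrix Module Cfsg.Geo Polynomial

section abs
variable {F L V V₁ V₂ : Type*} [Field F] [Field L] [Algebra F L] [AddCommGroup V] [Module F V]
  [AddCommGroup V₁] [Module F V₁] [AddCommGroup V₂] [Module F V₂]

theorem dvd_of_stable (ρ : L →ₐ[F] Module.End F V) (W : Submodule F V)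
    (hW : ∀ l, ∀ w ∈ W, ρ l w ∈ W) : finrank F L ∣ finrank F W := by
  let σ : L →+* Module.End F W :=
    { toFun := fun l => (ρ l).restrict (hW l)
      map_one' := by ext w; simp [LinearMap.restrict_apply]
      map_mul' := by intro a b; ext w; simp [LinearMap.restrict_apply]
      map_zero' := by ext w; simp [LinearMap.restrict_apply]
      map_add' := by intro a b; ext w; simp [LinearMap.restrict_apply] }
  letI : Module L W := Module.compHom W σ
  haveI : IsScalarTower F L W := ⟨fun a b w => by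
    apply Subtype.ext
    show (ρ (a • b)) w = a • (ρ b) w
    rw [map_smul]; rfl⟩
  exact ⟨_, (Module.finrank_mul_finrank F L W).symm⟩

theorem exists_equiv [FiniteDimensional F L] [FiniteDimensional F V₁] [FiniteDimensional F V₂]
    (ρ₁ : L →ₐ[F] Module.End F V₁) (ρ₂ : L →ₐ[F] Module.End F V₂) (h : finrank F V₁ = finrank F V₂) :
    ∃ P : V₁ ≃ₗ[F] V₂, ∀ l v, P (ρ₁ l v) = ρ₂ l (P v) := by
  letI : Module L V₁ := Module.compHom V₁ ρ₁.toRingHom
  letI : Module L V₂ := Module.compHom V₂ ρ₂.toRingHom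
  haveI : IsScalarTower F L V₁ := ⟨fun a b w => by
    show (ρ₁ (a • b)) w = a • (ρ₁ b) w
    rw [map_smul]; rfl⟩
  haveI : IsScalarTower F L V₂ := ⟨fun a b w => by
    show (ρ₂ (a • b)) w = a • (ρ₂ b) w
    rw [map_smul]; rfl⟩
  haveI : Module.Finite L V₁ := Module.Finite.of_restrictScalars_finite F L V₁
  haveI : Module.Finite L V₂ := Module.Finite.of_restrictScalars_finite F L V₂
  have h1 := Module.finrank_mul_finrank F L V₁
  have h2 := Module.finrank_mul_finrank F L V₂
  have h3 : finrank L V₁ = finrank L V₂ := by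
    rw [h, ← h2] at h1
    exact Nat.eq_of_mul_eq_mul_left (Module.finrank_pos) h1
  let P := LinearEquiv.ofFinrankEq V₁ V₂ h3
  exact ⟨P.restrictScalars F, fun l v => P.map_smul l v⟩

/-- determinants of maps commuting with a field -/
theorem exists_det [Finite L] [FiniteDimensional F V] (ρ : L →ₐ[F] Module.End F V) (hV : 0 < finrank F V)
    (d : F) (hd : d ≠ 0) : ∃ P : V ≃ₗ[F] V, (∀ l v, P (ρ l v) = ρ l (P v)) ∧ LinearMap.det (P : V →ₗ[F] V) = d := by
  classical
  haveI : Finite F := Finite.of_injective _ (algebraMap F L).injective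
  haveI : FiniteDimensional F L := inferInstance
  have h0 : finrank F L ∣ finrank F V := by
    have := dvd_of_stable ρ ⊤ (fun _ _ _ => Submodule.mem_top)
    rwa [finrank_top] at this
  obtain ⟨m, hm⟩ := h0
  have hm0 : 0 < m := by
    rcases Nat.eq_zero_or_pos m with h | h
    · rw [h, mul_zero] at hm; omega
    · exact h
  obtain ⟨κ, hκ⟩ := FiniteField.norm_surjective F L d
  have hκ0 : κ ≠ 0 := by rintro rfl; rw [Algebra.norm_zero] at hκ; exact hd hκ.symm
  let ρ₂ : L →ₐ[F] Module.End F (Fin m → L) := Algebra.lsmul F F (Fin m → L)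
  obtain ⟨P, hP⟩ := exists_equiv ρ ρ₂ (by rw [hm, Module.finrank_pi_fintype]; simp [mul_comm])
  let g : (Fin m → L) →ₗ[F] (Fin m → L) :=
    LinearMap.pi fun i => (if i = ⟨0, hm0⟩ then Algebra.lmul F L κ else LinearMap.id).comp (LinearMap.proj i)
  have hg : LinearMap.det g = d := by
    have h1 : LinearMap.det g = ∏ i : Fin m, LinearMap.det
        (if i = ⟨0, hm0⟩ then Algebra.lmul F L κ else (LinearMap.id : L →ₗ[F] L)) := LinearMap.det_pi _
    rw [h1, Finset.prod_eq_single ⟨0, hm0⟩]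
    · rw [if_pos rfl, ← hκ, Algebra.norm_apply]
    · intro b _ hb; rw [if_neg hb, LinearMap.det_id]
    · intro h; exact absurd (Finset.mem_univ _) h
  have hgc : ∀ l v, g (ρ₂ l v) = ρ₂ l (g v) := by
    intro l v
    funext i
    show (if i = ⟨0, hm0⟩ then Algebra.lmul F L κ else (LinearMap.id : L →ₗ[F] L)) (l * v i) =
      l * (if i = ⟨0, hm0⟩ then Algebra.lmul F L κ else (LinearMap.id : L →ₗ[F] L)) (v i)
    split_ifs
    · show κ * (l * v i) = l * (κ * v i); ring
    · rfl
  let G : V →ₗ[F] V := (P.symm : (Fin m → L) →ₗ[F] V) ∘ₗ g ∘ₗ (P : V →ₗ[F] (Fin m → L))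
  have hG : LinearMap.det G = d := by
    have := LinearMap.det_conj g P.symm
    rw [← hg, ← this]; rfl
  refine ⟨LinearEquiv.ofIsUnitDet (f := G) (v := Module.finBasis F V) (v' := Module.finBasis F V) ?_, ?_, ?_⟩
  · rw [LinearMap.det_toMatrix, hG]; exact isUnit_iff_ne_zero.2 hd
  · intro l v
    show P.symm (g (P (ρ l v))) = ρ l (P.symm (g (P v)))
    rw [hP, hgc, LinearEquiv.symm_apply_eq, hP, LinearEquiv.apply_symm_apply]
  · exact (congrArg LinearMap.det (LinearMap.ext fun v => rfl)).trans hG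

/-- a map with minimal polynomial of full degree is cyclic -/
theorem cyc [FiniteDimensional F V] (A : Module.End F V) (h : (minpoly F A).natDegree = finrank F V) :
    Nonempty ((F[X] ⧸ Ideal.span {minpoly F A}) ≃ₗ[F[X]] AEval' A) := by
  obtain ⟨x, hx⟩ := Module.exists_ker_toSpanSingleton_eq_annihilator (R := F[X]) (M := AEval' A)
  rw [← span_minpoly_eq_annihilator] at hx
  let f := Submodule.liftQ (Ideal.span {minpoly F A}) (LinearMap.toSpanSingleton F[X] (AEval' A) x) hx.ge
  have hinj : Function.Injective f := LinearMap.ker_eq_bot.1 (Submodule.ker_liftQ_eq_bot' _ _ hx.symm)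
  have hA : IsIntegral F A := Algebra.IsIntegral.isIntegral A
  have hm : (minpoly F A).Monic := minpoly.monic hA
  haveI : Module.Finite F (F[X] ⧸ Ideal.span {minpoly F A}) := (AdjoinRoot.powerBasis hm.ne_zero).finite
  haveI : Module.Finite F (AEval' A) := Module.Finite.equiv (AEval'.of A)
  have hfr : finrank F (F[X] ⧸ Ideal.span {minpoly F A}) = finrank F (AEval' A) := by
    have h1 : finrank F (F[X] ⧸ Ideal.span {minpoly F A}) = (minpoly F A).natDegree :=
      (AdjoinRoot.powerBasis hm.ne_zero).finrank.trans (AdjoinRoot.powerBasis_dim _)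
    rw [h1, h]
    exact (AEval'.of A).finrank_eq
  have hsurj : Function.Surjective f := by
    have := (LinearMap.injective_iff_surjective_of_finrank_eq_finrank (f := f.restrictScalars F) hfr).1 hinj
    exact this
  exact ⟨LinearEquiv.ofBijective f ⟨hinj, hsurj⟩⟩

theorem exists_intertwine [FiniteDimensional F V₁] [FiniteDimensional F V₂] (A : Module.End F V₁)
    (B : Module.End F V₂) (hAB : minpoly F A = minpoly F B) (h1 : (minpoly F A).natDegree = finrank F V₁)
    (h2 : (minpoly F A).natDegree = finrank F V₂) : ∃ P : V₁ ≃ₗ[F] V₂, ∀ v, P (A v) = B (P v) := by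
  obtain ⟨e1⟩ := cyc A h1
  obtain ⟨e2⟩ := cyc B (by rw [← hAB]; exact h2)
  let e3 : (F[X] ⧸ Ideal.span {minpoly F A}) ≃ₗ[F[X]] (F[X] ⧸ Ideal.span {minpoly F B}) :=
    Submodule.quotEquivOfEq _ _ (by rw [hAB])
  let e := e1.symm.trans (e3.trans e2)
  refine ⟨(AEval'.of A).trans ((e.restrictScalars F).trans (AEval'.of B).symm), fun v => ?_⟩
  show (AEval'.of B).symm (e (AEval'.of A (A v))) = B ((AEval'.of B).symm (e (AEval'.of A v)))
  have h3 : AEval'.of A (A v) = (X : F[X]) • AEval'.of A v := (AEval'.X_smul_of A v).symm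
  rw [h3, map_smul, LinearEquiv.symm_apply_eq]
  rw [← AEval'.X_smul_of, LinearEquiv.apply_symm_apply]

end abs

section mat
variable {F : Type*} [Field F] {n k : ℕ}

/-- a field subalgebra is the image of any field of the right degree -/
theorem exists_model [Fintype F] (hn : 0 < n) {K : Subalgebra F (Matrix (Fin n) (Fin n) F)}
    (hK : IsFieldSubalgebra k K) (E : Type*) [Field E] [Finite E] [Algebra F E] (hE : finrank F E = k) :
    ∃ ρ : E →ₐ[F] Matrix (Fin n) (Fin n) F, ρ.range = K := by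
  haveI : Nonempty (Fin n) := ⟨⟨0, hn⟩⟩
  have hIF : IsField K := by
    refine ⟨⟨0, 1, fun h => ?_⟩, ?_, ?_⟩
    · have h1 : (0 : Matrix (Fin n) (Fin n) F) = 1 := congrArg Subtype.val h
      exact zero_ne_one h1
    · intro a b
      exact Subtype.ext (hK.comm _ a.2 _ b.2)
    · intro a ha
      obtain ⟨y, hy, h1⟩ := hK.inv a a.2 (fun h => ha (Subtype.ext h))
      exact ⟨⟨y, hy⟩, Subtype.ext h1⟩
  letI : Field K := hIF.toField
  haveI : Finite K := Finite.of_injective _ Subtype.val_injective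
  have hcard : Nat.card K = Nat.card E := by
    rw [Module.natCard_eq_pow_finrank (K := F) (V := K), Module.natCard_eq_pow_finrank (K := F) (V := E),
      hK.finrank_eq, hE]
  have h1 : Nonempty (E ≃ₐ[F] K) := by
    have hs : Splits ((X ^ Nat.card E - X : F[X]).map (algebraMap F K)) := by
      rw [← hcard]
      have := Polynomial.splits_X_pow_nat_card_sub_X (K := K)
      simpa using this
    have hs2 : IsSplittingField F E (X ^ Nat.card E - X : F[X]) := by
      haveI : Fintype E := Fintype.ofFinite E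
      rw [Nat.card_eq_fintype_card]
      exact FiniteField.isSplittingField_sub E F
    have f : E →ₐ[F] K := IsSplittingField.lift E _ hs
    exact ⟨AlgEquiv.ofBijective f ⟨f.toRingHom.injective, by
      have := (Function.Injective.bijective_of_nat_card_le (f := f) f.toRingHom.injective (by rw [hcard])).2
      exact this⟩⟩
  obtain ⟨e⟩ := h1
  refine ⟨K.val.comp e.toAlgHom, ?_⟩
  ext x
  constructor
  · rintro ⟨y, rfl⟩
    exact (e y).2
  · intro hx
    exact ⟨e.symm ⟨x, hx⟩, by
      show ((e (e.symm ⟨x, hx⟩) : K) : Matrix (Fin n) (Fin n) F) = x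
      rw [AlgEquiv.apply_symm_apply]⟩


theorem mem_norm_of [Finite F] {K : Subalgebra F (Matrix (Fin n) (Fin n) F)} {g : GL (Fin n) F}
    (h : ∀ κ ∈ K, (g : Matrix (Fin n) (Fin n) F) * κ * ((g⁻¹ : GL (Fin n) F) : Matrix (Fin n) (Fin n) F) ∈ K) :
    g ∈ subalgebraNormalizer K := by
  have hgi : ((g⁻¹ : GL (Fin n) F) : Matrix (Fin n) (Fin n) F) * (g : Matrix (Fin n) (Fin n) F) = 1 := by
    rw [← Units.val_mul, inv_mul_cancel, Units.val_one]
  have hcan : ∀ a b : Matrix (Fin n) (Fin n) F,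
      (g : Matrix (Fin n) (Fin n) F) * a * ((g⁻¹ : GL (Fin n) F) : Matrix (Fin n) (Fin n) F) =
      (g : Matrix (Fin n) (Fin n) F) * b * ((g⁻¹ : GL (Fin n) F) : Matrix (Fin n) (Fin n) F) → a = b := by
    intro a b hab
    have h1 := congrArg (fun M => ((g⁻¹ : GL (Fin n) F) : Matrix (Fin n) (Fin n) F) * M * (g : Matrix (Fin n) (Fin n) F)) hab
    simp only [← mul_assoc] at h1
    rw [hgi, one_mul, one_mul, mul_assoc, hgi, mul_one, mul_assoc, hgi, mul_one] at h1
    exact h1
  haveI : Finite K := Finite.of_injective _ Subtype.val_injective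
  let f : K → K := fun κ => ⟨_, h κ κ.2⟩
  have hinj : Function.Injective f := fun a b hab => Subtype.ext (hcan _ _ (congrArg Subtype.val hab))
  have hsurj := Finite.surjective_of_injective hinj
  intro κ
  refine ⟨h κ, fun h1 => ?_⟩
  obtain ⟨κ', hκ'⟩ := hsurj ⟨_, h1⟩
  rw [← hcan _ _ (congrArg Subtype.val hκ')]
  exact κ'.2

/-- transport of semilinear maps into the normaliser of a field subalgebra, inside `SL` -/
theorem conj_into [Fintype F] (hn : 0 < n) {K : Subalgebra F (Matrix (Fin n) (Fin n) F)}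
    (hK : IsFieldSubalgebra k K) (E : Type*) [Field E] [Finite E] [Algebra F E] (hE : finrank F E = k)
    (x : Matrix.SpecialLinearGroup (Fin n) F) {W : Type*} [AddCommGroup W] [Module F W] [FiniteDimensional F W]
    (ρ : E →ₐ[F] Module.End F W) (y : Module.End F W) (P₁ : (Fin n → F) ≃ₗ[F] W)
    (hP : ∀ v, P₁ ((x : Matrix (Fin n) (Fin n) F) *ᵥ v) = y (P₁ v))
    (hy : ∀ l, ∃ l', ∀ w, y (ρ l w) = ρ l' (y w)) :
    ∃ P : Matrix.SpecialLinearGroup (Fin n) F, P⁻¹ * x * P ∈ (subalgebraNormalizer K).comap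
      (Matrix.SpecialLinearGroup.toGL : Matrix.SpecialLinearGroup (Fin n) F →* GL (Fin n) F) := by
  obtain ⟨τ, hτ⟩ := exists_model hn hK E hE
  let ρ₁ : E →ₐ[F] Module.End F (Fin n → F) := (Matrix.toLinAlgEquiv' (R := F) (n := Fin n)).toAlgHom.comp τ
  have hρ₁ : ∀ l v, ρ₁ l v = τ l *ᵥ v := fun l v => by
    show Matrix.toLinAlgEquiv' (τ l) v = _
    rw [Matrix.toLinAlgEquiv'_apply]
  haveI : FiniteDimensional F E := inferInstance
  obtain ⟨e, he⟩ := exists_equiv ρ₁ ρ P₁.finrank_eq
  set Q : (Fin n → F) ≃ₗ[F] (Fin n → F) := e.trans P₁.symm with hQ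
  have hQ0 : LinearMap.det (Q : (Fin n → F) →ₗ[F] (Fin n → F)) ≠ 0 := (LinearEquiv.isUnit_det' Q).ne_zero
  obtain ⟨g, hg, hgd⟩ := exists_det ρ₁ (by simpa using hn) _ (inv_ne_zero hQ0)
  set R : (Fin n → F) ≃ₗ[F] (Fin n → F) := g.trans Q with hR
  have hRd : LinearMap.det (R : (Fin n → F) →ₗ[F] (Fin n → F)) = 1 := by
    have : (R : (Fin n → F) →ₗ[F] (Fin n → F)) = (Q : (Fin n → F) →ₗ[F] (Fin n → F)) ∘ₗ g := rfl
    rw [this, LinearMap.det_comp, hgd, mul_inv_cancel₀ hQ0]
  obtain ⟨P, hPv⟩ : ∃ P : Matrix.SpecialLinearGroup (Fin n) F, ∀ v, (P : Matrix (Fin n) (Fin n) F) *ᵥ v = R v := by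
    refine ⟨⟨LinearMap.toMatrix' (R : (Fin n → F) →ₗ[F] (Fin n → F)), by
      rw [LinearMap.det_toMatrix', hRd]⟩, fun v => ?_⟩
    show LinearMap.toMatrix' (R : (Fin n → F) →ₗ[F] (Fin n → F)) *ᵥ v = _
    rw [LinearMap.toMatrix'_mulVec]; rfl
  refine ⟨P, ?_⟩
  rw [Subgroup.mem_comap]
  apply mem_norm_of
  intro κ hκ
  rw [← hτ] at hκ
  obtain ⟨l, rfl⟩ := hκ
  obtain ⟨l', hl'⟩ := hy l
  have hkey : (x : Matrix (Fin n) (Fin n) F) * (P : Matrix (Fin n) (Fin n) F) * τ l =
      (P : Matrix (Fin n) (Fin n) F) * τ l' * ((P⁻¹ * x * P : Matrix.SpecialLinearGroup (Fin n) F) : Matrix (Fin n) (Fin n) F) := by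
    apply Matrix.toLin'.injective
    apply LinearMap.ext
    intro v
    rw [Matrix.toLin'_apply, Matrix.toLin'_apply, ← Matrix.mulVec_mulVec, ← Matrix.mulVec_mulVec,
      ← Matrix.mulVec_mulVec, ← Matrix.mulVec_mulVec, hPv, hPv]
    apply P₁.injective
    rw [hP]
    have h1 : ∀ u, P₁ (R u) = e (g u) := fun u => by
      show P₁ (P₁.symm (e (g u))) = _
      rw [LinearEquiv.apply_symm_apply]
    rw [h1, h1, ← hρ₁, hg, he, hl', ← hρ₁, hg, he]
    congr 1
    rw [← h1, ← h1, ← hPv, ← hPv, Matrix.mulVec_mulVec, ← Matrix.SpecialLinearGroup.coe_mul]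
    have h2 : P * (P⁻¹ * x * P) = x * P := by group
    rw [h2, Matrix.SpecialLinearGroup.coe_mul, ← Matrix.mulVec_mulVec, hP]
  set X := (P⁻¹ * x * P : Matrix.SpecialLinearGroup (Fin n) F) with hX
  have hkey2 : (X : Matrix (Fin n) (Fin n) F) * τ l = τ l' * (X : Matrix (Fin n) (Fin n) F) := by
    have h3 := congrArg (fun M => ((P⁻¹ : Matrix.SpecialLinearGroup (Fin n) F) : Matrix (Fin n) (Fin n) F) * M) hkey
    simp only [← mul_assoc] at h3
    rw [← Matrix.SpecialLinearGroup.coe_mul, ← Matrix.SpecialLinearGroup.coe_mul, ← Matrix.SpecialLinearGroup.coe_mul,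
      inv_mul_cancel, Matrix.SpecialLinearGroup.coe_one, one_mul] at h3
    exact h3
  have h4 : (X : Matrix (Fin n) (Fin n) F) * (((Matrix.SpecialLinearGroup.toGL X)⁻¹ : GL (Fin n) F) : Matrix (Fin n) (Fin n) F) = 1 := by
    have : ((Matrix.SpecialLinearGroup.toGL X : GL (Fin n) F) : Matrix (Fin n) (Fin n) F) * (((Matrix.SpecialLinearGroup.toGL X)⁻¹ : GL (Fin n) F) : Matrix (Fin n) (Fin n) F) = 1 := by
      rw [← Units.val_mul, mul_inv_cancel, Units.val_one]
    exact this
  have h5 : ((Matrix.SpecialLinearGroup.toGL X : GL (Fin n) F) : Matrix (Fin n) (Fin n) F) = (X : Matrix (Fin n) (Fin n) F) := rfl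
  have h6 : (τ : E →+* Matrix (Fin n) (Fin n) F) l = τ l := rfl
  show ((Matrix.SpecialLinearGroup.toGL X : GL (Fin n) F) : Matrix (Fin n) (Fin n) F) * τ l * _ ∈ K
  rw [h5, hkey2, mul_assoc, h4, mul_one, ← hτ]
  exact ⟨l', rfl⟩

/-- an element with a large eigenspace normalising a field subalgebra centralises it -/
theorem comm_of_large {K : Subalgebra F (Matrix (Fin n) (Fin n) F)}
    (hK : IsFieldSubalgebra k K) {g : GL (Fin n) F} (hg : g ∈ subalgebraNormalizer K) (c : F)
    (hc : n < 2 * finrank F (LinearMap.ker (Matrix.toLin' ((g : Matrix (Fin n) (Fin n) F) - c • 1)))) :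
    ∀ κ ∈ K, (g : Matrix (Fin n) (Fin n) F) * κ = κ * (g : Matrix (Fin n) (Fin n) F) := by
  intro κ hκ
  rcases eq_or_ne κ 0 with rfl | hκ0
  · simp
  obtain ⟨κi, hκi, hκ1⟩ := hK.inv κ hκ hκ0
  set T := LinearMap.ker (Matrix.toLin' ((g : Matrix (Fin n) (Fin n) F) - c • 1)) with hT
  have hTm : ∀ v, v ∈ T ↔ (g : Matrix (Fin n) (Fin n) F) *ᵥ v = c • v := by
    intro v
    rw [hT, LinearMap.mem_ker, Matrix.toLin'_apply, Matrix.sub_mulVec, Matrix.smul_mulVec, Matrix.one_mulVec,
      sub_eq_zero]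
  have hinj : Function.Injective (Matrix.toLin' κ) := by
    intro a b hab
    rw [Matrix.toLin'_apply, Matrix.toLin'_apply] at hab
    have := congrArg (fun u => κi *ᵥ u) hab
    simp only [Matrix.mulVec_mulVec] at this
    rwa [mul_eq_one_comm.1 hκ1, Matrix.one_mulVec, Matrix.one_mulVec] at this
  set κT := T.map (Matrix.toLin' κ) with hκT
  have h1 : finrank F κT = finrank F T := (LinearEquiv.finrank_eq (Submodule.equivMapOfInjective _ hinj T)).symm
  have h2 : 0 < finrank F (T ⊓ κT : Submodule F (Fin n → F)) := by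
    have := Submodule.finrank_sup_add_finrank_inf_eq T κT
    have h3 : finrank F (T ⊔ κT : Submodule F (Fin n → F)) ≤ n := by
      have := Submodule.finrank_le (T ⊔ κT)
      simpa using this
    omega
  haveI := Module.finrank_pos_iff.1 h2
  obtain ⟨⟨w, hw1, hw2⟩, hw0⟩ := exists_ne (0 : (T ⊓ κT : Submodule F (Fin n → F)))
  obtain ⟨v, hv, hvw⟩ := hw2
  rw [Matrix.toLin'_apply] at hvw
  have hw0' : w ≠ 0 := fun h => hw0 (Subtype.ext h)
  have hκ' := (hg κ).1 hκ
  set κ' := (g : Matrix (Fin n) (Fin n) F) * κ * ((g⁻¹ : GL (Fin n) F) : Matrix (Fin n) (Fin n) F) with hκ'd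
  have hgi : ((g⁻¹ : GL (Fin n) F) : Matrix (Fin n) (Fin n) F) * (g : Matrix (Fin n) (Fin n) F) = 1 := by
    rw [← Units.val_mul, inv_mul_cancel, Units.val_one]
  have h3 : (g : Matrix (Fin n) (Fin n) F) * κ = κ' * (g : Matrix (Fin n) (Fin n) F) := by
    rw [hκ'd, mul_assoc, hgi, mul_one]
  have hc0 : c ≠ 0 := by
    rintro rfl
    have h4 := (hTm w).1 hw1
    rw [zero_smul] at h4
    have h5 := congrArg (fun u => ((g⁻¹ : GL (Fin n) F) : Matrix (Fin n) (Fin n) F) *ᵥ u) h4
    simp only [Matrix.mulVec_mulVec] at h5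
    rw [hgi, Matrix.one_mulVec, Matrix.mulVec_zero] at h5
    exact hw0' h5
  have h4 : (κ - κ') *ᵥ v = 0 := by
    have h5 := congrArg (fun M => M *ᵥ v) h3
    simp only [← Matrix.mulVec_mulVec] at h5
    rw [hvw, (hTm w).1 hw1, (hTm v).1 hv, Matrix.mulVec_smul] at h5
    have h6 := smul_right_injective _ hc0 h5
    rw [Matrix.sub_mulVec, hvw, h6, sub_self]
  have h5 : κ - κ' = 0 := by
    by_contra hne
    obtain ⟨y, -, hy⟩ := hK.inv _ (K.sub_mem hκ hκ') hne
    have h6 := congrArg (fun u => y *ᵥ u) h4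
    simp only [Matrix.mulVec_mulVec] at h6
    rw [mul_eq_one_comm.1 hy, Matrix.one_mulVec, Matrix.mulVec_zero] at h6
    apply hw0'
    rw [← hvw, h6, Matrix.mulVec_zero]
  rw [h3, ← sub_eq_zero.1 h5]

/-- kernels of matrices commuting with a field subalgebra -/
theorem dvd_ker [Fintype F] (hn : 0 < n) (hk : k ≠ 0) {K : Subalgebra F (Matrix (Fin n) (Fin n) F)}
    (hK : IsFieldSubalgebra k K) (M : Matrix (Fin n) (Fin n) F) (hM : ∀ κ ∈ K, M * κ = κ * M) :
    k ∣ finrank F (LinearMap.ker (Matrix.toLin' M)) := by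
  obtain ⟨E, _, _, _, _, hE, -⟩ := H21.GLo.exists_ext F k hk
  obtain ⟨τ, hτ⟩ := exists_model hn hK E hE
  rw [← hE]
  apply dvd_of_stable ((Matrix.toLinAlgEquiv' (R := F) (n := Fin n)).toAlgHom.comp τ)
  intro l w hw
  rw [LinearMap.mem_ker, Matrix.toLin'_apply] at hw ⊢
  have h1 : (((Matrix.toLinAlgEquiv' (R := F) (n := Fin n)).toAlgHom.comp τ) l) w = τ l *ᵥ w := by
    show Matrix.toLinAlgEquiv' (τ l) w = _
    rw [Matrix.toLinAlgEquiv'_apply]
  rw [h1, Matrix.mulVec_mulVec, hM _ (hτ ▸ ⟨l, rfl⟩), ← Matrix.mulVec_mulVec, hw, Matrix.mulVec_zero]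

/-- an element with a large eigenspace whose dimension is not divisible by the degree never lies in a conjugate -/
theorem no_conj [Fintype F] (hn : 0 < n) (hk : k ≠ 0) {K : Subalgebra F (Matrix (Fin n) (Fin n) F)}
    (hK : IsFieldSubalgebra k K) (x : Matrix.SpecialLinearGroup (Fin n) F) (c : F)
    (hc : n < 2 * finrank F (LinearMap.ker (Matrix.toLin' ((x : Matrix (Fin n) (Fin n) F) - c • 1))))
    (hd : ¬ k ∣ finrank F (LinearMap.ker (Matrix.toLin' ((x : Matrix (Fin n) (Fin n) F) - c • 1))))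
    (P : Matrix.SpecialLinearGroup (Fin n) F) : P⁻¹ * x * P ∉ (subalgebraNormalizer K).comap
      (Matrix.SpecialLinearGroup.toGL : Matrix.SpecialLinearGroup (Fin n) F →* GL (Fin n) F) := by
  intro hmem
  rw [Subgroup.mem_comap] at hmem
  set X := (P⁻¹ * x * P : Matrix.SpecialLinearGroup (Fin n) F) with hX
  have hPP : ((P⁻¹ : Matrix.SpecialLinearGroup (Fin n) F) : Matrix (Fin n) (Fin n) F) * (P : Matrix (Fin n) (Fin n) F) = 1 := by
    rw [← Matrix.SpecialLinearGroup.coe_mul, inv_mul_cancel, Matrix.SpecialLinearGroup.coe_one]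
  have hPP2 : (P : Matrix (Fin n) (Fin n) F) * ((P⁻¹ : Matrix.SpecialLinearGroup (Fin n) F) : Matrix (Fin n) (Fin n) F) = 1 := by
    rw [← Matrix.SpecialLinearGroup.coe_mul, mul_inv_cancel, Matrix.SpecialLinearGroup.coe_one]
  have h1 : (X : Matrix (Fin n) (Fin n) F) - c • 1 =
      ((P⁻¹ : Matrix.SpecialLinearGroup (Fin n) F) : Matrix (Fin n) (Fin n) F) * ((x : Matrix (Fin n) (Fin n) F) - c • 1) *
        (P : Matrix (Fin n) (Fin n) F) := by
    rw [mul_sub, sub_mul, mul_smul_comm, mul_one, smul_mul_assoc, hPP, hX, Matrix.SpecialLinearGroup.coe_mul,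
      Matrix.SpecialLinearGroup.coe_mul]
  have h2 : finrank F (LinearMap.ker (Matrix.toLin' ((X : Matrix (Fin n) (Fin n) F) - c • 1))) =
      finrank F (LinearMap.ker (Matrix.toLin' ((x : Matrix (Fin n) (Fin n) F) - c • 1))) := by
    have h3 : LinearMap.ker (Matrix.toLin' ((X : Matrix (Fin n) (Fin n) F) - c • 1)) =
        (LinearMap.ker (Matrix.toLin' ((x : Matrix (Fin n) (Fin n) F) - c • 1))).map
          (Matrix.toLin' ((P⁻¹ : Matrix.SpecialLinearGroup (Fin n) F) : Matrix (Fin n) (Fin n) F)) := by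
      ext v
      rw [Submodule.mem_map]
      constructor
      · intro hv
        refine ⟨(P : Matrix (Fin n) (Fin n) F) *ᵥ v, ?_, ?_⟩
        · rw [LinearMap.mem_ker, Matrix.toLin'_apply] at hv ⊢
          rw [h1, mul_assoc, ← Matrix.mulVec_mulVec, ← Matrix.mulVec_mulVec] at hv
          have h4 := congrArg (fun u => (P : Matrix (Fin n) (Fin n) F) *ᵥ u) hv
          simp only [Matrix.mulVec_zero] at h4
          rw [Matrix.mulVec_mulVec, hPP2, Matrix.one_mulVec] at h4
          exact h4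
        · rw [Matrix.toLin'_apply, Matrix.mulVec_mulVec, hPP, Matrix.one_mulVec]
      · rintro ⟨w, hw, rfl⟩
        rw [LinearMap.mem_ker, Matrix.toLin'_apply] at hw ⊢
        rw [h1, Matrix.toLin'_apply, Matrix.mulVec_mulVec, mul_assoc, hPP2, mul_one, ← Matrix.mulVec_mulVec, hw,
          Matrix.mulVec_zero]
    rw [h3]
    refine (LinearEquiv.finrank_eq (Submodule.equivMapOfInjective _ ?_ _)).symm
    intro a b hab
    rw [Matrix.toLin'_apply, Matrix.toLin'_apply] at hab
    have := congrArg (fun u => (P : Matrix (Fin n) (Fin n) F) *ᵥ u) hab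
    simp only [Matrix.mulVec_mulVec] at this
    rwa [hPP2, Matrix.one_mulVec, Matrix.one_mulVec] at this
  rw [← h2] at hc hd
  have h3 := comm_of_large hK hmem c hc
  apply hd
  apply dvd_ker hn hk hK
  intro κ hκ
  rw [sub_mul, mul_sub, smul_mul_assoc, mul_smul_comm, one_mul, mul_one]
  rw [show (X : Matrix (Fin n) (Fin n) F) * κ = κ * (X : Matrix (Fin n) (Fin n) F) from h3 κ hκ]




/-- minus one is an `n`-th power -/
theorem neg_one_pow_iff [Fintype F] (h2 : (2 : F) ≠ 0) {n : ℕ} (hn : n ≠ 0) :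
    (∃ c : F, c ^ n = -1) ↔ padicValNat 2 n < padicValNat 2 (Fintype.card F - 1) := by
  have hne : (-1 : F) ≠ 1 := fun h => h2 (by linear_combination -h)
  haveI : Fact (Nat.Prime 2) := ⟨Nat.prime_two⟩
  have hq0 : Fintype.card F - 1 ≠ 0 := by have := Fintype.one_lt_card (α := F); omega
  obtain ⟨m, hm⟩ := pow_padicValNat_dvd (p := 2) (n := n)
  have hmo : Odd m := by
    by_contra hcon
    rw [Nat.not_odd_iff_even] at hcon
    obtain ⟨t, ht⟩ := hcon
    have h3 : 2 ^ (padicValNat 2 n + 1) ∣ n := by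
      refine ⟨t, ?_⟩
      conv_lhs => rw [hm]
      rw [ht]; ring
    have := (padicValNat_dvd_iff_le hn).1 h3
    omega
  constructor
  · rintro ⟨c, hc⟩
    have h3 : (c ^ m) ^ 2 ^ padicValNat 2 n = -1 := by
      rw [← pow_mul, mul_comm, ← hm, hc]
    have h4 : orderOf (c ^ m) = 2 ^ (padicValNat 2 n + 1) := by
      apply orderOf_eq_prime_pow
      · rw [h3]; exact hne
      · rw [pow_succ, pow_mul, h3]; ring
    have hc0 : c ^ m ≠ 0 := by
      intro h
      rw [h, zero_pow (by positivity)] at h3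
      have := neg_eq_zero.1 h3.symm
      exact one_ne_zero this
    have h5 : orderOf (c ^ m) ∣ Fintype.card F - 1 := orderOf_dvd_of_pow_eq_one (FiniteField.pow_card_sub_one_eq_one _ hc0)
    rw [h4] at h5
    have := (padicValNat_dvd_iff_le hq0).1 h5
    omega
  · intro h
    have h3 : 2 ^ (padicValNat 2 n + 1) ∣ Nat.card F - 1 := by
      rw [Nat.card_eq_fintype_card]
      exact (padicValNat_dvd_iff_le hq0).2 h
    obtain ⟨d, hd⟩ := H21.GLo.exists_order h3
    refine ⟨d, ?_⟩
    have h4 : (d ^ 2 ^ padicValNat 2 n) ^ 2 = 1 := by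
      rw [← pow_mul, ← pow_succ, ← hd, pow_orderOf_eq_one]
    have h5 : d ^ 2 ^ padicValNat 2 n ≠ 1 := by
      intro h6
      have := orderOf_dvd_of_pow_eq_one h6
      rw [hd, Nat.pow_dvd_pow_iff_le_right'] at this
      omega
    have h6 : d ^ 2 ^ padicValNat 2 n = -1 := by
      rw [sq] at h4
      exact (mul_self_eq_one_iff.1 h4).resolve_left h5
    calc d ^ n = (d ^ 2 ^ padicValNat 2 n) ^ m := by rw [← pow_mul, ← hm]
      _ = -1 := by rw [h6, hmo.neg_one_pow]

/-- kernels described by one functional -/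
theorem finrank_ker_one (M : Matrix (Fin n) (Fin n) F) (i : Fin n)
    (h : ∀ v, M *ᵥ v = 0 ↔ v i = 0) : finrank F (LinearMap.ker (Matrix.toLin' M)) + 1 = n := by
  have h1 : LinearMap.ker (Matrix.toLin' M) = LinearMap.ker (LinearMap.proj i : (Fin n → F) →ₗ[F] F) := by
    ext v
    rw [LinearMap.mem_ker, LinearMap.mem_ker, Matrix.toLin'_apply, h]
    rfl
  rw [h1]
  have h2 := Module.Dual.finrank_ker_add_one_of_ne_zero (f := (LinearMap.proj i : (Fin n → F) →ₗ[F] F)) (by
    intro h
    have := LinearMap.congr_fun h (Pi.single i 1)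
    simp at this)
  simpa using h2

/-- a scalar multiple of an `n`-cycle lies in a Singer normaliser -/
theorem frob_conj [Fintype F] (hn : 0 < n) {K : Subalgebra F (Matrix (Fin n) (Fin n) F)}
    (hK : IsFieldSubalgebra n K) (x : Matrix.SpecialLinearGroup (Fin n) F) (c : F) (y : Matrix (Fin n) (Fin n) F)
    (hxy : (x : Matrix (Fin n) (Fin n) F) = c • y) (hy1 : y ^ n = 1)
    (hy2 : n ≤ (minpoly F (Matrix.toLin' y)).natDegree) :
    ∃ P : Matrix.SpecialLinearGroup (Fin n) F, P⁻¹ * x * P ∈ (subalgebraNormalizer K).comap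
      (Matrix.SpecialLinearGroup.toGL : Matrix.SpecialLinearGroup (Fin n) F →* GL (Fin n) F) := by
  obtain ⟨E, _, _, _, _, hE, -⟩ := H21.GLo.exists_ext F n hn.ne'
  have hmin : minpoly F (Matrix.toLin' y) = X ^ n - C 1 := by
    symm
    apply Polynomial.eq_of_monic_of_dvd_of_natDegree_le (minpoly.monic (Algebra.IsIntegral.isIntegral _))
      (monic_X_pow_sub_C 1 hn.ne')
    · apply minpoly.dvd
      rw [map_sub, map_pow, aeval_X, aeval_C, map_one]
      have : (Matrix.toLin' y) ^ n = 1 := by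
        rw [← Matrix.toLin'_pow, hy1, Matrix.toLin'_one]; rfl
      rw [this, sub_self]
    · rw [natDegree_X_pow_sub_C]; exact hy2
  have hσ : minpoly F (FiniteField.frobeniusAlgHom F E).toLinearMap = X ^ n - C 1 := by
    rw [FiniteField.minpoly_frobeniusAlgHom, hE, map_one]
  obtain ⟨P₁, hP₁⟩ := exists_intertwine (Matrix.toLin' y) (FiniteField.frobeniusAlgHom F E).toLinearMap
    (by rw [hmin, hσ]) (by rw [hmin, natDegree_X_pow_sub_C]; simp) (by rw [hmin, natDegree_X_pow_sub_C, hE])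
  refine conj_into hn hK E hE x (Algebra.lmul F E) (c • (FiniteField.frobeniusAlgHom F E).toLinearMap) P₁ ?_ ?_
  · intro v
    rw [hxy, Matrix.smul_mulVec, map_smul, LinearMap.smul_apply, ← hP₁, Matrix.toLin'_apply]
  · intro l
    refine ⟨FiniteField.frobeniusAlgHom F E l, fun w => ?_⟩
    show c • (FiniteField.frobeniusAlgHom F E (l * w)) = FiniteField.frobeniusAlgHom F E l * (c • FiniteField.frobeniusAlgHom F E w)
    rw [map_mul, mul_smul_comm]


section split

/-- the eigenspace decomposition of an involution -/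
theorem isCompl_of_sq (h2 : (2 : F) ≠ 0) (y : Matrix (Fin n) (Fin n) F) (hy : y * y = 1) :
    IsCompl (LinearMap.ker (Matrix.toLin' (y - 1))) (LinearMap.ker (Matrix.toLin' (y + 1))) := by
  constructor
  · rw [Submodule.disjoint_def]
    intro v h1 h3
    rw [LinearMap.mem_ker, Matrix.toLin'_apply] at h1 h3
    rw [Matrix.sub_mulVec, Matrix.one_mulVec] at h1
    rw [Matrix.add_mulVec, Matrix.one_mulVec] at h3
    have h4 : (2 : F) • v = 0 := by
      rw [two_smul]
      linear_combination (exp := 1) h3 - h1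
    exact (smul_eq_zero.1 h4).resolve_left h2
  · rw [codisjoint_iff, eq_top_iff]
    intro v _
    rw [Submodule.mem_sup]
    refine ⟨(2⁻¹ : F) • (v + y *ᵥ v), ?_, (2⁻¹ : F) • (v - y *ᵥ v), ?_, ?_⟩
    · rw [LinearMap.mem_ker, Matrix.toLin'_apply, Matrix.mulVec_smul, Matrix.sub_mulVec, Matrix.one_mulVec,
        Matrix.mulVec_add, Matrix.mulVec_mulVec, hy, Matrix.one_mulVec]
      have : y *ᵥ v + v - (v + y *ᵥ v) = 0 := by abel
      rw [this, smul_zero]
    · rw [LinearMap.mem_ker, Matrix.toLin'_apply, Matrix.mulVec_smul, Matrix.add_mulVec, Matrix.one_mulVec,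
        Matrix.mulVec_sub, Matrix.mulVec_mulVec, hy, Matrix.one_mulVec]
      have : y *ᵥ v - v + (v - y *ᵥ v) = 0 := by abel
      rw [this, smul_zero]
    · rw [← smul_add]
      have : v + y *ᵥ v + (v - y *ᵥ v) = (2 : F) • v := by rw [two_smul]; abel
      rw [this, smul_smul, inv_mul_cancel₀ h2, one_smul]

theorem split_apply (h2 : (2 : F) ≠ 0) (y : Matrix (Fin n) (Fin n) F) (hy : y * y = 1)
    (p : (LinearMap.ker (Matrix.toLin' (y - 1))) × (LinearMap.ker (Matrix.toLin' (y + 1)))) :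
    y *ᵥ (Submodule.prodEquivOfIsCompl _ _ (isCompl_of_sq h2 y hy) p) =
      Submodule.prodEquivOfIsCompl _ _ (isCompl_of_sq h2 y hy) (p.1, -p.2) := by
  rw [Submodule.coe_prodEquivOfIsCompl', Submodule.coe_prodEquivOfIsCompl', Matrix.mulVec_add]
  have h3 := p.1.2
  have h4 := p.2.2
  rw [LinearMap.mem_ker, Matrix.toLin'_apply] at h3 h4
  rw [Matrix.sub_mulVec, Matrix.one_mulVec, sub_eq_zero] at h3
  rw [Matrix.add_mulVec, Matrix.one_mulVec, add_eq_zero_iff_eq_neg] at h4
  rw [h3, h4]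
  rfl

theorem det_of_sq (h2 : (2 : F) ≠ 0) (y : Matrix (Fin n) (Fin n) F) (hy : y * y = 1) :
    y.det = (-1) ^ finrank F (LinearMap.ker (Matrix.toLin' (y + 1))) := by
  set e := Submodule.prodEquivOfIsCompl _ _ (isCompl_of_sq h2 y hy) with he
  set g : ((LinearMap.ker (Matrix.toLin' (y - 1))) × (LinearMap.ker (Matrix.toLin' (y + 1)))) →ₗ[F]
    ((LinearMap.ker (Matrix.toLin' (y - 1))) × (LinearMap.ker (Matrix.toLin' (y + 1)))) :=
      LinearMap.prodMap LinearMap.id ((-1 : F) • LinearMap.id) with hg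
  have h1 : Matrix.toLin' y = (e : _ →ₗ[F] (Fin n → F)) ∘ₗ g ∘ₗ (e.symm : (Fin n → F) →ₗ[F] _) := by
    apply LinearMap.ext
    intro v
    obtain ⟨p, rfl⟩ := e.surjective v
    rw [Matrix.toLin'_apply, split_apply h2 y hy]
    show _ = e (g (e.symm (e p)))
    rw [LinearEquiv.symm_apply_apply]
    congr 1
    rw [hg, LinearMap.prodMap_apply, LinearMap.smul_apply, LinearMap.id_apply, LinearMap.id_apply, neg_one_smul]
  have h3 := LinearMap.det_conj g e
  rw [← h1, LinearMap.det_toLin'] at h3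
  rw [h3, hg, LinearMap.det_prodMap, LinearMap.det_smul, LinearMap.det_id, LinearMap.det_id, one_mul, mul_one]

theorem conj_split [Fintype F] (h2 : (2 : F) ≠ 0) (hn : 0 < n) (hk : k ≠ 0)
    {K : Subalgebra F (Matrix (Fin n) (Fin n) F)} (hK : IsFieldSubalgebra k K)
    (x : Matrix.SpecialLinearGroup (Fin n) F) (c : F) (y : Matrix (Fin n) (Fin n) F)
    (hxy : (x : Matrix (Fin n) (Fin n) F) = c • y) (hy : y * y = 1)
    (ha : k ∣ finrank F (LinearMap.ker (Matrix.toLin' (y - 1)))) (hb : k ∣ finrank F (LinearMap.ker (Matrix.toLin' (y + 1)))) :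
    ∃ P : Matrix.SpecialLinearGroup (Fin n) F, P⁻¹ * x * P ∈ (subalgebraNormalizer K).comap
      (Matrix.SpecialLinearGroup.toGL : Matrix.SpecialLinearGroup (Fin n) F →* GL (Fin n) F) := by
  obtain ⟨E, _, _, _, _, hE, -⟩ := H21.GLo.exists_ext F k hk
  obtain ⟨a, ha⟩ := ha
  obtain ⟨b, hb⟩ := hb
  set e := Submodule.prodEquivOfIsCompl _ _ (isCompl_of_sq h2 y hy) with he
  let e₁ : (LinearMap.ker (Matrix.toLin' (y - 1))) ≃ₗ[F] (Fin a → E) :=
    LinearEquiv.ofFinrankEq _ _ (by rw [ha, Module.finrank_pi_fintype]; simp [hE, mul_comm])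
  let e₂ : (LinearMap.ker (Matrix.toLin' (y + 1))) ≃ₗ[F] (Fin b → E) :=
    LinearEquiv.ofFinrankEq _ _ (by rw [hb, Module.finrank_pi_fintype]; simp [hE, mul_comm])
  refine conj_into hn hK E hE x (W := (Fin a → E) × (Fin b → E)) (Algebra.lsmul F F ((Fin a → E) × (Fin b → E)))
    (c • LinearMap.prodMap LinearMap.id (-LinearMap.id)) (e.symm.trans (LinearEquiv.prodCongr e₁ e₂)) ?_ ?_
  · intro v
    obtain ⟨p, rfl⟩ := e.surjective v
    rw [hxy, Matrix.smul_mulVec, split_apply h2 y hy, map_smul]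
    show c • (LinearEquiv.prodCongr e₁ e₂) (e.symm (e (p.1, -p.2))) =
      c • (LinearMap.prodMap LinearMap.id (-LinearMap.id)) ((LinearEquiv.prodCongr e₁ e₂) (e.symm (e p)))
    rw [LinearEquiv.symm_apply_apply, LinearEquiv.symm_apply_apply]
    congr 1
    show (e₁ p.1, e₂ (-p.2)) = (e₁ p.1, -(e₂ p.2))
    rw [map_neg]
  · intro l
    refine ⟨l, fun w => ?_⟩
    show c • ((l • w.1, -(l • w.2)) : (Fin a → E) × (Fin b → E)) = l • (c • ((w.1, -w.2) : (Fin a → E) × (Fin b → E)))
    rw [smul_comm l c]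
    congr 1
    show _ = (l • w.1, l • (-w.2))
    rw [smul_neg]

theorem conj_nonsq [Fintype F] (hn : 0 < n)
    {K : Subalgebra F (Matrix (Fin n) (Fin n) F)} (hK : IsFieldSubalgebra 2 K)
    (x : Matrix.SpecialLinearGroup (Fin n) F) (z : F) (hz : ∀ b, b ^ 2 ≠ z)
    (hx : (x : Matrix (Fin n) (Fin n) F) * (x : Matrix (Fin n) (Fin n) F) = z • 1) :
    ∃ P : Matrix.SpecialLinearGroup (Fin n) F, P⁻¹ * x * P ∈ (subalgebraNormalizer K).comap
      (Matrix.SpecialLinearGroup.toGL : Matrix.SpecialLinearGroup (Fin n) F →* GL (Fin n) F) := by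
  set f : F[X] := X ^ 2 - C z with hf
  have hirr : Irreducible f := X_pow_sub_C_irreducible_of_prime Nat.prime_two hz
  haveI : Fact (Irreducible f) := ⟨hirr⟩
  have hf0 : f ≠ 0 := hirr.ne_zero
  haveI : Module.Finite F (AdjoinRoot f) := (AdjoinRoot.powerBasis hf0).finite
  haveI : Finite (AdjoinRoot f) := Module.finite_of_finite F
  have hE : finrank F (AdjoinRoot f) = 2 := by
    rw [(AdjoinRoot.powerBasis hf0).finrank, AdjoinRoot.powerBasis_dim, hf, natDegree_X_pow_sub_C]
  have hx2 : Matrix.toLin' (x : Matrix (Fin n) (Fin n) F) ^ 2 = algebraMap F (Module.End F (Fin n → F)) z := by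
    rw [← Matrix.toLin'_pow, pow_two, hx, map_smul, Matrix.toLin'_one, Algebra.algebraMap_eq_smul_one]
    rfl
  let ρ : AdjoinRoot f →ₐ[F] Module.End F (Fin n → F) :=
    Ideal.Quotient.liftₐ (Ideal.span {f}) (Polynomial.aeval (Matrix.toLin' (x : Matrix (Fin n) (Fin n) F))) (by
      intro a ha
      obtain ⟨g, rfl⟩ := Ideal.mem_span_singleton.1 ha
      rw [map_mul, hf, map_sub, map_pow, aeval_X, aeval_C, hx2, sub_self, zero_mul])
  refine conj_into hn hK (AdjoinRoot f) hE x ρ (Matrix.toLin' (x : Matrix (Fin n) (Fin n) F)) (LinearEquiv.refl F _) ?_ ?_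
  · intro v
    rw [LinearEquiv.refl_apply, LinearEquiv.refl_apply, Matrix.toLin'_apply]
  · intro l
    refine ⟨l, fun w => ?_⟩
    obtain ⟨p, rfl⟩ := AdjoinRoot.mk_surjective l
    have h1 : ρ (AdjoinRoot.mk f p) = Polynomial.aeval (Matrix.toLin' (x : Matrix (Fin n) (Fin n) F)) p := rfl
    rw [h1]
    have h3 : Polynomial.aeval (Matrix.toLin' (x : Matrix (Fin n) (Fin n) F)) (X * p) =
        Polynomial.aeval (Matrix.toLin' (x : Matrix (Fin n) (Fin n) F)) (p * X) := by rw [mul_comm]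
    rw [map_mul, map_mul, aeval_X] at h3
    exact LinearMap.congr_fun h3 w

end split


section ex

theorem two_le_minpoly (y : Matrix (Fin n) (Fin n) F) (hy : ∀ z : F, y ≠ z • 1) (hn : 0 < n) :
    2 ≤ (minpoly F (Matrix.toLin' y)).natDegree := by
  haveI : Nonempty (Fin n) := ⟨⟨0, hn⟩⟩
  have h1 : 0 < (minpoly F (Matrix.toLin' y)).natDegree := minpoly.natDegree_pos (Algebra.IsIntegral.isIntegral _)
  rcases Nat.lt_or_ge 1 (minpoly F (Matrix.toLin' y)).natDegree with h | h
  · exact h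
  · exfalso
    have h2 : (minpoly F (Matrix.toLin' y)).natDegree = 1 := by omega
    obtain ⟨c, hc⟩ := minpoly.natDegree_eq_one_iff.1 h2
    apply hy c
    apply Matrix.toLin'.injective
    rw [← hc, map_smul, Matrix.toLin'_one, Algebra.algebraMap_eq_smul_one]
    rfl

theorem odd_card [Fintype F] (h2 : (2 : F) ≠ 0) : Odd (Fintype.card F) := by
  apply Nat.odd_iff.2
  apply FiniteField.odd_card_of_char_ne_two
  intro h
  apply h2
  have := ringChar.spec F 2
  exact_mod_cast this.2 (by rw [h])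

/-- transvections -/
theorem exists_trans (i j : Fin n) (hij : i ≠ j) : ∃ x : Matrix.SpecialLinearGroup (Fin n) F,
    (x : Matrix (Fin n) (Fin n) F) = 1 + Matrix.single i j 1 := 
  ⟨⟨Matrix.transvection i j 1, Matrix.det_transvection_of_ne i j hij 1⟩, rfl⟩

/-- a reflection times a scalar -/
theorem exists_refl (i : Fin n) (c w : F) (hc : c ^ n * w = 1) : ∃ x : Matrix.SpecialLinearGroup (Fin n) F,
    (x : Matrix (Fin n) (Fin n) F) = c • Matrix.diagonal (Function.update (fun _ => 1) i w) :=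
  ⟨⟨c • Matrix.diagonal (Function.update (fun _ => 1) i w), by
    rw [Matrix.det_smul, Matrix.det_diagonal, Fintype.card_fin, Finset.prod_update_of_mem (Finset.mem_univ i)]
    simpa using hc⟩, rfl⟩

theorem ker_trans (i j : Fin n) (M : Matrix (Fin n) (Fin n) F) (hM : M = 1 + Matrix.single i j 1) :
    finrank F (LinearMap.ker (Matrix.toLin' (M - (1 : F) • 1))) + 1 = n := by
  apply finrank_ker_one _ j
  intro v
  rw [hM, one_smul, add_sub_cancel_left]
  constructor
  · intro h
    have := congrFun h i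
    rw [Matrix.single_mulVec] at this
    simpa using this
  · intro h
    rw [Matrix.single_mulVec, h]
    simp

theorem ker_refl (i : Fin n) (c w : F) (hc : c ≠ 0) (hw : w ≠ 1) (M : Matrix (Fin n) (Fin n) F)
    (hM : M = c • Matrix.diagonal (Function.update (fun _ => 1) i w)) :
    finrank F (LinearMap.ker (Matrix.toLin' (M - c • 1))) + 1 = n := by
  apply finrank_ker_one _ i
  intro v
  rw [hM, ← smul_sub, Matrix.smul_mulVec, smul_eq_zero_iff_right hc, Matrix.sub_mulVec, Matrix.one_mulVec]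
  constructor
  · intro h
    have := congrFun h i
    rw [Pi.sub_apply, Matrix.mulVec_diagonal, Function.update_self] at this
    have h3 : (w - 1) * v i = 0 := by
      rw [sub_mul, one_mul]; exact this
    exact (mul_eq_zero.1 h3).resolve_left (sub_ne_zero.2 hw)
  · intro h
    funext j
    rw [Pi.sub_apply, Matrix.mulVec_diagonal]
    by_cases hj : j = i
    · rw [hj, h]; simp
    · rw [Function.update_of_ne hj, one_mul, sub_self]; rfl

end ex


section cyclo

theorem minpoly_full (hn : n.Prime) (hn3 : 3 ≤ n) (hirr : Irreducible (cyclotomic n F))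
    (y : Matrix (Fin n) (Fin n) F) (hy : y ^ n = 1) (hy1 : y ≠ 1) :
    n ≤ (minpoly F (Matrix.toLin' y)).natDegree := by
  haveI : Fact n.Prime := ⟨hn⟩
  set A := Matrix.toLin' y with hA
  have hAn : A ^ n = 1 := by
    rw [hA, ← Matrix.toLin'_pow, hy, Matrix.toLin'_one]; rfl
  have hd : minpoly F A ∣ cyclotomic n F * (X - 1) := by
    rw [cyclotomic_prime_mul_X_sub_one]
    apply minpoly.dvd
    rw [map_sub, map_pow, aeval_X, map_one, hAn, sub_self]
  by_contra hlt
  push Not at hlt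
  have hmon := minpoly.monic (Algebra.IsIntegral.isIntegral (R := F) A)
  by_cases hdv : cyclotomic n F ∣ minpoly F A
  · have hm : minpoly F A = cyclotomic n F := by
      symm
      symm
      apply Polynomial.eq_of_monic_of_dvd_of_natDegree_le (cyclotomic.monic n F) hmon hdv
      rw [natDegree_cyclotomic, Nat.totient_prime hn]; omega
    haveI : Fact (Irreducible (cyclotomic n F)) := ⟨hirr⟩
    have hE : finrank F (AdjoinRoot (cyclotomic n F)) = n - 1 := by
      rw [(AdjoinRoot.powerBasis hirr.ne_zero).finrank, AdjoinRoot.powerBasis_dim, natDegree_cyclotomic,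
        Nat.totient_prime hn]
    let ρ : AdjoinRoot (cyclotomic n F) →ₐ[F] Module.End F (Fin n → F) :=
      Ideal.Quotient.liftₐ (Ideal.span {cyclotomic n F}) (Polynomial.aeval A) (by
        intro a ha
        obtain ⟨g, rfl⟩ := Ideal.mem_span_singleton.1 ha
        rw [map_mul, ← hm, minpoly.aeval, zero_mul])
    have h1 := dvd_of_stable ρ ⊤ (fun _ _ _ => Submodule.mem_top)
    rw [hE, finrank_top, Module.finrank_fintype_fun_eq_card, Fintype.card_fin] at h1
    have h2 : n - 1 ∣ 1 := by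
      have := Nat.dvd_sub h1 (dvd_refl (n - 1))
      rwa [show n - (n - 1) = 1 by omega] at this
    have := Nat.le_of_dvd one_pos h2
    omega
  · have hc : IsCoprime (minpoly F A) (cyclotomic n F) := by
      rcases EuclideanDomain.dvd_or_coprime (cyclotomic n F) (minpoly F A) hirr with h | h
      · exact absurd h hdv
      · exact h.symm
    have h1 := hc.dvd_of_dvd_mul_left hd
    obtain ⟨g, hg⟩ := h1
    have h2 : Polynomial.aeval A (X - 1 : F[X]) = 0 := by
      rw [hg, map_mul, minpoly.aeval, zero_mul]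
    rw [map_sub, aeval_X, map_one, sub_eq_zero] at h2
    apply hy1
    apply Matrix.toLin'.injective
    rw [← hA, h2, Matrix.toLin'_one]; rfl

theorem cyclo_irr [Fintype F] {p : ℕ} [Fact p.Prime] [CharP F p] (hn : n.Prime) (hnp : n ≠ p)
    (hord : orderOf ((Fintype.card F : ℕ) : ZMod n) = n - 1) : Irreducible (cyclotomic n F) := by
  obtain ⟨f, hp, hf⟩ := FiniteField.card F p
  have hcop : p.Coprime n := (Nat.coprime_primes hp hn).2 (Ne.symm hnp)
  apply irreducible_of_dvd_cyclotomic_of_natDegree (p := p) (f := f) hf hcop dvd_rfl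
  rw [natDegree_cyclotomic, Nat.totient_prime hn, ← hord, ← orderOf_units, ZMod.coe_unitOfCoprime, hf]

/-- block matrices with a large fixed space -/
theorem exists_block {d r : ℕ} (hd : d ≤ n) (Y : Matrix (Fin d) (Fin d) F) (hY : Y ^ r = 1) (hdet : Y.det = 1)
    (hfix : ∀ v, Y *ᵥ v = v → v = 0) :
    ∃ x : Matrix.SpecialLinearGroup (Fin n) F, x ^ r = 1 ∧
      finrank F (LinearMap.ker (Matrix.toLin' ((x : Matrix (Fin n) (Fin n) F) - (1 : F) • 1))) + d = n := by
  obtain ⟨m, rfl⟩ := Nat.exists_eq_add_of_le hd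
  set e : Fin d ⊕ Fin m ≃ Fin (d + m) := finSumFinEquiv with he
  set B : Matrix (Fin d ⊕ Fin m) (Fin d ⊕ Fin m) F := Matrix.fromBlocks Y 0 0 1 with hB
  have hBr : B ^ r = 1 := by
    have : ∀ t, B ^ t = Matrix.fromBlocks (Y ^ t) 0 0 1 := by
      intro t
      induction t with
      | zero => rw [pow_zero, pow_zero, Matrix.fromBlocks_one]
      | succ t ih => rw [pow_succ, ih, hB, Matrix.fromBlocks_multiply]; simp [pow_succ]
    rw [this, hY, Matrix.fromBlocks_one]
  have hBdet : B.det = 1 := by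
    rw [hB, Matrix.det_fromBlocks_zero₂₁, hdet, Matrix.det_one, mul_one]
  obtain ⟨x, hx⟩ : ∃ x : Matrix.SpecialLinearGroup (Fin (d + m)) F, (x : Matrix (Fin (d + m)) (Fin (d + m)) F) =
      Matrix.reindex e e B := ⟨⟨Matrix.reindex e e B, by rw [Matrix.det_reindex_self, hBdet]⟩, rfl⟩
  refine ⟨x, ?_, ?_⟩
  · apply Subtype.ext
    rw [Matrix.SpecialLinearGroup.coe_pow, hx]
    show (Matrix.reindexAlgEquiv F F e B) ^ r = 1
    rw [← map_pow, hBr, map_one]
  · have h1 : LinearMap.ker (Matrix.toLin' (Matrix.reindex e e B - (1 : F) • 1)) =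
        (LinearMap.ker (Matrix.toLin' (B - 1))).map (LinearEquiv.funCongrLeft F F e.symm : (Fin d ⊕ Fin m → F) →ₗ[F] _) := by
      ext v
      rw [Submodule.mem_map_equiv, LinearMap.mem_ker, LinearMap.mem_ker, Matrix.toLin'_apply, Matrix.toLin'_apply,
        one_smul]
      have h2 : (Matrix.reindex e e B - 1) = Matrix.reindex e e (B - 1) := by
        have : Matrix.reindex e e (1 : Matrix (Fin d ⊕ Fin m) (Fin d ⊕ Fin m) F) = 1 := by simp
        conv_lhs => rw [← this]
        rfl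
      rw [h2, Matrix.reindex_apply, Matrix.submatrix_mulVec_equiv]
      constructor
      · intro h
        have h3 := congrArg (fun u => u ∘ e) h
        funext i
        have h4 := congrFun h3 i
        show ((B - 1) *ᵥ (fun x => v (e x))) i = 0
        simpa [Function.comp_def] using h4
      · intro h
        funext i
        have h4 := congrFun h (e.symm i)
        exact h4
    rw [hx]
    rw [h1, LinearEquiv.finrank_map_eq]
    have h5 : LinearMap.ker (Matrix.toLin' (B - 1)) = LinearMap.ker (LinearMap.funLeft F F (Sum.inl : Fin d → Fin d ⊕ Fin m)) := by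
      ext v
      rw [LinearMap.mem_ker, LinearMap.mem_ker, Matrix.toLin'_apply, Matrix.sub_mulVec, Matrix.one_mulVec, sub_eq_zero]
      have h6 : B *ᵥ v = Sum.elim (Y *ᵥ (v ∘ Sum.inl)) (v ∘ Sum.inr) := by
        conv_lhs => rw [← Sum.elim_comp_inl_inr v]
        rw [hB, Matrix.fromBlocks_mulVec]
        simp
      rw [h6]
      constructor
      · intro h
        have h7 : Y *ᵥ (v ∘ Sum.inl) = v ∘ Sum.inl := by
          funext i
          exact congrFun h (Sum.inl i)
        exact hfix _ h7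
      · intro h
        have h7 : v ∘ Sum.inl = 0 := h
        rw [h7, Matrix.mulVec_zero]
        funext i
        rcases i with i | i
        · exact (congrFun h7 i).symm
        · rfl
    rw [h5]
    have h6 := LinearMap.finrank_range_add_finrank_ker (LinearMap.funLeft F F (Sum.inl : Fin d → Fin d ⊕ Fin m))
    rw [LinearMap.range_eq_top.2 (LinearMap.funLeft_surjective_of_injective F F _ Sum.inl_injective), finrank_top] at h6
    simp at h6
    omega

end cyclo


section more

theorem not_scalar_of_ker {M : Matrix (Fin n) (Fin n) F} {c : F} {d : ℕ} (hd0 : 0 < d) (hdn : d < n)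
    (h : finrank F (LinearMap.ker (Matrix.toLin' (M - c • 1))) + d = n) (z : F) : M ≠ z • 1 := by
  rintro rfl
  rw [← sub_smul] at h
  by_cases hz : z - c = 0
  · rw [hz, zero_smul, map_zero, LinearMap.ker_zero, finrank_top, Module.finrank_fintype_fun_eq_card,
      Fintype.card_fin] at h
    omega
  · have h1 : LinearMap.ker (Matrix.toLin' ((z - c) • (1 : Matrix (Fin n) (Fin n) F))) = ⊥ := by
      rw [LinearMap.ker_eq_bot']
      intro v hv
      rw [Matrix.toLin'_apply, Matrix.smul_mulVec, Matrix.one_mulVec] at hv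
      exact (smul_eq_zero.1 hv).resolve_left hz
    rw [h1, finrank_bot] at h
    omega

theorem root_trivial [Fintype F] {r : ℕ} (hr : r.Prime) (h : ¬ r ∣ Fintype.card F - 1) {a : F} (ha : a ^ r = 1) : a = 1 := by
  have ha0 : a ≠ 0 := by
    rintro rfl
    rw [zero_pow hr.ne_zero] at ha
    exact zero_ne_one ha
  have h1 : orderOf a ∣ r := orderOf_dvd_of_pow_eq_one ha
  have h2 : orderOf a ∣ Fintype.card F - 1 := orderOf_dvd_of_pow_eq_one (FiniteField.pow_card_sub_one_eq_one _ ha0)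
  rcases (Nat.dvd_prime hr).1 h1 with h3 | h3
  · exact orderOf_eq_one_iff.1 h3
  · rw [h3] at h2; exact absurd h2 h

theorem scalar_root {r : ℕ} (hn : 0 < n) {x : Matrix.SpecialLinearGroup (Fin n) F} {z : F}
    (hz : ((x ^ r : Matrix.SpecialLinearGroup (Fin n) F) : Matrix (Fin n) (Fin n) F) = z • 1) : z ^ n = 1 := by
  have h := congrArg Matrix.det hz
  rw [Matrix.SpecialLinearGroup.det_coe, Matrix.det_smul, Matrix.det_one, mul_one, Fintype.card_fin] at h
  exact h.symm

end more

end mat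

end Cfsg.Agent.H5.Fld
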