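import Mathlib
import Cfsg.Prelude.Def_GeometricClasses
import Cfsg.Agent.H5_Fld1
import Cfsg.Agent.H5_Sym2

set_option autoImplicit false

/-! conjugating elements of `SL` into geometric subgroups by transport of structure -/

namespace Cfsg.Agent.H5.Fld

open Matrix Module Cfsg.Geo Polynomial

section abs
variable {F V V₁ V₂ : Type*} [Field F] [AddCommGroup V] [Module F V]
  [AddCommGroup V₁] [Module F V₁] [AddCommGroup V₂] [Module F V₂]

/-- maps of arbitrary determinant -/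
theorem exists_det_any [Finite F] [FiniteDimensional F V] (hV : 0 < finrank F V) (d : F) (hd : d ≠ 0) :
    ∃ P : V ≃ₗ[F] V, LinearMap.det (P : V →ₗ[F] V) = d := by
  obtain ⟨P, -, hP⟩ := exists_det (Algebra.ofId F (Module.End F V)) hV d hd
  exact ⟨P, hP⟩

/-- normal form of square-zero maps -/
theorem nil_struct [FiniteDimensional F V] (N : V →ₗ[F] V) (hN : ∀ v, N (N v) = 0) :
    ∃ (a b : ℕ) (P : (((Fin a → F) × (Fin a → F)) × (Fin b → F)) ≃ₗ[F] V), ∀ w, N (P w) = P ((0, w.1.1), 0) := by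
  set I := LinearMap.range N with hI
  set K := LinearMap.ker N with hK
  have hIK : I ≤ K := by
    rintro _ ⟨v, rfl⟩
    exact hN v
  obtain ⟨s, hs⟩ := N.rangeRestrict.exists_rightInverse_of_surjective (LinearMap.range_rangeRestrict N)
  obtain ⟨π, hπ⟩ := (Submodule.inclusion hIK).exists_leftInverse_of_injective
    (LinearMap.ker_eq_bot.2 (Submodule.inclusion_injective hIK))
  have hs' : ∀ i : I, N (s i) = i := fun i => congrArg Subtype.val (LinearMap.congr_fun hs i)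
  have hπ' : ∀ (i : I) (h : (i : V) ∈ K), π ⟨i, h⟩ = i := fun i _ => LinearMap.congr_fun hπ i
  set T := LinearMap.ker π with hT
  let Φ : ((I × I) × T) →ₗ[F] V :=
    { toFun := fun w => s w.1.1 + (w.1.2 : V) + ((w.2 : K) : V)
      map_add' := by
        intro u w
        simp only [Prod.fst_add, Prod.snd_add, map_add, Submodule.coe_add]
        abel
      map_smul' := by
        intro c u
        simp only [Prod.smul_fst, Prod.smul_snd, map_smul, Submodule.coe_smul, smul_add, RingHom.id_apply] }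
  have hΦ : ∀ w, Φ w = s w.1.1 + (w.1.2 : V) + ((w.2 : K) : V) := fun _ => rfl
  have hNΦ : ∀ w, N (Φ w) = (w.1.1 : V) := by
    intro w
    rw [hΦ, map_add, map_add, hs']
    have h1 : N (w.1.2 : V) = 0 := hIK w.1.2.2
    have h2 : N ((w.2 : K) : V) = 0 := (w.2 : K).2
    rw [h1, h2, add_zero, add_zero]
  have hinj : Function.Injective Φ := by
    rw [← LinearMap.ker_eq_bot, LinearMap.ker_eq_bot']
    intro w hw
    have h1 : w.1.1 = 0 := by
      apply Subtype.ext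
      rw [← hNΦ w, hw, map_zero]; rfl
    rw [hΦ, h1, map_zero, zero_add] at hw
    have h2 : (⟨(w.1.2 : V), hIK w.1.2.2⟩ : K) + (w.2 : K) = 0 := Subtype.ext hw
    have h3 := congrArg π h2
    rw [map_add, hπ', map_zero] at h3
    have h4 : π (w.2 : K) = 0 := w.2.2
    rw [h4, add_zero] at h3
    have h5 : (w.2 : K) = 0 := by
      rw [h3] at h2
      rw [← h2]
      have : (⟨((0 : I) : V), hIK (0 : I).2⟩ : K) = 0 := rfl
      rw [this, zero_add]
    exact Prod.ext (Prod.ext h1 h3) (Subtype.ext h5)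
  have hsurj : Function.Surjective Φ := by
    intro v
    have h1 : N v ∈ I := ⟨v, rfl⟩
    have h2 : v - s ⟨N v, h1⟩ ∈ K := by
      rw [hK, LinearMap.mem_ker, map_sub, hs', sub_self]
    have h3 : (⟨v - s ⟨N v, h1⟩, h2⟩ : K) - ⟨(π ⟨v - s ⟨N v, h1⟩, h2⟩ : V), hIK (π ⟨v - s ⟨N v, h1⟩, h2⟩).2⟩ ∈ T := by
      rw [hT, LinearMap.mem_ker, map_sub, hπ', sub_self]
    refine ⟨((⟨N v, h1⟩, π ⟨v - s ⟨N v, h1⟩, h2⟩), ⟨_, h3⟩), ?_⟩
    rw [hΦ]
    show s ⟨N v, h1⟩ + (π ⟨v - s ⟨N v, h1⟩, h2⟩ : V) + ((v - s ⟨N v, h1⟩) - (π ⟨v - s ⟨N v, h1⟩, h2⟩ : V)) = v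
    abel
  let e₀ := LinearEquiv.ofBijective Φ ⟨hinj, hsurj⟩
  let e₁ : (Fin (finrank F I) → F) ≃ₗ[F] I := LinearEquiv.ofFinrankEq _ _ (by simp)
  let e₂ : (Fin (finrank F T) → F) ≃ₗ[F] T := LinearEquiv.ofFinrankEq _ _ (by simp)
  refine ⟨finrank F I, finrank F T, ((e₁.prodCongr e₁).prodCongr e₂).trans e₀, fun w => ?_⟩
  show N (Φ ((e₁ w.1.1, e₁ w.1.2), e₂ w.2)) = Φ ((e₁ 0, e₁ w.1.1), e₂ 0)
  rw [hNΦ, hΦ, map_zero, map_zero, map_zero]
  simp

/-- maps with the same non-square square -/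
theorem intertwine_sq [Finite F] [FiniteDimensional F V₁] [FiniteDimensional F V₂] (z : F) (hz : ∀ b, b ^ 2 ≠ z)
    (A : Module.End F V₁) (B : Module.End F V₂) (hA : ∀ v, A (A v) = z • v) (hB : ∀ v, B (B v) = z • v)
    (hfin : finrank F V₁ = finrank F V₂) :
    (∃ P : V₁ ≃ₗ[F] V₂, ∀ v, P (A v) = B (P v)) ∧
    (0 < finrank F V₁ → ∀ d : F, d ≠ 0 → ∃ g : V₁ ≃ₗ[F] V₁, (∀ v, g (A v) = A (g v)) ∧ LinearMap.det (g : V₁ →ₗ[F] V₁) = d) := by
  set f : F[X] := X ^ 2 - C z with hf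
  have hirr : Irreducible f := X_pow_sub_C_irreducible_of_prime Nat.prime_two hz
  haveI : Fact (Irreducible f) := ⟨hirr⟩
  have hf0 : f ≠ 0 := hirr.ne_zero
  haveI : Module.Finite F (AdjoinRoot f) := (AdjoinRoot.powerBasis hf0).finite
  haveI : Finite (AdjoinRoot f) := Module.finite_of_finite F
  have h1 : Polynomial.aeval A f = 0 := by
    rw [hf, map_sub, map_pow, aeval_X, aeval_C, sub_eq_zero, pow_two, Algebra.algebraMap_eq_smul_one]
    exact LinearMap.ext hA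
  have h2 : Polynomial.aeval B f = 0 := by
    rw [hf, map_sub, map_pow, aeval_X, aeval_C, sub_eq_zero, pow_two, Algebra.algebraMap_eq_smul_one]
    exact LinearMap.ext hB
  let ρ₁ : AdjoinRoot f →ₐ[F] Module.End F V₁ :=
    Ideal.Quotient.liftₐ (Ideal.span {f}) (Polynomial.aeval A) (by
      intro a ha
      obtain ⟨g, rfl⟩ := Ideal.mem_span_singleton.1 ha
      rw [map_mul, h1, zero_mul])
  let ρ₂ : AdjoinRoot f →ₐ[F] Module.End F V₂ :=
    Ideal.Quotient.liftₐ (Ideal.span {f}) (Polynomial.aeval B) (by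
      intro a ha
      obtain ⟨g, rfl⟩ := Ideal.mem_span_singleton.1 ha
      rw [map_mul, h2, zero_mul])
  have e1 : ρ₁ (AdjoinRoot.mk f X) = A := by
    show Polynomial.aeval A X = A
    rw [aeval_X]
  have e2 : ρ₂ (AdjoinRoot.mk f X) = B := by
    show Polynomial.aeval B X = B
    rw [aeval_X]
  constructor
  · obtain ⟨P, hP⟩ := exists_equiv ρ₁ ρ₂ hfin
    refine ⟨P, fun v => ?_⟩
    have := hP (AdjoinRoot.mk f X) v
    rwa [e1, e2] at this
  · intro hpos d hd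
    obtain ⟨g, hg1, hg2⟩ := exists_det ρ₁ hpos d hd
    refine ⟨g, fun v => ?_, hg2⟩
    have := hg1 (AdjoinRoot.mk f X) v
    rwa [e1] at this

end abs

section mat
variable {F : Type*} [Field F] {n k : ℕ}

/-- transport of structure inside `SL` -/
theorem conj_abs (x : Matrix.SpecialLinearGroup (Fin n) F) {W : Type*} [AddCommGroup W] [Module F W]
    (y : Module.End F W) (P₁ : (Fin n → F) ≃ₗ[F] W)
    (hP : ∀ v, P₁ ((x : Matrix (Fin n) (Fin n) F) *ᵥ v) = y (P₁ v)) (Q : (Fin n → F) ≃ₗ[F] W)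
    (hg : ∀ d : F, d ≠ 0 → ∃ g : W ≃ₗ[F] W, (∀ v, g (y v) = y (g v)) ∧ LinearMap.det (g : W →ₗ[F] W) = d) :
    ∃ P : Matrix.SpecialLinearGroup (Fin n) F,
      ∀ v, ((P⁻¹ * x * P : Matrix.SpecialLinearGroup (Fin n) F) : Matrix (Fin n) (Fin n) F) *ᵥ v = Q.symm (y (Q v)) := by
  set D := LinearMap.det (((Q.trans P₁.symm : (Fin n → F) ≃ₗ[F] (Fin n → F))) : (Fin n → F) →ₗ[F] (Fin n → F)) with hD
  have hD0 : D ≠ 0 := (LinearEquiv.isUnit_det' _).ne_zero
  obtain ⟨g, hg1, hg2⟩ := hg D⁻¹ (inv_ne_zero hD0)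
  set R : (Fin n → F) ≃ₗ[F] (Fin n → F) := (Q.trans g).trans P₁.symm with hR
  have hRd : LinearMap.det (R : (Fin n → F) →ₗ[F] (Fin n → F)) = 1 := by
    have h1 : (R : (Fin n → F) →ₗ[F] (Fin n → F)) =
        ((Q.trans P₁.symm : (Fin n → F) ≃ₗ[F] (Fin n → F)) : (Fin n → F) →ₗ[F] (Fin n → F)) ∘ₗ
          ((Q.symm : W →ₗ[F] (Fin n → F)) ∘ₗ (g : W →ₗ[F] W) ∘ₗ ((Q.symm.symm : (Fin n → F) ≃ₗ[F] W) : (Fin n → F) →ₗ[F] W)) := by
      apply LinearMap.ext
      intro v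
      show P₁.symm (g (Q v)) = P₁.symm (Q (Q.symm (g (Q v))))
      rw [LinearEquiv.apply_symm_apply]
    rw [h1, LinearMap.det_comp, LinearMap.det_conj, hg2, ← hD, mul_inv_cancel₀ hD0]
  obtain ⟨P, hPv⟩ : ∃ P : Matrix.SpecialLinearGroup (Fin n) F, ∀ v, (P : Matrix (Fin n) (Fin n) F) *ᵥ v = R v := by
    refine ⟨⟨LinearMap.toMatrix' (R : (Fin n → F) →ₗ[F] (Fin n → F)), by
      rw [LinearMap.det_toMatrix', hRd]⟩, fun v => ?_⟩
    show LinearMap.toMatrix' (R : (Fin n → F) →ₗ[F] (Fin n → F)) *ᵥ v = _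
    rw [LinearMap.toMatrix'_mulVec]; rfl
  refine ⟨P, fun v => ?_⟩
  apply R.injective
  rw [← hPv, Matrix.mulVec_mulVec, ← Matrix.SpecialLinearGroup.coe_mul]
  have h2 : P * (P⁻¹ * x * P) = x * P := by group
  rw [h2, Matrix.SpecialLinearGroup.coe_mul, ← Matrix.mulVec_mulVec]
  apply P₁.injective
  rw [hP, hPv]
  show y (P₁ (P₁.symm (g (Q v)))) = P₁ (P₁.symm (g (Q (Q.symm (y (Q v))))))
  rw [LinearEquiv.apply_symm_apply, LinearEquiv.apply_symm_apply, LinearEquiv.apply_symm_apply, hg1]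

/-- a two-argument form as a bilinear map -/
def mkB (f : (Fin n → F) → (Fin n → F) → F) (hf : IsSymplecticForm f) : (Fin n → F) →ₗ[F] (Fin n → F) →ₗ[F] F :=
  LinearMap.mk₂ F f hf.bilinear.add_left hf.bilinear.smul_left hf.bilinear.add_right hf.bilinear.smul_right

theorem sim_into [Finite F] {f : (Fin n → F) → (Fin n → F) → F} (hf : IsSymplecticForm f)
    (x : Matrix.SpecialLinearGroup (Fin n) F) {W : Type*} [AddCommGroup W] [Module F W] [FiniteDimensional F W]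
    (y : Module.End F W) (P₁ : (Fin n → F) ≃ₗ[F] W)
    (hP : ∀ v, P₁ ((x : Matrix (Fin n) (Fin n) F) *ᵥ v) = y (P₁ v))
    (b : W →ₗ[F] W →ₗ[F] F) (hs : ∀ x, b x x = 0) (hn : ∀ x, (∀ y, b x y = 0) → x = 0) (c : F) (hc : c ≠ 0)
    (hy : ∀ u v, b (y u) (y v) = c * b u v)
    (hg : ∀ d : F, d ≠ 0 → ∃ g : W ≃ₗ[F] W, (∀ v, g (y v) = y (g v)) ∧ LinearMap.det (g : W →ₗ[F] W) = d) :
    ∃ P : Matrix.SpecialLinearGroup (Fin n) F, P⁻¹ * x * P ∈ (similarityGroup f).comap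
      (Matrix.SpecialLinearGroup.toGL : Matrix.SpecialLinearGroup (Fin n) F →* GL (Fin n) F) := by
  obtain ⟨φ, hφ⟩ := Cfsg.Agent.H5.Sym2.alt_isometric (mkB f hf) hf.alternating (fun u hu => by
    by_contra h0
    obtain ⟨-, w, hw⟩ := hf.nondegenerate u h0
    exact hw (hu w)) b hs hn P₁.finrank_eq
  obtain ⟨P, hPv⟩ := conj_abs x y P₁ hP φ hg
  refine ⟨P, ?_⟩
  rw [Subgroup.mem_comap]
  refine ⟨Units.mk0 c hc, fun u v => ?_⟩
  show f (((P⁻¹ * x * P : Matrix.SpecialLinearGroup (Fin n) F) : Matrix (Fin n) (Fin n) F) *ᵥ u)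
    (((P⁻¹ * x * P : Matrix.SpecialLinearGroup (Fin n) F) : Matrix (Fin n) (Fin n) F) *ᵥ v) = c * f u v
  rw [hPv, hPv]
  have h1 : ∀ a b', f a b' = b (φ a) (φ b') := fun a b' => (hφ a b').symm
  rw [h1, h1 u v, LinearEquiv.apply_symm_apply, LinearEquiv.apply_symm_apply, hy]

end mat


section forms
variable {F W₁ W₂ : Type*} [Field F] [AddCommGroup W₁] [Module F W₁] [AddCommGroup W₂] [Module F W₂]

/-- the standard alternating form on a doubled space -/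
def dblB (m : ℕ) (F : Type*) [Field F] : ((Fin m → F) × (Fin m → F)) →ₗ[F] ((Fin m → F) × (Fin m → F)) →ₗ[F] F :=
  LinearMap.mk₂ F (fun u v => u.1 ⬝ᵥ v.2 - u.2 ⬝ᵥ v.1)
    (by intro a b c; simp only [Prod.fst_add, Prod.snd_add, add_dotProduct]; ring)
    (by intro a b c; simp only [Prod.smul_fst, Prod.smul_snd, smul_dotProduct, smul_eq_mul]; ring)
    (by intro a b c; simp only [Prod.fst_add, Prod.snd_add, dotProduct_add]; ring)
    (by intro a b c; simp only [Prod.smul_fst, Prod.smul_snd, dotProduct_smul, smul_eq_mul]; ring)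

theorem dblB_apply (m : ℕ) (u v : (Fin m → F) × (Fin m → F)) : dblB m F u v = u.1 ⬝ᵥ v.2 - u.2 ⬝ᵥ v.1 := rfl

theorem dblB_alt (m : ℕ) (u : (Fin m → F) × (Fin m → F)) : dblB m F u u = 0 := by
  rw [dblB_apply, dotProduct_comm, sub_self]

theorem dblB_nd (m : ℕ) (u : (Fin m → F) × (Fin m → F)) (h : ∀ v, dblB m F u v = 0) : u = 0 := by
  apply Prod.ext
  · funext i
    have := h (0, Pi.single i 1)
    rw [dblB_apply] at this
    simpa using this
  · funext i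
    have := h (Pi.single i 1, 0)
    rw [dblB_apply] at this
    simpa using this

/-- orthogonal sums -/
def sumB (b₁ : W₁ →ₗ[F] W₁ →ₗ[F] F) (b₂ : W₂ →ₗ[F] W₂ →ₗ[F] F) : (W₁ × W₂) →ₗ[F] (W₁ × W₂) →ₗ[F] F :=
  LinearMap.mk₂ F (fun u v => b₁ u.1 v.1 + b₂ u.2 v.2)
    (by intro a b c; simp only [Prod.fst_add, Prod.snd_add, map_add, LinearMap.add_apply]; ring)
    (by intro a b c; simp only [Prod.smul_fst, Prod.smul_snd, map_smul, LinearMap.smul_apply, smul_eq_mul]; ring)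
    (by intro a b c; simp only [Prod.fst_add, Prod.snd_add, map_add]; ring)
    (by intro a b c; simp only [Prod.smul_fst, Prod.smul_snd, map_smul, smul_eq_mul]; ring)

theorem sumB_apply (b₁ : W₁ →ₗ[F] W₁ →ₗ[F] F) (b₂ : W₂ →ₗ[F] W₂ →ₗ[F] F) (u v : W₁ × W₂) :
    sumB b₁ b₂ u v = b₁ u.1 v.1 + b₂ u.2 v.2 := rfl

theorem sumB_alt {b₁ : W₁ →ₗ[F] W₁ →ₗ[F] F} {b₂ : W₂ →ₗ[F] W₂ →ₗ[F] F} (h₁ : ∀ x, b₁ x x = 0) (h₂ : ∀ x, b₂ x x = 0)
    (u : W₁ × W₂) : sumB b₁ b₂ u u = 0 := by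
  rw [sumB_apply, h₁, h₂, add_zero]

theorem sumB_nd {b₁ : W₁ →ₗ[F] W₁ →ₗ[F] F} {b₂ : W₂ →ₗ[F] W₂ →ₗ[F] F} (h₁ : ∀ x, (∀ y, b₁ x y = 0) → x = 0)
    (h₂ : ∀ x, (∀ y, b₂ x y = 0) → x = 0) (u : W₁ × W₂) (h : ∀ v, sumB b₁ b₂ u v = 0) : u = 0 := by
  apply Prod.ext
  · apply h₁
    intro y
    have := h (y, 0)
    rw [sumB_apply, map_zero, add_zero] at this
    exact this
  · apply h₂
    intro y
    have := h (0, y)
    rw [sumB_apply, map_zero, zero_add] at this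
    exact this

/-- determinants commuting with a split involution -/
theorem det_split [Finite F] [FiniteDimensional F W₁] [FiniteDimensional F W₂] (h : 0 < finrank F (W₁ × W₂)) (c : F)
    (d : F) (hd : d ≠ 0) : ∃ g : (W₁ × W₂) ≃ₗ[F] (W₁ × W₂),
      (∀ v, g ((c • LinearMap.prodMap LinearMap.id (-LinearMap.id) : Module.End F (W₁ × W₂)) v) =
        (c • LinearMap.prodMap LinearMap.id (-LinearMap.id) : Module.End F (W₁ × W₂)) (g v)) ∧
      LinearMap.det (g : (W₁ × W₂) →ₗ[F] (W₁ × W₂)) = d := by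
  rw [Module.finrank_prod] at h
  obtain ⟨g₁, g₂, hg⟩ : ∃ (g₁ : W₁ ≃ₗ[F] W₁) (g₂ : W₂ ≃ₗ[F] W₂),
      LinearMap.det (g₁ : W₁ →ₗ[F] W₁) * LinearMap.det (g₂ : W₂ →ₗ[F] W₂) = d := by
    by_cases h1 : 0 < finrank F W₁
    · obtain ⟨g, hg⟩ := exists_det_any h1 d hd
      exact ⟨g, LinearEquiv.refl F W₂, by rw [hg, LinearEquiv.refl_toLinearMap, LinearMap.det_id, mul_one]⟩
    · obtain ⟨g, hg⟩ := exists_det_any (V := W₂) (by omega) d hd
      exact ⟨LinearEquiv.refl F W₁, g, by rw [hg, LinearEquiv.refl_toLinearMap, LinearMap.det_id, one_mul]⟩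
  refine ⟨g₁.prodCongr g₂, fun v => ?_, ?_⟩
  · show (g₁ (c • v.1), g₂ (c • -v.2)) = (c • g₁ v.1, c • -(g₂ v.2))
    rw [map_smul, map_smul, map_neg]
  · rw [← hg, ← LinearMap.det_prodMap]; rfl

/-- determinants commuting with a square-zero map in characteristic two -/
theorem det_nil [Finite F] {a : ℕ} (ha : 0 < a) (h2 : (2 : F) = 0) [FiniteDimensional F W₂]
    (c : F) (y : Module.End F (((Fin a → F) × (Fin a → F)) × W₂))
    (hy : ∀ w, y w = c • ((w.1.1, w.1.2 + w.1.1), w.2)) (d : F) (hd : d ≠ 0) :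
    ∃ g : (((Fin a → F) × (Fin a → F)) × W₂) ≃ₗ[F] (((Fin a → F) × (Fin a → F)) × W₂),
      (∀ v, g (y v) = y (g v)) ∧
      LinearMap.det (g : (((Fin a → F) × (Fin a → F)) × W₂) →ₗ[F] (((Fin a → F) × (Fin a → F)) × W₂)) = d := by
  haveI : CharP F 2 := CharTwo.of_one_ne_zero_of_two_eq_zero one_ne_zero h2
  haveI : Fintype F := Fintype.ofFinite F
  obtain ⟨e, he⟩ := FiniteField.isSquare_of_char_two (F := F) (ringChar.eq_iff.2 inferInstance) d
  have he0 : e ≠ 0 := by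
    rintro rfl
    exact hd (by rw [he, mul_zero])
  obtain ⟨g, hg⟩ := exists_det_any (V := Fin a → F) (by simpa using ha) e he0
  refine ⟨(g.prodCongr g).prodCongr (LinearEquiv.refl F W₂), fun v => ?_, ?_⟩
  · rw [hy, hy, map_smul]
    congr 1
    show ((g v.1.1, g (v.1.2 + v.1.1)), v.2) = ((g v.1.1, g v.1.2 + g v.1.1), v.2)
    rw [map_add]
  · have : LinearMap.det (((g.prodCongr g).prodCongr (LinearEquiv.refl F W₂) :
        (((Fin a → F) × (Fin a → F)) × W₂) ≃ₗ[F] (((Fin a → F) × (Fin a → F)) × W₂)) :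
          (((Fin a → F) × (Fin a → F)) × W₂) →ₗ[F] (((Fin a → F) × (Fin a → F)) × W₂)) =
        LinearMap.det (LinearMap.prodMap (LinearMap.prodMap (g : (Fin a → F) →ₗ[F] (Fin a → F)) (g : (Fin a → F) →ₗ[F] (Fin a → F)))
          (LinearMap.id : W₂ →ₗ[F] W₂)) := rfl
    rw [this, LinearMap.det_prodMap, LinearMap.det_prodMap, hg, LinearMap.det_id, mul_one, ← he]

end forms


section subf
variable {F : Type*} [Field F] {n : ℕ}

/-- a matrix which becomes defined over `F₀` after multiplying with a nonzero scalar -/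
theorem mem_sub_of (F₀ : Subfield F) (g : GL (Fin n) F) (c : F) (hc : c ≠ 0)
    (M : Matrix (Fin n) (Fin n) F) (hM : ∀ i j, M i j ∈ F₀) (hgM : (g : Matrix (Fin n) (Fin n) F) = c • M) :
    g ∈ subfieldSubgroup F₀ 1 := by
  let M₀ : Matrix (Fin n) (Fin n) F₀ := Matrix.of fun i j => ⟨M i j, hM i j⟩
  have hM₀ : M₀.map (F₀.subtype : F₀ →+* F) = M := by
    ext i j; rfl
  have hdet : M₀.det ≠ 0 := by
    intro h0
    have h1 : (F₀.subtype : F₀ →+* F) M₀.det = M.det := by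
      rw [RingHom.map_det, ← hM₀]; rfl
    rw [h0, map_zero] at h1
    have h2 : (g : Matrix (Fin n) (Fin n) F).det ≠ 0 :=
      ((Matrix.isUnit_iff_isUnit_det _).1 g.isUnit).ne_zero
    rw [hgM, Matrix.det_smul, ← h1, mul_zero] at h2
    exact h2 rfl
  refine ⟨g, ?_, by simp⟩
  have hg : g = Matrix.GeneralLinearGroup.map (F₀.subtype : F₀ →+* F) (Matrix.GeneralLinearGroup.mkOfDetNeZero M₀ hdet) *
      (Units.map (Matrix.scalar (Fin n) : F →+* Matrix (Fin n) (Fin n) F).toMonoidHom (Units.mk0 c hc)) := by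
    apply Units.ext
    rw [Units.val_mul]
    show (g : Matrix (Fin n) (Fin n) F) = M₀.map (F₀.subtype : F₀ →+* F) * Matrix.scalar (Fin n) c
    rw [hM₀, hgM, Matrix.scalar_apply, ← Matrix.smul_one_eq_diagonal, Matrix.mul_smul, mul_one]
  rw [hg]
  exact Subgroup.mul_mem _ (Subgroup.mem_sup_left ⟨_, rfl⟩) (Subgroup.mem_sup_right ⟨_, rfl⟩)

theorem of_mem_sub (F₀ : Subfield F) (g : GL (Fin n) F) (hg : g ∈ subfieldSubgroup F₀ 1) :
    ∃ (c : F) (M : Matrix (Fin n) (Fin n) F₀), c ≠ 0 ∧ (g : Matrix (Fin n) (Fin n) F) = c • M.map (F₀.subtype : F₀ →+* F) := by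
  obtain ⟨g', hg', rfl⟩ := hg
  have h1 : (MulAut.conj (1 : GL (Fin n) F)).toMonoidHom g' = g' := by simp
  rw [h1]
  haveI : (scalars (Fin n) F).Normal := ⟨by
    intro s hs t
    rw [mem_scalars_iff] at hs ⊢
    obtain ⟨c, hc⟩ := hs
    refine ⟨c, ?_⟩
    rw [Units.val_mul, Units.val_mul, hc, mul_smul_comm, mul_one, smul_mul_assoc, ← Units.val_mul, mul_inv_cancel,
      Units.val_one]⟩
  obtain ⟨a, ⟨m, rfl⟩, s, hs, rfl⟩ := Subgroup.mem_sup_of_normal_right.1 hg'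
  rw [mem_scalars_iff] at hs
  obtain ⟨c, hc⟩ := hs
  refine ⟨c, m, c.ne_zero, ?_⟩
  rw [Units.val_mul, hc, Matrix.mul_smul, mul_one]
  rfl

/-- transport into the subfield group -/
theorem sub_into (F₀ : Subfield F) (x : Matrix.SpecialLinearGroup (Fin n) F) {ι : Type*} [Fintype ι] [DecidableEq ι]
    (e : Fin n ≃ ι) (M : Matrix ι ι F) (hM : ∀ i j, M i j ∈ F₀) (c : F) (hc : c ≠ 0) (P₁ : (Fin n → F) ≃ₗ[F] (ι → F))
    (hP : ∀ v, P₁ ((x : Matrix (Fin n) (Fin n) F) *ᵥ v) = c • (M *ᵥ (P₁ v)))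
    (hg : ∀ d : F, d ≠ 0 → ∃ g : (ι → F) ≃ₗ[F] (ι → F), (∀ v, g (c • (M *ᵥ v)) = c • (M *ᵥ (g v))) ∧
      LinearMap.det (g : (ι → F) →ₗ[F] (ι → F)) = d) :
    ∃ P : Matrix.SpecialLinearGroup (Fin n) F, P⁻¹ * x * P ∈ (subfieldSubgroup F₀ 1).comap
      (Matrix.SpecialLinearGroup.toGL : Matrix.SpecialLinearGroup (Fin n) F →* GL (Fin n) F) := by
  obtain ⟨P, hPv⟩ := conj_abs x (c • Matrix.toLin' M) P₁ (fun v => by
    rw [hP, LinearMap.smul_apply, Matrix.toLin'_apply]) (LinearEquiv.funCongrLeft F F e.symm) (fun d hd => by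
      obtain ⟨g, hg1, hg2⟩ := hg d hd
      exact ⟨g, fun v => by rw [LinearMap.smul_apply, Matrix.toLin'_apply, LinearMap.smul_apply, Matrix.toLin'_apply, hg1], hg2⟩)
  refine ⟨P, ?_⟩
  rw [Subgroup.mem_comap]
  apply mem_sub_of F₀ _ c hc (M.submatrix e e) (fun i j => hM _ _)
  show ((P⁻¹ * x * P : Matrix.SpecialLinearGroup (Fin n) F) : Matrix (Fin n) (Fin n) F) = _
  apply Matrix.toLin'.injective
  apply LinearMap.ext
  intro v
  rw [Matrix.toLin'_apply, hPv, Matrix.toLin'_apply, Matrix.smul_mulVec, Matrix.submatrix_mulVec_equiv,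
    LinearMap.smul_apply, Matrix.toLin'_apply, map_smul]
  congr 1

theorem fromBlocks_rat (F₀ : Subfield F) {a b c d : Type*} {A : Matrix a c F} {B : Matrix a d F} {C : Matrix b c F}
    {D : Matrix b d F} (hA : ∀ i j, A i j ∈ F₀) (hB : ∀ i j, B i j ∈ F₀) (hC : ∀ i j, C i j ∈ F₀) (hD : ∀ i j, D i j ∈ F₀)
    (i j) : Matrix.fromBlocks A B C D i j ∈ F₀ := by
  rcases i with i | i <;> rcases j with j | j
  · exact hA i j
  · exact hB i j
  · exact hC i j
  · exact hD i j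

theorem one_rat (F₀ : Subfield F) {a : Type*} [DecidableEq a] (i j : a) : (1 : Matrix a a F) i j ∈ F₀ := by
  rw [Matrix.one_apply]
  split_ifs
  · exact F₀.one_mem
  · exact F₀.zero_mem

end subf


section subf2
variable {F : Type*} [Field F] {n : ℕ}

/-- transport into the subfield group, general form -/
theorem sub_into' (F₀ : Subfield F) (x : Matrix.SpecialLinearGroup (Fin n) F) {W : Type*} [AddCommGroup W] [Module F W]
    (y : Module.End F W) (P₁ : (Fin n → F) ≃ₗ[F] W)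
    (hP : ∀ v, P₁ ((x : Matrix (Fin n) (Fin n) F) *ᵥ v) = y (P₁ v)) {ι : Type*} [Fintype ι] [DecidableEq ι]
    (S : W ≃ₗ[F] (ι → F)) (M : Matrix ι ι F) (hM : ∀ i j, M i j ∈ F₀) (c : F) (hc : c ≠ 0)
    (hS : ∀ w, S (y w) = c • (M *ᵥ (S w)))
    (hg : ∀ d : F, d ≠ 0 → ∃ g : W ≃ₗ[F] W, (∀ v, g (y v) = y (g v)) ∧ LinearMap.det (g : W →ₗ[F] W) = d) :
    ∃ P : Matrix.SpecialLinearGroup (Fin n) F, P⁻¹ * x * P ∈ (subfieldSubgroup F₀ 1).comap
      (Matrix.SpecialLinearGroup.toGL : Matrix.SpecialLinearGroup (Fin n) F →* GL (Fin n) F) := by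
  have hcard : Fintype.card (Fin n) = Fintype.card ι := by
    have h1 := P₁.finrank_eq
    have h2 := S.finrank_eq
    rw [h2, Module.finrank_fintype_fun_eq_card, Module.finrank_fintype_fun_eq_card] at h1
    exact h1
  set e : Fin n ≃ ι := Fintype.equivOfCardEq hcard with he
  obtain ⟨P, hPv⟩ := conj_abs x y P₁ hP ((LinearEquiv.funCongrLeft F F e.symm).trans S.symm) hg
  refine ⟨P, ?_⟩
  rw [Subgroup.mem_comap]
  apply mem_sub_of F₀ _ c hc (M.submatrix e e) (fun i j => hM _ _)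
  show ((P⁻¹ * x * P : Matrix.SpecialLinearGroup (Fin n) F) : Matrix (Fin n) (Fin n) F) = _
  apply Matrix.toLin'.injective
  apply LinearMap.ext
  intro v
  rw [Matrix.toLin'_apply, hPv, Matrix.toLin'_apply, Matrix.smul_mulVec, Matrix.submatrix_mulVec_equiv]
  show (LinearEquiv.funCongrLeft F F e.symm).symm (S (y (S.symm ((LinearEquiv.funCongrLeft F F e.symm) v)))) = _
  rw [hS, LinearEquiv.apply_symm_apply, map_smul]
  congr 1

end subf2


section cube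
variable {F V : Type*} [Field F] [AddCommGroup V] [Module F V]

/-- normal form of cube-zero maps -/
theorem cube_struct [FiniteDimensional F V] (N : V →ₗ[F] V) (hN : ∀ v, N (N (N v)) = 0) :
    ∃ (a b c : ℕ) (P : ((((Fin a → F) × (Fin a → F)) × (Fin a → F)) × (((Fin b → F) × (Fin b → F)) × (Fin c → F))) ≃ₗ[F] V),
      ∀ w, N (P w) = P (((0, w.1.1.1), w.1.1.2), ((0, w.2.1.1), 0)) := by
  set N2 : V →ₗ[F] V := N ∘ₗ N with hN2
  set I := LinearMap.range N2 with hI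
  have hIN : ∀ i : I, N (i : V) = 0 := by
    rintro ⟨_, v, rfl⟩
    exact hN v
  obtain ⟨s, hs⟩ := N2.rangeRestrict.exists_rightInverse_of_surjective (LinearMap.range_rangeRestrict N2)
  obtain ⟨ρ, hρ⟩ := I.subtype.exists_leftInverse_of_injective (Submodule.ker_subtype I)
  have hs' : ∀ i : I, N (N (s i)) = i := fun i => congrArg Subtype.val (LinearMap.congr_fun hs i)
  have hρ' : ∀ i : I, ρ (i : V) = i := fun i => LinearMap.congr_fun hρ i
  set U : Submodule F V := LinearMap.ker ρ ⊓ LinearMap.ker (ρ ∘ₗ N) ⊓ LinearMap.ker (ρ ∘ₗ N2) with hU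
  have hUm : ∀ v, v ∈ U ↔ ρ v = 0 ∧ ρ (N v) = 0 ∧ ρ (N (N v)) = 0 := by
    intro v
    rw [hU, Submodule.mem_inf, Submodule.mem_inf, LinearMap.mem_ker, LinearMap.mem_ker, LinearMap.mem_ker, and_assoc]
    rfl
  have hUN : ∀ u ∈ U, N u ∈ U := by
    intro u hu
    rw [hUm] at hu ⊢
    exact ⟨hu.2.1, hu.2.2, by rw [hN, map_zero]⟩
  have hU2 : ∀ u ∈ U, N (N u) = 0 := by
    intro u hu
    have h1 := hρ' ⟨N (N u), ⟨u, rfl⟩⟩
    have h2 := ((hUm u).1 hu).2.2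
    have h3 : ρ (N (N u)) = ⟨N (N u), ⟨u, rfl⟩⟩ := h1
    rw [h2] at h3
    exact (congrArg Subtype.val h3).symm
  let Φ : (((I × I) × I) × U) →ₗ[F] V :=
    { toFun := fun w => s w.1.1.1 + N (s w.1.1.2) + (w.1.2 : V) + (w.2 : V)
      map_add' := by
        intro u w
        simp only [Prod.fst_add, Prod.snd_add, map_add, Submodule.coe_add]
        abel
      map_smul' := by
        intro c u
        simp only [Prod.smul_fst, Prod.smul_snd, map_smul, Submodule.coe_smul, smul_add, RingHom.id_apply] }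
  have hΦ : ∀ w, Φ w = s w.1.1.1 + N (s w.1.1.2) + (w.1.2 : V) + (w.2 : V) := fun _ => rfl
  have hNΦ : ∀ w, N (Φ w) = N (s w.1.1.1) + (w.1.1.2 : V) + N (w.2 : V) := by
    intro w
    rw [hΦ, map_add, map_add, map_add, hs', hIN, add_zero]
  have hNNΦ : ∀ w, N (N (Φ w)) = (w.1.1.1 : V) := by
    intro w
    rw [hNΦ, map_add, map_add, hs', hIN, hU2 _ w.2.2, add_zero, add_zero]
  have hinj : Function.Injective Φ := by
    rw [← LinearMap.ker_eq_bot, LinearMap.ker_eq_bot']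
    intro w hw
    have h1 : w.1.1.1 = 0 := by
      apply Subtype.ext
      rw [← hNNΦ w, hw, map_zero, map_zero]; rfl
    have h2 := hNΦ w
    rw [hw, map_zero, h1, map_zero, map_zero, zero_add] at h2
    have h3 := congrArg ρ h2
    rw [map_zero, map_add, hρ', ((hUm _).1 w.2.2).2.1, add_zero] at h3
    rw [hΦ, h1, ← h3, map_zero, map_zero, zero_add, zero_add] at hw
    have h4 := congrArg ρ hw
    rw [map_add, hρ', ((hUm _).1 w.2.2).1, add_zero, map_zero] at h4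
    have h5 : (w.2 : V) = 0 := by
      rw [h4] at hw
      have : ((0 : I) : V) = 0 := rfl
      rwa [this, zero_add] at hw
    exact Prod.ext (Prod.ext (Prod.ext h1 h3.symm) h4) (Subtype.ext h5)
  have hsurj : Function.Surjective Φ := by
    intro v
    set i : I := ⟨N (N v), ⟨v, rfl⟩⟩ with hi
    set v1 := v - s i with hv1
    have e1 : N (N v1) = 0 := by rw [hv1, map_sub, map_sub, hs', sub_self]
    set j : I := ρ (N v1) with hj
    set v2 := v1 - N (s j) with hv2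
    have e2 : N v2 = N v1 - j := by rw [hv2, map_sub, hs']
    set l : I := ρ v2 with hl
    set v3 := v2 - (l : V) with hv3
    have e3 : v3 ∈ U := by
      rw [hUm]
      refine ⟨?_, ?_, ?_⟩
      · rw [hv3, map_sub, hρ', sub_self]
      · rw [hv3, map_sub, hIN, sub_zero, e2, map_sub, hρ', sub_self]
      · rw [hv3, map_sub, hIN, sub_zero, e2, map_sub, hIN, sub_zero, e1, map_zero]
    refine ⟨(((i, j), l), ⟨v3, e3⟩), ?_⟩
    rw [hΦ]
    show s i + N (s j) + (l : V) + v3 = v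
    rw [hv3, hv2, hv1]
    abel
  let e₀ := LinearEquiv.ofBijective Φ ⟨hinj, hsurj⟩
  let NU : U →ₗ[F] U := N.restrict hUN
  obtain ⟨b, c, Ψ, hΨ⟩ := nil_struct NU (fun u => Subtype.ext (hU2 u u.2))
  let e₁ : (Fin (finrank F I) → F) ≃ₗ[F] I := LinearEquiv.ofFinrankEq _ _ (by simp)
  refine ⟨finrank F I, b, c, (((e₁.prodCongr e₁).prodCongr e₁).prodCongr Ψ).trans e₀, fun w => ?_⟩
  show N (Φ (((e₁ w.1.1.1, e₁ w.1.1.2), e₁ w.1.2), Ψ w.2)) = Φ (((e₁ 0, e₁ w.1.1.1), e₁ w.1.1.2), Ψ ((0, w.2.1.1), 0))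
  rw [hNΦ, hΦ, ← hΨ, map_zero, map_zero]
  show _ = 0 + N (s (e₁ w.1.1.1)) + (e₁ w.1.1.2 : V) + N (Ψ w.2 : V)
  rw [zero_add]

end cube

section subf3
variable {F : Type*} [Field F] {n : ℕ}

/-- transport of structure inside `SL`, with one prescribed determinant -/
theorem conj_abs' (x : Matrix.SpecialLinearGroup (Fin n) F) {W : Type*} [AddCommGroup W] [Module F W]
    (y : Module.End F W) (P₁ : (Fin n → F) ≃ₗ[F] W)
    (hP : ∀ v, P₁ ((x : Matrix (Fin n) (Fin n) F) *ᵥ v) = y (P₁ v)) (Q : (Fin n → F) ≃ₗ[F] W)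
    (hg : ∃ g : W ≃ₗ[F] W, (∀ v, g (y v) = y (g v)) ∧ LinearMap.det (g : W →ₗ[F] W) *
      LinearMap.det (((Q.trans P₁.symm : (Fin n → F) ≃ₗ[F] (Fin n → F))) : (Fin n → F) →ₗ[F] (Fin n → F)) = 1) :
    ∃ P : Matrix.SpecialLinearGroup (Fin n) F,
      ∀ v, ((P⁻¹ * x * P : Matrix.SpecialLinearGroup (Fin n) F) : Matrix (Fin n) (Fin n) F) *ᵥ v = Q.symm (y (Q v)) := by
  obtain ⟨g, hg1, hg2⟩ := hg
  set R : (Fin n → F) ≃ₗ[F] (Fin n → F) := (Q.trans g).trans P₁.symm with hR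
  have hRd : LinearMap.det (R : (Fin n → F) →ₗ[F] (Fin n → F)) = 1 := by
    have h1 : (R : (Fin n → F) →ₗ[F] (Fin n → F)) =
        ((Q.trans P₁.symm : (Fin n → F) ≃ₗ[F] (Fin n → F)) : (Fin n → F) →ₗ[F] (Fin n → F)) ∘ₗ
          ((Q.symm : W →ₗ[F] (Fin n → F)) ∘ₗ (g : W →ₗ[F] W) ∘ₗ ((Q.symm.symm : (Fin n → F) ≃ₗ[F] W) : (Fin n → F) →ₗ[F] W)) := by
      apply LinearMap.ext
      intro v
      show P₁.symm (g (Q v)) = P₁.symm (Q (Q.symm (g (Q v))))
      rw [LinearEquiv.apply_symm_apply]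
    rw [h1, LinearMap.det_comp, LinearMap.det_conj, mul_comm, hg2]
  obtain ⟨P, hPv⟩ : ∃ P : Matrix.SpecialLinearGroup (Fin n) F, ∀ v, (P : Matrix (Fin n) (Fin n) F) *ᵥ v = R v := by
    refine ⟨⟨LinearMap.toMatrix' (R : (Fin n → F) →ₗ[F] (Fin n → F)), by
      rw [LinearMap.det_toMatrix', hRd]⟩, fun v => ?_⟩
    show LinearMap.toMatrix' (R : (Fin n → F) →ₗ[F] (Fin n → F)) *ᵥ v = _
    rw [LinearMap.toMatrix'_mulVec]; rfl
  refine ⟨P, fun v => ?_⟩
  apply R.injective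
  rw [← hPv, Matrix.mulVec_mulVec, ← Matrix.SpecialLinearGroup.coe_mul]
  have h2 : P * (P⁻¹ * x * P) = x * P := by group
  rw [h2, Matrix.SpecialLinearGroup.coe_mul, ← Matrix.mulVec_mulVec]
  apply P₁.injective
  rw [hP, hPv]
  show y (P₁ (P₁.symm (g (Q v)))) = P₁ (P₁.symm (g (Q (Q.symm (y (Q v))))))
  rw [LinearEquiv.apply_symm_apply, LinearEquiv.apply_symm_apply, LinearEquiv.apply_symm_apply, hg1]

/-- transport into the subfield group, determinants up to the subfield -/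
theorem sub_into3 (hn0 : 0 < n) (F₀ : Subfield F) (x : Matrix.SpecialLinearGroup (Fin n) F) {W : Type*} [AddCommGroup W] [Module F W]
    (y : Module.End F W) (P₁ : (Fin n → F) ≃ₗ[F] W)
    (hP : ∀ v, P₁ ((x : Matrix (Fin n) (Fin n) F) *ᵥ v) = y (P₁ v)) {ι : Type*} [Fintype ι] [DecidableEq ι]
    (S : W ≃ₗ[F] (ι → F)) (M : Matrix ι ι F) (hM : ∀ i j, M i j ∈ F₀) (c : F) (hc : c ≠ 0)
    (hS : ∀ w, S (y w) = c • (M *ᵥ (S w)))
    (hg : ∀ d : F, d ≠ 0 → ∃ l ∈ F₀, l ≠ 0 ∧ ∃ g : W ≃ₗ[F] W, (∀ v, g (y v) = y (g v)) ∧ LinearMap.det (g : W →ₗ[F] W) = d * l) :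
    ∃ P : Matrix.SpecialLinearGroup (Fin n) F, P⁻¹ * x * P ∈ (subfieldSubgroup F₀ 1).comap
      (Matrix.SpecialLinearGroup.toGL : Matrix.SpecialLinearGroup (Fin n) F →* GL (Fin n) F) := by
  have hcard : Fintype.card (Fin n) = Fintype.card ι := by
    have h1 := P₁.finrank_eq
    have h2 := S.finrank_eq
    rw [h2, Module.finrank_fintype_fun_eq_card, Module.finrank_fintype_fun_eq_card] at h1
    exact h1
  set e : Fin n ≃ ι := Fintype.equivOfCardEq hcard with he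
  set Q₀ := (LinearEquiv.funCongrLeft F F e.symm).trans S.symm with hQ₀
  set D := LinearMap.det (((Q₀.trans P₁.symm : (Fin n → F) ≃ₗ[F] (Fin n → F))) : (Fin n → F) →ₗ[F] (Fin n → F)) with hD
  have hD0 : D ≠ 0 := (LinearEquiv.isUnit_det' _).ne_zero
  obtain ⟨l, hl, hl0, g, hg1, hg2⟩ := hg D⁻¹ (inv_ne_zero hD0)
  -- the rescaling
  set t : Fin n → F := Function.update (fun _ => 1) ⟨0, hn0⟩ l⁻¹ with ht
  have ht0 : ∀ i, t i ≠ 0 := by
    intro i
    rw [ht]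
    by_cases hi : i = ⟨0, hn0⟩
    · rw [hi, Function.update_self]; exact inv_ne_zero hl0
    · rw [Function.update_of_ne hi]; exact one_ne_zero
  have htF : ∀ i, t i ∈ F₀ := by
    intro i
    rw [ht]
    by_cases hi : i = ⟨0, hn0⟩
    · rw [hi, Function.update_self]; exact F₀.inv_mem hl
    · rw [Function.update_of_ne hi]; exact F₀.one_mem
  have hdt : (Matrix.diagonal t).det = l⁻¹ := by
    rw [Matrix.det_diagonal, ht, Finset.prod_update_of_mem (Finset.mem_univ _)]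
    simp
  have hti : (Matrix.diagonal t) * (Matrix.diagonal (fun i => (t i)⁻¹)) = 1 := by
    rw [Matrix.diagonal_mul_diagonal, ← Matrix.diagonal_one]
    congr 1
    funext i
    exact mul_inv_cancel₀ (ht0 i)
  have hti' : (Matrix.diagonal (fun i => (t i)⁻¹)) * (Matrix.diagonal t) = 1 := by
    rw [Matrix.diagonal_mul_diagonal, ← Matrix.diagonal_one]
    congr 1
    funext i
    exact inv_mul_cancel₀ (ht0 i)
  let T : (Fin n → F) ≃ₗ[F] (Fin n → F) := LinearEquiv.ofLinear (Matrix.toLin' (Matrix.diagonal t))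
    (Matrix.toLin' (Matrix.diagonal (fun i => (t i)⁻¹))) (by rw [← Matrix.toLin'_mul, hti, Matrix.toLin'_one])
    (by rw [← Matrix.toLin'_mul, hti', Matrix.toLin'_one])
  obtain ⟨P, hPv⟩ := conj_abs' x y P₁ hP (T.trans Q₀) ⟨g, hg1, by
    have h1 : ((((T.trans Q₀).trans P₁.symm : (Fin n → F) ≃ₗ[F] (Fin n → F))) : (Fin n → F) →ₗ[F] (Fin n → F)) =
        ((Q₀.trans P₁.symm : (Fin n → F) ≃ₗ[F] (Fin n → F)) : (Fin n → F) →ₗ[F] (Fin n → F)) ∘ₗ Matrix.toLin' (Matrix.diagonal t) := rfl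
    rw [h1, LinearMap.det_comp, LinearMap.det_toLin', hdt, hg2, ← hD]
    field_simp⟩
  refine ⟨P, ?_⟩
  rw [Subgroup.mem_comap]
  apply mem_sub_of F₀ _ c hc (Matrix.diagonal (fun i => (t i)⁻¹) * M.submatrix e e * Matrix.diagonal t)
  · intro i j
    rw [Matrix.mul_diagonal, Matrix.diagonal_mul]
    exact F₀.mul_mem (F₀.mul_mem (F₀.inv_mem (htF i)) (hM _ _)) (htF j)
  show ((P⁻¹ * x * P : Matrix.SpecialLinearGroup (Fin n) F) : Matrix (Fin n) (Fin n) F) = _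
  apply Matrix.toLin'.injective
  apply LinearMap.ext
  intro v
  rw [Matrix.toLin'_apply, hPv, Matrix.toLin'_apply, Matrix.smul_mulVec, ← Matrix.mulVec_mulVec, ← Matrix.mulVec_mulVec,
    Matrix.submatrix_mulVec_equiv]
  show Matrix.toLin' (Matrix.diagonal (fun i => (t i)⁻¹)) ((LinearEquiv.funCongrLeft F F e.symm).symm (S (y (S.symm ((LinearEquiv.funCongrLeft F F e.symm)
    (Matrix.toLin' (Matrix.diagonal t) v)))))) = _
  rw [hS, LinearEquiv.apply_symm_apply, map_smul, map_smul, Matrix.toLin'_apply, Matrix.toLin'_apply]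
  congr 1

end subf3

end Cfsg.Agent.H5.Fld
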