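import Cfsg.Agent.H5_Inv2
import Cfsg.Agent.H5_Sym2

set_option autoImplicit false
set_option linter.unusedSectionVars false

/-! Classes of involutions of orthogonal and symplectic groups in characteristic two: types and their number. -/

namespace Cfsg.Agent.H5.I2

open Module

section Count

theorem card_classes {G : Type*} [Group G] {P : G → Prop} {ι : Type*} (inv : G → ι) (S : Finset ι)
    (h1 : ∀ g, P g → inv g ∈ S) (h2 : ∀ s ∈ S, ∃ g, P g ∧ inv g = s)
    (h3 : ∀ g h, P g → P h → (IsConj g h ↔ inv g = inv h)) :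
    Nat.card {C : ConjClasses G // ∃ g : G, ConjClasses.mk g = C ∧ P g} = S.card := by
  classical
  choose f hf1 hf2 using h2
  let φ : S → {C : ConjClasses G // ∃ g : G, ConjClasses.mk g = C ∧ P g} := fun s =>
    ⟨ConjClasses.mk (f s.1 s.2), f s.1 s.2, rfl, hf1 s.1 s.2⟩
  have hφ : Function.Bijective φ := by
    constructor
    · intro s s' h
      have h4 : ConjClasses.mk (f s.1 s.2) = ConjClasses.mk (f s'.1 s'.2) := congrArg Subtype.val h
      rw [ConjClasses.mk_eq_mk_iff_isConj, h3 _ _ (hf1 _ _) (hf1 _ _), hf2, hf2] at h4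
      exact Subtype.ext h4
    · rintro ⟨C, g, rfl, hg⟩
      refine ⟨⟨inv g, h1 g hg⟩, ?_⟩
      apply Subtype.ext
      change ConjClasses.mk (f _ _) = ConjClasses.mk g
      rw [ConjClasses.mk_eq_mk_iff_isConj, h3 _ _ (hf1 _ _) hg, hf2]
  rw [← Nat.card_congr (Equiv.ofBijective φ hφ), Nat.card_eq_fintype_card, Fintype.card_coe]

/-- the set of types: rank `s ≤ a` with `p s`, not alternating; rank `s ≤ b` even, alternating -/
def types (a b : ℕ) (p : ℕ → Prop) [DecidablePred p] : Finset (ℕ × Bool) :=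
  ((Finset.Ioc 0 a).filter p) ×ˢ {false} ∪ ((Finset.Ioc 0 b).filter (fun s => 2 ∣ s)) ×ˢ {true}

theorem mem_types {a b : ℕ} {p : ℕ → Prop} [DecidablePred p] {x : ℕ × Bool} : x ∈ types a b p ↔
    (x.2 = false ∧ 0 < x.1 ∧ x.1 ≤ a ∧ p x.1) ∨ (x.2 = true ∧ 0 < x.1 ∧ x.1 ≤ b ∧ 2 ∣ x.1) := by
  rw [types, Finset.mem_union, Finset.mem_product, Finset.mem_product]
  simp only [Finset.mem_filter, Finset.mem_Ioc, Finset.mem_singleton]
  tauto

theorem card_types (a b : ℕ) (p : ℕ → Prop) [DecidablePred p] :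
    (types a b p).card = ((Finset.Ioc 0 a).filter p).card + b / 2 := by
  rw [types, Finset.card_union_of_disjoint]
  · rw [Finset.card_product, Finset.card_product, Finset.card_singleton, Finset.card_singleton, mul_one, mul_one,
      Nat.Ioc_filter_dvd_card_eq_div]
  · rw [Finset.disjoint_left]
    rintro ⟨s, c⟩ h1 h2
    rw [Finset.mem_product, Finset.mem_singleton] at h1 h2
    rw [h1.2] at h2
    exact absurd h2.2 (by decide)

end Count

section Types

open Cfsg.Agent.H5 Cfsg.Agent.H5.Frm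

variable {F : Type*} [Field F] [CharP F 2] {V : Type*} [AddCommGroup V] [Module F V] [FiniteDimensional F V]

theorem alt_even (b : V →ₗ[F] V →ₗ[F] F) (hs : ∀ x, b x x = 0) (hn : ∀ x, (∀ y, b x y = 0) → x = 0) :
    Even (finrank F V) := by
  obtain ⟨k, a, ha, hw⟩ := exists_wittDec (F := F) (σ := RingHom.id F) (ε := -1) (t := (0 : F →+ F)) 0
    (fun {V} _ _ _ A hA h => by
      have : Nontrivial V := Module.nontrivial_of_finrank_pos (R := F) h
      obtain ⟨v, hv⟩ := exists_ne (0 : V)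
      obtain ⟨s, hs⟩ := A.Q_t v
      exact ⟨v, hv, by rw [← hs]; rfl⟩) _ (ofAlt b hs) (fun x hx => hn x hx) rfl
  have e1 := hw.finrank_eq
  obtain rfl : a = 0 := by omega
  exact ⟨k, by omega⟩

/-- quadratic form vanishing on the image gives even rank -/
theorem quad_even {Q : QuadraticForm F V} (hQ : (ofQuad Q).Nondeg) {τ : V ≃ₗ[F] V}
    (hτ : τ ∈ (ofQuad Q).isom) (hτ2 : ∀ v, τ (τ v) = v) (ha : ∀ v, Q (nn τ v) = 0) :
    Even (finrank F (LinearMap.range (nn τ))) :=
  alt_even (bf (ofQuad Q) τ) (fun x => by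
    rw [← quad_Q_bf hτ hτ2]
    obtain ⟨v, hv⟩ := x.2
    rw [← hv]; exact ha v) (fun x hx => bf_nondeg hQ hτ hτ2 x hx)

theorem quad_conj_of_type (hsq : ∀ a : F, IsSquare a) {Q : QuadraticForm F V} (hQ : (ofQuad Q).Nondeg)
    {τ ς : V ≃ₗ[F] V} (hτ : τ ∈ (ofQuad Q).isom) (hτ2 : ∀ v, τ (τ v) = v) (hς : ς ∈ (ofQuad Q).isom)
    (hς2 : ∀ v, ς (ς v) = v) (hr : finrank F (LinearMap.range (nn τ)) = finrank F (LinearMap.range (nn ς)))
    (ha : (∀ v, Q (nn τ v) = 0) ↔ ∀ v, Q (nn ς v) = 0) :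
    ∃ g' ∈ (ofQuad Q).isom, ∀ v, g' (τ v) = ς (g' v) := by
  have h2 : (2 : F) = 0 := CharTwo.two_eq_zero
  have hal : ∀ {ρ : V ≃ₗ[F] V} (hρ : ρ ∈ (ofQuad Q).isom) (hρ2 : ∀ v, ρ (ρ v) = v),
      (∀ w, bf (ofQuad Q) ρ w w = 0) ↔ ∀ v, Q (nn ρ v) = 0 := by
    intro ρ hρ hρ2
    constructor
    · intro h v
      have := h ⟨nn ρ v, v, rfl⟩
      rw [← quad_Q_bf hρ hρ2] at this
      exact this
    · rintro h ⟨_, v, rfl⟩
      rw [← quad_Q_bf hρ hρ2]
      exact h v
  have hsy : ∀ {ρ : V ≃ₗ[F] V} (hρ : ρ ∈ (ofQuad Q).isom) (hρ2 : ∀ v, ρ (ρ v) = v) x y,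
      bf (ofQuad Q) ρ x y = bf (ofQuad Q) ρ y x := by
    intro ρ hρ hρ2 x y
    rw [bf_symm hρ hρ2 y x, RingHom.id_apply, one_mul]
  obtain ⟨φ, hφ⟩ : ∃ φ : LinearMap.range (nn τ) ≃ₗ[F] LinearMap.range (nn ς),
      ∀ x y, bf (ofQuad Q) ς (φ x) (φ y) = bf (ofQuad Q) τ x y := by
    by_cases hal' : ∀ w, bf (ofQuad Q) τ w w = 0
    · exact Cfsg.Agent.H5.Sym2.alt_isometric _ hal' (bf_nondeg hQ hτ hτ2) _
        ((hal hς hς2).2 (ha.1 ((hal hτ hτ2).1 hal'))) (bf_nondeg hQ hς hς2) hr
    · have hbl : ¬ ∀ w, bf (ofQuad Q) ς w w = 0 := fun h => hal' ((hal hτ hτ2).2 (ha.2 ((hal hς hς2).1 h)))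
      push Not at hal' hbl
      exact Cfsg.Agent.H5.Sym2.ortho_isometric h2 hsq _ (hsy hτ hτ2) (bf_nondeg hQ hτ hτ2) hal' _ (hsy hς hς2)
        (bf_nondeg hQ hς hς2) hbl hr
  obtain ⟨g', h3, -, h4⟩ := conj_of_equiv hQ hτ hτ2 hς hς2 φ hφ (fun w => by
    change Q _ = Q _
    rw [quad_Q_bf hτ hτ2, quad_Q_bf hς hς2, hφ])
  exact ⟨g', h3, h4⟩

end Types

section Exist

variable {F : Type*} [Field F] [CharP F 2] {V : Type*} [AddCommGroup V] [Module F V] [FiniteDimensional F V]
  {Q : QuadraticForm F V}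

open QuadraticMap (polar)

theorem li_of_dual {s : ℕ} {w d : Fin s → V} (h : ∀ i j, i ≠ j → polar Q (w i) (d j) = 0)
    (h' : ∀ i, polar Q (w i) (d i) ≠ 0) : LinearIndependent F w := by
  rw [Fintype.linearIndependent_iff]
  intro g hg i
  have h1 : QuadraticMap.polarBilin Q (∑ j, g j • w j) (d i) = 0 := by rw [hg, map_zero, LinearMap.zero_apply]
  rw [map_sum, LinearMap.sum_apply, Finset.sum_eq_single i (fun j _ hj => by
    rw [map_smul, LinearMap.smul_apply]
    change g j • polar Q (w j) (d i) = 0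
    rw [h j i hj, smul_zero]) (fun h => absurd (Finset.mem_univ i) h), map_smul, LinearMap.smul_apply] at h1
  change g i • polar Q (w i) (d i) = 0 at h1
  rw [smul_eq_mul] at h1
  exact (mul_eq_zero.1 h1).resolve_right (h' i)

/-- an involution with prescribed image -/
theorem exists_inv (hQ : (QuadraticMap.polarBilin Q).Nondegenerate) {s : ℕ} (σ : Equiv.Perm (Fin s))
    (hσ : ∀ i, σ (σ i) = i) (w : Fin s → V) (hw : LinearIndependent F w) (hp : ∀ i j, polar Q (w i) (w j) = 0)
    (hc : (σ = 1 ∧ ∀ i, Q (w i) = 1) ∨ ((∀ i, σ i ≠ i) ∧ ∀ i, Q (w i) = 0)) :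
    ∃ τ : V ≃ₗ[F] V, (∀ v, Q (τ v) = Q v) ∧ (∀ v, τ (τ v) = v) ∧
      LinearMap.range (nn τ) = Submodule.span F (Set.range w) := by
  have h2 : (2 : F) = 0 := CharTwo.two_eq_zero
  let c : Fin s → V →ₗ[F] F := fun i => (QuadraticMap.polarBilin Q).flip (w i)
  have hcv : ∀ i v, c i v = polar Q v (w i) := fun i v => rfl
  let ν : V →ₗ[F] V := ∑ i, (c i).smulRight (w (σ i))
  have hν : ∀ v, ν v = ∑ i, polar Q v (w i) • w (σ i) := by
    intro v
    rw [LinearMap.sum_apply]
    rfl
  have hcν : ∀ v i, polar Q (ν v) (w i) = 0 := by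
    intro v i
    rw [hν]
    change QuadraticMap.polarBilin Q (∑ i, polar Q v (w i) • w (σ i)) (w i) = 0
    rw [map_sum, LinearMap.sum_apply]
    apply Finset.sum_eq_zero
    intro j _
    rw [map_smul, LinearMap.smul_apply]
    change _ • polar Q (w (σ j)) (w i) = 0
    rw [hp, smul_zero]
  have hνν : ∀ v, ν (ν v) = 0 := by
    intro v
    rw [hν (ν v)]
    apply Finset.sum_eq_zero
    intro i _
    rw [hcν, zero_smul]
  have h2v : ∀ v : V, v + v = 0 := fun v => by rw [← two_smul F, h2, zero_smul]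
  let τ : V ≃ₗ[F] V := LinearEquiv.ofLinear (LinearMap.id + ν) (LinearMap.id + ν)
    (by
      apply LinearMap.ext
      intro v
      change (v + ν v) + ν (v + ν v) = v
      rw [map_add, hνν, add_zero, add_assoc, h2v, add_zero])
    (by
      apply LinearMap.ext
      intro v
      change (v + ν v) + ν (v + ν v) = v
      rw [map_add, hνν, add_zero, add_assoc, h2v, add_zero])
  have hτ : ∀ v, τ v = v + ν v := fun v => rfl
  have hnn : nn τ = ν := by
    apply LinearMap.ext
    intro v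
    rw [nn_apply, hτ, add_sub_cancel_left]
  -- Q on the span
  have hQs : ∀ g : Fin s → F, Q (∑ i, g i • w (σ i)) = ∑ i, g i ^ 2 * Q (w (σ i)) := by
    intro g
    have key : ∀ T : Finset (Fin s), Q (∑ i ∈ T, g i • w (σ i)) = ∑ i ∈ T, g i ^ 2 * Q (w (σ i)) := by
      classical
      intro T
      induction T using Finset.induction_on with
      | empty => simp
      | insert a T ha ih =>
        rw [Finset.sum_insert ha, Finset.sum_insert ha, Cfsg.Agent.H16.Quad.map_add, ih, QuadraticMap.map_smul, smul_eq_mul]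
        have : polar Q (g a • w (σ a)) (∑ i ∈ T, g i • w (σ i)) = 0 := by
          change QuadraticMap.polarBilin Q (g a • w (σ a)) (∑ i ∈ T, g i • w (σ i)) = 0
          rw [map_sum]
          apply Finset.sum_eq_zero
          intro j _
          rw [map_smul, map_smul, LinearMap.smul_apply]
          change _ • _ • polar Q (w (σ a)) (w (σ j)) = 0
          rw [hp, smul_zero, smul_zero]
        rw [this]
        ring
    exact key _
  refine ⟨τ, fun v => ?_, fun v => ?_, ?_⟩
  · rw [hτ, Cfsg.Agent.H16.Quad.map_add, hν, hQs]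
    have h3 : polar Q v (∑ i, polar Q v (w i) • w (σ i)) = ∑ i, polar Q v (w i) * polar Q v (w (σ i)) := by
      change QuadraticMap.polarBilin Q v (∑ i, polar Q v (w i) • w (σ i)) = _
      rw [map_sum]
      refine Finset.sum_congr rfl fun i _ => ?_
      rw [map_smul, smul_eq_mul]
      rfl
    rw [h3]
    rcases hc with ⟨rfl, h4⟩ | ⟨h4, h5⟩
    · have : ∑ i, polar Q v (w i) ^ 2 * Q (w ((1 : Equiv.Perm (Fin s)) i)) +
          ∑ i, polar Q v (w i) * polar Q v (w ((1 : Equiv.Perm (Fin s)) i)) = 0 := by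
        rw [← Finset.sum_add_distrib]
        apply Finset.sum_eq_zero
        intro i _
        rw [Equiv.Perm.one_apply, h4]
        linear_combination polar Q v (w i) ^ 2 * h2
      rw [add_assoc, this, add_zero]
    · have h6 : ∑ i, polar Q v (w i) ^ 2 * Q (w (σ i)) = 0 :=
        Finset.sum_eq_zero fun i _ => by rw [h5, mul_zero]
      have h7 : ∑ i, polar Q v (w i) * polar Q v (w (σ i)) = 0 := by
        apply Finset.sum_involution (fun i _ => σ i)
        · intro i _
          rw [hσ]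
          linear_combination polar Q v (w i) * polar Q v (w (σ i)) * h2
        · intro i _ _
          exact h4 i
        · intro i _; exact Finset.mem_univ _
        · intro i _; exact hσ i
      rw [h6, h7, add_zero, add_zero]
  · rw [hτ, hτ, map_add, hνν, add_zero, add_assoc, h2v, add_zero]
  · rw [hnn]
    apply le_antisymm
    · rintro _ ⟨v, rfl⟩
      rw [hν]
      exact Submodule.sum_mem _ fun i _ => Submodule.smul_mem _ _ (Submodule.subset_span ⟨σ i, rfl⟩)
    · rw [Submodule.span_le]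
      rintro _ ⟨j, rfl⟩
      -- a vector with `polar v (w i) = δ`
      obtain ⟨f, hf⟩ : ∃ f : V →ₗ[F] F, ∀ i, f (w i) = if i = σ.symm j then 1 else 0 := by
        obtain ⟨f, hf⟩ := LinearMap.exists_extend
          ((Finsupp.lapply (σ.symm j) : (Fin s →₀ F) →ₗ[F] F).comp
            (hw.repr : Submodule.span F (Set.range w) →ₗ[F] Fin s →₀ F))
        refine ⟨f, fun i => ?_⟩
        have h3 := LinearMap.congr_fun hf ⟨w i, Submodule.subset_span ⟨i, rfl⟩⟩
        rw [LinearMap.comp_apply, Submodule.subtype_apply] at h3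
        rw [h3]
        change hw.repr ⟨w i, _⟩ (σ.symm j) = _
        rw [hw.repr_eq_single i _ rfl, Finsupp.single_apply]
      obtain ⟨v, hv⟩ := Cfsg.Agent.H16.Quad.nd_exists_functional hQ f
      refine ⟨v, ?_⟩
      rw [hν, Finset.sum_eq_single (σ.symm j)]
      · rw [hv, hf, if_pos rfl, one_smul, Equiv.apply_symm_apply]
      · intro i _ hi
        rw [hv, hf, if_neg hi, zero_smul]
      · intro h; exact absurd (Finset.mem_univ _) h

end Exist

section MatTypes

open Cfsg.Agent.H5 Cfsg.Agent.H5.Frm Cfsg.Agent.H16.Quad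
open QuadraticMap (polar)

variable {F : Type*} [Field F] [Finite F] [CharP F 2] {ι : Type} [Fintype ι] [DecidableEq ι]
  {Q : QuadraticForm F (ι → F)}

/-- `Q` vanishes on the image of `t - 1` -/
def IsAl (t : Cfsg.isometryGroup F ⇑Q) : Prop := ∀ v, Q (nn (toOG Q t).1 v) = 0

/-- the rank of `t - 1` -/
noncomputable def rk (t : Cfsg.isometryGroup F ⇑Q) : ℕ := finrank F (LinearMap.range (nn (toOG Q t).1))

theorem imS_eq_range (τ : (ι → F) ≃ₗ[F] (ι → F)) : imS τ = LinearMap.range (nn τ) := rfl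

theorem rk_eq (t : Cfsg.isometryGroup F ⇑Q) : rk t = (((t : GL ι F) : Matrix ι ι F) - 1).rank :=
  finrank_range_nn (fun v => toOG_apply Q t v)

open Classical in
/-- the type of an involution -/
noncomputable def ty (t : Cfsg.isometryGroup F ⇑Q) : ℕ × Bool := (rk t, decide (IsAl t))

open Classical in
theorem ty_eq_iff {t s : Cfsg.isometryGroup F ⇑Q} : ty t = ty s ↔ rk t = rk s ∧ (IsAl t ↔ IsAl s) := by
  rw [ty, ty, Prod.mk.injEq, decide_eq_decide]

open Classical in
theorem ty_eq_true {t : Cfsg.isometryGroup F ⇑Q} {n : ℕ} : ty t = (n, true) ↔ rk t = n ∧ IsAl t := by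
  rw [ty, Prod.mk.injEq, decide_eq_true_eq]

open Classical in
theorem ty_eq_false {t : Cfsg.isometryGroup F ⇑Q} {n : ℕ} : ty t = (n, false) ↔ rk t = n ∧ ¬ IsAl t := by
  rw [ty, Prod.mk.injEq, decide_eq_false_iff_not]

theorem isConj_iff_ty (hQ : (QuadraticMap.polarBilin Q).Nondegenerate) {t s : Cfsg.isometryGroup F ⇑Q}
    (ht : t ^ 2 = 1) (hs : s ^ 2 = 1) : IsConj t s ↔ ty t = ty s := by
  rw [ty_eq_iff]
  constructor
  · intro h
    obtain ⟨c, hc⟩ := isConj_iff.1 h
    have hr := imS_conj hc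
    have hg : ∀ v, (toOG Q c).1 ((toOG Q t).1 v) = (toOG Q s).1 ((toOG Q c).1 v) := by
      intro v
      have h1 : toOG Q c * toOG Q t = toOG Q s * toOG Q c := by
        rw [← _root_.map_mul, ← _root_.map_mul, ← hc, inv_mul_cancel_right]
      exact congrArg (fun x : OG Q => x.1 v) h1
    have hn : ∀ v, nn (toOG Q s).1 ((toOG Q c).1 v) = (toOG Q c).1 (nn (toOG Q t).1 v) := by
      intro v
      rw [nn_apply, nn_apply, _root_.map_sub, hg]
    refine ⟨?_, ?_, ?_⟩
    · rw [rk, rk, ← imS_eq_range, ← imS_eq_range, hr]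
      exact (LinearEquiv.finrank_map_eq (toOG Q c).1 _).symm
    · intro h v
      obtain ⟨u, rfl⟩ := (toOG Q c).1.surjective v
      rw [hn, mem_OG.1 (toOG Q c).2]
      exact h u
    · intro h v
      rw [← mem_OG.1 (toOG Q c).2, ← hn]
      exact h _
  · rintro ⟨h1, h2⟩
    have hsq : ∀ a : F, IsSquare a := fun a => isSquare_of_two_eq_zero CharTwo.two_eq_zero a
    obtain ⟨g', h3, h4⟩ := quad_conj_of_type hsq (nondeg_ofQuad hQ) (toOG_isom t) (toOG_sq ht) (toOG_isom s)
      (toOG_sq hs) h1 h2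
    rw [isConj_iff]
    refine ⟨(toOG Q).symm ⟨g', h3.2⟩, ?_⟩
    apply (toOG Q).injective
    rw [_root_.map_mul, _root_.map_mul, _root_.map_inv, MulEquiv.apply_symm_apply, mul_inv_eq_iff_eq_mul]
    apply Subtype.ext
    apply LinearEquiv.ext
    intro v
    exact h4 v

theorem rk_pos {t : Cfsg.isometryGroup F ⇑Q} (ht : orderOf t = 2) : 0 < rk t := by
  rw [Nat.pos_iff_ne_zero]
  intro h
  rw [rk, Submodule.finrank_eq_zero, LinearMap.range_eq_bot] at h
  have : t = 1 := by
    apply (toOG Q).injective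
    rw [_root_.map_one]
    apply Subtype.ext
    apply LinearEquiv.ext
    intro v
    have := LinearMap.congr_fun h v
    rw [nn_apply, LinearMap.zero_apply, sub_eq_zero] at this
    exact this
  rw [this, orderOf_one] at ht
  omega

theorem rk_le (hQ : (QuadraticMap.polarBilin Q).Nondegenerate) {t : Cfsg.isometryGroup F ⇑Q} (ht : t ^ 2 = 1) :
    2 * rk t ≤ finrank F (ι → F) := by
  have hle : imS (toOG Q t).1 ≤ fixS (toOG Q t).1 := by
    rintro _ ⟨v, rfl⟩
    rw [mem_fixS]
    have := nn_nn (toOG_sq ht) v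
    rw [nn_apply, sub_eq_zero] at this
    exact this
  have h3 := Submodule.finrank_mono hle
  have h4 := finrank_add_finrank_perp hQ (imS (toOG Q t).1)
  rw [perp_imS hQ (toOG Q t).2] at h4
  have : finrank F (imS (toOG Q t).1) = rk t := rfl
  omega

theorem rk_even (hQ : (QuadraticMap.polarBilin Q).Nondegenerate) {t : Cfsg.isometryGroup F ⇑Q} (ht : t ^ 2 = 1)
    (ha : IsAl t) : Even (rk t) :=
  quad_even (nondeg_ofQuad hQ) (toOG_isom t) (toOG_sq ht) ha

theorem exists_mat (hQ : (QuadraticMap.polarBilin Q).Nondegenerate) {s : ℕ} (hs : 0 < s) (σ : Equiv.Perm (Fin s))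
    (hσ : ∀ i, σ (σ i) = i) (w : Fin s → (ι → F)) (hw : LinearIndependent F w) (hp : ∀ i j, polar Q (w i) (w j) = 0)
    (hc : (σ = 1 ∧ ∀ i, Q (w i) = 1) ∨ ((∀ i, σ i ≠ i) ∧ ∀ i, Q (w i) = 0)) :
    ∃ t : Cfsg.isometryGroup F ⇑Q, orderOf t = 2 ∧ imS (toOG Q t).1 = Submodule.span F (Set.range w) ∧ rk t = s := by
  obtain ⟨τ, h1, h2, h3⟩ := exists_inv hQ σ hσ w hw hp hc
  have hcoe : toOG Q ((toOG Q).symm ⟨τ, fun x => h1 x⟩) = ⟨τ, fun x => h1 x⟩ := by rw [MulEquiv.apply_symm_apply]
  have hrk : rk ((toOG Q).symm ⟨τ, fun x => h1 x⟩) = s := by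
    rw [rk, hcoe]
    change finrank F (LinearMap.range (nn τ)) = s
    rw [h3, finrank_span_eq_card hw, Fintype.card_fin]
  refine ⟨(toOG Q).symm ⟨τ, fun x => h1 x⟩, ?_, ?_, hrk⟩
  · rw [orderOf_eq_prime_iff]
    constructor
    · apply (toOG Q).injective
      rw [_root_.map_pow, hcoe, _root_.map_one]
      apply Subtype.ext
      apply LinearEquiv.ext
      intro v
      rw [pow_two]
      exact h2 v
    · intro h
      rw [h, rk, _root_.map_one] at hrk
      have : nn (1 : OG Q).1 = 0 := by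
        apply LinearMap.ext
        intro v
        rw [nn_apply]
        exact sub_self v
      rw [this, LinearMap.range_zero, finrank_bot] at hrk
      omega
  · rw [imS_eq_range, hcoe]
    exact h3

/-- existence data -/
structure Fam (Q : QuadraticForm F (ι → F)) (N N' : ℕ) where
  w : Fin N → (ι → F)
  d : Fin N → (ι → F)
  u : Fin N' → (ι → F)
  d' : Fin N' → (ι → F)
  wd : ∀ i j, i ≠ j → polar Q (w i) (d j) = 0
  wd' : ∀ i, polar Q (w i) (d i) ≠ 0
  ww : ∀ i j, polar Q (w i) (w j) = 0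
  qw : ∀ i, Q (w i) = 1
  ud : ∀ i j, i ≠ j → polar Q (u i) (d' j) = 0
  ud' : ∀ i, polar Q (u i) (d' i) ≠ 0
  uu : ∀ i j, polar Q (u i) (u j) = 0
  qu : ∀ i, Q (u i) = 0

theorem Fam.exists_false (hQ : (QuadraticMap.polarBilin Q).Nondegenerate) {N N' : ℕ} (D : Fam Q N N') {s : ℕ}
    (hs : 0 < s) (hsN : s ≤ N) : ∃ t : Cfsg.isometryGroup F ⇑Q, orderOf t = 2 ∧ ty t = (s, false) := by
  obtain ⟨t, h1, h2, h3⟩ := exists_mat hQ hs 1 (fun i => rfl) (fun i => D.w (Fin.castLE hsN i))
    (li_of_dual (Q := Q) (d := fun i => D.d (Fin.castLE hsN i))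
      (fun i j hij => D.wd _ _ (fun h => hij (Fin.castLE_injective hsN h))) (fun i => D.wd' _))
    (fun i j => D.ww _ _) (Or.inl ⟨rfl, fun i => D.qw _⟩)
  refine ⟨t, h1, ty_eq_false.2 ⟨h3, fun ha => ?_⟩⟩
  have h4 : D.w (Fin.castLE hsN ⟨0, hs⟩) ∈ imS (toOG Q t).1 := by
    rw [h2]
    exact Submodule.subset_span ⟨⟨0, hs⟩, rfl⟩
  obtain ⟨v, hv⟩ := h4
  have h5 := ha v
  have h6 : nn (toOG Q t).1 v = D.w (Fin.castLE hsN ⟨0, hs⟩) := hv
  rw [h6, D.qw] at h5
  exact one_ne_zero h5

theorem Fam.exists_true (hQ : (QuadraticMap.polarBilin Q).Nondegenerate) {N N' : ℕ} (D : Fam Q N N') {s : ℕ}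
    (hs : 0 < s) (hsN : s ≤ N') (hev : 2 ∣ s) : ∃ t : Cfsg.isometryGroup F ⇑Q, orderOf t = 2 ∧ ty t = (s, true) ∧
      imS (toOG Q t).1 = Submodule.span F (Set.range (fun i : Fin s => D.u (Fin.castLE hsN i))) := by
  obtain ⟨t, h1, h2, h3⟩ := exists_mat hQ hs Fin.revPerm (fun i => by simp) (fun i => D.u (Fin.castLE hsN i))
    (li_of_dual (Q := Q) (d := fun i => D.d' (Fin.castLE hsN i))
      (fun i j hij => D.ud _ _ (fun h => hij (Fin.castLE_injective hsN h))) (fun i => D.ud' _))
    (fun i j => D.uu _ _) (Or.inr ⟨fun i h => by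
      rw [Fin.revPerm_apply, Fin.ext_iff, Fin.val_rev] at h
      have := i.2
      omega, fun i => D.qu _⟩)
  refine ⟨t, h1, ty_eq_true.2 ⟨h3, fun v => ?_⟩, h2⟩
  have h4 : nn (toOG Q t).1 v ∈ Submodule.span F (Set.range (fun i : Fin s => D.u (Fin.castLE hsN i))) := by
    rw [← h2]; exact ⟨v, rfl⟩
  exact ts_span (fun i => D.qu _) (fun i j => D.uu _ _) _ h4

/-- number of classes of involutions of the isometry group -/
theorem Fam.card_O (hQ : (QuadraticMap.polarBilin Q).Nondegenerate) {N N' : ℕ} (D : Fam Q N N')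
    (hN : finrank F (ι → F) = 2 * N) (hN' : ∀ U : Submodule F (ι → F), (∀ u ∈ U, Q u = 0) → finrank F U ≤ N') :
    Nat.card {C : ConjClasses (Cfsg.isometryGroup F ⇑Q) // ∃ g : Cfsg.isometryGroup F ⇑Q,
      ConjClasses.mk g = C ∧ orderOf g = 2} = N + N' / 2 := by
  have hsq : ∀ {g : Cfsg.isometryGroup F ⇑Q}, orderOf g = 2 → g ^ 2 = 1 := fun {g} hg =>
    orderOf_dvd_iff_pow_eq_one.1 hg.dvd
  rw [card_classes (P := fun g : Cfsg.isometryGroup F ⇑Q => orderOf g = 2) ty (types N N' (fun _ => True)), card_types]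
  · rw [Finset.filter_true_of_mem (fun _ _ => trivial), Nat.card_Ioc, Nat.sub_zero]
  · intro g hg
    rw [mem_types]
    have h1 := rk_pos hg
    have h2 := rk_le hQ (hsq hg)
    by_cases ha : IsAl g
    · right
      have h3 : ty g = (rk g, true) := ty_eq_true.2 ⟨rfl, ha⟩
      rw [h3]
      refine ⟨rfl, h1, ?_, (rk_even hQ (hsq hg) ha).two_dvd⟩
      exact hN' _ (by rintro _ ⟨v, rfl⟩; exact ha v)
    · left
      have h3 : ty g = (rk g, false) := ty_eq_false.2 ⟨rfl, ha⟩
      rw [h3]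
      exact ⟨rfl, h1, by omega, trivial⟩
  · rintro ⟨s, c⟩ hs
    rw [mem_types] at hs
    rcases hs with ⟨h1, h2, h3, -⟩ | ⟨h1, h2, h3, h4⟩
    · obtain ⟨t, ht, ht2⟩ := D.exists_false hQ h2 h3
      exact ⟨t, ht, by rw [ht2]; exact Prod.ext rfl h1.symm⟩
    · obtain ⟨t, ht, ht2, -⟩ := D.exists_true hQ h2 h3 h4
      exact ⟨t, ht, by rw [ht2]; exact Prod.ext rfl h1.symm⟩
  · intro g h hg hh
    exact isConj_iff_ty hQ (hsq hg) (hsq hh)

end MatTypes

section Fams

open Cfsg.Agent.H5 Cfsg.Agent.H5.Frm Cfsg.Agent.H16.Quad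
open QuadraticMap (polar)

variable {F : Type*} [Field F] [Finite F] [CharP F 2] {ι : Type} [Fintype ι] [DecidableEq ι]
  {Q : QuadraticForm F (ι → F)}

theorem polar_self_zero (v : ι → F) : polar Q v v = 0 := by
  rw [QuadraticMap.polar_self, two_nsmul, CharTwo.add_self_eq_zero]

/-- the data from a hyperbolic family -/
def famHyp {n : ℕ} {e f : Fin n → (ι → F)} (h : HypFam Q e f) : Fam Q n n where
  w := fun i => e i + f i
  d := e
  u := e
  d' := f
  wd := fun i j hij => by
    rw [QuadraticMap.polar_add_left, h.ee, h.fe, if_neg hij, add_zero]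
  wd' := fun i => by
    rw [QuadraticMap.polar_add_left, h.ee, h.fe, if_pos rfl, zero_add]
    exact one_ne_zero
  ww := fun i j => by
    rw [QuadraticMap.polar_add_left, QuadraticMap.polar_add_right, QuadraticMap.polar_add_right, h.ee, h.fe, h.ef, h.ff]
    split_ifs
    · rw [zero_add, add_zero, CharTwo.add_self_eq_zero]
    · simp
  qw := fun i => by
    rw [Cfsg.Agent.H16.Quad.map_add, h.qe, h.qf, h.ef, if_pos rfl, zero_add, zero_add]
  ud := fun i j hij => by rw [h.ef, if_neg hij]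
  ud' := fun i => by rw [h.ef, if_pos rfl]; exact one_ne_zero
  uu := h.ee
  qu := h.qe

/-- the data from a hyperbolic family and an orthogonal non-singular vector -/
def famHypZ {n : ℕ} {e f : Fin n → (ι → F)} (h : HypFam Q e f) {z z' : ι → F} (hz : Q z = 1)
    (hze : ∀ i, polar Q z (e i) = 0) (hzf : ∀ i, polar Q z (f i) = 0) (hze' : ∀ i, polar Q z' (e i) = 0)
    (hzf' : ∀ i, polar Q z' (f i) = 0) (hzz : polar Q z z' ≠ 0) : Fam Q (n + 1) n where
  w := Fin.snoc (fun i => e i + f i) z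
  d := Fin.snoc e z'
  u := e
  d' := f
  wd := fun i j hij => by
    induction i using Fin.lastCases with
    | last =>
      induction j using Fin.lastCases with
      | last => exact absurd rfl hij
      | cast j => rw [Fin.snoc_last, Fin.snoc_castSucc, hze]
    | cast i =>
      induction j using Fin.lastCases with
      | last =>
        rw [Fin.snoc_last, Fin.snoc_castSucc, polar_symm, QuadraticMap.polar_add_right, hze', hzf', add_zero]
      | cast j =>
        rw [Fin.snoc_castSucc, Fin.snoc_castSucc]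
        exact (famHyp h).wd i j (fun h => hij (by rw [h]))
  wd' := fun i => by
    induction i using Fin.lastCases with
    | last => rw [Fin.snoc_last, Fin.snoc_last]; exact hzz
    | cast i =>
      rw [Fin.snoc_castSucc, Fin.snoc_castSucc]
      exact (famHyp h).wd' i
  ww := fun i j => by
    induction i using Fin.lastCases with
    | last =>
      induction j using Fin.lastCases with
      | last => rw [Fin.snoc_last, polar_self_zero]
      | cast j => rw [Fin.snoc_last, Fin.snoc_castSucc, QuadraticMap.polar_add_right, hze, hzf, add_zero]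
    | cast i =>
      induction j using Fin.lastCases with
      | last =>
        rw [Fin.snoc_last, Fin.snoc_castSucc, polar_symm, QuadraticMap.polar_add_right, hze, hzf, add_zero]
      | cast j =>
        rw [Fin.snoc_castSucc, Fin.snoc_castSucc]
        exact (famHyp h).ww i j
  qw := fun i => by
    induction i using Fin.lastCases with
    | last => rw [Fin.snoc_last, hz]
    | cast i =>
      rw [Fin.snoc_castSucc]
      exact (famHyp h).qw i
  ud := fun i j hij => by rw [h.ef, if_neg hij]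
  ud' := fun i => by rw [h.ef, if_pos rfl]; exact one_ne_zero
  uu := h.ee
  qu := h.qe

end Fams

section Std

open Cfsg.Agent.H5 Cfsg.Agent.H5.Frm Cfsg.Agent.H16.Quad
open QuadraticMap (polar)

variable {F : Type*} [Field F] [Finite F] [CharP F 2]

/-- data for the plus form -/
noncomputable def famPlus (m : ℕ) : Fam (plusQ F m) m m := famHyp (plusQ_hyp m)

/-- data for the minus form -/
noncomputable def famMinus (n : ℕ) {a b : F}
    (hab : ∀ z₁ z₂ : F, z₁ ^ 2 + a * z₁ * z₂ + b * z₂ ^ 2 = 0 → z₁ = 0 ∧ z₂ = 0) : Fam (minusQ F n a b) (n + 1) n :=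
  famHypZ (minusQ_hyp n a b) (z := Pi.single (Sum.inr 0) 1) (z' := Pi.single (Sum.inr 1) 1)
    (by rw [minusQ_apply]; simp [Cfsg.quadFormMinus])
    (fun i => by rw [polar_minusQ]; simp) (fun i => by rw [polar_minusQ]; simp)
    (fun i => by rw [polar_minusQ]; simp) (fun i => by rw [polar_minusQ]; simp)
    (by
      rw [polar_minusQ]
      have h2 : (2 : F) = 0 := CharTwo.two_eq_zero
      have hd := aniso_disc hab
      have ha : a ≠ 0 := by
        rintro rfl
        apply hd
        linear_combination 2 * b * h2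
      simpa using ha)

theorem card_O_plus (m : ℕ) : Nat.card {C : ConjClasses (Cfsg.isometryGroup F ⇑(plusQ F m)) //
    ∃ g : Cfsg.isometryGroup F ⇑(plusQ F m), ConjClasses.mk g = C ∧ orderOf g = 2} = m + m / 2 := by
  apply (famPlus m).card_O (nd_plusQ m) (finrank_plus m)
  intro U hU
  have h1 := ts_finrank_le (nd_plusQ m) hU
  rw [finrank_plus] at h1
  omega

theorem finrank_mns (n : ℕ) : finrank F ((Fin n ⊕ Fin n) ⊕ Fin 2 → F) = 2 * (n + 1) := by
  rw [Module.finrank_fintype_fun_eq_card]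
  simp only [Fintype.card_sum, Fintype.card_fin]; ring

theorem card_O_minus (n : ℕ) {a b : F}
    (hab : ∀ z₁ z₂ : F, z₁ ^ 2 + a * z₁ * z₂ + b * z₂ ^ 2 = 0 → z₁ = 0 ∧ z₂ = 0) :
    Nat.card {C : ConjClasses (Cfsg.isometryGroup F ⇑(minusQ F n a b)) //
    ∃ g : Cfsg.isometryGroup F ⇑(minusQ F n a b), ConjClasses.mk g = C ∧ orderOf g = 2} = n + 1 + n / 2 :=
  (famMinus n hab).card_O (nd_minusQ n hab) (finrank_mns n)
    (fun U hU => (minusQ_isMinus n hab).ts_le (nd_minusQ n hab) hU)

end Std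

section OmegaCount

theorem orderOf_cj {A : Type*} [Group A] (η x : A) : orderOf (η * x * η⁻¹) = orderOf x := by
  have := orderOf_injective (MulAut.conj η).toMonoidHom (MulAut.conj η).injective x
  exact this

open Cfsg.Agent.H5 Cfsg.Agent.H5.Frm Cfsg.Agent.H16.Quad
open QuadraticMap (polar)

variable {F : Type*} [Field F] [Finite F] [CharP F 2] {ι : Type} [Fintype ι] [DecidableEq ι]
  {Q : QuadraticForm F (ι → F)}

theorem om_order {g : Cfsg.Omega F ⇑Q} (hg : orderOf g = 2) : orderOf (g : Cfsg.isometryGroup F ⇑Q) = 2 := by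
  rw [← hg]; exact Subgroup.orderOf_coe g

theorem om_isConj {g h : Cfsg.Omega F ⇑Q} : IsConj g h ↔
    ∃ c ∈ Cfsg.Omega F ⇑Q, c * (g : Cfsg.isometryGroup F ⇑Q) * c⁻¹ = h := by
  rw [isConj_iff]
  constructor
  · rintro ⟨c, hc⟩
    exact ⟨c, c.2, congrArg Subtype.val hc⟩
  · rintro ⟨c, hc, hc2⟩
    exact ⟨⟨c, hc⟩, Subtype.ext hc2⟩

theorem mem_Omega_iff_rk (hQ : (QuadraticMap.polarBilin Q).Nondegenerate)
    (h : Nat.card F ≠ 2 ∨ finrank F (ι → F) ≠ 4) (g : Cfsg.isometryGroup F ⇑Q) :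
    g ∈ Cfsg.Omega F ⇑Q ↔ 2 ∣ rk g := by
  rw [mem_Omega_iff_even hQ h, ← rk_eq, even_iff_two_dvd]

/-- number of classes of involutions of `Ω`, non-split case -/
theorem Fam.card_Om_minus (hQ : (QuadraticMap.polarBilin Q).Nondegenerate) {N N' : ℕ} (D : Fam Q N N')
    (h : Nat.card F ≠ 2 ∨ finrank F (ι → F) ≠ 4) (hN : finrank F (ι → F) = 2 * N)
    (hN' : ∀ U : Submodule F (ι → F), (∀ u ∈ U, Q u = 0) → finrank F U ≤ N') (hlt : N' < N) :
    Nat.card {C : ConjClasses (Cfsg.Omega F ⇑Q) // ∃ g : Cfsg.Omega F ⇑Q,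
      ConjClasses.mk g = C ∧ orderOf g = 2} = N / 2 + N' / 2 := by
  have hsq : ∀ {g : Cfsg.isometryGroup F ⇑Q}, orderOf g = 2 → g ^ 2 = 1 := fun {g} hg =>
    orderOf_dvd_iff_pow_eq_one.1 hg.dvd
  rw [card_classes (P := fun g : Cfsg.Omega F ⇑Q => orderOf g = 2) (fun g => ty (g : Cfsg.isometryGroup F ⇑Q))
    (types N N' (fun s => 2 ∣ s)), card_types, Nat.Ioc_filter_dvd_card_eq_div]
  · intro g hg'
    have hg := om_order hg'
    rw [mem_types]
    have h1 := rk_pos hg
    have h2 := rk_le hQ (hsq hg)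
    have h5 := (mem_Omega_iff_rk hQ h _).1 g.2
    by_cases ha : IsAl (g : Cfsg.isometryGroup F ⇑Q)
    · right
      have h3 : ty (g : Cfsg.isometryGroup F ⇑Q) = (rk (g : Cfsg.isometryGroup F ⇑Q), true) := ty_eq_true.2 ⟨rfl, ha⟩
      rw [h3]
      refine ⟨rfl, h1, ?_, h5⟩
      exact hN' _ (by rintro _ ⟨v, rfl⟩; exact ha v)
    · left
      have h3 : ty (g : Cfsg.isometryGroup F ⇑Q) = (rk (g : Cfsg.isometryGroup F ⇑Q), false) := ty_eq_false.2 ⟨rfl, ha⟩
      rw [h3]
      exact ⟨rfl, h1, by omega, h5⟩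
  · rintro ⟨s, c⟩ hs
    rw [mem_types] at hs
    obtain ⟨t, ht, ht2, ht3⟩ : ∃ t : Cfsg.isometryGroup F ⇑Q, orderOf t = 2 ∧ ty t = (s, c) ∧ 2 ∣ s := by
      rcases hs with ⟨h1, h2, h3, h4⟩ | ⟨h1, h2, h3, h4⟩
      · obtain ⟨t, ht, ht2⟩ := D.exists_false hQ h2 h3
        exact ⟨t, ht, by rw [ht2]; exact Prod.ext rfl h1.symm, h4⟩
      · obtain ⟨t, ht, ht2, -⟩ := D.exists_true hQ h2 h3 h4
        exact ⟨t, ht, by rw [ht2]; exact Prod.ext rfl h1.symm, h4⟩
    have hrk : rk t = s := congrArg Prod.fst ht2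
    refine ⟨⟨t, (mem_Omega_iff_rk hQ h t).2 (by rw [hrk]; exact ht3)⟩, ?_, ht2⟩
    exact (Subgroup.orderOf_coe _).symm.trans ht
  · intro g g' hg hg'
    constructor
    · intro hc
      rw [← isConj_iff_ty hQ (hsq (om_order hg)) (hsq (om_order hg'))]
      exact (Cfsg.Omega F ⇑Q).subtype.map_isConj hc
    · intro hc
      rw [← isConj_iff_ty hQ (hsq (om_order hg)) (hsq (om_order hg'))] at hc
      rw [om_isConj]
      have h1 := rk_pos (om_order hg)
      have h2 := rk_le hQ (hsq (om_order hg))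
      rcases conj_Omega_or hQ h (by omega) (hsq (om_order hg)) hc with h3 | h3
      · exact h3
      · exfalso
        have h4 := hN' _ h3.1
        have h5 := h3.2
        omega

/-- number of classes of involutions of `Ω`, split case -/
theorem Fam.card_Om_plus (hQ : (QuadraticMap.polarBilin Q).Nondegenerate) {N : ℕ} (D : Fam Q N N)
    (h : Nat.card F ≠ 2 ∨ finrank F (ι → F) ≠ 4) (hN : finrank F (ι → F) = 2 * N) (hN0 : 0 < N) :
    Nat.card {C : ConjClasses (Cfsg.Omega F ⇑Q) // ∃ g : Cfsg.Omega F ⇑Q,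
      ConjClasses.mk g = C ∧ orderOf g = 2} = 2 * (N / 2) + (if Even N then 1 else 0) := by
  classical
  have hsq : ∀ {g : Cfsg.isometryGroup F ⇑Q}, orderOf g = 2 → g ^ 2 = 1 := fun {g} hg =>
    orderOf_dvd_iff_pow_eq_one.1 hg.dvd
  have hn1 : 1 ≤ finrank F (ι → F) := by omega
  obtain ⟨U0, hU0⟩ : ∃ U0, U0 = Submodule.span F (Set.range D.u) := ⟨_, rfl⟩
  have hU0m : IsMax Q U0 := by
    rw [hU0]
    refine ⟨ts_span D.qu D.uu, ?_⟩
    rw [finrank_span_eq_card (li_of_dual (Q := Q) (d := D.d') D.ud D.ud'), Fintype.card_fin, hN]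
  have hfU0 : finrank F U0 = N := by have := hU0m.2; omega
  -- the invariant
  let inv : Cfsg.Omega F ⇑Q → (ℕ × Bool) × Bool := fun g =>
    (ty (g : Cfsg.isometryGroup F ⇑Q), decide (IsMax Q (imS (toOG Q (g : Cfsg.isometryGroup F ⇑Q)).1) ∧
      ¬ Even (finrank F (imS (toOG Q (g : Cfsg.isometryGroup F ⇑Q)).1 ⊓ U0 : Submodule F (ι → F)))))
  have hmax : ∀ g : Cfsg.isometryGroup F ⇑Q, IsMax Q (imS (toOG Q g).1) ↔ ty g = (N, true) := by
    intro g
    rw [ty_eq_true]
    constructor
    · intro hm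
      refine ⟨?_, fun v => hm.1 _ ⟨v, rfl⟩⟩
      have h1 := hm.2
      rw [hN] at h1
      exact (Nat.eq_of_mul_eq_mul_left (by norm_num) h1)
    · rintro ⟨h1, h2⟩
      refine ⟨?_, ?_⟩
      · rintro _ ⟨v, rfl⟩; exact h2 v
      · rw [hN]
        congr 1
  have key : Nat.card {C : ConjClasses (Cfsg.Omega F ⇑Q) // ∃ g : Cfsg.Omega F ⇑Q,
      ConjClasses.mk g = C ∧ orderOf g = 2} =
      ((types N N (fun s => 2 ∣ s)) ×ˢ {false} ∪ (if Even N then {((N, true), true)} else ∅)).card := by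
    apply card_classes (P := fun g : Cfsg.Omega F ⇑Q => orderOf g = 2) inv
    · intro g hg'
      have hg := om_order hg'
      have h1 := rk_pos hg
      have h2 := rk_le hQ (hsq hg)
      have h5 := (mem_Omega_iff_rk hQ h _).1 g.2
      have hty : ty (g : Cfsg.isometryGroup F ⇑Q) ∈ types N N (fun s => 2 ∣ s) := by
        rw [mem_types]
        by_cases ha : IsAl (g : Cfsg.isometryGroup F ⇑Q)
        · right
          have h3 : ty (g : Cfsg.isometryGroup F ⇑Q) = (rk (g : Cfsg.isometryGroup F ⇑Q), true) := ty_eq_true.2 ⟨rfl, ha⟩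
          rw [h3]
          exact ⟨rfl, h1, by omega, h5⟩
        · left
          have h3 : ty (g : Cfsg.isometryGroup F ⇑Q) = (rk (g : Cfsg.isometryGroup F ⇑Q), false) := ty_eq_false.2 ⟨rfl, ha⟩
          rw [h3]
          exact ⟨rfl, h1, by omega, h5⟩
      by_cases hb : IsMax Q (imS (toOG Q (g : Cfsg.isometryGroup F ⇑Q)).1) ∧
          ¬ Even (finrank F (imS (toOG Q (g : Cfsg.isometryGroup F ⇑Q)).1 ⊓ U0 : Submodule F (ι → F)))
      · have h6 : inv g = ((N, true), true) := Prod.ext ((hmax _).1 hb.1) (decide_eq_true hb)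
        rw [h6]
        have h7 : rk (g : Cfsg.isometryGroup F ⇑Q) = N := congrArg Prod.fst ((hmax _).1 hb.1)
        rw [h7] at h5
        rw [if_pos (even_iff_two_dvd.2 h5), Finset.mem_union]
        exact Or.inr (Finset.mem_singleton_self _)
      · have h6 : inv g = (ty (g : Cfsg.isometryGroup F ⇑Q), false) := Prod.ext rfl (decide_eq_false hb)
        rw [h6, Finset.mem_union, Finset.mem_product]
        exact Or.inl ⟨hty, Finset.mem_singleton_self _⟩
    · rintro ⟨⟨s, c⟩, b⟩ hs
      rw [Finset.mem_union, Finset.mem_product, Finset.mem_singleton] at hs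
      rcases hs with ⟨hs, hb⟩ | hs
      · have hb' : b = false := hb
        subst hb'
        have hs' : (s, c) ∈ types N N (fun s => 2 ∣ s) := hs
        rw [mem_types] at hs'
        obtain ⟨t, ht, ht2, ht3, ht4⟩ : ∃ t : Cfsg.isometryGroup F ⇑Q, orderOf t = 2 ∧ ty t = (s, c) ∧ 2 ∣ s ∧
            (ty t = (N, true) → imS (toOG Q t).1 = U0) := by
          rcases hs' with ⟨h1, h2, h3, h4⟩ | ⟨h1, h2, h3, h4⟩
          · obtain ⟨t, ht, ht2⟩ := D.exists_false hQ h2 h3
            refine ⟨t, ht, by rw [ht2]; exact Prod.ext rfl h1.symm, h4, fun h5 => ?_⟩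
            rw [ht2] at h5
            exact absurd (congrArg Prod.snd h5) Bool.false_ne_true
          · obtain ⟨t, ht, ht2, ht3⟩ := D.exists_true hQ h2 h3 h4
            refine ⟨t, ht, by rw [ht2]; exact Prod.ext rfl h1.symm, h4, fun h5 => ?_⟩
            rw [ht2] at h5
            have h6 : s = N := congrArg Prod.fst h5
            subst h6
            rw [ht3, hU0]
            rfl
        have hrk : rk t = s := congrArg Prod.fst ht2
        refine ⟨⟨t, (mem_Omega_iff_rk hQ h t).2 (by rw [hrk]; exact ht3)⟩, ?_, ?_⟩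
        · exact (Subgroup.orderOf_coe _).symm.trans ht
        · refine Prod.ext ht2 (decide_eq_false ?_)
          rintro ⟨hm, hev⟩
          apply hev
          have h7 := (hmax t).1 hm
          have h8 : rk t = N := congrArg Prod.fst h7
          change Even (finrank F (imS (toOG Q t).1 ⊓ U0 : Submodule F (ι → F)))
          rw [ht4 h7, inf_idem, hfU0, ← h8, hrk, even_iff_two_dvd]
          exact ht3
      · split_ifs at hs with hev
        · rw [Finset.mem_singleton] at hs
          obtain ⟨t, ht, ht2, ht3⟩ := D.exists_true hQ hN0 le_rfl (even_iff_two_dvd.1 hev)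
          have hU : imS (toOG Q t).1 = U0 := by rw [ht3, hU0]; rfl
          have hrk : rk t = N := congrArg Prod.fst ht2
          have htO : t ∈ Cfsg.Omega F ⇑Q := (mem_Omega_iff_rk hQ h t).2 (by rw [hrk]; exact even_iff_two_dvd.1 hev)
          obtain ⟨v, hv⟩ := exists_nonsing hQ hn1
          obtain ⟨r, hr⟩ := iso_exists_refl (Q := Q) v
          have hrO : r ∉ Cfsg.Omega F ⇑Q := by
            rw [mem_Omega_rpr_iff hQ h (vs := [v]) (by simpa using hv) (by rw [hr]; simp [rpr])]
            rintro ⟨h1, -⟩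
            simp at h1
          have hodd : ¬ Even (finrank F (U0 ⊓ U0.map (toOG Q r).1.toLinearMap : Submodule F (ι → F))) := fun he =>
            hrO ((mem_Omega_iff_max hQ h hU0m (by rw [hfU0]; exact hev) r).2 he)
          have hn : (Cfsg.Omega F ⇑Q).Normal := inferInstance
          refine ⟨⟨r * t * r⁻¹, hn.conj_mem t htO r⟩, ?_, ?_⟩
          · exact (Subgroup.orderOf_coe _).symm.trans ((orderOf_cj r t).trans ht)
          · rw [hs]
            have hty : ty (r * t * r⁻¹) = (N, true) := by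
              rw [← ht2]
              symm
              apply (isConj_iff_ty hQ (hsq ht) ?_).1 (isConj_iff.2 ⟨r, rfl⟩)
              apply hsq
              exact (orderOf_cj r t).trans ht
            refine Prod.ext hty (decide_eq_true ⟨(hmax _).2 hty, ?_⟩)
            change ¬ Even (finrank F (imS (toOG Q (r * t * r⁻¹)).1 ⊓ U0 : Submodule F (ι → F)))
            rw [imS_conj (c := r) (t := t) rfl, hU, inf_comm]
            exact hodd
        · exact absurd hs (Finset.notMem_empty _)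
    · intro g g' hg hg'
      have hgO := hsq (om_order hg)
      have hgO' := hsq (om_order hg')
      -- the parity computation
      have hpar : ∀ c : Cfsg.isometryGroup F ⇑Q, c * (g : Cfsg.isometryGroup F ⇑Q) * c⁻¹ = g' →
          IsMax Q (imS (toOG Q (g : Cfsg.isometryGroup F ⇑Q)).1) →
          (c ∈ Cfsg.Omega F ⇑Q ↔
            (Even (finrank F (imS (toOG Q (g : Cfsg.isometryGroup F ⇑Q)).1 ⊓ U0 : Submodule F (ι → F))) ↔
            Even (finrank F (imS (toOG Q (g' : Cfsg.isometryGroup F ⇑Q)).1 ⊓ U0 : Submodule F (ι → F))))) := by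
        intro c hc hm
        have hrk : rk (g : Cfsg.isometryGroup F ⇑Q) = N := congrArg Prod.fst ((hmax _).1 hm)
        have hev : Even N := by
          rw [← hrk, even_iff_two_dvd]
          exact (mem_Omega_iff_rk hQ h _).1 g.2
        have hfm : finrank F (imS (toOG Q (g : Cfsg.isometryGroup F ⇑Q)).1) = N := hrk
        rw [mem_Omega_iff_max hQ h hm (by rw [hfm]; exact hev) c, ← imS_conj hc]
        have hm' : IsMax Q (imS (toOG Q (g' : Cfsg.isometryGroup F ⇑Q)).1) := by
          rw [imS_conj hc]; exact hm.map (toOG Q c).2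
        have hp := parity_triple hQ hU0m hm hm'
        rw [hfU0, add_assoc, add_assoc, Nat.even_add, iff_true_left hev, Nat.even_add, Nat.even_add,
          inf_comm U0, inf_comm U0] at hp
        tauto
      constructor
      · intro hc
        rw [om_isConj] at hc
        obtain ⟨c, hcO, hc⟩ := hc
        have hty : ty (g : Cfsg.isometryGroup F ⇑Q) = ty (g' : Cfsg.isometryGroup F ⇑Q) :=
          (isConj_iff_ty hQ hgO hgO').1 (isConj_iff.2 ⟨c, hc⟩)
        refine Prod.ext hty ?_
        change decide _ = decide _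
        rw [decide_eq_decide, hmax, hmax, hty]
        constructor
        · rintro ⟨h1, h2⟩
          refine ⟨h1, fun h3 => h2 ?_⟩
          exact ((hpar c hc ((hmax _).2 (by rw [hty]; exact h1))).1 hcO).2 h3
        · rintro ⟨h1, h2⟩
          refine ⟨h1, fun h3 => h2 ?_⟩
          exact ((hpar c hc ((hmax _).2 (by rw [hty]; exact h1))).1 hcO).1 h3
      · intro heq
        have hty : ty (g : Cfsg.isometryGroup F ⇑Q) = ty (g' : Cfsg.isometryGroup F ⇑Q) := congrArg Prod.fst heq
        have hc := (isConj_iff_ty hQ hgO hgO').2 hty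
        rw [om_isConj]
        rcases conj_Omega_or hQ h hn1 hgO hc with h3 | h3
        · exact h3
        · obtain ⟨c, hc⟩ := isConj_iff.1 hc
          refine ⟨c, (hpar c hc h3).2 ?_, hc⟩
          have h4 := congrArg Prod.snd heq
          change decide _ = decide _ at h4
          rw [decide_eq_decide] at h4
          have h3' := h3
          rw [hmax, hty, ← hmax] at h3'
          tauto
  rw [key, Finset.card_union_of_disjoint, Finset.card_product, Finset.card_singleton, mul_one, card_types,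
    Nat.Ioc_filter_dvd_card_eq_div]
  · split_ifs
    · rw [Finset.card_singleton]; ring
    · rw [Finset.card_empty]; ring
  · rw [Finset.disjoint_left]
    intro x h1 h2
    rw [Finset.mem_product, Finset.mem_singleton] at h1
    split_ifs at h2
    · rw [Finset.mem_singleton] at h2
      rw [h2] at h1
      exact Bool.false_ne_true h1.2.symm
    · exact absurd h2 (Finset.notMem_empty _)

end OmegaCount

end Cfsg.Agent.H5.I2
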