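import Mathlib
import Cfsg.Prelude.Def_GeometricClasses
import Cfsg.Agent.H5_Fld2
import Cfsg.Agent.H5_Der6
import Cfsg.Agent.H5_Inv3
import Cfsg.Agent.H5_GL

set_option autoImplicit false

/-! the similarity group of an alternating form: index and elements outside -/

namespace Cfsg.Agent.H5.Fld

open Matrix Module Cfsg.Geo Cfsg.Agent.H5.Frm

section alt
variable {F : Type*} [Field F] {V : Type*} [AddCommGroup V] [Module F V] [FiniteDimensional F V]

theorem alt_even' (b : V →ₗ[F] V →ₗ[F] F) (hs : ∀ x, b x x = 0) (hn : ∀ x, (∀ y, b x y = 0) → x = 0) :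
    Even (finrank F V) := by
  obtain ⟨k, a, ha, hw⟩ := exists_wittDec (F := F) (σ := RingHom.id F) (ε := -1) (t := (0 : F →+ F)) 0
    (fun {V} _ _ _ A hA h => by
      have : Nontrivial V := Module.nontrivial_of_finrank_pos (R := F) h
      obtain ⟨v, hv⟩ := exists_ne (0 : V)
      obtain ⟨s, hs⟩ := A.Q_t v
      exact ⟨v, hv, by rw [← hs]; rfl⟩) _ (ofAlt b hs) (fun x hx => hn x hx) rfl
  have e1 := hw.finrank_eq
  obtain rfl : a = 0 := by omega
  exact ⟨k, by omega⟩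

end alt

section mat
variable {F : Type*} [Field F] {n : ℕ}

/-- pulling back the form -/
theorem pull_back {f : (Fin n → F) → (Fin n → F) → F} (hf : IsSymplecticForm f)
    (x P : Matrix.SpecialLinearGroup (Fin n) F) (h : P⁻¹ * x * P ∈ (similarityGroup f).comap
      (Matrix.SpecialLinearGroup.toGL : Matrix.SpecialLinearGroup (Fin n) F →* GL (Fin n) F)) :
    ∃ (b : (Fin n → F) →ₗ[F] (Fin n → F) →ₗ[F] F) (μ : F), μ ≠ 0 ∧ (∀ v, b v v = 0) ∧ (∀ v, (∀ w, b v w = 0) → v = 0) ∧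
      ∀ u v, b ((x : Matrix (Fin n) (Fin n) F) *ᵥ u) ((x : Matrix (Fin n) (Fin n) F) *ᵥ v) = μ * b u v := by
  rw [Subgroup.mem_comap] at h
  obtain ⟨μ, hμ⟩ := h
  set Qi := ((P⁻¹ : Matrix.SpecialLinearGroup (Fin n) F) : Matrix (Fin n) (Fin n) F) with hQi
  have hPP : Qi * (P : Matrix (Fin n) (Fin n) F) = 1 := by
    rw [hQi, ← Matrix.SpecialLinearGroup.coe_mul, inv_mul_cancel, Matrix.SpecialLinearGroup.coe_one]
  have hPP2 : (P : Matrix (Fin n) (Fin n) F) * Qi = 1 := by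
    rw [hQi, ← Matrix.SpecialLinearGroup.coe_mul, mul_inv_cancel, Matrix.SpecialLinearGroup.coe_one]
  refine ⟨(mkB f hf).compl₁₂ (Matrix.toLin' Qi) (Matrix.toLin' Qi), μ, μ.ne_zero, fun v => hf.alternating _, ?_, ?_⟩
  · intro u hu
    by_contra h0
    have h1 : Qi *ᵥ u ≠ 0 := by
      intro h
      apply h0
      have h2 := congrArg (fun w => (P : Matrix (Fin n) (Fin n) F) *ᵥ w) h
      simp only [Matrix.mulVec_mulVec, Matrix.mulVec_zero] at h2
      rwa [hPP2, Matrix.one_mulVec] at h2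
    obtain ⟨-, w, hw⟩ := hf.nondegenerate _ h1
    apply hw
    have h2 : f (Qi *ᵥ u) (Qi *ᵥ ((P : Matrix (Fin n) (Fin n) F) *ᵥ w)) = 0 := hu ((P : Matrix (Fin n) (Fin n) F) *ᵥ w)
    rwa [Matrix.mulVec_mulVec, hPP, Matrix.one_mulVec] at h2
  · intro u v
    have h1 := hμ (Qi *ᵥ u) (Qi *ᵥ v)
    have h2 : ∀ w, ((Matrix.SpecialLinearGroup.toGL (P⁻¹ * x * P) : GL (Fin n) F) : Matrix (Fin n) (Fin n) F) *ᵥ (Qi *ᵥ w) =
        Qi *ᵥ ((x : Matrix (Fin n) (Fin n) F) *ᵥ w) := by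
      intro w
      have h3 : ((Matrix.SpecialLinearGroup.toGL (P⁻¹ * x * P) : GL (Fin n) F) : Matrix (Fin n) (Fin n) F) =
          Qi * (x : Matrix (Fin n) (Fin n) F) * (P : Matrix (Fin n) (Fin n) F) := by
        show ((P⁻¹ * x * P : Matrix.SpecialLinearGroup (Fin n) F) : Matrix (Fin n) (Fin n) F) = _
        rw [Matrix.SpecialLinearGroup.coe_mul, Matrix.SpecialLinearGroup.coe_mul]
      rw [h3, Matrix.mulVec_mulVec, mul_assoc, hPP2, mul_one, Matrix.mulVec_mulVec]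
    rw [h2, h2] at h1
    exact h1

theorem sp_dvd {f : (Fin n → F) → (Fin n → F) → F} (hf : IsSymplecticForm f) (m : ℕ) (hm : n = 2 * m) [Finite F] :
    Nat.card (Matrix.symplecticGroup (Fin m) F) ∣ Nat.card ((similarityGroup f).comap
      (Matrix.SpecialLinearGroup.toGL : Matrix.SpecialLinearGroup (Fin n) F →* GL (Fin n) F)) := by
  set J : Matrix (Fin m ⊕ Fin m) (Fin m ⊕ Fin m) F := Matrix.J (Fin m) F with hJ
  obtain ⟨φ, hφ⟩ := Cfsg.Agent.H5.Sym2.alt_isometric (V := Fin m ⊕ Fin m → F) (Matrix.toLinearMap₂' F J) (by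
      intro u
      rw [Matrix.toLinearMap₂'_apply', hJ, Matrix.J]
      conv_lhs => rw [← Sum.elim_comp_inl_inr u]
      rw [Matrix.fromBlocks_mulVec]
      simp only [dotProduct, Fintype.sum_sum_type, Sum.elim_inl, Sum.elim_inr, Matrix.zero_mulVec, Matrix.neg_mulVec,
        Matrix.one_mulVec, zero_add, add_zero, Pi.add_apply, Pi.neg_apply, Pi.zero_apply, Function.comp_apply]
      rw [← Finset.sum_add_distrib]
      apply Finset.sum_eq_zero
      intro i _
      ring) (by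
      intro u hu
      have h1 : J *ᵥ (J *ᵥ u) = -u := by
        rw [Matrix.mulVec_mulVec, hJ, Matrix.J_squared, Matrix.neg_mulVec, Matrix.one_mulVec]
      have h2 : ∀ v, u ⬝ᵥ (J *ᵥ v) = 0 := fun v => by
        have := hu v
        rwa [Matrix.toLinearMap₂'_apply'] at this
      have h3 : u = 0 := by
        funext i
        have h4 := h2 (- (J *ᵥ (Pi.single i 1)))
        rw [Matrix.mulVec_neg, Matrix.mulVec_mulVec, hJ, Matrix.J_squared, Matrix.neg_mulVec, Matrix.one_mulVec, neg_neg] at h4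
        simpa using h4
      exact h3) (mkB f hf) hf.alternating (fun u hu => by
    by_contra h0
    obtain ⟨-, w, hw⟩ := hf.nondegenerate u h0
    exact hw (hu w)) (by simp [hm]; ring)
  have hex : ∀ g : Matrix.symplecticGroup (Fin m) F, ∃ M : Matrix.SpecialLinearGroup (Fin n) F,
      ∀ v, (M : Matrix (Fin n) (Fin n) F) *ᵥ v = φ ((g : Matrix (Fin m ⊕ Fin m) (Fin m ⊕ Fin m) F) *ᵥ (φ.symm v)) := by
    intro g
    refine ⟨⟨LinearMap.toMatrix' ((φ : (Fin m ⊕ Fin m → F) →ₗ[F] (Fin n → F)) ∘ₗ (Matrix.toLin' (g : Matrix (Fin m ⊕ Fin m) (Fin m ⊕ Fin m) F)) ∘ₗ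
      (φ.symm : (Fin n → F) →ₗ[F] (Fin m ⊕ Fin m → F))), by
        rw [LinearMap.det_toMatrix', LinearMap.det_conj, LinearMap.det_toLin']
        exact SymplecticGroup.det_eq_one g.2⟩, fun v => ?_⟩
    show LinearMap.toMatrix' _ *ᵥ v = _
    rw [LinearMap.toMatrix'_mulVec]
    rfl
  choose ψ hψ using hex
  have hJg : ∀ (g : Matrix.symplecticGroup (Fin m) F) u v, u ⬝ᵥ (J *ᵥ v) =
      ((g : Matrix (Fin m ⊕ Fin m) (Fin m ⊕ Fin m) F) *ᵥ u) ⬝ᵥ (J *ᵥ ((g : Matrix (Fin m ⊕ Fin m) (Fin m ⊕ Fin m) F) *ᵥ v)) := by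
    intro g u v
    have h1 := SymplecticGroup.mem_iff'.1 g.2
    rw [hJ]
    conv_lhs => rw [← h1]
    rw [← Matrix.mulVec_mulVec, ← Matrix.mulVec_mulVec, Matrix.dotProduct_mulVec, Matrix.vecMul_transpose]
  let Φ : Matrix.symplecticGroup (Fin m) F →* ((similarityGroup f).comap
      (Matrix.SpecialLinearGroup.toGL : Matrix.SpecialLinearGroup (Fin n) F →* GL (Fin n) F)) :=
    MonoidHom.mk' (fun g => ⟨ψ g, Subgroup.mem_comap.2 ⟨1, fun u v => by
      show f ((ψ g : Matrix (Fin n) (Fin n) F) *ᵥ u) ((ψ g : Matrix (Fin n) (Fin n) F) *ᵥ v) = _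
      rw [hψ, hψ, Units.val_one, one_mul]
      have h1 := hφ ((g : Matrix (Fin m ⊕ Fin m) (Fin m ⊕ Fin m) F) *ᵥ (φ.symm u)) ((g : Matrix (Fin m ⊕ Fin m) (Fin m ⊕ Fin m) F) *ᵥ (φ.symm v))
      have h2 := hφ (φ.symm u) (φ.symm v)
      rw [Matrix.toLinearMap₂'_apply'] at h1 h2
      rw [LinearEquiv.apply_symm_apply, LinearEquiv.apply_symm_apply] at h2
      exact (h1.trans (hJg g _ _).symm).trans h2.symm⟩⟩) (by
      intro g h
      apply Subtype.ext
      apply Subtype.ext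
      show (ψ (g * h) : Matrix (Fin n) (Fin n) F) = (ψ g : Matrix (Fin n) (Fin n) F) * (ψ h : Matrix (Fin n) (Fin n) F)
      apply Matrix.toLin'.injective
      apply LinearMap.ext
      intro v
      rw [Matrix.toLin'_apply, Matrix.toLin'_apply, hψ, ← Matrix.mulVec_mulVec, hψ, hψ, LinearEquiv.symm_apply_apply,
        Matrix.mulVec_mulVec]
      rfl)
  apply Subgroup.card_dvd_of_injective Φ
  intro g h hgh
  have h1 : ψ g = ψ h := congrArg Subtype.val hgh
  apply Subtype.ext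
  apply Matrix.toLin'.injective
  apply LinearMap.ext
  intro v
  have h2 := congrArg (fun M : Matrix.SpecialLinearGroup (Fin n) F => (M : Matrix (Fin n) (Fin n) F) *ᵥ (φ v)) h1
  simp only [hψ, LinearEquiv.symm_apply_apply] at h2
  rw [Matrix.toLin'_apply, Matrix.toLin'_apply]
  exact φ.injective h2

theorem prod_even_odd (g : ℕ → ℕ) (m : ℕ) : ∏ i ∈ Finset.range (2 * m), g i =
    (∏ i ∈ Finset.range m, g (2 * i)) * ∏ i ∈ Finset.range m, g (2 * i + 1) := by
  induction m with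
  | zero => simp
  | succ m ih =>
    rw [show 2 * (m + 1) = 2 * m + 1 + 1 by ring, Finset.prod_range_succ, Finset.prod_range_succ, ih,
      Finset.prod_range_succ, Finset.prod_range_succ]
    ring

theorem idx_sp [Fintype F] {f : (Fin n → F) → (Fin n → F) → F} (hf : IsSymplecticForm f) (m : ℕ) (hm0 : 0 < m)
    (hm : n = 2 * m) {r : ℕ} (hr : r.Prime) (hrq : ¬ r ∣ Fintype.card F)
    (h : r ∣ ((similarityGroup f).comap (Matrix.SpecialLinearGroup.toGL : Matrix.SpecialLinearGroup (Fin n) F →* GL (Fin n) F)).index) :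
    ∃ i, 1 ≤ i ∧ i < m ∧ r ∣ Fintype.card F ^ (2 * i + 1) - 1 := by
  set H := (similarityGroup f).comap (Matrix.SpecialLinearGroup.toGL : Matrix.SpecialLinearGroup (Fin n) F →* GL (Fin n) F) with hH
  have h1 := Cfsg.Agent.H5.GL.card_SL (F := F) rfl n (by omega)
  rw [Cfsg.Agent.H5.Der.prod_sub _ _ Fintype.card_pos] at h1
  obtain ⟨t, ht⟩ := sp_dvd hf m hm
  rw [← Subgroup.card_mul_index H, ht, Cfsg.Agent.S0245.result rfl m] at h1
  set q := Fintype.card F with hq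
  have hq1 : 1 < q := Fintype.one_lt_card
  have h2 : ∏ i ∈ Finset.range n, (q ^ (i + 1) - 1) =
      (∏ i ∈ Finset.range m, (q ^ (2 * i + 1) - 1)) * ∏ i ∈ Finset.range m, (q ^ (2 * (i + 1)) - 1) := by
    rw [hm, prod_even_odd]
    rfl
  rw [h2] at h1
  set A := ∏ i ∈ Finset.range m, (q ^ (2 * (i + 1)) - 1) with hA
  have hA0 : 0 < A := Finset.prod_pos (fun i _ => by
    have : 1 < q ^ (2 * (i + 1)) := Nat.one_lt_pow (by omega) hq1
    omega)
  obtain ⟨m', rfl⟩ : ∃ m', m = m' + 1 := ⟨m - 1, by omega⟩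
  have h3 : ∏ i ∈ Finset.range (m' + 1), (q ^ (2 * i + 1) - 1) = (∏ i ∈ Finset.range m', (q ^ (2 * (i + 1) + 1) - 1)) * (q - 1) := by
    rw [Finset.prod_range_succ']
    simp
  rw [h3] at h1
  have h4 : (q ^ ((m' + 1) ^ 2) * t * H.index) * ((q - 1) * A) =
      ((∏ i ∈ Finset.range n, q ^ i) * ∏ i ∈ Finset.range m', (q ^ (2 * (i + 1) + 1) - 1)) * ((q - 1) * A) := by
    calc _ = (q - 1) * (q ^ ((m' + 1) ^ 2) * A * t * H.index) := by ring
      _ = _ := by rw [h1]; ring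
  have h5 := Nat.eq_of_mul_eq_mul_right (Nat.mul_pos (by omega) hA0) h4
  have h6 : r ∣ (∏ i ∈ Finset.range n, q ^ i) * ∏ i ∈ Finset.range m', (q ^ (2 * (i + 1) + 1) - 1) := by
    rw [← h5]; exact h.mul_left _
  rcases (Nat.Prime.dvd_mul hr).1 h6 with h7 | h7
  · obtain ⟨i, -, h8⟩ := (Prime.dvd_finset_prod_iff hr.prime _).1 h7
    exact absurd (hr.dvd_of_dvd_pow h8) hrq
  · obtain ⟨i, hi, h8⟩ := (Prime.dvd_finset_prod_iff hr.prime _).1 h7
    rw [Finset.mem_range] at hi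
    exact ⟨i + 1, by omega, by omega, h8⟩

end mat

end Cfsg.Agent.H5.Fld
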