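import Mathlib
import Cfsg.Agent.H5_SL
import Cfsg.Prelude.Def_ClassicalGeometry

set_option autoImplicit false

/-! Maximal parabolic subgroups of `GL_n`. -/

namespace Cfsg.Agent.H5.GLpar

open Matrix

variable {F : Type*} [Field F] {n : ℕ}

/-- the coordinate subspace -/
def E (F : Type*) [Field F] (n k : ℕ) : Submodule F (Fin n → F) where
  carrier := {v | ∀ i : Fin n, k ≤ (i : ℕ) → v i = 0}
  add_mem' {a b} ha hb := fun i hi => by rw [Pi.add_apply, ha i hi, hb i hi, add_zero]
  zero_mem' := fun _ _ => rfl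
  smul_mem' c a ha := fun i hi => by rw [Pi.smul_apply, ha i hi, smul_zero]

theorem mem_E {k : ℕ} {v : Fin n → F} : v ∈ E F n k ↔ ∀ i : Fin n, k ≤ (i : ℕ) → v i = 0 := Iff.rfl

/-- the parabolic -/
abbrev P (F : Type*) [Field F] (n k : ℕ) : Subgroup (GL (Fin n) F) :=
  Cfsg.stabilizing (Cfsg.glToMat (Fin n) F) {v : Fin n → F | ∀ i : Fin n, k ≤ (i : ℕ) → v i = 0}

theorem mem_P {k : ℕ} {g : GL (Fin n) F} :
    g ∈ P F n k ↔ ∀ v, v ∈ E F n k ↔ (g : Matrix (Fin n) (Fin n) F) *ᵥ v ∈ E F n k := Iff.rfl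

theorem finrank_E {k : ℕ} (hk : k ≤ n) : Module.finrank F (E F n k) = k := by
  classical
  have e : E F n k ≃ₗ[F] (Fin k → F) :=
    { toFun := fun v i => v.1 ⟨i, by omega⟩
      map_add' := fun _ _ => rfl
      map_smul' := fun _ _ => rfl
      invFun := fun w => ⟨fun i => if h : (i : ℕ) < k then w ⟨i, h⟩ else 0, fun i hi =>
        dif_neg (by omega)⟩
      left_inv := fun v => by
        apply Subtype.ext
        funext i
        by_cases h : (i : ℕ) < k
        · simp [h]
        · simp only [h, dite_false]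
          exact (v.2 i (by omega)).symm
      right_inv := fun w => by
        funext i
        simp }
  rw [e.finrank_eq, Module.finrank_fin_fun]

/-- for invertible matrices, preserving a subspace in one direction is enough -/
theorem stab_of_le {U : Submodule F (Fin n → F)} (g : GL (Fin n) F)
    (h : ∀ v ∈ U, (g : Matrix (Fin n) (Fin n) F) *ᵥ v ∈ U) (v : Fin n → F) :
    v ∈ U ↔ (g : Matrix (Fin n) (Fin n) F) *ᵥ v ∈ U := by
  refine ⟨h v, fun hv => ?_⟩
  have hinj : Function.Injective ((g : Matrix (Fin n) (Fin n) F).mulVecLin) := by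
    have := Matrix.mulVec_injective_iff_isUnit.mpr g.isUnit
    exact this
  have hle : U.map (g : Matrix (Fin n) (Fin n) F).mulVecLin ≤ U := by
    rintro _ ⟨x, hx, rfl⟩
    exact h x hx
  have heq : U.map (g : Matrix (Fin n) (Fin n) F).mulVecLin = U := by
    apply Submodule.eq_of_le_of_finrank_eq hle
    exact (Submodule.equivMapOfInjective _ hinj U).finrank_eq.symm
  rw [← heq] at hv
  obtain ⟨x, hx, hxv⟩ := hv
  have := hinj hxv
  rwa [← this]

/-- `1 + w φᵀ` -/
theorem exists_one_add {w φ : Fin n → F} (h : 1 + φ ⬝ᵥ w ≠ 0) :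
    ∃ g : GL (Fin n) F, ∀ x, (g : Matrix (Fin n) (Fin n) F) *ᵥ x = x + (φ ⬝ᵥ x) • w := by
  have hdet : (1 + Matrix.vecMulVec w φ).det ≠ 0 := by
    rw [Matrix.vecMulVec_eq Unit, Matrix.det_one_add_mul_comm, Matrix.det_unique, Matrix.add_apply,
      Matrix.one_apply_eq]
    simpa [Matrix.mul_apply, dotProduct] using h
  refine ⟨Matrix.GeneralLinearGroup.mkOfDetNeZero _ hdet, fun x => ?_⟩
  change (1 + Matrix.vecMulVec w φ) *ᵥ x = _
  rw [Matrix.add_mulVec, Matrix.one_mulVec, Matrix.vecMulVec_mulVec, op_smul_eq_smul]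

/-- `P` is transitive on the vectors outside `E` -/
theorem P_transitive {k : ℕ} {v v' : Fin n → F} (hv : v ∉ E F n k) (hv' : v' ∉ E F n k) :
    ∃ p ∈ P F n k, (p : Matrix (Fin n) (Fin n) F) *ᵥ v = v' := by
  classical
  obtain ⟨φ, h1, h2, h3⟩ : ∃ φ : Fin n → F, φ ⬝ᵥ v = 1 ∧ φ ⬝ᵥ v' ≠ 0 ∧
      ∀ x ∈ E F n k, φ ⬝ᵥ x = 0 := by
    rw [mem_E] at hv hv'
    push Not at hv hv'
    obtain ⟨i0, hi0, hvi0⟩ := hv
    obtain ⟨i1, hi1, hvi1⟩ := hv'
    by_cases c1 : v' i0 ≠ 0
    · refine ⟨Pi.single i0 (v i0)⁻¹, ?_, ?_, fun x hx => ?_⟩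
      · rw [single_dotProduct, inv_mul_cancel₀ hvi0]
      · rw [single_dotProduct]; exact mul_ne_zero (inv_ne_zero hvi0) c1
      · rw [single_dotProduct, hx i0 hi0, mul_zero]
    · push Not at c1
      by_cases c2 : v i1 ≠ 0
      · refine ⟨Pi.single i1 (v i1)⁻¹, ?_, ?_, fun x hx => ?_⟩
        · rw [single_dotProduct, inv_mul_cancel₀ c2]
        · rw [single_dotProduct]; exact mul_ne_zero (inv_ne_zero c2) hvi1
        · rw [single_dotProduct, hx i1 hi1, mul_zero]
      · push Not at c2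
        refine ⟨Pi.single i0 (v i0)⁻¹ + Pi.single i1 1, ?_, ?_, fun x hx => ?_⟩
        · rw [add_dotProduct, single_dotProduct, single_dotProduct, inv_mul_cancel₀ hvi0, c2,
            mul_zero, add_zero]
        · rw [add_dotProduct, single_dotProduct, single_dotProduct, c1, mul_zero, zero_add,
            one_mul]
          exact hvi1
        · rw [add_dotProduct, single_dotProduct, single_dotProduct, hx i0 hi0, hx i1 hi1, mul_zero,
            mul_zero, add_zero]
  obtain ⟨g, hg⟩ := exists_one_add (w := v' - v) (φ := φ) (by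
    rw [dotProduct_sub, h1, add_sub_cancel]
    exact h2)
  refine ⟨g, ?_, ?_⟩
  · rw [mem_P]
    apply stab_of_le
    intro x hx
    rw [hg, h3 x hx, zero_smul, add_zero]
    exact hx
  · rw [hg, h1, one_smul, add_sub_cancel]

/-- transitivity on the nonzero vectors of `E`, when we can find an invertible matrix -/
theorem P_transitive_in {k : ℕ} {v v' : Fin n → F} (hv : v ∈ E F n k) (hv0 : v ≠ 0)
    (hv' : v' ∈ E F n k) (hv'0 : v' ≠ 0) :
    ∃ p ∈ P F n k, (p : Matrix (Fin n) (Fin n) F) *ᵥ v = v' := by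
  classical
  obtain ⟨φ, h1, h2⟩ : ∃ φ : Fin n → F, φ ⬝ᵥ v = 1 ∧ φ ⬝ᵥ v' ≠ 0 := by
    obtain ⟨i0, hvi0⟩ : ∃ i, v i ≠ 0 := by
      by_contra hcon; push Not at hcon; exact hv0 (funext hcon)
    obtain ⟨i1, hvi1⟩ : ∃ i, v' i ≠ 0 := by
      by_contra hcon; push Not at hcon; exact hv'0 (funext hcon)
    by_cases c1 : v' i0 ≠ 0
    · refine ⟨Pi.single i0 (v i0)⁻¹, ?_, ?_⟩
      · rw [single_dotProduct, inv_mul_cancel₀ hvi0]
      · rw [single_dotProduct]; exact mul_ne_zero (inv_ne_zero hvi0) c1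
    · push Not at c1
      by_cases c2 : v i1 ≠ 0
      · refine ⟨Pi.single i1 (v i1)⁻¹, ?_, ?_⟩
        · rw [single_dotProduct, inv_mul_cancel₀ c2]
        · rw [single_dotProduct]; exact mul_ne_zero (inv_ne_zero c2) hvi1
      · push Not at c2
        refine ⟨Pi.single i0 (v i0)⁻¹ + Pi.single i1 1, ?_, ?_⟩
        · rw [add_dotProduct, single_dotProduct, single_dotProduct, inv_mul_cancel₀ hvi0, c2,
            mul_zero, add_zero]
        · rw [add_dotProduct, single_dotProduct, single_dotProduct, c1, mul_zero, zero_add,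
            one_mul]
          exact hvi1
  obtain ⟨g, hg⟩ := exists_one_add (w := v' - v) (φ := φ) (by
    rw [dotProduct_sub, h1, add_sub_cancel]
    exact h2)
  refine ⟨g, ?_, ?_⟩
  · rw [mem_P]
    apply stab_of_le
    intro x hx
    rw [hg]
    exact Submodule.add_mem _ hx (Submodule.smul_mem _ _ (Submodule.sub_mem _ hv' hv))
  · rw [hg, h1, one_smul, add_sub_cancel]

/-- `P` is proper -/
theorem P_ne_top {k : ℕ} (hk0 : 0 < k) (hkn : k < n) : P F n k ≠ ⊤ := by
  classical
  intro h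
  have hne : NeZero n := ⟨by omega⟩
  obtain ⟨g, hg⟩ := exists_one_add (F := F) (n := n)
    (w := Pi.single ⟨n - 1, by omega⟩ 1) (φ := Pi.single ⟨0, by omega⟩ 1) (by
      rw [single_dotProduct, Pi.single_eq_of_ne (by
        intro h2
        have := congrArg Fin.val h2
        simp at this
        omega), mul_zero, add_zero]
      exact one_ne_zero)
  have hgP : g ∈ P F n k := by rw [h]; trivial
  have h0 : (Pi.single ⟨0, by omega⟩ 1 : Fin n → F) ∈ E F n k := by
    intro i hi
    rw [Pi.single_eq_of_ne]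
    intro h2
    rw [h2] at hi
    simp at hi
    omega
  have h1 := (mem_P.mp hgP _).mp h0
  rw [hg] at h1
  have h2 := h1 ⟨n - 1, by omega⟩ (by simp; omega)
  rw [single_dotProduct, Pi.single_eq_same, mul_one, one_smul, Pi.add_apply, Pi.single_eq_same,
    Pi.single_eq_of_ne (by
        intro h2
        have := congrArg Fin.val h2
        simp at this
        omega), zero_add] at h2
  exact one_ne_zero h2

/-- a subgroup properly containing `P` moves every vector into `E`. -/
theorem exists_move {k : ℕ} (hk0 : 0 < k) (hkn : k < n) {H : Subgroup (GL (Fin n) F)}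
    (hPH : P F n k < H) (v : Fin n → F) :
    ∃ g ∈ H, (g : Matrix (Fin n) (Fin n) F) *ᵥ v ∈ E F n k := by
  by_cases hv : v ∈ E F n k
  · exact ⟨1, H.one_mem, by rw [Units.val_one, Matrix.one_mulVec]; exact hv⟩
  · obtain ⟨h, hH, hP⟩ := Set.exists_of_ssubset hPH
    have : ∃ e ∈ E F n k, (h : Matrix (Fin n) (Fin n) F) *ᵥ e ∉ E F n k := by
      by_contra hcon
      push Not at hcon
      exact hP (mem_P.mpr (fun v => stab_of_le h hcon v))
    obtain ⟨e, he, hhe⟩ := this
    obtain ⟨p, hp, hpv⟩ := P_transitive hv hhe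
    refine ⟨h⁻¹ * p, H.mul_mem (H.inv_mem hH) (hPH.le hp), ?_⟩
    rw [Units.val_mul, ← Matrix.mulVec_mulVec, hpv, Matrix.mulVec_mulVec, ← Units.val_mul,
      inv_mul_cancel, Units.val_one, Matrix.one_mulVec]
    exact he

/-- a subgroup properly containing `P` contains all elementary transvections. -/
theorem transvection_mem {k : ℕ} (hk0 : 0 < k) (hkn : k < n) {H : Subgroup (GL (Fin n) F)}
    (hPH : P F n k < H) (i j : Fin n) (hij : i ≠ j) (c : F) (t : GL (Fin n) F)
    (ht : (t : Matrix (Fin n) (Fin n) F) = Matrix.transvection i j c) : t ∈ H := by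
  classical
  obtain ⟨g, hg, hgi⟩ := exists_move hk0 hkn hPH (Pi.single i 1)
  have htx : ∀ x, (t : Matrix (Fin n) (Fin n) F) *ᵥ x = x + (c * x j) • Pi.single i 1 := by
    intro x
    rw [ht, Matrix.transvection, Matrix.add_mulVec, Matrix.one_mulVec]
    congr 1
    ext l
    by_cases hl : l = i
    · subst hl
      simp [Matrix.single_mulVec]
    · simp [Matrix.single_mulVec, hl]
  have h1 : g * t * g⁻¹ ∈ P F n k := by
    rw [mem_P]
    apply stab_of_le
    intro x hx
    rw [Units.val_mul, Units.val_mul, ← Matrix.mulVec_mulVec, ← Matrix.mulVec_mulVec, htx,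
      Matrix.mulVec_add, Matrix.mulVec_smul, Matrix.mulVec_mulVec, ← Units.val_mul,
      mul_inv_cancel, Units.val_one, Matrix.one_mulVec]
    exact Submodule.add_mem _ hx (Submodule.smul_mem _ _ hgi)
  have h2 : t = g⁻¹ * (g * t * g⁻¹) * g := by group
  rw [h2]
  exact H.mul_mem (H.mul_mem (H.inv_mem hg) (hPH.le h1)) hg

/-- maximal parabolics are maximal -/
theorem isCoatom_P {k : ℕ} (hk0 : 0 < k) (hkn : k < n) : IsCoatom (P F n k) := by
  classical
  refine ⟨P_ne_top hk0 hkn, fun H hPH => ?_⟩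
  have hnt : Nontrivial (Fin n) := Fin.nontrivial_iff_two_le.mpr (by omega)
  have hSL : ∀ s : Matrix.SpecialLinearGroup (Fin n) F, Matrix.SpecialLinearGroup.toGL s ∈ H := by
    intro s
    have h1 : s ∈ (⊤ : Subgroup (Matrix.SpecialLinearGroup (Fin n) F)) := trivial
    rw [← SL.closure_transvections] at h1
    induction h1 using Subgroup.closure_induction with
    | mem x hx =>
      obtain ⟨i, j, hij, c, hc⟩ := hx
      exact transvection_mem hk0 hkn hPH i j hij c _ (by rw [hc]; rfl)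
    | one => rw [map_one]; exact H.one_mem
    | mul x y _ _ hx hy => rw [map_mul]; exact H.mul_mem hx hy
    | inv x _ hx => rw [map_inv]; exact H.inv_mem hx
  rw [eq_top_iff]
  intro g _
  have hne : NeZero n := ⟨by omega⟩
  -- diagonal element
  let d : Fin n → F := fun i => if i = 0 then (g : Matrix (Fin n) (Fin n) F).det else 1
  have hdet : (g : Matrix (Fin n) (Fin n) F).det ≠ 0 := by
    have := g.det.ne_zero
    rwa [Matrix.GeneralLinearGroup.val_det_apply] at this
  have hdd : (Matrix.diagonal d).det = (g : Matrix (Fin n) (Fin n) F).det := by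
    rw [Matrix.det_diagonal, Finset.prod_eq_single (0 : Fin n)]
    · simp [d]
    · intro i _ hi; simp [d, hi]
    · simp
  set D : GL (Fin n) F := Matrix.GeneralLinearGroup.mkOfDetNeZero (Matrix.diagonal d)
    (by rw [hdd]; exact hdet)
  have hDval : (D : Matrix (Fin n) (Fin n) F) = Matrix.diagonal d := rfl
  have hDP : D ∈ P F n k := by
    rw [mem_P]
    apply stab_of_le
    intro x hx i hi
    rw [hDval, Matrix.mulVec_diagonal, hx i hi, mul_zero]
  have hs : ((g * D⁻¹ : GL (Fin n) F) : Matrix (Fin n) (Fin n) F).det = 1 := by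
    have h1 : Matrix.GeneralLinearGroup.det (g * D⁻¹) = 1 := by
      rw [map_mul, map_inv, mul_inv_eq_one]
      ext
      exact hdd.symm
    have h2 := congrArg Units.val h1
    exact h2
  have h3 := hSL ⟨_, hs⟩
  have h4 : Matrix.SpecialLinearGroup.toGL (⟨_, hs⟩ : Matrix.SpecialLinearGroup (Fin n) F) =
      g * D⁻¹ := by
    apply Units.ext
    rfl
  rw [h4] at h3
  have h5 : g = g * D⁻¹ * D := by rw [inv_mul_cancel_right]
  rw [h5]
  exact H.mul_mem h3 (hPH.le hDP)

/-- the only `P`-invariant subspaces are `0`, `E` and the whole space. -/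
theorem invariant_subspaces {k : ℕ} {U : Submodule F (Fin n → F)}
    (hU : ∀ p ∈ P F n k, ∀ v ∈ U, (p : Matrix (Fin n) (Fin n) F) *ᵥ v ∈ U) :
    U = ⊥ ∨ U = E F n k ∨ U = ⊤ := by
  by_cases h1 : U ≤ E F n k
  · by_cases h2 : U = ⊥
    · exact Or.inl h2
    · right; left
      apply le_antisymm h1
      obtain ⟨u, hu, hu0⟩ := (Submodule.ne_bot_iff _).mp h2
      intro v hv
      by_cases hv0 : v = 0
      · rw [hv0]; exact U.zero_mem
      · obtain ⟨p, hp, hpv⟩ := P_transitive_in (h1 hu) hu0 hv hv0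
        rw [← hpv]
        exact hU p hp u hu
  · right; right
    obtain ⟨u, hu, huE⟩ := Set.not_subset.mp h1
    rw [eq_top_iff]
    intro v _
    have hout : ∀ x, x ∉ E F n k → x ∈ U := by
      intro x hx
      obtain ⟨p, hp, hpx⟩ := P_transitive huE hx
      rw [← hpx]
      exact hU p hp u hu
    by_cases hv : v ∈ E F n k
    · have h3 : u + v ∉ E F n k := fun h => huE ((Submodule.add_mem_iff_left _ hv).mp h)
      have h4 := Submodule.sub_mem _ (hout _ h3) hu
      rwa [add_sub_cancel_left] at h4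
    · exact hout v hv

theorem mem_P_iff {k : ℕ} {g : GL (Fin n) F} : g ∈ P F n k ↔
    ∀ i j : Fin n, k ≤ (i : ℕ) → (j : ℕ) < k → (g : Matrix (Fin n) (Fin n) F) i j = 0 := by
  classical
  constructor
  · intro h i j hi hj
    have h1 : (Pi.single j 1 : Fin n → F) ∈ E F n k := by
      intro l hl
      rw [Pi.single_eq_of_ne]
      rintro rfl
      omega
    have h2 := (mem_P.mp h _).mp h1 i hi
    rw [Matrix.mulVec_single_one] at h2
    exact h2
  · intro h
    rw [mem_P]
    apply stab_of_le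
    intro v hv i hi
    rw [Matrix.mulVec, dotProduct]
    refine Finset.sum_eq_zero (fun j _ => ?_)
    by_cases hj : (j : ℕ) < k
    · rw [h i j hi hj, zero_mul]
    · rw [hv j (by omega), mul_zero]

theorem rev_mul {F : Type*} [Field F] {n : ℕ} (A B : Matrix (Fin n) (Fin n) F) :
    A.submatrix Fin.rev Fin.rev * B.submatrix Fin.rev Fin.rev =
      (A * B).submatrix Fin.rev Fin.rev :=
  Matrix.submatrix_mul_equiv A B Fin.rev Fin.revPerm Fin.rev

/-- inverse transpose, with reversed coordinates -/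
def psi (n : ℕ) (F : Type*) [Field F] : GL (Fin n) F ≃* GL (Fin n) F where
  toFun g := ⟨((g⁻¹ : GL (Fin n) F) : Matrix (Fin n) (Fin n) F)ᵀ.submatrix Fin.rev Fin.rev,
    (g : Matrix (Fin n) (Fin n) F)ᵀ.submatrix Fin.rev Fin.rev, by
      rw [rev_mul, ← Matrix.transpose_mul, ← Units.val_mul,
        mul_inv_cancel, Units.val_one, Matrix.transpose_one, Matrix.submatrix_one _ Fin.rev_injective], by
      rw [rev_mul, ← Matrix.transpose_mul, ← Units.val_mul,
        inv_mul_cancel, Units.val_one, Matrix.transpose_one, Matrix.submatrix_one _ Fin.rev_injective]⟩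
  invFun g := ⟨((g⁻¹ : GL (Fin n) F) : Matrix (Fin n) (Fin n) F)ᵀ.submatrix Fin.rev Fin.rev,
    (g : Matrix (Fin n) (Fin n) F)ᵀ.submatrix Fin.rev Fin.rev, by
      rw [rev_mul, ← Matrix.transpose_mul, ← Units.val_mul,
        mul_inv_cancel, Units.val_one, Matrix.transpose_one, Matrix.submatrix_one _ Fin.rev_injective], by
      rw [rev_mul, ← Matrix.transpose_mul, ← Units.val_mul,
        inv_mul_cancel, Units.val_one, Matrix.transpose_one, Matrix.submatrix_one _ Fin.rev_injective]⟩
  left_inv g := by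
    apply Units.ext
    ext i j
    change (g : Matrix (Fin n) (Fin n) F) (Fin.rev (Fin.rev i)) (Fin.rev (Fin.rev j)) = _
    rw [Fin.rev_rev, Fin.rev_rev]
  right_inv g := by
    apply Units.ext
    ext i j
    change (g : Matrix (Fin n) (Fin n) F) (Fin.rev (Fin.rev i)) (Fin.rev (Fin.rev j)) = _
    rw [Fin.rev_rev, Fin.rev_rev]
  map_mul' g h := by
    apply Units.ext
    change (((g * h)⁻¹ : GL (Fin n) F) : Matrix (Fin n) (Fin n) F)ᵀ.submatrix Fin.rev Fin.rev =
      ((g⁻¹ : GL (Fin n) F) : Matrix (Fin n) (Fin n) F)ᵀ.submatrix Fin.rev Fin.rev *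
      ((h⁻¹ : GL (Fin n) F) : Matrix (Fin n) (Fin n) F)ᵀ.submatrix Fin.rev Fin.rev
    rw [rev_mul, ← Matrix.transpose_mul, ← Units.val_mul,
      _root_.mul_inv_rev]

theorem psi_mem {k : ℕ} (hk : k ≤ n) (g : GL (Fin n) F) :
    g ∈ P F n k ↔ psi n F g ∈ P F n (n - k) := by
  have key : ∀ (k : ℕ) (hk : k ≤ n) (g : GL (Fin n) F), g ∈ P F n k → psi n F g ∈ P F n (n - k) := by
    intro k hk g hg
    have h1 := mem_P_iff.mp ((P F n k).inv_mem hg)
    rw [mem_P_iff]
    intro i j hi hj
    change ((g⁻¹ : GL (Fin n) F) : Matrix (Fin n) (Fin n) F) (Fin.rev j) (Fin.rev i) = 0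
    apply h1
    · rw [Fin.val_rev]; omega
    · rw [Fin.val_rev]; have := i.2; omega
  refine ⟨key k hk g, fun h => ?_⟩
  have h2 := key (n - k) (by omega) _ h
  rw [Nat.sub_sub_self hk] at h2
  have h3 : psi n F (psi n F g) = g := (psi n F).left_inv g
  rwa [h3] at h2

end Cfsg.Agent.H5.GLpar
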