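import Mathlib
import Cfsg.Agent.H5_DkM
import Cfsg.Agent.H5_A5

set_option autoImplicit false

/-! Dickson's theorem on `⟨l(1), u(λ)⟩`. -/

namespace Cfsg.Agent.H5.Gen2

open Cfsg.Agent.H5.SL2 Cfsg.Agent.H5.V4 Cfsg.Agent.H5.Dk
open scoped Pointwise

variable {F : Type*} [Field F]

theorem neg_one_mem {H : Subgroup (S F)} {A : S F} (hA : A ∈ H) (h : A * A = -1) : (-1 : S F) ∈ H := by
  rw [← h]; exact H.mul_mem hA hA

theorem card_of_neg [Fintype F] {H : Subgroup (S F)} (h : (-1 : S F) ∈ H) :
    Nat.card H = Nat.gcd 2 (Fintype.card F - 1) * Nat.card (H.map π) := by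
  rw [← card_comap_π]
  congr 2
  rw [Subgroup.comap_map_eq_self]
  intro s hs
  rw [MonoidHom.mem_ker, π_eq_one] at hs
  rcases hs with rfl | rfl
  · exact H.one_mem
  · exact h

theorem u_of_neg [Fintype F] {p : ℕ} [CharP F p] (hp : Odd p) {H : Subgroup (S F)} {x : F} (h : π (u x) ∈ H.map π) : u x ∈ H := by
  obtain ⟨s, hs, hs'⟩ := h
  rcases π_eq.mp hs' with rfl | rfl
  · exact hs
  · have h1 := H.pow_mem hs (p + 1)
    have h2 : ∀ n : ℕ, u x ^ n = u (n * x) := by
      intro n
      induction n with
      | zero => simp [u_zero]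
      | succ n ih => rw [pow_succ, ih, u_mul]; congr 1; push_cast; ring
    rw [Even.neg_pow (by exact hp.add_one), h2] at h1
    have h3 : ((p + 1 : ℕ) : F) * x = x := by
      push_cast
      rw [CharP.cast_eq_zero, zero_add, one_mul]
    rwa [h3] at h1

theorem l_of_neg [Fintype F] {p : ℕ} [CharP F p] (hp : Odd p) {H : Subgroup (S F)} {x : F} (h : π (l x) ∈ H.map π) : l x ∈ H := by
  obtain ⟨s, hs, hs'⟩ := h
  rcases π_eq.mp hs' with rfl | rfl
  · exact hs
  · have h1 := H.pow_mem hs (p + 1)
    have h2 : ∀ n : ℕ, l x ^ n = l (n * x) := by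
      intro n
      induction n with
      | zero => simp [l_zero]
      | succ n ih => rw [pow_succ, ih, l_mul]; congr 1; push_cast; ring
    rw [Even.neg_pow (by exact hp.add_one), h2] at h1
    have h3 : ((p + 1 : ℕ) : F) * x = x := by
      push_cast
      rw [CharP.cast_eq_zero, zero_add, one_mul]
    rwa [h3] at h1

/-- the exceptional case -/
theorem exceptional [Fintype F] {lam : F} (h9 : Fintype.card F = 9) (hl : lam ^ 2 = -1) :
    Nat.card (Subgroup.closure {l (1 : F), u lam}) = 120 := by
  have h3 : (3 : F) = 0 := by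
    have h1 := FiniteField.cast_card_eq_zero F
    rw [h9] at h1
    push_cast at h1
    have h2 : (3 : F) * 3 = 0 := by rw [← h1]; norm_num
    rcases mul_eq_zero.mp h2 with h | h <;> exact h
  have h2 : (2 : F) ≠ 0 := by
    intro h
    have : (1 : F) = 0 := by linear_combination h3 - h
    exact one_ne_zero this
  set H := Subgroup.closure {l (1 : F), u lam}
  have hx : l (1 : F) ∈ H := Subgroup.subset_closure (by simp)
  have hy : u lam ∈ H := Subgroup.subset_closure (by simp)
  let A : S F := mk2 0 (-1 - lam) (-1 + lam) 0 (by linear_combination hl - h3 + 0 * h3)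
  have hA : l 1 * u lam * l 1 * u lam * l 1 = A := by
    apply ext2 <;> simp only [mul00, mul01, mul10, mul11, A, mk00, mk01, mk10, mk11, u00, u01, u10, u11, l00, l01, l10, l11]
    · linear_combination hl + lam * h3
    · linear_combination hl + lam * h3
    · linear_combination hl + (lam + 1) * h3
    · linear_combination hl + lam * h3
  have hAH : A ∈ H := by
    rw [← hA]
    exact H.mul_mem (H.mul_mem (H.mul_mem (H.mul_mem hx hy) hx) hy) hx
  have hAA : A * A = -1 := sq_of_trace_zero (by simp [A])
  have hy' : A * l 1 * A = -u lam := by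
    apply ext2 <;> simp only [mul00, mul01, mul10, mul11, A, mk00, mk01, mk10, mk11, u00, u01, u10, u11, l00, l01, l10, l11, neg00, neg01, neg10, neg11]
    · linear_combination -hl + h3
    · linear_combination hl + lam * h3
    · ring
    · linear_combination -hl + h3
  rw [card_of_neg (neg_one_mem hAH hAA)]
  have hg : Nat.gcd 2 (Fintype.card F - 1) = 2 := by rw [h9]; rfl
  rw [hg]
  have hmap : H.map π = Subgroup.closure {π A, π (-(l (1 : F))⁻¹)} := by
    rw [MonoidHom.map_closure, Set.image_pair]
    apply le_antisymm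
    · rw [Subgroup.closure_le]
      have m1 : π A ∈ Subgroup.closure {π A, π (-(l (1 : F))⁻¹)} := Subgroup.subset_closure (by simp)
      have m2 : π (l (1 : F)) ∈ Subgroup.closure {π A, π (-(l (1 : F))⁻¹)} := by
        have h1 : π (-(l (1 : F))⁻¹) ∈ Subgroup.closure {π A, π (-(l (1 : F))⁻¹)} := Subgroup.subset_closure (by simp)
        have h2 := Subgroup.inv_mem _ h1
        have h4 : (π (-(l (1 : F))⁻¹))⁻¹ = π (l 1) := by rw [π_neg, map_inv, inv_inv]
        rwa [h4] at h2
      rintro z (rfl | rfl)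
      · exact m2
      · have : π (u lam) = π A * π (l 1) * π A := by
          rw [← map_mul, ← map_mul, hy', π_neg]
        rw [this]
        exact Subgroup.mul_mem _ (Subgroup.mul_mem _ m1 m2) m1
    · rw [Subgroup.closure_le]
      have m1 : π (l (1 : F)) ∈ Subgroup.closure {π (l (1 : F)), π (u lam)} := Subgroup.subset_closure (by simp)
      have m2 : π (u lam) ∈ Subgroup.closure {π (l (1 : F)), π (u lam)} := Subgroup.subset_closure (by simp)
      rintro z (rfl | rfl)
      · rw [← hA]
        simp only [map_mul]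
        exact Subgroup.mul_mem _ (Subgroup.mul_mem _ (Subgroup.mul_mem _ (Subgroup.mul_mem _ m1 m2) m1) m2) m1
      · rw [π_neg, map_inv]; exact Subgroup.inv_mem _ m1
  rw [hmap]
  obtain ⟨e⟩ := A5.a5_of (A := A) (B := -(l (1 : F))⁻¹) (τ := -1 - lam) h2 (by simp [A]) (by
    rw [l_inv, neg00, neg11, l00, l11]; linear_combination -h3) (by
    simp only [mul00, mul11, mul01, mul10, A, mk00, mk01, mk10, mk11, l_inv, neg00, neg01, neg10, neg11, l00, l01, l10, l11]
    ring) (by linear_combination hl + lam * h3)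
  rw [Nat.card_congr e.toEquiv, card_A5]


theorem card_le_of_pow [Fintype F] {n : ℕ} (hn : 1 < n) (h : ∀ x : F, x ^ n = x) : Fintype.card F ≤ n := by
  classical
  obtain ⟨ζ, hζ⟩ := IsCyclic.exists_generator (α := Fˣ)
  have h1 : ζ ^ (n - 1) = 1 := by
    apply Units.ext
    rw [Units.val_pow_eq_pow_val, Units.val_one]
    have h2 := h ζ
    have h3 : (ζ : F) ^ (n - 1) * ζ = 1 * ζ := by rw [← pow_succ, Nat.sub_add_cancel (by omega), h2, one_mul]
    exact mul_right_cancel₀ ζ.ne_zero h3
  have h2 := orderOf_dvd_of_pow_eq_one h1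
  rw [orderOf_eq_card_of_forall_mem_zpowers hζ, Nat.card_eq_fintype_card, Fintype.card_units] at h2
  have := Nat.le_of_dvd (by omega) h2
  omega

theorem all_pow_of_gen [Fintype F] (p k : ℕ) [Fact p.Prime] [CharP F p] {lam : F} (hgen : Subfield.closure ({lam} : Set F) = ⊤)
    (h : lam ^ p ^ k = lam) (x : F) : x ^ p ^ k = x := by
  let E : Subfield F := RingHom.eqLocusField (iterateFrobenius F p k) (RingHom.id F)
  have hle : Subfield.closure ({lam} : Set F) ≤ E := by
    rw [Subfield.closure_le]
    intro y hy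
    rw [Set.mem_singleton_iff] at hy
    subst hy
    change iterateFrobenius F p k y = y
    rw [iterateFrobenius_def]; exact h
  have hx : x ∈ E := hle (by rw [hgen]; exact Subfield.mem_top x)
  have hx' : iterateFrobenius F p k x = x := hx
  rw [iterateFrobenius_def] at hx'
  exact hx'

theorem nonscalar_coeff {g : S F} {a b : F} (h10 : g.1 1 0 ≠ 0) (h : a • g.1 = b • (1 : Matrix (Fin 2) (Fin 2) F)) : a = 0 := by
  have := congrFun (congrFun h 1) 0
  simp only [Matrix.smul_apply, smul_eq_mul, Matrix.one_apply_ne (by decide : (1 : Fin 2) ≠ 0), mul_zero] at this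
  exact (mul_eq_zero.mp this).resolve_right h10

/-- traces of elements of order 2, 3, 5 modulo `±1`. -/
theorem trace_cases {g : S F} (h10 : g.1 1 0 ≠ 0) (h : (π g) ^ 2 = 1 ∨ (π g) ^ 3 = 1 ∨ (π g) ^ 5 = 1) :
    (g.1 0 0 + g.1 1 1 = 0) ∨ (g.1 0 0 + g.1 1 1) ^ 2 = 1 ∨ (g.1 0 0 + g.1 1 1) ^ 4 - 3 * (g.1 0 0 + g.1 1 1) ^ 2 + 1 = 0 := by
  set t := g.1 0 0 + g.1 1 1 with ht
  have hM := A5.sq_eq ht.symm
  set M := g.1 with hMdef
  have hpm : ∀ n : ℕ, (π g) ^ n = 1 → M ^ n = 1 ∨ M ^ n = -1 := by
    intro n hn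
    rw [← map_pow, π_eq_one] at hn
    rcases hn with h | h
    · left
      have := congrArg Subtype.val h
      rw [Matrix.SpecialLinearGroup.coe_pow] at this
      exact this
    · right
      have := congrArg Subtype.val h
      rw [Matrix.SpecialLinearGroup.coe_pow] at this
      exact this
  have key : ∀ a b : F, (a • M - b • (1 : Matrix (Fin 2) (Fin 2) F) = 1 ∨ a • M - b • (1 : Matrix (Fin 2) (Fin 2) F) = -1) → a = 0 := by
    rintro a b (h | h)
    · apply nonscalar_coeff h10 (b := b + 1)
      rw [← hMdef]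
      have h2 := eq_add_of_sub_eq h
      rw [h2]; module
    · apply nonscalar_coeff h10 (b := b - 1)
      rw [← hMdef]
      have h2 := eq_add_of_sub_eq h
      rw [h2]; module
  have h3 : M ^ 3 = (t ^ 2 - 1) • M - t • (1 : Matrix (Fin 2) (Fin 2) F) := by
    rw [pow_succ, sq, hM, sub_mul, smul_mul_assoc, hM, one_mul]; module
  have h4 : (M * M) * (M * M) = (t ^ 3 - 2 * t) • M - (t ^ 2 - 1) • (1 : Matrix (Fin 2) (Fin 2) F) := by
    have e1 : (M * M) * (M * M) = (t ^ 2) • (M * M) - (2 * t) • M + 1 := by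
      conv_lhs => rw [hM]
      simp only [sub_mul, mul_sub, smul_mul_assoc, mul_smul_comm, mul_one, one_mul, smul_smul]
      module
    rw [e1, hM]; module
  have h5 : M ^ 5 = (t ^ 4 - 3 * t ^ 2 + 1) • M - (t ^ 3 - 2 * t) • (1 : Matrix (Fin 2) (Fin 2) F) := by
    have e : M ^ 5 = (M * M) * (M * M) * M := by simp only [pow_succ, pow_zero, one_mul, mul_assoc]
    rw [e, h4, sub_mul, smul_mul_assoc, hM, smul_mul_assoc, one_mul]; module
  rcases h with h | h | h
  · left
    apply key t 1
    rw [one_smul, ← hM, ← sq]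
    exact hpm 2 h
  · right; left
    have := key (t ^ 2 - 1) t (by rw [← h3]; exact hpm 3 h)
    exact sub_eq_zero.mp this
  · right; right
    exact key _ (t ^ 3 - 2 * t) (by rw [← h5]; exact hpm 5 h)

theorem main [Fintype F] (h2 : (2 : F) ≠ 0) (lam : F) (hlam : lam ≠ 0) (hgen : Subfield.closure ({lam} : Set F) = ⊤)
    (hex : ¬ (Fintype.card F = 9 ∧ lam ^ 2 = -1)) : Subgroup.closure {l (1 : F), u lam} = ⊤ := by
  obtain ⟨p, hp⟩ := CharP.exists F
  have hpp : Fact p.Prime := ⟨CharP.char_is_prime F p⟩
  have hppr := hpp.out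
  have hp2 : p ≠ 2 := by
    rintro rfl
    apply h2
    exact_mod_cast CharP.cast_eq_zero F 2
  have hpodd : Odd p := hppr.eq_two_or_odd'.resolve_left hp2
  set H := Subgroup.closure {l (1 : F), u lam} with hH
  have hx : l (1 : F) ∈ H := Subgroup.subset_closure (by simp)
  have hy : u lam ∈ H := Subgroup.subset_closure (by simp)
  have hdvd : p ∣ Nat.card (H.map π) := by
    have h1 : π (u lam) ≠ 1 := by
      intro h
      have : u lam = u 0 := by
        rcases π_eq_one.mp h with h | h
        · rw [h, u_zero]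
        · exfalso
          have := congrArg (fun m : S F => m.1 0 0) h
          simp only [u00, neg00, one00] at this
          apply h2; linear_combination this
      exact hlam (u_inj this)
    have h3 : (π (u lam)) ^ p = 1 := by
      have h4 : ∀ n : ℕ, u lam ^ n = u (n * lam) := by
        intro n
        induction n with
        | zero => simp [u_zero]
        | succ n ih => rw [pow_succ, ih, u_mul]; congr 1; push_cast; ring
      rw [← map_pow, h4, CharP.cast_eq_zero, zero_mul, u_zero, map_one]
    have h4 : orderOf (π (u lam)) = p := orderOf_eq_prime h3 h1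
    have h5 : π (u lam) ∈ H.map π := ⟨_, hy, rfl⟩
    rw [← h4, ← Subgroup.orderOf_mk _ h5]
    exact orderOf_dvd_natCard _
  obtain ⟨g, h | h | h | ⟨e, K0, hS, hc, ht⟩⟩ := hub p (H.map π) hdvd
  · exfalso
    obtain ⟨t, rfl⟩ := π_surj g
    have hc : ∀ s ∈ H, (t * s * t⁻¹).1 1 0 = 0 := by
      intro s hs
      apply h
      rw [mem_conj, ← map_inv, ← map_mul, ← map_mul]
      have : t⁻¹ * (t * s * t⁻¹) * t = s := by group
      rw [this]
      exact ⟨s, hs, rfl⟩
    have e1 := hc _ hx
    have e2 := hc _ hy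
    simp only [mul10, mul11, mul00, mul01, inv00, inv10, inv01, inv11, u00, u01, u10, u11, l00, l01, l10, l11] at e1 e2
    have e3 : t.1 1 1 ^ 2 = 0 := by linear_combination e1
    have e4 : t.1 1 0 ^ 2 = 0 := by
      have : lam * t.1 1 0 ^ 2 = 0 := by linear_combination -e2
      exact (mul_eq_zero.mp this).resolve_left hlam
    have hd := det_eq t
    rw [pow_eq_zero_iff (two_ne_zero)] at e3 e4
    rw [e3, e4] at hd
    simp at hd
  · exact absurd h.1 hp2
  · exfalso
    obtain ⟨hp3, h60, ⟨e⟩⟩ := h
    subst hp3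
    have h30 : (3 : F) = 0 := by exact_mod_cast CharP.cast_eq_zero F 3
    have hall : ∀ s ∈ H, (π s) ^ 2 = 1 ∨ (π s) ^ 3 = 1 ∨ (π s) ^ 5 = 1 := by
      intro s hs
      have hm : π s ∈ H.map π := ⟨s, hs, rfl⟩
      have hback : ∀ n : ℕ, (e ⟨π s, hm⟩) ^ n = 1 → (π s) ^ n = 1 := by
        intro n hn
        rw [← map_pow, ← map_one e] at hn
        exact congrArg Subtype.val (e.injective hn)
      rcases ord_A5 (e ⟨π s, hm⟩) with h | h | h
      · exact Or.inl (hback 2 h)
      · exact Or.inr (Or.inl (hback 3 h))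
      · exact Or.inr (Or.inr (hback 5 h))
    have c1 := trace_cases (g := l 1 * u lam) (by simp [mul10]) (hall _ (H.mul_mem hx hy))
    have c2 := trace_cases (g := l 1 * (u lam)⁻¹) (by simp [mul10, u_inv]) (hall _ (H.mul_mem hx (H.inv_mem hy)))
    have t1 : (l 1 * u lam : S F).1 0 0 + (l 1 * u lam : S F).1 1 1 = 2 + lam := by
      simp [mul00, mul11]; ring
    have t2 : (l 1 * (u lam)⁻¹ : S F).1 0 0 + (l 1 * (u lam)⁻¹ : S F).1 1 1 = 2 - lam := by
      simp [mul00, mul11, u_inv]; ring
    rw [t1] at c1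
    rw [t2] at c2
    have hnot3 : lam ^ 3 ≠ lam := by
      intro h
      have h1 := card_le_of_pow (n := 3) (by norm_num) (fun x => by
        have := all_pow_of_gen 3 1 hgen (by rw [pow_one]; exact h) x
        rwa [pow_one] at this)
      have h3 := card_PS_mul (F := F)
      have h4 : Nat.card (H.map π) ≤ Nat.card (PS F) := Nat.le_of_dvd Nat.card_pos (Subgroup.card_subgroup_dvd_card _)
      have hq1 : 1 < Fintype.card F := Fintype.one_lt_card
      have h5 : Nat.card (PS F) ≤ Nat.gcd 2 (Fintype.card F - 1) * Nat.card (PS F) :=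
        Nat.le_mul_of_pos_left _ (Nat.gcd_pos_of_pos_left _ (by norm_num))
      have h6 : Fintype.card F * (Fintype.card F - 1) * (Fintype.card F + 1) ≤ 3 * 2 * 4 :=
        Nat.mul_le_mul (Nat.mul_le_mul h1 (by omega)) (by omega)
      omega
    have k1 : (2 + lam) ^ 4 - 3 * (2 + lam) ^ 2 + 1 = 0 := by
      rcases c1 with h | h | h
      · exfalso; apply hnot3
        have : lam = -2 := by linear_combination h
        rw [this]; linear_combination (-2) * h30
      · exfalso; apply hnot3
        -- (2+lam)^3 = 2+lam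
        linear_combination (2 + lam) * h - (2 * lam ^ 2 + 4 * lam + 2) * h30
      · exact h
    have k2 : (2 - lam) ^ 4 - 3 * (2 - lam) ^ 2 + 1 = 0 := by
      rcases c2 with h | h | h
      · exfalso; apply hnot3
        have : lam = 2 := by linear_combination -h
        rw [this]; linear_combination 2 * h30
      · exfalso; apply hnot3
        linear_combination -(2 - lam) * h - (- 2 * lam ^ 2 + 4 * lam - 2) * h30
      · exact h
    have k3 : lam ^ 2 = -1 := by
      have : lam * (lam ^ 2 + 1) = 0 := by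
        linear_combination k1 - k2 + (-5 * lam ^ 3 - 13 * lam) * h30
      rcases mul_eq_zero.mp this with h | h
      · exact absurd h hlam
      · linear_combination h
    apply hex
    refine ⟨?_, k3⟩
    have h9 : lam ^ 3 ^ 2 = lam := by
      have : lam ^ 3 ^ 2 = (lam ^ 2) ^ 4 * lam := by ring
      rw [this, k3]; ring
    have h10 := card_le_of_pow (n := 9) (by norm_num) (fun x => by
      have := all_pow_of_gen 3 2 hgen h9 x
      exact this)
    obtain ⟨n, hn, hq⟩ := GL2.exists_card_eq (F := F) 3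
    have hn2 : n ≠ 1 := by
      rintro rfl
      rw [pow_one] at hq
      apply hnot3
      have := FiniteField.pow_card lam
      rwa [hq] at this
    have hn3 : n < 3 := by
      by_contra hcon
      have : 3 ^ 3 ≤ 3 ^ n := Nat.pow_le_pow_right (by norm_num) (by omega)
      omega
    have : n = 2 := by omega
    rw [hq, this]; norm_num
  · -- subfield case
    obtain ⟨t, rfl⟩ := π_surj g
    have htr : ∀ s ∈ H, (s.1 0 0 + s.1 1 1) ^ 2 ∈ K0 := by
      intro s hs
      have h1 : π (t * s * t⁻¹) ∈ MulAut.conj (π t) • (H.map π) := by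
        rw [mem_conj, ← map_inv, ← map_mul, ← map_mul]
        have : t⁻¹ * (t * s * t⁻¹) * t = s := by group
        rw [this]
        exact ⟨s, hs, rfl⟩
      have h3 := hS.htr _ h1
      have h4 : (t * s * t⁻¹ : S F).1 0 0 + (t * s * t⁻¹ : S F).1 1 1 = s.1 0 0 + s.1 1 1 := by
        have hd := det_eq t
        simp only [mul00, mul01, mul10, mul11, inv00, inv01, inv10, inv11]
        linear_combination (s.1 0 0 + s.1 1 1) * hd
      rwa [h4] at h3
    have t1 : (l 1 * u lam : S F).1 0 0 + (l 1 * u lam : S F).1 1 1 = 2 + lam := by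
      simp [mul00, mul11]; ring
    have t2 : (l 1 * (u lam)⁻¹ : S F).1 0 0 + (l 1 * (u lam)⁻¹ : S F).1 1 1 = 2 - lam := by
      simp [mul00, mul11, u_inv]; ring
    have c1 := htr _ (H.mul_mem hx hy)
    have c2 := htr _ (H.mul_mem hx (H.inv_mem hy))
    rw [t1] at c1
    rw [t2] at c2
    have c3 : lam ∈ K0 := by
      have h1 := K0.sub_mem c1 c2
      have h8 : (8 : F) ≠ 0 := by
        have : (8 : F) = 2 * 2 * 2 := by norm_num
        rw [this]; exact mul_ne_zero (mul_ne_zero h2 h2) h2
      have h3 : lam = ((2 + lam) ^ 2 - (2 - lam) ^ 2) / 8 := by field_simp; ring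
      rw [h3]
      exact K0.div_mem h1 (ofNat_mem K0 8)
    have hK : K0 = ⊤ := by
      rw [eq_top_iff, ← hgen, Subfield.closure_le]
      intro y hy
      rw [Set.mem_singleton_iff] at hy
      rw [hy]; exact c3
    have htop : MulAut.conj (π t) • (H.map π) = ⊤ := by
      rw [eq_top_iff]
      intro z _
      obtain ⟨s, rfl⟩ := π_surj z
      have h1 : (MulAut.conj (π t) • (H.map π)).comap π = ⊤ := by
        apply eq_top_of_ul
        · intro x
          rw [Subgroup.mem_comap]
          have := hS.hu ((e⁻¹ : Fˣ) * x) (by rw [hK]; exact Subfield.mem_top _)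
          rwa [Units.mul_inv_cancel_left] at this
        · intro x
          rw [Subgroup.mem_comap]
          have := hS.hl (e * x) (by rw [hK]; exact Subfield.mem_top _)
          rwa [Units.inv_mul_cancel_left] at this
      have h3 : s ∈ (MulAut.conj (π t) • (H.map π)).comap π := by rw [h1]; exact Subgroup.mem_top s
      exact h3
    have htop' : H.map π = ⊤ := by
      rw [eq_top_iff]
      intro z _
      have h1 : (π t) * z * (π t)⁻¹ ∈ MulAut.conj (π t) • (H.map π) := by rw [htop]; exact Subgroup.mem_top _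
      rw [mem_conj] at h1
      have : (π t)⁻¹ * ((π t) * z * (π t)⁻¹) * π t = z := by group
      rwa [this] at h1
    apply eq_top_of_ul
    · intro x
      exact u_of_neg hpodd (by rw [htop']; exact Subgroup.mem_top _)
    · intro x
      exact l_of_neg hpodd (by rw [htop']; exact Subgroup.mem_top _)

end Cfsg.Agent.H5.Gen2
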