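import Mathlib

set_option autoImplicit false

/-! Jordan types of nilpotent endomorphisms -/

namespace Cfsg.Agent.H5.Jor

open Module

section cyc
variable {F V : Type*} [Field F] [AddCommGroup V] [Module F V] {N : Module.End F V} {k : ℕ} {v : V}

/-- the map `a ↦ ∑ a_s N^s v` -/
def cmap (N : Module.End F V) (k : ℕ) (v : V) : (Fin k → F) →ₗ[F] V :=
  ∑ s : Fin k, (LinearMap.proj s : (Fin k → F) →ₗ[F] F).smulRight ((N ^ (s : ℕ)) v)

theorem cmap_apply (a : Fin k → F) : cmap N k v a = ∑ s : Fin k, a s • (N ^ (s : ℕ)) v := by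
  simp [cmap, LinearMap.sum_apply]

theorem pow_cmap (a : Fin k → F) (j : ℕ) : (N ^ j) (cmap N k v a) = ∑ s : Fin k, a s • (N ^ ((s : ℕ) + j)) v := by
  rw [cmap_apply, map_sum]
  apply Finset.sum_congr rfl
  intro s _
  rw [map_smul, ← Module.End.mul_apply, ← pow_add, add_comm]

theorem pow_zero_of (hk : (N ^ k) = 0) {i : ℕ} (hi : k ≤ i) : (N ^ i) v = 0 := by
  obtain ⟨j, rfl⟩ := Nat.exists_eq_add_of_le hi
  rw [add_comm, pow_add, Module.End.mul_apply, hk, LinearMap.zero_apply, map_zero]

theorem key (hk : (N ^ k) = 0) (a : Fin k → F) (s₀ : Fin k) (h : ∀ s, s < s₀ → a s = 0) :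
    (N ^ (k - 1 - (s₀ : ℕ))) (cmap N k v a) = a s₀ • (N ^ (k - 1)) v := by
  rw [pow_cmap, Finset.sum_eq_single s₀]
  · have := s₀.2
    rw [show (s₀ : ℕ) + (k - 1 - (s₀ : ℕ)) = k - 1 by omega]
  · intro s _ hs
    rcases lt_or_gt_of_ne hs with h1 | h1
    · rw [h s h1, zero_smul]
    · have h2 : (s₀ : ℕ) < s := h1
      have := s₀.2
      rw [pow_zero_of hk (by omega), smul_zero]
  · intro h; exact absurd (Finset.mem_univ _) h

theorem ker_iff (hk : (N ^ k) = 0) (hv : (N ^ (k - 1)) v ≠ 0) (a : Fin k → F) (j : ℕ) :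
    (N ^ j) (cmap N k v a) = 0 ↔ ∀ s : Fin k, (s : ℕ) + j < k → a s = 0 := by
  constructor
  · intro h s
    induction s using WellFoundedLT.induction with
    | ind s ih =>
      intro hs
      have h1 := key (v := v) hk a s (fun s' hs' => ih s' hs' (by
        have : (s' : ℕ) < s := hs'
        omega))
      have h2 : (N ^ (k - 1 - (s : ℕ))) (cmap N k v a) = 0 := by
        rw [show k - 1 - (s : ℕ) = (k - 1 - (s : ℕ) - j) + j by omega, pow_add, Module.End.mul_apply, h, map_zero]
      rw [h2] at h1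
      exact (smul_eq_zero.1 h1.symm).resolve_right hv
  · intro h
    rw [pow_cmap]
    apply Finset.sum_eq_zero
    intro s _
    by_cases hs : (s : ℕ) + j < k
    · rw [h s hs, zero_smul]
    · rw [pow_zero_of hk (by omega), smul_zero]

theorem cmap_inj (hk : (N ^ k) = 0) (hv : (N ^ (k - 1)) v ≠ 0) : Function.Injective (cmap N k v) := by
  rw [← LinearMap.ker_eq_bot, LinearMap.ker_eq_bot']
  intro a ha
  have := (ker_iff hk hv a 0).1 (by rw [pow_zero, ha]; rfl)
  funext s
  exact this s (by rw [add_zero]; exact s.2)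

theorem finrank_ker_cyc (hk : (N ^ k) = 0) (hv : (N ^ (k - 1)) v ≠ 0) (j : ℕ) :
    finrank F (LinearMap.ker (N ^ j) ⊓ LinearMap.range (cmap N k v) : Submodule F V) = min j k := by
  have h1 : LinearMap.ker (N ^ j) ⊓ LinearMap.range (cmap N k v) =
      (LinearMap.ker (LinearMap.funLeft F F (Fin.castLE (Nat.sub_le k j)))).map (cmap N k v) := by
    ext u
    constructor
    · rintro ⟨hu, a, rfl⟩
      refine ⟨a, ?_, rfl⟩
      have h2 := (ker_iff hk hv a j).1 hu
      show LinearMap.funLeft F F (Fin.castLE (Nat.sub_le k j)) a = 0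
      funext s
      exact h2 _ (by have := s.2; simp only [Fin.val_castLE]; omega)
    · rintro ⟨a, ha, rfl⟩
      refine ⟨?_, a, rfl⟩
      show (N ^ j) (cmap N k v a) = 0
      rw [ker_iff hk hv]
      intro s hs
      have h2 := congrFun (show LinearMap.funLeft F F (Fin.castLE (Nat.sub_le k j)) a = 0 from ha) ⟨s, by omega⟩
      exact h2
  rw [h1, ← (Submodule.equivMapOfInjective _ (cmap_inj hk hv) _).finrank_eq]
  have h6 := LinearMap.finrank_range_add_finrank_ker (LinearMap.funLeft F F (Fin.castLE (Nat.sub_le k j)))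
  rw [LinearMap.range_eq_top.2 (LinearMap.funLeft_surjective_of_injective F F _ (Fin.castLE_injective _)), finrank_top,
    Module.finrank_fintype_fun_eq_card, Module.finrank_fintype_fun_eq_card, Fintype.card_fin, Fintype.card_fin] at h6
  omega

theorem cyc_inv (hk : (N ^ k) = 0) : LinearMap.range (cmap N k v) ≤ (LinearMap.range (cmap N k v)).comap N := by
  rintro _ ⟨a, rfl⟩
  rw [Submodule.mem_comap, cmap_apply, map_sum]
  apply Submodule.sum_mem
  intro s _
  rw [map_smul, ← Module.End.mul_apply, ← pow_succ']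
  apply Submodule.smul_mem
  by_cases hs : (s : ℕ) + 1 < k
  · refine ⟨Pi.single ⟨(s : ℕ) + 1, hs⟩ 1, ?_⟩
    rw [cmap_apply, Finset.sum_eq_single ⟨(s : ℕ) + 1, hs⟩]
    · simp
    · intro b _ hb; simp [Pi.single_apply, hb]
    · intro h; exact absurd (Finset.mem_univ _) h
  · rw [pow_zero_of hk (by omega)]
    exact Submodule.zero_mem _

/-- splitting off a cyclic summand -/
theorem exists_compl [FiniteDimensional F V] (hk : (N ^ k) = 0) (hv : (N ^ (k - 1)) v ≠ 0) :
    ∃ W : Submodule F V, IsCompl (LinearMap.range (cmap N k v)) W ∧ W ≤ W.comap N := by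
  obtain ⟨φ, hφ⟩ : ∃ φ : Module.Dual F V, φ ((N ^ (k - 1)) v) ≠ 0 := by
    by_contra hno
    push Not at hno
    exact hv ((Module.forall_dual_apply_eq_zero_iff F _).1 hno)
  let T : V →ₗ[F] (Fin k → F) := LinearMap.pi (fun s => φ ∘ₗ (N ^ (s : ℕ)))
  have hT : ∀ w s, T w s = φ ((N ^ (s : ℕ)) w) := fun w s => rfl
  have hinj : ∀ a, T (cmap N k v a) = 0 → a = 0 := by
    intro a ha
    funext s
    induction s using WellFoundedLT.induction with
    | ind s ih =>
      have h1 := key (v := v) hk a s (fun s' hs' => ih s' hs')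
      have hs := s.2
      have h2 : T (cmap N k v a) ⟨k - 1 - (s : ℕ), by omega⟩ = 0 := by rw [ha]; rfl
      rw [hT] at h2
      rw [h1, map_smul, smul_eq_mul] at h2
      exact (mul_eq_zero.1 h2).resolve_right hφ
  have hinj' : Function.Injective (T ∘ₗ cmap N k v) := by
    rw [← LinearMap.ker_eq_bot, LinearMap.ker_eq_bot']
    exact hinj
  have hsurj : Function.Surjective (T ∘ₗ cmap N k v) := LinearMap.injective_iff_surjective.1 hinj'
  refine ⟨LinearMap.ker T, ⟨?_, ?_⟩, ?_⟩
  · rw [Submodule.disjoint_def]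
    rintro _ ⟨a, rfl⟩ h
    rw [hinj a h, map_zero]
  · rw [codisjoint_iff_le_sup]
    intro w _
    obtain ⟨a, ha⟩ := hsurj (T w)
    rw [Submodule.mem_sup]
    refine ⟨cmap N k v a, ⟨a, rfl⟩, w - cmap N k v a, ?_, by abel⟩
    rw [LinearMap.mem_ker, map_sub, sub_eq_zero]
    exact ha.symm
  · intro w hw
    rw [Submodule.mem_comap, LinearMap.mem_ker]
    rw [LinearMap.mem_ker] at hw
    funext s
    rw [hT, ← Module.End.mul_apply, ← pow_succ]
    by_cases hs : (s : ℕ) + 1 < k
    · have := congrFun hw ⟨(s : ℕ) + 1, hs⟩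
      rwa [hT] at this
    · rw [pow_zero_of hk (by omega), map_zero]; rfl

end cyc

section split
variable {F V : Type*} [Field F] [AddCommGroup V] [Module F V] [FiniteDimensional F V]

theorem finrank_ker_split (T : Module.End F V) (U W : Submodule F V) (h : IsCompl U W) (hU : U ≤ U.comap T)
    (hW : W ≤ W.comap T) : finrank F (LinearMap.ker T) =
      finrank F (LinearMap.ker T ⊓ U : Submodule F V) + finrank F (LinearMap.ker T ⊓ W : Submodule F V) := by
  have h1 := Submodule.finrank_sup_add_finrank_inf_eq (LinearMap.ker T ⊓ U) (LinearMap.ker T ⊓ W)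
  have h2 : (LinearMap.ker T ⊓ U) ⊓ (LinearMap.ker T ⊓ W) = ⊥ := by
    rw [eq_bot_iff, ← h.disjoint.eq_bot]
    exact inf_le_inf inf_le_right inf_le_right
  have h3 : (LinearMap.ker T ⊓ U) ⊔ (LinearMap.ker T ⊓ W) = LinearMap.ker T := by
    apply le_antisymm (sup_le inf_le_left inf_le_left)
    intro v hv
    obtain ⟨u, hu, w, hw, rfl⟩ := Submodule.mem_sup.1 (h.codisjoint.eq_top ▸ Submodule.mem_top : v ∈ U ⊔ W)
    have h4 : T u + T w = 0 := by rw [← map_add]; exact hv
    have h5 : T u = - T w := eq_neg_of_add_eq_zero_left h4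
    have h6 : T u = 0 := (Submodule.disjoint_def.1 h.disjoint) _ (hU hu) (by rw [h5]; exact W.neg_mem (hW hw))
    have h7 : T w = 0 := by rw [h6, zero_add] at h4; exact h4
    exact Submodule.add_mem_sup ⟨h6, hu⟩ ⟨h7, hw⟩
  rw [h2, h3, finrank_bot, add_zero] at h1
  exact h1

theorem pow_inv {N : Module.End F V} {U : Submodule F V} (hU : U ≤ U.comap N) (j : ℕ) : U ≤ U.comap (N ^ j) := by
  induction j with
  | zero => intro v hv; exact hv
  | succ j ih => intro v hv; rw [Submodule.mem_comap, pow_succ', Module.End.mul_apply]; exact hU (ih hv)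

theorem finrank_ker_restrict {N : Module.End F V} {U : Submodule F V} (hU : U ≤ U.comap N) (j : ℕ) :
    finrank F (LinearMap.ker ((N.restrict hU) ^ j)) = finrank F (LinearMap.ker (N ^ j) ⊓ U : Submodule F V) := by
  have h1 : (LinearMap.ker ((N.restrict hU) ^ j)).map U.subtype = LinearMap.ker (N ^ j) ⊓ U := by
    have h2 : ∀ u : U, (((N.restrict hU) ^ j) u : V) = (N ^ j) u := by
      intro u
      rw [Module.End.pow_restrict]; rfl
    ext v
    constructor
    · rintro ⟨u, hu, rfl⟩
      refine ⟨?_, u.2⟩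
      show (N ^ j) u = 0
      rw [← h2]
      exact congrArg Subtype.val (show ((N.restrict hU) ^ j) u = 0 from hu)
    · rintro ⟨hv, hv2⟩
      refine ⟨⟨v, hv2⟩, ?_, rfl⟩
      apply Subtype.ext
      rw [h2]
      exact hv
  rw [← h1, Submodule.finrank_map_subtype_eq]

theorem map_compl {W : Submodule F V} {U : Submodule F V} (h : IsCompl U W) {A B : Submodule F W} (hAB : IsCompl A B) :
    IsCompl (U ⊔ A.map W.subtype) (B.map W.subtype) := by
  have hAW : A.map W.subtype ≤ W := Submodule.map_subtype_le _ _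
  have hBW : B.map W.subtype ≤ W := Submodule.map_subtype_le _ _
  have hd : A.map W.subtype ⊓ B.map W.subtype = ⊥ := by
    rw [← Submodule.map_inf _ W.injective_subtype, hAB.disjoint.eq_bot, Submodule.map_bot]
  have hs : A.map W.subtype ⊔ B.map W.subtype = W := by
    rw [← Submodule.map_sup, hAB.codisjoint.eq_top, Submodule.map_top, Submodule.range_subtype]
  constructor
  · rw [Submodule.disjoint_def]
    intro x hx hx2
    obtain ⟨u, hu, a, ha, rfl⟩ := Submodule.mem_sup.1 hx
    have h1 : u ∈ W := by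
      have := W.sub_mem (hBW hx2) (hAW ha)
      rwa [add_sub_cancel_right] at this
    have h2 : u = 0 := (Submodule.disjoint_def.1 h.disjoint) u hu h1
    rw [h2, zero_add] at hx2 ⊢
    have h3 : a ∈ A.map W.subtype ⊓ B.map W.subtype := ⟨ha, hx2⟩
    rw [hd] at h3
    exact h3
  · rw [codisjoint_iff, sup_assoc, hs, h.codisjoint.eq_top]

theorem map_inv {N : Module.End F V} {W : Submodule F V} (hW : W ≤ W.comap N) {A : Submodule F W}
    (hA : A ≤ A.comap (N.restrict hW)) : A.map W.subtype ≤ (A.map W.subtype).comap N := by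
  rintro _ ⟨a, ha, rfl⟩
  exact ⟨_, hA ha, rfl⟩

end split

universe u in
/-- Jordan types -/
theorem exists_type {F : Type*} [Field F] (p : ℕ) : ∀ (n : ℕ) (V : Type u) [AddCommGroup V] [Module F V]
    [FiniteDimensional F V] (N : Module.End F V) (_ : N ^ p = 0) (_ : finrank F V = n),
    ∃ μ : Multiset ℕ, (∀ a ∈ μ, 0 < a ∧ a ≤ p) ∧ μ.sum = n ∧
      (∀ j, finrank F (LinearMap.ker (N ^ j)) = (μ.map (min j)).sum) ∧
      ∀ ν ≤ μ, ∃ U W : Submodule F V, IsCompl U W ∧ U ≤ U.comap N ∧ W ≤ W.comap N ∧ finrank F U = ν.sum := by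
  intro n
  induction n using Nat.strong_induction_on with
  | _ n ih =>
    intro V _ _ _ N hN hn
    rcases Nat.eq_zero_or_pos n with rfl | hn0
    · refine ⟨0, by simp, by simp, ?_, ?_⟩
      · intro j
        have := Submodule.finrank_le (LinearMap.ker (N ^ j))
        simp only [Multiset.map_zero, Multiset.sum_zero]
        omega
      · intro ν hν
        rw [Multiset.le_zero.1 hν]
        exact ⟨⊥, ⊤, isCompl_bot_top, bot_le, le_top, by simp⟩
    · classical
      haveI : Nontrivial V := Module.nontrivial_of_finrank_pos (by rw [hn]; exact hn0 : 0 < finrank F V)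
      have hex : ∃ k, N ^ k = 0 := ⟨p, hN⟩
      set k := Nat.find hex with hkdef
      have hk : N ^ k = 0 := Nat.find_spec hex
      have hkp : k ≤ p := Nat.find_min' hex hN
      have hk0 : 0 < k := by
        rw [Nat.pos_iff_ne_zero]
        intro h0
        rw [h0, pow_zero] at hk
        exact one_ne_zero hk
      have hk1 : N ^ (k - 1) ≠ 0 := Nat.find_min hex (by omega)
      obtain ⟨v, hv⟩ : ∃ v, (N ^ (k - 1)) v ≠ 0 := by
        by_contra hno
        push Not at hno
        exact hk1 (LinearMap.ext hno)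
      obtain ⟨W, hcomp, hW⟩ := exists_compl hk hv
      set U := LinearMap.range (cmap N k v) with hUdef
      have hU : U ≤ U.comap N := cyc_inv hk
      have hUk : finrank F U = k := by
        rw [hUdef, LinearMap.finrank_range_of_inj (cmap_inj hk hv)]; simp
      have hdim := Submodule.finrank_add_eq_of_isCompl hcomp
      have hWp : (N.restrict hW) ^ p = 0 := by
        rw [Module.End.pow_restrict]
        ext w
        simp [LinearMap.restrict_apply, hN]
      obtain ⟨μ, h1, h2, h3, h4⟩ := ih (n - k) (by omega) W (N.restrict hW) hWp (by omega)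
      refine ⟨k ::ₘ μ, ?_, ?_, ?_, ?_⟩
      · intro a ha
        rcases Multiset.mem_cons.1 ha with rfl | ha
        · exact ⟨hk0, hkp⟩
        · exact h1 a ha
      · rw [Multiset.sum_cons, h2]; omega
      · intro j
        rw [Multiset.map_cons, Multiset.sum_cons, finrank_ker_split (N ^ j) U W hcomp (pow_inv hU j) (pow_inv hW j),
          finrank_ker_cyc hk hv j, ← finrank_ker_restrict hW, h3]
      · intro ν hν
        by_cases hkν : k ∈ ν
        · obtain ⟨ν', rfl⟩ := Multiset.exists_cons_of_mem hkν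
          rw [Multiset.cons_le_cons_iff] at hν
          obtain ⟨A, B, hAB, hA, hB, hAd⟩ := h4 ν' hν
          refine ⟨U ⊔ A.map W.subtype, B.map W.subtype, map_compl hcomp hAB, ?_, map_inv hW hB, ?_⟩
          · apply sup_le
            · exact hU.trans (Submodule.comap_mono le_sup_left)
            · exact (map_inv hW hA).trans (Submodule.comap_mono le_sup_right)
          · have h5 := Submodule.finrank_sup_add_finrank_inf_eq U (A.map W.subtype)
            have h6 : U ⊓ A.map W.subtype = ⊥ := by
              rw [eq_bot_iff, ← hcomp.disjoint.eq_bot]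
              exact inf_le_inf le_rfl (Submodule.map_subtype_le _ _)
            rw [h6, finrank_bot, Submodule.finrank_map_subtype_eq, hUk, hAd] at h5
            rw [Multiset.sum_cons]; omega
        · rw [Multiset.le_cons_of_notMem hkν] at hν
          obtain ⟨A, B, hAB, hA, hB, hAd⟩ := h4 ν hν
          refine ⟨A.map W.subtype, U ⊔ B.map W.subtype, (map_compl hcomp hAB.symm).symm, map_inv hW hA, ?_, ?_⟩
          · apply sup_le
            · exact hU.trans (Submodule.comap_mono le_sup_left)
            · exact (map_inv hW hB).trans (Submodule.comap_mono le_sup_right)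
          · rw [Submodule.finrank_map_subtype_eq, hAd]

section unique

theorem sum_min_succ (μ : Multiset ℕ) (j : ℕ) :
    (μ.map (min (j + 1))).sum = (μ.map (min j)).sum + μ.countP (fun a => j + 1 ≤ a) := by
  induction μ using Multiset.induction_on with
  | empty => simp
  | cons a s ih =>
    rw [Multiset.map_cons, Multiset.sum_cons, Multiset.map_cons, Multiset.sum_cons, Multiset.countP_cons, ih]
    split_ifs with h <;> omega

theorem countP_le (μ : Multiset ℕ) (j : ℕ) :
    μ.countP (fun a => j ≤ a) = μ.count j + μ.countP (fun a => j + 1 ≤ a) := by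
  induction μ using Multiset.induction_on with
  | empty => simp
  | cons a s ih =>
    rw [Multiset.countP_cons, Multiset.countP_cons, Multiset.count_cons, ih]
    split_ifs with h1 h2 h3 h3 <;> omega

theorem type_unique (μ μ' : Multiset ℕ) (h : ∀ a ∈ μ, 0 < a) (h' : ∀ a ∈ μ', 0 < a)
    (hs : ∀ j, (μ.map (min j)).sum = (μ'.map (min j)).sum) : μ = μ' := by
  have h1 : ∀ j, μ.countP (fun a => j + 1 ≤ a) = μ'.countP (fun a => j + 1 ≤ a) := by
    intro j
    have e1 := sum_min_succ μ j
    have e2 := sum_min_succ μ' j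
    have e3 := hs (j + 1)
    have e4 := hs j
    omega
  apply Multiset.ext.2
  intro a
  rcases Nat.eq_zero_or_pos a with rfl | ha
  · rw [Multiset.count_eq_zero_of_notMem (fun h2 => lt_irrefl _ (h 0 h2)),
      Multiset.count_eq_zero_of_notMem (fun h2 => lt_irrefl _ (h' 0 h2))]
  · obtain ⟨b, rfl⟩ : ∃ b, a = b + 1 := ⟨a - 1, by omega⟩
    have e1 := countP_le μ (b + 1)
    have e2 := countP_le μ' (b + 1)
    have e3 := h1 b
    have e4 := h1 (b + 1)
    omega

theorem sub_type {F V : Type*} [Field F] [AddCommGroup V] [Module F V] [FiniteDimensional F V] (N : Module.End F V)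
    {p : ℕ} (hN : N ^ p = 0) (μ : Multiset ℕ) (hμ : ∀ a ∈ μ, 0 < a)
    (hs : ∀ j, finrank F (LinearMap.ker (N ^ j)) = (μ.map (min j)).sum) (U W : Submodule F V) (h : IsCompl U W)
    (hU : U ≤ U.comap N) (hW : W ≤ W.comap N) : ∃ ν ≤ μ, ν.sum = finrank F U := by
  have hres : ∀ A : Submodule F V, ∀ hA : A ≤ A.comap N, (N.restrict hA) ^ p = 0 := by
    intro A hA
    rw [Module.End.pow_restrict]
    ext w
    simp [LinearMap.restrict_apply, hN]
  obtain ⟨μ₁, a1, a2, a3, -⟩ := exists_type p _ U (N.restrict hU) (hres U hU) rfl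
  obtain ⟨μ₂, b1, b2, b3, -⟩ := exists_type p _ W (N.restrict hW) (hres W hW) rfl
  refine ⟨μ₁, ?_, a2⟩
  have h1 : μ = μ₁ + μ₂ := by
    apply type_unique _ _ hμ
    · intro a ha
      rcases Multiset.mem_add.1 ha with ha | ha
      · exact (a1 a ha).1
      · exact (b1 a ha).1
    · intro j
      rw [← hs, Multiset.map_add, Multiset.sum_add, ← a3, ← b3, finrank_ker_restrict, finrank_ker_restrict]
      exact finrank_ker_split (N ^ j) U W h (pow_inv hU j) (pow_inv hW j)
  rw [h1]
  exact Multiset.le_add_right _ _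

end unique

section model
variable {F : Type*} [Field F]

theorem finrank_sub_prod {V W : Type*} [AddCommGroup V] [Module F V] [FiniteDimensional F V] [AddCommGroup W] [Module F W]
    [FiniteDimensional F W] (A : Submodule F V) (B : Submodule F W) : finrank F (A.prod B) = finrank F A + finrank F B := by
  rw [← Module.finrank_prod]
  exact LinearEquiv.finrank_eq
    { toFun := fun x => (⟨x.1.1, x.2.1⟩, ⟨x.1.2, x.2.2⟩)
      invFun := fun y => ⟨(y.1.1, y.2.1), y.1.2, y.2.2⟩
      map_add' := fun _ _ => rfl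
      map_smul' := fun _ _ => rfl
      left_inv := fun _ => rfl
      right_inv := fun _ => rfl }

/-- a single Jordan block -/
theorem exists_block (a : ℕ) : ∃ J : Module.End F (Fin a → F), J ^ a = 0 ∧ ∀ j, finrank F (LinearMap.ker (J ^ j)) = min j a := by
  rcases Nat.eq_zero_or_pos a with rfl | ha
  · refine ⟨0, ?_, ?_⟩
    · apply LinearMap.ext
      intro v
      exact Subsingleton.elim _ _
    · intro j
      have h1 := Submodule.finrank_le (LinearMap.ker ((0 : Module.End F (Fin 0 → F)) ^ j))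
      rw [Module.finrank_fintype_fun_eq_card, Fintype.card_fin] at h1
      omega
  let J : Module.End F (Fin a → F) :=
    { toFun := fun f i => if h : (i : ℕ) + 1 < a then f ⟨(i : ℕ) + 1, h⟩ else 0
      map_add' := by
        intro f g
        funext i
        simp only [Pi.add_apply]
        split_ifs with h
        · rfl
        · rw [add_zero]
      map_smul' := by
        intro c f
        funext i
        simp only [Pi.smul_apply, RingHom.id_apply]
        split_ifs with h
        · rfl
        · rw [smul_zero] }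
  have hJ : ∀ f i, J f i = if h : (i : ℕ) + 1 < a then f ⟨(i : ℕ) + 1, h⟩ else 0 := fun _ _ => rfl
  have hpow : ∀ (j : ℕ) f i, (J ^ j) f i = if h : (i : ℕ) + j < a then f ⟨(i : ℕ) + j, h⟩ else 0 := by
    intro j
    induction j with
    | zero =>
      intro f i
      rw [pow_zero, Module.End.one_apply, dif_pos (by rw [add_zero]; exact i.2)]; rfl
    | succ j ih =>
      intro f i
      rw [pow_succ, Module.End.mul_apply, ih]
      by_cases h : (i : ℕ) + j < a
      · rw [dif_pos h, hJ]
        by_cases h2 : (i : ℕ) + j + 1 < a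
        · rw [dif_pos h2, dif_pos (by omega)]; rfl
        · rw [dif_neg h2, dif_neg (by omega)]
      · rw [dif_neg h, dif_neg (by omega)]
  have hJa : J ^ a = 0 := by
    apply LinearMap.ext
    intro f
    funext i
    rw [hpow, dif_neg (by omega)]; rfl
  refine ⟨J, hJa, ?_⟩
  intro j
  have hv : (J ^ (a - 1)) (Pi.single ⟨a - 1, by omega⟩ 1) ≠ 0 := by
    intro h
    have h1 := congrFun h ⟨0, ha⟩
    rw [hpow, dif_pos (by show 0 + (a - 1) < a; omega)] at h1
    simp at h1
  have h1 := finrank_ker_cyc hJa hv j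
  have h2 : LinearMap.range (cmap J a (Pi.single ⟨a - 1, by omega⟩ 1)) = ⊤ :=
    LinearMap.range_eq_top.2 (LinearMap.injective_iff_surjective.1 (cmap_inj hJa hv))
  rw [h2, inf_top_eq] at h1
  exact h1

theorem ker_conj_finrank {V W : Type*} [AddCommGroup V] [Module F V] [AddCommGroup W] [Module F W] (e : V ≃ₗ[F] W)
    (T : Module.End F V) : finrank F (LinearMap.ker (e.conjAlgEquiv F T)) = finrank F (LinearMap.ker T) := by
  have h1 : LinearMap.ker (e.conjAlgEquiv F T) = (LinearMap.ker T).map (e : V →ₗ[F] W) := by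
    ext w
    rw [Submodule.mem_map_equiv, LinearMap.mem_ker, LinearMap.mem_ker, LinearEquiv.conjAlgEquiv_apply]
    show e (T (e.symm w)) = 0 ↔ T (e.symm w) = 0
    rw [LinearEquiv.map_eq_zero_iff]
  rw [h1, LinearEquiv.finrank_map_eq]

theorem exists_model (p : ℕ) (μ : Multiset ℕ) (hμ : ∀ a ∈ μ, a ≤ p) : ∃ N : Module.End F (Fin μ.sum → F),
    N ^ p = 0 ∧ ∀ j, finrank F (LinearMap.ker (N ^ j)) = (μ.map (min j)).sum := by
  induction μ using Multiset.induction_on with
  | empty =>
    obtain ⟨J, h1, h2⟩ := exists_block (F := F) 0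
    refine ⟨J, ?_, ?_⟩
    · apply LinearMap.ext
      intro v
      exact @Subsingleton.elim _ (show Subsingleton (Fin 0 → F) from inferInstance) _ _
    · intro j
      exact (h2 j).trans (Nat.min_zero j)
  | cons a s ih =>
    obtain ⟨N, hN, hN2⟩ := ih (fun b hb => hμ b (Multiset.mem_cons_of_mem hb))
    obtain ⟨J, hJ, hJ2⟩ := exists_block (F := F) a
    have hap : a ≤ p := hμ a (Multiset.mem_cons_self a s)
    have hpow : ∀ j, (J.prodMap N) ^ j = (J ^ j).prodMap (N ^ j) := by
      intro j
      induction j with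
      | zero => rw [pow_zero, pow_zero, pow_zero, LinearMap.prodMap_one]
      | succ j ih => rw [pow_succ, ih, LinearMap.prodMap_mul, pow_succ, pow_succ]
    have e : ((Fin a → F) × (Fin s.sum → F)) ≃ₗ[F] (Fin (a ::ₘ s).sum → F) := by
      apply LinearEquiv.ofFinrankEq
      rw [Module.finrank_prod, Module.finrank_fintype_fun_eq_card, Module.finrank_fintype_fun_eq_card,
        Module.finrank_fintype_fun_eq_card, Fintype.card_fin, Fintype.card_fin, Fintype.card_fin, Multiset.sum_cons]
    refine ⟨e.conjAlgEquiv F (J.prodMap N), ?_, ?_⟩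
    · rw [← map_pow, hpow, hN]
      have : J ^ p = 0 := by
        obtain ⟨c, rfl⟩ := Nat.exists_eq_add_of_le hap
        rw [pow_add, hJ, zero_mul]
      rw [this, LinearMap.prodMap_zero, map_zero]
    · intro j
      rw [← map_pow, ker_conj_finrank, hpow, LinearMap.ker_prodMap, finrank_sub_prod, hJ2, hN2, Multiset.map_cons,
        Multiset.sum_cons]

/-- unipotent elements of order `p` with given Jordan type -/
theorem exists_unip (p : ℕ) [Fact p.Prime] [CharP F p] (n : ℕ) (hn : 0 < n) (μ : Multiset ℕ) (hμ : ∀ a ∈ μ, a ≤ p)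
    (hsum : μ.sum = n) :
    ∃ x : Matrix.SpecialLinearGroup (Fin n) F, x ^ p = 1 ∧ (Matrix.toLin' (x : Matrix (Fin n) (Fin n) F) - 1) ^ p = 0 ∧
      ∀ j, finrank F (LinearMap.ker ((Matrix.toLin' (x : Matrix (Fin n) (Fin n) F) - 1) ^ j)) = (μ.map (min j)).sum := by
  subst hsum
  have hp : p.Prime := Fact.out
  obtain ⟨N, hN, hN2⟩ := exists_model (F := F) p μ hμ
  haveI : CharP (Module.End F (Fin μ.sum → F)) p := by
    haveI : Nontrivial (Fin μ.sum → F) := by
      haveI : Nonempty (Fin μ.sum) := ⟨⟨0, hn⟩⟩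
      infer_instance
    exact charP_of_injective_algebraMap (algebraMap F (Module.End F (Fin μ.sum → F))).injective p
  have hX : (1 + N) ^ p = 1 := by
    rw [add_pow_char_of_commute _ (Commute.one_left N), one_pow, hN, add_zero]
  have hM : (LinearMap.toMatrix' (1 + N)) ^ p = 1 := by
    have : LinearMap.toMatrix' (1 + N) ^ p = LinearMap.toMatrix' ((1 + N) ^ p) := by
      show (LinearMap.toMatrixAlgEquiv' (1 + N)) ^ p = LinearMap.toMatrixAlgEquiv' ((1 + N) ^ p)
      rw [map_pow]
    rw [this, hX]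
    exact LinearMap.toMatrix'_one
  have hdet : (LinearMap.toMatrix' (1 + N)).det = 1 := by
    have h1 : (LinearMap.toMatrix' (1 + N)).det ^ p = 1 := by rw [← Matrix.det_pow, hM, Matrix.det_one]
    have h2 : ((LinearMap.toMatrix' (1 + N)).det - 1) ^ p = 0 := by rw [sub_pow_char, h1, one_pow, sub_self]
    exact sub_eq_zero.1 (eq_zero_of_pow_eq_zero h2)
  obtain ⟨x, hx⟩ : ∃ x : Matrix.SpecialLinearGroup (Fin μ.sum) F, (x : Matrix (Fin μ.sum) (Fin μ.sum) F) =
      LinearMap.toMatrix' (1 + N) := ⟨⟨_, hdet⟩, rfl⟩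
  have h3 : Matrix.toLin' (x : Matrix (Fin μ.sum) (Fin μ.sum) F) - 1 = N := by
    rw [hx, Matrix.toLin'_toMatrix', add_sub_cancel_left]
  refine ⟨x, ?_, by rw [h3]; exact hN, by rw [h3]; exact hN2⟩
  apply Subtype.ext
  rw [Matrix.SpecialLinearGroup.coe_pow, hx]
  exact hM

end model

end Cfsg.Agent.H5.Jor
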