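import Mathlib
import Cfsg.Agent.H5_Symp
import Cfsg.Agent.H16_Mat
import Cfsg.Agent.H16_Std

set_option autoImplicit false
set_option linter.unusedSectionVars false

/-! `O_{2m+1}(2^k) ≅ Sp_{2m}(2^k)`. -/

namespace Cfsg.Agent.H5.OddTwo

open Matrix
open QuadraticMap (polar)
open Cfsg.Agent.H16.Quad hiding map_smul map_add map_sub
open Cfsg.Agent.H5.Conc (mem_symplecticGroup_iff)

variable {F : Type*} [Field F] [CharP F 2] {m : ℕ}

local notation "V" => (Unit ⊕ (Fin m ⊕ Fin m) → F)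
local notation "W" => (Fin m ⊕ Fin m → F)
local notation "Q" => oddQ F m

theorem two_zero : (2 : F) = 0 := by exact_mod_cast CharP.cast_eq_zero F 2

theorem qadd {U : Type*} [AddCommGroup U] [Module F U] (q : QuadraticForm F U) (x y : U) :
    q (x + y) = q x + q y + polar q x y := H16.Quad.map_add q x y
theorem qsmul {U : Type*} [AddCommGroup U] [Module F U] (q : QuadraticForm F U) (c : F) (x : U) :
    q (c • x) = c * c * q x := H16.Quad.map_smul q c x

/-- the projection -/
def pr : V →ₗ[F] W where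
  toFun v := fun i => v (Sum.inr i)
  map_add' _ _ := rfl
  map_smul' _ _ := rfl

/-- the injection -/
def inj : W →ₗ[F] V where
  toFun w := Sum.elim (fun _ => 0) w
  map_add' x y := by ext (i | i) <;> simp
  map_smul' c x := by ext (i | i) <;> simp

/-- the radical vector -/
def e0 : V := Sum.elim (fun _ => 1) 0

theorem pr_inj (w : W) : pr (inj w) = w := rfl
theorem pr_e0 : pr (e0 : V) = 0 := rfl
theorem inj_inl (w : W) : inj w (Sum.inl ()) = 0 := rfl
theorem e0_inl : (e0 : V) (Sum.inl ()) = 1 := rfl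

theorem ext_V {u v : V} (h1 : u (Sum.inl ()) = v (Sum.inl ())) (h2 : pr u = pr v) : u = v := by
  ext (i | i)
  · cases i; exact h1
  · exact congrFun h2 i

theorem decomp (v : V) : v = inj (pr v) + v (Sum.inl ()) • e0 := by
  apply ext_V
  · simp [inj_inl, e0_inl]
  · rw [map_add, map_smul, pr_inj, pr_e0, smul_zero, add_zero]

theorem polar_eq (u v : V) : polar Q u v = Cfsg.sympForm m F (pr u) (pr v) := by
  rw [polar_oddQ, two_zero, zero_mul, zero_mul, zero_add, Cfsg.Agent.H5.Conc.sympForm_eq]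
  apply Finset.sum_congr rfl
  intro i _
  show u (Sum.inr (Sum.inl i)) * v (Sum.inr (Sum.inr i)) + v (Sum.inr (Sum.inl i)) * u (Sum.inr (Sum.inr i)) =
    u (Sum.inr (Sum.inr i)) * v (Sum.inr (Sum.inl i)) - u (Sum.inr (Sum.inl i)) * v (Sum.inr (Sum.inr i))
  linear_combination (u (Sum.inr (Sum.inl i)) * v (Sum.inr (Sum.inr i))) * (two_zero (F := F))

theorem sq_inj {a b : F} (h : a * a = b * b) : a = b := by
  have h1 : (a - b) * (a - b) = 0 := by linear_combination h + (b * b - a * b) * (two_zero (F := F))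
  exact sub_eq_zero.1 (mul_self_eq_zero.1 h1)

theorem Q_e0 : Q (e0 : V) = 1 := by
  rw [oddQ_apply, Cfsg.quadFormOdd]
  simp [e0]

theorem Q_decomp (v : V) : Q v = Q (inj (pr v)) + v (Sum.inl ()) * v (Sum.inl ()) := by
  rw [oddQ_apply, oddQ_apply, Cfsg.quadFormOdd, Cfsg.quadFormOdd]
  simp only [inj_inl]
  have : ∀ i, (inj (pr v)) (Sum.inr i) = v (Sum.inr i) := fun i => rfl
  simp only [this]
  ring

theorem fix_e0 (g : OG Q) : g.1 e0 = e0 := by
  have h1 : pr (g.1 e0) = 0 := by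
    by_contra h
    obtain ⟨w, hw⟩ := Symp.exists_ne h
    apply hw
    obtain ⟨y, hy⟩ := g.1.surjective (inj w)
    have h2 := polar_eq (g.1 e0) (g.1 y)
    rw [OG_polar g.2, polar_eq, pr_e0, hy, pr_inj] at h2
    rw [← h2]
    have := Symp.smul_left (m := m) (0 : F) (0 : W) (pr y)
    rwa [zero_smul, zero_mul] at this
  have h2 : Q (g.1 e0) = 1 := by rw [mem_OG.1 g.2, Q_e0]
  rw [Q_decomp, h1, map_zero, QuadraticMap.map_zero, zero_add] at h2
  have h3 : (g.1 e0) (Sum.inl ()) = 1 := sq_inj (by rw [h2, one_mul])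
  exact ext_V (by rw [h3, e0_inl]) (by rw [h1, pr_e0])

theorem pr_g (g : OG Q) (v : V) : pr (g.1 v) = pr (g.1 (inj (pr v))) := by
  conv_lhs => rw [decomp v]
  rw [map_add, map_smul, fix_e0, map_add, map_smul, pr_e0, smul_zero, add_zero]

/-- the induced symplectic map -/
noncomputable def psi : OG Q →* Matrix.symplecticGroup (Fin m) F where
  toFun g := ⟨LinearMap.toMatrix' (pr ∘ₗ g.1.toLinearMap ∘ₗ inj), by
    rw [mem_symplecticGroup_iff]
    intro u v
    rw [← Matrix.toLin'_apply, ← Matrix.toLin'_apply, Matrix.toLin'_toMatrix']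
    show Cfsg.sympForm m F (pr (g.1 (inj u))) (pr (g.1 (inj v))) = _
    rw [← polar_eq, OG_polar g.2, polar_eq, pr_inj, pr_inj]⟩
  map_one' := by
    apply Subtype.ext
    show LinearMap.toMatrix' (pr ∘ₗ (1 : V ≃ₗ[F] V).toLinearMap ∘ₗ inj) = 1
    rw [← LinearMap.toMatrix'_id]
    rfl
  map_mul' g h := by
    apply Subtype.ext
    show LinearMap.toMatrix' (pr ∘ₗ (g * h).1.toLinearMap ∘ₗ inj) =
      LinearMap.toMatrix' (pr ∘ₗ g.1.toLinearMap ∘ₗ inj) * LinearMap.toMatrix' (pr ∘ₗ h.1.toLinearMap ∘ₗ inj)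
    rw [← LinearMap.toMatrix'_comp]
    congr 1
    apply LinearMap.ext
    intro w
    show pr (g.1 (h.1 (inj w))) = pr (g.1 (inj (pr (h.1 (inj w)))))
    exact pr_g g _

theorem psi_mulVec (g : OG Q) (w : W) : (psi g : Matrix (Fin m ⊕ Fin m) (Fin m ⊕ Fin m) F) *ᵥ w = pr (g.1 (inj w)) := by
  show LinearMap.toMatrix' (pr ∘ₗ g.1.toLinearMap ∘ₗ inj) *ᵥ w = _
  rw [← Matrix.toLin'_apply, Matrix.toLin'_toMatrix']
  rfl

theorem psi_injective : Function.Injective (psi (F := F) (m := m)) := by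
  rw [injective_iff_map_eq_one]
  intro g hg
  have h1 : ∀ v : V, pr (g.1 v) = pr v := by
    intro v
    rw [pr_g, ← psi_mulVec, hg]
    show (1 : Matrix (Fin m ⊕ Fin m) (Fin m ⊕ Fin m) F) *ᵥ pr v = pr v
    rw [one_mulVec]
  apply Subtype.ext
  apply LinearEquiv.ext
  intro v
  show g.1 v = v
  apply ext_V _ (h1 v)
  apply sq_inj
  have h2 : Q (g.1 v) = Q v := mem_OG.1 g.2 v
  rw [Q_decomp, Q_decomp v, h1] at h2
  exact add_left_cancel h2

theorem exists_sqrt [Finite F] : ∃ s : F → F, ∀ a, s a * s a = a := by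
  have h : ∀ a : F, ∃ b, b * b = a := by
    intro a
    obtain ⟨b, hb⟩ := isSquare_of_two_eq_zero (two_zero (F := F)) a
    exact ⟨b, hb.symm⟩
  choose s hs using h
  exact ⟨s, hs⟩

theorem psi_surjective [Finite F] : Function.Surjective (psi (F := F) (m := m)) := by
  intro A
  obtain ⟨s, hs⟩ := exists_sqrt (F := F)
  let D : W → F := fun w => Q (inj w) + Q (inj ((A : Matrix (Fin m ⊕ Fin m) (Fin m ⊕ Fin m) F) *ᵥ w))
  have hA := (mem_symplecticGroup_iff (A : Matrix (Fin m ⊕ Fin m) (Fin m ⊕ Fin m) F)).1 A.2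
  have hD1 : ∀ x y, D (x + y) = D x + D y := by
    intro x y
    simp only [D]
    rw [LinearMap.map_add inj, mulVec_add, LinearMap.map_add inj, qadd, qadd, polar_eq, polar_eq, pr_inj, pr_inj, pr_inj, pr_inj, hA]
    linear_combination (Cfsg.sympForm m F x y) * (two_zero (F := F))
  have hD2 : ∀ (c : F) x, D (c • x) = c * c * D x := by
    intro c x
    simp only [D]
    rw [LinearMap.map_smul inj, mulVec_smul, LinearMap.map_smul inj, qsmul, qsmul]
    ring
  let lam : W →ₗ[F] F :=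
    { toFun := fun w => s (D w)
      map_add' := fun x y => by
        apply sq_inj
        rw [hs, hD1]
        linear_combination -(hs (D x)) - hs (D y) - (s (D x) * s (D y)) * (two_zero (F := F))
      map_smul' := fun c x => by
        apply sq_inj
        rw [hs, hD2, RingHom.id_apply, smul_eq_mul]
        linear_combination (-c * c) * hs (D x) }
  have hlam : ∀ w, lam w * lam w = D w := fun w => hs _
  let f : V →ₗ[F] V :=
    { toFun := fun v => inj ((A : Matrix (Fin m ⊕ Fin m) (Fin m ⊕ Fin m) F) *ᵥ pr v) + (lam (pr v) + v (Sum.inl ())) • e0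
      map_add' := fun x y => by
        rw [map_add, mulVec_add, map_add, map_add, Pi.add_apply]; module
      map_smul' := fun c x => by
        rw [map_smul, mulVec_smul, map_smul, map_smul, Pi.smul_apply, RingHom.id_apply, smul_eq_mul, smul_eq_mul]; module }
  have hf : ∀ v, f v = inj ((A : Matrix (Fin m ⊕ Fin m) (Fin m ⊕ Fin m) F) *ᵥ pr v) + (lam (pr v) + v (Sum.inl ())) • e0 := fun v => rfl
  have hfp : ∀ v, pr (f v) = (A : Matrix (Fin m ⊕ Fin m) (Fin m ⊕ Fin m) F) *ᵥ pr v := by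
    intro v
    rw [hf, map_add, pr_inj, map_smul, pr_e0, smul_zero, add_zero]
  have hf0 : ∀ v, (f v) (Sum.inl ()) = lam (pr v) + v (Sum.inl ()) := by
    intro v
    rw [hf, Pi.add_apply, inj_inl, Pi.smul_apply, e0_inl, zero_add, smul_eq_mul, mul_one]
  have hinj : Function.Injective f := by
    rw [injective_iff_map_eq_zero]
    intro v hv
    have h1 : pr v = 0 := by
      have h2 := hfp v
      rw [hv, map_zero] at h2
      have h3 : ((A⁻¹ * A : Matrix.symplecticGroup (Fin m) F) : Matrix (Fin m ⊕ Fin m) (Fin m ⊕ Fin m) F) *ᵥ pr v = 0 := by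
        rw [Submonoid.coe_mul, ← mulVec_mulVec, ← h2, mulVec_zero]
      rw [inv_mul_cancel] at h3
      simpa using h3
    have h4 := hf0 v
    rw [hv, h1, map_zero, zero_add, Pi.zero_apply] at h4
    exact ext_V (by rw [← h4]; rfl) (by rw [h1]; rfl)
  have hiso : ∀ v, Q (f v) = Q v := by
    intro v
    rw [Q_decomp (f v), Q_decomp v, hfp, hf0]
    have h5 := hlam (pr v)
    simp only [D] at h5
    linear_combination h5 + (lam (pr v) * v (Sum.inl ()) + Q (inj ((A : Matrix (Fin m ⊕ Fin m) (Fin m ⊕ Fin m) F) *ᵥ pr v))) * (two_zero (F := F))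
  refine ⟨⟨LinearEquiv.ofInjectiveEndo f hinj, hiso⟩, ?_⟩
  apply Subtype.ext
  apply mat_ext
  intro w
  rw [psi_mulVec]
  show pr (f (inj w)) = _
  rw [hfp, pr_inj]

end Cfsg.Agent.H5.OddTwo
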