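import Mathlib
import Cfsg.Agent.H5_GL
import Cfsg.Agent.H5_GL2
import Cfsg.Agent.H5_SL2

set_option autoImplicit false

/-! `PGL_2` on the projective line. -/

namespace Cfsg.Agent.H5.P1

open Matrix MulAction
open scoped MatrixGroups LinearAlgebra.Projectivization

variable {F : Type*} [Field F]

/-- cross product -/
def cr (v w : Fin 2 → F) : F := v 0 * w 1 - v 1 * w 0

theorem mk_eq_iff {v w : Fin 2 → F} (hv : v ≠ 0) (hw : w ≠ 0) :
    Projectivization.mk F v hv = Projectivization.mk F w hw ↔ cr v w = 0 := by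
  rw [Projectivization.mk_eq_mk_iff']
  constructor
  · rintro ⟨a, rfl⟩
    simp [cr]; ring
  · intro h
    rw [cr] at h
    have hw' : w 0 ≠ 0 ∨ w 1 ≠ 0 := by
      by_contra hcon
      push Not at hcon
      apply hw; ext i; fin_cases i
      · exact hcon.1
      · exact hcon.2
    rcases hw' with h0 | h1
    · refine ⟨v 0 / w 0, ?_⟩
      ext i; fin_cases i
      · simp [h0]
      · simp only [Pi.smul_apply, smul_eq_mul, Fin.mk_one]
        field_simp
        linear_combination h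
    · refine ⟨v 1 / w 1, ?_⟩
      ext i; fin_cases i
      · simp only [Pi.smul_apply, smul_eq_mul, Fin.zero_eta]
        field_simp
        linear_combination -h
      · simp [h1]

theorem e0_ne : (![1, 0] : Fin 2 → F) ≠ 0 := by
  intro h; have := congrFun h 0; simp at this
theorem e1_ne : (![0, 1] : Fin 2 → F) ≠ 0 := by
  intro h; have := congrFun h 1; simp at this
theorem e2_ne : (![1, 1] : Fin 2 → F) ≠ 0 := by
  intro h; have := congrFun h 1; simp at this

/-- base points -/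
def P0 : ℙ F (Fin 2 → F) := Projectivization.mk F ![1, 0] e0_ne
def P1 : ℙ F (Fin 2 → F) := Projectivization.mk F ![0, 1] e1_ne
def P2 : ℙ F (Fin 2 → F) := Projectivization.mk F ![1, 1] e2_ne

theorem exists_M (a b c : ℙ F (Fin 2 → F)) (hab : a ≠ b) (hac : a ≠ c) (hbc : b ≠ c) :
    ∃ M : GL (Fin 2) F, (Matrix.ProjGenLinGroup.mk M) • (P0 : ℙ F (Fin 2 → F)) = a ∧
      (Matrix.ProjGenLinGroup.mk M) • (P1 : ℙ F (Fin 2 → F)) = b ∧
      (Matrix.ProjGenLinGroup.mk M) • (P2 : ℙ F (Fin 2 → F)) = c := by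
  induction a using Projectivization.ind with | _ v hv =>
  induction b using Projectivization.ind with | _ w hw =>
  induction c using Projectivization.ind with | _ z hz =>
  rw [Ne, mk_eq_iff] at hab hac hbc
  set D := cr v w with hD
  have hD' : D = v 0 * w 1 - v 1 * w 0 := rfl
  set α := cr z w / D with hα
  set β := cr v z / D with hβ
  have hα0 : α ≠ 0 := by
    apply div_ne_zero _ hab
    intro h; apply hbc
    rw [cr] at h ⊢; linear_combination -h
  have hβ0 : β ≠ 0 := div_ne_zero hac hab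
  let M : GL (Fin 2) F := Matrix.GeneralLinearGroup.mkOfDetNeZero !![α * v 0, β * w 0; α * v 1, β * w 1] (by
    rw [Matrix.det_fin_two]
    simp only [Matrix.of_apply, Matrix.cons_val', Matrix.cons_val_zero, Matrix.cons_val_one, Matrix.cons_val_fin_one]
    have : α * v 0 * (β * w 1) - β * w 0 * (α * v 1) = α * β * D := by rw [hD']; ring
    rw [this]
    exact mul_ne_zero (mul_ne_zero hα0 hβ0) hab)
  have hM : (M : Matrix (Fin 2) (Fin 2) F) = !![α * v 0, β * w 0; α * v 1, β * w 1] := rfl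
  have hsm : ∀ x : Fin 2 → F, M • x = (M : Matrix (Fin 2) (Fin 2) F).mulVec x := fun x => rfl
  refine ⟨M, ?_, ?_, ?_⟩
  · rw [P0, Projectivization.PGL.mk_smul_mk, mk_eq_iff, hsm, hM]
    simp [cr, Matrix.mulVec, dotProduct, Fin.sum_univ_two]
    ring
  · rw [P1, Projectivization.PGL.mk_smul_mk, mk_eq_iff, hsm, hM]
    simp [cr, Matrix.mulVec, dotProduct, Fin.sum_univ_two]
    ring
  · rw [P2, Projectivization.PGL.mk_smul_mk, mk_eq_iff, hsm, hM]
    simp only [cr, Matrix.mulVec, dotProduct, Fin.sum_univ_two, Matrix.of_apply, Matrix.cons_val', Matrix.cons_val_zero, Matrix.cons_val_one, Matrix.cons_val_fin_one, mul_one]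
    have h0 : α * v 0 + β * w 0 = z 0 := by
      rw [hα, hβ, cr, cr]; field_simp; rw [hD']; ring
    have h1 : α * v 1 + β * w 1 = z 1 := by
      rw [hα, hβ, cr, cr]; field_simp; rw [hD']; ring
    rw [h0, h1]; ring

theorem fix_base (g : PGL(2, F)) (h0 : g • (P0 : ℙ F (Fin 2 → F)) = P0) (h1 : g • (P1 : ℙ F (Fin 2 → F)) = P1)
    (h2 : g • (P2 : ℙ F (Fin 2 → F)) = P2) : g = 1 := by
  obtain ⟨M, rfl⟩ := Matrix.ProjGenLinGroup.mk_surjective g
  have hsm : ∀ x : Fin 2 → F, M • x = (M : Matrix (Fin 2) (Fin 2) F).mulVec x := fun x => rfl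
  rw [P0, Projectivization.PGL.mk_smul_mk, mk_eq_iff, hsm] at h0
  rw [P1, Projectivization.PGL.mk_smul_mk, mk_eq_iff, hsm] at h1
  rw [P2, Projectivization.PGL.mk_smul_mk, mk_eq_iff, hsm] at h2
  simp [cr, Matrix.mulVec, dotProduct, Fin.sum_univ_two] at h0 h1 h2
  have hd : M.1 0 0 ≠ 0 := by
    have := GL2.det_ne_zero M
    rw [h0, mul_zero, sub_zero] at this
    exact left_ne_zero_of_mul this
  have h3 : M.1 0 0 = M.1 1 1 := by
    rw [h0, h1] at h2; linear_combination h2
  have : Matrix.ProjGenLinGroup.mk M = Matrix.ProjGenLinGroup.mk 1 := by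
    symm
    rw [Matrix.ProjGenLinGroup.mk_eq_mk_iff]
    refine ⟨Units.mk0 _ hd, ?_⟩
    apply GL2.entry_ext <;> simp [h0, h1, ← h3]
  rw [this, map_one]

theorem multi : IsMultiplyPretransitive (Matrix.ProjGenLinGroup (Fin 2) F) (Projectivization F (Fin 2 → F)) 3 := by
  have key : ∀ x : Fin 3 ↪ ℙ F (Fin 2 → F), ∃ g : PGL(2, F), g • P0 = x 0 ∧ g • P1 = x 1 ∧ g • P2 = x 2 := by
    intro x
    obtain ⟨M, h⟩ := exists_M (x 0) (x 1) (x 2) (x.injective.ne (by decide)) (x.injective.ne (by decide))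
      (x.injective.ne (by decide))
    exact ⟨_, h⟩
  refine ⟨fun x y => ?_⟩
  obtain ⟨g, hg0, hg1, hg2⟩ := key x
  obtain ⟨h, hh0, hh1, hh2⟩ := key y
  refine ⟨h * g⁻¹, ?_⟩
  ext i
  rw [Function.Embedding.smul_apply]
  fin_cases i
  · change (h * g⁻¹) • x 0 = y 0
    rw [← hg0, mul_smul, inv_smul_smul, hh0]
  · change (h * g⁻¹) • x 1 = y 1
    rw [← hg1, mul_smul, inv_smul_smul, hh1]
  · change (h * g⁻¹) • x 2 = y 2
    rw [← hg2, mul_smul, inv_smul_smul, hh2]

theorem sharp (g : Matrix.ProjGenLinGroup (Fin 2) F) (a b c : Projectivization F (Fin 2 → F)) (hab : a ≠ b)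
    (hac : a ≠ c) (hbc : b ≠ c) (ha : g • a = a) (hb : g • b = b) (hc : g • c = c) : g = 1 := by
  obtain ⟨M, h0, h1, h2⟩ := exists_M a b c hab hac hbc
  set m := Matrix.ProjGenLinGroup.mk M
  have : m⁻¹ * g * m = 1 := by
    apply fix_base
    · rw [mul_smul, mul_smul, h0, ha, ← h0, inv_smul_smul]
    · rw [mul_smul, mul_smul, h1, hb, ← h1, inv_smul_smul]
    · rw [mul_smul, mul_smul, h2, hc, ← h2, inv_smul_smul]
  calc g = m * (m⁻¹ * g * m) * m⁻¹ := by group
    _ = 1 := by rw [this]; group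

end Cfsg.Agent.H5.P1
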