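import Cfsg.Agent.H5_TriG

set_option autoImplicit false

/-! Abstract triality data: the quotient with a four group. -/

namespace Cfsg.Agent.H5.TriG

variable {G Φ : Type*} [Group G] [Group Φ]

namespace Dat

variable (𝒟 : Dat G Φ)

theorem conj_fl {e : G} (he : e ∈ 𝒟.E) (σ : Φ) : 𝒟.fl σ * e * (𝒟.fl σ)⁻¹ ∈ 𝒟.E := by
  obtain ⟨h1, h2, h3⟩ := he
  have hc : 𝒟.fl σ * 𝒟.t = 𝒟.t * 𝒟.fl σ := 𝒟.hft σ
  have hc' : 𝒟.fl σ * 𝒟.t⁻¹ = 𝒟.t⁻¹ * 𝒟.fl σ := by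
    rw [mul_inv_eq_iff_eq_mul, mul_assoc, hc, inv_mul_cancel_left]
  refine ⟨𝒟.hfD σ _ h1, ?_, ?_⟩
  · have e1 : 𝒟.t * (𝒟.fl σ * e * (𝒟.fl σ)⁻¹) * 𝒟.t⁻¹ = 𝒟.fl σ * (𝒟.t * e * 𝒟.t⁻¹) * (𝒟.fl σ)⁻¹ := by
      have e2 : (𝒟.fl σ)⁻¹ * 𝒟.t⁻¹ = 𝒟.t⁻¹ * (𝒟.fl σ)⁻¹ := by
        rw [← mul_inv_rev, ← mul_inv_rev, hc]
      calc _ = (𝒟.t * 𝒟.fl σ) * e * ((𝒟.fl σ)⁻¹ * 𝒟.t⁻¹) := by group
        _ = (𝒟.fl σ * 𝒟.t) * e * (𝒟.t⁻¹ * (𝒟.fl σ)⁻¹) := by rw [e2, hc]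
        _ = _ := by group
    rw [e1]
    exact 𝒟.hfD σ _ h2
  · have e1 : 𝒟.t⁻¹ * (𝒟.fl σ * e * (𝒟.fl σ)⁻¹) * 𝒟.t = 𝒟.fl σ * (𝒟.t⁻¹ * e * 𝒟.t) * (𝒟.fl σ)⁻¹ := by
      have e2 : (𝒟.fl σ)⁻¹ * 𝒟.t = 𝒟.t * (𝒟.fl σ)⁻¹ := by
        rw [inv_mul_eq_iff_eq_mul, ← mul_assoc, hc, mul_inv_cancel_right]
      calc _ = (𝒟.t⁻¹ * 𝒟.fl σ) * e * ((𝒟.fl σ)⁻¹ * 𝒟.t) := by group
        _ = (𝒟.fl σ * 𝒟.t⁻¹) * e * (𝒟.t * (𝒟.fl σ)⁻¹) := by rw [e2, hc']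
        _ = _ := by group
    rw [e1]
    exact 𝒟.hfD σ _ h3

/-- the `Φ`-part. -/
noncomputable def pf (α : G) : Φ := ((Equiv.ofBijective _ 𝒟.rep_bij).symm α).2.2

theorem pf_rep {e : G} (he : e ∈ 𝒟.E) (s : DihedralGroup 3) (σ : Φ) : 𝒟.pf (e * 𝒟.ps s * 𝒟.fl σ) = σ := by
  have h : (Equiv.ofBijective _ 𝒟.rep_bij).symm (e * 𝒟.ps s * 𝒟.fl σ) = (⟨e, he⟩, s, σ) := by
    rw [Equiv.symm_apply_eq]
    rfl
  rw [pf, h]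

/-- the homomorphism onto `Φ`. -/
noncomputable def pfH : G →* Φ where
  toFun := 𝒟.pf
  map_one' := by
    have := 𝒟.pf_rep (one_mem _) 1 1
    rwa [map_one, map_one, mul_one, mul_one] at this
  map_mul' α β := by
    obtain ⟨e, he, s, σ, rfl⟩ := 𝒟.exists_rep α
    obtain ⟨e', he', s', σ', rfl⟩ := 𝒟.exists_rep β
    have h1 : e * 𝒟.ps s * 𝒟.fl σ * (e' * 𝒟.ps s' * 𝒟.fl σ') =
        (e * (𝒟.ps s * (𝒟.fl σ * e' * (𝒟.fl σ)⁻¹) * (𝒟.ps s)⁻¹)) * 𝒟.ps (s * s') * 𝒟.fl (σ * σ') := by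
      rw [map_mul, map_mul]
      have h2 : 𝒟.fl σ * 𝒟.ps s' = 𝒟.ps s' * 𝒟.fl σ := 𝒟.fl_ps σ s'
      calc _ = e * 𝒟.ps s * (𝒟.fl σ * e' * (𝒟.fl σ)⁻¹) * (𝒟.fl σ * 𝒟.ps s') * 𝒟.fl σ' := by group
        _ = e * 𝒟.ps s * (𝒟.fl σ * e' * (𝒟.fl σ)⁻¹) * (𝒟.ps s' * 𝒟.fl σ) * 𝒟.fl σ' := by rw [h2]
        _ = _ := by group
    rw [h1, 𝒟.pf_rep (mul_mem he (𝒟.conj_ps (𝒟.conj_fl he' σ) s)), 𝒟.pf_rep he, 𝒟.pf_rep he']

/-- the symmetric group of degree four. -/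
theorem quot_S4 [Finite G] [Finite Φ] (I : Subgroup G) [hI : I.Normal] (hIE : I ≤ 𝒟.E) (hc : Nat.card 𝒟.E = 4 * Nat.card I)
    {v₁ v₂ v₃ : G} (h₁ : v₁ ∈ 𝒟.E) (h₂ : v₂ ∈ 𝒟.E)
    (h12 : (QuotientGroup.mk v₁ : G ⧸ I) ≠ QuotientGroup.mk v₂) (h23 : (QuotientGroup.mk v₂ : G ⧸ I) ≠ QuotientGroup.mk v₃)
    (h13 : (QuotientGroup.mk v₁ : G ⧸ I) ≠ QuotientGroup.mk v₃)
    (ht1 : (QuotientGroup.mk (𝒟.t * v₁ * 𝒟.t⁻¹) : G ⧸ I) = QuotientGroup.mk v₂)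
    (ht2 : (QuotientGroup.mk (𝒟.t * v₂ * 𝒟.t⁻¹) : G ⧸ I) = QuotientGroup.mk v₃)
    (hJ2 : (QuotientGroup.mk (𝒟.J * v₂ * 𝒟.J⁻¹) : G ⧸ I) = QuotientGroup.mk v₃) :
    Nonempty (G ⧸ I ≃* Equiv.Perm (Fin 4) × Φ) := by
  let f : DihedralGroup 3 × Φ →* G ⧸ I :=
    { toFun := fun x => QuotientGroup.mk (𝒟.ps x.1 * 𝒟.fl x.2)
      map_one' := by rw [Prod.fst_one, Prod.snd_one, map_one, map_one, mul_one]; rfl
      map_mul' := by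
        rintro ⟨s, σ⟩ ⟨s', σ'⟩
        change (QuotientGroup.mk (𝒟.ps (s * s') * 𝒟.fl (σ * σ')) : G ⧸ I) =
          QuotientGroup.mk (𝒟.ps s * 𝒟.fl σ) * QuotientGroup.mk (𝒟.ps s' * 𝒟.fl σ')
        rw [← QuotientGroup.mk_mul]
        congr 1
        rw [map_mul, map_mul, mul_assoc (𝒟.ps s) (𝒟.fl σ), ← mul_assoc (𝒟.fl σ), 𝒟.fl_ps]
        simp only [mul_assoc] }
  -- elements of `E` in the range
  have hsep : ∀ e ∈ 𝒟.E, (QuotientGroup.mk e : G ⧸ I) ∈ f.range → (QuotientGroup.mk e : G ⧸ I) = 1 := by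
    rintro e he ⟨⟨s, σ⟩, h⟩
    change (QuotientGroup.mk (𝒟.ps s * 𝒟.fl σ) : G ⧸ I) = QuotientGroup.mk e at h
    rw [QuotientGroup.eq] at h
    have h1 := mul_mem he (inv_mem (hIE h))
    have h2 : e * ((𝒟.ps s * 𝒟.fl σ)⁻¹ * e)⁻¹ = 𝒟.ps s * 𝒟.fl σ := by group
    rw [h2] at h1
    obtain ⟨h3, h4, -⟩ := 𝒟.sep (inv_mem h1) (σ := σ) (s := s⁻¹) (by
        rw [← 𝒟.fl_ps, mul_inv_rev, map_inv]; group)
    rw [inv_eq_one] at h3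
    rw [h3, h4, map_one, map_one, mul_one, inv_one, one_mul] at h
    exact (QuotientGroup.eq_one_iff e).mpr h
  have hinj : Function.Injective f := by
    rw [injective_iff_map_eq_one]
    rintro ⟨s, σ⟩ h
    change (QuotientGroup.mk (𝒟.ps s * 𝒟.fl σ) : G ⧸ I) = 1 at h
    rw [QuotientGroup.eq_one_iff] at h
    obtain ⟨h3, h4, -⟩ := 𝒟.sep (inv_mem (hIE h)) (σ := σ) (s := s⁻¹) (by
        rw [← 𝒟.fl_ps, mul_inv_rev, map_inv]; group)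
    rw [inv_eq_one] at h3
    rw [h3, h4]
    rfl
  -- the coset action
  let M : Subgroup (G ⧸ I) := f.range
  let c : G ⧸ I →* Equiv.Perm ((G ⧸ I) ⧸ M) := MulAction.toPermHom (G ⧸ I) ((G ⧸ I) ⧸ M)
  let π : G ⧸ I →* Φ := QuotientGroup.lift I 𝒟.pfH (by
    intro x hx
    have h := 𝒟.pf_rep (hIE hx) 1 1
    rw [map_one, map_one, mul_one, mul_one] at h
    exact h)
  have hcardG : Nat.card (G ⧸ I) = 24 * Nat.card Φ := by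
    have h1 := Subgroup.card_eq_card_quotient_mul_card_subgroup I
    have h2 : 0 < Nat.card I := Nat.card_pos
    rw [𝒟.card_G, hc] at h1
    apply Nat.eq_of_mul_eq_mul_right h2
    rw [← h1]; ring
  have hcardM : Nat.card M = 6 * Nat.card Φ := by
    have h1 : Nat.card (DihedralGroup 3 × Φ) = Nat.card M := Nat.card_congr (MonoidHom.ofInjective hinj).toEquiv
    rw [← h1, Nat.card_prod, DihedralGroup.nat_card]
  have hidx : Nat.card ((G ⧸ I) ⧸ M) = 4 := by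
    have h1 := Subgroup.card_eq_card_quotient_mul_card_subgroup M
    have h2 : 0 < Nat.card Φ := Nat.card_pos
    rw [hcardG, hcardM] at h1
    apply Nat.eq_of_mul_eq_mul_right (show 0 < 6 * Nat.card Φ by positivity)
    rw [← h1]; ring
  have hFin : Finite (G ⧸ I) := inferInstance
  have key : Function.Injective (c.prod π) := by
    rw [injective_iff_map_eq_one]
    intro g hg
    have hg1 : c g = 1 := congrArg Prod.fst hg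
    have hg2 : π g = 1 := congrArg Prod.snd hg
    have hcore : ∀ x : G ⧸ I, x⁻¹ * g * x ∈ M := by
      intro x
      have h1 : c g (QuotientGroup.mk x) = QuotientGroup.mk x := by rw [hg1]; rfl
      have h2 : (QuotientGroup.mk (g * x) : (G ⧸ I) ⧸ M) = QuotientGroup.mk x := h1
      rw [eq_comm, QuotientGroup.eq] at h2
      rwa [mul_assoc]
    have h0 := hcore 1
    rw [inv_one, one_mul, mul_one] at h0
    obtain ⟨⟨s, σ⟩, hsσ⟩ := h0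
    have hgm : g = QuotientGroup.mk (𝒟.ps s * 𝒟.fl σ) := hsσ.symm
    have hσ : σ = 1 := by
      rw [hgm] at hg2
      have h3 : π (QuotientGroup.mk (𝒟.ps s * 𝒟.fl σ)) = 𝒟.pf (𝒟.ps s * 𝒟.fl σ) := rfl
      have h4 := 𝒟.pf_rep (one_mem _) s σ
      rw [one_mul] at h4
      rw [h3, h4] at hg2
      exact hg2
    rw [hσ, map_one, mul_one] at hgm
    -- `s` commutes with `E` modulo `I`
    have hcomm : ∀ e ∈ 𝒟.E, (QuotientGroup.mk (𝒟.ps s * e * (𝒟.ps s)⁻¹) : G ⧸ I) = QuotientGroup.mk e := by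
      intro e he
      have h3 := hcore (QuotientGroup.mk e)
      have h4 : (QuotientGroup.mk e : G ⧸ I)⁻¹ * g * QuotientGroup.mk e * g⁻¹ ∈ M :=
        mul_mem h3 (inv_mem ⟨⟨s, σ⟩, hsσ⟩)
      rw [hgm, ← QuotientGroup.mk_inv, ← QuotientGroup.mk_inv, ← QuotientGroup.mk_mul, ← QuotientGroup.mk_mul, ← QuotientGroup.mk_mul] at h4
      have h5 : e⁻¹ * 𝒟.ps s * e * (𝒟.ps s)⁻¹ ∈ 𝒟.E := by
        have := mul_mem (inv_mem he) (𝒟.conj_ps he s)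
        rwa [← mul_assoc, ← mul_assoc] at this
      have h6 := hsep _ h5 h4
      rw [QuotientGroup.eq_one_iff] at h6
      rw [eq_comm, QuotientGroup.eq, ← mul_assoc, ← mul_assoc]
      exact h6
    have hs : s = 1 := by
      have e1 := hcomm v₁ h₁
      have e2 := hcomm v₂ h₂
      have hmk : ∀ x y a : G, (QuotientGroup.mk x : G ⧸ I) = QuotientGroup.mk y →
          (QuotientGroup.mk (a * x * a⁻¹) : G ⧸ I) = QuotientGroup.mk (a * y * a⁻¹) := by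
        intro x y a h
        rw [QuotientGroup.mk_mul, QuotientGroup.mk_mul, h, ← QuotientGroup.mk_mul, ← QuotientGroup.mk_mul]
      have ht11 : (QuotientGroup.mk (𝒟.t * (𝒟.t * v₁ * 𝒟.t⁻¹) * 𝒟.t⁻¹) : G ⧸ I) = QuotientGroup.mk v₃ :=
        (hmk _ _ 𝒟.t ht1).trans ht2
      rcases s with i | i
      · rw [ps_r] at e1
        fin_cases i
        · rfl
        · exfalso
          change (QuotientGroup.mk (𝒟.t ^ 1 * v₁ * (𝒟.t ^ 1)⁻¹) : G ⧸ I) = _ at e1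
          rw [pow_one, ht1] at e1
          exact h12 e1.symm
        · exfalso
          change (QuotientGroup.mk (𝒟.t ^ 2 * v₁ * (𝒟.t ^ 2)⁻¹) : G ⧸ I) = _ at e1
          have e3 : 𝒟.t ^ 2 * v₁ * (𝒟.t ^ 2)⁻¹ = 𝒟.t * (𝒟.t * v₁ * 𝒟.t⁻¹) * 𝒟.t⁻¹ := by rw [sq]; group
          rw [e3, ht11] at e1
          exact h13 e1.symm
      · exfalso
        rw [ps_sr] at e1 e2
        fin_cases i
        · change (QuotientGroup.mk (𝒟.J * 𝒟.t ^ 0 * v₂ * (𝒟.J * 𝒟.t ^ 0)⁻¹) : G ⧸ I) = _ at e2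
          rw [pow_zero, mul_one, hJ2] at e2
          exact h23 e2.symm
        · change (QuotientGroup.mk (𝒟.J * 𝒟.t ^ 1 * v₁ * (𝒟.J * 𝒟.t ^ 1)⁻¹) : G ⧸ I) = _ at e1
          have e3 : 𝒟.J * 𝒟.t ^ 1 * v₁ * (𝒟.J * 𝒟.t ^ 1)⁻¹ = 𝒟.J * (𝒟.t * v₁ * 𝒟.t⁻¹) * 𝒟.J⁻¹ := by rw [pow_one]; group
          rw [e3, hmk _ _ 𝒟.J ht1, hJ2] at e1
          exact h13 e1.symm
        · change (QuotientGroup.mk (𝒟.J * 𝒟.t ^ 2 * v₁ * (𝒟.J * 𝒟.t ^ 2)⁻¹) : G ⧸ I) = _ at e1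
          have e3 : 𝒟.J * 𝒟.t ^ 2 * v₁ * (𝒟.J * 𝒟.t ^ 2)⁻¹ = 𝒟.J * (𝒟.t * (𝒟.t * v₁ * 𝒟.t⁻¹) * 𝒟.t⁻¹) * 𝒟.J⁻¹ := by rw [sq]; group
          have e4 : (QuotientGroup.mk (𝒟.J * v₃ * 𝒟.J⁻¹) : G ⧸ I) = QuotientGroup.mk v₂ := by
            have e5 := hmk _ _ 𝒟.J hJ2
            have e6 : 𝒟.J * (𝒟.J * v₂ * 𝒟.J⁻¹) * 𝒟.J⁻¹ = v₂ := by
              rw [𝒟.J_inv]
              calc _ = (𝒟.J * 𝒟.J) * v₂ * (𝒟.J * 𝒟.J) := by group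
                _ = v₂ := by rw [𝒟.hJ, one_mul, mul_one]
            rw [e6] at e5
            exact e5.symm
          rw [e3, hmk _ _ 𝒟.J ht11, e4] at e1
          exact h12 e1.symm
    rw [hgm, hs, map_one]
    rfl
  have hbij : Function.Bijective (c.prod π) := (Nat.bijective_iff_injective_and_card _).mpr ⟨key, by
    rw [hcardG, Nat.card_prod, Nat.card_perm, hidx]; rfl⟩
  have e4 : Nonempty (((G ⧸ I) ⧸ M) ≃ Fin 4) := ⟨Finite.equivFinOfCardEq hidx⟩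
  obtain ⟨e4⟩ := e4
  exact ⟨(MulEquiv.ofBijective _ hbij).trans (MulEquiv.prodCongr e4.permCongrHom (MulEquiv.refl Φ))⟩

end Dat

end Cfsg.Agent.H5.TriG
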