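import Cfsg.Agent.H5_Tri6
import Cfsg.Agent.H16_Par7
import Cfsg.Agent.H5_TriS

set_option autoImplicit false

/-! Outer automorphism groups in plus type. -/

namespace Cfsg.Agent.H5.PlO

open Matrix Module
open QuadraticMap (polar)
open Cfsg.Agent.H16 Cfsg.Agent.H16.POm Cfsg.Agent.H16.Gam Cfsg.Agent.H16.AutL Cfsg.Agent.H16.AutG Cfsg.Agent.H16.Par
open Cfsg.Agent.H16.Desc

section Grp

variable {G H : Type*} [Group G] [Group H]

/-- split extensions with commuting section. -/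
theorem prod_of_section (θ : G →* H) (s : H →* G) (hs : ∀ h, θ (s h) = h) (hc : ∀ k ∈ θ.ker, ∀ h, k * s h = s h * k) :
    Nonempty (G ≃* θ.ker × H) := by
  let f : θ.ker × H →* G :=
    { toFun := fun x => (x.1 : G) * s x.2
      map_one' := by simp
      map_mul' := fun x y => by
        rw [Prod.fst_mul, Prod.snd_mul, map_mul, Subgroup.coe_mul, mul_assoc, mul_assoc]
        congr 1
        rw [← mul_assoc, ← mul_assoc, hc _ y.1.2] }
  refine ⟨(MulEquiv.ofBijective f ⟨?_, ?_⟩).symm⟩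
  · rw [injective_iff_map_eq_one]
    rintro ⟨⟨k, hk⟩, h⟩ hx
    change k * s h = 1 at hx
    have h1 := congrArg θ hx
    rw [map_mul, map_one, hs, MonoidHom.mem_ker.mp hk, one_mul] at h1
    subst h1
    rw [map_one, mul_one] at hx
    subst hx
    rfl
  · intro g
    refine ⟨⟨⟨g * (s (θ g))⁻¹, ?_⟩, θ g⟩, ?_⟩
    · rw [MonoidHom.mem_ker, map_mul, map_inv, hs, mul_inv_cancel]
    · exact inv_mul_cancel_right _ _

/-- four commuting elements generate with a fifth. -/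
theorem comm_of_gen {M : Type*} [Group M] (hcard : Nat.card M = 8) {a b d : M} (ha : a * a = 1) (hb : b * b = 1)
    (hab : a * b = b * a) (hne : a ≠ b) (ha1 : a ≠ 1) (hb1 : b ≠ 1) (hd : d * a = b * d) (S : Subgroup M) (h1 : a ∈ S) (h2 : b ∈ S)
    (h3 : d ∈ S) : S = ⊤ := by
  have hfin : Finite M := Nat.finite_of_card_ne_zero (by rw [hcard]; norm_num)
  have hS : Nat.card S ∣ 8 := by rw [← hcard]; exact Subgroup.card_subgroup_dvd_card S
  have h5 : 4 < Nat.card S := by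
    classical
    have : Fintype S := Fintype.ofFinite S
    let T : Finset S := {1, ⟨a, h1⟩, ⟨b, h2⟩, ⟨a * b, mul_mem h1 h2⟩, ⟨d, h3⟩}
    have hdab : ∀ x : M, (x = 1 ∨ x = a ∨ x = b ∨ x = a * b) → d ≠ x := by
      intro x hx hdx
      apply hne
      have hcomm : x * a = a * x := by
        rcases hx with rfl | rfl | rfl | rfl
        · rw [one_mul, mul_one]
        · rfl
        · exact hab.symm
        · rw [mul_assoc, ← hab]
      rw [hdx, hcomm] at hd
      exact mul_right_cancel hd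
    have hT : T.card = 5 := by
      rw [Finset.card_insert_of_notMem, Finset.card_insert_of_notMem, Finset.card_insert_of_notMem, Finset.card_insert_of_notMem,
        Finset.card_singleton]
      · rw [Finset.mem_singleton]
        intro h
        exact hdab _ (Or.inr (Or.inr (Or.inr rfl))) (congrArg Subtype.val h).symm
      · simp only [Finset.mem_insert, Finset.mem_singleton, Subtype.mk.injEq, not_or]
        exact ⟨fun h => ha1 (mul_right_cancel (h.symm.trans (one_mul b).symm)), fun h => hdab b (by simp) h.symm⟩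
      · simp only [Finset.mem_insert, Finset.mem_singleton, Subtype.mk.injEq, not_or]
        exact ⟨hne, fun h => hb1 (mul_left_cancel (h.symm.trans (mul_one a).symm)), fun h => hdab a (by simp) h.symm⟩
      · simp only [Finset.mem_insert, Finset.mem_singleton, not_or]
        refine ⟨fun h => ha1 (congrArg Subtype.val h).symm, fun h => hb1 (congrArg Subtype.val h).symm,
          fun h => hne ?_, fun h => hdab 1 (by simp) (congrArg Subtype.val h).symm⟩
        have h' : (1 : M) = a * b := congrArg Subtype.val h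
        have : b = a := by
          calc b = a * a * b := by rw [ha, one_mul]
            _ = a * (a * b) := by rw [mul_assoc]
            _ = a := by rw [← h', mul_one]
        exact this.symm
    have h6 : T.card ≤ Fintype.card S := Finset.card_le_univ T
    rw [Nat.card_eq_fintype_card]
    omega
  have h6 : Nat.card S = 8 := by
    have h7 : Nat.card S ∈ Nat.divisors 8 := Nat.mem_divisors.mpr ⟨hS, by norm_num⟩
    have h8 : Nat.divisors 8 = {1, 2, 4, 8} := by decide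
    rw [h8] at h7
    simp only [Finset.mem_insert, Finset.mem_singleton] at h7
    omega
  exact Subgroup.eq_top_of_card_eq S (by rw [h6, hcard])

end Grp

section Grp2

variable {G : Type*} [Group G]

/-- extension of an even cyclic group by a dihedral group. -/
theorem prod_of_even {f : ℕ} (hf : Even f) [NeZero f] (θ : G →* Multiplicative (ZMod f)) (hcard : Nat.card θ.ker = 8)
    {a b d φ : G} (ha : a ∈ θ.ker) (hb : b ∈ θ.ker) (hd : d ∈ θ.ker) (haa : a * a = 1) (hbb : b * b = 1)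
    (hab : a * b = b * a) (hne : a ≠ b) (ha1 : a ≠ 1) (hb1 : b ≠ 1) (hda : d * a = b * d) (hdd : d * d = 1 ∨ d * d = a * b)
    (hφ : θ φ = Multiplicative.ofAdd 1) (hφf : φ ^ f = 1) (hφa : φ * a = a * φ) (hφb : φ * b = b * φ)
    (hφd : φ * d = d * φ ∨ φ * d = d * (a * b) * φ) : Nonempty (G ≃* DihedralGroup 4 × Multiplicative (ZMod f)) := by
  -- the correct lift
  obtain ⟨x, hx1, hx2, hx3, hx4, hx5⟩ : ∃ x : G, θ x = Multiplicative.ofAdd 1 ∧ x ^ f = 1 ∧ x * a = a * x ∧ x * b = b * x ∧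
      x * d = d * x := by
    rcases hφd with h | h
    · exact ⟨φ, hφ, hφf, hφa, hφb, h⟩
    · refine ⟨φ * a, ?_, ?_, ?_, ?_, ?_⟩
      · rw [map_mul, hφ, MonoidHom.mem_ker.mp ha, mul_one]
      · have h1 : Commute φ a := hφa
        rw [h1.mul_pow, hφf, one_mul]
        obtain ⟨k, rfl⟩ := hf
        rw [← two_mul, pow_mul, sq, haa, one_pow]
      · rw [hφa, mul_assoc, hφa]
      · rw [mul_assoc, hab, ← mul_assoc, hφb, mul_assoc]
      · have hdb : d * b = a * d := by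
          have h1 : d * d * a = a * (d * d) := by
            rcases hdd with h | h
            · rw [h, one_mul, mul_one]
            · rw [h, mul_assoc, ← hab]
          have h2 : d * b * d = a * d * d := by
            calc d * b * d = d * (b * d) := by group
              _ = d * (d * a) := by rw [hda]
              _ = d * d * a := by group
              _ = a * (d * d) := h1
              _ = a * d * d := by group
          exact mul_right_cancel h2
        calc φ * a * d = φ * (a * d) := by group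
          _ = φ * (d * b) := by rw [hdb]
          _ = (φ * d) * b := by group
          _ = d * (a * b) * φ * b := by rw [h]
          _ = d * (a * b) * (φ * b) := by group
          _ = d * (a * b) * (b * φ) := by rw [hφb]
          _ = d * a * (b * b) * φ := by group
          _ = d * (a * φ) := by rw [hbb]; group
          _ = d * (φ * a) := by rw [hφa]
  -- it centralizes the kernel
  let S : Subgroup θ.ker := (Subgroup.centralizer {x}).comap θ.ker.subtype
  have hS : S = ⊤ := by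
    refine comm_of_gen hcard (a := ⟨a, ha⟩) (b := ⟨b, hb⟩) (d := ⟨d, hd⟩) (Subtype.ext haa) (Subtype.ext hbb) (Subtype.ext hab)
      (fun h => hne (congrArg Subtype.val h)) (fun h => ha1 (congrArg Subtype.val h)) (fun h => hb1 (congrArg Subtype.val h))
      (Subtype.ext hda) S ?_ ?_ ?_
    · exact Subgroup.mem_centralizer_singleton_iff.mpr hx3.symm
    · exact Subgroup.mem_centralizer_singleton_iff.mpr hx4.symm
    · exact Subgroup.mem_centralizer_singleton_iff.mpr hx5.symm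
  have hcx : ∀ k ∈ θ.ker, k * x = x * k := by
    intro k hk
    have h1 : (⟨k, hk⟩ : θ.ker) ∈ S := by rw [hS]; trivial
    exact Subgroup.mem_centralizer_singleton_iff.mp h1
  let s : Multiplicative (ZMod f) →* G :=
    { toFun := fun i => x ^ (Multiplicative.toAdd i).val
      map_one' := by
        change x ^ (0 : ZMod f).val = 1
        rw [ZMod.val_zero, pow_zero]
      map_mul' := fun i j => by
        change x ^ (Multiplicative.toAdd i + Multiplicative.toAdd j).val = _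
        rw [TriG.pow_val_add hx2] }
  obtain ⟨e⟩ := prod_of_section θ s (by
    intro i
    change θ (x ^ (Multiplicative.toAdd i).val) = i
    rw [map_pow, hx1, ← ofAdd_nsmul, nsmul_one, ZMod.natCast_val, ZMod.cast_id]
    rfl) (by
    intro k hk i
    exact (Commute.pow_right (show Commute k x from hcx k hk) _))
  obtain ⟨e2⟩ := Dih.dihedral_swap hcard (a := (⟨a, ha⟩ : θ.ker)) (b := ⟨b, hb⟩) (d := ⟨d, hd⟩) (Subtype.ext haa) (Subtype.ext hbb) (Subtype.ext hab)
      (fun h => hne (congrArg Subtype.val h)) (Subtype.ext hda) (hdd.imp (fun h => Subtype.ext h) (fun h => Subtype.ext h))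
  exact ⟨e.trans (MulEquiv.prodCongr e2.symm (MulEquiv.refl _))⟩

end Grp2

section Plus

variable {F : Type*} [Field F] [Finite F] {m : ℕ} (hm : 4 ≤ m)

theorem hasField_plus : (fam (odP F hm)).HasField := hasField_of fun σ v => by
  change Quad.plusQ F m _ = σ (Quad.plusQ F m v)
  rw [Quad.plusQ_apply, Quad.plusQ_apply, Cfsg.quadFormPlus, Cfsg.quadFormPlus, map_sum]
  exact Finset.sum_congr rfl fun i _ => by rw [map_mul]

/-- the parity character. -/
noncomputable def parP : (fam (odP F hm)).Γ →* ℤˣ := parH (odP F hm).nd (Quad.isMax_U0 (F := F) (m := m))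

theorem parP_iso (u : Cfsg.isometryGroup F ⇑(odP F hm).Q) :
    parP hm ((fam (odP F hm)).nin ⟨u, iso_le_N (odP F hm) u.2⟩) = del (odP F hm) u := by
  obtain ⟨vs, h1, h2⟩ := exists_vs (odP F hm) u
  rw [(dt_rpr (odP F hm) h1 h2).1]
  exact parH_rpr (odP F hm).nd (Quad.isMax_U0 (F := F) (m := m)) h1 h2

theorem parP_scl (c : Fˣ) : parP hm ((fam (odP F hm)).nin ⟨scl _ c, (fam (odP F hm)).sc c⟩) = 1 :=
  parH_scl (odP F hm).nd (Quad.isMax_U0 (F := F) (m := m)) c

theorem plus_card (m : ℕ) : Fintype.card (Fin m ⊕ Fin m) = 2 * m := by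
  simp only [Fintype.card_sum, Fintype.card_fin]; ring

/-- the parity structure. -/
noncomputable def evP : EvS (odP F hm) where
  E := (parP hm).comp (fam (odP F hm)).nin
  scl := parP_scl hm
  iso := parP_iso hm
  mul := mult_of_even (odP F hm) (n := m - 1) (by rw [plus_card]; omega)
  even := ⟨m, by rw [plus_card]; ring⟩

theorem parP_fin (σ : F ≃+* F) : parP hm (Fam.fin (hasField_plus hm) σ) = 1 := by
  have h1 : im ((Fam.fin (hasField_plus (F := F) hm) σ : (fam (odP F hm)).Γ) : Gm (Fin m ⊕ Fin m) F) (Quad.U0 F m) = Quad.U0 F m := by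
    ext v
    rw [mem_im, Fam.coe_fin, ← map_inv, Par.sl, SemidirectProduct.left_inr, SemidirectProduct.right_inr, Units.val_one, one_mulVec,
      Quad.mem_U0, Quad.mem_U0]
    constructor
    · intro h i
      exact (map_eq_zero (σ⁻¹ : F ≃+* F)).mp (h i)
    · intro h i
      exact (map_eq_zero (σ⁻¹ : F ≃+* F)).mpr (h i)
  change pr _ (im _ _) = 1
  rw [h1, pr_self]

theorem T_one {x : (fam (odP F hm)).Γ} (hx : (fam (odP F hm)).T x = 1) : parP hm x = 1 ∧ (x : Gm (Fin m ⊕ Fin m) F).right = 1 := by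
  obtain ⟨c, hc⟩ := ((fam (odP F hm)).T_eq_one_iff x).mp hx
  constructor
  · have : x = (fam (odP F hm)).nin ⟨scl _ c, (fam (odP F hm)).sc c⟩ := Subtype.ext hc
    rw [this]
    exact parP_scl hm c
  · rw [hc]
    exact SemidirectProduct.right_inl _

theorem inc_one (s : Cfsg.Omega F ⇑(odP F hm).Q) : parP hm ((fam (odP F hm)).inc s) = 1 ∧
    (((fam (odP F hm)).inc s : (fam (odP F hm)).Γ) : Gm (Fin m ⊕ Fin m) F).right = 1 := by
  constructor
  · have h1 := parP_iso hm s.1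
    rw [((mem_Om (odP F hm) s.1).mp s.2).1] at h1
    exact h1
  · exact SemidirectProduct.right_inl _

/-- the field component. -/
noncomputable def fc : (fam (odP F hm)).Γ →* (F ≃+* F) := SemidirectProduct.rightHom.comp (fam (odP F hm)).Γ.subtype

theorem nin_of_right {x : (fam (odP F hm)).Γ} (hx : fc hm x = 1) : ∃ g, x = (fam (odP F hm)).nin g := by
  obtain ⟨g, hg⟩ := (fam (odP F hm)).eq_nin_fin (hasField_plus hm) x
  have h1 : (x : Gm (Fin m ⊕ Fin m) F).right = 1 := hx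
  rw [h1, map_one, mul_one] at hg
  exact ⟨g, hg⟩

theorem inn_of_chars {x : (fam (odP F hm)).Γ} (h1 : parP hm x = 1) (h2 : fc hm x = 1) (h3 : msq (odP F hm) x = 1)
    (h4 : (2 : F) = 0 ∨ negO (odP F hm) ∉ Cfsg.Omega F ⇑(odP F hm).Q) :
    (fam (odP F hm)).T x ∈ Cfsg.Inn (Cfsg.POmega F ⇑(odP F hm).Q) := by
  obtain ⟨g, rfl⟩ := nin_of_right hm h2
  obtain ⟨d, u, rfl⟩ := sq_mult (odP F hm) g h3
  rw [map_mul, map_mul, parP_scl, one_mul, parP_iso] at h1
  rw [map_mul, map_mul, T_scl, one_mul]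
  exact so_inn (odP F hm) ⟨m, by rw [plus_card]; ring⟩ h4 h1

end Plus


section PlusOut

variable {F : Type*} [Field F] [Fintype F] {m : ℕ}

theorem eZ {n f : ℕ} (h : Nat.card (F ≃+* F) = f) (_ : n = n) : Nonempty ((F ≃+* F) ≃* Multiplicative (ZMod f)) := by
  rw [← h]
  exact ⟨(zmodCyclicMulEquiv inferInstance).symm⟩

theorem eU : Nonempty (ℤˣ ≃* Multiplicative (ZMod 2)) :=
  ⟨mulEquivOfPrimeCardEq (p := 2) (by simp [Nat.card_eq_fintype_card]) (by simp [Nat.card_eq_fintype_card])⟩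

theorem neg_plus (hm : 4 ≤ m) (h2 : (2 : F) ≠ 0) : negO (odP F hm) ∈ Cfsg.Omega F ⇑(odP F hm).Q ↔ IsSquare ((-1 : F) ^ m) := by
  rw [neg_mem_iff (odP F hm) h2 (by rw [plus_card]; exact ⟨m, by ring⟩)]
  change IsSquare (Quad.gram (Quad.plusQ F m) (Pi.basisFun F (Fin m ⊕ Fin m))).det ↔ _
  rw [Quad.det_gram_plusQ]

theorem neg_plus_mod (hm : 4 ≤ m) {q : ℕ} (hF : Fintype.card F = q) (h2 : (2 : F) ≠ 0) :
    negO (odP F hm) ∉ Cfsg.Omega F ⇑(odP F hm).Q ↔ q % 4 = 3 ∧ Odd m := by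
  rw [neg_plus hm h2]
  rcases Nat.even_or_odd m with he | ho
  · rw [he.neg_one_pow]
    have : ¬ Odd m := Nat.not_odd_iff_even.mpr he
    simp [this]
  · rw [ho.neg_one_pow, FiniteField.isSquare_neg_one_iff, hF]
    simp [ho]

/-- the order of the outer automorphism group. -/
theorem card_out_plus (hm : 5 ≤ m) {p f : ℕ} [Fact p.Prime] (hf : 1 ≤ f) (hF : Fintype.card F = p ^ f) :
    Nat.card (Cfsg.Out (Cfsg.POmega F ⇑(odP F (show 4 ≤ m by omega)).Q)) =
      f * (if p = 2 then 2 else if p ^ f % 4 = 3 ∧ Odd m then 4 else 8) := by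
  have hm4 : 4 ≤ m := by omega
  have h1 := Tri.card_aut_plus (F := F) hm4
  rw [card_out (odP F hm4), if_neg (by omega), one_mul] at h1
  have hcF : Nat.card (F ≃+* F) = f := Cfsg.Agent.H16.FAut.card_ringAut (p := p)
    (by rw [Nat.card_eq_fintype_card, hF]) hf
  rw [hcF] at h1
  have h3 := relIndex_card (A := odP F hm4)
  rw [Tri.card_D_even (odP F hm4) (plus_card m)] at h3
  rw [← h3] at h1
  have h4 : 0 < Nat.card (Cfsg.POmega F ⇑(odP F hm4).Q) := Nat.card_pos
  have h5 : Nat.card (Cfsg.Out (Cfsg.POmega F ⇑(odP F hm4).Q)) =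
      f * (Cfsg.Inn (Cfsg.POmega F ⇑(odP F hm4).Q)).relIndex (fam (odP F hm4)).D := by
    apply Nat.eq_of_mul_eq_mul_right h4
    rw [h1]; ring
  rw [h5]
  congr 1
  by_cases hp : p = 2
  · have h2 : (2 : F) = 0 := (two_iff_char hf hF).mpr hp
    rw [if_pos hp]
    have h6 := h3
    rw [H5.OmSim.card_iso_eq, Quad.Omega_index_two (odP F hm4).nd h2 (by rw [Module.finrank_fintype_fun_eq_card, plus_card]; omega)
      (Or.inr (by rw [Module.finrank_fintype_fun_eq_card, plus_card]; omega)),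
      H5.OmSim.center_char_two (odP F hm4).nd (by rw [plus_card]; omega) h2] at h6
    apply Nat.eq_of_mul_eq_mul_right h4
    rw [h6]
  · have h2 : (2 : F) ≠ 0 := fun h => hp ((two_iff_char hf hF).mp h)
    rw [if_neg hp, relIndex_even (evP hm4) h2]
    by_cases hc : p ^ f % 4 = 3 ∧ Odd m
    · rw [if_pos hc, if_neg ((neg_plus_mod hm4 hF h2).mpr hc)]
    · rw [if_neg hc, if_pos]
      by_contra h
      exact hc ((neg_plus_mod hm4 hF h2).mp h)

theorem out_plus_even (hm : 5 ≤ m) {f : ℕ} (hf : 1 ≤ f) (hF : Fintype.card F = 2 ^ f) :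
    Nonempty (Cfsg.Out (Cfsg.POmega F ⇑(odP F (show 4 ≤ m by omega)).Q) ≃* Multiplicative (ZMod 2 × ZMod f)) := by
  have hm4 : 4 ≤ m := by omega
  have hp2 : Fact (Nat.Prime 2) := ⟨Nat.prime_two⟩
  have h2 : (2 : F) = 0 := (two_iff_char (p := 2) hf hF).mpr rfl
  have hfull := full (good_plus (F := F) hm)
  obtain ⟨φ, hφ, -⟩ := out_lift hfull ((parP hm4).prod (fc hm4))
    (fun x hx => Prod.ext (T_one hm4 hx).1 (T_one hm4 hx).2)
    (fun s => Prod.ext (inc_one hm4 s).1 (inc_one hm4 s).2) (by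
    intro x hx
    refine inn_of_chars hm4 (congrArg Prod.fst hx) (congrArg Prod.snd hx) ?_ (Or.inl h2)
    exact sqc_eq_one.mpr (Quad.isSquare_of_two_eq_zero h2 _))
  have hcF : Nat.card (F ≃+* F) = f := Cfsg.Agent.H16.FAut.card_ringAut (p := 2)
    (by rw [Nat.card_eq_fintype_card, hF]) hf
  have h3 := card_out_plus (F := F) hm hf hF
  rw [if_pos rfl] at h3
  have h7 : Nat.card (ℤˣ × (F ≃+* F)) = f * 2 := by
    rw [Nat.card_prod, hcF]
    simp [Nat.card_eq_fintype_card]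
    ring
  have hfinp : Finite (ℤˣ × (F ≃+* F)) := inferInstance
  have hfinO : Finite (Cfsg.Out (Cfsg.POmega F ⇑(odP F hm4).Q)) := Finite.of_injective φ hφ
  have hbij : Function.Bijective φ := (Nat.bijective_iff_injective_and_card φ).mpr ⟨hφ, h3.trans h7.symm⟩
  obtain ⟨e1⟩ := eZ (F := F) hcF (rfl : 0 = 0)
  obtain ⟨e2⟩ := eU
  exact ⟨(MulEquiv.ofBijective φ hbij).trans ((MulEquiv.prodCongr e2 e1).trans (MulEquiv.prodMultiplicative _ _).symm)⟩

end PlusOut


section Four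

variable {F : Type*} [Field F] [Fintype F]

theorem inn_le_E : Cfsg.Inn (Cfsg.POmega F ⇑(Tri.A8 F).Q) ≤ (Tri.dt F).E := by
  have h1 : ∀ k : Cfsg.POmega F ⇑(Tri.A8 F).Q, MulAut.conj k ∈ (Tri.dt F).D := fun k => (fam (Tri.A8 F)).inn_le_D ⟨k, rfl⟩
  rintro _ ⟨k, rfl⟩
  have h2 : ∀ (α : MulAut (Cfsg.POmega F ⇑(Tri.A8 F).Q)), α * MulAut.conj k * α⁻¹ = MulAut.conj (α k) := by
    intro α
    ext1 x
    change α (k * (α⁻¹ x) * k⁻¹) = α k * x * (α k)⁻¹
    rw [map_mul, map_mul, map_inv]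
    congr 2
    exact α.apply_symm_apply x
  refine ⟨h1 k, ?_, ?_⟩
  · rw [h2]; exact h1 _
  · have h3 := h2 (Tri.dt F).t⁻¹
    rw [inv_inv] at h3
    rw [h3]; exact h1 _

theorem out_four_even {f : ℕ} (hf : 1 ≤ f) (hF : Fintype.card F = 2 ^ f) :
    Nonempty (Cfsg.Out (Cfsg.POmega F ⇑(Tri.A8 F).Q) ≃* Equiv.Perm (Fin 3) × Multiplicative (ZMod f)) := by
  have hp2 : Fact (Nat.Prime 2) := ⟨Nat.prime_two⟩
  have h2 : (2 : F) = 0 := (two_iff_char (p := 2) hf hF).mpr rfl
  have hcF : Nat.card (F ≃+* F) = f := Cfsg.Agent.H16.FAut.card_ringAut (p := 2)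
    (by rw [Nat.card_eq_fintype_card, hF]) hf
  have h3 := (Tri.dt F).card_D
  have h4 : Nat.card (Tri.dt F).D = Nat.card (Cfsg.POmega F ⇑(Tri.A8 F).Q) * 2 := by
    change Nat.card (fam (Tri.A8 F)).D = _
    rw [Tri.card_D_even (Tri.A8 F) (m := 4) (by simp), H5.OmSim.card_iso_eq, Quad.Omega_index_two (Tri.A8 F).nd h2
      (by rw [Module.finrank_fintype_fun_eq_card]; simp)
      (Or.inr (by rw [Module.finrank_fintype_fun_eq_card]; simp)),
      H5.OmSim.center_char_two (Tri.A8 F).nd (by simp) h2]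
    ring
  have h5 : Nat.card (Tri.dt F).E = Nat.card (Cfsg.Inn (Cfsg.POmega F ⇑(Tri.A8 F).Q)) := by
    have h6 : Nat.card (Cfsg.Inn (Cfsg.POmega F ⇑(Tri.A8 F).Q)) = Nat.card (Cfsg.POmega F ⇑(Tri.A8 F).Q) := (fam (Tri.A8 F)).card_inn
    rw [h6]
    apply Nat.eq_of_mul_eq_mul_right (show 0 < 2 by norm_num)
    rw [← h3, h4]
  have hI : Cfsg.Inn (Cfsg.POmega F ⇑(Tri.A8 F).Q) = (Tri.dt F).E :=
    Subgroup.eq_of_le_of_card_ge inn_le_E (le_of_eq h5)
  obtain ⟨e⟩ := (Tri.dt F).quot_E (Cfsg.Inn (Cfsg.POmega F ⇑(Tri.A8 F).Q)) hI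
  obtain ⟨e1⟩ := TriG.dih3_equiv
  obtain ⟨e2⟩ := eZ (F := F) hcF (rfl : 0 = 0)
  exact ⟨e.trans (MulEquiv.prodCongr e1 e2)⟩

end Four


section FieldAct

variable {F : Type*} [Field F] [Finite F] {m : ℕ} (hm : 4 ≤ m)

theorem rat_P (σ : F ≃+* F) (x : Fin m ⊕ Fin m → F) : (odP F hm).Q (fun i => (σ : F →+* F) (x i)) = (σ : F →+* F) ((odP F hm).Q x) := by
  change Quad.plusQ F m _ = σ (Quad.plusQ F m x)
  rw [Quad.plusQ_apply, Quad.plusQ_apply, Cfsg.quadFormPlus, Cfsg.quadFormPlus, map_sum]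
  exact Finset.sum_congr rfl fun i _ => by rw [map_mul]; rfl

/-- the outer class of an isometry depends on its characters. -/
theorem PfO {ι : Type} [Fintype ι] [DecidableEq ι] {A : OD ι F} {u u' : Cfsg.isometryGroup F ⇑A.Q} (h1 : del A u = del A u') (h2 : the A u = the A u') :
    (QuotientGroup.mk (fO A u) : Cfsg.Out (Cfsg.POmega F ⇑A.Q)) = QuotientGroup.mk (fO A u') := by
  rw [QuotientGroup.eq, ← map_inv, ← map_mul]
  apply fO_inn
  rw [mem_Om, map_mul, map_mul, map_inv, map_inv, h1, h2, inv_mul_cancel, inv_mul_cancel]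
  exact ⟨rfl, rfl⟩

/-- the image of an isometry under a field automorphism. -/
theorem exists_su (σ : F ≃+* F) (u : Cfsg.isometryGroup F ⇑(odP F hm).Q) : ∃ u' : Cfsg.isometryGroup F ⇑(odP F hm).Q,
    (fam (odP F hm)).T (Fam.fin (hasField_plus hm) σ) * fO (odP F hm) u = fO (odP F hm) u' * (fam (odP F hm)).T (Fam.fin (hasField_plus hm) σ) ∧
    del (odP F hm) u' = del (odP F hm) u ∧ the (odP F hm) u' = the (odP F hm) u := by
  obtain ⟨vs, h1, h2⟩ := exists_vs (odP F hm) u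
  have h3 := toOG_map (σ : F →+* F) (rat_P hm σ) h2
  have h1' : ∀ v ∈ (vs.map fun v i => (σ : F →+* F) (v i)), (odP F hm).Q v ≠ 0 := by
    intro v hv
    obtain ⟨w, hw, rfl⟩ := List.mem_map.mp hv
    rw [rat_P, Ne, map_eq_zero]
    exact h1 w hw
  refine ⟨⟨Matrix.GeneralLinearGroup.map (σ : F →+* F) (u : GL (Fin m ⊕ Fin m) F), (map_iso (σ : F →+* F) (rat_P hm σ) _).mpr u.2⟩, ?_, ?_, ?_⟩
  rotate_left
  · rw [(dt_rpr (odP F hm) h1' h3).1, (dt_rpr (odP F hm) h1 h2).1, List.length_map]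
  · have e1 := (dt_rpr (odP F hm) h1' h3).2
    have e2 := (dt_rpr (odP F hm) h1 h2).2
    have e3 : ((vs.map fun v i => (σ : F →+* F) (v i)).map ⇑(odP F hm).Q).prod = σ ((vs.map ⇑(odP F hm).Q).prod) := by
      rw [List.map_map, map_list_prod, List.map_map]
      congr 1
      apply List.map_congr_left
      intro v _
      exact rat_P hm σ v
    have e4 : IsSquare (σ ((vs.map ⇑(odP F hm).Q).prod)) ↔ IsSquare ((vs.map ⇑(odP F hm).Q).prod) := by
      constructor
      · rintro ⟨d, hd⟩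
        exact ⟨σ.symm d, by rw [← map_mul, ← hd, RingEquiv.symm_apply_apply]⟩
      · rintro ⟨d, hd⟩
        exact ⟨σ d, by rw [hd, map_mul]⟩
    rw [e3, e4, ← e2] at e1
    rcases Int.units_eq_one_or (the (odP F hm) u) with h | h
    · rw [h]; exact e1.mpr h
    · rw [h]
      rcases Int.units_eq_one_or (the (odP F hm) ⟨Matrix.GeneralLinearGroup.map (σ : F →+* F) (u : GL (Fin m ⊕ Fin m) F), (map_iso (σ : F →+* F) (rat_P hm σ) _).mpr u.2⟩) with h' | h'
      · rw [e1.mp h'] at h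
        exact absurd h (by decide)
      · exact h'
  · rw [fO_eq, fO_eq, ← map_mul, ← map_mul]
    congr 1
    apply Subtype.ext
    rw [Subgroup.coe_mul, Subgroup.coe_mul, Fam.coe_fin, Fam.coe_nin, Fam.coe_nin]
    exact (Fam.inr_inl σ (u : GL (Fin m ⊕ Fin m) F))

/-- the image of a similarity under a field automorphism. -/
theorem exists_sg (σ : F ≃+* F) (g : (fam (odP F hm)).N) : ∃ u : Cfsg.isometryGroup F ⇑(odP F hm).Q,
    (fam (odP F hm)).T (Fam.fin (hasField_plus hm) σ) * (fam (odP F hm)).T ((fam (odP F hm)).nin g) =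
      (fam (odP F hm)).T ((fam (odP F hm)).nin g) * fO (odP F hm) u * (fam (odP F hm)).T (Fam.fin (hasField_plus hm) σ) ∧
    del (odP F hm) u = 1 := by
  obtain ⟨g', hg'⟩ := (fam (odP F hm)).nin_conj (Fam.fin (hasField_plus hm) σ) g
  -- multiplier
  have h1 : sqc F (muN (odP F hm) (g⁻¹ * g')) = 1 := by
    let Ms : (fam (odP F hm)).Γ →* ℤˣ := msq (odP F hm)
    have e1 : Ms ((fam (odP F hm)).nin g') = Ms ((fam (odP F hm)).nin g) := by
      rw [hg', map_mul, map_mul, map_inv, mul_comm, inv_mul_cancel_left]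
    have e3 : sqc F (muN (odP F hm) g') = sqc F (muN (odP F hm) g) := e1
    rw [map_mul, map_mul, map_inv, map_inv, e3, inv_mul_cancel]
  obtain ⟨d, u, hdu⟩ := sq_mult (odP F hm) _ h1
  refine ⟨u, ?_, ?_⟩
  · have h2 : Fam.fin (hasField_plus hm) σ * (fam (odP F hm)).nin g = (fam (odP F hm)).nin g' * Fam.fin (hasField_plus hm) σ := by
      rw [hg', inv_mul_cancel_right]
    have h3 : g' = g * (⟨scl _ d, (fam (odP F hm)).sc d⟩ * ⟨u, iso_le_N _ u.2⟩) := by rw [← hdu, mul_inv_cancel_left]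
    rw [← map_mul, h2, map_mul, h3, map_mul, map_mul, map_mul, map_mul, T_scl, one_mul, fO_eq]
  · have h4 := congrArg (fun x => parP hm ((fam (odP F hm)).nin x)) hdu
    simp only [map_mul, map_inv] at h4
    rw [parP_scl, one_mul, parP_iso, hg', map_mul, map_mul, map_inv, mul_comm (parP hm (Fam.fin _ σ)), mul_inv_cancel_right, inv_mul_cancel] at h4
    exact h4.symm

end FieldAct


section PlusOdd

variable {F : Type*} [Field F] [Fintype F] {m : ℕ}

theorem out_plus_odd_split (hm : 5 ≤ m) {p f : ℕ} [Fact p.Prime] (hf : 1 ≤ f) (hF : Fintype.card F = p ^ f) (hp : p ≠ 2)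
    (hc : p ^ f % 4 = 3 ∧ Odd m) :
    Nonempty (Cfsg.Out (Cfsg.POmega F ⇑(odP F (show 4 ≤ m by omega)).Q) ≃* Multiplicative (ZMod 2 × ZMod 2 × ZMod f)) := by
  have hm4 : 4 ≤ m := by omega
  have h2 : (2 : F) ≠ 0 := fun h => hp ((two_iff_char hf hF).mp h)
  have hneg := (neg_plus_mod hm4 hF h2).mpr hc
  have hfull := full (good_plus (F := F) hm)
  let Ms : (fam (odP F hm4)).Γ →* ℤˣ := msq (odP F hm4)
  obtain ⟨φ, hφ, -⟩ := out_lift hfull (Ms.prod ((parP hm4).prod (fc hm4)))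
    (fun x hx => Prod.ext (msq_sc (odP F hm4) hx) (Prod.ext (T_one hm4 hx).1 (T_one hm4 hx).2))
    (fun s => Prod.ext (msq_Om (odP F hm4) s) (Prod.ext (inc_one hm4 s).1 (inc_one hm4 s).2)) (by
    intro x hx
    exact inn_of_chars hm4 (congrArg (fun y => y.2.1) hx) (congrArg (fun y => y.2.2) hx) (congrArg Prod.fst hx) (Or.inr hneg))
  have hcF : Nat.card (F ≃+* F) = f := Cfsg.Agent.H16.FAut.card_ringAut (p := p)
    (by rw [Nat.card_eq_fintype_card, hF]) hf
  have h3 := card_out_plus (F := F) hm hf hF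
  rw [if_neg hp, if_pos hc] at h3
  have h7 : Nat.card (ℤˣ × ℤˣ × (F ≃+* F)) = f * 4 := by
    rw [Nat.card_prod, Nat.card_prod, hcF]
    simp [Nat.card_eq_fintype_card]
    ring
  have hfinp : Finite (ℤˣ × ℤˣ × (F ≃+* F)) := inferInstance
  have hfinO : Finite (Cfsg.Out (Cfsg.POmega F ⇑(odP F hm4).Q)) := Finite.of_injective φ hφ
  have hbij : Function.Bijective φ := (Nat.bijective_iff_injective_and_card φ).mpr ⟨hφ, h3.trans h7.symm⟩
  obtain ⟨e1⟩ := eZ (F := F) hcF (rfl : 0 = 0)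
  obtain ⟨e2⟩ := eU
  exact ⟨(MulEquiv.ofBijective φ hbij).trans ((MulEquiv.prodCongr e2 ((MulEquiv.prodCongr e2 e1).trans
    (MulEquiv.prodMultiplicative _ _).symm)).trans (MulEquiv.prodMultiplicative _ _).symm)⟩

theorem out_plus_odd_dih (hm : 5 ≤ m) {p f : ℕ} [Fact p.Prime] (hf : 1 ≤ f) (hF : Fintype.card F = p ^ f) (hp : p ≠ 2)
    (hc : ¬ (p ^ f % 4 = 3 ∧ Odd m)) :
    Nonempty (Cfsg.Out (Cfsg.POmega F ⇑(odP F (show 4 ≤ m by omega)).Q) ≃* DihedralGroup 4 × Multiplicative (ZMod f)) := by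
  classical
  have hm4 : 4 ≤ m := by omega
  have h2 : (2 : F) ≠ 0 := fun h => hp ((two_iff_char hf hF).mp h)
  have hneg : negO (odP F hm4) ∈ Cfsg.Omega F ⇑(odP F hm4).Q := by
    by_contra h
    exact hc ((neg_plus_mod hm4 hF h2).mp h)
  have hfull := full (good_plus (F := F) hm)
  have hcF : Nat.card (F ≃+* F) = f := Cfsg.Agent.H16.FAut.card_ringAut (p := p)
    (by rw [Nat.card_eq_fintype_card, hF]) hf
  obtain ⟨θ, h1, h3, hθ⟩ := Fam.exists_theta_gen hfull (H5.AutO.semi_plus hm4)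
  obtain ⟨Θ, e1, e2, e3⟩ := GamT.out_gen (K := Cfsg.Inn (Cfsg.POmega F ⇑(odP F hm4).Q)) inferInstance
    (fam (odP F hm4)).inn_le_D θ h1 h3
  obtain ⟨E2⟩ := eZ (F := F) hcF (rfl : 0 = 0)
  have hker : (E2.toMonoidHom.comp Θ).ker = MO (odP F hm4) := by
    refine Eq.trans ?_ e2
    ext x
    rw [MonoidHom.mem_ker, MonoidHom.mem_ker, MonoidHom.comp_apply]
    exact MulEquiv.map_eq_one_iff E2
  rcases Nat.even_or_odd f with hfe | hfo
  swap
  · obtain ⟨E⟩ := dih (evP hm4) h2 hneg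
    exact Dih.prod_of_odd hfo (E2.toMonoidHom.comp Θ) (E2.surjective.comp e1)
      (E.trans (MulEquiv.subgroupCongr hker.symm))
  · have hne : NeZero f := ⟨by omega⟩
    obtain ⟨g, hg⟩ := exists_ns_mult (evP hm4) h2
    obtain ⟨a, b, d, r1, r2, r3, r4, r5, r6, r7, v, w, r8, r9, r10, r11, r12, r13⟩ := swap (evP hm4) h2 hneg g hg
    let σ₀ : F ≃+* F := E2.symm (Multiplicative.ofAdd 1)
    let φ : Cfsg.Out (Cfsg.POmega F ⇑(odP F hm4).Q) := QuotientGroup.mk ((fam (odP F hm4)).T (Fam.fin (hasField_plus hm4) σ₀))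
    have hcard : Nat.card (E2.toMonoidHom.comp Θ).ker = 8 := by
      rw [hker, card_MO, relIndex_even (evP hm4) h2, if_pos hneg]
    have hmem : ∀ x : MO (odP F hm4), (x : Cfsg.Out (Cfsg.POmega F ⇑(odP F hm4).Q)) ∈ (E2.toMonoidHom.comp Θ).ker := fun x => by
      rw [hker]; exact x.2
    have hv1 : the (odP F hm4) (rfl' (odP F hm4) v) = 1 := (the_rfl' r8).mpr r9
    have hw1 : the (odP F hm4) (rfl' (odP F hm4) w) = -1 := by
      rcases Int.units_eq_one_or (the (odP F hm4) (rfl' (odP F hm4) w)) with h | h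
      · exact absurd ((the_rfl' r10).mp h) r11
      · exact h
    have hmkne : ∀ u : Cfsg.isometryGroup F ⇑(odP F hm4).Q, del (odP F hm4) u = -1 →
        (QuotientGroup.mk (fO (odP F hm4) u) : Cfsg.Out (Cfsg.POmega F ⇑(odP F hm4).Q)) ≠ 1 := by
      intro u hu h
      have h5 := (QuotientGroup.eq_one_iff _).mp h
      rw [fO_mem_inn hneg, mem_Om, hu] at h5
      exact absurd h5.1 (by decide)
    have hφu : ∀ u : Cfsg.isometryGroup F ⇑(odP F hm4).Q, φ * QuotientGroup.mk (fO (odP F hm4) u) = QuotientGroup.mk (fO (odP F hm4) u) * φ := by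
      intro u
      obtain ⟨u', h5, h6, h7⟩ := exists_su hm4 σ₀ u
      change (QuotientGroup.mk _ * QuotientGroup.mk _ : Cfsg.Out (Cfsg.POmega F ⇑(odP F hm4).Q)) = _
      rw [← QuotientGroup.mk_mul, h5, QuotientGroup.mk_mul, PfO h6 h7]
    refine prod_of_even hfe (E2.toMonoidHom.comp Θ) hcard (a := a) (b := b) (d := d) (φ := φ) (hmem a) (hmem b) (hmem d)
      (congrArg Subtype.val r1) (congrArg Subtype.val r2) (congrArg Subtype.val r3) (fun h => r4 (Subtype.ext h)) ?_ ?_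
      (congrArg Subtype.val r5) (r6.imp (congrArg Subtype.val) (congrArg Subtype.val)) ?_ ?_ ?_ ?_ ?_
    · rw [r12]; exact hmkne _ (del_rfl' r8)
    · rw [r13]; exact hmkne _ (del_rfl' r10)
    · change E2 (Θ φ) = _
      have h5 : Θ φ = σ₀ := by
        rw [e3, hθ, Fam.coe_fin]
        exact SemidirectProduct.right_inr _
      rw [h5]
      exact E2.apply_symm_apply _
    · have h5 : σ₀ ^ f = 1 := by
        apply E2.injective
        rw [map_pow, map_one, MulEquiv.apply_symm_apply, ← ofAdd_nsmul, nsmul_one, ZMod.natCast_self]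
        rfl
      change (QuotientGroup.mk _ : Cfsg.Out (Cfsg.POmega F ⇑(odP F hm4).Q)) ^ f = 1
      rw [← QuotientGroup.mk_pow, ← map_pow, ← map_pow, h5, map_one, map_one]
      rfl
    · rw [r12]; exact hφu _
    · rw [r13]; exact hφu _
    · obtain ⟨u, h5, h6⟩ := exists_sg hm4 σ₀ g
      rw [r7]
      have h7 : φ * QuotientGroup.mk ((fam (odP F hm4)).T ((fam (odP F hm4)).nin g)) =
          QuotientGroup.mk ((fam (odP F hm4)).T ((fam (odP F hm4)).nin g)) * QuotientGroup.mk (fO (odP F hm4) u) * φ := by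
        change (QuotientGroup.mk _ * QuotientGroup.mk _ : Cfsg.Out (Cfsg.POmega F ⇑(odP F hm4).Q)) = _
        rw [← QuotientGroup.mk_mul, h5, QuotientGroup.mk_mul, QuotientGroup.mk_mul]
      rcases Int.units_eq_one_or (the (odP F hm4) u) with h | h
      · left
        rw [h7, (QuotientGroup.eq_one_iff _).mpr (fO_inn (odP F hm4) ((mem_Om (odP F hm4) u).mpr ⟨h6, h⟩)), mul_one]
      · right
        have h8 : (QuotientGroup.mk (fO (odP F hm4) u) : Cfsg.Out (Cfsg.POmega F ⇑(odP F hm4).Q)) =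
            QuotientGroup.mk (fO (odP F hm4) (rfl' (odP F hm4) v)) * QuotientGroup.mk (fO (odP F hm4) (rfl' (odP F hm4) w)) := by
          rw [← QuotientGroup.mk_mul, ← map_mul]
          apply PfO
          · rw [h6, map_mul, del_rfl' r8, del_rfl' r10]; rfl
          · rw [h, map_mul, hv1, hw1]; rfl
        rw [h7, r12, r13, h8]

end PlusOdd


section FourOdd

variable {F : Type*} [Field F] [Fintype F]

theorem msq_inn {ι : Type} [Fintype ι] [DecidableEq ι] (A : OD ι F) {x : (fam A).Γ} (hx : (fam A).T x ∈ Cfsg.Inn (Cfsg.POmega F ⇑A.Q)) :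
    msq A x = 1 := by
  obtain ⟨k, hk⟩ := hx
  induction k using QuotientGroup.induction_on with
  | H s =>
    let Ms : (fam A).Γ →* ℤˣ := msq A
    have h1 : (fam A).T ((fam A).inc s) = (fam A).T x := ((fam A).T_inc s).trans hk
    have h2 : (fam A).T (((fam A).inc s)⁻¹ * x) = 1 := by rw [map_mul, map_inv, h1, inv_mul_cancel]
    have h3 : Ms (((fam A).inc s)⁻¹ * x) = 1 := msq_sc A h2
    rw [map_mul, map_inv] at h3
    have h4 : Ms ((fam A).inc s) = 1 := msq_Om A s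
    rw [h4, inv_one, one_mul] at h3
    exact h3

theorem out_four_odd {p f : ℕ} [Fact p.Prime] (hf : 1 ≤ f) (hF : Fintype.card F = p ^ f) (hp : p ≠ 2) :
    Nonempty (Cfsg.Out (Cfsg.POmega F ⇑(Tri.A8 F).Q) ≃* Equiv.Perm (Fin 4) × Multiplicative (ZMod f)) := by
  classical
  have h2 : (2 : F) ≠ 0 := fun h => hp ((two_iff_char hf hF).mp h)
  have hcF : Nat.card (F ≃+* F) = f := Cfsg.Agent.H16.FAut.card_ringAut (p := p)
    (by rw [Nat.card_eq_fintype_card, hF]) hf
  have hneg : negO (Tri.A8 F) ∈ Cfsg.Omega F ⇑(Tri.A8 F).Q := (neg_plus (le_refl 4) h2).mpr ⟨1, by norm_num⟩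
  have hcE : Nat.card (Tri.dt F).E = 4 * Nat.card (Cfsg.Inn (Cfsg.POmega F ⇑(Tri.A8 F).Q)) := by
    have h3 := (Tri.dt F).card_D
    have h4 := relIndex_card (A := Tri.A8 F)
    rw [relIndex_even (evP (le_refl 4)) h2, if_pos hneg] at h4
    have h6 : Nat.card (Cfsg.Inn (Cfsg.POmega F ⇑(Tri.A8 F).Q)) = Nat.card (Cfsg.POmega F ⇑(Tri.A8 F).Q) := (fam (Tri.A8 F)).card_inn
    have h5 : Nat.card (Tri.dt F).D = Nat.card (fam (Tri.A8 F)).D := rfl
    rw [h6]
    omega
  -- the pair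
  obtain ⟨c, hc⟩ := sqc_surj h2
  let b : Fin 4 ⊕ Fin 4 → F := Sum.elim ![(c : F), 0, 0, 0] ![1, 0, 0, 0]
  have hb : Tri.nm b = c := by simp [Tri.nm, b, Fin.sum_univ_four]
  have hpe := Tri.nm_pe (F := F)
  obtain ⟨x, y, z, hx, hy, hz, h⟩ := Tri.exists_pair (F := F) (a := Tri.pe) (b := b) (by rw [hpe]; exact one_ne_zero)
    (by rw [hb]; exact c.ne_zero)
  have hyn : muN (Tri.A8 F) y = c := muN_eq (Tri.A8 F) (fun v => by
    rw [Tri.A8_Q, Tri.A8_Q, hy, Tri.nm_om, Tri.nm_om, hpe, hb, mul_one])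
  have hzn : muN (Tri.A8 F) z = c := muN_eq (Tri.A8 F) (fun v => by
    rw [Tri.A8_Q, Tri.A8_Q, hz, Tri.nm_om, Tri.nm_om, hpe, hb, one_mul, mul_comm])
  have hxn : muN (Tri.A8 F) x = 1 := muN_eq (Tri.A8 F) (fun v => by
    rw [hx, Units.val_one, one_mul]
    exact (Quad.mem_OG.mp (Quad.refl_mem (Tri.Q8 F) Tri.pe) _).trans (Quad.mem_OG.mp (Quad.refl_mem (Tri.Q8 F) b) _))
  have hneM : ∀ w : (fam (Tri.A8 F)).N, muN (Tri.A8 F) w = c →
      (QuotientGroup.mk (Tri.lin F x) : Cfsg.Out (Cfsg.POmega F ⇑(Tri.A8 F).Q)) ≠ QuotientGroup.mk (Tri.lin F w) := by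
    intro w hw h3
    rw [QuotientGroup.eq, ← map_inv, ← map_mul] at h3
    have h4 : sqc F (muN (Tri.A8 F) (x⁻¹ * w)) = 1 := msq_inn (Tri.A8 F) h3
    rw [map_mul, map_inv, hxn, hw, inv_one, one_mul, hc] at h4
    exact absurd h4 (by decide)
  have e1 : Tri.tri F * Tri.lin F x * (Tri.tri F)⁻¹ = Tri.lin F y := by rw [h.conj, mul_inv_cancel_right]
  have e2 : Tri.tri F * Tri.lin F y * (Tri.tri F)⁻¹ = Tri.lin F z := by rw [h.cyc.conj, mul_inv_cancel_right]
  have e3 : Tri.tri F * Tri.lin F z * (Tri.tri F)⁻¹ = Tri.lin F x := by rw [h.cyc.cyc.conj, mul_inv_cancel_right]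
  have e3' : (Tri.tri F)⁻¹ * Tri.lin F x * Tri.tri F = Tri.lin F z := by rw [← e3]; group
  have hmk : ∀ x y a : MulAut (Cfsg.POmega F ⇑(Tri.A8 F).Q), (QuotientGroup.mk x : Cfsg.Out (Cfsg.POmega F ⇑(Tri.A8 F).Q)) = QuotientGroup.mk y →
      (QuotientGroup.mk (a * x * a⁻¹) : Cfsg.Out (Cfsg.POmega F ⇑(Tri.A8 F).Q)) = QuotientGroup.mk (a * y * a⁻¹) := by
    intro x y a h
    rw [QuotientGroup.mk_mul, QuotientGroup.mk_mul, h, ← QuotientGroup.mk_mul, ← QuotientGroup.mk_mul]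
  -- conjugation by `J`
  have hxu : Tri.lin F x = fO (Tri.A8 F) (rfl' (Tri.A8 F) Tri.pe * rfl' (Tri.A8 F) b) := by
    change _ = Tri.lin F ⟨_, iso_le_N (Tri.A8 F) (rfl' (Tri.A8 F) Tri.pe * rfl' (Tri.A8 F) b).2⟩
    congr 1
    apply Subtype.ext
    apply PSp.gl_ext
    intro v
    rw [hx]
    change _ = (((rfl' (Tri.A8 F) Tri.pe : Cfsg.isometryGroup F ⇑(Tri.A8 F).Q) : GL (Fin 4 ⊕ Fin 4) F) * ((rfl' (Tri.A8 F) b : Cfsg.isometryGroup F ⇑(Tri.A8 F).Q) : GL (Fin 4 ⊕ Fin 4) F) : GL (Fin 4 ⊕ Fin 4) F).1 *ᵥ v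
    rw [PSp.coe_mul_mulVec, rfl'_mulVec, rfl'_mulVec]
    rfl
  have hJu : Tri.JJ F = fO (Tri.A8 F) (rfl' (Tri.A8 F) Tri.pe) := by
    rw [← Tri.lin_rn_pe]; rfl
  have eJ : (QuotientGroup.mk (Tri.JJ F * Tri.lin F x * (Tri.JJ F)⁻¹) : Cfsg.Out (Cfsg.POmega F ⇑(Tri.A8 F).Q)) = QuotientGroup.mk (Tri.lin F x) := by
    rw [hxu, hJu, ← map_inv, ← map_mul, ← map_mul]
    apply PfO
    · rw [map_mul, map_mul, map_inv, mul_comm, inv_mul_cancel_left]
    · rw [map_mul, map_mul, map_inv, mul_comm, inv_mul_cancel_left]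
  obtain ⟨e⟩ := (Tri.dt F).quot_S4 (Cfsg.Inn (Cfsg.POmega F ⇑(Tri.A8 F).Q)) inn_le_E hcE (v₁ := Tri.lin F x) (v₂ := Tri.lin F y)
    (v₃ := Tri.lin F z) h.mem h.cyc.mem (hneM y hyn) (by
      intro h3
      have h4 := hmk _ _ (Tri.tri F)⁻¹ h3
      rw [inv_inv] at h4
      have h5 : (Tri.tri F)⁻¹ * Tri.lin F y * Tri.tri F = Tri.lin F x := by rw [← e1]; group
      have h6 : (Tri.tri F)⁻¹ * Tri.lin F z * Tri.tri F = Tri.lin F y := by rw [← e2]; group
      rw [h5, h6] at h4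
      exact hneM y hyn h4) (hneM z hzn) (congrArg _ e1) (congrArg _ e2) (by
      have h3 : Tri.JJ F * Tri.lin F y * (Tri.JJ F)⁻¹ = (Tri.tri F)⁻¹ * (Tri.JJ F * Tri.lin F x * (Tri.JJ F)⁻¹) * (Tri.tri F)⁻¹⁻¹ := by
        have hJi : (Tri.JJ F)⁻¹ = Tri.JJ F := by rw [inv_eq_iff_mul_eq_one, Tri.JJ_sq]
        rw [← e1, inv_inv, hJi]
        calc Tri.JJ F * (Tri.tri F * Tri.lin F x * (Tri.tri F)⁻¹) * Tri.JJ F =
            (Tri.JJ F * Tri.tri F) * Tri.lin F x * ((Tri.tri F)⁻¹ * Tri.JJ F) := by group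
          _ = ((Tri.tri F)⁻¹ * Tri.JJ F) * Tri.lin F x * (Tri.JJ F * Tri.tri F) := by rw [Tri.ti_J]
          _ = _ := by group
      change (QuotientGroup.mk (Tri.JJ F * Tri.lin F y * (Tri.JJ F)⁻¹) : Cfsg.Out (Cfsg.POmega F ⇑(Tri.A8 F).Q)) = _
      rw [h3, hmk _ _ (Tri.tri F)⁻¹ eJ, inv_inv, e3'])
  obtain ⟨e'⟩ := eZ (F := F) hcF (rfl : 0 = 0)
  exact ⟨e.trans (MulEquiv.prodCongr (MulEquiv.refl _) e')⟩

end FourOdd


end Cfsg.Agent.H5.PlO
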