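import Cfsg.Agent.H5_Tri4
import Cfsg.Agent.H5_TriG

set_option autoImplicit false

/-! Triality, part 5: the automorphism group. -/

namespace Cfsg.Agent.H5.Tri

open Matrix
open QuadraticMap (polar)
open Cfsg.Agent.H16 Cfsg.Agent.H16.POm Cfsg.Agent.H16.Gam Cfsg.Agent.H16.AutL Cfsg.Agent.H16.AutG

variable {F : Type*} [Field F] [Finite F]

/-- the graph automorphism. -/
noncomputable abbrev JJ (F : Type*) [Field F] [Finite F] : MulAut (Cfsg.POmega F ⇑(A8 F).Q) := lin F (Jn F)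

theorem JJ_sq : JJ F * JJ F = 1 := by rw [← map_mul, Jn_sq, map_one]

theorem J_t_J : JJ F * tri F * JJ F = (tri F)⁻¹ := by
  rw [eq_inv_iff_mul_eq_one]
  have h := tri_J (F := F)
  have h1 : JJ F * tri F * JJ F * tri F = JJ F * (tri F * JJ F * tri F) := by group
  rw [h1, h, ← map_mul, Jn_sq, map_one]

theorem t_J : tri F * JJ F = JJ F * (tri F)⁻¹ := by
  rw [← J_t_J, ← mul_assoc, ← mul_assoc, JJ_sq, one_mul]

theorem ti_J : (tri F)⁻¹ * JJ F = JJ F * tri F := by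
  rw [inv_mul_eq_iff_eq_mul, ← mul_assoc, t_J, inv_mul_cancel_right]

theorem Rt.mem {x y z : (fam (A8 F)).N} (h : Rt x y z) : lin F x ∈ TriG.EE (fam (A8 F)).D (tri F) := by
  refine ⟨lin_mem x, ?_, ?_⟩
  · rw [h.conj, mul_inv_cancel_right]; exact lin_mem y
  · have h1 := h.cyc.cyc.conj
    rw [mul_assoc, ← h1, inv_mul_cancel_left]; exact lin_mem z

theorem lin_eq {g h : (fam (A8 F)).N} {c : F} (hc : c ≠ 0) (H : ∀ v, ((g : GL (Fin 4 ⊕ Fin 4) F) : Matrix (Fin 4 ⊕ Fin 4) (Fin 4 ⊕ Fin 4) F) *ᵥ v =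
    c • (((h : GL (Fin 4 ⊕ Fin 4) F) : Matrix (Fin 4 ⊕ Fin 4) (Fin 4 ⊕ Fin 4) F) *ᵥ v)) : lin F g = lin F h := by
  have h1 : (g : GL (Fin 4 ⊕ Fin 4) F) = scl _ (Units.mk0 c hc) * (h : GL (Fin 4 ⊕ Fin 4) F) := by
    apply PSp.gl_ext
    intro v
    rw [H, PSp.coe_mul_mulVec, PSp.scl_mulVec]
    rfl
  have h2 : lin F (g * h⁻¹) = 1 := by
    refine ((fam (A8 F)).ker_nin (g * h⁻¹)).mpr ⟨Units.mk0 c hc, ?_⟩
    rw [Subgroup.coe_mul, Subgroup.coe_inv, h1, mul_inv_cancel_right]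
  rw [map_mul, map_inv, mul_inv_eq_one] at h2
  exact h2

/-- reflections. -/
noncomputable def rn (v : Fin 4 ⊕ Fin 4 → F) : (fam (A8 F)).N :=
  ⟨((Quad.toOG (A8 F).Q).symm (Quad.rf (A8 F).Q v) : Cfsg.isometryGroup F ⇑(A8 F).Q), iso_le_N (A8 F) (Subtype.property _)⟩

theorem rn_mul (v x : Fin 4 ⊕ Fin 4 → F) : ((rn v : GL (Fin 4 ⊕ Fin 4) F) : Matrix (Fin 4 ⊕ Fin 4) (Fin 4 ⊕ Fin 4) F) *ᵥ x = Quad.refl (Q8 F) v x :=
  Quad.toOG_symm_mulVec (A8 F).Q (Quad.rf (A8 F).Q v) x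

theorem nm_pe : nm (pe : Fin 4 ⊕ Fin 4 → F) = 1 := by simp [nm, pe, Fin.sum_univ_four]

theorem lin_rn_pe : lin F (rn pe) = JJ F := by
  refine lin_eq (c := -1) (neg_ne_zero.mpr one_ne_zero) fun v => ?_
  rw [rn_mul, Jn_mul, Quad.refl_apply, Q8_eq, nm_pe, polar8_eq]
  funext i; rcases i with i | i <;> fin_cases i <;> simp [cj, bf, pe, Fin.sum_univ_four] <;> ring

theorem rn_pair {a b : Fin 4 ⊕ Fin 4 → F} (ha : nm a ≠ 0) (hb : nm b ≠ 0) :
    lin F (rn a * rn b) ∈ TriG.EE (fam (A8 F)).D (tri F) := by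
  obtain ⟨x, y, z, hx, -, -, h⟩ := exists_pair ha hb
  have h1 : rn a * rn b = x := by
    apply Subtype.ext
    apply PSp.gl_ext
    intro v
    rw [Subgroup.coe_mul, PSp.coe_mul_mulVec, rn_mul, rn_mul, hx]
  rw [h1]
  exact h.mem

theorem rn_J {a : Fin 4 ⊕ Fin 4 → F} (ha : nm a ≠ 0) : lin F (rn a) * JJ F ∈ TriG.EE (fam (A8 F)).D (tri F) := by
  rw [← lin_rn_pe, ← map_mul]
  exact rn_pair ha (by rw [nm_pe]; exact one_ne_zero)

theorem rpr_E (vs : List (Fin 4 ⊕ Fin 4 → F)) (h : ∀ v ∈ vs, nm v ≠ 0) :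
    lin F (vs.map rn).prod ∈ TriG.EE (fam (A8 F)).D (tri F) ∨ lin F (vs.map rn).prod * JJ F ∈ TriG.EE (fam (A8 F)).D (tri F) := by
  induction vs with
  | nil => left; rw [List.map_nil, List.prod_nil, map_one]; exact one_mem _
  | cons v vs ih =>
    have hv := rn_J (F := F) (h v List.mem_cons_self)
    rw [List.map_cons, List.prod_cons, map_mul]
    rcases ih (fun w hw => h w (List.mem_cons_of_mem _ hw)) with h1 | h1
    · right
      have h2 := mul_mem hv (TriG.EE_conj_J (lin_mem _) t_J ti_J h1)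
      have e : lin F (rn v) * JJ F * (JJ F * lin F (vs.map rn).prod * JJ F) =
          lin F (rn v) * (JJ F * JJ F) * lin F (vs.map rn).prod * JJ F := by group
      rwa [e, JJ_sq, mul_one] at h2
    · left
      have h2 := mul_mem hv (TriG.EE_conj_J (lin_mem _) t_J ti_J h1)
      have e : lin F (rn v) * JJ F * (JJ F * (lin F (vs.map rn).prod * JJ F) * JJ F) =
          lin F (rn v) * (JJ F * JJ F) * lin F (vs.map rn).prod * (JJ F * JJ F) := by group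
      rwa [e, JJ_sq, mul_one, mul_one] at h2

theorem iso_E {g : (fam (A8 F)).N} (hg : ∀ v, nm (((g : GL (Fin 4 ⊕ Fin 4) F) : Matrix (Fin 4 ⊕ Fin 4) (Fin 4 ⊕ Fin 4) F) *ᵥ v) = nm v) :
    lin F g ∈ TriG.EE (fam (A8 F)).D (tri F) ∨ lin F g * JJ F ∈ TriG.EE (fam (A8 F)).D (tri F) := by
  have hg' : (g : GL (Fin 4 ⊕ Fin 4) F) ∈ Cfsg.isometryGroup F ⇑(Q8 F) := Quad.mem_isometryGroup.mpr fun v => by
    rw [Q8_eq, Q8_eq]; exact hg v
  obtain ⟨vs, h1, h2, -⟩ := Quad.iso_exists_list (Q := Q8 F) nd8 (Or.inr (by rw [rank8]; norm_num)) ⟨_, hg'⟩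
  have h3 : g = (vs.map rn).prod := by
    apply Subtype.ext
    apply PSp.gl_ext
    intro x
    have h4 : ∀ vs : List (Fin 4 ⊕ Fin 4 → F), ∀ x, ((((vs.map rn).prod : (fam (A8 F)).N) : GL (Fin 4 ⊕ Fin 4) F) : Matrix (Fin 4 ⊕ Fin 4) (Fin 4 ⊕ Fin 4) F) *ᵥ x =
        (Quad.rpr (Q8 F) vs).1 x := by
      intro vs
      induction vs with
      | nil => intro x; exact one_mulVec x
      | cons v vs ih =>
        intro x
        rw [List.map_cons, List.prod_cons, Subgroup.coe_mul, PSp.coe_mul_mulVec, rn_mul, ih, Quad.rpr_cons]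
        rfl
    rw [h4, ← h2]
    exact (Quad.toOG_apply (Q8 F) ⟨_, hg'⟩ x).symm
  rw [h3]
  exact rpr_E vs fun v hv => by
    have := h1 v hv
    rwa [Q8_eq] at this

theorem hE8 (α : MulAut (Cfsg.POmega F ⇑(A8 F).Q)) (hα : α ∈ (fam (A8 F)).D) :
    α ∈ TriG.EE (fam (A8 F)).D (tri F) ∨ α * JJ F ∈ TriG.EE (fam (A8 F)).D (tri F) := by
  obtain ⟨g, rfl⟩ := hα
  change lin F g ∈ _ ∨ lin F g * _ ∈ _
  obtain ⟨c, hc, -, hg⟩ := exists_mu g
  let b : Fin 4 ⊕ Fin 4 → F := Sum.elim ![c, 0, 0, 0] ![1, 0, 0, 0]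
  have hb : nm b = c := by simp [nm, b, Fin.sum_univ_four]
  obtain ⟨x, y, z, -, hy, -, h⟩ := exists_pair (F := F) (a := pe) (b := b) (by rw [nm_pe]; exact one_ne_zero) (by rwa [hb])
  have hyn : ∀ v, nm (((y : GL (Fin 4 ⊕ Fin 4) F) : Matrix (Fin 4 ⊕ Fin 4) (Fin 4 ⊕ Fin 4) F) *ᵥ v) = c * nm v := by
    intro v
    rw [hy, nm_om, nm_om, nm_pe, hb, mul_one]
  have hyE := h.cyc.mem
  have h1 := iso_E (g := g * y⁻¹) (by
    intro v
    obtain ⟨w, rfl⟩ := surj_mul (y : GL (Fin 4 ⊕ Fin 4) F) v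
    rw [Subgroup.coe_mul, ← PSp.coe_mul_mulVec, Subgroup.coe_inv, inv_mul_cancel_right, hg, hyn])
  rw [map_mul, map_inv] at h1
  rcases h1 with h1 | h1
  · left
    have := mul_mem h1 hyE
    rwa [inv_mul_cancel_right] at this
  · right
    have h2 := mul_mem h1 (TriG.EE_conj_J (lin_mem _) t_J ti_J hyE)
    have e : lin F g * (lin F y)⁻¹ * JJ F * (JJ F * lin F y * JJ F) = lin F g * (lin F y)⁻¹ * (JJ F * JJ F) * lin F y * JJ F := by group
    rwa [e, JJ_sq, mul_one, inv_mul_cancel_right] at h2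

theorem fld_J (σ : F ≃+* F) : fld F σ * JJ F = JJ F * fld F σ := by
  have h1 : Fam.fin (hasField8 (F := F)) σ * (fam (A8 F)).nin (Jn F) = (fam (A8 F)).nin (Jn F) * Fam.fin (hasField8 (F := F)) σ := by
    apply Subtype.ext
    rw [Subgroup.coe_mul, Subgroup.coe_mul, Fam.coe_fin, Fam.coe_nin]
    apply SemidirectProduct.ext
    · simp only [SemidirectProduct.mul_left, SemidirectProduct.left_inr, SemidirectProduct.right_inr, SemidirectProduct.left_inl,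
        SemidirectProduct.right_inl, one_mul, map_one, mul_one]
      rw [gsH_apply]
      apply PSp.gl_ext
      intro v
      obtain ⟨w, rfl⟩ := exists_map σ v
      rw [map_mulVec', Jn_mul, Jn_mul]
      funext i; rcases i with i | i <;> fin_cases i <;> simp [cj]
    · simp
  change (fam (A8 F)).T _ * (fam (A8 F)).T _ = (fam (A8 F)).T _ * (fam (A8 F)).T _
  rw [← map_mul, ← map_mul, h1]

/-- the triality data of `PΩ₈⁺`. -/
noncomputable def dt (F : Type*) [Field F] [Finite F] : TriG.Dat (MulAut (Cfsg.POmega F ⇑(A8 F).Q)) (F ≃+* F) where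
  D := (fam (A8 F)).D
  t := tri F
  J := JJ F
  fl := fld F
  ht := tri_pow
  hJ := JJ_sq
  htJ := J_t_J
  hJD := lin_mem _
  hft σ := (tri_fld σ).symm
  hfJ := fld_J
  hfD := by
    rintro σ _ ⟨g, rfl⟩
    obtain ⟨g', hg'⟩ := (fam (A8 F)).nin_conj (Fam.fin (hasField8 (F := F)) σ) g
    refine ⟨g', ?_⟩
    change (fam (A8 F)).T _ = (fam (A8 F)).T _ * (fam (A8 F)).T _ * ((fam (A8 F)).T _)⁻¹
    rw [hg', map_mul, map_mul, map_inv]
  hf1 σ h := (fam (A8 F)).fin_mem_D hasField8 h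
  hR := by
    rintro _ ⟨g, rfl⟩ σ h
    apply tri_nmem (F := F)
    rw [h]
    exact mul_mem ⟨_, rfl⟩ ⟨_, rfl⟩
  hcos := by
    have key : ∀ β ∈ (fam (A8 F)).T.range, ∃ d ∈ (fam (A8 F)).D, ∃ σ, β = d * fld F σ := by
      rintro _ ⟨x, rfl⟩
      obtain ⟨g, hg⟩ := (fam (A8 F)).eq_nin_fin hasField8 x
      refine ⟨_, ⟨g, rfl⟩, (x : Gm (Fin 4 ⊕ Fin 4) F).right, ?_⟩
      conv_lhs => rw [hg]
      exact map_mul _ _ _
    intro α
    by_cases hα : α ∈ (fam (A8 F)).T.range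
    · exact Or.inl (key α hα)
    · obtain ⟨g, hg⟩ := dcoset (A := A8 F) rfl (tri_nmem (F := F)) hα
      exact Or.inr ⟨fO (A8 F) g, ⟨⟨g, iso_le_N (A8 F) g.2⟩, rfl⟩, key _ hg⟩
  hE := hE8

end Cfsg.Agent.H5.Tri
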