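import Cfsg.Agent.H16_ParD
import Cfsg.Agent.H5_Tri5
import Cfsg.Agent.H5_PlO

set_option autoImplicit false

/-! Field automorphisms in plus type. -/

namespace Cfsg.Agent.H5.PlC

open Matrix Module
open QuadraticMap (polar)
open Cfsg.Agent.H16 Cfsg.Agent.H16.POm Cfsg.Agent.H16.Gam Cfsg.Agent.H16.AutL Cfsg.Agent.H16.AutG Cfsg.Agent.H16.Par
open Cfsg.Agent.H16.Desc Cfsg.Agent.H5.Tri

section Four

variable {F : Type*} [Field F] [Finite F]

theorem Rt_dgE (c : Fˣ) : ∃ y z : (fam (A8 F)).N, Rt (⟨dgE 4 c, dgE_mem (le_refl 4) c⟩ : (fam (A8 F)).N) y z := by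
  have hc := c.ne_zero
  obtain ⟨y, hy⟩ := exists_sim (F := F) {
    toFun := fun v => Sum.elim ![(c : F)⁻¹ * v (.inl 0), v (.inl 1), v (.inl 2), v (.inl 3)]
      ![(c : F) * v (.inr 0), v (.inr 1), v (.inr 2), v (.inr 3)]
    map_add' := fun x y => by funext i; rcases i with i | i <;> fin_cases i <;> simp <;> ring
    map_smul' := fun a x => by funext i; rcases i with i | i <;> fin_cases i <;> simp <;> ring } one_ne_zero (by
      intro x
      simp only [LinearMap.coe_mk, AddHom.coe_mk, nm, Fin.sum_univ_four, Sum.elim_inl, Sum.elim_inr]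
      simp
      field_simp)
  obtain ⟨z, hz⟩ := exists_sim (F := F) {
    toFun := fun v => Sum.elim ![(c : F) * v (.inl 0), v (.inl 1), v (.inl 2), v (.inl 3)]
      ![v (.inr 0), (c : F) * v (.inr 1), (c : F) * v (.inr 2), (c : F) * v (.inr 3)]
    map_add' := fun x y => by funext i; rcases i with i | i <;> fin_cases i <;> simp <;> ring
    map_smul' := fun a x => by funext i; rcases i with i | i <;> fin_cases i <;> simp <;> ring } hc (by
      intro x
      simp only [LinearMap.coe_mk, AddHom.coe_mk, nm, Fin.sum_univ_four, Sum.elim_inl, Sum.elim_inr]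
      simp
      ring)
  refine ⟨y, z, 1, fun v w => ?_⟩
  rw [hy, hz, one_smul]
  change om (((dgE 4 c : GL (Fin 4 ⊕ Fin 4) F) : Matrix (Fin 4 ⊕ Fin 4) (Fin 4 ⊕ Fin 4) F) *ᵥ v) _ = _
  rw [dgE_mulVec]
  funext i; rcases i with i | i <;> fin_cases i <;> simp [om] <;> field_simp <;> ring

theorem dgE_E4 (c : Fˣ) : lin F (⟨dgE 4 c, dgE_mem (le_refl 4) c⟩ : (fam (A8 F)).N) ∈ (dt F).E := by
  obtain ⟨y, z, h⟩ := Rt_dgE c
  exact h.mem

theorem rpr_even : ∀ (vs : List (Fin 4 ⊕ Fin 4 → F)), (∀ v ∈ vs, nm v ≠ 0) → Even vs.length →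
    lin F (vs.map rn).prod ∈ (dt F).E
  | [], _, _ => by rw [List.map_nil, List.prod_nil, map_one]; exact one_mem _
  | [a], _, h => absurd h (by simp)
  | a :: b :: vs, h, he => by
    rw [List.map_cons, List.map_cons, List.prod_cons, List.prod_cons, ← mul_assoc, map_mul]
    refine mul_mem (rn_pair (h a (by simp)) (h b (by simp))) (rpr_even vs (fun v hv => h v (by simp [hv])) ?_)
    rw [List.length_cons, List.length_cons] at he
    rw [add_assoc] at he
    exact (Nat.even_add.mp he).mpr (by decide)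

theorem iso_E4 {u : Cfsg.isometryGroup F ⇑(A8 F).Q} (hu : del (A8 F) u = 1) :
    lin F ⟨u, iso_le_N (A8 F) u.2⟩ ∈ (dt F).E := by
  obtain ⟨vs, h1, h2⟩ := exists_vs (A8 F) u
  have h3 : (⟨u, iso_le_N (A8 F) u.2⟩ : (fam (A8 F)).N) = (vs.map rn).prod := by
    apply Subtype.ext
    apply PSp.gl_ext
    intro x
    have h4 : ∀ vs : List (Fin 4 ⊕ Fin 4 → F), ∀ x, ((((vs.map rn).prod : (fam (A8 F)).N) : GL (Fin 4 ⊕ Fin 4) F) : Matrix (Fin 4 ⊕ Fin 4) (Fin 4 ⊕ Fin 4) F) *ᵥ x =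
        (Quad.rpr (A8 F).Q vs).1 x := by
      intro vs
      induction vs with
      | nil => intro x; exact one_mulVec x
      | cons v vs ih =>
        intro x
        rw [List.map_cons, List.prod_cons, Subgroup.coe_mul, PSp.coe_mul_mulVec, rn_mul, ih, Quad.rpr_cons]
        rfl
    rw [h4, ← h2]
    exact (Quad.toOG_apply (A8 F).Q u x).symm
  rw [h3]
  refine rpr_even vs (fun v hv => ?_) ?_
  · have := h1 v hv
    rwa [A8_Q] at this
  · rw [(dt_rpr (A8 F) h1 h2).1] at hu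
    rcases Nat.even_or_odd vs.length with h | h
    · exact h
    · rw [h.neg_one_pow] at hu
      exact absurd hu (by decide)

theorem D0_le_E : D0 (evP (F := F) (le_refl 4)) ≤ (dt F).E := by
  intro α hα
  obtain ⟨g, hg, rfl⟩ := mem_D0.mp hα
  set c := muN (A8 F) g with hc
  have h1 : muN (A8 F) ((⟨dgE 4 c, dgE_mem (le_refl 4) c⟩ : (fam (A8 F)).N)⁻¹ * g) = 1 := by
    rw [_root_.map_mul, _root_.map_inv, ← hc, inv_mul_eq_one]
    exact muN_eq (A8 F) (dgE_mult c)
  let u : Cfsg.isometryGroup F ⇑(A8 F).Q := ⟨_, (muN_ker (A8 F) _).mp h1⟩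
  have h3 : g = (⟨dgE 4 c, dgE_mem (le_refl 4) c⟩ : (fam (A8 F)).N) * ⟨u, iso_le_N (A8 F) u.2⟩ := by
    apply Subtype.ext
    change (g : GL _ F) = dgE 4 c * ((dgE 4 c)⁻¹ * (g : GL _ F))
    rw [mul_inv_cancel_left]
  have hu : del (A8 F) u = 1 := by
    rw [h3, _root_.map_mul, dgE_E, one_mul] at hg
    exact ((evP (le_refl 4)).iso u).symm.trans hg
  have h4 : (fam (A8 F)).T ((fam (A8 F)).nin g) = lin F (⟨dgE 4 c, dgE_mem (le_refl 4) c⟩ : (fam (A8 F)).N) *
      lin F ⟨u, iso_le_N (A8 F) u.2⟩ := by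
    rw [← map_mul, ← h3]; rfl
  change (fam (A8 F)).T ((fam (A8 F)).nin g) ∈ _
  rw [h4]
  exact mul_mem (dgE_E4 c) (iso_E4 hu)

theorem E_le_D0 : (dt F).E ≤ D0 (evP (F := F) (le_refl 4)) := by
  intro α hα
  obtain ⟨g, rfl⟩ := hα.1
  change (fam (A8 F)).T ((fam (A8 F)).nin g) ∈ _
  refine T_mem_D0.mpr ?_
  rcases Int.units_eq_one_or ((evP (F := F) (le_refl 4)).E g) with h | h
  · exact h
  · exfalso
    -- the graph automorphism has parity -1
    have hJ : (evP (F := F) (le_refl 4)).E (rn pe) = -1 := by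
      have h1 : (rn pe : (fam (A8 F)).N) = ⟨rfl' (A8 F) pe, iso_le_N (A8 F) (rfl' (A8 F) pe).2⟩ := rfl
      have h2 := (evP (F := F) (le_refl 4)).iso (rfl' (A8 F) pe)
      rw [h1]
      refine h2.trans (del_rfl' ?_)
      rw [A8_Q, nm_pe]; exact one_ne_zero
    have h1 : (evP (F := F) (le_refl 4)).E (g * rn pe) = 1 := by
      refine (_root_.map_mul (evP (F := F) (le_refl 4)).E g (rn pe)).trans ?_
      rw [h, hJ]; rfl
    have h2 : lin F (g * rn pe) ∈ (dt F).E := D0_le_E (T_mem_D0.mpr h1)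
    rw [map_mul, lin_rn_pe] at h2
    exact (dt F).J_nmem ((Subgroup.mul_mem_cancel_left _ hα).mp h2)

theorem D0_eq_E : D0 (evP (F := F) (le_refl 4)) = (dt F).E := le_antisymm D0_le_E E_le_D0

theorem E_normal : (dt F).E.Normal := by
  constructor
  intro e he α
  obtain ⟨e', he', s, σ, rfl⟩ := (dt F).exists_rep α
  have h1 : e' * (dt F).ps s * (dt F).fl σ * e * (e' * (dt F).ps s * (dt F).fl σ)⁻¹ =
      e' * ((dt F).ps s * ((dt F).fl σ * e * ((dt F).fl σ)⁻¹) * ((dt F).ps s)⁻¹) * e'⁻¹ := by group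
  rw [h1]
  exact mul_mem (mul_mem he' ((dt F).conj_ps ((dt F).conj_fl he σ) s)) (inv_mem he')

end Four

section Norm

variable {F : Type*} [Field F] [Finite F] {m : ℕ} (hm : 4 ≤ m)

theorem D0_normal_plus : (D0 (evP (F := F) hm)).Normal := by
  rcases Nat.lt_or_ge 4 m with h | h
  · exact D0_normal (evP hm) (full (good_plus (F := F) (show 5 ≤ m by omega))) (evP_conj hm)
  · have h4 : m = 4 := le_antisymm h hm
    subst h4
    rw [show D0 (evP (F := F) hm) = (dt F).E from D0_eq_E]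
    exact E_normal

end Norm

end Cfsg.Agent.H5.PlC
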