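import Cfsg.Agent.H5_PlC

set_option autoImplicit false

/-! Field automorphisms in plus type: splitting. -/

namespace Cfsg.Agent.H5.PlC

open Matrix Module
open QuadraticMap (polar)
open Cfsg.Agent.H16 Cfsg.Agent.H16.POm Cfsg.Agent.H16.Gam Cfsg.Agent.H16.AutL Cfsg.Agent.H16.AutG Cfsg.Agent.H16.Par
open Cfsg.Agent.H16.Desc

section Tor

variable {F : Type*} [Field F] [Finite F] {m : ℕ} (hm : 4 ≤ m)

/-- the vector `e_i - c f_i`. -/
def ev (i : Fin m) (c : F) : Fin m ⊕ Fin m → F := Sum.elim (Pi.single i 1) (Pi.single i (-c))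

omit [Finite F] in
theorem Q_ev (i : Fin m) (c : F) : Quad.plusQ F m (ev i c) = -c := by
  rw [Quad.plusQ_apply, Cfsg.quadFormPlus, Finset.sum_eq_single i]
  · simp [ev]
  · intro j _ hj; simp [ev, hj]
  · intro h; exact absurd (Finset.mem_univ _) h

omit [Finite F] in
theorem polar_ev (i : Fin m) (c : F) (v : Fin m ⊕ Fin m → F) : polar (Quad.plusQ F m) v (ev i c) = v (.inr i) - c * v (.inl i) := by
  rw [Quad.polar_plusQ, Finset.sum_eq_single i]
  · simp [ev]; ring
  · intro j _ hj; simp [ev, hj]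
  · intro h; exact absurd (Finset.mem_univ _) h

omit [Finite F] in
theorem refl_ev (i : Fin m) {c : F} (hc : c ≠ 0) (v : Fin m ⊕ Fin m → F) : Quad.refl (Quad.plusQ F m) (ev i c) v =
    Sum.elim (fun j => if j = i then c⁻¹ * v (.inr i) else v (.inl j)) (fun j => if j = i then c * v (.inl i) else v (.inr j)) := by
  rw [Quad.refl_apply, Q_ev, polar_ev]
  funext j
  rcases j with j | j
  · by_cases hj : j = i
    · subst hj
      simp [ev]
      field_simp
      ring
    · simp [ev, hj]
  · by_cases hj : j = i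
    · subst hj
      simp [ev]
      field_simp
      ring
    · simp [ev, hj]

/-- the torus in one plane. -/
noncomputable def tw (i : Fin m) (c : F) : Cfsg.isometryGroup F ⇑(odP F hm).Q := rfl' (odP F hm) (ev i c⁻¹) * rfl' (odP F hm) (ev i 1)

theorem tw_mul (i : Fin m) {c : F} (hc : c ≠ 0) (v : Fin m ⊕ Fin m → F) :
    (((tw hm i c : Cfsg.isometryGroup F ⇑(odP F hm).Q) : GL (Fin m ⊕ Fin m) F) : Matrix (Fin m ⊕ Fin m) (Fin m ⊕ Fin m) F) *ᵥ v =
    Sum.elim (fun j => if j = i then c * v (.inl i) else v (.inl j)) (fun j => if j = i then c⁻¹ * v (.inr i) else v (.inr j)) := by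
  rw [tw, Subgroup.coe_mul, PSp.coe_mul_mulVec, rfl'_mulVec, rfl'_mulVec]
  change Quad.refl (Quad.plusQ F m) _ (Quad.refl (Quad.plusQ F m) _ v) = _
  rw [refl_ev i (inv_ne_zero hc), refl_ev i one_ne_zero]
  funext j
  rcases j with j | j <;> by_cases hj : j = i <;> simp [hj]

theorem Q_ev' (i : Fin m) (c : F) : (odP F hm).Q (ev i c) = -c := Q_ev i c

theorem del_tw (i : Fin m) {c : F} (hc : c ≠ 0) : del (odP F hm) (tw hm i c) = 1 := by
  rw [tw, map_mul, del_rfl', del_rfl']
  · rfl
  · rw [Q_ev']; exact neg_ne_zero.mpr one_ne_zero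
  · rw [Q_ev']; exact neg_ne_zero.mpr (inv_ne_zero hc)

theorem the_tw (i : Fin m) {c : F} (hc : c ≠ 0) : the (odP F hm) (tw hm i c) = 1 ↔ IsSquare c := by
  have h1 := (dt_rpr (odP F hm) (g := tw hm i c) (vs := [ev i c⁻¹, ev i 1]) (by
    intro v hv
    rcases List.mem_cons.mp hv with rfl | hv
    · rw [Q_ev']; exact neg_ne_zero.mpr (inv_ne_zero hc)
    · rw [List.mem_singleton.mp hv, Q_ev']; exact neg_ne_zero.mpr one_ne_zero) (by
    rw [tw, map_mul, toOG_rfl', toOG_rfl', Quad.rpr_cons, Quad.rpr_cons, Quad.rpr_nil, mul_one])).2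
  rw [h1]
  simp only [List.map_cons, List.map_nil, List.prod_cons, List.prod_nil, Q_ev', mul_one]
  rw [neg_mul_neg, mul_one]
  constructor
  · rintro ⟨t, ht⟩
    refine ⟨t⁻¹, ?_⟩
    rw [← mul_inv, ← ht, inv_inv]
  · rintro ⟨t, ht⟩
    refine ⟨t⁻¹, ?_⟩
    rw [← mul_inv, ← ht]

/-- the torus element. -/
noncomputable def tl (c : F) (l : List (Fin m)) : Cfsg.isometryGroup F ⇑(odP F hm).Q := (l.map fun i => tw hm i c).prod

theorem tl_mul {c : F} (hc : c ≠ 0) (l : List (Fin m)) (hl : l.Nodup) (v : Fin m ⊕ Fin m → F) :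
    (((tl hm c l : Cfsg.isometryGroup F ⇑(odP F hm).Q) : GL (Fin m ⊕ Fin m) F) : Matrix (Fin m ⊕ Fin m) (Fin m ⊕ Fin m) F) *ᵥ v =
    Sum.elim (fun j => if j ∈ l then c * v (.inl j) else v (.inl j)) (fun j => if j ∈ l then c⁻¹ * v (.inr j) else v (.inr j)) := by
  induction l with
  | nil =>
    rw [tl, List.map_nil, List.prod_nil]
    refine (one_mulVec v).trans ?_
    funext j
    rcases j with j | j <;> simp
  | cons i l ih =>
    rw [List.nodup_cons] at hl
    rw [tl, List.map_cons, List.prod_cons, Subgroup.coe_mul, PSp.coe_mul_mulVec]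
    have h1 := ih hl.2
    rw [tl] at h1
    rw [h1, tw_mul hm i hc]
    funext j
    rcases j with j | j
    · by_cases hj : j = i
      · subst hj; simp [hl.1]
      · simp [hj]
    · by_cases hj : j = i
      · subst hj; simp [hl.1]
      · simp [hj]

theorem del_tl {c : F} (hc : c ≠ 0) (l : List (Fin m)) : del (odP F hm) (tl hm c l) = 1 := by
  induction l with
  | nil => rw [tl, List.map_nil, List.prod_nil, map_one]
  | cons i l ih =>
    rw [tl, List.map_cons, List.prod_cons, map_mul, del_tw hm i hc, one_mul]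
    exact ih

theorem the_tl {c : F} (hc : c ≠ 0) {ε : ℤˣ} (hε : ε = 1 ↔ IsSquare c) (l : List (Fin m)) : the (odP F hm) (tl hm c l) = ε ^ l.length := by
  induction l with
  | nil => rw [tl, List.map_nil, List.prod_nil, map_one, List.length_nil, pow_zero]
  | cons i l ih =>
    have h1 : the (odP F hm) (tw hm i c) = ε := by
      have h2 := (the_tw hm i hc).trans hε.symm
      rcases Int.units_eq_one_or (the (odP F hm) (tw hm i c)) with h | h <;> rcases Int.units_eq_one_or ε with h' | h'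
      · rw [h, h']
      · exact absurd (h2.mp h) (by rw [h']; decide)
      · exact absurd (h2.mpr h') (by rw [h]; decide)
      · rw [h, h']
    rw [tl, List.map_cons, List.prod_cons, map_mul, h1, List.length_cons, pow_succ']
    congr 1

/-- the similarity with square multiplier. -/
theorem T_dgE (d : Fˣ) : (fam (odP F hm)).T ((fam (odP F hm)).nin ⟨dgE m (d * d), dgE_mem hm (d * d)⟩) =
    fO (odP F hm) (tl hm (d : F) (List.finRange m)) := by
  have h1 : (⟨dgE m (d * d), dgE_mem hm (d * d)⟩ : (fam (odP F hm)).N) = ⟨scl _ d, (fam (odP F hm)).sc d⟩ *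
      ⟨tl hm (d : F) (List.finRange m), iso_le_N (odP F hm) (tl hm (d : F) (List.finRange m)).2⟩ := by
    apply Subtype.ext
    apply PSp.gl_ext
    intro v
    rw [Subgroup.coe_mul, PSp.coe_mul_mulVec, dgE_mulVec, PSp.scl_mulVec, tl_mul hm d.ne_zero _ (List.nodup_finRange m)]
    funext j
    rcases j with j | j
    · simp [mul_assoc]
    · simp
  rw [h1, map_mul, map_mul, T_scl, one_mul]
  rfl

end Tor

end Cfsg.Agent.H5.PlC
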