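import Cfsg.Agent.H5_PlD

set_option autoImplicit false

/-! Field automorphisms in plus type: the count. -/

namespace Cfsg.Agent.H5.PlC

open Matrix Module
open QuadraticMap (polar)
open Cfsg.Agent.H16 Cfsg.Agent.H16.POm Cfsg.Agent.H16.Gam Cfsg.Agent.H16.AutL Cfsg.Agent.H16.AutG Cfsg.Agent.H16.Par
open Cfsg.Agent.H16.Desc

section Sq

theorem ringChar_ne {F : Type*} [Field F] (h2 : (2 : F) ≠ 0) : ringChar F ≠ 2 := by
  intro h
  apply h2
  have h1 := ringChar.Nat.cast_ringChar (R := F)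
  rw [h] at h1
  exact_mod_cast h1

/-- square roots of nonsquares of the subfield. -/
theorem isSquare_root {F K : Type*} [Field F] [Finite F] [Field K] [Finite K] (e : K →+* F) (h2 : (2 : K) ≠ 0)
    (hcard : Nat.card F = Nat.card K ^ 2) {c : K} (hc : ¬ IsSquare c) {d : F} (hd : e c = d * d) :
    IsSquare d ↔ Nat.card K % 4 = 3 := by
  have := Fintype.ofFinite F
  have := Fintype.ofFinite K
  rw [Nat.card_eq_fintype_card, Nat.card_eq_fintype_card] at hcard
  rw [Nat.card_eq_fintype_card]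
  have hc0 : c ≠ 0 := by rintro rfl; exact hc IsSquare.zero
  have hd0 : d ≠ 0 := by
    rintro rfl
    rw [mul_zero] at hd
    exact hc0 ((map_eq_zero _).mp hd)
  have h2F : (2 : F) ≠ 0 := by
    intro h
    apply h2
    apply e.injective
    rw [map_ofNat, h, map_zero]
  have hK := Quad.card_mod_two h2
  obtain ⟨k, hk⟩ : ∃ k, Fintype.card K = 2 * k + 1 := ⟨Fintype.card K / 2, by omega⟩
  have hkK : Fintype.card K / 2 = k := by omega
  have hkF : Fintype.card F / 2 = 2 * (k * (k + 1)) := by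
    rw [hcard, hk]
    have : (2 * k + 1) ^ 2 = 2 * (2 * (k * (k + 1))) + 1 := by ring
    omega
  have h1 : c ^ k = -1 := by
    have h3 := FiniteField.isSquare_iff (ringChar_ne h2) hc0
    rw [hkK] at h3
    have h4 := FiniteField.pow_dichotomy (ringChar_ne h2) hc0
    rw [hkK] at h4
    rcases h4 with h4 | h4
    · exact absurd (h3.mpr h4) hc
    · exact h4
  rw [FiniteField.isSquare_iff (ringChar_ne h2F) hd0, hkF, pow_mul, sq, ← hd, pow_mul, ← map_pow, h1, map_neg, map_one, hk]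
  rcases Nat.even_or_odd (k + 1) with h | h
  · rw [h.neg_one_pow]
    obtain ⟨j, hj⟩ := h
    constructor
    · intro; omega
    · intro; rfl
  · rw [h.neg_one_pow]
    obtain ⟨j, hj⟩ := h
    constructor
    · intro h5
      exfalso
      apply h2F
      linear_combination -h5
    · intro h5; omega

end Sq

section Cent

variable {ι₀ ι : Type} [Fintype ι₀] [DecidableEq ι₀] [Fintype ι] [DecidableEq ι] {F K : Type*} [Field F] [Finite F]
  [Field K] [Finite K] {A : OD ι F} {ξ : (fam A).Γ} {Q₁ : QuadraticForm F (ι₀ → F)} (R : RS A (ξ : Gm ι F) Q₁)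
  {e : K →+* F} {A₀ : OD ι₀ K}
  (hQ₁ : ∀ x : ι₀ → K, Q₁ (fun i => e (x i)) = e (A₀.Q x))

include R hQ₁

theorem prod_rat {l : Fˣ} (hR : ∀ x : ι₀ → K, A.Q (R.L (fun i => e (x i))) = l * e (A₀.Q x)) (vs : List (ι₀ → K)) :
    ((vs.map fun v => R.L (fun i => e (v i))).map A.Q).prod = (l : F) ^ vs.length * e (vs.map A₀.Q).prod := by
  induction vs with
  | nil => simp
  | cons v vs ih =>
    rw [List.map_cons, List.map_cons, List.prod_cons, List.map_cons, List.prod_cons, ih, List.length_cons, hR, map_mul]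
    ring

/-- rational elements with square multiplier. -/
theorem sq_rat_inn {S₀ : EvS A₀} (hsq : ∀ c : K, IsSquare (e c)) {g : (fam A₀).N} (hE : S₀.E g = 1) (hs : sqc K (muN A₀ g) = 1) :
    (fam A).T ((fam A).nin (jN R hQ₁ g)) ∈ Cfsg.Inn (Cfsg.POmega F ⇑A.Q) := by
  obtain ⟨d, u, rfl⟩ := sq_mult A₀ g hs
  rw [_root_.map_mul, S₀.scl, one_mul, S₀.iso] at hE
  rw [_root_.map_mul, jN_scl, _root_.map_mul, _root_.map_mul, T_scl, one_mul, jN_iso]
  apply fO_inn
  rw [mem_Om, del_jO]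
  refine ⟨hE, ?_⟩
  obtain ⟨vs, h1, h2⟩ := exists_vs A₀ u
  have he : Even vs.length := by
    rw [(dt_rpr A₀ h1 h2).1] at hE
    rcases Nat.even_or_odd vs.length with h | h
    · exact h
    · rw [h.neg_one_pow] at hE
      exact absurd hE (by decide)
  rw [(dt_rpr A (jO_ne R hQ₁ h1) (jO_rpr R hQ₁ h2)).2, prod_rat R hQ₁ (l := R.l) (fun x => by rw [R.hL, hQ₁])]
  obtain ⟨j, hj⟩ := he
  obtain ⟨t, ht⟩ := hsq (vs.map A₀.Q).prod
  refine ⟨(R.l : F) ^ j * t, ?_⟩
  rw [ht, hj, pow_add]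
  ring

end Cent

section Count

variable {F K : Type*} [Field F] [Finite F] [Field K] [Finite K] {m : ℕ} (hm : 4 ≤ m) {σ : F ≃+* F} {e : K →+* F}

/-- the trivial structure. -/
noncomputable def R1 : RS (odP F hm) ((Fam.fin (PlO.hasField_plus hm) σ : (fam (odP F hm)).Γ) : Gm (Fin m ⊕ Fin m) F) (Quad.plusQ F m) where
  L := LinearEquiv.refl F _
  l := 1
  hL v := by rw [Units.val_one, one_mul]; rfl
  hξ v := by
    rw [Fam.coe_fin, Par.sl, SemidirectProduct.left_inr, SemidirectProduct.right_inr]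
    exact one_mulVec _

variable (e) in
theorem rat1 (x : Fin m ⊕ Fin m → K) : Quad.plusQ F m (fun i => e (x i)) = e ((odP K hm).Q x) := rat_plus e x

variable (e) in
theorem jN_dgE (c : Kˣ) : jN (R1 hm (σ := σ)) (rat1 hm e) ⟨dgE m c, dgE_mem hm c⟩ =
    ⟨dgE m (Units.map (e : K →* F) c), dgE_mem hm _⟩ := by
  apply Subtype.ext
  rw [jN_coe]
  apply PSp.gl_ext
  intro v
  have h1 := cj_mulVec (R1 hm (σ := σ) (F := F)).L (Matrix.GeneralLinearGroup.map e (dgE m c)) v
  refine h1.trans ?_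
  change ((Matrix.GeneralLinearGroup.map e (dgE m c) : GL (Fin m ⊕ Fin m) F) : Matrix (Fin m ⊕ Fin m) (Fin m ⊕ Fin m) F) *ᵥ v = _
  change ((Matrix.diagonal (Sum.elim (fun _ => (c : K)) fun _ => 1)).map e) *ᵥ v =
    (Matrix.diagonal (Sum.elim (fun _ => ((Units.map (e : K →* F) c : Fˣ) : F)) fun _ => 1)) *ᵥ v
  congr 1
  rw [Matrix.diagonal_map (map_zero e)]
  congr 1
  funext i
  rcases i with i | i
  · rfl
  · exact map_one e

theorem relIndex_D0 {ι : Type} [Fintype ι] [DecidableEq ι] {A : OD ι F} (S : EvS A) : (D0 S).relIndex (fam A).D = 2 := by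
  have h1 : (D0 S).comap ((fam A).T.comp (fam A).nin) = S.E.ker := by
    ext g
    exact T_mem_D0
  have h2 : ((fam A).T.comp (fam A).nin).range = (fam A).D := rfl
  rw [← h2, ← Subgroup.index_comap, h1, Subgroup.index_ker]
  have h3 : S.E.range = ⊤ := by
    rw [MonoidHom.range_eq_top]
    intro u
    rcases Int.units_eq_one_or u with rfl | rfl
    · exact ⟨1, _root_.map_one _⟩
    · obtain ⟨v, hv⟩ := exists_ns A
      exact ⟨⟨rfl' A v, iso_le_N A (rfl' A v).2⟩, by rw [S.iso, del_rfl' hv]⟩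
  rw [h3, Nat.card_congr (Subgroup.topEquiv (G := ℤˣ)).toEquiv]
  simp [Nat.card_eq_fintype_card]

theorem inn_relIndex_D0 {ι : Type} [Fintype ι] [DecidableEq ι] {A : OD ι F} (S : EvS A) (h2 : (2 : F) ≠ 0)
    (hneg : negO A ∈ Cfsg.Omega F ⇑A.Q) : (Cfsg.Inn (Cfsg.POmega F ⇑A.Q)).relIndex (D0 S) = 4 := by
  have h3 := Subgroup.relIndex_mul_relIndex _ _ _ (inn_le_D0 S) (D0_le S)
  rw [relIndex_even S h2, if_pos hneg, relIndex_D0] at h3
  omega

/-- the count for involutory field automorphisms. -/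
theorem split_two (h2 : (2 : F) ≠ 0) (hσ : orderOf σ = 2) (hcard : Nat.card F = Nat.card K ^ 2)
    (he : ∀ a, σ a = a ↔ a ∈ Set.range e) :
    Cfsg.splitClassCount (D0 (evP (F := F) hm)) (Cfsg.Inn (Cfsg.POmega F ⇑(odP F hm).Q))
      ((fam (odP F hm)).T (Fam.fin (PlO.hasField_plus hm) σ)) = if Odd m ∧ Nat.card K % 4 = 1 then 2 else 4 := by
  have := Fintype.ofFinite F
  have h2K : (2 : K) ≠ 0 := by
    intro h
    apply h2
    rw [← map_ofNat e, h, map_zero]
  have hsq : ∀ c : K, IsSquare (e c) := fun c => isSquare_of_fix h2 hσ ((he _).mpr ⟨c, rfl⟩)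
  have hneg : negO (odP F hm) ∈ Cfsg.Omega F ⇑(odP F hm).Q := by
    rw [PlO.neg_plus hm h2]
    have h3 := hsq ((-1) ^ m)
    rwa [map_pow, map_neg, map_one] at h3
  -- a nonsquare in the small field
  obtain ⟨c, hc0, hc⟩ : ∃ c : K, c ≠ 0 ∧ ¬ IsSquare c := by
    have := Fintype.ofFinite K
    obtain ⟨c, hc⟩ := FiniteField.exists_nonsquare (ringChar_ne h2K)
    exact ⟨c, by rintro rfl; exact hc IsSquare.zero, hc⟩
  obtain ⟨d, hd⟩ := hsq c
  have hd0 : d ≠ 0 := by
    rintro rfl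
    rw [mul_zero] at hd
    exact hc0 ((map_eq_zero _).mp hd)
  let cu : Kˣ := Units.mk0 c hc0
  let du : Fˣ := Units.mk0 d hd0
  have hcd : Units.map (e : K →* F) cu = du * du := Units.ext hd
  set g₁ : (fam (odP K hm)).N := ⟨dgE m cu, dgE_mem hm cu⟩ with hg₁
  set R := R1 hm (σ := σ) (F := F) with hR
  set w := (fam (odP F hm)).T ((fam (odP F hm)).nin (jN R (rat1 hm e) g₁)) with hw
  have hw1 : w = fO (odP F hm) (tl hm d (List.finRange m)) := by
    have h3 := T_dgE hm du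
    refine Eq.trans ?_ h3
    rw [hw, hg₁, hR, jN_dgE]
    congr 2
    apply Subtype.ext
    change dgE m _ = dgE m _
    rw [hcd]
  have hE₁ : (evP (F := K) hm).E g₁ = 1 := dgE_E hm cu
  have hmu : sqc K (muN (odP K hm) g₁) = -1 := by
    have h3 : muN (odP K hm) g₁ = cu := muN_eq (odP K hm) (dgE_mult cu)
    rw [h3]
    rcases Int.units_eq_one_or (sqc K cu) with h | h
    · exact absurd (sqc_eq_one.mp h) hc
    · exact h
  rw [Split.splitClassCount_eq _ _ inferInstance (inn_le_D0 _)]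
  set P := Cfsg.Inn (Cfsg.POmega F ⇑(odP F hm).Q) ⊔ (D0 (evP (F := F) hm) ⊓
    Subgroup.centralizer {(fam (odP F hm)).T (Fam.fin (PlO.hasField_plus hm) σ)}) with hP
  have hinnP : Cfsg.Inn (Cfsg.POmega F ⇑(odP F hm).Q) ≤ P := le_sup_left
  have hPD : P ≤ D0 (evP (F := F) hm) := sup_le (inn_le_D0 _) inf_le_left
  have hidx := Subgroup.relIndex_mul_relIndex _ _ _ hinnP hPD
  rw [inn_relIndex_D0 (evP hm) h2 hneg] at hidx
  have hrat : ∀ g : (fam (odP K hm)).N, (evP (F := K) hm).E g = 1 →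
      (fam (odP F hm)).T ((fam (odP F hm)).nin (jN R (rat1 hm e) g)) ∈ Cfsg.Inn (Cfsg.POmega F ⇑(odP F hm).Q) ∨
      (fam (odP F hm)).T ((fam (odP F hm)).nin (jN R (rat1 hm e) g)) * w⁻¹ ∈ Cfsg.Inn (Cfsg.POmega F ⇑(odP F hm).Q) := by
    intro g hg
    rcases Int.units_eq_one_or (sqc K (muN (odP K hm) g)) with h | h
    · exact Or.inl (sq_rat_inn R (rat1 hm e) hsq hg h)
    · right
      rw [hw, ← _root_.map_inv, ← _root_.map_mul, ← _root_.map_inv, ← _root_.map_mul, ← _root_.map_inv, ← _root_.map_mul]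
      refine sq_rat_inn R (rat1 hm e) (S₀ := evP hm) hsq ?_ ?_
      · rw [_root_.map_mul, _root_.map_inv, hg, hE₁, inv_one, mul_one]
      · rw [_root_.map_mul, _root_.map_mul, _root_.map_inv, _root_.map_inv, h, hmu, mul_inv_cancel]
  have hPc : ∀ α ∈ P, α ∈ Cfsg.Inn (Cfsg.POmega F ⇑(odP F hm).Q) ∨ α * w⁻¹ ∈ Cfsg.Inn (Cfsg.POmega F ⇑(odP F hm).Q) := by
    intro α hα
    obtain ⟨k, hk, z, ⟨hz1, hz2⟩, rfl⟩ := Subgroup.mem_sup_of_normal_left.mp hα
    obtain ⟨z', hz', rfl⟩ := mem_D0.mp hz1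
    obtain ⟨t, g, hg⟩ := jN_surj R he (rat1 hm e) hz2
    have h1 : (evP (F := K) hm).E g = 1 := by
      rw [hg, _root_.map_mul, (evP (F := F) hm).scl, one_mul, E_jN R (rat1 hm e) (detF_plus hm) (detF_plus hm)] at hz'
      exact hz'
    rw [hg, _root_.map_mul, _root_.map_mul, T_scl, one_mul]
    rcases hrat g h1 with h | h
    · exact Or.inl (mul_mem hk h)
    · right
      rw [mul_assoc]
      exact mul_mem hk h
  have hwP : w ∈ P := Subgroup.mem_sup_right ⟨T_mem_D0.mpr (by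
    rw [E_jN R (rat1 hm e) (detF_plus hm) (detF_plus hm), hE₁]), jN_comm R he (rat1 hm e) g₁⟩
  have hwinn : w ∈ Cfsg.Inn (Cfsg.POmega F ⇑(odP F hm).Q) ↔ ¬ (Odd m ∧ Nat.card K % 4 = 1) := by
    rw [hw1, fO_mem_inn hneg, mem_Om, del_tl hm hd0]
    have h3 := isSquare_root e h2K hcard hc hd
    have hKc : Nat.card K % 4 = 1 ∨ Nat.card K % 4 = 3 := by
      have := Fintype.ofFinite K
      rw [Nat.card_eq_fintype_card]
      have h5 := Quad.card_mod_two h2K
      omega
    by_cases hs : IsSquare d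
    · rw [the_tl hm hd0 (ε := 1) (by simpa using hs), one_pow]
      have h5 := h3.mp hs
      constructor
      · rintro - ⟨-, h6⟩; omega
      · intro; exact ⟨rfl, rfl⟩
    · have h5 : ¬ Nat.card K % 4 = 3 := fun h => hs (h3.mpr h)
      have h6 : Nat.card K % 4 = 1 := hKc.resolve_right h5
      rw [the_tl hm hd0 (ε := -1) (by simpa using hs), List.length_finRange]
      rcases Nat.even_or_odd m with h | h
      · rw [h.neg_one_pow]
        constructor
        · rintro - ⟨h7, -⟩; exact (Nat.not_odd_iff_even.mpr h) h7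
        · intro; exact ⟨rfl, rfl⟩
      · rw [h.neg_one_pow]
        constructor
        · rintro ⟨-, h7⟩; exact absurd h7 (by decide)
        · intro h7; exact absurd ⟨h, h6⟩ h7
  by_cases hcase : Odd m ∧ Nat.card K % 4 = 1
  · rw [if_pos hcase]
    have hw' : w ∉ Cfsg.Inn (Cfsg.POmega F ⇑(odP F hm).Q) := fun h => (hwinn.mp h) hcase
    have hww : w * w ∈ Cfsg.Inn (Cfsg.POmega F ⇑(odP F hm).Q) := by
      rcases hPc (w * w) (mul_mem hwP hwP) with h | h
      · exact h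
      · rw [mul_inv_cancel_right] at h
        exact absurd h hw'
    have h5 : (Cfsg.Inn (Cfsg.POmega F ⇑(odP F hm).Q)).relIndex P = 2 := by
      rw [Subgroup.relIndex_eq_two_iff]
      refine ⟨w, hwP, fun b hb => ?_⟩
      rcases hPc b hb with h | h
      · right
        refine ⟨h, fun h' => hw' ?_⟩
        exact (Subgroup.mul_mem_cancel_left _ h).mp h'
      · left
        constructor
        · have h6 := mul_mem h hww
          have h7 : b * w⁻¹ * (w * w) = b * w := by group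
          rwa [h7] at h6
        · intro h'
          apply hw'
          have h6 := (Subgroup.mul_mem_cancel_left _ h').mp h
          exact inv_mem_iff.mp h6
    rw [h5] at hidx
    omega
  · rw [if_neg hcase]
    have hw' : w ∈ Cfsg.Inn (Cfsg.POmega F ⇑(odP F hm).Q) := hwinn.mpr hcase
    have h5 : P = Cfsg.Inn (Cfsg.POmega F ⇑(odP F hm).Q) := by
      refine le_antisymm (fun α hα => ?_) hinnP
      rcases hPc α hα with h | h
      · exact h
      · have h6 := mul_mem h hw'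
        rwa [inv_mul_cancel_right] at h6
    have h6 : (Cfsg.Inn (Cfsg.POmega F ⇑(odP F hm).Q)).relIndex P = 1 := by
      rw [h5]; exact Subgroup.relIndex_self _
    rw [h6, one_mul] at hidx
    exact hidx

end Count

section Final

universe u v

variable {F : Type u} [Field F] [Finite F]

theorem cent_plus {m : ℕ} (hm : 4 ≤ m) {q : (Fin m ⊕ Fin m → F) → F} (hq : ⇑(odP F hm).Q = q)
    {p f : ℕ} (hp : p.Prime) (hF : Nat.card F = p ^ f)
    (x : MulAut (Cfsg.POmega F q)) (hx : Cfsg.IsFieldAutClassPOmega q x)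
    {r : ℕ} (hr : r.Prime) (hxr : orderOf x = r) (F₀ : Type v) [Field F₀] [Fintype F₀] (hF₀ : Fintype.card F₀ = p ^ (f / r))
    {q' : (Fin m ⊕ Fin m → F₀) → F₀} (hq' : ⇑(odP F₀ hm).Q = q') :
    r ∣ f ∧ Nonempty (↥(indP q ⊓ Subgroup.centralizer {x}) ≃* ↥(indP q')) ∧
      ((Odd r ∨ p = 2) → Cfsg.splitClassCount (indP q) (Cfsg.Inn (Cfsg.POmega F q)) x = 1) ∧
      ((r = 2 ∧ p ≠ 2 ∧ Odd m ∧ p ^ (f / 2) % 4 = 1) → Cfsg.splitClassCount (indP q) (Cfsg.Inn (Cfsg.POmega F q)) x = 2) ∧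
      ((r = 2 ∧ p ≠ 2 ∧ ¬ (Odd m ∧ p ^ (f / 2) % 4 = 1)) → Cfsg.splitClassCount (indP q) (Cfsg.Inn (Cfsg.POmega F q)) x = 4) := by
  subst hq
  subst hq'
  have hDn := D0_normal_plus (F := F) hm
  obtain ⟨α, φ, σ, hσ, h, hα⟩ := hx
  rw [field_iff (odP F hm) (PlO.hasField_plus hm σ)] at h
  replace hα : α * x * α⁻¹ = (fam (odP F hm)).T (Fam.fin (PlO.hasField_plus hm) σ) := hα.trans h
  have hnt := nonempty (odP F hm)
  have hσr : orderOf σ = r := by
    rw [← Fam.orderOf_fin (PlO.hasField_plus hm) σ, ← hα, orderOf_conj', hxr]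
  obtain ⟨q₀, hq, hcard, hfix, hfix'⟩ := card_fix σ
  obtain ⟨hrf, hq₀⟩ := prime_pow_root hp (show p ^ f = q₀ ^ r by rw [← hF, hcard, hσr]) hr.pos
  obtain ⟨e, he⟩ := exists_emb hcard hfix' F₀ (by rw [hF₀, hq₀])
  have h1 := Split.splitClassCount_conj (D0 (evP (F := F) hm)) (Cfsg.Inn (Cfsg.POmega F ⇑(odP F hm).Q)) inferInstance hDn
    (inn_le_D0 _) α x
  rw [hα] at h1
  rw [indP_eq, indP_eq]
  have hf0 : 1 ≤ f := by
    rcases Nat.eq_zero_or_pos f with rfl | h
    · exfalso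
      rw [pow_zero] at hF
      have := Finite.one_lt_card (α := F)
      omega
    · exact h
  have hpf : Fact p.Prime := ⟨hp⟩
  have hFt := Fintype.ofFinite F
  have h2p : (2 : F) = 0 ↔ p = 2 := two_iff_char hf0 (by rw [← Nat.card_eq_fintype_card, hF])
  refine ⟨hrf, ?_, ?_, ?_, ?_⟩
  · apply Split.nonempty_centralizer_conj (D0 (evP (F := F) hm)) hDn α x
    rw [hα]
    exact cent_iso (R1 hm) he (rat1 hm e) (detF_plus hm) (detF_plus hm)
  · intro h2
    rw [← h1]
    refine split_one (R1 hm) he (rat1 hm e) (detF_plus hm) (detF_plus hm) ?_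
    rcases h2 with h2 | h2
    · right
      change Odd (orderOf σ)
      rw [hσr]; exact h2
    · left
      exact h2p.mpr h2
  · rintro ⟨hr2, hp2, hm', hc⟩
    rw [← h1, split_two hm (K := F₀) (fun h => hp2 (h2p.mp h)) (by rw [hσr, hr2]) (by
      rw [hcard, hσr, hr2, Nat.card_eq_fintype_card, hF₀, hq₀, hr2]) he, if_pos ⟨hm', by
      rw [Nat.card_eq_fintype_card, hF₀, hr2]; exact hc⟩]
  · rintro ⟨hr2, hp2, hm'⟩
    rw [← h1, split_two hm (K := F₀) (fun h => hp2 (h2p.mp h)) (by rw [hσr, hr2]) (by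
      rw [hcard, hσr, hr2, Nat.card_eq_fintype_card, hF₀, hq₀, hr2]) he, if_neg (by
      rw [Nat.card_eq_fintype_card, hF₀, hr2]; exact hm')]

end Final

end Cfsg.Agent.H5.PlC
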