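import Mathlib
import Cfsg.Agent.H5_DihPS
import Cfsg.Agent.H5_SmallIso

set_option autoImplicit false

/-! `2`-subgroups of `PSL(2,q)`, `q` odd, have no nonabelian image in `SL(2,p)`. -/

namespace Cfsg.Agent.H5.QAct

open Cfsg.Agent.H5.SL2 Cfsg.Agent.H5.V4
open scoped Pointwise

theorem sq_central {K : Type*} [Field K] (h2 : (2 : K) ≠ 0) {g : S K} (h : g * g = 1) (x : S K) : g * x = x * g := by
  by_cases hg : g = 1
  · rw [hg, one_mul, mul_one]
  · rw [SL2Quat.eq_neg_one h2 h hg, neg_mul, mul_neg, one_mul, mul_one]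

theorem dih_comm {T : Type*} [Group T] {n : ℕ} (j : T →* DihedralGroup n) (hj : Function.Injective j) {K : Type*} [Field K]
    (h2 : (2 : K) ≠ 0) (f : T →* S K) (a b : T) : f a * f b = f b * f a := by
  by_cases h : ∃ (s : T) (i : ZMod n), j s = DihedralGroup.sr i
  · obtain ⟨s, i, hs⟩ := h
    have hinv : ∀ (t : T) (k : ZMod n), j t = DihedralGroup.sr k → ∀ x, f t * x = x * f t := by
      intro t k ht x
      apply sq_central h2
      rw [← map_mul]
      have h1 : t * t = 1 := by
        apply hj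
        rw [map_mul, ht, DihedralGroup.sr_mul_self, map_one]
      rw [h1, map_one]
    have hall : ∀ t : T, ∀ x, f t * x = x * f t := by
      intro t x
      rcases ht : j t with k | k
      · have h1 : j (t * s) = DihedralGroup.sr (i - k) := by
          rw [map_mul, ht, hs, DihedralGroup.r_mul_sr]
        have h2 := hinv _ _ h1
        have h3 := hinv _ _ hs
        have h4 : f t = f (t * s) * (f s)⁻¹ := by rw [map_mul, mul_inv_cancel_right]
        have h5 : (f s)⁻¹ * x = x * (f s)⁻¹ := by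
          rw [inv_mul_eq_iff_eq_mul, ← mul_assoc, h3, mul_assoc, mul_inv_cancel, mul_one]
        rw [h4, mul_assoc, h5, ← mul_assoc, h2, mul_assoc]
      · exact hinv _ _ ht x
    exact hall a (f b)
  · have hr : ∀ t : T, ∃ k : ZMod n, j t = DihedralGroup.r k := by
      intro t
      rcases ht : j t with k | k
      · exact ⟨k, rfl⟩
      · exact absurd ⟨t, k, ht⟩ h
    obtain ⟨k, hk⟩ := hr a
    obtain ⟨l, hl⟩ := hr b
    rw [← map_mul, ← map_mul]
    congr 1
    apply hj
    rw [map_mul, map_mul, hk, hl, DihedralGroup.r_mul_r, DihedralGroup.r_mul_r, add_comm]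

theorem exists_odd_dih {F : Type*} [Field F] [Fintype F] (hF : Odd (Fintype.card F)) :
    ∃ (n : ℕ) (D : Subgroup (PS F)), Nonempty (D ≃* DihedralGroup n) ∧ Odd D.index := by
  classical
  have hg : Nat.gcd 2 (Fintype.card F - 1) = 2 := by
    apply Nat.gcd_eq_left
    have := Nat.odd_iff.1 hF
    have := Fintype.card_pos (α := F)
    omega
  have hcard := SmallIso.card_PSL2 (F := F)
  rw [hg] at hcard
  have hq1 : 1 < Fintype.card F := Fintype.one_lt_card
  have hodd := Nat.odd_iff.1 hF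
  have key : ∀ (D : Subgroup (PS F)) (n : ℕ), Nonempty (D ≃* DihedralGroup n) → Nat.card D = 2 * n := by
    rintro D n ⟨e⟩
    rw [Nat.card_congr e.toEquiv, DihedralGroup.nat_card]
  rcases (show Fintype.card F % 4 = 1 ∨ Fintype.card F % 4 = 3 by omega) with h4 | h4
  · obtain ⟨D, hD⟩ := DihPS.exists_dihedral_sub (F := F)
    refine ⟨_, D, hD, ?_⟩
    have h1 := key _ _ hD
    rw [hg] at h1
    have h2 := D.card_mul_index
    obtain ⟨k, hk⟩ : ∃ k, Fintype.card F = 4 * k + 1 := ⟨Fintype.card F / 4, by omega⟩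
    rw [h1, hk] at h2
    rw [← h2, hk] at hcard
    have e1 : 4 * k + 1 - 1 = 4 * k := by omega
    have e2 : (4 * k) / 2 = 2 * k := by omega
    rw [e1, e2] at hcard
    have hk0 : 0 < k := by omega
    have h3 : 8 * k * D.index = 8 * k * ((4 * k + 1) * (2 * k + 1)) := by
      have : 2 * (2 * (2 * k) * D.index) = 8 * k * D.index := by ring
      rw [← this, hcard]; ring
    have h5 := Nat.eq_of_mul_eq_mul_left (by positivity) h3
    rw [h5]
    exact Odd.mul ⟨2 * k, by ring⟩ ⟨k, rfl⟩
  · obtain ⟨D, hD⟩ := DihPS.exists_dihedral_add (F := F)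
    refine ⟨_, D, hD, ?_⟩
    have h1 := key _ _ hD
    rw [hg] at h1
    have h2 := D.card_mul_index
    obtain ⟨k, hk⟩ : ∃ k, Fintype.card F = 4 * k + 3 := ⟨Fintype.card F / 4, by omega⟩
    rw [h1, hk] at h2
    rw [← h2, hk] at hcard
    have e1 : 4 * k + 3 - 1 = 4 * k + 2 := by omega
    have e2 : (4 * k + 3 + 1) / 2 = 2 * k + 2 := by omega
    rw [e1, e2] at hcard
    have h3 : 8 * (k + 1) * D.index = 8 * (k + 1) * ((4 * k + 3) * (2 * k + 1)) := by
      have : 2 * (2 * (2 * k + 2) * D.index) = 8 * (k + 1) * D.index := by ring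
      rw [← this, hcard]; ring
    have h5 := Nat.eq_of_mul_eq_mul_left (by positivity) h3
    rw [h5]
    exact Odd.mul ⟨2 * k + 1, by ring⟩ ⟨k, rfl⟩

theorem conj_into {G : Type*} [Group G] [Finite G] {D : Subgroup G} (hD : Odd D.index) {T : Subgroup G} (hT : IsPGroup 2 T) :
    ∃ g : G, ∀ t ∈ T, g * t * g⁻¹ ∈ D := by
  obtain ⟨P⟩ : Nonempty (Sylow 2 D) := inferInstance
  haveI : Fact (Nat.Prime 2) := ⟨Nat.prime_two⟩
  have hPp : IsPGroup 2 ((P : Subgroup D).map D.subtype) := P.isPGroup'.map _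
  obtain ⟨S₁, hS₁⟩ := hPp.exists_le_sylow
  have hcard : Nat.card ((P : Subgroup D).map D.subtype) = Nat.card S₁ := by
    have h1 : Nat.card ((P : Subgroup D).map D.subtype) = Nat.card P :=
      (Nat.card_congr ((P : Subgroup D).equivMapOfInjective _ D.subtype_injective).toEquiv).symm
    rw [h1, P.card_eq_multiplicity, S₁.card_eq_multiplicity]
    congr 1
    rw [← D.card_mul_index, Nat.factorization_mul Nat.card_pos.ne' (Subgroup.index_ne_zero_of_finite), Finsupp.add_apply]
    have h2 : D.index.factorization 2 = 0 := Nat.factorization_eq_zero_of_not_dvd (fun h => by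
      have := Nat.odd_iff.1 hD
      omega)
    rw [h2, add_zero]
  have heq : (P : Subgroup D).map D.subtype = S₁ := Subgroup.eq_of_le_of_card_ge hS₁ (by rw [hcard])
  obtain ⟨S₂, hS₂⟩ := hT.exists_le_sylow
  obtain ⟨g, hg⟩ := MulAction.exists_smul_eq G S₂ S₁
  refine ⟨g, fun t ht => ?_⟩
  have h1 : g * t * g⁻¹ ∈ (g • S₂ : Sylow 2 G) := by
    have : (MulAut.conj g) • t ∈ (MulAut.conj g) • (S₂ : Subgroup G) := Subgroup.smul_mem_pointwise_smul _ _ _ (hS₂ ht)
    exact this
  rw [hg] at h1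
  have h2 : g * t * g⁻¹ ∈ (P : Subgroup D).map D.subtype := by rw [heq]; exact h1
  exact Subgroup.map_subtype_le _ h2

theorem psl_comm {F : Type*} [Field F] [Fintype F] (hF : Odd (Fintype.card F)) {K : Type*} [Field K] (h2 : (2 : K) ≠ 0)
    {T : Subgroup (PS F)} (hT : IsPGroup 2 T) (f : T →* S K) (a b : T) : f a * f b = f b * f a := by
  obtain ⟨n, D, ⟨e⟩, hD⟩ := exists_odd_dih hF
  obtain ⟨g, hg⟩ := conj_into hD hT
  let j : T →* D :=
    { toFun := fun t => ⟨g * t * g⁻¹, hg t t.2⟩
      map_one' := Subtype.ext (by simp)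
      map_mul' := fun x y => Subtype.ext (by simp [mul_assoc]) }
  have hj : Function.Injective j := by
    intro x y hxy
    have h1 : g * (x : PS F) * g⁻¹ = g * y * g⁻¹ := congrArg Subtype.val hxy
    exact Subtype.ext (mul_left_cancel (mul_right_cancel h1))
  exact dih_comm (e.toMonoidHom.comp j) (e.injective.comp hj) h2 f a b

end Cfsg.Agent.H5.QAct
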