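import Mathlib
import Cfsg.Agent.H5_Quad

set_option autoImplicit false

/-! Orthogonal bases of quadratic spaces over finite fields of odd order. -/

namespace Cfsg.Agent.H5.Quad

open Frm

variable {F : Type*} [Field F]

theorem exists_nonsing {V : Type*} [AddCommGroup V] [Module F V] [Nontrivial V]
    (A : Frm F (RingHom.id F) 1 (AddMonoidHom.id F) V) (hn : A.Nondeg) : ∃ v, A.Q v ≠ 0 := by
  by_contra hcon
  push Not at hcon
  obtain ⟨x, hx⟩ := exists_ne (0 : V)
  apply hx
  apply hn
  intro y
  have := Q_add' A x y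
  rw [hcon, hcon, hcon] at this
  simpa using this.symm

/-- splitting off a nonsingular vector -/
theorem restrict_span_nondeg (h2 : (2 : F) ≠ 0) {V : Type*} [AddCommGroup V] [Module F V]
    (A : Frm F (RingHom.id F) 1 (AddMonoidHom.id F) V) {v : V} (hv : A.Q v ≠ 0) :
    (A.restrict (Submodule.span F {v})).Nondeg := by
  rintro ⟨y, hy⟩ hyy
  obtain ⟨c, rfl⟩ := Submodule.mem_span_singleton.mp hy
  have h1 := hyy ⟨v, Submodule.mem_span_singleton_self v⟩
  rw [restrict_B] at h1
  change A.B (c • v) v = 0 at h1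
  rw [LinearMap.map_smulₛₗ₂, B_self, smul_eq_mul] at h1
  have hc : c = 0 := (mul_eq_zero.mp h1).resolve_right (mul_ne_zero h2 hv)
  apply Subtype.ext
  change c • v = 0
  rw [hc, zero_smul]

theorem mem_orth_singleton {V : Type*} [AddCommGroup V] [Module F V]
    (A : Frm F (RingHom.id F) 1 (AddMonoidHom.id F) V) {v y : V} :
    y ∈ A.orth (Submodule.span F {v}) ↔ A.B v y = 0 := by
  rw [A.mem_orth]
  constructor
  · intro h; exact h v (Submodule.mem_span_singleton_self v)
  · intro h w hw
    obtain ⟨c, rfl⟩ := Submodule.mem_span_singleton.mp hw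
    rw [LinearMap.map_smulₛₗ₂, h, smul_zero]

/-- in dimension `≥ 2`, odd characteristic, every value is attained -/
theorem exists_value [Fintype F] (h2 : (2 : F) ≠ 0) {V : Type*} [AddCommGroup V] [Module F V]
    [FiniteDimensional F V] (A : Frm F (RingHom.id F) 1 (AddMonoidHom.id F) V) (hn : A.Nondeg)
    (hV : 2 ≤ Module.finrank F V) (c : F) : ∃ v, A.Q v = c := by
  have hodd : Odd (Fintype.card F) := by
    by_contra hcon
    have hc : CharP F 2 := charP_two_of_even hcon
    exact h2 CharTwo.two_eq_zero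
  have hnt : Nontrivial V := Module.nontrivial_of_finrank_pos (R := F) (by omega)
  obtain ⟨v1, hv1⟩ := exists_nonsing A hn
  have hU := restrict_span_nondeg h2 A hv1
  have hdim := finrank_orth hn (Submodule.span F {v1})
  have hv10 : v1 ≠ 0 := by
    rintro rfl
    exact hv1 A.Q_zero
  rw [finrank_span_singleton hv10] at hdim
  have hnt' : Nontrivial (A.orth (Submodule.span F {v1})) :=
    Module.nontrivial_of_finrank_pos (R := F) (by omega)
  obtain ⟨⟨v2, hv2⟩, hv2'⟩ := exists_nonsing (A.restrict (A.orth (Submodule.span F {v1})))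
    (nondeg_orth hn hU)
  rw [restrict_Q] at hv2'
  change A.Q v2 ≠ 0 at hv2'
  have h12 := (mem_orth_singleton A).mp hv2
  have hf : (Polynomial.C (A.Q v1) * Polynomial.X ^ 2 : Polynomial F).degree = 2 :=
    Polynomial.degree_C_mul_X_pow 2 hv1
  have hg : (Polynomial.C (A.Q v2) * Polynomial.X ^ 2 + Polynomial.C (-c) :
      Polynomial F).degree = 2 := by
    rw [Polynomial.degree_add_C]
    · exact Polynomial.degree_C_mul_X_pow 2 hv2'
    · rw [Polynomial.degree_C_mul_X_pow 2 hv2']; norm_num
  obtain ⟨a, b, hab⟩ := FiniteField.exists_root_sum_quadratic hf hg (Nat.odd_iff.mp hodd)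
  simp only [Polynomial.eval_mul, Polynomial.eval_C, Polynomial.eval_pow, Polynomial.eval_X,
    Polynomial.eval_add] at hab
  refine ⟨a • v1 + b • v2, ?_⟩
  rw [Q_add', Q_smul', Q_smul', B_smul_smul, h12]
  simp only [mul_zero, add_zero]
  linear_combination hab

/-- `α` a non-square: every nonzero element is a square or `α` times a square -/
theorem sq_or_nonsq [Fintype F] {α : F} (hα : ¬ IsSquare α) {c : F} (hc : c ≠ 0) :
    (∃ x, x * x * c = 1) ∨ (∃ x, x * x * c = α) := by
  classical
  have hα0 : α ≠ 0 := by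
    rintro rfl
    exact hα ⟨0, by simp⟩
  by_cases h : IsSquare c
  · obtain ⟨x, hx⟩ := h
    have hx0 : x ≠ 0 := by
      rintro rfl
      rw [mul_zero] at hx
      exact hc hx
    left
    exact ⟨x⁻¹, by rw [hx]; field_simp⟩
  · right
    have h1 : IsSquare (α * c) := by
      rw [← quadraticChar_one_iff_isSquare (mul_ne_zero hα0 hc), map_mul,
          quadraticChar_neg_one_iff_not_isSquare.mpr h,
          quadraticChar_neg_one_iff_not_isSquare.mpr hα]
      norm_num
    obtain ⟨y, hy⟩ := h1
    exact ⟨y / c, by field_simp; rw [sq, ← hy]; ring⟩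

/-- splitting off a vector from a basis -/
theorem exists_cons_basis (h2 : (2 : F) ≠ 0) {V : Type*} [AddCommGroup V] [Module F V]
    (A : Frm F (RingHom.id F) 1 (AddMonoidHom.id F) V) {v : V} (hv : A.Q v ≠ 0) {n : ℕ}
    (b : Module.Basis (Fin n) F (A.orth (Submodule.span F {v}))) :
    ∃ b' : Module.Basis (Fin (n + 1)) F V, b' 0 = v ∧ ∀ i : Fin n, b' i.succ = (b i : V) := by
  have hB : A.B v v ≠ 0 := by rw [B_self]; exact mul_ne_zero h2 hv
  refine ⟨Module.Basis.mkFinCons v b ?_ ?_, ?_, ?_⟩
  · intro c y hy h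
    have h1 : A.B v (c • v + y) = 0 := by rw [h, map_zero]
    rw [map_add, (A.B v).map_smul, (mem_orth_singleton A).mp hy, add_zero, smul_eq_mul] at h1
    exact (mul_eq_zero.mp h1).resolve_right hB
  · intro z
    refine ⟨-(A.B v z / A.B v v), ?_⟩
    rw [mem_orth_singleton, map_add, (A.B v).map_smul, smul_eq_mul, neg_mul,
      div_mul_cancel₀ _ hB, add_neg_cancel]
  · simp [Module.Basis.coe_mkFinCons]
  · intro i
    simp [Module.Basis.coe_mkFinCons]

/-- orthogonal basis with `Q (b i) = 1` for `i < n` and `Q (b n) ∈ {1, α}` -/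
theorem exists_orth_basis [Fintype F] (h2 : (2 : F) ≠ 0) {α : F} (hα : ¬ IsSquare α) :
    ∀ (n : ℕ) {V : Type*} [AddCommGroup V] [Module F V] [FiniteDimensional F V]
    (A : Frm F (RingHom.id F) 1 (AddMonoidHom.id F) V), A.Nondeg → Module.finrank F V = n + 1 →
    ∃ b : Module.Basis (Fin (n + 1)) F V, (∀ i j, i ≠ j → A.B (b i) (b j) = 0) ∧
      (∀ i, i ≠ Fin.last n → A.Q (b i) = 1) ∧ (A.Q (b (Fin.last n)) = 1 ∨
        A.Q (b (Fin.last n)) = α) := by
  intro n
  have hα0 : α ≠ 0 := by
    rintro rfl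
    exact hα ⟨0, by simp⟩
  induction n with
  | zero =>
    intro V _ _ _ A hn hV
    have hnt : Nontrivial V := Module.nontrivial_of_finrank_pos (R := F) (by omega)
    obtain ⟨v, hv⟩ := exists_nonsing A hn
    have key : ∃ w, (A.Q w = 1 ∨ A.Q w = α) := by
      rcases sq_or_nonsq hα hv with ⟨x, hx⟩ | ⟨x, hx⟩
      · exact ⟨x • v, Or.inl (by rw [Q_smul', hx])⟩
      · exact ⟨x • v, Or.inr (by rw [Q_smul', hx])⟩
    obtain ⟨w, hw⟩ := key
    have hwQ : A.Q w ≠ 0 := by
      rcases hw with h | h <;> rw [h]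
      · exact one_ne_zero
      · exact hα0
    have hw0 : w ≠ 0 := by
      rintro rfl
      exact hwQ A.Q_zero
    have hdim := finrank_orth hn (Submodule.span F {w})
    rw [finrank_span_singleton hw0] at hdim
    obtain ⟨b, hb0, _⟩ := exists_cons_basis h2 A hwQ
      (Module.finBasisOfFinrankEq F (A.orth (Submodule.span F {w})) (n := 0) (by omega))
    refine ⟨b, ?_, ?_, ?_⟩
    · intro i j hij
      exact absurd (Fin.ext (by omega)) hij
    · intro i hi
      exact absurd (Fin.ext (by simp [Fin.last])) hi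
    · have : (Fin.last 0) = 0 := rfl
      rw [this, hb0]
      exact hw
  | succ n ih =>
    intro V _ _ _ A hn hV
    obtain ⟨v, hv⟩ := exists_value h2 A hn (by omega) 1
    have hvQ : A.Q v ≠ 0 := by rw [hv]; exact one_ne_zero
    have hv0 : v ≠ 0 := by
      rintro rfl
      exact hvQ A.Q_zero
    have hU := restrict_span_nondeg h2 A hvQ
    have hdim := finrank_orth hn (Submodule.span F {v})
    rw [finrank_span_singleton hv0] at hdim
    obtain ⟨b, h1, h3, h4⟩ := ih (A.restrict (A.orth (Submodule.span F {v})))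
      (nondeg_orth hn hU) (by omega)
    obtain ⟨b', hb0, hbs⟩ := exists_cons_basis h2 A hvQ b
    have ho : ∀ i, A.B v (b i : V) = 0 := fun i => (mem_orth_singleton A).mp (b i).2
    refine ⟨b', ?_, ?_, ?_⟩
    · intro i j
      refine Fin.cases ?_ (fun i => ?_) i <;> refine Fin.cases ?_ (fun j => ?_) j
      · intro h; exact absurd rfl h
      · intro _; rw [hb0, hbs, ho]
      · intro _; rw [hb0, hbs, A.refl (ho _)]
      · intro hij
        rw [hbs, hbs]
        have := h1 i j (fun h => hij (by rw [h]))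
        rwa [restrict_B] at this
    · intro i
      refine Fin.cases ?_ (fun i => ?_) i
      · intro _; rw [hb0, hv]
      · intro hi
        rw [hbs]
        have := h3 i (fun h => hi (by rw [h]; rfl))
        rwa [restrict_Q] at this
    · rw [← Fin.succ_last, hbs]
      rw [restrict_Q] at h4
      exact h4

end Cfsg.Agent.H5.Quad
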