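import Mathlib
import Cfsg.Agent.H5_USim
import Cfsg.Agent.H5_TS
import Cfsg.Agent.H5_Herm
import Cfsg.Agent.H5_Concrete

set_option autoImplicit false
set_option linter.unusedSectionVars false

/-! Parabolic subgroups of `SU_n(q)`. -/

namespace Cfsg.Agent.H5.SUpar

open Matrix Unit Conc Herm Frm

universe u

variable {F : Type u} [Field F] [Fintype F] {q n : ℕ} (hF : Fintype.card F = q ^ 2)

local notation "hh" => Cfsg.hermForm n F q

include hF

theorem hilbert (d : Fˣ) (hd : d ^ (q + 1) = 1) : ∃ l : Fˣ, l ^ (q - 1) = d := by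
  have hq := Fld.one_lt_q hF
  have hU := Fld.card_units_sq hF
  have h : (powMonoidHom (q - 1) : Fˣ →* Fˣ).range = (powMonoidHom (q + 1) : Fˣ →* Fˣ).ker := by
    apply Subgroup.eq_of_le_of_card_ge
    · rintro _ ⟨x, rfl⟩
      rw [MonoidHom.mem_ker, powMonoidHom_apply, powMonoidHom_apply, ← pow_mul, ← hU]
      exact pow_card_eq_one'
    · rw [IsCyclic.card_powMonoidHom_ker, IsCyclic.card_powMonoidHom_range, hU,
        Nat.gcd_eq_right (Dvd.intro_left _ rfl), Nat.gcd_eq_right (Dvd.intro _ rfl),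
        Nat.mul_div_cancel_left _ (by omega)]
  have h1 : d ∈ (powMonoidHom (q + 1) : Fˣ →* Fˣ).ker := by rw [MonoidHom.mem_ker, powMonoidHom_apply, hd]
  rw [← h] at h1
  obtain ⟨l, hl⟩ := h1
  exact ⟨l, hl⟩

/-- a hyperbolic dilation -/
theorem exists_dil {e f : Fin n → F} (he : hh e e = 0) (hf : hh f f = 0) (hef : hh e f = 1) {l m : F} (hlm : m * l ^ q = 1) :
    ∃ g : Cfsg.GU n F q, (g.1 : Matrix (Fin n) (Fin n) F).det = l * m ∧
      ∀ x, (g.1 : Matrix (Fin n) (Fin n) F) *ᵥ x = x + ((l - 1) * hh x f) • e + ((m - 1) * hh x e) • f := by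
  have hq0 : q ≠ 0 := USim.q0 hF
  let U : Matrix (Fin n) (Fin 2) F := Matrix.of fun i => ![e i, f i]
  let V : Matrix (Fin 2) (Fin n) F := Matrix.of ![fun j => (l - 1) * (f j) ^ q, fun j => (m - 1) * (e j) ^ q]
  let M : Matrix (Fin n) (Fin n) F := 1 + U * V
  have hfe : hh f e = 1 := by rw [← herm_swap hF, hef, one_pow]
  have hMx : ∀ x, M *ᵥ x = x + ((l - 1) * hh x f) • e + ((m - 1) * hh x e) • f := by
    intro x
    show (1 + U * V) *ᵥ x = _
    rw [Matrix.add_mulVec, Matrix.one_mulVec, ← Matrix.mulVec_mulVec]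
    have h0 : (V *ᵥ x) 0 = (l - 1) * hh x f := by
      show ∑ j, ((l - 1) * (f j) ^ q) * x j = _
      rw [Cfsg.hermForm, Finset.mul_sum]
      exact Finset.sum_congr rfl (fun j _ => by ring)
    have h1 : (V *ᵥ x) 1 = (m - 1) * hh x e := by
      show ∑ j, ((m - 1) * (e j) ^ q) * x j = _
      rw [Cfsg.hermForm, Finset.mul_sum]
      exact Finset.sum_congr rfl (fun j _ => by ring)
    ext i
    have h2 : (U *ᵥ (V *ᵥ x)) i = e i * (V *ᵥ x) 0 + f i * (V *ᵥ x) 1 := by
      show ∑ j, U i j * (V *ᵥ x) j = _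
      rw [Fin.sum_univ_two]; rfl
    simp only [Pi.add_apply, Pi.smul_apply, smul_eq_mul]
    rw [h2, h0, h1]
    ring
  have hdet : M.det = l * m := by
    show (1 + U * V).det = _
    rw [Matrix.det_one_add_mul_comm, Matrix.det_fin_two]
    have e00 : (1 + V * U : Matrix (Fin 2) (Fin 2) F) 0 0 = l := by
      rw [Matrix.add_apply, Matrix.one_apply_eq, Matrix.mul_apply]
      have : ∑ j, V 0 j * U j 0 = (l - 1) * hh e f := by
        rw [Cfsg.hermForm, Finset.mul_sum]
        exact Finset.sum_congr rfl (fun j _ => by show ((l - 1) * (f j) ^ q) * e j = _; ring)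
      rw [this, hef]; ring
    have e01 : (1 + V * U : Matrix (Fin 2) (Fin 2) F) 0 1 = 0 := by
      rw [Matrix.add_apply, Matrix.one_apply_ne (by decide), Matrix.mul_apply]
      have : ∑ j, V 0 j * U j 1 = (l - 1) * hh f f := by
        rw [Cfsg.hermForm, Finset.mul_sum]
        exact Finset.sum_congr rfl (fun j _ => by show ((l - 1) * (f j) ^ q) * f j = _; ring)
      rw [this, hf]; ring
    have e11 : (1 + V * U : Matrix (Fin 2) (Fin 2) F) 1 1 = m := by
      rw [Matrix.add_apply, Matrix.one_apply_eq, Matrix.mul_apply]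
      have : ∑ j, V 1 j * U j 1 = (m - 1) * hh f e := by
        rw [Cfsg.hermForm, Finset.mul_sum]
        exact Finset.sum_congr rfl (fun j _ => by show ((m - 1) * (e j) ^ q) * f j = _; ring)
      rw [this, hfe]; ring
    rw [e00, e01, e11]; ring
  have hl0 : l ≠ 0 := by rintro rfl; rw [zero_pow hq0, mul_zero] at hlm; exact zero_ne_one hlm
  have hm0 : m ≠ 0 := by rintro rfl; rw [zero_mul] at hlm; exact zero_ne_one hlm
  have hne : M.det ≠ 0 := by rw [hdet]; exact mul_ne_zero hl0 hm0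
  have hml : m ^ q * l = 1 := by
    have h := congrArg (fun x => x ^ q) hlm
    simp only [mul_pow, one_pow, USim.pp hF] at h
    exact h
  have hiso : ∀ x z, hh (M *ᵥ x) (M *ᵥ z) = hh x z := by
    intro x z
    rw [hMx, hMx]
    have e1 : hh e z = (hh z e) ^ q := (herm_swap hF z e).symm
    have e2 : hh f z = (hh z f) ^ q := (herm_swap hF z f).symm
    simp only [herm_add_left, herm_add_right hF, herm_smul_left, herm_smul_right, he, hf, hef, hfe, e1, e2, mul_pow, USim.psub hF, one_pow]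
    linear_combination (hh x e * (hh z f) ^ q) * hlm + (hh x f * (hh z e) ^ q) * hml
  exact ⟨⟨Matrix.GeneralLinearGroup.mkOfDetNeZero M hne, hiso⟩, hdet, hMx⟩

/-- the stabiliser in `GU` -/
def P (n q : ℕ) (W : Submodule F (Fin n → F)) : Subgroup (Cfsg.GU n F q) :=
  (Cfsg.stabilizing (Cfsg.glToMat (Fin n) F) (W : Set (Fin n → F))).subgroupOf (Cfsg.GU n F q)

theorem card_P (W : Submodule F (Fin n → F)) : Nat.card (P n q W) = Nat.card ((Conc.hermFrm hF n).stabW W) := by
  refine Nat.card_congr (Conc.subEquiv (Conc.guEquiv hF n) _ _ (fun g => ?_)).toEquiv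
  rw [mem_stabW]
  rfl

theorem exists_det (hn : 1 ≤ n) (W : Submodule F (Fin n → F)) (hW : ∀ u ∈ W, ∀ v ∈ W, hh u v = 0) (d : Fˣ) (hd : d ^ (q + 1) = 1) :
    ∃ g : Cfsg.GU n F q, g ∈ P n q W ∧ (g.1 : Matrix (Fin n) (Fin n) F).det = d := by
  have hq := Fld.one_lt_q hF
  by_cases hb : W = ⊥
  · obtain ⟨g, hg⟩ := detGU_surjective hF hn ⟨d, hd⟩
    refine ⟨g, ?_, ?_⟩
    · intro v
      rw [hb]
      show v = 0 ↔ (g.1 : Matrix (Fin n) (Fin n) F) *ᵥ v = 0
      constructor
      · rintro rfl; rw [Matrix.mulVec_zero]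
      · intro h
        exact Matrix.eq_zero_of_mulVec_eq_zero ((Matrix.GeneralLinearGroup.det g.1).ne_zero) h
    · have := congrArg (fun z : (powMonoidHom (q + 1) : Fˣ →* Fˣ).ker => ((z : Fˣ) : F)) hg
      exact this
  · obtain ⟨e, heW, he0⟩ := (Submodule.ne_bot_iff _).1 hb
    obtain ⟨f, hf, hef⟩ := USim.exists_partner' hF he0 (hW e heW e heW)
    obtain ⟨l, hl⟩ := hilbert hF d hd
    -- det = l * m with m = l^{-q}; want l^{1-q} = d, so use l⁻¹
    obtain ⟨g, hg1, hg2⟩ := exists_dil hF (l := ((l⁻¹ : Fˣ) : F)) (m := ((l ^ q : Fˣ) : F)) (hW e heW e heW) hf hef (by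
      rw [← Units.val_pow_eq_pow_val, ← Units.val_mul, inv_pow, mul_inv_cancel, Units.val_one])
    refine ⟨g, ?_, ?_⟩
    · intro v
      have key : ∀ v ∈ W, (g.1 : Matrix (Fin n) (Fin n) F) *ᵥ v ∈ W := by
        intro v hv
        rw [hg2, hW v hv e heW, mul_zero, zero_smul, add_zero]
        exact W.add_mem hv (W.smul_mem _ heW)
      constructor
      · intro hv
        exact key v hv
      · intro hv
        -- finite dimension: g W = W
        have hinj : Function.Injective (Matrix.mulVecLin (g.1 : Matrix (Fin n) (Fin n) F)) := by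
          rw [← LinearMap.ker_eq_bot, Submodule.eq_bot_iff]
          intro x hx
          exact Matrix.eq_zero_of_mulVec_eq_zero ((Matrix.GeneralLinearGroup.det g.1).ne_zero) hx
        have hmap : W.map (Matrix.mulVecLin (g.1 : Matrix (Fin n) (Fin n) F)) = W := by
          apply Submodule.eq_of_le_of_finrank_eq
          · rintro _ ⟨x, hx, rfl⟩
            exact key x hx
          · exact ((Submodule.equivMapOfInjective _ hinj W).finrank_eq).symm
        have hv' : Cfsg.glToMat (Fin n) F g.1 *ᵥ v ∈ W := hv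
        rw [← hmap] at hv'
        obtain ⟨x, hx, hxv⟩ := hv'
        have : x = v := hinj hxv
        rwa [← this]
    · rw [hg1, ← Units.val_mul]
      congr 1
      rw [← hl, inv_mul_eq_iff_eq_mul, ← pow_succ']
      congr 1
      omega

theorem card_SUstab (hn : 1 ≤ n) (W : Submodule F (Fin n → F)) (hW : ∀ u ∈ W, ∀ v ∈ W, hh u v = 0) :
    (q + 1) * Nat.card ↥((Cfsg.stabilizing (Cfsg.slToMat n F) (W : Set (Fin n → F))).subgroupOf (Cfsg.SU n F q)) =
      Nat.card (P n q W) := by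
  let δ : P n q W →* (powMonoidHom (q + 1) : Fˣ →* Fˣ).ker := (detGU n F hF).comp (P n q W).subtype
  have hδ : Function.Surjective δ := by
    rintro ⟨d, hd⟩
    rw [MonoidHom.mem_ker, powMonoidHom_apply] at hd
    obtain ⟨g, hgP, hg⟩ := exists_det hF hn W hW d hd
    refine ⟨⟨g, hgP⟩, ?_⟩
    apply Subtype.ext
    apply Units.ext
    exact hg
  have h1 := δ.ker.index_mul_card
  rw [Subgroup.index_ker, MonoidHom.range_eq_top.mpr hδ, Nat.card_congr (Subgroup.topEquiv).toEquiv, Fld.card_norm_ker hF] at h1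
  rw [← h1]
  congr 1
  apply Nat.card_congr
  refine
    { toFun := fun s => ⟨⟨suHom n F q s.1, s.2⟩, ?_⟩
      invFun := fun g => ⟨⟨⟨(g.1.1.1 : Matrix (Fin n) (Fin n) F), ?_⟩, g.1.1.2⟩, g.1.2⟩
      left_inv := fun s => rfl
      right_inv := fun g => ?_ }
  · rw [MonoidHom.mem_ker]
    apply Subtype.ext
    apply Units.ext
    exact s.1.1.2
  · have := congrArg (fun z : (powMonoidHom (q + 1) : Fˣ →* Fˣ).ker => ((z : Fˣ) : F)) (MonoidHom.mem_ker.1 g.2)
    exact this
  · apply Subtype.ext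
    apply Subtype.ext
    apply Subtype.ext
    apply Units.ext
    rfl

theorem main (k : ℕ) (hn : 1 ≤ n) (hk : 2 * k ≤ n) (W : Submodule F (Fin n → F)) (hWk : Module.finrank F W = k)
    (hW : ∀ u ∈ W, ∀ v ∈ W, hh u v = 0) :
    (q + 1) * Nat.card ↥((Cfsg.stabilizing (Cfsg.slToMat n F) (W : Set (Fin n → F))).subgroupOf (Cfsg.SU n F q)) =
      q ^ (k * (2 * n - 3 * k)) * (∏ i : Fin k, ((q ^ 2) ^ k - (q ^ 2) ^ (i : ℕ))) * Herm.guOrd q (n - 2 * k) := by
  have hq := Fld.one_lt_q hF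
  rw [card_SUstab hF hn W hW, card_P hF W]
  obtain ⟨m, hm⟩ : ∃ m, m = n / 2 - k := ⟨_, rfl⟩
  obtain ⟨a, ha⟩ : ∃ a, a = n % 2 := ⟨_, rfl⟩
  have hna : n = 2 * (m + k) + a := by omega
  have ha2 : a ≤ 1 := by omega
  have hwd : WittDec (m + k) a (Conc.hermFrm hF n) := by
    have := Herm.exists_wittDec' n (Conc.hermFrm hF n) (hermFrm_isHerm hF n) (hermFrm_nondeg hF n) (Module.finrank_fin_fun F)
    rwa [show n / 2 = m + k by omega, ← ha] at this
  have h1 := WittDec.card_stabW a k m (Conc.hermFrm hF n) (hermFrm_nondeg hF n) hwd (if a = 0 then 1 else q + 1)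
    (fun A _ h h' => Herm.card_isom_le_one a ha2 A h h') hWk (fun v hv => hW v hv v hv)
    (fun v hv w hw => hW w hw v hv)
  rw [h1, Frm.kt_trace hF, hF]
  have h2 := Herm.ordProd_gu (q := q) (by omega) (n - 2 * k)
  rw [show (n - 2 * k) % 2 = a by omega, show (n - 2 * k) / 2 = m by omega] at h2
  rw [h2, Frm.fixProd]
  have e : q ^ (k * (2 * n - 3 * k)) = q ^ k * (q ^ 2) ^ (2 * m * k + a * k + k * (k - 1) / 2) := by
    rw [← pow_mul, ← pow_add]
    congr 1
    have h3 : 2 * (k * (k - 1) / 2) = k * (k - 1) := Nat.mul_div_cancel' (Nat.even_mul_pred_self k).two_dvd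
    rw [mul_add, h3, show 2 * n - 3 * k = 4 * m + k + 2 * a by omega]
    rcases k with _ | k
    · simp
    · simp only [Nat.add_sub_cancel]
      ring
  rw [e]
  ring

end Cfsg.Agent.H5.SUpar
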