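import Cfsg.Agent.H5_Sp4e
import Cfsg.Prelude.Def_KGroupFacts

set_option autoImplicit false

/-! The outer automorphism group of `Sp₄` in characteristic two. -/

namespace Cfsg.Agent.H5.Sp4o

open Matrix Cfsg.Agent.H5.Symp Cfsg.Agent.H5.Conc Cfsg.Agent.H5.Sp4e
open Cfsg.Agent.H16.PSp Cfsg.Agent.H16.Gam Cfsg.Agent.H16.AutG Cfsg.Agent.H16.AutL

variable {F : Type*} [Field F]

local notation "V" => (Fin 2 ⊕ Fin 2 → F)
local notation "Sp" => Matrix.symplecticGroup (Fin 2) F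
local notation "bb" => Cfsg.sympForm 2 F

theorem cmp_cmp_T (h2 : (2 : F) = 0) (v : V) (i j : Fin 2 ⊕ Fin 2) : Sp4e.cmp (Sp4e.cmp (T v 1 : Sp).1) i j = ((T v 1 : Sp).1 i j) ^ 2 := by
  have hch : CharP F 2 := CharTwo.of_one_ne_zero_of_two_eq_zero one_ne_zero h2
  obtain ⟨k0, k1, k2, k3⟩ := Jv v
  rcases i with i | i <;> rcases j with j | j <;> fin_cases i <;> fin_cases j <;>
    simp only [Fin.zero_eta, Fin.mk_one, Sp4e.cmp, Matrix.of_apply, P0, P1, P2, P3, T_entry, k0, k1, k2, k3] <;>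
    simp <;> grind

theorem cmp_cmp [Finite F] (h2 : (2 : F) = 0) (g : Sp) : ∀ i j, Sp4e.cmp (Sp4e.cmp g.1) i j = (g.1 i j) ^ 2 := by
  have hch : CharP F 2 := CharTwo.of_one_ne_zero_of_two_eq_zero one_ne_zero h2
  have hg : g ∈ H 2 F := by rw [H_eq_top]; trivial
  have hT : ∀ (w : V) (c : F), ∀ i j, Sp4e.cmp (Sp4e.cmp (T w c : Sp).1) i j = ((T w c : Sp).1 i j) ^ 2 := by
    intro w c
    obtain ⟨u, hu⟩ := T_eq_T1 h2 w c
    rw [hu]
    exact cmp_cmp_T h2 u
  rw [H] at hg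
  induction hg using Subgroup.closure_induction with
  | mem s hs =>
    obtain ⟨w, c, hwc⟩ := hs
    have : s = T w c := Subtype.ext hwc
    rw [this]
    exact hT w c
  | one =>
    intro i j
    change Sp4e.cmp (Sp4e.cmp (1 : Matrix (Fin 2 ⊕ Fin 2) (Fin 2 ⊕ Fin 2) F)) i j = ((1 : Matrix (Fin 2 ⊕ Fin 2) (Fin 2 ⊕ Fin 2) F) i j) ^ 2
    rw [cmp_one, cmp_one, Matrix.one_apply]
    split_ifs <;> simp
  | mul s t _ _ hs ht =>
    intro i j
    change Sp4e.cmp (Sp4e.cmp (s.1 * t.1)) i j = ((s.1 * t.1) i j) ^ 2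
    rw [cmp_mul h2 s.2 t.2, cmp_mul h2 (cmp_mem h2 s.2) (cmp_mem h2 t.2), Matrix.mul_apply, Matrix.mul_apply,
      ← frobenius_def (R := F) 2, map_sum]
    refine Finset.sum_congr rfl fun k _ => ?_
    rw [hs, ht, map_mul, frobenius_def, frobenius_def]
  | inv s _ hs =>
    intro i j
    have h1 : ∀ s : Sp, (∀ i j, Sp4e.cmp (Sp4e.cmp s.1) i j = (s.1 i j) ^ 2) → phi h2 (phi h2 s) =
        phi h2 (phi h2 s) := fun _ _ => rfl
    -- the matrix of the square
    have hfr : (s.1.map (fun x => x ^ 2)) * (s⁻¹.1.map (fun x => x ^ 2)) = 1 := by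
      ext a b
      have h3 := congrFun (congrFun (congrArg Subtype.val (mul_inv_cancel s)) a) b
      change (s.1 * s⁻¹.1) a b = (1 : Matrix (Fin 2 ⊕ Fin 2) (Fin 2 ⊕ Fin 2) F) a b at h3
      have h4 := congrArg (fun x => frobenius F 2 x) h3
      simp only [Matrix.mul_apply, map_sum, map_mul, frobenius_def] at h4
      rw [Matrix.mul_apply]
      simp only [Matrix.map_apply]
      rw [h4, Matrix.one_apply]
      split_ifs <;> simp
    have hs' : Sp4e.cmp (Sp4e.cmp s.1) = s.1.map (fun x => x ^ 2) := by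
      ext a b
      rw [hs, Matrix.map_apply]
    have h5 : Sp4e.cmp (Sp4e.cmp s.1) * Sp4e.cmp (Sp4e.cmp s⁻¹.1) = 1 := by
      rw [← cmp_mul h2 (cmp_mem h2 s.2) (cmp_mem h2 s⁻¹.2), ← cmp_mul h2 s.2 s⁻¹.2]
      have h3 : s.1 * s⁻¹.1 = 1 := congrArg Subtype.val (mul_inv_cancel s)
      rw [h3, cmp_one, cmp_one]
    rw [hs'] at h5
    have h6 : Sp4e.cmp (Sp4e.cmp s⁻¹.1) = s⁻¹.1.map (fun x => x ^ 2) := by
      have h7 := mul_eq_one_comm.mp h5
      calc Sp4e.cmp (Sp4e.cmp s⁻¹.1) = Sp4e.cmp (Sp4e.cmp s⁻¹.1) * (s.1.map (fun x => x ^ 2) * s⁻¹.1.map (fun x => x ^ 2)) := by rw [hfr, mul_one]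
        _ = _ := by rw [← mul_assoc, h7, one_mul]
    rw [h6, Matrix.map_apply]

/-- the graph automorphism. -/
noncomputable def gr [Finite F] (h2 : (2 : F) = 0) : MulAut (Cfsg.PSp 2 F) := (lf h2).symm (phE h2)

/-- the Frobenius. -/
noncomputable def fr [Finite F] (h2 : (2 : F) = 0) : F ≃+* F :=
  have : CharP F 2 := CharTwo.of_one_ne_zero_of_two_eq_zero one_ne_zero h2
  frobeniusEquiv F 2

theorem fr_apply [Finite F] (h2 : (2 : F) = 0) (x : F) : fr h2 x = x ^ 2 := rfl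

theorem gr_apply [Finite F] (h2 : (2 : F) = 0) (s : Sp) : gr h2 (QuotientGroup.mk s : Cfsg.PSp 2 F) = QuotientGroup.mk (phi h2 s) := by
  change (lf h2).symm (phE h2) (pe h2 s) = pe h2 (phi h2 s)
  rw [← lf_spec, MulEquiv.apply_symm_apply, phE_apply]

theorem gr_sq [Finite F] (h2 : (2 : F) = 0) : gr h2 * gr h2 =
    (fam (le_refl 2) F).T (Fam.fin (fam_hasField (le_refl 2)) (fr h2)) := by
  ext1 s
  induction s using QuotientGroup.induction_on with
  | H s =>
    rw [MulAut.mul_apply]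
    change gr h2 (gr h2 (QuotientGroup.mk s : Cfsg.PSp 2 F)) = (fam (le_refl 2) F).T _ (QuotientGroup.mk s)
    rw [gr_apply, gr_apply, Fam.T_mk]
    congr 1
    apply (fam (le_refl 2) F).inj
    rw [rho_tr, act_apply, Fam.coe_fin, SemidirectProduct.left_inr, SemidirectProduct.right_inr, one_mul, inv_one, mul_one]
    apply Units.ext
    ext i j
    change Sp4e.cmp (Sp4e.cmp s.1) i j = fr h2 (s.1 i j)
    rw [cmp_cmp h2, fr_apply]

theorem orderOf_fr [Fintype F] (h2 : (2 : F) = 0) {f : ℕ} (hf : 1 ≤ f) (hF : Fintype.card F = 2 ^ f) : orderOf (fr h2) = f := by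
  have : CharP F 2 := CharTwo.of_one_ne_zero_of_two_eq_zero one_ne_zero h2
  have hpow : ∀ k (x : F), (fr h2 ^ k) x = x ^ 2 ^ k := by
    intro k
    induction k with
    | zero => intro x; simp
    | succ k ih =>
      intro x
      rw [pow_succ', RingAut.mul_apply, ih, fr_apply, ← pow_mul, pow_succ]
  apply Nat.dvd_antisymm
  · apply orderOf_dvd_of_pow_eq_one
    ext x
    rw [hpow, ← hF, FiniteField.pow_card]
    rfl
  · -- the order is at least f
    set d := orderOf (fr h2) with hd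
    have hd0 : 0 < d := orderOf_pos _
    have h1 : ∀ x : F, x ^ 2 ^ d = x := by
      intro x
      rw [← hpow, hd, pow_orderOf_eq_one]
      rfl
    have h3 : d ∣ f := by
      apply orderOf_dvd_of_pow_eq_one
      ext x
      rw [hpow, ← hF, FiniteField.pow_card]
      rfl
    have h4 : Fintype.card F ≤ 2 ^ d := by
      by_contra hcon
      push Not at hcon
      have h5 : (Polynomial.X ^ 2 ^ d - Polynomial.X : Polynomial F) ≠ 0 := FiniteField.X_pow_card_pow_sub_X_ne_zero F hd0.ne' (by norm_num)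
      have h6 := Polynomial.card_le_degree_of_subset_roots (p := (Polynomial.X ^ 2 ^ d - Polynomial.X : Polynomial F)) (Z := Finset.univ) (by
        intro x _
        rw [Polynomial.mem_roots h5, Polynomial.IsRoot, Polynomial.eval_sub, Polynomial.eval_pow, Polynomial.eval_X, h1, sub_self])
      rw [FiniteField.X_pow_card_pow_sub_X_natDegree_eq F hd0.ne' (by norm_num), Finset.card_univ] at h6
      omega
    rw [hF] at h4
    have h5 : f ≤ d := (Nat.pow_le_pow_iff_right (by norm_num)).mp h4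
    exact (Nat.dvd_antisymm h3 (by
      have := Nat.le_of_dvd (by omega) h3
      rw [show d = f by omega])) ▸ dvd_rfl

theorem center_PSp (h2 : (2 : F) = 0) : Subgroup.center (Cfsg.PSp 2 F) = ⊥ := by
  rw [eq_bot_iff]
  intro x hx
  obtain ⟨s, rfl⟩ := (pe h2).surjective x
  have h1 : s ∈ Subgroup.center Sp := by
    rw [Subgroup.mem_center_iff] at hx ⊢
    intro g
    apply (pe h2).injective
    rw [map_mul, map_mul]
    exact hx (pe h2 g)
  rw [center_bot h2, Subgroup.mem_bot] at h1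
  rw [h1, map_one]
  exact one_mem _

theorem card_Inn [Finite F] (h2 : (2 : F) = 0) : Nat.card (Cfsg.Inn (Cfsg.PSp 2 F)) = Nat.card Sp := by
  have h1 : Function.Injective (MulAut.conj : Cfsg.PSp 2 F →* MulAut (Cfsg.PSp 2 F)) := by
    rw [← MonoidHom.ker_eq_bot_iff, eq_bot_iff]
    intro x hx
    rw [← center_PSp h2, Subgroup.mem_center_iff]
    intro g
    have h3 := congrArg (fun α : MulAut (Cfsg.PSp 2 F) => α g) (MonoidHom.mem_ker.mp hx)
    simp only [MulAut.conj_apply, MulAut.one_apply] at h3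
    exact (mul_inv_eq_iff_eq_mul.mp h3).symm
  rw [← Nat.card_congr (MonoidHom.ofInjective h1).toEquiv]
  exact (Nat.card_congr (pe h2).toEquiv).symm

theorem main [Fintype F] {f : ℕ} (hf : 1 ≤ f) (hF : Fintype.card F = 2 ^ f) :
    IsCyclic (Cfsg.Out (Cfsg.PSp 2 F)) ∧ Nat.card (Cfsg.Out (Cfsg.PSp 2 F)) = 2 * f := by
  have hp : Fact (Nat.Prime 2) := ⟨Nat.prime_two⟩
  have h2 : (2 : F) = 0 := by
    rcases AutO.two_dich hF hf with ⟨-, h⟩ | ⟨h, -⟩
    · exact h
    · exact absurd rfl h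
  have hcf : Nat.card (F ≃+* F) = f := Cfsg.Agent.H16.FAut.card_ringAut (p := 2)
    (by rw [Nat.card_eq_fintype_card, hF]) hf
  have hfin : Finite (MulAut (Cfsg.PSp 2 F)) := inferInstance
  have hcard : Nat.card (Cfsg.Out (Cfsg.PSp 2 F)) = 2 * f := by
    have h1 := (Cfsg.Inn (Cfsg.PSp 2 F)).card_mul_index
    have h3 := ((fam (le_refl 2) F).T).range.card_mul_index
    rw [index_two h2, range_card, hcf] at h3
    have h4 : Nat.card (MulAut (Cfsg.PSp 2 F)) = Nat.card Sp * f * 2 := h3.symm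
    rw [h4, card_Inn h2] at h1
    have h5 : 0 < Nat.card Sp := Nat.card_pos
    have h6 : (Cfsg.Inn (Cfsg.PSp 2 F)).index = f * 2 := Nat.eq_of_mul_eq_mul_left h5 (by rw [h1]; ring)
    change (Cfsg.Inn (Cfsg.PSp 2 F)).index = _
    rw [h6, mul_comm]
  refine ⟨?_, hcard⟩
  set c : Cfsg.Out (Cfsg.PSp 2 F) := QuotientGroup.mk (gr h2) with hc
  have hfinO : Finite (Cfsg.Out (Cfsg.PSp 2 F)) := Nat.finite_of_card_ne_zero (by rw [hcard]; omega)
  set φ := Fam.fin (fam_hasField (F := F) (le_refl 2)) with hφ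
  have hD : (fam (le_refl 2) F).D = Cfsg.Inn (Cfsg.PSp 2 F) := even_inn (le_refl 2) h2
  have hev : ∀ k, gr h2 ^ (2 * k) = (fam (le_refl 2) F).T (φ (fr h2 ^ k)) := by
    intro k
    rw [pow_mul, sq, gr_sq, map_pow, map_pow]
  have hmem : ∀ k, gr h2 ^ (2 * k) ∈ Cfsg.Inn (Cfsg.PSp 2 F) → f ∣ k := by
    intro k hk
    rw [hev, ← hD] at hk
    have h3 := Fam.fin_mem_D _ hk
    rw [← orderOf_fr h2 hf hF]
    exact orderOf_dvd_of_pow_eq_one h3
  have hodd : ∀ k, gr h2 ^ (2 * k + 1) ∉ Cfsg.Inn (Cfsg.PSp 2 F) := by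
    intro k hk
    apply phE_notMem h2
    have h3 : gr h2 ^ (2 * k + 1) ∈ ((fam (le_refl 2) F).T).range := by
      rw [← hD] at hk
      obtain ⟨g, hg⟩ := hk
      exact ⟨_, hg⟩
    have h4 : gr h2 ^ (2 * k) ∈ ((fam (le_refl 2) F).T).range := ⟨_, (hev k).symm⟩
    have h5 : gr h2 = (gr h2 ^ (2 * k))⁻¹ * gr h2 ^ (2 * k + 1) := by
      rw [pow_succ, inv_mul_cancel_left]
    change gr h2 ∈ _
    rw [h5]
    exact mul_mem (inv_mem h4) h3
  have hord : orderOf c = 2 * f := by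
    apply Nat.dvd_antisymm
    · rw [← hcard]
      exact orderOf_dvd_natCard c
    · have h3 : c ^ orderOf c = 1 := pow_orderOf_eq_one c
      have h4 : gr h2 ^ orderOf c ∈ Cfsg.Inn (Cfsg.PSp 2 F) := by
        rw [← QuotientGroup.eq_one_iff]
        exact h3
      rcases Nat.even_or_odd' (orderOf c) with ⟨k, hk | hk⟩
      · rw [hk] at h4 ⊢
        exact Nat.mul_dvd_mul_left 2 (hmem k h4)
      · rw [hk] at h4
        exact absurd h4 (hodd k)
  exact isCyclic_of_orderOf_eq_card c (by rw [hord, hcard])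


end Cfsg.Agent.H5.Sp4o
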