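import Mathlib
import Cfsg.Agent.H5_Fld1

set_option autoImplicit false

/-! invariant subspaces of elements of prime order in linear groups -/

namespace Cfsg.Agent.H5.Spa

open Matrix Module Polynomial Cfsg.Agent.H5.Fld

section count
variable {F V : Type*} [Field F] [Fintype F] [AddCommGroup V] [Module F V] [FiniteDimensional F V]

theorem card_grass (k : ℕ) (hk : k ≤ finrank F V) :
    Nat.card {W : Submodule F V // finrank F W = k} * ∏ i : Fin k, (Fintype.card F ^ k - Fintype.card F ^ (i : ℕ)) =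
      ∏ i : Fin k, (Fintype.card F ^ (finrank F V) - Fintype.card F ^ (i : ℕ)) := by
  classical
  haveI : Finite V := Module.finite_of_finite F
  rw [← card_linearIndependent (K := F) (V := V) hk]
  have key2 : ∀ (W : Submodule F V) (_ : Module.finrank F W = k) (s : Fin k → W)
      (_ : LinearIndependent F s), Submodule.span F (Set.range (fun i => (s i : V))) = W := by
    intro W hW s hs
    apply Submodule.eq_of_le_of_finrank_eq
    · rw [Submodule.span_le]
      rintro _ ⟨i, rfl⟩
      exact (s i).2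
    · have hs' : LinearIndependent F (fun i => (s i : V)) := hs.map' W.subtype (by simp)
      rw [finrank_span_eq_card hs', Fintype.card_fin, hW]
  let e : {s : Fin k → V // LinearIndependent F s} ≃
      (Σ W : {W : Submodule F V // finrank F W = k}, {s : Fin k → W.1 // LinearIndependent F s}) :=
    { toFun := fun v => ⟨⟨Submodule.span F (Set.range v.1), by rw [finrank_span_eq_card v.2, Fintype.card_fin]⟩,
        ⟨fun i => ⟨v.1 i, Submodule.subset_span ⟨i, rfl⟩⟩,
        LinearIndependent.of_comp (Submodule.subtype _) v.2⟩⟩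
      invFun := fun p => ⟨fun i => (p.2.1 i : V), p.2.2.map' p.1.1.subtype (by simp)⟩
      left_inv := fun v => rfl
      right_inv := fun p => by
        obtain ⟨⟨W, hW⟩, ⟨s, hs⟩⟩ := p
        have h1 := key2 W hW s hs
        refine Sigma.ext (Subtype.ext h1) ?_
        simp only
        have : ∀ (W' : Submodule F V) (hW' : Module.finrank F W' = k) (hWW : W' = W)
          (hm : ∀ i, (s i : V) ∈ W') (hli : LinearIndependent F (fun i => (⟨s i, hm i⟩ : W'))),
          HEq (⟨fun i => (⟨s i, hm i⟩ : W'), hli⟩ : {s : Fin k → W' // LinearIndependent F s})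
            (⟨s, hs⟩ : {s : Fin k → W // LinearIndependent F s}) := by
          intro W' hW' hWW hm hli
          subst hWW
          rfl
        exact this _ (by rw [h1]; exact hW) h1 _ _ }
  have hfin2 : Finite (Submodule F V) := Finite.of_injective (fun W : Submodule F V => (W : Set V))
    SetLike.coe_injective
  have hfin3 : Fintype {W : Submodule F V // Module.finrank F W = k} := Fintype.ofFinite _
  rw [Nat.card_congr e, Nat.card_sigma]
  have h4 : ∀ W : {W : Submodule F V // Module.finrank F W = k},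
      Nat.card {s : Fin k → W.1 // LinearIndependent F s} =
      ∏ i : Fin k, (Fintype.card F ^ k - Fintype.card F ^ (i : ℕ)) := by
    intro W
    have h2 := card_linearIndependent (K := F) (V := W.1) (k := k) (by rw [W.2])
    rwa [W.2] at h2
  rw [Finset.sum_congr rfl (fun W _ => h4 W), Finset.sum_const, Finset.card_univ, smul_eq_mul,
    Nat.card_eq_fintype_card]

/-- the q-factorial -/
def fac (q n : ℕ) : ℕ := ∏ i ∈ Finset.range n, (q ^ (i + 1) - 1)

theorem fac_pos {q : ℕ} (hq : 2 ≤ q) (n : ℕ) : 0 < fac q n :=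
  Finset.prod_pos fun i _ => Nat.sub_pos_of_lt (Nat.one_lt_pow (by omega) (by omega))

theorem fac_succ (q n : ℕ) : fac q (n + 1) = fac q n * (q ^ (n + 1) - 1) := by
  unfold fac
  rw [Finset.prod_range_succ]

theorem prodA {q : ℕ} (n k : ℕ) (hk : k ≤ n) :
    (∏ i ∈ Finset.range k, (q ^ n - q ^ i)) * fac q (n - k) = q ^ (∑ i ∈ Finset.range k, i) * fac q n := by
  induction k with
  | zero => simp
  | succ k ih =>
    rw [Finset.prod_range_succ, Finset.sum_range_succ]
    have h1 : q ^ n - q ^ k = q ^ k * (q ^ (n - k) - 1) := by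
      rw [Nat.mul_sub, ← pow_add, Nat.add_sub_cancel' (by omega), mul_one]
    have h2 : n - k = (n - (k + 1)) + 1 := by omega
    have h3 := ih (by omega)
    rw [h2, fac_succ, ← h2] at h3
    rw [h1, pow_add]
    calc _ = ((∏ i ∈ Finset.range k, (q ^ n - q ^ i)) * (fac q (n - (k + 1)) * (q ^ (n - k) - 1))) * q ^ k := by ring
      _ = _ := by rw [h3]; ring

theorem card_grass' {q : ℕ} (hq : Fintype.card F = q) (k : ℕ) (hk : k ≤ finrank F V) :
    Nat.card {W : Submodule F V // finrank F W = k} * (fac q k * fac q (finrank F V - k)) = fac q (finrank F V) := by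
  have h1 := card_grass (F := F) (V := V) k hk
  rw [hq, Fin.prod_univ_eq_prod_range (fun i => q ^ k - q ^ i) k,
    Fin.prod_univ_eq_prod_range (fun i => q ^ (finrank F V) - q ^ i) k] at h1
  have h2 := prodA (q := q) k k le_rfl
  have h3 := prodA (q := q) (finrank F V) k hk
  rw [Nat.sub_self, show fac q 0 = 1 from rfl, mul_one] at h2
  rw [← h1, h2] at h3
  have hq0 : 0 < q := by rw [← hq]; exact Fintype.card_pos
  apply Nat.eq_of_mul_eq_mul_left (pow_pos hq0 (∑ i ∈ Finset.range k, i))
  rw [← h3]; ring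

theorem card_flag {q : ℕ} (hq : Fintype.card F = q) (m : ℕ) (hm : 2 * m ≤ finrank F V) :
    Nat.card {P : Submodule F V × Submodule F V // P.1 ≤ P.2 ∧ finrank F ↥P.1 = m ∧ finrank F ↥P.2 = finrank F V - m} *
      (fac q m * fac q m * fac q (finrank F V - 2 * m)) = fac q (finrank F V) := by
  classical
  haveI : Finite V := Module.finite_of_finite F
  have hq2 : 2 ≤ q := by rw [← hq]; exact Fintype.one_lt_card
  set n := finrank F V with hn
  have hfin2 : Finite (Submodule F V) := Finite.of_injective (fun W : Submodule F V => (W : Set V))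
    SetLike.coe_injective
  let e : {P : Submodule F V × Submodule F V // P.1 ≤ P.2 ∧ finrank F ↥P.1 = m ∧ finrank F ↥P.2 = n - m} ≃
      (Σ W : {W : Submodule F V // finrank F W = n - m}, {U : Submodule F W.1 // finrank F U = m}) :=
    { toFun := fun P => ⟨⟨P.1.2, P.2.2.2⟩, ⟨P.1.1.comap P.1.2.subtype, by
        rw [LinearEquiv.finrank_eq (Submodule.comapSubtypeEquivOfLe P.2.1)]; exact P.2.2.1⟩⟩
      invFun := fun p => ⟨(p.2.1.map p.1.1.subtype, p.1.1), Submodule.map_subtype_le _ _, by
        rw [Submodule.finrank_map_subtype_eq]; exact p.2.2, p.1.2⟩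
      left_inv := fun P => by
        apply Subtype.ext
        apply Prod.ext
        · show Submodule.map _ (Submodule.comap _ _) = _
          rw [Submodule.map_comap_subtype, inf_eq_right.2 P.2.1]
        · rfl
      right_inv := fun p => by
        refine Sigma.ext rfl ?_
        apply heq_of_eq
        apply Subtype.ext
        exact Submodule.comap_map_eq_of_injective p.1.1.injective_subtype p.2.1 }
  have hfin3 : Fintype {W : Submodule F V // Module.finrank F W = n - m} := Fintype.ofFinite _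
  rw [Nat.card_congr e, Nat.card_sigma]
  have h4 : ∀ W : {W : Submodule F V // Module.finrank F W = n - m},
      Nat.card {U : Submodule F W.1 // finrank F U = m} * (fac q m * fac q (n - 2 * m)) = fac q (n - m) := by
    intro W
    have := card_grass' (F := F) (V := W.1) hq m (by rw [W.2]; omega)
    rw [W.2, show n - m - m = n - 2 * m by omega] at this
    exact this
  have h5 := card_grass' (F := F) (V := V) hq (n - m) (by omega)
  rw [← hn, show n - (n - m) = m by omega] at h5
  have h6 : (∑ W : {W : Submodule F V // Module.finrank F W = n - m}, Nat.card {U : Submodule F W.1 // finrank F U = m}) *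
      (fac q m * fac q (n - 2 * m)) = Nat.card {W : Submodule F V // finrank F W = n - m} * fac q (n - m) := by
    rw [Finset.sum_mul, Finset.sum_congr rfl (fun W _ => h4 W), Finset.sum_const, Finset.card_univ, smul_eq_mul,
      Nat.card_eq_fintype_card]
  calc _ = ((∑ W : {W : Submodule F V // Module.finrank F W = n - m}, Nat.card {U : Submodule F W.1 // finrank F U = m}) *
      (fac q m * fac q (n - 2 * m))) * fac q m := by ring
    _ = _ := by rw [h6, ← h5]; ring

theorem dvd_of_dvd_fac {q r n k : ℕ} (hq : 2 ≤ q) (hr : r.Prime) (hk : k ≤ n) (a b : ℕ)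
    (h : a * (b * fac q (n - k)) = fac q n) (hra : r ∣ a) : ∃ t, n - k < t ∧ t ≤ n ∧ r ∣ q ^ t - 1 := by
  obtain ⟨s, rfl⟩ := Nat.exists_eq_add_of_le hk
  rw [show k + s - k = s by omega] at h ⊢
  have h1 : fac q (k + s) = fac q s * ∏ i ∈ Finset.range k, (q ^ (s + i + 1) - 1) := by
    rw [add_comm k s]
    unfold fac
    rw [Finset.prod_range_add]
  rw [h1] at h
  have h2 : a * b = ∏ i ∈ Finset.range k, (q ^ (s + i + 1) - 1) := by
    apply Nat.eq_of_mul_eq_mul_left (fac_pos hq s)
    rw [← h]; ring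
  have h3 : r ∣ ∏ i ∈ Finset.range k, (q ^ (s + i + 1) - 1) := h2 ▸ dvd_mul_of_dvd_left hra b
  obtain ⟨i, hi, hi2⟩ := (hr.prime.dvd_finset_prod_iff _).1 h3
  rw [Finset.mem_range] at hi
  exact ⟨s + i + 1, by omega, by omega, hi2⟩

theorem order_dvd {q r t : ℕ} [Fact r.Prime] (hq : 2 ≤ q) (h : r ∣ q ^ t - 1) : orderOf (q : ZMod r) ∣ t := by
  apply orderOf_dvd_of_pow_eq_one
  have h1 : 1 ≤ q ^ t := Nat.one_le_pow _ _ (by omega)
  have h2 : ((q ^ t - 1 : ℕ) : ZMod r) = 0 := (ZMod.natCast_eq_zero_iff _ _).2 h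
  rw [Nat.cast_sub h1] at h2
  push_cast at h2
  exact sub_eq_zero.1 h2

theorem dvd_of_order {q r t : ℕ} [Fact r.Prime] (hq : 2 ≤ q) (h : orderOf (q : ZMod r) ∣ t) : r ∣ q ^ t - 1 := by
  have h1 : 1 ≤ q ^ t := Nat.one_le_pow _ _ (by omega)
  rw [← ZMod.natCast_eq_zero_iff, Nat.cast_sub h1]
  push_cast
  rw [orderOf_dvd_iff_pow_eq_one.1 h, sub_self]

end count

section inv
variable {F : Type*} [Field F]

theorem exists_sub_dim {V : Type*} [AddCommGroup V] [Module F V] [FiniteDimensional F V] {n : ℕ}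
    (hn : n ≤ finrank F V) : ∃ T : Submodule F V, finrank F T = n := by
  refine ⟨Submodule.span F (Set.range (fun i : Fin n => Module.finBasis F V (Fin.castLE hn i))), ?_⟩
  rw [finrank_span_eq_card, Fintype.card_fin]
  exact (Module.finBasis F V).linearIndependent.comp _ (Fin.castLE_injective hn)

theorem exists_cyc {V : Type*} [AddCommGroup V] [Module F V] [FiniteDimensional F V] (y : Module.End F V) (f : F[X])
    (hf : Irreducible f) (v : V) (hv : v ≠ 0) (h : aeval y f v = 0) :
    ∃ S : Submodule F V, finrank F S = f.natDegree ∧ S ≤ S.comap y := by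
  let T : F[X] →ₗ[F] V := (LinearMap.applyₗ v).comp (aeval y : F[X] →ₐ[F] Module.End F V).toLinearMap
  have hT : ∀ g, T g = aeval y g v := fun g => rfl
  have hf0 : f ≠ 0 := hf.ne_zero
  have hmod : ∀ g, T (g % f) = T g := by
    intro g
    have h1 := EuclideanDomain.div_add_mod g f
    conv_rhs => rw [← h1]
    rw [map_add, mul_comm, hT (g / f * f), map_mul, Module.End.mul_apply, h, map_zero, zero_add]
  have hinj : ∀ g : F[X], g.degree < f.degree → T g = 0 → g = 0 := by
    intro g hg hTg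
    by_contra hg0
    have hcop : IsCoprime g f := by
      rw [isCoprime_comm]
      apply (hf.coprime_iff_not_dvd).2
      intro hd
      exact absurd (degree_le_of_dvd hd hg0) (not_le.2 hg)
    obtain ⟨a, b, hab⟩ := hcop
    have h1 : aeval y (a * g + b * f) v = v := by rw [hab]; simp
    rw [map_add, map_mul, map_mul, LinearMap.add_apply, Module.End.mul_apply, Module.End.mul_apply, h, map_zero,
      ← hT g, hTg, map_zero, add_zero] at h1
    exact hv h1.symm
  set D := Polynomial.degreeLT F f.natDegree with hD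
  have hmem : ∀ g : F[X], g ∈ D ↔ g.degree < f.degree := by
    intro g
    rw [hD, mem_degreeLT, degree_eq_natDegree hf0]
  refine ⟨LinearMap.range (T.comp D.subtype), ?_, ?_⟩
  · rw [LinearMap.finrank_range_of_inj]
    · rw [LinearEquiv.finrank_eq (Polynomial.degreeLTEquiv F f.natDegree)]; simp
    · rw [← LinearMap.ker_eq_bot, LinearMap.ker_eq_bot']
      intro g hg
      apply Subtype.ext
      exact hinj g.1 ((hmem _).1 g.2) hg
  · rintro _ ⟨g, rfl⟩
    rw [Submodule.mem_comap]
    have h1 : (X * (g : F[X])) % f ∈ D := (hmem _).2 (EuclideanDomain.mod_lt _ hf0)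
    refine ⟨⟨_, h1⟩, ?_⟩
    show T ((X * (g : F[X])) % f) = y (T g)
    rw [hmod, hT, hT, map_mul, aeval_X]; rfl

universe u in
theorem exists_inv (P : F[X]) (hP : P ≠ 0) (d : ℕ) (hd : ∀ f, Irreducible f → f ∣ P → f.natDegree = d) :
    ∀ (b : ℕ) {V : Type u} [AddCommGroup V] [Module F V] [FiniteDimensional F V] (y : Module.End F V)
      (_ : aeval y P = 0), b * d ≤ finrank F V → ∃ U : Submodule F V, finrank F U = b * d ∧ U ≤ U.comap y := by
  intro b
  induction b with
  | zero => intro V _ _ _ y hy hb; exact ⟨⊥, by simp, by simp⟩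
  | succ b ih =>
    intro V _ _ _ y hy hb
    rcases Nat.eq_zero_or_pos d with rfl | hd0
    · exact ⟨⊥, by simp, by simp⟩
    have hV : 0 < finrank F V := lt_of_lt_of_le (by positivity) hb
    haveI : Nontrivial V := Module.nontrivial_of_finrank_pos hV
    -- an irreducible factor
    have hint : IsIntegral F y := Algebra.IsIntegral.isIntegral y
    have hμ : ¬ IsUnit (minpoly F y) := minpoly.not_isUnit F y
    obtain ⟨f, hf, hfd⟩ := WfDvdMonoid.exists_irreducible_factor hμ (minpoly.ne_zero hint)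
    have hfP : f ∣ P := hfd.trans (minpoly.dvd F y hy)
    have hfdeg := hd f hf hfP
    obtain ⟨v, hv, hv2⟩ : ∃ v : V, v ≠ 0 ∧ aeval y f v = 0 := by
      by_contra hno
      push Not at hno
      obtain ⟨g, hg⟩ := hfd
      have hg0 : g ≠ 0 := by rintro rfl; rw [mul_zero] at hg; exact minpoly.ne_zero hint hg
      have h1 : aeval y g = 0 := by
        ext w
        by_contra hw
        have h2 := hno _ hw
        apply h2
        rw [← Module.End.mul_apply, ← map_mul, ← hg, minpoly.aeval, LinearMap.zero_apply]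
      have h2 := minpoly.dvd F y h1
      have h3 := natDegree_le_of_dvd h2 hg0
      rw [hg, natDegree_mul hf.ne_zero hg0, hfdeg] at h3
      omega
    obtain ⟨S, hS, hSy⟩ := exists_cyc y f hf v hv hv2
    rw [hfdeg] at hS
    have hqdim := Submodule.finrank_quotient_add_finrank S
    have h5 : aeval (S.mapQ S y hSy) P = 0 := by
      have h6 : ∀ g : F[X], ∀ w : V, aeval (S.mapQ S y hSy) g (S.mkQ w) = S.mkQ (aeval y g w) := by
        intro g w
        induction g using Polynomial.induction_on' with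
        | add g h hg hh => rw [map_add, map_add, LinearMap.add_apply, LinearMap.add_apply, map_add, hg, hh]
        | monomial n a =>
          rw [aeval_monomial, aeval_monomial, Module.End.mul_apply, Module.End.mul_apply,
            Module.algebraMap_end_apply, Module.algebraMap_end_apply, map_smul]
          congr 1
          induction n with
          | zero => simp
          | succ n ihn => rw [pow_succ', pow_succ', Module.End.mul_apply, Module.End.mul_apply, ihn]; rfl
      ext w
      have h7 := h6 P w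
      rw [hy, LinearMap.zero_apply, map_zero] at h7
      simpa using h7
    obtain ⟨U, hU, hUy⟩ := ih (S.mapQ S y hSy) h5 (by rw [add_mul, one_mul] at hb; omega)
    refine ⟨U.comap S.mkQ, ?_, ?_⟩
    · have h8 := LinearEquiv.finrank_eq (LinearMap.quotKerEquivOfSurjective ((U.mkQ).comp S.mkQ)
        ((Submodule.mkQ_surjective U).comp (Submodule.mkQ_surjective S)))
      have h9 : LinearMap.ker ((U.mkQ).comp S.mkQ) = U.comap S.mkQ := by
        rw [LinearMap.ker_comp, Submodule.ker_mkQ]
      rw [h9] at h8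
      have h10 := Submodule.finrank_quotient_add_finrank (U.comap S.mkQ)
      have h11 := Submodule.finrank_quotient_add_finrank U
      have h12 : (b + 1) * d = b * d + d := by ring
      omega
    · intro w hw
      rw [Submodule.mem_comap] at hw ⊢
      rw [Submodule.mem_comap]
      exact hUy hw

theorem exists_inv2 (P : F[X]) (hP : P ≠ 0) (d : ℕ) (hd : ∀ f, Irreducible f → f ∣ P → f.natDegree = d)
    (a b : ℕ) {V : Type*} [AddCommGroup V] [Module F V] [FiniteDimensional F V] (y : Module.End F V)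
    (hy : aeval y P = 0) (hab : a ≤ b) (hb : b * d ≤ finrank F V) : ∃ U W : Submodule F V, U ≤ W ∧ finrank F U = a * d ∧
      finrank F W = b * d ∧ U ≤ U.comap y ∧ W ≤ W.comap y := by
  obtain ⟨W, hW, hWy⟩ := exists_inv P hP d hd b y hy hb
  have h1 : ∀ g : F[X], ∀ w : W, ((aeval (y.restrict hWy) g w : W) : V) = aeval y g w := by
    intro g w
    induction g using Polynomial.induction_on' with
    | add g h hg hh => rw [map_add, map_add, LinearMap.add_apply, LinearMap.add_apply, Submodule.coe_add, hg, hh]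
    | monomial n a =>
      rw [aeval_monomial, aeval_monomial, Module.End.mul_apply, Module.End.mul_apply,
        Module.algebraMap_end_apply, Module.algebraMap_end_apply, Submodule.coe_smul]
      congr 1
      induction n with
      | zero => simp
      | succ n ihn => rw [pow_succ', pow_succ', Module.End.mul_apply, Module.End.mul_apply, ← ihn]; rfl
  obtain ⟨U, hU, hUy⟩ := exists_inv P hP d hd a (y.restrict hWy) (by
    ext w
    rw [h1, hy]; simp) (by rw [hW]; exact Nat.mul_le_mul_right d hab)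
  refine ⟨U.map W.subtype, W, Submodule.map_subtype_le _ _, by rw [Submodule.finrank_map_subtype_eq, hU], hW, ?_, hWy⟩
  rintro _ ⟨u, hu, rfl⟩
  exact ⟨_, hUy hu, rfl⟩

end inv

section fixed
variable {F V : Type*} [Field F] [Fintype F] [AddCommGroup V] [Module F V] [FiniteDimensional F V]
  {q : ℕ} {r : ℕ} [Fact r.Prime]

theorem dvd_of_fixfree (hq : Fintype.card F = q) (y : Module.End F V) (hy : y ^ r = 1)
    (hfix : ∀ v, y v = v → v = 0) : orderOf (q : ZMod r) ∣ finrank F V := by
  classical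
  haveI : Finite V := Module.finite_of_finite F
  letI : Fintype V := Fintype.ofFinite V
  let f : Function.End V := fun v => y v
  have hpow : ∀ k : ℕ, ∀ v, (f ^ k) v = (y ^ k) v := by
    intro k
    induction k with
    | zero => intro v; rfl
    | succ k ih => intro v; rw [pow_succ, pow_succ]; exact ih (y v)
  have hf : f ^ r ^ 1 = 1 := by
    funext v
    rw [pow_one, hpow, hy]; rfl
  have h1 := Equiv.Perm.card_fixedPoints_modEq (p := r) (n := 1) hf
  have h2 : Fintype.card (Function.fixedPoints f) = 1 := by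
    rw [Fintype.card_eq_one_iff]
    refine ⟨⟨0, map_zero y⟩, ?_⟩
    rintro ⟨v, hv⟩
    exact Subtype.ext (hfix v hv)
  rw [h2, Module.card_eq_pow_finrank (K := F), hq, ← ZMod.natCast_eq_natCast_iff] at h1
  push_cast at h1
  exact orderOf_dvd_of_pow_eq_one h1

/-- the trace-like sum -/
theorem split_one (y : Module.End F V) (hy : y ^ r = 1) (hr : (r : F) ≠ 0) :
    IsCompl (LinearMap.ker (y - 1)) (LinearMap.ker (∑ j ∈ Finset.range r, y ^ j)) := by
  have hyS : ∀ v, y ((∑ j ∈ Finset.range r, y ^ j) v) = (∑ j ∈ Finset.range r, y ^ j) v := by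
    intro v
    have h1 : y * (∑ j ∈ Finset.range r, y ^ j) = ∑ j ∈ Finset.range r, y ^ j := by
      have h2 := mul_geom_sum y r
      rw [hy, sub_self, sub_mul, one_mul, sub_eq_zero] at h2
      exact h2
    rw [← Module.End.mul_apply, h1]
  have hker : ∀ v ∈ LinearMap.ker (y - 1), (∑ j ∈ Finset.range r, y ^ j) v = (r : F) • v := by
    intro v hv
    rw [LinearMap.mem_ker, LinearMap.sub_apply, Module.End.one_apply, sub_eq_zero] at hv
    have h1 : ∀ j : ℕ, (y ^ j) v = v := by
      intro j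
      induction j with
      | zero => simp
      | succ j ih => rw [pow_succ, Module.End.mul_apply, hv, ih]
    rw [LinearMap.sum_apply, Finset.sum_congr rfl (fun j _ => h1 j), Finset.sum_const, Finset.card_range,
      Nat.cast_smul_eq_nsmul]
  constructor
  · rw [Submodule.disjoint_def]
    intro v hv hv2
    rw [LinearMap.mem_ker, hker v hv] at hv2
    exact (smul_eq_zero.1 hv2).resolve_left hr
  · rw [codisjoint_iff_le_sup]
    intro v _
    rw [Submodule.mem_sup]
    have h1 : (r : F)⁻¹ • (∑ j ∈ Finset.range r, y ^ j) v ∈ LinearMap.ker (y - 1) := by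
      rw [LinearMap.mem_ker, LinearMap.sub_apply, Module.End.one_apply, map_smul, hyS, sub_self]
    refine ⟨_, h1, v - (r : F)⁻¹ • (∑ j ∈ Finset.range r, y ^ j) v, ?_, by abel⟩
    rw [LinearMap.mem_ker, map_sub, hker _ h1, smul_smul, mul_inv_cancel₀ hr, one_smul, sub_self]

theorem cyclo_eq (hr : r.Prime) (y : Module.End F V) : aeval y (cyclotomic r F) = ∑ j ∈ Finset.range r, y ^ j := by
  haveI : Fact r.Prime := ⟨hr⟩
  rw [cyclotomic_prime, map_sum]
  simp

theorem comm_ker (y T : Module.End F V) (hc : Commute T y) : LinearMap.ker T ≤ (LinearMap.ker T).comap y := by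
  intro v hv
  rw [Submodule.mem_comap, LinearMap.mem_ker, ← Module.End.mul_apply, hc.eq, Module.End.mul_apply]
  rw [LinearMap.mem_ker] at hv
  rw [hv, map_zero]

/-- dimensions of invariant subspaces -/
theorem dim_split (hq : Fintype.card F = q) (y : Module.End F V) (hy : y ^ r = 1) (hr : (r : F) ≠ 0) :
    ∃ b, finrank F V = finrank F (LinearMap.ker (y - 1)) + b * orderOf (q : ZMod r) := by
  have h1 := Submodule.finrank_add_eq_of_isCompl (split_one y hy hr)
  have hR : LinearMap.ker (∑ j ∈ Finset.range r, y ^ j) ≤ (LinearMap.ker (∑ j ∈ Finset.range r, y ^ j)).comap y :=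
    comm_ker y _ (Commute.sum_left _ _ _ (fun j _ => (Commute.refl y).pow_left j))
  have h2 := dvd_of_fixfree (V := LinearMap.ker (∑ j ∈ Finset.range r, y ^ j)) (r := r) hq (y.restrict hR) (by
    ext v
    rw [Module.End.pow_restrict]
    simp [hy, LinearMap.restrict_apply]) (by
    rintro ⟨v, hv⟩ hv2
    have hv3 : y v = v := congrArg Subtype.val hv2
    apply Subtype.ext
    exact (Submodule.disjoint_def.1 (split_one y hy hr).disjoint) v (by
      rw [LinearMap.mem_ker, LinearMap.sub_apply, Module.End.one_apply, hv3, sub_self]) hv)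
  obtain ⟨b, hb⟩ := h2
  exact ⟨b, by rw [← h1, hb, mul_comm]⟩

theorem dim_split_sub (hq : Fintype.card F = q) (y : Module.End F V) (hy : y ^ r = 1) (hr : (r : F) ≠ 0)
    (U : Submodule F V) (hU : U ≤ U.comap y) :
    ∃ b, finrank F U = finrank F (U ⊓ LinearMap.ker (y - 1) : Submodule F V) + b * orderOf (q : ZMod r) := by
  obtain ⟨b, hb⟩ := dim_split (V := U) hq (y.restrict hU) (by
    ext v
    rw [Module.End.pow_restrict]
    simp [hy, LinearMap.restrict_apply]) hr
  refine ⟨b, ?_⟩
  rw [hb]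
  congr 1
  have h1 : (LinearMap.ker (y.restrict hU - 1)).map U.subtype = U ⊓ LinearMap.ker (y - 1) := by
    ext v
    constructor
    · rintro ⟨u, hu, rfl⟩
      refine ⟨u.2, ?_⟩
      have hu' : y.restrict hU u - u = 0 := hu
      have := congrArg Subtype.val hu'
      exact this
    · rintro ⟨hv, hv2⟩
      exact ⟨⟨v, hv⟩, Subtype.ext hv2, rfl⟩
  rw [← h1, Submodule.finrank_map_subtype_eq]

theorem cyclo_deg {p : ℕ} [Fact p.Prime] [CharP F p] (hq : Fintype.card F = q) (hrp : r ≠ p) (f : F[X])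
    (hf : Irreducible f) (hfd : f ∣ cyclotomic r F) : f.natDegree = orderOf (q : ZMod r) := by
  have hp : p.Prime := Fact.out
  have hr : r.Prime := Fact.out
  obtain ⟨e, -, he⟩ := FiniteField.card F p
  have hcop : p.Coprime r := (Nat.coprime_primes hp hr).2 (Ne.symm hrp)
  rw [natDegree_of_dvd_cyclotomic_of_irreducible (p := p) (f := e) he hcop hfd hf, ← orderOf_units,
    ZMod.coe_unitOfCoprime, ← he, hq]

/-- existence of flags of invariant subspaces with prescribed dimensions -/
theorem exists_flag_cb {p : ℕ} [Fact p.Prime] [CharP F p] (hq : Fintype.card F = q) (hrp : r ≠ p)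
    (y : Module.End F V) (hy : y ^ r = 1) (hr : (r : F) ≠ 0) {k a : ℕ}
    (hk : finrank F (LinearMap.ker (y - 1)) = k) (ha : finrank F V = k + a * orderOf (q : ZMod r))
    (c₁ b₁ c₂ b₂ : ℕ) (hc : c₁ ≤ c₂) (hc₂ : c₂ ≤ k) (hb : b₁ ≤ b₂) (hb₂ : b₂ ≤ a) :
    ∃ U W : Submodule F V, U ≤ W ∧ finrank F U = c₁ + b₁ * orderOf (q : ZMod r) ∧
      finrank F W = c₂ + b₂ * orderOf (q : ZMod r) ∧ U ≤ U.comap y ∧ W ≤ W.comap y := by
  set K := LinearMap.ker (y - 1) with hK
  set R := LinearMap.ker (∑ j ∈ Finset.range r, y ^ j) with hR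
  have hcomp : IsCompl K R := split_one y hy hr
  have h1 := Submodule.finrank_add_eq_of_isCompl hcomp
  have hRy : R ≤ R.comap y := comm_ker y _ (Commute.sum_left _ _ _ (fun j _ => (Commute.refl y).pow_left j))
  obtain ⟨K₂, hK₂, hK₂f⟩ : ∃ K₂ : Submodule F V, K₂ ≤ K ∧ finrank F K₂ = c₂ := by
    obtain ⟨T, hT⟩ := exists_sub_dim (F := F) (V := K) (n := c₂) (by rw [hk]; exact hc₂)
    exact ⟨T.map K.subtype, Submodule.map_subtype_le _ _, by rw [Submodule.finrank_map_subtype_eq, hT]⟩
  obtain ⟨K₁, hK₁, hK₁f⟩ : ∃ K₁ : Submodule F V, K₁ ≤ K₂ ∧ finrank F K₁ = c₁ := by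
    obtain ⟨T, hT⟩ := exists_sub_dim (F := F) (V := K₂) (n := c₁) (by rw [hK₂f]; exact hc)
    exact ⟨T.map K₂.subtype, Submodule.map_subtype_le _ _, by rw [Submodule.finrank_map_subtype_eq, hT]⟩
  obtain ⟨U, W, hUW, hU, hW, hUy, hWy⟩ := exists_inv2 (cyclotomic r F) (cyclotomic_ne_zero r F) (orderOf (q : ZMod r))
    (fun f hf hfd => cyclo_deg hq hrp f hf hfd) b₁ b₂ (y.restrict hRy) (by
      rw [cyclo_eq Fact.out]
      apply LinearMap.ext
      rintro ⟨v, hv⟩
      apply Subtype.ext
      rw [LinearMap.sum_apply, Submodule.coe_sum, LinearMap.zero_apply, Submodule.coe_zero]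
      have h2 : ∀ j : ℕ, (((y.restrict hRy ^ j) ⟨v, hv⟩ : R) : V) = (y ^ j) v := by
        intro j
        rw [Module.End.pow_restrict]; rfl
      rw [Finset.sum_congr rfl (fun j _ => h2 j), ← LinearMap.sum_apply]
      exact hv) hb (by
      have : finrank F R = a * orderOf (q : ZMod r) := by omega
      rw [this]; exact Nat.mul_le_mul_right _ hb₂)
  have hdisj : ∀ (A : Submodule F V) (B : Submodule F R), A ≤ K → finrank F (A ⊔ B.map R.subtype : Submodule F V) =
      finrank F A + finrank F B := by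
    intro A B hA
    have h3 := Submodule.finrank_sup_add_finrank_inf_eq A (B.map R.subtype)
    have h4 : A ⊓ B.map R.subtype = ⊥ := by
      rw [eq_bot_iff, ← hcomp.disjoint.eq_bot]
      exact inf_le_inf hA (Submodule.map_subtype_le _ _)
    rw [h4, finrank_bot, Submodule.finrank_map_subtype_eq] at h3
    omega
  have hinv : ∀ (A : Submodule F V) (B : Submodule F R), A ≤ K → B ≤ B.comap (y.restrict hRy) →
      (A ⊔ B.map R.subtype) ≤ (A ⊔ B.map R.subtype).comap y := by
    intro A B hA hB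
    apply sup_le
    · intro v hv
      have h3 : y v = v := by
        have h4 : (y - 1) v = 0 := hA hv
        rwa [LinearMap.sub_apply, Module.End.one_apply, sub_eq_zero] at h4
      rw [Submodule.mem_comap, h3]
      exact Submodule.mem_sup_left hv
    · rintro _ ⟨u, hu, rfl⟩
      exact Submodule.mem_sup_right ⟨_, hB hu, rfl⟩
  refine ⟨K₁ ⊔ U.map R.subtype, K₂ ⊔ W.map R.subtype, sup_le_sup hK₁ (Submodule.map_mono hUW), ?_, ?_,
    hinv _ _ (hK₁.trans hK₂) hUy, hinv _ _ hK₂ hWy⟩
  · rw [hdisj _ _ (hK₁.trans hK₂), hK₁f, hU]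
  · rw [hdisj _ _ hK₂, hK₂f, hW]

theorem exists_dim {p : ℕ} [Fact p.Prime] [CharP F p] (hq : Fintype.card F = q) (hrp : r ≠ p)
    (y : Module.End F V) (hy : y ^ r = 1) (hi : 0 < orderOf (q : ZMod r)) (m : ℕ) (hm : m ≤ finrank F V)
    (hmi : m % orderOf (q : ZMod r) ≤ finrank F V % orderOf (q : ZMod r)) :
    ∃ U : Submodule F V, finrank F U = m ∧ U ≤ U.comap y := by
  have hr : (r : F) ≠ 0 := by
    intro h
    have hp : p.Prime := Fact.out
    have hr : r.Prime := Fact.out
    exact hrp (((Nat.prime_dvd_prime_iff_eq hp hr).1 ((CharP.cast_eq_zero_iff F p r).1 h)).symm)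
  obtain ⟨a, ha⟩ := dim_split hq y hy hr
  set i := orderOf (q : ZMod r) with hi'
  set n := finrank F V with hn
  have hkn : n % i ≤ finrank F (LinearMap.ker (y - 1)) := by
    have : n % i = finrank F (LinearMap.ker (y - 1)) % i := by rw [ha, Nat.add_mul_mod_self_right]
    rw [this]; exact Nat.mod_le _ _
  have hmd := Nat.mod_add_div m i
  obtain ⟨b, hb, hbm, hbk⟩ : ∃ b, b ≤ a ∧ b * i ≤ m ∧ m - b * i ≤ finrank F (LinearMap.ker (y - 1)) := by
    rcases le_total (m / i) a with h | h
    · refine ⟨m / i, h, Nat.div_mul_le_self m i, ?_⟩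
      have : m - m / i * i = m % i := by rw [mul_comm]; omega
      omega
    · refine ⟨a, le_rfl, ?_, ?_⟩
      · exact (Nat.mul_le_mul_right i h).trans (Nat.div_mul_le_self m i)
      · omega
  obtain ⟨U, W, -, hU, -, hUy, -⟩ := exists_flag_cb hq hrp y hy hr rfl ha (m - b * i) b (m - b * i) b le_rfl hbk le_rfl hb
  exact ⟨U, by rw [hU, ← hi']; omega, hUy⟩

theorem exists_flag {p : ℕ} [Fact p.Prime] [CharP F p] (hq : Fintype.card F = q) (hrp : r ≠ p)
    (y : Module.End F V) (hy : y ^ r = 1) (hi : 0 < orderOf (q : ZMod r)) (m : ℕ) (hm : 2 * m ≤ finrank F V)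
    (hmi : 2 * (m % orderOf (q : ZMod r)) ≤ finrank F V % orderOf (q : ZMod r)) :
    ∃ U W : Submodule F V, U ≤ W ∧ finrank F U = m ∧ finrank F W = finrank F V - m ∧ U ≤ U.comap y ∧ W ≤ W.comap y := by
  have hr : (r : F) ≠ 0 := by
    intro h
    have hp : p.Prime := Fact.out
    have hr : r.Prime := Fact.out
    exact hrp (((Nat.prime_dvd_prime_iff_eq hp hr).1 ((CharP.cast_eq_zero_iff F p r).1 h)).symm)
  obtain ⟨a, ha⟩ := dim_split hq y hy hr
  set i := orderOf (q : ZMod r) with hi'
  set n := finrank F V with hn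
  set k := finrank F (LinearMap.ker (y - 1)) with hk
  have hkn : n % i ≤ k := by
    have : n % i = k % i := by rw [ha, Nat.add_mul_mod_self_right]
    rw [this]; exact Nat.mod_le _ _
  have hmd := Nat.mod_add_div m i
  -- choose b, b'' with b + b'' ≤ a
  obtain ⟨b, b', hb, hb', hbb, hkk⟩ : ∃ b b', b ≤ m / i ∧ b' ≤ m / i ∧ b + b' ≤ a ∧ 2 * m ≤ k + (b + b') * i := by
    rcases le_total (2 * (m / i)) a with h | h
    · refine ⟨m / i, m / i, le_rfl, le_rfl, by omega, ?_⟩
      have : (m / i + m / i) * i = 2 * (i * (m / i)) := by ring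
      omega
    · refine ⟨a / 2, a - a / 2, by omega, by omega, by omega, ?_⟩
      rw [show a / 2 + (a - a / 2) = a by omega]
      omega
  have h1 : b * i ≤ m := (Nat.mul_le_mul_right i hb).trans (Nat.div_mul_le_self m i)
  have h2 : b' * i ≤ m := (Nat.mul_le_mul_right i hb').trans (Nat.div_mul_le_self m i)
  have h3 : (b + b') * i = b * i + b' * i := add_mul _ _ _
  have h4 : (a - b') * i = a * i - b' * i := Nat.sub_mul _ _ _
  have h5 : b' * i ≤ a * i := Nat.mul_le_mul_right i (by omega)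
  obtain ⟨U, W, hUW, hU, hW, hUy, hWy⟩ := exists_flag_cb hq hrp y hy hr rfl ha (m - b * i) b
    (k - (m - b' * i)) (a - b') (by omega) (by omega) (by omega) (by omega)
  exact ⟨U, W, hUW, by rw [hU, ← hi']; omega, by rw [hW, ← hi', h4]; omega, hUy, hWy⟩

end fixed

section root
variable {F : Type*} [Field F] {r : ℕ} {z : F}

theorem exists_rho {V : Type*} [AddCommGroup V] [Module F V] (y : Module.End F V) (hy : y ^ r = z • 1) :
    ∃ ρ : AdjoinRoot (X ^ r - C z : F[X]) →ₐ[F] Module.End F V, ρ (AdjoinRoot.root (X ^ r - C z : F[X])) = y := by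
  have h1 : ∀ a ∈ Ideal.span {(X ^ r - C z : F[X])}, aeval y a = 0 := by
    intro a ha
    obtain ⟨b, rfl⟩ := Ideal.mem_span_singleton.1 ha
    rw [map_mul]
    have : aeval y (X ^ r - C z : F[X]) = 0 := by
      simp [hy, Algebra.algebraMap_eq_smul_one]
    rw [this, zero_mul]
  refine ⟨Ideal.Quotient.liftₐ (Ideal.span {(X ^ r - C z : F[X])}) (aeval y : F[X] →ₐ[F] Module.End F V) h1, ?_⟩
  show Ideal.Quotient.lift (Ideal.span {(X ^ r - C z : F[X])}) (aeval y : F[X] →ₐ[F] Module.End F V).toRingHom h1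
    (Ideal.Quotient.mk _ X) = y
  rw [Ideal.Quotient.lift_mk]
  show aeval y X = y
  rw [aeval_X]

theorem root_finrank (hr : r.Prime) (hz : ∀ d : F, d ^ r ≠ z) :
    finrank F (AdjoinRoot (X ^ r - C z : F[X])) = r := by
  have hf : (X ^ r - C z : F[X]) ≠ 0 := (X_pow_sub_C_irreducible_of_prime hr hz).ne_zero
  rw [(AdjoinRoot.powerBasis hf).finrank, AdjoinRoot.powerBasis_dim, natDegree_X_pow_sub_C]

theorem rho_stable {V : Type*} [AddCommGroup V] [Module F V] (y : Module.End F V)
    (ρ : AdjoinRoot (X ^ r - C z : F[X]) →ₐ[F] Module.End F V) (hρ : ρ (AdjoinRoot.root (X ^ r - C z : F[X])) = y)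
    (W : Submodule F V) (hW : W ≤ W.comap y) : ∀ l, ∀ w ∈ W, ρ l w ∈ W := by
  intro l w hw
  obtain ⟨g, rfl⟩ := AdjoinRoot.mk_surjective l
  induction g using Polynomial.induction_on' with
  | add g h hg hh => rw [map_add, map_add, LinearMap.add_apply]; exact W.add_mem hg hh
  | monomial n a =>
    rw [← C_mul_X_pow_eq_monomial, map_mul, map_pow, AdjoinRoot.mk_X, map_mul, map_pow, hρ, Module.End.mul_apply]
    have h2 : ∀ k : ℕ, (y ^ k) w ∈ W := by
      intro k
      induction k with
      | zero => simpa using hw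
      | succ k ih => rw [pow_succ', Module.End.mul_apply]; exact hW ih
    have h3 : ρ (AdjoinRoot.mk (X ^ r - C z : F[X]) (C a)) = a • 1 := by
      rw [AdjoinRoot.mk_C, ← AdjoinRoot.algebraMap_eq, AlgHom.commutes, Algebra.algebraMap_eq_smul_one]
    rw [h3, LinearMap.smul_apply, Module.End.one_apply]
    exact W.smul_mem _ (h2 n)

theorem dvd_of_root_stable (hr : r.Prime) (hz : ∀ d : F, d ^ r ≠ z) {V : Type*} [AddCommGroup V] [Module F V]
    (y : Module.End F V) (hy : y ^ r = z • 1) (W : Submodule F V) (hW : W ≤ W.comap y) : r ∣ finrank F W := by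
  haveI : Fact (Irreducible (X ^ r - C z : F[X])) := ⟨X_pow_sub_C_irreducible_of_prime hr hz⟩
  obtain ⟨ρ, hρ⟩ := exists_rho y hy
  have := dvd_of_stable ρ W (rho_stable y ρ hρ W hW)
  rwa [root_finrank hr hz] at this

theorem det_model (hr : r.Prime) (hz : ∀ d : F, d ^ r ≠ z) (k : ℕ) :
    letI : Fact (Irreducible (X ^ r - C z : F[X])) := ⟨X_pow_sub_C_irreducible_of_prime hr hz⟩
    LinearMap.det (Algebra.lsmul F F (Fin k → AdjoinRoot (X ^ r - C z : F[X])) (AdjoinRoot.root (X ^ r - C z : F[X]))) =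
      ((-1) ^ (r + 1) * z) ^ k := by
  haveI : Fact (Irreducible (X ^ r - C z : F[X])) := ⟨X_pow_sub_C_irreducible_of_prime hr hz⟩
  have hmon : (X ^ r - C z : F[X]).Monic := monic_X_pow_sub_C z hr.ne_zero
  have hf : (X ^ r - C z : F[X]) ≠ 0 := hmon.ne_zero
  haveI : Module.Finite F (AdjoinRoot (X ^ r - C z : F[X])) := (AdjoinRoot.powerBasis hf).finite
  have h1 : (Algebra.lsmul F F (Fin k → AdjoinRoot (X ^ r - C z : F[X])) (AdjoinRoot.root (X ^ r - C z : F[X]))) =
      LinearMap.pi (fun i ↦ (Algebra.lmul F _ (AdjoinRoot.root (X ^ r - C z : F[X]))).comp (LinearMap.proj i)) := by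
    ext v i
    rfl
  rw [h1, LinearMap.det_pi, Finset.prod_const, Finset.card_univ, Fintype.card_fin]
  congr 1
  have h2 : LinearMap.det (Algebra.lmul F _ (AdjoinRoot.root (X ^ r - C z : F[X]))) =
      Algebra.norm F (AdjoinRoot.root (X ^ r - C z : F[X])) := (Algebra.norm_apply F _).symm
  rw [h2]
  have h3 := Algebra.PowerBasis.norm_gen_eq_coeff_zero_minpoly (AdjoinRoot.powerBasis hf)
  rw [AdjoinRoot.minpoly_powerBasis_gen_of_monic hmon, AdjoinRoot.powerBasis_gen, AdjoinRoot.powerBasis_dim,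
    natDegree_X_pow_sub_C] at h3
  rw [h3]
  have h4 : (X ^ r - C z : F[X]).coeff 0 = - z := by
    simp [coeff_X_pow, hr.ne_zero.symm]
  rw [h4]; ring

/-- determinants of roots of non-powers -/
theorem det_of_root (hr : r.Prime) (hz : ∀ d : F, d ^ r ≠ z) {V : Type*} [AddCommGroup V] [Module F V]
    [FiniteDimensional F V] (y : Module.End F V) (hy : y ^ r = z • 1) :
    ∃ k, finrank F V = r * k ∧ LinearMap.det y = ((-1) ^ (r + 1) * z) ^ k := by
  haveI : Fact (Irreducible (X ^ r - C z : F[X])) := ⟨X_pow_sub_C_irreducible_of_prime hr hz⟩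
  have hf : (X ^ r - C z : F[X]) ≠ 0 := (X_pow_sub_C_irreducible_of_prime hr hz).ne_zero
  haveI : Module.Finite F (AdjoinRoot (X ^ r - C z : F[X])) := (AdjoinRoot.powerBasis hf).finite
  obtain ⟨k, hk⟩ : r ∣ finrank F V := by
    have := dvd_of_root_stable hr hz y hy ⊤ le_top
    rwa [finrank_top] at this
  refine ⟨k, hk, ?_⟩
  obtain ⟨ρ, hρ⟩ := exists_rho y hy
  obtain ⟨P, hP⟩ := exists_equiv ρ (Algebra.lsmul F F (Fin k → AdjoinRoot (X ^ r - C z : F[X]))) (by
    rw [Module.finrank_pi_fintype, Finset.sum_const, Finset.card_univ, Fintype.card_fin, root_finrank hr hz, hk,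
      smul_eq_mul, mul_comm])
  have h1 := LinearMap.det_conj y P
  have h2 : ((P : V →ₗ[F] _) ∘ₗ y) ∘ₗ (P.symm : _ →ₗ[F] V) =
      Algebra.lsmul F F (Fin k → AdjoinRoot (X ^ r - C z : F[X])) (AdjoinRoot.root (X ^ r - C z : F[X])) := by
    apply LinearMap.ext
    intro v
    show P (y (P.symm v)) = _
    rw [← hρ, hP, LinearEquiv.apply_symm_apply]
  rw [LinearMap.comp_assoc] at h2
  rw [← h1]
  rw [h2]
  exact det_model hr hz k

/-- existence of roots of non-powers -/
theorem exists_root_mat (hr : r.Prime) (hz : ∀ d : F, d ^ r ≠ z) (k : ℕ) :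
    ∃ x : Matrix (Fin (r * k)) (Fin (r * k)) F, x ^ r = z • 1 ∧ x.det = ((-1) ^ (r + 1) * z) ^ k := by
  haveI : Fact (Irreducible (X ^ r - C z : F[X])) := ⟨X_pow_sub_C_irreducible_of_prime hr hz⟩
  have hf : (X ^ r - C z : F[X]) ≠ 0 := (X_pow_sub_C_irreducible_of_prime hr hz).ne_zero
  haveI : Module.Finite F (AdjoinRoot (X ^ r - C z : F[X])) := (AdjoinRoot.powerBasis hf).finite
  have e : (Fin k → AdjoinRoot (X ^ r - C z : F[X])) ≃ₗ[F] (Fin (r * k) → F) := by
    apply LinearEquiv.ofFinrankEq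
    rw [Module.finrank_pi_fintype, Finset.sum_const, Finset.card_univ, Fintype.card_fin, root_finrank hr hz,
      smul_eq_mul, mul_comm, Module.finrank_fintype_fun_eq_card, Fintype.card_fin]
  set X₀ := Algebra.lsmul F F (Fin k → AdjoinRoot (X ^ r - C z : F[X])) (AdjoinRoot.root (X ^ r - C z : F[X])) with hX₀
  have hX : X₀ ^ r = z • 1 := by
    rw [hX₀, ← map_pow]
    have h1 : (AdjoinRoot.root (X ^ r - C z : F[X])) ^ r = algebraMap F _ z := by
      have := AdjoinRoot.eval₂_root (X ^ r - C z : F[X])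
      rw [eval₂_sub, eval₂_pow, eval₂_X, eval₂_C, sub_eq_zero] at this
      rw [this, AdjoinRoot.algebraMap_eq]
    rw [h1, AlgHom.commutes, Algebra.algebraMap_eq_smul_one]
  refine ⟨LinearMap.toMatrix' (e.conjAlgEquiv F X₀), ?_, ?_⟩
  · have h2 : (e.conjAlgEquiv F X₀) ^ r = z • 1 := by
      rw [← map_pow, hX, map_smul, map_one]
    have h3 : LinearMap.toMatrix' (e.conjAlgEquiv F X₀) ^ r = LinearMap.toMatrix' ((e.conjAlgEquiv F X₀) ^ r) := by
      show (LinearMap.toMatrixAlgEquiv' (e.conjAlgEquiv F X₀)) ^ r = LinearMap.toMatrixAlgEquiv' ((e.conjAlgEquiv F X₀) ^ r)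
      rw [map_pow]
    rw [h3, h2, map_smul]
    congr 1
    exact LinearMap.toMatrix'_one
  · rw [← det_model hr hz k, LinearMap.det_toMatrix', LinearEquiv.conjAlgEquiv_apply]
    exact LinearMap.det_conj X₀ e

end root

section num
variable {F : Type*} [Field F] [Fintype F]

theorem val_of_nonpow {r : ℕ} [Fact r.Prime] {u : F} (hu : u ≠ 0) (hnp : ∀ d : F, d ^ r ≠ u)
    {k : ℕ} (hk : k ≠ 0) (h : u ^ k = 1) : padicValNat r (Fintype.card F - 1) ≤ padicValNat r k := by
  classical
  obtain ⟨g, hg⟩ := IsCyclic.exists_generator (α := Fˣ)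
  have hgo : orderOf g = Fintype.card F - 1 := by
    rw [orderOf_eq_card_of_forall_mem_zpowers hg, Nat.card_eq_fintype_card, Fintype.card_units]
  obtain ⟨j, hj⟩ := (mem_powers_iff_mem_zpowers.2 (hg (Units.mk0 u hu)))
  have hj' : g ^ j = Units.mk0 u hu := hj
  have h1 : ¬ r ∣ j := by
    rintro ⟨t, rfl⟩
    apply hnp ((g ^ t : Fˣ) : F)
    rw [← Units.val_pow_eq_pow_val, ← pow_mul, mul_comm, hj']; rfl
  have h2 : g ^ (j * k) = 1 := by
    rw [pow_mul, hj']
    ext
    rw [Units.val_pow_eq_pow_val, Units.val_mk0, h, Units.val_one]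
  have h3 := orderOf_dvd_of_pow_eq_one h2
  rw [hgo] at h3
  have hj0 : j ≠ 0 := by rintro rfl; exact h1 (dvd_zero r)
  have h4 : padicValNat r (Fintype.card F - 1) ≤ padicValNat r (j * k) := by
    rw [← padicValNat_dvd_iff_le (mul_ne_zero hj0 hk)]
    exact (pow_padicValNat_dvd).trans h3
  rwa [padicValNat.mul hj0 hk, padicValNat.eq_zero_of_not_dvd h1, zero_add] at h4

theorem exists_nonpow {r : ℕ} [Fact r.Prime] (hr : r ∣ Fintype.card F - 1) :
    ∃ z : F, z ≠ 0 ∧ (∀ d : F, d ^ r ≠ z) ∧ z ^ (r ^ padicValNat r (Fintype.card F - 1)) = 1 := by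
  classical
  obtain ⟨g, hg⟩ := IsCyclic.exists_generator (α := Fˣ)
  have hgo : orderOf g = Fintype.card F - 1 := by
    rw [orderOf_eq_card_of_forall_mem_zpowers hg, Nat.card_eq_fintype_card, Fintype.card_units]
  have hc : 1 < Fintype.card F := Fintype.one_lt_card
  have hr' : r.Prime := Fact.out
  obtain ⟨t, ht⟩ := (pow_padicValNat_dvd (p := r) (n := Fintype.card F - 1))
  set s := padicValNat r (Fintype.card F - 1) with hs
  have hrt : ¬ r ∣ t := by
    rintro ⟨t', rfl⟩
    have h1 : r ^ (s + 1) ∣ Fintype.card F - 1 := ⟨t', by rw [ht]; ring⟩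
    have h2 := (padicValNat_dvd_iff_le (by omega : Fintype.card F - 1 ≠ 0)).1 h1
    omega
  refine ⟨((g ^ t : Fˣ) : F), Units.ne_zero _, ?_, ?_⟩
  · intro d hd
    have hd0 : d ≠ 0 := by
      rintro rfl
      rw [zero_pow hr'.ne_zero] at hd
      exact Units.ne_zero _ hd.symm
    obtain ⟨j, hj⟩ := (mem_powers_iff_mem_zpowers.2 (hg (Units.mk0 d hd0)))
    have hj' : g ^ j = Units.mk0 d hd0 := hj
    have h1 : g ^ (j * r) = g ^ t := by
      rw [pow_mul, hj']
      ext
      rw [Units.val_pow_eq_pow_val, Units.val_mk0, hd]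
    have h2 := (pow_eq_pow_iff_modEq).1 h1
    rw [hgo] at h2
    have h3 : j * r ≡ t [MOD r] := h2.of_dvd hr
    have h4 : (0 : ℕ) ≡ t [MOD r] := ((Nat.modEq_zero_iff_dvd.2 (dvd_mul_left r j)).symm).trans h3
    exact hrt ((Nat.modEq_zero_iff_dvd).1 h4.symm)
  · rw [← Units.val_pow_eq_pow_val, ← pow_mul, mul_comm, ← ht, ← hgo, pow_orderOf_eq_one, Units.val_one]

theorem nonpow_not {q r n : ℕ} [Fact r.Prime] (hq : Fintype.card F = q) (hn : 0 < n) (x : Matrix (Fin n) (Fin n) F) {z : F}
    (hx : x ^ r = z • 1) (hdet : x.det = 1) (hz : ∀ d : F, d ^ r ≠ z) :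
    r ∣ n ∧ ¬ (padicValNat r n ≤ padicValNat r (q - 1) ∧ (r = 2 → Even n → q % 4 = 1)) := by
  have hr : r.Prime := Fact.out
  have hy : (Matrix.toLin' x) ^ r = z • 1 := by
    rw [← Matrix.toLin'_pow, hx, map_smul, Matrix.toLin'_one]; rfl
  obtain ⟨k, hk, hk2⟩ := det_of_root hr hz (Matrix.toLin' x) hy
  rw [LinearMap.det_toLin', hdet] at hk2
  rw [Module.finrank_fintype_fun_eq_card, Fintype.card_fin] at hk
  have hk0 : k ≠ 0 := by rintro rfl; omega
  refine ⟨⟨k, hk⟩, ?_⟩
  rintro ⟨h1, h2⟩
  have hz0 : z ≠ 0 := by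
    rintro rfl
    exact hz 0 (zero_pow hr.ne_zero)
  have hu : ∀ d : F, d ^ r ≠ (-1) ^ (r + 1) * z := by
    intro d hd
    rcases hr.eq_two_or_odd' with h | h
    · have h3 := h2 h (by rw [hk, h]; exact even_two_mul k)
      obtain ⟨e, he⟩ := (FiniteField.isSquare_neg_one_iff (F := F)).2 (by rw [hq]; omega)
      apply hz (e * d)
      rw [h] at hd ⊢
      rw [mul_pow, hd, sq, ← he]; ring
    · have h4 : ((-1 : F)) ^ (r + 1) = 1 := (h.add_odd odd_one).neg_one_pow
      rw [h4, one_mul] at hd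
      exact hz d hd
  have h3 := val_of_nonpow (r := r) (mul_ne_zero (pow_ne_zero _ (neg_ne_zero.2 one_ne_zero)) hz0) hu hk0 hk2.symm
  rw [hq] at h3
  rw [hk, padicValNat.mul hr.ne_zero hk0, padicValNat.self hr.one_lt] at h1
  omega

theorem exists_nonpow_elt {q r n : ℕ} [Fact r.Prime] (hq : Fintype.card F = q) (hn : 0 < n) (hrq : r ∣ q - 1)
    (h : ¬ (padicValNat r n ≤ padicValNat r (q - 1) ∧ (r = 2 → Even n → q % 4 = 1))) :
    ∃ (x : Matrix.SpecialLinearGroup (Fin n) F) (z : F), ((x ^ r : Matrix.SpecialLinearGroup (Fin n) F) : Matrix (Fin n) (Fin n) F) = z • 1 ∧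
      ∀ d : F, d ^ r ≠ z := by
  have hr : r.Prime := Fact.out
  have hc : 1 < Fintype.card F := Fintype.one_lt_card
  have hs1 : 1 ≤ padicValNat r (q - 1) := one_le_padicValNat_of_dvd (by omega) hrq
  have hrn : r ∣ n := by
    by_contra hno
    apply h
    refine ⟨by rw [padicValNat.eq_zero_of_not_dvd hno]; omega, ?_⟩
    intro h2 h3
    rw [h2] at hno
    exact absurd h3.two_dvd hno
  obtain ⟨k, rfl⟩ := hrn
  have hk0 : k ≠ 0 := by rintro rfl; omega
  have key : ∀ z : F, (∀ d : F, d ^ r ≠ z) → ((-1) ^ (r + 1) * z) ^ k = 1 →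
      ∃ (x : Matrix.SpecialLinearGroup (Fin (r * k)) F) (z : F),
        ((x ^ r : Matrix.SpecialLinearGroup (Fin (r * k)) F) : Matrix (Fin (r * k)) (Fin (r * k)) F) = z • 1 ∧
      ∀ d : F, d ^ r ≠ z := by
    intro z hz hzk
    obtain ⟨x, hx, hxd⟩ := exists_root_mat hr hz k
    obtain ⟨X, hX⟩ : ∃ X : Matrix.SpecialLinearGroup (Fin (r * k)) F, (X : Matrix (Fin (r * k)) (Fin (r * k)) F) = x :=
      ⟨⟨x, by rw [hxd, hzk]⟩, rfl⟩
    refine ⟨X, z, ?_, hz⟩
    rw [Matrix.SpecialLinearGroup.coe_pow, hX]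
    exact hx
  by_cases hv : padicValNat r (r * k) ≤ padicValNat r (q - 1)
  · have h2 : r = 2 ∧ q % 4 ≠ 1 := by
      by_contra hno
      apply h
      refine ⟨hv, fun h2 _ => ?_⟩
      by_contra h3
      exact hno ⟨h2, h3⟩
    obtain ⟨h2, h4⟩ := h2
    apply key (-1)
    · intro d hd
      have h5 : IsSquare (-1 : F) := ⟨d, by rw [← hd, h2, sq]⟩
      have h6 := FiniteField.isSquare_neg_one_iff.1 h5
      rw [hq] at h6 hc
      rw [h2] at hrq
      omega
    · rw [h2]; norm_num
  · rw [padicValNat.mul hr.ne_zero hk0, padicValNat.self hr.one_lt] at hv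
    obtain ⟨z, hz0, hz, hzs⟩ := exists_nonpow (F := F) (r := r) (by rw [hq]; exact hrq)
    rw [hq] at hzs
    apply key z hz
    have h7 : r ^ padicValNat r (q - 1) ∣ k := (padicValNat_dvd_iff_le hk0).2 (by omega)
    obtain ⟨t, ht⟩ := h7
    rw [mul_pow]
    have h8 : z ^ k = 1 := by rw [ht, pow_mul, hzs, one_pow]
    rw [h8, mul_one, ← pow_mul]
    rcases hr.eq_two_or_odd' with h9 | h9
    · have : Even k := by
        rw [ht, h9]
        exact ((Nat.even_pow.2 ⟨even_two, by rw [h9] at hs1; omega⟩)).mul_right t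
      exact (this.mul_left (r + 1)).neg_one_pow
    · exact ((h9.add_odd odd_one).mul_right k).neg_one_pow

end num

end Cfsg.Agent.H5.Spa
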