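import Mathlib
import Cfsg.Agent.H5_Spa1
import Cfsg.Agent.H5_Der4

set_option autoImplicit false

namespace Cfsg.Agent.H5.Spa

open Matrix Module Polynomial Cfsg.Agent.H5.Fld

theorem exists_flag_root {F V : Type*} [Field F] [AddCommGroup V] [Module F V] [FiniteDimensional F V] {r : ℕ} {z : F}
    (hr : r.Prime) (hz : ∀ d : F, d ^ r ≠ z)
    (y : Module.End F V) (hy : y ^ r = z • 1) (a b : ℕ) (hab : a ≤ b) (hb : b * r ≤ finrank F V) :
    ∃ U W : Submodule F V, U ≤ W ∧ finrank F U = a * r ∧ finrank F W = b * r ∧ U ≤ U.comap y ∧ W ≤ W.comap y := by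
  have hirr := X_pow_sub_C_irreducible_of_prime hr hz
  apply exists_inv2 (X ^ r - C z) hirr.ne_zero r _ a b y _ hab hb
  · intro f hf hfd
    have h1 := (hf.associated_of_dvd hirr hfd)
    rw [natDegree_eq_of_degree_eq (degree_eq_degree_of_associated h1), natDegree_X_pow_sub_C]
  · simp [hy, Algebra.algebraMap_eq_smul_one]

theorem order_one_iff {q r : ℕ} [Fact r.Prime] (hq : 2 ≤ q) : orderOf (q : ZMod r) = 1 ↔ r ∣ q - 1 := by
  constructor
  · intro h
    have := dvd_of_order (t := 1) hq (by rw [h])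
    rwa [pow_one] at this
  · intro h
    have := order_dvd (r := r) (t := 1) hq (by rwa [pow_one])
    exact Nat.dvd_one.1 this

theorem exists_pow_of_not {F : Type*} [Field F] [Fintype F] {r : ℕ} (hr : r.Prime) (h : ¬ r ∣ Fintype.card F - 1) (c : F) :
    ∃ d : F, d ^ r = c := by
  have hinj : Function.Injective (fun d : F => d ^ r) := by
    intro a b hab
    have hab' : a ^ r = b ^ r := hab
    by_cases hb : b = 0
    · rw [hb, zero_pow hr.ne_zero] at hab'
      rw [hb, eq_zero_of_pow_eq_zero hab']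
    · have h1 : (a / b) ^ r = 1 := by rw [div_pow, hab', div_self (pow_ne_zero _ hb)]
      have h2 := root_trivial hr h h1
      rwa [div_eq_one_iff_eq hb] at h2
  exact (Finite.injective_iff_surjective.1 hinj) c

theorem exists_ord_elt {F : Type*} [Field F] [Fintype F] {q r n : ℕ} [Fact r.Prime] (hq : Fintype.card F = q)
    (hi : 2 ≤ orderOf (q : ZMod r)) (hin : orderOf (q : ZMod r) ≤ n) :
    ∃ x : Matrix.SpecialLinearGroup (Fin n) F, x ^ r = 1 ∧
      finrank F (LinearMap.ker (Matrix.toLin' (x : Matrix (Fin n) (Fin n) F) - 1)) = n % orderOf (q : ZMod r) ∧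
      ∀ c : F, (x : Matrix (Fin n) (Fin n) F) ≠ c • (1 : Matrix (Fin n) (Fin n) F) := by
  have hr : r.Prime := Fact.out
  have hq2 : 2 ≤ q := by rw [← hq]; exact Fintype.one_lt_card
  set i := orderOf (q : ZMod r) with hi'
  have hmd := Nat.mod_add_div n i
  have hdiv : 1 ≤ n / i := (Nat.one_le_div_iff (by omega)).2 hin
  have hd0 : i * (n / i) ≠ 0 := (Nat.mul_pos (by omega) (by omega)).ne'
  obtain ⟨Y, hY, hfix⟩ := Cfsg.Agent.H5.Der.exists_fpf F hd0 hr (by
    rw [hq]; exact dvd_of_order hq2 (dvd_mul_right _ _))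
  have hrq : ¬ r ∣ Fintype.card F - 1 := by
    rw [hq]
    intro h
    rw [← order_one_iff hq2] at h
    omega
  have hdet : Y.det = 1 := by
    apply root_trivial hr hrq
    rw [← Matrix.det_pow, hY, Matrix.det_one]
  obtain ⟨x, hx, hk⟩ := exists_block (n := n) (r := r) (by omega) Y hY hdet hfix
  have hker : finrank F (LinearMap.ker (Matrix.toLin' (x : Matrix (Fin n) (Fin n) F) - 1)) = n % i := by
    rw [map_sub, map_smul, Matrix.toLin'_one, one_smul] at hk
    have h1 : finrank F (LinearMap.ker (Matrix.toLin' (x : Matrix (Fin n) (Fin n) F) - LinearMap.id)) = n % i := by omega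
    exact h1
  refine ⟨x, hx, hker, ?_⟩
  intro c hc
  have hn0 : 0 < n := by omega
  have h1 : c ^ r = 1 := by
    have h2 := congrArg (fun g : Matrix.SpecialLinearGroup (Fin n) F => (g : Matrix (Fin n) (Fin n) F)) hx
    simp only [Matrix.SpecialLinearGroup.coe_pow, hc, Matrix.SpecialLinearGroup.coe_one] at h2
    rw [_root_.smul_pow, one_pow] at h2
    have h3 := congrFun (congrFun h2 ⟨0, hn0⟩) ⟨0, hn0⟩
    simpa using h3
  have h4 := root_trivial hr hrq h1
  rw [hc, h4, one_smul, Matrix.toLin'_one] at hker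
  have h5 : (LinearMap.id : (Fin n → F) →ₗ[F] (Fin n → F)) - 1 = 0 := sub_self _
  rw [h5, LinearMap.ker_zero, finrank_top, Module.finrank_fintype_fun_eq_card, Fintype.card_fin] at hker
  have := Nat.mod_lt n (by omega : i > 0)
  omega

theorem toLin_pow {F : Type*} [Field F] {n r : ℕ} (x : Matrix (Fin n) (Fin n) F) (z : F) (h : x ^ r = z • 1) :
    (Matrix.toLin' x) ^ r = z • 1 := by
  rw [← Matrix.toLin'_pow, h, map_smul, Matrix.toLin'_one]; rfl

theorem ne_char {F : Type*} [Field F] [Fintype F] {p : ℕ} [Fact p.Prime] [CharP F p] {q : ℕ} (hq : Fintype.card F = q)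
    {r t : ℕ} [Fact r.Prime] (ht : t ≠ 0) (h : r ∣ q ^ t - 1) : r ≠ p := by
  rintro rfl
  have hr : r.Prime := Fact.out
  obtain ⟨e, -, he⟩ := FiniteField.card F r
  have h1 : r ∣ q ^ t := by
    rw [← hq, he, ← pow_mul]
    exact dvd_pow_self _ (Nat.mul_ne_zero e.2.ne' ht)
  have hq2 : 1 ≤ q := by rw [← hq]; exact Fintype.card_pos
  have h2 : 1 ≤ q ^ t := Nat.one_le_pow _ _ hq2
  have h3 : r ∣ 1 := by
    have := Nat.dvd_sub h1 h
    rwa [Nat.sub_sub_self h2] at this
  exact hr.one_lt.ne' (Nat.dvd_one.1 h3)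

/-- the scaled element -/
theorem scaled {F : Type*} [Field F] {n r : ℕ} (hn : 0 < n) (x : Matrix.SpecialLinearGroup (Fin n) F) (d : F) (hr : r ≠ 0)
    (h : ((x ^ r : Matrix.SpecialLinearGroup (Fin n) F) : Matrix (Fin n) (Fin n) F) = (d ^ r) • 1) :
    ∃ y : Module.End F (Fin n → F), y ^ r = 1 ∧ ∀ U : Submodule F (Fin n → F), U ≤ U.comap y →
      U.map (Matrix.toLin' (x : Matrix (Fin n) (Fin n) F)) ≤ U := by
  have hd : d ≠ 0 := by
    rintro rfl
    have h1 := scalar_root hn h
    rw [zero_pow hr, zero_pow (by omega)] at h1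
    exact zero_ne_one h1
  refine ⟨d⁻¹ • Matrix.toLin' (x : Matrix (Fin n) (Fin n) F), ?_, ?_⟩
  · rw [_root_.smul_pow, toLin_pow _ (d ^ r) (by rw [← Matrix.SpecialLinearGroup.coe_pow]; exact h), smul_smul, ← mul_pow,
      inv_mul_cancel₀ hd, one_pow, one_smul]
  · intro U hU
    rw [Submodule.map_le_iff_le_comap]
    intro v hv
    have h1 := hU hv
    rw [Submodule.mem_comap, LinearMap.smul_apply] at h1
    have h2 := U.smul_mem d h1
    rw [smul_smul, mul_inv_cancel₀ hd, one_smul] at h2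
    exact h2

end Cfsg.Agent.H5.Spa
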