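import Mathlib
import Cfsg.Agent.H5_TS
import Cfsg.Agent.H5_Isom
import Cfsg.Agent.H5_HermBasis
import Cfsg.Agent.H5_FrmOrth

set_option autoImplicit false

/-! Stabilisers of non-degenerate subspaces. -/

namespace Cfsg.Agent.H5.Frm

variable {F : Type*} [Field F] {σ : F →+* F} {ε : F} {t : F →+ F} {V : Type*}
  [AddCommGroup V] [Module F V]

/-- `stabW` as an intersection -/
def stabWEquiv (A : Frm F σ ε t V) (W : Submodule F V) : A.stabW W ≃* ↥(stab W ⊓ A.isom) where
  toFun g := ⟨g.1.1, g.2, g.1.2⟩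
  invFun g := ⟨⟨g.1, g.2.2⟩, g.2.1⟩
  left_inv _ := rfl
  right_inv _ := rfl
  map_mul' _ _ := rfl

theorem stabW_mulEquiv [FiniteDimensional F V] {A : Frm F σ ε t V} (hn : A.Nondeg)
    {W : Submodule F V} (hW : (A.restrict W).Nondeg) :
    Nonempty (A.stabW W ≃* (A.restrict W).isom × (A.restrict (A.orth W)).isom) := by
  obtain ⟨e⟩ := exists_stab_mulEquiv A (isCompl_orth hn hW)
    (fun u hu w hw => (A.mem_orth.mp hw) u hu) (fun g hg hs => stab_orth A hg hs)
  exact ⟨(stabWEquiv A W).trans e⟩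

theorem alt_wittDec {A : Frm F (RingHom.id F) (-1) (0 : F →+ F) V} [FiniteDimensional F V]
    (hn : A.Nondeg) (hQ : ∀ v, A.Q v = 0) {k : ℕ} (hk : Module.finrank F V = 2 * k) :
    WittDec k 0 A := by
  have key : ∀ (n : ℕ) {V : Type _} [AddCommGroup V] [Module F V] [FiniteDimensional F V]
      (A : Frm F (RingHom.id F) (-1) (0 : F →+ F) V) (_ : A.Nondeg) (_ : ∀ v, A.Q v = 0)
      (_ : Module.finrank F V = n), ∃ m, WittDec m 0 A := by
    intro n
    induction n using Nat.strong_induction_on with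
    | _ n ih =>
      intro V _ _ _ A hn hQ hV
      by_cases h0 : n = 0
      · have : Subsingleton V := (Module.finrank_zero_iff (R := F)).mp (by omega)
        exact ⟨0, fun v _ => Subsingleton.elim _ _, by omega⟩
      · have hnt : Nontrivial V := Module.nontrivial_of_finrank_pos (R := F) (by omega)
        obtain ⟨u, hu⟩ := exists_ne (0 : V)
        obtain ⟨f, hp⟩ := exists_partner hn hu (hQ u)
        have hfr := finrank_perp2 hp
        obtain ⟨m, hm⟩ := ih (n - 2) (by omega) (A.restrict (A.perp2 u f)) (nondeg_perp2 hn hp)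
          (fun v => hQ v) (by omega)
        exact ⟨m + 1, u, f, hp, hm⟩
  obtain ⟨m, hm⟩ := key _ A hn hQ hk
  have h1 := WittDec.finrank_eq m 0 A hm
  have : m = k := by omega
  rwa [this] at hm

theorem alt_isometric {V' : Type*} [AddCommGroup V'] [Module F V'] [FiniteDimensional F V]
    [FiniteDimensional F V']
    {A : Frm F (RingHom.id F) (-1) (0 : F →+ F) V} (hn : A.Nondeg) (hQ : ∀ v, A.Q v = 0)
    {A' : Frm F (RingHom.id F) (-1) (0 : F →+ F) V'} (hn' : A'.Nondeg) (hQ' : ∀ v, A'.Q v = 0)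
    {k : ℕ} (hk : Module.finrank F V = 2 * k) (hk' : Module.finrank F V' = 2 * k) :
    Isometric A A' :=
  WittDec.isometric 0 (fun A A' _ _ _ _ h h' => Isometric.of_finrank_zero A A' h h') k A A' hn hn'
    (alt_wittDec hn hQ hk) (alt_wittDec hn' hQ' hk')

theorem sp_mulEquiv [FiniteDimensional F V]
    {A : Frm F (RingHom.id F) (-1) (0 : F →+ F) V} (hn : A.Nondeg) (hQ : ∀ v, A.Q v = 0) {k : ℕ}
    (hk : Module.finrank F V = 2 * k) : Nonempty (A.isom ≃* Matrix.symplecticGroup (Fin k) F) := by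
  obtain ⟨φ, h1, h2⟩ := alt_isometric hn hQ (Conc.sympFrm_nondeg k F) (fun _ => rfl) hk
    (by simp; omega)
  exact ⟨(isomEquiv A (Conc.sympFrm k F) φ h1 h2).trans (Conc.spEquiv k F).symm⟩

theorem herm_isometric [Fintype F] {q : ℕ} (hF : Fintype.card F = q ^ 2) [FiniteDimensional F V]
    {A : Frm F (Fld.frob hF) 1 (Herm.tr hF) V} (hA : Herm.IsHerm hF A) (hn : A.Nondeg) {k : ℕ}
    (hk : Module.finrank F V = k) : Isometric A (Conc.hermFrm hF k) := by
  obtain ⟨b, hb⟩ := Herm.orthonormal hF k A hA hn hk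
  have hB : ∀ x y, (Conc.hermFrm hF k).B (b.equivFun x) (b.equivFun y) = A.B x y := by
    intro x y
    rw [Conc.hermFrm_B, Cfsg.hermForm]
    conv_rhs => rw [← b.sum_equivFun x, ← b.sum_equivFun y]
    rw [B_sum_sum]
    refine Finset.sum_congr rfl (fun i _ => ?_)
    rw [Finset.sum_eq_single i]
    · rw [hb, if_pos rfl, Fld.frob_apply, mul_one, mul_comm]
    · intro j _ hj
      rw [hb, if_neg hj.symm, mul_zero, mul_zero]
    · simp
  refine ⟨b.equivFun, hB, fun x => ?_⟩
  rw [hA, Herm.hermFrm_isHerm hF k, hB]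

theorem gu_mulEquiv [Fintype F] {q : ℕ} (hF : Fintype.card F = q ^ 2) [FiniteDimensional F V]
    {A : Frm F (Fld.frob hF) 1 (Herm.tr hF) V} (hA : Herm.IsHerm hF A) (hn : A.Nondeg) {k : ℕ}
    (hk : Module.finrank F V = k) : Nonempty (A.isom ≃* Cfsg.GU k F q) := by
  obtain ⟨φ, h1, h2⟩ := herm_isometric hF hA hn hk
  exact ⟨(isomEquiv A (Conc.hermFrm hF k) φ h1 h2).trans (Conc.guEquiv hF k).symm⟩

end Cfsg.Agent.H5.Frm
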