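import Mathlib
import Cfsg.Agent.H5_CInv
import Cfsg.Agent.H11_TI
import Cfsg.Agent.H1_Nilp

/-! Standard subgroups and the layer. -/

set_option autoImplicit false

open Subgroup Cfsg
open scoped commutatorElement

universe u

namespace Cfsg.Agent.H5.StdC

open Cfsg.Agent.H11.Components

theorem key {G : Type u} [Group G] [Finite G] {A : Subgroup G} (hA : IsStandardSubgroup A) {X : Subgroup G}
    (hXK : X ≤ centralizer (A : Set G)) (hXe : 2 ∣ Nat.card X) {g : G} (hg : g ∈ normalizer (X : Set G)) :
    g ∈ normalizer (A : Set G) := by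
  rw [hA.2.2.2]
  by_contra hgN
  have h1 := hA.2.1.2 g hgN
  have h2 : X ≤ centralizer (A : Set G) ⊓ (centralizer (A : Set G)).map (MulAut.conj g).toMonoidHom := by
    refine le_inf hXK ?_
    intro x hx
    refine ⟨g⁻¹ * x * g, hXK ?_, by simp [mul_assoc]⟩
    exact (mem_normalizer_iff''.1 hg x).1 hx
  have h3 := card_dvd_of_le h2
  exact (Nat.not_even_iff_odd.2 h1) (even_iff_two_dvd.2 (hXe.trans h3))

theorem star {G : Type u} [Group G] [Finite G] {A : Subgroup G} (hA : IsStandardSubgroup A) (hO : oddCore G = ⊥)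
    (hn : ¬ A.Normal) {X : Subgroup G} (hX : X.Normal) (hXK : X ≤ centralizer (A : Set G)) : X = ⊥ := by
  by_cases he : 2 ∣ Nat.card X
  · exfalso; apply hn
    rw [← normalizer_eq_top_iff, eq_top_iff]
    intro g _
    exact key hA hXK he (by rw [normalizer_eq_top_iff.2 hX]; trivial)
  · rw [eq_bot_iff, ← hO]
    apply Cfsg.Agent.H1.Nilp.le_pPrimeCore hX
    exact ((Nat.Prime.coprime_iff_not_dvd Nat.prime_two).2 he).symm

/-- an element normalizing nothing: a subgroup `D` commuting with an even subgroup of `C(A)` normalizes `A` -/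
theorem le_norm {G : Type u} [Group G] [Finite G] {A : Subgroup G} (hA : IsStandardSubgroup A) {X D : Subgroup G}
    (hXK : X ≤ centralizer (A : Set G)) (hXe : 2 ∣ Nat.card X) (hDX : ⁅D, X⁆ = ⊥) : D ≤ normalizer (A : Set G) := by
  intro g hg
  apply key hA hXK hXe
  rw [commutator_eq_bot_iff_le_centralizer] at hDX
  exact centralizer_le_normalizer _ (hDX hg)

theorem simple_of {G : Type u} [Group G] {D : Subgroup G} (hD : IsQuasisimple D) (hZ : center D = ⊥) : IsSimpleGroup D := by
  haveI := hD.2
  haveI : Nontrivial D := IsQuasisimple.nontrivial hD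
  refine ⟨fun N hN => ?_⟩
  rcases IsQuasisimple.normal_eq_top_or_le_center hD N with h | h
  · exact Or.inr h
  · left; rw [hZ] at h; exact le_bot_iff.1 h

theorem main {G : Type u} [Group G] [Finite G] (hFT : ∀ K : Subgroup G, IsQuasisimple K → 2 ∣ Nat.card K)
    (A : Subgroup G) (hA : Cfsg.IsStandardSubgroup A) (hO : Cfsg.oddCore G = ⊥) (t : G) (ht : orderOf t = 2)
    (htA : t ∈ Subgroup.centralizer (A : Set G)) (hAc : IsComponent (A.subgroupOf (centralizer ({t} : Set G)))) :
    A.Normal ∨ (∃ X : Subgroup G, IsSimpleGroup ↥X ∧ ¬ IsMulCommutative ↥X ∧ Nonempty (↥X ≃* ↥A) ∧ (∀ a ∈ X, ∀ b ∈ X.map (MulAut.conj t).toMonoidHom, a * b = b * a) ∧ X ⊓ X.map (MulAut.conj t).toMonoidHom = ⊥ ∧ X ⊔ X.map (MulAut.conj t).toMonoidHom = Cfsg.layer G ∧ Subgroup.centralizer (A : Set G) = Subgroup.zpowers t) ∨ (A ≤ Cfsg.layer G ∧ IsSimpleGroup ↥(Cfsg.layer G) ∧ ¬ IsMulCommutative ↥(Cfsg.layer G)) := by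
  by_cases hn : A.Normal
  · exact Or.inl hn
  right
  haveI : Fact (Nat.Prime 2) := ⟨Nat.prime_two⟩
  have ht2 : t * t = 1 := by rw [← pow_two, ← ht, pow_orderOf_eq_one]
  have hti : t⁻¹ = t := inv_eq_of_mul_eq_one_left ht2
  have hAC : A ≤ centralizer ({t} : Set G) := by
    intro a ha
    rw [Subgroup.mem_centralizer_singleton_iff]
    exact (Subgroup.mem_centralizer_iff.mp htA a ha)
  have hAct : IsComponentOf A (centralizer ({t} : Set G)) := ⟨hAC, hAc⟩
  have hpc := Cfsg.Agent.H11.Sub.relPC_of_isComponentOf hAct (hFT A hA.1)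
  have hT : IsPGroup 2 (zpowers t) := by
    rw [IsPGroup.iff_card]
    exact ⟨1, by rw [Nat.card_zpowers, ht, pow_one]⟩
  have hLE : A ≤ layer G := by
    apply Cfsg.Agent.H11.LB.relPC_layer hO hT
    rw [← Cfsg.Agent.H11.Bal.centralizer_singleton_eq]
    exact hpc
  have hCE : centralizer (layer G : Set G) = ⊥ :=
    star hA hO hn inferInstance (centralizer_le hLE)
  -- components are simple
  have hsim : ∀ D : Subgroup G, IsComponent D → IsSimpleGroup D := by
    intro D hD
    apply simple_of hD.2
    rw [eq_bot_iff]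
    intro z hz
    have h1 : (z : G) ∈ centralizer (layer G : Set G) := by
      have h2 : layer G ≤ centralizer ({(z : G)} : Set G) := by
        rw [layer_le_iff]
        intro E hE
        intro e he
        rw [mem_centralizer_singleton_iff]
        rcases eq_or_ne E D with h | h
        · subst h
          have h3 := mem_center_iff.1 hz ⟨e, he⟩
          exact congrArg Subtype.val h3
        · have h3 := commutator_eq_bot_of_ne hE hD h
          exact Cfsg.Agent.H11.TI.commute_of_commutator_eq_bot h3 he z.2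
      rw [mem_centralizer_iff]
      intro e he
      exact mem_centralizer_singleton_iff.1 (h2 he)
    rw [hCE, mem_bot] at h1
    rw [mem_bot]
    exact Subtype.ext h1
  have hAna : ¬ IsMulCommutative A := IsQuasisimple.not_isMulCommutative hA.1
  obtain ⟨D, hD, h⟩ := Cfsg.Agent.H11.Dich.dichotomy ht hpc hLE
  have hDs := hsim D hD
  have hDna : ¬ IsMulCommutative D := IsQuasisimple.not_isMulCommutative hD.2
  rcases h with ⟨htD, hAD⟩ | ⟨htD, φ, hφ, hLφ⟩
  · right
    -- `A < D` and `D` is the only component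
    have hne : A ≠ D := by
      intro h
      apply hn
      rw [← normalizer_eq_top_iff, eq_top_iff]
      intro g _
      by_contra hg
      have h1 : A.map (MulAut.conj g).toMonoidHom ≠ A := fun h2 => hg (Cfsg.Agent.H11.TI.map_conj_eq_iff.1 h2)
      have h3 : IsComponent (A.map (MulAut.conj g).toMonoidHom) := (isComponent_map_conj A g).2 (h ▸ hD)
      exact hA.2.2.1 g h1 (commutator_eq_bot_of_ne (h ▸ hD) h3 h1.symm)
    have huniq : ∀ E : Subgroup G, IsComponent E → E = D := by
      intro E hE
      by_contra hED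
      have h1 := commutator_eq_bot_of_ne hD hE (Ne.symm hED)
      have h2 : E ≤ centralizer (A : Set G) := by
        rw [commutator_comm, commutator_eq_bot_iff_le_centralizer] at h1
        exact h1.trans (centralizer_le hAD)
      have h3 := le_norm hA h2 (hFT E hE.2) h1
      have h4 : (A.subgroupOf D).Normal := (normal_subgroupOf_iff_le_normalizer hAD).2 h3
      rcases hDs.eq_bot_or_eq_top_of_normal _ h4 with h5 | h5
      · rw [subgroupOf_eq_bot, disjoint_iff, inf_eq_left.2 hAD] at h5
        apply hAna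
        rw [h5]
        exact inferInstance
      · rw [subgroupOf_eq_top] at h5
        exact hne (le_antisymm hAD h5)
    have hl : layer G = D := by
      apply le_antisymm
      · rw [layer_le_iff]; intro E hE; rw [huniq E hE]
      · exact le_layer hD
    rw [hl]
    exact ⟨hAD, hDs, hDna⟩
  · left
    set D' := D.map (MulAut.conj t).toMonoidHom with hD'
    have hmem' : ∀ d ∈ D, t * d * t⁻¹ ∈ D' := fun d hd => ⟨d, hd, rfl⟩
    have hne : D' ≠ D := fun h => htD (Cfsg.Agent.H11.TI.map_conj_eq_iff.1 h)
    have hDc' : IsComponent D' := (isComponent_map_conj D t).2 hD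
    have hcomm := commutator_eq_bot_of_ne hD hDc' hne.symm
    have hcm : ∀ x ∈ D, ∀ y ∈ D', x * y = y * x := fun x hx y hy =>
      Cfsg.Agent.H11.TI.commute_of_commutator_eq_bot hcomm hx hy
    have hφ' : ∀ d : D, φ d = (d : G) * (t * d * t⁻¹) := by
      intro d
      rw [hφ.eq d, pow_two, hti]
      group
    have hφA : ∀ d : D, φ d ∈ A := fun d => by rw [hLφ]; exact ⟨d, rfl⟩
    have hinf : D ⊓ D' = ⊥ := by
      rw [eq_bot_iff]
      rintro x ⟨hx, hx'⟩
      have h1 : (⟨x, hx⟩ : D) ∈ center D := by
        rw [mem_center_iff]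
        intro y
        exact Subtype.ext (hcm y y.2 x hx')
      have h2 : center D = ⊥ := by
        rcases hDs.eq_bot_or_eq_top_of_normal (center D) inferInstance with h | h
        · exact h
        · exact absurd h (IsQuasisimple.center_ne_top hD.2)
      rw [h2, mem_bot] at h1
      rw [mem_bot]
      exact congrArg Subtype.val h1
    have hcD : center D = ⊥ := by
      rcases hDs.eq_bot_or_eq_top_of_normal (center D) inferInstance with h | h
      · exact h
      · exact absurd h (IsQuasisimple.center_ne_top hD.2)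
    have hinj : Function.Injective φ := by
      rw [← MonoidHom.ker_eq_bot_iff, eq_bot_iff, ← hcD]
      exact hφ.ker
    -- no further components
    have huniq : ∀ E : Subgroup G, IsComponent E → E = D ∨ E = D' := by
      intro E hE
      by_contra hED
      push Not at hED
      have h1 := commutator_eq_bot_of_ne hE hD hED.1
      have h1' := commutator_eq_bot_of_ne hE hDc' hED.2
      have h2 : E ≤ centralizer (A : Set G) := by
        intro e he
        rw [mem_centralizer_iff]
        intro a ha
        rw [hLφ] at ha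
        obtain ⟨d, rfl⟩ := ha
        have h3 := Cfsg.Agent.H11.TI.commute_of_commutator_eq_bot h1 he d.2
        have h4 := Cfsg.Agent.H11.TI.commute_of_commutator_eq_bot h1' he (hmem' _ d.2)
        rw [hφ', mul_assoc, ← h4, ← mul_assoc, ← h3, mul_assoc]
      have h3 := le_norm hA h2 (hFT E hE.2) (by rw [commutator_comm]; exact h1)
      -- `D` normalizes `A`
      apply hDna
      refine ⟨⟨fun a b => ?_⟩⟩
      have h4 := (mem_normalizer_iff.1 (h3 a.2) (φ b)).1 (hφA b)
      rw [hLφ] at h4
      obtain ⟨c, hc⟩ := h4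
      rw [hφ', hφ'] at hc
      -- c c^t = a b b^t a⁻¹ = (a b a⁻¹) b^t
      have h5 : (a : G) * ((b : G) * (t * b * t⁻¹)) * (a : G)⁻¹ = (a * b * (a : G)⁻¹) * (t * b * t⁻¹) := by
        have := hcm _ (D.inv_mem a.2) _ (hmem' _ b.2)
        calc (a : G) * ((b : G) * (t * b * t⁻¹)) * (a : G)⁻¹ = a * b * ((t * b * t⁻¹) * (a : G)⁻¹) := by group
          _ = a * b * ((a : G)⁻¹ * (t * b * t⁻¹)) := by rw [this]
          _ = _ := by group
      rw [h5] at hc
      have h6 : (a * b * (a : G)⁻¹)⁻¹ * c = (t * b * t⁻¹) * (t * c * t⁻¹)⁻¹ := by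
        rw [inv_mul_eq_iff_eq_mul, ← mul_assoc, eq_mul_inv_iff_mul_eq]
        exact hc
      have h7 : (t * b * t⁻¹) * (t * c * t⁻¹)⁻¹ ∈ D ⊓ D' := by
        refine Subgroup.mem_inf.2 ⟨?_, mul_mem (hmem' _ b.2) (inv_mem (hmem' _ c.2))⟩
        rw [← h6]
        exact D.mul_mem (D.inv_mem (D.mul_mem (D.mul_mem a.2 b.2) (D.inv_mem a.2))) c.2
      rw [hinf, mem_bot] at h7
      have h8 : (b : G) = c := by
        have : t * b * t⁻¹ = t * c * t⁻¹ := mul_inv_eq_one.1 h7
        simpa using this
      rw [h7] at h6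
      rw [← h8] at h6
      apply Subtype.ext
      have h9 := inv_mul_eq_one.1 h6
      have h10 := mul_inv_eq_iff_eq_mul.1 h9
      exact h10
    have hl : D ⊔ D' = layer G := by
      apply le_antisymm (sup_le (le_layer hD) (le_layer hDc'))
      rw [layer_le_iff]; intro E hE
      rcases huniq E hE with h | h
      · rw [h]; exact le_sup_left
      · rw [h]; exact le_sup_right
    have hcent : ∀ g : G, (∀ d ∈ D, g * d = d * g) → (∀ d ∈ D', g * d = d * g) → g = 1 := by
      intro g h1 h2
      have h3 : layer G ≤ centralizer ({g} : Set G) := by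
        rw [← hl, sup_le_iff]
        exact ⟨fun d hd => mem_centralizer_singleton_iff.2 (h1 d hd).symm, fun d hd => mem_centralizer_singleton_iff.2 (h2 d hd).symm⟩
      have h4 : g ∈ centralizer (layer G : Set G) := by
        rw [mem_centralizer_iff]
        intro e he
        exact mem_centralizer_singleton_iff.1 (h3 he)
      rw [hCE, mem_bot] at h4
      exact h4
    -- an element of `C(A)` normalizing `D` is trivial
    have hnorm : ∀ g ∈ centralizer (A : Set G), D.map (MulAut.conj g).toMonoidHom = D → g = 1 := by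
      intro g hg hgD
      have h1 : IsComponent (D'.map (MulAut.conj g).toMonoidHom) := (isComponent_map_conj D' g).2 hDc'
      have hgD' : D'.map (MulAut.conj g).toMonoidHom = D' := by
        rcases huniq _ h1 with h | h
        · exfalso
          apply hne
          have h2 : D'.map (MulAut.conj g).toMonoidHom = D.map (MulAut.conj g).toMonoidHom := by rw [h, hgD]
          exact map_injective (f := (MulAut.conj g).toMonoidHom) (MulAut.conj g).injective h2
        · exact h
      have hb : ∀ d ∈ D, g * d * g⁻¹ = d ∧ g * (t * d * t⁻¹) * g⁻¹ = t * d * t⁻¹ := by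
        intro d hd
        have h2 := mem_centralizer_iff.1 hg (φ ⟨d, hd⟩) (hφA _)
        rw [hφ'] at h2
        change d * (t * d * t⁻¹) * g = g * (d * (t * d * t⁻¹)) at h2
        have e1 : g * d * g⁻¹ ∈ D := by
          have := (Cfsg.Agent.H11.TI.conj_mem_map_conj (g := g) (x := d) (H := D)).2 hd
          rwa [hgD] at this
        have e2 : g * (t * d * t⁻¹) * g⁻¹ ∈ D' := by
          have := (Cfsg.Agent.H11.TI.conj_mem_map_conj (g := g) (x := t * d * t⁻¹) (H := D')).2 (hmem' d hd)
          rwa [hgD'] at this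
        have h3 : d * (t * d * t⁻¹) = (g * d * g⁻¹) * (g * (t * d * t⁻¹) * g⁻¹) := by
          have h6 : d * (t * d * t⁻¹) = g * (d * (t * d * t⁻¹)) * g⁻¹ := by rw [← h2]; group
          rw [h6]; group
        have h4 : (g * d * g⁻¹)⁻¹ * d = (g * (t * d * t⁻¹) * g⁻¹) * (t * d * t⁻¹)⁻¹ := by
          rw [inv_mul_eq_iff_eq_mul, ← mul_assoc, eq_mul_inv_iff_mul_eq]
          exact h3
        have h5 : (g * d * g⁻¹)⁻¹ * d ∈ D ⊓ D' := by
          refine Subgroup.mem_inf.2 ⟨mul_mem (inv_mem e1) hd, ?_⟩
          rw [h4]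
          exact mul_mem e2 (inv_mem (hmem' d hd))
        rw [hinf, mem_bot] at h5
        refine ⟨inv_mul_eq_one.1 h5, ?_⟩
        rw [h5] at h4
        exact mul_inv_eq_one.1 h4.symm
      apply hcent
      · intro d hd
        exact mul_inv_eq_iff_eq_mul.1 (hb d hd).1
      · rintro _ ⟨d, hd, rfl⟩
        exact mul_inv_eq_iff_eq_mul.1 (hb d hd).2
    refine ⟨D, hDs, hDna, ⟨(MonoidHom.ofInjective hinj).trans (MulEquiv.subgroupCongr hLφ.symm)⟩, hcm, hinf, hl, ?_⟩
    apply le_antisymm
    · intro g hg
      have h1 : IsComponent (D.map (MulAut.conj g).toMonoidHom) := (isComponent_map_conj D g).2 hD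
      rcases huniq _ h1 with h | h
      · rw [hnorm g hg h]; exact one_mem _
      · have h2 : D.map (MulAut.conj (t * g)).toMonoidHom = D := by
          rw [← Cfsg.Agent.H11.TI.map_conj_mul, h, hD', Cfsg.Agent.H11.TI.map_conj_mul, ht2, Cfsg.Agent.H11.TI.map_conj_one]
        have h3 := hnorm (t * g) (mul_mem htA hg) h2
        have h4 : g = t := by rw [← hti]; exact (eq_inv_of_mul_eq_one_right h3)
        rw [h4]; exact mem_zpowers t
    · exact zpowers_le.2 htA

end Cfsg.Agent.H5.StdC
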