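import Mathlib
import Cfsg.Agent.H16_Quad6
import Cfsg.Agent.H5_AltBasis

set_option autoImplicit false
set_option linter.unusedSectionVars false

/-! Type of even-dimensional forms via discriminants; tensor products of forms. -/

namespace Cfsg.Agent.H5.Tens

open Module Matrix
open QuadraticMap (polar)
open Cfsg.Agent.H16.Quad hiding map_smul map_add map_sub
open scoped TensorProduct Kronecker

section Disc

variable {F V ι : Type*} [Field F] [Fintype F] [AddCommGroup V] [Module F V] [FiniteDimensional F V] [Fintype ι] [DecidableEq ι]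
  {Q : QuadraticForm F V}

theorem ts_iff (h2 : (2 : F) ≠ 0) (hQ : (QuadraticMap.polarBilin Q).Nondegenerate) {m : ℕ} (hm : 1 ≤ m)
    (hV : finrank F V = 2 * m) (b : Basis ι F V) :
    (∃ U : Submodule F V, finrank F U = m ∧ ∀ u ∈ U, Q u = 0) ↔ IsSquare ((-1) ^ m * (gram Q b).det) := by
  constructor
  · rintro ⟨U, hU1, hU2⟩
    exact (isPlus_of_ts hQ hV hU2 hU1).disc b
  · intro h
    obtain ⟨k, rfl⟩ : ∃ k, m = k + 1 := ⟨m - 1, by omega⟩
    rcases plus_or_minus hQ (show finrank F V = 2 * k + 2 by omega) with h1 | h1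
    · obtain ⟨U, hU, hU2⟩ := h1.exists_ts
      exact ⟨U, hU2, hU⟩
    · exact absurd h (h1.disc h2 hQ b)

/-- the quadratic form of a bilinear form -/
abbrev qf {F V : Type*} [Field F] [AddCommGroup V] [Module F V] (B : LinearMap.BilinForm F V) : QuadraticForm F V :=
  LinearMap.BilinMap.toQuadraticMap B

theorem qf_apply (B : LinearMap.BilinForm F V) (x : V) : qf B x = B x x := rfl

theorem polar_qf (B : LinearMap.BilinForm F V) (hB : B.IsSymm) (x y : V) : polar (qf B) x y = 2 * B x y := by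
  rw [LinearMap.BilinMap.polar_toQuadraticMap]
  have : B y x = B x y := hB.eq y x
  rw [this]; ring

theorem nd_qf (h2 : (2 : F) ≠ 0) {B : LinearMap.BilinForm F V} (hB : B.IsSymm) (hnd : B.Nondegenerate) :
    (QuadraticMap.polarBilin (qf B)).Nondegenerate := by
  apply nd_of
  intro x hx
  apply hnd.1 x
  intro y
  have := hx y
  rw [polar_qf B hB] at this
  exact (mul_eq_zero.1 this).resolve_left h2

theorem gram_qf (B : LinearMap.BilinForm F V) (hB : B.IsSymm) (b : Basis ι F V) :
    gram (qf B) b = (2 : F) • LinearMap.BilinForm.toMatrix b B := by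
  ext i j
  show polar (qf B) (b i) (b j) = _
  rw [polar_qf B hB, Matrix.smul_apply, LinearMap.BilinForm.toMatrix_apply, smul_eq_mul]

theorem ti_iff (h2 : (2 : F) ≠ 0) {B : LinearMap.BilinForm F V} (hB : B.IsSymm) (X : Submodule F V) :
    (∀ x ∈ X, ∀ y ∈ X, B x y = 0) ↔ ∀ x ∈ X, qf B x = 0 := by
  constructor
  · intro h x hx
    exact h x hx x hx
  · intro h x hx y hy
    have h1 := ts_polar (Q := qf B) h hx hy
    rw [polar_qf B hB] at h1
    exact (mul_eq_zero.1 h1).resolve_left h2

theorem bilin_iff (h2 : (2 : F) ≠ 0) {B : LinearMap.BilinForm F V} (hB : B.IsSymm) (hnd : B.Nondegenerate) {m : ℕ} (hm : 1 ≤ m)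
    (hV : finrank F V = 2 * m) (b : Basis ι F V) :
    (∃ X : Submodule F V, finrank F X = m ∧ ∀ x ∈ X, ∀ y ∈ X, B x y = 0) ↔
      IsSquare ((-1) ^ m * (LinearMap.BilinForm.toMatrix b B).det) := by
  have h1 : (∃ X : Submodule F V, finrank F X = m ∧ ∀ x ∈ X, ∀ y ∈ X, B x y = 0) ↔
      ∃ U : Submodule F V, finrank F U = m ∧ ∀ u ∈ U, qf B u = 0 := by
    simp only [ti_iff h2 hB]
  rw [h1, ts_iff h2 (nd_qf h2 hB hnd) hm hV b, gram_qf B hB, Matrix.det_smul]
  have hc : Fintype.card ι = 2 * m := by rw [← hV, finrank_eq_card_basis b]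
  rw [hc, pow_mul']
  have h3 : (2 : F) ^ m ≠ 0 := pow_ne_zero _ h2
  constructor
  · rintro ⟨r, hr⟩
    refine ⟨r / 2 ^ m, ?_⟩
    field_simp
    linear_combination hr
  · rintro ⟨r, hr⟩
    exact ⟨r * 2 ^ m, by linear_combination (2 ^ m) ^ 2 * hr⟩

end Disc

section Tensor

variable {F U W ι κ : Type*} [Field F] [AddCommGroup U] [Module F U] [FiniteDimensional F U]
  [AddCommGroup W] [Module F W] [FiniteDimensional F W] [Fintype ι] [DecidableEq ι] [Fintype κ] [DecidableEq κ]

theorem toMatrix_tmul (B₁ : LinearMap.BilinForm F U) (B₂ : LinearMap.BilinForm F W) (b : Basis ι F U) (c : Basis κ F W) :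
    LinearMap.BilinForm.toMatrix (b.tensorProduct c) (B₁.tmul B₂ : LinearMap.BilinForm F (U ⊗[F] W)) =
      (LinearMap.BilinForm.toMatrix b B₁) ⊗ₖ (LinearMap.BilinForm.toMatrix c B₂) := by
  ext ⟨i, j⟩ ⟨i', j'⟩
  rw [LinearMap.BilinForm.toMatrix_apply, Matrix.kroneckerMap_apply, LinearMap.BilinForm.toMatrix_apply,
    LinearMap.BilinForm.toMatrix_apply, Basis.tensorProduct_apply, Basis.tensorProduct_apply]
  show (B₂ (c j) (c j')) • (B₁ (b i) (b i')) = _
  rw [smul_eq_mul, mul_comm]

theorem det_tmul (B₁ : LinearMap.BilinForm F U) (B₂ : LinearMap.BilinForm F W) (b : Basis ι F U) (c : Basis κ F W) :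
    (LinearMap.BilinForm.toMatrix (b.tensorProduct c) (B₁.tmul B₂ : LinearMap.BilinForm F (U ⊗[F] W))).det =
      (LinearMap.BilinForm.toMatrix b B₁).det ^ Fintype.card κ * (LinearMap.BilinForm.toMatrix c B₂).det ^ Fintype.card ι := by
  rw [toMatrix_tmul, Matrix.det_kronecker]

theorem nd_tmul {B₁ : LinearMap.BilinForm F U} {B₂ : LinearMap.BilinForm F W} (h₁ : B₁.Nondegenerate) (h₂ : B₂.Nondegenerate) :
    (B₁.tmul B₂ : LinearMap.BilinForm F (U ⊗[F] W)).Nondegenerate := by
  classical
  let b := finBasis F U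
  let c := finBasis F W
  refine (LinearMap.BilinForm.nondegenerate_iff_det_ne_zero (b.tensorProduct c)).2 ?_
  rw [det_tmul]
  exact mul_ne_zero (pow_ne_zero _ ((LinearMap.BilinForm.nondegenerate_iff_det_ne_zero b).1 h₁))
    (pow_ne_zero _ ((LinearMap.BilinForm.nondegenerate_iff_det_ne_zero c).1 h₂))

/-- the subspace `L ⊗ W` -/
theorem exists_sub (B₁ : LinearMap.BilinForm F U) (B₂ : LinearMap.BilinForm F W) (L : Submodule F U)
    (hL : ∀ x ∈ L, ∀ y ∈ L, B₁ x y = 0) : ∃ X : Submodule F (U ⊗[F] W), finrank F X = finrank F L * finrank F W ∧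
      ∀ x ∈ X, ∀ y ∈ X, (B₁.tmul B₂ : LinearMap.BilinForm F (U ⊗[F] W)) x y = 0 := by
  refine ⟨LinearMap.range (LinearMap.rTensor W L.subtype), ?_, ?_⟩
  · rw [LinearMap.finrank_range_of_inj (Module.Flat.rTensor_preserves_injective_linearMap (M := W) L.subtype L.injective_subtype),
      finrank_tensorProduct]
  · rintro _ ⟨x, rfl⟩ _ ⟨y, rfl⟩
    induction x using TensorProduct.induction_on with
    | zero => simp
    | add x x' hx hx' => rw [map_add, map_add, LinearMap.add_apply, hx, hx', add_zero]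
    | tmul l w =>
      induction y using TensorProduct.induction_on with
      | zero => simp
      | add y y' hy hy' => rw [map_add, map_add, hy, hy', add_zero]
      | tmul l' w' =>
        show (B₂ w w') • (B₁ (l : U) (l' : U)) = 0
        rw [hL _ l.2 _ l'.2, smul_zero]

theorem symm_of_alt {B₁ : LinearMap.BilinForm F U} {B₂ : LinearMap.BilinForm F W} (h₁ : B₁.IsAlt) (h₂ : B₂.IsAlt) :
    (B₁.tmul B₂ : LinearMap.BilinForm F (U ⊗[F] W)).IsSymm := by
  constructor
  intro x y
  rw [RingHom.id_apply]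
  induction x using TensorProduct.induction_on with
  | zero => simp
  | add x x' hx hx' => rw [map_add, map_add, LinearMap.add_apply, hx, hx']
  | tmul l w =>
    induction y using TensorProduct.induction_on with
    | zero => simp
    | add y y' hy hy' => rw [map_add, map_add, LinearMap.add_apply, hy, hy']
    | tmul l' w' =>
      show (B₂ w w') • (B₁ l l') = (B₂ w' w) • (B₁ l' l)
      rw [← LinearMap.BilinForm.IsAlt.neg_eq h₁ l l', ← LinearMap.BilinForm.IsAlt.neg_eq h₂ w w', smul_eq_mul, smul_eq_mul]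
      ring

end Tensor

section Lagr

variable {F U : Type*} [Field F] [AddCommGroup U] [Module F U] [FiniteDimensional F U]

theorem exists_lagr {B : LinearMap.BilinForm F U} (hB : B.Nondegenerate) (hA : B.IsAlt) {k : ℕ} (hU : finrank F U = 2 * k) :
    ∃ L : Submodule F U, finrank F L = k ∧ ∀ x ∈ L, ∀ y ∈ L, B x y = 0 := by
  obtain ⟨ι, κ, _, _, _, b, h1, h2, h3, h4⟩ := AltBasis.exists_basis (finrank F U) (Frm.ofAlt B hA) (fun _ => rfl) rfl
  have hκ : IsEmpty κ := by
    constructor
    intro j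
    have h5 : b (.inr j) = 0 := hB.1 _ (fun v => h4 j v)
    exact b.ne_zero _ h5
  have hc : Fintype.card ι = k := by
    have := finrank_eq_card_basis b
    rw [hU, Fintype.card_sum, Fintype.card_sum, Fintype.card_eq_zero (α := κ)] at this
    omega
  have hli : LinearIndependent F (fun i : ι => b (.inl (.inl i))) :=
    b.linearIndependent.comp (fun i : ι => (Sum.inl (Sum.inl i) : (ι ⊕ ι) ⊕ κ)) (fun i j h => by
      simpa using h)
  refine ⟨Submodule.span F (Set.range (fun i : ι => b (.inl (.inl i)))), ?_, ?_⟩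
  · rw [finrank_span_eq_card hli, hc]
  · intro x hx y hy
    have h5 : ∀ i j : ι, B (b (.inl (.inl i))) (b (.inl (.inl j))) = 0 := h2
    induction hx using Submodule.span_induction with
    | zero => simp
    | add x x' _ _ hx hx' => rw [map_add, LinearMap.add_apply, hx, hx', add_zero]
    | smul c x _ hx => rw [map_smul, LinearMap.smul_apply, hx, smul_zero]
    | mem x hx =>
      obtain ⟨i, rfl⟩ := hx
      induction hy using Submodule.span_induction with
      | zero => simp
      | add y y' _ _ hy hy' => rw [map_add, hy, hy', add_zero]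
      | smul c y _ hy => rw [map_smul, hy, smul_zero]
      | mem y hy =>
        obtain ⟨j, rfl⟩ := hy
        exact h5 i j

end Lagr


section Symm

variable {F U W : Type*} [Field F] [AddCommGroup U] [Module F U] [AddCommGroup W] [Module F W]

theorem symm_tmul {B₁ : LinearMap.BilinForm F U} {B₂ : LinearMap.BilinForm F W} (h₁ : B₁.IsSymm) (h₂ : B₂.IsSymm) :
    LinearMap.BilinForm.IsSymm (B₁.tmul B₂ : LinearMap.BilinForm F (U ⊗[F] W)) := by
  have h₁' : LinearMap.IsSymm B₁ := ⟨fun x y => h₁.eq x y⟩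
  have h₂' : LinearMap.IsSymm B₂ := ⟨fun x y => h₂.eq x y⟩
  exact ⟨fun x y => (LinearMap.IsSymm.tmul h₁' h₂').eq x y⟩

end Symm


end Cfsg.Agent.H5.Tens
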