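import Cfsg.Agent.H5_AutO
import Cfsg.Agent.H16_POm9

set_option autoImplicit false

/-! Triality, part 1: where automorphisms of an orthogonal group in dimension eight send the points. -/

namespace Cfsg.Agent.H16.Ps

namespace PolT

variable {F V S T : Type*} [Field F] [AddCommGroup V] [Module F V] [Group S] [Group T] (P : PolT F V S T)

theorem rel_or [Finite S] [Finite V] [Finite F] (hB : P.Big)
    (hne : ∀ v f, P.sg v → P.sg f → P.h v f = 1 → ∃ x ∈ P.perp v f, x ≠ 0) (hI : P.Irr)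
    (hQ : ∀ v, P.sg v → v ≠ 0 → ∀ s ∈ P.Q v, ∀ t ∈ P.Q v, s * t = t * s)
    (hR : ∀ v, P.sg v → v ≠ 0 → ∀ W : Submodule F V, (∀ w ∈ W, P.sg w) → (∀ w ∈ W, ∀ x ∈ W, P.h w x = 0) →
      (∃ w ∈ W, ∃ x ∈ W, w ≠ 0 ∧ x ≠ 0 ∧ ¬ Sim F w x) →
      (∀ s ∈ P.RR W, ∀ t ∈ P.RR W, s * t = t * s) → Nat.card (P.Q v) ≤ Nat.card (P.RR W))
    (α : MulAut T) {v : V} (hv : P.sg v) (hv0 : v ≠ 0) : (∃ v', P.Rel α v v') ∨
    ∃ W : Submodule F V, (∀ w ∈ W, P.sg w) ∧ (∀ w ∈ W, ∀ x ∈ W, P.h w x = 0) ∧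
      (∃ w ∈ W, ∃ x ∈ W, w ≠ 0 ∧ x ≠ 0 ∧ ¬ Sim F w x) ∧ (∀ s ∈ P.RR W, ∀ t ∈ P.RR W, s * t = t * s) ∧
      (P.QT v).map α.toMonoidHom = (P.RR W).map P.pm := by
  obtain ⟨p, hp⟩ := CharP.exists F
  have : Fact p.Prime := ⟨CharP.char_is_prime F p⟩
  have hV : ∃ x : V, x ≠ 0 := ⟨v, hv0⟩
  have : Finite T := Finite.of_surjective _ P.pm_surj
  obtain ⟨W, g, K, hWs, hWi, hgv, hW, hK⟩ := P.exists_W (p := p) hB hne α hv hv0
  set v' := P.r g v with hv'
  have hsv' : P.sg v' := P.r_sg g v hv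
  have hv0' : v' ≠ 0 := P.r_ne_zero g hv0
  have hinvα : ∀ s s', P.pm s' = α (P.pm s) → Sim F v (P.r s v) →
      P.pm s'⁻¹ = α (P.pm s⁻¹) ∧ Sim F v (P.r s⁻¹ v) := by
    intro s s' hss hs
    refine ⟨by rw [map_inv, map_inv, map_inv, hss], ?_⟩
    have := P.sim_r s⁻¹ hs
    rw [P.r_inv_r] at this
    exact this.symm
  have hRp : IsPGroup p (P.RR W) := PolG.RR_pgroup hWi
  -- RR W is contained in K
  have hRK : P.RR W ≤ K := by
    have h1 : (K : Subgroup S) ≤ Subgroup.normalizer (P.RR W : Set S) := by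
      have key : ∀ s' ∈ K, ∀ t ∈ P.RR W, s'⁻¹ * t * s' ∈ P.RR W := by
        intro s' hs' t ht
        obtain ⟨s, hs, hsv⟩ := hK s' hs'
        have hsim : Sim F v (P.r s v) := by rw [hsv]; exact Sim.refl v
        obtain ⟨h4, h5⟩ := hinvα s s' hs hsim
        exact PolG.RR_conj (hW s s' hs hsim) (hW _ _ h4 h5) ht
      intro s' hs'
      rw [Subgroup.mem_normalizer_iff]
      intro t
      constructor
      · intro ht
        have := key s'⁻¹ (inv_mem hs') t ht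
        rwa [inv_inv] at this
      · intro ht
        have := key s' hs' _ ht
        have e : s'⁻¹ * (s' * t * s'⁻¹) * s' = t := by group
        rwa [e] at this
    have h2 : IsPGroup p ((K : Subgroup S) ⊔ P.RR W : Subgroup S) :=
      IsPGroup.to_sup_of_normal_right' K.isPGroup' hRp h1
    have h3 := K.is_maximal' h2 le_sup_left
    rw [← h3]
    exact le_sup_right
  -- pull back
  have hle : (P.RR W).map P.pm ≤ (P.QT v).map α.toMonoidHom := by
    have h1 : ((P.RR W).map P.pm).map (α⁻¹ : MulAut T).toMonoidHom ≤ P.QT v := by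
      refine P.OP (p := p) hI hv hv0 _ ((hRp.map _).map _) ?_ ?_
      · rintro s ⟨_, ⟨t, ht, rfl⟩, h2⟩
        obtain ⟨s₁, h3, h4⟩ := hK t (hRK ht)
        have h5 : P.pm s₁ = P.pm s := by
          apply α.injective
          rw [← h3, ← h2]
          exact (α.apply_symm_apply _).symm
        obtain ⟨c, hc⟩ := P.pm_eq h5
        have h6 := hc v
        rw [h4] at h6
        exact ⟨c, P.pm_ne_zero hc hv0, h6⟩
      · rintro s hs _ ⟨_, ⟨t, ht, rfl⟩, rfl⟩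
        obtain ⟨s', hs'⟩ := P.pm_surj (α (P.pm s))
        obtain ⟨h4, h5⟩ := hinvα s s' hs' hs
        refine ⟨_, ⟨_, PolG.RR_conj (hW s s' hs' hs) (hW _ _ h4 h5) ht, rfl⟩, ?_⟩
        change α⁻¹ (P.pm (s'⁻¹ * t * s')) = (P.pm s)⁻¹ * α⁻¹ (P.pm t) * P.pm s
        rw [map_mul P.pm, map_mul P.pm, map_inv P.pm, hs', map_mul α⁻¹, map_mul α⁻¹, map_inv α⁻¹]
        have h6 : α⁻¹ (α (P.pm s)) = P.pm s := α.symm_apply_apply _
        rw [h6]
    rintro _ ⟨t, ht, rfl⟩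
    refine ⟨_, h1 ⟨_, ⟨t, ht, rfl⟩, rfl⟩, ?_⟩
    exact α.apply_symm_apply _
  -- W is a line
  by_cases hline : ∀ w ∈ W, w ≠ 0 → Sim F v' w
  swap
  · right
    push Not at hline
    obtain ⟨w, hw, hw0, hw'⟩ := hline
    refine ⟨W, hWs, hWi, ⟨v', hgv, w, hw, hv0', hw0, hw'⟩, ?_⟩
    have hcomm : ∀ s ∈ P.RR W, ∀ t ∈ P.RR W, s * t = t * s := by
      intro s hs t ht
      obtain ⟨_, ⟨a, ha, rfl⟩, h2⟩ := hle ⟨s, hs, rfl⟩
      obtain ⟨_, ⟨b, hb, rfl⟩, h3⟩ := hle ⟨t, ht, rfl⟩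
      refine P.pm_inj_pgroup hRp hV (mul_mem hs ht) (mul_mem ht hs) ?_
      rw [map_mul, map_mul, ← h2, ← h3]
      change α (P.pm a) * α (P.pm b) = α (P.pm b) * α (P.pm a)
      rw [← map_mul, ← map_mul, ← map_mul, ← map_mul, hQ v hv hv0 a ha b hb]
    refine ⟨hcomm, ?_⟩
    have h1 := hR v hv hv0 W hWs hWi ⟨v', hgv, w, hw, hv0', hw0, hw'⟩ hcomm
    have e1 : Nat.card ((P.RR W).map P.pm) = Nat.card (P.RR W) := by
      refine (Nat.card_congr (Equiv.ofBijective (fun s : P.RR W => (⟨P.pm s, s, s.2, rfl⟩ : (P.RR W).map P.pm)) ⟨?_, ?_⟩)).symm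
      · intro a b hab
        exact Subtype.ext (P.pm_inj_pgroup hRp hV a.2 b.2 (congrArg Subtype.val hab))
      · rintro ⟨_, s, hs, rfl⟩
        exact ⟨⟨s, hs⟩, rfl⟩
    have e2 : Nat.card ((P.RR W).map P.pm) ≤ Nat.card ((P.QT v).map α.toMonoidHom) :=
      Nat.card_le_card_of_injective _ (Subgroup.inclusion_injective hle)
    have e3 : Nat.card ((P.QT v).map α.toMonoidHom) = Nat.card (P.QT v) :=
      Subgroup.card_map_of_injective α.injective
    have e4 : Nat.card (P.QT v) ≤ Nat.card (P.Q v) :=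
      Nat.card_le_card_of_surjective _ (P.pm.subgroupMap_surjective (P.Q v))
    exact (Subgroup.eq_of_le_of_card_ge hle (by omega)).symm
  left
  -- stabilizers
  have hst1 : ∀ s s', P.pm s' = α (P.pm s) → Sim F v (P.r s v) → Sim F v' (P.r s' v') := by
    intro s s' hss hs
    exact hline _ (hW s s' hss hs _ hgv) (P.r_ne_zero s' hv0')
  let St : V → Subgroup T := fun x =>
    { carrier := {t | ∃ s, P.pm s = t ∧ Sim F x (P.r s x)}
      one_mem' := ⟨1, map_one _, by rw [P.r_one]; exact Sim.refl x⟩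
      mul_mem' := by
        rintro _ _ ⟨s, rfl, hs⟩ ⟨t, rfl, ht⟩
        refine ⟨s * t, map_mul _ _ _, ?_⟩
        rw [P.r_mul]
        exact hs.trans (P.sim_r s ht)
      inv_mem' := by
        rintro _ ⟨s, rfl, hs⟩
        refine ⟨s⁻¹, map_inv _ _, ?_⟩
        have := P.sim_r s⁻¹ hs
        rw [P.r_inv_r] at this
        exact this.symm }
  have hStle : (St v).map α.toMonoidHom ≤ St v' := by
    rintro _ ⟨_, ⟨s, rfl, hs⟩, rfl⟩
    obtain ⟨s', hs'⟩ := P.pm_surj (α (P.pm s))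
    exact ⟨s', hs', hst1 s s' hs' hs⟩
  have hStc : Nat.card (St v') ≤ Nat.card (St v) := by
    have hmap : ∀ t : St v', (P.pm g)⁻¹ * t * P.pm g ∈ St v := by
      rintro ⟨_, s, rfl, hs⟩
      refine ⟨g⁻¹ * s * g, by rw [map_mul, map_mul, map_inv], ?_⟩
      rw [P.r_mul, P.r_mul, ← hv']
      have := P.sim_r g⁻¹ hs
      rwa [hv', P.r_inv_r, ← hv'] at this
    refine Nat.card_le_card_of_injective (fun t : St v' => (⟨_, hmap t⟩ : St v)) ?_
    intro a b hab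
    have := congrArg Subtype.val hab
    exact Subtype.ext (mul_left_cancel (mul_right_cancel this))
  have hSteq : (St v).map α.toMonoidHom = St v' := by
    apply Subgroup.eq_of_le_of_card_ge hStle
    rw [Subgroup.card_map_of_injective α.injective]
    exact hStc
  refine ⟨v', P.rel_of_stab hI α hv hv0 hsv' hv0' fun s s' hss => ⟨hst1 s s' hss, fun hs' => ?_⟩⟩
  have h1 : P.pm s' ∈ St v' := ⟨s', rfl, hs'⟩
  rw [← hSteq] at h1
  obtain ⟨_, ⟨s₁, rfl, h3⟩, h4⟩ := h1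
  have h5 : P.pm s₁ = P.pm s := by
    apply α.injective
    rw [← hss]
    exact h4
  obtain ⟨c, hc⟩ := P.pm_eq h5
  rw [hc v]
  exact h3.trans (Sim.smul (P.pm_ne_zero hc hv0))
end PolT

end Cfsg.Agent.H16.Ps

namespace Cfsg.Agent.H16.POm

open Matrix Cfsg.Agent.H16.Ps Module Cfsg.Agent.H16.Gam Cfsg.Agent.H16.AutL Cfsg.Agent.H16.AutG Cfsg.Agent.H16.Desc
open QuadraticMap (polar)
open Cfsg.Agent.H16

variable {ι : Type} [Fintype ι] [DecidableEq ι] {F : Type*} [Field F] [Finite F] {A : OD ι F}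

/-- the count in dimension eight. -/
theorem hR_eight (hι : Fintype.card ι = 8) : ∀ v, (omG A).sg v → v ≠ 0 →
    ∀ W : Submodule F (ι → F), (∀ w ∈ W, A.Q w = 0) →
      2 * finrank F W = Fintype.card ι → Nat.card ((omG A).Q v) ≤ Nat.card ((omG A).RR W) := by
  intro v hv hv0 W hWs hrk
  have hWi : ∀ w ∈ W, ∀ x ∈ W, (omG A).h w x = 0 := fun w hw x hx => Quad.ts_polar hWs hw hx
  have hWs' : ∀ w ∈ W, (omG A).sg w := hWs
  have hrk' : finrank F W = 4 := by omega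
  let b₀ := finBasisOfFinrankEq F W hrk'
  let b : Fin 4 → (ι → F) := fun i => (b₀ i : ι → F)
  have hb : LinearIndependent F b := b₀.linearIndependent.map' W.subtype (Submodule.ker_subtype W)
  have hbW : ∀ i, b i ∈ W := fun i => (b₀ i).2
  have hb0 : ∀ i, b i ≠ 0 := fun i => hb.ne_zero i
  set J := Finset.univ.filter fun p : Fin 4 × Fin 4 => p.1 < p.2 with hJ
  have h1 := PolG.card_RR (P := omG A) hWi hbW hb J (fun p hp => le_of_lt (Finset.mem_filter.mp hp).2) (by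
    intro p hp c
    have hpp : p.1 ≠ p.2 := ne_of_lt (Finset.mem_filter.mp hp).2
    obtain ⟨s, hs, h3⟩ := PolG.exRR_pair (P := omG A) hWs' hWi (hbW p.1) (hbW p.2) (hb0 p.1) (by
      intro d hd
      obtain ⟨y, hy⟩ := (omG A).dual_surj hb (Pi.single p.1 1)
      have e1 : (omG A).h (b p.1) y = 1 := by
        have := congrFun hy p.1
        rwa [Pi.single_eq_same] at this
      have e2 : (omG A).h (b p.2) y = 0 := by
        have := congrFun hy p.2
        rwa [Pi.single_eq_of_ne (Ne.symm hpp)] at this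
      rw [hd, (omG A).h_smul_left, e2, mul_zero] at e1
      exact zero_ne_one e1) c
    refine ⟨s, hs, fun x => ?_⟩
    rw [h3, if_neg hpp])
  have h3 := PolG.card_Q_le' (P := omG A) hv hv0 (hX1 hv hv0)
  have hJc : J.card = 6 := by rw [hJ]; decide
  have hq : 2 ≤ Nat.card F := Finite.one_lt_card
  have hV : Nat.card (ι → F) = Nat.card F ^ 8 := by
    rw [Nat.card_fun, Nat.card_eq_fintype_card (α := ι), hι]
  have h4 : Nat.card ((omG A).Q v) * Nat.card F ^ 2 ≤ Nat.card F ^ 6 * Nat.card F ^ 2 := by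
    rw [← pow_add, ← hV]
    exact h3
  have h5 := Nat.le_of_mul_le_mul_right h4 (by positivity)
  rw [← hJc] at h5
  exact h5.trans h1

theorem rel_or (hι : Fintype.card ι = 8) (α : MulAut (Cfsg.POmega F ⇑A.Q)) (v : ι → F) (hv : (omG A).sg v) (hv0 : v ≠ 0) :
    (∃ v', (omT A).Rel α v v') ∨ ∃ W : Submodule F (ι → F), (∀ w ∈ W, A.Q w = 0) ∧ finrank F W = 4 ∧
      ((omT A).QT v).map α.toMonoidHom = ((omT A).RR W).map (omT A).pm := by
  have hsym : ∀ x y, (omG A).h x y = (omG A).h y x := fun x y => Quad.polar_symm A.Q x y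
  rcases (omT A).rel_or (PolG.big_of_rich rich) (by
      intro v f hv hf hvf
      obtain ⟨x, hx, -, hx0⟩ := hne (A := A) v f hv hf hvf
      exact ⟨x, hx, hx0⟩) irr (fun v hv hv0 s hs t ht => PolG.Q_comm (P := omG A) hsym hv hv0 hs ht) (by
      intro v hv hv0 W hWs hWi hex hc
      change Nat.card ((omG A).Q v) ≤ Nat.card ((omG A).RR W)
      have hrk : 2 * finrank F W = finrank F (ι → F) :=
        (omG A).finrank_eq_of_orth hWi fun u hu u' hu' =>
          PolG.perp_of_comm (P := omG A) hWs hWi hex hc hu hu'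
      rw [finV] at hrk
      exact hR_eight hι v hv hv0 W hWs hrk) α hv hv0 with h | ⟨W, h1, h2, h3, h4, h5⟩
  · exact Or.inl h
  · right
    refine ⟨W, h1, ?_, h5⟩
    have hrk : 2 * finrank F W = finrank F (ι → F) :=
      (omG A).finrank_eq_of_orth h2 fun u hu u' hu' =>
        PolG.perp_of_comm (P := omG A) h1 h2 h3 h4 hu hu'
    rw [finV, hι] at hrk
    omega

/-- all points are moved to points once one is. -/
theorem rel_all {α : MulAut (Cfsg.POmega F ⇑A.Q)} {v₀ v₀' : ι → F} (h : (omT A).Rel α v₀ v₀') {v : ι → F}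
    (hv : (omT A).sg v) (hv0 : v ≠ 0) : ∃ v', (omT A).Rel α v v' := by
  obtain ⟨z, hz, h1, h2⟩ := Pol.Rich.common (rich (A := A)) h.sg hv h.ne hv0
  obtain ⟨s, -, hs⟩ := (omG A).trans_opp hz h.sg hv ((omG A).h_comm_ne h1) ((omG A).h_comm_ne h2)
  obtain ⟨s', hs'⟩ := (omT A).pm_surj (α ((omT A).pm s))
  exact ⟨_, (h.act hs').sim hs (Sim.refl _)⟩

/-- automorphisms permuting the points. -/
theorem final_rel (α : MulAut (Cfsg.POmega F ⇑A.Q)) (hrel₁ : ∀ v, (omT A).sg v → v ≠ 0 → ∃ v', (omT A).Rel α v v')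
    (hrel₂ : ∀ v, (omT A).sg v → v ≠ 0 → ∃ v', (omT A).Rel α⁻¹ v v') :
    ∃ (M : GL ι F) (σ : F ≃+* F) (k : F), k ≠ 0 ∧
      (∀ x, A.Q ((M : Matrix ι ι F) *ᵥ (fun i => σ (x i))) = k * σ (A.Q x)) ∧
      ∀ s s' : Cfsg.Omega F ⇑A.Q, (QuotientGroup.mk s' : Cfsg.POmega F ⇑A.Q) = α (QuotientGroup.mk s) →
        ∃ c : F, c ≠ 0 ∧ ∀ x, mt s' *ᵥ ((M : Matrix ι ι F) *ᵥ (fun i => σ (x i))) =
          c • ((M : Matrix ι ι F) *ᵥ (fun i => σ ((mt s *ᵥ x) i))) := by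
  obtain ⟨M, σ, k, hk, h1, h2, h3⟩ := PolT.final (P := omT A) (α := α) rich hne hN
    (fun e f he hf hef a ha => Or.inl (by
      have hs' : A.Q (f + a • e) = 0 := ha
      have hf' : A.Q f = 0 := hf
      have he' : A.Q e = 0 := he
      have hef' : polar A.Q e f = 1 := hef
      rw [Quad.map_add, Quad.map_smul, hf', he', Quad.polar_smul_right, Quad.polar_symm A.Q f e, hef'] at hs'
      linear_combination hs')) hE hrel₁
    hrel₂ exists_sg
  refine ⟨M, σ, k, hk, ?_, h3⟩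
  set γ : (ι → F) → (ι → F) := fun x => (M : Matrix ι ι F) *ᵥ (fun i => σ (x i)) with hγ
  have hadd : ∀ x y, γ (x + y) = γ x + γ y := by
    intro x y
    have : (fun i => σ ((x + y) i)) = (fun i => σ (x i)) + fun i => σ (y i) := by
      funext i; exact map_add _ _ _
    simp only [hγ, this, mulVec_add]
  have hsmul : ∀ (a : F) x, γ (a • x) = σ a • γ x := by
    intro a b
    have : (fun i => σ ((a • b) i)) = σ a • fun i => σ (b i) := by
      funext i; exact map_mul _ _ _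
    simp only [hγ, this, mulVec_smul]
  have hpol : ∀ x y, polar A.Q (γ x) (γ y) = k * σ (polar A.Q x y) := h1
  have hsg : ∀ x, A.Q x = 0 → A.Q (γ x) = 0 := h2
  intro x
  change A.Q (γ x) = _
  induction span_top (A := A) x using Submodule.span_induction with
  | mem y hy =>
    have hy' : A.Q y = 0 := hy
    rw [hsg y hy', hy', map_zero, mul_zero]
  | zero =>
    have h0 : γ 0 = 0 := by
      have := hsmul 0 0
      rwa [zero_smul, map_zero, zero_smul] at this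
    rw [h0, QuadraticMap.map_zero, map_zero, mul_zero]
  | add x y _ _ hx hy =>
    rw [hadd, Quad.map_add, Quad.map_add, hx, hy, hpol, map_add, map_add]
    ring
  | smul a x _ hx =>
    rw [hsmul, Quad.map_smul, Quad.map_smul, hx, map_mul, map_mul]
    ring

/-- automorphisms permuting the points are induced by semisimilarities. -/
theorem mem_range_of_rel {α : MulAut (Cfsg.POmega F ⇑A.Q)} {v₀ v₀' : ι → F} (h : (omT A).Rel α v₀ v₀') :
    α ∈ (fam A).T.range := by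
  have hA : ∀ v, (omT A).sg v → v ≠ 0 → ∃ v', (omT A).Rel α v v' := fun v hv hv0 => rel_all h hv hv0
  have hA' : ∀ v, (omT A).sg v → v ≠ 0 → ∃ v', (omT A).Rel α⁻¹ v v' := fun v hv hv0 => rel_all h.inv hv hv0
  obtain ⟨M, σ, k, hk0, hMk, h⟩ := final_rel α hA hA'
  let x : (fam A).Γ := ⟨⟨M, σ⟩, ⟨Units.mk0 k hk0, hMk⟩⟩
  refine ⟨x, ?_⟩
  ext1 s
  induction s using QuotientGroup.induction_on with
  | H s =>
    obtain ⟨s', hs'⟩ := QuotientGroup.mk_surjective (α (QuotientGroup.mk s))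
    obtain ⟨c, hc, h1⟩ := h s s' hs'
    rw [Fam.T_mk, ← hs', (fam A).mk_eq_iff]
    refine ⟨Units.mk0 c hc, ?_⟩
    rw [rho_tr, act_apply]
    change toG ⇑A.Q s' = scl _ (Units.mk0 c hc) * (M * gσ σ (toG ⇑A.Q s) * M⁻¹)
    rw [← mul_assoc, eq_mul_inv_iff_mul_eq]
    apply PSp.gl_ext
    intro v
    obtain ⟨x, rfl⟩ := exists_map σ v
    rw [PSp.coe_mul_mulVec, PSp.coe_mul_mulVec, PSp.coe_mul_mulVec, map_mulVec', PSp.scl_mulVec]
    exact h1 x


theorem exists_isom_W {W W' : Submodule F (ι → F)} (hW : ∀ w ∈ W, A.Q w = 0) (hW' : ∀ w ∈ W', A.Q w = 0)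
    (h : finrank F W = finrank F W') : ∃ g : Cfsg.isometryGroup F ⇑A.Q, ∀ x, x ∈ W ↔
      ((g : GL ι F) : Matrix ι ι F) *ᵥ x ∈ W' := by
  let e : W ≃ₗ[F] W' := LinearEquiv.ofFinrankEq W W' h
  obtain ⟨g, hg, h1⟩ := Quad.witt_ext A.nd W (W'.subtype.comp e.toLinearMap)
    (Subtype.val_injective.comp e.injective) (fun u => by
      have e1 : A.Q (u : ι → F) = 0 := hW _ u.2
      rw [e1]
      exact hW' _ (e u).2)
  refine ⟨(Quad.toOG A.Q).symm ⟨g, hg⟩, fun x => ?_⟩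
  rw [Quad.toOG_symm_mulVec]
  change x ∈ W ↔ g x ∈ W'
  constructor
  · intro hx
    have h2 := h1 ⟨x, hx⟩
    have h3 : g x = (e ⟨x, hx⟩ : ι → F) := h2
    rw [h3]
    exact (e ⟨x, hx⟩).2
  · intro hx
    obtain ⟨y, hy⟩ := e.surjective ⟨g x, hx⟩
    have h2 : g (y : ι → F) = (e y : ι → F) := h1 y
    rw [hy] at h2
    have h3 : (y : ι → F) = x := g.injective h2
    rw [← h3]
    exact y.2

theorem fO_mk (g : Cfsg.isometryGroup F ⇑A.Q) (s : Cfsg.Omega F ⇑A.Q) :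
    ∃ s' : Cfsg.Omega F ⇑A.Q, fO A g (QuotientGroup.mk s) = QuotientGroup.mk s' ∧
      (s' : Cfsg.isometryGroup F ⇑A.Q) = g * s * g⁻¹ := by
  refine ⟨⟨g * s * g⁻¹, Subgroup.Normal.conj_mem inferInstance _ s.2 g⟩, ?_, rfl⟩
  change (fam A).T ((fam A).nin ⟨g, iso_le_N A g.2⟩) _ = _
  rw [Fam.T_mk]
  congr 1
  apply (fam A).inj
  rw [rho_tr, act_apply]
  change (g : GL ι F) * gσ (RingEquiv.refl F) (toG ⇑A.Q s) * (g : GL ι F)⁻¹ = (g : GL ι F) * (toG ⇑A.Q s) * (g : GL ι F)⁻¹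
  have h1 : gσ (RingEquiv.refl F) (toG ⇑A.Q s) = toG ⇑A.Q s := by
    apply Units.ext
    ext i j
    rfl
  rw [h1]

theorem fO_RR {W W' : Submodule F (ι → F)} {g : Cfsg.isometryGroup F ⇑A.Q}
    (h : ∀ x, x ∈ W ↔ ((g : GL ι F) : Matrix ι ι F) *ᵥ x ∈ W') :
    (((omT A).RR W).map (omT A).pm).map (fO A g).toMonoidHom ≤ ((omT A).RR W').map (omT A).pm := by
  rintro _ ⟨_, ⟨s, ⟨hs1, hs2⟩, rfl⟩, rfl⟩
  obtain ⟨s', h1, h2⟩ := fO_mk g s
  have hinv : ∀ x, ((g : GL ι F) : Matrix ι ι F) *ᵥ ((((g⁻¹ : Cfsg.isometryGroup F ⇑A.Q) : GL ι F) : Matrix ι ι F) *ᵥ x) = x := by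
    intro x
    rw [← PSp.coe_mul_mulVec, ← Subgroup.coe_mul, mul_inv_cancel, Subgroup.coe_one, Units.val_one, one_mulVec]
  have hact : ∀ x, (omT A).r s' x = ((g : GL ι F) : Matrix ι ι F) *ᵥ ((omT A).r s
      ((((g⁻¹ : Cfsg.isometryGroup F ⇑A.Q) : GL ι F) : Matrix ι ι F) *ᵥ x)) := by
    intro x
    change (((s' : Cfsg.isometryGroup F ⇑A.Q) : GL ι F) : Matrix ι ι F) *ᵥ x = _
    rw [h2, Subgroup.coe_mul, Subgroup.coe_mul, PSp.coe_mul_mulVec, PSp.coe_mul_mulVec]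
    rfl
  have hpol : ∀ x y, polar A.Q (((g : GL ι F) : Matrix ι ι F) *ᵥ x) (((g : GL ι F) : Matrix ι ι F) *ᵥ y) = polar A.Q x y := by
    intro x y
    have h3 := fun x => Quad.mem_isometryGroup.mp g.2 x
    rw [polar, polar, ← mulVec_add]
    rw [h3, h3, h3]
  refine ⟨s', ⟨fun w hw => ?_, fun x hx => ?_⟩, h1.symm⟩
  · have h3 : (((g⁻¹ : Cfsg.isometryGroup F ⇑A.Q) : GL ι F) : Matrix ι ι F) *ᵥ w ∈ W := by
      rw [h, hinv]; exact hw
    rw [hact, hs1 _ h3, hinv]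
  · have h3 := hs2 ((((g⁻¹ : Cfsg.isometryGroup F ⇑A.Q) : GL ι F) : Matrix ι ι F) *ᵥ x) (by
      intro w hw
      have h4 := hx _ ((h w).mp hw)
      change polar A.Q _ _ = 0 at h4
      rw [← hinv x, hpol] at h4
      exact h4)
    rw [h, mulVec_sub, hinv] at h3
    rw [hact]
    exact h3

theorem fO_RR_eq {W W' : Submodule F (ι → F)} {g : Cfsg.isometryGroup F ⇑A.Q}
    (h : ∀ x, x ∈ W ↔ ((g : GL ι F) : Matrix ι ι F) *ᵥ x ∈ W') :
    (((omT A).RR W).map (omT A).pm).map (fO A g).toMonoidHom = ((omT A).RR W').map (omT A).pm := by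
  apply le_antisymm (fO_RR h)
  have h1 : ∀ x, x ∈ W' ↔ (((g⁻¹ : Cfsg.isometryGroup F ⇑A.Q) : GL ι F) : Matrix ι ι F) *ᵥ x ∈ W := by
    intro x
    rw [h, ← PSp.coe_mul_mulVec, ← Subgroup.coe_mul, mul_inv_cancel, Subgroup.coe_one, Units.val_one, one_mulVec]
  intro t ht
  have h2 := fO_RR h1 ⟨t, ht, rfl⟩
  refine ⟨_, h2, ?_⟩
  change fO A g (fO A g⁻¹ t) = t
  rw [← MulAut.mul_apply, ← map_mul, mul_inv_cancel, map_one]
  rfl

/-- double cosets. -/
theorem dcoset (hι : Fintype.card ι = 8) {τ α : MulAut (Cfsg.POmega F ⇑A.Q)} (hτ : τ ∉ (fam A).T.range)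
    (hα : α ∉ (fam A).T.range) : ∃ g : Cfsg.isometryGroup F ⇑A.Q, α⁻¹ * fO A g * τ ∈ (fam A).T.range := by
  obtain ⟨v, hv, hv0⟩ := exists_sg (A := A)
  rcases rel_or hι τ v hv hv0 with ⟨v', h⟩ | ⟨W, hW, hWd, h1⟩
  · exact absurd (mem_range_of_rel h) hτ
  rcases rel_or hι α v hv hv0 with ⟨v', h⟩ | ⟨W', hW', hWd', h2⟩
  · exact absurd (mem_range_of_rel h) hα
  obtain ⟨g, hg⟩ := exists_isom_W hW hW' (hWd.trans hWd'.symm)
  have h3 := fO_RR_eq hg
  rw [← h1, ← h2] at h3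
  refine ⟨g, mem_range_of_rel (v₀ := v) (v₀' := v) ⟨hv, hv0, hv, hv0, fun t => ?_⟩⟩
  constructor
  · intro ht
    have h4 : fO A g (τ t) ∈ ((omT A).QT v).map α.toMonoidHom := by
      rw [← h3]
      exact ⟨_, ⟨t, ht, rfl⟩, rfl⟩
    obtain ⟨u, hu, h5⟩ := h4
    have h6 : (α⁻¹ * fO A g * τ) t = u := by
      change α⁻¹ (fO A g (τ t)) = u
      rw [← h5]
      exact α.symm_apply_apply u
    rw [h6]
    exact hu
  · intro ht
    have h4 : α ((α⁻¹ * fO A g * τ) t) ∈ ((omT A).QT v).map α.toMonoidHom := ⟨_, ht, rfl⟩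
    rw [← h3] at h4
    have h6 : α ((α⁻¹ * fO A g * τ) t) = fO A g (τ t) := α.apply_symm_apply _
    rw [h6] at h4
    obtain ⟨_, ⟨u, hu, rfl⟩, h7⟩ := h4
    have h8 : u = t := τ.injective ((fO A g).injective h7)
    rwa [← h8]


end Cfsg.Agent.H16.POm
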