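import Cfsg.Agent.H5_Tri1

set_option autoImplicit false

/-! Triality, part 2: the split para-octonion product. -/

namespace Cfsg.Agent.H5.Tri

open Matrix
open QuadraticMap (polar)
open Cfsg.Agent.H16

section Alg

variable {R : Type*} [CommRing R]

/-- the para-octonion product on `R^8`, with norm `Σ xᵢ yᵢ`. -/
def om (x y : Fin 4 ⊕ Fin 4 → R) : Fin 4 ⊕ Fin 4 → R := Sum.elim
  ![x (.inr 0) * y (.inr 0) - (x (.inl 1) * y (.inr 1) + x (.inl 2) * y (.inr 2) + x (.inl 3) * y (.inr 3)),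
    -x (.inr 0) * y (.inl 1) - y (.inl 0) * x (.inl 1) - (x (.inr 2) * y (.inr 3) - x (.inr 3) * y (.inr 2)),
    -x (.inr 0) * y (.inl 2) - y (.inl 0) * x (.inl 2) - (x (.inr 3) * y (.inr 1) - x (.inr 1) * y (.inr 3)),
    -x (.inr 0) * y (.inl 3) - y (.inl 0) * x (.inl 3) - (x (.inr 1) * y (.inr 2) - x (.inr 2) * y (.inr 1))]
  ![x (.inl 0) * y (.inl 0) - (x (.inr 1) * y (.inl 1) + x (.inr 2) * y (.inl 2) + x (.inr 3) * y (.inl 3)),
    -y (.inr 0) * x (.inr 1) - x (.inl 0) * y (.inr 1) - (x (.inl 2) * y (.inl 3) - x (.inl 3) * y (.inl 2)),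
    -y (.inr 0) * x (.inr 2) - x (.inl 0) * y (.inr 2) - (x (.inl 3) * y (.inl 1) - x (.inl 1) * y (.inl 3)),
    -y (.inr 0) * x (.inr 3) - x (.inl 0) * y (.inr 3) - (x (.inl 1) * y (.inl 2) - x (.inl 2) * y (.inl 1))]

/-- the norm. -/
def nm (x : Fin 4 ⊕ Fin 4 → R) : R := ∑ i : Fin 4, x (.inl i) * x (.inr i)

/-- the bilinear form. -/
def bf (x y : Fin 4 ⊕ Fin 4 → R) : R := ∑ i : Fin 4, (x (.inl i) * y (.inr i) + x (.inr i) * y (.inl i))

/-- the conjugation. -/
def cj (x : Fin 4 ⊕ Fin 4 → R) : Fin 4 ⊕ Fin 4 → R := Sum.elim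
  ![x (.inr 0), -x (.inl 1), -x (.inl 2), -x (.inl 3)] ![x (.inl 0), -x (.inr 1), -x (.inr 2), -x (.inr 3)]

theorem om_add_left (x x' y : Fin 4 ⊕ Fin 4 → R) : om (x + x') y = om x y + om x' y := by
  funext i; rcases i with i | i <;> fin_cases i <;> simp [om, nm, bf, cj, Fin.sum_univ_four] <;> ring
theorem om_add_right (x y y' : Fin 4 ⊕ Fin 4 → R) : om x (y + y') = om x y + om x y' := by
  funext i; rcases i with i | i <;> fin_cases i <;> simp [om, nm, bf, cj, Fin.sum_univ_four] <;> ring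
theorem om_smul_left (c : R) (x y : Fin 4 ⊕ Fin 4 → R) : om (c • x) y = c • om x y := by
  funext i; rcases i with i | i <;> fin_cases i <;> simp [om, nm, bf, cj, Fin.sum_univ_four] <;> ring
theorem om_smul_right (c : R) (x y : Fin 4 ⊕ Fin 4 → R) : om x (c • y) = c • om x y := by
  funext i; rcases i with i | i <;> fin_cases i <;> simp [om, nm, bf, cj, Fin.sum_univ_four] <;> ring

theorem om_left (x y : Fin 4 ⊕ Fin 4 → R) : om (om x y) x = nm x • y := by
  funext i; rcases i with i | i <;> fin_cases i <;> simp [om, nm, bf, cj, Fin.sum_univ_four] <;> ring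
theorem om_right (x y : Fin 4 ⊕ Fin 4 → R) : om x (om y x) = nm x • y := by
  funext i; rcases i with i | i <;> fin_cases i <;> simp [om, nm, bf, cj, Fin.sum_univ_four] <;> ring

theorem om_left_lin (x y z : Fin 4 ⊕ Fin 4 → R) : om (om x y) z + om (om z y) x = bf x z • y := by
  funext i; rcases i with i | i <;> fin_cases i <;> simp [om, nm, bf, cj, Fin.sum_univ_four] <;> ring
theorem om_right_lin (x y z : Fin 4 ⊕ Fin 4 → R) : om x (om y z) + om z (om y x) = bf x z • y := by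
  funext i; rcases i with i | i <;> fin_cases i <;> simp [om, nm, bf, cj, Fin.sum_univ_four] <;> ring

theorem nm_om (x y : Fin 4 ⊕ Fin 4 → R) : nm (om x y) = nm x * nm y := by
  simp [om, nm, Fin.sum_univ_four]; ring

theorem bf_om (x y z : Fin 4 ⊕ Fin 4 → R) : bf (om x y) z = bf x (om y z) := by
  simp [om, bf, Fin.sum_univ_four]; ring

theorem bf_symm (x y : Fin 4 ⊕ Fin 4 → R) : bf x y = bf y x := by
  simp [bf, Fin.sum_univ_four]; ring

theorem cj_om (x y : Fin 4 ⊕ Fin 4 → R) : cj (om x y) = om (cj y) (cj x) := by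
  funext i; rcases i with i | i <;> fin_cases i <;> simp [om, nm, bf, cj, Fin.sum_univ_four] <;> ring
theorem cj_cj (x : Fin 4 ⊕ Fin 4 → R) : cj (cj x) = x := by
  funext i; rcases i with i | i <;> fin_cases i <;> simp [om, nm, bf, cj, Fin.sum_univ_four] <;> ring
theorem nm_cj (x : Fin 4 ⊕ Fin 4 → R) : nm (cj x) = nm x := by
  simp [cj, nm, Fin.sum_univ_four]; ring

end Alg

section Scal

/-- the para-unit. -/
def pe {R : Type*} [CommRing R] : Fin 4 ⊕ Fin 4 → R := Sum.elim ![1, 0, 0, 0] ![1, 0, 0, 0]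

variable {R : Type*} [CommRing R]

theorem om_pe_left (x : Fin 4 ⊕ Fin 4 → R) : om pe x = cj x := by
  funext i; rcases i with i | i <;> fin_cases i <;> simp [om, nm, bf, cj, pe, Fin.sum_univ_four]

theorem om_pe_right (x : Fin 4 ⊕ Fin 4 → R) : om x pe = cj x := by
  funext i; rcases i with i | i <;> fin_cases i <;> simp [om, nm, bf, cj, pe, Fin.sum_univ_four]

theorem cj_smul (c : R) (x : Fin 4 ⊕ Fin 4 → R) : cj (c • x) = c • cj x := by
  funext i; rcases i with i | i <;> fin_cases i <;> simp [cj]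

theorem nucleus {β : Fin 4 ⊕ Fin 4 → R} (h : ∀ x y, om x (cj (om y β)) = om (cj (om x y)) β) :
    β = β (.inl 0) • pe := by
  have key : ∀ i j k, om (Pi.single i 1) (cj (om (Pi.single j 1) β)) k = om (cj (om (Pi.single i 1) (Pi.single j 1))) β k :=
    fun i j k => congrFun (h _ _) k
  have e1 := key (.inl 0) (.inl 2) (.inr 3)
  have e2 := key (.inl 0) (.inl 1) (.inr 3)
  have e3 := key (.inl 0) (.inl 1) (.inr 2)
  have e4 := key (.inl 0) (.inr 3) (.inl 2)
  have e5 := key (.inl 0) (.inr 3) (.inl 1)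
  have e6 := key (.inl 0) (.inr 2) (.inl 1)
  have e7 := key (.inl 1) (.inl 2) (.inr 3)
  simp [om, cj] at e1 e2 e3 e4 e5 e6 e7
  replace e5 := e5.symm
  funext i; rcases i with i | i <;> fin_cases i <;> simp [pe, *]

end Scal


section Pair

variable {R : Type*} [CommRing R]

theorem om_neg_left (x y : Fin 4 ⊕ Fin 4 → R) : om (-x) y = -om x y := by
  rw [← neg_one_smul R x, om_smul_left, neg_one_smul]

theorem om_neg_right (x y : Fin 4 ⊕ Fin 4 → R) : om x (-y) = -om x y := by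
  rw [← neg_one_smul R y, om_smul_right, neg_one_smul]

theorem om_sub_left (x x' y : Fin 4 ⊕ Fin 4 → R) : om (x - x') y = om x y - om x' y := by
  rw [sub_eq_add_neg, om_add_left, om_neg_left, ← sub_eq_add_neg]

theorem om_sub_right (x y y' : Fin 4 ⊕ Fin 4 → R) : om x (y - y') = om x y - om x y' := by
  rw [sub_eq_add_neg, om_add_right, om_neg_right, ← sub_eq_add_neg]

theorem om_I (a x y : Fin 4 ⊕ Fin 4 → R) : om (nm a • x - bf x a • a) y = -om a (om (om a y) x) := by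
  have h := om_right_lin a (om a y) x
  rw [om_left, om_smul_right, bf_symm a x] at h
  rw [om_sub_left, om_smul_left, om_smul_left, ← h]
  abel

theorem om_II (b x y : Fin 4 ⊕ Fin 4 → R) : om y (nm b • x - bf x b • b) = -om (om x (om y b)) b := by
  have h := om_left_lin x (om y b) b
  rw [om_right, om_smul_left] at h
  rw [om_sub_right, om_smul_right, om_smul_right, ← h]
  abel

theorem om_pair (a b x y : Fin 4 ⊕ Fin 4 → R) :
    om (nm a • (nm b • x - bf x b • b) - bf (nm b • x - bf x b • b) a • a) (om (om b y) a) =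
      (nm a * nm b) • om a (om (om x y) b) := by
  rw [om_I, om_right, om_smul_left, om_II, om_left]
  simp only [om_smul_right, om_smul_left, om_neg_right]
  module

end Pair

section Trip

variable {F : Type*} [Field F]

/-- the quadratic form. -/
noncomputable abbrev Q8 (F : Type*) [Field F] : QuadraticForm F (Fin 4 ⊕ Fin 4 → F) := Quad.plusQ F 4

theorem Q8_eq (x : Fin 4 ⊕ Fin 4 → F) : Q8 F x = nm x := by
  rw [Q8, Quad.plusQ_apply]; rfl

theorem polar8_eq (x y : Fin 4 ⊕ Fin 4 → F) : polar (Q8 F) x y = bf x y := by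
  rw [Q8, Quad.polar_plusQ]
  exact Finset.sum_congr rfl fun i _ => by ring

theorem refl_eq {a : Fin 4 ⊕ Fin 4 → F} (ha : nm a ≠ 0) (x : Fin 4 ⊕ Fin 4 → F) :
    nm a • Quad.refl (Q8 F) a x = nm a • x - bf x a • a := by
  rw [Quad.refl_apply, Q8_eq, polar8_eq, smul_sub, smul_smul, mul_inv_cancel_left₀ ha]

/-- the basic related pair. -/
theorem om_pair' {a b : Fin 4 ⊕ Fin 4 → F} (ha : nm a ≠ 0) (hb : nm b ≠ 0) (x y : Fin 4 ⊕ Fin 4 → F) :
    om (Quad.refl (Q8 F) a (Quad.refl (Q8 F) b x)) (om (om b y) a) = om a (om (om x y) b) := by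
  have h := om_pair a b x y
  rw [← refl_eq hb, ← refl_eq ha, _root_.map_smul, smul_smul, om_smul_left] at h
  exact smul_right_injective _ (mul_ne_zero ha hb) h

theorem exists_OG (f : (Fin 4 ⊕ Fin 4 → F) →ₗ[F] (Fin 4 ⊕ Fin 4 → F)) (h : ∀ x, nm (f x) = nm x) :
    ∃ g : Quad.OG (Q8 F), ∀ x, g.1 x = f x := by
  have hpol : ∀ x y, bf (f x) (f y) = bf x y := by
    intro x y
    rw [← polar8_eq, ← polar8_eq, polar, polar, ← _root_.map_add f, Q8_eq, Q8_eq, Q8_eq, Q8_eq, Q8_eq, Q8_eq, h, h, h]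
  have hinj : Function.Injective f := by
    rw [injective_iff_map_eq_zero]
    intro x hx
    refine Quad.nd_eq_zero (Quad.nd_plusQ 4) fun y => ?_
    rw [polar8_eq, ← hpol, hx, ← polar8_eq, QuadraticMap.polar_zero_left]
  refine ⟨⟨LinearEquiv.ofInjectiveEndo f hinj, fun x => ?_⟩, fun x => rfl⟩
  rw [Q8_eq, Q8_eq]
  exact h x

/-- related triples of isometries. -/
def T3 (F : Type*) [Field F] : Subgroup (Quad.OG (Q8 F) × Quad.OG (Q8 F) × Quad.OG (Q8 F)) where
  carrier := {t | ∀ x y, om (t.1.1 x) (t.2.1.1 y) = t.2.2.1 (om x y)}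
  one_mem' x y := rfl
  mul_mem' := by
    rintro s t hs ht x y
    change om (s.1.1 (t.1.1 x)) (s.2.1.1 (t.2.1.1 y)) = s.2.2.1 (t.2.2.1 (om x y))
    rw [hs, ht]
  inv_mem' := by
    rintro s hs x y
    have h := hs (s.1.1.symm x) (s.2.1.1.symm y)
    rw [LinearEquiv.apply_symm_apply, LinearEquiv.apply_symm_apply] at h
    change om (s.1.1.symm x) (s.2.1.1.symm y) = s.2.2.1.symm (om x y)
    rw [h, LinearEquiv.symm_apply_apply]

theorem bf_iso (g : Quad.OG (Q8 F)) (x y : Fin 4 ⊕ Fin 4 → F) : bf (g.1 x) (g.1 y) = bf x y := by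
  have h := fun x => Quad.mem_OG.mp g.2 x
  rw [← polar8_eq, ← polar8_eq, polar, polar, ← _root_.map_add g.1, h, h, h]

theorem eq_of_bf {x y : Fin 4 ⊕ Fin 4 → F} (h : ∀ z, bf x z = bf y z) : x = y := by
  rw [← sub_eq_zero]
  refine Quad.nd_eq_zero (Quad.nd_plusQ 4) fun z => ?_
  rw [QuadraticMap.polar_sub_left, polar8_eq, polar8_eq, h, sub_self]

theorem T3_shift {s : Quad.OG (Q8 F) × Quad.OG (Q8 F) × Quad.OG (Q8 F)} (hs : s ∈ T3 F) :
    (s.2.1, s.2.2, s.1) ∈ T3 F := by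
  intro x y
  change om (s.2.1.1 x) (s.2.2.1 y) = s.1.1 (om x y)
  apply eq_of_bf
  intro z
  obtain ⟨w, rfl⟩ := s.1.1.surjective z
  have h := hs w x
  rw [bf_iso, bf_om, bf_symm, bf_om, h, bf_iso, bf_om x, bf_symm x, bf_om]

end Trip


section Gen

variable {G : Type*} [Group G]

/-- a normal subgroup containing the commutators of generators contains the commutator subgroup. -/
theorem commutator_le_of_gen {X : Set G} (hX : Subgroup.closure X = ⊤) {N : Subgroup G} [N.Normal]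
    (h : ∀ x ∈ X, ∀ y ∈ X, x * y * x⁻¹ * y⁻¹ ∈ N) : commutator G ≤ N := by
  have h1 : ∀ x y : G, x * y * x⁻¹ * y⁻¹ ∈ N ↔ (QuotientGroup.mk x : G ⧸ N) * QuotientGroup.mk y =
      QuotientGroup.mk y * QuotientGroup.mk x := by
    intro x y
    rw [← QuotientGroup.eq_one_iff, QuotientGroup.mk_mul, QuotientGroup.mk_mul, QuotientGroup.mk_mul, QuotientGroup.mk_inv,
      QuotientGroup.mk_inv, mul_inv_eq_one, mul_inv_eq_iff_eq_mul]
  have h2 : ∀ x ∈ X, ∀ y : G, (QuotientGroup.mk x : G ⧸ N) * QuotientGroup.mk y = QuotientGroup.mk y * QuotientGroup.mk x := by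
    intro x hx y
    have hy : y ∈ Subgroup.closure X := by rw [hX]; trivial
    induction hy using Subgroup.closure_induction with
    | mem y hy => exact (h1 x y).mp (h x hx y hy)
    | one => rw [QuotientGroup.mk_one, mul_one, one_mul]
    | mul y z _ _ hy hz => rw [QuotientGroup.mk_mul, ← mul_assoc, hy, mul_assoc, hz, mul_assoc]
    | inv y _ hy =>
      rw [QuotientGroup.mk_inv, eq_inv_mul_iff_mul_eq, ← mul_assoc, mul_inv_eq_iff_eq_mul, hy]
  have h3 : ∀ x y : G, (QuotientGroup.mk x : G ⧸ N) * QuotientGroup.mk y = QuotientGroup.mk y * QuotientGroup.mk x := by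
    intro x y
    have hy : x ∈ Subgroup.closure X := by rw [hX]; trivial
    induction hy using Subgroup.closure_induction with
    | mem x hx => exact h2 x hx y
    | one => rw [QuotientGroup.mk_one, mul_one, one_mul]
    | mul x z _ _ hx hz => rw [QuotientGroup.mk_mul, mul_assoc, hz, ← mul_assoc, hx, mul_assoc]
    | inv x _ hx =>
      rw [QuotientGroup.mk_inv, inv_mul_eq_iff_eq_mul, ← mul_assoc, eq_mul_inv_iff_mul_eq, hx]
  rw [commutator_eq_closure, Subgroup.closure_le]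
  rintro _ ⟨x, y, rfl⟩
  rw [commutatorElement_def]
  exact (h1 x y).mpr (h3 x y)

end Gen

section OmegaT

variable {F : Type*} [Field F] [Finite F]

theorem rank8 : Module.finrank F (Fin 4 ⊕ Fin 4 → F) = 8 := by
  rw [Module.finrank_fintype_fun_eq_card]; rfl

theorem nd8 : (QuadraticMap.polarBilin (Q8 F)).Nondegenerate := Quad.nd_plusQ 4

theorem gen_rf : Subgroup.closure {g : Quad.OG (Q8 F) | ∃ v, Q8 F v ≠ 0 ∧ g = Quad.rf (Q8 F) v} = ⊤ := by
  rw [eq_top_iff]
  rintro g -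
  obtain ⟨vs, h1, h2⟩ := Quad.exists_rpr nd8 (Or.inr (by rw [rank8]; norm_num)) g
  rw [h2, Quad.rpr]
  apply Subgroup.list_prod_mem
  intro x hx
  obtain ⟨v, hv, rfl⟩ := List.mem_map.mp hx
  exact Subgroup.subset_closure ⟨v, h1 v hv, rfl⟩

/-- the first projection of `T3` contains the pairs of reflections of equal norm. -/
theorem exists_T3_pair {a b : Fin 4 ⊕ Fin 4 → F} (ha : Q8 F a ≠ 0) (hab : Q8 F a = Q8 F b) :
    ∃ B C, (Quad.rf (Q8 F) a * Quad.rf (Q8 F) b, B, C) ∈ T3 F ∧ (∀ y, B.1 y = (Q8 F a)⁻¹ • om (om b y) a) ∧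
      (∀ y, C.1 y = (Q8 F a)⁻¹ • om a (om y b)) := by
  have ha' : nm a ≠ 0 := by rwa [← Q8_eq]
  have hb' : nm b ≠ 0 := by rwa [← Q8_eq, ← hab]
  have hab' : nm a = nm b := by rw [← Q8_eq, ← Q8_eq, hab]
  obtain ⟨B, hB⟩ := exists_OG (F := F) {
    toFun := fun y => (nm a)⁻¹ • om (om b y) a
    map_add' := fun x y => by rw [om_add_right, om_add_left, smul_add]
    map_smul' := fun c x => by rw [om_smul_right, om_smul_left, smul_comm]; rfl } (by
      intro x
      change nm ((nm a)⁻¹ • om (om b x) a) = _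
      rw [← Q8_eq, Quad.map_smul, Q8_eq, nm_om, nm_om, ← hab']
      field_simp)
  obtain ⟨C, hC⟩ := exists_OG (F := F) {
    toFun := fun y => (nm a)⁻¹ • om a (om y b)
    map_add' := fun x y => by rw [om_add_left, om_add_right, smul_add]
    map_smul' := fun c x => by rw [om_smul_left, om_smul_right, smul_comm]; rfl } (by
      intro x
      change nm ((nm a)⁻¹ • om a (om x b)) = _
      rw [← Q8_eq, Quad.map_smul, Q8_eq, nm_om, nm_om, ← hab']
      field_simp)
  refine ⟨B, C, ?_, fun y => by rw [hB, Q8_eq]; rfl, fun y => by rw [hC, Q8_eq]; rfl⟩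
  intro x y
  change om (Quad.refl (Q8 F) a (Quad.refl (Q8 F) b x)) (B.1 y) = C.1 (om x y)
  rw [hB, hC]
  change om _ ((nm a)⁻¹ • om (om b y) a) = (nm a)⁻¹ • om a (om (om x y) b)
  rw [om_smul_right, om_pair' ha' hb']

/-- `Ω` is contained in the first projection of `T3`. -/
theorem comm_le_proj : commutator (Quad.OG (Q8 F)) ≤ (T3 F).map (MonoidHom.fst _ _) := by
  set N : Subgroup (Quad.OG (Q8 F)) := Subgroup.closure {g | ∃ a b, Q8 F a ≠ 0 ∧ Q8 F a = Q8 F b ∧
    g = Quad.rf (Q8 F) a * Quad.rf (Q8 F) b} with hN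
  have hn : N.Normal := by
    refine ⟨fun n hn g => ?_⟩
    rw [hN] at hn ⊢
    induction hn using Subgroup.closure_induction with
    | mem x hx =>
      obtain ⟨a, b, ha, hab, rfl⟩ := hx
      refine Subgroup.subset_closure ⟨g.1 a, g.1 b, ?_, ?_, ?_⟩
      · rwa [Quad.mem_OG.mp g.2]
      · rwa [Quad.mem_OG.mp g.2, Quad.mem_OG.mp g.2]
      · rw [← Quad.rf_conj, ← Quad.rf_conj]; group
    | one => rw [mul_one, mul_inv_cancel]; exact one_mem _
    | mul x y _ _ hx hy =>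
      have : g * (x * y) * g⁻¹ = (g * x * g⁻¹) * (g * y * g⁻¹) := by group
      rw [this]; exact mul_mem hx hy
    | inv x _ hx =>
      have : g * x⁻¹ * g⁻¹ = (g * x * g⁻¹)⁻¹ := by group
      rw [this]; exact inv_mem hx
  refine le_trans (commutator_le_of_gen (N := N) gen_rf ?_) ?_
  · rintro _ ⟨v, hv, rfl⟩ _ ⟨w, hw, rfl⟩
    have h1 : Quad.rf (Q8 F) v * Quad.rf (Q8 F) w * (Quad.rf (Q8 F) v)⁻¹ = Quad.rf (Q8 F) ((Quad.rf (Q8 F) v).1 w) := Quad.rf_conj _ _
    have h2 : (Quad.rf (Q8 F) w)⁻¹ = Quad.rf (Q8 F) w := by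
      rw [inv_eq_iff_mul_eq_one, Quad.rf_sq]
    rw [h1, h2]
    refine Subgroup.subset_closure ⟨_, _, ?_, ?_, rfl⟩
    · rwa [Quad.mem_OG.mp (Quad.rf (Q8 F) v).2]
    · rw [Quad.mem_OG.mp (Quad.rf (Q8 F) v).2]
  · rw [hN, Subgroup.closure_le]
    rintro _ ⟨a, b, ha, hab, rfl⟩
    obtain ⟨B, C, h, -, -⟩ := exists_T3_pair ha hab
    exact ⟨_, h, rfl⟩

/-- every element of `Ω` is part of a related triple in `Ω`. -/
theorem exists_triple {g : Quad.OG (Q8 F)} (hg : g ∈ commutator (Quad.OG (Q8 F))) :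
    ∃ B ∈ commutator (Quad.OG (Q8 F)), ∃ C ∈ commutator (Quad.OG (Q8 F)), (g, B, C) ∈ T3 F := by
  have h1 : commutator (Quad.OG (Q8 F)) ≤ (⁅T3 F, T3 F⁆).map (MonoidHom.fst _ _) := by
    rw [Subgroup.map_commutator]
    conv_lhs => rw [← Quad.commutator_perfect nd8 (by rw [rank8]; norm_num)]
    exact Subgroup.commutator_mono comm_le_proj comm_le_proj
  obtain ⟨⟨A, B, C⟩, h2, rfl⟩ := h1 hg
  have h3 : ⁅T3 F, T3 F⁆ ≤ T3 F := Subgroup.commutator_le.mpr fun a ha b hb =>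
    mul_mem (mul_mem (mul_mem ha hb) (inv_mem ha)) (inv_mem hb)
  have h4 : (⁅T3 F, T3 F⁆).map ((MonoidHom.fst _ _).comp (MonoidHom.snd (Quad.OG (Q8 F)) (Quad.OG (Q8 F) × Quad.OG (Q8 F)))) ≤
      commutator (Quad.OG (Q8 F)) := by
    rw [Subgroup.map_commutator]
    exact Subgroup.commutator_mono le_top le_top
  have h5 : (⁅T3 F, T3 F⁆).map ((MonoidHom.snd _ _).comp (MonoidHom.snd (Quad.OG (Q8 F)) (Quad.OG (Q8 F) × Quad.OG (Q8 F)))) ≤
      commutator (Quad.OG (Q8 F)) := by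
    rw [Subgroup.map_commutator]
    exact Subgroup.commutator_mono le_top le_top
  exact ⟨B, h4 ⟨_, h2, rfl⟩, C, h5 ⟨_, h2, rfl⟩, h3 h2⟩

end OmegaT


end Cfsg.Agent.H5.Tri
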