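import Cfsg.Agent.H5_Tri2

set_option autoImplicit false

/-! Triality, part 3: the triality automorphism. -/

namespace Cfsg.Agent.H5.Tri

open Matrix
open QuadraticMap (polar)
open Cfsg.Agent.H16 Cfsg.Agent.H16.POm Cfsg.Agent.H16.Gam Cfsg.Agent.H16.AutL Cfsg.Agent.H16.AutG

theorem exists_aut {S K : Type*} [Group S] [Group K] (p q : S →* K) (hp : Function.Surjective p) (hq : Function.Surjective q)
    (h : p.ker = q.ker) : ∃ τ : MulAut K, ∀ s, τ (p s) = q s := by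
  let e1 := QuotientGroup.quotientKerEquivOfSurjective p hp
  let e2 := QuotientGroup.quotientKerEquivOfSurjective q hq
  refine ⟨(e1.symm.trans (QuotientGroup.quotientMulEquivOfEq h)).trans e2, fun s => ?_⟩
  have h1 : e1.symm (p s) = QuotientGroup.mk s := by
    rw [MulEquiv.symm_apply_eq]
    rfl
  change e2 (QuotientGroup.quotientMulEquivOfEq h (e1.symm (p s))) = q s
  rw [h1]
  rfl

theorem cj_smul' {R : Type*} [CommRing R] (c : R) (x : Fin 4 ⊕ Fin 4 → R) : cj (c • x) = c • cj x := cj_smul c x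

theorem scal_of {F : Type*} [Field F] {c : F} (hc : c ≠ 0) {B C : (Fin 4 ⊕ Fin 4 → F) → (Fin 4 ⊕ Fin 4 → F)}
    (h : ∀ x y, om (c • x) (B y) = C (om x y)) : ∃ β : F, (∀ y, B y = β • y) ∧ ∀ y, C y = (c * β) • y := by
  have h1 : ∀ y, C (cj y) = c • cj (B y) := by
    intro y
    rw [← om_pe_left, ← h, om_smul_left, om_pe_left]
  have h2 : ∀ x, C (cj x) = c • om x (B pe) := by
    intro x
    rw [← om_pe_right, ← h, om_smul_left]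
  have h3 : ∀ y, B y = cj (om y (B pe)) := by
    intro y
    have h4 : cj (B y) = om y (B pe) := smul_right_injective _ hc ((h1 y).symm.trans (h2 y))
    rw [← h4, cj_cj]
  have h5 := nucleus (β := B pe) (fun x y => by
    have e1 := h x y
    rw [om_smul_left, h3 y] at e1
    have e2 := h2 (cj (om x y))
    rw [cj_cj, ← e1] at e2
    exact smul_right_injective _ hc e2)
  refine ⟨(B pe) (.inl 0), fun y => ?_, fun y => ?_⟩
  · rw [h3 y, h5]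
    rw [om_smul_right, om_pe_right, cj_smul, cj_cj]
    simp [pe]
  · have h6 := h2 (cj y)
    rw [cj_cj, h5, om_smul_right, om_pe_right, cj_cj, smul_smul] at h6
    rw [h6]

variable {F : Type*} [Field F] [Finite F]

/-- the data. -/
noncomputable abbrev A8 (F : Type*) [Field F] : OD (Fin 4 ⊕ Fin 4) F := odP F (le_refl 4)

/-- related triples in `Ω`. -/
def S3 (F : Type*) [Field F] : Subgroup (Cfsg.Omega F ⇑(A8 F).Q × Cfsg.Omega F ⇑(A8 F).Q × Cfsg.Omega F ⇑(A8 F).Q) where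
  carrier := {t | ∀ x y, om (mt t.1 *ᵥ x) (mt t.2.1 *ᵥ y) = mt t.2.2 *ᵥ (om x y)}
  one_mem' x y := by
    change om ((1 : Matrix _ _ F) *ᵥ x) ((1 : Matrix _ _ F) *ᵥ y) = (1 : Matrix _ _ F) *ᵥ (om x y)
    rw [one_mulVec, one_mulVec, one_mulVec]
  mul_mem' := by
    rintro s t hs ht x y
    change om ((mt s.1 * mt t.1) *ᵥ x) ((mt s.2.1 * mt t.2.1) *ᵥ y) = (mt s.2.2 * mt t.2.2) *ᵥ (om x y)
    rw [← mulVec_mulVec, ← mulVec_mulVec, ← mulVec_mulVec, hs, ht]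
  inv_mem' := by
    rintro s hs x y
    have e : ∀ (t : Cfsg.Omega F ⇑(A8 F).Q) (x : Fin 4 ⊕ Fin 4 → F), mt t *ᵥ (mt t⁻¹ *ᵥ x) = x := by
      intro t x
      rw [mulVec_mulVec]
      have : mt t * mt t⁻¹ = mt (t * t⁻¹) := rfl
      rw [this, mul_inv_cancel]
      exact one_mulVec x
    have e' : ∀ (t : Cfsg.Omega F ⇑(A8 F).Q) (x : Fin 4 ⊕ Fin 4 → F), mt t⁻¹ *ᵥ (mt t *ᵥ x) = x := by
      intro t x
      rw [mulVec_mulVec]
      have : mt t⁻¹ * mt t = mt (t⁻¹ * t) := rfl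
      rw [this, inv_mul_cancel]
      exact one_mulVec x
    have h := hs (mt s.1⁻¹ *ᵥ x) (mt s.2.1⁻¹ *ᵥ y)
    rw [e, e] at h
    change om (mt s.1⁻¹ *ᵥ x) (mt s.2.1⁻¹ *ᵥ y) = mt s.2.2⁻¹ *ᵥ (om x y)
    rw [h, e']

theorem mem_S3 {A B C : Cfsg.Omega F ⇑(A8 F).Q} : (A, B, C) ∈ S3 F ↔
    ∀ x y, om (mt A *ᵥ x) (mt B *ᵥ y) = mt C *ᵥ (om x y) := Iff.rfl

/-- the passage to linear maps. -/
theorem mem_S3_iff {A B C : Cfsg.Omega F ⇑(A8 F).Q} : (A, B, C) ∈ S3 F ↔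
    (Quad.toOG _ A.1, Quad.toOG _ B.1, Quad.toOG _ C.1) ∈ T3 F := Iff.rfl

theorem S3_shift {A B C : Cfsg.Omega F ⇑(A8 F).Q} (h : (A, B, C) ∈ S3 F) : (B, C, A) ∈ S3 F :=
  mem_S3_iff.mpr (T3_shift (mem_S3_iff.mp h))

theorem exists_S3 (A : Cfsg.Omega F ⇑(A8 F).Q) : ∃ B C, (A, B, C) ∈ S3 F := by
  obtain ⟨B, hB, C, hC, h⟩ : ∃ B ∈ commutator (Quad.OG (A8 F).Q), ∃ C ∈ commutator (Quad.OG (A8 F).Q),
      (Quad.toOG (A8 F).Q A.1, B, C) ∈ T3 F := exists_triple (Quad.mem_Omega_iff.mp A.2)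
  refine ⟨⟨(Quad.toOG (A8 F).Q).symm B, ?_⟩, ⟨(Quad.toOG (A8 F).Q).symm C, ?_⟩, ?_⟩
  · rw [Quad.mem_Omega_iff, MulEquiv.apply_symm_apply]; exact hB
  · rw [Quad.mem_Omega_iff, MulEquiv.apply_symm_apply]; exact hC
  · rw [mem_S3_iff]
    change (Quad.toOG (A8 F).Q A.1, Quad.toOG (A8 F).Q ((Quad.toOG (A8 F).Q).symm B),
      Quad.toOG (A8 F).Q ((Quad.toOG (A8 F).Q).symm C)) ∈ T3 F
    rw [MulEquiv.apply_symm_apply, MulEquiv.apply_symm_apply]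
    exact h

theorem mk_one_iff (s : Cfsg.Omega F ⇑(A8 F).Q) : (QuotientGroup.mk s : Cfsg.POmega F ⇑(A8 F).Q) = 1 ↔
    ∃ c : F, c ≠ 0 ∧ ∀ x, mt s *ᵥ x = c • x := by
  rw [QuotientGroup.eq_one_iff, (fam (A8 F)).cen s]
  constructor
  · rintro ⟨c, hc⟩
    refine ⟨c, c.ne_zero, fun x => ?_⟩
    have h1 : mt s = ((scl (Fin 4 ⊕ Fin 4) c : GL (Fin 4 ⊕ Fin 4) F) : Matrix (Fin 4 ⊕ Fin 4) (Fin 4 ⊕ Fin 4) F) :=
      congrArg Units.val hc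
    rw [h1, PSp.scl_mulVec]
  · rintro ⟨c, hc, h⟩
    refine ⟨Units.mk0 c hc, PSp.gl_ext fun x => ?_⟩
    rw [PSp.scl_mulVec]
    exact h x

theorem ker_step {A B C : Cfsg.Omega F ⇑(A8 F).Q} (h : (A, B, C) ∈ S3 F)
    (hA : (QuotientGroup.mk A : Cfsg.POmega F ⇑(A8 F).Q) = 1) : (QuotientGroup.mk B : Cfsg.POmega F ⇑(A8 F).Q) = 1 := by
  obtain ⟨c, hc, h1⟩ := (mk_one_iff A).mp hA
  obtain ⟨β, h2, -⟩ := scal_of hc (B := fun y => mt B *ᵥ y) (C := fun y => mt C *ᵥ y) (by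
    intro x y
    rw [← h1]
    exact mem_S3.mp h x y)
  refine (mk_one_iff B).mpr ⟨β, ?_, h2⟩
  rintro rfl
  obtain ⟨v, hv, hv0⟩ := exists_sg (A := A8 F)
  have h3 := h2 v
  rw [zero_smul] at h3
  have h4 := (omG (A8 F)).r_ne_zero B hv0
  exact h4 h3

noncomputable def q1 (F : Type*) [Field F] : S3 F →* Cfsg.POmega F ⇑(A8 F).Q :=
  (QuotientGroup.mk' _).comp ((MonoidHom.fst _ _).comp (S3 F).subtype)

noncomputable def q2 (F : Type*) [Field F] : S3 F →* Cfsg.POmega F ⇑(A8 F).Q :=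
  (QuotientGroup.mk' _).comp ((MonoidHom.fst _ _).comp ((MonoidHom.snd _ _).comp (S3 F).subtype))

theorem exists_tri : ∃ τ : MulAut (Cfsg.POmega F ⇑(A8 F).Q), ∀ A B C : Cfsg.Omega F ⇑(A8 F).Q, (A, B, C) ∈ S3 F →
    τ (QuotientGroup.mk A) = QuotientGroup.mk B := by
  obtain ⟨τ, hτ⟩ := exists_aut (q1 F) (q2 F) (by
      intro k
      obtain ⟨A, rfl⟩ := QuotientGroup.mk_surjective k
      obtain ⟨B, C, h⟩ := exists_S3 A
      exact ⟨⟨_, h⟩, rfl⟩) (by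
      intro k
      obtain ⟨A, rfl⟩ := QuotientGroup.mk_surjective k
      obtain ⟨B, C, h⟩ := exists_S3 A
      exact ⟨⟨_, S3_shift (S3_shift h)⟩, rfl⟩) (by
      ext ⟨⟨A, B, C⟩, h⟩
      rw [MonoidHom.mem_ker, MonoidHom.mem_ker]
      constructor
      · exact ker_step h
      · intro h1
        exact ker_step (S3_shift (S3_shift h)) (ker_step (S3_shift h) h1))
  exact ⟨τ, fun A B C h => hτ ⟨_, h⟩⟩

/-- the triality automorphism. -/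
noncomputable def tri (F : Type*) [Field F] [Finite F] : MulAut (Cfsg.POmega F ⇑(A8 F).Q) := (exists_tri (F := F)).choose

theorem tri_mk {A B C : Cfsg.Omega F ⇑(A8 F).Q} (h : (A, B, C) ∈ S3 F) :
    tri F (QuotientGroup.mk A) = QuotientGroup.mk B := (exists_tri (F := F)).choose_spec A B C h

theorem tri_mul (k : Cfsg.POmega F ⇑(A8 F).Q) : tri F (tri F (tri F k)) = k := by
  obtain ⟨A, rfl⟩ := QuotientGroup.mk_surjective k
  obtain ⟨B, C, h⟩ := exists_S3 A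
  rw [tri_mk h, tri_mk (S3_shift h), tri_mk (S3_shift (S3_shift h))]

theorem tri_pow : tri F ^ 3 = 1 := by
  ext1 k
  exact tri_mul k

/-- semilinear action. -/
def sm (x : Gm (Fin 4 ⊕ Fin 4) F) (v : Fin 4 ⊕ Fin 4 → F) : Fin 4 ⊕ Fin 4 → F :=
  (x.left : Matrix _ _ F) *ᵥ (fun i => x.right (v i))

theorem sm_surj (x : Gm (Fin 4 ⊕ Fin 4) F) (v : Fin 4 ⊕ Fin 4 → F) : ∃ w, sm x w = v := by
  obtain ⟨w, hw⟩ := exists_map x.right (((x.left⁻¹ : GL (Fin 4 ⊕ Fin 4) F) : Matrix (Fin 4 ⊕ Fin 4) (Fin 4 ⊕ Fin 4) F) *ᵥ v)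
  refine ⟨w, ?_⟩
  rw [sm, ← hw, ← PSp.coe_mul_mulVec, mul_inv_cancel, Units.val_one, one_mulVec]

theorem exists_tr (x : (fam (A8 F)).Γ) (s : Cfsg.Omega F ⇑(A8 F).Q) : ∃ s' : Cfsg.Omega F ⇑(A8 F).Q,
    (fam (A8 F)).T x (QuotientGroup.mk s) = QuotientGroup.mk s' ∧ ∀ v, mt s' *ᵥ (sm (x : Gm _ F) v) = sm (x : Gm _ F) (mt s *ᵥ v) := by
  refine ⟨_, Fam.T_mk _ x s, fun v => ?_⟩
  have h1 := rho_tr (fam (A8 F)).ρ (fam (A8 F)).inj (fam (A8 F)).Γ (fam (A8 F)).hΓ x s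
  rw [act_apply] at h1
  have h2 : mt (tr (fam (A8 F)).ρ (fam (A8 F)).inj (fam (A8 F)).Γ (fam (A8 F)).hΓ x s) =
      (((x : Gm (Fin 4 ⊕ Fin 4) F).left * gσ (x : Gm (Fin 4 ⊕ Fin 4) F).right (toG ⇑(A8 F).Q s) * (x : Gm (Fin 4 ⊕ Fin 4) F).left⁻¹ :
        GL (Fin 4 ⊕ Fin 4) F) : Matrix (Fin 4 ⊕ Fin 4) (Fin 4 ⊕ Fin 4) F) :=
    congrArg Units.val h1
  rw [h2, sm, ← PSp.coe_mul_mulVec, inv_mul_cancel_right, PSp.coe_mul_mulVec, map_mulVec']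
  rfl

/-- conjugating the triality automorphism. -/
theorem tri_conj {x y z : (fam (A8 F)).Γ} {κ : F} (h : ∀ v w, om (sm (x : Gm _ F) v) (sm (y : Gm _ F) w) = κ • sm (z : Gm _ F) (om v w)) :
    tri F * (fam (A8 F)).T x = (fam (A8 F)).T y * tri F := by
  ext1 k
  obtain ⟨A, rfl⟩ := QuotientGroup.mk_surjective k
  obtain ⟨B, C, hS⟩ := exists_S3 A
  obtain ⟨A', hA, hA'⟩ := exists_tr x A
  obtain ⟨B', hB, hB'⟩ := exists_tr y B
  obtain ⟨C', hC, hC'⟩ := exists_tr z C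
  rw [MulAut.mul_apply, MulAut.mul_apply, tri_mk hS, hA, hB]
  apply tri_mk (C := C')
  rw [mem_S3]
  intro v w
  obtain ⟨v, rfl⟩ := sm_surj (x : Gm _ F) v
  obtain ⟨w, rfl⟩ := sm_surj (y : Gm _ F) w
  rw [hA', hB', h, h, mulVec_smul, hC', mem_S3.mp hS]

theorem tri_conj' {x y z : (fam (A8 F)).Γ} {κ : F} (h : ∀ v w, om (sm (x : Gm _ F) v) (sm (y : Gm _ F) w) = κ • sm (z : Gm _ F) (om w v)) :
    tri F * (fam (A8 F)).T x * tri F = (fam (A8 F)).T y := by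
  ext1 k
  obtain ⟨A, rfl⟩ := QuotientGroup.mk_surjective k
  obtain ⟨B, C, hS⟩ := exists_S3 A
  obtain ⟨A', hA, hA'⟩ := exists_tr y A
  obtain ⟨B', hB, hB'⟩ := exists_tr x B
  obtain ⟨C', hC, hC'⟩ := exists_tr z C
  rw [MulAut.mul_apply, MulAut.mul_apply, tri_mk hS, hA, hB]
  apply tri_mk (C := C')
  rw [mem_S3]
  intro v w
  obtain ⟨v, rfl⟩ := sm_surj (x : Gm _ F) v
  obtain ⟨w, rfl⟩ := sm_surj (y : Gm _ F) w
  rw [hA', hB', h, h, mulVec_smul, hC', mem_S3.mp hS]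

end Cfsg.Agent.H5.Tri
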