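import Cfsg.Agent.H5_Tri3

set_option autoImplicit false

/-! Triality, part 4: relations with the semisimilarity group. -/

namespace Cfsg.Agent.H5.Tri

open Matrix
open QuadraticMap (polar)
open Cfsg.Agent.H16 Cfsg.Agent.H16.POm Cfsg.Agent.H16.Gam Cfsg.Agent.H16.AutL Cfsg.Agent.H16.AutG

theorem om_map {R S : Type*} [CommRing R] [CommRing S] (e : R →+* S) (x y : Fin 4 ⊕ Fin 4 → R) :
    om (fun i => e (x i)) (fun i => e (y i)) = fun i => e (om x y i) := by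
  funext i; rcases i with i | i <;> fin_cases i <;> simp [om]

variable {F : Type*} [Field F] [Finite F]

theorem A8_Q (x : Fin 4 ⊕ Fin 4 → F) : (A8 F).Q x = nm x := Q8_eq x

theorem hasField8 : (fam (A8 F)).HasField := hasField_of fun σ v => by
  rw [A8_Q, A8_Q, nm, nm, map_sum]
  exact Finset.sum_congr rfl fun i _ => by rw [map_mul]

/-- field automorphisms. -/
noncomputable def fld (F : Type*) [Field F] [Finite F] : (F ≃+* F) →* MulAut (Cfsg.POmega F ⇑(A8 F).Q) :=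
  (fam (A8 F)).T.comp (Fam.fin (hasField8 (F := F)))

theorem sm_fin (σ : F ≃+* F) (v : Fin 4 ⊕ Fin 4 → F) :
    sm ((Fam.fin (hasField8 (F := F)) σ : (fam (A8 F)).Γ) : Gm (Fin 4 ⊕ Fin 4) F) v = fun i => σ (v i) := by
  rw [Fam.coe_fin, sm, SemidirectProduct.left_inr, SemidirectProduct.right_inr, Units.val_one, one_mulVec]

theorem tri_fld (σ : F ≃+* F) : tri F * fld F σ = fld F σ * tri F :=
  tri_conj (x := Fam.fin hasField8 σ) (y := Fam.fin hasField8 σ) (z := Fam.fin hasField8 σ) (κ := 1) (by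
    intro v w
    rw [sm_fin, sm_fin, sm_fin, one_smul]
    exact om_map (σ : F →+* F) v w)

theorem sm_nin (g : (fam (A8 F)).N) (v : Fin 4 ⊕ Fin 4 → F) :
    sm (((fam (A8 F)).nin g : (fam (A8 F)).Γ) : Gm (Fin 4 ⊕ Fin 4) F) v = ((g : GL (Fin 4 ⊕ Fin 4) F) : Matrix (Fin 4 ⊕ Fin 4) (Fin 4 ⊕ Fin 4) F) *ᵥ v := by
  rw [Fam.coe_nin, sm, SemidirectProduct.left_inl, SemidirectProduct.right_inl]
  rfl

/-- similarities acting. -/
noncomputable def lin (F : Type*) [Field F] [Finite F] : (fam (A8 F)).N →* MulAut (Cfsg.POmega F ⇑(A8 F).Q) :=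
  (fam (A8 F)).T.comp (fam (A8 F)).nin

/-- existence of similarities from linear maps. -/
theorem exists_sim (f : (Fin 4 ⊕ Fin 4 → F) →ₗ[F] (Fin 4 ⊕ Fin 4 → F)) {c : F} (hc : c ≠ 0) (h : ∀ x, nm (f x) = c * nm x) :
    ∃ g : (fam (A8 F)).N, (∀ x, ((g : GL (Fin 4 ⊕ Fin 4) F) : Matrix (Fin 4 ⊕ Fin 4) (Fin 4 ⊕ Fin 4) F) *ᵥ x = f x) := by
  have hpol : ∀ x y, bf (f x) (f y) = c * bf x y := by
    intro x y
    rw [← polar8_eq, ← polar8_eq, polar, polar, ← _root_.map_add f, Q8_eq, Q8_eq, Q8_eq, Q8_eq, Q8_eq, Q8_eq, h, h, h]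
    ring
  have hinj : Function.Injective f := by
    rw [injective_iff_map_eq_zero]
    intro x hx
    refine Quad.nd_eq_zero (Quad.nd_plusQ 4) fun y => ?_
    rw [polar8_eq]
    have h1 := hpol x y
    rw [hx, ← polar8_eq, QuadraticMap.polar_zero_left] at h1
    exact (mul_eq_zero.mp h1.symm).resolve_left hc
  let e := (Quad.glE F (Fin 4 ⊕ Fin 4)).symm (LinearEquiv.ofInjectiveEndo f hinj)
  have he : ∀ x, ((e : GL (Fin 4 ⊕ Fin 4) F) : Matrix (Fin 4 ⊕ Fin 4) (Fin 4 ⊕ Fin 4) F) *ᵥ x = f x := by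
    intro x
    rw [← Quad.glE_apply, MulEquiv.apply_symm_apply]
    rfl
  refine ⟨⟨e, ?_⟩, he⟩
  refine sim_mem_Gam.mpr ⟨Units.mk0 c hc, fun x => ?_⟩
  rw [he]
  change (A8 F).Q (f x) = c * (A8 F).Q x
  rw [A8_Q, A8_Q, h]

/-- the relation of being related. -/
def Rt (x y z : (fam (A8 F)).N) : Prop := ∃ κ : F, ∀ v w,
  om (((x : GL (Fin 4 ⊕ Fin 4) F) : Matrix (Fin 4 ⊕ Fin 4) (Fin 4 ⊕ Fin 4) F) *ᵥ v)
    (((y : GL (Fin 4 ⊕ Fin 4) F) : Matrix (Fin 4 ⊕ Fin 4) (Fin 4 ⊕ Fin 4) F) *ᵥ w) =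
    κ • (((z : GL (Fin 4 ⊕ Fin 4) F) : Matrix (Fin 4 ⊕ Fin 4) (Fin 4 ⊕ Fin 4) F) *ᵥ (om v w))

theorem Rt.conj {x y z : (fam (A8 F)).N} (h : Rt x y z) : tri F * lin F x = lin F y * tri F := by
  obtain ⟨κ, h⟩ := h
  refine tri_conj (x := (fam (A8 F)).nin x) (y := (fam (A8 F)).nin y) (z := (fam (A8 F)).nin z) (κ := κ) ?_
  intro v w
  rw [sm_nin, sm_nin, sm_nin]
  exact h v w

theorem exists_mu (g : (fam (A8 F)).N) : ∃ c : F, c ≠ 0 ∧
    (∀ v w, bf (((g : GL (Fin 4 ⊕ Fin 4) F) : Matrix (Fin 4 ⊕ Fin 4) (Fin 4 ⊕ Fin 4) F) *ᵥ v)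
      (((g : GL (Fin 4 ⊕ Fin 4) F) : Matrix (Fin 4 ⊕ Fin 4) (Fin 4 ⊕ Fin 4) F) *ᵥ w) = c * bf v w) ∧
    ∀ v, nm (((g : GL (Fin 4 ⊕ Fin 4) F) : Matrix (Fin 4 ⊕ Fin 4) (Fin 4 ⊕ Fin 4) F) *ᵥ v) = c * nm v := by
  obtain ⟨c, hc⟩ := sim_mem_Gam.mp g.2
  have hc' : ∀ v, nm (((g : GL (Fin 4 ⊕ Fin 4) F) : Matrix (Fin 4 ⊕ Fin 4) (Fin 4 ⊕ Fin 4) F) *ᵥ v) = (c : F) * nm v := by
    intro v
    rw [← A8_Q, ← A8_Q]
    exact hc v
  refine ⟨c, c.ne_zero, fun v w => ?_, hc'⟩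
  rw [← polar8_eq, ← polar8_eq, polar, polar, ← mulVec_add, Q8_eq, Q8_eq, Q8_eq, Q8_eq, Q8_eq, Q8_eq, hc', hc', hc']
  ring

theorem surj_mul (g : GL (Fin 4 ⊕ Fin 4) F) (v : Fin 4 ⊕ Fin 4 → F) :
    ∃ w, (g : Matrix (Fin 4 ⊕ Fin 4) (Fin 4 ⊕ Fin 4) F) *ᵥ w = v :=
  ⟨((g⁻¹ : GL (Fin 4 ⊕ Fin 4) F) : Matrix (Fin 4 ⊕ Fin 4) (Fin 4 ⊕ Fin 4) F) *ᵥ v, by
    rw [← PSp.coe_mul_mulVec, mul_inv_cancel, Units.val_one, one_mulVec]⟩

theorem Rt.cyc {x y z : (fam (A8 F)).N} (h : Rt x y z) : Rt y z x := by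
  obtain ⟨κ, h⟩ := h
  obtain ⟨c, hc, hc', -⟩ := exists_mu x
  obtain ⟨d, hd, hd', -⟩ := exists_mu z
  refine ⟨κ * d * c⁻¹, fun v w => ?_⟩
  apply eq_of_bf
  intro u'
  obtain ⟨u, rfl⟩ := surj_mul (x : GL (Fin 4 ⊕ Fin 4) F) u'
  have hs : ∀ (k : F) (a b : Fin 4 ⊕ Fin 4 → F), bf (k • a) b = k * bf a b := by
    intro k a b
    rw [← polar8_eq, ← polar8_eq, QuadraticMap.polar_smul_left, smul_eq_mul]
  have ht : ∀ a b c : Fin 4 ⊕ Fin 4 → F, bf (om a b) c = bf (om c a) b := by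
    intro a b c
    rw [bf_symm, bf_om]
  rw [ht, h, hs, hd', hs, hc', ht u v w, ht w u v]
  field_simp

/-- the pairs. -/
theorem exists_pair {a b : Fin 4 ⊕ Fin 4 → F} (ha : nm a ≠ 0) (hb : nm b ≠ 0) : ∃ x y z : (fam (A8 F)).N,
    (∀ v, ((x : GL (Fin 4 ⊕ Fin 4) F) : Matrix (Fin 4 ⊕ Fin 4) (Fin 4 ⊕ Fin 4) F) *ᵥ v =
      Quad.refl (Q8 F) a (Quad.refl (Q8 F) b v)) ∧
    (∀ v, ((y : GL (Fin 4 ⊕ Fin 4) F) : Matrix (Fin 4 ⊕ Fin 4) (Fin 4 ⊕ Fin 4) F) *ᵥ v = om (om b v) a) ∧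
    (∀ v, ((z : GL (Fin 4 ⊕ Fin 4) F) : Matrix (Fin 4 ⊕ Fin 4) (Fin 4 ⊕ Fin 4) F) *ᵥ v = om a (om v b)) ∧ Rt x y z := by
  obtain ⟨x, hx⟩ := exists_sim (F := F) ((Quad.refl (Q8 F) a).toLinearMap.comp (Quad.refl (Q8 F) b).toLinearMap) one_ne_zero (by
    intro v
    change nm (Quad.refl (Q8 F) a (Quad.refl (Q8 F) b v)) = _
    rw [← Q8_eq, ← Q8_eq, one_mul]
    exact (Quad.mem_OG.mp (Quad.refl_mem (Q8 F) a) _).trans (Quad.mem_OG.mp (Quad.refl_mem (Q8 F) b) _))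
  obtain ⟨y, hy⟩ := exists_sim (F := F) {
    toFun := fun y => om (om b y) a
    map_add' := fun x y => by rw [om_add_right, om_add_left]
    map_smul' := fun c x => by rw [om_smul_right, om_smul_left]; rfl } (mul_ne_zero ha hb) (by
      intro x
      change nm (om (om b x) a) = _
      rw [nm_om, nm_om]; ring)
  obtain ⟨z, hz⟩ := exists_sim (F := F) {
    toFun := fun y => om a (om y b)
    map_add' := fun x y => by rw [om_add_left, om_add_right]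
    map_smul' := fun c x => by rw [om_smul_left, om_smul_right]; rfl } (mul_ne_zero ha hb) (by
      intro x
      change nm (om a (om x b)) = _
      rw [nm_om, nm_om]; ring)
  refine ⟨x, y, z, hx, hy, hz, 1, fun v w => ?_⟩
  rw [hx, hy, hz, one_smul]
  exact om_pair' ha hb v w

/-- the graph element. -/
theorem exists_J (F : Type*) [Field F] [Finite F] : ∃ J : (fam (A8 F)).N, ∀ v, ((J : GL (Fin 4 ⊕ Fin 4) F) : Matrix (Fin 4 ⊕ Fin 4) (Fin 4 ⊕ Fin 4) F) *ᵥ v = cj v := by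
  obtain ⟨x, hx⟩ := exists_sim (F := F) {
    toFun := cj
    map_add' := fun x y => by
      funext i; rcases i with i | i <;> fin_cases i <;> simp [cj] <;> ring
    map_smul' := fun c x => by rw [cj_smul]; rfl } one_ne_zero (by
      intro x
      change nm (cj x) = _
      rw [nm_cj, one_mul])
  exact ⟨x, hx⟩

noncomputable def Jn (F : Type*) [Field F] [Finite F] : (fam (A8 F)).N := (exists_J F).choose

theorem Jn_mul (v : Fin 4 ⊕ Fin 4 → F) :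
    ((Jn F : GL (Fin 4 ⊕ Fin 4) F) : Matrix (Fin 4 ⊕ Fin 4) (Fin 4 ⊕ Fin 4) F) *ᵥ v = cj v := (exists_J F).choose_spec v

theorem Jn_sq : Jn F * Jn F = 1 := by
  apply Subtype.ext
  apply PSp.gl_ext
  intro v
  rw [Subgroup.coe_mul, PSp.coe_mul_mulVec, Jn_mul, Jn_mul, cj_cj]
  exact (one_mulVec v).symm

theorem tri_J : tri F * lin F (Jn F) * tri F = lin F (Jn F) := by
  refine tri_conj' (x := (fam (A8 F)).nin (Jn F)) (y := (fam (A8 F)).nin (Jn F)) (z := (fam (A8 F)).nin (Jn F)) (κ := 1) ?_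
  intro v w
  rw [sm_nin, sm_nin, sm_nin, Jn_mul, Jn_mul, Jn_mul, one_smul, cj_om]

theorem lin_mem (x : (fam (A8 F)).N) : lin F x ∈ (fam (A8 F)).D := ⟨x, rfl⟩

theorem D_le_range : (fam (A8 F)).D ≤ (fam (A8 F)).T.range := by
  rintro _ ⟨g, rfl⟩
  exact ⟨_, rfl⟩

/-- triality is not induced by a semisimilarity. -/
theorem tri_nmem : tri F ∉ (fam (A8 F)).T.range := by
  rintro ⟨x, hx⟩
  -- a suitable pair
  have hpe : nm (pe : Fin 4 ⊕ Fin 4 → F) = 1 := by simp [nm, pe, Fin.sum_univ_four]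
  obtain ⟨b, hb, hb', v₀, hv₀, hv₁, hv₂⟩ : ∃ b : Fin 4 ⊕ Fin 4 → F, nm b = 1 ∧ (∀ γ : F, γ * γ = 1 → (1 : F) + γ * γ - γ * bf pe b ≠ 0) ∧
      ∃ v₀ : Fin 4 ⊕ Fin 4 → F, nm v₀ ≠ 0 ∧ bf v₀ pe = 0 ∧ bf v₀ b = 0 := by
    by_cases h2 : (2 : F) = 0
    · refine ⟨Sum.elim ![1, 1, 0, 0] ![0, 1, 0, 0], by simp [nm, Fin.sum_univ_four], ?_,
        Sum.elim ![0, 0, 1, 0] ![0, 0, 1, 0], by simp [nm, Fin.sum_univ_four], by simp [bf, pe, Fin.sum_univ_four],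
        by simp [bf, Fin.sum_univ_four]⟩
      intro γ hγ h
      have e1 : bf pe (Sum.elim ![1, 1, 0, 0] ![0, 1, 0, 0] : Fin 4 ⊕ Fin 4 → F) = 1 := by
        simp [bf, pe, Fin.sum_univ_four]
      rw [e1, hγ] at h
      have e2 : γ = 0 := by linear_combination h2 - h
      rw [e2] at hγ
      simp at hγ
    · refine ⟨Sum.elim ![0, 1, 0, 0] ![0, 1, 0, 0], by simp [nm, Fin.sum_univ_four], ?_,
        Sum.elim ![0, 0, 1, 0] ![0, 0, 1, 0], by simp [nm, Fin.sum_univ_four], by simp [bf, pe, Fin.sum_univ_four],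
        by simp [bf, Fin.sum_univ_four]⟩
      intro γ hγ h
      have e1 : bf pe (Sum.elim ![0, 1, 0, 0] ![0, 1, 0, 0] : Fin 4 ⊕ Fin 4 → F) = 0 := by
        simp [bf, pe, Fin.sum_univ_four]
      rw [e1, hγ] at h
      exact h2 (by linear_combination h)
  obtain ⟨B, C, hT, hB, -⟩ := exists_T3_pair (F := F) (a := pe) (b := b) (by rw [Q8_eq, hpe]; exact one_ne_zero)
    (by rw [Q8_eq, Q8_eq, hpe, hb])
  have hA : Quad.rf (Q8 F) pe * Quad.rf (Q8 F) b ∈ commutator (Quad.OG (Q8 F)) := by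
    have h1 := (Quad.rpr_mem_comm_iff (Q := Q8 F) nd8 (Or.inr (by rw [rank8]; norm_num)) (vs := [pe, b]) (by
      intro v hv
      rcases List.mem_cons.mp hv with rfl | hv
      · rw [Q8_eq, hpe]; exact one_ne_zero
      · rcases List.mem_cons.mp hv with rfl | hv
        · rw [Q8_eq, hb]; exact one_ne_zero
        · simp at hv)).mpr ⟨by simp, by simp [Q8_eq, hpe, hb]⟩
    simpa [Quad.rpr] using h1
  let sA : Cfsg.Omega F ⇑(A8 F).Q := ⟨(Quad.toOG (Q8 F)).symm (Quad.rf (Q8 F) pe * Quad.rf (Q8 F) b), by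
    refine (Quad.mem_Omega_iff (Q := Q8 F)).mpr ?_
    rw [MulEquiv.apply_symm_apply]
    exact hA⟩
  have hsA : ∀ v, mt sA *ᵥ v = Quad.refl (Q8 F) pe (Quad.refl (Q8 F) b v) := fun v => Quad.toOG_symm_mulVec (Q8 F) _ v
  obtain ⟨B', C', hS⟩ := exists_S3 sA
  have hTi := (T3 F).inv_mem hT
  obtain ⟨β, hβ, -⟩ := scal_of (F := F) (c := 1) one_ne_zero (B := fun y => B.1.symm (mt B' *ᵥ y)) (C := fun y => C.1.symm (mt C' *ᵥ y)) (by
    intro u v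
    rw [one_smul, ← mem_S3.mp hS]
    have h1 := hTi (mt sA *ᵥ u) (mt B' *ᵥ v)
    have h2 : ((Quad.rf (Q8 F) pe * Quad.rf (Q8 F) b)⁻¹).1 (mt sA *ᵥ u) = u := by
      rw [hsA]
      exact (Quad.rf (Q8 F) pe * Quad.rf (Q8 F) b).1.symm_apply_apply u
    change om (((Quad.rf (Q8 F) pe * Quad.rf (Q8 F) b)⁻¹).1 (mt sA *ᵥ u)) (B.1.symm (mt B' *ᵥ v)) = C.1.symm _ at h1
    rw [h2] at h1
    exact h1)
  have hB' : ∀ y, mt B' *ᵥ y = β • om (om b y) pe := by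
    intro y
    have h1 : B.1.symm (mt B' *ᵥ y) = β • y := hβ y
    rw [LinearEquiv.symm_apply_eq, _root_.map_smul, hB, Q8_eq, hpe, inv_one, one_smul] at h1
    exact h1
  obtain ⟨A'', h1, h2⟩ := exists_tr x sA
  have h3 : (QuotientGroup.mk B' : Cfsg.POmega F ⇑(A8 F).Q) = QuotientGroup.mk A'' := by
    rw [← tri_mk hS, ← h1, hx]
  obtain ⟨c, hc⟩ := (fam (A8 F)).mk_eq_iff.mp h3.symm
  have hc' : ∀ v, mt B' *ᵥ v = (c : F) • (mt A'' *ᵥ v) := by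
    intro v
    have h4 : mt B' = (((scl (Fin 4 ⊕ Fin 4) c * toG ⇑(A8 F).Q A'') : GL (Fin 4 ⊕ Fin 4) F) : Matrix (Fin 4 ⊕ Fin 4) (Fin 4 ⊕ Fin 4) F) :=
      congrArg Units.val hc
    rw [h4, PSp.coe_mul_mulVec, PSp.scl_mulVec]
    rfl
  set w := sm (x : Gm (Fin 4 ⊕ Fin 4) F) v₀ with hw
  have hfix : mt sA *ᵥ v₀ = v₀ := by
    rw [hsA, Quad.refl_apply (Q8 F) b, polar8_eq, hv₂, mul_zero, zero_smul, sub_zero, Quad.refl_apply, polar8_eq, hv₁, mul_zero, zero_smul,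
      sub_zero]
  have h5 : mt A'' *ᵥ w = w := by rw [hw, h2, hfix]
  have h6 := hc' w
  rw [h5, hB'] at h6
  have hnw : nm w ≠ 0 := by
    obtain ⟨d, hd⟩ := x.2
    have h7 := hd v₀
    change (A8 F).Q w = (d : F) * x.1.right ((A8 F).Q v₀) at h7
    rw [A8_Q, A8_Q] at h7
    rw [h7]
    exact mul_ne_zero d.ne_zero (by rwa [Ne, map_eq_zero])
  have hw0 : w ≠ 0 := by
    intro h
    rw [h] at hnw
    apply hnw
    simp [nm]
  have hβ0 : β ≠ 0 := by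
    rintro rfl
    rw [zero_smul] at h6
    exact (smul_ne_zero c.ne_zero hw0) h6.symm
  set γ := β⁻¹ * (c : F) with hγ
  have h7 : om (om b w) pe = γ • w := by
    rw [hγ, mul_smul, ← h6, smul_smul, inv_mul_cancel₀ hβ0, one_smul]
  have hγ2 : γ * γ = 1 := by
    have h8 := congrArg nm h7
    rw [nm_om, nm_om, hb, hpe, one_mul, mul_one, ← Q8_eq (γ • w), Quad.map_smul, Q8_eq] at h8
    have h9 : (γ * γ - 1) * nm w = 0 := by linear_combination -h8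
    exact sub_eq_zero.mp ((mul_eq_zero.mp h9).resolve_right hnw)
  have h8 : om (b - γ • pe) w = 0 := by
    have h9 := om_right pe (om b w)
    rw [h7, hpe, one_smul, om_smul_right] at h9
    rw [om_sub_left, om_smul_left, h9, sub_self]
  have h9 := om_left (b - γ • pe) w
  rw [h8] at h9
  have h10 : om (0 : Fin 4 ⊕ Fin 4 → F) (b - γ • pe) = 0 := by
    have := om_smul_left (0 : F) (0 : Fin 4 ⊕ Fin 4 → F) (b - γ • pe)
    rwa [zero_smul, zero_smul] at this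
  rw [h10] at h9
  have h11 : nm (b - γ • pe) = 0 := (smul_eq_zero.mp h9.symm).resolve_right hw0
  apply hb' γ hγ2
  rw [← h11, ← Q8_eq (b - γ • pe), Quad.map_sub, Quad.map_smul, Quad.polar_smul_right, Q8_eq, Q8_eq, polar8_eq, hb, hpe, bf_symm b pe]
  ring

end Cfsg.Agent.H5.Tri
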