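import Cfsg.Agent.H5_Tri5

set_option autoImplicit false

/-! Triality, part 6: counting. -/

namespace Cfsg.Agent.H5.Tri

open Matrix
open QuadraticMap (polar)
open Cfsg.Agent.H16 Cfsg.Agent.H16.POm Cfsg.Agent.H16.Gam Cfsg.Agent.H16.AutL Cfsg.Agent.H16.AutG
open Cfsg.Agent.H5.AutO

variable {ι : Type} [Fintype ι] [DecidableEq ι] {F : Type*} [Field F] [Finite F]

/-- the order of the group induced by similarities, in even dimension. -/
theorem card_D_even (A : OD ι F) {m : ℕ} (hm : Fintype.card ι = 2 * m) :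
    Nat.card (H16.POm.fam A).D = Nat.card (Cfsg.isometryGroup F ⇑A.Q) := by
  have hι : Nonempty ι := Fintype.card_pos_iff.mp (by have := A.h7; omega)
  obtain ⟨μ, hμ⟩ := exists_mult A
  have h2 := card_hom μ
  rw [range_even A hm hμ, card_mult_ker A hμ, Subgroup.card_top] at h2
  have h3 := card_hom ((H16.POm.fam A).T.comp (H16.POm.fam A).nin)
  have h4 : Nat.card ((H16.POm.fam A).T.comp (H16.POm.fam A).nin).ker = Nat.card Fˣ := by
    refine (Nat.card_congr (Equiv.ofBijective
      (fun c : Fˣ => (⟨⟨scl ι c, (H16.POm.fam A).sc c⟩, ((H16.POm.fam A).ker_nin _).mpr ⟨c, rfl⟩⟩ :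
        ((H16.POm.fam A).T.comp (H16.POm.fam A).nin).ker)) ⟨?_, ?_⟩)).symm
    · intro c d h
      exact sc_inj (congrArg (fun x : ((H16.POm.fam A).T.comp (H16.POm.fam A).nin).ker => (x.1 : GL ι F)) h)
    · rintro ⟨x, hx⟩
      obtain ⟨c, hc⟩ := ((H16.POm.fam A).ker_nin x).mp hx
      exact ⟨c, Subtype.ext (Subtype.ext hc.symm)⟩
  rw [h4] at h3
  have h5 : 0 < Nat.card Fˣ := Nat.card_pos
  apply Nat.eq_of_mul_eq_mul_left h5
  change Nat.card Fˣ * Nat.card ((H16.POm.fam A).T.comp (H16.POm.fam A).nin).range = _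
  rw [h3, ← h2, mul_comm]

/-- the order of the automorphism group, plus type. -/
theorem card_aut_plus {m : ℕ} (hm : 4 ≤ m) : Nat.card (MulAut (Cfsg.POmega F ⇑(odP F hm).Q)) =
    (if m = 4 then 3 else 1) * (Nat.card (Cfsg.isometryGroup F ⇑(odP F hm).Q) * Nat.card (F ≃+* F)) := by
  by_cases h : m = 4
  · subst h
    rw [if_pos rfl]
    have h1 := (dt F).card_GD
    rw [h1]
    congr 2
    exact card_D_even (A8 F) (m := 4) (by simp)
  · rw [if_neg h, one_mul]
    have : Fintype F := Fintype.ofFinite F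
    exact card_even (good_plus (F := F) (show 5 ≤ m by omega)) (m := m)
      (by simp only [Fintype.card_sum, Fintype.card_fin]; ring) (semi_plus hm)

end Cfsg.Agent.H5.Tri
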