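import Mathlib

set_option autoImplicit false

/-! transvections: conjugacy in `SL_n`, `n ≥ 3` -/

namespace Cfsg.Agent.H5.Tv

open Matrix Module

section glue
variable {F V V' : Type*} [Field F] [AddCommGroup V] [Module F V] [AddCommGroup V'] [Module F V']

theorem glue {A B : Submodule F V} (h : IsCompl A B) {A' B' : Submodule F V'} (h' : IsCompl A' B') (eA : A ≃ₗ[F] A')
    (eB : B ≃ₗ[F] B') : ∃ P : V ≃ₗ[F] V', (∀ a : A, P a = eA a) ∧ ∀ b : B, P b = eB b := by
  refine ⟨((Submodule.prodEquivOfIsCompl A B h).symm.trans (eA.prodCongr eB)).trans (Submodule.prodEquivOfIsCompl A' B' h'),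
    ?_, ?_⟩
  · intro a
    rw [LinearEquiv.trans_apply, LinearEquiv.trans_apply, Submodule.prodEquivOfIsCompl_symm_apply_left]
    simp
  · intro b
    rw [LinearEquiv.trans_apply, LinearEquiv.trans_apply, Submodule.prodEquivOfIsCompl_symm_apply_right]
    simp

theorem exists_map [FiniteDimensional F V] [FiniteDimensional F V'] (h : finrank F V = finrank F V') {x : V} {y : V'}
    (hx : x ≠ 0) (hy : y ≠ 0) : ∃ P : V ≃ₗ[F] V', P x = y := by
  obtain ⟨C, hC⟩ := Submodule.exists_isCompl (Submodule.span F {x})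
  obtain ⟨C', hC'⟩ := Submodule.exists_isCompl (Submodule.span F {y})
  have h1 := Submodule.finrank_add_eq_of_isCompl hC
  have h2 := Submodule.finrank_add_eq_of_isCompl hC'
  rw [finrank_span_singleton hx] at h1
  rw [finrank_span_singleton hy] at h2
  obtain ⟨P, hP, -⟩ := glue hC hC' ((LinearEquiv.toSpanNonzeroSingleton F V x hx).symm.trans
    (LinearEquiv.toSpanNonzeroSingleton F V' y hy)) (LinearEquiv.ofFinrankEq C C' (by omega))
  refine ⟨P, ?_⟩
  have h3 := hP ⟨x, Submodule.mem_span_singleton_self x⟩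
  rw [LinearEquiv.trans_apply] at h3
  have h4 : (LinearEquiv.toSpanNonzeroSingleton F V x hx).symm ⟨x, Submodule.mem_span_singleton_self x⟩ = 1 := by
    rw [LinearEquiv.symm_apply_eq]
    apply Subtype.ext
    simp [LinearEquiv.toSpanNonzeroSingleton_apply]
  rw [h4] at h3
  rw [h3]
  simp [LinearEquiv.toSpanNonzeroSingleton_apply]

theorem hcomp (φ : V →ₗ[F] F) (w : V) (hw : φ w = 1) : IsCompl (LinearMap.ker φ) (Submodule.span F {w}) := by
  constructor
  · rw [Submodule.disjoint_def]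
    intro x hx hx2
    obtain ⟨c, rfl⟩ := Submodule.mem_span_singleton.1 hx2
    rw [LinearMap.mem_ker, map_smul, hw, smul_eq_mul, mul_one] at hx
    rw [hx, zero_smul]
  · rw [codisjoint_iff_le_sup]
    intro x _
    rw [Submodule.mem_sup]
    refine ⟨x - φ x • w, ?_, φ x • w, Submodule.smul_mem _ _ (Submodule.mem_span_singleton_self w), by abel⟩
    rw [LinearMap.mem_ker, map_sub, map_smul, hw, smul_eq_mul, mul_one, sub_self]

theorem exists_pair [FiniteDimensional F V] [FiniteDimensional F V'] (h : finrank F V = finrank F V') {u : V} {u' : V'}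
    (hu : u ≠ 0) (hu' : u' ≠ 0) {φ : V →ₗ[F] F} {φ' : V' →ₗ[F] F} (hφ : φ ≠ 0) (hφ' : φ' ≠ 0) (h0 : φ u = 0)
    (h0' : φ' u' = 0) : ∃ P : V ≃ₗ[F] V', P u = u' ∧ ∀ v, φ' (P v) = φ v := by
  obtain ⟨w, hw⟩ : ∃ w, φ w = 1 := by
    obtain ⟨w, hw⟩ := LinearMap.surjective hφ 1
    exact ⟨w, hw⟩
  obtain ⟨w', hw'⟩ : ∃ w, φ' w = 1 := by
    obtain ⟨w, hw⟩ := LinearMap.surjective hφ' 1
    exact ⟨w, hw⟩
  have hw0 : w ≠ 0 := by rintro rfl; rw [map_zero] at hw; exact zero_ne_one hw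
  have hw0' : w' ≠ 0 := by rintro rfl; rw [map_zero] at hw'; exact zero_ne_one hw'
  have h1 := Submodule.finrank_add_eq_of_isCompl (hcomp φ w hw)
  have h2 := Submodule.finrank_add_eq_of_isCompl (hcomp φ' w' hw')
  rw [finrank_span_singleton hw0] at h1
  rw [finrank_span_singleton hw0'] at h2
  obtain ⟨e, he⟩ := exists_map (F := F) (V := LinearMap.ker φ) (V' := LinearMap.ker φ') (by omega)
    (x := ⟨u, h0⟩) (y := ⟨u', h0'⟩) (fun h => hu (congrArg Subtype.val h)) (fun h => hu' (congrArg Subtype.val h))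
  obtain ⟨P, hP1, hP2⟩ := glue (hcomp φ w hw) (hcomp φ' w' hw') e
    ((LinearEquiv.toSpanNonzeroSingleton F V w hw0).symm.trans (LinearEquiv.toSpanNonzeroSingleton F V' w' hw0'))
  refine ⟨P, ?_, ?_⟩
  · have := hP1 ⟨u, h0⟩
    rw [he] at this
    exact this
  · intro v
    have hPw : P w = w' := by
      have h3 := hP2 ⟨w, Submodule.mem_span_singleton_self w⟩
      rw [LinearEquiv.trans_apply] at h3
      have h4 : (LinearEquiv.toSpanNonzeroSingleton F V w hw0).symm ⟨w, Submodule.mem_span_singleton_self w⟩ = 1 := by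
        rw [LinearEquiv.symm_apply_eq]
        apply Subtype.ext
        simp [LinearEquiv.toSpanNonzeroSingleton_apply]
      rw [h4] at h3
      rw [h3]
      simp [LinearEquiv.toSpanNonzeroSingleton_apply]
    have h5 : v - φ v • w ∈ LinearMap.ker φ := by
      rw [LinearMap.mem_ker, map_sub, map_smul, hw, smul_eq_mul, mul_one, sub_self]
    have h6 := hP1 ⟨_, h5⟩
    have h7 : φ' (P (v - φ v • w)) = 0 := by
      rw [h6]
      exact (e _).2
    rw [map_sub, map_sub, map_smul, map_smul, hPw, hw', smul_eq_mul, mul_one, sub_eq_zero] at h7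
    exact h7

end glue

section SL
variable {F : Type*} [Field F] {n : ℕ}

/-- `SL_n` (`n ≥ 3`) is transitive on incident pairs (vector, functional) -/
theorem exists_SL {u φ : Fin (n + 3) → F} (hu : u ≠ 0) (hφ : φ ≠ 0) (h0 : φ ⬝ᵥ u = 0) :
    ∃ g : Matrix.SpecialLinearGroup (Fin (n + 3)) F, (g : Matrix (Fin (n + 3)) (Fin (n + 3)) F) *ᵥ (Pi.single 0 1) = u ∧
      φ ᵥ* (g : Matrix (Fin (n + 3)) (Fin (n + 3)) F) = Pi.single 1 1 := by
  classical
  let Φ : (Fin (n + 3) → F) → ((Fin (n + 3) → F) →ₗ[F] F) := fun φ => dotProductBilin F F φ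
  have hΦ : ∀ φ v, Φ φ v = φ ⬝ᵥ v := fun φ v => rfl
  have hne : ∀ φ : Fin (n + 3) → F, φ ≠ 0 → Φ φ ≠ 0 := by
    intro φ hφ h
    apply hφ
    funext i
    have := LinearMap.congr_fun h (Pi.single i 1)
    rw [hΦ, dotProduct_single, mul_one] at this
    exact this
  have hs0 : (Pi.single 0 1 : Fin (n + 3) → F) ≠ 0 := by
    intro h; have := congrFun h 0; simp at this
  have hs1 : (Pi.single 1 1 : Fin (n + 3) → F) ≠ 0 := by
    intro h; have := congrFun h 1; simp at this
  obtain ⟨P, hP1, hP2⟩ := exists_pair (F := F) (V := Fin (n + 3) → F) (V' := Fin (n + 3) → F) rfl hs0 hu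
    (hne _ hs1) (hne _ hφ) (by rw [hΦ]; simp) (by rw [hΦ]; exact h0)
  -- adjust the determinant
  set M := LinearMap.toMatrix' (P : (Fin (n + 3) → F) →ₗ[F] (Fin (n + 3) → F)) with hM
  have hMv : ∀ v, M *ᵥ v = P v := by
    intro v
    rw [hM, LinearMap.toMatrix'_mulVec]; rfl
  have hdet : M.det ≠ 0 := by
    rw [hM, LinearMap.det_toMatrix']
    exact (LinearEquiv.isUnit_det' P).ne_zero
  set D : Matrix (Fin (n + 3)) (Fin (n + 3)) F := Matrix.diagonal (Function.update 1 2 (M.det)⁻¹) with hD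
  have hDdet : D.det = (M.det)⁻¹ := by
    rw [hD, Matrix.det_diagonal, Finset.prod_update_of_mem (Finset.mem_univ _)]
    simp
  obtain ⟨g, hg⟩ : ∃ g : Matrix.SpecialLinearGroup (Fin (n + 3)) F, (g : Matrix (Fin (n + 3)) (Fin (n + 3)) F) = M * D :=
    ⟨⟨M * D, by rw [Matrix.det_mul, hDdet, mul_inv_cancel₀ hdet]⟩, rfl⟩
  have h02 : (0 : Fin (n + 3)) ≠ 2 := by
    intro h; have := congrArg Fin.val h; simp [Fin.val_ofNat] at this
    rw [Nat.mod_eq_of_lt (by omega)] at this; omega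
  have h12 : (1 : Fin (n + 3)) ≠ 2 := by
    intro h; have := congrArg Fin.val h; simp [Fin.val_ofNat] at this
    rw [Nat.mod_eq_of_lt (by omega)] at this; omega
  refine ⟨g, ?_, ?_⟩
  · rw [hg, ← Matrix.mulVec_mulVec]
    have h1 : D *ᵥ (Pi.single 0 1) = Pi.single 0 1 := by
      rw [hD, Matrix.mulVec_single_one]
      ext i
      rw [Matrix.col_apply, Matrix.diagonal_apply]
      by_cases hi : i = 0
      · subst hi
        rw [if_pos rfl, Function.update_of_ne h02]; simp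
      · rw [if_neg hi, Pi.single_eq_of_ne hi]
    rw [h1, hMv, hP1]
  · rw [hg]
    have h2 : φ ᵥ* M = Pi.single 1 1 := by
      funext i
      have h3 := hP2 (Pi.single i 1)
      rw [hΦ, hΦ, ← hMv, Matrix.dotProduct_mulVec, dotProduct_single, mul_one, dotProduct_single, mul_one] at h3
      exact h3
    rw [← Matrix.vecMul_vecMul, h2, hD, Matrix.single_one_vecMul]
    ext i
    rw [Matrix.row_apply, Matrix.diagonal_apply]
    by_cases hi : 1 = i
    · subst hi
      rw [if_pos rfl, Function.update_of_ne h12]; simp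
    · rw [if_neg hi, Pi.single_eq_of_ne (Ne.symm hi)]

theorem single_eq (c : F) (i j : Fin (n + 3)) :
    Matrix.transvection i j c = 1 + Matrix.vecMulVec (c • Pi.single i 1) (Pi.single j 1) := by
  rw [Matrix.transvection]
  congr 1
  ext a b
  rw [Matrix.vecMulVec_apply, Matrix.single_apply, Pi.smul_apply, smul_eq_mul, Pi.single_apply, Pi.single_apply]
  by_cases h1 : i = a <;> by_cases h2 : j = b <;> simp [h1, h2, eq_comm]

theorem conj_eq (g : Matrix.SpecialLinearGroup (Fin (n + 3)) F) (u φ : Fin (n + 3) → F) :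
    (g : Matrix (Fin (n + 3)) (Fin (n + 3)) F) * (1 + Matrix.vecMulVec u φ) * ((g⁻¹ : Matrix.SpecialLinearGroup (Fin (n + 3)) F) : Matrix (Fin (n + 3)) (Fin (n + 3)) F) =
      1 + Matrix.vecMulVec ((g : Matrix (Fin (n + 3)) (Fin (n + 3)) F) *ᵥ u)
        (φ ᵥ* ((g⁻¹ : Matrix.SpecialLinearGroup (Fin (n + 3)) F) : Matrix (Fin (n + 3)) (Fin (n + 3)) F)) := by
  rw [mul_add, mul_one, add_mul, ← Matrix.SpecialLinearGroup.coe_mul, mul_inv_cancel, Matrix.SpecialLinearGroup.coe_one,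
    Matrix.mul_vecMulVec, Matrix.vecMulVec_mul]

/-- characterisation of the class of transvections -/
theorem mem_iff (t : Matrix.SpecialLinearGroup (Fin (n + 3)) F) :
    (∃ c : F, c ≠ 0 ∧ ∃ g : Matrix.SpecialLinearGroup (Fin (n + 3)) F, ((g⁻¹ * t * g : Matrix.SpecialLinearGroup (Fin (n + 3)) F) :
          Matrix (Fin (n + 3)) (Fin (n + 3)) F) = Matrix.transvection 0 1 c) ↔
    ∃ u φ : Fin (n + 3) → F, u ≠ 0 ∧ φ ≠ 0 ∧ φ ⬝ᵥ u = 0 ∧ (t : Matrix (Fin (n + 3)) (Fin (n + 3)) F) = 1 + Matrix.vecMulVec u φ := by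
  have hs0 : (Pi.single 0 1 : Fin (n + 3) → F) ≠ 0 := by
    intro h; have := congrFun h 0; simp at this
  have hs1 : (Pi.single 1 1 : Fin (n + 3) → F) ≠ 0 := by
    intro h; have := congrFun h 1; simp at this
  constructor
  · rintro ⟨c, hc, g, hg⟩
    have h1 : t = g * (g⁻¹ * t * g) * g⁻¹ := by group
    have h2 : (t : Matrix (Fin (n + 3)) (Fin (n + 3)) F) = (g : Matrix (Fin (n + 3)) (Fin (n + 3)) F) *
        (1 + Matrix.vecMulVec (c • Pi.single 0 1) (Pi.single 1 1)) *
        ((g⁻¹ : Matrix.SpecialLinearGroup (Fin (n + 3)) F) : Matrix (Fin (n + 3)) (Fin (n + 3)) F) := by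
      conv_lhs => rw [h1]
      rw [Matrix.SpecialLinearGroup.coe_mul, Matrix.SpecialLinearGroup.coe_mul, hg, single_eq]
    rw [conj_eq] at h2
    refine ⟨_, _, ?_, ?_, ?_, h2⟩
    · intro h3
      have h4 := congrArg (fun v => ((g⁻¹ : Matrix.SpecialLinearGroup (Fin (n + 3)) F) : Matrix (Fin (n + 3)) (Fin (n + 3)) F) *ᵥ v) h3
      simp only [Matrix.mulVec_mulVec, Matrix.mulVec_zero] at h4
      rw [← Matrix.SpecialLinearGroup.coe_mul, inv_mul_cancel, Matrix.SpecialLinearGroup.coe_one, Matrix.one_mulVec] at h4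
      exact hs0 ((smul_eq_zero.1 h4).resolve_left hc)
    · intro h3
      have h4 := congrArg (fun v => v ᵥ* (g : Matrix (Fin (n + 3)) (Fin (n + 3)) F)) h3
      simp only [Matrix.vecMul_vecMul, Matrix.zero_vecMul] at h4
      rw [← Matrix.SpecialLinearGroup.coe_mul, inv_mul_cancel, Matrix.SpecialLinearGroup.coe_one, Matrix.vecMul_one] at h4
      exact hs1 h4
    · rw [← Matrix.dotProduct_mulVec, Matrix.mulVec_mulVec, ← Matrix.SpecialLinearGroup.coe_mul, inv_mul_cancel,
        Matrix.SpecialLinearGroup.coe_one, Matrix.one_mulVec]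
      simp
  · rintro ⟨u, φ, hu, hφ, h0, ht⟩
    obtain ⟨g, hg1, hg2⟩ := exists_SL hu hφ h0
    refine ⟨1, one_ne_zero, g, ?_⟩
    have h1 : (g : Matrix (Fin (n + 3)) (Fin (n + 3)) F) * Matrix.transvection 0 1 1 *
        ((g⁻¹ : Matrix.SpecialLinearGroup (Fin (n + 3)) F) : Matrix (Fin (n + 3)) (Fin (n + 3)) F) =
        (t : Matrix (Fin (n + 3)) (Fin (n + 3)) F) := by
      rw [single_eq, one_smul, conj_eq, hg1, ← hg2, Matrix.vecMul_vecMul, ← Matrix.SpecialLinearGroup.coe_mul,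
        mul_inv_cancel, Matrix.SpecialLinearGroup.coe_one, Matrix.vecMul_one, ht]
    rw [Matrix.SpecialLinearGroup.coe_mul, Matrix.SpecialLinearGroup.coe_mul, ← h1]
    have h2 : ((g⁻¹ : Matrix.SpecialLinearGroup (Fin (n + 3)) F) : Matrix (Fin (n + 3)) (Fin (n + 3)) F) *
        (g : Matrix (Fin (n + 3)) (Fin (n + 3)) F) = 1 := by
      rw [← Matrix.SpecialLinearGroup.coe_mul, inv_mul_cancel, Matrix.SpecialLinearGroup.coe_one]
    calc _ = (((g⁻¹ : Matrix.SpecialLinearGroup (Fin (n + 3)) F) : Matrix (Fin (n + 3)) (Fin (n + 3)) F) *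
        (g : Matrix (Fin (n + 3)) (Fin (n + 3)) F)) * Matrix.transvection 0 1 1 *
        (((g⁻¹ : Matrix.SpecialLinearGroup (Fin (n + 3)) F) : Matrix (Fin (n + 3)) (Fin (n + 3)) F) *
        (g : Matrix (Fin (n + 3)) (Fin (n + 3)) F)) := by simp only [Matrix.mul_assoc]
      _ = _ := by rw [h2, one_mul, mul_one]

end SL

end Cfsg.Agent.H5.Tv
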