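import Mathlib
import Cfsg.Prelude.Def_RootSubgroups
import Cfsg.Agent.H5_Tv
import Cfsg.Agent.H5_SL

set_option autoImplicit false

/-! transvection groups of `SL_m` -/

namespace Cfsg.Agent.H5.Tv

open Matrix Module
open scoped commutatorElement

section TV
variable {k : Type*} [Field k] {m : ℕ}

theorem vmul (u φ w ψ : Fin m → k) : vecMulVec u φ * vecMulVec w ψ = (φ ⬝ᵥ w) • vecMulVec u ψ := by
  rw [vecMulVec_mul_vecMulVec, vecMulVec_smul]

/-- transvections -/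
def TV (u φ : Fin m → k) (h : φ ⬝ᵥ u = 0) (c : k) : Matrix.SpecialLinearGroup (Fin m) k :=
  ⟨1 + c • vecMulVec u φ, by
    rw [← smul_vecMulVec, vecMulVec_eq Unit, det_one_add_replicateCol_mul_replicateRow, dotProduct_smul, h, smul_zero,
      add_zero]⟩

theorem TV_coe (u φ : Fin m → k) (h : φ ⬝ᵥ u = 0) (c : k) :
    (TV u φ h c : Matrix (Fin m) (Fin m) k) = 1 + c • vecMulVec u φ := rfl

theorem TV_mulVec (u φ : Fin m → k) (h : φ ⬝ᵥ u = 0) (c : k) (x : Fin m → k) :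
    (TV u φ h c : Matrix (Fin m) (Fin m) k) *ᵥ x = x + (c * (φ ⬝ᵥ x)) • u := by
  rw [TV_coe, add_mulVec, one_mulVec, smul_mulVec, vecMulVec_mulVec]
  simp [smul_smul]

theorem TV_vecMul (u φ : Fin m → k) (h : φ ⬝ᵥ u = 0) (c : k) (x : Fin m → k) :
    x ᵥ* (TV u φ h c : Matrix (Fin m) (Fin m) k) = x + (c * (x ⬝ᵥ u)) • φ := by
  rw [TV_coe, vecMul_add, vecMul_one, vecMul_smul, vecMul_vecMulVec, smul_smul]

theorem TV_mul (u φ : Fin m → k) (h : φ ⬝ᵥ u = 0) (a b : k) : TV u φ h a * TV u φ h b = TV u φ h (a + b) := by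
  apply Subtype.ext
  rw [Matrix.SpecialLinearGroup.coe_mul, TV_coe, TV_coe, TV_coe, add_mul, mul_add, mul_add, smul_mul_smul_comm, vmul, h,
    zero_smul, smul_zero, one_mul, mul_one, one_mul, add_zero, add_smul]
  abel

theorem TV_zero (u φ : Fin m → k) (h : φ ⬝ᵥ u = 0) : TV u φ h 0 = 1 := by
  apply Subtype.ext
  rw [TV_coe, zero_smul, add_zero]; rfl

theorem TV_inv (u φ : Fin m → k) (h : φ ⬝ᵥ u = 0) (a : k) : (TV u φ h a)⁻¹ = TV u φ h (-a) := by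
  rw [inv_eq_iff_mul_eq_one, TV_mul, add_neg_cancel, TV_zero]

theorem vne {u φ : Fin m → k} (hu : u ≠ 0) (hφ : φ ≠ 0) : vecMulVec u φ ≠ 0 := by
  intro h
  obtain ⟨i, hi⟩ := Function.ne_iff.1 hu
  obtain ⟨j, hj⟩ := Function.ne_iff.1 hφ
  have := congrFun (congrFun h i) j
  rw [vecMulVec_apply] at this
  exact (mul_ne_zero hi hj) this

theorem TV_ne {u φ : Fin m → k} (h : φ ⬝ᵥ u = 0) (hu : u ≠ 0) (hφ : φ ≠ 0) {c : k} (hc : c ≠ 0) : TV u φ h c ≠ 1 := by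
  intro h1
  have h2 := congrArg (fun g : Matrix.SpecialLinearGroup (Fin m) k => (g : Matrix (Fin m) (Fin m) k)) h1
  simp only [TV_coe, Matrix.SpecialLinearGroup.coe_one] at h2
  rcases smul_eq_zero.1 (add_eq_left.1 h2) with h3 | h3
  · exact hc h3
  · exact vne hu hφ h3

theorem conj_dot (g : Matrix.SpecialLinearGroup (Fin m) k) {u φ : Fin m → k} (h : φ ⬝ᵥ u = 0) :
    (φ ᵥ* ((g⁻¹ : Matrix.SpecialLinearGroup (Fin m) k) : Matrix (Fin m) (Fin m) k)) ⬝ᵥ ((g : Matrix (Fin m) (Fin m) k) *ᵥ u) = 0 := by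
  rw [← dotProduct_mulVec, mulVec_mulVec, ← Matrix.SpecialLinearGroup.coe_mul, inv_mul_cancel,
    Matrix.SpecialLinearGroup.coe_one, one_mulVec, h]

theorem TV_conj (g : Matrix.SpecialLinearGroup (Fin m) k) (u φ : Fin m → k) (h : φ ⬝ᵥ u = 0) (c : k) :
    g * TV u φ h c * g⁻¹ = TV ((g : Matrix (Fin m) (Fin m) k) *ᵥ u)
      (φ ᵥ* ((g⁻¹ : Matrix.SpecialLinearGroup (Fin m) k) : Matrix (Fin m) (Fin m) k)) (conj_dot g h) c := by
  apply Subtype.ext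
  rw [Matrix.SpecialLinearGroup.coe_mul, Matrix.SpecialLinearGroup.coe_mul, TV_coe, TV_coe, mul_add, mul_one, add_mul,
    ← Matrix.SpecialLinearGroup.coe_mul, mul_inv_cancel, Matrix.SpecialLinearGroup.coe_one, mul_smul_comm, smul_mul_assoc,
    Matrix.mul_vecMulVec, Matrix.vecMulVec_mul]

/-- the transvection group of an incident pair -/
def TT (u φ : Fin m → k) (h : φ ⬝ᵥ u = 0) : Subgroup (Matrix.SpecialLinearGroup (Fin m) k) where
  carrier := {g | ∃ c : k, g = TV u φ h c}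
  mul_mem' := by
    rintro _ _ ⟨a, rfl⟩ ⟨b, rfl⟩
    exact ⟨a + b, TV_mul u φ h a b⟩
  one_mem' := ⟨0, (TV_zero u φ h).symm⟩
  inv_mem' := by
    rintro _ ⟨a, rfl⟩
    exact ⟨-a, TV_inv u φ h a⟩

theorem mem_TT {u φ : Fin m → k} {h : φ ⬝ᵥ u = 0} {g : Matrix.SpecialLinearGroup (Fin m) k} :
    g ∈ TT u φ h ↔ ∃ c : k, g = TV u φ h c := Iff.rfl

theorem TT_conj (g : Matrix.SpecialLinearGroup (Fin m) k) (u φ : Fin m → k) (h : φ ⬝ᵥ u = 0) :
    Cfsg.conjBy (TT u φ h) g = TT ((g : Matrix (Fin m) (Fin m) k) *ᵥ u)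
      (φ ᵥ* ((g⁻¹ : Matrix.SpecialLinearGroup (Fin m) k) : Matrix (Fin m) (Fin m) k)) (conj_dot g h) := by
  ext x
  rw [mem_TT]
  constructor
  · rintro ⟨_, ⟨c, rfl⟩, rfl⟩
    exact ⟨c, TV_conj g u φ h c⟩
  · rintro ⟨c, rfl⟩
    exact ⟨TV u φ h c, ⟨c, rfl⟩, TV_conj g u φ h c⟩

theorem TT_congr {u φ u' φ' : Fin m → k} (h : φ ⬝ᵥ u = 0) (h' : φ' ⬝ᵥ u' = 0) {a b : k} (ha : a ≠ 0) (hb : b ≠ 0)
    (hu : u' = a • u) (hφ : φ' = b • φ) : TT u' φ' h' = TT u φ h := by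
  subst hu hφ
  have key : ∀ c, TV (a • u) (b • φ) h' c = TV u φ h (c * a * b) := by
    intro c
    apply Subtype.ext
    rw [TV_coe, TV_coe, smul_vecMulVec, vecMulVec_smul, smul_smul, smul_smul]
  ext g
  rw [mem_TT, mem_TT]
  constructor
  · rintro ⟨c, rfl⟩
    exact ⟨_, key c⟩
  · rintro ⟨c, rfl⟩
    refine ⟨c * a⁻¹ * b⁻¹, ?_⟩
    rw [key]
    congr 1
    field_simp

theorem TT_eq_imp {u φ u' φ' : Fin m → k} {h : φ ⬝ᵥ u = 0} {h' : φ' ⬝ᵥ u' = 0} (hφ : φ ≠ 0)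
    (he : TT u φ h = TT u' φ' h') : ∃ c : k, u = c • u' := by
  obtain ⟨c, hc⟩ : TV u φ h 1 ∈ TT u' φ' h' := by rw [← he]; exact ⟨1, rfl⟩
  have h1 := congrArg (fun g : Matrix.SpecialLinearGroup (Fin m) k => (g : Matrix (Fin m) (Fin m) k)) hc
  simp only [TV_coe, one_smul] at h1
  have h2 := add_left_cancel h1
  obtain ⟨j, hj⟩ := Function.ne_iff.1 hφ
  refine ⟨c * φ' j / φ j, ?_⟩
  funext i
  have h3 := congrFun (congrFun h2 i) j
  rw [vecMulVec_apply, Matrix.smul_apply, vecMulVec_apply, smul_eq_mul] at h3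
  rw [Pi.smul_apply, smul_eq_mul]
  have hj' : φ j ≠ 0 := hj
  field_simp
  linear_combination h3

theorem TV_comm {u φ w ψ : Fin m → k} (h : φ ⬝ᵥ u = 0) (h' : ψ ⬝ᵥ w = 0) (h1 : φ ⬝ᵥ w = 0) (h2 : ψ ⬝ᵥ u = 0) (a b : k) :
    TV u φ h a * TV w ψ h' b = TV w ψ h' b * TV u φ h a := by
  apply Subtype.ext
  rw [Matrix.SpecialLinearGroup.coe_mul, Matrix.SpecialLinearGroup.coe_mul, TV_coe, TV_coe, add_mul, mul_add, mul_add,
    add_mul, mul_add, mul_add, smul_mul_smul_comm, smul_mul_smul_comm, vmul, vmul, h1, h2, zero_smul, zero_smul,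
    smul_zero, smul_zero]
  simp only [mul_one, one_mul, add_zero]
  abel

theorem TV_commutator (u φ w ψ : Fin m → k) (h : φ ⬝ᵥ u = 0) (h' : ψ ⬝ᵥ w = 0) (h2 : ψ ⬝ᵥ u = 0) (a b : k) :
    ⁅TV u φ h a, TV w ψ h' b⁆ = TV u ψ h2 (a * b * (φ ⬝ᵥ w)) := by
  rw [commutatorElement_def, TV_conj, TV_inv w]
  apply Subtype.ext
  have key : ((TV ((TV u φ h a : Matrix (Fin m) (Fin m) k) *ᵥ w)
      (ψ ᵥ* (((TV u φ h a)⁻¹ : Matrix.SpecialLinearGroup (Fin m) k) : Matrix (Fin m) (Fin m) k))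
      (conj_dot (TV u φ h a) h') b : Matrix.SpecialLinearGroup (Fin m) k) : Matrix (Fin m) (Fin m) k) =
      1 + b • vecMulVec ((TV u φ h a : Matrix (Fin m) (Fin m) k) *ᵥ w)
        (ψ ᵥ* (((TV u φ h a)⁻¹ : Matrix.SpecialLinearGroup (Fin m) k) : Matrix (Fin m) (Fin m) k)) := TV_coe _ _ _ _
  rw [Matrix.SpecialLinearGroup.coe_mul, key, TV_mulVec, TV_inv u, TV_vecMul, TV_coe, TV_coe, h2, mul_zero, zero_smul,
    add_zero, add_vecMulVec, smul_vecMulVec]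
  simp only [add_mul, mul_add, smul_mul_assoc, mul_smul_comm, vmul, h', h2, zero_smul, smul_zero, mul_one, one_mul,
    add_zero]
  module

theorem TV_commutator' (u φ w ψ : Fin m → k) (h : φ ⬝ᵥ u = 0) (h' : ψ ⬝ᵥ w = 0) (h1 : φ ⬝ᵥ w = 0) (a b : k) :
    ⁅TV u φ h a, TV w ψ h' b⁆ = TV w φ h1 (a * b * (-(ψ ⬝ᵥ u))) := by
  have h3 := TV_commutator w ψ u φ h' h h1 b a
  have h4 : ⁅TV u φ h a, TV w ψ h' b⁆ = (⁅TV w ψ h' b, TV u φ h a⁆)⁻¹ := (commutatorElement_inv _ _).symm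
  rw [h4, h3, TV_inv]
  congr 1
  ring

theorem nil_TT (u φ : Fin m → k) (h : φ ⬝ᵥ u = 0) : Group.IsNilpotent (TT u φ h) := by
  letI : CommGroup (TT u φ h) := { (inferInstance : Group (TT u φ h)) with
    mul_comm := by
      rintro ⟨_, a, rfl⟩ ⟨_, b, rfl⟩
      apply Subtype.ext
      show TV u φ h a * TV u φ h b = TV u φ h b * TV u φ h a
      rw [TV_mul, TV_mul, add_comm] }
  exact CommGroup.isNilpotent

theorem rank_cond {u φ w ψ : Fin m → k} (h : φ ⬝ᵥ u = 0) (h' : ψ ⬝ᵥ w = 0) (hd : φ ⬝ᵥ w ≠ 0) (he : ψ ⬝ᵥ u ≠ 0) :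
    Cfsg.RankOneCondition (TT u φ h) (TT w ψ h') := by
  have hw : w ≠ 0 := by rintro rfl; exact hd (dotProduct_zero _)
  have hψ : ψ ≠ 0 := by rintro rfl; exact he (zero_dotProduct _)
  rintro _ ⟨c, rfl⟩ hc1
  have hc : c ≠ 0 := by rintro rfl; exact hc1 (TV_zero _ _ _)
  set d := φ ⬝ᵥ w with hd'
  set e := ψ ⬝ᵥ u with he'
  refine ⟨TV w ψ h' (c * d * e)⁻¹, ⟨_, rfl⟩, TV_ne h' hw hψ (inv_ne_zero (mul_ne_zero (mul_ne_zero hc hd) he)), ?_⟩
  rw [TT_conj, TT_conj]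
  apply (TT_congr _ _ (a := -(c * d)) (b := c * e) (neg_ne_zero.2 (mul_ne_zero hc hd)) (mul_ne_zero hc he) ?_ ?_).symm
  · rw [TV_inv, TV_inv, TV_mulVec, TV_mulVec, ← hd', ← he', smul_add, smul_smul]
    have : -(c * d) * (-(c * d * e)⁻¹ * e) = 1 := by field_simp
    rw [this, one_smul, add_comm]
    congr 2
    ring
  · rw [inv_inv, inv_inv, TV_vecMul, TV_vecMul, ← hd', ← he', smul_add, smul_smul]
    have : c * e * ((c * d * e)⁻¹ * d) = 1 := by field_simp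
    rw [this, one_smul, add_comm]

theorem rank_pair {u φ w ψ : Fin m → k} (h : φ ⬝ᵥ u = 0) (h' : ψ ⬝ᵥ w = 0) (hd : φ ⬝ᵥ w ≠ 0) (he : ψ ⬝ᵥ u ≠ 0) :
    Cfsg.IsRankOnePair (TT u φ h) (TT w ψ h') := by
  refine ⟨?_, nil_TT _ _ _, nil_TT _ _ _, rank_cond h h' hd he, rank_cond h' h he hd⟩
  intro heq
  have hφ : φ ≠ 0 := by rintro rfl; exact hd (zero_dotProduct _)
  obtain ⟨c, hc⟩ := TT_eq_imp hφ heq
  apply he
  rw [hc, dotProduct_smul, h', smul_zero]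

/-- the embedded `SL₂` -/
theorem exists_phi {u φ w ψ : Fin m → k} (h : φ ⬝ᵥ u = 0) (h' : ψ ⬝ᵥ w = 0) (hd : φ ⬝ᵥ w ≠ 0) (he : ψ ⬝ᵥ u ≠ 0) :
    Cfsg.IsPSL2PairOver k (TT u φ h) (TT w ψ h') := by
  classical
  set d := φ ⬝ᵥ w with hd'
  set e := ψ ⬝ᵥ u with he'
  set P : Matrix (Fin m) (Fin 2) k := Matrix.of (fun i j => if j = 0 then u i else w i) with hP
  set R : Matrix (Fin 2) (Fin m) k := Matrix.of (fun i j => if i = 0 then e⁻¹ * ψ j else d⁻¹ * φ j) with hR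
  have hRP : R * P = 1 := by
    ext i j
    have hsum : ∀ (f g : Fin m → k) (a : k), ∑ x, a * f x * g x = a * (f ⬝ᵥ g) := by
      intro f g a
      rw [dotProduct, Finset.mul_sum]
      exact Finset.sum_congr rfl (fun x _ => mul_assoc _ _ _)
    fin_cases i <;> fin_cases j
    · simp only [Matrix.mul_apply, hR, hP, Matrix.of_apply]
      show ∑ x, e⁻¹ * ψ x * u x = 1
      rw [hsum, ← he', inv_mul_cancel₀ he]
    · simp only [Matrix.mul_apply, hR, hP, Matrix.of_apply]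
      show ∑ x, e⁻¹ * ψ x * w x = 0
      rw [hsum, h', mul_zero]
    · simp only [Matrix.mul_apply, hR, hP, Matrix.of_apply]
      show ∑ x, d⁻¹ * φ x * u x = 0
      rw [hsum, h, mul_zero]
    · simp only [Matrix.mul_apply, hR, hP, Matrix.of_apply]
      show ∑ x, d⁻¹ * φ x * w x = 1
      rw [hsum, ← hd', inv_mul_cancel₀ hd]
  have hdet : ∀ g : Matrix.SpecialLinearGroup (Fin 2) k, (1 + P * ((g : Matrix (Fin 2) (Fin 2) k) - 1) * R).det = 1 := by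
    intro g
    rw [Matrix.mul_assoc, Matrix.det_one_add_mul_comm, Matrix.mul_assoc, hRP, mul_one, add_sub_cancel]
    exact g.2
  let θ : Matrix.SpecialLinearGroup (Fin 2) k →* Matrix.SpecialLinearGroup (Fin m) k :=
    { toFun := fun g => ⟨1 + P * ((g : Matrix (Fin 2) (Fin 2) k) - 1) * R, hdet g⟩
      map_one' := by
        apply Subtype.ext
        show 1 + P * (((1 : Matrix.SpecialLinearGroup (Fin 2) k) : Matrix (Fin 2) (Fin 2) k) - 1) * R = 1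
        rw [Matrix.SpecialLinearGroup.coe_one, sub_self, Matrix.mul_zero, Matrix.zero_mul, add_zero]
      map_mul' := by
        intro g g'
        apply Subtype.ext
        show 1 + P * (((g * g' : Matrix.SpecialLinearGroup (Fin 2) k) : Matrix (Fin 2) (Fin 2) k) - 1) * R =
          (1 + P * ((g : Matrix (Fin 2) (Fin 2) k) - 1) * R) * (1 + P * ((g' : Matrix (Fin 2) (Fin 2) k) - 1) * R)
        rw [Matrix.SpecialLinearGroup.coe_mul]
        have e1 : P * ((g : Matrix (Fin 2) (Fin 2) k) - 1) * R * (P * ((g' : Matrix (Fin 2) (Fin 2) k) - 1) * R) =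
            P * (((g : Matrix (Fin 2) (Fin 2) k) - 1) * ((g' : Matrix (Fin 2) (Fin 2) k) - 1)) * R := by
          calc _ = P * ((g : Matrix (Fin 2) (Fin 2) k) - 1) * (R * P) * ((g' : Matrix (Fin 2) (Fin 2) k) - 1) * R := by
                simp only [Matrix.mul_assoc]
            _ = _ := by rw [hRP, Matrix.mul_one]; simp only [Matrix.mul_assoc]
        rw [add_mul, one_mul, mul_add, mul_one, e1]
        have e2 : (g : Matrix (Fin 2) (Fin 2) k) * g' - 1 = ((g : Matrix (Fin 2) (Fin 2) k) - 1) + ((g' : Matrix (Fin 2) (Fin 2) k) - 1) +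
            ((g : Matrix (Fin 2) (Fin 2) k) - 1) * ((g' : Matrix (Fin 2) (Fin 2) k) - 1) := by noncomm_ring
        rw [e2, Matrix.mul_add, Matrix.mul_add, Matrix.add_mul, Matrix.add_mul]
        abel }
  have hθ : ∀ g, ((θ g : Matrix.SpecialLinearGroup (Fin m) k) : Matrix (Fin m) (Fin m) k) =
      1 + P * ((g : Matrix (Fin 2) (Fin 2) k) - 1) * R := fun g => rfl
  have hup : ∀ g : Matrix.SpecialLinearGroup (Fin 2) k, (g : Matrix (Fin 2) (Fin 2) k) 1 0 = 0 → (g : Matrix (Fin 2) (Fin 2) k) 0 0 = 1 →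
      (g : Matrix (Fin 2) (Fin 2) k) 1 1 = 1 → θ g = TV u φ h ((g : Matrix (Fin 2) (Fin 2) k) 0 1 * d⁻¹) := by
    intro g h1 h2 h3
    apply Subtype.ext
    rw [hθ, TV_coe]
    congr 1
    ext i j
    rw [Matrix.mul_apply, Fin.sum_univ_two, Matrix.mul_apply, Matrix.mul_apply, Fin.sum_univ_two, Fin.sum_univ_two]
    simp only [Matrix.sub_apply, Matrix.smul_apply, vecMulVec_apply, hP, hR, Matrix.of_apply]
    simp [h1, h2, h3]
    ring
  have hlow : ∀ g : Matrix.SpecialLinearGroup (Fin 2) k, (g : Matrix (Fin 2) (Fin 2) k) 0 1 = 0 → (g : Matrix (Fin 2) (Fin 2) k) 0 0 = 1 →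
      (g : Matrix (Fin 2) (Fin 2) k) 1 1 = 1 → θ g = TV w ψ h' ((g : Matrix (Fin 2) (Fin 2) k) 1 0 * e⁻¹) := by
    intro g h1 h2 h3
    apply Subtype.ext
    rw [hθ, TV_coe]
    congr 1
    ext i j
    rw [Matrix.mul_apply, Fin.sum_univ_two, Matrix.mul_apply, Matrix.mul_apply, Fin.sum_univ_two, Fin.sum_univ_two]
    simp only [Matrix.sub_apply, Matrix.smul_apply, vecMulVec_apply, hP, hR, Matrix.of_apply]
    simp [h1, h2, h3]
    ring
  have mapU : (Cfsg.upperUnipotentSL2 k).map θ = TT u φ h := by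
    rw [Cfsg.upperUnipotentSL2, MonoidHom.map_closure]
    apply le_antisymm
    · rw [Subgroup.closure_le]
      rintro _ ⟨g, ⟨h1, h2, h3⟩, rfl⟩
      exact ⟨_, hup g h1 h2 h3⟩
    · rintro _ ⟨c, rfl⟩
      apply Subgroup.subset_closure
      obtain ⟨g, hg⟩ : ∃ g : Matrix.SpecialLinearGroup (Fin 2) k, (g : Matrix (Fin 2) (Fin 2) k) = !![1, c * d; 0, 1] :=
        ⟨⟨!![1, c * d; 0, 1], by simp [Matrix.det_fin_two]⟩, rfl⟩
      refine ⟨g, ⟨by rw [hg]; rfl, by rw [hg]; rfl, by rw [hg]; rfl⟩, ?_⟩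
      rw [hup g (by rw [hg]; rfl) (by rw [hg]; rfl) (by rw [hg]; rfl), hg]
      congr 1
      show c * d * d⁻¹ = c
      field_simp
  have mapL : (Cfsg.lowerUnipotentSL2 k).map θ = TT w ψ h' := by
    rw [Cfsg.lowerUnipotentSL2, MonoidHom.map_closure]
    apply le_antisymm
    · rw [Subgroup.closure_le]
      rintro _ ⟨g, ⟨h1, h2, h3⟩, rfl⟩
      exact ⟨_, hlow g h1 h2 h3⟩
    · rintro _ ⟨c, rfl⟩
      apply Subgroup.subset_closure
      obtain ⟨g, hg⟩ : ∃ g : Matrix.SpecialLinearGroup (Fin 2) k, (g : Matrix (Fin 2) (Fin 2) k) = !![1, 0; c * e, 1] :=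
        ⟨⟨!![1, 0; c * e, 1], by simp [Matrix.det_fin_two]⟩, rfl⟩
      refine ⟨g, ⟨by rw [hg]; rfl, by rw [hg]; rfl, by rw [hg]; rfl⟩, ?_⟩
      rw [hlow g (by rw [hg]; rfl) (by rw [hg]; rfl) (by rw [hg]; rfl), hg]
      congr 1
      show c * e * e⁻¹ = c
      field_simp
  have htop : Cfsg.upperUnipotentSL2 k ⊔ Cfsg.lowerUnipotentSL2 k = ⊤ := by
    rw [eq_top_iff, ← Cfsg.Agent.H5.SL.closure_transvections, Subgroup.closure_le]
    rintro _ ⟨i, j, hij, a, rfl⟩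
    have hc : ((Matrix.SpecialLinearGroup.transvection hij a : Matrix.SpecialLinearGroup (Fin 2) k) : Matrix (Fin 2) (Fin 2) k) =
        Matrix.transvection i j a := rfl
    fin_cases i <;> fin_cases j
    · exact absurd rfl hij
    · apply Subgroup.mem_sup_left
      apply Subgroup.subset_closure
      refine ⟨?_, ?_, ?_⟩ <;> rw [hc] <;> simp [Matrix.transvection]
    · apply Subgroup.mem_sup_right
      apply Subgroup.subset_closure
      refine ⟨?_, ?_, ?_⟩ <;> rw [hc] <;> simp [Matrix.transvection]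
    · exact absurd rfl hij
  refine ⟨θ, ?_, ?_, mapU, mapL⟩
  · rw [← mapU, ← mapL, ← Subgroup.map_sup, htop, MonoidHom.range_eq_map]
  · have : θ.ker = ⊥ := by
      rw [eq_bot_iff]
      intro g hg
      rw [MonoidHom.mem_ker] at hg
      have h1 := hθ g
      rw [hg, Matrix.SpecialLinearGroup.coe_one] at h1
      have h2 := left_eq_add.1 h1
      have h3 : R * (P * ((g : Matrix (Fin 2) (Fin 2) k) - 1) * R) * P = (g : Matrix (Fin 2) (Fin 2) k) - 1 := by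
        calc _ = (R * P) * ((g : Matrix (Fin 2) (Fin 2) k) - 1) * (R * P) := by simp only [Matrix.mul_assoc]
          _ = _ := by rw [hRP, Matrix.one_mul, Matrix.mul_one]
      rw [h2, Matrix.mul_zero, Matrix.zero_mul] at h3
      rw [Subgroup.mem_bot]
      apply Subtype.ext
      rw [Matrix.SpecialLinearGroup.coe_one]
      exact (sub_eq_zero.1 h3.symm)
    rw [this]; exact bot_le

theorem root_case (S : Set (Subgroup (Matrix.SpecialLinearGroup (Fin m) k))) {u φ w ψ r ρ : Fin m → k} (h : φ ⬝ᵥ u = 0)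
    (h' : ψ ⬝ᵥ w = 0) (h'' : ρ ⬝ᵥ r = 0) {κ : k} (hκ : κ ≠ 0)
    (hcom : ∀ a b, ⁅TV u φ h a, TV w ψ h' b⁆ = TV r ρ h'' (a * b * κ)) (hmem : TT r ρ h'' ∈ S)
    (hc1 : ∀ a c, TV r ρ h'' c * TV u φ h a = TV u φ h a * TV r ρ h'' c)
    (hc2 : ∀ a c, TV r ρ h'' c * TV w ψ h' a = TV w ψ h' a * TV r ρ h'' c) :
    Cfsg.RootCommutatorCase S (TT u φ h) (TT w ψ h') := by
  have hC : ⁅TT u φ h, TT w ψ h'⁆ = TT r ρ h'' := by
    apply le_antisymm
    · rw [Subgroup.commutator_le]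
      rintro _ ⟨a, rfl⟩ _ ⟨b, rfl⟩
      exact ⟨_, hcom a b⟩
    · rintro _ ⟨c, rfl⟩
      have h1 := hcom 1 (c * κ⁻¹)
      rw [one_mul, inv_mul_cancel_right₀ hκ] at h1
      rw [← h1]
      exact Subgroup.commutator_mem_commutator (mem_TT.2 ⟨1, rfl⟩) (mem_TT.2 ⟨_, rfl⟩)
  refine ⟨by rw [hC]; exact hmem, ?_, ?_, ?_⟩
  · rw [hC]
    rintro _ ⟨c, rfl⟩ x hx
    have h1 : TT u φ h ⊔ TT w ψ h' ≤ Subgroup.centralizer {TV r ρ h'' c} := by
      apply sup_le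
      · rintro _ ⟨a, rfl⟩
        rw [Subgroup.mem_centralizer_singleton_iff]
        exact (hc1 a c).symm
      · rintro _ ⟨a, rfl⟩
        rw [Subgroup.mem_centralizer_singleton_iff]
        exact (hc2 a c).symm
    have h2 := h1 hx
    rw [Subgroup.mem_centralizer_singleton_iff] at h2
    exact h2.symm
  · rintro _ ⟨a, rfl⟩ ha
    have ha0 : a ≠ 0 := by rintro rfl; exact ha (TV_zero _ _ _)
    rw [hC]
    apply le_antisymm
    · rw [Subgroup.closure_le]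
      rintro _ ⟨_, ⟨b, rfl⟩, rfl⟩
      exact ⟨_, hcom a b⟩
    · rintro _ ⟨c, rfl⟩
      apply Subgroup.subset_closure
      refine ⟨TV w ψ h' (c * a⁻¹ * κ⁻¹), ⟨_, rfl⟩, ?_⟩
      refine (hcom a (c * a⁻¹ * κ⁻¹)).trans ?_
      congr 1
      field_simp
  · rintro _ ⟨b, rfl⟩ hb
    have hb0 : b ≠ 0 := by rintro rfl; exact hb (TV_zero _ _ _)
    rw [hC]
    apply le_antisymm
    · rw [Subgroup.closure_le]
      rintro _ ⟨_, ⟨a, rfl⟩, rfl⟩
      exact ⟨_, hcom a b⟩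
    · rintro _ ⟨c, rfl⟩
      apply Subgroup.subset_closure
      refine ⟨TV u φ h (c * b⁻¹ * κ⁻¹), ⟨_, rfl⟩, ?_⟩
      refine (hcom (c * b⁻¹ * κ⁻¹) b).trans ?_
      congr 1
      field_simp

end TV

end Cfsg.Agent.H5.Tv
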