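import Mathlib
import Cfsg.Agent.H5_Concrete
import Cfsg.Agent.H5_Exc4

set_option autoImplicit false
set_option linter.unusedSectionVars false

/-! The normaliser of the diagonal torus of `Sp_{2m}(q)`. -/

namespace Cfsg.Agent.H5.WeylC

open Matrix Conc

variable {F : Type*} [Field F] {m : ℕ}

local notation "I" => (Fin m ⊕ Fin m)
local notation "V" => (Fin m ⊕ Fin m → F)
local notation "Sp" => Matrix.symplecticGroup (Fin m) F

/-- the matrix -/
abbrev mm (g : Sp) : Matrix (Fin m ⊕ Fin m) (Fin m ⊕ Fin m) F := (g : Matrix (Fin m ⊕ Fin m) (Fin m ⊕ Fin m) F)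

/-- basis vectors -/
abbrev ee (i : I) : V := Pi.single i 1

theorem mm_mul (g h : Sp) (v : V) : mm (g * h) *ᵥ v = mm g *ᵥ (mm h *ᵥ v) := by
  rw [Matrix.mulVec_mulVec]; rfl

theorem mm_one (v : V) : mm (1 : Sp) *ᵥ v = v := Matrix.one_mulVec v

theorem mm_inv (g : Sp) (v : V) : mm g⁻¹ *ᵥ (mm g *ᵥ v) = v := by
  rw [← mm_mul, inv_mul_cancel, mm_one]

theorem mm_inv' (g : Sp) (v : V) : mm g *ᵥ (mm g⁻¹ *ᵥ v) = v := by
  rw [← mm_mul, mul_inv_cancel, mm_one]

theorem mm_form (g : Sp) (u v : V) : Cfsg.sympForm m F (mm g *ᵥ u) (mm g *ᵥ v) = Cfsg.sympForm m F u v :=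
  (mem_symplecticGroup_iff g.1).mp g.2 u v

theorem mm_ext {g h : Sp} (H : ∀ i, mm g *ᵥ ee i = mm h *ᵥ ee i) : g = h := by
  apply Subtype.ext
  ext i j
  have := congrFun (H j) i
  rw [Matrix.mulVec_single_one, Matrix.mulVec_single_one] at this
  exact this

/-- the torus -/
def T (m : ℕ) (F : Type*) [Field F] : Subgroup (Matrix.symplecticGroup (Fin m) F) :=
  ⨅ i : Fin m ⊕ Fin m, Cfsg.stabilizing (Cfsg.spToMat m F) ((Submodule.span F {(Pi.single i (1 : F) : Fin m ⊕ Fin m → F)} : Submodule F (Fin m ⊕ Fin m → F)) : Set (Fin m ⊕ Fin m → F))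

theorem ee_same (i : I) : (ee i : V) i = 1 := Pi.single_eq_same i 1

theorem ee_of_ne {i j : I} (h : j ≠ i) : (ee i : V) j = 0 := Pi.single_eq_of_ne h 1

theorem ee_ne (i : I) : (ee i : V) ≠ 0 := by
  intro h
  have := congrFun h i
  simp at this

theorem mm_ne (g : Sp) {v : V} (hv : v ≠ 0) : mm g *ᵥ v ≠ 0 := by
  intro h
  apply hv
  rw [← mm_inv g v, h, Matrix.mulVec_zero]

theorem mem_T {g : Sp} : g ∈ T m F ↔ ∀ i, ∃ c : F, mm g *ᵥ ee i = c • ee i := by
  rw [T, Subgroup.mem_iInf]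
  constructor
  · intro h i
    have h1 : mm g *ᵥ ee i ∈ Submodule.span F {(ee i : V)} := (h i (ee i)).1 (Submodule.mem_span_singleton_self _)
    obtain ⟨c, hc⟩ := Submodule.mem_span_singleton.1 h1
    exact ⟨c, hc.symm⟩
  · intro h i v
    show v ∈ Submodule.span F {(ee i : V)} ↔ mm g *ᵥ v ∈ Submodule.span F {(ee i : V)}
    obtain ⟨c, hc⟩ := h i
    have hc0 : c ≠ 0 := by
      rintro rfl
      rw [zero_smul] at hc
      exact mm_ne g (ee_ne i) hc
    constructor
    · intro hv
      obtain ⟨a, rfl⟩ := Submodule.mem_span_singleton.1 hv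
      rw [Matrix.mulVec_smul, hc, smul_smul]
      exact Submodule.smul_mem _ _ (Submodule.mem_span_singleton_self _)
    · intro hv
      obtain ⟨a, ha⟩ := Submodule.mem_span_singleton.1 hv
      have : v = (a / c) • ee i := by
        rw [← mm_inv g v, ← ha, Matrix.mulVec_smul]
        have h2 : mm g⁻¹ *ᵥ (ee i) = c⁻¹ • ee i := by
          have h3 : ee i = c⁻¹ • (mm g *ᵥ ee i) := by rw [hc, smul_smul, inv_mul_cancel₀ hc0, one_smul]
          conv_lhs => rw [h3, Matrix.mulVec_smul, mm_inv]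
        rw [h2, smul_smul, div_eq_mul_inv]
      rw [this]
      exact Submodule.smul_mem _ _ (Submodule.mem_span_singleton_self _)

/-- the swap -/
def sw (m : ℕ) : Equiv.Perm (Fin m ⊕ Fin m) := Equiv.sumComm (Fin m) (Fin m)

/-- signs -/
def sgn (F : Type*) [Field F] (m : ℕ) : Fin m ⊕ Fin m → F := Sum.elim (fun _ => -1) (fun _ => 1)

theorem sgn_sq (i : I) : sgn F m i * sgn F m i = 1 := by rcases i with i | i <;> simp [sgn]

theorem sgn_sw (i : I) : sgn F m (sw m i) = - sgn F m i := by rcases i with i | i <;> simp [sgn, sw]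

theorem sgn_ne (i : I) : sgn F m i ≠ 0 := fun h => by have := sgn_sq (F := F) i; rw [h, zero_mul] at this; exact zero_ne_one this

theorem form_eq (u v : V) : Cfsg.sympForm m F u v = ∑ i, sgn F m i * (u i * v (sw m i)) := by
  rw [sympForm_eq, Fintype.sum_sum_type, ← Finset.sum_add_distrib]
  apply Finset.sum_congr rfl
  intro i _
  simp [sgn, sw]
  ring

theorem form_ee (i : I) (v : V) : Cfsg.sympForm m F (ee i) v = sgn F m i * v (sw m i) := by
  rw [form_eq, Finset.sum_eq_single i]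
  · rw [ee_same, one_mul]
  · intro j _ hj
    rw [ee_of_ne hj, zero_mul, mul_zero]
  · intro h; exact absurd (Finset.mem_univ _) h

/-- monomial action -/
def Mono (g : Sp) (π : I → I) : Prop := ∀ i, ∃ c : F, mm g *ᵥ ee i = c • ee (π i)

theorem Mono.ne {g : Sp} {π : I → I} {i : I} {c : F} (h : mm g *ᵥ ee i = c • ee (π i)) : c ≠ 0 := by
  rintro rfl
  rw [zero_smul] at h
  exact mm_ne g (ee_ne i) h

theorem Mono.unique {g : Sp} {π ρ : I → I} (h : Mono g π) (h' : Mono g ρ) : π = ρ := by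
  funext i
  obtain ⟨c, hc⟩ := h i
  obtain ⟨d, hd⟩ := h' i
  have hc0 := Mono.ne hc
  by_contra hne
  have := congrFun (hc.symm.trans hd) (π i)
  rw [Pi.smul_apply, Pi.smul_apply, ee_same, ee_of_ne hne] at this
  simp at this
  exact hc0 this

theorem Mono.mul {g h : Sp} {π ρ : I → I} (hg : Mono g π) (hh : Mono h ρ) : Mono (g * h) (π ∘ ρ) := by
  intro i
  obtain ⟨c, hc⟩ := hh i
  obtain ⟨d, hd⟩ := hg (ρ i)
  exact ⟨c * d, by rw [mm_mul, hc, Matrix.mulVec_smul, hd, smul_smul]; rfl⟩

theorem Mono.inj {g : Sp} {π : I → I} (h : Mono g π) : Function.Injective π := by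
  intro i j hij
  by_contra hne
  obtain ⟨c, hc⟩ := h i
  obtain ⟨d, hd⟩ := h j
  have hc0 := Mono.ne hc
  have hd0 := Mono.ne hd
  rw [← hij] at hd
  have h1 : mm g *ᵥ (d • ee i) = mm g *ᵥ (c • ee j) := by
    rw [Matrix.mulVec_smul, Matrix.mulVec_smul, hc, hd, smul_smul, smul_smul, mul_comm]
  have h2 := congrArg (fun v => mm g⁻¹ *ᵥ v) h1
  simp only [mm_inv] at h2
  have h3 := congrFun h2 i
  rw [Pi.smul_apply, Pi.smul_apply, ee_same, ee_of_ne hne] at h3
  simp at h3
  exact hd0 h3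

theorem Mono.sw {g : Sp} {π : I → I} (h : Mono g π) (i : I) : π (sw m i) = sw m (π i) := by
  obtain ⟨c, hc⟩ := h i
  obtain ⟨d, hd⟩ := h (WeylC.sw m i)
  have h1 := mm_form g (ee i) (ee (WeylC.sw m i))
  rw [hc, hd, form_ee] at h1
  have h2 : Cfsg.sympForm m F (c • ee (π i)) (d • ee (π (WeylC.sw m i))) = c * (sgn F m (π i) * (d * (ee (π (WeylC.sw m i)) : V) (WeylC.sw m (π i)))) := by
    rw [form_eq, Finset.sum_eq_single (π i)]
    · simp; ring
    · intro j _ hj
      rw [Pi.smul_apply, ee_of_ne hj]; simp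
    · intro h; exact absurd (Finset.mem_univ _) h
  rw [h2, ee_same, mul_one] at h1
  by_contra hne
  rw [ee_of_ne (Ne.symm hne)] at h1
  simp at h1
  exact sgn_ne i h1.symm

theorem mem_T_iff {g : Sp} : g ∈ T m F ↔ Mono g id := mem_T

/-- a diagonal element -/
theorem exists_diag (d : Fin m → F) (hd : ∀ i, d i ≠ 0) : ∃ t : Sp, ∀ i, mm t *ᵥ ee i = (Sum.elim d (fun i => (d i)⁻¹) i) • ee i := by
  have hmem : Matrix.diagonal (Sum.elim d (fun i => (d i)⁻¹)) ∈ Matrix.symplecticGroup (Fin m) F := by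
    rw [mem_symplecticGroup_iff]
    intro u v
    rw [form_eq, form_eq]
    apply Finset.sum_congr rfl
    intro i _
    rw [Matrix.mulVec_diagonal, Matrix.mulVec_diagonal]
    rcases i with i | i
    · have := hd i
      simp [WeylC.sw]
      field_simp
      exact Or.inl trivial
    · have := hd i
      simp [WeylC.sw]
      field_simp
      exact Or.inl trivial
  refine ⟨⟨_, hmem⟩, fun i => ?_⟩
  ext j
  show (Matrix.diagonal (Sum.elim d (fun i => (d i)⁻¹)) *ᵥ ee i) j = _
  rw [Matrix.mulVec_diagonal, Pi.smul_apply, smul_eq_mul]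
  by_cases h : j = i
  · subst h; rfl
  · rw [ee_of_ne h, mul_zero, mul_zero]

theorem exists_sep {a : F} (ha : a ≠ 0) (ha2 : a ^ 2 ≠ 1) {j k : I} (hjk : k ≠ j) :
    ∃ (t : Sp) (τ : I → F), (∀ i, mm t *ᵥ ee i = τ i • ee i) ∧ τ k ≠ τ j := by
  have ha1 : a ≠ 1 := by rintro rfl; exact ha2 (one_pow _)
  have hai : a⁻¹ ≠ 1 := fun h => ha1 (inv_eq_one.1 h)
  have haa : a⁻¹ ≠ a := fun h => ha2 (by
    rw [pow_two]; nth_rw 1 [← h]; exact inv_mul_cancel₀ ha)
  have key : ∀ j0 : Fin m, ∃ (t : Sp) (τ : I → F), (∀ i, mm t *ᵥ ee i = τ i • ee i) ∧ τ (.inl j0) = a ∧ τ (.inr j0) = a⁻¹ ∧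
      ∀ i, i ≠ .inl j0 → i ≠ .inr j0 → τ i = 1 := by
    intro j0
    obtain ⟨t, ht⟩ := exists_diag (F := F) (Function.update (fun _ => (1 : F)) j0 a) (fun i => by
      by_cases h : i = j0
      · subst h; simpa using ha
      · simp [h])
    refine ⟨t, _, ht, by simp, by simp, ?_⟩
    rintro (i | i) h1 h2
    · have : i ≠ j0 := fun h => h1 (by rw [h])
      simp [this]
    · have : i ≠ j0 := fun h => h2 (by rw [h])
      simp [this]
  rcases j with j | j
  · obtain ⟨t, τ, h1, h2, h3, h4⟩ := key j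
    refine ⟨t, τ, h1, ?_⟩
    rw [h2]
    by_cases hk : k = .inr j
    · rw [hk, h3]; exact haa
    · rw [h4 k hjk hk]; exact ha1.symm
  · obtain ⟨t, τ, h1, h2, h3, h4⟩ := key j
    refine ⟨t, τ, h1, ?_⟩
    rw [h3]
    by_cases hk : k = .inl j
    · rw [hk, h2]; exact haa.symm
    · rw [h4 k hk hjk]; exact hai.symm

theorem exists_mono (hF : ∃ a : F, a ≠ 0 ∧ a ^ 2 ≠ 1) {g : Sp} (hg : g ∈ Subgroup.normalizer (T m F : Set Sp)) : ∃ π : I → I, Mono g π := by
  obtain ⟨a, ha, ha2⟩ := hF
  have key : ∀ i, ∃ j, ∃ c : F, mm g *ᵥ ee i = c • ee j := by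
    intro i
    obtain ⟨j, hj⟩ : ∃ j, (mm g *ᵥ ee i) j ≠ 0 := by
      by_contra hcon
      push Not at hcon
      exact mm_ne g (ee_ne i) (funext hcon)
    refine ⟨j, (mm g *ᵥ ee i) j, ?_⟩
    ext k
    by_cases hk : k = j
    · subst hk; simp
    · rw [Pi.smul_apply, ee_of_ne hk, smul_zero]
      obtain ⟨t, τ, ht, hτ⟩ := exists_sep ha ha2 hk
      have htT : t ∈ T m F := mem_T.2 (fun i => ⟨τ i, ht i⟩)
      have hmem : g⁻¹ * t * g ∈ T m F := by
        have h1 := (Subgroup.mem_normalizer_iff.1 (Subgroup.inv_mem _ hg) t).1 htT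
        rwa [inv_inv] at h1
      obtain ⟨c, hc⟩ := mem_T.1 hmem i
      have h2 : mm t *ᵥ (mm g *ᵥ ee i) = c • (mm g *ᵥ ee i) := by
        rw [← Matrix.mulVec_smul, ← hc, ← mm_mul, ← mm_mul]
        congr 2
        group
      have h3 : ∀ l, (mm t *ᵥ (mm g *ᵥ ee i)) l = τ l * (mm g *ᵥ ee i) l := by
        intro l
        obtain ⟨v, hv⟩ : ∃ v, v = mm g *ᵥ ee i := ⟨_, rfl⟩
        rw [← hv]
        have hvs : v = ∑ p, v p • ee p := by
          ext r
          rw [Finset.sum_apply, Finset.sum_eq_single r]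
          · simp
          · intro s _ hs
            rw [Pi.smul_apply, ee_of_ne hs.symm, smul_zero]
          · intro h; exact absurd (Finset.mem_univ _) h
        conv_lhs => rw [hvs, Matrix.mulVec_sum]
        rw [Finset.sum_apply, Finset.sum_eq_single l]
        · rw [Matrix.mulVec_smul, ht]; simp; ring
        · intro s _ hs
          rw [Matrix.mulVec_smul, ht]
          simp [ee_of_ne hs.symm]
        · intro h; exact absurd (Finset.mem_univ _) h
      have h4 := h3 j
      have h5 := h3 k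
      rw [h2, Pi.smul_apply, smul_eq_mul] at h4 h5
      have h6 : c = τ j := mul_right_cancel₀ hj h4
      rw [h6] at h5
      by_contra hne
      exact hτ (mul_right_cancel₀ hne h5).symm
  choose π hπ using key
  exact ⟨π, hπ⟩


theorem mono_mem {g : Sp} {π : Equiv.Perm (Fin m ⊕ Fin m)} (h : Mono g π) : g ∈ Subgroup.normalizer (T m F : Set Sp) := by
  have hinv : ∀ i, ∃ c : F, mm g⁻¹ *ᵥ ee i = c • ee (π.symm i) := by
    intro i
    obtain ⟨c, hc⟩ := h (π.symm i)
    have hc0 := Mono.ne (π := π) hc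
    rw [Equiv.apply_symm_apply] at hc
    refine ⟨c⁻¹, ?_⟩
    have h3 : ee i = c⁻¹ • (mm g *ᵥ ee (π.symm i)) := by rw [hc, smul_smul, inv_mul_cancel₀ hc0, one_smul]
    conv_lhs => rw [h3, Matrix.mulVec_smul, mm_inv]
  rw [Subgroup.mem_normalizer_iff]
  intro t
  constructor
  · intro ht
    apply mem_T.2
    intro i
    obtain ⟨c, hc⟩ := hinv i
    obtain ⟨d, hd⟩ := mem_T.1 ht (π.symm i)
    obtain ⟨e, he⟩ := h (π.symm i)
    refine ⟨c * (d * e), ?_⟩
    rw [mm_mul, mm_mul, hc, Matrix.mulVec_smul, Matrix.mulVec_smul, hd, Matrix.mulVec_smul, he, Equiv.apply_symm_apply, smul_smul, smul_smul, mul_assoc]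
  · intro ht
    apply mem_T.2
    intro i
    obtain ⟨e, he⟩ := h i
    obtain ⟨d, hd⟩ := mem_T.1 ht (π i)
    obtain ⟨c, hc⟩ := hinv (π i)
    rw [Equiv.symm_apply_apply] at hc
    refine ⟨e * (d * c), ?_⟩
    have e1 : t = g⁻¹ * (g * t * g⁻¹) * g := by group
    rw [e1, mm_mul, mm_mul, he, Matrix.mulVec_smul, Matrix.mulVec_smul, hd, Matrix.mulVec_smul, hc, smul_smul, smul_smul, mul_assoc]

/-- monomial elements exist -/
theorem exists_mono_of {π : Equiv.Perm (Fin m ⊕ Fin m)} (h : ∀ i, π (sw m i) = sw m (π i)) : ∃ g : Sp, Mono g π := by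
  let s : I → F := Sum.elim (fun a => sgn F m (.inl a) * sgn F m (π (.inl a))) (fun _ => 1)
  let M : Matrix (Fin m ⊕ Fin m) (Fin m ⊕ Fin m) F := Matrix.of fun k i => if k = π i then s i else 0
  have hMu : ∀ (u : V) (i : I), (M *ᵥ u) (π i) = s i * u i := by
    intro u i
    show ∑ j, (if π i = π j then s j else 0) * u j = _
    rw [Finset.sum_eq_single i]
    · rw [if_pos rfl]
    · intro j _ hj
      rw [if_neg (fun h => hj (π.injective h).symm), zero_mul]
    · intro h; exact absurd (Finset.mem_univ _) h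
  have hs : ∀ i, sgn F m (π i) * (s i * s (sw m i)) = sgn F m i := by
    intro i
    rcases i with a | a
    · show sgn F m (π (.inl a)) * (sgn F m (.inl a) * sgn F m (π (.inl a)) * 1) = _
      linear_combination (sgn F m (.inl a)) * sgn_sq (F := F) (π (.inl a))
    · show sgn F m (π (.inr a)) * (1 * (sgn F m (.inl a) * sgn F m (π (.inl a)))) = _
      have h1 : π (.inr a) = sw m (π (.inl a)) := h (.inl a)
      rw [h1, sgn_sw]
      have h2 : sgn F m (.inr a) = - sgn F m (.inl a) := sgn_sw (F := F) (Sum.inl a)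
      rw [h2]
      linear_combination (-sgn F m (.inl a)) * sgn_sq (F := F) (π (.inl a))
  have hmem : M ∈ Matrix.symplecticGroup (Fin m) F := by
    rw [mem_symplecticGroup_iff]
    intro u v
    rw [form_eq, form_eq, ← Equiv.sum_comp π]
    apply Finset.sum_congr rfl
    intro i _
    rw [← h, hMu, hMu]
    linear_combination (u i * v (sw m i)) * hs i
  refine ⟨⟨M, hmem⟩, fun i => ⟨s i, ?_⟩⟩
  ext k
  obtain ⟨j, rfl⟩ := π.surjective k
  show (M *ᵥ ee i) (π j) = _
  rw [hMu, Pi.smul_apply, smul_eq_mul]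
  by_cases hij : j = i
  · subst hij; rw [ee_same, ee_same]
  · rw [ee_of_ne hij, ee_of_ne (fun h => hij (π.injective h)), mul_zero, mul_zero]

theorem card_T [Fintype F] {q : ℕ} (hF : Fintype.card F = q) : Nat.card (T m F) = (q - 1) ^ m := by
  classical
  have e : T m F ≃ (Fin m → Fˣ) := by
    refine Equiv.ofBijective (fun t => fun i => Units.mk0 (Classical.choose (mem_T.1 t.2 (.inl i)))
      (Mono.ne (π := id) (Classical.choose_spec (mem_T.1 t.2 (.inl i))))) ⟨?_, ?_⟩
    · intro t t' htt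
      have h1 : ∀ i, Classical.choose (mem_T.1 t.2 (.inl i)) = Classical.choose (mem_T.1 t'.2 (.inl i)) :=
        fun i => congrArg Units.val (congrFun htt i)
      apply Subtype.ext
      apply mm_ext
      intro i
      have hl : ∀ a, mm t.1 *ᵥ ee (.inl a) = mm t'.1 *ᵥ ee (.inl a) := by
        intro a
        rw [Classical.choose_spec (mem_T.1 t.2 (.inl a)), Classical.choose_spec (mem_T.1 t'.2 (.inl a)), h1]
      rcases i with a | a
      · exact hl a
      · obtain ⟨c, hc⟩ := mem_T.1 t.2 (.inr a)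
        obtain ⟨d, hd⟩ := mem_T.1 t'.2 (.inr a)
        obtain ⟨e, he⟩ := mem_T.1 t.2 (.inl a)
        have he' := he
        rw [hl a] at he'
        have he0 := Mono.ne (π := id) he
        have f1 := mm_form t.1 (ee (.inl a)) (ee (.inr a))
        have f2 := mm_form t'.1 (ee (.inl a)) (ee (.inr a))
        rw [he, hc] at f1
        rw [he', hd] at f2
        have key : ∀ x y : F, Cfsg.sympForm m F (x • ee (.inl a)) (y • ee (.inr a)) = - (x * y) := by
          intro x y
          rw [form_eq, Finset.sum_eq_single (.inl a)]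
          · simp [sgn, sw]
          · intro j _ hj
            rw [Pi.smul_apply, ee_of_ne hj]; simp
          · intro h; exact absurd (Finset.mem_univ _) h
        rw [key] at f1 f2
        have h2 : c = d := by
          apply mul_left_cancel₀ he0
          linear_combination f2 - f1
        rw [hc, hd, h2]
    · intro d
      obtain ⟨t, ht⟩ := exists_diag (F := F) (fun i => (d i : F)) (fun i => (d i).ne_zero)
      have htT : t ∈ T m F := mem_T.2 (fun i => ⟨_, ht i⟩)
      refine ⟨⟨t, htT⟩, ?_⟩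
      funext i
      apply Units.ext
      have h1 := (ht (.inl i)).symm.trans (Classical.choose_spec (mem_T.1 htT (.inl i)))
      have h2 := congrFun h1 (.inl i)
      rw [Pi.smul_apply, Pi.smul_apply, ee_same, smul_eq_mul, smul_eq_mul, mul_one, mul_one] at h2
      exact h2.symm
  rw [Nat.card_congr e, Nat.card_eq_fintype_card, Fintype.card_fun, Fintype.card_fin, Fintype.card_units, hF]

theorem card_cent : Nat.card (Subgroup.centralizer ({sw m} : Set (Equiv.Perm (Fin m ⊕ Fin m)))) = 2 ^ m * Nat.factorial m := by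
  have hct : (sw m).cycleType = Multiset.replicate m 2 := by
    rcases Nat.eq_zero_or_pos m with rfl | hm
    · have : sw 0 = 1 := Subsingleton.elim _ _
      rw [this]; simp
    · have hne : ∀ i, sw m i ≠ i := by
        rintro (i | i) h <;> simp [sw] at h
      have hord : orderOf (sw m) = 2 := by
        apply orderOf_eq_prime
        · apply Equiv.ext
          rintro (i | i) <;> simp [sw, pow_two]
        · intro h
          exact hne (.inl ⟨0, hm⟩) (by rw [h]; rfl)
      obtain ⟨n, hn⟩ := Equiv.Perm.cycleType_prime_order (σ := sw m) (by rw [hord]; norm_num)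
      rw [hord] at hn
      have h1 := Equiv.Perm.sum_cycleType (sw m)
      have hsup : (sw m).support = Finset.univ := by
        ext i; simp [hne]
      rw [hsup, hn, Finset.card_univ, Fintype.card_sum, Fintype.card_fin] at h1
      simp at h1
      rw [hn]
      congr 1
      omega
  rw [Equiv.Perm.nat_card_centralizer, hct]
  rcases Nat.eq_zero_or_pos m with rfl | hm
  · simp
  · rw [Multiset.toFinset_replicate, if_neg hm.ne', Finset.prod_singleton, Multiset.count_replicate_self, Multiset.sum_replicate,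
      Multiset.prod_replicate, Fintype.card_sum, Fintype.card_fin]
    have : m + m - m • 2 = 0 := by simp; omega
    rw [this, Nat.factorial_zero, one_mul]

theorem main [Fintype F] {q : ℕ} (hF : Fintype.card F = q) (hq : 4 ≤ q) :
    Nat.card (Subgroup.normalizer (T m F : Set Sp)) = 2 ^ m * Nat.factorial m * (q - 1) ^ m := by
  classical
  have hsq : ∃ a : F, a ≠ 0 ∧ a ^ 2 ≠ 1 := Exc.exists_sq_ne (by rw [hF]; exact hq)
  have hex : ∀ g : Subgroup.normalizer (T m F : Set Sp), ∃ π : Equiv.Perm (Fin m ⊕ Fin m), Mono g.1 π := by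
    intro g
    obtain ⟨π, hπ⟩ := exists_mono hsq g.2
    exact ⟨Equiv.ofBijective π (Finite.injective_iff_bijective.1 hπ.inj), hπ⟩
  choose Φ hΦ using hex
  have huniq : ∀ (g : Sp) (π ρ : Equiv.Perm (Fin m ⊕ Fin m)), Mono g π → Mono g ρ → π = ρ :=
    fun g π ρ h h' => Equiv.ext (fun i => congrFun (h.unique h') i)
  let f : Subgroup.normalizer (T m F : Set Sp) →* Equiv.Perm (Fin m ⊕ Fin m) := MonoidHom.mk' Φ (fun g h => by
    apply huniq (g * h).1 _ _ (hΦ _)
    exact (hΦ g).mul (hΦ h))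
  have hker : f.ker = (T m F).subgroupOf (Subgroup.normalizer (T m F : Set Sp)) := by
    ext g
    rw [MonoidHom.mem_ker, Subgroup.mem_subgroupOf, mem_T_iff]
    constructor
    · intro h
      have h1 := hΦ g
      rw [show Φ g = 1 from h] at h1
      exact h1
    · intro h
      exact huniq g.1 _ _ (hΦ g) h
  have hrange : f.range = Subgroup.centralizer ({sw m} : Set (Equiv.Perm (Fin m ⊕ Fin m))) := by
    ext π
    rw [Subgroup.mem_centralizer_singleton_iff]
    constructor
    · rintro ⟨g, rfl⟩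
      apply Equiv.ext
      intro i
      exact (Mono.sw (hΦ g) i)
    · intro h
      have h' : ∀ i, π (sw m i) = sw m (π i) := fun i => Equiv.congr_fun h i
      obtain ⟨g, hg⟩ := exists_mono_of (F := F) h'
      exact ⟨⟨g, mono_mem hg⟩, huniq g _ _ (hΦ ⟨g, mono_mem hg⟩) hg⟩
  have h1 := f.ker.card_mul_index
  rw [Subgroup.index_ker, hrange, card_cent, hker] at h1
  rw [← h1, Nat.card_congr (Subgroup.subgroupOfEquivOfLe Subgroup.le_normalizer).toEquiv, card_T hF, mul_comm]

end Cfsg.Agent.H5.WeylC
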