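import Mathlib
import Cfsg.Agent.H6_BT1

/-!
Borel–Tits theorem for Chevalley groups, part 2: dominance, minimal functionals, the theorem.
-/

set_option autoImplicit false
set_option linter.unusedSectionVars false

namespace Cfsg.Agent.H6.Chev

open Cfsg Cfsg.Lie Cfsg.Lie.ChevalleyDatum

namespace Model

variable {D : ChevalleyDatum} {F : Type*} [Field F] (m : Model D)

/-- every functional is conjugate to a dominant one -/
theorem exists_dom (lam : Fin D.rank → ℝ) : ∃ v ∈ m.Wg, ∀ i, 0 ≤ m.pull v lam i := by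
  classical
  obtain ⟨f, hf⟩ : ∃ f : Equiv.Perm (Fin D.nroots) → ℝ, f = fun v =>
    ∑ r ∈ Finset.univ.filter (fun r : Fin D.nroots => m.N ≤ (r : ℕ)), m.ev lam (v r) := ⟨_, rfl⟩
  obtain ⟨⟨v, hv⟩, -, hmax⟩ := Finset.exists_max_image (Finset.univ : Finset m.Wg) (fun v => f v) ⟨1, Finset.mem_univ _⟩
  refine ⟨v, hv, fun i => ?_⟩
  have h1 := hmax ⟨v * m.sr i, mul_mem hv (Subgroup.subset_closure ⟨i, rfl⟩)⟩ (Finset.mem_univ _)
  have h2 : f (v * m.sr i) = f v - 2 * m.ev lam (v (m.p i)) := by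
    have hmem : m.p i ∈ Finset.univ.filter (fun r : Fin D.nroots => m.N ≤ (r : ℕ)) :=
      Finset.mem_filter.2 ⟨Finset.mem_univ _, m.p_pos i⟩
    rw [hf]
    simp only
    rw [← Finset.add_sum_erase _ _ hmem, ← Finset.add_sum_erase _ (fun r => m.ev lam (v r)) hmem]
    have h3 : m.ev lam ((v * m.sr i) (m.p i)) = - m.ev lam (v (m.p i)) := by
      rw [Equiv.Perm.mul_apply, m.sr_p, (m.isW hv).neg, coe_ng, m.ev_neg _ (v (m.p i)).2]
    have h4 : ∑ x ∈ (Finset.univ.filter (fun r : Fin D.nroots => m.N ≤ (r : ℕ))).erase (m.p i), m.ev lam ((v * m.sr i) x) =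
        ∑ x ∈ (Finset.univ.filter (fun r : Fin D.nroots => m.N ≤ (r : ℕ))).erase (m.p i), m.ev lam (v x) := by
      have hst : ∀ x : Fin D.nroots, x ∈ (Finset.univ.filter (fun r : Fin D.nroots => m.N ≤ (r : ℕ))).erase (m.p i) →
          m.sr i x ∈ (Finset.univ.filter (fun r : Fin D.nroots => m.N ≤ (r : ℕ))).erase (m.p i) := by
        intro x hx
        rw [Finset.mem_erase, Finset.mem_filter] at hx ⊢
        refine ⟨?_, Finset.mem_univ _, m.sr_pos hx.2.2 hx.1⟩
        intro h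
        have h5 : x = m.sr i (m.p i) := by
          rw [← h, ← Equiv.Perm.mul_apply, m.sr_mul_self]; rfl
        rw [m.sr_p] at h5
        have h6 := (m.ng_lt_iff (m.p i)).2 (m.p_pos i)
        rw [← h5] at h6
        omega
      apply Finset.sum_bij (fun x _ => m.sr i x)
      · exact hst
      · intro a _ b _ h
        exact (m.sr i).injective h
      · intro b hb
        refine ⟨m.sr i b, hst b hb, ?_⟩
        rw [← Equiv.Perm.mul_apply, m.sr_mul_self]; rfl
      · intro a _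
        rfl
    rw [h3, h4]; ring
  change f (v * m.sr i) ≤ f v at h1
  change 0 ≤ m.ev lam (v (m.p i))
  linarith

theorem ev_sr (lam : Fin D.rank → ℝ) (j : Fin D.rank) (r : Fin D.nroots) :
    m.ev lam (m.sr j r) = m.ev lam r - (D.cartan j r : ℝ) * lam j := by
  unfold ev
  have h1 : ∀ i : Fin D.rank, (m.coef (m.sr j r) i : ℝ) * lam i =
      (m.coef r i : ℝ) * lam i - (if i = j then (D.cartan j r : ℝ) * lam i else 0) := by
    intro i
    rw [coe_sr, m.coef_refl j j.2 r r.2 i i.2]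
    by_cases h : i = j
    · subst h; simp only [if_true]; push_cast; ring
    · rw [if_neg h, if_neg (fun h' => h (Fin.ext h'.symm))]; push_cast; ring
  rw [Finset.sum_congr rfl fun i _ => h1 i, Finset.sum_sub_distrib, Finset.sum_ite_eq', if_pos (Finset.mem_univ _)]

theorem stab_dom {lam : Fin D.rank → ℝ} (hd : ∀ i, 0 ≤ lam i) : ∀ (k : ℕ) (w : Equiv.Perm (Fin D.nroots)),
    (m.inv w).card = k → w ∈ m.Wg → (∀ r : Fin D.nroots, m.ev lam (w r) = m.ev lam r) →
    w ∈ m.WJ {i | ∃ h : i < D.rank, lam ⟨i, h⟩ = 0} := by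
  intro k
  induction k using Nat.strong_induction_on with
  | _ k ih =>
    intro w hk hw hx
    by_cases hne : w = 1
    · rw [hne]; exact one_mem _
    obtain ⟨j, -, hneg⟩ := m.exists_neg (J := Set.univ) (by rwa [m.WJ_univ (fun _ _ => Set.mem_univ _)]) hne
    have h1 := m.ev_nonpos hd hneg
    rw [hx, m.ev_p] at h1
    have h2 : lam j = 0 := le_antisymm h1 (hd j)
    have h7 := m.card_inv_sr hw hneg
    have hs : m.sr j ∈ m.Wg := Subgroup.subset_closure ⟨j, rfl⟩
    have h8 := ih _ (by omega) (w * m.sr j) rfl (mul_mem hw hs) (fun r => by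
      rw [Equiv.Perm.mul_apply, hx, m.ev_sr, h2, mul_zero, sub_zero])
    have h9 : w = (w * m.sr j) * m.sr j := by rw [mul_assoc, m.sr_mul_self, mul_one]
    rw [h9]
    exact mul_mem h8 (m.sr_mem_WJ ⟨j.2, h2⟩)

theorem mem_parabolic_of_acts {J : Set ℕ} {n : GL D.Idx F} {w : Equiv.Perm (Fin D.nroots)}
    (hn : n ∈ D.monomialSubgroup F) (hact : m.Acts n w) (hw : w ∈ m.WJ J) : n ∈ D.parabolicSubgroup F J := by
  obtain ⟨l, hl, rfl⟩ := m.exists_wlJ hw
  have h1 : m.nl F l ∈ D.parabolicSubgroup F J := by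
    clear hact hw
    induction l with
    | nil => exact one_mem _
    | cons a l ih =>
      rw [nl_cons]
      exact mul_mem (m.n_mem_parabolic (hl a List.mem_cons_self) a.2) (ih fun i hi => hl i (List.mem_cons_of_mem _ hi))
  have h2 : n * (m.nl F l)⁻¹ ∈ D.diagonalSubgroup F := by
    apply m.mem_H_of_acts_one (mul_mem hn (inv_mem (m.nl_mem_N l)))
    have := hact.mul (m.acts_inv (m.nl_mem_N l) (m.acts_nl (F := F) l))
    rwa [mul_inv_cancel] at this
  have h3 : n = n * (m.nl F l)⁻¹ * m.nl F l := by group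
  rw [h3]
  exact mul_mem (m.B_le_parabolic J (H_le_B h2)) h1

/-- the invariant form -/
def QQ (lam : Fin D.rank → ℝ) : ℝ := ∑ r : Fin D.nroots, m.ev lam r ^ 2

theorem QQ_pull {w : Equiv.Perm (Fin D.nroots)} (hw : m.IsW w) (lam : Fin D.rank → ℝ) :
    m.QQ (m.pull w lam) = m.QQ lam := by
  unfold QQ
  rw [← Equiv.sum_comp w (fun r : Fin D.nroots => m.ev lam r ^ 2)]
  exact Finset.sum_congr rfl fun r _ => by rw [m.ev_pull hw]

theorem QQ_mid (lam mu : Fin D.rank → ℝ) : m.QQ ((1 / 2 : ℝ) • (lam + mu)) =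
    (m.QQ lam + m.QQ mu) / 2 - m.QQ ((1 / 2 : ℝ) • (lam + (-1 : ℝ) • mu)) := by
  unfold QQ
  rw [← Finset.sum_add_distrib, Finset.sum_div, ← Finset.sum_sub_distrib]
  apply Finset.sum_congr rfl
  intro r _
  rw [m.ev_smul, m.ev_smul, m.ev_add, m.ev_add, m.ev_smul]
  ring

theorem ev_eq_zero_of_QQ {lam : Fin D.rank → ℝ} (h : m.QQ lam ≤ 0) (r : Fin D.nroots) : m.ev lam r = 0 := by
  have h1 : m.ev lam r ^ 2 ≤ m.QQ lam :=
    Finset.single_le_sum (f := fun r : Fin D.nroots => m.ev lam r ^ 2) (fun _ _ => sq_nonneg _) (Finset.mem_univ r)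
  have h2 := sq_nonneg (m.ev lam r)
  have h3 : m.ev lam r ^ 2 = 0 := by linarith
  exact pow_eq_zero_iff (two_ne_zero) |>.1 h3

theorem sq_le_QQ (lam : Fin D.rank → ℝ) (i : Fin D.rank) : lam i ^ 2 ≤ m.QQ lam := by
  have h1 : m.ev lam (m.p i) ^ 2 ≤ m.QQ lam :=
    Finset.single_le_sum (f := fun r : Fin D.nroots => m.ev lam r ^ 2) (fun _ _ => sq_nonneg _) (Finset.mem_univ (m.p i))
  rwa [m.ev_p] at h1

theorem continuous_ev (r : ℕ) : Continuous fun lam : Fin D.rank → ℝ => m.ev lam r := by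
  unfold ev
  fun_prop

theorem continuous_QQ : Continuous m.QQ := by
  unfold QQ
  exact continuous_finsetSum _ fun r _ => (m.continuous_ev r).pow 2

/-- the functionals admissible for a subgroup -/
def Adm (R : Subgroup (GL D.Idx F)) : Set (Fin D.rank → ℝ) :=
  {lam | (∀ i, 0 ≤ lam i) ∧ ∃ g ∈ D.group F, R ≤ (m.KK F lam).map (MulAut.conj g).toMonoidHom}

theorem isClosed_Adm (R : Subgroup (GL D.Idx F)) : IsClosed (m.Adm R) := by
  classical
  have h1 : m.Adm R = ⋃ T : {T : Finset (Fin D.nroots) // ∃ g ∈ D.group F,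
      R ≤ (m.gen F (fun r => ∃ h : r < D.nroots, (⟨r, h⟩ : Fin D.nroots) ∈ T)).map (MulAut.conj g).toMonoidHom},
      {lam : Fin D.rank → ℝ | (∀ i, 0 ≤ lam i) ∧ ∀ r ∈ T.1, 1 ≤ m.ev lam r} := by
    ext lam
    rw [Set.mem_iUnion]
    constructor
    · rintro ⟨h1, g, hg, h2⟩
      refine ⟨⟨Finset.univ.filter fun r : Fin D.nroots => 1 ≤ m.ev lam r, g, hg, ?_⟩, h1, fun r hr => (Finset.mem_filter.1 hr).2⟩
      refine h2.trans (Subgroup.map_mono ?_)
      apply m.gen_mono
      intro r hr h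
      exact ⟨hr, Finset.mem_filter.2 ⟨Finset.mem_univ _, h⟩⟩
    · rintro ⟨⟨T, g, hg, h2⟩, h1, h3⟩
      refine ⟨h1, g, hg, h2.trans (Subgroup.map_mono ?_)⟩
      apply m.gen_mono
      rintro r hr ⟨h, hT⟩
      exact h3 _ hT
  rw [h1]
  apply isClosed_iUnion_of_finite
  intro T
  have h2 : {lam : Fin D.rank → ℝ | (∀ i, 0 ≤ lam i) ∧ ∀ r ∈ T.1, 1 ≤ m.ev lam r} =
      (⋂ i, {lam : Fin D.rank → ℝ | 0 ≤ lam i}) ∩ ⋂ r : T.1, {lam : Fin D.rank → ℝ | 1 ≤ m.ev lam (r : Fin D.nroots)} := by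
    ext lam
    simp only [Set.mem_ofPred_eq, Set.mem_inter_iff, Set.mem_iInter, Subtype.forall]
  rw [h2]
  apply IsClosed.inter
  · exact isClosed_iInter fun i => isClosed_le continuous_const (continuous_apply i)
  · exact isClosed_iInter fun r => isClosed_le continuous_const (m.continuous_ev _)

theorem exists_min {R : Subgroup (GL D.Idx F)} (hne : (m.Adm R).Nonempty) :
    ∃ lam ∈ m.Adm R, ∀ mu ∈ m.Adm R, m.QQ lam ≤ m.QQ mu := by
  obtain ⟨lam0, h0⟩ := hne
  have hK : IsCompact (m.Adm R ∩ {lam | m.QQ lam ≤ m.QQ lam0}) := by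
    apply Metric.isCompact_of_isClosed_isBounded
    · exact (m.isClosed_Adm R).inter (isClosed_le m.continuous_QQ continuous_const)
    · apply Bornology.IsBounded.subset (Metric.isBounded_closedBall (x := (0 : Fin D.rank → ℝ)) (r := Real.sqrt (m.QQ lam0)))
      rintro lam ⟨-, h⟩
      rw [mem_closedBall_zero_iff, pi_norm_le_iff_of_nonneg (Real.sqrt_nonneg _)]
      intro i
      rw [Real.norm_eq_abs]
      exact Real.abs_le_sqrt ((m.sq_le_QQ lam i).trans h)
  obtain ⟨lam, ⟨h1, h2⟩, h3⟩ := hK.exists_isMinOn ⟨lam0, h0, le_refl (m.QQ lam0)⟩ m.continuous_QQ.continuousOn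
  refine ⟨lam, h1, fun mu hmu => ?_⟩
  by_cases h4 : m.QQ mu ≤ m.QQ lam0
  · exact h3 ⟨hmu, h4⟩
  · exact h2.trans (not_le.1 h4).le

theorem map_conj_mul {G : Type*} [Group G] (K : Subgroup G) (a b : G) :
    K.map (MulAut.conj (a * b)).toMonoidHom = (K.map (MulAut.conj b).toMonoidHom).map (MulAut.conj a).toMonoidHom := by
  rw [Subgroup.map_map]
  congr 1
  ext x
  simp [mul_assoc]

theorem map_conj_of_normalizer {G : Type*} [Group G] {K : Subgroup G} {b : G} (hb : b ∈ Subgroup.normalizer (K : Set G)) :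
    K.map (MulAut.conj b).toMonoidHom = K := by
  ext x
  rw [Subgroup.mem_map]
  constructor
  · rintro ⟨y, hy, rfl⟩
    exact (Subgroup.mem_normalizer_iff.1 hb y).1 hy
  · intro hx
    refine ⟨b⁻¹ * x * b, ?_, by simp [mul_assoc]⟩
    rw [Subgroup.mem_normalizer_iff.1 hb]
    simpa [mul_assoc] using hx

include m in
/-- the theorem of Borel and Tits -/
theorem borel_tits {R : Subgroup (GL D.Idx F)} (hne : R ≠ ⊥) (hR : ∃ g ∈ D.group F, R ≤ (D.posUnipotent F).map (MulAut.conj g).toMonoidHom) :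
    ∃ g ∈ D.group F, ∃ J : Set ℕ, (∃ i, i < D.rank ∧ i ∉ J) ∧
      Subgroup.normalizer (R : Set (GL D.Idx F)) ⊓ D.group F ≤ (D.parabolicSubgroup F J).map (MulAut.conj g).toMonoidHom ∧
      R ≤ (D.unipotentRadical F J).map (MulAut.conj g).toMonoidHom := by
  have hAdm : (m.Adm R).Nonempty := by
    refine ⟨fun _ => 1, fun _ => zero_le_one, ?_⟩
    obtain ⟨g, hg, h⟩ := hR
    refine ⟨g, hg, h.trans (Subgroup.map_mono ?_)⟩
    rw [m.posUnipotent_eq]
    apply m.gen_mono
    intro r hr hN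
    -- some coefficient is positive
    by_contra hc
    rw [not_le] at hc
    have h1 : ∀ i : Fin D.rank, m.coef r i = 0 := by
      intro i
      have h2 : (m.coef r i : ℝ) ≤ m.ev (fun _ => 1) r := by
        unfold ev
        have := Finset.single_le_sum (f := fun i : Fin D.rank => (m.coef r i : ℝ) * (1 : ℝ)) (fun j _ => by
          rw [mul_one]; exact_mod_cast m.coef_nonneg r hN hr j j.2) (Finset.mem_univ i)
        simpa using this
      have h3 : (m.coef r i : ℝ) < 1 := lt_of_le_of_lt h2 hc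
      have h4 : m.coef r i < 1 := by exact_mod_cast h3
      have h5 := m.coef_nonneg r hN hr i i.2
      omega
    have h2 : m.lam r = 0 := by
      unfold Model.lam
      apply Finset.sum_eq_zero
      intro j hj
      rw [h1 ⟨j, Finset.mem_range.1 hj⟩, zero_mul]
    have := m.lam_pos hr hN
    omega
  obtain ⟨lam, ⟨hd, g, hg, hRg⟩, hmin⟩ := m.exists_min hAdm
  refine ⟨g, hg, {i | ∃ h : i < D.rank, lam ⟨i, h⟩ = 0}, ?_, ?_, ?_⟩
  · by_contra hc
    push Not at hc
    apply hne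
    rw [eq_bot_iff]
    have h1 : m.KK F lam = ⊥ := by
      rw [eq_bot_iff]
      apply m.gen_le
      intro r hr h
      exfalso
      have h2 : m.ev lam r = 0 := by
        unfold ev
        apply Finset.sum_eq_zero
        intro i _
        obtain ⟨_, h3⟩ := hc i i.2
        rw [h3, mul_zero]
      linarith
    rw [h1, Subgroup.map_bot] at hRg
    exact hRg
  · rintro k ⟨hk, hkG⟩
    have hk2 : R ≤ (m.KK F lam).map (MulAut.conj (k * g)).toMonoidHom := by
      rw [map_conj_mul, ← map_conj_of_normalizer hk]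
      exact Subgroup.map_mono hRg
    obtain ⟨b, hb, n, hn, b', hb', he⟩ := m.exists_bruhat (mul_mem (mul_mem (inv_mem hg) hkG) hg)
    have hkg : k * g = g * b * n * b' := by
      calc k * g = g * (g⁻¹ * k * g) := by group
        _ = g * b * n * b' := by rw [he]; group
    obtain ⟨w, hw, hact⟩ := m.acts_N hn
    have h1 : R ≤ (m.KK F lam).map (MulAut.conj (g * b)).toMonoidHom := by
      rw [map_conj_mul, map_conj_of_normalizer (m.B_le_normalizer_KK hd hb)]
      exact hRg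
    have h2 : R ≤ ((m.KK F lam).map (MulAut.conj n).toMonoidHom).map (MulAut.conj (g * b)).toMonoidHom := by
      rw [hkg, map_conj_mul, map_conj_of_normalizer (m.B_le_normalizer_KK hd hb'), map_conj_mul] at hk2
      exact hk2
    have h3 : R ≤ (m.KK F lam ⊓ (m.KK F lam).map (MulAut.conj n).toMonoidHom).map (MulAut.conj (g * b)).toMonoidHom := by
      rw [Subgroup.map_inf _ _ _ (MulAut.conj (g * b)).injective]
      exact le_inf h1 h2
    have hWi := (m.acts_inv hn hact).isW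
    obtain ⟨mu, hmu⟩ : ∃ mu, mu = m.pull w⁻¹ lam := ⟨_, rfl⟩
    obtain ⟨nu, hnu⟩ : ∃ nu, nu = (1 / 2 : ℝ) • (lam + mu) := ⟨_, rfl⟩
    have h4 : R ≤ (m.KK F nu).map (MulAut.conj (g * b)).toMonoidHom := by
      refine h3.trans (Subgroup.map_mono ((m.KK_inter hd hd hn hact).trans ?_))
      apply m.gen_mono
      rintro r hr ⟨h5, h6⟩
      rw [← hmu] at h6
      rw [hnu, m.ev_smul, m.ev_add]
      linarith
    obtain ⟨v, hv, hvd⟩ := m.exists_dom nu
    obtain ⟨nv, hnv, hactv⟩ := m.exists_acts (F := F) hv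
    have h5 : R ≤ (m.KK F (m.pull v nu)).map (MulAut.conj (g * b * nv)).toMonoidHom := by
      rw [map_conj_mul, m.conj_KK hnv hactv]
      refine h4.trans (Subgroup.map_mono ?_)
      apply m.gen_mono
      intro r hr h6
      have := m.ev_pull (m.isW (inv_mem hv)) (m.pull v nu) ⟨r, hr⟩
      change 1 ≤ m.ev (m.pull v⁻¹ (m.pull v nu)) r
      change m.ev (m.pull v⁻¹ (m.pull v nu)) r = _ at this
      rw [this, m.ev_pull (m.isW hv), ← Equiv.Perm.mul_apply, mul_inv_cancel]
      exact h6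
    have h6 := hmin (m.pull v nu) ⟨hvd, _, mul_mem (mul_mem hg (m.B_le_G hb)) (m.N_le_G hnv), h5⟩
    rw [m.QQ_pull (m.isW hv), hnu, m.QQ_mid] at h6
    have h7 : m.QQ mu = m.QQ lam := by rw [hmu, m.QQ_pull hWi]
    rw [h7] at h6
    have h8 : m.QQ ((1 / 2 : ℝ) • (lam + (-1 : ℝ) • mu)) ≤ 0 := by linarith
    have h9 : ∀ r : Fin D.nroots, m.ev lam (w r) = m.ev lam r := by
      intro r
      have h10 := m.ev_eq_zero_of_QQ h8 (w r)
      rw [m.ev_smul, m.ev_add, m.ev_smul, hmu, m.ev_pull hWi, ← Equiv.Perm.mul_apply, inv_mul_cancel] at h10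
      change 1 / 2 * (m.ev lam (w r) + -1 * m.ev lam r) = 0 at h10
      linarith
    have h10 := m.stab_dom hd _ w rfl hw h9
    have h11 := m.mem_parabolic_of_acts hn hact h10
    refine ⟨g⁻¹ * k * g, ?_, by simp [mul_assoc]⟩
    rw [SetLike.mem_coe, he]
    exact mul_mem (mul_mem (m.B_le_parabolic _ hb) h11) (m.B_le_parabolic _ hb')
  · refine hRg.trans (Subgroup.map_mono ?_)
    rw [m.unipotentRadical_eq]
    apply m.gen_mono
    intro r hr h
    refine ⟨?_, ?_⟩
    · by_contra hc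
      have := m.ev_nonpos hd (not_le.1 hc)
      linarith
    · intro hJ
      rw [m.inRootSub_iff' hr] at hJ
      have h2 : m.ev lam r = 0 := by
        unfold ev
        apply Finset.sum_eq_zero
        intro i _
        by_cases h3 : (i : ℕ) ∈ {i | ∃ h : i < D.rank, lam ⟨i, h⟩ = 0}
        · obtain ⟨_, h4⟩ := h3
          rw [h4, mul_zero]
        · rw [hJ i i.2 h3]; simp
      linarith

end Model

end Cfsg.Agent.H6.Chev
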