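import Mathlib
import Cfsg.Agent.H6_BT2

/-!
Borel–Tits theorem for Chevalley groups, part 3: p-subgroups are conjugate into `U`.
-/

set_option autoImplicit false
set_option linter.unusedSectionVars false

namespace Cfsg.Agent.H6.Chev

open Cfsg Cfsg.Lie Cfsg.Lie.ChevalleyDatum

namespace Model

variable {D : ChevalleyDatum} {F : Type*} [Field F] (m : Model D)

theorem PJ_mod {p : ℕ} {q : ℕ} (hq : p ∣ q) : m.PJ Set.univ q ≡ 1 [MOD p] := by
  classical
  rw [m.PJ_def]
  have h1 : (1 : Equiv.Perm (Fin D.nroots)) ∈ Finset.univ.filter (fun w : Equiv.Perm (Fin D.nroots) => w ∈ m.WJ Set.univ) :=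
    Finset.mem_filter.2 ⟨Finset.mem_univ _, one_mem _⟩
  rw [← Finset.add_sum_erase _ _ h1]
  have h2 : (m.inv (1 : Equiv.Perm (Fin D.nroots))).card = 0 := by
    rw [Finset.card_eq_zero, Finset.eq_empty_iff_forall_notMem]
    intro r hr
    rw [m.mem_inv] at hr
    have h1 := hr.1
    have h2 := hr.2
    change (r : ℕ) < m.N at h2
    omega
  rw [h2, pow_zero]
  have h3 : p ∣ ∑ w ∈ (Finset.univ.filter (fun w : Equiv.Perm (Fin D.nroots) => w ∈ m.WJ Set.univ)).erase 1,
      q ^ (m.inv w).card := by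
    apply Finset.dvd_sum
    intro w hw
    rw [Finset.mem_erase, Finset.mem_filter] at hw
    have hwW : w ∈ m.Wg := m.WJ_le _ hw.2.2
    apply dvd_trans hq
    apply dvd_pow_self
    intro h0
    rw [Finset.card_eq_zero, Finset.eq_empty_iff_forall_notMem] at h0
    apply hw.1
    apply m.eq_one_of_pos hwW
    intro i
    by_contra hc
    exact h0 (m.p i) (m.mem_inv.2 ⟨m.p_pos i, not_le.1 hc⟩)
  obtain ⟨k, hk⟩ := h3
  rw [hk]
  exact (Nat.modEq_iff_dvd' (by omega)).2 (by simp) |>.symm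

theorem card_ne_zero [Finite F] : Nat.card (D.group F) ≠ 0 := by
  have : Finite (GL D.Idx F) := inferInstance
  exact Nat.card_pos.ne'

include m in
/-- `p`-subgroups are conjugate into `U` -/
theorem exists_conj_le_U [Fintype F] {p : ℕ} [Fact p.Prime] [CharP F p] {R : Subgroup (GL D.Idx F)} (hRG : R ≤ D.group F)
    (hR : IsPGroup p R) : ∃ g ∈ D.group F, R ≤ (D.posUnipotent F).map (MulAut.conj g).toMonoidHom := by
  have hp : p.Prime := Fact.out
  have hfin : Finite (GL D.Idx F) := inferInstance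
  have hcard : Nat.card (D.borelSubgroup F) ≠ 0 := Nat.card_pos.ne'
  have hdq : p ∣ Fintype.card F := by
    obtain ⟨n, -, hn⟩ := FiniteField.card F p
    rw [hn]
    exact dvd_pow_self p n.ne_zero
  -- index of B
  have hidx : ((D.borelSubgroup F).subgroupOf (D.group F)).index = m.PJ Set.univ (Fintype.card F) := by
    have h1 := m.card_group (F := F)
    rw [← m.card_B] at h1
    have h2 := Subgroup.card_mul_index ((D.borelSubgroup F).subgroupOf (D.group F))
    rw [Nat.card_congr (Subgroup.subgroupOfEquivOfLe m.B_le_G).toEquiv, h1] at h2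
    exact Nat.eq_of_mul_eq_mul_left (Nat.pos_of_ne_zero hcard) h2
  have hnd : ¬ p ∣ Nat.card (↥(D.group F) ⧸ (D.borelSubgroup F).subgroupOf (D.group F)) := by
    change ¬ p ∣ ((D.borelSubgroup F).subgroupOf (D.group F)).index
    rw [hidx]
    intro h
    have h1 := m.PJ_mod hdq
    have h2 : (1 : ℕ) ≡ 0 [MOD p] := h1.symm.trans ((Nat.modEq_zero_iff_dvd).2 h)
    have h3 : p ∣ 1 := (Nat.modEq_zero_iff_dvd).1 h2
    exact hp.one_lt.ne' (Nat.dvd_one.1 h3)
  have hR' : IsPGroup p (R.subgroupOf (D.group F)) := hR.comap_subtype (K := D.group F)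
  obtain ⟨⟨g⟩, hg⟩ := hR'.nonempty_fixed_point_of_prime_not_dvd_card
    (↥(D.group F) ⧸ (D.borelSubgroup F).subgroupOf (D.group F)) hnd
  refine ⟨g, g.2, ?_⟩
  intro x hx
  have hx1 : (⟨x, hRG hx⟩ : ↥(D.group F)) ∈ R.subgroupOf (D.group F) := hx
  have h1 := hg ⟨_, hx1⟩
  change (QuotientGroup.mk ((⟨x, hRG hx⟩ : ↥(D.group F)) * g) : ↥(D.group F) ⧸ (D.borelSubgroup F).subgroupOf (D.group F)) =
    QuotientGroup.mk g at h1
  rw [eq_comm, QuotientGroup.eq] at h1
  have h2 : (g : GL D.Idx F)⁻¹ * (x * g) ∈ D.borelSubgroup F := h1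
  obtain ⟨u, hu, h, hh, he⟩ := m.mem_B.1 h2
  -- h has order a power of p and prime to p
  obtain ⟨k, hk⟩ := hR ⟨x, hx⟩
  have hxk : x ^ p ^ k = 1 := congrArg Subtype.val hk
  have hy : ((g : GL D.Idx F)⁻¹ * (x * g)) ^ p ^ k = 1 := by
    have : (g : GL D.Idx F)⁻¹ * (x * g) = (g : GL D.Idx F)⁻¹ * x * ((g : GL D.Idx F)⁻¹)⁻¹ := by group
    rw [this, conj_pow, hxk]; group
  -- powers of u * h
  have hpow : ∀ n : ℕ, ∃ v ∈ D.posUnipotent F, (u * h) ^ n = v * h ^ n := by
    intro n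
    induction n with
    | zero => exact ⟨1, one_mem _, by simp⟩
    | succ n ih =>
      obtain ⟨v, hv, hvn⟩ := ih
      have h3 : h ^ n * u * (h ^ n)⁻¹ ∈ D.posUnipotent F :=
        (Subgroup.mem_normalizer_iff.1 (m.H_le_normalizer_U (pow_mem hh n)) u).1 hu
      refine ⟨v * (h ^ n * u * (h ^ n)⁻¹), mul_mem hv h3, ?_⟩
      rw [pow_succ, hvn, pow_succ]
      group
  obtain ⟨v, hv, hvk⟩ := hpow (p ^ k)
  rw [← he, hy] at hvk
  have h4 : h ^ p ^ k = 1 := by
    have h5 : h ^ p ^ k ∈ D.posUnipotent F ⊓ D.diagonalSubgroup F :=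
      Subgroup.mem_inf.2 ⟨by rw [eq_inv_of_mul_eq_one_right hvk.symm]; exact inv_mem hv, pow_mem hh _⟩
    rwa [m.U_inf_H, Subgroup.mem_bot] at h5
  have h5 : h = 1 := by
    obtain ⟨b, rfl⟩ := m.mem_H.1 hh
    have h6 : (m.hHom b) ^ (Fintype.card F - 1) = 1 := by
      classical
      rw [← map_pow, ← map_one m.hHom]
      congr 1
      funext i
      rw [Pi.pow_apply, Pi.one_apply, ← Fintype.card_units]
      exact pow_card_eq_one
    have hcop : Nat.Coprime (p ^ k) (Fintype.card F - 1) := by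
      apply Nat.Coprime.pow_left
      rw [Nat.Prime.coprime_iff_not_dvd hp]
      intro hd
      have h7 : p ∣ Fintype.card F - (Fintype.card F - 1) := Nat.dvd_sub hdq hd
      have h8 : Fintype.card F - (Fintype.card F - 1) = 1 := by
        have := Fintype.card_pos (α := F)
        omega
      rw [h8] at h7
      exact hp.one_lt.ne' (Nat.dvd_one.1 h7)
    have h7 := orderOf_dvd_of_pow_eq_one h4
    have h8 := orderOf_dvd_of_pow_eq_one h6
    have h9 := Nat.dvd_gcd h7 h8
    rw [hcop.gcd_eq_one, Nat.dvd_one, orderOf_eq_one_iff] at h9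
    exact h9
  rw [h5, mul_one] at he
  refine ⟨u, hu, ?_⟩
  change (g : GL D.Idx F) * u * (g : GL D.Idx F)⁻¹ = x
  rw [← he]; group

end Model

end Cfsg.Agent.H6.Chev
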