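import Mathlib

/-!
Modular representations over algebraically closed fields, part 1: Wedderburn data of the group
algebra, Brauer's theorem on the number of irreducible modular representations.
-/

set_option autoImplicit false
set_option linter.unusedSectionVars false

namespace Cfsg.Agent.H6.CR

open MonoidAlgebra

/-- Wedderburn data of the group algebra -/
structure Wed (k G : Type*) [Field k] [Group G] where
  n : ℕ
  d : Fin n → ℕ
  hd : ∀ i, NeZero (d i)
  f : MonoidAlgebra k G →ₐ[k] (∀ i, Matrix (Fin (d i)) (Fin (d i)) k)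
  surj : Function.Surjective f
  N : ℕ
  nil : RingHom.ker f ^ N = ⊥

variable {k G : Type*} [Field k] [Group G]

theorem exists_wed (k G : Type*) [Field k] [Group G] [IsAlgClosed k] [Finite G] : Nonempty (Wed k G) := by
  classical
  have : Fintype G := Fintype.ofFinite G
  have : FiniteDimensional k (MonoidAlgebra k G) := inferInstance
  have : IsArtinianRing (MonoidAlgebra k G) := IsArtinianRing.of_finite k _
  have : IsSemiprimaryRing (MonoidAlgebra k G) := inferInstance
  have : FiniteDimensional k (MonoidAlgebra k G ⧸ Ring.jacobson (MonoidAlgebra k G)) := inferInstance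
  obtain ⟨n, d, hd, ⟨e⟩⟩ := IsSemisimpleRing.exists_algEquiv_pi_matrix_of_isAlgClosed k
    (MonoidAlgebra k G ⧸ Ring.jacobson (MonoidAlgebra k G))
  obtain ⟨N, hN⟩ := IsSemiprimaryRing.isNilpotent (R := MonoidAlgebra k G)
  refine ⟨⟨n, d, hd, (e : _ →ₐ[k] _).comp (Ideal.Quotient.mkₐ k (Ring.jacobson (MonoidAlgebra k G))), ?_, N, ?_⟩⟩
  · exact e.surjective.comp (Ideal.Quotient.mkₐ_surjective k (Ring.jacobson (MonoidAlgebra k G)))
  · rw [← Ideal.zero_eq_bot, ← hN]
    congr 1
    ext x
    rw [RingHom.mem_ker]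
    change e (Ideal.Quotient.mk (Ring.jacobson (MonoidAlgebra k G)) x) = 0 ↔ _
    rw [map_eq_zero_iff e e.injective, Ideal.Quotient.eq_zero_iff_mem]

/-- left translation on functions -/
def lt (k G : Type*) [Field k] [Group G] : G →* Module.End k (G → k) where
  toFun g :=
    { toFun := fun y x => y (g⁻¹ * x)
      map_add' := fun _ _ => rfl
      map_smul' := fun _ _ => rfl }
  map_one' := by ext; simp
  map_mul' g h := by
    apply LinearMap.ext
    intro y
    funext x
    change y ((g * h)⁻¹ * x) = y (h⁻¹ * (g⁻¹ * x))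
    rw [mul_inv_rev, mul_assoc]

theorem lt_apply (g : G) (y : G → k) (x : G) : lt k G g y x = y (g⁻¹ * x) := rfl

/-- the action of the group algebra on functions -/
noncomputable def act (k G : Type*) [Field k] [Group G] : MonoidAlgebra k G →ₐ[k] Module.End k (G → k) :=
  MonoidAlgebra.lift k _ G (lt k G)

theorem act_single (g : G) (c : k) (y : G → k) : act k G (single g c) y = c • lt k G g y := by
  rw [act, MonoidAlgebra.lift_single]; rfl

theorem act_mem {Y : Submodule k (G → k)} (hinv : ∀ g : G, ∀ y ∈ Y, lt k G g y ∈ Y)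
    (a : MonoidAlgebra k G) {y : G → k} (hy : y ∈ Y) : act k G a y ∈ Y := by
  induction a using MonoidAlgebra.induction_linear with
  | zero => rw [map_zero]; exact zero_mem _
  | add a b ha hb => rw [map_add]; exact add_mem ha hb
  | single g c => rw [act_single]; exact Submodule.smul_mem _ _ (hinv g y hy)

theorem act_eval (a : MonoidAlgebra k G) (y : G → k) (x : G) :
    act k G a y x = act k G (single x⁻¹ 1 * a) y 1 := by
  rw [map_mul]
  change _ = act k G (single x⁻¹ 1) (act k G a y) 1
  rw [act_single, one_smul, lt_apply, inv_inv, mul_one]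

/-- the representations attached to the Wedderburn factors -/
noncomputable def Wed.rho (W : Wed k G) (i : Fin W.n) : G →* Matrix (Fin (W.d i)) (Fin (W.d i)) k where
  toFun g := W.f (single g 1) i
  map_one' := by
    change W.f 1 i = 1
    rw [map_one]; rfl
  map_mul' g h := by
    have : (single (g * h) 1 : MonoidAlgebra k G) = single g 1 * single h 1 := by
      rw [MonoidAlgebra.single_mul_single, one_mul]
    rw [this, map_mul]; rfl

theorem Wed.rho_apply (W : Wed k G) (i : Fin W.n) (g : G) : W.rho i g = W.f (single g 1) i := rfl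

/-- a linear functional killing the kernel of a surjection factors -/
theorem exists_factor {A B : Type*} [AddCommGroup A] [Module k A] [AddCommGroup B] [Module k B]
    (f : A →ₗ[k] B) (hf : Function.Surjective f) (ψ : A →ₗ[k] k) (h : ∀ a, f a = 0 → ψ a = 0) :
    ∃ Φ : B →ₗ[k] k, ∀ a, ψ a = Φ (f a) := by
  obtain ⟨g, hg⟩ := f.exists_rightInverse_of_surjective (LinearMap.range_eq_top.2 hf)
  refine ⟨ψ.comp g, fun a => ?_⟩
  have h1 : f (a - g (f a)) = 0 := by
    rw [map_sub, sub_eq_zero]
    exact (congrArg (fun l : B →ₗ[k] B => l (f a)) hg).symm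
  have h2 := h _ h1
  rw [map_sub, sub_eq_zero] at h2
  exact h2

/-- every nonzero left invariant space of functions contains one of the irreducible representations -/
theorem Wed.emb (W : Wed k G) {Y : Submodule k (G → k)} (hY : Y ≠ ⊥)
    (hinv : ∀ g : G, ∀ y ∈ Y, lt k G g y ∈ Y) :
    ∃ i, ∃ lam : Fin (W.d i) → k, lam ≠ 0 ∧ ∀ v, (fun x => lam ⬝ᵥ (Matrix.mulVec (W.rho i x⁻¹) v)) ∈ Y := by
  classical
  obtain ⟨y₀, hy₀, hy₀'⟩ := Submodule.exists_mem_ne_zero_of_ne_bot hY
  have hex : ∃ m, ∀ a ∈ RingHom.ker W.f ^ m, act k G a y₀ = 0 := by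
    refine ⟨W.N, fun a ha => ?_⟩
    rw [W.nil, Ideal.mem_bot] at ha
    rw [ha, map_zero]; rfl
  obtain ⟨m, hm, hmin⟩ : ∃ m, (∀ a ∈ RingHom.ker W.f ^ m, act k G a y₀ = 0) ∧
      ∀ m' < m, ¬ ∀ a ∈ RingHom.ker W.f ^ m', act k G a y₀ = 0 :=
    ⟨Nat.find hex, Nat.find_spec hex, fun m' h => Nat.find_min hex h⟩
  have hm0 : m ≠ 0 := by
    rintro rfl
    have := hm 1 (by rw [Submodule.pow_zero, Ideal.one_eq_top]; trivial)
    rw [map_one] at this
    exact hy₀' this
  obtain ⟨m, rfl⟩ := Nat.exists_eq_succ_of_ne_zero hm0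
  have h1 := hmin m (Nat.lt_succ_self m)
  push Not at h1
  obtain ⟨b, hb, hby⟩ := h1
  set y := act k G b y₀ with hy
  have hyY : y ∈ Y := act_mem hinv b hy₀
  have hker : ∀ a, W.f a = 0 → act k G a y = 0 := by
    intro a ha
    have h2 : a * b ∈ RingHom.ker W.f ^ (m + 1) := by
      rw [Ideal.IsTwoSided.pow_succ]
      exact Ideal.mul_mem_mul (RingHom.mem_ker.2 ha) hb
    have h3 := hm _ h2
    rw [map_mul] at h3
    exact h3
  let ψ : MonoidAlgebra k G →ₗ[k] k :=
    { toFun := fun a => act k G a y 1
      map_add' := fun a b => by rw [map_add]; rfl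
      map_smul' := fun c a => by rw [map_smul]; rfl }
  have hψ : ∀ a, ψ a = act k G a y 1 := fun _ => rfl
  obtain ⟨Φ, hΦ⟩ := exists_factor W.f.toLinearMap W.surj ψ (fun a ha => by
    rw [hψ, hker a ha]; rfl)
  have hmem : ∀ B, (fun x => Φ (W.f (single x⁻¹ 1) * B)) ∈ Y := by
    intro B
    obtain ⟨a, rfl⟩ := W.surj B
    have h2 := act_mem hinv a hyY
    convert h2 using 1
    funext x
    rw [act_eval, ← hψ, hΦ]
    change _ = Φ (W.f _)
    rw [map_mul W.f]
  have hΦ0 : Φ ≠ 0 := by
    rintro rfl
    apply hby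
    funext x
    have h2 := act_eval 1 y x
    rw [map_one, ← hψ, hΦ] at h2
    exact h2
  -- some matrix unit is not killed
  obtain ⟨i, a, b', hne⟩ : ∃ i, ∃ a b : Fin (W.d i), Φ (Pi.single i (Matrix.single a b 1)) ≠ 0 := by
    by_contra hc
    push Not at hc
    apply hΦ0
    apply LinearMap.ext
    intro B
    have h2 : B = ∑ i, ∑ a, ∑ b, B i a b • (Pi.single i (Matrix.single a b 1) :
        ∀ i, Matrix (Fin (W.d i)) (Fin (W.d i)) k) := by
      funext j
      rw [Finset.sum_apply, Finset.sum_eq_single j]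
      · rw [Finset.sum_apply]
        conv_lhs => rw [Matrix.matrix_eq_sum_single (B j)]
        refine Finset.sum_congr rfl fun a _ => ?_
        rw [Finset.sum_apply]
        refine Finset.sum_congr rfl fun b _ => ?_
        rw [Pi.smul_apply, Pi.single_eq_same, Matrix.smul_single, smul_eq_mul, mul_one]
      · intro i _ hij
        rw [Finset.sum_apply]
        refine Finset.sum_eq_zero fun a _ => ?_
        rw [Finset.sum_apply]
        refine Finset.sum_eq_zero fun b _ => ?_
        rw [Pi.smul_apply, Pi.single_eq_of_ne (Ne.symm hij), smul_zero]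
      · intro h; exact absurd (Finset.mem_univ _) h
    rw [h2]
    simp only [map_sum, map_smul, hc, smul_zero, Finset.sum_const_zero, LinearMap.zero_apply]
  refine ⟨i, fun c => Φ (Pi.single i (Matrix.single c b' 1)), fun h => hne (congrFun h a), fun v => ?_⟩
  have h2 := hmem (Pi.single i (∑ c, v c • Matrix.single c b' 1))
  convert h2 using 1
  funext x
  have h3 : W.f (single x⁻¹ 1) * Pi.single i (∑ c, v c • Matrix.single c b' 1) =
      ∑ c, (Matrix.mulVec (W.rho i x⁻¹) v) c • (Pi.single i (Matrix.single c b' 1) :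
        ∀ i, Matrix (Fin (W.d i)) (Fin (W.d i)) k) := by
    funext j
    rw [Finset.sum_apply, Pi.mul_apply]
    by_cases hj : j = i
    · subst hj
      rw [Pi.single_eq_same]
      ext r s
      rw [Matrix.mul_apply, Matrix.sum_apply]
      have e1 : ∀ x, (∑ c, v c • Matrix.single c b' (1 : k)) x s = if b' = s then v x else 0 := by
        intro x
        rw [Matrix.sum_apply, Finset.sum_eq_single x]
        · rw [Matrix.smul_apply, Matrix.single_apply]
          by_cases hb : b' = s <;> simp [hb]
        · intro c _ hc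
          rw [Matrix.smul_apply, Matrix.single_apply, if_neg (fun h => hc h.1), smul_zero]
        · intro h; exact absurd (Finset.mem_univ _) h
      have e2 : ∀ c, ((Matrix.mulVec (W.rho j x⁻¹) v) c • (Pi.single j (Matrix.single c b' 1) :
        ∀ i, Matrix (Fin (W.d i)) (Fin (W.d i)) k)) j r s =
        if c = r then (if b' = s then (Matrix.mulVec (W.rho j x⁻¹) v) c else 0) else 0 := by
        intro c
        rw [Pi.smul_apply, Pi.single_eq_same, Matrix.smul_apply, Matrix.single_apply]
        by_cases hc : c = r <;> by_cases hb : b' = s <;> simp [hb, hc]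
      simp only [e1, e2]
      rw [Finset.sum_ite_eq' Finset.univ r, if_pos (Finset.mem_univ _)]
      by_cases hb : b' = s
      · simp only [hb, if_true]; rfl
      · simp [hb]
    · rw [Pi.single_eq_of_ne hj, mul_zero]
      refine (Finset.sum_eq_zero fun c _ => ?_).symm
      rw [Pi.smul_apply, Pi.single_eq_of_ne hj, smul_zero]
  rw [h3, map_sum]
  refine Finset.sum_congr rfl fun c _ => ?_
  rw [map_smul, smul_eq_mul, mul_comm]

end Cfsg.Agent.H6.CR
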