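import Mathlib
import Cfsg.Agent.H6_CR1

/-!
Modular representations over algebraically closed fields, part 2: Brauer's theorem on the number of
irreducible modular representations.
-/

set_option autoImplicit false
set_option linter.unusedSectionVars false

namespace Cfsg.Agent.H6.CR

open MonoidAlgebra

/-- noncommutative expansion of a power of a sum -/
theorem sum_pow_ofFn {ι A : Type*} [Fintype ι] [Semiring A] (x : ι → A) (n : ℕ) :
    (∑ i, x i) ^ n = ∑ v : Fin n → ι, (List.ofFn fun j => x (v j)).prod := by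
  induction n with
  | zero => simp
  | succ n ih =>
    rw [pow_succ', ih, Finset.sum_mul_sum, ← Finset.sum_product', Finset.univ_product_univ]
    refine Fintype.sum_equiv (Fin.consEquiv fun _ => ι) _ _ fun v => ?_
    rw [List.ofFn_succ, List.prod_cons]
    rfl

/-- sums of functions invariant under a permutation of order dividing `p` -/
theorem sum_perm {X k : Type*} [Fintype X] [DecidableEq X] [CommRing k] {p : ℕ} [Fact p.Prime] [CharP k p] (σ : Equiv.Perm X)
    (hσ : σ ^ p = 1) (F : X → k) (hF : ∀ x, F (σ x) = F x) :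
    ∑ x, F x = ∑ x ∈ Finset.univ.filter (fun x : X => σ x = x), F x := by
  classical
  have key : ∀ v : k, (((Finset.univ.filter (fun x : X => F x = v)).card : ℕ) : k) =
      (((Finset.univ.filter (fun x : X => σ x = x ∧ F x = v)).card : ℕ) : k) := by
    intro v
    have h1 : ∀ x : {x : X // F x = v}, F (σ x) = v := fun x => by rw [hF, x.2]
    have h1' : ∀ x : X, F x = v ↔ F (σ x) = v := fun x => by rw [hF]
    let τ : Equiv.Perm {x : X // F x = v} := σ.subtypePerm fun x => (h1' x).symm
    have hτ : τ ^ p = 1 := by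
      rw [Equiv.Perm.subtypePerm_pow]
      ext x
      simp [hσ]
    let τ' : Function.End {x : X // F x = v} := fun x => τ x
    have hend : ∀ n : ℕ, τ' ^ n = fun x => (τ ^ n : Equiv.Perm {x : X // F x = v}) x := by
      intro n
      induction n with
      | zero => rfl
      | succ n ih => rw [pow_succ, ih, pow_succ]; rfl
    have h2 := Equiv.Perm.card_fixedPoints_modEq (f := τ') (p := p) (n := 1)
      (by rw [pow_one, hend, hτ]; rfl)
    have h3 : Fintype.card {x : X // F x = v} = (Finset.univ.filter (fun x : X => F x = v)).card :=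
      Fintype.card_subtype _
    have h4 : Fintype.card (Function.fixedPoints τ') =
        (Finset.univ.filter (fun x : X => σ x = x ∧ F x = v)).card := by
      rw [← Fintype.card_subtype]
      exact Fintype.card_congr
        { toFun := fun x => ⟨x.1.1, congrArg Subtype.val x.2, x.1.2⟩
          invFun := fun x => ⟨⟨x.1, x.2.2⟩, Subtype.ext x.2.1⟩
          left_inv := fun x => rfl
          right_inv := fun x => rfl }
    rw [h3, h4] at h2
    exact (CharP.natCast_eq_natCast k p).2 h2
  have e1 : ∑ x, F x = ∑ v ∈ Finset.univ.image F,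
      ((Finset.univ.filter (fun x : X => F x = v)).card : k) * v := by
    rw [← Finset.sum_fiberwise_of_maps_to (s := Finset.univ) (t := Finset.univ.image F) (g := F)
      (fun x hx => Finset.mem_image_of_mem F hx)]
    refine Finset.sum_congr rfl fun v _ => ?_
    rw [Finset.sum_congr rfl (g := fun _ => v) (fun x hx => (Finset.mem_filter.mp hx).2),
      Finset.sum_const, nsmul_eq_mul]
  have e2 : ∑ x ∈ Finset.univ.filter (fun x : X => σ x = x), F x =
      ∑ v ∈ Finset.univ.image F,
      ((Finset.univ.filter (fun x : X => σ x = x ∧ F x = v)).card : k) * v := by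
    rw [← Finset.sum_fiberwise_of_maps_to
      (s := Finset.univ.filter (fun x : X => σ x = x)) (t := Finset.univ.image F) (g := F)
      (fun x _ => Finset.mem_image_of_mem F (Finset.mem_univ x))]
    refine Finset.sum_congr rfl fun v _ => ?_
    rw [Finset.sum_congr rfl (g := fun _ => v) (fun x hx => (Finset.mem_filter.mp hx).2),
      Finset.sum_const, nsmul_eq_mul, Finset.filter_filter]
  rw [e1, e2]
  exact Finset.sum_congr rfl fun v _ => by rw [key v]

/-- rotation of tuples -/
def rot (ι : Type*) (q : ℕ) : Equiv.Perm (Fin (q + 1) → ι) where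
  toFun v := fun i => v (i + 1)
  invFun v := fun i => v (i - 1)
  left_inv v := by funext i; simp
  right_inv v := by funext i; simp

theorem rot_pow (ι : Type*) (q n : ℕ) (v : Fin (q + 1) → ι) (i : Fin (q + 1)) :
    (rot ι q ^ n) v i = v (i + n • (1 : Fin (q + 1))) := by
  induction n generalizing v with
  | zero => simp
  | succ n ih =>
    rw [pow_succ, Equiv.Perm.mul_apply, ih]
    change v (i + n • (1 : Fin (q + 1)) + 1) = _
    rw [succ_nsmul, add_assoc]

theorem rot_pow_self (ι : Type*) (q : ℕ) : rot ι q ^ (q + 1) = 1 := by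
  apply Equiv.ext
  intro v
  funext i
  rw [rot_pow]
  have h : (q + 1) • (1 : Fin (q + 1)) = 0 := by
    have := card_nsmul_eq_zero' (x := (1 : Fin (q + 1)))
    rwa [Nat.card_eq_fintype_card, Fintype.card_fin] at this
  rw [h, add_zero]; rfl

theorem rot_fixed {ι : Type*} {q : ℕ} {v : Fin (q + 1) → ι} : rot ι q v = v ↔ ∃ i, v = fun _ => i := by
  constructor
  · intro h
    refine ⟨v 0, ?_⟩
    funext j
    induction j using Fin.induction with
    | zero => rfl
    | succ j ih =>
      have h1 := congrFun h j.castSucc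
      change v (j.castSucc + 1) = v j.castSucc at h1
      rw [← ih, ← h1, Fin.coeSucc_eq_succ]
  · rintro ⟨i, rfl⟩
    rfl

/-- `p`-th powers modulo commutators -/
theorem trace_sum_pow {ι A k : Type*} [Fintype ι] [Ring A] [CommRing k] {p : ℕ} [hp : Fact p.Prime]
    [CharP k p] (τ : A →+ k) (hτ : ∀ a b, τ (a * b) = τ (b * a)) (x : ι → A) :
    τ ((∑ i, x i) ^ p) = ∑ i, τ (x i ^ p) := by
  classical
  obtain ⟨q, rfl⟩ : ∃ q, p = q + 1 := Nat.exists_eq_succ_of_ne_zero hp.out.ne_zero
  rw [sum_pow_ofFn, map_sum, sum_perm (rot ι q) (rot_pow_self ι q)]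
  · have e : Finset.univ.filter (fun v : Fin (q + 1) → ι => rot ι q v = v) =
        Finset.univ.image (fun i : ι => fun _ : Fin (q + 1) => i) := by
      ext v
      simp only [Finset.mem_filter, Finset.mem_univ, true_and, Finset.mem_image, rot_fixed]
      exact ⟨fun ⟨a, h⟩ => ⟨a, h.symm⟩, fun ⟨a, h⟩ => ⟨a, h.symm⟩⟩
    rw [e, Finset.sum_image (fun i _ j _ h => congrFun h 0)]
    refine Finset.sum_congr rfl fun i _ => ?_
    rw [List.ofFn_const, List.prod_replicate]
  · intro v
    have h1 : (List.ofFn fun j => x (rot ι q v j)).prod = (List.ofFn fun j : Fin q => x (v j.succ)).prod * x (v 0) := by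
      rw [List.ofFn_succ', List.prod_concat]
      congr 1
      · congr 2
        funext j
        change x (v (j.castSucc + 1)) = _
        rw [Fin.coeSucc_eq_succ]
      · change x (v (Fin.last q + 1)) = _
        rw [Fin.last_add_one]
    rw [h1, hτ, List.ofFn_succ, List.prod_cons]

theorem exists_Q (G : Type*) [Group G] [Finite G] (p : ℕ) [hp : Fact p.Prime] : ∃ j, 0 < j ∧
    (∀ g : G, (orderOf (g ^ p ^ j)).Coprime p) ∧ (∀ g : G, (orderOf g).Coprime p → g ^ p ^ j = g) := by
  obtain ⟨e, m, hm, hG⟩ := Nat.exists_eq_pow_mul_and_not_dvd (n := Nat.card G) Nat.card_pos.ne' p hp.out.ne_one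
  have hcop : Nat.Coprime p m := (Nat.Prime.coprime_iff_not_dvd hp.out).2 hm
  have hmpos : 0 < m := Nat.pos_of_ne_zero fun h => hm (by rw [h]; exact dvd_zero p)
  have htot : 0 < m.totient := Nat.totient_pos.2 hmpos
  refine ⟨m.totient * (e + 1), by positivity, ?_, ?_⟩
  · intro g
    have h1 : orderOf (g ^ p ^ (m.totient * (e + 1))) ∣ m := by
      apply orderOf_dvd_of_pow_eq_one
      have h2 : Nat.card G ∣ p ^ (m.totient * (e + 1)) * m := by
        rw [hG]
        apply mul_dvd_mul_right
        apply pow_dvd_pow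
        nlinarith
      rw [← pow_mul]
      obtain ⟨c, hc⟩ := h2
      rw [hc, pow_mul, pow_card_eq_one', one_pow]
    exact Nat.Coprime.coprime_dvd_left h1 hcop.symm
  · intro g hg
    have h1 : orderOf g ∣ m := by
      have h2 : orderOf g ∣ p ^ e * m := by rw [← hG]; exact orderOf_dvd_natCard g
      exact (Nat.Coprime.pow_right e hg).dvd_of_dvd_mul_left h2
    have h3 : p ^ (m.totient * (e + 1)) ≡ 1 [MOD m] := by
      rw [pow_mul]
      have := (Nat.ModEq.pow_totient hcop).pow (e + 1)
      rwa [one_pow] at this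
    have h4 := h3.of_dvd h1
    conv_rhs => rw [← pow_one g]
    exact pow_eq_pow_iff_modEq.2 h4

section

variable {k G : Type*} [Field k] [Group G] [Fintype G]

/-- linear extension of a function -/
noncomputable def ex (φ : G → k) : MonoidAlgebra k G →ₗ[k] k where
  toFun a := ∑ g, a.coeff g * φ g
  map_add' a b := by
    simp only [MonoidAlgebra.coeff_add, Finsupp.add_apply, add_mul, Finset.sum_add_distrib]
  map_smul' c a := by
    simp only [MonoidAlgebra.coeff_smul, Finsupp.smul_apply, smul_eq_mul, mul_assoc, Finset.mul_sum,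
      RingHom.id_apply]

theorem ex_single (φ : G → k) (g : G) (c : k) : ex φ (single g c) = c * φ g := by
  classical
  change ∑ h, (single g c : MonoidAlgebra k G).coeff h * φ h = _
  rw [Finset.sum_eq_single g]
  · simp
  · intro h _ hne
    simp [Ne.symm hne]
  · intro h; exact absurd (Finset.mem_univ _) h

theorem ex_mul_comm {φ : G → k} (hφ : ∀ g h, φ (g * h) = φ (h * g)) (a b : MonoidAlgebra k G) :
    ex φ (a * b) = ex φ (b * a) := by
  induction a using MonoidAlgebra.induction_linear with
  | zero => rw [zero_mul, mul_zero]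
  | add a a' ha hb => rw [add_mul, mul_add, map_add, map_add, ha, hb]
  | single g c =>
    induction b using MonoidAlgebra.induction_linear with
    | zero => rw [zero_mul, mul_zero]
    | add a a' ha hb => rw [add_mul, mul_add, map_add, map_add, ha, hb]
    | single g' c' =>
      rw [MonoidAlgebra.single_mul_single, MonoidAlgebra.single_mul_single, ex_single, ex_single, hφ, mul_comm c]

theorem eq_sum_single (a : MonoidAlgebra k G) : a = ∑ g, single g (a.coeff g) := by
  conv_lhs => rw [← MonoidAlgebra.sum_coeff_single a]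
  rw [Finsupp.sum_fintype _ _ (fun _ => by simp)]

theorem ex_pow {p : ℕ} [hp : Fact p.Prime] [CharP k p] {φ : G → k} (hφ : ∀ g h, φ (g * h) = φ (h * g))
    (hφp : ∀ g, φ g ^ p = φ g) (a : MonoidAlgebra k G) :
    ex φ (a ^ p) = (ex (fun g => φ (g ^ p)) a) ^ p := by
  have h1 : ex φ (a ^ p) = ∑ g, ex φ ((single g (a.coeff g)) ^ p) := by
    conv_lhs => rw [eq_sum_single a]
    exact trace_sum_pow (ex φ).toAddMonoidHom (fun a b => ex_mul_comm hφ a b) _
  have h2 : (ex (fun g => φ (g ^ p)) a) ^ p = ∑ g, (a.coeff g * φ (g ^ p)) ^ p := by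
    change frobenius k p (∑ g, a.coeff g * φ (g ^ p)) = _
    rw [map_sum]; rfl
  rw [h1, h2]
  refine Finset.sum_congr rfl fun g _ => ?_
  rw [MonoidAlgebra.single_pow, ex_single, mul_pow, hφp]

theorem ex_pow_pow {p : ℕ} [hp : Fact p.Prime] [CharP k p] (n : ℕ) : ∀ {φ : G → k} (_ : ∀ g h, φ (g * h) = φ (h * g))
    (_ : ∀ g, φ g ^ p = φ g) (a : MonoidAlgebra k G),
    ex φ (a ^ p ^ n) = (ex (fun g => φ (g ^ p ^ n)) a) ^ p ^ n := by
  induction n with
  | zero => intro φ _ _ a; simp
  | succ n ih =>
    intro φ hφ hφp a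
    have hconj : ∀ g h : G, φ (h * g * h⁻¹) = φ g := fun g h => by
      rw [mul_assoc, hφ, mul_assoc, inv_mul_cancel, mul_one]
    have h1 : ∀ g h : G, φ ((g * h) ^ p) = φ ((h * g) ^ p) := by
      intro g h
      have : (g * h) ^ p = g * (h * g) ^ p * g⁻¹ := by
        rw [← conj_pow]; congr 1; group
      rw [this, hconj]
    have h2 := ih (φ := fun g => φ (g ^ p)) h1 (fun g => hφp _) a
    rw [pow_succ, pow_mul, ex_pow hφ hφp, h2, ← pow_mul]
    simp only [← pow_mul]

theorem ex_nilpotent {p : ℕ} [hp : Fact p.Prime] [CharP k p] {φ : G → k} (hφ : ∀ g h, φ (g * h) = φ (h * g))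
    (hφp : ∀ g, φ g ^ p = φ g) {j : ℕ} (hj : 0 < j) (hQ : ∀ g, φ (g ^ p ^ j) = φ g)
    {a : MonoidAlgebra k G} (ha : IsNilpotent a) : ex φ a = 0 := by
  obtain ⟨N, hN⟩ := ha
  have h1 : ∀ t, ∀ g, φ (g ^ p ^ (j * t)) = φ g := by
    intro t
    induction t with
    | zero => intro g; simp
    | succ t ih => intro g; rw [Nat.mul_succ, pow_add, pow_mul, hQ, ih]
  have h2 := ex_pow_pow (k := k) (j * N) hφ hφp a
  have h3 : a ^ p ^ (j * N) = 0 := by
    apply pow_eq_zero_of_le _ hN
    calc N ≤ j * N := Nat.le_mul_of_pos_left N hj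
      _ ≤ p ^ (j * N) := (Nat.lt_pow_self hp.out.one_lt).le
  simp only [h1] at h2
  rw [h3, map_zero] at h2
  exact pow_eq_zero_iff (pow_pos hp.out.pos _).ne' |>.1 h2.symm

theorem trace_unipotent_mul {p : ℕ} [hp : Fact p.Prime] [CharP k p] {d : ℕ} {A B : Matrix (Fin d) (Fin d) k}
    (hAB : A * B = B * A) {n : ℕ} (hB : B ^ p ^ n = 1) : (A * B).trace = A.trace := by
  have hn : IsNilpotent (B - 1) := by
    refine ⟨p ^ n, ?_⟩
    rcases isEmpty_or_nonempty (Fin d) with hd | hd
    · exact Subsingleton.elim _ _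
    · rw [sub_pow_char_pow_of_commute p n (Commute.one_right B), hB, one_pow, sub_self]
  have hc : Commute A (B - 1) := by
    change A * (B - 1) = (B - 1) * A
    rw [mul_sub, sub_mul, hAB, mul_one, one_mul]
  have h1 : IsNilpotent (A * (B - 1)) := hc.isNilpotent_mul_left hn
  have h2 : (A * (B - 1)).trace = 0 := (Matrix.isNilpotent_trace_of_isNilpotent h1).eq_zero
  rw [mul_sub, mul_one, Matrix.trace_sub, sub_eq_zero] at h2
  exact h2

/-- trace forms on products of matrix algebras -/
theorem trace_form {n : ℕ} {d : Fin n → ℕ} (hd : ∀ i, NeZero (d i))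
    (Φ : (∀ i, Matrix (Fin (d i)) (Fin (d i)) k) →ₗ[k] k) (hΦ : ∀ X Y, Φ (X * Y) = Φ (Y * X)) :
    ∃ γ : Fin n → k, ∀ X, Φ X = ∑ i, γ i * (X i).trace := by
  classical
  have hz : ∀ i, (0 : ℕ) < d i := fun i => Nat.pos_of_ne_zero (hd i).out
  have hs : ∀ i (A B : Matrix (Fin (d i)) (Fin (d i)) k), (Pi.single i A : ∀ i, Matrix (Fin (d i)) (Fin (d i)) k) *
      Pi.single i B = Pi.single i (A * B) := fun i A B =>
    (Pi.single_mul (α := fun i => Matrix (Fin (d i)) (Fin (d i)) k) i A B).symm
  have h1 : ∀ i (a b : Fin (d i)), a ≠ b → Φ (Pi.single i (Matrix.single a b 1)) = 0 := by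
    intro i a b hab
    have e1 : (Matrix.single a b 1 : Matrix (Fin (d i)) (Fin (d i)) k) = Matrix.single a a 1 * Matrix.single a b 1 := by
      rw [Matrix.single_mul_single_same, one_mul]
    have e2 : (Matrix.single a b 1 : Matrix (Fin (d i)) (Fin (d i)) k) * Matrix.single a a 1 = 0 := by
      rw [Matrix.single_mul_single_of_ne _ _ _ _ (Ne.symm hab)]
    rw [e1, ← hs, hΦ, hs, e2, Pi.single_zero, map_zero]
  have h2 : ∀ i (a b : Fin (d i)), Φ (Pi.single i (Matrix.single a a 1)) = Φ (Pi.single i (Matrix.single b b 1)) := by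
    intro i a b
    have e1 : (Matrix.single a a 1 : Matrix (Fin (d i)) (Fin (d i)) k) = Matrix.single a b 1 * Matrix.single b a 1 := by
      rw [Matrix.single_mul_single_same, one_mul]
    have e2 : (Matrix.single b b 1 : Matrix (Fin (d i)) (Fin (d i)) k) = Matrix.single b a 1 * Matrix.single a b 1 := by
      rw [Matrix.single_mul_single_same, one_mul]
    rw [e1, e2, ← hs, ← hs, hΦ]
  refine ⟨fun i => Φ (Pi.single i (Matrix.single ⟨0, hz i⟩ ⟨0, hz i⟩ 1)), fun B => ?_⟩
  have h3 : B = ∑ i, ∑ a, ∑ b, B i a b • (Pi.single i (Matrix.single a b 1) :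
      ∀ i, Matrix (Fin (d i)) (Fin (d i)) k) := by
    funext j
    rw [Finset.sum_apply, Finset.sum_eq_single j]
    · rw [Finset.sum_apply]
      conv_lhs => rw [Matrix.matrix_eq_sum_single (B j)]
      refine Finset.sum_congr rfl fun a _ => ?_
      rw [Finset.sum_apply]
      refine Finset.sum_congr rfl fun b _ => ?_
      rw [Pi.smul_apply, Pi.single_eq_same, Matrix.smul_single, smul_eq_mul, mul_one]
    · intro i _ hij
      rw [Finset.sum_apply]
      refine Finset.sum_eq_zero fun a _ => ?_
      rw [Finset.sum_apply]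
      refine Finset.sum_eq_zero fun b _ => ?_
      rw [Pi.smul_apply, Pi.single_eq_of_ne (Ne.symm hij), smul_zero]
    · intro h; exact absurd (Finset.mem_univ _) h
  conv_lhs => rw [h3]
  rw [map_sum]
  refine Finset.sum_congr rfl fun i _ => ?_
  rw [map_sum, Matrix.trace, Finset.mul_sum]
  refine Finset.sum_congr rfl fun a _ => ?_
  rw [map_sum, Finset.sum_eq_single a]
  · rw [map_smul, h2 i a ⟨0, hz i⟩, smul_eq_mul, mul_comm]; rfl
  · intro b _ hb
    rw [map_smul, h1 i a b (Ne.symm hb), smul_zero]
  · intro h; exact absurd (Finset.mem_univ _) h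

/-- **Brauer's theorem**: the number of irreducible modular representations is the number of
`p`-regular classes -/
theorem Wed.card_classes (W : Wed k G) (p : ℕ) [hp : Fact p.Prime] [CharP k p] :
    Nat.card {c : ConjClasses G // ∃ g : G, ConjClasses.mk g = c ∧ (orderOf g).Coprime p} = W.n := by
  classical
  obtain ⟨j, hj, hQ1, hQ2⟩ := exists_Q G p
  set C := {c : ConjClasses G // ∃ g : G, ConjClasses.mk g = c ∧ (orderOf g).Coprime p}
  let rep : C → G := fun c => c.2.choose
  have hrep : ∀ c : C, ConjClasses.mk (rep c) = c.1 := fun c => c.2.choose_spec.1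
  have hrep2 : ∀ c : C, (orderOf (rep c)).Coprime p := fun c => c.2.choose_spec.2
  have htr : ∀ i (g h : G), (W.rho i (g * h)).trace = (W.rho i (h * g)).trace := by
    intro i g h
    rw [map_mul, map_mul, Matrix.trace_mul_comm]
  have htrc : ∀ i (g h : G), IsConj g h → (W.rho i g).trace = (W.rho i h).trace := by
    intro i g h hgh
    obtain ⟨c, hc⟩ := isConj_iff.1 hgh
    rw [← hc, htr, ← mul_assoc, inv_mul_cancel, one_mul]
  have htrQ : ∀ i (g : G), (W.rho i g).trace = (W.rho i (g ^ p ^ j)).trace := by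
    intro i g
    have hQQ : (g ^ p ^ j) ^ p ^ j = g ^ p ^ j := hQ2 _ (hQ1 g)
    have e1 : W.rho i g = W.rho i (g ^ p ^ j) * W.rho i (g * (g ^ p ^ j)⁻¹) := by
      rw [← map_mul]
      congr 1
      have hc : Commute g (g ^ p ^ j) := Commute.self_pow g _
      rw [← mul_assoc, ← hc.eq, mul_inv_cancel_right]
    rw [e1]
    apply trace_unipotent_mul (p := p) (n := j)
    · rw [← map_mul, ← map_mul]
      congr 1
      have hc : Commute g (g ^ p ^ j) := Commute.self_pow g _
      rw [← mul_assoc, ← hc.eq]; group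
    · rw [← map_pow]
      have hc : Commute g (g ^ p ^ j)⁻¹ := (Commute.self_pow g _).inv_right
      rw [hc.mul_pow, inv_pow, hQQ, mul_inv_cancel, map_one]
  let Θ : (Fin W.n → k) →ₗ[k] (C → k) :=
    { toFun := fun γ c => ∑ i, γ i * (W.rho i (rep c)).trace
      map_add' := fun γ γ' => by
        funext c
        simp only [Pi.add_apply, add_mul, Finset.sum_add_distrib]
      map_smul' := fun r γ => by
        funext c
        simp only [Pi.smul_apply, smul_eq_mul, mul_assoc, Finset.mul_sum, RingHom.id_apply] }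
  have hΘ : ∀ γ c, Θ γ c = ∑ i, γ i * (W.rho i (rep c)).trace := fun _ _ => rfl
  have hcls : ∀ g : G, ∃ c : C, IsConj (rep c) (g ^ p ^ j) := by
    intro g
    refine ⟨⟨ConjClasses.mk (g ^ p ^ j), _, rfl, hQ1 g⟩, ?_⟩
    exact ConjClasses.mk_eq_mk_iff_isConj.1 (hrep _)
  have hinj : Function.Injective Θ := by
    rw [← LinearMap.ker_eq_bot, LinearMap.ker_eq_bot']
    intro γ hγ
    have h1 : ∀ g : G, ∑ i, γ i * (W.rho i g).trace = 0 := by
      intro g
      obtain ⟨c, hc⟩ := hcls g
      have h2 := congrFun hγ c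
      rw [hΘ] at h2
      rw [← Pi.zero_apply (M := fun _ : C => k) c, ← h2]
      refine Finset.sum_congr rfl fun i _ => ?_
      rw [htrQ i g, htrc i _ _ hc]
    have h2 : ∀ a : MonoidAlgebra k G, ∑ i, γ i * (W.f a i).trace = 0 := by
      intro a
      induction a using MonoidAlgebra.induction_linear with
      | zero => simp
      | add a b ha hb =>
        simp only [map_add, Pi.add_apply, Matrix.trace_add, mul_add, Finset.sum_add_distrib, ha, hb, add_zero]
      | single g c =>
        have e : (single g c : MonoidAlgebra k G) = c • single g 1 := by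
          rw [MonoidAlgebra.smul_single, smul_eq_mul, mul_one]
        rw [e, map_smul]
        have h3 := congrArg (fun x => c * x) (h1 g)
        simp only [mul_zero] at h3
        rw [← h3, Finset.mul_sum]
        refine Finset.sum_congr rfl fun i _ => ?_
        rw [Pi.smul_apply, Matrix.trace_smul, smul_eq_mul, Wed.rho_apply]; ring
    funext i
    obtain ⟨a, ha⟩ := W.surj (Pi.single i (Matrix.single ⟨0, Nat.pos_of_ne_zero (W.hd i).out⟩
      ⟨0, Nat.pos_of_ne_zero (W.hd i).out⟩ 1))
    have h3 := h2 a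
    rw [ha, Finset.sum_eq_single i] at h3
    · rw [Pi.single_eq_same, Matrix.trace_single_eq_same, mul_one] at h3
      exact h3
    · intro b _ hb
      rw [Pi.single_eq_of_ne hb, Matrix.trace_zero, mul_zero]
    · intro h; exact absurd (Finset.mem_univ _) h
  have hsurj : Function.Surjective Θ := by
    rw [← LinearMap.range_eq_top, eq_top_iff]
    intro φ _
    have hφ : φ = ∑ c, φ c • (Pi.single c 1 : C → k) := by
      funext c
      rw [Finset.sum_apply, Finset.sum_eq_single c]
      · simp
      · intro b _ hb; simp [Pi.single_eq_of_ne (Ne.symm hb)]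
      · intro h; exact absurd (Finset.mem_univ _) h
    rw [hφ]
    refine Submodule.sum_mem _ fun c _ => Submodule.smul_mem _ _ ?_
    -- the section function
    let χ : G → k := fun g => if IsConj (rep c) (g ^ p ^ j) then 1 else 0
    have hχ : ∀ g h, χ (g * h) = χ (h * g) := by
      intro g h
      have e : IsConj ((g * h) ^ p ^ j) ((h * g) ^ p ^ j) := by
        refine isConj_iff.2 ⟨g⁻¹, ?_⟩
        rw [← conj_pow]; congr 1; group
      change (if _ then _ else _) = (if _ then _ else _)
      congr 1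
      exact propext ⟨fun h1 => h1.trans e, fun h1 => h1.trans e.symm⟩
    have hχp : ∀ g, χ g ^ p = χ g := by
      intro g
      change (if _ then _ else _) ^ p = (if _ then _ else _)
      split_ifs
      · rw [one_pow]
      · rw [zero_pow hp.out.ne_zero]
    have hχQ : ∀ g, χ (g ^ p ^ j) = χ g := by
      intro g
      change (if IsConj (rep c) ((g ^ p ^ j) ^ p ^ j) then _ else _) = _
      rw [hQ2 _ (hQ1 g)]
    have hker : ∀ a, W.f a = 0 → ex χ a = 0 := by
      intro a ha
      apply ex_nilpotent hχ hχp hj hχQ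
      refine ⟨W.N, ?_⟩
      have h1 := Ideal.pow_mem_pow (RingHom.mem_ker.2 ha : a ∈ RingHom.ker W.f) W.N
      rw [W.nil] at h1
      exact h1
    obtain ⟨Φ, hΦ⟩ := exists_factor W.f.toLinearMap W.surj (ex χ) hker
    have hΦ' : ∀ a, ex χ a = Φ (W.f a) := hΦ
    obtain ⟨γ, hγ⟩ := trace_form W.hd Φ (fun X Y => by
      obtain ⟨a, rfl⟩ := W.surj X
      obtain ⟨b, rfl⟩ := W.surj Y
      rw [← map_mul, ← map_mul, ← hΦ', ← hΦ', ex_mul_comm hχ])
    refine ⟨γ, ?_⟩
    funext c'
    rw [hΘ]
    have h1 := hΦ' (single (rep c') 1)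
    rw [ex_single, one_mul, hγ] at h1
    have h2 : ∑ i, γ i * (W.rho i (rep c')).trace = χ (rep c') := h1.symm
    rw [h2]
    change (if IsConj (rep c) ((rep c') ^ p ^ j) then _ else _) = _
    rw [hQ2 _ (hrep2 c'), Pi.single_apply]
    congr 1
    apply propext
    constructor
    · intro h3
      apply Subtype.ext
      rw [← hrep c, ← hrep c']
      exact (ConjClasses.mk_eq_mk_iff_isConj.2 h3).symm
    · rintro rfl; exact IsConj.refl _
  have e := LinearEquiv.ofBijective Θ ⟨hinj, hsurj⟩
  have h1 := e.finrank_eq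
  rw [Module.finrank_fintype_fun_eq_card, Module.finrank_fintype_fun_eq_card, Fintype.card_fin] at h1
  rw [Nat.card_eq_fintype_card, h1]

end

end Cfsg.Agent.H6.CR
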