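import Mathlib
import Cfsg.Agent.H6_CR2

/-!
Modular representations over algebraically closed fields, part 3: fixed vectors of `p`-groups,
common eigenvectors, matrix coefficients.
-/

set_option autoImplicit false
set_option linter.unusedSectionVars false

namespace Cfsg.Agent.H6.CR

open MonoidAlgebra

/-- a finite `p`-group acting linearly in characteristic `p` fixes a nonzero vector -/
theorem exists_fixed {k U V : Type*} [Field k] [Group U] [Finite U] [AddCommGroup V] [Module k V] [Nontrivial V]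
    {p : ℕ} [hp : Fact p.Prime] [CharP k p] (hU : IsPGroup p U) (ρ : U →* Module.End k V) :
    ∃ v : V, v ≠ 0 ∧ ∀ u, ρ u v = v := by
  classical
  let := ZMod.algebra k p
  let : Module (ZMod p) V := Module.compHom V (algebraMap (ZMod p) k)
  obtain ⟨v, hv⟩ := exists_ne (0 : V)
  let A : Submodule (ZMod p) V := Submodule.span (ZMod p) (Set.range fun u => ρ u v)
  have hfin : Module.Finite (ZMod p) A := Module.Finite.iff_fg.2 (Submodule.fg_span (Set.finite_range _))
  have : Finite A := Module.finite_of_finite (ZMod p)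
  have hsm : ∀ (c : ZMod p) (x : V), c • x = (algebraMap (ZMod p) k c) • x := fun _ _ => rfl
  have hinv : ∀ u, ∀ x ∈ A, ρ u x ∈ A := by
    intro u x hx
    induction hx using Submodule.span_induction with
    | mem x h =>
      obtain ⟨u', rfl⟩ := h
      have : ρ u (ρ u' v) = ρ (u * u') v := by rw [map_mul]; rfl
      change ρ u (ρ u' v) ∈ A
      rw [this]
      exact Submodule.subset_span ⟨_, rfl⟩
    | zero => rw [map_zero]; exact zero_mem _
    | add x y _ _ hx hy => rw [map_add]; exact add_mem hx hy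
    | smul c x _ hx => rw [hsm, map_smul, ← hsm]; exact Submodule.smul_mem _ _ hx
  let act : MulAction U A :=
    { smul := fun u x => ⟨ρ u x.1, hinv u x.1 x.2⟩
      one_smul := fun x => Subtype.ext (by change ρ 1 x.1 = x.1; rw [map_one]; rfl)
      mul_smul := fun a b x => Subtype.ext (by change ρ (a * b) x.1 = ρ a (ρ b x.1); rw [map_mul]; rfl) }
  have hvA : v ∈ A := Submodule.subset_span ⟨1, by simp⟩
  have : Nontrivial A := ⟨⟨0, ⟨v, hvA⟩, fun h => hv (congrArg Subtype.val h).symm⟩⟩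
  have hcard : p ∣ Nat.card A := by
    have h2 := Module.natCard_eq_pow_finrank (K := ZMod p) (V := A)
    rw [h2, Nat.card_zmod]
    exact dvd_pow_self _ (Module.finrank_pos (R := ZMod p) (M := A)).ne'
  obtain ⟨b, hb, hb0⟩ := hU.exists_fixed_point_of_prime_dvd_card_of_fixed_point A hcard (a := (0 : A))
    (fun u => Subtype.ext (map_zero (ρ u)))
  exact ⟨b.1, fun h => hb0 (Subtype.ext h.symm), fun u => congrArg Subtype.val (hb u)⟩

/-- commuting endomorphisms have a common eigenvector -/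
theorem exists_common {k V ι : Type*} [Field k] [IsAlgClosed k] [AddCommGroup V] [Module k V]
    [FiniteDimensional k V] (T : ι → Module.End k V) (hT : ∀ i j x, T i (T j x) = T j (T i x))
    {W : Submodule k V} (hW : W ≠ ⊥) (hinv : ∀ i, ∀ x ∈ W, T i x ∈ W) :
    ∃ w ∈ W, w ≠ 0 ∧ ∀ i, ∃ c : k, T i w = c • w := by
  obtain ⟨W₀, ⟨hW₀, hW₀', hW₀''⟩, hmin⟩ := exists_minimal_of_wellFoundedLT
    (fun W' : Submodule k V => W' ≤ W ∧ W' ≠ ⊥ ∧ ∀ i, ∀ x ∈ W', T i x ∈ W') ⟨W, le_rfl, hW, hinv⟩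
  obtain ⟨w, hw, hw0⟩ := Submodule.exists_mem_ne_zero_of_ne_bot hW₀'
  refine ⟨w, hW₀ hw, hw0, fun i => ?_⟩
  have : Nontrivial W₀ := ⟨⟨0, ⟨w, hw⟩, fun h => hw0 (congrArg Subtype.val h).symm⟩⟩
  obtain ⟨c, hc⟩ := Module.End.exists_eigenvalue ((T i).restrict (hW₀'' i))
  obtain ⟨x, hx⟩ := hc.exists_hasEigenvector
  refine ⟨c, ?_⟩
  have h1 : (W₀ ⊓ LinearMap.ker (T i - c • 1) : Submodule k V) ≤ W₀ := inf_le_left
  have hx1 : T i x.1 = c • x.1 := congrArg Subtype.val hx.apply_eq_smul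
  have h2 := hmin (y := W₀ ⊓ LinearMap.ker (T i - c • 1)) ⟨h1.trans hW₀, ?_, ?_⟩ h1
  · have h3 := LinearMap.mem_ker.1 (h2 hw).2
    rw [LinearMap.sub_apply, sub_eq_zero] at h3
    exact h3
  · intro h
    have h3 : x.1 ∈ (W₀ ⊓ LinearMap.ker (T i - c • 1) : Submodule k V) := by
      refine Submodule.mem_inf.2 ⟨x.2, ?_⟩
      rw [LinearMap.mem_ker, LinearMap.sub_apply, sub_eq_zero]
      exact hx1
    rw [h, Submodule.mem_bot] at h3
    exact hx.2 (Subtype.ext h3)
  · intro j y hy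
    refine Submodule.mem_inf.2 ⟨hW₀'' j y hy.1, ?_⟩
    have h3 := LinearMap.mem_ker.1 hy.2
    apply LinearMap.mem_ker.2
    rw [LinearMap.sub_apply, sub_eq_zero] at h3 ⊢
    change T i y = c • y at h3
    change T i (T j y) = c • T j y
    rw [hT, h3, map_smul]

/-- a non-nilpotent endomorphism has a nonzero eigenvalue -/
theorem exists_eigen {k V : Type*} [Field k] [IsAlgClosed k] [AddCommGroup V] [Module k V]
    [FiniteDimensional k V] (T : Module.End k V) {M : Submodule k V} (hM : ∀ x ∈ M, T x ∈ M) {x : V}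
    (hx : x ∈ M) (hx0 : ∀ n : ℕ, (T ^ n) x ≠ 0) : ∃ c : k, c ≠ 0 ∧ ∃ y ∈ M, y ≠ 0 ∧ T y = c • y := by
  by_contra hc
  push Not at hc
  let T' : Module.End k M := T.restrict hM
  have h1 : ∀ c, c ≠ 0 → T'.maxGenEigenspace c = ⊥ := by
    intro c hc0
    by_contra h
    have h2 : T'.HasUnifEigenvalue c ⊤ := h
    have h3 := (Module.End.hasUnifEigenvalue_iff_hasUnifEigenvalue_one (by simp)).1 h2
    obtain ⟨y, hy⟩ := h3.exists_hasUnifEigenvector
    have h4 := hy.apply_eq_smul
    exact hc c hc0 y.1 y.2 (fun h => hy.2 (Subtype.ext h)) (congrArg Subtype.val h4)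
  have h2 := Module.End.iSup_maxGenEigenspace_eq_top T'
  have h3 : T'.maxGenEigenspace 0 = ⊤ := by
    rw [eq_top_iff, ← h2]
    refine iSup_le fun c => ?_
    by_cases hc0 : c = 0
    · rw [hc0]
    · rw [h1 c hc0]; exact bot_le
  have h4 : (⟨x, hx⟩ : M) ∈ T'.maxGenEigenspace 0 := by rw [h3]; trivial
  rw [Module.End.mem_maxGenEigenspace] at h4
  obtain ⟨n, hn⟩ := h4
  rw [zero_smul, sub_zero] at hn
  have h5 : ∀ n, ((T' ^ n) ⟨x, hx⟩).1 = (T ^ n) x := by
    intro n
    induction n with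
    | zero => rfl
    | succ n ih =>
      rw [pow_succ', pow_succ']
      change T ((T' ^ n) ⟨x, hx⟩).1 = T ((T ^ n) x)
      rw [ih]
  apply hx0 n
  rw [← h5, hn]; rfl

end Cfsg.Agent.H6.CR
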