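import Mathlib
import Cfsg.Agent.H6_CR3

/-!
Modular representations of groups with a split BN-pair in the defining characteristic, part 4:
Hecke operators on functions.
-/

set_option autoImplicit false
set_option linter.unusedSectionVars false

namespace Cfsg.Agent.H6.CR

/-- the data of a split BN-pair used in the classification of modular representations -/
structure BNS (G F J : Type*) [Group G] [Field F] where
  U : Subgroup G
  H : Subgroup G
  N : Subgroup G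
  X : J → F → G
  n : J → G
  h : J → Fˣ →* G
  pos : G → J → Prop
  len : G → ℕ
  HN : H ≤ N
  hUH : ∀ a ∈ H, ∀ u ∈ U, a * u * a⁻¹ ∈ U
  Hcomm : ∀ a ∈ H, ∀ b ∈ H, a * b = b * a
  n_mem : ∀ j, n j ∈ N
  h_mem : ∀ j t, h j t ∈ H
  bruhat : ∀ g, ∃ u ∈ U, ∃ x ∈ N, ∃ u' ∈ U, g = u * x * u'
  bruhat_unique : ∀ x ∈ N, ∀ y ∈ N, ∀ u ∈ U, ∀ u' ∈ U, u * x * u' = y → x = y
  shift : ∀ j, ∀ u ∈ U, ∃ s, ∀ t, ∃ u' ∈ U, u * X j t * n j = X j (s + t) * n j * u'
  X_zero : ∀ j, X j 0 = 1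
  hX : ∀ j, ∀ a ∈ H, ∃ c : Fˣ, ∀ t, a * X j t = X j (c * t) * a
  hn : ∀ j, ∀ a ∈ H, ∃ t : Fˣ, (n j)⁻¹ * a * n j = a * h j t
  posX : ∀ j, ∀ x ∈ N, pos x j → ∀ t, ∃ u ∈ U, x * X j t = u * x
  negX : ∀ j, ∀ x ∈ N, ¬ pos x j → ∀ t : Fˣ, ∃ u ∈ U, ∃ u' ∈ U, x * X j t * n j = u * (x * h j (-t)) * u'
  pos_n : ∀ j, ∀ x ∈ N, (pos (x * n j) j ↔ ¬ pos x j)
  pos_H : ∀ j, ∀ x ∈ N, ∀ a ∈ H, (pos (x * a) j ↔ pos x j)
  len_n : ∀ j, ∀ x ∈ N, ¬ pos x j → len (x * n j) < len x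
  len_H : ∀ x ∈ N, ∀ a ∈ H, len (x * a) = len x
  longest : ∀ x ∈ N, ∀ y ∈ N, (∀ j, ¬ pos x j) → (∀ j, ¬ pos y j) → x⁻¹ * y ∈ H
  exists_K : ∀ K : Set J, ∃ x ∈ N, ∀ j, (pos x j ↔ j ∉ K)

theorem sum_units {F M : Type*} [Field F] [Fintype F] [DecidableEq F] [AddCommMonoid M] (φ : F → M) :
    ∑ t, φ t = φ 0 + ∑ t : Fˣ, φ t := by
  have h : (Finset.univ : Finset F) = insert 0 (Finset.univ.map ⟨fun t : Fˣ => (t : F), Units.val_injective⟩) := by
    ext x
    simp only [Finset.mem_univ, Finset.mem_insert, Finset.mem_map, true_and, Function.Embedding.coeFn_mk, true_iff]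
    by_cases hx : x = 0
    · exact Or.inl hx
    · exact Or.inr ⟨Units.mk0 x hx, rfl⟩
  rw [h, Finset.sum_insert, Finset.sum_map]
  · rfl
  · simp

namespace BNS

variable {G F J : Type*} [Group G] [Field F] [Fintype F] [DecidableEq F] (S : BNS G F J)

section

variable {k : Type*} [Field k]

/-- Hecke operator -/
def R (k : Type*) [Field k] (j : J) : Module.End k (G → k) where
  toFun f := fun g => ∑ t, f (g * S.X j t * S.n j)
  map_add' f f' := by funext g; simp only [Pi.add_apply, Finset.sum_add_distrib]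
  map_smul' c f := by funext g; simp only [Pi.smul_apply, smul_eq_mul, Finset.mul_sum, RingHom.id_apply]

theorem R_apply (j : J) (f : G → k) (g : G) : S.R k j f g = ∑ t, f (g * S.X j t * S.n j) := rfl

theorem R_lt (j : J) (g : G) (f : G → k) : S.R k j (lt k G g f) = lt k G g (S.R k j f) := by
  funext x
  rw [R_apply, lt_apply, R_apply]
  refine Finset.sum_congr rfl fun t _ => ?_
  rw [lt_apply]
  simp only [mul_assoc]

def RU (f : G → k) : Prop := ∀ g, ∀ u ∈ S.U, f (g * u) = f g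
def LU (f : G → k) : Prop := ∀ g, ∀ u ∈ S.U, f (u * g) = f g
def Eig (χ : S.H →* kˣ) (f : G → k) : Prop := ∀ g, ∀ a : S.H, f (g * a) = (((χ a)⁻¹ : kˣ) : k) * f g

/-- the coroot character is trivial -/
def I (χ : S.H →* kˣ) (j : J) : Prop := ∀ t : Fˣ, χ ⟨S.h j t, S.h_mem j t⟩ = 1

variable {S}

theorem RU.R {f : G → k} (hf : S.RU f) (j : J) : S.RU (S.R k j f) := by
  intro g u hu
  obtain ⟨s, hs⟩ := S.shift j u hu
  rw [R_apply, R_apply, ← Equiv.sum_comp (Equiv.addLeft s) (fun t => f (g * S.X j t * S.n j))]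
  refine Finset.sum_congr rfl fun t _ => ?_
  obtain ⟨u', hu', h⟩ := hs t
  have e : g * u * S.X j t * S.n j = g * S.X j (s + t) * S.n j * u' := by
    rw [mul_assoc g, mul_assoc g, h]
    simp only [mul_assoc]
  rw [e, hf _ _ hu']; rfl

theorem LU.R {f : G → k} (hf : S.LU f) (j : J) : S.LU (S.R k j f) := by
  intro g u hu
  rw [R_apply, R_apply]
  refine Finset.sum_congr rfl fun t _ => ?_
  rw [mul_assoc u, mul_assoc u, hf _ _ hu]

theorem R_pos (hq : (Fintype.card F : k) = 0) {f : G → k} (h2 : S.LU f) {j : J} {x : G}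
    (hx : x ∈ S.N) (hp : S.pos x j) : S.R k j f x = 0 := by
  rw [R_apply]
  have h3 : ∀ t, f (x * S.X j t * S.n j) = f (x * S.n j) := by
    intro t
    obtain ⟨u, hu, h⟩ := S.posX j x hx hp t
    rw [h, mul_assoc, h2 _ _ hu]
  simp only [h3, Finset.sum_const, Finset.card_univ, nsmul_eq_mul, hq, zero_mul]

variable (S) in
/-- the sum of a coroot character -/
def cc (χ : S.H →* kˣ) (j : J) : k := ∑ t : Fˣ, (((χ ⟨S.h j t, S.h_mem j t⟩)⁻¹ : kˣ) : k)

theorem cc_of_I (hq : (Fintype.card F : k) = 0) {χ : S.H →* kˣ} {j : J} (h : S.I χ j) : S.cc χ j = -1 := by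
  unfold cc
  simp only [h _, inv_one, Units.val_one, Finset.sum_const, Finset.card_univ, nsmul_eq_mul, mul_one]
  rw [Fintype.card_units, Nat.cast_sub Fintype.card_pos, hq, Nat.cast_one, zero_sub]

theorem cc_of_not_I {χ : S.H →* kˣ} {j : J} (h : ¬ S.I χ j) : S.cc χ j = 0 := by
  unfold I at h
  push Not at h
  obtain ⟨t₀, ht₀⟩ := h
  have h1 : (((χ ⟨S.h j t₀, S.h_mem j t₀⟩)⁻¹ : kˣ) : k) * S.cc χ j = S.cc χ j := by
    unfold cc
    rw [Finset.mul_sum, ← Equiv.sum_comp (Equiv.mulLeft t₀) (fun t => (((χ ⟨S.h j t, S.h_mem j t⟩)⁻¹ : kˣ) : k))]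
    refine Finset.sum_congr rfl fun t _ => ?_
    have e : (⟨S.h j (t₀ * t), S.h_mem j _⟩ : S.H) = ⟨S.h j t₀, S.h_mem j _⟩ * ⟨S.h j t, S.h_mem j _⟩ :=
      Subtype.ext (map_mul _ _ _)
    rw [Equiv.coe_mulLeft, e, map_mul, mul_inv, Units.val_mul]
  have h2 : ((((χ ⟨S.h j t₀, S.h_mem j t₀⟩)⁻¹ : kˣ) : k) - 1) * S.cc χ j = 0 := by
    rw [sub_mul, one_mul, h1, sub_self]
  rcases mul_eq_zero.1 h2 with h3 | h3
  · exact absurd (inv_eq_one.1 (Units.ext (sub_eq_zero.1 h3))) ht₀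
  · exact h3

theorem R_neg {f : G → k} (h1 : S.RU f) (h2 : S.LU f) {χ : S.H →* kˣ} (h3 : S.Eig χ f) {j : J} {x : G}
    (hx : x ∈ S.N) (hp : ¬ S.pos x j) : S.R k j f x = f (x * S.n j) + S.cc χ j * f x := by
  rw [R_apply, sum_units, S.X_zero, mul_one]
  congr 1
  unfold cc
  rw [Finset.sum_mul, ← Equiv.sum_comp (Equiv.neg Fˣ) (fun t : Fˣ => f (x * S.X j t * S.n j))]
  refine Finset.sum_congr rfl fun t _ => ?_
  rw [Equiv.neg_apply]
  obtain ⟨u, hu, u', hu', h⟩ := S.negX j x hx hp (-t)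
  rw [h, neg_neg, h1 _ _ hu', h2 _ _ hu]
  exact h3 x ⟨S.h j t, S.h_mem j t⟩

/-- conjugated character -/
def cj (χ : S.H →* kˣ) (j : J) : S.H →* kˣ where
  toFun a := χ ⟨(S.n j)⁻¹ * a * S.n j, by
    obtain ⟨t, ht⟩ := S.hn j a a.2
    rw [ht]; exact mul_mem a.2 (S.h_mem j t)⟩
  map_one' := by
    rw [← map_one χ]; congr 1; apply Subtype.ext; simp
  map_mul' a b := by
    rw [← map_mul]; congr 1; apply Subtype.ext
    change (S.n j)⁻¹ * (a * b) * S.n j = (S.n j)⁻¹ * a * S.n j * ((S.n j)⁻¹ * b * S.n j)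
    group

theorem cj_of_I {χ : S.H →* kˣ} {j : J} (h : S.I χ j) : cj χ j = χ := by
  ext a
  obtain ⟨t, ht⟩ := S.hn j a a.2
  have e : (⟨(S.n j)⁻¹ * a * S.n j, by rw [ht]; exact mul_mem a.2 (S.h_mem j t)⟩ : S.H) = a * ⟨S.h j t, S.h_mem j t⟩ :=
    Subtype.ext ht
  change ((χ ⟨(S.n j)⁻¹ * a * S.n j, _⟩ : kˣ) : k) = _
  rw [e, map_mul, h t, mul_one]

theorem Eig.R {f : G → k} {χ : S.H →* kˣ} (h3 : S.Eig χ f) (j : J) : S.Eig (cj χ j) (S.R k j f) := by
  intro g a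
  obtain ⟨c, hc⟩ := S.hX j a a.2
  rw [R_apply, R_apply, Finset.mul_sum, ← Equiv.sum_comp (Units.mulLeft c) (fun t => _ * f (g * S.X j t * S.n j))]
  refine Finset.sum_congr rfl fun t _ => ?_
  have hm : (S.n j)⁻¹ * a * S.n j ∈ S.H := by
    obtain ⟨t, ht⟩ := S.hn j a a.2
    rw [ht]; exact mul_mem a.2 (S.h_mem j t)
  have e : g * a * S.X j t * S.n j = g * S.X j (c * t) * S.n j * ((S.n j)⁻¹ * a * S.n j) := by
    rw [mul_assoc g, hc]; group
  rw [e]
  exact h3 _ ⟨_, hm⟩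

/-- a bi-invariant eigenfunction vanishing on the longest element is zero -/
theorem eq_zero_of_longest [Finite G] {f : G → k} (h1 : S.RU f) (h2 : S.LU f)
    {χ : S.H →* kˣ} (h3 : S.Eig χ f) {r : J → k} (hr : ∀ j, S.R k j f = r j • f) {x₀ : G} (hx₀ : x₀ ∈ S.N)
    (hx₀' : ∀ j, ¬ S.pos x₀ j) (h0 : f x₀ = 0) : f = 0 := by
  have h4 : ∀ x ∈ S.N, f x = 0 := by
    -- induction on the length
    obtain ⟨M, hM⟩ : ∃ M, ∀ x : G, S.len x ≤ M := by
      obtain ⟨M, hM⟩ := (Set.finite_range S.len).bddAbove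
      exact ⟨M, fun x => hM ⟨x, rfl⟩⟩
    have key : ∀ m, ∀ x ∈ S.N, M - S.len x = m → f x = 0 := by
      intro m
      induction m using Nat.strong_induction_on with
      | _ m ih =>
        intro x hx hxm
        by_cases hp : ∀ j, ¬ S.pos x j
        · have h5 := S.longest x₀ hx₀ x hx hx₀' hp
          have h6 := h3 x₀ ⟨_, h5⟩
          rw [h0, mul_zero] at h6
          change f (x₀ * (x₀⁻¹ * x)) = 0 at h6
          rwa [mul_inv_cancel_left] at h6
        · push Not at hp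
          obtain ⟨j, hj⟩ := hp
          have hy : x * (S.n j)⁻¹ ∈ S.N := mul_mem hx (inv_mem (S.n_mem j))
          have hyn : x * (S.n j)⁻¹ * S.n j = x := by group
          have hyp : ¬ S.pos (x * (S.n j)⁻¹) j := by
            rw [← S.pos_n j _ hy, hyn]; exact hj
          have hl := S.len_n j _ hy hyp
          rw [hyn] at hl
          have h5 := ih (M - S.len (x * (S.n j)⁻¹)) (by have := hM (x * (S.n j)⁻¹); omega) _ hy rfl
          have h6 := R_neg h1 h2 h3 hy hyp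
          rw [hr, Pi.smul_apply, h5, smul_zero, mul_zero, add_zero, hyn] at h6
          exact h6.symm
    exact fun x hx => key _ x hx rfl
  funext g
  obtain ⟨u, hu, x, hx, u', hu', rfl⟩ := S.bruhat g
  rw [h1 _ _ hu', h2 _ _ hu, h4 x hx]; rfl

/-- the possible eigenvalues of the Hecke operators -/
theorem eigenvalue (hq : (Fintype.card F : k) = 0) {f : G → k} (h1 : S.RU f) (h2 : S.LU f)
    {χ : S.H →* kˣ} (h3 : S.Eig χ f) {j : J} {r : k} (hr : S.R k j f = r • f) (hf : f ≠ 0) :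
    r = 0 ∨ r = S.cc χ j := by
  by_contra hc
  push Not at hc
  apply hf
  have hpos : ∀ x ∈ S.N, S.pos x j → f x = 0 := by
    intro x hx hp
    have h4 := R_pos hq h2 hx hp
    rw [hr, Pi.smul_apply, smul_eq_mul] at h4
    exact (mul_eq_zero.1 h4).resolve_left hc.1
  have h4 : ∀ x ∈ S.N, f x = 0 := by
    intro x hx
    by_cases hp : S.pos x j
    · exact hpos x hx hp
    · have h5 := R_neg h1 h2 h3 hx hp
      rw [hpos _ (mul_mem hx (S.n_mem j)) ((S.pos_n j x hx).2 hp), zero_add, hr, Pi.smul_apply, smul_eq_mul] at h5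
      by_contra hfx
      exact hc.2 (mul_right_cancel₀ hfx h5)
  funext g
  obtain ⟨u, hu, x, hx, u', hu', rfl⟩ := S.bruhat g
  rw [h1 _ _ hu', h2 _ _ hu, h4 x hx]; rfl

end

end BNS

end Cfsg.Agent.H6.CR
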