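import Mathlib
import Cfsg.Agent.H6_CR4

/-!
Modular representations of groups with a split BN-pair in the defining characteristic, part 5:
matrix coefficients, weights of irreducible representations.
-/

set_option autoImplicit false
set_option linter.unusedSectionVars false

namespace Cfsg.Agent.H6.CR

open MonoidAlgebra Matrix

section

variable {G k : Type*} [Group G] [Field k] {d : ℕ}

/-- absolutely irreducible matrix representation -/
def AbsIrr (ρ : G →* Matrix (Fin d) (Fin d) k) : Prop := Submodule.span k (Set.range ρ) = ⊤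

/-- matrix coefficient -/
def mc (ρ : G →* Matrix (Fin d) (Fin d) k) (lam v : Fin d → k) : G → k := fun g => lam ⬝ᵥ (ρ g⁻¹ *ᵥ v)

variable {ρ : G →* Matrix (Fin d) (Fin d) k}

theorem mc_add_left (a b v : Fin d → k) : mc ρ (a + b) v = mc ρ a v + mc ρ b v := by
  funext g; exact add_dotProduct _ _ _

theorem mc_smul_left (c : k) (a v : Fin d → k) : mc ρ (c • a) v = c • mc ρ a v := by
  funext g; exact smul_dotProduct _ _ _

theorem mc_sub_left (a b v : Fin d → k) : mc ρ (a - b) v = mc ρ a v - mc ρ b v := by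
  funext g; exact sub_dotProduct _ _ _

theorem mc_sub_right (a v w : Fin d → k) : mc ρ a (v - w) = mc ρ a v - mc ρ a w := by
  funext g
  change a ⬝ᵥ (ρ g⁻¹ *ᵥ (v - w)) = _
  rw [mulVec_sub, dotProduct_sub]; rfl

theorem mc_smul_right (c : k) (a v : Fin d → k) : mc ρ a (c • v) = c • mc ρ a v := by
  funext g
  change a ⬝ᵥ (ρ g⁻¹ *ᵥ (c • v)) = _
  rw [mulVec_smul, dotProduct_smul]; rfl

theorem mc_mul (a v : Fin d → k) (g x : G) : mc ρ a v (g * x) = mc ρ (a ᵥ* ρ x⁻¹) v g := by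
  change a ⬝ᵥ (ρ (g * x)⁻¹ *ᵥ v) = (a ᵥ* ρ x⁻¹) ⬝ᵥ (ρ g⁻¹ *ᵥ v)
  rw [_root_.mul_inv_rev, map_mul, ← mulVec_mulVec, dotProduct_mulVec]

theorem mc_mul_left (a v : Fin d → k) (g x : G) : mc ρ a v (x * g) = mc ρ a (ρ x⁻¹ *ᵥ v) g := by
  change a ⬝ᵥ (ρ (x * g)⁻¹ *ᵥ v) = a ⬝ᵥ (ρ g⁻¹ *ᵥ (ρ x⁻¹ *ᵥ v))
  rw [_root_.mul_inv_rev, map_mul, ← mulVec_mulVec]

theorem mc_one (a v : Fin d → k) : mc ρ a v 1 = a ⬝ᵥ v := by
  change a ⬝ᵥ (ρ 1⁻¹ *ᵥ v) = _
  rw [inv_one, map_one, one_mulVec]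

theorem ext_of_mc {a b : Fin d → k} (h : ∀ v, mc ρ a v 1 = mc ρ b v 1) : a = b := by
  simp only [mc_one] at h
  exact dotProduct_eq a b h

theorem mc_ne_zero (hρ : AbsIrr ρ) {a v : Fin d → k} (ha : a ≠ 0) (hv : v ≠ 0) : mc ρ a v ≠ 0 := by
  classical
  intro h
  obtain ⟨i, hi⟩ := Function.ne_iff.1 ha
  obtain ⟨j, hj⟩ := Function.ne_iff.1 hv
  have h1 : ∀ A : Matrix (Fin d) (Fin d) k, a ⬝ᵥ (A *ᵥ v) = 0 := by
    intro A
    have hA : A ∈ Submodule.span k (Set.range ρ) := by rw [hρ]; trivial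
    induction hA using Submodule.span_induction with
    | mem x h' =>
      obtain ⟨g, rfl⟩ := h'
      have := congrFun h g⁻¹
      change a ⬝ᵥ (ρ g⁻¹⁻¹ *ᵥ v) = 0 at this
      rwa [inv_inv] at this
    | zero => rw [zero_mulVec, dotProduct_zero]
    | add x y _ _ hx hy => rw [add_mulVec, dotProduct_add, hx, hy, add_zero]
    | smul c x _ hx => rw [smul_mulVec, dotProduct_smul, hx, smul_zero]
  have h2 := h1 (Matrix.single i j 1)
  rw [Matrix.single_mulVec] at h2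
  change a ⬝ᵥ Pi.single i (1 * v j) = 0 at h2
  rw [dotProduct_single, one_mul] at h2
  rcases mul_eq_zero.1 h2 with h3 | h3
  · exact hi h3
  · exact hj h3

/-- dual representation -/
def dual (ρ : G →* Matrix (Fin d) (Fin d) k) : G →* Matrix (Fin d) (Fin d) k where
  toFun g := (ρ g⁻¹)ᵀ
  map_one' := by rw [inv_one, map_one, transpose_one]
  map_mul' g h := by rw [_root_.mul_inv_rev, map_mul, transpose_mul]

theorem dual_absIrr (hρ : AbsIrr ρ) : AbsIrr (dual ρ) := by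
  unfold AbsIrr
  rw [eq_top_iff]
  intro A _
  have hA : Aᵀ ∈ Submodule.span k (Set.range ρ) := by rw [hρ]; trivial
  rw [← transpose_transpose A]
  generalize Aᵀ = B at hA
  induction hA using Submodule.span_induction with
  | mem x h' =>
    obtain ⟨g, rfl⟩ := h'
    apply Submodule.subset_span
    refine ⟨g⁻¹, ?_⟩
    change (ρ g⁻¹⁻¹)ᵀ = _
    rw [inv_inv]
  | zero => rw [transpose_zero]; exact zero_mem _
  | add x y _ _ hx hy => rw [transpose_add]; exact add_mem hx hy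
  | smul c x _ hx => rw [transpose_smul]; exact Submodule.smul_mem _ _ hx

/-- matrices acting on row vectors -/
def rowEnd (ρ : G →* Matrix (Fin d) (Fin d) k) : G →* Module.End k (Fin d → k) where
  toFun g := (dual ρ g).mulVecLin
  map_one' := by rw [map_one, mulVecLin_one]; rfl
  map_mul' g h := by rw [map_mul, mulVecLin_mul]; rfl

theorem rowEnd_apply (g : G) (a : Fin d → k) : rowEnd ρ g a = a ᵥ* ρ g⁻¹ := by
  change (ρ g⁻¹)ᵀ *ᵥ a = _
  rw [mulVec_transpose]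

theorem Wed.absIrr {W : Wed k G} (i : Fin W.n) : AbsIrr (W.rho i) := by
  unfold AbsIrr
  rw [eq_top_iff]
  intro A _
  obtain ⟨a, ha⟩ := W.surj (Pi.single i A)
  have h1 : ∀ a : MonoidAlgebra k G, W.f a i ∈ Submodule.span k (Set.range (W.rho i)) := by
    intro a
    induction a using MonoidAlgebra.induction_linear with
    | zero => rw [map_zero]; exact zero_mem _
    | add a b ha hb => rw [map_add]; exact add_mem ha hb
    | single g c =>
      have e : (single g c : MonoidAlgebra k G) = c • single g 1 := by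
        rw [MonoidAlgebra.smul_single, smul_eq_mul, mul_one]
      rw [e, map_smul]
      exact Submodule.smul_mem _ _ (Submodule.subset_span ⟨g, rfl⟩)
  have h2 := h1 a
  rwa [ha, Pi.single_eq_same] at h2

end

namespace BNS

variable {G F J : Type*} [Group G] [Field F] [Fintype F] [DecidableEq F] (S : BNS G F J)
variable {k : Type*} [Field k] {d : ℕ}

/-- the Hecke operators on functionals -/
def T (ρ : G →* Matrix (Fin d) (Fin d) k) (j : J) (a : Fin d → k) : Fin d → k :=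
  ∑ t, a ᵥ* ρ (S.X j t * S.n j)⁻¹

variable (ρ : G →* Matrix (Fin d) (Fin d) k)

theorem R_mc (j : J) (a v : Fin d → k) : S.R k j (mc ρ a v) = mc ρ (S.T ρ j a) v := by
  funext g
  rw [R_apply]
  have h1 : mc ρ (S.T ρ j a) v g = ∑ t, mc ρ (a ᵥ* ρ (S.X j t * S.n j)⁻¹) v g := by
    change (∑ t, a ᵥ* ρ (S.X j t * S.n j)⁻¹) ⬝ᵥ _ = _
    rw [sum_dotProduct]; rfl
  rw [h1]
  refine Finset.sum_congr rfl fun t _ => ?_
  rw [mul_assoc, mc_mul]

/-- `U`-fixed functionals -/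
def LF (a : Fin d → k) : Prop := ∀ u ∈ S.U, a ᵥ* ρ u = a
def LE (χ : S.H →* kˣ) (a : Fin d → k) : Prop := ∀ x : S.H, a ᵥ* ρ x = ((χ x : kˣ) : k) • a

variable {S ρ}

theorem LF.RU {a : Fin d → k} (h : S.LF ρ a) (v : Fin d → k) : S.RU (mc ρ a v) := by
  intro g u hu
  rw [mc_mul, h _ (inv_mem hu)]

theorem LF_of_RU {a : Fin d → k} (h : ∀ v, S.RU (mc ρ a v)) : S.LF ρ a := by
  intro u hu
  apply ext_of_mc (ρ := ρ)
  intro v
  have h1 := h v 1 u⁻¹ (inv_mem hu)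
  rwa [mc_mul, inv_inv] at h1

theorem LE.Eig {a : Fin d → k} {χ : S.H →* kˣ} (h : S.LE ρ χ a) (v : Fin d → k) : S.Eig χ (mc ρ a v) := by
  intro g x
  have h1 := h x⁻¹
  rw [mc_mul]
  have e : (((x⁻¹ : S.H) : G)) = (x : G)⁻¹ := rfl
  rw [e] at h1
  rw [h1, mc_smul_left, map_inv]; rfl

theorem LE_of_Eig {a : Fin d → k} {χ : S.H →* kˣ} (h : ∀ v, S.Eig χ (mc ρ a v)) : S.LE ρ χ a := by
  intro x
  apply ext_of_mc (ρ := ρ)
  intro v
  have h1 := h v 1 x⁻¹
  rw [mc_mul, map_inv χ x, inv_inv] at h1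
  have e : (((x⁻¹ : S.H) : G))⁻¹ = (x : G) := inv_inv _
  rw [e] at h1
  rw [h1, mc_smul_left]; rfl

theorem LF.T {a : Fin d → k} (h : S.LF ρ a) (j : J) : S.LF ρ (S.T ρ j a) :=
  LF_of_RU fun v => by rw [← R_mc]; exact (h.RU v).R j

theorem LE.T {a : Fin d → k} {χ : S.H →* kˣ} (h : S.LE ρ χ a) (j : J) : S.LE ρ (cj χ j) (S.T ρ j a) :=
  LE_of_Eig fun v => by rw [← R_mc]; exact (h.Eig v).R j

theorem LU_mc {v : Fin d → k} (hv : ∀ u ∈ S.U, ρ u *ᵥ v = v) (a : Fin d → k) : S.LU (mc ρ a v) := by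
  intro g u hu
  rw [mc_mul_left, hv _ (inv_mem hu)]

/-- a function separating the cosets of `H`, refining the length -/
theorem exists_idx (S : BNS G F J) [Finite G] : ∃ idx : G → ℕ, (∀ x y, idx x = idx y → x⁻¹ * y ∈ S.H) ∧
    (∀ x y, S.len x < S.len y → idx x < idx y) ∧ ∃ M, ∀ x, idx x < M := by
  let e := Finite.equivFin (G ⧸ S.H)
  refine ⟨fun x => S.len x * Nat.card (G ⧸ S.H) + (e (x : G ⧸ S.H) : ℕ), ?_, ?_, ?_⟩
  · intro x y hxy
    have h1 := (e (x : G ⧸ S.H)).2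
    have h2 := (e (y : G ⧸ S.H)).2
    have h3 : (e (x : G ⧸ S.H) : ℕ) = (e (y : G ⧸ S.H) : ℕ) := by
      have := congrArg (· % Nat.card (G ⧸ S.H)) hxy
      simp only [Nat.mul_add_mod_self_right, Nat.mod_eq_of_lt h1, Nat.mod_eq_of_lt h2] at this
      exact this
    exact QuotientGroup.eq.1 (e.injective (Fin.ext h3))
  · intro x y hxy
    have h1 := (e (x : G ⧸ S.H)).2
    change _ * _ + _ < _ * _ + _
    nlinarith
  · obtain ⟨M, hM⟩ := (Set.finite_range fun x => S.len x * Nat.card (G ⧸ S.H) + (e (x : G ⧸ S.H) : ℕ)).bddAbove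
    exact ⟨M + 1, fun x => Nat.lt_succ_of_le (hM ⟨x, rfl⟩)⟩

/-- every absolutely irreducible representation has a weight functional -/
theorem exists_weight [Finite G] [IsAlgClosed k] {p : ℕ} [hp : Fact p.Prime] [CharP k p] (hq : (Fintype.card F : k) = 0)
    (hU : IsPGroup p S.U) (hρ : AbsIrr ρ) (hd : 0 < d) :
    ∃ a, a ≠ 0 ∧ S.LF ρ a ∧ ∃ χ, S.LE ρ χ a ∧ ∃ r : J → k, ∀ j, S.T ρ j a = r j • a := by
  classical
  have : Nonempty (Fin d) := ⟨⟨0, hd⟩⟩
  -- a fixed vector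
  obtain ⟨v, hv0, hv⟩ : ∃ v : Fin d → k, v ≠ 0 ∧ ∀ u ∈ S.U, ρ u *ᵥ v = v := by
    let ρ' : G →* Module.End k (Fin d → k) :=
      { toFun := fun g => (ρ g).mulVecLin
        map_one' := by rw [map_one, mulVecLin_one]; rfl
        map_mul' := fun g h => by rw [map_mul, mulVecLin_mul]; rfl }
    obtain ⟨v, hv, h⟩ := exists_fixed hU (ρ'.comp S.U.subtype)
    exact ⟨v, hv, fun u hu => h ⟨u, hu⟩⟩
  -- the fixed functionals
  let L : Submodule k (Fin d → k) :=
    { carrier := {a | S.LF ρ a}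
      zero_mem' := fun u _ => zero_vecMul _
      add_mem' := fun {a b} ha hb u hu => by rw [add_vecMul, ha u hu, hb u hu]
      smul_mem' := fun c a ha u hu => by rw [smul_vecMul, ha u hu] }
  have hL : L ≠ ⊥ := by
    obtain ⟨a, ha, h⟩ := exists_fixed hU ((rowEnd ρ).comp S.U.subtype)
    intro hL
    apply ha
    rw [← Submodule.mem_bot k, ← hL]
    intro u hu
    have h1 := h ⟨u, hu⟩⁻¹
    change rowEnd ρ u⁻¹ a = a at h1
    rwa [rowEnd_apply, inv_inv] at h1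
  -- an eigenfunctional
  obtain ⟨a₀, ha₀, ha₀', hc⟩ := exists_common (ι := S.H) (fun x => (ρ x).vecMulLinear) (fun x y b => by
      change (b ᵥ* ρ y) ᵥ* ρ x = (b ᵥ* ρ x) ᵥ* ρ y
      rw [vecMul_vecMul, vecMul_vecMul, ← map_mul, ← map_mul, S.Hcomm _ y.2 _ x.2]) hL
    (fun x b hb u hu => by
      change (b ᵥ* ρ x) ᵥ* ρ u = b ᵥ* ρ x
      have e : (x : G) * u = (x * u * (x : G)⁻¹) * x := by group
      rw [vecMul_vecMul, ← map_mul, e, map_mul, ← vecMul_vecMul, hb _ (S.hUH x x.2 u hu)])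
  have hmk : ∀ b : Fin d → k, b ≠ 0 → (∀ x : S.H, ∃ c : k, b ᵥ* ρ x = c • b) → ∃ χ, S.LE ρ χ b := by
    intro b hb hcb
    choose c hc using hcb
    have hinj : ∀ s t : k, s • b = t • b → s = t := fun s t h => by
      obtain ⟨i, hi⟩ := Function.ne_iff.1 hb
      have := congrFun h i
      exact mul_right_cancel₀ hi this
    let χ' : S.H →* k :=
      { toFun := c
        map_one' := hinj _ _ (by rw [← hc, one_smul]; change b ᵥ* ρ 1 = b; rw [map_one, vecMul_one])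
        map_mul' := fun x y => hinj _ _ (by
          rw [← hc]
          change b ᵥ* ρ ((x : G) * y) = _
          rw [map_mul, ← vecMul_vecMul, hc, smul_vecMul, hc, smul_smul]) }
    exact ⟨χ'.toHomUnits, fun x => hc x⟩
  obtain ⟨idx, hi1, hi2, M, hM⟩ := S.exists_idx
  let P : ℕ → Prop := fun m => ∃ a, a ≠ 0 ∧ S.LF ρ a ∧ (∃ χ, S.LE ρ χ a) ∧ ∀ x ∈ S.N, idx x < m → mc ρ a v x = 0
  have hP0 : P 0 := ⟨a₀, ha₀', ha₀, hmk a₀ ha₀' hc, fun x _ h => absurd h (Nat.not_lt_zero _)⟩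
  have hPM : ¬ P M := by
    rintro ⟨a, ha, h1, -, h2⟩
    apply mc_ne_zero hρ ha hv0
    funext g
    obtain ⟨u, hu, x, hx, u', hu', rfl⟩ := S.bruhat g
    rw [h1.RU v _ _ hu', LU_mc hv a _ _ hu, h2 x hx (hM x)]; rfl
  obtain ⟨m, hm, hm'⟩ : ∃ m, P m ∧ ¬ P (m + 1) := by
    by_contra hc
    push Not at hc
    exact hPM (Nat.rec hP0 (fun n h => hc n h) M)
  obtain ⟨a, ha, h1, ⟨χ, h2⟩, h3⟩ := hm
  obtain ⟨x₀, hx₀, hx₀m, hx₀'⟩ : ∃ x ∈ S.N, idx x = m ∧ mc ρ a v x ≠ 0 := by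
    by_contra hc
    push Not at hc
    apply hm'
    refine ⟨a, ha, h1, ⟨χ, h2⟩, fun x hx h => ?_⟩
    rcases Nat.lt_succ_iff_lt_or_eq.1 h with h | h
    · exact h3 x hx h
    · exact hc x hx h
  refine ⟨a, ha, h1, χ, h2, ?_⟩
  have key : ∀ j, ∃ r : k, S.T ρ j a = r • a := by
    intro j
    have hR : ∀ x ∈ S.N, idx x < m → S.R k j (mc ρ a v) x = 0 := by
      intro x hx hxm
      by_cases hpx : S.pos x j
      · exact R_pos hq (LU_mc hv a) hx hpx
      · rw [R_neg (h1.RU v) (LU_mc hv a) (h2.Eig v) hx hpx, h3 x hx hxm, mul_zero, add_zero]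
        exact h3 _ (mul_mem hx (S.n_mem j)) ((hi2 _ _ (S.len_n j x hx hpx)).trans hxm)
    obtain ⟨r, hr1, hr2⟩ : ∃ r : k, S.R k j (mc ρ a v) x₀ = r * mc ρ a v x₀ ∧ (S.I χ j ∨ r = 0) := by
      by_cases hpx : S.pos x₀ j
      · exact ⟨0, by rw [R_pos hq (LU_mc hv a) hx₀ hpx, zero_mul], Or.inr rfl⟩
      · refine ⟨S.cc χ j, ?_, ?_⟩
        · rw [R_neg (h1.RU v) (LU_mc hv a) (h2.Eig v) hx₀ hpx,
            h3 _ (mul_mem hx₀ (S.n_mem j)) ((hi2 _ _ (S.len_n j x₀ hx₀ hpx)).trans_eq hx₀m), zero_add]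
        · by_cases hI : S.I χ j
          · exact Or.inl hI
          · exact Or.inr (cc_of_not_I hI)
    refine ⟨r, ?_⟩
    by_contra hne
    have hne' : S.T ρ j a - r • a ≠ 0 := sub_ne_zero.2 hne
    apply hm'
    have hE : S.LE ρ (cj χ j) (S.T ρ j a - r • a) := by
      intro x
      rw [sub_vecMul, h2.T j x, smul_sub]
      congr 1
      rcases hr2 with hI | hr
      · rw [cj_of_I hI, smul_vecMul, h2 x, smul_comm]
      · rw [hr, zero_smul, zero_vecMul, smul_zero]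
    have hmc : ∀ x, mc ρ (S.T ρ j a - r • a) v x = S.R k j (mc ρ a v) x - r * mc ρ a v x := by
      intro x
      rw [mc_sub_left, mc_smul_left, R_mc]; rfl
    refine ⟨_, hne', ?_, ⟨_, hE⟩, ?_⟩
    · intro u hu
      rw [sub_vecMul, smul_vecMul, h1.T j u hu, h1 u hu]
    · intro x hx hxm
      rcases Nat.lt_succ_iff_lt_or_eq.1 hxm with h | h
      · rw [hmc, hR x hx h, h3 x hx h, mul_zero, sub_zero]
      · have h4 := hi1 x₀ x (hx₀m.trans h.symm)
        have h5 := hE.Eig v x₀ ⟨_, h4⟩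
        change mc ρ _ v (x₀ * (x₀⁻¹ * x)) = _ at h5
        rw [mul_inv_cancel_left] at h5
        rw [h5, hmc, hr1, sub_self, mul_zero]
  choose r hr using key
  exact ⟨r, hr⟩

end BNS

end Cfsg.Agent.H6.CR
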