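import Mathlib
import Cfsg.Agent.H6_CR5

/-!
Modular representations of groups with a split BN-pair in the defining characteristic, part 6:
Curtis–Richen classification by weights.
-/

set_option autoImplicit false
set_option linter.unusedSectionVars false

namespace Cfsg.Agent.H6.CR

open MonoidAlgebra Matrix

namespace BNS

variable {G F J : Type*} [Group G] [Field F] [Fintype F] [DecidableEq F] {S : BNS G F J}
variable {k : Type*} [Field k] {d : ℕ} {ρ : G →* Matrix (Fin d) (Fin d) k}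

theorem T_smul (j : J) (c : k) (a : Fin d → k) : S.T ρ j (c • a) = c • S.T ρ j a := by
  unfold T
  rw [Finset.smul_sum]
  exact Finset.sum_congr rfl fun t _ => smul_vecMul _ _ _

/-- the space of `U`-fixed vectors is one-dimensional -/
theorem fixed_unique [Finite G] [IsAlgClosed k] {p : ℕ} [hp : Fact p.Prime] [CharP k p] (hq : (Fintype.card F : k) = 0)
    (hU : IsPGroup p S.U) (hρ : AbsIrr ρ) {v v' : Fin d → k} (hv0 : v ≠ 0) (hv : ∀ u ∈ S.U, ρ u *ᵥ v = v)
    (hv' : ∀ u ∈ S.U, ρ u *ᵥ v' = v') : ∃ c : k, v' = c • v := by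
  have hd : 0 < d := by
    rcases Nat.eq_zero_or_pos d with rfl | h
    · exact absurd (Subsingleton.elim v 0) hv0
    · exact h
  obtain ⟨a, ha, h1, χ, h2, r, hr⟩ := S.exists_weight hq hU hρ hd
  obtain ⟨x₀, hx₀, hx₀'⟩ := S.exists_K Set.univ
  have hx₀'' : ∀ j, ¬ S.pos x₀ j := fun j hj => (hx₀' j).1 hj (Set.mem_univ j)
  have key : ∀ w : Fin d → k, (∀ u ∈ S.U, ρ u *ᵥ w = w) → mc ρ a w x₀ = 0 → w = 0 := by
    intro w hw hw0
    by_contra hne
    apply mc_ne_zero hρ ha hne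
    exact eq_zero_of_longest (h1.RU w) (LU_mc hw a) (h2.Eig w) (r := r)
      (fun j => by rw [R_mc, hr, mc_smul_left]) hx₀ hx₀'' hw0
  have hf : mc ρ a v x₀ ≠ 0 := fun h => hv0 (key v hv h)
  have h3 := key (mc ρ a v x₀ • v' - mc ρ a v' x₀ • v) (fun u hu => by
      rw [mulVec_sub, mulVec_smul, mulVec_smul, hv u hu, hv' u hu]) (by
      rw [mc_sub_right, mc_smul_right, mc_smul_right]
      change mc ρ a v x₀ * mc ρ a v' x₀ - mc ρ a v' x₀ * mc ρ a v x₀ = 0
      ring)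
  refine ⟨(mc ρ a v x₀)⁻¹ * mc ρ a v' x₀, ?_⟩
  rw [mul_smul, ← sub_eq_zero.1 h3, smul_smul, inv_mul_cancel₀ hf, one_smul]

/-- the space of `U`-fixed functionals is one-dimensional -/
theorem fixed_unique' [Finite G] [IsAlgClosed k] {p : ℕ} [hp : Fact p.Prime] [CharP k p] (hq : (Fintype.card F : k) = 0)
    (hU : IsPGroup p S.U) (hρ : AbsIrr ρ) {a a' : Fin d → k} (ha0 : a ≠ 0) (ha : S.LF ρ a)
    (ha' : S.LF ρ a') : ∃ c : k, a' = c • a := by
  have key : ∀ b : Fin d → k, S.LF ρ b → ∀ u ∈ S.U, dual ρ u *ᵥ b = b := by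
    intro b hb u hu
    change (ρ u⁻¹)ᵀ *ᵥ b = b
    rw [mulVec_transpose]
    exact hb _ (inv_mem hu)
  exact fixed_unique hq hU (dual_absIrr hρ) ha0 (key a ha) (key a' ha')

/-- weight of a representation -/
structure IsWt (S : BNS G F J) (ρ : G →* Matrix (Fin d) (Fin d) k) (χ : S.H →* kˣ) (r : J → k) : Prop where
  ex : ∃ a, a ≠ 0 ∧ S.LF ρ a ∧ S.LE ρ χ a ∧ ∀ j, S.T ρ j a = r j • a

/-- different irreducible representations have different weights -/
theorem wt_inj [Finite G] [IsAlgClosed k] {p : ℕ} [hp : Fact p.Prime] [CharP k p]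
    (hU : IsPGroup p S.U) (W : Wed k G) {i i' : Fin W.n} {χ : S.H →* kˣ} {r : J → k}
    (h : S.IsWt (W.rho i) χ r) (h' : S.IsWt (W.rho i') χ r) : i = i' := by
  classical
  obtain ⟨a, ha, h1, h2, h3⟩ := h.ex
  obtain ⟨a', ha', h1', h2', h3'⟩ := h'.ex
  obtain ⟨x₀, hx₀, hx₀'⟩ := S.exists_K Set.univ
  have hx₀'' : ∀ j, ¬ S.pos x₀ j := fun j hj => (hx₀' j).1 hj (Set.mem_univ j)
  have hfix : ∀ i, ∃ v : Fin (W.d i) → k, v ≠ 0 ∧ ∀ u ∈ S.U, W.rho i u *ᵥ v = v := by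
    intro i
    have : Nonempty (Fin (W.d i)) := ⟨⟨0, Nat.pos_of_ne_zero (W.hd i).out⟩⟩
    let ρ' : G →* Module.End k (Fin (W.d i) → k) :=
      { toFun := fun g => (W.rho i g).mulVecLin
        map_one' := by rw [map_one, mulVecLin_one]; rfl
        map_mul' := fun g h => by rw [map_mul, mulVecLin_mul]; rfl }
    obtain ⟨v, hv, h⟩ := exists_fixed hU (ρ'.comp S.U.subtype)
    exact ⟨v, hv, fun u hu => h ⟨u, hu⟩⟩
  obtain ⟨v, hv0, hv⟩ := hfix i
  obtain ⟨v', hv0', hv'⟩ := hfix i'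
  set f := mc (W.rho i) a v with hf
  set f' := mc (W.rho i') a' v' with hf'
  have hfx : ∀ i (a v : Fin (W.d i) → k), a ≠ 0 → v ≠ 0 → S.LF (W.rho i) a → S.LE (W.rho i) χ a →
      (∀ j, S.T (W.rho i) j a = r j • a) → (∀ u ∈ S.U, W.rho i u *ᵥ v = v) → mc (W.rho i) a v x₀ ≠ 0 := by
    intro i a v ha hv0 h1 h2 h3 hv h0
    apply mc_ne_zero (Wed.absIrr i) ha hv0
    exact eq_zero_of_longest (h1.RU v) (LU_mc hv a) (h2.Eig v) (r := r)
      (fun j => by rw [R_mc, h3, mc_smul_left]) hx₀ hx₀'' h0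
  have hfx1 : f x₀ ≠ 0 := hfx i a v ha hv0 h1 h2 h3 hv
  have hfx2 : f' x₀ ≠ 0 := hfx i' a' v' ha' hv0' h1' h2' h3' hv'
  have h4 : f' x₀ • f - f x₀ • f' = 0 := by
    apply eq_zero_of_longest (S := S) (χ := χ) (r := r) (x₀ := x₀)
    · intro g u hu
      change f' x₀ * f (g * u) - f x₀ * f' (g * u) = f' x₀ * f g - f x₀ * f' g
      have e1 : f (g * u) = f g := h1.RU v _ _ hu
      have e2 : f' (g * u) = f' g := h1'.RU v' _ _ hu
      rw [e1, e2]
    · intro g u hu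
      change f' x₀ * f (u * g) - f x₀ * f' (u * g) = f' x₀ * f g - f x₀ * f' g
      have e1 : f (u * g) = f g := LU_mc hv a _ _ hu
      have e2 : f' (u * g) = f' g := LU_mc hv' a' _ _ hu
      rw [e1, e2]
    · intro g x
      change f' x₀ * f (g * x) - f x₀ * f' (g * x) = _ * (f' x₀ * f g - f x₀ * f' g)
      have e1 : f (g * x) = _ * f g := h2.Eig v g x
      have e2 : f' (g * x) = _ * f' g := h2'.Eig v' g x
      rw [e1, e2]; ring
    · intro j
      rw [map_sub, map_smul, map_smul, R_mc, R_mc, h3, h3', mc_smul_left, mc_smul_left, smul_sub,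
        smul_comm (r j), smul_comm (r j)]
    · exact hx₀
    · exact hx₀''
    · change f' x₀ * f x₀ - f x₀ * f' x₀ = 0
      ring
  by_contra hne
  -- extend linearly to the group algebra
  have h5 : ∀ b : MonoidAlgebra k G, f' x₀ * (a ⬝ᵥ (W.f b i *ᵥ v)) - f x₀ * (a' ⬝ᵥ (W.f b i' *ᵥ v')) = 0 := by
    intro b
    induction b using MonoidAlgebra.induction_linear with
    | zero => simp
    | add b c hb hc =>
      simp only [map_add, Pi.add_apply, add_mulVec, dotProduct_add, mul_add]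
      linear_combination hb + hc
    | single g c =>
      have e : (single g c : MonoidAlgebra k G) = c • single g 1 := by
        rw [MonoidAlgebra.smul_single, smul_eq_mul, mul_one]
      have h6 := congrFun h4 g⁻¹
      change f' x₀ * (a ⬝ᵥ (W.rho i g⁻¹⁻¹ *ᵥ v)) - f x₀ * (a' ⬝ᵥ (W.rho i' g⁻¹⁻¹ *ᵥ v')) = 0 at h6
      rw [inv_inv] at h6
      simp only [e, map_smul, Pi.smul_apply, smul_mulVec, dotProduct_smul, smul_eq_mul]
      rw [Wed.rho_apply, Wed.rho_apply] at h6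
      linear_combination c * h6
  obtain ⟨s, hs⟩ := Function.ne_iff.1 ha
  obtain ⟨t, ht⟩ := Function.ne_iff.1 hv0
  obtain ⟨b, hb⟩ := W.surj (Pi.single i (Matrix.single s t 1))
  have h6 := h5 b
  rw [hb, Pi.single_eq_same, Pi.single_eq_of_ne (Ne.symm hne), zero_mulVec, dotProduct_zero, mul_zero, sub_zero,
    Matrix.single_mulVec] at h6
  change f' x₀ * (a ⬝ᵥ Pi.single s (1 * v t)) = 0 at h6
  rw [dotProduct_single, one_mul] at h6
  rcases mul_eq_zero.1 h6 with h7 | h7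
  · exact hfx2 h7
  · rcases mul_eq_zero.1 h7 with h8 | h8
    · exact hs h8
    · exact ht h8

/-! ### Existence of representations with given weight -/

/-- the space of `χ`-functions -/
def Mχ (S : BNS G F J) (χ : S.H →* kˣ) : Submodule k (G → k) where
  carrier := {f | S.RU f ∧ S.Eig χ f}
  zero_mem' := ⟨fun _ _ _ => rfl, fun _ _ => (mul_zero _).symm⟩
  add_mem' := fun {f f'} h h' => ⟨fun g u hu => by
      change f (g * u) + f' (g * u) = f g + f' g
      rw [h.1 g u hu, h'.1 g u hu], fun g a => by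
      change f (g * a) + f' (g * a) = _ * (f g + f' g)
      rw [h.2 g a, h'.2 g a, mul_add]⟩
  smul_mem' := fun c f h => ⟨fun g u hu => by
      change c * f (g * u) = c * f g
      rw [h.1 g u hu], fun g a => by
      change c * f (g * a) = _ * (c * f g)
      rw [h.2 g a]; ring⟩

open Classical in
/-- the operators `-R_j`, `1 + R_j` -/
noncomputable def E (S : BNS G F J) (χ : S.H →* kˣ) (K : Set J) (j : J) : Module.End k (G → k) :=
  if j ∈ K then - S.R k j else if S.I χ j then 1 + S.R k j else 1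

theorem E_cases (χ : S.H →* kˣ) (K : Set J) (hK : ∀ j ∈ K, S.I χ j) (j : J) :
    (S.I χ j ∧ j ∈ K ∧ S.E χ K j = - S.R k j) ∨ (S.I χ j ∧ j ∉ K ∧ S.E χ K j = 1 + S.R k j) ∨
    (¬ S.I χ j ∧ j ∉ K ∧ S.E χ K j = 1) := by
  unfold E
  by_cases h1 : j ∈ K
  · exact Or.inl ⟨hK j h1, h1, by rw [if_pos h1]⟩
  · by_cases h2 : S.I χ j
    · exact Or.inr (Or.inl ⟨h2, h1, by rw [if_neg h1, if_pos h2]⟩)
    · exact Or.inr (Or.inr ⟨h2, h1, by rw [if_neg h1, if_neg h2]⟩)

theorem E_lt {χ : S.H →* kˣ} {K : Set J} (hK : ∀ j ∈ K, S.I χ j) (j : J) (g : G) (f : G → k) :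
    S.E χ K j (lt k G g f) = lt k G g (S.E χ K j f) := by
  rcases E_cases (k := k) χ K hK j with ⟨_, _, h⟩ | ⟨_, _, h⟩ | ⟨_, _, h⟩
  · rw [h, LinearMap.neg_apply, LinearMap.neg_apply, R_lt, map_neg]
  · rw [h, LinearMap.add_apply, LinearMap.add_apply, R_lt, map_add]; rfl
  · rw [h]; rfl

theorem E_mem {χ : S.H →* kˣ} {K : Set J} (hK : ∀ j ∈ K, S.I χ j) (j : J) {f : G → k} (hf : f ∈ Mχ S χ) :
    S.E χ K j f ∈ Mχ S χ := by
  have hR : S.I χ j → S.R k j f ∈ Mχ S χ := fun hI => ⟨hf.1.R j, by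
    have := hf.2.R j
    rwa [cj_of_I hI] at this⟩
  rcases E_cases (k := k) χ K hK j with ⟨hI, _, h⟩ | ⟨hI, _, h⟩ | ⟨_, _, h⟩
  · rw [h, LinearMap.neg_apply]; exact neg_mem (hR hI)
  · rw [h, LinearMap.add_apply]; exact add_mem hf (hR hI)
  · rw [h]; exact hf

theorem E_LU {χ : S.H →* kˣ} {K : Set J} (hK : ∀ j ∈ K, S.I χ j) (j : J) {f : G → k} (hf : S.LU f) :
    S.LU (S.E χ K j f) := by
  have hR := hf.R j
  intro g u hu
  rcases E_cases (k := k) χ K hK j with ⟨_, _, h⟩ | ⟨_, _, h⟩ | ⟨_, _, h⟩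
  · rw [h]
    change - S.R k j f (u * g) = - S.R k j f g
    rw [hR g u hu]
  · rw [h]
    change f (u * g) + S.R k j f (u * g) = f g + S.R k j f g
    rw [hR g u hu, hf g u hu]
  · rw [h]; exact hf g u hu

theorem E_at (hq : (Fintype.card F : k) = 0) {χ : S.H →* kˣ} {K : Set J} (hK : ∀ j ∈ K, S.I χ j) (j : J)
    {f : G → k} (hf : f ∈ Mχ S χ) (hf' : S.LU f) {xK : G} (hxK : xK ∈ S.N) (hxK' : ∀ j, (S.pos xK j ↔ j ∉ K))
    (h0 : ∀ x ∈ S.N, S.len x < S.len xK → f x = 0) :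
    S.E χ K j f xK = f xK ∧ ∀ x ∈ S.N, S.len x < S.len xK → S.E χ K j f x = 0 := by
  have hR0 : ∀ x ∈ S.N, S.len x < S.len xK → S.R k j f x = 0 := by
    intro x hx hl
    by_cases hp : S.pos x j
    · exact R_pos hq hf' hx hp
    · rw [R_neg hf.1 hf' hf.2 hx hp, h0 x hx hl, mul_zero, add_zero]
      exact h0 _ (mul_mem hx (S.n_mem j)) ((S.len_n j x hx hp).trans hl)
  rcases E_cases (k := k) χ K hK j with ⟨hI, hj, h⟩ | ⟨hI, hj, h⟩ | ⟨_, _, h⟩
  · rw [h]
    constructor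
    · change - S.R k j f xK = f xK
      have hp : ¬ S.pos xK j := fun hp => (hxK' j).1 hp hj
      rw [R_neg hf.1 hf' hf.2 hxK hp, cc_of_I hq hI, h0 _ (mul_mem hxK (S.n_mem j)) (S.len_n j xK hxK hp)]
      ring
    · intro x hx hl
      change - S.R k j f x = 0
      rw [hR0 x hx hl, neg_zero]
  · rw [h]
    constructor
    · change f xK + S.R k j f xK = f xK
      rw [R_pos hq hf' hxK ((hxK' j).2 hj), add_zero]
    · intro x hx hl
      change f x + S.R k j f x = 0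
      rw [hR0 x hx hl, h0 x hx hl, add_zero]
  · rw [h]
    exact ⟨rfl, h0⟩

/-- delta function -/
theorem exists_delta (χ : S.H →* kˣ) {xK : G} (hxK : xK ∈ S.N) :
    ∃ f : G → k, f ∈ Mχ S χ ∧ S.LU f ∧ f xK = 1 ∧ ∀ x ∈ S.N, S.len x < S.len xK → f x = 0 := by
  classical
  choose u hu ν hν u' hu' hb using S.bruhat
  have hsol : ∀ x y z w : G, x = y * z * w → y⁻¹ * x * w⁻¹ = z := by
    rintro x y z w rfl; group
  have hν1 : ∀ g, ∀ a ∈ S.U, ∀ b ∈ S.U, ν (a * g * b) = ν g := by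
    intro g a ha b hb'
    refine (S.bruhat_unique (ν g) (hν _) (ν (a * g * b)) (hν _) ((u (a * g * b))⁻¹ * a * u g)
      (mul_mem (mul_mem (inv_mem (hu _)) ha) (hu _)) (u' g * b * (u' (a * g * b))⁻¹)
      (mul_mem (mul_mem (hu' _) hb') (inv_mem (hu' _))) ?_).symm
    have e : (u (a * g * b))⁻¹ * a * u g * ν g * (u' g * b * (u' (a * g * b))⁻¹) =
        (u (a * g * b))⁻¹ * (a * (u g * ν g * u' g) * b) * (u' (a * g * b))⁻¹ := by group
    rw [e, ← hb g]
    exact hsol _ _ _ _ (hb (a * g * b))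
  have hν2 : ∀ x ∈ S.N, ν x = x := fun x hx => S.bruhat_unique (ν x) (hν _) x hx (u x) (hu _) (u' x) (hu' _) (hb x).symm
  have hν3 : ∀ g, ∀ a ∈ S.H, ν (g * a) = ν g * a := by
    intro g a ha
    have h1 := S.hUH a⁻¹ (inv_mem ha) (u' g) (hu' g)
    refine (S.bruhat_unique (ν g * a) (mul_mem (hν _) (S.HN ha)) (ν (g * a)) (hν _) ((u (g * a))⁻¹ * u g)
      (mul_mem (inv_mem (hu _)) (hu _)) (a⁻¹ * u' g * a⁻¹⁻¹ * (u' (g * a))⁻¹)
      (mul_mem h1 (inv_mem (hu' _))) ?_).symm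
    have e : (u (g * a))⁻¹ * u g * (ν g * a) * (a⁻¹ * u' g * a⁻¹⁻¹ * (u' (g * a))⁻¹) =
        (u (g * a))⁻¹ * (u g * ν g * u' g * a) * (u' (g * a))⁻¹ := by group
    rw [e, ← hb g]
    exact hsol _ _ _ _ (hb (g * a))
  let f : G → k := fun g => if h : xK⁻¹ * ν g ∈ S.H then (((χ ⟨xK⁻¹ * ν g, h⟩)⁻¹ : kˣ) : k) else 0
  have hf : ∀ g, f g = if h : xK⁻¹ * ν g ∈ S.H then (((χ ⟨xK⁻¹ * ν g, h⟩)⁻¹ : kˣ) : k) else 0 := fun _ => rfl
  have hfν : ∀ g g', ν g = ν g' → f g = f g' := by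
    intro g g' h
    simp only [hf, h]
  refine ⟨f, ⟨?_, ?_⟩, ?_, ?_, ?_⟩
  · intro g b hb'
    apply hfν
    have := hν1 g 1 (one_mem _) b hb'
    rwa [one_mul] at this
  · intro g a
    have h1 := hν3 g a a.2
    rw [hf, hf]
    by_cases h2 : xK⁻¹ * ν g ∈ S.H
    · have h3 : xK⁻¹ * ν (g * a) ∈ S.H := by
        rw [h1, ← mul_assoc]; exact mul_mem h2 a.2
      rw [dif_pos h2, dif_pos h3]
      have e : (⟨xK⁻¹ * ν (g * a), h3⟩ : S.H) = ⟨xK⁻¹ * ν g, h2⟩ * a :=
        Subtype.ext (by change xK⁻¹ * ν (g * a) = xK⁻¹ * ν g * a; rw [h1, mul_assoc])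
      rw [e, map_mul, mul_inv, Units.val_mul, mul_comm]
    · have h3 : ¬ xK⁻¹ * ν (g * a) ∈ S.H := by
        intro h
        apply h2
        rw [h1, ← mul_assoc] at h
        have := mul_mem h (inv_mem a.2)
        rwa [mul_inv_cancel_right] at this
      rw [dif_neg h2, dif_neg h3, mul_zero]
  · intro g b hb'
    apply hfν
    have := hν1 g b hb' 1 (one_mem _)
    rwa [mul_one] at this
  · rw [hf]
    have h1 : xK⁻¹ * ν xK = 1 := by rw [hν2 _ hxK, inv_mul_cancel]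
    rw [dif_pos (by rw [h1]; exact one_mem _)]
    have e : (⟨xK⁻¹ * ν xK, by rw [h1]; exact one_mem _⟩ : S.H) = 1 := Subtype.ext h1
    rw [e, map_one, inv_one, Units.val_one]
  · intro x hx hl
    rw [hf, dif_neg]
    intro h
    rw [hν2 x hx] at h
    have := S.len_H xK hxK _ h
    rw [mul_inv_cancel_left] at this
    omega

/-- all weights occur -/
theorem wt_surj [Finite G] [Fintype J] [IsAlgClosed k] {p : ℕ} [hp : Fact p.Prime] [CharP k p]
    (hq : (Fintype.card F : k) = 0) (hU : IsPGroup p S.U) (W : Wed k G) (χ : S.H →* kˣ) (K : Set J)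
    (hK : ∀ j ∈ K, S.I χ j) {χ' : Fin W.n → S.H →* kˣ} {r : Fin W.n → J → k}
    (hW : ∀ i, S.IsWt (W.rho i) (χ' i) (r i)) : ∃ i, χ' i = χ ∧ ∀ j, r i j ≠ 0 ↔ j ∈ K := by
  classical
  obtain ⟨xK, hxK, hxK'⟩ := S.exists_K K
  obtain ⟨f₀, hf₀, hf₀', hf₀1, hf₀2⟩ := exists_delta (S := S) χ hxK
  let Tl : List J → Module.End k (G → k) := fun l => (l.map (S.E χ K)).prod
  have hTc : ∀ j l, Tl (j :: l) = S.E χ K j * Tl l := fun j l => by simp only [Tl, List.map_cons, List.prod_cons]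
  have hTm : ∀ l, ∀ f ∈ Mχ S χ, Tl l f ∈ Mχ S χ := by
    intro l
    induction l with
    | nil => intro f hf; exact hf
    | cons j l ih => intro f hf; rw [hTc]; exact E_mem hK j (ih f hf)
  have hTlt : ∀ l (g : G) (f : G → k), Tl l (lt k G g f) = lt k G g (Tl l f) := by
    intro l
    induction l with
    | nil => intro g f; rfl
    | cons j l ih =>
      intro g f
      rw [hTc]
      change S.E χ K j (Tl l (lt k G g f)) = lt k G g (S.E χ K j (Tl l f))
      rw [ih, E_lt hK]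
  have hTat : ∀ l (f : G → k), f ∈ Mχ S χ → S.LU f → (∀ x ∈ S.N, S.len x < S.len xK → f x = 0) →
      S.LU (Tl l f) ∧ Tl l f xK = f xK ∧ ∀ x ∈ S.N, S.len x < S.len xK → Tl l f x = 0 := by
    intro l
    induction l with
    | nil => intro f h1 h2 h3; exact ⟨h2, rfl, h3⟩
    | cons j l ih =>
      intro f h1 h2 h3
      obtain ⟨h4, h5, h6⟩ := ih f h1 h2 h3
      have h7 := E_at hq hK j (hTm l f h1) h4 hxK hxK' h6
      rw [hTc]
      exact ⟨E_LU hK j h4, h7.1.trans h5, h7.2⟩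
  let T := Tl Finset.univ.toList
  have hT0 : ∀ n : ℕ, (T ^ n) f₀ ≠ 0 := by
    have h1 : ∀ n : ℕ, (T ^ n) f₀ ∈ Mχ S χ ∧ S.LU ((T ^ n) f₀) ∧ (T ^ n) f₀ xK = 1 ∧
        ∀ x ∈ S.N, S.len x < S.len xK → (T ^ n) f₀ x = 0 := by
      intro n
      induction n with
      | zero => exact ⟨hf₀, hf₀', hf₀1, hf₀2⟩
      | succ n ih =>
        rw [pow_succ']
        obtain ⟨h1, h2, h3, h4⟩ := ih
        obtain ⟨h5, h6, h7⟩ := hTat Finset.univ.toList _ h1 h2 h4
        exact ⟨hTm _ _ h1, h5, h6.trans h3, h7⟩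
    intro n h
    have h2 := (h1 n).2.2.1
    rw [h] at h2
    exact zero_ne_one h2
  obtain ⟨c, hc, y, hy, hy0, hyc⟩ := exists_eigen T (hTm _) hf₀ hT0
  let Y : Submodule k (G → k) := Mχ S χ ⊓ LinearMap.ker (T - c • 1)
  have hYm : ∀ f, f ∈ Y ↔ f ∈ Mχ S χ ∧ T f = c • f := by
    intro f
    rw [Submodule.mem_inf, LinearMap.mem_ker, LinearMap.sub_apply, sub_eq_zero]
    rfl
  have hY : Y ≠ ⊥ := by
    intro h
    apply hy0
    rw [← Submodule.mem_bot k, ← h, hYm]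
    exact ⟨hy, hyc⟩
  obtain ⟨i, a, ha, haY⟩ := W.emb hY (by
    intro g f hf
    rw [hYm] at hf ⊢
    refine ⟨⟨?_, ?_⟩, ?_⟩
    · intro x u hu
      rw [lt_apply, lt_apply, ← mul_assoc, hf.1.1 _ _ hu]
    · intro x b
      rw [lt_apply, lt_apply, ← mul_assoc, hf.1.2]
    · change Tl _ (lt k G g f) = _
      rw [hTlt]
      change lt k G g (T f) = _
      rw [hf.2, map_smul])
  have haY' : ∀ v, mc (W.rho i) a v ∈ Y := haY
  obtain ⟨b, hb, h1, h2, h3⟩ := (hW i).ex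
  have haF : S.LF (W.rho i) a := LF_of_RU fun v => ((hYm _).1 (haY' v)).1.1
  have haE : S.LE (W.rho i) χ a := LE_of_Eig fun v => ((hYm _).1 (haY' v)).1.2
  obtain ⟨c', hc'⟩ := fixed_unique' hq hU (Wed.absIrr i) hb h1 haF
  have hT : ∀ j, S.T (W.rho i) j a = r i j • a := by
    intro j
    rw [hc', T_smul, h3, smul_comm]
  have hχ : χ' i = χ := by
    ext x
    have h4 : ((χ' i x : kˣ) : k) • a = ((χ x : kˣ) : k) • a := by
      rw [← haE x, hc', smul_vecMul, h2 x, smul_comm]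
    obtain ⟨s, hs⟩ := Function.ne_iff.1 ha
    exact mul_right_cancel₀ hs (congrFun h4 s)
  refine ⟨i, hχ, ?_⟩
  have : Nonempty (Fin (W.d i)) := ⟨⟨0, Nat.pos_of_ne_zero (W.hd i).out⟩⟩
  let e : J → k := fun j => if j ∈ K then - r i j else if S.I χ j then 1 + r i j else 1
  have hE : ∀ j v, S.E χ K j (mc (W.rho i) a v) = e j • mc (W.rho i) a v := by
    intro j v
    rcases E_cases (k := k) χ K hK j with ⟨hI, hj, h⟩ | ⟨hI, hj, h⟩ | ⟨hI, hj, h⟩
    · rw [h, LinearMap.neg_apply, R_mc, hT, mc_smul_left]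
      simp only [e, if_pos hj, neg_smul]
    · rw [h, LinearMap.add_apply, R_mc, hT, mc_smul_left]
      simp only [e, if_neg hj, if_pos hI, add_smul, one_smul]
      rfl
    · rw [h]
      simp only [e, if_neg hj, if_neg hI, one_smul]
      rfl
  have hTE : ∀ l v, Tl l (mc (W.rho i) a v) = (l.map e).prod • mc (W.rho i) a v := by
    intro l v
    induction l with
    | nil => rw [List.map_nil, List.prod_nil, one_smul]; rfl
    | cons j l ih =>
      rw [hTc, List.map_cons, List.prod_cons]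
      change S.E χ K j (Tl l _) = _
      rw [ih, map_smul, hE, smul_smul, mul_comm]
  -- the fixed vector
  obtain ⟨v, hv0, hv⟩ : ∃ v : Fin (W.d i) → k, v ≠ 0 ∧ ∀ u ∈ S.U, W.rho i u *ᵥ v = v := by
    let ρ' : G →* Module.End k (Fin (W.d i) → k) :=
      { toFun := fun g => (W.rho i g).mulVecLin
        map_one' := by rw [map_one, mulVecLin_one]; rfl
        map_mul' := fun g h => by rw [map_mul, mulVecLin_mul]; rfl }
    obtain ⟨v, hv, h⟩ := exists_fixed hU (ρ'.comp S.U.subtype)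
    exact ⟨v, hv, fun u hu => h ⟨u, hu⟩⟩
  have hmc := mc_ne_zero (Wed.absIrr i) ha hv0
  have hprod : (Finset.univ.toList.map e).prod = c := by
    have h4 := hTE Finset.univ.toList v
    have h5 := ((hYm _).1 (haY' v)).2
    have h6 : (Finset.univ.toList.map e).prod • mc (W.rho i) a v = c • mc (W.rho i) a v := by
      rw [← h4, ← h5]
    obtain ⟨s, hs⟩ := Function.ne_iff.1 hmc
    exact mul_right_cancel₀ hs (congrFun h6 s)
  have he : ∀ j, e j ≠ 0 := by
    intro j h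
    apply hc
    rw [← hprod]
    exact List.prod_eq_zero (List.mem_map.2 ⟨j, Finset.mem_toList.2 (Finset.mem_univ j), h⟩)
  intro j
  have hr := eigenvalue (j := j) (r := r i j) hq (haF.RU v) (LU_mc hv a) (haE.Eig v)
    (by rw [R_mc, hT, mc_smul_left]) hmc
  have hej := he j
  rcases E_cases (k := k) χ K hK j with ⟨hI, hj, h⟩ | ⟨hI, hj, h⟩ | ⟨hI, hj, h⟩
  · simp only [e, if_pos hj] at hej
    exact ⟨fun _ => hj, fun _ h => hej (by rw [h, neg_zero])⟩
  · simp only [e, if_neg hj, if_pos hI] at hej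
    rw [cc_of_I hq hI] at hr
    rcases hr with hr | hr
    · exact ⟨fun h => absurd hr h, fun h => absurd h hj⟩
    · exact absurd (by rw [hr]; ring) hej
  · rw [cc_of_not_I hI, or_self] at hr
    exact ⟨fun h => absurd hr h, fun h => absurd h hj⟩

end BNS

end Cfsg.Agent.H6.CR
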