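import Mathlib
import Cfsg.Agent.H6_CR6

/-!
Modular representations of groups with a split BN-pair in the defining characteristic, part 7:
the number of irreducible representations.
-/

set_option autoImplicit false
set_option linter.unusedSectionVars false

namespace Cfsg.Agent.H6.CR

open MonoidAlgebra Matrix

/-- local weights -/
abbrev LW (F k : Type*) [Field F] [Field k] : Type _ := {x : (Fˣ →* kˣ) × Bool // x.2 = true → x.1 = 1}

theorem card_LW (F k : Type*) [Field F] [Field k] [Fintype F] [IsAlgClosed k] (hq : (Fintype.card F : k) = 0) :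
    Nat.card (LW F k) = Fintype.card F := by
  classical
  have h1 : Nat.card (Fˣ →* kˣ) = Fintype.card F - 1 := by
    have hne : NeZero ((Monoid.exponent Fˣ : ℕ) : k) := by
      constructor
      intro h
      obtain ⟨c, hc⟩ := Group.exponent_dvd_nat_card (G := Fˣ)
      have h2 : ((Nat.card Fˣ : ℕ) : k) = 0 := by rw [hc, Nat.cast_mul, h, zero_mul]
      rw [Nat.card_eq_fintype_card, Fintype.card_units, Nat.cast_sub Fintype.card_pos, hq, Nat.cast_one, zero_sub] at h2
      exact one_ne_zero (neg_eq_zero.1 h2)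
    have := CommGroup.card_monoidHom_of_hasEnoughRootsOfUnity Fˣ k
    rw [this, Nat.card_eq_fintype_card, Fintype.card_units]
  have hfin : Finite (Fˣ →* kˣ) := by
    apply Nat.finite_of_card_ne_zero
    rw [h1]
    have := Fintype.one_lt_card (α := F)
    omega
  let e : LW F k ≃ Option (Fˣ →* kˣ) :=
    { toFun := fun x => if x.1.2 then none else some x.1.1
      invFun := fun y => match y with
        | none => ⟨(1, true), fun _ => rfl⟩
        | some φ => ⟨(φ, false), fun h => absurd h (by simp)⟩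
      left_inv := by
        rintro ⟨⟨φ, b⟩, h⟩
        cases b
        · simp
        · have := h rfl
          simp only at this
          subst this
          simp
      right_inv := by
        intro y
        cases y <;> simp }
  rw [Nat.card_congr e, Finite.card_option, h1]
  have := Fintype.card_pos (α := F)
  omega

namespace BNS

variable {G F J : Type*} [Group G] [Field F] [Fintype F] [DecidableEq F] {S : BNS G F J}
variable {k : Type*} [Field k] {d : ℕ} {ρ : G →* Matrix (Fin d) (Fin d) k}

/-- the coroot homomorphism into `H` -/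
def hH (S : BNS G F J) (j : J) : Fˣ →* S.H := (S.h j).codRestrict S.H (S.h_mem j)

theorem I_iff (χ : S.H →* kˣ) (j : J) : S.I χ j ↔ χ.comp (S.hH j) = 1 := by
  constructor
  · intro h; ext t; exact congrArg Units.val (h t)
  · intro h t; exact congrArg (fun φ : Fˣ →* kˣ => φ t) h

/-- the number of irreducible representations -/
theorem card_irr [Finite G] [Fintype J] [IsAlgClosed k] {p : ℕ} [hp : Fact p.Prime] [CharP k p]
    (hq : (Fintype.card F : k) = 0) (hU : IsPGroup p S.U) (W : Wed k G)
    (hsurj : ∀ φ : J → (Fˣ →* kˣ), ∃ χ : S.H →* kˣ, ∀ j, χ.comp (S.hH j) = φ j)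
    (hinj : ∀ χ χ' : S.H →* kˣ, (∀ j, χ.comp (S.hH j) = χ'.comp (S.hH j)) → χ = χ') :
    W.n = Fintype.card F ^ Fintype.card J := by
  classical
  have hwt : ∀ i, ∃ χ : S.H →* kˣ, ∃ r : J → k, S.IsWt (W.rho i) χ r ∧ ∀ j, r j = 0 ∨ r j = S.cc χ j := by
    intro i
    obtain ⟨a, ha, h1, χ, h2, r, hr⟩ := S.exists_weight hq hU (Wed.absIrr i) (Nat.pos_of_ne_zero (W.hd i).out)
    refine ⟨χ, r, ⟨a, ha, h1, h2, hr⟩, fun j => ?_⟩
    have : Nonempty (Fin (W.d i)) := ⟨⟨0, Nat.pos_of_ne_zero (W.hd i).out⟩⟩
    let ρ' : G →* Module.End k (Fin (W.d i) → k) :=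
      { toFun := fun g => (W.rho i g).mulVecLin
        map_one' := by rw [map_one, mulVecLin_one]; rfl
        map_mul' := fun g h => by rw [map_mul, mulVecLin_mul]; rfl }
    obtain ⟨v, hv, h⟩ := exists_fixed hU (ρ'.comp S.U.subtype)
    have hv' : ∀ u ∈ S.U, W.rho i u *ᵥ v = v := fun u hu => h ⟨u, hu⟩
    exact eigenvalue (j := j) (r := r j) hq (h1.RU v) (LU_mc hv' a) (h2.Eig v)
      (by rw [R_mc, hr, mc_smul_left]) (mc_ne_zero (Wed.absIrr i) ha hv)
  choose χ r hwt hr using hwt
  have hrI : ∀ i j, r i j ≠ 0 → S.I (χ i) j ∧ r i j = -1 := by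
    intro i j h
    have h1 := (hr i j).resolve_left h
    by_cases hI : S.I (χ i) j
    · exact ⟨hI, by rw [h1, cc_of_I hq hI]⟩
    · rw [cc_of_not_I hI] at h1; exact absurd h1 h
  let Φ : Fin W.n → J → LW F k := fun i j =>
    ⟨((χ i).comp (S.hH j), decide (r i j ≠ 0)), fun h => (I_iff _ _).1 (hrI i j (of_decide_eq_true h)).1⟩
  have hΦi : Function.Injective Φ := by
    intro i i' h
    have h1 : ∀ j, (χ i).comp (S.hH j) = (χ i').comp (S.hH j) ∧ (r i j ≠ 0 ↔ r i' j ≠ 0) := by
      intro j
      have h2 := congrArg Subtype.val (congrFun h j)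
      have h3 : decide (r i j ≠ 0) = decide (r i' j ≠ 0) := congrArg Prod.snd h2
      exact ⟨congrArg Prod.fst h2, decide_eq_decide.1 h3⟩
    have h2 := hinj _ _ fun j => (h1 j).1
    have h3 : r i = r i' := by
      funext j
      by_cases h4 : r i j = 0
      · rw [h4]
        by_contra h5
        exact (h1 j).2.2 (Ne.symm h5) h4
      · rw [(hrI i j h4).2, (hrI i' j ((h1 j).2.1 h4)).2]
    have h4 := hwt i'
    rw [← h2, ← h3] at h4
    exact wt_inj hU W (hwt i) h4
  have hΦs : Function.Surjective Φ := by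
    intro ψ
    obtain ⟨χ₀, hχ₀⟩ := hsurj fun j => (ψ j).1.1
    obtain ⟨i, hi1, hi2⟩ := wt_surj hq hU W χ₀ {j | (ψ j).1.2 = true} (fun j hj => by
      rw [I_iff, hχ₀]
      exact (ψ j).2 hj) hwt
    refine ⟨i, ?_⟩
    funext j
    apply Subtype.ext
    apply Prod.ext
    · change (χ i).comp (S.hH j) = _
      rw [hi1, hχ₀]
    · change decide (r i j ≠ 0) = _
      have h1 := hi2 j
      cases hb : (ψ j).1.2
      · exact decide_eq_false fun h => by
          have := h1.1 h
          simp [hb] at this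
      · exact decide_eq_true (h1.2 hb)
  have h1 := Nat.card_congr (Equiv.ofBijective Φ ⟨hΦi, hΦs⟩)
  rw [Nat.card_fun, card_LW F k hq, Nat.card_eq_fintype_card, Fintype.card_fin, Nat.card_eq_fintype_card] at h1
  exact h1

end BNS

end Cfsg.Agent.H6.CR
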