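import Mathlib
import Cfsg.Agent.H6_CR7
import Cfsg.Agent.H6_ChevSt4
import Cfsg.Agent.H6_BT3

/-!
Modular representations of Chevalley groups in the defining characteristic, part 8: the split
BN-pair of a Chevalley group.
-/

set_option autoImplicit false
set_option linter.unusedSectionVars false

namespace Cfsg.Agent.H6.Chev

open Cfsg Cfsg.Lie Cfsg.Lie.ChevalleyDatum

section

variable {D : ChevalleyDatum} {F : Type*} [Field F]

/-- extension of tuples as a homomorphism -/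
def exHom (D : ChevalleyDatum) (F : Type*) [Field F] : (Fin D.rank → Fˣ) →* (ℕ → Fˣ) where
  toFun := ex
  map_one' := by
    funext k
    unfold ex
    split_ifs <;> rfl
  map_mul' a b := by
    funext k
    change ex (a * b) k = ex a k * ex b k
    unfold ex
    split_ifs
    · rfl
    · rw [one_mul]

namespace Model

variable (m : Model D)

/-- coroot homomorphism -/
noncomputable def hj (F : Type*) [Field F] (j : Fin D.rank) : Fˣ →* GL D.Idx F :=
  m.hHom.comp ((exHom D F).comp (MonoidHom.mulSingle (fun _ : Fin D.rank => Fˣ) j))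

theorem hj_eq (j : Fin D.rank) (t : Fˣ) : m.hj F j t = m.hh (D.simple j) (t : F) := by
  rw [m.hh_simple j.2]
  change m.hHom (ex (Pi.mulSingle j t)) = _
  rw [hHom_apply]
  apply m.dm_congr
  intro k hk
  change ∏ i ∈ Finset.range D.rank, ex (Pi.mulSingle j t) i ^ D.cartan i (D.simple k) = t ^ pair D (D.simple j) (D.simple k)
  rw [m.pair_simple j.2, Finset.prod_eq_single (j : ℕ)]
  · congr 1
    unfold ex
    rw [dif_pos j.2]
    simp
  · intro b hb hne
    unfold ex
    rw [dif_pos (Finset.mem_range.1 hb), Pi.mulSingle_eq_of_ne (fun h => hne (congrArg Fin.val h)), one_zpow]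
  · intro h; exact absurd (Finset.mem_range.2 j.2) h

theorem hj_mem (j : Fin D.rank) (t : Fˣ) : m.hj F j t ∈ D.diagonalSubgroup F := m.hHom_mem _

/-- conjugation of the torus by `n_j` -/
theorem n_conj_H_eq (j : Fin D.rank) {a : GL D.Idx F} (ha : a ∈ D.diagonalSubgroup F) :
    ∃ t : Fˣ, (m.n F j)⁻¹ * a * m.n F j = a * m.hj F j t := by
  obtain ⟨b, rfl⟩ := m.mem_H.1 ha
  set c := hC D b with hc
  -- conjugation by `n_j`
  have h1 : m.n F j * m.hHom b * (m.n F j)⁻¹ = m.hHom b * m.hj F j ((m.chi c (D.simple j))⁻¹) := by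
    rw [mul_inv_eq_iff_eq_mul, hHom_apply, m.n_dm _ j.2, hj_eq, m.hh_simple j.2, ← map_mul]
    congr 1
    apply m.dm_congr
    intro k hk
    change m.chi c (D.reflectRoot j (D.simple k)) = c k * ((m.chi c (D.simple j))⁻¹) ^ pair D (D.simple j) (D.simple k)
    rw [m.chi_refl c j.2 (m.simple_lt k hk), m.pair_simple j.2, m.chi_simple c hk, m.chi_simple c j.2]
    rw [inv_zpow, zpow_neg]
  refine ⟨(m.chi c (D.simple j))⁻¹, ?_⟩
  have h2 : (m.n F j)⁻¹ * m.hHom b * m.n F j =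
      m.n F j * ((m.n F j * m.n F j)⁻¹ * m.hHom b * (m.n F j * m.n F j)) * (m.n F j)⁻¹ := by group
  have h3 : (m.n F j * m.n F j)⁻¹ * m.hHom b * (m.n F j * m.n F j) = m.hHom b := by
    rw [m.H_comm (inv_mem (m.n_sq j)) ha]; group
  rw [h2, h3, h1]

/-- the rank one relation -/
theorem X_n_eq (j : Fin D.rank) (t : Fˣ) : m.X (m.p j) (t : F) * m.n F j =
    m.X (m.ng (m.p j)) ((t : F)⁻¹) * m.hj F j (-t) * m.X (m.p j) (-(t : F)⁻¹) := by
  have hr := m.simple_lt j j.2
  let R := m.rk1 F hr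
  have ht : (t : F) ≠ 0 := t.ne_zero
  have h1 : R.Y ((t : F)⁻¹) = R.X t * R.n (-t) * R.X t := by
    have := R.Y_eq (-(t : F)⁻¹)
    rw [_root_.neg_neg, inv_neg, inv_inv, _root_.neg_neg] at this
    exact this
  have h2 : R.X (t : F) * R.n 1 = R.Y ((t : F)⁻¹) * R.h (-t) * R.X (-(t : F)⁻¹) := by
    have h3 : R.X (t : F) * R.h (-t) = R.h (-t) * R.X ((t : F)⁻¹) := by
      rw [R.Xh (neg_ne_zero.2 ht)]
      congr 2
      field_simp
    have h4 : R.n (-t) * R.h (-t) = R.n 1 := by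
      rw [R.n_h (neg_ne_zero.2 ht) (neg_ne_zero.2 ht), mul_inv_cancel₀ (neg_ne_zero.2 ht)]
    rw [h1, mul_assoc _ (R.X (t : F)) (R.h (-t)), h3, ← mul_assoc, mul_assoc _ (R.n (-t)), h4, R.X_neg,
      mul_assoc, mul_inv_cancel, mul_one]
  have h5 : m.hj F j (-t) = R.h (-t) := by rw [hj_eq, Units.val_neg]; rfl
  rw [h5]
  exact h2

include m in
theorem isPGroup_U [Fintype F] (p : ℕ) [hp : Fact p.Prime] [CharP F p] : IsPGroup p (D.posUnipotent F) := by
  obtain ⟨w, hw, h⟩ := m.exists_longest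
  have h1 := m.card_Uw (F := F) (m.isW hw)
  have h2 : m.Uw F w = D.posUnipotent F := by
    rw [m.posUnipotent_eq]
    apply le_antisymm
    · exact m.gen_mono fun _ _ h => h.1
    · exact m.gen_mono fun r hr hN => ⟨hN, hr, h ⟨r, hr⟩ hN⟩
  rw [h2] at h1
  obtain ⟨n, -, hn⟩ := FiniteField.card F p
  apply IsPGroup.of_card (n := n * (m.inv w).card)
  rw [h1, hn, pow_mul]

include m in
/-- uniqueness in the Bruhat decomposition -/
theorem N_unique {x y u u' : GL D.Idx F} (hx : x ∈ D.monomialSubgroup F) (hy : y ∈ D.monomialSubgroup F)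
    (hu : u ∈ D.posUnipotent F) (hu' : u' ∈ D.posUnipotent F) (h : u * x * u' = y) : x = y := by
  have h1 := m.bruhat_unique_N (U_le_B hu) (one_mem _) hx hy (U_le_B hu') (one_mem _)
    (by rw [one_mul, mul_one]; exact h)
  obtain ⟨w, hw, hact⟩ := m.acts_N hx
  obtain ⟨a, ha, v, hv, he⟩ := m.exists_Uw_mul hact hu'
  have h2 : x * (x⁻¹ * y) * x⁻¹ ∈ D.diagonalSubgroup F :=
    (Subgroup.mem_normalizer_iff.1 (m.N_le_normalizer hx) _).1 h1
  have h3 : (u * (x * a * x⁻¹)) * x * v = (x * (x⁻¹ * y) * x⁻¹) * x * 1 := by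
    rw [mul_one, inv_mul_cancel_right, mul_inv_cancel_left, ← h, he]; group
  have h4 := m.bruhat_unique (mul_mem (U_le_B hu) (U_le_B ha)) (H_le_B h2) hact hv (one_mem _) h3
  have h5 : x * (x⁻¹ * y) * x⁻¹ ∈ D.posUnipotent F ⊓ D.diagonalSubgroup F :=
    Subgroup.mem_inf.2 ⟨by rw [← h4.1]; exact mul_mem hu ha, h2⟩
  rw [m.U_inf_H, Subgroup.mem_bot, mul_inv_cancel_left, mul_inv_eq_one] at h5
  exact h5.symm

/-- elements with given descent set -/
theorem exists_descent (K : Set (Fin D.rank)) : ∃ w ∈ m.Wg, ∀ j, (m.N ≤ (w (m.p j) : ℕ) ↔ j ∉ K) := by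
  classical
  obtain ⟨w₀, hw₀, h₀⟩ := m.exists_longest
  have hex : ∃ n, ∃ w ∈ m.Wg, (m.inv w).card = n ∧ ∀ j ∈ K, (w (m.p j) : ℕ) < m.N :=
    ⟨_, w₀, hw₀, rfl, fun j _ => h₀ _ (m.p_pos j)⟩
  obtain ⟨w, hw, hn, hK⟩ := Nat.find_spec hex
  have hmin := fun n' h => Nat.find_min (m := n') hex h
  refine ⟨w, hw, fun j => ⟨fun h hj => absurd (hK j hj) (not_lt.2 h), fun hj => ?_⟩⟩
  by_contra hc
  rw [not_le] at hc
  have h1 := m.card_inv_sr hw hc
  have hs : m.sr j ∈ m.Wg := Subgroup.subset_closure ⟨j, rfl⟩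
  refine hmin (m.inv (w * m.sr j)).card (by omega) ⟨w * m.sr j, mul_mem hw hs, rfl, fun i hi => ?_⟩
  have hij : i ≠ j := fun h => hj (h ▸ hi)
  rw [Equiv.Perm.mul_apply]
  by_contra hc2
  rw [not_lt] at hc2
  have hsp : m.N ≤ m.sr j (m.p i) := m.sr_pos (m.p_pos i) (fun h => hij (m.p_inj h))
  have hW := m.isW hw
  -- coefficients
  have h2 : ∀ l < D.rank, m.coef (w (m.sr j (m.p i))) l = 0 := by
    intro l hl
    apply le_antisymm
    · rw [hW.lin _ l hl]
      apply Finset.sum_nonpos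
      intro k _
      have h3 : 0 ≤ m.coef (m.sr j (m.p i)) k := m.coef_nonneg _ hsp (m.sr j (m.p i)).2 k k.2
      by_cases hk : k = i ∨ k = j
      · have h4 : (w (m.p k) : ℕ) < m.N := by
          rcases hk with rfl | rfl
          · exact hK _ hi
          · exact hc
        have h5 : m.coef (w (m.p k)) l ≤ 0 := by
          have h6 := m.coef_nonneg _ ((m.ng_ge_iff (w (m.p k))).2 h4) (m.ng (w (m.p k))).2 l hl
          rw [m.coe_ng, m.coef_neg _ (w (m.p k)).2 l hl] at h6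
          linarith
        exact mul_nonpos_of_nonneg_of_nonpos h3 h5
      · push Not at hk
        have h4 : m.coef (m.sr j (m.p i)) k = 0 := by
          rw [m.coe_sr, m.coef_refl j j.2 _ (m.p i).2 k k.2, coe_p, m.coef_simple i i.2 k k.2,
            if_neg (fun h => hk.1 (Fin.ext h.symm)), if_neg (fun h => hk.2 (Fin.ext h.symm))]
          try simp
        rw [h4, zero_mul]
    · exact m.coef_nonneg _ hc2 (w (m.sr j (m.p i))).2 l hl
  have h3 : m.lam (w (m.sr j (m.p i))) = 0 := by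
    unfold lam
    exact Finset.sum_eq_zero fun l hl => by rw [h2 l (Finset.mem_range.1 hl), zero_mul]
  have h4 := m.lam_pos (w (m.sr j (m.p i))).2 hc2
  omega

end Model

end

end Cfsg.Agent.H6.Chev
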