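import Mathlib
import Cfsg.Agent.H6_CR8

/-!
Modular representations of Chevalley groups in the defining characteristic, part 9: the number of
`p`-regular classes.
-/

set_option autoImplicit false
set_option linter.unusedSectionVars false

namespace Cfsg.Agent.H6.Chev

open Cfsg Cfsg.Lie Cfsg.Lie.ChevalleyDatum

section

variable {D : ChevalleyDatum} {F : Type*} [Field F]

namespace Model

variable (m : Model D)

/-- the Weyl group element of an element of `N` -/
noncomputable def wx (x : GL D.Idx F) : Equiv.Perm (Fin D.nroots) := by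
  classical
  exact if h : x ∈ D.monomialSubgroup F then (m.acts_N h).choose else 1

theorem wx_spec {x : GL D.Idx F} (h : x ∈ D.monomialSubgroup F) : m.wx x ∈ m.Wg ∧ m.Acts x (m.wx x) := by
  unfold wx
  rw [dif_pos h]
  exact (m.acts_N h).choose_spec

theorem wx_eq {x : GL D.Idx F} (h : x ∈ D.monomialSubgroup F) {w : Equiv.Perm (Fin D.nroots)} (hw : m.Acts x w) :
    m.wx x = w := m.acts_unique (m.wx_spec h).2 hw

theorem wx_mul_n {x : GL D.Idx F} (h : x ∈ D.monomialSubgroup F) (j : Fin D.rank) :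
    m.wx (x * m.n F j) = m.wx x * m.sr j :=
  m.wx_eq (mul_mem h (m.n_mem_N j)) ((m.wx_spec h).2.mul (m.acts_n j))

theorem wx_mul_H {x a : GL D.Idx F} (h : x ∈ D.monomialSubgroup F) (ha : a ∈ D.diagonalSubgroup F) :
    m.wx (x * a) = m.wx x := by
  have := (m.wx_spec h).2.mul (m.acts_h ha)
  rw [mul_one] at this
  exact m.wx_eq (mul_mem h (m.H_le_N ha)) this

/-- longest elements are congruent modulo `H` -/
theorem longest_unique {x y : GL D.Idx F} (hx : x ∈ D.monomialSubgroup F) (hy : y ∈ D.monomialSubgroup F)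
    (h1 : ∀ j, (m.wx x (m.p j) : ℕ) < m.N) (h2 : ∀ j, (m.wx y (m.p j) : ℕ) < m.N) :
    x⁻¹ * y ∈ D.diagonalSubgroup F := by
  have hxW := m.isW (m.wx_spec hx).1
  have hyW := m.isW (m.wx_spec hy).1
  have h3 : (m.wx x)⁻¹ * m.wx y = 1 := by
    apply m.eq_one_of_pos (mul_mem (inv_mem (m.wx_spec hx).1) (m.wx_spec hy).1)
    intro j
    rw [Equiv.Perm.mul_apply]
    by_contra hc
    rw [not_le] at hc
    -- the negative root `s` is sent to a positive one
    have h4 := hxW.neg_of_simple h1 (r := m.ng ((m.wx x)⁻¹ (m.wx y (m.p j)))) ((m.ng_ge_iff _).2 hc)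
    have e : (m.wx x) ((m.wx x)⁻¹ (m.wx y (m.p j))) = m.wx y (m.p j) := by
      rw [← Equiv.Perm.mul_apply, mul_inv_cancel, Equiv.Perm.one_apply]
    rw [hxW.neg, e, m.ng_lt_iff] at h4
    have := h2 j
    omega
  apply m.mem_H_of_acts_one (mul_mem (inv_mem hx) hy)
  have h4 := (m.acts_inv hx (m.wx_spec hx).2).mul (m.wx_spec hy).2
  rwa [h3] at h4

/-- the split BN-pair -/
noncomputable def bns (F : Type*) [Field F] : CR.BNS ↥(D.group F) F (Fin D.rank) where
  U := (D.posUnipotent F).subgroupOf (D.group F)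
  H := (D.diagonalSubgroup F).subgroupOf (D.group F)
  N := (D.monomialSubgroup F).subgroupOf (D.group F)
  X j t := ⟨m.X (m.p j) t, m.X_mem_group _ _⟩
  n j := ⟨m.n F j, m.N_le_G (m.n_mem_N j)⟩
  h j := (m.hj F j).codRestrict (D.group F) (fun t => m.H_le_G (m.hj_mem j t))
  pos x j := m.N ≤ (m.wx (x : GL D.Idx F) (m.p j) : ℕ)
  len x := (m.inv (m.wx (x : GL D.Idx F))).card
  HN := fun _ h => m.H_le_N h
  hUH := fun a ha u hu => (Subgroup.mem_normalizer_iff.1 (m.H_le_normalizer_U ha) _).1 hu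
  Hcomm := fun a ha b hb => Subtype.ext (m.H_comm ha hb)
  n_mem := fun j => m.n_mem_N j
  h_mem := fun j t => m.hj_mem j t
  bruhat := by
    rintro ⟨g, hg⟩
    obtain ⟨b, hb, x, hx, b', hb', rfl⟩ := m.exists_bruhat hg
    obtain ⟨u, hu, a, ha, rfl⟩ := m.mem_B.1 hb
    obtain ⟨u', hu', a', ha', rfl⟩ := m.mem_B.1 hb'
    have h1 := (Subgroup.mem_normalizer_iff.1 (inv_mem (m.H_le_normalizer_U ha')) u').1 hu'
    rw [inv_inv] at h1
    have hm : a * x * a' ∈ D.monomialSubgroup F := mul_mem (mul_mem (m.H_le_N ha) hx) (m.H_le_N ha')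
    refine ⟨⟨u, m.U_le_G hu⟩, hu, ⟨a * x * a', m.N_le_G hm⟩, hm, ⟨_, m.U_le_G h1⟩, h1, Subtype.ext ?_⟩
    change u * a * x * (u' * a') = u * (a * x * a') * (a'⁻¹ * u' * a')
    group
  bruhat_unique := fun x hx y hy u hu u' hu' h =>
    Subtype.ext (m.N_unique hx hy hu hu' (congrArg Subtype.val h))
  shift := by
    intro j u hu
    have hu' : (u : GL D.Idx F) ∈ D.posUnipotent F := hu
    obtain ⟨v, hv, s, hs⟩ := m.exists_Up_mul j hu'
    refine ⟨s, fun t => ?_⟩
    have h1 : m.X (m.p j) (s + t) * m.n F j ∈ Subgroup.normalizer (m.Up F j : Set (GL D.Idx F)) :=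
      mul_mem (m.X_norm_Up (m.p_pos j) j _) (m.n_norm_Up j)
    have h2 := (Subgroup.mem_normalizer_iff.1 (inv_mem h1) v).1 hv
    refine ⟨⟨_, m.U_le_G (m.Up_le_U j h2)⟩, m.Up_le_U j h2, Subtype.ext ?_⟩
    change (u : GL D.Idx F) * m.X (m.p j) t * m.n F j = m.X (m.p j) (s + t) * m.n F j * _
    rw [hs, mul_assoc v, ← m.X_add]
    group
  X_zero := fun j => Subtype.ext (m.X_zero _)
  hX := by
    intro j a ha
    obtain ⟨c, hc⟩ := m.acts_h ha
    exact ⟨c (m.p j), fun t => Subtype.ext (hc.X (m.p j) t)⟩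
  hn := by
    intro j a ha
    obtain ⟨t, ht⟩ := m.n_conj_H_eq j ha
    exact ⟨t, Subtype.ext ht⟩
  posX := by
    intro j x hx hp t
    have hx' : (x : GL D.Idx F) ∈ D.monomialSubgroup F := hx
    obtain ⟨c, hc⟩ := (m.wx_spec hx').2
    exact ⟨⟨_, m.X_mem_group _ _⟩, m.X_mem_pos hp _, Subtype.ext (hc.X (m.p j) t)⟩
  negX := by
    intro j x hx hp t
    have hx' : (x : GL D.Idx F) ∈ D.monomialSubgroup F := hx
    obtain ⟨c, hc⟩ := (m.wx_spec hx').2
    have hneg : m.N ≤ (m.wx (x : GL D.Idx F) (m.ng (m.p j)) : ℕ) := by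
      rw [(m.isW (m.wx_spec hx').1).neg, m.ng_ge_iff]
      exact not_le.1 hp
    refine ⟨⟨m.X (m.wx (x : GL D.Idx F) (m.ng (m.p j))) (((c (m.ng (m.p j)) : Fˣ) : F) * (t : F)⁻¹),
      m.X_mem_group _ _⟩, m.X_mem_pos hneg _,
      ⟨m.X (m.p j) (-(t : F)⁻¹), m.X_mem_group _ _⟩, m.X_mem_pos (m.p_pos j) (-(t : F)⁻¹), Subtype.ext ?_⟩
    change (x : GL D.Idx F) * m.X (m.p j) (t : F) * m.n F j = _ * ((x : GL D.Idx F) * m.hj F j (-t)) * _
    rw [mul_assoc, m.X_n_eq, ← mul_assoc, ← mul_assoc, hc.X]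
    simp only [mul_assoc]
  pos_n := by
    intro j x hx
    have hx' : (x : GL D.Idx F) ∈ D.monomialSubgroup F := hx
    change m.N ≤ (m.wx ((x : GL D.Idx F) * m.n F j) (m.p j) : ℕ) ↔ ¬ _
    rw [m.wx_mul_n hx', Equiv.Perm.mul_apply, m.sr_p, (m.isW (m.wx_spec hx').1).neg, m.ng_ge_iff, not_le]
  pos_H := by
    intro j x hx a ha
    have hx' : (x : GL D.Idx F) ∈ D.monomialSubgroup F := hx
    have ha' : (a : GL D.Idx F) ∈ D.diagonalSubgroup F := ha
    change m.N ≤ (m.wx ((x : GL D.Idx F) * (a : GL D.Idx F)) (m.p j) : ℕ) ↔ _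
    rw [m.wx_mul_H hx' ha']
  len_n := by
    intro j x hx hp
    have hx' : (x : GL D.Idx F) ∈ D.monomialSubgroup F := hx
    change (m.inv (m.wx ((x : GL D.Idx F) * m.n F j))).card < _
    rw [m.wx_mul_n hx']
    have := m.card_inv_sr (m.wx_spec hx').1 (not_le.1 hp)
    change _ < (m.inv (m.wx (x : GL D.Idx F))).card
    omega
  len_H := by
    intro x hx a ha
    have hx' : (x : GL D.Idx F) ∈ D.monomialSubgroup F := hx
    have ha' : (a : GL D.Idx F) ∈ D.diagonalSubgroup F := ha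
    change (m.inv (m.wx ((x : GL D.Idx F) * (a : GL D.Idx F)))).card = _
    rw [m.wx_mul_H hx' ha']
  longest := fun x hx y hy h1 h2 => m.longest_unique hx hy (fun j => not_le.1 (h1 j)) (fun j => not_le.1 (h2 j))
  exists_K := by
    intro K
    obtain ⟨w, hw, h⟩ := m.exists_descent K
    obtain ⟨x, hx, hact⟩ := m.exists_acts (F := F) hw
    refine ⟨⟨x, m.N_le_G hx⟩, hx, fun j => ?_⟩
    change m.N ≤ (m.wx x (m.p j) : ℕ) ↔ _
    rw [m.wx_eq hx hact]
    exact h j

variable {m} in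
/-- number of `p`-regular classes in terms of the torus -/
theorem card_regular_classes [Fintype F] {p : ℕ} [hp : Fact p.Prime] [CharP F p]
    (htor : Nat.card (D.diagonalSubgroup F) = (Fintype.card F - 1) ^ D.rank) (m : Model D) :
    Nat.card {c : ConjClasses ↥(D.group F) // ∃ g : ↥(D.group F), ConjClasses.mk g = c ∧ (orderOf g).Coprime p} =
      Fintype.card F ^ D.rank := by
  classical
  let k := AlgebraicClosure (ZMod p)
  have hq : (Fintype.card F : k) = 0 := by
    rw [CharP.cast_eq_zero_iff k p]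
    obtain ⟨n, -, hn⟩ := FiniteField.card F p
    rw [hn]
    exact dvd_pow_self p n.ne_zero
  have hfin : Fintype ↥(D.group F) := Fintype.ofFinite _
  obtain ⟨W⟩ := CR.exists_wed k ↥(D.group F)
  rw [W.card_classes p]
  have hU : IsPGroup p (m.bns F).U := (m.isPGroup_U (F := F) p).comap_subtype (K := D.group F)
  -- the torus
  let Θ : (Fin D.rank → Fˣ) →* (m.bns F).H :=
    ((m.hHom.comp (exHom D F)).codRestrict (D.group F) (fun t => m.H_le_G (m.hHom_mem _))).codRestrict _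
      (fun t => m.hHom_mem _)
  have hΘs : Function.Surjective Θ := by
    rintro ⟨⟨a, ha⟩, ha'⟩
    obtain ⟨b, rfl⟩ := m.mem_H.1 (ha' : a ∈ D.diagonalSubgroup F)
    refine ⟨fun k => b k, Subtype.ext (Subtype.ext ?_)⟩
    change m.hHom (ex fun k : Fin D.rank => b k) = m.hHom b
    rw [hHom_apply, hHom_apply]
    apply m.dm_congr
    intro k hk
    change ∏ i ∈ Finset.range D.rank, ex (fun k : Fin D.rank => b k) i ^ D.cartan i (D.simple k) =
      ∏ i ∈ Finset.range D.rank, b i ^ D.cartan i (D.simple k)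
    refine Finset.prod_congr rfl fun i hi => ?_
    unfold ex
    rw [dif_pos (Finset.mem_range.1 hi)]
  have hcardH : Nat.card (m.bns F).H = Nat.card (Fin D.rank → Fˣ) := by
    rw [Nat.card_fun, Nat.card_eq_fintype_card (α := Fin D.rank), Fintype.card_fin,
      Nat.card_eq_fintype_card (α := Fˣ), Fintype.card_units, ← htor]
    exact Nat.card_congr (Subgroup.subgroupOfEquivOfLe (m.H_le_G (F := F))).toEquiv
  have hΘb : Function.Bijective Θ := (Nat.bijective_iff_surjective_and_card _).2 ⟨hΘs, hcardH.symm⟩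
  let e := MulEquiv.ofBijective Θ hΘb
  have he : ∀ j t, (m.bns F).hH j t = Θ (Pi.mulSingle j t) := fun j t => rfl
  have h1 := CR.BNS.card_irr (S := m.bns F) hq hU W ?_ ?_
  · rw [h1, Fintype.card_fin]
  · intro φ
    refine ⟨(∏ j, (φ j).comp (Pi.evalMonoidHom (fun _ : Fin D.rank => Fˣ) j)).comp e.symm.toMonoidHom, fun j => ?_⟩
    ext t
    rw [MonoidHom.comp_apply, MonoidHom.comp_apply, he]
    change (((∏ j, (φ j).comp (Pi.evalMonoidHom (fun _ : Fin D.rank => Fˣ) j)) (e.symm (e (Pi.mulSingle j t))) : kˣ) : k) = _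
    rw [MulEquiv.symm_apply_apply, MonoidHom.finsetProd_apply, Finset.prod_eq_single j]
    · change ((φ j (Pi.mulSingle (M := fun _ => Fˣ) j t j) : kˣ) : k) = _
      rw [Pi.mulSingle_eq_same]
    · intro i _ hij
      change φ i (Pi.mulSingle (M := fun _ => Fˣ) j t i) = 1
      rw [Pi.mulSingle_eq_of_ne hij, map_one]
    · intro h; exact absurd (Finset.mem_univ _) h
  · intro χ χ' h
    have h2 : χ.comp Θ = χ'.comp Θ := by
      apply MonoidHom.functions_ext'
      intro j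
      ext t
      have h3 := congrArg (fun f : Fˣ →* kˣ => f t) (h j)
      change χ ((m.bns F).hH j t) = χ' ((m.bns F).hH j t) at h3
      rw [he] at h3
      exact congrArg Units.val h3
    ext x
    obtain ⟨y, rfl⟩ := hΘs x
    exact congrArg (fun f : (Fin D.rank → Fˣ) →* kˣ => ((f y : kˣ) : k)) h2

end Model

end

end Cfsg.Agent.H6.Chev
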