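import Mathlib
import Cfsg.Agent.H6_CR9

/-!
Blocks of Chevalley groups in the defining characteristic, part 1: centralizers of unipotent
radicals.
-/

set_option autoImplicit false
set_option linter.unusedSectionVars false

namespace Cfsg.Agent.H6.Chev

open Cfsg Cfsg.Lie Cfsg.Lie.ChevalleyDatum

namespace Model

variable {D : ChevalleyDatum} {F : Type*} [Field F] (m : Model D)

theorem good_from {k : ℕ} (hk : m.N ≤ k) : m.Good (List.range' k (D.nroots - k)) where
  sorted := List.pairwise_lt_range'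
  pos := fun r hr => by
    rw [List.mem_range'_1] at hr
    omega
  closed := fun r hr s hs hrs c hc => by
    rw [List.mem_range'_1] at hr hs ⊢
    have := m.comm_gt (by omega) (by omega) (by omega : r < D.nroots) (by omega : s < D.nroots) (by omega) hc
    omega

/-- a root element in the group generated by later root groups is trivial -/
theorem X_eq_of_gen {k : ℕ} (hk : m.N ≤ k) (hk' : k < D.nroots) {t u : F} {a b : GL D.Idx F}
    (ha : a ∈ m.gen F (fun s => k < s)) (hb : b ∈ m.gen F (fun s => k < s)) (h : m.X k t * a = m.X k u * b) :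
    t = u ∧ a = b := by
  have h1 : List.range' k (D.nroots - k) = k :: List.range' (k + 1) (D.nroots - (k + 1)) := by
    obtain ⟨e, he⟩ : ∃ e, D.nroots - k = e + 1 := ⟨D.nroots - k - 1, by omega⟩
    rw [he, List.range'_succ]
    congr 2
    omega
  have h2 := m.good_from hk
  rw [h1] at h2
  have h3 : ∀ a, a ∈ m.gen F (fun s => k < s) → a ∈ m.UL F (List.range' (k + 1) (D.nroots - (k + 1))) := by
    intro a ha
    have : m.gen F (fun s => k < s) = m.UL F (List.range' (k + 1) (D.nroots - (k + 1))) := by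
      apply m.gen_congr
      intro r hr
      rw [List.mem_range'_1]
      omega
    rwa [this] at ha
  exact h2.cancel (h3 a ha) (h3 b hb) h

/-- a non-trivial root element of a unipotent radical -/
theorem mem_of_X_mem_radical {J : Set ℕ} {k : ℕ} (hk : k < D.nroots) {c : F} (hc : c ≠ 0)
    (h : m.X k c ∈ D.unipotentRadical F J) : m.N ≤ k ∧ ¬ D.InRootSub J k := by
  rw [m.unipotentRadical_eq] at h
  have h4 : m.Sh (phi J) {z | 0 < z} (m.X k c : Matrix D.Idx D.Idx F) := by
    refine m.Sh_gen' ?_ ?_ h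
    · intro a (ha : 0 < a) b (hb : 0 < b)
      exact add_pos ha hb
    · rintro r hr ⟨hrN, hrJ⟩
      exact m.evr_phi_pos hrN hr hrJ
  have hne : m.X k c ≠ 1 := by
    intro h1
    have h2 := m.X_eq_X hk hk hc (show m.X k c = m.X k c from rfl)
    have h3 : m.X k c = m.X (D.neg k) 0 := by rw [h1, m.X_zero]
    have h5 := m.X_eq_X hk (m.neg_lt hk) hc h3
    exact m.neg_ne hk h5.symm
  obtain ⟨i, j, hij⟩ : ∃ i j, ((m.X k c : Matrix D.Idx D.Idx F) - 1) i j ≠ 0 := by
    by_contra hcon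
    push Not at hcon
    apply hne
    apply Units.ext
    ext i j
    have := hcon i j
    rw [Matrix.sub_apply, sub_eq_zero] at this
    rw [this, Units.val_one]
  have h5 := h4 i j hij
  obtain ⟨e, he, h6⟩ := m.x_entry hk c i j hij
  rw [h6 (phi J)] at h5
  apply m.pos_of_evr_phi hk
  have h7 : (0 : ℤ) < e * m.evr (phi J) k := by
    have : (0 : ℤ) < m.wtI (phi J) j + e * m.evr (phi J) k - m.wtI (phi J) j := h5
    linarith
  have h8 : (0 : ℤ) < e := by exact_mod_cast he
  by_contra hcon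
  nlinarith

/-- the conjugates of root elements of a radical, modulo later roots of the radical -/
theorem conj_X_radical {J : Set ℕ} {r : ℕ} (hr : r < D.nroots) (hrN : m.N ≤ r) (hrJ : ¬ D.InRootSub J r) (t : F)
    {v : GL D.Idx F} (hv : v ∈ D.posUnipotent F) :
    ∃ a ∈ m.gen F (fun s => (m.N ≤ s ∧ ¬ D.InRootSub J s) ∧ r < s), v * m.X r t = m.X r t * a * v := by
  rw [m.posUnipotent_eq] at hv
  refine m.gen_induction (p := fun v => ∃ a ∈ m.gen F (fun s => (m.N ≤ s ∧ ¬ D.InRootSub J s) ∧ r < s),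
    v * m.X r t = m.X r t * a * v) ?_ ?_ hv
  · exact ⟨1, one_mem _, by simp⟩
  · rintro s hs hsN b g _ ⟨a, ha, h⟩
    have hcl : ∀ x < D.nroots, (m.N ≤ x ∧ ¬ D.InRootSub J x) → x ≠ s → ∀ c ∈ D.commTerms s x,
        (m.N ≤ c.1 ∧ ¬ D.InRootSub J c.1) ∧ x < c.1 := by
      rintro x hx ⟨hxN, hxJ⟩ hxs c hc
      have hneg : x ≠ D.neg s := by
        have := (m.neg_lt_iff hs).2 hsN
        omega
      have h4 := m.comm_lt s hs x hx hxs hneg c hc
      have h1 := m.evr_phi_pos hxN hx hxJ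
      have h2 := m.evr_phi_nonneg J hsN hs
      refine ⟨m.pos_of_evr_phi h4.1 ?_, (m.comm_gt hsN hxN hs hx hxs hc).2.1⟩
      rw [m.comm_lam hs hx hxs hneg hc]
      have h5 : (1 : ℤ) ≤ (c.2.2.2 : ℤ) := by exact_mod_cast h4.2.2.1
      have h6 : (0 : ℤ) ≤ (c.2.2.1 : ℤ) := by positivity
      have := mul_nonneg h6 h2
      nlinarith
    have hnorm : m.X s b ∈ Subgroup.normalizer (m.gen F (fun x => (m.N ≤ x ∧ ¬ D.InRootSub J x) ∧ r < x) : Set (GL D.Idx F)) := by
      apply m.X_mem_normalizer hs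
      rintro x hx ⟨⟨hxN, hxJ⟩, hrx⟩
      refine ⟨?_, fun hxs c hc => ?_⟩
      · have := (m.neg_lt_iff hs).2 hsN
        omega
      · have := hcl x hx ⟨hxN, hxJ⟩ hxs c hc
        exact ⟨this.1, by omega⟩
    obtain ⟨a', ha', h'⟩ : ∃ a' ∈ m.gen F (fun s => (m.N ≤ s ∧ ¬ D.InRootSub J s) ∧ r < s),
        m.X s b * m.X r t = m.X r t * m.X s b * a' := by
      by_cases hsr : s = r
      · subst hsr
        exact ⟨1, one_mem _, by rw [mul_one, m.X_comm]⟩
      · refine ⟨m.word (D.commWord F r s t b), m.word_mem_gen ?_, m.X_comm_formula hr hs hsr ?_ t b⟩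
        · intro p hp
          unfold ChevalleyDatum.commWord at hp
          rw [List.mem_map] at hp
          obtain ⟨c, hc, rfl⟩ := hp
          have hneg : s ≠ D.neg r := by
            have := (m.neg_lt_iff hr).2 hrN
            omega
          have h4 := m.comm_lt r hr s hs hsr hneg c hc
          have h1 := m.evr_phi_pos hrN hr hrJ
          have h2 := m.evr_phi_nonneg J hsN hs
          refine ⟨m.pos_of_evr_phi h4.1 ?_, (m.comm_gt hrN hsN hr hs hsr hc).1⟩
          rw [m.comm_lam hr hs hsr hneg hc]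
          have h5 : (1 : ℤ) ≤ (c.2.2.1 : ℤ) := by exact_mod_cast h4.2.1
          have h6 : (0 : ℤ) ≤ (c.2.2.2 : ℤ) := by positivity
          have := mul_nonneg h6 h2
          nlinarith
        · have := (m.neg_lt_iff hr).2 hrN
          omega
    refine ⟨m.X s b * (a' * a) * (m.X s b)⁻¹, (Subgroup.mem_normalizer_iff.1 hnorm _).1 (mul_mem ha' ha), ?_⟩
    calc m.X s b * g * m.X r t = m.X s b * (g * m.X r t) := by rw [mul_assoc]
      _ = (m.X s b * m.X r t) * a * g := by rw [h]; simp only [mul_assoc]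
      _ = _ := by rw [h']; group

/-- every simple root is a difference of roots outside a proper parabolic subsystem -/
def Conn : Prop := ∀ i j : Fin D.rank, i ≠ j → ∃ s, s < D.nroots ∧ m.N ≤ s ∧ 1 ≤ m.coef s i ∧ D.cartan j s = -1

/-- the centralizer of the unipotent radical of a proper parabolic -/
theorem centralizer_radical (hconn : m.Conn) {J : Set ℕ} (hJ : ∃ i, i < D.rank ∧ i ∉ J) {x : GL D.Idx F}
    (hx : x ∈ D.group F) (hc : ∀ y ∈ D.unipotentRadical F J, x * y = y * x) : x ∈ D.posUnipotent F := by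
  obtain ⟨i₀, hi₀, hi₀J⟩ := hJ
  obtain ⟨u₁, hu₁, n₁, hn₁, u₁', hu₁', hx₁⟩ := (m.bns F).bruhat ⟨x, hx⟩
  obtain ⟨u, hu, n, hn, u', hu', rfl⟩ : ∃ u ∈ D.posUnipotent F, ∃ n ∈ D.monomialSubgroup F, ∃ u' ∈ D.posUnipotent F,
      x = u * n * u' := ⟨u₁, hu₁, n₁, hn₁, u₁', hu₁', congrArg Subtype.val hx₁⟩
  obtain ⟨w, hw, c, hact⟩ := m.acts_N hn
  have hW := m.isW hw
  have hUR : D.posUnipotent F ≤ Subgroup.normalizer (D.unipotentRadical F J : Set (GL D.Idx F)) :=
    U_le_B.trans ((m.B_le_parabolic J).trans (m.parabolic_norm J))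
  have h1 : ∀ z ∈ D.unipotentRadical F J, n * z * n⁻¹ ∈ D.unipotentRadical F J := by
    intro z hz
    have hy := (Subgroup.mem_normalizer_iff.1 (hUR (inv_mem hu')) z).1 hz
    have h2 := hc _ hy
    have h3 : n * z * n⁻¹ = u⁻¹ * (u'⁻¹ * z * u'⁻¹⁻¹) * u⁻¹⁻¹ := by
      have h4 : u * n * u' * (u'⁻¹ * z * u'⁻¹⁻¹) = u * (n * z * n⁻¹) * (n * u') := by group
      rw [h4] at h2
      have h5 : n * z * n⁻¹ = u⁻¹ * (u * (n * z * n⁻¹) * (n * u')) * (n * u')⁻¹ := by group
      rw [h5, h2]; group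
    rw [h3]
    exact (Subgroup.mem_normalizer_iff.1 (hUR (inv_mem hu)) _).1 hy
  have h2 : ∀ r : Fin D.nroots, m.N ≤ r → ¬ D.InRootSub J r → m.N ≤ (w r : ℕ) ∧ ¬ D.InRootSub J (w r) := by
    intro r hrN hrJ
    have h3 := h1 (m.X r 1) (by
      rw [m.unipotentRadical_eq]
      exact m.X_mem_gen (R := fun r => m.N ≤ r ∧ ¬ D.InRootSub J r) ⟨hrN, hrJ⟩ 1)
    rw [hact.X, mul_inv_cancel_right] at h3
    exact m.mem_of_X_mem_radical (w r).2 (by rw [mul_one]; exact (c r).ne_zero) h3
  have h3 : ∀ k, ∀ r : Fin D.nroots, D.nroots - r = k → m.N ≤ r → ¬ D.InRootSub J r → w r = r ∧ c r = 1 := by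
    intro k
    induction k using Nat.strong_induction_on with
    | _ k ih =>
      intro r hrk hrN hrJ
      have ih' : ∀ s : Fin D.nroots, r < s → m.N ≤ s → ¬ D.InRootSub J s → w s = s := fun s hs hsN hsJ =>
        (ih (D.nroots - s) (by have := s.2; have : (r : ℕ) < s := hs; omega) s rfl hsN hsJ).1
      obtain ⟨a', ha', he'⟩ := m.conj_X_radical (F := F) r.2 hrN hrJ 1 hu'
      obtain ⟨a'', ha'', he''⟩ := m.conj_X_radical (F := F) r.2 hrN hrJ 1 (inv_mem hu)
      have h4 := hc (m.X r 1) (by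
        rw [m.unipotentRadical_eq]
        exact m.X_mem_gen (R := fun r => m.N ≤ r ∧ ¬ D.InRootSub J r) ⟨hrN, hrJ⟩ 1)
      have h5 : m.X (w r) (((c r : Fˣ) : F) * 1) * (n * a' * n⁻¹) = m.X r 1 * a'' := by
        have h6 : u * n * u' * m.X r 1 = u * (m.X (w r) (((c r : Fˣ) : F) * 1) * (n * a' * n⁻¹)) * (n * u') := by
          rw [mul_assoc (u * n), he']
          have h7 : n * m.X r 1 = m.X (w r) (((c r : Fˣ) : F) * 1) * n := hact.X r 1
          calc u * n * (m.X r 1 * a' * u') = u * (n * m.X r 1) * a' * u' := by group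
            _ = _ := by rw [h7]; group
        rw [h6] at h4
        have h8 : m.X (w r) (((c r : Fˣ) : F) * 1) * (n * a' * n⁻¹) =
            u⁻¹ * (u * (m.X (w r) (((c r : Fˣ) : F) * 1) * (n * a' * n⁻¹)) * (n * u')) * (n * u')⁻¹ := by group
        rw [h8, h4]
        have h9 : u⁻¹ * (m.X r 1 * (u * n * u')) * (n * u')⁻¹ = (u⁻¹ * m.X r 1) * u := by group
        rw [h9, he'']; group
      have h6 : n * a' * n⁻¹ ∈ m.gen F (fun s => (m.N ≤ s ∧ ¬ D.InRootSub J s) ∧ (r : ℕ) < s) := by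
        have h7 := m.map_gen_acts (F := F) ⟨c, hact⟩ (R := fun s => (m.N ≤ s ∧ ¬ D.InRootSub J s) ∧ (r : ℕ) < s)
          (R' := fun s => (m.N ≤ s ∧ ¬ D.InRootSub J s) ∧ (r : ℕ) < s) (fun s hs => by
            rw [ih' s hs.2 hs.1.1 hs.1.2]; exact hs)
        exact h7 ⟨a', ha', rfl⟩
      obtain ⟨h7, h8⟩ := h2 r hrN hrJ
      have hmono : m.gen F (fun s => (m.N ≤ s ∧ ¬ D.InRootSub J s) ∧ (r : ℕ) < s) ≤ m.gen F (fun s => (r : ℕ) < s) :=
        m.gen_mono fun _ _ h => h.2
      rcases lt_trichotomy (w r) r with h9 | h9 | h9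
      · exfalso
        have h9' : (w r : ℕ) < r := h9
        have h10 : m.X (w r) (((c r : Fˣ) : F) * 1) * 1 = m.X (w r) 0 * (m.X r 1 * a'' * (n * a' * n⁻¹)⁻¹) := by
          rw [← h5, m.X_zero]; group
        have hm2 : m.gen F (fun s => (r : ℕ) < s) ≤ m.gen F (fun s => (w r : ℕ) < s) :=
          m.gen_mono fun s _ h => h9'.trans h
        have h11 := m.X_eq_of_gen h7 (w r).2 (one_mem _) (mul_mem (mul_mem
          (m.X_mem_gen (R := fun s => (w r : ℕ) < s) h9' 1) (hm2 (hmono ha''))) (inv_mem (hm2 (hmono h6)))) h10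
        rw [mul_one] at h11
        exact (c r).ne_zero h11.1
      · refine ⟨h9, ?_⟩
        rw [h9] at h5
        have h10 := m.X_eq_of_gen hrN r.2 (hmono h6) (hmono ha'') h5
        rw [mul_one] at h10
        exact Units.ext h10.1
      · exfalso
        have h10 := ih' (w r) h9 h7 h8
        exact absurd (w.injective h10) (ne_of_gt h9)
  have h4 : ∀ r : Fin D.nroots, m.N ≤ r → ¬ D.InRootSub J r → w r = r ∧ c r = 1 := fun r => h3 _ r rfl
  -- roots with positive coefficient outside `J`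
  have hout : ∀ s : Fin D.nroots, m.coef s i₀ ≠ 0 → ¬ D.InRootSub J s := fun s hs h =>
    hs ((m.inRootSub_iff' s.2).1 h i₀ hi₀ hi₀J)
  have hposr : ∀ s : Fin D.nroots, 0 < m.coef s i₀ → m.N ≤ s := by
    intro s hs
    by_contra hcon
    have h5 := m.coef_nonneg _ ((m.ng_ge_iff s).2 (not_le.1 hcon)) (m.ng s).2 i₀ hi₀
    rw [m.coe_ng, m.coef_neg _ s.2 i₀ hi₀] at h5
    omega
  have hstep : ∀ j : Fin D.rank, (j : ℕ) ∈ J → ∃ s : Fin D.nroots, D.cartan j s = -1 ∧ m.N ≤ s ∧
      ¬ D.InRootSub J s ∧ m.N ≤ m.sr j s ∧ ¬ D.InRootSub J (m.sr j s) := by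
    intro j hj
    have hij : (⟨i₀, hi₀⟩ : Fin D.rank) ≠ j := by rintro rfl; exact hi₀J hj
    obtain ⟨s, hs, hsN, hs1, hs2⟩ := hconn ⟨i₀, hi₀⟩ j hij
    have hcf : m.coef (m.sr j ⟨s, hs⟩) i₀ = m.coef s i₀ := by
      rw [m.coe_sr, m.coef_refl j j.2 s hs i₀ hi₀, if_neg (fun h => hij (Fin.ext h.symm)), sub_zero]
    have hs1' : 0 < m.coef s i₀ := by exact_mod_cast hs1
    refine ⟨⟨s, hs⟩, hs2, hsN, hout ⟨s, hs⟩ hs1'.ne', hposr _ (by rw [hcf]; exact hs1'), hout _ (by rw [hcf]; exact hs1'.ne')⟩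
  have h5 : w = 1 := by
    apply m.eq_one_of_pos hw
    intro j
    have hj : w (m.p j) = m.p j := by
      by_cases hjJ : (j : ℕ) ∈ J
      · obtain ⟨s, hs1, hsN, hsJ, hsN', hsJ'⟩ := hstep j hjJ
        have h6 := (h4 s hsN hsJ).1
        have h7 := (h4 _ hsN' hsJ').1
        apply m.ext_coef
        intro l hl
        have h8 := hW.lin (m.sr j s) l hl
        have h9 := hW.lin s l hl
        rw [h7] at h8
        rw [h6] at h9
        have h10 : ∀ k : Fin D.rank, m.coef (m.sr j s) k = m.coef s k + if j = k then 1 else 0 := by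
          intro k
          rw [m.coe_sr, m.coef_refl j j.2 s s.2 k k.2, hs1]
          by_cases hjk : j = k
          · rw [if_pos (congrArg Fin.val hjk), if_pos hjk]; ring
          · rw [if_neg (fun h => hjk (Fin.ext h)), if_neg hjk]; ring
        have h11 : m.coef (m.sr j s) l = m.coef s l + m.coef (w (m.p j)) l := by
          rw [h8, h9]
          simp only [h10, add_mul, Finset.sum_add_distrib, ite_mul, one_mul, zero_mul, Finset.sum_ite_eq,
            Finset.mem_univ, if_true]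
        have h12 := h10 ⟨l, hl⟩
        change m.coef (m.sr j s) l = m.coef s l + _ at h12
        rw [h12] at h11
        rw [← add_left_cancel h11, coe_p, m.coef_simple j j.2 l hl]
        by_cases hjl : (j : ℕ) = l
        · rw [if_pos hjl, if_pos (Fin.ext hjl)]
        · rw [if_neg hjl, if_neg (fun h => hjl (congrArg Fin.val h))]
      · exact (h4 (m.p j) (m.p_pos j) (fun h => by
          have := (m.inRootSub_iff' (m.p j).2).1 h j j.2 hjJ
          rw [coe_p, m.coef_simple j j.2 j j.2, if_pos rfl] at this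
          exact one_ne_zero this)).1
    rw [hj]; exact m.p_pos j
  have hnH : n ∈ D.diagonalSubgroup F := by
    apply m.mem_H_of_acts_one hn
    have : m.Acts n w := ⟨c, hact⟩
    rwa [h5] at this
  obtain ⟨b, hb⟩ := m.mem_H.1 hnH
  rw [hHom_apply] at hb
  set e := hC D b
  have h6 : ∀ r : Fin D.nroots, m.N ≤ r → ¬ D.InRootSub J r → m.chi e r = 1 := by
    intro r hrN hrJ
    have h7 := m.dm_X e r (1 : F)
    rw [← hb, hact.X, (h4 r hrN hrJ).1, (h4 r hrN hrJ).2] at h7
    have h8 := mul_right_cancel h7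
    have h9 := m.X_eq_of_gen hrN r.2 (one_mem _) (one_mem _) (congrArg (· * 1) h8)
    rw [mul_one, mul_one] at h9
    exact (Units.ext h9.1).symm
  have h7 : ∀ j < D.rank, e j = 1 := by
    intro j hj
    by_cases hjJ : j ∈ J
    · obtain ⟨s, hs1, hsN, hsJ, hsN', hsJ'⟩ := hstep ⟨j, hj⟩ hjJ
      have h8 := h6 _ hsN' hsJ'
      rw [m.coe_sr, m.chi_refl e hj s.2, h6 s hsN hsJ, one_mul] at h8
      change e j ^ (-D.cartan j s) = 1 at h8
      have hs1' : D.cartan j s = -1 := hs1
      rw [hs1', _root_.neg_neg, zpow_one] at h8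
      exact h8
    · have h8 := h6 (m.p ⟨j, hj⟩) (m.p_pos _) (fun h => by
          have := (m.inRootSub_iff' (m.p ⟨j, hj⟩).2).1 h j hj hjJ
          rw [coe_p, m.coef_simple j hj j hj, if_pos rfl] at this
          exact one_ne_zero this)
      rw [coe_p, m.chi_simple e hj] at h8
      exact h8
  have h8 : n = 1 := by
    rw [hb, ← map_one m.dmHom]
    exact m.dm_congr h7
  rw [h8, mul_one]
  exact mul_mem hu hu'

end Model

end Cfsg.Agent.H6.Chev
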