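import Mathlib
import Cfsg.Agent.H6_BK1
import Cfsg.Agent.H6_ChevAll

/-!
Blocks of Chevalley groups in the defining characteristic, part 2: connectivity checks.
-/

set_option autoImplicit false
set_option linter.unusedSectionVars false

namespace Cfsg.Agent.H6.Chev

open Cfsg Cfsg.Lie Cfsg.Lie.ChevalleyDatum

/-- connectivity check -/
def Tab.ckDiff (t : Tab) : Bool := (List.range t.l).all fun i => (List.range t.l).all fun j =>
  decide (i = j) || (List.range t.n).any fun s => decide (t.N ≤ s) && decide (1 ≤ t.f s i) && decide (t.c j s = -1)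

theorem Tab.conn_of_ck {D : ChevalleyDatum} {t : Tab} (b : t.Base D) (c : t.Checks D) (h) (hck : t.ckDiff = true) :
    (Tab.model b c h).Conn := by
  intro i j hij
  unfold Tab.ckDiff at hck
  rw [List.all_eq_true] at hck
  have hi : (i : ℕ) < t.l := i.2.trans_eq b.rank
  have hj : (j : ℕ) < t.l := j.2.trans_eq b.rank
  have h1 := hck i (List.mem_range.2 hi)
  rw [List.all_eq_true] at h1
  have h2 := h1 j (List.mem_range.2 hj)
  rw [Bool.or_eq_true, decide_eq_true_iff, List.any_eq_true] at h2
  rcases h2 with h2 | ⟨s, hs, h2⟩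
  · exact absurd (Fin.ext h2) hij
  · simp only [Bool.and_eq_true, decide_eq_true_iff] at h2
    have hs' := List.mem_range.1 hs
    exact ⟨s, by rw [b.nroots]; exact hs', h2.1.1, h2.1.2, (b.cartan_eq hj hs').trans h2.2⟩

theorem connG2 : modelG2.Conn := Tab.conn_of_ck _ _ _ (by decide +kernel)
theorem connF4 : modelF4.Conn := Tab.conn_of_ck _ _ _ (by decide +kernel)
theorem connE8 : modelE8.Conn := Tab.conn_of_ck _ _ _ (by decide +kernel)
theorem connE7 : modelE7.Conn := Tab.conn_of_ck _ _ _ (by decide +kernel)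
theorem connE6 : modelE6.Conn := Tab.conn_of_ck _ _ _ (by decide +kernel)
theorem connD4 : modelD4.Conn := Tab.conn_of_ck _ _ _ (by decide +kernel)

end Cfsg.Agent.H6.Chev
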