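import Mathlib
import Cfsg.Agent.S0914
import Cfsg.Agent.S0953
import Cfsg.Agent.S0955
import Cfsg.Agent.S0956
import Cfsg.Agent.H10_BlockMain

/-!
Blocks of Chevalley groups in the defining characteristic, part 3: a criterion for having exactly two blocks.
-/

set_option autoImplicit false
set_option linter.unusedSectionVars false

namespace Cfsg.Agent.H6.BK

open Cfsg

universe u

variable {G : Type u} [Group G] [Finite G]

theorem not_dvd_of_defect {p : ℕ} [hp : Fact p.Prime] {B : Set (IrrCharacter G)} (hB : blockDefect p B = 0)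
    {χ : IrrCharacter G} (hχ : χ ∈ B) : ¬ p ∣ Nat.card G / charDegree (χ : G → ℂ) := by
  have := Fintype.ofFinite G
  have hdvd : charDegree (χ : G → ℂ) ∣ Nat.card G := by
    obtain ⟨n, _, h1, h2⟩ := Cfsg.Agent.H3.CharInt.IsIrr.dvd_card χ.2
    have : charDegree (χ : G → ℂ) = n := by
      have := (Cfsg.Agent.H10.Char.charDegree_eq χ.2).trans h1
      exact_mod_cast this
    rw [this]; exact h2
  have hd0 := Cfsg.Agent.H10.Char.charDegree_pos χ.2
  have h1 : sInf ((fun χ : IrrCharacter G => (charDegree (χ : G → ℂ)).factorization p) '' B) ≤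
      (charDegree (χ : G → ℂ)).factorization p := Nat.sInf_le ⟨χ, hχ, rfl⟩
  unfold blockDefect at hB
  have hq0 : Nat.card G / charDegree (χ : G → ℂ) ≠ 0 :=
    (Nat.div_pos (Nat.le_of_dvd Nat.card_pos hdvd) hd0).ne'
  intro h
  have h3 := congrFun (congrArg DFunLike.coe (Nat.factorization_div hdvd)) p
  have h4 : 1 ≤ (Nat.card G / charDegree (χ : G → ℂ)).factorization p :=
    (hp.out.dvd_iff_one_le_factorization hq0).1 h
  rw [h3] at h4
  simp only [Finsupp.coe_tsub, Pi.sub_apply] at h4
  omega

/-- a criterion for having exactly two blocks -/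
theorem two_blocks {p : ℕ} [hp : Fact p.Prime] {M : Ideal AlgInt} (hM : IsPModular p M) (P : Sylow p G)
    (hP : (P : Subgroup G) ≠ ⊥)
    (hC : ∀ x ∈ Subgroup.centralizer ((P : Subgroup G) : Set G), ¬ p ∣ orderOf x → x = 1)
    (hrad : ∀ D : Subgroup G, IsPGroup p D → D ≠ ⊥ →
      (pCore p (Subgroup.normalizer (D : Set G))).map (Subgroup.normalizer (D : Set G)).subtype = D →
      ∀ x ∈ Subgroup.centralizer (D : Set G), ¬ p ∣ orderOf x → x = 1)
    (St : IrrCharacter G) (hSt : ¬ p ∣ Nat.card G / charDegree (St : G → ℂ))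
    (hSt' : ∀ χ : IrrCharacter G, ¬ p ∣ Nat.card G / charDegree (χ : G → ℂ) → χ = St) :
    Nat.card {B : Set (IrrCharacter G) // IsPBlock M B} = 2 := by
  classical
  have hfG := Fintype.ofFinite G
  have hmax := hM.2.1
  have hStB : blockOf M (St : G → ℂ) = {St} := (Cfsg.Agent.S0914.result p M hM St).1 hSt
  -- the full defect blocks
  have hfull := Cfsg.Agent.S0953.result p M hM P
  have hone : Nat.card {C : ConjClasses (Subgroup.normalizer ((P : Subgroup G) : Set G)) //
      ∀ n : Subgroup.normalizer ((P : Subgroup G) : Set G), ConjClasses.mk n = C →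
        ¬ p ∣ orderOf n ∧ (n : G) ∈ Subgroup.centralizer ((P : Subgroup G) : Set G)} = 1 := by
    rw [Nat.card_eq_one_iff_unique]
    refine ⟨⟨?_⟩, ⟨⟨ConjClasses.mk 1, ?_⟩⟩⟩
    · have key : ∀ C : {C : ConjClasses (Subgroup.normalizer ((P : Subgroup G) : Set G)) //
          ∀ n : Subgroup.normalizer ((P : Subgroup G) : Set G), ConjClasses.mk n = C →
          ¬ p ∣ orderOf n ∧ (n : G) ∈ Subgroup.centralizer ((P : Subgroup G) : Set G)}, C.1 = ConjClasses.mk 1 := by
        rintro ⟨C, hC'⟩
        obtain ⟨n, hn⟩ := ConjClasses.exists_rep C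
        have h1 := hC' n hn
        have h2 : (n : G) = 1 := hC n h1.2 (by rw [Subgroup.orderOf_coe]; exact h1.1)
        have h3 : n = 1 := Subtype.ext h2
        rw [h3] at hn
        exact hn.symm
      intro C C'
      exact Subtype.ext ((key C).trans (key C').symm)
    · intro n hn
      have h1 : n = 1 := by
        rw [ConjClasses.mk_eq_mk_iff_isConj] at hn
        exact isConj_one_left.1 hn
      rw [h1]
      refine ⟨?_, one_mem _⟩
      rw [orderOf_one]
      exact fun h => hp.out.one_lt.ne' (Nat.dvd_one.1 h)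
  rw [hone, Nat.card_eq_one_iff_unique] at hfull
  obtain ⟨⟨huniq⟩, ⟨B₁, hB₁, hB₁P⟩⟩ := hfull
  have hB₁ne : B₁ ≠ {St} := by
    intro h
    have h1 := Cfsg.Agent.H10.BlockMain.card_defectGroup hM hB₁ hB₁P
    have h2 : blockDefect p B₁ = 0 := by
      rw [h]
      unfold blockDefect
      rw [Set.image_singleton, csInf_singleton]
      have hdvd : charDegree (St : G → ℂ) ∣ Nat.card G := by
        obtain ⟨n, _, h1, h2⟩ := Cfsg.Agent.H3.CharInt.IsIrr.dvd_card St.2
        have : charDegree (St : G → ℂ) = n := by
          have := (Cfsg.Agent.H10.Char.charDegree_eq St.2).trans h1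
          exact_mod_cast this
        rw [this]; exact h2
      have h3 := congrFun (congrArg DFunLike.coe (Nat.factorization_div hdvd)) p
      rw [Nat.factorization_eq_zero_of_not_dvd hSt] at h3
      simpa using h3.symm
    rw [h2, pow_zero] at h1
    exact hP (Subgroup.card_eq_one.1 h1)
  -- classification of blocks
  have key : ∀ B : Set (IrrCharacter G), IsPBlock M B → B = {St} ∨ B = B₁ := by
    intro B hB
    obtain ⟨D, hD⟩ := Cfsg.Agent.H10.BlockDefect.exists_defectGroup (p := p) hB
    have hDp := Cfsg.Agent.H10.BlockDefect.IsDefectGroup.isPGroup' hD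
    by_cases hDb : D = ⊥
    · left
      have h1 := Cfsg.Agent.H10.BlockMain.card_defectGroup hM hB hD
      rw [hDb, Subgroup.card_bot] at h1
      have h2 : blockDefect p B = 0 := by
        by_contra hne
        have := Nat.one_lt_pow hne hp.out.one_lt
        omega
      obtain ⟨χ, rfl⟩ := hB
      have h3 := hSt' χ (not_dvd_of_defect h2 (Cfsg.Agent.H10.BlockIdem.mem_blockOf_self χ))
      rw [h3]; exact hStB
    · right
      have hr := Cfsg.Agent.S0955.result p M hM B hB D hD
      obtain ⟨P', hP'⟩ := hDp.exists_le_sylow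
      obtain ⟨x, hx, ⟨S, hS⟩, -⟩ := Cfsg.Agent.S0956.result p M hM B hB D hD P' hP'
      have hxc : x ∈ Subgroup.centralizer (D : Set G) := by
        rw [Subgroup.mem_centralizer_iff]
        intro d hd
        rw [← hS] at hd
        obtain ⟨y, -, rfl⟩ := hd
        exact (Subgroup.mem_centralizer_iff.1 y.2 x rfl).symm
      have hx1 := hrad D hDp hDb hr x hxc hx
      subst hx1
      -- `D` is a Sylow subgroup
      have h1 : ∀ Q : Subgroup G, IsPGroup p Q → D ≤ Q → Q = D := by
        intro Q hQ hDQ
        have htop : ∀ g : G, g ∈ Subgroup.centralizer ({(1 : G)} : Set G) := fun g => by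
          rw [Subgroup.mem_centralizer_iff]
          rintro _ rfl
          rw [one_mul, mul_one]
        have h2 : (Q.subgroupOf (Subgroup.centralizer ({(1 : G)} : Set G))) = S := by
          apply S.3
          · exact hQ.comap_subtype
          · intro y hy
            have : (y : G) ∈ D := by rw [← hS]; exact ⟨y, hy, rfl⟩
            exact hDQ this
        rw [← hS, ← h2, Subgroup.subgroupOf_map_subtype]
        exact (inf_eq_left.2 fun g _ => htop g).symm
      have h2 := h1 P' P'.isPGroup' hP'
      obtain ⟨g, hg⟩ := MulAction.exists_smul_eq G P' P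
      have h3 : IsDefectGroup p M B (P : Subgroup G) := by
        rw [← hg]
        have h4 := Cfsg.Agent.H10.BlockDefect.isDefectGroup_conj hD g
        rw [← h2] at h4
        exact h4
      exact congrArg Subtype.val (huniq ⟨B, hB, h3⟩ ⟨B₁, hB₁, hB₁P⟩)
  have hSB : IsPBlock M ({St} : Set (IrrCharacter G)) := ⟨St, hStB.symm⟩
  let e : {B : Set (IrrCharacter G) // IsPBlock M B} ≃ Bool :=
    { toFun := fun B => decide (B.1 = {St})
      invFun := fun b => match b with
        | true => ⟨{St}, hSB⟩
        | false => ⟨B₁, hB₁⟩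
      left_inv := by
        rintro ⟨B, hB⟩
        rcases key B hB with rfl | rfl
        · simp
        · simp [hB₁ne]
      right_inv := by
        intro b
        cases b
        · simp [hB₁ne]
        · simp }
  rw [Nat.card_congr e, Nat.card_eq_fintype_card, Fintype.card_bool]

end Cfsg.Agent.H6.BK
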