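import Mathlib
import Cfsg.Agent.H6_BK3
import Cfsg.Agent.H6_BK2
import Cfsg.Agent.H6_BT3
import Cfsg.Agent.H14_StR
import Cfsg.Agent.H11_Local

/-!
Blocks of Chevalley groups in the defining characteristic, part 4: radical subgroups and the block count.
-/

set_option autoImplicit false
set_option linter.unusedSectionVars false

open Cfsg.Lie Matrix

namespace Cfsg.Agent.H6.Chev

namespace Model

variable {D : ChevalleyDatum} {F : Type*} [Field F] (m : Model D)

include m in
theorem unipotentRadical_le_U (J : Set ℕ) : D.unipotentRadical F J ≤ D.posUnipotent F := by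
  rw [m.unipotentRadical_eq, m.posUnipotent_eq]
  exact m.gen_mono fun r _ h => h.1

include m in
theorem unipotentRadical_empty : D.unipotentRadical F ∅ = D.posUnipotent F := by
  apply le_antisymm (m.unipotentRadical_le_U ∅)
  rw [m.unipotentRadical_eq, m.posUnipotent_eq]
  apply m.gen_mono
  intro r hr hN
  refine ⟨hN, fun h => ?_⟩
  have h1 := m.pair_self r hr
  rw [Finset.sum_eq_zero] at h1
  · norm_num at h1
  · intro j hj
    rw [(inRootSub_iff.1 h).2 j (Finset.mem_range.1 hj) (fun h => h.elim), zero_mul]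

include m in
/-- radical `p`-subgroups are unipotent radicals of parabolics -/
theorem radical_eq [Fintype F] {p : ℕ} [hp : Fact p.Prime] [CharP F p] {R : Subgroup ↥(D.group F)} (hR : IsPGroup p R)
    (hne : R ≠ ⊥)
    (hrad : (pCore p (Subgroup.normalizer (R : Set ↥(D.group F)))).map
      (Subgroup.normalizer (R : Set ↥(D.group F))).subtype = R) :
    ∃ g : ↥(D.group F), ∃ J : Set ℕ, (∃ i, i < D.rank ∧ i ∉ J) ∧
      R = ((D.unipotentRadical F J).map (MulAut.conj (g : GL D.Idx F)).toMonoidHom).subgroupOf (D.group F) := by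
  have hR1 : R.map (D.group F).subtype ≤ D.group F := by
    rintro _ ⟨x, -, rfl⟩; exact x.2
  have hR2 : IsPGroup p (R.map (D.group F).subtype) := hR.map _
  have hR3 : R.map (D.group F).subtype ≠ ⊥ := by
    intro h
    apply hne
    rwa [Subgroup.map_eq_bot_iff_of_injective _ (D.group F).subtype_injective] at h
  obtain ⟨g, hg, J, hJ, h1, h2⟩ := m.borel_tits hR3 (m.exists_conj_le_U hR1 hR2)
  refine ⟨⟨g, hg⟩, J, hJ, ?_⟩
  set Q : Subgroup ↥(D.group F) := ((D.unipotentRadical F J).map (MulAut.conj (g : GL D.Idx F)).toMonoidHom).subgroupOf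
    (D.group F) with hQdef
  have hUp : IsPGroup p (D.posUnipotent F) := m.isPGroup_U p
  have hQp : IsPGroup p Q := by
    have h3 : IsPGroup p (D.unipotentRadical F J) := hUp.to_le (m.unipotentRadical_le_U J)
    exact (h3.map _).comap_subtype
  have hRQ : R ≤ Q := by
    intro x hx
    exact h2 ⟨x, hx, rfl⟩
  have hNQ : Subgroup.normalizer (R : Set ↥(D.group F)) ≤ Subgroup.normalizer (Q : Set ↥(D.group F)) := by
    intro x hx
    have h3 : (x : GL D.Idx F) ∈ Subgroup.normalizer ((R.map (D.group F).subtype : Subgroup (GL D.Idx F)) : Set (GL D.Idx F))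
        ⊓ D.group F := by
      refine ⟨?_, x.2⟩
      exact (Subgroup.le_normalizer_map (D.group F).subtype (H := R)) ⟨x, hx, rfl⟩
    obtain ⟨y, hy, hyx⟩ := h1 h3
    have h4 := m.parabolic_norm J hy
    rw [Subgroup.mem_normalizer_iff] at h4 ⊢
    have hgy : (x : GL D.Idx F) = g * y * g⁻¹ := hyx.symm
    intro z
    have e1 : z ∈ Q ↔ g⁻¹ * (z : GL D.Idx F) * g ∈ D.unipotentRadical F J := by
      constructor
      · rintro ⟨u, hu, hz⟩
        have : (z : GL D.Idx F) = g * u * g⁻¹ := hz.symm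
        rw [this]
        have h0 : g⁻¹ * (g * u * g⁻¹) * g = u := by group
        rw [h0]; exact hu
      · intro h
        refine ⟨_, h, ?_⟩
        change g * (g⁻¹ * (z : GL D.Idx F) * g) * g⁻¹ = z
        group
    have e2 : x * z * x⁻¹ ∈ Q ↔ g⁻¹ * ((x * z * x⁻¹ : ↥(D.group F)) : GL D.Idx F) * g ∈ D.unipotentRadical F J := by
      constructor
      · rintro ⟨u, hu, hz⟩
        have : ((x * z * x⁻¹ : ↥(D.group F)) : GL D.Idx F) = g * u * g⁻¹ := hz.symm
        rw [this]
        have h0 : g⁻¹ * (g * u * g⁻¹) * g = u := by group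
        rw [h0]; exact hu
      · intro h
        refine ⟨_, h, ?_⟩
        change g * (g⁻¹ * ((x * z * x⁻¹ : ↥(D.group F)) : GL D.Idx F) * g) * g⁻¹ = _
        group
        rfl
    rw [e1, e2, h4 (g⁻¹ * (z : GL D.Idx F) * g)]
    have : g⁻¹ * ((x * z * x⁻¹ : ↥(D.group F)) : GL D.Idx F) * g = y * (g⁻¹ * (z : GL D.Idx F) * g) * y⁻¹ := by
      change g⁻¹ * ((x : GL D.Idx F) * z * (x : GL D.Idx F)⁻¹) * g = _
      rw [hgy]
      group
    rw [this]
  by_contra hne'
  have hlt : R < Q := lt_of_le_of_ne hRQ hne'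
  -- the normalizer condition
  have hnil : Group.IsNilpotent Q := hQp.isNilpotent
  have hnc : NormalizerCondition Q := normalizerCondition_of_isNilpotent
  have h5 : R.subgroupOf Q < ⊤ := by
    rw [lt_top_iff_ne_top]
    intro h
    rw [Subgroup.subgroupOf_eq_top] at h
    exact hlt.not_ge h
  have h6 := hnc _ h5
  obtain ⟨y, hy, hyR⟩ := SetLike.exists_of_lt h6
  -- `y ∈ Q ⊓ N(R)`
  have hyN : (y : ↥(D.group F)) ∈ Subgroup.normalizer (R : Set ↥(D.group F)) := by
    rw [Subgroup.mem_normalizer_iff] at hy ⊢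
    intro z
    constructor
    · intro hz
      exact (hy ⟨z, hRQ hz⟩).1 hz
    · intro hz
      have hzQ : (z : ↥(D.group F)) ∈ Q := by
        have h7 := hRQ hz
        have h8 := Q.mul_mem (Q.mul_mem (Q.inv_mem y.2) h7) y.2
        convert h8 using 1
        group
      exact (hy ⟨z, hzQ⟩).2 hz
  have h9 : Q ⊓ Subgroup.normalizer (R : Set ↥(D.group F)) ≤ R := by
    conv_rhs => rw [← hrad]
    apply Cfsg.Agent.H11.Local.le_map_pCore p inf_le_right (hQp.to_le inf_le_left)
    intro x hx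
    have h10 := hNQ hx
    rw [Subgroup.mem_normalizer_iff] at h10 ⊢
    intro z
    rw [Subgroup.mem_inf, Subgroup.mem_inf, h10 z]
    constructor
    · rintro ⟨a, b⟩
      exact ⟨a, mul_mem (mul_mem hx b) (inv_mem hx)⟩
    · rintro ⟨a, b⟩
      refine ⟨a, ?_⟩
      have := mul_mem (mul_mem (inv_mem hx) b) hx
      convert this using 1
      group
  exact hyR (h9 ⟨y.2, hyN⟩)

include m in
/-- centralizers of radical subgroups have no nontrivial `p`-regular elements -/
theorem centralizer_conj_radical (hconn : m.Conn) [Fintype F] {p : ℕ} [hp : Fact p.Prime] [CharP F p] (g : ↥(D.group F))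
    {J : Set ℕ} (hJ : ∃ i, i < D.rank ∧ i ∉ J) {x : ↥(D.group F)}
    (hx : x ∈ Subgroup.centralizer ((((D.unipotentRadical F J).map (MulAut.conj (g : GL D.Idx F)).toMonoidHom).subgroupOf
      (D.group F) : Subgroup ↥(D.group F)) : Set ↥(D.group F))) (hxo : ¬ p ∣ orderOf x) : x = 1 := by
  have hUp : IsPGroup p (D.posUnipotent F) := m.isPGroup_U p
  have h1 : ((g⁻¹ * x * g : ↥(D.group F)) : GL D.Idx F) ∈ D.posUnipotent F := by
    apply m.centralizer_radical hconn hJ (g⁻¹ * x * g : ↥(D.group F)).2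
    intro y hy
    have hyG : y ∈ D.group F := m.U_le_G (m.unipotentRadical_le_U J hy)
    have hz : (g * ⟨y, hyG⟩ * g⁻¹ : ↥(D.group F)) ∈ (((D.unipotentRadical F J).map
        (MulAut.conj (g : GL D.Idx F)).toMonoidHom).subgroupOf (D.group F) : Subgroup ↥(D.group F)) := ⟨y, hy, rfl⟩
    have h2 := Subgroup.mem_centralizer_iff.1 hx _ hz
    have h3 : (g⁻¹ * x * g) * ⟨y, hyG⟩ = ⟨y, hyG⟩ * (g⁻¹ * x * g) := by
      have : (g⁻¹ * x * g) * ⟨y, hyG⟩ = g⁻¹ * (x * (g * ⟨y, hyG⟩ * g⁻¹)) * g := by group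
      rw [this, ← h2]
      group
    exact congrArg Subtype.val h3
  obtain ⟨k, hk⟩ := hUp ⟨_, h1⟩
  have h4 : (g⁻¹ * x * g : ↥(D.group F)) ^ p ^ k = 1 := by
    apply Subtype.ext
    have h40 : ((g⁻¹ * x * g : ↥(D.group F)) : GL D.Idx F) ^ p ^ k = 1 := by
      have := congrArg (fun z : ↥(D.posUnipotent F) => (z : GL D.Idx F)) hk
      simpa using this
    rw [Subgroup.coe_pow, h40]; rfl
  have h5 : x ^ p ^ k = 1 := by
    have : (g⁻¹ * x * g) ^ p ^ k = g⁻¹ * x ^ p ^ k * g := by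
      have := conj_pow (i := p ^ k) (a := g⁻¹) (b := x)
      simpa using this
    rw [this] at h4
    calc x ^ p ^ k = g * (g⁻¹ * x ^ p ^ k * g) * g⁻¹ := by group
      _ = 1 := by rw [h4]; group
  have h6 := orderOf_dvd_of_pow_eq_one h5
  have h7 : orderOf x = 1 := by
    obtain ⟨j, -, hj⟩ := (Nat.dvd_prime_pow hp.out).1 h6
    rcases j with _ | j
    · simpa using hj
    · exact absurd (hj ▸ dvd_pow_self p (Nat.succ_ne_zero j)) hxo
  exact orderOf_eq_one_iff.1 h7

include m in
theorem two_blocks (hconn : m.Conn) [Fintype F] {p : ℕ} [hp : Fact p.Prime] [CharP F p] {M : Ideal AlgInt}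
    (hM : IsPModular p M) :
    Nat.card {B : Set (IrrCharacter ↥(D.group F)) // IsPBlock M B} = 2 := by
  have hUp : IsPGroup p (D.posUnipotent F) := m.isPGroup_U p
  obtain ⟨P, hP⟩ := Cfsg.Agent.H14.Chev.isSylow_U m (F := F) (p := p)
  have hrk := m.rank_pos
  have hJ0 : ∃ i, i < D.rank ∧ i ∉ (∅ : Set ℕ) := ⟨0, hrk, fun h => h.elim⟩
  have hU0 : D.unipotentRadical F ∅ = D.posUnipotent F := m.unipotentRadical_empty
  have hP' : (P : Subgroup ↥(D.group F)) = ((D.unipotentRadical F ∅).map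
      (MulAut.conj ((1 : ↥(D.group F)) : GL D.Idx F)).toMonoidHom).subgroupOf (D.group F) := by
    rw [hP, hU0]
    congr 1
    ext x
    constructor
    · intro hx; exact ⟨x, hx, by simp⟩
    · rintro ⟨y, hy, rfl⟩; simpa using hy
  obtain ⟨n, hn, hpn⟩ := Cfsg.Agent.H14.Chev.card_U_G m (F := F) (p := p)
  have hN := Cfsg.Agent.H14.Chev.N_pos m
  have hdeg : ∀ χ : IrrCharacter ↥(D.group F), (χ : ↥(D.group F) → ℂ) 1 = (charDegree (χ : ↥(D.group F) → ℂ) : ℂ) ∧
      charDegree (χ : ↥(D.group F) → ℂ) ∣ Nat.card ↥(D.group F) := by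
    intro χ
    have h0 := Cfsg.Agent.H10.Char.charDegree_eq χ.2
    refine ⟨h0.symm, ?_⟩
    obtain ⟨k, _, h1, h2⟩ := Cfsg.Agent.H3.CharInt.IsIrr.dvd_card χ.2
    have : charDegree (χ : ↥(D.group F) → ℂ) = k := by
      have := h0.trans h1
      exact_mod_cast this
    rw [this]; exact h2
  have hSt1 : charDegree (D.steinbergCharacter F) = Fintype.card F ^ m.N := by
    have h0 := hdeg ⟨D.steinbergCharacter F, Cfsg.Agent.H14.Chev.steinberg_irr m⟩
    have h1 := Cfsg.Agent.H14.Chev.steinberg_one m (F := F)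
    have h2 := h0.1.symm.trans h1
    exact_mod_cast h2
  have hq0 : 0 < Fintype.card F ^ m.N := Nat.pos_of_ne_zero (pow_ne_zero _ Fintype.card_ne_zero)
  refine Cfsg.Agent.H6.BK.two_blocks hM P ?_ ?_ ?_ ⟨D.steinbergCharacter F, Cfsg.Agent.H14.Chev.steinberg_irr m⟩ ?_ ?_
  · intro h
    have h1 : Nat.card (P : Subgroup ↥(D.group F)) = Fintype.card F ^ m.N := by
      rw [hP, ← m.card_pos]
      exact Nat.card_congr (Subgroup.subgroupOfEquivOfLe m.U_le_G).toEquiv
    rw [h, Subgroup.card_bot] at h1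
    have : 1 < Fintype.card F ^ m.N := Nat.one_lt_pow hN.ne' Fintype.one_lt_card
    omega
  · intro x hx hxo
    rw [hP'] at hx
    exact m.centralizer_conj_radical hconn 1 hJ0 hx hxo
  · intro R hR hne hrad x hx hxo
    obtain ⟨g, J, hJ, hRe⟩ := m.radical_eq hR hne hrad
    rw [hRe] at hx
    exact m.centralizer_conj_radical hconn g hJ hx hxo
  · change ¬ p ∣ Nat.card ↥(D.group F) / charDegree (D.steinbergCharacter F)
    rw [hSt1, hn, Nat.mul_div_cancel_left _ hq0]
    exact hpn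
  · intro χ hχ
    apply Subtype.ext
    apply Cfsg.Agent.H14.Chev.defect_zero_unique m χ.2 (hdeg χ).1 (p := p)
    obtain ⟨k, hk⟩ := (hdeg χ).2
    have hd0 : charDegree (χ : ↥(D.group F) → ℂ) ≠ 0 := by
      intro h0
      rw [h0, zero_mul] at hk
      exact Nat.card_pos.ne' hk
    rw [hk, Nat.mul_div_cancel_left _ (Nat.pos_of_ne_zero hd0)] at hχ
    have hk0 : k ≠ 0 := fun h => hχ (h ▸ dvd_zero p)
    rw [hk, Nat.factorization_mul hd0 hk0, Finsupp.add_apply, Nat.factorization_eq_zero_of_not_dvd hχ, add_zero]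
    exact Nat.ordProj_dvd _ p

end Model

end Cfsg.Agent.H6.Chev
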