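import Mathlib
import Cfsg.Agent.H6_E6a

/-!
The cubic form of type `E₆`: polarisations and invariance under root elements.
-/

set_option autoImplicit false
set_option linter.unusedSectionVars false
set_option maxRecDepth 100000

namespace Cfsg.Agent.H6.E6

open Cfsg.Lie
open Cfsg.Agent.H6.MR

section Forms

variable {F : Type*} [Field F]

/-- a trilinear form given by a list of monomials -/
def T3 (L : List (ℕ × ℕ × ℕ × ℤ)) (u v w : ℕ → F) : F :=
  (L.map fun m => (m.2.2.2 : F) * u m.1 * v m.2.1 * w m.2.2.1).sum

theorem T3_nil (u v w : ℕ → F) : T3 [] u v w = 0 := rfl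

theorem T3_cons (m : ℕ × ℕ × ℕ × ℤ) (L : List (ℕ × ℕ × ℕ × ℤ)) (u v w : ℕ → F) :
    T3 (m :: L) u v w = (m.2.2.2 : F) * u m.1 * v m.2.1 * w m.2.2.1 + T3 L u v w := by
  unfold T3
  rw [List.map_cons, List.sum_cons]

theorem T3_append (L L' : List (ℕ × ℕ × ℕ × ℤ)) (u v w : ℕ → F) :
    T3 (L ++ L') u v w = T3 L u v w + T3 L' u v w := by
  unfold T3
  rw [List.map_append, List.sum_append]

theorem T3_add1 (L : List (ℕ × ℕ × ℕ × ℤ)) (u u' v w : ℕ → F) (a : F) :
    T3 L (fun k => u k + a * u' k) v w = T3 L u v w + a * T3 L u' v w := by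
  induction L with
  | nil => simp [T3_nil]
  | cons m L ih => rw [T3_cons, T3_cons, T3_cons, ih]; ring

theorem T3_add2 (L : List (ℕ × ℕ × ℕ × ℤ)) (u v v' w : ℕ → F) (a : F) :
    T3 L u (fun k => v k + a * v' k) w = T3 L u v w + a * T3 L u v' w := by
  induction L with
  | nil => simp [T3_nil]
  | cons m L ih => rw [T3_cons, T3_cons, T3_cons, ih]; ring

theorem T3_add3 (L : List (ℕ × ℕ × ℕ × ℤ)) (u v w w' : ℕ → F) (a : F) :
    T3 L u v (fun k => w k + a * w' k) = T3 L u v w + a * T3 L u v w' := by
  induction L with
  | nil => simp [T3_nil]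
  | cons m L ih => rw [T3_cons, T3_cons, T3_cons, ih]; ring

/-- the cubic form -/
def tf (u : ℕ → F) : F := T3 listT u u u
/-- the form, quadratic in the first and linear in the second argument -/
def qf (u v : ℕ → F) : F := T3 listT u u v + T3 listT u v u + T3 listT v u u
/-- the symmetric trilinear form -/
def df (u v w : ℕ → F) : F :=
  T3 listT u v w + T3 listT v u w + T3 listT u w v + T3 listT v w u + T3 listT w u v + T3 listT w v u

theorem tf_add (u v : ℕ → F) (a : F) : tf (fun k => u k + a * v k) = tf u + a * qf u v + a ^ 2 * qf v u + a ^ 3 * tf v := by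
  unfold tf qf
  rw [T3_add1, T3_add2, T3_add2, T3_add3, T3_add3, T3_add3, T3_add3]
  ring

theorem qf_add (u v w : ℕ → F) : qf (fun k => u k + 1 * v k) w = qf u w + qf v w + df u v w := by
  unfold qf df
  simp only [T3_add1, T3_add2, T3_add3]
  ring

end Forms

/-! ### Zero test for cubic polynomials -/

section Zero

variable {F : Type*} [Field F]

/-- sorting a monomial -/
def srt (a b c : ℕ) : ℕ :=
  let x := min (min a b) c
  let z := max (max a b) c
  (x * 27 + (a + b + c - x - z)) * 27 + z

/-- the value of a sorted monomial -/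
def mv (u : ℕ → F) (k : ℕ) : F := u (k / 729) * u (k / 27 % 27) * u (k % 27)

theorem mv_srt (u : ℕ → F) {a b c : ℕ} (ha : a < 27) (hb : b < 27) (hc : c < 27) : mv u (srt a b c) = u a * u b * u c := by
  have key : ∀ x y z : ℕ, x < 27 → y < 27 → z < 27 → mv u ((x * 27 + y) * 27 + z) = u x * u y * u z := by
    intro x y z hx hy hz
    unfold mv
    have e1 : ((x * 27 + y) * 27 + z) / 729 = x := by omega
    have e2 : ((x * 27 + y) * 27 + z) / 27 % 27 = y := by omega
    have e3 : ((x * 27 + y) * 27 + z) % 27 = z := by omega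
    rw [e1, e2, e3]
  unfold srt
  simp only
  rcases le_total a b with h1 | h1 <;> rcases le_total b c with h2 | h2 <;> rcases le_total a c with h3 | h3
  · rw [min_eq_left h1, max_eq_right h1, min_eq_left h3, max_eq_right h2]
    have : a + b + c - a - c = b := by omega
    rw [this, key a b c ha hb hc]
  · rw [min_eq_left h1, max_eq_right h1, min_eq_right h3, max_eq_right h2]
    have : a + b + c - c - c = b := by omega
    rw [this, key c b c hc hb hc]
    have : a = c := by omega
    rw [this]
  · rw [min_eq_left h1, max_eq_right h1, min_eq_left h3, max_eq_left h2]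
    have : a + b + c - a - b = c := by omega
    rw [this, key a c b ha hc hb]; ring
  · rw [min_eq_left h1, max_eq_right h1, min_eq_right h3, max_eq_left h2]
    have : a + b + c - c - b = a := by omega
    rw [this, key c a b hc ha hb]; ring
  · rw [min_eq_right h1, max_eq_left h1, min_eq_left h2, max_eq_right h3]
    have : a + b + c - b - c = a := by omega
    rw [this, key b a c hb ha hc]; ring
  · rw [min_eq_right h1, max_eq_left h1, min_eq_left h2, max_eq_left h3]
    have : a + b + c - b - a = c := by omega
    rw [this, key b c a hb hc ha]; ring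
  · rw [min_eq_right h1, max_eq_left h1, min_eq_right h2, max_eq_right h3]
    have : a + b + c - c - c = b := by omega
    rw [this, key c b c hc hb hc]
    have : a = c := by omega
    rw [this]
  · rw [min_eq_right h1, max_eq_left h1, min_eq_right h2, max_eq_left h3]
    have : a + b + c - c - a = b := by omega
    rw [this, key c b a hc hb ha]; ring

/-- polynomials as lists of coded monomials with coefficients -/
def evP (u : ℕ → F) (L : List (ℕ × ℤ)) : F := (L.map fun e => (e.2 : F) * mv u e.1).sum

/-- the coefficient of a coded monomial -/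
def cf : List (ℕ × ℤ) → ℕ → ℤ
  | [], _ => 0
  | e :: L, k => cond (Nat.beq e.1 k) (e.2 + cf L k) (cf L k)

/-- zero test -/
def isZP (L : List (ℕ × ℤ)) : Bool := L.all fun e => zr (cf L e.1)

theorem cf_cons (e : ℕ × ℤ) (L : List (ℕ × ℤ)) (k : ℕ) : cf (e :: L) k = (if e.1 = k then e.2 else 0) + cf L k := by
  rw [cf]
  by_cases h : e.1 = k
  · rw [nbeq' h, cond_true, if_pos h]
  · rw [nbeq h, cond_false, if_neg h, zero_add]

theorem evP_cons (u : ℕ → F) (e : ℕ × ℤ) (L : List (ℕ × ℤ)) : evP u (e :: L) = (e.2 : F) * mv u e.1 + evP u L := by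
  unfold evP
  rw [List.map_cons, List.sum_cons]

theorem evP_append (u : ℕ → F) (L L' : List (ℕ × ℤ)) : evP u (L ++ L') = evP u L + evP u L' := by
  unfold evP
  rw [List.map_append, List.sum_append]

theorem evP_split (u : ℕ → F) (k : ℕ) (L : List (ℕ × ℤ)) :
    evP u L = (cf L k : F) * mv u k + evP u (L.filter fun e => decide (¬ e.1 = k)) := by
  induction L with
  | nil => simp [evP, cf]
  | cons e L ih =>
    rw [evP_cons, ih, cf_cons]
    by_cases h : e.1 = k
    · rw [List.filter_cons_of_neg (by simpa using h), if_pos h, h]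
      push_cast; ring
    · rw [List.filter_cons_of_pos (by simpa using h), evP_cons, if_neg h]
      push_cast; ring

theorem cf_filter (k : ℕ) (L : List (ℕ × ℤ)) {j : ℕ} (hj : j ≠ k) :
    cf (L.filter fun e => decide (¬ e.1 = k)) j = cf L j := by
  induction L with
  | nil => rfl
  | cons e L ih =>
    by_cases h : e.1 = k
    · rw [List.filter_cons_of_neg (by simpa using h), ih, cf_cons, if_neg (by rw [h]; exact Ne.symm hj), zero_add]
    · rw [List.filter_cons_of_pos (by simpa using h), cf_cons, cf_cons, ih]

theorem evP_zero (u : ℕ → F) : ∀ (n : ℕ) (L : List (ℕ × ℤ)), L.length ≤ n → isZP L = true → evP u L = 0 := by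
  intro n
  induction n with
  | zero =>
    intro L hL _
    rw [List.length_eq_zero_iff.1 (Nat.le_zero.1 hL)]
    rfl
  | succ n ih =>
    intro L hL hz
    cases L with
    | nil => rfl
    | cons e L =>
      rw [evP_split u e.1 (e :: L)]
      have h1 : cf (e :: L) e.1 = 0 := zr_iff (List.all_eq_true.1 hz e List.mem_cons_self)
      rw [h1, Int.cast_zero, zero_mul, zero_add]
      have h2 : ((e :: L).filter fun e' => decide (¬ e'.1 = e.1)) = L.filter fun e' => decide (¬ e'.1 = e.1) :=
        List.filter_cons_of_neg (by simp)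
      apply ih
      · rw [h2]
        have := List.length_filter_le (fun e' : ℕ × ℤ => decide (¬ e'.1 = e.1)) L
        simp only [List.length_cons] at hL
        omega
      · unfold isZP
        rw [List.all_eq_true]
        intro e' he'
        have h3 : e' ∈ e :: L := List.mem_of_mem_filter he'
        have h4 : e'.1 ≠ e.1 := of_decide_eq_true (List.mem_filter.1 he').2
        rw [cf_filter _ _ h4]
        exact List.all_eq_true.1 hz e' h3

end Zero

end Cfsg.Agent.H6.E6
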