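import Mathlib
import Cfsg.Agent.H6_E6b

/-!
The cubic form of type `E₆`: invariance under root elements.
-/

set_option autoImplicit false
set_option linter.unusedSectionVars false
set_option maxRecDepth 100000

namespace Cfsg.Agent.H6.E6

open Cfsg.Lie
open Cfsg.Agent.H6.MR

section Inv

variable {F : Type*} [Field F]

/-- the value of a linear form -/
def vl (u : ℕ → F) (l : List (ℕ × ℤ)) : F := (l.map fun e => (e.2 : F) * u e.1).sum

theorem vl_nil (u : ℕ → F) : vl u [] = 0 := rfl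
theorem vl_cons (u : ℕ → F) (e : ℕ × ℤ) (l : List (ℕ × ℤ)) : vl u (e :: l) = (e.2 : F) * u e.1 + vl u l := by
  unfold vl
  rw [List.map_cons, List.sum_cons]

/-- product of three linear forms -/
def pr3 (s : ℤ) (la lb lc : List (ℕ × ℤ)) : List (ℕ × ℤ) :=
  la.flatMap fun x => lb.flatMap fun y => lc.map fun z => (srt x.1 y.1 z.1, s * x.2 * y.2 * z.2)

theorem evP_map (u : ℕ → F) (s : ℤ) {x y : ℕ × ℤ} (hx : x.1 < 27) (hy : y.1 < 27) {lc : List (ℕ × ℤ)} (hc : ∀ z ∈ lc, z.1 < 27) :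
    evP u (lc.map fun z => (srt x.1 y.1 z.1, s * x.2 * y.2 * z.2)) =
      (s : F) * ((x.2 : F) * u x.1) * ((y.2 : F) * u y.1) * vl u lc := by
  induction lc with
  | nil => simp [evP, vl]
  | cons z lc ih =>
    rw [List.map_cons, evP_cons, ih (fun z hz => hc z (List.mem_cons_of_mem _ hz)), vl_cons,
      mv_srt u hx hy (hc z List.mem_cons_self)]
    push_cast; ring

theorem evP_pr3 (u : ℕ → F) (s : ℤ) {la lb lc : List (ℕ × ℤ)} (ha : ∀ z ∈ la, z.1 < 27) (hb : ∀ z ∈ lb, z.1 < 27)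
    (hc : ∀ z ∈ lc, z.1 < 27) : evP u (pr3 s la lb lc) = (s : F) * vl u la * vl u lb * vl u lc := by
  unfold pr3
  induction la with
  | nil => simp [evP, vl]
  | cons x la ih =>
    rw [List.flatMap_cons, evP_append, ih (fun z hz => ha z (List.mem_cons_of_mem _ hz)), vl_cons]
    have hx := ha x List.mem_cons_self
    have h2 : evP u (lb.flatMap fun y => lc.map fun z => (srt x.1 y.1 z.1, s * x.2 * y.2 * z.2)) =
        (s : F) * ((x.2 : F) * u x.1) * vl u lb * vl u lc := by
      clear ih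
      induction lb with
      | nil => simp [evP, vl]
      | cons y lb ih =>
        rw [List.flatMap_cons, evP_append, ih (fun z hz => hb z (List.mem_cons_of_mem _ hz)), vl_cons,
          evP_map u s hx (hb y List.mem_cons_self) hc]
        ring
    rw [h2]
    ring

/-- substituting linear forms -/
def T3P (L : List (ℕ × ℕ × ℕ × ℤ)) (f g h : ℕ → List (ℕ × ℤ)) : List (ℕ × ℤ) :=
  L.flatMap fun m => pr3 m.2.2.2 (f m.1) (g m.2.1) (h m.2.2.1)

/-- bounded linear forms -/
def Bnd (f : ℕ → List (ℕ × ℤ)) : Prop := ∀ i < 27, ∀ z ∈ f i, z.1 < 27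

theorem evP_T3P (u : ℕ → F) {L : List (ℕ × ℕ × ℕ × ℤ)} (hL : ∀ m ∈ L, m.1 < 27 ∧ m.2.1 < 27 ∧ m.2.2.1 < 27)
    {f g h : ℕ → List (ℕ × ℤ)} (hf : Bnd f) (hg : Bnd g) (hh : Bnd h) :
    evP u (T3P L f g h) = T3 L (fun i => vl u (f i)) (fun i => vl u (g i)) (fun i => vl u (h i)) := by
  unfold T3P
  induction L with
  | nil => rfl
  | cons m L ih =>
    have hm := hL m List.mem_cons_self
    rw [List.flatMap_cons, evP_append, ih (fun m hm => hL m (List.mem_cons_of_mem _ hm)), T3_cons,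
      evP_pr3 u _ (hf _ hm.1) (hg _ hm.2.1) (hh _ hm.2.2)]

/-- the identity substitution -/
def i1 (i : ℕ) : List (ℕ × ℤ) := [(i, 1)]

/-- the substitution given by a sparse matrix -/
def s1 (A : SM) (i : ℕ) : List (ℕ × ℤ) := A.filterMap fun e => cond (Nat.beq e.1 i) (some (e.2.1, e.2.2)) none

theorem vl_i1 (u : ℕ → F) (i : ℕ) : vl u (i1 i) = u i := by simp [i1, vl]

theorem bnd_i1 : Bnd i1 := by
  intro i hi z hz
  rw [i1, List.mem_singleton] at hz
  rw [hz]; exact hi

theorem bnd_s1 {A : SM} (hA : ∀ e ∈ A, e.2.1 < 27) : Bnd (s1 A) := by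
  intro i _ z hz
  rw [s1, List.mem_filterMap] at hz
  obtain ⟨e, he, h⟩ := hz
  cases hb : Nat.beq e.1 i with
  | true =>
    rw [hb, cond_true, Option.some.injEq] at h
    rw [← h]; exact hA e he
  | false => rw [hb, cond_false] at h; exact absurd h (by simp)

/-- the linear map of a sparse matrix -/
def lin (A : SM) (u : ℕ → F) (i : ℕ) : F := vl u (s1 A i)

theorem lin_cons (e : ℕ × ℕ × ℤ) (A : SM) (u : ℕ → F) (i : ℕ) :
    lin (e :: A) u i = (if e.1 = i then (e.2.2 : F) * u e.2.1 else 0) + lin A u i := by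
  unfold lin s1
  by_cases h : e.1 = i
  · rw [List.filterMap_cons_some (b := (e.2.1, e.2.2)) (by rw [nbeq' h, cond_true]), vl_cons, if_pos h]
  · rw [List.filterMap_cons_none (by rw [nbeq h, cond_false]), if_neg h, zero_add]

/-- the check of invariance -/
def ckInv (A : SM) : Bool :=
  isZP (T3P listT i1 i1 (s1 A) ++ (T3P listT i1 (s1 A) i1 ++ T3P listT (s1 A) i1 i1)) &&
  isZP (T3P listT (s1 A) (s1 A) i1 ++ (T3P listT (s1 A) i1 (s1 A) ++ T3P listT i1 (s1 A) (s1 A))) &&
  isZP (T3P listT (s1 A) (s1 A) (s1 A))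

theorem bndT' : listT.all (fun m => decide (m.1 < 27) && decide (m.2.1 < 27) && decide (m.2.2.1 < 27)) = true := by
  decide +kernel

theorem bndT : ∀ m ∈ listT, m.1 < 27 ∧ m.2.1 < 27 ∧ m.2.2.1 < 27 := by
  intro m hm
  have h := List.all_eq_true.1 bndT' m hm
  simp only [Bool.and_eq_true, decide_eq_true_eq] at h
  exact ⟨h.1.1, h.1.2, h.2⟩

theorem tf_inv {A : SM} (hA : ∀ e ∈ A, e.2.1 < 27) (h : ckInv A = true) (u : ℕ → F) (t : F) :
    tf (fun k => u k + t * lin A u k) = tf u := by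
  unfold ckInv at h
  simp only [Bool.and_eq_true] at h
  obtain ⟨⟨h1, h2⟩, h3⟩ := h
  have b1 := bnd_i1
  have b2 := bnd_s1 hA
  have e1 := evP_zero u _ _ le_rfl h1
  have e2 := evP_zero u _ _ le_rfl h2
  have e3 := evP_zero u _ _ le_rfl h3
  rw [evP_append, evP_append, evP_T3P u bndT b1 b1 b2, evP_T3P u bndT b1 b2 b1, evP_T3P u bndT b2 b1 b1] at e1
  rw [evP_append, evP_append, evP_T3P u bndT b2 b2 b1, evP_T3P u bndT b2 b1 b2, evP_T3P u bndT b1 b2 b2] at e2
  rw [evP_T3P u bndT b2 b2 b2] at e3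
  simp only [vl_i1] at e1 e2 e3
  have f1 : qf u (lin A u) = 0 := by
    unfold qf
    rw [← e1]
    unfold lin
    ring
  have f2 : qf (lin A u) u = 0 := by
    unfold qf
    rw [← e2]
    unfold lin
    ring
  have f3 : tf (lin A u) = 0 := by
    unfold tf
    rw [← e3]
    rfl
  rw [tf_add, f1, f2, f3]
  ring

end Inv

theorem ckInvAll : (List.range 72).all (fun r => ckInv (EE r)) = true := by decide +kernel

theorem ckRows : (List.range 432).all (fun k => Nat.blt (ent k).1 27) = true := by decide +kernel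

theorem EE_bd (r : ℕ) : ∀ e ∈ EE r, e.1 < 27 ∧ e.2.1 < 27 := by
  intro e he
  have h1 : ∀ k, (ent k).2.1 < 27 := fun k => Nat.mod_lt _ (by norm_num)
  have h2 : ∀ k < 432, (ent k).1 < 27 := by
    intro k hk
    have := List.all_eq_true.1 ckRows k (List.mem_range.2 hk)
    simpa [Nat.blt] using this
  unfold EE at he
  cases hb : Nat.blt r 72 with
  | true =>
    have hr : r < 72 := by simpa [Nat.blt] using hb
    rw [hb, cond_true] at he
    simp only [List.mem_cons, List.not_mem_nil, or_false] at he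
    rcases he with rfl | rfl | rfl | rfl | rfl | rfl <;> exact ⟨h2 _ (by omega), h1 _⟩
  | false =>
    rw [hb, cond_false] at he
    simp at he

end Cfsg.Agent.H6.E6
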