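import Mathlib
import Cfsg.Agent.H6_E6c

/-!
The cubic form of type `E₆`: coordinates and the isometry group.
-/

set_option autoImplicit false
set_option linter.unusedSectionVars false
set_option maxRecDepth 100000

namespace Cfsg.Agent.H6.E6

open Cfsg.Lie
open Cfsg.Agent.H6.MR

variable {F : Type*} [Field F]

/-- coordinates -/
def crd (x : I27 → F) (k : ℕ) : F := if k < 27 then x (dec k) else 0

theorem crd_0 (x : I27 → F) : crd x 0 = x (0, 0, 0) := rfl
theorem crd_1 (x : I27 → F) : crd x 1 = x (0, 0, 1) := rfl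
theorem crd_2 (x : I27 → F) : crd x 2 = x (0, 0, 2) := rfl
theorem crd_3 (x : I27 → F) : crd x 3 = x (0, 1, 0) := rfl
theorem crd_4 (x : I27 → F) : crd x 4 = x (0, 1, 1) := rfl
theorem crd_5 (x : I27 → F) : crd x 5 = x (0, 1, 2) := rfl
theorem crd_6 (x : I27 → F) : crd x 6 = x (0, 2, 0) := rfl
theorem crd_7 (x : I27 → F) : crd x 7 = x (0, 2, 1) := rfl
theorem crd_8 (x : I27 → F) : crd x 8 = x (0, 2, 2) := rfl
theorem crd_9 (x : I27 → F) : crd x 9 = x (1, 0, 0) := rfl
theorem crd_10 (x : I27 → F) : crd x 10 = x (1, 0, 1) := rfl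
theorem crd_11 (x : I27 → F) : crd x 11 = x (1, 0, 2) := rfl
theorem crd_12 (x : I27 → F) : crd x 12 = x (1, 1, 0) := rfl
theorem crd_13 (x : I27 → F) : crd x 13 = x (1, 1, 1) := rfl
theorem crd_14 (x : I27 → F) : crd x 14 = x (1, 1, 2) := rfl
theorem crd_15 (x : I27 → F) : crd x 15 = x (1, 2, 0) := rfl
theorem crd_16 (x : I27 → F) : crd x 16 = x (1, 2, 1) := rfl
theorem crd_17 (x : I27 → F) : crd x 17 = x (1, 2, 2) := rfl
theorem crd_18 (x : I27 → F) : crd x 18 = x (2, 0, 0) := rfl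
theorem crd_19 (x : I27 → F) : crd x 19 = x (2, 0, 1) := rfl
theorem crd_20 (x : I27 → F) : crd x 20 = x (2, 0, 2) := rfl
theorem crd_21 (x : I27 → F) : crd x 21 = x (2, 1, 0) := rfl
theorem crd_22 (x : I27 → F) : crd x 22 = x (2, 1, 1) := rfl
theorem crd_23 (x : I27 → F) : crd x 23 = x (2, 1, 2) := rfl
theorem crd_24 (x : I27 → F) : crd x 24 = x (2, 2, 0) := rfl
theorem crd_25 (x : I27 → F) : crd x 25 = x (2, 2, 1) := rfl
theorem crd_26 (x : I27 → F) : crd x 26 = x (2, 2, 2) := rfl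

theorem crd_ge (x : I27 → F) {k : ℕ} (hk : ¬ k < 27) : crd x k = 0 := if_neg hk

theorem crd_lt (x : I27 → F) {k : ℕ} (hk : k < 27) : crd x k = x (dec k) := if_pos hk

theorem crd_code (x : I27 → F) (i : I27) : crd x (code i) = x i := by
  rw [crd_lt x (code_lt i), dec_code]

theorem crd_ext {x y : I27 → F} (h : ∀ k, crd x k = crd y k) : x = y := by
  funext i
  rw [← crd_code x, ← crd_code y, h]

theorem crd_add (x y : I27 → F) (a : F) (k : ℕ) : crd (x + a • y) k = crd x k + a * crd y k := by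
  by_cases hk : k < 27
  · rw [crd_lt _ hk, crd_lt _ hk, crd_lt _ hk]; rfl
  · rw [crd_ge _ hk, crd_ge _ hk, crd_ge _ hk]; ring

theorem listT_eq : listT = [(0, 4, 8, 1), (0, 5, 7, -1), (1, 3, 8, -1), (1, 5, 6, 1), (2, 3, 7, 1), (2, 4, 6, -1), (9, 13, 17, 1), (9, 14, 16, -1), (10, 12, 17, -1), (10, 14, 15, 1), (11, 12, 16, 1), (11, 13, 15, -1), (18, 22, 26, 1), (18, 23, 25, -1), (19, 21, 26, -1), (19, 23, 24, 1), (20, 21, 25, 1), (20, 22, 24, -1), (0, 9, 18, -1), (0, 10, 21, -1), (0, 11, 24, -1), (1, 12, 18, -1), (1, 13, 21, -1), (1, 14, 24, -1), (2, 15, 18, -1), (2, 16, 21, -1), (2, 17, 24, -1), (3, 9, 19, -1), (3, 10, 22, -1), (3, 11, 25, -1), (4, 12, 19, -1), (4, 13, 22, -1), (4, 14, 25, -1), (5, 15, 19, -1), (5, 16, 22, -1), (5, 17, 25, -1), (6, 9, 20, -1), (6, 10, 23, -1), (6, 11, 26, -1), (7, 12, 20, -1), (7, 13, 23, -1), (7, 14, 26, -1), (8, 15, 20, -1), (8, 16, 23, -1), (8, 17, 26, -1)] := by decide +kernel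

set_option maxHeartbeats 4000000 in
theorem cubicT_eq (x : I27 → F) : cubicT x = tf (crd x) := by
  unfold tf T3 cubicT
  rw [listT_eq]
  simp only [List.map_cons, List.map_nil, List.sum_cons, List.sum_nil, crd_0, crd_1, crd_2, crd_3, crd_4, crd_5, crd_6, crd_7, crd_8, crd_9, crd_10, crd_11, crd_12, crd_13, crd_14, crd_15, crd_16, crd_17, crd_18, crd_19, crd_20, crd_21, crd_22, crd_23, crd_24, crd_25, crd_26]
  rw [Matrix.det_fin_three, Matrix.det_fin_three, Matrix.det_fin_three, Matrix.trace_fin_three]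
  simp only [Matrix.mul_apply, Fin.sum_univ_three, mat3, Matrix.of_apply]
  push_cast
  ring

theorem lin_eq_mulVec (r : ℕ) (x : I27 → F) (i : ℕ) : crd ((Rep.M code EE F r).mulVec x) i = lin (EE r) (crd x) i := by
  by_cases hi : i < 27
  · rw [crd_lt _ hi]
    unfold Rep.M Matrix.mulVec dotProduct
    simp only [ev_apply, code_dec hi]
    have hb := EE_bd r
    generalize EE r = A at hb
    induction A with
    | nil => simp [coef, lin, s1, vl]
    | cons e A ih =>
      rw [lin_cons, ← ih (fun e he => hb e (List.mem_cons_of_mem _ he))]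
      have he := hb e List.mem_cons_self
      simp only [coef_cons, Int.cast_add, add_mul, Finset.sum_add_distrib]
      congr 1
      rw [Finset.sum_eq_single (dec e.2.1)]
      · rw [code_dec he.2, crd_lt _ he.2]
        by_cases h : e.1 = i
        · rw [if_pos ⟨h, rfl⟩, if_pos h]
        · rw [if_neg (fun h' => h h'.1), if_neg h, Int.cast_zero, zero_mul]
      · intro l _ hl
        rw [if_neg, Int.cast_zero, zero_mul]
        rintro ⟨_, h⟩
        apply hl
        rw [h, dec_code]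
      · intro h; exact absurd (Finset.mem_univ _) h
  · rw [crd_ge _ hi]
    have hb := EE_bd r
    generalize EE r = A at hb
    induction A with
    | nil => rfl
    | cons e A ih =>
      rw [lin_cons, ← ih (fun e he => hb e (List.mem_cons_of_mem _ he)), add_zero, if_neg]
      intro h
      have := (hb e List.mem_cons_self).1
      omega

/-- the root elements -/
noncomputable abbrev XX (F : Type*) [Field F] (r : ℕ) (t : F) : GL I27 F := repE6.X F r t

theorem XX_mulVec (r : ℕ) (t : F) (x : I27 → F) (i : ℕ) :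
    crd ((XX F r t : Matrix I27 I27 F).mulVec x) i = crd x i + t * lin (EE r) (crd x) i := by
  rw [Rep.coe_X, Matrix.add_mulVec, Matrix.one_mulVec, Matrix.smul_mulVec, crd_add, lin_eq_mulVec]

theorem mem_univ {g : GL I27 F} : g ∈ E6univ F ↔ ∀ x, cubicT ((g : Matrix I27 I27 F).mulVec x) = cubicT x := Iff.rfl

theorem XX_mem (r : ℕ) (t : F) : XX F r t ∈ E6univ F := by
  rw [mem_univ]
  intro x
  rw [cubicT_eq, cubicT_eq]
  have h : crd ((XX F r t : Matrix I27 I27 F).mulVec x) = fun k => crd x k + t * lin (EE r) (crd x) k :=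
    funext (XX_mulVec r t x)
  rw [h]
  by_cases hr : r < 72
  · exact tf_inv (fun e he => (EE_bd r e he).2) (List.all_eq_true.1 ckInvAll r (List.mem_range.2 hr)) _ _
  · have h0 : EE r = [] := repE6.ge r (not_lt.1 hr)
    have h1 : ∀ k, lin (EE r) (crd x) k = 0 := by intro k; rw [h0]; rfl
    simp only [h1, mul_zero, add_zero]

/-- the quadratic-linear form on vectors -/
def q2 (x y : I27 → F) : F := qf (crd x) (crd y)
/-- the trilinear form on vectors -/
def d3 (x y z : I27 → F) : F := df (crd x) (crd y) (crd z)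

theorem q2_inv {g : GL I27 F} (hg : g ∈ E6univ F) {a : F} (ha0 : a ≠ 0) (ha1 : a ≠ 1) (x y : I27 → F) :
    q2 ((g : Matrix I27 I27 F).mulVec x) ((g : Matrix I27 I27 F).mulVec y) = q2 x y := by
  have key : ∀ (c : F) (x y : I27 → F), cubicT (x + c • y) = cubicT x + c * q2 x y + c ^ 2 * q2 y x + c ^ 3 * cubicT y := by
    intro c x y
    rw [cubicT_eq, cubicT_eq, cubicT_eq]
    have h : crd (x + c • y) = fun k => crd x k + c * crd y k := funext (crd_add x y c)
    rw [h, tf_add]
    rfl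
  have h1 : ∀ c : F, c * q2 ((g : Matrix I27 I27 F).mulVec x) ((g : Matrix I27 I27 F).mulVec y) +
      c ^ 2 * q2 ((g : Matrix I27 I27 F).mulVec y) ((g : Matrix I27 I27 F).mulVec x) = c * q2 x y + c ^ 2 * q2 y x := by
    intro c
    have e1 := mem_univ.1 hg (x + c • y)
    rw [Matrix.mulVec_add, Matrix.mulVec_smul, key, key, mem_univ.1 hg x, mem_univ.1 hg y] at e1
    linear_combination e1
  have e1 := h1 1
  have e2 := h1 a
  have ha : a - a ^ 2 ≠ 0 := by
    have : a - a ^ 2 = a * (1 - a) := by ring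
    rw [this]
    exact mul_ne_zero ha0 (sub_ne_zero.2 (Ne.symm ha1))
  have e3 : (a - a ^ 2) * q2 ((g : Matrix I27 I27 F).mulVec x) ((g : Matrix I27 I27 F).mulVec y) = (a - a ^ 2) * q2 x y := by
    linear_combination e2 - a ^ 2 * e1
  exact mul_left_cancel₀ ha e3

theorem d3_eq (x y z : I27 → F) : d3 x y z = q2 (x + y) z - q2 x z - q2 y z := by
  unfold d3 q2
  have h : crd (x + y) = fun k => crd x k + 1 * crd y k := by
    have := funext (crd_add x y 1)
    rwa [one_smul] at this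
  rw [h, qf_add]
  ring

theorem d3_inv {g : GL I27 F} (hg : g ∈ E6univ F) {a : F} (ha0 : a ≠ 0) (ha1 : a ≠ 1) (x y z : I27 → F) :
    d3 ((g : Matrix I27 I27 F).mulVec x) ((g : Matrix I27 I27 F).mulVec y) ((g : Matrix I27 I27 F).mulVec z) = d3 x y z := by
  rw [d3_eq, d3_eq, ← Matrix.mulVec_add, q2_inv hg ha0 ha1, q2_inv hg ha0 ha1, q2_inv hg ha0 ha1]

end Cfsg.Agent.H6.E6
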