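import Mathlib
import Cfsg.Agent.H6_E6d

/-!
The cubic form of type `E₆`: basis vectors, the forms attached to basis vectors.
-/

set_option autoImplicit false
set_option linter.unusedSectionVars false
set_option maxRecDepth 100000

namespace Cfsg.Agent.H6.E6

open Cfsg.Lie
open Cfsg.Agent.H6.MR

variable {F : Type*} [Field F]

/-- delta functions -/
def dl (F : Type*) [Field F] (p : ℕ) : ℕ → F := fun k => if k = p then 1 else 0

/-- basis vectors -/
def bas (F : Type*) [Field F] (p : ℕ) : I27 → F := Pi.single (dec p) 1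

theorem dec_inj {a b : ℕ} (ha : a < 27) (hb : b < 27) (h : dec a = dec b) : a = b := by
  rw [← code_dec ha, ← code_dec hb, h]

theorem crd_bas {p : ℕ} (hp : p < 27) : crd (bas F p) = dl F p := by
  funext k
  by_cases hk : k < 27
  · rw [crd_lt _ hk, bas, Pi.single_apply, dl]
    by_cases h : k = p
    · rw [if_pos (by rw [h]), if_pos h]
    · rw [if_neg (fun h' => h (dec_inj hk hp h')), if_neg h]
  · rw [crd_ge _ hk, dl, if_neg (by omega)]

/-- the quadratic form with a list of monomials -/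
def qq (L : List (ℕ × ℕ × ℤ)) (u : ℕ → F) : F := (L.map fun e => (e.2.2 : F) * u e.1 * u e.2.1).sum
/-- its polarisation -/
def bq (L : List (ℕ × ℕ × ℤ)) (u v : ℕ → F) : F :=
  (L.map fun e => (e.2.2 : F) * (u e.1 * v e.2.1 + u e.2.1 * v e.1)).sum

theorem qq_append (L L' : List (ℕ × ℕ × ℤ)) (u : ℕ → F) : qq (L ++ L') u = qq L u + qq L' u := by
  unfold qq; rw [List.map_append, List.sum_append]
theorem bq_append (L L' : List (ℕ × ℕ × ℤ)) (u v : ℕ → F) : bq (L ++ L') u v = bq L u v + bq L' u v := by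
  unfold bq; rw [List.map_append, List.sum_append]
theorem qq_cons (e : ℕ × ℕ × ℤ) (L : List (ℕ × ℕ × ℤ)) (u : ℕ → F) :
    qq (e :: L) u = (e.2.2 : F) * u e.1 * u e.2.1 + qq L u := by
  unfold qq; rw [List.map_cons, List.sum_cons]
theorem bq_cons (e : ℕ × ℕ × ℤ) (L : List (ℕ × ℕ × ℤ)) (u v : ℕ → F) :
    bq (e :: L) u v = (e.2.2 : F) * (u e.1 * v e.2.1 + u e.2.1 * v e.1) + bq L u v := by
  unfold bq; rw [List.map_cons, List.sum_cons]
theorem qq_nil (u : ℕ → F) : qq [] u = 0 := rfl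
theorem bq_nil (u v : ℕ → F) : bq [] u v = 0 := rfl

/-- the monomials through a point -/
def thr (L : List (ℕ × ℕ × ℕ × ℤ)) (l : ℕ) : List (ℕ × ℕ × ℤ) :=
  L.flatMap fun m => cond (Nat.beq m.2.2.1 l) [(m.1, m.2.1, m.2.2.2)] [] ++
    (cond (Nat.beq m.2.1 l) [(m.1, m.2.2.1, m.2.2.2)] [] ++ cond (Nat.beq m.1 l) [(m.2.1, m.2.2.1, m.2.2.2)] [])

/-- the five pairs -/
def Ql (l : ℕ) : List (ℕ × ℕ × ℤ) := thr listT l

theorem thr_qq (L : List (ℕ × ℕ × ℕ × ℤ)) (l : ℕ) (u : ℕ → F) :
    T3 L u u (dl F l) + T3 L u (dl F l) u + T3 L (dl F l) u u = qq (thr L l) u := by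
  unfold thr
  induction L with
  | nil => simp [T3_nil, qq_nil]
  | cons m L ih =>
    rw [List.flatMap_cons, qq_append, ← ih, T3_cons, T3_cons, T3_cons, qq_append, qq_append]
    have e : ∀ (k : ℕ) (c : ℕ × ℕ × ℤ), qq (cond (Nat.beq k l) [c] []) u = ((c.2.2 : F) * u c.1 * u c.2.1) * dl F l k := by
      intro k c
      by_cases h : k = l
      · rw [nbeq' h, cond_true, dl, if_pos h, qq_cons, qq_nil]; ring
      · rw [nbeq h, cond_false, dl, if_neg h, qq_nil]; ring
    rw [e, e, e]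
    ring

theorem thr_bq (L : List (ℕ × ℕ × ℕ × ℤ)) (l : ℕ) (u v : ℕ → F) :
    T3 L (dl F l) u v + T3 L u (dl F l) v + T3 L (dl F l) v u + T3 L u v (dl F l) + T3 L v (dl F l) u + T3 L v u (dl F l) =
      bq (thr L l) u v := by
  unfold thr
  induction L with
  | nil => simp [T3_nil, bq_nil]
  | cons m L ih =>
    rw [List.flatMap_cons, bq_append, ← ih, T3_cons, T3_cons, T3_cons, T3_cons, T3_cons, T3_cons, bq_append, bq_append]
    have e : ∀ (k : ℕ) (c : ℕ × ℕ × ℤ), bq (cond (Nat.beq k l) [c] []) u v =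
        ((c.2.2 : F) * (u c.1 * v c.2.1 + u c.2.1 * v c.1)) * dl F l k := by
      intro k c
      by_cases h : k = l
      · rw [nbeq' h, cond_true, dl, if_pos h, bq_cons, bq_nil]; ring
      · rw [nbeq h, cond_false, dl, if_neg h, bq_nil]; ring
    rw [e, e, e]
    ring

theorem q2_bas {l : ℕ} (hl : l < 27) (x : I27 → F) : q2 x (bas F l) = qq (Ql l) (crd x) := by
  unfold q2 qf
  rw [crd_bas hl]
  exact thr_qq listT l (crd x)

theorem d3_bas {p : ℕ} (hp : p < 27) (x y : I27 → F) : d3 (bas F p) x y = bq (Ql p) (crd x) (crd y) := by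
  unfold d3 df
  rw [crd_bas hp]
  exact thr_bq listT p (crd x) (crd y)

/-- the partner of a point -/
def pt (L : List (ℕ × ℕ × ℤ)) (l : ℕ) : List (ℕ × ℤ) :=
  L.flatMap fun e => cond (Nat.beq e.2.1 l) [(e.1, e.2.2)] [] ++ cond (Nat.beq e.1 l) [(e.2.1, e.2.2)] []

theorem pt_vl (L : List (ℕ × ℕ × ℤ)) (l : ℕ) (u : ℕ → F) : bq L u (dl F l) = vl u (pt L l) := by
  unfold pt
  induction L with
  | nil => simp [bq_nil, vl_nil]
  | cons e L ih =>
    have vapp : ∀ A B : List (ℕ × ℤ), vl u (A ++ B) = vl u A + vl u B := by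
      intro A B; unfold vl; rw [List.map_append, List.sum_append]
    rw [List.flatMap_cons, vapp, ← ih, bq_cons, vapp]
    have e0 : ∀ (k : ℕ) (c : ℕ × ℤ), vl u (cond (Nat.beq k l) [c] []) = ((c.2 : F) * u c.1) * dl F l k := by
      intro k c
      by_cases h : k = l
      · rw [nbeq' h, cond_true, dl, if_pos h, vl_cons, vl_nil]; ring
      · rw [nbeq h, cond_false, dl, if_neg h, vl_nil]; ring
    rw [e0, e0]
    ring

/-- the partner -/
def Dl (p l : ℕ) : List (ℕ × ℤ) := pt (Ql p) l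

theorem d3_bas2 {p l : ℕ} (hp : p < 27) (hl : l < 27) (x : I27 → F) : d3 (bas F p) x (bas F l) = vl (crd x) (Dl p l) := by
  rw [d3_bas hp, crd_bas hl]
  exact pt_vl (Ql p) l (crd x)

theorem d3_symm (x y z : I27 → F) : d3 x y z = d3 x z y := by
  unfold d3 df; ring

theorem d3_symm' (x y z : I27 → F) : d3 x y z = d3 y x z := by
  unfold d3 df; ring

/-- basis vectors are white -/
theorem q2_bas_left' {p : ℕ} (L : List (ℕ × ℕ × ℕ × ℤ)) (hL : ∀ m ∈ L, m.1 ≠ m.2.1 ∧ m.1 ≠ m.2.2.1 ∧ m.2.1 ≠ m.2.2.1)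
    (v : ℕ → F) : T3 L (dl F p) (dl F p) v + T3 L (dl F p) v (dl F p) + T3 L v (dl F p) (dl F p) = 0 := by
  induction L with
  | nil => simp [T3_nil]
  | cons m L ih =>
    have hm := hL m List.mem_cons_self
    have ih' := ih (fun m hm => hL m (List.mem_cons_of_mem _ hm))
    rw [T3_cons, T3_cons, T3_cons]
    have key : ∀ a b : ℕ, a ≠ b → dl F p a * dl F p b = 0 := by
      intro a b hab
      unfold dl
      by_cases h : a = p
      · rw [if_neg (fun h' : b = p => hab (h.trans h'.symm)), mul_zero]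
      · rw [if_neg h, zero_mul]
    have k1 := key _ _ hm.1
    have k2 := key _ _ hm.2.1
    have k3 := key _ _ hm.2.2
    linear_combination ih' + (m.2.2.2 : F) * v m.2.2.1 * k1 + (m.2.2.2 : F) * v m.2.1 * k2 + (m.2.2.2 : F) * v m.1 * k3

theorem distT' : listT.all (fun m => decide (m.1 ≠ m.2.1) && decide (m.1 ≠ m.2.2.1) && decide (m.2.1 ≠ m.2.2.1)) = true := by
  decide +kernel

theorem distT : ∀ m ∈ listT, m.1 ≠ m.2.1 ∧ m.1 ≠ m.2.2.1 ∧ m.2.1 ≠ m.2.2.1 := by
  intro m hm
  have h := List.all_eq_true.1 distT' m hm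
  simp only [Bool.and_eq_true, decide_eq_true_eq] at h
  exact ⟨h.1.1, h.1.2, h.2⟩

theorem q2_bas_left {p : ℕ} (hp : p < 27) (y : I27 → F) : q2 (bas F p) y = 0 := by
  unfold q2 qf
  rw [crd_bas hp]
  exact q2_bas_left' listT distT (crd y)

/-! ### The action -/

/-- the action on vectors -/
def act (g : GL I27 F) (x : I27 → F) : I27 → F := (g : Matrix I27 I27 F).mulVec x

theorem act_mul (g h : GL I27 F) (x : I27 → F) : act (g * h) x = act g (act h x) := by
  unfold act
  rw [Matrix.mulVec_mulVec, Units.val_mul]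

theorem act_one (x : I27 → F) : act (1 : GL I27 F) x = x := by
  unfold act
  rw [Units.val_one, Matrix.one_mulVec]

theorem act_inv (g : GL I27 F) (x : I27 → F) : act g (act g⁻¹ x) = x := by
  rw [← act_mul, mul_inv_cancel, act_one]

theorem act_inv' (g : GL I27 F) (x : I27 → F) : act g⁻¹ (act g x) = x := by
  rw [← act_mul, inv_mul_cancel, act_one]

theorem act_add (g : GL I27 F) (x y : I27 → F) : act g (x + y) = act g x + act g y := Matrix.mulVec_add _ _ _

theorem act_smul (g : GL I27 F) (a : F) (x : I27 → F) : act g (a • x) = a • act g x := Matrix.mulVec_smul _ _ _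

theorem bas_ne {p : ℕ} : bas F p ≠ 0 := by
  intro h
  have := congrFun h (dec p)
  rw [bas, Pi.single_eq_same] at this
  exact one_ne_zero this

theorem act_ext {g h : GL I27 F} (H : ∀ p < 27, act g (bas F p) = act h (bas F p)) : g = h := by
  apply Units.ext
  ext i j
  have h1 := congrFun (H (code j) (code_lt j)) i
  unfold act bas at h1
  rw [dec_code, Matrix.mulVec_single_one, Matrix.mulVec_single_one] at h1
  exact h1

theorem act_X (r : ℕ) (t : F) (x : I27 → F) (i : ℕ) :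
    crd (act (XX F r t) x) i = crd x i + t * lin (EE r) (crd x) i := XX_mulVec r t x i

end Cfsg.Agent.H6.E6
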