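import Mathlib
import Cfsg.Agent.H6_E6e

/-!
The cubic form of type `E₆`: the stabiliser chain.
-/

set_option autoImplicit false
set_option linter.unusedSectionVars false
set_option maxRecDepth 100000

namespace Cfsg.Agent.H6.E6

open Cfsg.Lie
open Cfsg.Agent.H6.MR

/-- a linear form with a single term -/
def sgl (L : List (ℕ × ℤ)) (j : ℕ) : Bool :=
  match L with
  | [] => false
  | e :: L' => L'.isEmpty && Nat.beq e.1 j && (decide (e.2 = 1) || decide (e.2 = -1))

theorem sgl_spec {L : List (ℕ × ℤ)} {j : ℕ} (h : sgl L j = true) : ∃ s : ℤ, L = [(j, s)] ∧ (s = 1 ∨ s = -1) := by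
  cases L with
  | nil => simp [sgl] at h
  | cons e L' =>
    simp only [sgl, Bool.and_eq_true, Bool.or_eq_true, decide_eq_true_eq] at h
    obtain ⟨⟨h1, h2⟩, h3⟩ := h
    have h1' : L' = [] := List.isEmpty_iff.1 h1
    have h2' := Nat.eq_of_beq_eq_true h2
    exact ⟨e.2, by rw [h1', ← h2'], h3⟩

/-- a point does not occur in a list of pairs -/
def nin (L : List (ℕ × ℕ × ℤ)) (k : ℕ) : Bool := L.all fun e => !(Nat.beq e.1 k) && !(Nat.beq e.2.1 k)

theorem nin_spec {L : List (ℕ × ℕ × ℤ)} {k : ℕ} (h : nin L k = true) : ∀ e ∈ L, e.1 ≠ k ∧ e.2.1 ≠ k := by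
  intro e he
  have := List.all_eq_true.1 h e he
  simp only [Bool.and_eq_true, Bool.not_eq_true'] at this
  constructor
  · intro h'; rw [nbeq' h'] at this; exact absurd this.1 (by simp)
  · intro h'; rw [nbeq' h'] at this; exact absurd this.2 (by simp)

/-- zero conditions -/
def zc (P : List ℕ) (k j : ℕ) : Bool :=
  (P.any fun p => nin (Ql p) k && (List.range 27).any fun l => sgl (Dl p l) j) ||
  (P.any fun p => P.any fun p' => sgl (Dl p p') j && !(Nat.beq j k))

/-- the coordinate is one -/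
def one (P : List ℕ) (k : ℕ) : Bool := P.any fun p => P.any fun p' => sgl (Dl p p') k

/-- the root fixes the points -/
def alw (P : List ℕ) (r : ℕ) : Bool := P.all fun p => (EE r).all fun e => !(Nat.beq e.2.1 p)

/-- a move -/
def mvb (P : List ℕ) (j k : ℕ) : Bool := (List.range 72).any fun r => sgl (s1 (EE r) k) j && alw P r

/-- one or two moves -/
def mv2 (P : List ℕ) (j k : ℕ) : Bool := mvb P j k || (List.range 27).any fun i => mvb P j i && mvb P i k

/-- the neighbours -/
def Nk (k : ℕ) : List ℕ := (List.range 27).filter fun j => !(Nat.beq j k) && nin (Ql k) j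

/-- clearing a coordinate -/
def clb (P : List ℕ) (k j : ℕ) : Bool := (List.range 72).any fun r => sgl (s1 (EE r) j) k && alw P r &&
  (k :: Nk k).all fun i => Nat.beq i j || (s1 (EE r) i).isEmpty

/-- whiteness check -/
def tw (k j l : ℕ) : Bool :=
  match (Ql l).filter (fun e => !((Nk k).elem e.1)) with
  | [] => false
  | e :: L => L.isEmpty && ((Nat.beq e.1 k && Nat.beq e.2.1 j) || (Nat.beq e.1 j && Nat.beq e.2.1 k)) &&
      (decide (e.2.2 = 1) || decide (e.2.2 = -1))

/-- the check of a step of the chain -/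
def ckStep (P : List ℕ) (k : ℕ) (o : Option ℕ) : Bool :=
  Nat.blt k 27 && P.all (fun p => Nat.blt p 27) &&
  (one P k || match o with
    | none => (List.range 27).all fun j => zc P k j || mv2 P j k
    | some p => P.elem p && (List.range 27).any (fun l => sgl (Dl p l) k) &&
        (Ql p).all fun e => (zc P k e.1 || mv2 P e.1 k) && (zc P k e.2.1 || mv2 P e.2.1 k)) &&
  (Nk k).all (fun j => zc P k j || clb P k j) &&
  (Ql k).all (fun e => tw k e.1 e.2.1 && tw k e.2.1 e.1)

variable {F : Type*} [Field F]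

/-- fixing basis vectors -/
def fixP (P : List ℕ) (g : GL I27 F) : Prop := ∀ p ∈ P, act g (bas F p) = bas F p

theorem fixP_mul {P : List ℕ} {g h : GL I27 F} (hg : fixP P g) (hh : fixP P h) : fixP P (g * h) := by
  intro p hp
  rw [act_mul, hh p hp, hg p hp]

theorem unit_of {s : ℤ} (h : s = 1 ∨ s = -1) : (s : F) * (s : F) = 1 := by
  rcases h with rfl | rfl <;> simp

theorem bq_nin {L : List (ℕ × ℕ × ℤ)} {k : ℕ} (h : nin L k = true) (v : ℕ → F) : bq L (dl F k) v = 0 := by
  have h' := nin_spec h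
  clear h
  induction L with
  | nil => rfl
  | cons e L ih =>
    rw [bq_cons, ih (fun e he => h' e (List.mem_cons_of_mem _ he))]
    have := h' e List.mem_cons_self
    unfold dl
    rw [if_neg this.1, if_neg this.2]; ring

theorem d3_act {g : GL I27 F} (hg : g ∈ E6univ F) (ha : ∃ a : F, a ≠ 0 ∧ a ≠ 1) (x y z : I27 → F) :
    d3 (act g x) (act g y) (act g z) = d3 x y z := by
  obtain ⟨a, ha0, ha1⟩ := ha
  exact d3_inv hg ha0 ha1 x y z

theorem q2_act {g : GL I27 F} (hg : g ∈ E6univ F) (ha : ∃ a : F, a ≠ 0 ∧ a ≠ 1) (x y : I27 → F) :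
    q2 (act g x) (act g y) = q2 x y := by
  obtain ⟨a, ha0, ha1⟩ := ha
  exact q2_inv hg ha0 ha1 x y

section Sound

variable (ha : ∃ a : F, a ≠ 0 ∧ a ≠ 1) {P : List ℕ} {g : GL I27 F} (hg : g ∈ E6univ F) (hfix : fixP P g)
  (hP : ∀ p ∈ P, p < 27) {k : ℕ} (hk : k < 27)

include ha hg hfix hP hk

theorem pair_eq {p p' j : ℕ} (hp : p ∈ P) (hp' : p' ∈ P) (h : sgl (Dl p p') j = true) :
    crd (act g (bas F k)) j = dl F k j := by
  obtain ⟨s, hs, hs1⟩ := sgl_spec h
  have h1 := d3_act hg ha (bas F p) (bas F k) (bas F p')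
  rw [hfix p hp, hfix p' hp', d3_bas2 (hP p hp) (hP p' hp'), d3_bas2 (hP p hp) (hP p' hp'), hs, vl_cons, vl_cons,
    vl_nil, vl_nil, add_zero, add_zero, crd_bas hk] at h1
  have h2 := unit_of (F := F) hs1
  have hs0 : (s : F) ≠ 0 := left_ne_zero_of_mul_eq_one h2
  exact mul_left_cancel₀ hs0 h1

theorem zc_sound {j : ℕ} (h : zc P k j = true) : crd (act g (bas F k)) j = 0 := by
  unfold zc at h
  rw [Bool.or_eq_true, List.any_eq_true, List.any_eq_true] at h
  rcases h with ⟨p, hp, h⟩ | ⟨p, hp, h⟩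
  · rw [Bool.and_eq_true, List.any_eq_true] at h
    obtain ⟨hn, l, hl, h⟩ := h
    obtain ⟨s, hs, hs1⟩ := sgl_spec h
    have hl' := List.mem_range.1 hl
    have h1 := d3_act hg ha (bas F p) (bas F k) (act g⁻¹ (bas F l))
    rw [hfix p hp, act_inv, d3_bas2 (hP p hp) hl', hs, vl_cons, vl_nil, add_zero, d3_bas (hP p hp), crd_bas hk,
      bq_nin hn] at h1
    have h2 := unit_of (F := F) hs1
    exact (mul_eq_zero.1 h1).resolve_left (left_ne_zero_of_mul_eq_one h2)
  · rw [List.any_eq_true] at h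
    obtain ⟨p', hp', h⟩ := h
    rw [Bool.and_eq_true, Bool.not_eq_true'] at h
    rw [pair_eq ha hg hfix hP hk hp hp' h.1, dl, if_neg]
    intro h'
    rw [nbeq' h'] at h
    exact absurd h.2 (by simp)

theorem one_sound (h : one P k = true) : crd (act g (bas F k)) k = 1 := by
  unfold one at h
  rw [List.any_eq_true] at h
  obtain ⟨p, hp, h⟩ := h
  rw [List.any_eq_true] at h
  obtain ⟨p', hp', h⟩ := h
  rw [pair_eq ha hg hfix hP hk hp hp' h, dl, if_pos rfl]

end Sound

section Moves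

variable {H : Subgroup (GL I27 F)} (hH : ∀ (r : ℕ) (t : F), r < 72 → XX F r t ∈ H)

theorem lin_eq {r i : ℕ} {j : ℕ} {s : ℤ} (h : s1 (EE r) i = [(j, s)]) (u : ℕ → F) : lin (EE r) u i = (s : F) * u j := by
  unfold lin
  rw [h, vl_cons, vl_nil, add_zero]

theorem lin_nil {r i : ℕ} (h : (s1 (EE r) i).isEmpty = true) (u : ℕ → F) : lin (EE r) u i = 0 := by
  unfold lin
  rw [List.isEmpty_iff.1 h, vl_nil]

theorem alw_sound {P : List ℕ} (hP : ∀ p ∈ P, p < 27) {r : ℕ} (h : alw P r = true) (t : F) : fixP P (XX F r t) := by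
  intro p hp
  apply crd_ext
  intro i
  rw [act_X, crd_bas (hP p hp)]
  have h1 := List.all_eq_true.1 h p hp
  have h2 : lin (EE r) (dl F p) i = 0 := by
    generalize EE r = A at h1
    induction A with
    | nil => rfl
    | cons e A ih =>
      rw [List.all_cons, Bool.and_eq_true, Bool.not_eq_true'] at h1
      rw [lin_cons, ih h1.2, add_zero]
      have : e.2.1 ≠ p := by
        intro h'
        rw [nbeq' h'] at h1
        exact absurd h1.1 (by simp)
      unfold dl
      rw [if_neg this]; simp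
  rw [h2, mul_zero, add_zero]

include hH

theorem mvb_sound {P : List ℕ} (hP : ∀ p ∈ P, p < 27) {j k : ℕ} (h : mvb P j k = true) {w : I27 → F} (hw : crd w j ≠ 0) :
    ∃ h ∈ H, fixP P h ∧ crd (act h w) k = 1 := by
  unfold mvb at h
  rw [List.any_eq_true] at h
  obtain ⟨r, hr, h⟩ := h
  rw [Bool.and_eq_true] at h
  obtain ⟨s, hs, hs1⟩ := sgl_spec h.1
  have h2 := unit_of (F := F) hs1
  refine ⟨XX F r ((s : F) * (1 - crd w k) / crd w j), hH _ _ (List.mem_range.1 hr), alw_sound hP h.2 _, ?_⟩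
  rw [act_X, lin_eq hs]
  field_simp
  linear_combination (1 - crd w k) * h2

theorem mv2_sound {P : List ℕ} (hP : ∀ p ∈ P, p < 27) {j k : ℕ} (h : mv2 P j k = true) {w : I27 → F} (hw : crd w j ≠ 0) :
    ∃ h ∈ H, fixP P h ∧ crd (act h w) k = 1 := by
  unfold mv2 at h
  rw [Bool.or_eq_true, List.any_eq_true] at h
  rcases h with h | ⟨i, _, h⟩
  · exact mvb_sound hH hP h hw
  · rw [Bool.and_eq_true] at h
    obtain ⟨h1, h1H, h1f, h1w⟩ := mvb_sound hH hP h.1 hw
    obtain ⟨h2, h2H, h2f, h2w⟩ := mvb_sound hH hP h.2 (w := act h1 w) (by rw [h1w]; exact one_ne_zero)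
    exact ⟨h2 * h1, H.mul_mem h2H h1H, fixP_mul h2f h1f, by rw [act_mul]; exact h2w⟩

theorem clear {P : List ℕ} (hP : ∀ p ∈ P, p < 27) {k : ℕ} {L : List ℕ} (hL : ∀ j ∈ L, j ∈ Nk k ∧ clb P k j = true)
    {w : I27 → F} (hw : crd w k = 1) : ∃ h ∈ H, fixP P h ∧ crd (act h w) k = 1 ∧ ∀ j ∈ L, crd (act h w) j = 0 := by
  induction L with
  | nil => exact ⟨1, H.one_mem, fun p _ => act_one _, by rw [act_one]; exact hw, fun j hj => absurd hj (by simp)⟩
  | cons j L ih =>
    obtain ⟨h, hhH, hhf, hhk, hhL⟩ := ih (fun j hj => hL j (List.mem_cons_of_mem _ hj))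
    obtain ⟨hjN, hcl⟩ := hL j List.mem_cons_self
    unfold clb at hcl
    rw [List.any_eq_true] at hcl
    obtain ⟨r, hr, hcl⟩ := hcl
    rw [Bool.and_eq_true, Bool.and_eq_true] at hcl
    obtain ⟨⟨c1, c2⟩, c3⟩ := hcl
    obtain ⟨s, hs, hs1⟩ := sgl_spec c1
    have h2 := unit_of (F := F) hs1
    have hjk : j ≠ k := by
      intro h'
      have := (List.mem_filter.1 hjN).2
      rw [nbeq' h'] at this
      exact absurd this (by simp)
    have hun : ∀ i ∈ k :: Nk k, i ≠ j → ∀ u : ℕ → F, lin (EE r) u i = 0 := by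
      intro i hi hij u
      have := List.all_eq_true.1 c3 i hi
      rw [nbeq hij, Bool.false_or] at this
      exact lin_nil this u
    refine ⟨XX F r (-((s : F) * crd (act h w) j)) * h, H.mul_mem (hH _ _ (List.mem_range.1 hr)) hhH,
      fixP_mul (alw_sound hP c2 _) hhf, ?_, ?_⟩
    · rw [act_mul, act_X, hun k List.mem_cons_self (Ne.symm hjk), mul_zero, add_zero, hhk]
    · intro i hi
      by_cases hij : i = j
      · rw [hij, act_mul, act_X, lin_eq hs, hhk]
        linear_combination (-(crd (act h w) j)) * h2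
      · have hi' : i ∈ L := by
          rcases List.mem_cons.1 hi with h' | h'
          · exact absurd h' hij
          · exact h'
        rw [act_mul, act_X, hun i (List.mem_cons_of_mem _ (hL i (List.mem_cons_of_mem _ hi')).1) hij, mul_zero, add_zero,
          hhL i hi']

end Moves

end Cfsg.Agent.H6.E6
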