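import Mathlib
import Cfsg.Agent.H6_E6f

/-!
The cubic form of type `E₆`: the stabiliser chain, part 2.
-/

set_option autoImplicit false
set_option linter.unusedSectionVars false
set_option maxRecDepth 100000

namespace Cfsg.Agent.H6.E6

open Cfsg.Lie
open Cfsg.Agent.H6.MR

variable {F : Type*} [Field F]

theorem qlbd' : (List.range 27).all (fun l => (Ql l).all fun e => decide (e.1 < 27) && decide (e.2.1 < 27)) = true := by
  decide +kernel

theorem qlbd {l : ℕ} (hl : l < 27) : ∀ e ∈ Ql l, e.1 < 27 ∧ e.2.1 < 27 := by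
  intro e he
  have h1 := List.all_eq_true.1 qlbd' l (List.mem_range.2 hl)
  have h2 := List.all_eq_true.1 h1 e he
  simp only [Bool.and_eq_true, decide_eq_true_eq] at h2
  exact h2

theorem qq_filter (k : ℕ) (L : List (ℕ × ℕ × ℤ)) {u : ℕ → F} (hu : ∀ j ∈ Nk k, u j = 0) :
    qq L u = qq (L.filter (fun e => !((Nk k).elem e.1))) u := by
  induction L with
  | nil => rfl
  | cons e L ih =>
    rw [qq_cons, ih]
    by_cases h : (Nk k).elem e.1 = true
    · rw [List.filter_cons_of_neg (by simpa using h), hu e.1 (List.elem_iff.1 h)]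
      ring
    · rw [List.filter_cons_of_pos (by simpa using h), qq_cons]

theorem tw_sound {k j l : ℕ} (hl : l < 27) (h : tw k j l = true) {y : I27 → F} (hy : ∀ z, q2 y z = 0)
    (hyk : crd y k = 1) (hN : ∀ i ∈ Nk k, crd y i = 0) : crd y j = 0 := by
  have h1 := hy (bas F l)
  rw [q2_bas hl, qq_filter k (Ql l) hN] at h1
  unfold tw at h
  generalize (Ql l).filter (fun e => !((Nk k).elem e.1)) = M at h h1
  cases M with
  | nil => exact absurd h Bool.false_ne_true
  | cons e L =>
    simp only [Bool.and_eq_true, Bool.or_eq_true, decide_eq_true_eq] at h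
    obtain ⟨⟨h2, h3⟩, h4⟩ := h
    have h2' : L = [] := List.isEmpty_iff.1 h2
    rw [h2', qq_cons, qq_nil, add_zero] at h1
    have h5 := unit_of (F := F) h4
    have hs0 : (e.2.2 : F) ≠ 0 := left_ne_zero_of_mul_eq_one h5
    rcases h3 with ⟨h3, h3'⟩ | ⟨h3, h3'⟩
    · rw [Nat.eq_of_beq_eq_true h3, Nat.eq_of_beq_eq_true h3', hyk, mul_one] at h1
      exact (mul_eq_zero.1 h1).resolve_left hs0
    · rw [Nat.eq_of_beq_eq_true h3, Nat.eq_of_beq_eq_true h3', hyk, mul_one] at h1
      exact (mul_eq_zero.1 h1).resolve_left hs0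

theorem white_eq {k : ℕ} (hk : k < 27) (htw : ∀ e ∈ Ql k, tw k e.1 e.2.1 = true ∧ tw k e.2.1 e.1 = true)
    {y : I27 → F} (hy : ∀ z, q2 y z = 0) (hyk : crd y k = 1) (hN : ∀ i ∈ Nk k, crd y i = 0) : y = bas F k := by
  apply crd_ext
  intro i
  rw [crd_bas hk]
  by_cases hi : i < 27
  · by_cases hik : i = k
    · rw [hik, hyk, dl, if_pos rfl]
    · rw [dl, if_neg hik]
      by_cases hiN : i ∈ Nk k
      · exact hN i hiN
      · have h1 : nin (Ql k) i = false := by
          cases hb : nin (Ql k) i
          · rfl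
          · exfalso
            apply hiN
            unfold Nk
            rw [List.mem_filter]
            refine ⟨List.mem_range.2 hi, ?_⟩
            rw [nbeq hik, hb]; rfl
        unfold nin at h1
        rw [List.all_eq_false] at h1
        obtain ⟨e, he, h2⟩ := h1
        have hb := qlbd hk e he
        have ht := htw e he
        by_cases h3 : e.1 = i
        · rw [← h3]
          exact tw_sound hb.2 ht.1 hy hyk hN
        · by_cases h4 : e.2.1 = i
          · rw [← h4]
            exact tw_sound hb.1 ht.2 hy hyk hN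
          · rw [nbeq h3, nbeq h4] at h2
            exact absurd rfl h2
  · rw [crd_ge _ hi, dl, if_neg (by omega)]

theorem step (ha : ∃ a : F, a ≠ 0 ∧ a ≠ 1) {H : Subgroup (GL I27 F)} (hH : ∀ (r : ℕ) (t : F), r < 72 → XX F r t ∈ H)
    (hHU : H ≤ E6univ F) {P : List ℕ} {k : ℕ} {o : Option ℕ} (hck : ckStep P k o = true) {g : GL I27 F}
    (hg : g ∈ E6univ F) (hfix : fixP P g) : ∃ h ∈ H, fixP (k :: P) (h * g) := by
  unfold ckStep at hck
  simp only [Bool.and_eq_true] at hck
  obtain ⟨⟨⟨⟨c1, c2⟩, c3⟩, c4⟩, c5⟩ := hck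
  have hk : k < 27 := by simpa [Nat.blt] using c1
  have hP : ∀ p ∈ P, p < 27 := by
    intro p hp
    have := List.all_eq_true.1 c2 p hp
    simpa [Nat.blt] using this
  have step1 : ∃ h ∈ H, fixP P h ∧ crd (act h (act g (bas F k))) k = 1 := by
    rw [Bool.or_eq_true] at c3
    rcases c3 with c3 | c3
    · exact ⟨1, H.one_mem, fun p _ => act_one _, by rw [act_one]; exact one_sound ha hg hfix hP hk c3⟩
    · have fin : ∀ j, (zc P k j || mv2 P j k) = true → crd (act g (bas F k)) j ≠ 0 →
          ∃ h ∈ H, fixP P h ∧ crd (act h (act g (bas F k))) k = 1 := by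
        intro j hj hj0
        rw [Bool.or_eq_true] at hj
        rcases hj with hj | hj
        · exact absurd (zc_sound ha hg hfix hP hk hj) hj0
        · exact mv2_sound hH hP hj hj0
      cases o with
      | none =>
        obtain ⟨j, hj, hj0⟩ : ∃ j < 27, crd (act g (bas F k)) j ≠ 0 := by
          by_contra hcon
          push Not at hcon
          have h0 : act g (bas F k) = 0 := by
            apply crd_ext
            intro i
            by_cases hi : i < 27
            · rw [hcon i hi, crd_lt _ hi]; rfl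
            · rw [crd_ge _ hi, crd_ge _ hi]
          have h1 : bas F k = 0 := by
            rw [← act_inv' g (bas F k), h0]
            exact Matrix.mulVec_zero _
          exact bas_ne h1
        exact fin j (List.all_eq_true.1 c3 j (List.mem_range.2 hj)) hj0
      | some p =>
        simp only [Bool.and_eq_true] at c3
        obtain ⟨⟨d1, d2⟩, d3'⟩ := c3
        have hpP : p ∈ P := List.elem_iff.1 d1
        rw [List.any_eq_true] at d2
        obtain ⟨l, hl, d2⟩ := d2
        have hl' := List.mem_range.1 hl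
        obtain ⟨s, hs, hs1⟩ := sgl_spec d2
        have hne : ∃ e ∈ Ql p, crd (act g (bas F k)) e.1 ≠ 0 ∨ crd (act g (bas F k)) e.2.1 ≠ 0 := by
          by_contra hcon
          push Not at hcon
          have h1 := d3_act hg ha (bas F p) (bas F k) (bas F l)
          rw [hfix p hpP, d3_bas2 (hP p hpP) hl', hs, vl_cons, vl_nil, add_zero, crd_bas hk, dl, if_pos rfl, mul_one,
            d3_bas (hP p hpP)] at h1
          have h2 : ∀ v : ℕ → F, bq (Ql p) (crd (act g (bas F k))) v = 0 := by
            intro v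
            generalize Ql p = L at hcon
            induction L with
            | nil => rfl
            | cons e L ih =>
              rw [bq_cons, ih (fun e he => hcon e (List.mem_cons_of_mem _ he)), (hcon e List.mem_cons_self).1,
                (hcon e List.mem_cons_self).2]
              ring
          rw [h2] at h1
          have h3 := unit_of (F := F) hs1
          rw [← h1] at h3
          simp at h3
        obtain ⟨e, he, h⟩ := hne
        have h5 := List.all_eq_true.1 d3' e he
        rw [Bool.and_eq_true] at h5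
        rcases h with h | h
        · exact fin _ h5.1 h
        · exact fin _ h5.2 h
  obtain ⟨h1, h1H, h1f, h1w⟩ := step1
  rw [← act_mul] at h1w
  have hg1 : h1 * g ∈ E6univ F := (E6univ F).mul_mem (hHU h1H) hg
  have hf1 : fixP P (h1 * g) := fixP_mul h1f hfix
  obtain ⟨h2, h2H, h2f, h2k, h2L⟩ := clear hH hP (k := k) (L := (Nk k).filter fun j => !zc P k j) (by
    intro j hj
    rw [List.mem_filter, Bool.not_eq_true'] at hj
    refine ⟨hj.1, ?_⟩
    have := List.all_eq_true.1 c4 j hj.1
    rw [hj.2, Bool.false_or] at this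
    exact this) h1w
  rw [← act_mul] at h2k
  have hg2 : h2 * (h1 * g) ∈ E6univ F := (E6univ F).mul_mem (hHU h2H) hg1
  have hf2 : fixP P (h2 * (h1 * g)) := fixP_mul h2f hf1
  have hN : ∀ i ∈ Nk k, crd (act (h2 * (h1 * g)) (bas F k)) i = 0 := by
    intro i hi
    by_cases hz : zc P k i = true
    · exact zc_sound ha hg2 hf2 hP hk hz
    · have := h2L i (List.mem_filter.2 ⟨hi, by simpa using hz⟩)
      rw [← act_mul] at this
      exact this
  have hw : act (h2 * (h1 * g)) (bas F k) = bas F k := by
    refine white_eq hk ?_ ?_ h2k hN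
    · intro e he
      have := List.all_eq_true.1 c5 e he
      rw [Bool.and_eq_true] at this
      exact this
    · intro z
      rw [← act_inv (h2 * (h1 * g)) z, q2_act hg2 ha, q2_bas_left hk]
  refine ⟨h2 * h1, H.mul_mem h2H h1H, ?_⟩
  rw [mul_assoc]
  intro p hp
  rcases List.mem_cons.1 hp with rfl | hp
  · exact hw
  · exact hf2 p hp

/-- the chain -/
theorem ckc1 : ckStep [] 0 none = true := by decide +kernel
theorem ckc2 : ckStep [0] 4 (some 0) = true := by decide +kernel
theorem ckc3 : ckStep [4, 0] 8 (some 0) = true := by decide +kernel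
theorem ckc4 : ckStep [8, 4, 0] 5 (some 0) = true := by decide +kernel
theorem ckc5 : ckStep [5, 8, 4, 0] 7 (some 0) = true := by decide +kernel
theorem ckc6 : ckStep [7, 5, 8, 4, 0] 9 (some 0) = true := by decide +kernel
theorem ckc7 : ckStep [9, 7, 5, 8, 4, 0] 18 (some 0) = true := by decide +kernel
theorem ckc8 : ckStep [18, 9, 7, 5, 8, 4, 0] 10 (some 0) = true := by decide +kernel
theorem ckc9 : ckStep [10, 18, 9, 7, 5, 8, 4, 0] 21 (some 0) = true := by decide +kernel

theorem chain (ha : ∃ a : F, a ≠ 0 ∧ a ≠ 1) {H : Subgroup (GL I27 F)} (hH : ∀ (r : ℕ) (t : F), r < 72 → XX F r t ∈ H)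
    (hHU : H ≤ E6univ F) {g : GL I27 F} (hg : g ∈ E6univ F) :
    ∃ h ∈ H, fixP [21, 10, 18, 9, 7, 5, 8, 4, 0] (h * g) := by
  have stp : ∀ {P : List ℕ} {k : ℕ} {o : Option ℕ}, ckStep P k o = true → (∃ h ∈ H, fixP P (h * g)) →
      ∃ h ∈ H, fixP (k :: P) (h * g) := by
    rintro P k o hck ⟨h, hh, hf⟩
    obtain ⟨h', hh', hf'⟩ := step ha hH hHU hck ((E6univ F).mul_mem (hHU hh) hg) hf
    refine ⟨h' * h, H.mul_mem hh' hh, ?_⟩
    rw [mul_assoc]; exact hf'
  exact stp ckc9 (stp ckc8 (stp ckc7 (stp ckc6 (stp ckc5 (stp ckc4 (stp ckc3 (stp ckc2 (stp ckc1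
    ⟨1, H.one_mem, fun p hp => absurd hp (by simp)⟩))))))))

end Cfsg.Agent.H6.E6
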