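import Mathlib
import Cfsg.Agent.H6_E6g

/-!
The cubic form of type `E₆`: the stabiliser of the chain is a torus.
-/

set_option autoImplicit false
set_option linter.unusedSectionVars false
set_option maxRecDepth 100000

namespace Cfsg.Agent.H6.E6

open Cfsg.Lie
open Cfsg.Agent.H6.MR

variable {F : Type*} [Field F]

/-- the points of the chain -/
def K9 : List ℕ := [21, 10, 18, 9, 7, 5, 8, 4, 0]

theorem K9_lt : ∀ p ∈ K9, p < 27 := by decide

/-- exponents of the torus -/
def na (j : ℕ) : ℤ := ([0, 1, 1, -1, 0, 0, -1, 0, 0, 0, 1, 1, -1, 0, 0, -1, 0, 0, 0, 1, 1, -1, 0, 0, -1, 0, 0] : List ℤ).getD j 0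
/-- exponents of the torus -/
def nb (j : ℕ) : ℤ := ([0, 0, 0, 0, 0, 0, 0, 0, 0, 0, -1, 1, 0, -1, 1, 0, -1, 1, 0, 0, 0, 1, 1, 1, -1, -1, -1] : List ℤ).getD j 0

theorem zcK : (List.range 27).all (fun j => K9.elem j || (List.range 27).all fun l => Nat.beq l j ||
    (Nat.beq j 11 && Nat.beq l 24) || (Nat.beq j 24 && Nat.beq l 11) || zc K9 j l) = true := by decide +kernel

theorem T3_smul1 (L : List (ℕ × ℕ × ℕ × ℤ)) (u v w : ℕ → F) (a : F) : T3 L (fun k => a * u k) v w = a * T3 L u v w := by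
  induction L with
  | nil => simp [T3_nil]
  | cons m L ih => rw [T3_cons, T3_cons, ih]; ring
theorem T3_smul2 (L : List (ℕ × ℕ × ℕ × ℤ)) (u v w : ℕ → F) (a : F) : T3 L u (fun k => a * v k) w = a * T3 L u v w := by
  induction L with
  | nil => simp [T3_nil]
  | cons m L ih => rw [T3_cons, T3_cons, ih]; ring
theorem T3_smul3 (L : List (ℕ × ℕ × ℕ × ℤ)) (u v w : ℕ → F) (a : F) : T3 L u v (fun k => a * w k) = a * T3 L u v w := by
  induction L with
  | nil => simp [T3_nil]
  | cons m L ih => rw [T3_cons, T3_cons, ih]; ring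

theorem crd_smul (a : F) (x : I27 → F) : crd (a • x) = fun k => a * crd x k := by
  funext k
  by_cases hk : k < 27
  · rw [crd_lt _ hk, crd_lt _ hk]; rfl
  · rw [crd_ge _ hk, crd_ge _ hk, mul_zero]

theorem d3_smul1 (a : F) (x y z : I27 → F) : d3 (a • x) y z = a * d3 x y z := by
  unfold d3 df
  rw [crd_smul]
  simp only [T3_smul1, T3_smul2, T3_smul3]
  ring

theorem d3_smul3 (a : F) (x y z : I27 → F) : d3 x y (a • z) = a * d3 x y z := by
  unfold d3 df
  rw [crd_smul]
  simp only [T3_smul1, T3_smul2, T3_smul3]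
  ring

/-- diagonal entries -/
def dg (g : GL I27 F) (j : ℕ) : F := crd (act g (bas F j)) j

section Torus

variable (ha : ∃ a : F, a ≠ 0 ∧ a ≠ 1) {g : GL I27 F} (hg : g ∈ E6univ F) (hfix : fixP K9 g)

include ha hg hfix

theorem off1 {j l : ℕ} (hj : j < 27) (hl : l < 27) (hjl : l ≠ j) (h1 : ¬ (j = 11 ∧ l = 24)) (h2 : ¬ (j = 24 ∧ l = 11)) :
    crd (act g (bas F j)) l = 0 := by
  have h := List.all_eq_true.1 zcK j (List.mem_range.2 hj)
  rw [Bool.or_eq_true, List.elem_iff] at h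
  rcases h with h | h
  · rw [hfix j h, crd_bas hj, dl, if_neg hjl]
  · have h' := List.all_eq_true.1 h l (List.mem_range.2 hl)
    simp only [Bool.or_eq_true, Bool.and_eq_true] at h'
    rcases h' with ((h' | h') | h') | h'
    · exact absurd (Nat.eq_of_beq_eq_true h') hjl
    · exact absurd ⟨Nat.eq_of_beq_eq_true h'.1, Nat.eq_of_beq_eq_true h'.2⟩ h1
    · exact absurd ⟨Nat.eq_of_beq_eq_true h'.1, Nat.eq_of_beq_eq_true h'.2⟩ h2
    · exact zc_sound ha hg hfix K9_lt hj h'

theorem diag_of {j : ℕ} (hj : j < 27) (h : ∀ l < 27, l ≠ j → crd (act g (bas F j)) l = 0) :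
    act g (bas F j) = dg g j • bas F j := by
  apply crd_ext
  intro l
  rw [crd_smul, crd_bas hj]
  by_cases hl : l < 27
  · by_cases hjl : l = j
    · subst hjl
      show _ = dg g l * dl F l l
      rw [dl, if_pos rfl, mul_one, dg]
    · show _ = dg g j * dl F j l
      rw [dl, if_neg hjl, mul_zero, h l hl hjl]
  · show _ = dg g j * dl F j l
    rw [dl, if_neg (by omega), mul_zero, crd_ge _ hl]

theorem dg_ne {j : ℕ} (h : act g (bas F j) = dg g j • bas F j) : dg g j ≠ 0 := by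
  intro h0
  rw [h0, zero_smul] at h
  have h1 : bas F j = 0 := by
    rw [← act_inv' g (bas F j), h]
    exact Matrix.mulVec_zero _
  exact bas_ne h1

theorem tri {p l k : ℕ} (hp : p < 27) (hl : l < 27) (h1 : act g (bas F p) = dg g p • bas F p)
    (h2 : act g (bas F l) = dg g l • bas F l) (h : sgl (Dl p l) k = true) (x : I27 → F) :
    crd x k = dg g p * dg g l * crd (act g x) k := by
  obtain ⟨s, hs, hs1⟩ := sgl_spec h
  have h3 := d3_act hg ha (bas F p) x (bas F l)
  rw [h1, h2, d3_smul1, d3_smul3, d3_bas2 hp hl, d3_bas2 hp hl, hs, vl_cons, vl_cons, vl_nil, vl_nil, add_zero,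
    add_zero] at h3
  have h4 : (s : F) ≠ 0 := left_ne_zero_of_mul_eq_one (unit_of (F := F) hs1)
  apply mul_left_cancel₀ h4
  show (s : F) * crd x k = _
  rw [← h3]
  ring

theorem diag {j : ℕ} (hj : j < 27) : act g (bas F j) = dg g j • bas F j := by
  have h0 : ∀ {j : ℕ}, j < 27 → j ≠ 11 → j ≠ 24 → act g (bas F j) = dg g j • bas F j := by
    intro j hj h1 h2
    exact diag_of ha hg hfix hj fun l hl hjl => off1 ha hg hfix hj hl hjl (fun h => h1 h.1) (fun h => h2 h.1)
  by_cases h11 : j = 11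
  · subst h11
    apply diag_of ha hg hfix hj
    intro l hl hjl
    by_cases h24 : l = 24
    · subst h24
      have h1 := h0 (j := 19) (by norm_num) (by norm_num) (by norm_num)
      have h2 := h0 (j := 23) (by norm_num) (by norm_num) (by norm_num)
      have h3 := tri ha hg hfix (p := 19) (l := 23) (k := 24) (by norm_num) (by norm_num) h1 h2 (by decide +kernel) (bas F 11)
      rw [crd_bas (by norm_num), dl, if_neg (by norm_num)] at h3
      exact (mul_eq_zero.1 h3.symm).resolve_left (mul_ne_zero (dg_ne ha hg hfix h1) (dg_ne ha hg hfix h2))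
    · exact off1 ha hg hfix hj hl hjl (fun h => h24 h.2) (fun h => absurd h.1 (by norm_num))
  · by_cases h24 : j = 24
    · subst h24
      apply diag_of ha hg hfix hj
      intro l hl hjl
      by_cases h11 : l = 11
      · subst h11
        have h1 := h0 (j := 12) (by norm_num) (by norm_num) (by norm_num)
        have h2 := h0 (j := 16) (by norm_num) (by norm_num) (by norm_num)
        have h3 := tri ha hg hfix (p := 12) (l := 16) (k := 11) (by norm_num) (by norm_num) h1 h2 (by decide +kernel) (bas F 24)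
        rw [crd_bas (by norm_num), dl, if_neg (by norm_num)] at h3
        exact (mul_eq_zero.1 h3.symm).resolve_left (mul_ne_zero (dg_ne ha hg hfix h1) (dg_ne ha hg hfix h2))
      · exact off1 ha hg hfix hj hl hjl (fun h => absurd h.1 (by norm_num)) (fun h => h11 h.2)
    · exact h0 hj h11 h24

theorem dgK {p : ℕ} (hp : p ∈ K9) : dg g p = 1 := by
  unfold dg
  rw [hfix p hp, crd_bas (K9_lt p hp), dl, if_pos rfl]

theorem dg3 {p l k : ℕ} (hp : p < 27) (hl : l < 27) (hk : k < 27) (h : sgl (Dl p l) k = true) :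
    dg g p * dg g l * dg g k = 1 := by
  have h1 := tri ha hg hfix hp hl (diag ha hg hfix hp) (diag ha hg hfix hl) h (bas F k)
  rw [crd_bas hk, dl, if_pos rfl] at h1
  exact h1.symm

end Torus

/-- the deduction of the exponents -/
def ckD : List (ℕ × ℕ × ℕ) → List ℕ → Bool
  | [], Kn => (List.range 27).all fun j => Kn.elem j
  | e :: L, Kn => Kn.elem e.1 && Kn.elem e.2.1 && Nat.blt e.1 27 && Nat.blt e.2.1 27 && Nat.blt e.2.2 27 &&
      sgl (Dl e.1 e.2.1) e.2.2 &&
      decide ((na e.1 + nb e.1) + (na e.2.1 + nb e.2.1) + (na e.2.2 + nb e.2.2) = 0) && ckD L (e.2.2 :: Kn)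

/-- the deduction -/
def ded : List (ℕ × ℕ × ℕ) := [(1,8,3),(1,5,6),(3,7,2),(1,18,12),(1,21,13),(2,18,15),(2,21,16),(3,9,19),(3,10,22),
  (6,9,20),(6,10,23),(9,13,17),(9,16,14),(12,16,11),(18,22,26),(18,23,25),(19,23,24)]

theorem ckDed : ckD ded (1 :: K9) = true := by decide +kernel

theorem ckD_sound {d : ℕ → F} {α : F} (hα : α ≠ 0)
    (H : ∀ {p l k : ℕ}, p < 27 → l < 27 → k < 27 → sgl (Dl p l) k = true → d p * d l * d k = 1) :
    ∀ (L : List (ℕ × ℕ × ℕ)) (Kn : List ℕ), ckD L Kn = true → (∀ j ∈ Kn, d j = α ^ (na j + nb j)) →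
      ∀ j < 27, d j = α ^ (na j + nb j) := by
  intro L
  induction L with
  | nil =>
    intro Kn h h1 j hj
    exact h1 j (List.elem_iff.1 (List.all_eq_true.1 h j (List.mem_range.2 hj)))
  | cons e L ih =>
    intro Kn h h1
    unfold ckD at h
    simp only [Bool.and_eq_true, List.elem_iff, decide_eq_true_eq, Nat.blt_eq] at h
    obtain ⟨⟨⟨⟨⟨⟨⟨c1, c2⟩, c3⟩, c4⟩, c5⟩, c6⟩, c7⟩, c8⟩ := h
    apply ih _ c8
    intro j hj
    rcases List.mem_cons.1 hj with rfl | hj
    · have h2 := H c3 c4 c5 c6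
      rw [h1 _ c1, h1 _ c2] at h2
      have h3 : α ^ (na e.1 + nb e.1) * α ^ (na e.2.1 + nb e.2.1) * α ^ (na e.2.2 + nb e.2.2) = 1 := by
        rw [← zpow_add₀ hα, ← zpow_add₀ hα, c7, zpow_zero]
      have h4 : α ^ (na e.1 + nb e.1) * α ^ (na e.2.1 + nb e.2.1) ≠ 0 :=
        mul_ne_zero (zpow_ne_zero _ hα) (zpow_ne_zero _ hα)
      exact mul_left_cancel₀ h4 (h2.trans h3.symm)
    · exact h1 j hj

/-! ### The torus -/

/-- torus elements -/
noncomputable def hh (r : ℕ) (t : F) : GL I27 F := ((chevE6.hWord r t).map fun p => XX F p.1 p.2).prod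

/-- the check of the torus elements -/
def ckH (r r' : ℕ) (e : ℕ → ℤ) : Bool := Nat.beq (chevE6.neg r) r' && Nat.blt r 72 && Nat.blt r' 72 && (List.range 27).all fun i => (List.range 27).all fun j =>
  decide (coef (mulS (EE r) (EE r')) i j = if i = j then (if e j = 1 then 1 else 0) else 0) &&
  decide (coef (mulS (EE r') (EE r)) i j = if i = j then (if e j = -1 then 1 else 0) else 0) &&
  decide (e j = 0 ∨ e j = 1 ∨ e j = -1)

theorem ckHa : ckH 22 49 na = true := by decide +kernel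
theorem ckHb : ckH 68 3 nb = true := by decide +kernel

theorem hh_act {r r' : ℕ} {e : ℕ → ℤ} (hck : ckH r r' e = true) {t : F} (ht : t ≠ 0) {j : ℕ} (hj : j < 27) :
    act (hh r t) (bas F j) = t ^ (e j) • bas F j := by
  unfold ckH at hck
  simp only [Bool.and_eq_true, Nat.blt_eq] at hck
  obtain ⟨⟨⟨c1, c2⟩, c3⟩, c4⟩ := hck
  have c1' := Nat.eq_of_beq_eq_true c1
  have hM : ((hh r t : GL I27 F) : Matrix I27 I27 F) = _ := repE6.X_h F (r := r) c2 ht
  rw [c1', repE6.M_mul, repE6.M_mul] at hM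
  unfold act bas
  rw [Matrix.mulVec_single_one]
  funext i
  rw [Matrix.col_apply, hM]
  have h := List.all_eq_true.1 (List.all_eq_true.1 c4 (code i) (List.mem_range.2 (code_lt i))) j (List.mem_range.2 hj)
  simp only [Bool.and_eq_true, decide_eq_true_eq] at h
  obtain ⟨⟨h1, h2⟩, h3⟩ := h
  simp only [Matrix.add_apply, Matrix.sub_apply, Matrix.smul_apply, ev_apply, code_dec hj, h1, h2, Pi.smul_apply,
    smul_eq_mul, Matrix.one_apply, Pi.single_apply]
  by_cases hij : i = dec j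
  · have : code i = j := by rw [hij, code_dec hj]
    rw [if_pos hij, if_pos this, if_pos this]
    rcases h3 with h3 | h3 | h3 <;> rw [h3] <;> simp
  · have : code i ≠ j := fun h => hij (by rw [← h, dec_code])
    rw [if_neg hij, if_neg this, if_neg this]
    simp

theorem hh_mem {H : Subgroup (GL I27 F)} (hH : ∀ (r : ℕ) (t : F), r < 72 → XX F r t ∈ H) {r r' : ℕ} {e : ℕ → ℤ}
    (_ : ckH r r' e = true) (t : F) : hh r t ∈ H := by
  apply Subgroup.list_prod_mem
  intro x hx
  obtain ⟨p, _, rfl⟩ := List.mem_map.1 hx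
  by_cases hp : p.1 < 72
  · exact hH _ _ hp
  · have : XX F p.1 p.2 = 1 := repE6.X_ge F (by show 72 ≤ p.1; omega) _
    rw [this]; exact H.one_mem

theorem torus_mem (ha : ∃ a : F, a ≠ 0 ∧ a ≠ 1) {H : Subgroup (GL I27 F)} (hH : ∀ (r : ℕ) (t : F), r < 72 → XX F r t ∈ H)
    {g : GL I27 F} (hg : g ∈ E6univ F) (hfix : fixP K9 g) : g ∈ H := by
  have hα : dg g 1 ≠ 0 := dg_ne ha hg hfix (diag ha hg hfix (by norm_num))
  have hd := ckD_sound (d := dg g) hα (fun hp hl hk h => dg3 ha hg hfix hp hl hk h) ded (1 :: K9) ckDed (by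
    intro j hj
    rcases List.mem_cons.1 hj with rfl | hj
    · have : na 1 + nb 1 = 1 := by decide
      rw [this, zpow_one]
    · have : ∀ j ∈ K9, na j + nb j = 0 := by decide
      rw [dgK ha hg hfix hj, this j hj, zpow_zero])
  have : g = hh 22 (dg g 1) * hh 68 (dg g 1) := by
    apply act_ext
    intro p hp
    rw [diag ha hg hfix hp, hd p hp, act_mul, hh_act ckHb hα hp, act_smul, hh_act ckHa hα hp, smul_smul,
      ← zpow_add₀ hα, add_comm]
  rw [this]
  exact H.mul_mem (hh_mem hH ckHa _) (hh_mem hH ckHb _)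

theorem univ_le (ha : ∃ a : F, a ≠ 0 ∧ a ≠ 1) {H : Subgroup (GL I27 F)} (hH : ∀ (r : ℕ) (t : F), r < 72 → XX F r t ∈ H)
    (hHU : H ≤ E6univ F) : E6univ F ≤ H := by
  intro g hg
  obtain ⟨h, hh, hf⟩ := chain ha hH hHU hg
  have h1 := torus_mem ha hH ((E6univ F).mul_mem (hHU hh) hg) hf
  have h2 := H.mul_mem (H.inv_mem hh) h1
  rwa [inv_mul_cancel_left] at h2

end Cfsg.Agent.H6.E6
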