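import Mathlib
import Cfsg.Agent.H6_E6h
import Cfsg.Agent.S1077
import Cfsg.Agent.S1054

/-!
The cubic form of type `E₆`: the comparison with the Chevalley group.
-/

set_option autoImplicit false
set_option linter.unusedSectionVars false
set_option maxRecDepth 100000

namespace Cfsg.Agent.H6.MR

/-- two quotients of a Steinberg group -/
theorem assemble {S G U : Type*} [Group S] [Group G] [Group U] [IsSimpleGroup G] (θ : S →* G) (hθ : Function.Surjective θ)
    (hker : θ.ker = Subgroup.center S) (f : S →* U) (hf : Function.Surjective f)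
    (hna : ∃ x y : U, x * y ≠ y * x) : Nonempty (U ⧸ Subgroup.center U ≃* G) := by
  let φ : S →* U ⧸ Subgroup.center U := (QuotientGroup.mk' _).comp f
  have hφ : Function.Surjective φ := (QuotientGroup.mk'_surjective _).comp hf
  have hφmem : ∀ s, s ∈ φ.ker ↔ f s ∈ Subgroup.center U := by
    intro s
    rw [MonoidHom.mem_ker]
    exact QuotientGroup.eq_one_iff _
  have hk : φ.ker = θ.ker := by
    apply le_antisymm
    · have hN : (φ.ker.map θ).Normal := Subgroup.Normal.map inferInstance θ hθ
      rcases hN.eq_bot_or_eq_top with h3 | h3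
      · intro s hs
        have : θ s ∈ φ.ker.map θ := ⟨s, hs, rfl⟩
        rw [h3] at this
        exact this
      · exfalso
        have htop : φ.ker = ⊤ := by
          rw [eq_top_iff]
          intro s _
          have h4 : θ s ∈ φ.ker.map θ := by rw [h3]; exact Subgroup.mem_top _
          obtain ⟨k, hk, hks⟩ := h4
          have h5 : k⁻¹ * s ∈ θ.ker := by
            rw [MonoidHom.mem_ker, map_mul, map_inv, hks, inv_mul_cancel]
          rw [hker] at h5
          have h6 : k⁻¹ * s ∈ φ.ker := by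
            rw [hφmem, Subgroup.mem_center_iff]
            intro y
            obtain ⟨y, rfl⟩ := hf y
            rw [← map_mul, ← map_mul, Subgroup.mem_center_iff.1 h5 y]
          have : s = k * (k⁻¹ * s) := by group
          rw [this]
          exact Subgroup.mul_mem _ hk h6
        obtain ⟨x, y, hxy⟩ := hna
        apply hxy
        obtain ⟨s, rfl⟩ := hf x
        have h7 : f s ∈ Subgroup.center U := by
          rw [← hφmem, htop]; exact Subgroup.mem_top _
        exact (Subgroup.mem_center_iff.1 h7 y).symm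
    · intro s hs
      rw [hker] at hs
      rw [hφmem, Subgroup.mem_center_iff]
      intro y
      obtain ⟨y, rfl⟩ := hf y
      rw [← map_mul, ← map_mul, Subgroup.mem_center_iff.1 hs y]
  exact ⟨(QuotientGroup.quotientKerEquivOfSurjective φ hφ).symm.trans
    ((QuotientGroup.quotientMulEquivOfEq hk).trans (QuotientGroup.quotientKerEquivOfSurjective θ hθ))⟩

end Cfsg.Agent.H6.MR

namespace Cfsg.Agent.H6.E6

open Cfsg.Lie
open Cfsg.Agent.H6.MR

variable {F : Type*} [Field F]

theorem e6_equiv (ha : ∃ a : F, a ≠ 0 ∧ a ≠ 1) : Nonempty (E6 F ≃* ↥(chevE6.group F)) := by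
  obtain ⟨θ, hθ, hker, _⟩ := Cfsg.Agent.S1077.result (K := F) Cfsg.Lie.chevE6 (by simp)
  have hs : IsSimpleGroup ↥(Cfsg.Lie.chevE6.group F) := (Cfsg.Agent.S1054.result (F := F) _ (by simp)).1
  obtain ⟨f, hf⟩ := repE6.exists_hom (F := F)
  have hHU : f.range ≤ E6univ F := by
    rw [MonoidHom.range_eq_map, ← Cfsg.Agent.H6.Chev.pres_top, MonoidHom.map_closure, Subgroup.closure_le]
    rintro _ ⟨_, ⟨r, t, hr, _, rfl⟩, rfl⟩
    rw [hf r t hr]
    exact XX_mem r t
  have hH : ∀ (r : ℕ) (t : F), r < 72 → XX F r t ∈ f.range := by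
    intro r t hr
    exact ⟨_, hf r t hr⟩
  have hUH := univ_le ha hH hHU
  let f1 : chevE6.SteinbergGroup F →* ↥(E6univ F) := f.codRestrict _ (fun s => hHU ⟨s, rfl⟩)
  have hf1 : Function.Surjective f1 := by
    rintro ⟨y, hy⟩
    obtain ⟨s, hs⟩ := hUH hy
    exact ⟨s, Subtype.ext hs⟩
  refine assemble θ hθ hker f1 hf1 ⟨⟨_, XX_mem 0 1⟩, ⟨_, XX_mem 71 1⟩, ?_⟩
  intro h
  have h' : XX F 0 1 * XX F 71 1 = XX F 71 1 * XX F 0 1 := congrArg Subtype.val h
  have h1 := congrArg (fun g => crd (act g (bas F 17)) 17) h'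
  have s1 : s1 (EE 0) 17 = [] := by decide +kernel
  have s2 : E6.s1 (EE 0) 1 = [(17, -1)] := by decide +kernel
  have s3 : E6.s1 (EE 71) 17 = [(1, -1)] := by decide +kernel
  simp only [act_mul, act_X, lin, s1, s2, s3, vl_nil, vl_cons, crd_bas (show 17 < 27 by norm_num), dl] at h1
  norm_num at h1
  have h2 : (1 : F) = 0 := by linear_combination -h1
  exact one_ne_zero h2

end Cfsg.Agent.H6.E6
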