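import Cfsg.Agent.H6_Ree3

/-!
The Ree groups `²G₂(q)` are generated by two elements.
-/

set_option autoImplicit false
set_option linter.unusedSectionVars false

namespace Cfsg.Agent.H6.Ree

open Subgroup

/-- an additive subgroup of a finite field closed under multiplication by more than half of the units is trivial or everything -/
theorem addSub_eq_top {K : Type*} [Field K] [Finite K] (A : AddSubgroup K) {f : Kˣ →* Kˣ} (hf : ∀ s, f s = 1 → s = 1 ∨ s = -1)
    (hA : ∀ s, ∀ a ∈ A, (f s : K) * a ∈ A) {a : K} (ha : a ∈ A) (ha0 : a ≠ 0) : A = ⊤ := by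
  classical
  have : Fintype K := Fintype.ofFinite K
  let S : AddSubgroup K :=
    { carrier := {r | ∀ a ∈ A, r * a ∈ A}
      zero_mem' := by intro a _; rw [zero_mul]; exact zero_mem _
      add_mem' := by intro r r' hr hr' a ha; rw [add_mul]; exact add_mem (hr a ha) (hr' a ha)
      neg_mem' := by intro r hr a ha; rw [neg_mul]; exact neg_mem (hr a ha) }
  have hS : ∀ r, r ∈ S ↔ ∀ a ∈ A, r * a ∈ A := fun _ => Iff.rfl
  -- the image of `f` is large
  have hker : Nat.card f.ker ≤ 2 := by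
    have h1 : (f.ker : Set Kˣ) ⊆ {1, -1} := by
      intro s hs
      rcases hf s hs with h | h
      · left; exact h
      · right; exact h
    have h2 : Nat.card f.ker = (f.ker : Set Kˣ).ncard := rfl
    rw [h2]
    exact (Set.ncard_le_ncard h1 (Set.toFinite _)).trans (by
      exact (Set.ncard_insert_le _ _).trans (by rw [Set.ncard_singleton]))
  have hrange : Nat.card Kˣ ≤ 2 * Nat.card f.range := by
    have h1 := Subgroup.card_mul_index f.ker
    rw [Subgroup.index_ker] at h1
    rw [← h1]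
    exact Nat.mul_le_mul_right _ hker
  have hcardS : Nat.card f.range + 1 ≤ Nat.card S := by
    have hinj : Function.Injective (fun x : Option f.range => (match x with
      | none => ⟨0, S.zero_mem⟩
      | some y => ⟨((y : Kˣ) : K), by
          obtain ⟨s, hs⟩ := y.2
          rw [← hs]; exact hA s⟩ : S)) := by
      rintro (_ | x) (_ | y) h
      · rfl
      · exact absurd (congrArg Subtype.val h).symm (Units.ne_zero _)
      · exact absurd (congrArg Subtype.val h) (Units.ne_zero _)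
      · have : ((x : Kˣ) : K) = ((y : Kˣ) : K) := congrArg Subtype.val h
        rw [Subtype.ext (Units.ext this)]
    have := Nat.card_le_card_of_injective _ hinj
    rwa [Finite.card_option] at this
  have hK : Nat.card K = Nat.card Kˣ + 1 := by
    rw [Nat.card_eq_fintype_card, Nat.card_eq_fintype_card, Fintype.card_units]
    have := Fintype.card_pos (α := K)
    omega
  have htop : S = ⊤ := by
    have h1 := S.card_mul_index
    have h2 : 0 < S.index := Nat.pos_of_ne_zero S.index_ne_zero_of_finite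
    have h3 : S.index = 1 := by
      by_contra h
      have h4 : 2 ≤ S.index := by omega
      have h5 : Nat.card S * 2 ≤ Nat.card S * S.index := Nat.mul_le_mul_left _ h4
      omega
    exact AddSubgroup.index_eq_one.1 h3
  rw [eq_top_iff]
  intro x _
  have h1 : x * a⁻¹ ∈ S := by rw [htop]; trivial
  have := (hS _).1 h1 a ha
  rwa [inv_mul_cancel_right₀ ha0] at this

namespace RG

variable {K : Type*} [Field K] [Finite K] {G : Type*} [Group G] (R : RG K G)

include R

theorem two_gen (hne : ∃ t : K, R.φ t ^ 3 ≠ t) : ∃ a b : G, Subgroup.closure ({a, b} : Set G) = ⊤ := by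
  classical
  obtain ⟨κ, hκ⟩ := IsCyclic.exists_generator (α := Kˣ)
  refine ⟨R.h κ, R.w 1 0 0 * R.n, ?_⟩
  set M := Subgroup.closure ({R.h κ, R.w 1 0 0 * R.n} : Set G) with hM
  have ha : R.h κ ∈ M := Subgroup.subset_closure (by simp)
  have hb : R.w 1 0 0 * R.n ∈ M := Subgroup.subset_closure (by simp)
  have hH : ∀ s, R.h s ∈ M := by
    intro s
    obtain ⟨i, hi⟩ := hκ s
    rw [← hi]
    change R.h (κ ^ i) ∈ M
    rw [map_zpow]
    exact zpow_mem ha i
  have hs0 : ∀ s : Kˣ, (s : K) ≠ 0 := fun s => Units.ne_zero s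
  have hφs : ∀ s : Kˣ, R.φ (s : K) ≠ 0 := fun s => (map_ne_zero R.φ).2 (hs0 s)
  -- the three levels
  let A2 : AddSubgroup K :=
    { carrier := {t | ∃ u v, R.w t u v ∈ M}
      zero_mem' := ⟨0, 0, by rw [R.w_zero]; exact one_mem _⟩
      add_mem' := by
        rintro t t' ⟨u, v, h⟩ ⟨u', v', h'⟩
        have := mul_mem h h'
        rw [R.wmul] at this
        exact ⟨_, _, this⟩
      neg_mem' := by
        rintro t ⟨u, v, h⟩
        have := inv_mem h
        rw [R.w_inv] at this
        exact ⟨_, _, this⟩ }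
  let A1 : AddSubgroup K :=
    { carrier := {u | ∃ v, R.w 0 u v ∈ M}
      zero_mem' := ⟨0, by rw [R.w_zero]; exact one_mem _⟩
      add_mem' := by
        rintro u u' ⟨v, h⟩ ⟨v', h'⟩
        have := mul_mem h h'
        rw [R.w_mul0] at this
        exact ⟨_, this⟩
      neg_mem' := by
        rintro u ⟨v, h⟩
        have := inv_mem h
        rw [R.w_inv] at this
        simp only [neg_zero, map_zero, mul_zero, zero_mul, sub_zero, ne_eq, OfNat.ofNat_ne_zero, not_false_eq_true, zero_pow] at this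
        exact ⟨_, this⟩ }
  let A0 : AddSubgroup K :=
    { carrier := {v | R.w 0 0 v ∈ M}
      zero_mem' := by
        change R.w 0 0 0 ∈ M
        rw [R.w_zero]; exact one_mem _
      add_mem' := by
        intro v v' h h'
        have := mul_mem (show R.w 0 0 v ∈ M from h) (show R.w 0 0 v' ∈ M from h')
        rw [R.w_mul0, add_zero] at this
        exact this
      neg_mem' := by
        intro v h
        have := inv_mem (show R.w 0 0 v ∈ M from h)
        rw [R.w_inv] at this
        simp only [neg_zero, map_zero, mul_zero, sub_zero, ne_eq, OfNat.ofNat_ne_zero, not_false_eq_true, zero_pow] at this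
        exact this }
  have hconj : ∀ (s : Kˣ) (t u v : K), R.w t u v ∈ M → R.w ((s : K) ^ 2 * (R.φ s ^ 3)⁻¹ * t) (R.φ s ^ 3 * (s : K)⁻¹ * u) (s * v) ∈ M := by
    intro s t u v h
    rw [← R.hw]
    exact mul_mem (mul_mem (hH s) h) (inv_mem (hH s))
  -- the first level
  let f2 : Kˣ →* Kˣ :=
    { toFun := fun s => s ^ 2 * ((Units.map (R.φ : K →* K) s) ^ 3)⁻¹
      map_one' := by simp
      map_mul' := fun s s' => by rw [map_mul, mul_pow, mul_pow, mul_inv]; exact mul_mul_mul_comm _ _ _ _ }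
  have e2 : ∀ s, ((f2 s : Kˣ) : K) = (s : K) ^ 2 * (R.φ s ^ 3)⁻¹ := by
    intro s
    change (((s ^ 2 * ((Units.map (R.φ : K →* K) s) ^ 3)⁻¹ : Kˣ)) : K) = _
    push_cast
    rfl
  have hA2 : A2 = ⊤ := by
    -- an element of `U ∩ M`
    have h1 : R.h κ * ((R.w 1 0 0 * R.n) * R.h κ * (R.w 1 0 0 * R.n)⁻¹) ∈ M :=
      mul_mem ha (mul_mem (mul_mem hb ha) (inv_mem hb))
    have h2 : R.h κ * ((R.w 1 0 0 * R.n) * R.h κ * (R.w 1 0 0 * R.n)⁻¹) =
        (R.h κ * R.w 1 0 0 * (R.h κ)⁻¹) * (R.w 1 0 0)⁻¹ := by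
      have e : (R.w 1 0 0 * R.n) * R.h κ * (R.w 1 0 0 * R.n)⁻¹ = R.w 1 0 0 * (R.n * R.h κ * R.n⁻¹) * (R.w 1 0 0)⁻¹ := by group
      rw [e, R.nh]; group
    rw [h2, R.hw, R.w_inv, R.wmul] at h1
    have hmem : (κ : K) ^ 2 * (R.φ κ ^ 3)⁻¹ * 1 + -1 ∈ A2 := ⟨_, _, h1⟩
    have hne' : (κ : K) ^ 2 * (R.φ κ ^ 3)⁻¹ * 1 + -1 ≠ 0 := by
      intro h
      obtain ⟨t, ht⟩ := hne
      have ht0 : t ≠ 0 := by rintro rfl; apply ht; rw [map_zero]; ring
      have ht1 : t ≠ 1 := by rintro rfl; apply ht; rw [map_one, one_pow]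
      have h5 : (κ : K) ^ 2 = R.φ κ ^ 3 := by
        have h6 : (κ : K) ^ 2 * (R.φ κ ^ 3)⁻¹ = 1 := by linear_combination h
        have := hφs κ
        field_simp at h6
        exact h6
      have h7 : κ = 1 := Units.ext (R.s1 (hs0 κ) h5)
      obtain ⟨i, hi⟩ := hκ (Units.mk0 t ht0)
      apply ht1
      have h8 : (κ ^ i : Kˣ) = Units.mk0 t ht0 := hi
      rw [h7, one_zpow] at h8
      exact (congrArg Units.val h8).symm
    refine addSub_eq_top A2 (f := f2) (fun s hs => Or.inl ?_) ?_ hmem hne'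
    · have h5 := congrArg Units.val hs
      rw [e2, Units.val_one] at h5
      have h6 : (s : K) ^ 2 = R.φ s ^ 3 := by
        field_simp at h5
        exact h5
      exact Units.ext (R.s1 (hs0 s) h6)
    · rintro s t ⟨u, v, h⟩
      rw [e2]
      exact ⟨_, _, hconj s t u v h⟩
  have t2 : ∀ t, ∃ u v, R.w t u v ∈ M := fun t => by
    have : t ∈ A2 := by rw [hA2]; trivial
    exact this
  -- the second level
  let f1 : Kˣ →* Kˣ :=
    { toFun := fun s => (Units.map (R.φ : K →* K) s) ^ 3 * s⁻¹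
      map_one' := by simp
      map_mul' := fun s s' => by rw [map_mul, mul_pow, mul_inv]; exact mul_mul_mul_comm _ _ _ _ }
  have e1 : ∀ s, ((f1 s : Kˣ) : K) = R.φ s ^ 3 * (s : K)⁻¹ := by
    intro s
    change ((((Units.map (R.φ : K →* K) s) ^ 3 * s⁻¹ : Kˣ)) : K) = _
    push_cast
    rfl
  have hcom : ∀ t u v t' u' v', ∃ w, R.w t u v * R.w t' u' v' = R.w t' u' v' * R.w t u v * R.w 0 (R.φ t ^ 3 * t' - R.φ t' ^ 3 * t) w := by
    intro t u v t' u' v'
    refine ⟨(v + v' - t' * u + R.φ t' ^ 3 * t * t' - R.φ t' ^ 3 * t ^ 2) - (v' + v - t * u' + R.φ t ^ 3 * t' * t - R.φ t ^ 3 * t' ^ 2), ?_⟩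
    rw [R.wmul, R.wmul, R.wmul]
    congr 1
    · ring
    · simp only [map_zero]; ring
    · simp only [map_zero]; ring
  have hA1 : A1 = ⊤ := by
    obtain ⟨t, ht⟩ := hne
    obtain ⟨u, v, h⟩ := t2 t
    obtain ⟨u', v', h'⟩ := t2 1
    obtain ⟨w, hw⟩ := hcom t u v 1 u' v'
    have hmem : R.φ t ^ 3 * 1 - R.φ 1 ^ 3 * t ∈ A1 := by
      refine ⟨w, ?_⟩
      have e : R.w 0 (R.φ t ^ 3 * 1 - R.φ 1 ^ 3 * t) w = (R.w 1 u' v' * R.w t u v)⁻¹ * (R.w t u v * R.w 1 u' v') := by
        rw [hw, inv_mul_cancel_left]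
      rw [e]
      exact mul_mem (inv_mem (mul_mem h' h)) (mul_mem h h')
    refine addSub_eq_top A1 (f := f1) (fun s hs => ?_) ?_ hmem ?_
    · have h5 := congrArg Units.val hs
      rw [e1, Units.val_one] at h5
      have h6 : R.φ s ^ 3 = (s : K) := by
        have := hs0 s
        field_simp at h5
        exact h5
      rcases R.s2 (hs0 s) h6 with h7 | h7
      · exact Or.inl (Units.ext h7)
      · exact Or.inr (Units.ext (by rw [h7]; simp))
    · rintro s u ⟨v, h⟩
      rw [e1]
      have := hconj s 0 u v h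
      rw [mul_zero] at this
      exact ⟨_, this⟩
    · intro h0
      apply ht
      rw [map_one] at h0
      linear_combination h0
  have t1 : ∀ u, ∃ v, R.w 0 u v ∈ M := fun u => by
    have : u ∈ A1 := by rw [hA1]; trivial
    exact this
  have hA0 : A0 = ⊤ := by
    obtain ⟨u, v, h⟩ := t2 1
    obtain ⟨c, hc⟩ := t1 1
    have hmem : (1 : K) ∈ A0 := by
      change R.w 0 0 1 ∈ M
      have e : R.w 1 u v * R.w 0 1 c = R.w 0 1 c * R.w 1 u v * R.w 0 0 1 := by
        rw [R.wmul, R.wmul, R.wmul]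
        congr 1
        · ring
        · simp only [map_zero]; ring
        · simp only [map_zero, map_one]; ring
      have e' : R.w 0 0 1 = (R.w 0 1 c * R.w 1 u v)⁻¹ * (R.w 1 u v * R.w 0 1 c) := by
        rw [e, inv_mul_cancel_left]
      rw [e']
      exact mul_mem (inv_mem (mul_mem hc h)) (mul_mem h hc)
    refine addSub_eq_top A0 (f := MonoidHom.id Kˣ) (fun s hs => Or.inl hs) ?_ hmem one_ne_zero
    intro s v h
    have := hconj s 0 0 v h
    rw [mul_zero, mul_zero] at this
    exact this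
  have t0 : ∀ v, R.w 0 0 v ∈ M := fun v => by
    have : v ∈ A0 := by rw [hA0]; trivial
    exact this
  have t1' : ∀ u v, R.w 0 u v ∈ M := by
    intro u v
    obtain ⟨v', h⟩ := t1 u
    have : R.w 0 u v = R.w 0 u v' * R.w 0 0 (v - v') := by
      rw [R.w_mul0]; congr 1 <;> ring
    rw [this]
    exact mul_mem h (t0 _)
  have t2' : ∀ t u v, R.w t u v ∈ M := by
    intro t u v
    obtain ⟨u', v', h⟩ := t2 t
    rw [R.w_mul_uv] at h ⊢
    have h0 : R.w t 0 0 ∈ M := by
      have : R.w t 0 0 = R.w t 0 0 * R.w 0 u' v' * (R.w 0 u' v')⁻¹ := by group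
      rw [this]
      exact mul_mem h (inv_mem (t1' _ _))
    exact mul_mem h0 (t1' _ _)
  have hn : R.n ∈ M := by
    have : R.n = (R.w 1 0 0)⁻¹ * (R.w 1 0 0 * R.n) := by group
    rw [this]
    exact mul_mem (inv_mem (t2' _ _ _)) hb
  rw [eq_top_iff]
  intro g _
  rcases R.cov g with ⟨t, u, v, s, h⟩ | ⟨t, u, v, s, t', u', v', h⟩
  · rw [h]; exact mul_mem (t2' _ _ _) (hH _)
  · rw [h]; exact mul_mem (mul_mem (mul_mem (t2' _ _ _) (hH _)) hn) (t2' _ _ _)

end RG

end Cfsg.Agent.H6.Ree
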