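import Cfsg.Agent.H6_TO7
import Cfsg.Agent.H6_Gen1
import Cfsg.Agent.H6_TwPf

/-!
Generation by two elements: general lemmas.
-/

set_option autoImplicit false
set_option linter.unusedSectionVars false
set_option maxRecDepth 100000

namespace Cfsg.Agent.H6.Gen

open Subgroup

theorem split_comm {G : Type*} [Group G] {x y : G} (hxy : x * y = y * x) {m n : ℕ} (hx : x ^ m = 1) (hy : y ^ n = 1)
    (hmn : Nat.Coprime m n) {M : Subgroup G} (hM : x * y ∈ M) : x ∈ M ∧ y ∈ M := by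
  have hc : Commute x y := hxy
  have key : ∀ {x y : G} {m n : ℕ}, Commute x y → x ^ m = 1 → y ^ n = 1 → Nat.Coprime m n → x * y ∈ M → x ∈ M := by
    intro x y m n hc hx hy hmn hM
    have h1 : x ^ n ∈ M := by
      have : (x * y) ^ n = x ^ n := by rw [hc.mul_pow, hy, mul_one]
      rw [← this]; exact pow_mem hM n
    have h2 := Nat.gcd_eq_gcd_ab m n
    rw [hmn] at h2
    have h3 : x = (x ^ n) ^ (Nat.gcdB m n) := by
      have h4 : x ^ ((1 : ℕ) : ℤ) = x := by simp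
      conv_lhs => rw [← h4, h2]
      rw [zpow_add, zpow_mul, zpow_mul, zpow_natCast, zpow_natCast, hx, one_zpow, one_mul]
    rw [h3]
    exact zpow_mem h1 _
  refine ⟨key hc hx hy hmn hM, key hc.symm hy hx hmn.symm ?_⟩
  rw [← hxy]; exact hM

theorem two_gen_of {Γ : Type*} [Group Γ] (G : Subgroup Γ) (a b : Γ) (ha : a ∈ G) (hb : b ∈ G)
    (h : G ≤ Subgroup.closure {a, b}) : ∃ a b : ↥G, Subgroup.closure ({a, b} : Set ↥G) = ⊤ := by
  refine ⟨⟨a, ha⟩, ⟨b, hb⟩, ?_⟩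
  rw [eq_top_iff]
  intro x _
  have h1 : (x : Γ) ∈ (Subgroup.closure ({⟨a, ha⟩, ⟨b, hb⟩} : Set ↥G)).map G.subtype := by
    rw [MonoidHom.map_closure, Set.image_pair]
    exact h x.2
  obtain ⟨y, hy, hyx⟩ := h1
  have : y = x := Subtype.ext hyx
  rwa [this] at hy

end Cfsg.Agent.H6.Gen

namespace Cfsg.Agent.H6.Chev

open Cfsg Cfsg.Lie Cfsg.Lie.ChevalleyDatum

namespace Model

variable {D : ChevalleyDatum} (m : Model D) {F : Type*} [Field F]

theorem nl_dm (l : List (Fin D.rank)) (c : ℕ → Fˣ) : ∃ c', m.nl F l * m.dmHom c = m.dmHom c' * m.nl F l ∧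
    ∀ r : Fin D.nroots, m.chi c' r = m.chi c (((m.wl l)⁻¹ r : Fin D.nroots) : ℕ) := by
  induction l with
  | nil => exact ⟨c, by simp, fun r => rfl⟩
  | cons a l ih =>
    obtain ⟨c', h1, h2⟩ := ih
    refine ⟨m.refC c' a, ?_, fun r => ?_⟩
    · rw [nl_cons, mul_assoc, h1, ← mul_assoc, m.n_dm c' a.2, mul_assoc]
    · rw [m.chi_refC c' a.2 r.2, ← m.coe_sr, h2, wl_cons, mul_inv_rev, Equiv.Perm.mul_apply, m.sr_inv]

theorem nl_hT_inv (l : List (Fin D.rank)) (h : ∀ r, m.wl l r = m.ng r) (b : Fin D.rank → Fˣ) :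
    m.nl F l * m.hT F b * (m.nl F l)⁻¹ = (m.hT F b)⁻¹ := by
  rw [m.hT_eq]
  set c := hC D (ext1 D F b)
  obtain ⟨c', h1, h2⟩ := m.nl_dm l c
  have h3 : m.dmHom c' = (m.dmHom c)⁻¹ := by
    rw [← map_inv]
    apply m.dm_congr
    intro j hj
    have h4 := h2 (m.p ⟨j, hj⟩)
    have h5 : (m.wl l)⁻¹ (m.p ⟨j, hj⟩) = m.ng (m.p ⟨j, hj⟩) := by
      rw [Equiv.Perm.inv_eq_iff_eq, h, m.ng_ng]
    rw [h5, m.coe_ng, m.chi_neg c (m.p ⟨j, hj⟩).2, m.coe_p, m.chi_simple c' hj, m.chi_simple c hj] at h4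
    exact h4
  rw [h1, mul_inv_cancel_right, h3]

/-- signs -/
def sgw (m : Model D) : List (Fin D.rank) → Fin D.nroots → ℤ
  | [], _ => 1
  | i :: l, r => m.eta i (m.wl l r) * sgw m l r

theorem nl_Xs (l : List (Fin D.rank)) (r : Fin D.nroots) (t : F) :
    m.nl F l * m.X r t = m.X (m.wl l r) (((m.sgw l r : ℤ) : F) * t) * m.nl F l := by
  induction l with
  | nil => simp [sgw]
  | cons a l ih =>
    rw [nl_cons, mul_assoc, ih, ← mul_assoc, m.n_X a.2 (m.wl l r).2, wl_cons, Equiv.Perm.mul_apply, m.coe_sr, mul_assoc]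
    congr 2
    rw [sgw]
    push_cast
    ring

theorem nl_Xs' (l : List (Fin D.rank)) (r : Fin D.nroots) (t : F) :
    m.nl F l * m.X r t * (m.nl F l)⁻¹ = m.X (m.wl l r) (((m.sgw l r : ℤ) : F) * t) := by
  rw [m.nl_Xs, mul_inv_cancel_right]

end Model

namespace Tab

variable (t : Tab)

/-- signs from the table -/
def sgw : List ℕ → ℕ → ℤ
  | [], _ => 1
  | i :: l, r => t.e i (t.pw l r) * sgw l r

variable {t}

theorem sgw_eq {D : ChevalleyDatum} (m : Model D) (b : t.Base D) (ck : t.Checks D) (hm : m.eta = t.e) (l : List (Fin D.rank))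
    (s : Fin D.nroots) : m.sgw l s = t.sgw (l.map Fin.val) s := by
  induction l with
  | nil => rfl
  | cons a l ih =>
    change m.eta a (m.wl l s) * m.sgw l s = t.e a (t.pw (l.map Fin.val) s) * t.sgw (l.map Fin.val) s
    rw [ih, pw_eq m b ck, hm]

theorem nl_act {D : ChevalleyDatum} (m : Model D) (b : t.Base D) (ck : t.Checks D) (hm : m.eta = t.e) {F : Type*} [Field F]
    (l : List (Fin D.rank)) {r r' : ℕ} {e : ℤ}
    (h : (Nat.blt r t.n && (Nat.beq (t.pw (l.map Fin.val) r) r' && intEq (t.sgw (l.map Fin.val) r) e)) = true) (x : F) :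
    m.nl F l * m.X r x * (m.nl F l)⁻¹ = m.X r' ((e : F) * x) := by
  simp only [Bool.and_eq_true] at h
  obtain ⟨q1, q2, q3⟩ := h
  have hn := b.nroots
  have hr : r < D.nroots := by have := Nat.le_of_ble_eq_true q1; omega
  have h1 := m.nl_Xs' l ⟨r, hr⟩ x
  rw [sgw_eq m b ck hm, pw_eq m b ck, intEq_iff q3] at h1
  change m.nl F l * m.X r x * (m.nl F l)⁻¹ = m.X (t.pw (l.map Fin.val) r) _ at h1
  rw [h1, Nat.eq_of_beq_eq_true q2]

theorem wl_neg {D : ChevalleyDatum} (m : Model D) (b : t.Base D) (ck : t.Checks D) (l : List (Fin D.rank))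
    (h : (allNat t.n fun r => Nat.beq (t.pw (l.map Fin.val) r) (t.n - 1 - r)) = true) (r : Fin D.nroots) :
    m.wl l r = m.ng r := by
  have hn := b.nroots
  apply Fin.ext
  rw [pw_eq m b ck, Nat.eq_of_beq_eq_true (allNat_iff h r (by omega)), m.coe_ng, b.neg_eq (by omega)]

end Tab

end Cfsg.Agent.H6.Chev
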