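import Cfsg.Agent.H6_Gen2

/-!
The groups `³D₄(q)` are generated by two elements.
-/

set_option autoImplicit false
set_option linter.unusedSectionVars false
set_option maxRecDepth 100000

namespace Cfsg.Agent.H6.Chev

open Cfsg Cfsg.Lie Cfsg.Lie.ChevalleyDatum

section D4

variable {K : Type*} [Field K] (φ : K ≃+* K) {q : ℕ}

/-- the torus used for generation -/
def gB : Kˣ →* (Fin 4 → Kˣ) where
  toFun s := ![s * Units.map (φ : K →* K) (Units.map (φ : K →* K) s),
    s * Units.map (φ : K →* K) s * Units.map (φ : K →* K) (Units.map (φ : K →* K) s),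
    Units.map (φ : K →* K) s * s, Units.map (φ : K →* K) (Units.map (φ : K →* K) s) * Units.map (φ : K →* K) s]
  map_one' := by
    funext k
    fin_cases k <;> simp
  map_mul' s s' := by
    funext k
    apply Units.ext
    fin_cases k
    · change ((s : K) * s') * φ (φ ((s : K) * s')) = ((s : K) * φ (φ s)) * (s' * φ (φ s'))
      rw [map_mul, map_mul]; ring
    · change ((s : K) * s') * φ ((s : K) * s') * φ (φ ((s : K) * s')) = ((s : K) * φ s * φ (φ s)) * (s' * φ s' * φ (φ s'))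
      rw [map_mul, map_mul]; ring
    · change φ ((s : K) * s') * ((s : K) * s') = (φ (s : K) * s) * (φ (s' : K) * s')
      rw [map_mul]; ring
    · change φ (φ ((s : K) * s')) * φ ((s : K) * s') = (φ (φ (s : K)) * φ s) * (φ (φ (s' : K)) * φ s')
      rw [map_mul, map_mul]; ring

/-- the character -/
def gχ : Kˣ →* Kˣ where
  toFun s := s * Units.map (φ : K →* K) (Units.map (φ : K →* K) s) * (Units.map (φ : K →* K) s)⁻¹
  map_one' := by simp
  map_mul' s s' := by
    rw [map_mul, map_mul, mul_inv]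
    ac_rfl

theorem gχ_coe (s : Kˣ) : ((gχ φ s : Kˣ) : K) = s * φ (φ s) * (φ s)⁻¹ := by
  change (((s * Units.map (φ : K →* K) (Units.map (φ : K →* K) s) * (Units.map (φ : K →* K) s)⁻¹ : Kˣ)) : K) = _
  push_cast
  rfl

variable (hφ3 : ∀ x : K, φ (φ (φ x)) = x)

include hφ3

theorem gχ_ker (s : Kˣ) (h : gχ φ s = 1) : s = 1 ∨ s = -1 := by
  have h1 := congrArg Units.val h
  rw [gχ_coe, Units.val_one] at h1
  have hs : (s : K) ≠ 0 := Units.ne_zero s
  have hs1 : φ (s : K) ≠ 0 := (map_ne_zero φ).2 hs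
  have h2 : (s : K) * φ (φ s) = φ s := by field_simp at h1; exact h1
  have h3 : φ (s : K) * s = φ (φ s) := by
    have := congrArg φ h2
    rw [map_mul, hφ3] at this
    exact this
  rw [← h3] at h2
  have h4 : (s : K) * s = 1 := by
    have : φ (s : K) * ((s : K) * s) = φ (s : K) * 1 := by linear_combination h2
    exact mul_left_cancel₀ hs1 this
  rcases mul_self_eq_one_iff.1 h4 with h5 | h5
  · exact Or.inl (Units.ext h5)
  · exact Or.inr (Units.ext (by rw [h5]; simp))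

theorem gB_Tf (s : Kˣ) : gB φ s ∈ (twD4 φ).Tf := by
  refine (d4_Tf φ (b := gB φ s)).2 ⟨?_, ?_, ?_, ?_⟩
  · change φ (s : K) * s = φ ((s : K) * φ (φ s))
    rw [map_mul, hφ3]
  · change (s : K) * φ s * φ (φ s) = φ ((s : K) * φ s * φ (φ s))
    rw [map_mul, map_mul, hφ3]; ring
  · change φ (φ (s : K)) * φ s = φ (φ (s : K) * s)
    rw [map_mul]
  · change (s : K) * φ (φ s) = φ (φ (φ (s : K)) * φ s)
    rw [map_mul, hφ3]

omit hφ3 in
theorem gB_X (s : Kˣ) : (∀ y : K, modelD4.hT K (gB φ s) * modelD4.X 14 y * (modelD4.hT K (gB φ s))⁻¹ = modelD4.X 14 y) ∧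
    (∀ y : K, modelD4.hT K (gB φ s) * modelD4.X 18 y * (modelD4.hT K (gB φ s))⁻¹ = modelD4.X 18 ((gχ φ s : Kˣ) * y)) ∧
    (∀ y : K, modelD4.hT K (gB φ s) * modelD4.X 13 y * (modelD4.hT K (gB φ s))⁻¹ =
      modelD4.X 13 ((s : K) * φ s * (φ (φ s))⁻¹ * y)) ∧
    (∀ y : K, modelD4.hT K (gB φ s) * modelD4.X 12 y * (modelD4.hT K (gB φ s))⁻¹ =
      modelD4.X 12 (φ s * φ (φ s) * (s : K)⁻¹ * y)) := by
  have hs0 : chevD4.simple 0 = 18 := baseD4.simple_eq (i := 0) (by decide)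
  have hs1 : chevD4.simple 1 = 14 := baseD4.simple_eq (i := 1) (by decide)
  have hs2 : chevD4.simple 2 = 13 := baseD4.simple_eq (i := 2) (by decide)
  have hs3 : chevD4.simple 3 = 12 := baseD4.simple_eq (i := 3) (by decide)
  have hX : ∀ (j : Fin 4) (y : K), modelD4.hT K (gB φ s) * modelD4.X (chevD4.simple j) y * (modelD4.hT K (gB φ s))⁻¹ =
      modelD4.X (chevD4.simple j) (((∏ k : Fin 4, gB φ s k ^ mt cmD4 k j : Kˣ) : K) * y) :=
    fun j y => hT_X' modelD4 baseD4 checksD4 cmD4 (by decide +kernel) (gB φ s) j y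
  have e0 : ((gB φ s 0 : Kˣ) : K) = s * φ (φ s) := rfl
  have e1 : ((gB φ s 1 : Kˣ) : K) = s * φ s * φ (φ s) := rfl
  have e2 : ((gB φ s 2 : Kˣ) : K) = φ s * s := rfl
  have e3 : ((gB φ s 3 : Kˣ) : K) = φ (φ s) * φ s := rfl
  have hs : (s : K) ≠ 0 := Units.ne_zero s
  have hs1' : φ (s : K) ≠ 0 := (map_ne_zero φ).2 hs
  have hs2' : φ (φ (s : K)) ≠ 0 := (map_ne_zero φ).2 hs1'
  refine ⟨fun y => ?_, fun y => ?_, fun y => ?_, fun y => ?_⟩
  · have := hX 1 y
    simp only [Fin.prod_univ_four, cmD4, mt] at this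
    simp at this
    rw [hs1, e0, e1, e2, e3] at this
    refine this.trans ?_
    congr 1
    field_simp
  · have := hX 0 y
    simp only [Fin.prod_univ_four, cmD4, mt] at this
    simp at this
    rw [hs0, e0, e1] at this
    refine this.trans ?_
    rw [gχ_coe]
    congr 1
    field_simp
  · have := hX 2 y
    simp only [Fin.prod_univ_four, cmD4, mt] at this
    simp at this
    rw [hs2, e1, e2] at this
    refine this.trans ?_
    congr 1
    field_simp
  · have := hX 3 y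
    simp only [Fin.prod_univ_four, cmD4, mt] at this
    simp at this
    rw [hs3, e1, e3] at this
    refine this.trans ?_
    congr 1
    field_simp

/-- action on the twisted root subgroup -/
theorem gB_U (s : Kˣ) (t : K) : modelD4.hT K (gB φ s) * (d4R1 φ).X t * (modelD4.hT K (gB φ s))⁻¹ =
    (d4R1 φ).X ((gχ φ s : Kˣ) * t) := by
  obtain ⟨-, h0, h2, h3⟩ := gB_X φ s
  have e : ∀ h a b c : GL chevD4.Idx K, h * (a * (b * c)) * h⁻¹ = (h * a * h⁻¹) * ((h * b * h⁻¹) * (h * c * h⁻¹)) := by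
    intro h a b c; group
  rw [d4R1_X, d4R1_X, e, h0, h2, h3]
  have e1 : φ (((gχ φ s : Kˣ) : K) * t) = (s : K) * φ s * (φ (φ s))⁻¹ * φ t := by
    rw [gχ_coe, map_mul, map_mul, map_mul, hφ3, map_inv₀]; ring
  have e2 : φ ((s : K) * φ s * (φ (φ s))⁻¹ * φ t) = φ s * φ (φ s) * (s : K)⁻¹ * φ (φ t) := by
    rw [map_mul, map_mul, map_mul, map_inv₀, hφ3]
  rw [e1, e2]

/-! ### generation -/

omit hφ3 in
theorem d4_rk_lt (k : Fin 4) : (k : ℕ) < chevD4.rank := k.2

/-- the longest word -/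
def gW : List (Fin chevD4.rank) :=
  let f : Fin 4 → Fin chevD4.rank := fun k => ⟨k, d4_rk_lt k⟩
  [f 0, f 2, f 3, f 1, f 0, f 2, f 3, f 1, f 0, f 2, f 3, f 1]

omit hφ3 in
theorem gW_neg (r : Fin chevD4.nroots) : modelD4.wl gW r = modelD4.ng r :=
  Tab.wl_neg modelD4 baseD4 checksD4 gW (by decide +kernel) r

omit hφ3 in
theorem gW_X : (∀ x : K, modelD4.nl K gW * modelD4.X 18 x * (modelD4.nl K gW)⁻¹ = modelD4.X 5 (-x)) ∧
    (∀ x : K, modelD4.nl K gW * modelD4.X 13 x * (modelD4.nl K gW)⁻¹ = modelD4.X 10 (-x)) ∧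
    (∀ x : K, modelD4.nl K gW * modelD4.X 12 x * (modelD4.nl K gW)⁻¹ = modelD4.X 11 (-x)) ∧
    (∀ x : K, modelD4.nl K gW * modelD4.X 14 x * (modelD4.nl K gW)⁻¹ = modelD4.X 9 (-x)) := by
  have h : ∀ {r r' : ℕ}, (Nat.blt r tabD4.n && (Nat.beq (tabD4.pw (gW.map Fin.val) r) r' &&
      intEq (tabD4.sgw (gW.map Fin.val) r) (-1))) = true → ∀ x : K,
      modelD4.nl K gW * modelD4.X r x * (modelD4.nl K gW)⁻¹ = modelD4.X r' (-x) := by
    intro r r' h x
    rw [Tab.nl_act modelD4 baseD4 checksD4 rfl gW h x]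
    congr 1
    push_cast
    ring
  exact ⟨h (by decide +kernel), h (by decide +kernel), h (by decide +kernel), h (by decide +kernel)⟩

omit hφ3 in
theorem gn_X {r r' : ℕ} {e : ℤ} (h : (Nat.blt r tabD4.n && (Nat.beq (tabD4.pw [1] r) r' &&
      intEq (tabD4.sgw [1] r) e)) = true) (x : K) :
      modelD4.n K 1 * modelD4.X r x * (modelD4.n K 1)⁻¹ = modelD4.X r' ((e : K) * x) := by
  have := Tab.nl_act modelD4 baseD4 checksD4 rfl [(⟨1, d4_rk_lt 1⟩ : Fin chevD4.rank)] h x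
  rwa [Model.nl_cons, Model.nl_nil, mul_one] at this

variable (hφ : ∀ x, φ x = x ^ q)

include hφ

omit hφ3 in
theorem gU_mem (t : K) : (d4R1 φ).X t ∈ twistedD4 K q := by
  rw [d4R1_X]
  have := d4_triple_G (q := q) t (a := 18) (b := 13) (c := 12) (by decide)
  rwa [sq, pow_mul, ← hφ, ← hφ] at this

omit hφ3 in
theorem gV_mem (t : K) : (d4R1 φ).Y t ∈ twistedD4 K q := by
  rw [d4R1_Y]
  have := d4_triple_G (q := q) t (a := 5) (b := 10) (c := 11) (by decide)
  rwa [sq, pow_mul, ← hφ, ← hφ] at this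

omit hφ3 in
theorem gn_word : modelD4.n K 0 * (modelD4.n K 2 * modelD4.n K 3) = (d4R1 φ).X 1 * (d4R1 φ).Y (-1) * (d4R1 φ).X 1 := by
  have o1 : Model.Ort K modelD4 18 13 := ort_of modelD4 baseD4 checksD4 (p := 0) (by simp) (by decide +kernel)
  have o2 : Model.Ort K modelD4 18 12 := ort_of modelD4 baseD4 checksD4 (p := 0) (by simp) (by decide +kernel)
  have o3 : Model.Ort K modelD4 13 12 := ort_of modelD4 baseD4 checksD4 (p := 0) (by simp) (by decide +kernel)
  have hs0 : chevD4.simple 0 = 18 := baseD4.simple_eq (i := 0) (by decide)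
  have hs2 : chevD4.simple 2 = 13 := baseD4.simple_eq (i := 2) (by decide)
  have hs3 : chevD4.simple 3 = 12 := baseD4.simple_eq (i := 3) (by decide)
  have hn0 : chevD4.neg 18 = 5 := baseD4.ng_eq (by decide)
  have hn2 : chevD4.neg 13 = 10 := baseD4.ng_eq (by decide)
  have hn3 : chevD4.neg 12 = 11 := baseD4.ng_eq (by decide)
  have h := modelD4.triple_nn o1 o2 o3 (1 : K) 1 1
  rw [hn0, hn2, hn3, inv_one] at h
  rw [d4R1_X, d4R1_Y, map_neg, map_neg, map_one, map_one, h]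
  unfold Model.n
  rw [hs0, hs2, hs3]

end D4

end Cfsg.Agent.H6.Chev
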