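import Cfsg.Agent.H6_Gen3

/-!
The groups `³D₄(q)` are generated by two elements: the main argument.
-/

set_option autoImplicit false
set_option linter.unusedSectionVars false
set_option maxRecDepth 100000

namespace Cfsg.Agent.H6.Chev

open Cfsg Cfsg.Lie Cfsg.Lie.ChevalleyDatum

theorem X_npow {D : ChevalleyDatum} (m : Model D) {F : Type*} [Field F] (r : ℕ) (n : ℕ) : (m.X r (1 : F)) ^ n = m.X r (n : F) := by
  induction n with
  | zero => rw [pow_zero, Nat.cast_zero, m.X_zero]
  | succ n ih => rw [pow_succ, ih, ← m.X_add, Nat.cast_succ]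

theorem coprime_units {K : Type*} [Field K] [Fintype K] (p : ℕ) [hp : Fact p.Prime] [CharP K p] :
    Nat.Coprime (Nat.card Kˣ) p := by
  classical
  rw [Nat.coprime_comm, Nat.Prime.coprime_iff_not_dvd hp.out]
  intro h
  have h1 : p ∣ Fintype.card K := by
    rw [← CharP.cast_eq_zero_iff K p, Nat.cast_card_eq_zero]
  have h2 : Nat.card Kˣ = Fintype.card K - 1 := by rw [Nat.card_units, Nat.card_eq_fintype_card]
  have h3 := Fintype.card_pos (α := K)
  rw [h2] at h
  have h4 := (Nat.dvd_sub h1 h)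
  have h5 : Fintype.card K - (Fintype.card K - 1) = 1 := by omega
  rw [h5] at h4
  exact hp.out.one_lt.ne' (Nat.dvd_one.1 h4)

section D4

variable {K : Type*} [Field K] (φ : K ≃+* K) {q : ℕ} (hφ3 : ∀ x : K, φ (φ (φ x)) = x) (hφ : ∀ x, φ x = x ^ q)

include hφ3 hφ

theorem d4_gen2 [Fintype K] (hq : 1 < q) (hK : Fintype.card K = q ^ 3) :
    ∃ a ∈ twistedD4 K q, ∃ b ∈ twistedD4 K q, twistedD4 K q ≤ Subgroup.closure {a, b} := by
  classical
  have hφ3' : ∀ x : K, ((x ^ q) ^ q) ^ q = x := fun x => by rw [← hφ, ← hφ, ← hφ]; exact hφ3 x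
  let P : TwG (twD4 φ) := pD4 φ hφ hφ3'
  have hP : P.G1 = twistedD4 K q := rfl
  obtain ⟨κ, hκ⟩ := IsCyclic.exists_generator (α := Kˣ)
  let h : Kˣ →* GL chevD4.Idx K :=
    { toFun := fun s => modelD4.hT K (gB φ s)
      map_one' := by rw [map_one]; exact map_one (modelD4.hT K)
      map_mul' := fun s s' => by rw [map_mul]; exact map_mul (modelD4.hT K) _ _ }
  have hh : ∀ s, h s = modelD4.hT K (gB φ s) := fun _ => rfl
  have hhG : ∀ s, h s ∈ twistedD4 K q := fun s => d4_H0_le φ hφ3 hφ P hP ⟨gB φ s, gB_Tf φ hφ3 s, rfl⟩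
  have hUG := gU_mem φ hφ
  have hVG := gV_mem φ hφ
  have hs1 : chevD4.simple 1 = 14 := baseD4.simple_eq (i := 1) (by decide)
  have hng : chevD4.neg 14 = 9 := baseD4.ng_eq (by decide)
  set U := (d4R1 φ).X with hU
  set V := (d4R1 φ).Y with hV
  set n0 := modelD4.nl K gW with hn0
  have hnb : modelD4.n K 1 = modelD4.X 14 1 * modelD4.X 9 (-1) * modelD4.X 14 1 := by
    unfold Model.n Model.nn
    rw [hs1, hng, inv_one]
  have h14G : ∀ c : K, φ c = c → modelD4.X 14 c ∈ twistedD4 K q := fun c hc => d4_single_G (by rw [← hφ, hc]) (by decide)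
  have h9G : ∀ c : K, φ c = c → modelD4.X 9 c ∈ twistedD4 K q := fun c hc => d4_single_G (by rw [← hφ, hc]) (by decide)
  have hnbG : modelD4.n K 1 ∈ twistedD4 K q := by
    rw [hnb]
    exact mul_mem (mul_mem (h14G _ (map_one φ)) (h9G _ (by rw [map_neg, map_one]))) (h14G _ (map_one φ))
  have hnaG : modelD4.n K 0 * (modelD4.n K 2 * modelD4.n K 3) ∈ twistedD4 K q := by
    rw [gn_word φ hφ]
    exact mul_mem (mul_mem (hUG 1) (hVG (-1))) (hUG 1)
  have hn0w : n0 = (modelD4.n K 0 * (modelD4.n K 2 * modelD4.n K 3)) * modelD4.n K 1 *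
      ((modelD4.n K 0 * (modelD4.n K 2 * modelD4.n K 3)) * modelD4.n K 1) *
      ((modelD4.n K 0 * (modelD4.n K 2 * modelD4.n K 3)) * modelD4.n K 1) := by
    rw [hn0]
    simp only [gW, Model.nl_cons, Model.nl_nil, mul_one, mul_assoc]
    rfl
  have hn0G : n0 ∈ twistedD4 K q := by
    rw [hn0w]
    exact mul_mem (mul_mem (mul_mem hnaG hnbG) (mul_mem hnaG hnbG)) (mul_mem hnaG hnbG)
  refine ⟨h κ * modelD4.X 14 1, mul_mem (hhG κ) (h14G 1 (map_one φ)), U 1 * n0, mul_mem (hUG 1) hn0G, ?_⟩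
  set M := Subgroup.closure ({h κ * modelD4.X 14 1, U 1 * n0} : Set (GL chevD4.Idx K)) with hM
  have ha : h κ * modelD4.X 14 1 ∈ M := Subgroup.subset_closure (by simp)
  have hb : U 1 * n0 ∈ M := Subgroup.subset_closure (by simp)
  -- splitting the first generator
  obtain ⟨p, hp⟩ := CharP.exists K
  have hpp : Fact p.Prime := ⟨CharP.char_is_prime K p⟩
  have hcop := coprime_units (K := K) p
  obtain ⟨hκM, h14⟩ := Gen.split_comm (x := h κ) (y := modelD4.X 14 (1 : K)) (by
    have := (gB_X φ κ).1 1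
    rw [mul_inv_eq_iff_eq_mul] at this
    exact this) (m := Nat.card Kˣ) (n := p) (by rw [← map_pow, pow_card_eq_one', map_one])
    (by rw [X_npow, CharP.cast_eq_zero, modelD4.X_zero]) hcop ha
  have hsM : ∀ s, h s ∈ M := by
    intro s
    obtain ⟨i, hi⟩ := hκ s
    have hi' : κ ^ i = s := hi
    rw [← hi', map_zpow]
    exact zpow_mem hκM i
  -- the short root subgroup
  let A : AddSubgroup K :=
    { carrier := {t | U t ∈ M}
      zero_mem' := by
        change U 0 ∈ M
        rw [hU, (d4R1 φ).X_zero]; exact one_mem _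
      add_mem' := by
        intro s t hs ht
        change U (s + t) ∈ M
        rw [hU, (d4R1 φ).X_add]; exact mul_mem hs ht
      neg_mem' := by
        intro s hs
        change U (-s) ∈ M
        rw [hU, (d4R1 φ).X_neg]; exact inv_mem hs }
  have hmem : ((gχ φ κ : Kˣ) : K) * 1 + -1 ∈ A := by
    change U _ ∈ M
    have h1 : h κ * ((U 1 * n0) * h κ * (U 1 * n0)⁻¹) ∈ M := mul_mem hκM (mul_mem (mul_mem hb hκM) (inv_mem hb))
    have h2 : n0 * h κ * n0⁻¹ = (h κ)⁻¹ := modelD4.nl_hT_inv gW gW_neg (gB φ κ)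
    have h3 : h κ * ((U 1 * n0) * h κ * (U 1 * n0)⁻¹) = (h κ * U 1 * (h κ)⁻¹) * (U 1)⁻¹ := by
      have e : (U 1 * n0) * h κ * (U 1 * n0)⁻¹ = U 1 * (n0 * h κ * n0⁻¹) * (U 1)⁻¹ := by group
      rw [e, h2]; group
    rw [h3, hh, hU, gB_U φ hφ3, ← (d4R1 φ).X_neg, ← (d4R1 φ).X_add] at h1
    exact h1
  have hA : A = ⊤ := by
    refine Ree.addSub_eq_top A (f := gχ φ) (gχ_ker φ hφ3) ?_ hmem ?_
    · intro s a ha
      change U _ ∈ M
      rw [hU, ← gB_U φ hφ3]
      exact mul_mem (mul_mem (hsM s) ha) (inv_mem (hsM s))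
    · intro h0
      have h1 : gχ φ κ = 1 := Units.ext (by rw [Units.val_one]; linear_combination h0)
      have h2 : κ ^ 2 = 1 := by
        rcases gχ_ker φ hφ3 κ h1 with h | h <;> rw [h] <;> simp
      have h3 := orderOf_le_of_pow_eq_one (by norm_num) h2
      rw [orderOf_eq_card_of_forall_mem_zpowers hκ, Nat.card_units, Nat.card_eq_fintype_card, hK] at h3
      have : 2 ^ 3 ≤ q ^ 3 := Nat.pow_le_pow_left hq 3
      omega
  have hUM : ∀ t, U t ∈ M := fun t => by
    have : t ∈ A := by rw [hA]; trivial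
    exact this
  have hn0M : n0 ∈ M := by
    have := mul_mem (inv_mem (hUM 1)) hb
    rwa [inv_mul_cancel_left] at this
  obtain ⟨w18, w13, w12, w14⟩ := gW_X (K := K)
  have hconj3 : ∀ h a b c : GL chevD4.Idx K, h * (a * (b * c)) * h⁻¹ = (h * a * h⁻¹) * ((h * b * h⁻¹) * (h * c * h⁻¹)) := by
    intro h a b c; group
  have hVM : ∀ t, V t ∈ M := by
    intro t
    have h1 : n0 * U (-t) * n0⁻¹ = V t := by
      rw [hU, hV, d4R1_X, d4R1_Y, hconj3, w18, w13, w12]
      simp only [map_neg, neg_neg]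
    rw [← h1]
    exact mul_mem (mul_mem hn0M (hUM _)) (inv_mem hn0M)
  have h9 : modelD4.X 9 (-1 : K) ∈ M := by
    rw [← w14]
    exact mul_mem (mul_mem hn0M h14) (inv_mem hn0M)
  have hnbM : modelD4.n K 1 ∈ M := by
    rw [hnb]
    exact mul_mem (mul_mem h14 h9) h14
  have hw : modelD4.X 19 (1 : K) * (modelD4.X 16 (-1) * modelD4.X 15 (-1)) ∈ M := by
    have h1 : modelD4.n K 1 * U 1 * (modelD4.n K 1)⁻¹ = modelD4.X 19 (1 : K) * (modelD4.X 16 (-1) * modelD4.X 15 (-1)) := by
      rw [hU, d4R1_X, hconj3, gn_X (r' := 19) (e := 1) (by decide +kernel), gn_X (r' := 16) (e := -1) (by decide +kernel),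
        gn_X (r' := 15) (e := -1) (by decide +kernel)]
      simp only [map_one, mul_one, Int.cast_one, Int.cast_neg]
    rw [← h1]
    exact mul_mem (mul_mem hnbM (hUM 1)) (inv_mem hnbM)
  have hMM : ⁅M, M⁆ ≤ M := Subgroup.commutator_le.2 fun a ha b hb => by
    rw [commutatorElement_def]; exact mul_mem (mul_mem (mul_mem ha hb) (inv_mem ha)) (inv_mem hb)
  -- the long root subgroup
  have h14M : ∀ c : K, φ c = c → modelD4.X 14 c ∈ M := by
    intro c hφc
    obtain ⟨x0, hx0⟩ := exists_tr3 hq hK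
    rw [← hφ, ← hφ] at hx0
    set τ := x0 + φ x0 + φ (φ x0) with hτ
    have hφτ : φ τ = τ := by rw [hτ, map_add, map_add, hφ3]; ring
    let t := -(c / τ) * x0
    have hv : modelD4.X 5 t * (modelD4.X 10 (φ t) * modelD4.X 11 (φ (φ t))) ∈ M := by
      have := hVM t
      rwa [hV, d4R1_Y] at this
    have key := comm_triple (S := M) (relD4 (a := 5) (c := 19) (e := 1) (by decide +kernel) (by decide +kernel) t 1)
      (comD4 (by decide +kernel) _ _) (comD4 (by decide +kernel) _ _) (comD4 (by decide +kernel) _ _)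
      (relD4 (a := 10) (c := 16) (e := -1) (by decide +kernel) (by decide +kernel) (φ t) (-1))
      (comD4 (by decide +kernel) _ _) (comD4 (by decide +kernel) _ _) (comD4 (by decide +kernel) _ _)
      (relD4 (a := 11) (c := 15) (e := -1) (by decide +kernel) (by decide +kernel) (φ (φ t)) (-1))
      (comD4 (by decide +kernel) _ _) (comD4 (by decide +kernel) _ _) (comD4 (by decide +kernel) _ _)
      (comD4 (by decide +kernel) _ _) (comD4 (by decide +kernel) _ _) (comD4 (by decide +kernel) _ _) hv hw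
    rw [← modelD4.X_add, ← modelD4.X_add] at key
    have e : -((1 : ℤ) : K) * (t * 1) + -((-1 : ℤ) : K) * (φ t * -1) + -((-1 : ℤ) : K) * (φ (φ t) * -1) = c := by
      have h1 : φ t = -(c / τ) * φ x0 := by
        change φ (-(c / τ) * x0) = _
        rw [map_mul, map_neg, map_div₀, hφτ, hφc]
      have h2 : φ (φ t) = -(c / τ) * φ (φ x0) := by
        rw [h1, map_mul, map_neg, map_div₀, hφτ, hφc]
      rw [h2, h1]
      have h3 : c = (c / τ) * τ := by field_simp
      conv_rhs => rw [h3, hτ]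
      simp only [Int.cast_one, Int.cast_neg]
      change -1 * (-(c / τ) * x0 * 1) + _ + _ = _
      ring
    rw [e] at key
    exact hMM key
  have h9M : ∀ c : K, φ c = c → modelD4.X 9 c ∈ M := by
    intro c hc
    have h1 : modelD4.n K 1 * modelD4.X 14 (-c) * (modelD4.n K 1)⁻¹ = modelD4.X 9 c := by
      rw [gn_X (r' := 9) (e := -1) (by decide +kernel)]
      congr 1
      push_cast
      ring
    rw [← h1]
    exact mul_mem (mul_mem hnbM (h14M _ (by rw [map_neg, hc]))) (inv_mem hnbM)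
  apply modelD4.genSub_le
  intro w hw
  rcases hw with ⟨t, ht, r, hr, rfl⟩ | ⟨t, rs, hrs, rfl⟩
  · rw [Model.word_cons, Model.word_nil, mul_one]
    simp only [List.mem_cons, List.not_mem_nil, or_false] at hr
    have ht' : φ t = t := (hφ t).trans ht
    rcases hr with rfl | rfl
    · exact h14M t ht'
    · exact h9M t ht'
  · rw [Model.word_cons, Model.word_cons, Model.word_cons, Model.word_nil, mul_one]
    simp only [List.mem_cons, List.not_mem_nil, or_false] at hrs
    rcases hrs with rfl | rfl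
    · have := hUM t
      rw [hU, d4R1_X, hφ, hφ, ← pow_mul, ← sq] at this
      exact this
    · have := hVM t
      rw [hV, d4R1_Y, hφ, hφ, ← pow_mul, ← sq] at this
      exact this

end D4

end Cfsg.Agent.H6.Chev
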