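import Cfsg.Agent.H6_TQ2
import Cfsg.Agent.H6_TwPfF4

/-!
The groups `²F₄(q)`: diagonal automorphisms, generation.
-/

set_option autoImplicit false
set_option linter.unusedSectionVars false
set_option maxRecDepth 100000

namespace Cfsg.Agent.H6.Chev

open Cfsg Cfsg.Lie Cfsg.Lie.ChevalleyDatum
open Cfsg.Agent.H6.SL2
open Cfsg.Agent.H14.Chev (fr fr_X fr_hHom fr_H fr_gen)

theorem Model.chi_of_rel {D : ChevalleyDatum} (m : Model D) {F : Type*} [Field F] {a b ab aab : ℕ}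
    (hab : ab < D.nroots) (haab : aab < D.nroots) (hne : ab ≠ aab)
    (h : ∀ x y : F, m.X a x * m.X b y = m.X b y * m.X a x * (m.X ab (x * y) * m.X aab (x ^ 2 * y))) (c : Fin D.rank → Fˣ) :
    ((m.chi (Model.ext1 D F c) ab : Fˣ) : F) = (m.chi (Model.ext1 D F c) a : Fˣ) * (m.chi (Model.ext1 D F c) b : Fˣ) ∧
    ((m.chi (Model.ext1 D F c) aab : Fˣ) : F) = ((m.chi (Model.ext1 D F c) a : Fˣ) : F) ^ 2 * (m.chi (Model.ext1 D F c) b : Fˣ) := by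
  set g := m.dT F c with hg
  have sp : ∀ x y : GL D.Idx F, g * (x * y) * g⁻¹ = (g * x * g⁻¹) * (g * y * g⁻¹) := by intro x y; group
  have h1 := congrArg (fun x => g * x * g⁻¹) (h 1 1)
  simp only [sp] at h1
  rw [m.dT_X, m.dT_X, m.dT_X, m.dT_X, mul_one, mul_one, mul_one, one_pow, mul_one, mul_one, h, mul_one] at h1
  have h2 := mul_left_cancel h1
  set p := (m.chi (Model.ext1 D F c) a : Fˣ) with hp
  set q := (m.chi (Model.ext1 D F c) b : Fˣ) with hq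
  set r := (m.chi (Model.ext1 D F c) ab : Fˣ) with hr
  set s := (m.chi (Model.ext1 D F c) aab : Fˣ) with hs
  have h3 : m.X ab ((p : F) * q - r) = m.X aab (s - (p : F) ^ 2 * q) := by
    rw [sub_eq_add_neg, sub_eq_add_neg, add_comm ((p : F) * q), m.X_add, m.X_add, m.X_neg, m.X_neg]
    rw [inv_mul_eq_iff_eq_mul, ← mul_assoc, ← h2, mul_inv_cancel_right]
  have h4 : (p : F) * q - r = 0 := by
    by_contra hne0
    exact hne (m.X_eq_X hab haab hne0 h3)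
  rw [h4, m.X_zero] at h3
  have h5 := m.X_eq_one haab h3.symm
  exact ⟨(sub_eq_zero.1 h4).symm, sub_eq_zero.1 h5⟩

section F4

variable {K : Type*} [Field K] [CharP K 2] (φ : K ≃+* K) (hperf : ∀ x : K, ∃ y : K, y ^ 2 = x)

theorem f4_chi (b : Fin chevF4.rank → Kˣ) : (modelF4.chi (Model.ext1 chevF4 K b) 33 = b (0 : Fin 4) ∧
    modelF4.chi (Model.ext1 chevF4 K b) 24 = b (3 : Fin 4)) ∧
    (modelF4.chi (Model.ext1 chevF4 K b) 27 = b (1 : Fin 4) ∧ modelF4.chi (Model.ext1 chevF4 K b) 25 = b (2 : Fin 4)) := by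
  obtain ⟨s0, s1, s2, s3⟩ := f4_simple
  refine ⟨⟨?_, ?_⟩, ?_, ?_⟩
  · rw [← s0]; exact modelF4.chi_p b (0 : Fin 4)
  · rw [← s3]; exact modelF4.chi_p b (3 : Fin 4)
  · rw [← s1]; exact modelF4.chi_p b (1 : Fin 4)
  · rw [← s2]; exact modelF4.chi_p b (2 : Fin 4)

theorem f4_chin (b : Fin chevF4.rank → Kˣ) : (modelF4.chi (Model.ext1 chevF4 K b) 14 = (b (0 : Fin 4))⁻¹ ∧
    modelF4.chi (Model.ext1 chevF4 K b) 23 = (b (3 : Fin 4))⁻¹) ∧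
    (modelF4.chi (Model.ext1 chevF4 K b) 20 = (b (1 : Fin 4))⁻¹ ∧ modelF4.chi (Model.ext1 chevF4 K b) 22 = (b (2 : Fin 4))⁻¹) := by
  obtain ⟨⟨n1, n2⟩, ⟨n3, n4⟩, -⟩ := f4_ng
  obtain ⟨⟨l1, l2⟩, ⟨l3, l4⟩, -⟩ := f4_lt
  obtain ⟨⟨c1, c2⟩, c3, c4⟩ := f4_chi b
  refine ⟨⟨?_, ?_⟩, ?_, ?_⟩
  · rw [← n1, modelF4.chi_neg _ l1, c1]
  · rw [← n2, modelF4.chi_neg _ l2, c2]
  · rw [← n3, modelF4.chi_neg _ l3, c3]
  · rw [← n4, modelF4.chi_neg _ l4, c4]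

variable (hφ2 : ∀ x : K, φ (φ x) ^ 2 = x)

include hφ2

/-- diagonal elements act on the rank one data -/
theorem f4_dR {b : Fin chevF4.rank → Kˣ} (hb : b ∈ (twF4 φ hperf).Tf) :
    (∀ t : K, modelF4.dT K b * (f4R0 φ).X t * (modelF4.dT K b)⁻¹ = (f4R0 φ).X ((b (3 : Fin 4) : K) * t)) ∧
    (∀ t : K, modelF4.dT K b * (f4R0 φ).Y t * (modelF4.dT K b)⁻¹ = (f4R0 φ).Y ((b (3 : Fin 4) : K)⁻¹ * t)) ∧
    (∀ t u : K, modelF4.dT K b * f4A φ t u * (modelF4.dT K b)⁻¹ =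
      f4A φ ((b (2 : Fin 4) : K) * t) (φ (b (2 : Fin 4) : K) * (b (2 : Fin 4) : K) * u)) ∧
    (∀ t u : K, modelF4.dT K b * f4C φ t u * (modelF4.dT K b)⁻¹ =
      f4C φ ((b (2 : Fin 4) : K)⁻¹ * t) (φ (b (2 : Fin 4) : K)⁻¹ * (b (2 : Fin 4) : K)⁻¹ * u)) := by
  have hn := baseF4.nroots
  have hn' : tabF4.n = 48 := rfl
  obtain ⟨h3, h2, h1, h0⟩ := (f4_Tf φ hperf).1 hb
  obtain ⟨⟨c1, c2⟩, c3, c4⟩ := f4_chi b
  obtain ⟨⟨e1, e2⟩, e3, e4⟩ := f4_chin b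
  obtain ⟨r1, r2⟩ := modelF4.chi_of_rel f4_lt.2.2.1 f4_lt.2.2.2 (by decide) relF4p b
  obtain ⟨r3, r4⟩ := modelF4.chi_of_rel (ab := 19) (aab := 17) (by omega) (by omega) (by decide) relF4n b
  rw [c3, c4] at r1 r2
  rw [e3, e4, Units.val_inv_eq_inv_val, Units.val_inv_eq_inv_val] at r3 r4
  have sp : ∀ g x y : GL chevF4.Idx K, g * (x * y) * g⁻¹ = (g * x * g⁻¹) * (g * y * g⁻¹) := by
    intro g x y; group
  have sp4 : ∀ g x y z w : GL chevF4.Idx K, g * (x * (y * (z * w))) * g⁻¹ =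
      (g * x * g⁻¹) * ((g * y * g⁻¹) * ((g * z * g⁻¹) * (g * w * g⁻¹))) := by
    intro g x y z w; group
  refine ⟨fun t => ?_, fun t => ?_, fun t u => ?_, fun t u => ?_⟩
  · rw [f4R0_X, sp, modelF4.dT_X, modelF4.dT_X, c1, c2, f4R0_X, map_mul, ← h0]
  · rw [f4R0_Y, sp, modelF4.dT_X, modelF4.dT_X, e1, e2, f4R0_Y, map_mul, Units.val_inv_eq_inv_val,
      Units.val_inv_eq_inv_val, map_inv₀, ← h0]
  · unfold f4A
    rw [sp4, modelF4.dT_X, modelF4.dT_X, modelF4.dT_X, modelF4.dT_X, c3, c4, r1, r2, map_mul, ← h1]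
    congr 3
    rw [map_mul, map_mul, h1]
    congr 1
    have h5 := hφ2 (b (2 : Fin 4))
    linear_combination (-(φ (b (2 : Fin 4) : K)) ^ 2 * φ u ^ 2) * h5
  · unfold f4C
    rw [sp4, modelF4.dT_X, modelF4.dT_X, modelF4.dT_X, modelF4.dT_X, e3, e4, r3, r4, map_mul, map_inv₀, ← h1,
      Units.val_inv_eq_inv_val, Units.val_inv_eq_inv_val]
    congr 3
    rw [map_mul, map_mul, map_inv₀, map_inv₀, h1]
    congr 1
    have h5 := hφ2 (b (2 : Fin 4))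
    have h6 : (φ (φ (b (2 : Fin 4) : K)))⁻¹ ^ 2 = (b (2 : Fin 4) : K)⁻¹ := by rw [inv_pow, h5]
    linear_combination (-((φ (b (2 : Fin 4) : K))⁻¹) ^ 2 * φ u ^ 2) * h6

omit hφ2

variable {e : ℕ} (hφ : ∀ x, φ x = x ^ e)

include hφ hφ2

theorem f4_le (P : TwG (twF4 φ hperf)) (hP : P.G1 = twistedF4 K e) {S : Subgroup (GL chevF4.Idx K)}
    (h0 : ∀ t, (f4R0 φ).X t ∈ S) (h0' : ∀ t, (f4R0 φ).Y t ∈ S) (h1 : ∀ t u, f4A φ t u ∈ S) (h1' : ∀ t u, f4C φ t u ∈ S) :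
    P.G1 ≤ S := by
  rw [hP]
  apply modelF4.genSub_le
  intro w hw
  rcases hw with ⟨t, rfl | rfl⟩ | ⟨t, u, rfl | rfl⟩
  · unfold f4PairWord
    rw [Model.word_cons, Model.word_cons, Model.word_nil, mul_one, ← hφ]
    exact h0 t
  · unfold f4PairWord
    rw [Model.word_cons, Model.word_cons, Model.word_nil, mul_one, ← hφ]
    have := h0' t
    rw [f4R0_Y] at this
    exact this
  · change modelF4.word (b2ClassWord e 27 25 28 30 t u) ∈ S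
    rw [(f4_b2p φ hperf hφ hφ2 t u).2]
    exact h1 t u
  · change modelF4.word (b2ClassWord e 20 22 19 17 t u) ∈ S
    rw [(f4_b2n φ hperf hφ hφ2 t u).2]
    exact h1' t u

theorem f4_dT (P : TwG (twF4 φ hperf)) (hP : P.G1 = twistedF4 K e) (b : Fin chevF4.rank → Kˣ) (hb : b ∈ (twF4 φ hperf).Tf)
    (g : GL chevF4.Idx K) (hg : g ∈ P.G1) : modelF4.dT K b * g * (modelF4.dT K b)⁻¹ ∈ P.G1 := by
  have h : P.G1 ≤ P.G1.comap (MulAut.conj (modelF4.dT K b)).toMonoidHom := by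
    obtain ⟨a0, a0', a1, a1'⟩ := f4_dR φ hperf hφ2 hb
    refine f4_le φ hperf hφ2 hφ P hP (fun t => ?_) (fun t => ?_) (fun t u => ?_) (fun t u => ?_)
    · change modelF4.dT K b * _ * (modelF4.dT K b)⁻¹ ∈ P.G1
      rw [a0]
      exact f4R0_X_mem φ hperf hφ hP _
    · change modelF4.dT K b * _ * (modelF4.dT K b)⁻¹ ∈ P.G1
      rw [a0']
      exact (f4R0_Y_mem φ hperf hφ hP _).2
    · change modelF4.dT K b * _ * (modelF4.dT K b)⁻¹ ∈ P.G1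
      rw [a1]
      exact f4A_mem φ hperf hφ hφ2 hP _ _
    · change modelF4.dT K b * _ * (modelF4.dT K b)⁻¹ ∈ P.G1
      rw [a1']
      exact (f4C_mem φ hperf hφ hφ2 hP _ _).2
  exact h hg

/-- two automorphisms which agree on the rank one subgroups are equal -/
theorem f4_ext (P : TwG (twF4 φ hperf)) (hP : P.G1 = twistedF4 K e) {α β : MulAut ↥P.G1}
    (h0 : ∀ t, α ((f4S0 φ hperf hφ P hP).X t) = β ((f4S0 φ hperf hφ P hP).X t))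
    (h0' : ∀ t, α ((f4S0 φ hperf hφ P hP).Y t) = β ((f4S0 φ hperf hφ P hP).Y t))
    (h1 : ∀ x ∈ (f4SB φ hperf P).X 1, α x = β x) (h1' : ∀ x ∈ (f4SB φ hperf P).Y 1, α x = β x) : α = β := by
  have key : P.G1 ≤ (MonoidHom.eqLocus α.toMonoidHom β.toMonoidHom).map P.G1.subtype :=
    f4_le φ hperf hφ2 hφ P hP (fun t => ⟨_, h0 t, rfl⟩) (fun t => ⟨_, h0' t, rfl⟩)
      (fun t u => ⟨f4B φ hperf hφ hφ2 P hP t u, h1 _ ((f4B_iff φ hperf hφ hφ2 P hP _).2 ⟨t, u, rfl⟩), rfl⟩)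
      (fun t u => ⟨⟨f4C φ t u, (f4C_mem φ hperf hφ hφ2 hP t u).2⟩, h1' _ (f4C_mem φ hperf hφ hφ2 hP t u).1, rfl⟩)
  ext g : 1
  obtain ⟨x, hx, hxg⟩ := key g.2
  have : x = g := Subtype.ext hxg
  rw [← this]
  exact hx

omit hφ hφ2 in
theorem four_two (v v' : Kˣ) : (![v', 1, 1, v] : Fin 4 → Kˣ) = Pi.mulSingle (0 : Fin 4) v' * Pi.mulSingle (3 : Fin 4) v := by
  funext (k : Fin 4)
  fin_cases k <;> simp [Pi.mulSingle, Function.update]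

omit hφ in
include hperf in
theorem f4_act (u : K) (hu : u ≠ 0) (s w : K) :
    (f4R0 φ).h u * f4A φ s w * ((f4R0 φ).h u)⁻¹ = f4A φ (u⁻¹ * s) ((φ u)⁻¹ * u⁻¹ * w) := by
  let v : Kˣ := Units.mk0 u hu
  let v' : Kˣ := Units.map (φ : K →* K) v
  let b : Fin chevF4.rank → Kˣ := (![v', 1, 1, v] : Fin 4 → Kˣ)
  have hb : b ∈ (twF4 φ hperf).Tf := by
    refine (f4_Tf φ hperf (b := b)).2 ⟨?_, ?_, (map_one φ).symm, rfl⟩
    · change u = φ (φ u) ^ 2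
      exact (hφ2 u).symm
    · change (1 : K) = φ 1 ^ 2
      rw [map_one, one_pow]
  have h1 : (f4R0 φ).h u = modelF4.dT K (Model.cm chevF4 K b) := by
    have hb' : b = Pi.mulSingle (0 : Fin 4) v' * Pi.mulSingle (3 : Fin 4) v := four_two v v'
    rw [← modelF4.hT_eq_dT, hb']
    have e1 := modelF4.hT_single (F := K) (0 : Fin 4) v'
    have e2 := modelF4.hT_single (F := K) (3 : Fin 4) v
    refine Eq.trans ?_ ((map_mul (modelF4.hT K) (Pi.mulSingle (0 : Fin 4) v') (Pi.mulSingle (3 : Fin 4) v)).trans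
      (congrArg₂ (· * ·) e1 e2)).symm
    change modelF4.hh 33 (φ u) * modelF4.hh 24 u = modelF4.hh (chevF4.simple 0) (φ u) * modelF4.hh (chevF4.simple 3) u
    rw [f4_simple.1, f4_simple.2.2.2]
  rw [h1, (f4_dR φ hperf hφ2 ((twF4 φ hperf).cm_Tf hb)).2.2.1]
  have h2 := cm_tab baseF4 checksF4 (F := K) cmF4 (by decide +kernel) b (2 : Fin 4)
  have h3 : ∏ k : Fin 4, b k ^ mt cmF4 k (2 : Fin 4) = v⁻¹ := by
    rw [Fin.prod_univ_four]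
    simp [cmF4, mt, b]
  have h4 : Model.cm chevF4 K b (2 : Fin 4) = v⁻¹ := h2.trans h3
  rw [h4, Units.val_inv_eq_inv_val, map_inv₀]
  rfl

omit hφ in
theorem f4_tf (c0 : K) (h0 : c0 ≠ 0) (c1 : K) (h1 : c1 ≠ 0) :
    ∃ b ∈ (twF4 φ hperf).Tf, ((b (3 : Fin 4) : Kˣ) : K) = c0 ∧ ((b (2 : Fin 4) : Kˣ) : K) = c1 := by
  let v : Kˣ := Units.mk0 c0 h0
  let w : Kˣ := Units.mk0 c1 h1
  refine ⟨(![Units.map (φ : K →* K) v, Units.map (φ : K →* K) w, w, v] : Fin 4 → Kˣ), ?_, rfl, rfl⟩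
  refine (f4_Tf φ hperf).2 ⟨?_, ?_, rfl, rfl⟩
  · change c0 = φ (φ c0) ^ 2
    exact (hφ2 _).symm
  · change c1 = φ (φ c1) ^ 2
    exact (hφ2 _).symm

omit hφ2 in
theorem f4_frA (σ : K →+* K) (t u : K) :
    fr chevF4 σ ((f4R0 φ).X t) = (f4R0 φ).X (σ t) ∧ fr chevF4 σ ((f4R0 φ).Y t) = (f4R0 φ).Y (σ t) ∧
    fr chevF4 σ (f4A φ t u) = f4A φ (σ t) (σ u) := by
  have eφ : ∀ t : K, φ (σ t) = σ (φ t) := fun t => by rw [hφ, hφ, map_pow]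
  refine ⟨?_, ?_, ?_⟩
  · rw [f4R0_X, f4R0_X, map_mul, fr_X modelF4, fr_X modelF4, eφ]
  · rw [f4R0_Y, f4R0_Y, map_mul, fr_X modelF4, fr_X modelF4, eφ]
  · unfold f4A
    rw [map_mul, map_mul, map_mul, fr_X modelF4, fr_X modelF4, fr_X modelF4, fr_X modelF4, eφ, eφ, map_add, map_pow,
      map_mul, map_pow]

end F4

end Cfsg.Agent.H6.Chev
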