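import Cfsg.Agent.H6_Gen4
import Cfsg.Agent.H6_TQ3

/-!
The groups `²F₄(q)` are generated by two elements.
-/

set_option autoImplicit false
set_option linter.unusedSectionVars false
set_option maxRecDepth 100000

namespace Cfsg.Agent.H6.Chev

open Cfsg Cfsg.Lie Cfsg.Lie.ChevalleyDatum

namespace Model

variable {D : ChevalleyDatum} (m : Model D) {F : Type*} [Field F]

theorem acts_hT_inv {g : GL D.Idx F} (hg : g ∈ D.monomialSubgroup F) {w : Equiv.Perm (Fin D.nroots)} (ha : m.Acts g w)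
    (hw : ∀ r, w r = m.ng r) (b : Fin D.rank → Fˣ) : g * m.hT F b * g⁻¹ = (m.hT F b)⁻¹ := by
  obtain ⟨l, x, hx, rfl⟩ := m.mem_N.1 hg
  have h1 := (m.acts_nl (F := F) l).mul (m.acts_h hx)
  rw [mul_one] at h1
  have h2 := m.acts_unique ha h1
  have h3 : x * m.hT F b * x⁻¹ = m.hT F b := by
    rw [m.H_comm hx (m.hT_mem_H b), mul_inv_cancel_right]
  have h4 : m.nl F l * x * m.hT F b * (m.nl F l * x)⁻¹ = m.nl F l * (x * m.hT F b * x⁻¹) * (m.nl F l)⁻¹ := by group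
  rw [h4, h3]
  exact m.nl_hT_inv l (fun r => by rw [← h2, hw]) b

end Model

section F4

variable {K : Type*} [Field K] [CharP K 2] (φ : K ≃+* K)

/-- an auxiliary endomorphism -/
def fθ : Kˣ →* Kˣ where
  toFun v := v ^ 2 * (Units.map (φ : K →* K) v ^ 2)⁻¹
  map_one' := by simp
  map_mul' s s' := by
    rw [map_mul, mul_pow, mul_pow, mul_inv]; exact mul_mul_mul_comm _ _ _ _

/-- the torus used for generation -/
def fB : Kˣ →* (Fin 4 → Kˣ) where
  toFun v := ![Units.map (φ : K →* K) (fθ φ v), Units.map (φ : K →* K) v, v, fθ φ v]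
  map_one' := by
    funext k
    fin_cases k <;> simp
  map_mul' s s' := by
    funext k
    fin_cases k
    · change Units.map (φ : K →* K) (fθ φ (s * s')) = Units.map (φ : K →* K) (fθ φ s) * Units.map (φ : K →* K) (fθ φ s')
      rw [map_mul, map_mul]
    · change Units.map (φ : K →* K) (s * s') = Units.map (φ : K →* K) s * Units.map (φ : K →* K) s'
      rw [map_mul]
    · rfl
    · change fθ φ (s * s') = fθ φ s * fθ φ s'
      rw [map_mul]

/-- the character -/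
def fχ : Kˣ →* Kˣ where
  toFun v := v ^ 3 * (Units.map (φ : K →* K) v ^ 4)⁻¹
  map_one' := by simp
  map_mul' s s' := by
    rw [map_mul, mul_pow, mul_pow, mul_inv]; exact mul_mul_mul_comm _ _ _ _

variable (hperf : ∀ x : K, ∃ y : K, y ^ 2 = x) (hφ2 : ∀ x : K, φ (φ x) ^ 2 = x)

include hφ2

omit [CharP K 2] in
theorem fχ_ker (s : Kˣ) (h : fχ φ s = 1) : s = 1 := by
  let Φ : Kˣ →* Kˣ := Units.map (φ : K →* K)
  have hΦ2 : ∀ x : Kˣ, Φ (Φ x) ^ 2 = x := fun x => Units.ext (hφ2 x)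
  have h1 : s ^ 3 = Φ s ^ 4 := mul_inv_eq_one.1 h
  have h2 : Φ s ^ 3 = s ^ 2 := by
    have := congrArg Φ h1
    rw [map_pow, map_pow] at this
    rw [this]
    calc Φ (Φ s) ^ 4 = (Φ (Φ s) ^ 2) ^ 2 := by rw [← pow_mul]
      _ = s ^ 2 := by rw [hΦ2]
  have h3 : s ^ 9 = s ^ 8 := by
    calc s ^ 9 = (s ^ 3) ^ 3 := by rw [← pow_mul]
      _ = (Φ s ^ 3) ^ 4 := by rw [h1, ← pow_mul, ← pow_mul]
      _ = s ^ 8 := by rw [h2, ← pow_mul]
  have h4 : s ^ 8 * s = s ^ 8 * 1 := by rw [mul_one, ← pow_succ]; exact h3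
  exact mul_left_cancel h4

theorem fB_Tf (v : Kˣ) : fB φ v ∈ (twF4 φ hperf).Tf := by
  refine (f4_Tf φ hperf (b := fB φ v)).2 ⟨?_, ?_, rfl, rfl⟩
  · exact (hφ2 _).symm
  · exact (hφ2 _).symm

theorem fB_cm (v : Kˣ) : ((Model.cm chevF4 K (fB φ v) (2 : Fin 4) : Kˣ) = 1) ∧
    ((Model.cm chevF4 K (fB φ v) (3 : Fin 4) : Kˣ) = fχ φ v) := by
  have h2 := cm_tab baseF4 checksF4 (F := K) cmF4 (by decide +kernel) (fB φ v) (2 : Fin 4)
  have h3 := cm_tab baseF4 checksF4 (F := K) cmF4 (by decide +kernel) (fB φ v) (3 : Fin 4)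
  have e1 : fB φ v (1 : Fin 4) = Units.map (φ : K →* K) v := rfl
  have e2 : fB φ v (2 : Fin 4) = v := rfl
  have e3 : fB φ v (3 : Fin 4) = v ^ 2 * (Units.map (φ : K →* K) v ^ 2)⁻¹ := rfl
  have e4 : fχ φ v = v ^ 3 * (Units.map (φ : K →* K) v ^ 4)⁻¹ := rfl
  rw [e4]
  clear e4
  generalize Units.map (φ : K →* K) v = w at *
  constructor
  · refine h2.trans ?_
    change ∏ k : Fin 4, fB φ v k ^ mt cmF4 k (2 : Fin 4) = 1
    have m0 : mt cmF4 (0 : Fin 4) (2 : Fin 4) = 0 := by decide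
    have m1 : mt cmF4 (1 : Fin 4) (2 : Fin 4) = -2 := by decide
    have m2 : mt cmF4 (2 : Fin 4) (2 : Fin 4) = 2 := by decide
    have m3 : mt cmF4 (3 : Fin 4) (2 : Fin 4) = -1 := by decide
    rw [Fin.prod_univ_four, e1, e2, e3, m0, m1, m2, m3, zpow_zero, one_mul, zpow_neg, zpow_neg, zpow_one]
    have z2 : ∀ x : Kˣ, x ^ (2 : ℤ) = x ^ 2 := fun x => by norm_cast
    rw [z2, z2, mul_inv, inv_inv]
    calc (w ^ 2)⁻¹ * v ^ 2 * ((v ^ 2)⁻¹ * w ^ 2) = (w ^ 2)⁻¹ * (v ^ 2 * (v ^ 2)⁻¹) * w ^ 2 := by simp only [mul_assoc]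
      _ = 1 := by rw [mul_inv_cancel, mul_one, inv_mul_cancel]
  · refine h3.trans ?_
    change ∏ k : Fin 4, fB φ v k ^ mt cmF4 k (3 : Fin 4) = _
    have m0 : mt cmF4 (0 : Fin 4) (3 : Fin 4) = 0 := by decide
    have m1 : mt cmF4 (1 : Fin 4) (3 : Fin 4) = 0 := by decide
    have m2 : mt cmF4 (2 : Fin 4) (3 : Fin 4) = -1 := by decide
    have m3 : mt cmF4 (3 : Fin 4) (3 : Fin 4) = 2 := by decide
    rw [Fin.prod_univ_four, e2, e3, m0, m1, m2, m3, zpow_zero, zpow_zero, one_mul, one_mul, zpow_neg, zpow_one]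
    have z2 : ∀ x : Kˣ, x ^ (2 : ℤ) = x ^ 2 := fun x => by norm_cast
    rw [z2, mul_pow, inv_pow, ← pow_mul, ← pow_mul, ← mul_assoc]
    congr 1
    change v⁻¹ * v ^ 4 = v ^ 3
    rw [pow_succ' v 3, inv_mul_cancel_left]

include hperf in
/-- action on the first root subgroup -/
theorem fB_X (v : Kˣ) (t : K) : modelF4.hT K (fB φ v) * (f4R0 φ).X t * (modelF4.hT K (fB φ v))⁻¹ =
    (f4R0 φ).X ((fχ φ v : Kˣ) * t) := by
  let b : Fin chevF4.rank → Kˣ := fB φ v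
  have hb : b ∈ (twF4 φ hperf).Tf := fB_Tf φ hperf hφ2 v
  have h1 := (f4_dR φ hperf hφ2 ((twF4 φ hperf).cm_Tf hb)).1 t
  have h2 : Model.cm chevF4 K b (3 : Fin 4) = fχ φ v := (fB_cm φ hφ2 v).2
  rw [← modelF4.hT_eq_dT, h2] at h1
  exact h1

include hperf in
theorem fB_A (v : Kˣ) (t u : K) : modelF4.hT K (fB φ v) * f4A φ t u * (modelF4.hT K (fB φ v))⁻¹ = f4A φ t u := by
  let b : Fin chevF4.rank → Kˣ := fB φ v
  have hb : b ∈ (twF4 φ hperf).Tf := fB_Tf φ hperf hφ2 v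
  have h1 := (f4_dR φ hperf hφ2 ((twF4 φ hperf).cm_Tf hb)).2.2.1 t u
  have h2 : Model.cm chevF4 K b (2 : Fin 4) = 1 := (fB_cm φ hφ2 v).1
  rw [← modelF4.hT_eq_dT, h2, Units.val_one, map_one, one_mul, one_mul, one_mul] at h1
  exact h1

variable {e : ℕ} (hφ : ∀ x, φ x = x ^ e)

include hφ

theorem f4_gen2 [Fintype K] (hK : 2 < Fintype.card K) (P : TwG (twF4 φ hperf)) (hP : P.G1 = twistedF4 K e) :
    ∃ a ∈ twistedF4 K e, ∃ b ∈ twistedF4 K e, twistedF4 K e ≤ Subgroup.closure {a, b} := by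
  classical
  obtain ⟨κ, hκ⟩ := IsCyclic.exists_generator (α := Kˣ)
  let h : Kˣ →* GL chevF4.Idx K :=
    { toFun := fun s => modelF4.hT K (fB φ s)
      map_one' := by rw [map_one]; exact map_one (modelF4.hT K)
      map_mul' := fun s s' => by rw [map_mul]; exact map_mul (modelF4.hT K) _ _ }
  have hh : ∀ s, h s = modelF4.hT K (fB φ s) := fun _ => rfl
  have hhG : ∀ s, h s ∈ P.G1 := fun s => f4_H0_le φ hperf hφ2 hφ P hP ⟨fB φ s, fB_Tf φ hperf hφ2 s, rfl⟩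
  set X := (f4R0 φ).X with hX
  set Y := (f4R0 φ).Y with hY
  have hXG : ∀ t, X t ∈ P.G1 := f4R0_X_mem φ hperf hφ hP
  have hYG : ∀ t, Y t ∈ P.G1 := fun t => (f4R0_Y_mem φ hperf hφ hP t).2
  have hAG : ∀ t u, f4A φ t u ∈ P.G1 := f4A_mem φ hperf hφ hφ2 hP
  let w0 := (([0, 1, 0, 1, 0, 1, 0, 1] : List (Fin 2)).map (twF4 φ hperf).wj).prod
  obtain ⟨n0, hn0N, hn0G, hn0a⟩ := P.exists_n1 (w := w0) ((twF4 φ hperf).wjs_mem [0, 1, 0, 1, 0, 1, 0, 1])
  have hw0 : ∀ r, w0 r = modelF4.ng r := f4_w0 φ hperf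
  rw [← hP]
  refine ⟨h κ * f4A φ 1 0, mul_mem (hhG κ) (hAG 1 0), X 1 * n0, mul_mem (hXG 1) hn0G, ?_⟩
  set M := Subgroup.closure ({h κ * f4A φ 1 0, X 1 * n0} : Set (GL chevF4.Idx K)) with hM
  have ha : h κ * f4A φ 1 0 ∈ M := Subgroup.subset_closure (by simp)
  have hb : X 1 * n0 ∈ M := Subgroup.subset_closure (by simp)
  have hAmul := f4A_mul φ hφ2
  have hA00 : f4A φ 0 0 = 1 := by
    have := hAmul 0 0 0 0
    rw [map_zero, mul_zero, add_zero, add_zero] at this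
    exact mul_eq_left.1 this
  have hAsq : ∀ t, f4A φ t 0 * f4A φ t 0 = f4A φ 0 (φ t * t) := by
    intro t
    rw [hAmul, CharTwo.add_self_eq_zero, add_zero, zero_add]
  -- splitting
  have hcop : Nat.Coprime (Nat.card Kˣ) 4 := by
    have : Fact (Nat.Prime 2) := ⟨Nat.prime_two⟩
    have := coprime_units (K := K) 2
    exact Nat.Coprime.pow_right 2 this
  obtain ⟨hκM, hA10⟩ := Gen.split_comm (x := h κ) (y := f4A φ 1 0) (by
    have := fB_A φ hperf hφ2 κ 1 0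
    rw [mul_inv_eq_iff_eq_mul] at this
    exact this) (m := Nat.card Kˣ) (n := 4) (by rw [← map_pow, pow_card_eq_one', map_one])
    (by
      have e1 : f4A φ 1 0 ^ 4 = (f4A φ 1 0 * f4A φ 1 0) * (f4A φ 1 0 * f4A φ 1 0) := by
        simp only [pow_succ, pow_zero, one_mul, mul_assoc]
      rw [e1, hAsq, hAmul, add_zero, map_zero, zero_mul, add_zero, CharTwo.add_self_eq_zero, hA00]) hcop ha
  have hsM : ∀ s, h s ∈ M := by
    intro s
    obtain ⟨i, hi⟩ := hκ s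
    have hi' : κ ^ i = s := hi
    rw [← hi', map_zpow]
    exact zpow_mem hκM i
  -- the first root subgroup
  let A : AddSubgroup K :=
    { carrier := {t | X t ∈ M}
      zero_mem' := by
        change X 0 ∈ M
        rw [hX, (f4R0 φ).X_zero]; exact one_mem _
      add_mem' := by
        intro s t hs ht
        change X (s + t) ∈ M
        rw [hX, (f4R0 φ).X_add]; exact mul_mem hs ht
      neg_mem' := by
        intro s hs
        change X (-s) ∈ M
        rw [hX, (f4R0 φ).X_neg]; exact inv_mem hs }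
  have hmem : ((fχ φ κ : Kˣ) : K) * 1 + -1 ∈ A := by
    change X _ ∈ M
    have h1 : h κ * ((X 1 * n0) * h κ * (X 1 * n0)⁻¹) ∈ M := mul_mem hκM (mul_mem (mul_mem hb hκM) (inv_mem hb))
    have h2 : n0 * h κ * n0⁻¹ = (h κ)⁻¹ := modelF4.acts_hT_inv hn0N hn0a hw0 (fB φ κ)
    have h3 : h κ * ((X 1 * n0) * h κ * (X 1 * n0)⁻¹) = (h κ * X 1 * (h κ)⁻¹) * (X 1)⁻¹ := by
      have e : (X 1 * n0) * h κ * (X 1 * n0)⁻¹ = X 1 * (n0 * h κ * n0⁻¹) * (X 1)⁻¹ := by group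
      rw [e, h2]; group
    rw [h3, hh, hX, fB_X φ hperf hφ2, ← (f4R0 φ).X_neg, ← (f4R0 φ).X_add] at h1
    exact h1
  have hA : A = ⊤ := by
    refine Ree.addSub_eq_top A (f := fχ φ) (fun s hs => Or.inl (fχ_ker φ hφ2 s hs)) ?_ hmem ?_
    · intro s a ha
      change X _ ∈ M
      rw [hX, ← fB_X φ hperf hφ2]
      exact mul_mem (mul_mem (hsM s) ha) (inv_mem (hsM s))
    · intro h0
      have h1 : fχ φ κ = 1 := Units.ext (by rw [Units.val_one]; linear_combination h0)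
      have h2 : κ = 1 := fχ_ker φ hφ2 κ h1
      have h3 := orderOf_eq_card_of_forall_mem_zpowers hκ
      rw [h2, orderOf_one, Nat.card_units, Nat.card_eq_fintype_card] at h3
      omega
  have hXM : ∀ t, X t ∈ M := fun t => by
    have : t ∈ A := by rw [hA]; trivial
    exact this
  have hn0M : n0 ∈ M := by
    have := mul_mem (inv_mem (hXM 1)) hb
    rwa [inv_mul_cancel_left] at this
  have hconj : ∀ j x, n0 * x * n0⁻¹ ∈ (twF4 φ hperf).VJ j ↔ x ∈ (twF4 φ hperf).UJ j := by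
    have hl : ∀ r : Fin chevF4.nroots, modelF4.N ≤ r ↔ (w0 r : ℕ) < modelF4.N := fun r => by rw [hw0, modelF4.ng_lt_iff]
    have hJ0 : ∀ j (r : Fin chevF4.nroots), chevF4.InRootSub ((twF4 φ hperf).Js j) (w0 r) ↔
        chevF4.InRootSub ((twF4 φ hperf).Js j) r := fun j r => by rw [hw0]; exact modelF4.inRootSub_ng_iff r
    intro j x
    exact modelF4.gen_conj_iff hn0N hn0a (fun r => by rw [hJ0, ← hl]) _
  have hYM : ∀ t, Y t ∈ M := by
    intro t
    have h1 : n0⁻¹ * Y t * n0 ∈ (twF4 φ hperf).UJ 0 := by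
      rw [← hconj]
      have : n0 * (n0⁻¹ * Y t * n0) * n0⁻¹ = Y t := by group
      rw [this]
      exact (f4R0_Y_mem φ hperf hφ hP t).1
    have h2 : n0⁻¹ * Y t * n0 ∈ P.G1 := mul_mem (mul_mem (inv_mem hn0G) (hYG t)) hn0G
    obtain ⟨s, hs⟩ := (f4R0_iff φ hperf hφ hφ2 _).1 ⟨h1, P.le_fix h2⟩
    have h3 : Y t = n0 * (f4R0 φ).X s * n0⁻¹ := by rw [← hs]; group
    rw [h3]
    exact mul_mem (mul_mem hn0M (hXM s)) (inv_mem hn0M)
  -- the torus of the first rank one subgroup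
  have hnM : ∀ t, (f4R0 φ).n t ∈ M := fun t => by
    rw [(f4R0 φ).n_def]
    exact mul_mem (mul_mem (hXM _) (hYM _)) (hXM _)
  have hhM : ∀ t, (f4R0 φ).h t ∈ M := fun t => by
    rw [(f4R0 φ).h_def]
    exact mul_mem (hnM _) (hnM _)
  have hAt : ∀ t, f4A φ t 0 ∈ M := by
    intro t
    by_cases ht : t = 0
    · rw [ht, hA00]; exact one_mem _
    · have h1 := f4_act φ hperf hφ2 t⁻¹ (inv_ne_zero ht) 1 0
      rw [inv_inv, mul_one, mul_zero] at h1
      rw [← h1]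
      exact mul_mem (mul_mem (hhM _) hA10) (inv_mem (hhM _))
  have hsurj : ∀ u : K, ∃ t, φ t * t = u := by
    intro u
    by_cases hu : u = 0
    · exact ⟨0, by rw [hu, mul_zero]⟩
    · let g : Kˣ →* Kˣ :=
        { toFun := fun s => Units.map (φ : K →* K) s * s
          map_one' := by simp
          map_mul' := fun s s' => by rw [map_mul]; exact mul_mul_mul_comm _ _ _ _ }
      have hg : Function.Injective g := by
        rw [injective_iff_map_eq_one]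
        intro s hs
        let Φ : Kˣ →* Kˣ := Units.map (φ : K →* K)
        have hΦ2 : ∀ x : Kˣ, Φ (Φ x) ^ 2 = x := fun x => Units.ext (hφ2 x)
        have h1 : Φ s = s⁻¹ := eq_inv_of_mul_eq_one_left hs
        have h2 := hΦ2 s
        rw [h1, map_inv, h1, inv_inv] at h2
        have h3 : s * s = s * 1 := by rw [mul_one, ← sq]; exact h2
        exact mul_left_cancel h3
      obtain ⟨s, hs⟩ := Finite.surjective_of_injective hg (Units.mk0 u hu)
      exact ⟨s, congrArg Units.val hs⟩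
  have hAM : ∀ t u, f4A φ t u ∈ M := by
    intro t u
    obtain ⟨s, hs⟩ := hsurj u
    have h1 : f4A φ t u = f4A φ t 0 * f4A φ 0 u := by
      rw [hAmul, add_zero, zero_add, mul_zero, add_zero]
    rw [h1, ← hs, ← hAsq]
    exact mul_mem (hAt _) (mul_mem (hAt _) (hAt _))
  have hCM : ∀ t u, f4C φ t u ∈ M := by
    intro t u
    obtain ⟨hc1, hc2⟩ := f4C_mem φ hperf hφ hφ2 hP t u
    have h1 : n0⁻¹ * f4C φ t u * n0 ∈ (twF4 φ hperf).UJ 1 := by
      rw [← hconj]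
      have : n0 * (n0⁻¹ * f4C φ t u * n0) * n0⁻¹ = f4C φ t u := by group
      rw [this]
      exact hc1
    have h2 : n0⁻¹ * f4C φ t u * n0 ∈ P.G1 := mul_mem (mul_mem (inv_mem hn0G) hc2) hn0G
    obtain ⟨s, s', hs⟩ := (f4A_iff φ hperf hφ hφ2 _).1 ⟨h1, P.le_fix h2⟩
    have h3 : f4C φ t u = n0 * f4A φ s s' * n0⁻¹ := by rw [← hs]; group
    rw [h3]
    exact mul_mem (mul_mem hn0M (hAM _ _)) (inv_mem hn0M)
  exact f4_le φ hperf hφ2 hφ P hP hXM hYM hAM hCM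

end F4

end Cfsg.Agent.H6.Chev
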