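import Cfsg.Agent.H6_TP1
import Cfsg.Agent.H6_TwOrd

/-!
The groups `²E₆(q)`: diagonal and field automorphisms.
-/

set_option autoImplicit false
set_option linter.unusedSectionVars false
set_option maxRecDepth 100000

namespace Cfsg.Agent.H6.Chev

open Cfsg Cfsg.Lie Cfsg.Lie.ChevalleyDatum
open Cfsg.Agent.H6.SL2
open Cfsg.Agent.H14.Chev (fr fr_X fr_hHom fr_H fr_gen)

section E6

variable {K : Type*} [Field K] (φ : K ≃+* K) {q : ℕ} (hφ : ∀ x, φ x = x ^ q) (hφ2 : ∀ x : K, (x ^ q) ^ q = x)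

theorem e6_fr (P : TwG (twE6 φ)) (hP : P.G1 = twistedE6 K q) (σ : K →+* K) (g : GL chevE6.Idx K) (hg : g ∈ P.G1) :
    fr chevE6 σ g ∈ P.G1 := by
  rw [hP] at hg ⊢
  have h : twistedE6 K q ≤ (twistedE6 K q).comap (fr chevE6 σ) := by
    apply modelE6.genSub_le
    intro w hw
    rw [Subgroup.mem_comap, modelE6.fr_word']
    apply modelE6.word_mem_genSub
    rcases hw with ⟨t, ht, r, hr, rfl⟩ | ⟨t, rs, hrs, rfl⟩
    · refine Or.inl ⟨σ t, ?_, r, hr, rfl⟩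
      rw [← map_pow, ht]
    · refine Or.inr ⟨σ t, rs, hrs, ?_⟩
      simp [map_pow]
  exact h hg

theorem e6_chi (b : Fin chevE6.rank → Kˣ) : (modelE6.chi (Model.ext1 chevE6 K b) 46 = b (1 : Fin 6) ∧
    modelE6.chi (Model.ext1 chevE6 K b) 39 = b (3 : Fin 6)) ∧
    (modelE6.chi (Model.ext1 chevE6 K b) 42 = b (2 : Fin 6) ∧ modelE6.chi (Model.ext1 chevE6 K b) 37 = b (4 : Fin 6)) ∧
    (modelE6.chi (Model.ext1 chevE6 K b) 56 = b (0 : Fin 6) ∧ modelE6.chi (Model.ext1 chevE6 K b) 36 = b (5 : Fin 6)) := by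
  obtain ⟨s0, s1, s2, s3, s4, s5⟩ := e6_simple
  refine ⟨⟨?_, ?_⟩, ⟨?_, ?_⟩, ?_, ?_⟩
  · rw [← s1]; exact modelE6.chi_p b (1 : Fin 6)
  · rw [← s3]; exact modelE6.chi_p b (3 : Fin 6)
  · rw [← s2]; exact modelE6.chi_p b (2 : Fin 6)
  · rw [← s4]; exact modelE6.chi_p b (4 : Fin 6)
  · rw [← s0]; exact modelE6.chi_p b (0 : Fin 6)
  · rw [← s5]; exact modelE6.chi_p b (5 : Fin 6)

theorem e6_chin (b : Fin chevE6.rank → Kˣ) : (modelE6.chi (Model.ext1 chevE6 K b) 25 = (b (1 : Fin 6))⁻¹ ∧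
    modelE6.chi (Model.ext1 chevE6 K b) 32 = (b (3 : Fin 6))⁻¹) ∧
    (modelE6.chi (Model.ext1 chevE6 K b) 29 = (b (2 : Fin 6))⁻¹ ∧ modelE6.chi (Model.ext1 chevE6 K b) 34 = (b (4 : Fin 6))⁻¹) ∧
    (modelE6.chi (Model.ext1 chevE6 K b) 15 = (b (0 : Fin 6))⁻¹ ∧ modelE6.chi (Model.ext1 chevE6 K b) 35 = (b (5 : Fin 6))⁻¹) := by
  obtain ⟨⟨n1, n2⟩, ⟨n3, n4⟩, n5, n6⟩ := e6_ng
  obtain ⟨⟨l1, l2⟩, ⟨l3, l4⟩, l5, l6⟩ := e6_lt
  obtain ⟨⟨c1, c2⟩, ⟨c3, c4⟩, c5, c6⟩ := e6_chi b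
  refine ⟨⟨?_, ?_⟩, ⟨?_, ?_⟩, ?_, ?_⟩
  · rw [← n1, modelE6.chi_neg _ l1, c1]
  · rw [← n2, modelE6.chi_neg _ l2, c2]
  · rw [← n3, modelE6.chi_neg _ l3, c3]
  · rw [← n4, modelE6.chi_neg _ l4, c4]
  · rw [← n5, modelE6.chi_neg _ l5, c5]
  · rw [← n6, modelE6.chi_neg _ l6, c6]

/-- diagonal elements act on the rank one data -/
theorem e6_dR {b : Fin chevE6.rank → Kˣ} (hb : b ∈ (twE6 φ).Tf) :
    ((∀ t : kF φ, modelE6.dT K b * (e6R0 φ).X t * (modelE6.dT K b)⁻¹ = modelE6.X 46 ((b (1 : Fin 6) : K) * t)) ∧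
    (∀ t : kF φ, modelE6.dT K b * (e6R0 φ).Y t * (modelE6.dT K b)⁻¹ = modelE6.X 25 ((b (1 : Fin 6) : K)⁻¹ * t))) ∧
    ((∀ t : kF φ, modelE6.dT K b * (e6R1 φ).X t * (modelE6.dT K b)⁻¹ = modelE6.X 39 ((b (3 : Fin 6) : K) * t)) ∧
    (∀ t : kF φ, modelE6.dT K b * (e6R1 φ).Y t * (modelE6.dT K b)⁻¹ = modelE6.X 32 ((b (3 : Fin 6) : K)⁻¹ * t))) ∧
    ((∀ t : K, modelE6.dT K b * (e6R2 φ).X t * (modelE6.dT K b)⁻¹ = (e6R2 φ).X ((b (2 : Fin 6) : K) * t)) ∧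
    (∀ t : K, modelE6.dT K b * (e6R2 φ).Y t * (modelE6.dT K b)⁻¹ = (e6R2 φ).Y ((b (2 : Fin 6) : K)⁻¹ * t))) ∧
    ((∀ t : K, modelE6.dT K b * (e6R3 φ).X t * (modelE6.dT K b)⁻¹ = (e6R3 φ).X ((b (0 : Fin 6) : K) * t)) ∧
    (∀ t : K, modelE6.dT K b * (e6R3 φ).Y t * (modelE6.dT K b)⁻¹ = (e6R3 φ).Y ((b (0 : Fin 6) : K)⁻¹ * t))) := by
  obtain ⟨h5, h1, h4, h3, h2, h0⟩ := (e6_Tf φ).1 hb
  obtain ⟨⟨c1, c2⟩, ⟨c3, c4⟩, c5, c6⟩ := e6_chi b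
  obtain ⟨⟨e1, e2⟩, ⟨e3, e4⟩, e5, e6⟩ := e6_chin b
  have sp : ∀ g x y : GL chevE6.Idx K, g * (x * y) * g⁻¹ = (g * x * g⁻¹) * (g * y * g⁻¹) := by
    intro g x y; group
  refine ⟨⟨fun t => ?_, fun t => ?_⟩, ⟨fun t => ?_, fun t => ?_⟩, ⟨fun t => ?_, fun t => ?_⟩, fun t => ?_, fun t => ?_⟩
  · rw [e6R0_X, modelE6.dT_X, c1]
  · rw [e6R0_Y, modelE6.dT_X, e1, Units.val_inv_eq_inv_val]
  · rw [e6R1_X, modelE6.dT_X, c2]
  · rw [e6R1_Y, modelE6.dT_X, e2, Units.val_inv_eq_inv_val]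
  · rw [e6R2_X, sp, modelE6.dT_X, modelE6.dT_X, c3, c4, e6R2_X, map_mul, ← h4]
  · rw [e6R2_Y, sp, modelE6.dT_X, modelE6.dT_X, e3, e4, e6R2_Y, map_mul, Units.val_inv_eq_inv_val,
      Units.val_inv_eq_inv_val, map_inv₀, ← h4]
  · rw [e6R3_X, sp, modelE6.dT_X, modelE6.dT_X, c5, c6, e6R3_X, map_mul, ← h5]
  · rw [e6R3_Y, sp, modelE6.dT_X, modelE6.dT_X, e5, e6, e6R3_Y, map_mul, Units.val_inv_eq_inv_val,
      Units.val_inv_eq_inv_val, map_inv₀, ← h5]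

include hφ

/-- the generators in terms of the rank one data -/
theorem e6_word_cases {w : List (ℕ × K)} (hw : w ∈ e6Words K q) :
    (∃ t, modelE6.word w = (e6R0 φ).X t) ∨ (∃ t, modelE6.word w = (e6R0 φ).Y t) ∨
    (∃ t, modelE6.word w = (e6R1 φ).X t) ∨ (∃ t, modelE6.word w = (e6R1 φ).Y t) ∨
    (∃ t, modelE6.word w = (e6R2 φ).X t) ∨ (∃ t, modelE6.word w = (e6R2 φ).Y t) ∨
    (∃ t, modelE6.word w = (e6R3 φ).X t) ∨ (∃ t, modelE6.word w = (e6R3 φ).Y t) := by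
  rcases hw with ⟨t, ht, r, hr, rfl⟩ | ⟨t, rs, hrs, rfl⟩
  · rw [Model.word_cons, Model.word_nil, mul_one]
    have ht' : φ t = t := (hφ t).trans ht
    simp only [List.mem_cons, List.not_mem_nil, or_false] at hr
    rcases hr with rfl | rfl | rfl | rfl
    · exact Or.inl ⟨⟨t, ht'⟩, rfl⟩
    · exact Or.inr (Or.inl ⟨⟨t, ht'⟩, (e6R0_Y φ ⟨t, ht'⟩).symm⟩)
    · exact Or.inr (Or.inr (Or.inl ⟨⟨t, ht'⟩, rfl⟩))
    · exact Or.inr (Or.inr (Or.inr (Or.inl ⟨⟨t, ht'⟩, (e6R1_Y φ ⟨t, ht'⟩).symm⟩)))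
  · rw [Model.word_cons, Model.word_cons, Model.word_nil, mul_one]
    simp only [List.mem_cons, List.not_mem_nil, or_false] at hrs
    rcases hrs with rfl | rfl | rfl | rfl
    · refine Or.inr (Or.inr (Or.inr (Or.inr (Or.inr (Or.inr (Or.inl ⟨t, ?_⟩))))))
      rw [e6R3_X, hφ]; rfl
    · refine Or.inr (Or.inr (Or.inr (Or.inr (Or.inr (Or.inr (Or.inr ⟨t, ?_⟩))))))
      rw [e6R3_Y, hφ]; rfl
    · refine Or.inr (Or.inr (Or.inr (Or.inr (Or.inl ⟨t, ?_⟩))))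
      rw [e6R2_X, hφ]; rfl
    · refine Or.inr (Or.inr (Or.inr (Or.inr (Or.inr (Or.inl ⟨t, ?_⟩)))))
      rw [e6R2_Y, hφ]; rfl

theorem e6_le (P : TwG (twE6 φ)) (hP : P.G1 = twistedE6 K q) {S : Subgroup (GL chevE6.Idx K)}
    (h0 : ∀ t, (e6R0 φ).X t ∈ S) (h0' : ∀ t, (e6R0 φ).Y t ∈ S) (h1 : ∀ t, (e6R1 φ).X t ∈ S) (h1' : ∀ t, (e6R1 φ).Y t ∈ S)
    (h2 : ∀ t, (e6R2 φ).X t ∈ S) (h2' : ∀ t, (e6R2 φ).Y t ∈ S) (h3 : ∀ t, (e6R3 φ).X t ∈ S) (h3' : ∀ t, (e6R3 φ).Y t ∈ S) :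
    P.G1 ≤ S := by
  rw [hP]
  apply modelE6.genSub_le
  intro w hw
  rcases e6_word_cases φ hφ hw with ⟨t, h⟩ | ⟨t, h⟩ | ⟨t, h⟩ | ⟨t, h⟩ | ⟨t, h⟩ | ⟨t, h⟩ | ⟨t, h⟩ | ⟨t, h⟩ <;> rw [h]
  · exact h0 t
  · exact h0' t
  · exact h1 t
  · exact h1' t
  · exact h2 t
  · exact h2' t
  · exact h3 t
  · exact h3' t

theorem e6_dT (P : TwG (twE6 φ)) (hP : P.G1 = twistedE6 K q) (b : Fin chevE6.rank → Kˣ) (hb : b ∈ (twE6 φ).Tf)
    (g : GL chevE6.Idx K) (hg : g ∈ P.G1) : modelE6.dT K b * g * (modelE6.dT K b)⁻¹ ∈ P.G1 := by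
  have h : P.G1 ≤ P.G1.comap (MulAut.conj (modelE6.dT K b)).toMonoidHom := by
    obtain ⟨⟨a0, a0'⟩, ⟨a1, a1'⟩, ⟨a2, a2'⟩, a3, a3'⟩ := e6_dR φ hb
    obtain ⟨-, b1, -, b3, -, -⟩ := (e6_Tf φ).1 hb
    have m1 : ∀ t : kF φ, (b (1 : Fin 6) : K) * t ∈ kF φ := fun t => by rw [mem_kF, map_mul, ← b1, mem_kF.1 t.2]
    have m1' : ∀ t : kF φ, (b (1 : Fin 6) : K)⁻¹ * t ∈ kF φ := fun t => by
      rw [mem_kF, map_mul, map_inv₀, ← b1, mem_kF.1 t.2]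
    have m3 : ∀ t : kF φ, (b (3 : Fin 6) : K) * t ∈ kF φ := fun t => by rw [mem_kF, map_mul, ← b3, mem_kF.1 t.2]
    have m3' : ∀ t : kF φ, (b (3 : Fin 6) : K)⁻¹ * t ∈ kF φ := fun t => by
      rw [mem_kF, map_mul, map_inv₀, ← b3, mem_kF.1 t.2]
    refine e6_le φ hφ P hP (fun t => ?_) (fun t => ?_) (fun t => ?_) (fun t => ?_) (fun t => ?_) (fun t => ?_)
      (fun t => ?_) (fun t => ?_)
    · change modelE6.dT K b * _ * (modelE6.dT K b)⁻¹ ∈ P.G1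
      rw [a0]
      exact e6R0_X_mem φ hφ hP ⟨_, m1 t⟩
    · change modelE6.dT K b * _ * (modelE6.dT K b)⁻¹ ∈ P.G1
      rw [a0']
      have := (e6R0_Y_mem φ hφ hP ⟨_, m1' t⟩).2
      rwa [e6R0_Y] at this
    · change modelE6.dT K b * _ * (modelE6.dT K b)⁻¹ ∈ P.G1
      rw [a1]
      exact e6R1_X_mem φ hφ hP ⟨_, m3 t⟩
    · change modelE6.dT K b * _ * (modelE6.dT K b)⁻¹ ∈ P.G1
      rw [a1']
      have := (e6R1_Y_mem φ hφ hP ⟨_, m3' t⟩).2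
      rwa [e6R1_Y] at this
    · change modelE6.dT K b * _ * (modelE6.dT K b)⁻¹ ∈ P.G1
      rw [a2]
      exact e6R2_X_mem φ hφ hP _
    · change modelE6.dT K b * _ * (modelE6.dT K b)⁻¹ ∈ P.G1
      rw [a2']
      exact (e6R2_Y_mem φ hφ hP _).2
    · change modelE6.dT K b * _ * (modelE6.dT K b)⁻¹ ∈ P.G1
      rw [a3]
      exact e6R3_X_mem φ hφ hP _
    · change modelE6.dT K b * _ * (modelE6.dT K b)⁻¹ ∈ P.G1
      rw [a3']
      exact (e6R3_Y_mem φ hφ hP _).2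
  exact h hg

omit hφ in
/-- the torus elements act on the rank one data -/
theorem e6_cm {b : Fin chevE6.rank → Kˣ} (j : Fin 6) : Model.cm chevE6 K b j = ∏ k : Fin 6, b k ^ mt cmE6 k j :=
  cm_tab baseE6 checksE6 (F := K) cmE6 (by decide +kernel) b j

omit hφ in
theorem e6_act01 (u : kF φ) (hu : u ≠ 0) (s : kF φ) :
    (e6R0 φ).h u * (e6R1 φ).X s * ((e6R0 φ).h u)⁻¹ = (e6R1 φ).X (u⁻¹ * s) := by
  have hu' : (u : K) ≠ 0 := fun h => hu (Subtype.ext h)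
  let v : Kˣ := Units.mk0 (u : K) hu'
  let b : Fin chevE6.rank → Kˣ := (![1, v, 1, 1, 1, 1] : Fin 6 → Kˣ)
  have hb : b ∈ (twE6 φ).Tf := by
    refine (e6_Tf φ (b := b)).2 ⟨(map_one φ).symm, ?_, (map_one φ).symm, (map_one φ).symm, (map_one φ).symm, (map_one φ).symm⟩
    change (u : K) = φ u
    exact u.2.symm
  have hb' : b = Pi.mulSingle (1 : Fin 6) v := by
    funext (k : Fin 6)
    fin_cases k <;> simp [b, Pi.mulSingle, Function.update]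
  have h1 : (e6R0 φ).h u = modelE6.dT K (Model.cm chevE6 K b) := by
    rw [← modelE6.hT_eq_dT, hb']
    have := modelE6.hT_single (F := K) (1 : Fin 6) v
    refine Eq.trans ?_ this.symm
    change modelE6.hh 46 (u : K) = modelE6.hh (chevE6.simple 1) (u : K)
    rw [e6_simple.2.1]
  rw [h1, (e6_dR φ ((twE6 φ).cm_Tf hb)).2.1.1, e6R1_X]
  congr 1
  have h3 : ∏ k : Fin 6, b k ^ mt cmE6 k (3 : Fin 6) = v⁻¹ := by
    rw [Fin.prod_univ_six]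
    simp [cmE6, mt, b]
  have h4 : Model.cm chevE6 K b (3 : Fin 6) = v⁻¹ := (e6_cm (3 : Fin 6)).trans h3
  rw [h4, Units.val_inv_eq_inv_val]
  rfl

omit hφ in
theorem e6_act12 (u : kF φ) (hu : u ≠ 0) (s : K) :
    (e6R1 φ).h u * (e6R2 φ).X s * ((e6R1 φ).h u)⁻¹ = (e6R2 φ).X ((u : K)⁻¹ * s) := by
  have hu' : (u : K) ≠ 0 := fun h => hu (Subtype.ext h)
  let v : Kˣ := Units.mk0 (u : K) hu'
  let b : Fin chevE6.rank → Kˣ := (![1, 1, 1, v, 1, 1] : Fin 6 → Kˣ)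
  have hb : b ∈ (twE6 φ).Tf := by
    refine (e6_Tf φ (b := b)).2 ⟨(map_one φ).symm, (map_one φ).symm, (map_one φ).symm, ?_, (map_one φ).symm, (map_one φ).symm⟩
    change (u : K) = φ u
    exact u.2.symm
  have hb' : b = Pi.mulSingle (3 : Fin 6) v := by
    funext (k : Fin 6)
    fin_cases k <;> simp [b, Pi.mulSingle, Function.update]
  have h1 : (e6R1 φ).h u = modelE6.dT K (Model.cm chevE6 K b) := by
    rw [← modelE6.hT_eq_dT, hb']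
    have := modelE6.hT_single (F := K) (3 : Fin 6) v
    refine Eq.trans ?_ this.symm
    change modelE6.hh 39 (u : K) = modelE6.hh (chevE6.simple 3) (u : K)
    rw [e6_simple.2.2.2.1]
  rw [h1, (e6_dR φ ((twE6 φ).cm_Tf hb)).2.2.1.1]
  congr 2
  have h3 : ∏ k : Fin 6, b k ^ mt cmE6 k (2 : Fin 6) = v⁻¹ := by
    rw [Fin.prod_univ_six]
    simp [cmE6, mt, b]
  have h4 : Model.cm chevE6 K b (2 : Fin 6) = v⁻¹ := (e6_cm (2 : Fin 6)).trans h3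
  rw [h4, Units.val_inv_eq_inv_val]
  rfl

omit hφ in
theorem six_two (v v' : Kˣ) : (![1, 1, v, 1, v', 1] : Fin 6 → Kˣ) = Pi.mulSingle (2 : Fin 6) v * Pi.mulSingle (4 : Fin 6) v' := by
  funext (k : Fin 6)
  fin_cases k <;> simp [Pi.mulSingle, Function.update]

omit hφ in
theorem e6_act23 (hφφ : ∀ x, φ (φ x) = x) (u : K) (hu : u ≠ 0) (s : K) :
    (e6R2 φ).h u * (e6R3 φ).X s * ((e6R2 φ).h u)⁻¹ = (e6R3 φ).X (u⁻¹ * s) := by
  let v : Kˣ := Units.mk0 u hu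
  let v' : Kˣ := Units.map (φ : K →* K) v
  let b : Fin chevE6.rank → Kˣ := (![1, 1, v, 1, v', 1] : Fin 6 → Kˣ)
  have hb : b ∈ (twE6 φ).Tf := by
    refine (e6_Tf φ (b := b)).2 ⟨(map_one φ).symm, (map_one φ).symm, rfl, (map_one φ).symm, ?_, (map_one φ).symm⟩
    change u = φ (φ u)
    exact (hφφ u).symm
  have hb' : b = Pi.mulSingle (2 : Fin 6) v * Pi.mulSingle (4 : Fin 6) v' := six_two v v'
  have h1 : (e6R2 φ).h u = modelE6.dT K (Model.cm chevE6 K b) := by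
    rw [← modelE6.hT_eq_dT, hb']
    have e1 := modelE6.hT_single (F := K) (2 : Fin 6) v
    have e2 := modelE6.hT_single (F := K) (4 : Fin 6) v'
    refine Eq.trans ?_ ((map_mul (modelE6.hT K) (Pi.mulSingle (2 : Fin 6) v) (Pi.mulSingle (4 : Fin 6) v')).trans
      (congrArg₂ (· * ·) e1 e2)).symm
    change modelE6.hh 42 u * modelE6.hh 37 (φ u) = modelE6.hh (chevE6.simple 2) u * modelE6.hh (chevE6.simple 4) (φ u)
    rw [e6_simple.2.2.1, e6_simple.2.2.2.2.1]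
  rw [h1, (e6_dR φ ((twE6 φ).cm_Tf hb)).2.2.2.1]
  congr 2
  have h3 : ∏ k : Fin 6, b k ^ mt cmE6 k (0 : Fin 6) = v⁻¹ := by
    rw [Fin.prod_univ_six]
    simp [cmE6, mt, b]
  have h4 : Model.cm chevE6 K b (0 : Fin 6) = v⁻¹ := (e6_cm (0 : Fin 6)).trans h3
  rw [h4, Units.val_inv_eq_inv_val]
  rfl

/-- two automorphisms which agree on the rank one subgroups are equal -/
theorem e6_ext (P : TwG (twE6 φ)) (hP : P.G1 = twistedE6 K q) {α β : MulAut ↥P.G1}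
    (h0 : ∀ t, α ((e6S0 φ hφ P hP).X t) = β ((e6S0 φ hφ P hP).X t)) (h0' : ∀ t, α ((e6S0 φ hφ P hP).Y t) = β ((e6S0 φ hφ P hP).Y t))
    (h1 : ∀ t, α ((e6S1 φ hφ P hP).X t) = β ((e6S1 φ hφ P hP).X t)) (h1' : ∀ t, α ((e6S1 φ hφ P hP).Y t) = β ((e6S1 φ hφ P hP).Y t))
    (h2 : ∀ t, α ((e6S2 φ hφ P hP).X t) = β ((e6S2 φ hφ P hP).X t)) (h2' : ∀ t, α ((e6S2 φ hφ P hP).Y t) = β ((e6S2 φ hφ P hP).Y t))
    (h3 : ∀ t, α ((e6S3 φ hφ P hP).X t) = β ((e6S3 φ hφ P hP).X t)) (h3' : ∀ t, α ((e6S3 φ hφ P hP).Y t) = β ((e6S3 φ hφ P hP).Y t)) :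
    α = β := by
  have key : P.G1 ≤ (MonoidHom.eqLocus α.toMonoidHom β.toMonoidHom).map P.G1.subtype :=
    e6_le φ hφ P hP (fun t => ⟨_, h0 t, rfl⟩) (fun t => ⟨_, h0' t, rfl⟩) (fun t => ⟨_, h1 t, rfl⟩) (fun t => ⟨_, h1' t, rfl⟩)
      (fun t => ⟨_, h2 t, rfl⟩) (fun t => ⟨_, h2' t, rfl⟩) (fun t => ⟨_, h3 t, rfl⟩) (fun t => ⟨_, h3' t, rfl⟩)
  ext g : 1
  obtain ⟨x, hx, hxg⟩ := key g.2
  have : x = g := Subtype.ext hxg
  rw [← this]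
  exact hx

omit hφ

/-- `X₁` and `X₂` do not commute -/
theorem e6_noncomm : (e6R1 φ).X 1 * (e6R2 φ).X 1 ≠ (e6R2 φ).X 1 * (e6R1 φ).X 1 := by
  have hn := baseE6.nroots
  have hn' : tabE6.n = 72 := rfl
  intro h
  rw [e6R1_X, e6R2_X] at h
  change modelE6.X 39 (1 : K) * (modelE6.X 42 1 * modelE6.X 37 (φ 1)) = modelE6.X 42 1 * modelE6.X 37 (φ 1) * modelE6.X 39 1 at h
  rw [map_one] at h
  have r1 := rel_of modelE6 baseE6 checksE6 (a := 39) (c := 42) (by decide +kernel)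
    (by decide +kernel : tabE6.cm 42 39 = [(43, -1, 1, 1)]) (1 : K) 1
  have r2 := rel_of modelE6 baseE6 checksE6 (a := 39) (c := 37) (by decide +kernel)
    (by decide +kernel : tabE6.cm 37 39 = [(40, 1, 1, 1)]) (1 : K) 1
  simp only [List.map_cons, List.map_nil, Model.word_cons, Model.word_nil, mul_one, pow_one] at r1 r2
  set b : K := ((-1 : ℤ) : K) * -1 with hb
  set a : K := ((1 : ℤ) : K) * -1 with ha
  have hb0 : b ≠ 0 := by rw [hb]; simp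
  have r3 := rel_of modelE6 baseE6 checksE6 (a := 43) (c := 37) (by decide +kernel)
    (by decide +kernel : tabE6.cm 37 43 = [(44, 1, 1, 1)]) b 1
  simp only [List.map_cons, List.map_nil, Model.word_cons, Model.word_nil, mul_one, pow_one] at r3
  set c : K := ((1 : ℤ) : K) * -1 * b with hc
  have hc0 : c ≠ 0 := by rw [hc]; simpa using hb0
  have k1 : modelE6.X 40 a * modelE6.X 37 1 = modelE6.X 37 1 * modelE6.X 40 a := comE6 (by decide +kernel) _ _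
  have k2 : modelE6.X 44 c * modelE6.X 37 1 = modelE6.X 37 1 * modelE6.X 44 c := comE6 (by decide +kernel) _ _
  generalize modelE6.X 39 (1 : K) = x39 at h r1 r2
  generalize modelE6.X 42 (1 : K) = x42 at h r1
  generalize hx37 : modelE6.X 37 (1 : K) = x37 at h r2 r3 k1 k2
  generalize hx43 : modelE6.X 43 b = x43 at r1 r3
  generalize hx40 : modelE6.X 40 a = x40 at r2 k1
  generalize hx44 : modelE6.X 44 c = x44 at r3 k2
  have e1 : x39 * (x42 * x37) = x42 * x37 * x39 * (x40 * x43 * x44) := by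
    calc x39 * (x42 * x37) = (x39 * x42) * x37 := by group
      _ = x42 * x39 * (x43 * x37) := by rw [r1]; group
      _ = x42 * (x39 * x37) * x43 * x44 := by rw [r3]; group
      _ = _ := by rw [r2]; group
  rw [h] at e1
  have e2 : x40 * x43 * x44 = 1 := by
    have := e1.symm
    rwa [mul_eq_left] at this
  have e3 : x40 * x43 * x44 * x37 = x37 * (x40 * x43 * x44) * x44 := by
    calc x40 * x43 * x44 * x37 = x40 * x43 * (x44 * x37) := by group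
      _ = x40 * (x43 * x37) * x44 := by rw [k2]; group
      _ = (x40 * x37) * x43 * x44 * x44 := by rw [r3]; group
      _ = _ := by rw [k1]; group
  rw [e2, one_mul, mul_one] at e3
  have e4 : x44 = 1 := by
    have := e3.symm
    rwa [mul_eq_left] at this
  rw [← hx44] at e4
  exact hc0 (modelE6.X_eq_one (by omega) e4)

end E6

end Cfsg.Agent.H6.Chev
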