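import Cfsg.Agent.H6_Gen4
import Cfsg.Agent.H6_TP2
import Cfsg.Agent.H6_TwPfE6

/-!
The groups `²E₆(q)` are generated by two elements.
-/

set_option autoImplicit false
set_option linter.unusedSectionVars false
set_option maxRecDepth 100000

namespace Cfsg.Agent.H6.Chev

open Cfsg Cfsg.Lie Cfsg.Lie.ChevalleyDatum

section E6

variable {K : Type*} [Field K] (φ : K ≃+* K) {q : ℕ} (hφφ : ∀ x : K, φ (φ x) = x) (hφ : ∀ x, φ x = x ^ q)

def eN0 : List (Fin chevE6.rank) := ([1] : List (Fin 6))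
def eN1 : List (Fin chevE6.rank) := ([3] : List (Fin 6))
def eN2 : List (Fin chevE6.rank) := ([2, 4] : List (Fin 6))
def eN3 : List (Fin chevE6.rank) := ([0, 5] : List (Fin 6))
def eW : List (Fin chevE6.rank) := eN0 ++ eN1 ++ eN2 ++ eN3
def eW6 : List (Fin chevE6.rank) := eW ++ eW ++ eW ++ eW ++ eW ++ eW
def eV43 : List (Fin chevE6.rank) := eN2 ++ eW ++ eW ++ eN3 ++ eW
def eV32 : List (Fin chevE6.rank) := eW ++ eW ++ eN3 ++ eW
def eV25 : List (Fin chevE6.rank) := eW ++ eN3 ++ eW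
def eV46 : List (Fin chevE6.rank) := eW ++ eN3 ++ eN2 ++ eW ++ eN3 ++ eN2

theorem eAct (l : List (Fin chevE6.rank)) {r r' : ℕ} {e : ℤ}
    (h : (Nat.blt r tabE6.n && (Nat.beq (tabE6.pw (l.map Fin.val) r) r' && intEq (tabE6.sgw (l.map Fin.val) r) e)) = true) (x : K) :
    modelE6.nl K l * modelE6.X r x * (modelE6.nl K l)⁻¹ = modelE6.X r' ((e : K) * x) :=
  Tab.nl_act modelE6 baseE6 checksE6 rfl l h x

include hφ in
theorem eN_G : modelE6.nl K eN0 ∈ twistedE6 K q ∧ modelE6.nl K eN1 ∈ twistedE6 K q ∧ modelE6.nl K eN2 ∈ twistedE6 K q ∧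
    modelE6.nl K eN3 ∈ twistedE6 K q :=
  ⟨e6_nj_G φ hφ 0, e6_nj_G φ hφ 1, e6_nj_G φ hφ 2, e6_nj_G φ hφ 3⟩

theorem eW_X (t : K) : modelE6.nl K eW * (e6R2 φ).X t * (modelE6.nl K eW)⁻¹ = (e6R3 φ).X t := by
  have sp : ∀ g x y : GL chevE6.Idx K, g * (x * y) * g⁻¹ = (g * x * g⁻¹) * (g * y * g⁻¹) := by
    intro g x y; group
  rw [e6R2_X, e6R3_X, sp, eAct eW (r' := 56) (e := 1) (by decide +kernel), eAct eW (r' := 36) (e := 1) (by decide +kernel)]
  simp only [Int.cast_one, one_mul]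

theorem eW_Y (t : K) : modelE6.nl K eW * (e6R2 φ).Y t * (modelE6.nl K eW)⁻¹ = (e6R3 φ).Y t := by
  have sp : ∀ g x y : GL chevE6.Idx K, g * (x * y) * g⁻¹ = (g * x * g⁻¹) * (g * y * g⁻¹) := by
    intro g x y; group
  rw [e6R2_Y, e6R3_Y, sp, eAct eW (r' := 15) (e := 1) (by decide +kernel), eAct eW (r' := 35) (e := 1) (by decide +kernel)]
  simp only [Int.cast_one, one_mul]

theorem eW_h (t : K) : (modelE6.nl K eW)⁻¹ * (e6R3 φ).h t * modelE6.nl K eW = (e6R2 φ).h t := by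
  have hX : ∀ s, (modelE6.nl K eW)⁻¹ * (e6R3 φ).X s * modelE6.nl K eW = (e6R2 φ).X s := fun s => by
    rw [← eW_X]; group
  have hY : ∀ s, (modelE6.nl K eW)⁻¹ * (e6R3 φ).Y s * modelE6.nl K eW = (e6R2 φ).Y s := fun s => by
    rw [← eW_Y]; group
  have hn : ∀ s, (modelE6.nl K eW)⁻¹ * (e6R3 φ).n s * modelE6.nl K eW = (e6R2 φ).n s := fun s => by
    rw [(e6R3 φ).n_def, (e6R2 φ).n_def, ← hX, ← hY]; group
  rw [(e6R3 φ).h_def, (e6R2 φ).h_def, ← hn, ← hn]; group

theorem eN2_eq : modelE6.nl K eN2 = (e6R2 φ).X 1 * (e6R2 φ).Y (-1) * (e6R2 φ).X 1 := by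
  obtain ⟨s0, s1, s2, s3, s4, s5⟩ := e6_simple
  have h := modelE6.pair_nn (F := K) ort42 1 1
  rw [e6_ng.2.1.1, e6_ng.2.1.2, inv_one] at h
  rw [e6R2_X, e6R2_Y, map_neg, map_one, h]
  have e : modelE6.nl K eN2 = modelE6.n K 2 * modelE6.n K 4 := (e6_nl φ).2.2.1
  rw [e]
  unfold Model.n
  rw [s2, s4]

theorem eN3_eq : modelE6.nl K eN3 = (e6R3 φ).X 1 * (e6R3 φ).Y (-1) * (e6R3 φ).X 1 := by
  obtain ⟨s0, s1, s2, s3, s4, s5⟩ := e6_simple
  have h := modelE6.pair_nn (F := K) ort56 1 1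
  rw [e6_ng.2.2.1, e6_ng.2.2.2, inv_one] at h
  rw [e6R3_X, e6R3_Y, map_neg, map_one, h]
  have e : modelE6.nl K eN3 = modelE6.n K 0 * modelE6.n K 5 := (e6_nl φ).2.2.2
  rw [e]
  unfold Model.n
  rw [s0, s5]

theorem e6_h_comm (s t : Kˣ) : (e6R3 φ).h (s : K) * (e6R2 φ).h (t : K) = (e6R2 φ).h (t : K) * (e6R3 φ).h (s : K) := by
  have h3 : (e6R3 φ).h (s : K) ∈ chevE6.diagonalSubgroup K :=
    mul_mem (modelE6.hh_mem_H e6_lt.2.2.1 s) (modelE6.hh_mem_H e6_lt.2.2.2 (Units.map (φ : K →* K) s))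
  have h2 : (e6R2 φ).h (t : K) ∈ chevE6.diagonalSubgroup K :=
    mul_mem (modelE6.hh_mem_H e6_lt.2.1.1 t) (modelE6.hh_mem_H e6_lt.2.1.2 (Units.map (φ : K →* K) t))
  exact modelE6.H_comm h3 h2

include hφφ hφ

theorem e6_gen2 [Fintype K] (hq : 1 < q) (hK : Fintype.card K = q ^ 2) (P : TwG (twE6 φ)) (hP : P.G1 = twistedE6 K q) :
    ∃ a ∈ twistedE6 K q, ∃ b ∈ twistedE6 K q, twistedE6 K q ≤ Subgroup.closure {a, b} := by
  classical
  obtain ⟨κ, hκ⟩ := IsCyclic.exists_generator (α := Kˣ)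
  have hκ0 : (κ : K) ≠ 0 := Units.ne_zero κ
  have hXG := e6R3_X_mem φ hφ hP
  have hYG := fun t => (e6R3_Y_mem φ hφ hP t).2
  have hnG : ∀ t, (e6R3 φ).n t ∈ P.G1 := fun t => by
    rw [(e6R3 φ).n_def]; exact mul_mem (mul_mem (hXG _) (hYG _)) (hXG _)
  have hhG : ∀ t, (e6R3 φ).h t ∈ P.G1 := fun t => by
    rw [(e6R3 φ).h_def]; exact mul_mem (hnG _) (hnG _)
  obtain ⟨g0, g1, g2, g3⟩ := eN_G (K := K) (q := q) φ hφ
  have hwG : modelE6.nl K eW ∈ P.G1 := by
    rw [hP]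
    unfold eW
    rw [Model.nl_append, Model.nl_append, Model.nl_append]
    exact mul_mem (mul_mem (mul_mem g0 g1) g2) g3
  set n := modelE6.nl K eW with hn
  set X := (e6R3 φ).X with hX
  rw [← hP]
  refine ⟨(e6R3 φ).h κ, hhG κ, X 1 * n⁻¹, mul_mem (hXG 1) (inv_mem hwG), ?_⟩
  set M := Subgroup.closure ({(e6R3 φ).h (κ : K), X 1 * n⁻¹} : Set (GL chevE6.Idx K)) with hM
  have ha : (e6R3 φ).h (κ : K) ∈ M := Subgroup.subset_closure (by simp)
  have hb : X 1 * n⁻¹ ∈ M := Subgroup.subset_closure (by simp)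
  have hsM : ∀ s : Kˣ, (e6R3 φ).h (s : K) ∈ M := by
    intro s
    obtain ⟨i, hi⟩ : ∃ i : ℕ, κ ^ i = s := by
      have := mem_powers_iff_mem_zpowers.2 (hκ s)
      exact this
    rw [← hi]
    clear hi
    induction i with
    | zero => rw [pow_zero, Units.val_one, (e6R3 φ).h_one]; exact one_mem _
    | succ i ih =>
      rw [pow_succ, Units.val_mul, ← (e6R3 φ).h_mul _ _ (Units.ne_zero _) hκ0]
      exact mul_mem ih ha
  have hconj : ∀ (s : Kˣ) (t : K), (e6R3 φ).h (s : K) * X t * ((e6R3 φ).h (s : K))⁻¹ = X ((s : K) ^ 2 * t) := by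
    intro s t
    rw [hX, (e6R3 φ).hX (Units.ne_zero s), mul_inv_cancel_right]
  let A : AddSubgroup K :=
    { carrier := {t | X t ∈ M}
      zero_mem' := by
        change X 0 ∈ M
        rw [hX, (e6R3 φ).X_zero]; exact one_mem _
      add_mem' := by
        intro s t hs ht
        change X (s + t) ∈ M
        rw [hX, (e6R3 φ).X_add]; exact mul_mem hs ht
      neg_mem' := by
        intro s hs
        change X (-s) ∈ M
        rw [hX, (e6R3 φ).X_neg]; exact inv_mem hs }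
  have hmem : (κ : K) ^ 2 * 1 + ((κ : K)⁻¹ * (-((κ : K) ^ 2 * 1) + 1) + -1) ∈ A := by
    change X _ ∈ M
    set a := (e6R3 φ).h (κ : K) with hadef
    set a' := (e6R2 φ).h (κ : K) with ha'def
    have e1 : (X 1 * n⁻¹) * a * (X 1 * n⁻¹)⁻¹ = X 1 * a' * (X 1)⁻¹ := by
      rw [ha'def, ← eW_h, ← hn, ← hadef]; group
    have h1 : a * (X 1 * a' * (X 1)⁻¹) * a⁻¹ * (X 1 * a' * (X 1)⁻¹)⁻¹ ∈ M := by
      rw [← e1]
      exact mul_mem (mul_mem (mul_mem ha (mul_mem (mul_mem hb ha) (inv_mem hb))) (inv_mem ha))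
        (inv_mem (mul_mem (mul_mem hb ha) (inv_mem hb)))
    have hcomm : a * a' = a' * a := e6_h_comm φ κ κ
    have e2 : a * (X 1 * a' * (X 1)⁻¹) * a⁻¹ * (X 1 * a' * (X 1)⁻¹)⁻¹ =
        (a * X 1 * a⁻¹) * (a' * ((a * X 1 * a⁻¹)⁻¹ * X 1) * a'⁻¹) * (X 1)⁻¹ := by
      have e3 : a * (X 1 * a' * (X 1)⁻¹) * a⁻¹ = (a * X 1 * a⁻¹) * (a * a' * a⁻¹) * (a * X 1 * a⁻¹)⁻¹ := by group
      have e4 : a * a' * a⁻¹ = a' := by rw [hcomm, mul_inv_cancel_right]
      rw [e3, e4]; group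
    rw [e2, hadef, hconj κ 1, hX, ← (e6R3 φ).X_neg, ← (e6R3 φ).X_add, ha'def, e6_act23 φ hφφ _ hκ0, ← (e6R3 φ).X_neg, mul_assoc,
      ← (e6R3 φ).X_add, ← (e6R3 φ).X_add] at h1
    exact h1
  have hA : A = ⊤ := by
    refine Ree.addSub_eq_top A (f := powMonoidHom 2) (fun s hs => ?_) ?_ hmem ?_
    · have h1 : s ^ 2 = 1 := hs
      have h2 := congrArg Units.val h1
      rw [Units.val_pow_eq_pow_val, Units.val_one, sq] at h2
      rcases mul_self_eq_one_iff.1 h2 with h5 | h5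
      · exact Or.inl (Units.ext h5)
      · exact Or.inr (Units.ext (by rw [h5]; simp))
    · intro s a ha
      change X _ ∈ M
      have : ((powMonoidHom 2 s : Kˣ) : K) = (s : K) ^ 2 := by rw [powMonoidHom_apply, Units.val_pow_eq_pow_val]
      rw [this, ← hconj]
      exact mul_mem (mul_mem (hsM s) ha) (inv_mem (hsM s))
    · intro h0
      have h1 : ((κ : K) ^ 2 - 1) * (1 - (κ : K)⁻¹) = 0 := by linear_combination h0
      have h2 : κ ^ 2 = 1 := by
        rcases mul_eq_zero.1 h1 with h | h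
        · exact Units.ext (by rw [Units.val_pow_eq_pow_val, Units.val_one]; exact sub_eq_zero.1 h)
        · have h3 : (κ : K)⁻¹ = 1 := (sub_eq_zero.1 h).symm
          have h4 : κ = 1 := Units.ext (by rw [Units.val_one]; exact inv_eq_one.1 h3)
          rw [h4, one_pow]
      have h3 := orderOf_le_of_pow_eq_one (by norm_num) h2
      rw [orderOf_eq_card_of_forall_mem_zpowers hκ, Nat.card_units, Nat.card_eq_fintype_card, hK] at h3
      have : 2 ^ 2 ≤ q ^ 2 := Nat.pow_le_pow_left hq 2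
      omega
  have hXM : ∀ t, X t ∈ M := fun t => by
    have : t ∈ A := by rw [hA]; trivial
    exact this
  have hnM : n ∈ M := by
    have := mul_mem (inv_mem (hXM 1)) hb
    rw [inv_mul_cancel_left] at this
    exact (inv_mem_iff).1 this
  have hX2M : ∀ t, (e6R2 φ).X t ∈ M := by
    intro t
    have : (e6R2 φ).X t = n⁻¹ * X t * n := by rw [hX, ← eW_X, ← hn]; group
    rw [this]
    exact mul_mem (mul_mem (inv_mem hnM) (hXM t)) hnM
  have sp : ∀ g x y : GL chevE6.Idx K, g * (x * y) * g⁻¹ = (g * x * g⁻¹) * (g * y * g⁻¹) := by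
    intro g x y; group
  have hn6M : modelE6.nl K eW6 ∈ M := by
    unfold eW6
    rw [Model.nl_append, Model.nl_append, Model.nl_append, Model.nl_append, Model.nl_append]
    exact mul_mem (mul_mem (mul_mem (mul_mem (mul_mem hnM hnM) hnM) hnM) hnM) hnM
  have hY2M : ∀ t, (e6R2 φ).Y t ∈ M := by
    intro t
    have h1 : modelE6.nl K eW6 * (e6R2 φ).X (-φ t) * (modelE6.nl K eW6)⁻¹ = (e6R2 φ).Y t := by
      rw [e6R2_X, e6R2_Y, sp, eAct eW6 (r' := 34) (e := -1) (by decide +kernel), eAct eW6 (r' := 29) (e := -1) (by decide +kernel)]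
      simp only [map_neg, Int.cast_neg, Int.cast_one, neg_mul, one_mul, neg_neg, hφφ]
      exact comE6 (by decide +kernel) _ _
    rw [← h1]
    exact mul_mem (mul_mem hn6M (hX2M _)) (inv_mem hn6M)
  have hYM : ∀ t, (e6R3 φ).Y t ∈ M := by
    intro t
    rw [← eW_Y]
    exact mul_mem (mul_mem hnM (hY2M t)) (inv_mem hnM)
  have hN2M : modelE6.nl K eN2 ∈ M := by
    rw [eN2_eq φ]
    exact mul_mem (mul_mem (hX2M _) (hY2M _)) (hX2M _)
  have hN3M : modelE6.nl K eN3 ∈ M := by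
    rw [eN3_eq φ]
    exact mul_mem (mul_mem (hXM _) (hYM _)) (hXM _)
  have hV43 : modelE6.nl K eV43 ∈ M := by
    unfold eV43
    rw [Model.nl_append, Model.nl_append, Model.nl_append, Model.nl_append]
    exact mul_mem (mul_mem (mul_mem (mul_mem hN2M hnM) hnM) hN3M) hnM
  have hV32 : modelE6.nl K eV32 ∈ M := by
    unfold eV32
    rw [Model.nl_append, Model.nl_append, Model.nl_append]
    exact mul_mem (mul_mem (mul_mem hnM hnM) hN3M) hnM
  have hV25 : modelE6.nl K eV25 ∈ M := by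
    unfold eV25
    rw [Model.nl_append, Model.nl_append]
    exact mul_mem (mul_mem hnM hN3M) hnM
  have hV46 : modelE6.nl K eV46 ∈ M := by
    unfold eV46
    rw [Model.nl_append, Model.nl_append, Model.nl_append, Model.nl_append, Model.nl_append]
    exact mul_mem (mul_mem (mul_mem (mul_mem (mul_mem hnM hN3M) hN2M) hnM) hN3M) hN2M
  have hw : modelE6.X 43 (1 : K) * modelE6.X 40 (-1) ∈ M := by
    have h1 : modelE6.nl K eV43 * (e6R2 φ).X (-1) * (modelE6.nl K eV43)⁻¹ = modelE6.X 43 (1 : K) * modelE6.X 40 (-1) := by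
      rw [e6R2_X, sp, eAct eV43 (r' := 43) (e := -1) (by decide +kernel), eAct eV43 (r' := 40) (e := 1) (by decide +kernel)]
      simp only [map_neg, map_one, Int.cast_neg, Int.cast_one, neg_mul, one_mul, neg_neg]
    rw [← h1]
    exact mul_mem (mul_mem hV43 (hX2M _)) (inv_mem hV43)
  have hMM : ⁅M, M⁆ ≤ M := Subgroup.commutator_le.2 fun a ha b hb => by
    rw [commutatorElement_def]; exact mul_mem (mul_mem (mul_mem ha hb) (inv_mem ha)) (inv_mem hb)
  have l39 : ∀ c : K, φ c = c → modelE6.X 39 c ∈ M := by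
    intro c hφc
    obtain ⟨x0, hx0⟩ := exists_tr2 hq hK
    rw [← hφ] at hx0
    set τ := x0 + φ x0 with hτ
    have hφτ : φ τ = τ := by rw [hτ, map_add, hφφ]; ring
    let t := -(c / τ) * x0
    have hv : modelE6.X 29 t * modelE6.X 34 (φ t) ∈ M := by
      have := hY2M t
      rwa [e6R2_Y] at this
    have key := comm_pair (S := M) (relE6 (a := 29) (c := 43) (e := 1) (by decide +kernel) (by decide +kernel) t 1)
      (comE6 (by decide +kernel) _ _) (comE6 (by decide +kernel) _ _)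
      (relE6 (a := 34) (c := 40) (e := -1) (by decide +kernel) (by decide +kernel) (φ t) (-1))
      (comE6 (by decide +kernel) _ _) (comE6 (by decide +kernel) _ _) hv hw
    rw [← modelE6.X_add] at key
    have e : -((1 : ℤ) : K) * (t * 1) + -((-1 : ℤ) : K) * (φ t * -1) = c := by
      have h1 : φ t = -(c / τ) * φ x0 := by
        change φ (-(c / τ) * x0) = _
        rw [map_mul, map_neg, map_div₀, hφτ, hφc]
      rw [h1]
      have h3 : c = (c / τ) * τ := by field_simp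
      conv_rhs => rw [h3, hτ]
      simp only [Int.cast_one, Int.cast_neg]
      change -1 * (-(c / τ) * x0 * 1) + _ = _
      ring
    rw [e] at key
    exact hMM key
  have hneg : ∀ c : K, φ c = c → φ (-c) = -c := fun c hc => by rw [map_neg, hc]
  have l32 : ∀ c : K, φ c = c → modelE6.X 32 c ∈ M := by
    intro c hc
    have h1 : modelE6.nl K eV32 * modelE6.X 39 (-c) * (modelE6.nl K eV32)⁻¹ = modelE6.X 32 c := by
      rw [eAct eV32 (r' := 32) (e := -1) (by decide +kernel)]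
      simp only [Int.cast_neg, Int.cast_one, neg_mul, one_mul, neg_neg]
    rw [← h1]
    exact mul_mem (mul_mem hV32 (l39 _ (hneg c hc))) (inv_mem hV32)
  have l25 : ∀ c : K, φ c = c → modelE6.X 25 c ∈ M := by
    intro c hc
    have h1 : modelE6.nl K eV25 * modelE6.X 39 (-c) * (modelE6.nl K eV25)⁻¹ = modelE6.X 25 c := by
      rw [eAct eV25 (r' := 25) (e := -1) (by decide +kernel)]
      simp only [Int.cast_neg, Int.cast_one, neg_mul, one_mul, neg_neg]
    rw [← h1]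
    exact mul_mem (mul_mem hV25 (l39 _ (hneg c hc))) (inv_mem hV25)
  have l46 : ∀ c : K, φ c = c → modelE6.X 46 c ∈ M := by
    intro c hc
    have h1 : modelE6.nl K eV46 * modelE6.X 39 c * (modelE6.nl K eV46)⁻¹ = modelE6.X 46 c := by
      rw [eAct eV46 (r' := 46) (e := 1) (by decide +kernel)]
      simp only [Int.cast_one, one_mul]
    rw [← h1]
    exact mul_mem (mul_mem hV46 (l39 c hc)) (inv_mem hV46)
  refine e6_le φ hφ P hP (fun t => ?_) (fun t => ?_) (fun t => ?_) (fun t => ?_) hX2M hY2M hXM hYM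
  · rw [e6R0_X]; exact l46 _ t.2
  · rw [e6R0_Y]; exact l25 _ t.2
  · rw [e6R1_X]; exact l39 _ t.2
  · rw [e6R1_Y]; exact l32 _ t.2

end E6

end Cfsg.Agent.H6.Chev
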