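import Mathlib
import Cfsg.Agent.S0636

/-!
`p`-groups, `p` odd, of automorphisms of an elementary abelian group with constant stabiliser orders.
-/

set_option autoImplicit false
set_option linter.unusedSectionVars false

namespace Cfsg.Agent.H6.HT

open Subgroup

section tr

variable {P E : Type*} [Group P] [AddCommGroup E] [DistribMulAction P E] (p : ℕ)

/-- the trace of an element of order `p` -/
def T (g : P) (a : E) : E := ∑ i ∈ Finset.range p, g ^ i • a

theorem T_fix {g : P} (hg : g ^ p = 1) (a : E) : g • T p g a = T p g a := by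
  unfold T
  rw [Finset.smul_sum]
  have h1 := Finset.sum_range_succ (fun i => g ^ i • a) p
  have h2 := Finset.sum_range_succ' (fun i => g ^ i • a) p
  rw [h1, hg, pow_zero] at h2
  have h3 := add_right_cancel h2
  rw [h3]
  apply Finset.sum_congr rfl
  intro i _
  rw [← mul_smul, ← pow_succ']

theorem T_of_fix {g : P} {a : E} (h : g • a = a) : T p g a = p • a := by
  unfold T
  have h1 : ∀ i : ℕ, g ^ i • a = a := by
    intro i
    induction i with
    | zero => rw [pow_zero, one_smul]
    | succ i ih => rw [pow_succ, mul_smul, h, ih]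
  simp only [h1, Finset.sum_const, Finset.card_range]

theorem T_add (g : P) (a b : E) : T p g (a + b) = T p g a + T p g b := by
  unfold T
  rw [← Finset.sum_add_distrib]
  apply Finset.sum_congr rfl
  intro i _
  rw [smul_add]

theorem T_comm {g h : P} (hgh : h * g = g * h) (a : E) : h • T p g a = T p g (h • a) := by
  unfold T
  rw [Finset.smul_sum]
  apply Finset.sum_congr rfl
  intro i _
  rw [← mul_smul, ← mul_smul, (show Commute h g from hgh).pow_right i]

theorem T_sub {g : P} (hg : g ^ p = 1) (a : E) : T p g (g • a - a) = 0 := by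
  have h1 := T_add p g (g • a - a) a
  rw [sub_add_cancel, ← T_comm p rfl, T_fix p hg] at h1
  exact (add_eq_right.1 h1.symm)

end tr

theorem exists_central_mem {G : Type*} [Group G] [Finite G] {p : ℕ} [hp : Fact p.Prime] (hG : IsPGroup p G)
    (A : Subgroup G) [hA : A.Normal] (hA1 : A ≠ ⊥) : ∃ g ∈ A, g ∈ center G ∧ g ≠ 1 := by
  classical
  let _ : MulAction G A := MulAction.compHom A (MulAut.conjNormal : G →* MulAut A)
  have hsm : ∀ (g : G) (a : A), ((g • a : A) : G) = g * a * g⁻¹ := fun g a => rfl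
  have h1 : p ∣ Nat.card A := by
    obtain ⟨n, hn⟩ := (hG.to_subgroup A).exists_card_eq
    rw [hn]
    apply dvd_pow_self
    rintro rfl
    rw [pow_zero] at hn
    exact hA1 (Subgroup.card_eq_one.1 hn)
  have h2 := hG.exists_fixed_point_of_prime_dvd_card_of_fixed_point A h1 (a := 1) (fun g => by
    apply Subtype.ext
    rw [hsm]; simp)
  obtain ⟨b, hb, hb1⟩ := h2
  refine ⟨b, b.2, ?_, fun h => hb1 (Subtype.ext h.symm)⟩
  rw [mem_center_iff]
  intro g
  have := congrArg Subtype.val (hb g)
  rw [hsm] at this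
  exact mul_inv_eq_iff_eq_mul.1 this

section main

variable {P E : Type*} [Group P] [Finite P] [AddCommGroup E] [Finite E] [DistribMulAction P E] [FaithfulSMul P E]
  {p : ℕ} [hpf : Fact p.Prime] (hp2 : p ≠ 2) (hP : IsPGroup p P) (hp0 : ∀ a : E, p • a = 0 → a = 0)
  (hconst : ∀ a b : E, a ≠ 0 → b ≠ 0 → Nat.card (MulAction.stabilizer P a) = Nat.card (MulAction.stabilizer P b))

theorem eq_one_of_fix {g : P} (h : ∀ a : E, g • a = a) : g = 1 :=
  FaithfulSMul.eq_of_smul_eq_smul (α := E) fun a => by rw [h, one_smul]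

include hconst in
theorem stab_eq {a b : E} (ha : a ≠ 0) (hb : b ≠ 0) (h : ∀ g : P, g • a = a → g • b = b) (g : P) :
    g • b = b → g • a = a := by
  intro hg
  have h1 : MulAction.stabilizer P a ≤ MulAction.stabilizer P b := fun x hx => h x hx
  have h2 := Subgroup.eq_of_le_of_card_ge h1 (hconst b a hb ha).le
  have : g ∈ MulAction.stabilizer P b := hg
  rw [← h2] at this
  exact this

include hp0 hconst

theorem central_free {g : P} (hg : g ∈ center P) (hgp : g ^ p = 1) (hg1 : g ≠ 1) {a : E} (h : g • a = a) : a = 0 := by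
  by_contra ha
  have hgc := mem_center_iff.1 hg
  obtain ⟨b, hb⟩ : ∃ b : E, g • b ≠ b := by
    by_contra hcon
    push Not at hcon
    exact hg1 (eq_one_of_fix hcon)
  have hw : g • b - b ≠ 0 := sub_ne_zero.2 hb
  have hTw := T_sub p hgp b
  have hTa := T_of_fix p h
  have hc : a + (g • b - b) ≠ 0 := by
    intro h0
    apply ha
    apply hp0
    have h1 := T_add p g a (g • b - b)
    rw [h0, hTw, add_zero, hTa] at h1
    rw [← h1]
    unfold T; simp
  have key : ∀ x : P, x • (a + (g • b - b)) = a + (g • b - b) → x • a = a ∧ x • (g • b - b) = g • b - b := by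
    intro x hx
    have h1 : T p g (x • (a + (g • b - b))) = T p g (a + (g • b - b)) := by rw [hx]
    rw [smul_add, T_add, T_add, ← T_comm p (hgc x), ← T_comm p (hgc x), hTw, hTa, smul_zero, add_zero, add_zero,
      (show x • (p • a) = p • (x • a) from map_nsmul (DistribSMul.toAddMonoidHom E x) p a)] at h1
    have h2 : x • a = a := by
      have : p • (x • a - a) = 0 := by rw [nsmul_sub, h1, sub_self]
      exact sub_eq_zero.1 (hp0 _ this)
    refine ⟨h2, ?_⟩
    rw [smul_add, h2] at hx
    exact add_left_cancel hx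
  have h1 := stab_eq hconst hc ha (fun x hx => (key x hx).1) g h
  have h2 := (key g h1).2
  rw [T_of_fix p h2] at hTw
  exact hw (hp0 _ hTw)

include hp2 hP

theorem main_cyclic [Nontrivial E] : IsCyclic P := by
  by_contra hnc
  obtain ⟨A, -, hAn, ⟨hAc, hAp⟩, hAcard⟩ := Cfsg.Agent.S0636.result hp2 hP ⊤ (fun h => hnc
    (isCyclic_of_surjective (topEquiv (G := P)).toMonoidHom (topEquiv (G := P)).surjective))
  have hpp : p.Prime := hpf.out
  have hcomm : ∀ x ∈ A, ∀ y ∈ A, x * y = y * x := fun x hx y hy => congrArg Subtype.val (hAc.is_comm.comm ⟨x, hx⟩ ⟨y, hy⟩)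
  obtain ⟨g, hgA, hgZ, hg1⟩ := exists_central_mem hP A (by
    rintro rfl
    rw [Subgroup.card_bot] at hAcard
    have := hpp.one_lt
    nlinarith)
  have hgfree : ∀ a : E, g • a = a → a = 0 := fun a => central_free hp0 hconst hgZ (hAp g hgA) hg1
  have hord : ∀ b ∈ A, b ≠ 1 → orderOf b = p := fun b hb hb1 => orderOf_eq_prime (hAp b hb) hb1
  -- two independent elements generate
  have gen : ∀ b ∈ A, ∀ c ∈ A, b ≠ 1 → c ∉ zpowers b → ∀ y ∈ A, y ∈ closure ({b, c} : Set P) := by
    intro b hb c hc hb1 hcb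
    have hle : closure ({b, c} : Set P) ≤ A := by
      rw [closure_le]
      rintro x (rfl | rfl)
      · exact hb
      · exact hc
    have hzb : zpowers b ≤ closure ({b, c} : Set P) := by
      rw [zpowers_le]; exact subset_closure (by simp)
    have hcm : c ∈ closure ({b, c} : Set P) := subset_closure (by simp)
    have h1 : Nat.card (closure ({b, c} : Set P)) ∣ p ^ 2 := by rw [← hAcard]; exact card_dvd_of_le hle
    obtain ⟨k, hk, hk'⟩ := (Nat.dvd_prime_pow hpp).1 h1
    have h2 : p ∣ Nat.card (closure ({b, c} : Set P)) := by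
      rw [← hord b hb hb1, ← Nat.card_zpowers]; exact card_dvd_of_le hzb
    have h3 : Nat.card (closure ({b, c} : Set P)) ≠ p := by
      intro h
      apply hcb
      have := Subgroup.eq_of_le_of_card_ge hzb (by rw [h, Nat.card_zpowers, hord b hb hb1])
      rw [this]; exact hcm
    have h4 : k = 2 := by
      interval_cases k
      · rw [hk', pow_zero] at h2; exact absurd (Nat.dvd_one.1 h2) hpp.one_lt.ne'
      · rw [hk', pow_one] at h3; exact absurd rfl h3
      · rfl
    have h5 : closure ({b, c} : Set P) = A := Subgroup.eq_of_le_of_card_ge hle (by rw [hk', h4, hAcard])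
    intro y hy
    rw [h5]; exact hy
  have fix2 : ∀ b ∈ A, ∀ c ∈ A, b ≠ 1 → c ∉ zpowers b → ∀ a : E, b • a = a → c • a = a → a = 0 := by
    intro b hb c hc hb1 hcb a h1 h2
    apply hgfree
    have h3 : closure ({b, c} : Set P) ≤ MulAction.stabilizer P a := by
      rw [closure_le]
      rintro x (rfl | rfl)
      · exact h1
      · exact h2
    exact h3 (gen b hb c hc hb1 hcb g hgA)
  have Tz : ∀ b ∈ A, ∀ c ∈ A, b ≠ 1 → c ∉ zpowers b → ∀ a : E, c • a = a → T p b a = 0 := by
    intro b hb c hc hb1 hcb a h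
    refine fix2 b hb c hc hb1 hcb _ (T_fix p (hAp b hb) a) ?_
    rw [T_comm p (hcomm c hc b hb), h]
  -- a fixed vector
  obtain ⟨b, hbA, hbg, v, hv0, hbv⟩ : ∃ b ∈ A, b ∉ zpowers g ∧ ∃ v : E, v ≠ 0 ∧ b • v = v := by
    by_contra hcon
    push Not at hcon
    obtain ⟨a, ha⟩ := exists_ne (0 : E)
    obtain ⟨b0, hb0, hb0g⟩ : ∃ b0 ∈ A, b0 ∉ zpowers g := by
      by_contra hcon2
      push Not at hcon2
      have h1 : A ≤ zpowers g := hcon2
      have h2 := Nat.le_of_dvd (by rw [Nat.card_zpowers]; exact orderOf_pos g) (card_dvd_of_le h1)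
      rw [hAcard, Nat.card_zpowers, hord g hgA hg1] at h2
      have := hpp.one_lt
      nlinarith
    apply ha
    apply hp0
    have hbi : ∀ i : ℕ, b0 * g ^ i ∈ A := fun i => mul_mem hb0 (pow_mem hgA i)
    have hbi' : ∀ i : ℕ, b0 * g ^ i ∉ zpowers g := by
      intro i h
      apply hb0g
      have : b0 = (b0 * g ^ i) * (g ^ i)⁻¹ := by group
      rw [this]
      exact mul_mem h (inv_mem (pow_mem (mem_zpowers g) i))
    have h0 : ∀ i : ℕ, T p (b0 * g ^ i) a = 0 := by
      intro i
      by_contra h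
      exact hcon _ (hbi i) (hbi' i) _ h (T_fix p (hAp _ (hbi i)) a)
    have h1 : ∑ i ∈ Finset.range p, T p (b0 * g ^ i) a = 0 := Finset.sum_eq_zero fun i _ => h0 i
    unfold T at h1
    rw [Finset.sum_comm] at h1
    have h2 : ∀ j ∈ Finset.range p, j ≠ 0 → ∑ i ∈ Finset.range p, (b0 * g ^ i) ^ j • a = 0 := by
      intro j hj hj0
      have e1 : ∀ i : ℕ, (b0 * g ^ i) ^ j • a = b0 ^ j • ((g ^ j) ^ i • a) := by
        intro i
        have hc : Commute b0 (g ^ i) := hcomm _ hb0 _ (pow_mem hgA i)
        rw [hc.mul_pow, mul_smul, ← pow_mul, ← pow_mul, mul_comm i j]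
      simp only [e1]
      rw [← Finset.smul_sum]
      have h3 : T p (g ^ j) a = 0 := by
        apply hgfree
        have h4 : (g ^ j) • T p (g ^ j) a = T p (g ^ j) a := T_fix p (by rw [← pow_mul, mul_comm, pow_mul, hAp g hgA, one_pow]) a
        have h5 : g ∈ zpowers (g ^ j) := by
          have hj' : j < p := Finset.mem_range.1 hj
          have hcop : Nat.Coprime (orderOf g) j := by
            rw [hord g hgA hg1]
            exact (Nat.Prime.coprime_iff_not_dvd hpp).2 fun hd => by
              have := Nat.le_of_dvd (Nat.pos_of_ne_zero hj0) hd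
              omega
          have h6 : Nat.card (zpowers (g ^ j)) = Nat.card (zpowers g) := by
            rw [Nat.card_zpowers, Nat.card_zpowers, hcop.orderOf_pow]
          have h7 : zpowers (g ^ j) ≤ zpowers g := by
            rw [zpowers_le]; exact pow_mem (mem_zpowers g) j
          rw [Subgroup.eq_of_le_of_card_ge h7 h6.ge]
          exact mem_zpowers g
        have h8 : zpowers (g ^ j) ≤ MulAction.stabilizer P (T p (g ^ j) a) := by
          rw [zpowers_le]; exact h4
        exact h8 h5
      unfold T at h3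
      rw [h3, smul_zero]
    rw [Finset.sum_eq_single 0 h2 (fun h => absurd (Finset.mem_range.2 hpp.pos) h)] at h1
    simpa using h1
  have hb1 : b ≠ 1 := by rintro rfl; exact hbg (one_mem _)
  -- a conjugate
  obtain ⟨x, hx⟩ : ∃ x : P, x * b * x⁻¹ ∉ zpowers b := by
    by_contra hcon
    push Not at hcon
    have hn : (zpowers b).Normal := by
      constructor
      rintro _ ⟨i, rfl⟩ x
      change x * b ^ i * x⁻¹ ∈ zpowers b
      rw [← conj_zpow]
      exact zpow_mem (hcon x) i
    obtain ⟨c, hc, hcZ, hc1⟩ := exists_central_mem hP (zpowers b) (by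
      intro h
      exact hb1 (zpowers_eq_bot.1 h))
    obtain ⟨i, rfl⟩ := hc
    have h1 : (b ^ i) • v = v := by
      have : zpowers b ≤ MulAction.stabilizer P v := by rw [zpowers_le]; exact hbv
      exact this ⟨i, rfl⟩
    exact hv0 (central_free hp0 hconst hcZ (hAp _ (zpow_mem hbA i)) hc1 h1)
  set b' := x * b * x⁻¹ with hb'
  have hb'A : b' ∈ A := hAn.conj_mem b hbA x
  have hb'1 : b' ≠ 1 := by
    intro h; apply hx; rw [h]; exact one_mem _
  have hbb' : b ∉ zpowers b' := by
    intro h
    apply hx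
    have h1 : zpowers b ≤ zpowers b' := by rw [zpowers_le]; exact h
    have h2 := Subgroup.eq_of_le_of_card_ge h1 (by rw [Nat.card_zpowers, Nat.card_zpowers, hord _ hbA hb1, hord _ hb'A hb'1])
    rw [h2]; exact mem_zpowers _
  have hv'0 : x • v ≠ 0 := fun h => hv0 ((smul_eq_zero_iff_eq x).1 h)
  have hb'v : b' • (x • v) = x • v := by
    rw [hb', ← mul_smul, inv_mul_cancel_right, mul_smul, hbv]
  obtain ⟨v', hv'⟩ : ∃ v' : E, v' = x • v := ⟨_, rfl⟩
  rw [← hv'] at hv'0 hb'v
  have Tb'v : T p b' v = 0 := Tz b' hb'A b hbA hb'1 hbb' v hbv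
  have Tbv' : T p b v' = 0 := Tz b hbA b' hb'A hb1 hx v' hb'v
  have Tbv : T p b v = p • v := T_of_fix p hbv
  have Tb'v' : T p b' v' = p • v' := T_of_fix p hb'v
  have hw0 : v + v' ≠ 0 := by
    intro h0
    apply hv0
    apply hp0
    have h1 := T_add p b v v'
    rw [h0, Tbv, Tbv', add_zero] at h1
    rw [← h1]
    unfold T; simp
  -- powers of conjugates
  have hzc : ∀ (h c d : P), c ≠ 1 → c ∈ A → d ∈ A → h * c * h⁻¹ ∈ zpowers d → d ≠ 1 → d ∈ zpowers (h * c * h⁻¹) := by
    intro h c d hc1 hcA hdA hm hd1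
    have hne : h * c * h⁻¹ ≠ 1 := by
      intro h0
      apply hc1
      have : c = h⁻¹ * (h * c * h⁻¹) * h := by group
      rw [this, h0]; group
    have h1 : zpowers (h * c * h⁻¹) ≤ zpowers d := by rw [zpowers_le]; exact hm
    have h2 := Subgroup.eq_of_le_of_card_ge h1 (by
      rw [Nat.card_zpowers, Nat.card_zpowers, hord _ hdA hd1, hord _ (hAn.conj_mem c hcA h) hne])
    rw [h2]; exact mem_zpowers _
  have key : ∀ h : P, h • (v + v') = v + v' → h • v = v ∧ h • v' = v' := by
    intro h hh
    rw [smul_add] at hh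
    have f1 : (h * b * h⁻¹) • (h • v) = h • v := by rw [← mul_smul, inv_mul_cancel_right, mul_smul, hbv]
    have f2 : (h * b' * h⁻¹) • (h • v') = h • v' := by rw [← mul_smul, inv_mul_cancel_right, mul_smul, hb'v]
    have m1 : h * b * h⁻¹ ∈ A := hAn.conj_mem b hbA h
    have m2 : h * b' * h⁻¹ ∈ A := hAn.conj_mem b' hb'A h
    have hcase : h * b * h⁻¹ ∈ zpowers b := by
      by_contra hnb
      have g1 : T p b (h • v) = 0 := Tz b hbA _ m1 hb1 hnb _ f1
      have g2 : T p b (h • v') ≠ 0 := by
        intro h0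
        have := congrArg (T p b) hh
        rw [T_add, T_add, g1, h0, Tbv, Tbv', add_zero, add_zero] at this
        exact hv0 (hp0 _ this.symm)
      have g3 : h * b' * h⁻¹ ∈ zpowers b := by
        by_contra h0
        exact g2 (Tz b hbA _ m2 hb1 h0 _ f2)
      have g4 : h * b' * h⁻¹ ∉ zpowers b' := by
        intro h0
        have h1 := hzc h b' b hb'1 hb'A hbA g3 hb1
        have h2 : zpowers (h * b' * h⁻¹) ≤ zpowers b' := by rw [zpowers_le]; exact h0
        exact hbb' (h2 h1)
      have g5 : T p b' (h • v') = 0 := Tz b' hb'A _ m2 hb'1 g4 _ f2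
      have g6 : T p b' (h • v) ≠ 0 := by
        intro h0
        have := congrArg (T p b') hh
        rw [T_add, T_add, g5, h0, Tb'v, Tb'v', add_zero, zero_add] at this
        exact hv'0 (hp0 _ this.symm)
      have g7 : h * b * h⁻¹ ∈ zpowers b' := by
        by_contra h0
        exact g6 (Tz b' hb'A _ m1 hb'1 h0 _ f1)
      -- `h ^ 2` normalises
      have g8 : ∀ y ∈ zpowers b', h * y * h⁻¹ ∈ zpowers b := by
        rintro _ ⟨i, rfl⟩
        change h * b' ^ i * h⁻¹ ∈ zpowers b
        rw [← conj_zpow]; exact zpow_mem g3 i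
      have g9 : h ^ 2 ∈ normalizer (zpowers b : Set P) := by
        rw [mem_normalizer_iff]
        have hmap : ∀ y ∈ zpowers b, h ^ 2 * y * (h ^ 2)⁻¹ ∈ zpowers b := by
          rintro _ ⟨i, rfl⟩
          have e : h ^ 2 * b ^ i * (h ^ 2)⁻¹ = h * ((h * b * h⁻¹) ^ i) * h⁻¹ := by
            rw [conj_zpow, pow_two]; group
          change h ^ 2 * b ^ i * (h ^ 2)⁻¹ ∈ zpowers b
          rw [e]
          exact g8 _ (zpow_mem g7 i)
        have hfin : (zpowers b).map (MulAut.conj (h ^ 2)).toMonoidHom = zpowers b := by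
          apply Subgroup.eq_of_le_of_card_ge
          · rintro _ ⟨y, hy, rfl⟩
            exact hmap y hy
          · rw [Subgroup.card_map_of_injective (MulAut.conj (h ^ 2)).injective]
        intro y
        constructor
        · exact hmap y
        · intro hy
          have hy' : h ^ 2 * y * (h ^ 2)⁻¹ ∈ (zpowers b).map (MulAut.conj (h ^ 2)).toMonoidHom := by rw [hfin]; exact hy
          obtain ⟨z, hz, hzy⟩ := hy'
          have : z = y := by
            have h3 : h ^ 2 * z * (h ^ 2)⁻¹ = h ^ 2 * y * (h ^ 2)⁻¹ := hzy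
            exact mul_left_cancel (mul_right_cancel h3)
          rw [← this]; exact hz
      have g10 : h ∈ zpowers (h ^ 2) := by
        obtain ⟨k, hk⟩ := IsPGroup.iff_orderOf.1 hP h
        have hodd : Nat.Coprime (orderOf h) 2 := by
          rw [hk]
          exact Nat.Coprime.pow_left k ((Nat.coprime_primes hpp Nat.prime_two).2 hp2)
        have h6 : Nat.card (zpowers (h ^ 2)) = Nat.card (zpowers h) := by
          rw [Nat.card_zpowers, Nat.card_zpowers, hodd.orderOf_pow]
        have h7 : zpowers (h ^ 2) ≤ zpowers h := by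
          rw [zpowers_le]; exact pow_mem (mem_zpowers h) 2
        rw [Subgroup.eq_of_le_of_card_ge h7 h6.ge]
        exact mem_zpowers h
      have g11 : h ∈ normalizer (zpowers b : Set P) := by
        have : zpowers (h ^ 2) ≤ normalizer (zpowers b : Set P) := by rw [zpowers_le]; exact g9
        exact this g10
      exact hnb ((mem_normalizer_iff.1 g11 b).1 (mem_zpowers b))
    have hb_fix : b • (h • v) = h • v := by
      have h1 := hzc h b b hb1 hbA hbA hcase hb1
      have h2 : zpowers (h * b * h⁻¹) ≤ MulAction.stabilizer P (h • v) := by rw [zpowers_le]; exact f1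
      exact h2 h1
    have hnb' : h * b' * h⁻¹ ∉ zpowers b := by
      intro h0
      have h1 := hzc h b' b hb'1 hb'A hbA h0 hb1
      -- both conjugates generate `⟨b⟩`
      have h2 : zpowers (h * b * h⁻¹) ≤ zpowers b := by rw [zpowers_le]; exact hcase
      have h3 : h * b * h⁻¹ ∈ zpowers (h * b' * h⁻¹) := by
        have : zpowers b ≤ zpowers (h * b' * h⁻¹) := by rw [zpowers_le]; exact h1
        exact this hcase
      obtain ⟨i, hi⟩ := h3
      apply hbb'
      refine ⟨i, ?_⟩
      have h4 : (h * b' * h⁻¹) ^ i = h * b * h⁻¹ := hi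
      rw [conj_zpow] at h4
      exact mul_left_cancel (mul_right_cancel h4)
    have e1 : T p b (h • v') = 0 := Tz b hbA _ m2 hb1 hnb' _ f2
    have e2 := congrArg (T p b) hh
    rw [T_add, T_add, e1, T_of_fix p hb_fix, Tbv, Tbv', add_zero, add_zero] at e2
    have e3 : h • v = v := by
      have : p • (h • v - v) = 0 := by rw [nsmul_sub, e2, sub_self]
      exact sub_eq_zero.1 (hp0 _ this)
    refine ⟨e3, ?_⟩
    rw [e3] at hh
    exact add_left_cancel hh
  have h1 := stab_eq hconst hw0 hv0 (fun h hh => (key h hh).1) b hbv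
  have h2 := (key b h1).2
  exact hv'0 (fix2 b hbA b' hb'A hb1 hx v' h2 hb'v)

end main

end Cfsg.Agent.H6.HT
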