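import Mathlib
import Cfsg.Agent.H6_InvE8
import Cfsg.Agent.H6_ChevCox2

/-! Involutions of groups of type E8: orders of centralizers. -/

set_option autoImplicit false
set_option maxRecDepth 100000

namespace Cfsg.Agent.H6.Chev

open Cfsg Cfsg.Lie Cfsg.Lie.ChevalleyDatum

theorem cardWgE8 : Nat.card modelE8.Wg = 696729600 := by
  exact modelE8.card_Wg.trans ((modelE8.card_cox CoxeterMatrix.E₈ coxE8).symm.trans cardWE8)

theorem ckcarE8 : ∀ i < 8, ∀ j < 8, i ≠ j → Even (tabE8.c i (nth tabE8.S j)) →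
    Even (tabE8.c j (nth tabE8.S i)) → tabE8.c i (nth tabE8.S j) = 0 := by
  decide +kernel

theorem hcarE8 (i j : Fin chevE8.rank) (hij : i ≠ j) (h1 : Even (chevE8.cartan i (chevE8.simple j)))
    (h2 : Even (chevE8.cartan j (chevE8.simple i))) : chevE8.cartan i (chevE8.simple j) = 0 := by
  have hl : chevE8.rank = 8 := rfl
  have hc : ∀ i < 8, ∀ j < 8, chevE8.cartan i (chevE8.simple j) = tabE8.c i (nth tabE8.S j) := by
    intro i hi j hj
    rw [baseE8.simple_eq hj]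
    exact baseE8.cartan_eq hi (Tab.S_facts baseE8 checksE8 hj).1
  rw [hc i i.2 j j.2] at h1 ⊢
  rw [hc j j.2 i i.2] at h2
  exact ckcarE8 i i.2 j j.2 (fun h => hij (Fin.ext h)) h1 h2

section

variable {F : Type*} [Field F] [Fintype F]

theorem hinjE8 : ∀ b b' : ℕ → Fˣ, modelE8.hHom b = modelE8.hHom b' → ∀ i < chevE8.rank, b i = b' i :=
  modelE8.hinj_of_card (torE8' rfl)

theorem prnE80 {q : ℕ} (hq : 1 ≤ q) : (q - 1) ^ 8 * prP stsE80 q = (q ^ 2 - 1) ^ 2 * (q ^ 6 - 1) * (q ^ 8 - 1) * (q ^ 10 - 1) * (q ^ 12 - 1) * (q ^ 14 - 1) * (q ^ 18 - 1) := by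
  have h := przE80 (q : ℤ)
  have e : ∀ d, ((q ^ d - 1 : ℕ) : ℤ) = (q : ℤ) ^ d - 1 := fun d => by
    rw [Nat.cast_sub (Nat.one_le_pow _ _ hq)]; simp
  have e' : ((q - 1 : ℕ) : ℤ) = (q : ℤ) - 1 := by rw [Nat.cast_sub hq]; simp
  apply Nat.cast_injective (R := ℤ)
  unfold stsE80
  simp only [prP_cons, prP_nil, Nat.cast_mul, Nat.cast_pow, poly_cast, Nat.cast_one, e', e]
  linear_combination h

theorem centE80 (hF : Odd (Fintype.card F)) (s : ↥(chevE8.group F))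
    (hs : (s : GL chevE8.Idx F) = modelE8.hHom (sgn F 2)) :
    Nat.card (Subgroup.centralizer ({s} : Set ↥(chevE8.group F))) =
      Fintype.card F ^ 64 * ((Fintype.card F ^ 2 - 1) ^ 2 * (Fintype.card F ^ 6 - 1) * (Fintype.card F ^ 8 - 1) * (Fintype.card F ^ 10 - 1) * (Fintype.card F ^ 12 - 1) * (Fintype.card F ^ 14 - 1) * (Fintype.card F ^ 18 - 1)) := by
  have h2 := two_ne_zero_of_odd hF
  have h1 : 1 * Nat.card (chevE8.diagonalSubgroup F) = (Fintype.card F - 1) ^ 8 := torE8' rfl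
  rw [one_mul] at h1
  have h3 := modelE8.card_mask (F := F) h2 baseE8 checksE8 ckivE8 ckclsE80 cksubE80 (J := 255)
    (by decide +kernel) ckchE80 (by norm_num) (by rw [cardWgE8, pr1E80]) ckpE80 s hs
  rw [h3, h1, mul_assoc, prnE80 Fintype.card_pos]

theorem prnE81 {q : ℕ} (hq : 1 ≤ q) : (q - 1) ^ 8 * prP stsE81 q = (q ^ 8 - 1) * (q ^ 2 - 1) * (q ^ 4 - 1) * (q ^ 6 - 1) * (q ^ 8 - 1) * (q ^ 10 - 1) * (q ^ 12 - 1) * (q ^ 14 - 1) := by
  have h := przE81 (q : ℤ)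
  have e : ∀ d, ((q ^ d - 1 : ℕ) : ℤ) = (q : ℤ) ^ d - 1 := fun d => by
    rw [Nat.cast_sub (Nat.one_le_pow _ _ hq)]; simp
  have e' : ((q - 1 : ℕ) : ℤ) = (q : ℤ) - 1 := by rw [Nat.cast_sub hq]; simp
  apply Nat.cast_injective (R := ℤ)
  unfold stsE81
  simp only [prP_cons, prP_nil, Nat.cast_mul, Nat.cast_pow, poly_cast, Nat.cast_one, e', e]
  linear_combination h

theorem centE81 (hF : Odd (Fintype.card F)) (s : ↥(chevE8.group F))
    (hs : (s : GL chevE8.Idx F) = modelE8.hHom (sgn F 160)) :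
    Nat.card (Subgroup.centralizer ({s} : Set ↥(chevE8.group F))) =
      Fintype.card F ^ 56 * ((Fintype.card F ^ 8 - 1) * (Fintype.card F ^ 2 - 1) * (Fintype.card F ^ 4 - 1) * (Fintype.card F ^ 6 - 1) * (Fintype.card F ^ 8 - 1) * (Fintype.card F ^ 10 - 1) * (Fintype.card F ^ 12 - 1) * (Fintype.card F ^ 14 - 1)) := by
  have h2 := two_ne_zero_of_odd hF
  have h1 : 1 * Nat.card (chevE8.diagonalSubgroup F) = (Fintype.card F - 1) ^ 8 := torE8' rfl
  rw [one_mul] at h1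
  have h3 := modelE8.card_mask (F := F) h2 baseE8 checksE8 ckivE8 ckclsE81 cksubE81 (J := 255)
    (by decide +kernel) ckchE81 (by norm_num) (by rw [cardWgE8, pr1E81]) ckpE81 s hs
  rw [h3, h1, mul_assoc, prnE81 Fintype.card_pos]

end

end Cfsg.Agent.H6.Chev
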