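import Mathlib
import Cfsg.Agent.H6_InvF4
import Cfsg.Agent.H6_ChevCox2

/-! Involutions of groups of type F4: orders of centralizers. -/

set_option autoImplicit false
set_option maxRecDepth 100000

namespace Cfsg.Agent.H6.Chev

open Cfsg Cfsg.Lie Cfsg.Lie.ChevalleyDatum

theorem cardWgF4 : Nat.card modelF4.Wg = 1152 := by
  exact modelF4.card_Wg.trans ((modelF4.card_cox CoxeterMatrix.F₄ coxF4).symm.trans cardWF4)

theorem ckcarF4 : ∀ i < 4, ∀ j < 4, i ≠ j → Even (tabF4.c i (nth tabF4.S j)) →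
    Even (tabF4.c j (nth tabF4.S i)) → tabF4.c i (nth tabF4.S j) = 0 := by
  decide +kernel

theorem hcarF4 (i j : Fin chevF4.rank) (hij : i ≠ j) (h1 : Even (chevF4.cartan i (chevF4.simple j)))
    (h2 : Even (chevF4.cartan j (chevF4.simple i))) : chevF4.cartan i (chevF4.simple j) = 0 := by
  have hl : chevF4.rank = 4 := rfl
  have hc : ∀ i < 4, ∀ j < 4, chevF4.cartan i (chevF4.simple j) = tabF4.c i (nth tabF4.S j) := by
    intro i hi j hj
    rw [baseF4.simple_eq hj]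
    exact baseF4.cartan_eq hi (Tab.S_facts baseF4 checksF4 hj).1
  rw [hc i i.2 j j.2] at h1 ⊢
  rw [hc j j.2 i i.2] at h2
  exact ckcarF4 i i.2 j j.2 (fun h => hij (Fin.ext h)) h1 h2

section

variable {F : Type*} [Field F] [Fintype F]

theorem hinjF4 : ∀ b b' : ℕ → Fˣ, modelF4.hHom b = modelF4.hHom b' → ∀ i < chevF4.rank, b i = b' i :=
  modelF4.hinj_of_card (torF4' rfl)

theorem prnF40 {q : ℕ} (hq : 1 ≤ q) : (q - 1) ^ 4 * prP stsF40 q = (q ^ 2 - 1) * (q ^ 4 - 1) * (q ^ 6 - 1) * (q ^ 8 - 1) := by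
  have h := przF40 (q : ℤ)
  have e : ∀ d, ((q ^ d - 1 : ℕ) : ℤ) = (q : ℤ) ^ d - 1 := fun d => by
    rw [Nat.cast_sub (Nat.one_le_pow _ _ hq)]; simp
  have e' : ((q - 1 : ℕ) : ℤ) = (q : ℤ) - 1 := by rw [Nat.cast_sub hq]; simp
  apply Nat.cast_injective (R := ℤ)
  unfold stsF40
  simp only [prP_cons, prP_nil, Nat.cast_mul, Nat.cast_pow, poly_cast, Nat.cast_one, e', e]
  linear_combination h

theorem centF40 (hF : Odd (Fintype.card F)) (s : ↥(chevF4.group F))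
    (hs : (s : GL chevF4.Idx F) = modelF4.hHom (sgn F 1)) :
    Nat.card (Subgroup.centralizer ({s} : Set ↥(chevF4.group F))) =
      Fintype.card F ^ 16 * ((Fintype.card F ^ 2 - 1) * (Fintype.card F ^ 4 - 1) * (Fintype.card F ^ 6 - 1) * (Fintype.card F ^ 8 - 1)) := by
  have h2 := two_ne_zero_of_odd hF
  have h1 : 1 * Nat.card (chevF4.diagonalSubgroup F) = (Fintype.card F - 1) ^ 4 := torF4' rfl
  rw [one_mul] at h1
  have h3 := modelF4.card_mask (F := F) h2 baseF4 checksF4 ckivF4 ckclsF40 cksubF40 (J := 15)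
    (by decide +kernel) ckchF40 (by norm_num) (by rw [cardWgF4, pr1F40]) ckpF40 s hs
  rw [h3, h1, mul_assoc, prnF40 Fintype.card_pos]

theorem prnF41 {q : ℕ} (hq : 1 ≤ q) : (q - 1) ^ 4 * prP stsF41 q = (q ^ 2 - 1) ^ 2 * (q ^ 4 - 1) * (q ^ 6 - 1) := by
  have h := przF41 (q : ℤ)
  have e : ∀ d, ((q ^ d - 1 : ℕ) : ℤ) = (q : ℤ) ^ d - 1 := fun d => by
    rw [Nat.cast_sub (Nat.one_le_pow _ _ hq)]; simp
  have e' : ((q - 1 : ℕ) : ℤ) = (q : ℤ) - 1 := by rw [Nat.cast_sub hq]; simp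
  apply Nat.cast_injective (R := ℤ)
  unfold stsF41
  simp only [prP_cons, prP_nil, Nat.cast_mul, Nat.cast_pow, poly_cast, Nat.cast_one, e', e]
  linear_combination h

theorem centF41 (hF : Odd (Fintype.card F)) (s : ↥(chevF4.group F))
    (hs : (s : GL chevF4.Idx F) = modelF4.hHom (sgn F 4)) :
    Nat.card (Subgroup.centralizer ({s} : Set ↥(chevF4.group F))) =
      Fintype.card F ^ 10 * ((Fintype.card F ^ 2 - 1) ^ 2 * (Fintype.card F ^ 4 - 1) * (Fintype.card F ^ 6 - 1)) := by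
  have h2 := two_ne_zero_of_odd hF
  have h1 : 1 * Nat.card (chevF4.diagonalSubgroup F) = (Fintype.card F - 1) ^ 4 := torF4' rfl
  rw [one_mul] at h1
  have h3 := modelF4.card_mask (F := F) h2 baseF4 checksF4 ckivF4 ckclsF41 cksubF41 (J := 15)
    (by decide +kernel) ckchF41 (by norm_num) (by rw [cardWgF4, pr1F41]) ckpF41 s hs
  rw [h3, h1, mul_assoc, prnF41 Fintype.card_pos]

end

end Cfsg.Agent.H6.Chev
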