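import Mathlib
import Cfsg.Agent.H6_MR1

/-!
Homomorphisms from Steinberg's group given by sparse integer matrices (minuscule representations), part 2.
-/

set_option autoImplicit false
set_option linter.unusedSectionVars false

namespace Cfsg.Agent.H6.MR

open Cfsg.Lie

section Alg

variable {F R : Type*} [Field F] [Ring R] [Algebra F R] {a b : R}

theorem n_eq (haa : a * a = 0) (haba : a * b * a = a) {t : F} (ht : t ≠ 0) :
    (1 + t • a) * (1 + (-t⁻¹) • b) * (1 + t • a) = 1 - a * b - b * a + t • a - t⁻¹ • b := by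
  have e1 : a * (b * a) = a := by rw [← mul_assoc, haba]
  simp only [mul_add, add_mul, one_mul, mul_one, smul_mul_assoc, mul_smul_comm, smul_smul, mul_assoc, haa, e1, smul_zero]
  match_scalars <;> field_simp <;> ring

theorem h_eq (haa : a * a = 0) (hbb : b * b = 0) (haba : a * b * a = a) (hbab : b * a * b = b) {t : F} :
    (1 - a * b - b * a + t • a - t⁻¹ • b) * (1 - a * b - b * a + (-1 : F) • a - (-1 : F)⁻¹ • b) =
      1 - a * b - b * a + t • (a * b) + t⁻¹ • (b * a) := by
  have e1 : a * (b * a) = a := by rw [← mul_assoc, haba]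
  have e2 : b * (a * b) = b := by rw [← mul_assoc, hbab]
  have e3 : ∀ x, a * (a * x) = 0 := fun x => by rw [← mul_assoc, haa, zero_mul]
  have e4 : ∀ x, b * (b * x) = 0 := fun x => by rw [← mul_assoc, hbb, zero_mul]
  have e5 : (-1 : F)⁻¹ = -1 := by norm_num
  rw [e5]
  simp only [mul_add, add_mul, mul_sub, sub_mul, one_mul, mul_one, smul_mul_assoc, mul_smul_comm, smul_smul, mul_assoc,
    haa, hbb, e1, e2, e3, e4, smul_zero, neg_smul, one_smul, mul_neg, neg_mul, smul_neg, mul_zero, zero_mul]
  module

theorem h_mul (haa : a * a = 0) (hbb : b * b = 0) (haba : a * b * a = a) (hbab : b * a * b = b) {t u : F} :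
    (1 - a * b - b * a + t • (a * b) + t⁻¹ • (b * a)) * (1 - a * b - b * a + u • (a * b) + u⁻¹ • (b * a)) =
      1 - a * b - b * a + (t * u) • (a * b) + (t * u)⁻¹ • (b * a) := by
  have e1 : a * (b * a) = a := by rw [← mul_assoc, haba]
  have e2 : b * (a * b) = b := by rw [← mul_assoc, hbab]
  have e3 : ∀ x, a * (a * x) = 0 := fun x => by rw [← mul_assoc, haa, zero_mul]
  have e4 : ∀ x, b * (b * x) = 0 := fun x => by rw [← mul_assoc, hbb, zero_mul]
  rw [mul_inv]
  simp only [mul_add, add_mul, mul_sub, sub_mul, one_mul, mul_one, smul_mul_assoc, mul_smul_comm, smul_smul, mul_assoc,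
    haa, hbb, e1, e2, e3, e4, smul_zero, neg_smul, one_smul, mul_neg, neg_mul, smul_neg, mul_zero, zero_mul]
  module

end Alg

section Rep

/-- the check for a pair of roots -/
def ckPair (D : ChevalleyDatum) (E : ℕ → SM) (r s : ℕ) : Bool :=
  match D.commTerms r s with
  | [] => isZ (mulS (E s) (E r) ++ sc (-1) (mulS (E r) (E s)))
  | (p, c, i, j) :: l => l.isEmpty && Nat.beq i 1 && Nat.beq j 1 &&
      isZ (mulS (E s) (E r) ++ (sc (-1) (mulS (E r) (E s)) ++ sc c (E p))) &&
      isZ (mulS (E r) (E p)) && isZ (mulS (E s) (E p))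

/-- the check for a single root -/
def ckOne (D : ChevalleyDatum) (E : ℕ → SM) (r : ℕ) : Bool :=
  isZ (mulS (E r) (E r)) && isZ (mulS (mulS (E r) (E (D.neg r))) (E r) ++ sc (-1) (E r)) &&
    Nat.beq (D.neg (D.neg r)) r && Nat.blt (D.neg r) D.nroots

/-- the check for a row of pairs -/
def ckRow (D : ChevalleyDatum) (E : ℕ → SM) (r : ℕ) : Bool :=
  ckOne D E r && (List.range D.nroots).all fun s => Nat.beq s r || Nat.beq s (D.neg r) || ckPair D E r s

variable {D : ChevalleyDatum} {ι : Type*} [Fintype ι] [DecidableEq ι] {code : ι → ℕ} {E : ℕ → SM}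

/-- a representation with square-zero root elements -/
structure Rep (D : ChevalleyDatum) {ι : Type*} (code : ι → ℕ) (E : ℕ → SM) : Prop where
  inj : Function.Injective code
  bd : ∀ r, Bd code (E r)
  ge : ∀ r, D.nroots ≤ r → E r = []
  ck : ∀ r, r < D.nroots → ckRow D E r = true

namespace Rep

variable (S : Rep D code E) (F : Type*) [Field F]

include S in
theorem ckOne' {r : ℕ} (hr : r < D.nroots) : isZ (mulS (E r) (E r)) = true ∧
    isZ (mulS (mulS (E r) (E (D.neg r))) (E r) ++ sc (-1) (E r)) = true ∧ D.neg (D.neg r) = r ∧ D.neg r < D.nroots := by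
  have h := S.ck r hr
  unfold ckRow ckOne at h
  simp only [Bool.and_eq_true] at h
  obtain ⟨⟨⟨⟨h1, h2⟩, h3⟩, h4⟩, _⟩ := h
  refine ⟨h1, h2, Nat.eq_of_beq_eq_true h3, ?_⟩
  simpa [Nat.blt] using h4

include S in
theorem pair {r s : ℕ} (hr : r < D.nroots) (hs : s < D.nroots) (h1 : s ≠ r) (h2 : s ≠ D.neg r) : ckPair D E r s = true := by
  have h := S.ck r hr
  unfold ckRow at h
  rw [Bool.and_eq_true] at h
  have h3 := List.all_eq_true.1 h.2 s (List.mem_range.2 hs)
  rw [nbeq h1, nbeq h2, Bool.or_false, Bool.false_or] at h3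
  exact h3

variable (code E) in
/-- the root matrix -/
def M (r : ℕ) : Matrix ι ι F := ev code F (E r)

include S in
theorem M_mul (r s : ℕ) : M code E F r * M code E F s = ev code F (mulS (E r) (E s)) := ev_mul F S.inj (S.bd r) _

include S in
theorem M_ge {r : ℕ} (hr : D.nroots ≤ r) : M code E F r = 0 := by
  unfold M
  rw [S.ge r hr]
  exact ev_zero code F rfl

include S in
theorem M_sq (r : ℕ) : M code E F r * M code E F r = 0 := by
  by_cases hr : r < D.nroots
  · rw [S.M_mul, ev_zero code F (S.ckOne' hr).1]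
  · rw [S.M_ge F (not_lt.1 hr), zero_mul]

theorem bd_mulS {A B : SM} (hB : Bd code B) : Bd code (mulS A B) := by
  intro e he
  induction A with
  | nil => simp [mulS] at he
  | cons a A ih =>
    rw [mulS, List.mem_append] at he
    rcases he with he | he
    · clear ih
      induction B with
      | nil => simp [mulE] at he
      | cons b B ihB =>
        rw [mulE] at he
        cases hab : Nat.beq a.2.1 b.1 with
        | true =>
          rw [hab, cond_true, List.mem_cons] at he
          rcases he with rfl | he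
          · exact hB b List.mem_cons_self
          · exact ihB (fun e he => hB e (List.mem_cons_of_mem _ he)) he
        | false =>
          rw [hab, cond_false] at he
          exact ihB (fun e he => hB e (List.mem_cons_of_mem _ he)) he
    · exact ih he

include S in
theorem M_tri {r : ℕ} (hr : r < D.nroots) : M code E F r * M code E F (D.neg r) * M code E F r = M code E F r := by
  have h := ev_zero code F (S.ckOne' hr).2.1
  rw [ev_append, ev_sc, ← ev_mul F S.inj (bd_mulS (S.bd _)), ← ev_mul F S.inj (S.bd _)] at h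
  have h' : M code E F r * M code E F (D.neg r) * M code E F r - M code E F r = 0 := by
    rw [← h]; unfold M; push_cast; module
  exact sub_eq_zero.1 h'

/-- the root elements -/
def X (r : ℕ) (t : F) : GL ι F where
  val := 1 + t • M code E F r
  inv := 1 - t • M code E F r
  val_inv := by
    simp only [mul_sub, add_mul, mul_one, one_mul, smul_mul_smul_comm, S.M_sq, smul_zero]
    abel
  inv_val := by
    simp only [mul_add, sub_mul, mul_one, one_mul, smul_mul_smul_comm, S.M_sq, smul_zero]
    abel

theorem coe_X (r : ℕ) (t : F) : ((S.X F r t : GL ι F) : Matrix ι ι F) = 1 + t • M code E F r := rfl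

theorem X_add (r : ℕ) (t u : F) : S.X F r t * S.X F r u = S.X F r (t + u) := by
  apply Units.ext
  rw [Units.val_mul, coe_X, coe_X, coe_X]
  simp only [mul_add, add_mul, mul_one, one_mul, smul_mul_smul_comm, S.M_sq, smul_zero]
  module

theorem X_ge {r : ℕ} (hr : D.nroots ≤ r) (t : F) : S.X F r t = 1 := by
  apply Units.ext
  rw [coe_X, S.M_ge F hr, smul_zero, add_zero]; rfl

theorem X_comm {r s : ℕ} (hr : r < D.nroots) (hs : s < D.nroots) (h1 : s ≠ r) (h2 : s ≠ D.neg r) (t u : F) :
    S.X F s u * S.X F r t = S.X F r t * S.X F s u * ((D.commWord F r s t u).map fun p => S.X F p.1 p.2).prod := by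
  have hp := S.pair hr hs h1 h2
  unfold ckPair at hp
  unfold ChevalleyDatum.commWord
  match hc : D.commTerms r s, hp with
  | [], hp =>
    rw [List.map_nil, List.map_nil, List.prod_nil, mul_one]
    apply Units.ext
    rw [Units.val_mul, Units.val_mul, coe_X, coe_X]
    have h := ev_zero code F hp
    rw [ev_append, ev_sc, ← S.M_mul, ← S.M_mul] at h
    have h' : M code E F s * M code E F r = M code E F r * M code E F s := by
      rw [← sub_eq_zero, ← h]; push_cast; module
    simp only [mul_add, add_mul, mul_one, one_mul, smul_mul_smul_comm, h']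
    module
  | (p, c, i, j) :: l, hp =>
    simp only [Bool.and_eq_true] at hp
    obtain ⟨⟨⟨⟨⟨hl, hi⟩, hj⟩, e1⟩, e2⟩, e3⟩ := hp
    have hl' : l = [] := List.isEmpty_iff.1 hl
    have hi' := Nat.eq_of_beq_eq_true hi
    have hj' := Nat.eq_of_beq_eq_true hj
    subst hl' hi' hj'
    simp only [List.map_cons, List.map_nil, List.prod_cons, List.prod_nil, mul_one, pow_one]
    apply Units.ext
    rw [Units.val_mul, Units.val_mul, Units.val_mul, coe_X, coe_X, coe_X]
    have f1 := ev_zero code F e1
    have f2 := ev_zero code F e2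
    have f3 := ev_zero code F e3
    rw [ev_append, ev_append, ev_sc, ev_sc, ← S.M_mul, ← S.M_mul] at f1
    rw [← S.M_mul] at f2 f3
    have f1' : M code E F s * M code E F r = M code E F r * M code E F s - (c : F) • M code E F p := by
      rw [← sub_eq_zero, ← f1]
      unfold M
      push_cast; module
    simp only [mul_add, add_mul, mul_one, one_mul, smul_mul_assoc, mul_smul_comm, smul_smul, mul_assoc, f1', f2, f3,
      smul_zero, smul_sub, mul_zero]
    module

theorem X_h {r : ℕ} (hr : r < D.nroots) {t : F} (ht : t ≠ 0) :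
    ((((D.hWord r t).map fun p => S.X F p.1 p.2).prod : GL ι F) : Matrix ι ι F) =
    1 - M code E F r * M code E F (D.neg r) - M code E F (D.neg r) * M code E F r +
      t • (M code E F r * M code E F (D.neg r)) + t⁻¹ • (M code E F (D.neg r) * M code E F r) := by
  obtain ⟨_, _, hnn, hnr⟩ := S.ckOne' hr
  have haa := S.M_sq F r
  have hbb := S.M_sq F (D.neg r)
  have haba := S.M_tri F hr
  have hbab := S.M_tri F hnr
  rw [hnn] at hbab
  have hm1 : (-1 : F) ≠ 0 := neg_ne_zero.2 one_ne_zero
  unfold ChevalleyDatum.hWord ChevalleyDatum.nWord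
  rw [← h_eq haa hbb haba hbab, ← n_eq haa haba ht, ← n_eq haa haba hm1]
  simp only [List.cons_append, List.nil_append, List.map_cons, List.map_nil, List.prod_cons, List.prod_nil, mul_one,
    Units.val_mul, coe_X, mul_assoc]

/-- the homomorphism from Steinberg's group -/
theorem exists_hom : ∃ f : D.SteinbergGroup F →* GL ι F, ∀ (r : ℕ) (t : F), r < D.nroots →
    f (D.stGen F r t) = S.X F r t := by
  refine MR.exists_hom (S.X F) (fun r t hr => S.X_ge F hr t) (fun r t u _ => S.X_add F r t u)
    (fun r s t u hr hs h1 h2 => S.X_comm F hr hs h1 h2 t u) ?_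
  intro r t u hr ht hu
  obtain ⟨_, _, hnn, hnr⟩ := S.ckOne' hr
  have hbab := S.M_tri F hnr
  rw [hnn] at hbab
  apply Units.ext
  rw [Units.val_mul, S.X_h F hr ht, S.X_h F hr hu, S.X_h F hr (mul_ne_zero ht hu)]
  exact h_mul (S.M_sq F r) (S.M_sq F (D.neg r)) (S.M_tri F hr) hbab

end Rep

end Rep

end Cfsg.Agent.H6.MR
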