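import Mathlib
import Cfsg.Agent.H6_MR2

/-!
The eight-dimensional representation of Steinberg's group of type `D₄`.
-/

set_option autoImplicit false
set_option linter.unusedSectionVars false
set_option maxRecDepth 100000

namespace Cfsg.Agent.H6.MR

open Cfsg.Lie

/-- the root matrices -/
def listD4 : List SM :=
 [[(4, 1, -1), (5, 0, 1)],
  [(4, 2, -1), (6, 0, 1)],
  [(3, 0, 1), (4, 7, -1)],
  [(4, 3, -1), (7, 0, 1)],
  [(2, 0, -1), (4, 6, 1)],
  [(1, 0, 1), (4, 5, -1)],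
  [(5, 2, 1), (6, 1, -1)],
  [(3, 1, -1), (5, 7, 1)],
  [(5, 3, 1), (7, 1, -1)],
  [(2, 1, 1), (5, 6, -1)],
  [(3, 2, 1), (6, 7, -1)],
  [(6, 3, -1), (7, 2, 1)],
  [(2, 7, 1), (3, 6, -1)],
  [(2, 3, 1), (7, 6, -1)],
  [(1, 2, 1), (6, 5, -1)],
  [(1, 7, -1), (3, 5, 1)],
  [(1, 3, -1), (7, 5, 1)],
  [(1, 6, -1), (2, 5, 1)],
  [(0, 1, 1), (5, 4, -1)],
  [(0, 2, -1), (6, 4, 1)],
  [(0, 7, 1), (3, 4, -1)],
  [(0, 3, 1), (7, 4, -1)],
  [(0, 6, 1), (2, 4, -1)],
  [(0, 5, 1), (1, 4, -1)]]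

/-- the root matrices -/
def ED4 (r : ℕ) : SM := listD4.getD r []

/-- coding of the index set -/
def codeD4 : Fin 4 ⊕ Fin 4 → ℕ := Sum.elim (fun i => i.val) (fun i => 4 + i.val)

theorem codeD4_inj : Function.Injective codeD4 := by decide +kernel

theorem nrD4 : chevD4.nroots = 24 := rfl

theorem ckD4 : (List.range 24).all (fun r => ckRow chevD4 ED4 r) = true := by decide +kernel

theorem bdD4' : listD4.all (fun A => A.all fun e => decide (e.2.1 < 8)) = true := by decide +kernel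

theorem code_surj (k : ℕ) (hk : k < 8) : ∃ i, codeD4 i = k := by
  by_cases h : k < 4
  · exact ⟨Sum.inl ⟨k, h⟩, rfl⟩
  · exact ⟨Sum.inr ⟨k - 4, by omega⟩, by show 4 + (k - 4) = k; omega⟩

theorem bdD4 (r : ℕ) : Bd codeD4 (ED4 r) := by
  intro e he
  apply code_surj
  by_cases hr : r < listD4.length
  · unfold ED4 at he
    rw [List.getD_eq_getElem _ _ hr] at he
    have h1 := List.all_eq_true.1 bdD4' _ (List.getElem_mem hr)
    have h2 := List.all_eq_true.1 h1 e he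
    exact of_decide_eq_true h2
  · unfold ED4 at he
    rw [List.getD_eq_default _ _ (not_lt.1 hr)] at he
    simp at he

theorem repD4 : Rep chevD4 codeD4 ED4 where
  inj := codeD4_inj
  bd := bdD4
  ge := fun r hr => by
    unfold ED4
    rw [List.getD_eq_default _ _ hr]
  ck := fun r hr => List.all_eq_true.1 ckD4 r (List.mem_range.2 hr)

end Cfsg.Agent.H6.MR
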