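import Mathlib
import Cfsg.Agent.H16_Sieg

/-!
Orthogonal groups of split quadratic spaces over arbitrary fields: the commutator subgroup of the
isometry group is generated by the root elements.
-/

set_option autoImplicit false
set_option linter.unusedSectionVars false

namespace Cfsg.Agent.H6.Ort

open QuadraticMap (polar)
open Cfsg.Agent.H16.Quad hiding map_smul map_add map_sub

variable {F V : Type*} [Field F] [AddCommGroup V] [Module F V] {Q : QuadraticForm F V} {n : ℕ}

theorem qsmul (a : F) (x : V) : Q (a • x) = a * a * Q x := H16.Quad.map_smul Q a x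
theorem qadd (x y : V) : Q (x + y) = Q x + Q y + polar Q x y := H16.Quad.map_add Q x y
theorem qsub (x y : V) : Q (x - y) = Q x + Q y - polar Q x y := H16.Quad.map_sub Q x y

/-- a frame of a split space -/
structure Frame (Q : QuadraticForm F V) (n : ℕ) where
  b : Fin n → Bool → V
  z : V
  qb : ∀ i s, Q (b i s) = 0
  bb : ∀ i s j s', polar Q (b i s) (b j s') = if i = j ∧ s ≠ s' then 1 else 0
  zb : ∀ i s, polar Q z (b i s) = 0
  ex : ∀ v, ∃ c : F, v = (∑ i, ∑ s, polar Q v (b i (!s)) • b i s) + c • z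
  hz : z = 0 ∨ Q z = 1

namespace Frame

variable (P : Frame Q n)

theorem bb_ne {i j : Fin n} (h : i ≠ j) (s s' : Bool) : polar Q (P.b i s) (P.b j s') = 0 := by
  rw [P.bb, if_neg (fun h' => h h'.1)]

theorem bb_self (i : Fin n) (s : Bool) : polar Q (P.b i s) (P.b i s) = 0 := by
  rw [P.bb, if_neg (fun h' => h'.2 rfl)]

theorem bb_not (i : Fin n) (s : Bool) : polar Q (P.b i s) (P.b i (!s)) = 1 := by
  rw [P.bb, if_pos ⟨rfl, by cases s <;> decide⟩]

theorem bb_not' (i : Fin n) (s : Bool) : polar Q (P.b i (!s)) (P.b i s) = 1 := by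
  rw [P.bb, if_pos ⟨rfl, by cases s <;> decide⟩]

theorem bz (i : Fin n) (s : Bool) : polar Q (P.b i s) P.z = 0 := by rw [polar_symm, P.zb]

/-- the root elements -/
def gens : Set (OG Q) :=
  {g | (∃ (i : Fin n) (s : Bool) (j : Fin n) (s' : Bool) (t : F) (h : polar Q (P.b i s) (t • P.b j s') = 0),
      i ≠ j ∧ g = sg (P.qb i s) h) ∨
    ∃ (i : Fin n) (s : Bool) (t : F) (h : polar Q (P.b i s) (t • P.z) = 0), g = sg (P.qb i s) h}

/-- the group generated by the root elements -/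
def H : Subgroup (OG Q) := Subgroup.closure P.gens

theorem sg_mem (i : Fin n) (s : Bool) {y : V} (hy : polar Q (P.b i s) y = 0) : sg (P.qb i s) hy ∈ P.H := by
  let W : AddSubmonoid V :=
    { carrier := {y | polar Q (P.b i s) y = 0 ∧ ∀ hy : polar Q (P.b i s) y = 0, sg (P.qb i s) hy ∈ P.H}
      zero_mem' := ⟨by simp, fun hy => by
        rw [sg_trivial (P.qb i s) hy ⟨0, by simp⟩]; exact Subgroup.one_mem _⟩
      add_mem' := by
        rintro y y' ⟨h1, h2⟩ ⟨h3, h4⟩
        refine ⟨by rw [QuadraticMap.polar_add_right, h1, h3, add_zero], fun hy => ?_⟩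
        rw [← sg_mul (P.qb i s) h1 h3 hy]
        exact Subgroup.mul_mem _ (h2 h1) (h4 h3) }
  have key : y ∈ W := by
    obtain ⟨c, hc⟩ := P.ex y
    rw [hc]
    refine AddSubmonoid.add_mem _ (AddSubmonoid.sum_mem _ fun j _ => AddSubmonoid.sum_mem _ fun s' _ => ?_) ?_
    · by_cases hji : j = i
      · subst hji
        by_cases hs : s' = s
        · subst hs
          refine ⟨by rw [polar_smul_right, P.bb_self, mul_zero], fun h => ?_⟩
          rw [sg_trivial (P.qb j s') h ⟨_, rfl⟩]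
          exact Subgroup.one_mem _
        · have : (!s') = s := by
            revert hs
            clear hy
            cases s <;> cases s' <;> decide
          rw [this, polar_symm, hy, zero_smul]
          exact W.zero_mem
      · refine ⟨by rw [polar_smul_right, P.bb_ne (Ne.symm hji), mul_zero], fun h => ?_⟩
        exact Subgroup.subset_closure (Or.inl ⟨i, s, j, s', _, h, Ne.symm hji, rfl⟩)
    · refine ⟨by rw [polar_smul_right, P.bz, mul_zero], fun h => ?_⟩
      exact Subgroup.subset_closure (Or.inr ⟨i, s, c, h, rfl⟩)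
  exact key.2 hy

/-- fixing the inactive part of the frame -/
def Fx (I : Set (Fin n)) (g : OG Q) : Prop := ∀ j, j ∉ I → ∀ s, g.1 (P.b j s) = P.b j s

/-- vectors orthogonal to the inactive part of the frame -/
def Vx (I : Set (Fin n)) (v : V) : Prop := ∀ j, j ∉ I → ∀ s, polar Q v (P.b j s) = 0

theorem Fx_mul {I : Set (Fin n)} {g h : OG Q} (hg : P.Fx I g) (hh : P.Fx I h) : P.Fx I (g * h) := by
  intro j hj s
  show g.1 (h.1 _) = _
  rw [hh j hj, hg j hj]

theorem Vx_map {I : Set (Fin n)} {g : OG Q} (hg : P.Fx I g) {v : V} (hv : P.Vx I v) : P.Vx I (g.1 v) := by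
  intro j hj s
  rw [← hg j hj s, OG_polar g.2, hv j hj]

theorem sg_Fx {I : Set (Fin n)} {i : Fin n} (hi : i ∈ I) (s : Bool) {y : V} (hy : polar Q (P.b i s) y = 0)
    (hy' : P.Vx I y) : P.Fx I (sg (P.qb i s) hy) := by
  intro j hj s'
  show siegel (P.qb i s) hy _ = _
  have hij : j ≠ i := fun h => hj (h ▸ hi)
  rw [siegel_apply, P.bb_ne hij, polar_symm, hy' j hj]
  simp

/-- moving a singular vector with coefficient one -/
theorem move {I : Set (Fin n)} {i : Fin n} (hi : i ∈ I) (s : Bool) {w : V} (hw : Q w = 0)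
    (hwi : polar Q w (P.b i (!s)) = 1) (hwI : P.Vx I w) :
    ∃ h ∈ P.H, P.Fx I h ∧ h.1 w = P.b i s ∧ h.1 (P.b i (!s)) = P.b i (!s) := by
  have hy : polar Q (P.b i (!s)) (P.b i s - w) = 0 := by
    rw [QuadraticMap.polar_sub_right, P.bb_not', polar_symm, hwi, sub_self]
  refine ⟨sg (P.qb i (!s)) hy, P.sg_mem _ _ _, P.sg_Fx hi _ _ ?_, ?_, ?_⟩
  · intro j hj s'
    have hij : i ≠ j := fun h => hj (h ▸ hi)
    rw [QuadraticMap.polar_sub_left, P.bb_ne hij, hwI j hj, sub_self]
  · show siegel (P.qb i (!s)) hy w = _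
    rw [siegel_apply, hwi, QuadraticMap.polar_sub_right, polar_self, hw, qsub, hw, P.qb, polar_symm Q w (P.b i s)]
    module
  · show siegel (P.qb i (!s)) hy (P.b i (!s)) = _
    rw [siegel_apply, P.bb_self, hy]
    simp

theorem bump {I : Set (Fin n)} {i k : Fin n} (hi : i ∈ I) (hk : k ∈ I) (hik : i ≠ k) (s s' : Bool) {v : V}
    (hvi : polar Q v (P.b i s) ≠ 0) : ∃ h ∈ P.H, P.Fx I h ∧ polar Q (h.1 v) (P.b k (!s')) = 1 := by
  have hy : polar Q (P.b k s') (((polar Q v (P.b k (!s')) - 1) / polar Q v (P.b i s)) • P.b i s) = 0 := by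
    rw [polar_smul_right, P.bb_ne (Ne.symm hik), mul_zero]
  refine ⟨sg (P.qb k s') hy, P.sg_mem _ _ _, P.sg_Fx hk _ _ ?_, ?_⟩
  · intro j hj s''
    have hij : i ≠ j := fun h => hj (h ▸ hi)
    rw [polar_smul_left, P.bb_ne hij, mul_zero]
  · show polar Q (siegel (P.qb k s') hy v) _ = 1
    rw [siegel_apply, qsmul, P.qb, mul_zero, zero_mul, zero_smul, sub_zero, QuadraticMap.polar_sub_left,
      QuadraticMap.polar_add_left, polar_smul_left, polar_smul_left, polar_smul_left, P.bb_ne hik, P.bb_not,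
      polar_smul_right]
    field_simp
    ring

theorem exists_coef {I : Set (Fin n)} {v : V} (hv : Q v = 0) (hv0 : v ≠ 0) (hvI : P.Vx I v) :
    ∃ i ∈ I, ∃ s, polar Q v (P.b i s) ≠ 0 := by
  by_contra hcon
  push Not at hcon
  have h0 : ∀ i s, polar Q v (P.b i s) = 0 := by
    intro i s
    by_cases hi : i ∈ I
    · exact hcon i hi s
    · exact hvI i hi s
  obtain ⟨c, hc⟩ := P.ex v
  simp only [h0, zero_smul, Finset.sum_const_zero, zero_add] at hc
  rcases P.hz with hz | hz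
  · exact hv0 (by rw [hc, hz, smul_zero])
  · rw [hc, qsmul, hz, mul_one] at hv
    have : c = 0 := mul_self_eq_zero.1 hv
    exact hv0 (by rw [hc, this, zero_smul])

/-- transitivity on singular vectors -/
theorem trans {I : Set (Fin n)} {i k : Fin n} (hi : i ∈ I) (hk : k ∈ I) (hik : i ≠ k) (s : Bool) {v : V} (hv : Q v = 0)
    (hv0 : v ≠ 0) (hvI : P.Vx I v) : ∃ h ∈ P.H, P.Fx I h ∧ h.1 v = P.b i s := by
  have key : ∃ h ∈ P.H, P.Fx I h ∧ polar Q (h.1 v) (P.b i (!s)) = 1 := by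
    obtain ⟨j, hj, s', hs'⟩ := P.exists_coef hv hv0 hvI
    by_cases hji : j = i
    · subst hji
      obtain ⟨h1, h1H, h1F, h1v⟩ := P.bump hj hk hik s' s hs'
      obtain ⟨h2, h2H, h2F, h2v⟩ := P.bump hk hj (Ne.symm hik) (!s) s (v := h1.1 v) (by rw [h1v]; exact one_ne_zero)
      exact ⟨h2 * h1, Subgroup.mul_mem _ h2H h1H, P.Fx_mul h2F h1F, h2v⟩
    · exact P.bump hj hi hji s' s hs'
  obtain ⟨h1, h1H, h1F, h1v⟩ := key
  obtain ⟨h2, h2H, h2F, h2v, _⟩ := P.move hi s (w := h1.1 v) (by rw [mem_OG.1 h1.2, hv]) h1v (P.Vx_map h1F hvI)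
  exact ⟨h2 * h1, Subgroup.mul_mem _ h2H h1H, P.Fx_mul h2F h1F, h2v⟩

/-- transitivity on hyperbolic pairs -/
theorem trans_pair {I : Set (Fin n)} {i k : Fin n} (hi : i ∈ I) (hk : k ∈ I) (hik : i ≠ k) (s : Bool) {v w : V}
    (hv : Q v = 0) (hw : Q w = 0) (hvw : polar Q v w = 1) (hvI : P.Vx I v) (hwI : P.Vx I w) :
    ∃ h ∈ P.H, P.Fx I h ∧ h.1 v = P.b i s ∧ h.1 w = P.b i (!s) := by
  have hv0 : v ≠ 0 := by
    rintro rfl
    rw [QuadraticMap.polar_zero_left] at hvw
    exact zero_ne_one hvw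
  obtain ⟨h1, h1H, h1F, h1v⟩ := P.trans hi hk hik s hv hv0 hvI
  obtain ⟨h2, h2H, h2F, h2v, h2w⟩ := P.move hi (!s) (w := h1.1 w) (by rw [mem_OG.1 h1.2, hw])
    (by rw [Bool.not_not, ← h1v, OG_polar h1.2, polar_symm, hvw]) (P.Vx_map h1F hwI)
  rw [Bool.not_not] at h2w
  refine ⟨h2 * h1, Subgroup.mul_mem _ h2H h1H, P.Fx_mul h2F h1F, ?_, h2v⟩
  show h2.1 (h1.1 v) = _
  rw [h1v, h2w]

/-- reducing to the last hyperbolic plane -/
theorem reduce (g : OG Q) (k : ℕ) (hk : k + 1 ≤ n) : ∃ h ∈ P.H, ∀ i : Fin n, i.val < k → ∀ s, (h * g).1 (P.b i s) = P.b i s := by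
  induction k with
  | zero => exact ⟨1, Subgroup.one_mem _, fun i hi => absurd hi (Nat.not_lt_zero _)⟩
  | succ k ih =>
    obtain ⟨h, hH, hfix⟩ := ih (by omega)
    let I : Set (Fin n) := {i | k ≤ i.val}
    have hkI : (⟨k, by omega⟩ : Fin n) ∈ I := le_refl k
    have hkI' : (⟨k + 1, by omega⟩ : Fin n) ∈ I := Nat.le_succ k
    have hne : (⟨k, by omega⟩ : Fin n) ≠ ⟨k + 1, by omega⟩ := by
      intro h
      have := congrArg Fin.val h
      simp at this
    have hV : ∀ s, P.Vx I ((h * g).1 (P.b ⟨k, by omega⟩ s)) := by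
      intro s j hj s'
      have hj' : j.val < k := by
        have : ¬ k ≤ j.val := hj
        omega
      rw [← hfix j hj' s', OG_polar (h * g).2, P.bb_ne]
      intro h
      have := congrArg Fin.val h
      simp only at this
      omega
    obtain ⟨h', h'H, h'F, h1, h2⟩ := P.trans_pair (I := I) hkI hkI' hne true
      (v := (h * g).1 (P.b ⟨k, by omega⟩ true)) (w := (h * g).1 (P.b ⟨k, by omega⟩ false))
      (by rw [mem_OG.1 (h * g).2, P.qb]) (by rw [mem_OG.1 (h * g).2, P.qb])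
      (by rw [OG_polar (h * g).2]; exact P.bb_not _ true) (hV _) (hV _)
    refine ⟨h' * h, Subgroup.mul_mem _ h'H hH, ?_⟩
    intro i hi s
    show h'.1 ((h * g).1 (P.b i s)) = _
    by_cases hik : i.val < k
    · rw [hfix i hik]
      exact h'F i (by
        intro h
        have : k ≤ i.val := h
        omega) s
    · have : i = ⟨k, by omega⟩ := Fin.ext (by simp only; omega)
      rw [this]
      cases s
      · exact h2
      · exact h1

end Frame

end Cfsg.Agent.H6.Ort
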