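import Mathlib
import Cfsg.Agent.H6_Ort1

/-!
Orthogonal groups of split quadratic spaces, part 2: the commutator subgroup is generated by root elements.
-/

set_option autoImplicit false
set_option linter.unusedSectionVars false

namespace Cfsg.Agent.H6.Ort

open QuadraticMap (polar)
open Cfsg.Agent.H16.Quad hiding map_smul map_add map_sub

variable {F V : Type*} [Field F] [AddCommGroup V] [Module F V] {Q : QuadraticForm F V} {n : ℕ}

namespace Frame

variable (P : Frame Q n)

theorem ext_frame {f g : V →ₗ[F] V} (h1 : ∀ i s, f (P.b i s) = g (P.b i s)) (h2 : f P.z = g P.z) : f = g := by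
  ext v
  obtain ⟨c, hc⟩ := P.ex v
  rw [hc]
  simp only [map_add, map_sum, map_smul, h1, h2]

theorem og_ext {f g : OG Q} (h1 : ∀ i s, f.1 (P.b i s) = g.1 (P.b i s)) (h2 : f.1 P.z = g.1 P.z) : f = g := by
  apply Subtype.ext
  apply LinearEquiv.toLinearMap_injective
  exact P.ext_frame h1 h2

/-- the torus of a hyperbolic plane -/
noncomputable def dd (i : Fin n) {a : F} (ha : a ≠ 0) : OG Q :=
  ⟨Cfsg.Agent.H16.Quad.hyp (P.qb i true) (P.qb i false) (P.bb_not i true) ha, hyp_mem _ _ _ ha⟩

theorem dd_apply (i : Fin n) {a : F} (ha : a ≠ 0) (x : V) : (P.dd i ha).1 x =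
    x + ((a - 1) * polar Q x (P.b i false)) • P.b i true + ((a⁻¹ - 1) * polar Q x (P.b i true)) • P.b i false := rfl

theorem dd_true (i : Fin n) {a : F} (ha : a ≠ 0) : (P.dd i ha).1 (P.b i true) = a • P.b i true := by
  have h := P.bb_not i true
  have h' : polar Q (P.b i true) (P.b i false) = 1 := h
  rw [dd_apply, h', P.bb_self]
  module

theorem dd_ne {i j : Fin n} (h : i ≠ j) {a : F} (ha : a ≠ 0) (s : Bool) : (P.dd i ha).1 (P.b j s) = P.b j s := by
  rw [dd_apply, P.bb_ne (Ne.symm h), P.bb_ne (Ne.symm h)]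
  simp

theorem dd_comm (i : Fin n) {a b : F} (ha : a ≠ 0) (hb : b ≠ 0) : P.dd i ha * P.dd i hb = P.dd i hb * P.dd i ha := by
  apply Subtype.ext
  apply LinearEquiv.ext
  intro x
  show hypLin Q _ _ a (hypLin Q _ _ b x) = hypLin Q _ _ b (hypLin Q _ _ a x)
  rw [hypLin_comp (P.qb i true) (P.qb i false) (P.bb_not i true), hypLin_comp (P.qb i true) (P.qb i false) (P.bb_not i true),
    mul_comm]

theorem dd_inv (i : Fin n) {a : F} (ha : a ≠ 0) : (P.dd i ha)⁻¹ = P.dd i (inv_ne_zero ha) := by
  rw [inv_eq_iff_mul_eq_one]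
  apply Subtype.ext
  apply LinearEquiv.ext
  intro x
  show hypLin Q _ _ a (hypLin Q _ _ a⁻¹ x) = x
  rw [hypLin_comp (P.qb i true) (P.qb i false) (P.bb_not i true), mul_inv_cancel₀ ha, hypLin_apply]
  simp

theorem swap_dd (i : Fin n) {a : F} (ha : a ≠ 0) {s : OG Q} (h1 : s.1 (P.b i true) = P.b i false)
    (h2 : s.1 (P.b i false) = P.b i true) : s * P.dd i ha * s⁻¹ = (P.dd i ha)⁻¹ := by
  rw [mul_inv_eq_iff_eq_mul, dd_inv]
  apply Subtype.ext
  apply LinearEquiv.ext
  intro x
  show s.1 ((P.dd i ha).1 x) = (P.dd i (inv_ne_zero ha)).1 (s.1 x)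
  rw [dd_apply, dd_apply, _root_.map_add, _root_.map_add, _root_.map_smul, _root_.map_smul, h1, h2,
    ← OG_polar s.2 x (P.b i false), ← OG_polar s.2 x (P.b i true), h1, h2, inv_inv]
  module

theorem fix_dd (i : Fin n) {a : F} (ha : a ≠ 0) {s : OG Q} (h1 : s.1 (P.b i true) = P.b i true)
    (h2 : s.1 (P.b i false) = P.b i false) : s * P.dd i ha * s⁻¹ = P.dd i ha := by
  rw [mul_inv_eq_iff_eq_mul]
  apply Subtype.ext
  apply LinearEquiv.ext
  intro x
  show s.1 ((P.dd i ha).1 x) = (P.dd i ha).1 (s.1 x)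
  rw [dd_apply, dd_apply, _root_.map_add, _root_.map_add, _root_.map_smul, _root_.map_smul, h1, h2,
    ← OG_polar s.2 x (P.b i false), ← OG_polar s.2 x (P.b i true), h1, h2]

/-- reflections as elements of the isometry group -/
noncomputable def rl (v : V) : OG Q := ⟨refl Q v, refl_mem Q v⟩

theorem rl_apply (v x : V) : (rl (Q := Q) v).1 x = x - ((Q v)⁻¹ * polar Q x v) • v := rfl

theorem last_fix {g : OG Q} (hg : ∀ i s, g.1 (P.b i s) = P.b i s) : g = 1 ∨ (Q P.z = 1 ∧ g = rl P.z) := by
  obtain ⟨c, hc⟩ := P.ex (g.1 P.z)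
  have h0 : ∀ i s, polar Q (g.1 P.z) (P.b i s) = 0 := by
    intro i s
    rw [← hg i s, OG_polar g.2, P.zb]
  simp only [h0, zero_smul, Finset.sum_const_zero, zero_add] at hc
  rcases P.hz with hz | hz
  · left
    apply P.og_ext
    · intro i s; rw [hg]; rfl
    · rw [hz]; simp
  · have h1 : Q (g.1 P.z) = 1 := by rw [mem_OG.1 g.2, hz]
    rw [hc, qsmul, hz, mul_one] at h1
    rcases mul_self_eq_one_iff.1 h1 with h2 | h2
    · left
      apply P.og_ext
      · intro i s; rw [hg]; rfl
      · rw [hc, h2, one_smul]; rfl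
    · right
      refine ⟨hz, P.og_ext ?_ ?_⟩
      · intro i s
        rw [hg, rl_apply, P.bz]; simp
      · rw [hc, h2, rl_apply, polar_self, hz]
        module

theorem rl_z (i : Fin n) (s : Bool) : (rl (Q := Q) P.z).1 (P.b i s) = P.b i s := by
  rw [rl_apply, P.bz]; simp

/-- the swap of a hyperbolic plane -/
noncomputable def sw (i : Fin n) : OG Q := rl (P.b i true - P.b i false)

theorem qsw (i : Fin n) : Q (P.b i true - P.b i false) = -1 := by
  have h' : polar Q (P.b i true) (P.b i false) = 1 := P.bb_not i true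
  rw [qsub, P.qb, P.qb, h']; ring

theorem sw_true (i : Fin n) : (P.sw i).1 (P.b i true) = P.b i false := by
  have h' : polar Q (P.b i true) (P.b i false) = 1 := P.bb_not i true
  rw [sw, rl_apply, P.qsw, QuadraticMap.polar_sub_right, P.bb_self, h']
  module

theorem sw_false (i : Fin n) : (P.sw i).1 (P.b i false) = P.b i true := by
  have h' : polar Q (P.b i false) (P.b i true) = 1 := P.bb_not i false
  rw [sw, rl_apply, P.qsw, QuadraticMap.polar_sub_right, P.bb_self, h']
  module

theorem sw_ne {i j : Fin n} (h : i ≠ j) (s : Bool) : (P.sw i).1 (P.b j s) = P.b j s := by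
  rw [sw, rl_apply, QuadraticMap.polar_sub_right, P.bb_ne (Ne.symm h), P.bb_ne (Ne.symm h)]
  simp

/-- the isometry group is generated by the root elements, a torus and a reflection -/
theorem gen_top (l : Fin n) (hl : l.val + 1 = n) (hn : 2 ≤ n) (K : Subgroup (OG Q)) (hH : P.H ≤ K) (hd : ∀ (a : F) (ha : a ≠ 0), P.dd l ha ∈ K)
    (h0 : P.z = 0 → P.sw l ∈ K) (h1 : Q P.z = 1 → rl P.z ∈ K) : K = ⊤ := by
  rw [eq_top_iff]
  intro g _
  obtain ⟨h, hhH, hfix⟩ := P.reduce g l.val (by omega)
  suffices hs : h * g ∈ K by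
    have : g = h⁻¹ * (h * g) := by group
    rw [this]
    exact K.mul_mem (K.inv_mem (hH hhH)) hs
  generalize h * g = g1 at hfix ⊢
  have hF1 : P.Fx {l} g1 := by
    intro j hj s
    have hj' : j ≠ l := hj
    exact hfix j (by
      have h3 := j.isLt
      have h4 : j.val ≠ l.val := fun h => hj' (Fin.ext h)
      omega) s
  -- the case of a nonzero coefficient
  have keyA : ∀ v : V, Q v = 0 → P.Vx {l} v → polar Q v (P.b l false) ≠ 0 → ∃ k ∈ K, P.Fx {l} k ∧ k.1 v = P.b l true := by
    intro v hv hvI hx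
    obtain ⟨x, hx'⟩ : ∃ x, x = polar Q v (P.b l false) := ⟨_, rfl⟩
    rw [← hx'] at hx
    obtain ⟨h, hhH, hhF, hh1, _⟩ := P.move (I := {l}) (i := l) rfl true (w := x⁻¹ • v) (by rw [qsmul, hv, mul_zero])
      (by rw [polar_smul_left]; show x⁻¹ * polar Q v (P.b l false) = 1; rw [← hx', inv_mul_cancel₀ hx])
      (by intro j hj s; rw [polar_smul_left, hvI j hj, mul_zero])
    refine ⟨(P.dd l hx)⁻¹ * h, K.mul_mem (K.inv_mem (hd _ _)) (hH hhH), ?_, ?_⟩
    · refine P.Fx_mul ?_ hhF
      intro j hj s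
      rw [dd_inv]
      exact P.dd_ne (fun h => hj h.symm) _ s
    · show (P.dd l hx)⁻¹.1 (h.1 v) = _
      have h2 : h.1 v = x • P.b l true := by
        rw [← hh1, _root_.map_smul, smul_smul, mul_inv_cancel₀ hx, one_smul]
      rw [h2, ← P.dd_true l hx]
      show ((P.dd l hx)⁻¹ * P.dd l hx).1 _ = _
      rw [inv_mul_cancel]; rfl
  have keyB : ∀ v : V, Q v = 0 → v ≠ 0 → P.Vx {l} v → ∃ k ∈ K, P.Fx {l} k ∧ k.1 v = P.b l true := by
    intro v hv hv0 hvI
    by_cases hx : polar Q v (P.b l false) = 0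
    · obtain ⟨c, hc⟩ := P.ex v
      have hvv : v = polar Q v (P.b l true) • P.b l false + c • P.z := by
        rw [Finset.sum_eq_single l] at hc
        · rw [Fintype.sum_bool] at hc
          have e1 : (!true) = false := rfl
          have e2 : (!false) = true := rfl
          rw [e1, e2, hx, zero_smul, zero_add] at hc
          exact hc
        · intro j _ hj
          rw [Fintype.sum_bool, hvI j hj, hvI j hj]; simp
        · intro h; exact absurd (Finset.mem_univ _) h
      obtain ⟨y, hy⟩ : ∃ y, y = polar Q v (P.b l true) := ⟨_, rfl⟩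
      rw [← hy] at hvv
      rcases P.hz with hz | hz
      · rw [hz, smul_zero, add_zero] at hvv
        have hy0 : y ≠ 0 := by
          rintro h; rw [h, zero_smul] at hvv; exact hv0 hvv
        have h3 : (P.sw l).1 v = y • P.b l true := by
          rw [hvv, _root_.map_smul, P.sw_false]
        obtain ⟨k, hk, hkF, hk1⟩ := keyA ((P.sw l).1 v) (by rw [mem_OG.1 (P.sw l).2, hv]) (by
          rw [h3]
          intro j hj s
          rw [polar_smul_left, P.bb_ne (fun h => hj h.symm), mul_zero]) (by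
          have h' : polar Q (P.b l true) (P.b l false) = 1 := P.bb_not l true
          rw [h3, polar_smul_left, h', mul_one]; exact hy0)
        refine ⟨k * P.sw l, K.mul_mem hk (h0 hz), P.Fx_mul hkF (fun j hj s => P.sw_ne (fun h => hj h.symm) s), hk1⟩
      · have hc0 : c = 0 := by
          have h4 := hv
          rw [hvv, qadd, qsmul, qsmul, P.qb, hz, polar_smul_left, polar_smul_right, P.bz] at h4
          have : c * c = 0 := by linear_combination h4
          exact mul_self_eq_zero.1 this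
        rw [hc0, zero_smul, add_zero] at hvv
        have hy0 : y ≠ 0 := by
          rintro h; rw [h, zero_smul] at hvv; exact hv0 hvv
        have hyz : polar Q (P.b l true) P.z = 0 := P.bz _ _
        have hF2 : P.Fx {l} (sg (P.qb l true) hyz) := P.sg_Fx (Set.mem_singleton l) true hyz (fun j _ s => P.zb j s)
        have h' : polar Q (P.b l false) (P.b l true) = 1 := P.bb_not l false
        obtain ⟨k, hk, hkF, hk1⟩ := keyA ((sg (P.qb l true) hyz).1 v) (by rw [mem_OG.1 (sg (P.qb l true) hyz).2, hv])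
          (P.Vx_map hF2 hvI) (by
            show polar Q (siegel (P.qb l true) hyz v) _ ≠ 0
            have h'' : polar Q (P.b l true) (P.b l false) = 1 := P.bb_not l true
            rw [siegel_apply, hvv, hz, one_mul, polar_smul_left, polar_smul_left, P.bz, h', QuadraticMap.polar_sub_left,
              QuadraticMap.polar_sub_left, QuadraticMap.polar_add_left, polar_smul_left, polar_smul_left, polar_smul_left,
              polar_smul_left, P.bb_self, P.zb, h'']
            simpa using hy0)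
        exact ⟨k * sg (P.qb l true) hyz, K.mul_mem hk (hH (P.sg_mem _ _ _)), P.Fx_mul hkF hF2, hk1⟩
    · exact keyA v hv hvI hx
  have hbt : polar Q (P.b l true) (P.b l false) = 1 := P.bb_not l true
  obtain ⟨k, hk, hkF, hk1⟩ := keyB (g1.1 (P.b l true)) (by rw [mem_OG.1 g1.2, P.qb]) (by
    intro h
    have h2 : polar Q (g1.1 (P.b l true)) (g1.1 (P.b l false)) = 1 := by rw [OG_polar g1.2, hbt]
    rw [h] at h2
    simp at h2) (by
    intro j hj s
    rw [← hF1 j hj s, OG_polar g1.2, P.bb_ne (fun h => hj h.symm)])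
  have hF2 : P.Fx {l} (k * g1) := P.Fx_mul hkF hF1
  obtain ⟨h, hhH, hhF, hh1, hh2⟩ := P.move (I := {l}) (i := l) rfl false (w := (k * g1).1 (P.b l false))
    (by rw [mem_OG.1 (k * g1).2, P.qb]) (by
      have h3 : (k * g1).1 (P.b l true) = P.b l true := hk1
      show polar Q _ (P.b l true) = 1
      rw [← h3, OG_polar (k * g1).2]
      exact P.bb_not l false) (by
      intro j hj s
      rw [← hF2 j hj s, OG_polar (k * g1).2, P.bb_ne (fun h => hj h.symm)])
  have hall : ∀ i s, (h * (k * g1)).1 (P.b i s) = P.b i s := by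
    intro i s
    by_cases hi : i = l
    · subst hi
      cases s
      · exact hh1
      · show h.1 (k.1 (g1.1 (P.b i true))) = _
        rw [hk1]; exact hh2
    · exact P.Fx_mul hhF hF2 i hi s
  have hmem : h * (k * g1) ∈ K := by
    rcases P.last_fix hall with h5 | ⟨h5, h6⟩
    · rw [h5]; exact K.one_mem
    · rw [h6]; exact h1 h5
  have : g1 = k⁻¹ * (h⁻¹ * (h * (k * g1))) := by group
  rw [this]
  exact K.mul_mem (K.inv_mem hk) (K.mul_mem (K.inv_mem (hH hhH)) hmem)

end Frame

end Cfsg.Agent.H6.Ort
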