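import Mathlib
import Cfsg.Agent.H6_Ort2

/-!
Orthogonal groups of split quadratic spaces, part 3: the commutator subgroup is generated by root elements.
-/

set_option autoImplicit false
set_option linter.unusedSectionVars false

namespace Cfsg.Agent.H6.Ort

open QuadraticMap (polar)
open Cfsg.Agent.H16.Quad hiding map_smul map_add map_sub
open scoped commutatorElement

variable {F V : Type*} [Field F] [AddCommGroup V] [Module F V] {Q : QuadraticForm F V} {n : ℕ}

namespace Frame

variable (P : Frame Q n)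

theorem Vx_univ (v : V) : P.Vx Set.univ v := fun j hj => absurd (Set.mem_univ j) hj

/-- all Siegel transformations are products of root elements -/
theorem sg_mem_H (hn : 2 ≤ n) {u y : V} (hu : Q u = 0) (hy : polar Q u y = 0) : sg hu hy ∈ P.H := by
  by_cases hu0 : u = 0
  · rw [sg_trivial' hu hy hu0]; exact Subgroup.one_mem _
  · have hne : (⟨0, by omega⟩ : Fin n) ≠ ⟨1, by omega⟩ := by
      intro h
      have := congrArg Fin.val h
      simp at this
    obtain ⟨h, hH, _, hh⟩ := P.trans (I := Set.univ) (i := ⟨0, by omega⟩) (k := ⟨1, by omega⟩) (Set.mem_univ _) (Set.mem_univ _)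
      hne true hu hu0 (P.Vx_univ u)
    have h1 : polar Q (P.b ⟨0, by omega⟩ true) (h.1 y) = 0 := by rw [← hh, OG_polar h.2, hy]
    have h2 : h * sg hu hy * h⁻¹ = sg (P.qb _ true) h1 := by
      rw [sg_conj]
      exact sg_congr hh rfl
    have h3 : sg hu hy = h⁻¹ * sg (P.qb _ true) h1 * h := by rw [← h2]; group
    rw [h3]
    exact Subgroup.mul_mem _ (Subgroup.mul_mem _ (Subgroup.inv_mem _ hH) (P.sg_mem _ _ _)) hH

theorem normal (hn : 2 ≤ n) : P.H.Normal := by
  constructor
  intro x hx g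
  induction hx using Subgroup.closure_induction with
  | mem x hx =>
    rcases hx with ⟨i, s, j, s', t, h, _, rfl⟩ | ⟨i, s, t, h, rfl⟩
    · rw [sg_conj]; exact P.sg_mem_H hn _ _
    · rw [sg_conj]; exact P.sg_mem_H hn _ _
  | one => rw [mul_one, mul_inv_cancel]; exact Subgroup.one_mem _
  | mul a b _ _ ha hb =>
    have : g * (a * b) * g⁻¹ = (g * a * g⁻¹) * (g * b * g⁻¹) := by group
    rw [this]; exact Subgroup.mul_mem _ ha hb
  | inv a _ ha =>
    have : g * a⁻¹ * g⁻¹ = (g * a * g⁻¹)⁻¹ := by group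
    rw [this]; exact Subgroup.inv_mem _ ha

theorem commutator_le (hn : 2 ≤ n) : commutator (OG Q) ≤ P.H := by
  have := P.normal hn
  let π : OG Q →* OG Q ⧸ P.H := QuotientGroup.mk' P.H
  have hπ : ∀ g, g ∈ P.H → π g = 1 := fun g hg => (QuotientGroup.eq_one_iff g).2 hg
  obtain ⟨l, hl⟩ : ∃ l : Fin n, l.val + 1 = n := ⟨⟨n - 1, by omega⟩, by simp only; omega⟩
  obtain ⟨k, hkl⟩ : ∃ k : Fin n, l ≠ k := ⟨⟨0, by omega⟩, by
    intro h
    have := congrArg Fin.val h
    simp only at this
    omega⟩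
  -- the commuting subgroups
  let C : OG Q → Subgroup (OG Q) := fun x => (Subgroup.centralizer {π x}).comap π
  have hC : ∀ x g, g ∈ C x ↔ π x * π g = π g * π x := by
    intro x g
    rw [Subgroup.mem_comap, Subgroup.mem_centralizer_singleton_iff]
    exact eq_comm
  have hCH : ∀ x, P.H ≤ C x := by
    intro x g hg
    rw [hC, hπ g hg]; simp
  have hswap : ∀ (a : F) (ha : a ≠ 0), π (P.dd l ha)⁻¹ = π (P.dd l ha) := by
    intro a ha
    obtain ⟨h, hH, _, h1, h2⟩ := P.trans_pair (I := Set.univ) (i := l) (k := k) (Set.mem_univ _) (Set.mem_univ _)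
      hkl false (v := P.b l true) (w := P.b l false) (P.qb _ _) (P.qb _ _) (P.bb_not l true) (P.Vx_univ _) (P.Vx_univ _)
    rw [← P.swap_dd l ha h1 h2, map_mul, map_mul, hπ h hH, map_inv, hπ h hH]
    simp
  have hdtop : ∀ (a : F) (ha : a ≠ 0), C (P.dd l ha) = ⊤ := by
    intro a ha
    refine P.gen_top l hl hn _ (hCH _) ?_ ?_ ?_
    · intro b hb
      rw [hC, ← map_mul, ← map_mul, P.dd_comm l ha hb]
    · intro _
      rw [hC]
      have h1 := congrArg π (P.swap_dd l ha (P.sw_true l) (P.sw_false l))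
      rw [hswap, map_mul, map_mul, map_inv, mul_inv_eq_iff_eq_mul] at h1
      exact h1.symm
    · intro _
      rw [hC]
      have h1 := congrArg π (P.fix_dd l ha (P.rl_z l true) (P.rl_z l false))
      rw [map_mul, map_mul, map_inv, mul_inv_eq_iff_eq_mul] at h1
      exact h1.symm
  have hdc : ∀ (a : F) (ha : a ≠ 0) (g : OG Q), π (P.dd l ha) * π g = π g * π (P.dd l ha) := by
    intro a ha g
    rw [← hC, hdtop]
    exact Subgroup.mem_top g
  have htop : ∀ x : OG Q, (∀ (a : F) (ha : a ≠ 0), π x * π (P.dd l ha) = π (P.dd l ha) * π x) →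
      (P.z = 0 → π x * π (P.sw l) = π (P.sw l) * π x) →
      (Q P.z = 1 → π x * π (rl P.z) = π (rl P.z) * π x) → C x = ⊤ := by
    intro x h1 h2 h3
    refine P.gen_top l hl hn _ (hCH _) ?_ ?_ ?_
    · intro a ha; rw [hC]; exact h1 a ha
    · intro h; rw [hC]; exact h2 h
    · intro h; rw [hC]; exact h3 h
  have hz01 : P.z = 0 → Q P.z = 1 → False := by
    intro h1 h2
    rw [h1, QuadraticMap.map_zero] at h2
    exact zero_ne_one h2
  have hsw : P.z = 0 → C (P.sw l) = ⊤ := fun h => htop _ (fun a ha => (hdc a ha _).symm) (fun _ => rfl)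
    (fun h' => (hz01 h h').elim)
  have hrl : Q P.z = 1 → C (rl P.z) = ⊤ := fun h => htop _ (fun a ha => (hdc a ha _).symm)
    (fun h' => (hz01 h' h).elim) (fun _ => rfl)
  have hall : ∀ x : OG Q, C x = ⊤ := by
    intro x
    refine htop x (fun a ha => (hdc a ha x).symm) ?_ ?_
    · intro h
      have : x ∈ C (P.sw l) := by rw [hsw h]; exact Subgroup.mem_top x
      exact ((hC _ _).1 this).symm
    · intro h
      have : x ∈ C (rl P.z) := by rw [hrl h]; exact Subgroup.mem_top x
      exact ((hC _ _).1 this).symm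
  rw [commutator_def, Subgroup.commutator_le]
  intro x _ y _
  have h1 : y ∈ C x := by rw [hall]; exact Subgroup.mem_top y
  rw [hC] at h1
  rw [← QuotientGroup.eq_one_iff]
  show π ⁅x, y⁆ = 1
  rw [commutatorElement_def, map_mul, map_mul, map_mul, h1, map_inv, map_inv]
  group

/-- root elements are commutators, with a torus element -/
theorem H_le_of (c : F) (hc0 : c ≠ 0) (hc1 : c ≠ 1) : P.H ≤ commutator (OG Q) := by
  have hc : c - 1 ≠ 0 := sub_ne_zero.2 hc1
  have key : ∀ (i : Fin n) (s : Bool) (y : V) (hy : polar Q (P.b i s) y = 0), (∀ s', polar Q y (P.b i s') = 0) →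
      sg (P.qb i s) hy ∈ commutator (OG Q) := by
    intro i s y hy hy'
    let d : OG Q := ⟨Cfsg.Agent.H16.Quad.hyp (P.qb i s) (P.qb i (!s)) (P.bb_not i s) hc0, hyp_mem _ _ _ hc0⟩
    have hd1 : d.1 (P.b i s) = c • P.b i s := by
      show Cfsg.Agent.H16.Quad.hyp (P.qb i s) (P.qb i (!s)) (P.bb_not i s) hc0 _ = _
      rw [hyp_apply, P.bb_not, P.bb_self]
      module
    have hd2 : ∀ a : F, d.1 (a • y) = a • y := by
      intro a
      show Cfsg.Agent.H16.Quad.hyp (P.qb i s) (P.qb i (!s)) (P.bb_not i s) hc0 _ = _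
      rw [hyp_apply, polar_smul_left, polar_smul_left, hy', hy']
      simp
    have hy0 : polar Q (P.b i s) ((c - 1)⁻¹ • y) = 0 := by rw [polar_smul_right, hy, mul_zero]
    have e1 : d * sg (P.qb i s) hy0 * d⁻¹ = sg (Q := Q) (u := c • P.b i s) (y := (c - 1)⁻¹ • y) (by rw [qsmul, P.qb, mul_zero])
        (by rw [polar_smul_left, hy0, mul_zero]) := by
      rw [sg_conj]
      exact sg_congr hd1 (hd2 _)
    have e2 : sg (Q := Q) (u := c • P.b i s) (y := (c - 1)⁻¹ • y) (by rw [qsmul, P.qb, mul_zero])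
        (by rw [polar_smul_left, hy0, mul_zero]) = sg (P.qb i s) (y := c • (c - 1)⁻¹ • y)
        (by rw [polar_smul_right, hy0, mul_zero]) := sg_smul (P.qb i s) hy0 c _ _ _
    have h4 : polar Q (P.b i s) (c • (c - 1)⁻¹ • y) = 0 := by rw [polar_smul_right, hy0, mul_zero]
    have h5 : polar Q (P.b i s) (-((c - 1)⁻¹ • y)) = 0 := by rw [QuadraticMap.polar_neg_right, hy0, neg_zero]
    have h6 : polar Q (P.b i s) (c • (c - 1)⁻¹ • y + -((c - 1)⁻¹ • y)) = 0 := by
      rw [QuadraticMap.polar_add_right, h4, h5, add_zero]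
    have e3 : sg (P.qb i s) hy = d * sg (P.qb i s) hy0 * d⁻¹ * (sg (P.qb i s) hy0)⁻¹ := by
      rw [e1, e2, sg_inv (P.qb i s) hy0 h5, sg_mul (P.qb i s) h4 h5 h6]
      refine sg_congr rfl ?_
      have : y = ((c - 1) * (c - 1)⁻¹) • y := by rw [mul_inv_cancel₀ hc, one_smul]
      conv_lhs => rw [this]
      module
    rw [e3]
    have := Subgroup.commutator_mem_commutator (Subgroup.mem_top d) (Subgroup.mem_top (sg (P.qb i s) hy0))
    rw [commutatorElement_def] at this
    exact this
  rw [H, Subgroup.closure_le]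
  rintro x (⟨i, s, j, s', t, h, hij, rfl⟩ | ⟨i, s, t, h, rfl⟩)
  · exact key i s _ h (fun s'' => by rw [polar_smul_left, P.bb_ne (Ne.symm hij), mul_zero])
  · exact key i s _ h (fun s'' => by rw [polar_smul_left, P.zb, mul_zero])

/-- root elements are commutators, for at least three hyperbolic planes -/
theorem H_le_of' (hn : 3 ≤ n) (hz : P.z = 0) : P.H ≤ commutator (OG Q) := by
  have key : ∀ (i : Fin n) (s : Bool) (j : Fin n) (s' : Bool) (t : F) (h : polar Q (P.b i s) (t • P.b j s') = 0), i ≠ j →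
      sg (P.qb i s) h ∈ commutator (OG Q) := by
    intro i s j s' t h hij
    obtain ⟨k, hki, hkj⟩ : ∃ k : Fin n, k ≠ i ∧ k ≠ j := by
      have : ∃ k : Fin n, k ∉ ({i, j} : Finset (Fin n)) := by
        by_contra hcon
        push Not at hcon
        have h1 : (Finset.univ : Finset (Fin n)) ⊆ {i, j} := fun x _ => hcon x
        have h2 := Finset.card_le_card h1
        rw [Finset.card_univ, Fintype.card_fin] at h2
        have h3 := Finset.card_le_two (a := i) (b := j)
        omega
      obtain ⟨k, hk⟩ := this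
      simp only [Finset.mem_insert, Finset.mem_singleton, not_or] at hk
      exact ⟨k, hk.1, hk.2⟩
    -- g = sg (b j s') (-t b k true), x = sg (b i s) (b k false)
    have hg : polar Q (P.b j s') ((-t) • P.b k true) = 0 := by rw [polar_smul_right, P.bb_ne (Ne.symm hkj), mul_zero]
    have hx : polar Q (P.b i s) (P.b k false) = 0 := P.bb_ne (Ne.symm hki) _ _
    have e1 : (sg (P.qb j s') hg).1 (P.b i s) = P.b i s := by
      show siegel (P.qb j s') hg _ = _
      rw [siegel_apply, P.bb_ne hij, polar_smul_right, P.bb_ne (Ne.symm hki)]; simp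
    have e2 : (sg (P.qb j s') hg).1 (P.b k false) = P.b k false + t • P.b j s' := by
      show siegel (P.qb j s') hg _ = _
      have h' : polar Q (P.b k false) (P.b k true) = 1 := P.bb_not k false
      rw [siegel_apply, P.bb_ne hkj, polar_smul_right, h']; module
    have e3 : sg (P.qb j s') hg * sg (P.qb i s) hx * (sg (P.qb j s') hg)⁻¹ = sg (P.qb i s) h * sg (P.qb i s) hx := by
      rw [sg_conj, sg_mul (P.qb i s) h hx (by rw [QuadraticMap.polar_add_right, h, hx, add_zero])]
      exact sg_congr e1 (e2.trans (add_comm _ _))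
    have e4 : sg (P.qb i s) h = sg (P.qb j s') hg * sg (P.qb i s) hx * (sg (P.qb j s') hg)⁻¹ * (sg (P.qb i s) hx)⁻¹ := by
      rw [e3]; group
    rw [e4]
    have := Subgroup.commutator_mem_commutator (Subgroup.mem_top (sg (P.qb j s') hg)) (Subgroup.mem_top (sg (P.qb i s) hx))
    rw [commutatorElement_def] at this
    exact this
  rw [H, Subgroup.closure_le]
  rintro x (⟨i, s, j, s', t, h, hij, rfl⟩ | ⟨i, s, t, h, rfl⟩)
  · exact key i s j s' t h hij
  · rw [sg_trivial (P.qb i s) h ⟨0, by rw [hz]; simp⟩]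
    exact Subgroup.one_mem _

end Frame

end Cfsg.Agent.H6.Ort
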