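import Mathlib
import Cfsg.Agent.H6_Ort3
import Cfsg.Agent.H16_Std
import Cfsg.Agent.H16_Mat
import Cfsg.Agent.H6_MR1

/-!
Orthogonal groups of split quadratic spaces, part 4: the standard frames, and comparison with Steinberg's group.
-/

set_option autoImplicit false
set_option linter.unusedSectionVars false

namespace Cfsg.Agent.H6.Ort

open QuadraticMap (polar)
open Cfsg.Lie
open Cfsg.Agent.H16.Quad hiding map_smul map_add map_sub

section Frames

variable (F : Type*) [Field F] (m : ℕ)

/-- the index of a frame vector -/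
def ixP (i : Fin m) (s : Bool) : Fin m ⊕ Fin m := if s then Sum.inl i else Sum.inr i

theorem polar_single_plus (x : Fin m ⊕ Fin m → F) (i : Fin m) (s : Bool) :
    polar (plusQ F m) x (Pi.single (ixP m i s) 1) = x (ixP m i (!s)) := by
  rw [polar_plusQ]
  cases s <;> simp [ixP, Pi.single_apply]

/-- the standard frame of the plus form -/
noncomputable def framePlus : Frame (plusQ F m) m where
  b := fun i s => Pi.single (ixP m i s) 1
  z := 0
  qb := by
    intro i s
    have h := plusQ_hyp (F := F) m
    cases s
    · exact h.qf i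
    · exact h.qe i
  bb := by
    intro i s j s'
    rw [polar_single_plus, Pi.single_apply]
    cases s <;> cases s' <;> simp [ixP, eq_comm]
  zb := by intro i s; simp
  ex := by
    intro v
    refine ⟨0, ?_⟩
    funext k
    rw [smul_zero, add_zero, Finset.sum_apply]
    simp only [Fintype.sum_bool, polar_single_plus, Pi.add_apply, Pi.smul_apply, smul_eq_mul, Bool.not_not]
    rcases k with k | k
    · rw [Finset.sum_eq_single k]
      · simp [ixP]
      · intro j _ hj
        simp [ixP, Pi.single_apply, Ne.symm hj]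
      · intro h; exact absurd (Finset.mem_univ _) h
    · rw [Finset.sum_eq_single k]
      · simp [ixP]
      · intro j _ hj
        simp [ixP, Pi.single_apply, Ne.symm hj]
      · intro h; exact absurd (Finset.mem_univ _) h
  hz := Or.inl rfl

/-- the index of a frame vector -/
def ixO (i : Fin m) (s : Bool) : Unit ⊕ (Fin m ⊕ Fin m) := Sum.inr (ixP m i s)

theorem polar_single_odd (x : Unit ⊕ (Fin m ⊕ Fin m) → F) (i : Fin m) (s : Bool) :
    polar (oddQ F m) x (Pi.single (ixO m i s) 1) = x (ixO m i (!s)) := by
  rw [polar_oddQ]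
  cases s <;> simp [ixO, ixP, Pi.single_apply]

theorem polar_single_z (x : Unit ⊕ (Fin m ⊕ Fin m) → F) :
    polar (oddQ F m) x (Pi.single (Sum.inl ()) 1) = 2 * x (Sum.inl ()) := by
  rw [polar_oddQ]
  simp [Pi.single_apply]

/-- the standard frame of the odd form -/
noncomputable def frameOdd : Frame (oddQ F m) m where
  b := fun i s => Pi.single (ixO m i s) 1
  z := Pi.single (Sum.inl ()) 1
  qb := by
    intro i s
    have h := oddQ_hyp (F := F) m
    cases s
    · exact h.qf i
    · exact h.qe i
  bb := by
    intro i s j s'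
    rw [polar_single_odd, Pi.single_apply]
    cases s <;> cases s' <;> simp [ixO, ixP, eq_comm]
  zb := by
    intro i s
    rw [polar_single_odd, Pi.single_apply]
    simp [ixO]
  ex := by
    intro v
    refine ⟨v (Sum.inl ()), ?_⟩
    funext k
    rw [Pi.add_apply, Finset.sum_apply]
    simp only [Fintype.sum_bool, polar_single_odd, Pi.add_apply, Pi.smul_apply, smul_eq_mul, Bool.not_not]
    rcases k with k | k | k
    · simp [ixO, ixP, Pi.single_apply]
    · rw [Finset.sum_eq_single k]
      · simp [ixO, ixP]
      · intro j _ hj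
        simp [ixO, ixP, Pi.single_apply, Ne.symm hj]
      · intro h; exact absurd (Finset.mem_univ _) h
    · rw [Finset.sum_eq_single k]
      · simp [ixO, ixP]
      · intro j _ hj
        simp [ixO, ixP, Pi.single_apply, Ne.symm hj]
      · intro h; exact absurd (Finset.mem_univ _) h
  hz := by
    right
    rw [oddQ_apply]
    simp [Cfsg.quadFormOdd]

end Frames

section NonAb

variable {F V : Type*} [Field F] [AddCommGroup V] [Module F V] {Q : QuadraticForm F V} {n : ℕ} (P : Frame Q n)

theorem Frame.nonab (hn : 2 ≤ n) : ∃ x ∈ P.H, ∃ y ∈ P.H, x * y ≠ y * x := by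
  let i : Fin n := ⟨0, by omega⟩
  let j : Fin n := ⟨1, by omega⟩
  have hij : i ≠ j := by
    intro h
    have := congrArg Fin.val h
    simp [i, j] at this
  have h1 : polar Q (P.b i true) (P.b j true) = 0 := P.bb_ne hij _ _
  have h2 : polar Q (P.b i false) (P.b j false) = 0 := P.bb_ne hij _ _
  refine ⟨_, P.sg_mem i true h1, _, P.sg_mem i false h2, ?_⟩
  intro h
  have h3 := congrArg (fun g : OG Q => g.1 (P.b i true)) h
  have a1 : polar Q (P.b i true) (P.b i false) = 1 := P.bb_not i true
  have a2 : polar Q (P.b j false) (P.b j true) = 1 := P.bb_not j false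
  have e1 : (sg (P.qb i false) h2).1 (P.b i true) = P.b i true + P.b j false := by
    show siegel (P.qb i false) h2 _ = _
    rw [siegel_apply, a1, P.bb_ne hij, P.qb]; module
  have e2 : (sg (P.qb i true) h1).1 (P.b i true) = P.b i true := by
    show siegel (P.qb i true) h1 _ = _
    rw [siegel_apply, P.bb_self, P.bb_ne hij, P.qb]; module
  have e3 : (sg (P.qb i true) h1).1 (P.b j false) = P.b j false - P.b i true := by
    show siegel (P.qb i true) h1 _ = _
    rw [siegel_apply, a2, P.bb_ne (Ne.symm hij), P.qb]; module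
  have h4 : (sg (P.qb i true) h1).1 ((sg (P.qb i false) h2).1 (P.b i true)) =
    (sg (P.qb i false) h2).1 ((sg (P.qb i true) h1).1 (P.b i true)) := h3
  rw [e1, e2, _root_.map_add, e2, e3, e1] at h4
  have h5 : P.b i true = 0 := by
    have : P.b i true + (P.b j false - P.b i true) - (P.b i true + P.b j false) = 0 := by rw [h4]; abel
    have h6 : -P.b i true = 0 := by rw [← this]; abel
    exact neg_eq_zero.1 h6
  rw [h5] at a1
  simp at a1

end NonAb

section Assemble

variable {F : Type*} [Field F] {ι : Type} [Fintype ι] [DecidableEq ι] {Q : QuadraticForm F (ι → F)} {n : ℕ} (P : Frame Q n)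

/-- isometries as matrices -/
noncomputable def toGL (Q : QuadraticForm F (ι → F)) : OG Q →* GL ι F :=
  (Subgroup.subtype _).comp (toOG Q).symm.toMonoidHom

theorem toGL_mulVec (h : OG Q) (v : ι → F) : ((toGL Q h : GL ι F) : Matrix ι ι F).mulVec v = h.1 v :=
  toOG_symm_mulVec Q h v

/-- comparison of a Chevalley group with an orthogonal group -/
theorem assemble {S G : Type*} [Group S] [Group G] [IsSimpleGroup G] (θ : S →* G) (hθ : Function.Surjective θ)
    (hker : θ.ker = Subgroup.center S) (hn : 2 ≤ n) (hcomm : commutator (OG Q) = P.H) (f : S →* GL ι F)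
    (hf : f.range = P.H.map (toGL Q)) : Nonempty (G ≃* Cfsg.POmega F ⇑Q) := by
  have hmem : ∀ s : S, ∃ h ∈ P.H, toGL Q h = f s := by
    intro s
    have : f s ∈ f.range := ⟨s, rfl⟩
    rw [hf] at this
    exact this
  have h1 : ∀ s : S, f s ∈ Cfsg.isometryGroup F ⇑Q := by
    intro s
    obtain ⟨h, _, hh⟩ := hmem s
    rw [← hh]
    exact ((toOG Q).symm h).2
  let f1 : S →* Cfsg.isometryGroup F ⇑Q := f.codRestrict _ h1
  have h2 : ∀ s : S, f1 s ∈ commutator (Cfsg.isometryGroup F ⇑Q) := by
    intro s
    obtain ⟨h, hH, hh⟩ := hmem s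
    have h3 : f1 s = (toOG Q).symm h := Subtype.ext hh.symm
    rw [mem_commutator_equiv (toOG Q), h3, MulEquiv.apply_symm_apply, hcomm]
    exact hH
  let f2 : S →* ↥(Cfsg.Omega F ⇑Q) := f1.codRestrict _ h2
  have hsurj : Function.Surjective f2 := by
    rintro ⟨y, hy⟩
    have h3 : toOG Q y ∈ P.H := by
      rw [← hcomm]
      exact (mem_commutator_equiv (toOG Q) y).1 hy
    have h4 : (y : GL ι F) ∈ f.range := by
      rw [hf]
      refine ⟨toOG Q y, h3, ?_⟩
      show (((toOG Q).symm (toOG Q y) : Cfsg.isometryGroup F ⇑Q) : GL ι F) = y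
      rw [MulEquiv.symm_apply_apply]
    obtain ⟨s, hs⟩ := h4
    exact ⟨s, Subtype.ext (Subtype.ext hs)⟩
  let φ : S →* Cfsg.POmega F ⇑Q := (QuotientGroup.mk' _).comp f2
  have hφ : Function.Surjective φ := (QuotientGroup.mk'_surjective _).comp hsurj
  have hφmem : ∀ s, s ∈ φ.ker ↔ f2 s ∈ Subgroup.center ↥(Cfsg.Omega F ⇑Q) := by
    intro s
    rw [MonoidHom.mem_ker]
    exact QuotientGroup.eq_one_iff _
  have hk : φ.ker = θ.ker := by
    apply le_antisymm
    · have hN : (φ.ker.map θ).Normal := Subgroup.Normal.map inferInstance θ hθ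
      rcases hN.eq_bot_or_eq_top with h3 | h3
      · intro s hs
        have : θ s ∈ φ.ker.map θ := ⟨s, hs, rfl⟩
        rw [h3] at this
        exact this
      · exfalso
        have htop : φ.ker = ⊤ := by
          rw [eq_top_iff]
          intro s _
          have h4 : θ s ∈ φ.ker.map θ := by rw [h3]; exact Subgroup.mem_top _
          obtain ⟨k, hk, hks⟩ := h4
          have h5 : k⁻¹ * s ∈ θ.ker := by
            rw [MonoidHom.mem_ker, map_mul, map_inv, hks, inv_mul_cancel]
          rw [hker] at h5
          have h6 : k⁻¹ * s ∈ φ.ker := by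
            rw [hφmem, Subgroup.mem_center_iff]
            intro y
            obtain ⟨y, rfl⟩ := hsurj y
            rw [← map_mul, ← map_mul, Subgroup.mem_center_iff.1 h5 y]
          have : s = k * (k⁻¹ * s) := by group
          rw [this]
          exact Subgroup.mul_mem _ hk h6
        obtain ⟨x, hx, y, hy, hxy⟩ := P.nonab hn
        apply hxy
        have lift : ∀ x ∈ P.H, ∃ s, toGL Q x = f s := by
          intro x hx
          have : toGL Q x ∈ f.range := by rw [hf]; exact ⟨x, hx, rfl⟩
          obtain ⟨s, hs⟩ := this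
          exact ⟨s, hs.symm⟩
        obtain ⟨s, hs⟩ := lift x hx
        obtain ⟨s', hs'⟩ := lift y hy
        have h7 : f2 s ∈ Subgroup.center ↥(Cfsg.Omega F ⇑Q) := by
          rw [← hφmem, htop]; exact Subgroup.mem_top _
        have h8 := Subgroup.mem_center_iff.1 h7 (f2 s')
        have h9 : f s' * f s = f s * f s' := congrArg (fun z : ↥(Cfsg.Omega F ⇑Q) => ((z : Cfsg.isometryGroup F ⇑Q) : GL ι F)) h8
        rw [← hs, ← hs', ← map_mul, ← map_mul] at h9
        have hinj : Function.Injective (toGL Q) := by
          intro a b hab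
          exact (toOG Q).symm.injective (Subtype.ext hab)
        exact (hinj h9).symm
    · intro s hs
      rw [hker] at hs
      rw [hφmem, Subgroup.mem_center_iff]
      intro y
      obtain ⟨y, rfl⟩ := hsurj y
      rw [← map_mul, ← map_mul, Subgroup.mem_center_iff.1 hs y]
  exact ⟨(QuotientGroup.quotientKerEquivOfSurjective θ hθ).symm.trans
    ((QuotientGroup.quotientMulEquivOfEq hk.symm).trans (QuotientGroup.quotientKerEquivOfSurjective φ hφ))⟩

end Assemble

end Cfsg.Agent.H6.Ort
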