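import Mathlib
import Cfsg.Agent.H6_MR2

/-!
Homomorphisms from Steinberg's group given by sparse matrices over `ℤ[t,u]`.
-/

set_option autoImplicit false
set_option linter.unusedSectionVars false

namespace Cfsg.Agent.H6.PM

open Cfsg.Lie
open Cfsg.Agent.H6.MR (zr zr_iff nbeq nbeq' SM)

/-- entries `(row, col, a, b, c)` standing for `c t ^ a u ^ b` -/
abbrev PM := List (ℕ × ℕ × ℕ × ℕ × ℤ)

/-- the product with one entry -/
def mulE (a : ℕ × ℕ × ℕ × ℕ × ℤ) : PM → PM
  | [] => []
  | b :: B => cond (Nat.beq a.2.1 b.1)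
      ((a.1, b.2.1, a.2.2.1 + b.2.2.1, a.2.2.2.1 + b.2.2.2.1, a.2.2.2.2 * b.2.2.2.2) :: mulE a B) (mulE a B)

/-- the product -/
def mulP : PM → PM → PM
  | [], _ => []
  | a :: A, B => mulE a B ++ mulP A B

/-- scaling -/
def sc (c : ℤ) : PM → PM
  | [] => []
  | e :: A => (e.1, e.2.1, e.2.2.1, e.2.2.2.1, c * e.2.2.2.2) :: sc c A

/-- coefficients -/
def coef : PM → ℕ → ℕ → ℕ → ℕ → ℤ
  | [], _, _, _, _ => 0
  | e :: A, i, j, a, b => cond (Nat.beq e.1 i && Nat.beq e.2.1 j && Nat.beq e.2.2.1 a && Nat.beq e.2.2.2.1 b)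
      (e.2.2.2.2 + coef A i j a b) (coef A i j a b)

/-- zero test -/
def isZ (A : PM) : Bool := A.all fun e => zr (coef A e.1 e.2.1 e.2.2.1 e.2.2.2.1)

/-- cancelling `t u = 1` -/
def nrm : PM → PM
  | [] => []
  | e :: A => (e.1, e.2.1, e.2.2.1 - e.2.2.2.1, e.2.2.2.1 - e.2.2.1, e.2.2.2.2) :: nrm A

section Ev

variable {F : Type*} [Field F] (t u : F)

/-- evaluation of an entry -/
def evc (t u : F) : PM → ℕ → ℕ → F
  | [], _, _ => 0
  | e :: A, i, j => (if e.1 = i ∧ e.2.1 = j then (e.2.2.2.2 : F) * t ^ e.2.2.1 * u ^ e.2.2.2.1 else 0) + evc t u A i j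

theorem evc_append (A B : PM) (i j : ℕ) : evc t u (A ++ B) i j = evc t u A i j + evc t u B i j := by
  induction A with
  | nil => simp [evc]
  | cons a A ih => rw [List.cons_append, evc, evc, ih, add_assoc]

theorem evc_sc (c : ℤ) (A : PM) (i j : ℕ) : evc t u (sc c A) i j = c * evc t u A i j := by
  induction A with
  | nil => simp [evc, sc]
  | cons a A ih =>
    rw [sc, evc, evc, ih, mul_add]
    congr 1
    split_ifs
    · push_cast; ring
    · simp

theorem evc_mulE (a : ℕ × ℕ × ℕ × ℕ × ℤ) (B : PM) (i j : ℕ) : evc t u (mulE a B) i j =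
    if a.1 = i then (a.2.2.2.2 : F) * t ^ a.2.2.1 * u ^ a.2.2.2.1 * evc t u B a.2.1 j else 0 := by
  induction B with
  | nil => simp [mulE, evc]
  | cons b B ih =>
    rw [mulE, evc]
    by_cases h : a.2.1 = b.1
    · rw [nbeq' h, cond_true, evc, ih]
      by_cases h1 : a.1 = i
      · simp only [h1, true_and, if_true, h, mul_add]
        congr 1
        split_ifs
        · push_cast; ring
        · simp
      · simp [h1]
    · rw [nbeq h, cond_false, ih]
      by_cases h1 : a.1 = i
      · simp only [h1, if_true, if_neg (fun h' : b.1 = a.2.1 ∧ b.2.1 = j => h h'.1.symm), zero_add]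
      · simp [h1]

theorem evc_nrm (h : t * u = 1) (A : PM) (i j : ℕ) : evc t u (nrm A) i j = evc t u A i j := by
  induction A with
  | nil => rfl
  | cons e A ih =>
    rw [nrm, evc, evc, ih]
    congr 1
    have key : ∀ a b : ℕ, t ^ (a - b) * u ^ (b - a) = t ^ a * u ^ b := by
      intro a b
      rcases le_total a b with hab | hab
      · obtain ⟨k, rfl⟩ := Nat.exists_eq_add_of_le hab
        rw [Nat.sub_eq_zero_of_le hab, Nat.add_sub_cancel_left, pow_zero, one_mul, pow_add, ← mul_assoc, ← mul_pow, h,
          one_pow, one_mul]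
      · obtain ⟨k, rfl⟩ := Nat.exists_eq_add_of_le hab
        rw [Nat.sub_eq_zero_of_le hab, Nat.add_sub_cancel_left, pow_zero, mul_one, pow_add, mul_comm (t ^ b), mul_assoc,
          ← mul_pow, h, one_pow, mul_one]
    split_ifs
    · rw [mul_assoc, key, mul_assoc]
    · rfl

/-- the entries with a key different from a given one -/
def flt (k : ℕ × ℕ × ℕ × ℕ) (A : PM) : PM := A.filter fun e => decide (¬ (e.1, e.2.1, e.2.2.1, e.2.2.2.1) = k)

theorem coef_cons (e : ℕ × ℕ × ℕ × ℕ × ℤ) (A : PM) (i j a b : ℕ) : coef (e :: A) i j a b =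
    (if (e.1, e.2.1, e.2.2.1, e.2.2.2.1) = (i, j, a, b) then e.2.2.2.2 else 0) + coef A i j a b := by
  rw [coef]
  by_cases h : (e.1, e.2.1, e.2.2.1, e.2.2.2.1) = (i, j, a, b)
  · simp only [Prod.mk.injEq] at h
    rw [nbeq' h.1, nbeq' h.2.1, nbeq' h.2.2.1, nbeq' h.2.2.2]
    simp [h]
  · rw [if_neg h, zero_add]
    simp only [Prod.mk.injEq, not_and_or] at h
    rcases h with h | h | h | h <;> simp [nbeq h]

theorem split_key (k : ℕ × ℕ × ℕ × ℕ) (A : PM) (i j : ℕ) : evc t u A i j =
    (if k.1 = i ∧ k.2.1 = j then (coef A k.1 k.2.1 k.2.2.1 k.2.2.2 : F) * t ^ k.2.2.1 * u ^ k.2.2.2 else 0) +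
      evc t u (flt k A) i j := by
  induction A with
  | nil => simp [evc, coef, flt]
  | cons e A ih =>
    rw [evc, ih, coef_cons]
    by_cases h : (e.1, e.2.1, e.2.2.1, e.2.2.2.1) = k
    · have h1 : flt k (e :: A) = flt k A := by
        unfold flt
        rw [List.filter_cons_of_neg (by simpa using h)]
      rw [h1]
      subst h
      simp only [if_true]
      split_ifs
      · push_cast; ring
      · ring
    · have h1 : flt k (e :: A) = e :: flt k A := by
        unfold flt
        rw [List.filter_cons_of_pos (by simpa using h)]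
      rw [h1, evc, if_neg (show ¬ (e.1, e.2.1, e.2.2.1, e.2.2.2.1) = (k.1, k.2.1, k.2.2.1, k.2.2.2) from h)]
      push_cast
      ring

theorem coef_flt (k : ℕ × ℕ × ℕ × ℕ) (A : PM) {i j a b : ℕ} (h : (i, j, a, b) ≠ k) :
    coef (flt k A) i j a b = coef A i j a b := by
  induction A with
  | nil => rfl
  | cons e A ih =>
    by_cases h1 : (e.1, e.2.1, e.2.2.1, e.2.2.2.1) = k
    · have h2 : flt k (e :: A) = flt k A := by
        unfold flt
        rw [List.filter_cons_of_neg (by simpa using h1)]
      rw [h2, ih, coef_cons, if_neg (by rw [h1]; exact Ne.symm h), zero_add]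
    · have h2 : flt k (e :: A) = e :: flt k A := by
        unfold flt
        rw [List.filter_cons_of_pos (by simpa using h1)]
      rw [h2, coef_cons, coef_cons, ih]

theorem evc_zero : ∀ (n : ℕ) (A : PM), A.length ≤ n → isZ A = true → ∀ i j, evc t u A i j = 0 := by
  intro n
  induction n with
  | zero =>
    intro A hA _ i j
    rw [List.length_eq_zero_iff.1 (Nat.le_zero.1 hA)]
    rfl
  | succ n ih =>
    intro A hA hz i j
    cases A with
    | nil => rfl
    | cons e A =>
      rw [split_key t u (e.1, e.2.1, e.2.2.1, e.2.2.2.1) (e :: A) i j]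
      have h1 : coef (e :: A) e.1 e.2.1 e.2.2.1 e.2.2.2.1 = 0 := zr_iff (List.all_eq_true.1 hz e List.mem_cons_self)
      simp only [h1, Int.cast_zero, zero_mul, ite_self, zero_add]
      have h2 : flt (e.1, e.2.1, e.2.2.1, e.2.2.2.1) (e :: A) = flt (e.1, e.2.1, e.2.2.1, e.2.2.2.1) A := by
        unfold flt
        rw [List.filter_cons_of_neg (by simp)]
      apply ih
      · rw [h2]
        unfold flt
        have := List.length_filter_le (fun e' : ℕ × ℕ × ℕ × ℕ × ℤ => decide (¬ (e'.1, e'.2.1, e'.2.2.1, e'.2.2.2.1) =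
          (e.1, e.2.1, e.2.2.1, e.2.2.2.1))) A
        simp only [List.length_cons] at hA
        omega
      · unfold isZ
        rw [List.all_eq_true]
        intro e' he'
        have h3 : e' ∈ e :: A := List.mem_of_mem_filter he'
        have h4 : (e'.1, e'.2.1, e'.2.2.1, e'.2.2.2.1) ≠ (e.1, e.2.1, e.2.2.1, e.2.2.2.1) := by
          exact of_decide_eq_true (List.mem_filter.1 he').2
        rw [coef_flt _ _ h4]
        exact List.all_eq_true.1 hz e' h3

variable {ι : Type*} [Fintype ι] [DecidableEq ι] (code : ι → ℕ)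

/-- the matrix -/
def ev (A : PM) : Matrix ι ι F := Matrix.of fun i j => evc t u A (code i) (code j)

theorem ev_apply (A : PM) (i j : ι) : ev t u code A i j = evc t u A (code i) (code j) := rfl

theorem ev_append (A B : PM) : ev t u code (A ++ B) = ev t u code A + ev t u code B := by
  ext i j
  rw [Matrix.add_apply, ev_apply, ev_apply, ev_apply, evc_append]

theorem ev_sc (c : ℤ) (A : PM) : ev t u code (sc c A) = (c : F) • ev t u code A := by
  ext i j
  rw [Matrix.smul_apply, ev_apply, ev_apply, evc_sc, smul_eq_mul]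

theorem ev_zero {A : PM} (h : isZ A = true) : ev t u code A = 0 := by
  ext i j
  rw [ev_apply, evc_zero t u A.length A le_rfl h]; rfl

theorem ev_nrm (h : t * u = 1) (A : PM) : ev t u code (nrm A) = ev t u code A := by
  ext i j
  rw [ev_apply, ev_apply, evc_nrm t u h]

/-- column indices are codes -/
def Bd (A : PM) : Prop := ∀ e ∈ A, ∃ k, code k = e.2.1

variable {code}

theorem ev_mul (hc : Function.Injective code) {A : PM} (hA : Bd code A) (B : PM) :
    ev t u code A * ev t u code B = ev t u code (mulP A B) := by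
  ext i j
  rw [Matrix.mul_apply]
  simp only [ev_apply]
  induction A with
  | nil => simp [evc, mulP]
  | cons a A ih =>
    have ih' := ih (fun e he => hA e (List.mem_cons_of_mem _ he))
    obtain ⟨k0, hk0⟩ := hA a List.mem_cons_self
    rw [mulP, evc_append, ← ih', evc_mulE]
    simp only [evc, add_mul]
    rw [Finset.sum_add_distrib]
    congr 1
    rw [Finset.sum_eq_single k0]
    · rw [hk0]
      by_cases h : a.1 = code i
      · simp [h]
      · simp [h]
    · intro k _ hk
      rw [if_neg, zero_mul]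
      rintro ⟨_, h⟩
      exact hk (hc (by rw [hk0, h]))
    · intro h; exact absurd (Finset.mem_univ _) h

theorem bd_mulP {A B : PM} (hB : Bd code B) : Bd code (mulP A B) := by
  intro e he
  induction A with
  | nil => simp [mulP] at he
  | cons a A ih =>
    rw [mulP, List.mem_append] at he
    rcases he with he | he
    · clear ih
      induction B with
      | nil => simp [mulE] at he
      | cons b B ihB =>
        rw [mulE] at he
        cases hab : Nat.beq a.2.1 b.1 with
        | true =>
          rw [hab, cond_true, List.mem_cons] at he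
          rcases he with rfl | he
          · exact hB b List.mem_cons_self
          · exact ihB (fun e he => hB e (List.mem_cons_of_mem _ he)) he
        | false =>
          rw [hab, cond_false] at he
          exact ihB (fun e he => hB e (List.mem_cons_of_mem _ he)) he
    · exact ih he

end Ev

end Cfsg.Agent.H6.PM
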