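import Mathlib
import Cfsg.Agent.H6_PM1

/-!
Homomorphisms from Steinberg's group given by sparse matrices over `ℤ[t,u]`, part 2.
-/

set_option autoImplicit false
set_option linter.unusedSectionVars false

namespace Cfsg.Agent.H6.PM

open Cfsg.Lie
open Cfsg.Agent.H6.MR (zr zr_iff nbeq nbeq' SM)

/-- the identity -/
def idP (n : ℕ) : PM := (List.range n).map fun i => (i, i, 0, 0, 1)

/-- lifting an integer matrix, multiplied by a monomial -/
def lft (A : SM) (c : ℤ) (a b : ℕ) : PM := A.map fun e => (e.1, e.2.1, a, b, c * e.2.2)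

/-- the matrix of `x_r (c t ^ a u ^ b)` -/
def xp (n : ℕ) (E1 E2 : ℕ → SM) (r : ℕ) (c : ℤ) (a b : ℕ) : PM :=
  idP n ++ (lft (E1 r) c a b ++ lft (E2 r) (c * c) (2 * a) (2 * b))

/-- the matrix of a word -/
def wordP (n : ℕ) (E1 E2 : ℕ → SM) : List (ℕ × ℤ × ℕ × ℕ) → PM
  | [] => idP n
  | c :: l => mulP (xp n E1 E2 c.1 (c.2.1 * (-1) ^ c.2.2.1) c.2.2.1 c.2.2.2) (wordP n E1 E2 l)

/-- the diagonal matrix -/
def dgP (n : ℕ) (kk : ℕ → ℤ) : PM := (List.range n).map fun i => (i, i, (kk i).toNat, (-kk i).toNat, 1)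

/-- the matrix of `x_r (t + u)` -/
def sumP (n : ℕ) (E1 E2 : ℕ → SM) (r : ℕ) : PM :=
  idP n ++ (lft (E1 r) 1 1 0 ++ (lft (E1 r) 1 0 1 ++ (lft (E2 r) 1 2 0 ++ (lft (E2 r) 2 1 1 ++ lft (E2 r) 1 0 2))))

/-- check for a pair -/
def ckPair (D : ChevalleyDatum) (n : ℕ) (E1 E2 : ℕ → SM) (r s : ℕ) : Bool :=
  isZ (mulP (xp n E1 E2 s 1 0 1) (xp n E1 E2 r 1 1 0) ++
    sc (-1) (mulP (mulP (xp n E1 E2 r 1 1 0) (xp n E1 E2 s 1 0 1)) (wordP n E1 E2 (D.commTerms r s))))

/-- check of additivity -/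
def ckAdd (n : ℕ) (E1 E2 : ℕ → SM) (r : ℕ) : Bool :=
  isZ (mulP (xp n E1 E2 r 1 1 0) (xp n E1 E2 r 1 0 1) ++ sc (-1) (sumP n E1 E2 r))

/-- the six-fold product -/
def six (D : ChevalleyDatum) (n : ℕ) (E1 E2 : ℕ → SM) (r : ℕ) : PM :=
  mulP (xp n E1 E2 r 1 1 0) (mulP (xp n E1 E2 (D.neg r) (-1) 0 1) (mulP (xp n E1 E2 r 1 1 0)
    (mulP (xp n E1 E2 r (-1) 0 0) (mulP (xp n E1 E2 (D.neg r) 1 0 0) (xp n E1 E2 r (-1) 0 0)))))

/-- check of the torus elements -/
def ckH (D : ChevalleyDatum) (n : ℕ) (E1 E2 : ℕ → SM) (kk : ℕ → ℕ → ℤ) (r : ℕ) : Bool :=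
  isZ (nrm (six D n E1 E2 r ++ sc (-1) (dgP n (kk r))))

/-- all checks -/
def ckRow (D : ChevalleyDatum) (n : ℕ) (E1 E2 : ℕ → SM) (kk : ℕ → ℕ → ℤ) (r : ℕ) : Bool :=
  ckAdd n E1 E2 r && ckH D n E1 E2 kk r &&
    (List.range D.nroots).all fun s => Nat.beq s r || Nat.beq s (D.neg r) || ckPair D n E1 E2 r s

/-- a representation with cube-zero root elements -/
structure Rep (D : ChevalleyDatum) {ι : Type*} (code : ι → ℕ) (n : ℕ) (E1 E2 : ℕ → SM) (kk : ℕ → ℕ → ℤ) : Prop where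
  inj : Function.Injective code
  lt : ∀ i, code i < n
  surj : ∀ k, k < n → ∃ i, code i = k
  bd1 : ∀ r, ∀ e ∈ E1 r, e.2.1 < n
  bd2 : ∀ r, ∀ e ∈ E2 r, e.2.1 < n
  ge1 : ∀ r, D.nroots ≤ r → E1 r = []
  ge2 : ∀ r, D.nroots ≤ r → E2 r = []
  ck : ∀ r, r < D.nroots → ckRow D n E1 E2 kk r = true

namespace Rep

variable {D : ChevalleyDatum} {ι : Type*} [Fintype ι] [DecidableEq ι] {code : ι → ℕ} {n : ℕ} {E1 E2 : ℕ → SM}
  {kk : ℕ → ℕ → ℤ} (S : Rep D code n E1 E2 kk) {F : Type*} [Field F]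

theorem evc_lft (t u : F) (A : SM) (c : ℤ) (a b i j : ℕ) :
    evc t u (lft A c a b) i j = (c : F) * t ^ a * u ^ b * (MR.coef A i j : ℤ) := by
  induction A with
  | nil => simp [lft, evc, MR.coef]
  | cons e A ih =>
    have : lft (e :: A) c a b = (e.1, e.2.1, a, b, c * e.2.2) :: lft A c a b := rfl
    rw [this, evc, ih, MR.coef_cons]
    push_cast
    split_ifs
    · push_cast; ring
    · push_cast; ring

theorem evc_diag (t u : F) (f : ℕ → ℕ × ℕ) (n i j : ℕ) :
    evc t u ((List.range n).map fun i => (i, i, (f i).1, (f i).2, (1 : ℤ))) i j =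
      if i = j ∧ i < n then t ^ (f i).1 * u ^ (f i).2 else 0 := by
  induction n with
  | zero => simp [evc]
  | succ n ih =>
    rw [List.range_succ, List.map_append, evc_append, ih]
    simp only [List.map_cons, List.map_nil, evc, add_zero, Int.cast_one, one_mul]
    by_cases hij : i = j
    · subst hij
      by_cases h1 : n = i
      · subst h1
        simp
      · by_cases h2 : i < n
        · rw [if_pos ⟨rfl, h2⟩, if_neg (fun h => h1 h.1), if_pos ⟨rfl, by omega⟩, add_zero]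
        · rw [if_neg (fun h => h2 h.2), if_neg (fun h => h1 h.1), if_neg (fun h => by omega), add_zero]
    · rw [if_neg (fun h => hij h.1), if_neg (fun h => hij (h.1.symm.trans h.2)), if_neg (fun h => hij h.1), add_zero]

include S in
theorem ev_idP (t u : F) : ev t u code (idP n) = 1 := by
  ext i j
  rw [ev_apply, idP, evc_diag t u (fun _ => (0, 0)), Matrix.one_apply]
  by_cases h : i = j
  · rw [if_pos ⟨by rw [h], S.lt i⟩, if_pos h]; simp
  · rw [if_neg (fun h' => h (S.inj h'.1)), if_neg h]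

theorem ev_lft (t u : F) (A : SM) (c : ℤ) (a b : ℕ) :
    ev t u code (lft A c a b) = ((c : F) * t ^ a * u ^ b) • MR.ev code F A := by
  ext i j
  rw [ev_apply, evc_lft, Matrix.smul_apply, MR.ev_apply, smul_eq_mul]

variable (code E1 E2) in
/-- the matrix of `x_r (w)` -/
def Xm (r : ℕ) (w : F) : Matrix ι ι F := 1 + (w • MR.ev code F (E1 r) + (w * w) • MR.ev code F (E2 r))

include S in
theorem ev_xp (t u : F) (r : ℕ) (c : ℤ) (a b : ℕ) : ev t u code (xp n E1 E2 r c a b) =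
    Xm code E1 E2 r ((c : F) * t ^ a * u ^ b) := by
  rw [xp, ev_append, ev_append, S.ev_idP, ev_lft, ev_lft, Xm]
  congr 3
  push_cast
  ring

include S in
theorem bd_xp (r : ℕ) (c : ℤ) (a b : ℕ) : Bd code (xp n E1 E2 r c a b) := by
  intro e he
  apply S.surj
  rw [xp, List.mem_append, List.mem_append] at he
  rcases he with he | he | he
  · rw [idP, List.mem_map] at he
    obtain ⟨i, hi, rfl⟩ := he
    exact List.mem_range.1 hi
  · rw [lft, List.mem_map] at he
    obtain ⟨e', he', rfl⟩ := he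
    exact S.bd1 r e' he'
  · rw [lft, List.mem_map] at he
    obtain ⟨e', he', rfl⟩ := he
    exact S.bd2 r e' he'

include S in
theorem ev_wordP (t u : F) (l : List (ℕ × ℤ × ℕ × ℕ)) : ev t u code (wordP n E1 E2 l) =
    ((l.map fun c => (c.1, (c.2.1 : F) * (-t) ^ c.2.2.1 * u ^ c.2.2.2)).map fun p => Xm code E1 E2 p.1 p.2).prod := by
  induction l with
  | nil => rw [wordP, S.ev_idP]; rfl
  | cons c l ih =>
    rw [wordP, ← ev_mul t u S.inj (S.bd_xp _ _ _ _), ih, S.ev_xp, List.map_cons, List.map_cons, List.prod_cons]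
    congr 2
    push_cast
    rw [neg_pow t]
    ring

include S in
theorem cks {r : ℕ} (hr : r < D.nroots) : ckAdd n E1 E2 r = true ∧ ckH D n E1 E2 kk r = true ∧
    ∀ s < D.nroots, s ≠ r → s ≠ D.neg r → ckPair D n E1 E2 r s = true := by
  have h := S.ck r hr
  unfold ckRow at h
  rw [Bool.and_eq_true, Bool.and_eq_true] at h
  refine ⟨h.1.1, h.1.2, fun s hs h1 h2 => ?_⟩
  have h3 := List.all_eq_true.1 h.2 s (List.mem_range.2 hs)
  rw [nbeq h1, nbeq h2, Bool.or_false, Bool.false_or] at h3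
  exact h3

include S in
theorem Xm_ge {r : ℕ} (hr : D.nroots ≤ r) (w : F) : Xm code E1 E2 r w = 1 := by
  unfold Xm
  rw [S.ge1 r hr, S.ge2 r hr, MR.ev_zero code F (A := []) rfl]; simp

include S in
theorem Xm_add (r : ℕ) (t u : F) : Xm code E1 E2 r t * Xm code E1 E2 r u = Xm code E1 E2 r (t + u) := by
  by_cases hr : r < D.nroots
  · have h := ev_zero t u code (S.cks hr).1
    rw [ev_append, ev_sc, ← ev_mul t u S.inj (S.bd_xp _ _ _ _), S.ev_xp, S.ev_xp, sumP, ev_append, ev_append, ev_append,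
      ev_append, ev_append, ev_lft, ev_lft, ev_lft, ev_lft, ev_lft, S.ev_idP] at h
    have h1 : Xm code E1 E2 r t * Xm code E1 E2 r u - Xm code E1 E2 r (t + u) = 0 := by
      rw [← h]
      push_cast
      simp only [one_mul, pow_one, pow_zero, mul_one, Xm]
      module
    exact sub_eq_zero.1 h1
  · rw [S.Xm_ge (not_lt.1 hr), S.Xm_ge (not_lt.1 hr), S.Xm_ge (not_lt.1 hr), one_mul]

theorem Xm_zero (r : ℕ) : Xm (F := F) code E1 E2 r 0 = 1 := by
  unfold Xm
  simp

variable (F) in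
/-- the root elements -/
def X (r : ℕ) (t : F) : GL ι F where
  val := Xm code E1 E2 r t
  inv := Xm code E1 E2 r (-t)
  val_inv := by rw [S.Xm_add, add_neg_cancel, Xm_zero]
  inv_val := by rw [S.Xm_add, neg_add_cancel, Xm_zero]

theorem coe_X (r : ℕ) (t : F) : ((S.X F r t : GL ι F) : Matrix ι ι F) = Xm code E1 E2 r t := rfl

theorem coe_word (l : List (ℕ × F)) : (((l.map fun p => S.X F p.1 p.2).prod : GL ι F) : Matrix ι ι F) =
    (l.map fun p => Xm code E1 E2 p.1 p.2).prod := by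
  induction l with
  | nil => rfl
  | cons a l ih => rw [List.map_cons, List.prod_cons, Units.val_mul, ih, List.map_cons, List.prod_cons, coe_X]

include S in
theorem X_comm {r s : ℕ} (hr : r < D.nroots) (hs : s < D.nroots) (h1 : s ≠ r) (h2 : s ≠ D.neg r) (t u : F) :
    S.X F s u * S.X F r t = S.X F r t * S.X F s u * ((D.commWord F r s t u).map fun p => S.X F p.1 p.2).prod := by
  have h := ev_zero t u code ((S.cks hr).2.2 s hs h1 h2)
  apply Units.ext
  rw [Units.val_mul, Units.val_mul, Units.val_mul, S.coe_word, coe_X, coe_X, ← sub_eq_zero, ← h, ev_append, ev_sc,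
    ← ev_mul t u S.inj (S.bd_xp _ _ _ _), ← ev_mul t u S.inj (bd_mulP (S.bd_xp _ _ _ _)),
    ← ev_mul t u S.inj (S.bd_xp _ _ _ _), S.ev_wordP, S.ev_xp, S.ev_xp]
  push_cast
  simp only [one_mul, pow_one, pow_zero, mul_one]
  unfold ChevalleyDatum.commWord
  module

variable (kk) in
/-- the diagonal matrix -/
def Dg (code : ι → ℕ) (r : ℕ) (t : F) : Matrix ι ι F :=
  Matrix.diagonal fun i => t ^ (kk r (code i)).toNat * t⁻¹ ^ (-kk r (code i)).toNat

include S in
theorem X_h {r : ℕ} (hr : r < D.nroots) {t : F} (ht : t ≠ 0) :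
    ((((D.hWord r t).map fun p => S.X F p.1 p.2).prod : GL ι F) : Matrix ι ι F) = Dg kk code r t := by
  have h := ev_zero t t⁻¹ code ((S.cks hr).2.1)
  rw [ev_nrm t t⁻¹ code (mul_inv_cancel₀ ht), ev_append, ev_sc, six, ← ev_mul t t⁻¹ S.inj (S.bd_xp _ _ _ _),
    ← ev_mul t t⁻¹ S.inj (S.bd_xp _ _ _ _), ← ev_mul t t⁻¹ S.inj (S.bd_xp _ _ _ _),
    ← ev_mul t t⁻¹ S.inj (S.bd_xp _ _ _ _), ← ev_mul t t⁻¹ S.inj (S.bd_xp _ _ _ _), S.ev_xp, S.ev_xp, S.ev_xp, S.ev_xp] at h
  have h2 : ev t t⁻¹ code (dgP n (kk r)) = Dg kk code r t := by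
    ext i j
    rw [ev_apply, dgP, evc_diag t t⁻¹ (fun i => ((kk r i).toNat, (-kk r i).toNat)), Dg, Matrix.diagonal_apply]
    by_cases h : i = j
    · rw [if_pos ⟨by rw [h], S.lt i⟩, if_pos h]
    · rw [if_neg (fun h' => h (S.inj h'.1)), if_neg h]
  rw [h2] at h
  rw [S.coe_word, ← sub_eq_zero, ← h]
  unfold ChevalleyDatum.hWord ChevalleyDatum.nWord
  simp only [List.cons_append, List.nil_append, List.map_cons, List.map_nil, List.prod_cons, List.prod_nil, mul_one]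
  push_cast
  simp only [one_mul, pow_one, pow_zero, mul_one, neg_mul, inv_neg, inv_one, neg_neg, mul_assoc]
  module

/-- the homomorphism from Steinberg's group -/
theorem exists_hom : ∃ f : D.SteinbergGroup F →* GL ι F, ∀ (r : ℕ) (t : F), r < D.nroots →
    f (D.stGen F r t) = S.X F r t := by
  refine MR.exists_hom (S.X F) ?_ ?_ (fun r s t u hr hs h1 h2 => S.X_comm hr hs h1 h2 t u) ?_
  · intro r t hr
    apply Units.ext
    rw [coe_X, S.Xm_ge hr]; rfl
  · intro r t u _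
    apply Units.ext
    rw [Units.val_mul, coe_X, coe_X, coe_X, S.Xm_add]
  · intro r t u hr ht hu
    apply Units.ext
    rw [Units.val_mul, S.X_h hr ht, S.X_h hr hu, S.X_h hr (mul_ne_zero ht hu), Dg, Dg, Dg, Matrix.diagonal_mul_diagonal]
    congr 1
    funext i
    rw [mul_inv, mul_pow, mul_pow]
    ring

end Rep

end Cfsg.Agent.H6.PM
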