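import Mathlib
import Cfsg.Agent.H6_PM2

/-!
The five-dimensional representation of Steinberg's group of type `B₂`.
-/

set_option autoImplicit false
set_option linter.unusedSectionVars false
set_option maxRecDepth 100000

namespace Cfsg.Agent.H6.PM

open Cfsg.Lie
open Cfsg.Agent.H6.MR (zr zr_iff nbeq nbeq' SM)

/-- the root matrices -/
def list1B2 : List SM :=
  [[(3, 2, -1), (4, 1, 1)], [(0, 1, -1), (3, 0, 2)], [(0, 2, -1), (4, 0, 2)], [(2, 1, 1), (3, 4, -1)],
   [(1, 2, 1), (4, 3, -1)], [(0, 4, 1), (2, 0, -2)], [(0, 3, 1), (1, 0, -2)], [(1, 4, 1), (2, 3, -1)]]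

/-- the divided squares of the root matrices -/
def list2B2 : List SM := [[], [(3, 1, -1)], [(4, 2, -1)], [], [], [(2, 4, -1)], [(1, 3, -1)], []]

/-- the weights -/
def listkB2 : List (List ℤ) := [[0, -1, -1, 1, 1], [0, -2, 0, 2, 0], [0, 0, -2, 0, 2], [0, -1, 1, 1, -1],
  [0, 1, -1, -1, 1], [0, 0, 2, 0, -2], [0, 2, 0, -2, 0], [0, 1, 1, -1, -1]]

/-- the root matrices -/
def E1B2 (r : ℕ) : SM := list1B2.getD r []
/-- the divided squares of the root matrices -/
def E2B2 (r : ℕ) : SM := list2B2.getD r []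
/-- the weights -/
def kkB2 (r i : ℕ) : ℤ := (listkB2.getD r []).getD i 0

/-- coding of the index set -/
def codeB2 : Unit ⊕ (Fin 2 ⊕ Fin 2) → ℕ := Sum.elim (fun _ => 0) (Sum.elim (fun i => 1 + i.val) (fun i => 3 + i.val))

theorem codeB2_inj : Function.Injective codeB2 := by decide +kernel

theorem codeB2_lt : ∀ i, codeB2 i < 5 := by decide +kernel

theorem codeB2_surj (k : ℕ) (hk : k < 5) : ∃ i, codeB2 i = k := by
  have h : ∀ k : Fin 5, ∃ i, codeB2 i = k := by decide +kernel
  exact h ⟨k, hk⟩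

theorem ckB2 : (List.range 8).all (fun r => ckRow chevB2 5 E1B2 E2B2 kkB2 r) = true := by decide +kernel

theorem bd1B2' : list1B2.all (fun A => A.all fun e => decide (e.2.1 < 5)) = true := by decide +kernel
theorem bd2B2' : list2B2.all (fun A => A.all fun e => decide (e.2.1 < 5)) = true := by decide +kernel

theorem bd_of {L : List SM} {n : ℕ} (h : L.all (fun A => A.all fun e => decide (e.2.1 < n)) = true) (r : ℕ) :
    ∀ e ∈ L.getD r [], e.2.1 < n := by
  intro e he
  by_cases hr : r < L.length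
  · rw [List.getD_eq_getElem _ _ hr] at he
    have h1 := List.all_eq_true.1 h _ (List.getElem_mem hr)
    have h2 := List.all_eq_true.1 h1 e he
    exact of_decide_eq_true h2
  · rw [List.getD_eq_default _ _ (not_lt.1 hr)] at he
    simp at he

theorem repB2 : Rep chevB2 codeB2 5 E1B2 E2B2 kkB2 where
  inj := codeB2_inj
  lt := codeB2_lt
  surj := codeB2_surj
  bd1 := bd_of bd1B2'
  bd2 := bd_of bd2B2'
  ge1 := fun r hr => by
    unfold E1B2
    rw [List.getD_eq_default _ _ hr]
  ge2 := fun r hr => by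
    unfold E2B2
    rw [List.getD_eq_default _ _ hr]
  ck := fun r hr => List.all_eq_true.1 ckB2 r (List.mem_range.2 hr)

end Cfsg.Agent.H6.PM
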