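import Mathlib
import Cfsg.Agent.H6_Ort4
import Cfsg.Agent.H6_PMB2

/-!
The image of Steinberg's group of type `B₂` in the five-dimensional orthogonal group.
-/

set_option autoImplicit false
set_option linter.unusedSectionVars false
set_option maxRecDepth 100000

namespace Cfsg.Agent.H6.Ort

open QuadraticMap (polar)
open Cfsg.Lie
open Cfsg.Agent.H6.MR (SM coef coef_cons ev ev_apply)
open Cfsg.Agent.H6.PM hiding coef coef_cons ev ev_apply ev_zero
open Cfsg.Agent.H16.Quad hiding map_smul map_add map_sub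

/-- a sign -/
def sn2 (b : Bool) : ℤ := cond b 1 (-1)

/-- the index of a frame vector, coded -/
def cO (i : Fin 2) (s : Bool) : ℕ := codeB2 (ixO 2 i s)

/-- the table entry of a long root element -/
def tL (i : Fin 2) (s : Bool) (j : Fin 2) (s' : Bool) (e : Bool) : SM :=
  [(cO j s', cO i (!s), sn2 e), (cO i s, cO j (!s'), -sn2 e)]

/-- the table entry of a short root element -/
def tS (i : Fin 2) (s : Bool) (e : Bool) : SM :=
  [(0, cO i (!s), sn2 e), (cO i s, 0, -2 * sn2 e)]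

/-- the second table entry of a short root element -/
def tS2 (i : Fin 2) (s : Bool) : SM := [(cO i s, cO i (!s), -1)]

theorem factO1 : ∀ r : Fin 8, (∃ (i : Fin 2) (s : Bool) (j : Fin 2) (s' : Bool) (e : Bool), i ≠ j ∧ E1B2 r = tL i s j s' e ∧
    E2B2 r = []) ∨ (∃ (i : Fin 2) (s : Bool) (e : Bool), E1B2 r = tS i s e ∧ E2B2 r = tS2 i s) := by
  decide +kernel

theorem factO2 : ∀ (i : Fin 2) (s : Bool) (j : Fin 2) (s' : Bool), i ≠ j → ∃ (r : Fin 8) (e : Bool),
    (E1B2 r = tL i s j s' e ∨ E1B2 r = tL j s' i s e) ∧ E2B2 r = [] := by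
  decide +kernel

theorem factO3 : ∀ (i : Fin 2) (s : Bool), ∃ (r : Fin 8) (e : Bool), E1B2 r = tS i s e ∧ E2B2 r = tS2 i s := by
  decide +kernel

variable {F : Type*} [Field F]

theorem ev_cons_mulVec {ι : Type*} [Fintype ι] [DecidableEq ι] {code : ι → ℕ} (hc : Function.Injective code) (p q : ι) (a : ℤ)
    (A : SM) (x : ι → F) : (ev code F ((code p, code q, a) :: A)).mulVec x =
      ((a : F) * x q) • Pi.single p 1 + (ev code F A).mulVec x := by
  funext k
  unfold Matrix.mulVec dotProduct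
  simp only [ev_apply, coef_cons, hc.eq_iff, Pi.add_apply, Pi.smul_apply, smul_eq_mul, Pi.single_apply]
  push_cast
  simp only [add_mul, ite_mul, zero_mul, Finset.sum_add_distrib]
  congr 1
  by_cases hp : p = k
  · rw [if_pos hp.symm, mul_one]
    rw [Finset.sum_eq_single q]
    · rw [if_pos ⟨hp, rfl⟩]
    · intro l _ hl
      rw [if_neg (fun h => hl h.2.symm)]
    · intro h; exact absurd (Finset.mem_univ _) h
  · rw [if_neg (fun h => hp h.symm), mul_zero]
    exact Finset.sum_eq_zero fun l _ => if_neg (fun h => hp h.1)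

theorem ev_nil_mulVec {ι : Type*} [Fintype ι] [DecidableEq ι] (code : ι → ℕ) (x : ι → F) :
    (ev code F []).mulVec x = 0 := by
  rw [MR.ev_zero code F (A := []) rfl, Matrix.zero_mulVec]

theorem X_mulVec (r : ℕ) (t : F) (x : Unit ⊕ (Fin 2 ⊕ Fin 2) → F) :
    ((repB2.X F r t : GL (Unit ⊕ (Fin 2 ⊕ Fin 2)) F) : Matrix _ _ F).mulVec x =
      x + (t • (ev codeB2 F (E1B2 r)).mulVec x + (t * t) • (ev codeB2 F (E2B2 r)).mulVec x) := by
  rw [Rep.coe_X, Rep.Xm, Matrix.add_mulVec, Matrix.one_mulVec, Matrix.add_mulVec, Matrix.smul_mulVec, Matrix.smul_mulVec]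

theorem tL_mulVec (i : Fin 2) (s : Bool) (j : Fin 2) (s' : Bool) (e : Bool) (x : Unit ⊕ (Fin 2 ⊕ Fin 2) → F) :
    (ev codeB2 F (tL i s j s' e)).mulVec x = (sn2 e : F) • (x (ixO 2 i (!s)) • Pi.single (ixO 2 j s') 1 -
      x (ixO 2 j (!s')) • Pi.single (ixO 2 i s) 1) := by
  rw [tL, cO, cO, cO, cO, ev_cons_mulVec codeB2_inj, ev_cons_mulVec codeB2_inj, ev_nil_mulVec]
  push_cast
  module

theorem tS_mulVec (i : Fin 2) (s : Bool) (e : Bool) (x : Unit ⊕ (Fin 2 ⊕ Fin 2) → F) :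
    (ev codeB2 F (tS i s e)).mulVec x = (sn2 e : F) • (x (ixO 2 i (!s)) • Pi.single (Sum.inl ()) 1 -
      (2 * x (Sum.inl ())) • Pi.single (ixO 2 i s) 1) := by
  have h : tS i s e = [(codeB2 (Sum.inl ()), codeB2 (ixO 2 i (!s)), sn2 e), (codeB2 (ixO 2 i s), codeB2 (Sum.inl ()), -2 * sn2 e)] :=
    rfl
  rw [h, ev_cons_mulVec codeB2_inj, ev_cons_mulVec codeB2_inj, ev_nil_mulVec]
  push_cast
  module

theorem tS2_mulVec (i : Fin 2) (s : Bool) (x : Unit ⊕ (Fin 2 ⊕ Fin 2) → F) :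
    (ev codeB2 F (tS2 i s)).mulVec x = -(x (ixO 2 i (!s)) • Pi.single (ixO 2 i s) 1) := by
  rw [tS2, cO, cO, ev_cons_mulVec codeB2_inj, ev_nil_mulVec]
  push_cast
  module

theorem sn2_sq (e : Bool) : (sn2 e : F) * (sn2 e : F) = 1 := by cases e <;> simp [sn2]

theorem sgO_long (i : Fin 2) (s : Bool) (j : Fin 2) (s' : Bool) (e : Bool) {r : ℕ}
    (hr : E1B2 r = tL i s j s' e) (hr2 : E2B2 r = []) (c : F)
    (h : polar (oddQ F 2) ((frameOdd F 2).b i s) (c • (frameOdd F 2).b j s') = 0) :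
    toGL (oddQ F 2) (sg ((frameOdd F 2).qb i s) h) = repB2.X F r ((sn2 e : F) * c) := by
  apply Units.ext
  apply mat_ext
  intro x
  rw [toGL_mulVec, X_mulVec, hr, hr2, tL_mulVec, ev_nil_mulVec]
  show siegel ((frameOdd F 2).qb i s) h x = _
  rw [siegel_apply, qsmul, (frameOdd F 2).qb, mul_zero, zero_mul, zero_smul, sub_zero, polar_smul_right]
  have e1 : polar (oddQ F 2) x ((frameOdd F 2).b i s) = x (ixO 2 i (!s)) := polar_single_odd F 2 x i s
  have e2 : polar (oddQ F 2) x ((frameOdd F 2).b j s') = x (ixO 2 j (!s')) := polar_single_odd F 2 x j s'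
  rw [e1, e2]
  have e4 : (sn2 e : F) * c * (sn2 e : F) = c := by linear_combination c * sn2_sq (F := F) e
  show x + x (ixO 2 i !s) • c • Pi.single (ixO 2 j s') 1 - (c * x (ixO 2 j !s')) • Pi.single (ixO 2 i s) 1 = _
  rw [smul_smul (x _) c, smul_smul _ (sn2 e : F), e4]
  module

theorem sgO_long' (i : Fin 2) (s : Bool) (j : Fin 2) (s' : Bool) (e : Bool) {r : ℕ}
    (hr : E1B2 r = tL j s' i s e) (hr2 : E2B2 r = []) (c : F)
    (h : polar (oddQ F 2) ((frameOdd F 2).b i s) (c • (frameOdd F 2).b j s') = 0) :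
    toGL (oddQ F 2) (sg ((frameOdd F 2).qb i s) h) = repB2.X F r (-((sn2 e : F) * c)) := by
  apply Units.ext
  apply mat_ext
  intro x
  rw [toGL_mulVec, X_mulVec, hr, hr2, tL_mulVec, ev_nil_mulVec]
  show siegel ((frameOdd F 2).qb i s) h x = _
  rw [siegel_apply, qsmul, (frameOdd F 2).qb, mul_zero, zero_mul, zero_smul, sub_zero, polar_smul_right]
  have e1 : polar (oddQ F 2) x ((frameOdd F 2).b i s) = x (ixO 2 i (!s)) := polar_single_odd F 2 x i s
  have e2 : polar (oddQ F 2) x ((frameOdd F 2).b j s') = x (ixO 2 j (!s')) := polar_single_odd F 2 x j s'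
  rw [e1, e2]
  have e4 : -((sn2 e : F) * c) * (sn2 e : F) = -c := by linear_combination (-c) * sn2_sq (F := F) e
  show x + x (ixO 2 i !s) • c • Pi.single (ixO 2 j s') 1 - (c * x (ixO 2 j !s')) • Pi.single (ixO 2 i s) 1 = _
  rw [smul_smul (x _) c, smul_smul _ (sn2 e : F), e4]
  module

theorem sgO_short (i : Fin 2) (s : Bool) (e : Bool) {r : ℕ} (hr : E1B2 r = tS i s e) (hr2 : E2B2 r = tS2 i s) (c : F)
    (h : polar (oddQ F 2) ((frameOdd F 2).b i s) (c • (frameOdd F 2).z) = 0) :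
    toGL (oddQ F 2) (sg ((frameOdd F 2).qb i s) h) = repB2.X F r ((sn2 e : F) * c) := by
  apply Units.ext
  apply mat_ext
  intro x
  rw [toGL_mulVec, X_mulVec, hr, hr2, tS_mulVec, tS2_mulVec]
  show siegel ((frameOdd F 2).qb i s) h x = _
  have hz : oddQ F 2 (frameOdd F 2).z = 1 := by
    rcases (frameOdd F 2).hz with h | h
    · exfalso
      have := congrFun h (Sum.inl ())
      simp [frameOdd] at this
    · exact h
  have e1 : polar (oddQ F 2) x ((frameOdd F 2).b i s) = x (ixO 2 i (!s)) := polar_single_odd F 2 x i s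
  have e2 : polar (oddQ F 2) x ((frameOdd F 2).z) = 2 * x (Sum.inl ()) := polar_single_z F 2 x
  rw [siegel_apply, qsmul, hz, mul_one, polar_smul_right, e1, e2]
  have e4 : (sn2 e : F) * c * (sn2 e : F) = c := by linear_combination c * sn2_sq (F := F) e
  have e5 : (sn2 e : F) * c * ((sn2 e : F) * c) = c * c := by linear_combination c * c * sn2_sq (F := F) e
  show x + x (ixO 2 i !s) • c • Pi.single (Sum.inl ()) 1 - (c * (2 * x (Sum.inl ()))) • Pi.single (ixO 2 i s) 1 -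
    (c * c * x (ixO 2 i !s)) • Pi.single (ixO 2 i s) 1 = _
  rw [smul_smul (x _) c, smul_smul _ (sn2 e : F), e4, e5]
  module

theorem range_B2 (f : chevB2.SteinbergGroup F →* GL (Unit ⊕ (Fin 2 ⊕ Fin 2)) F)
    (hf : ∀ (r : ℕ) (t : F), r < chevB2.nroots → f (chevB2.stGen F r t) = repB2.X F r t) :
    f.range = (frameOdd F 2).H.map (toGL (oddQ F 2)) := by
  apply le_antisymm
  · rw [MonoidHom.range_eq_map, ← Cfsg.Agent.H6.Chev.pres_top, MonoidHom.map_closure, Subgroup.closure_le]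
    rintro _ ⟨_, ⟨r, t, hr, _, rfl⟩, rfl⟩
    rw [hf r t hr]
    rcases factO1 ⟨r, hr⟩ with ⟨i, s, j, s', e, hij, hE, hE2⟩ | ⟨i, s, e, hE, hE2⟩
    · have h : polar (oddQ F 2) ((frameOdd F 2).b i s) (((sn2 e : F) * t) • (frameOdd F 2).b j s') = 0 := by
        rw [polar_smul_right, (frameOdd F 2).bb_ne hij, mul_zero]
      have h1 := sgO_long (F := F) i s j s' e hE hE2 _ h
      rw [← mul_assoc, sn2_sq, one_mul] at h1
      exact ⟨_, Subgroup.subset_closure (Or.inl ⟨i, s, j, s', _, h, hij, rfl⟩), h1⟩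
    · have h : polar (oddQ F 2) ((frameOdd F 2).b i s) (((sn2 e : F) * t) • (frameOdd F 2).z) = 0 := by
        rw [polar_smul_right, (frameOdd F 2).bz, mul_zero]
      have h1 := sgO_short (F := F) i s e hE hE2 _ h
      rw [← mul_assoc, sn2_sq, one_mul] at h1
      exact ⟨_, Subgroup.subset_closure (Or.inr ⟨i, s, _, h, rfl⟩), h1⟩
  · rw [Subgroup.map_le_iff_le_comap, Frame.H, Subgroup.closure_le]
    rintro _ (⟨i, s, j, s', t, h, hij, rfl⟩ | ⟨i, s, t, h, rfl⟩)
    · show toGL (oddQ F 2) _ ∈ f.range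
      obtain ⟨r, e, hE | hE, hE2⟩ := factO2 i s j s' hij
      · rw [sgO_long i s j s' e hE hE2, ← hf r _ r.2]
        exact ⟨_, rfl⟩
      · rw [sgO_long' i s j s' e hE hE2, ← hf r _ r.2]
        exact ⟨_, rfl⟩
    · show toGL (oddQ F 2) _ ∈ f.range
      obtain ⟨r, e, hE, hE2⟩ := factO3 i s
      rw [sgO_short i s e hE hE2, ← hf r _ r.2]
      exact ⟨_, rfl⟩

end Cfsg.Agent.H6.Ort
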