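import Mathlib
import Cfsg.Agent.H6_Ort4
import Cfsg.Agent.H6_MRD4

/-!
The image of Steinberg's group of type `D₄` in the eight-dimensional orthogonal group.
-/

set_option autoImplicit false
set_option linter.unusedSectionVars false
set_option maxRecDepth 100000

namespace Cfsg.Agent.H6.Ort

open QuadraticMap (polar)
open Cfsg.Lie
open Cfsg.Agent.H6.MR
open Cfsg.Agent.H16.Quad hiding map_smul map_add map_sub

/-- a sign -/
def sn (b : Bool) : ℤ := cond b 1 (-1)

/-- the index of a frame vector, coded -/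
def cP (i : Fin 4) (s : Bool) : ℕ := codeD4 (ixP 4 i s)

/-- the table entry of a root element -/
def tE (i : Fin 4) (s : Bool) (j : Fin 4) (s' : Bool) (e : Bool) : SM :=
  [(cP j s', cP i (!s), sn e), (cP i s, cP j (!s'), -sn e)]

theorem fact1 : ∀ r : Fin 24, ∃ (i : Fin 4) (s : Bool) (j : Fin 4) (s' : Bool) (e : Bool), i ≠ j ∧ ED4 r = tE i s j s' e := by
  decide +kernel

theorem fact2 : ∀ (i : Fin 4) (s : Bool) (j : Fin 4) (s' : Bool), i ≠ j → ∃ (r : Fin 24) (e : Bool),
    ED4 r = tE i s j s' e ∨ ED4 r = tE j s' i s e := by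
  decide +kernel

variable {F : Type*} [Field F]

theorem ev_tE (i : Fin 4) (s : Bool) (j : Fin 4) (s' : Bool) (e : Bool) (x : Fin 4 ⊕ Fin 4 → F) :
    (ev codeD4 F (tE i s j s' e)).mulVec x = (sn e : F) • (x (ixP 4 i (!s)) • Pi.single (ixP 4 j s') 1 -
      x (ixP 4 j (!s')) • Pi.single (ixP 4 i s) 1) := by
  funext k
  unfold Matrix.mulVec dotProduct
  have coef_nil : ∀ i j, coef [] i j = 0 := fun _ _ => rfl
  simp only [ev_apply, tE, coef_cons, cP, codeD4_inj.eq_iff, coef_nil, add_zero, Pi.sub_apply, Pi.smul_apply, smul_eq_mul,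
    Pi.single_apply]
  push_cast
  simp only [add_mul, ite_mul, zero_mul, Finset.sum_add_distrib]
  have key : ∀ (p q : Fin 4 ⊕ Fin 4) (c : F), ∑ l, (if p = k ∧ q = l then c * x l else 0) = if k = p then c * x q else 0 := by
    intro p q c
    by_cases hp : p = k
    · rw [if_pos hp.symm]
      rw [Finset.sum_eq_single q]
      · rw [if_pos ⟨hp, rfl⟩]
      · intro l _ hl
        rw [if_neg (fun h => hl h.2.symm)]
      · intro h; exact absurd (Finset.mem_univ _) h
    · rw [if_neg (fun h => hp h.symm)]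
      exact Finset.sum_eq_zero fun l _ => if_neg (fun h => hp h.1)
  rw [key, key]
  split_ifs <;> ring

theorem sg_eq_X (i : Fin 4) (s : Bool) (j : Fin 4) (s' : Bool) (hij : i ≠ j) (e : Bool) {r : ℕ}
    (hr : ED4 r = tE i s j s' e) (c : F)
    (h : polar (plusQ F 4) ((framePlus F 4).b i s) (c • (framePlus F 4).b j s') = 0) :
    toGL (plusQ F 4) (sg ((framePlus F 4).qb i s) h) = repD4.X F r ((sn e : F) * c) := by
  apply Units.ext
  apply mat_ext
  intro x
  rw [toGL_mulVec, Rep.coe_X, Matrix.add_mulVec, Matrix.one_mulVec, Matrix.smul_mulVec, Rep.M, hr, ev_tE]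
  show siegel ((framePlus F 4).qb i s) h x = _
  rw [siegel_apply, qsmul, (framePlus F 4).qb, mul_zero, zero_mul, zero_smul, sub_zero, polar_smul_right]
  have e1 : polar (plusQ F 4) x ((framePlus F 4).b i s) = x (ixP 4 i (!s)) := polar_single_plus F 4 x i s
  have e2 : polar (plusQ F 4) x ((framePlus F 4).b j s') = x (ixP 4 j (!s')) := polar_single_plus F 4 x j s'
  rw [e1, e2]
  have e3 : (sn e : F) * (sn e : F) = 1 := by cases e <;> simp [sn]
  have e4 : (sn e : F) * c * (sn e : F) = c := by linear_combination c * e3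
  show x + x (ixP 4 i !s) • c • Pi.single (ixP 4 j s') 1 - (c * x (ixP 4 j !s')) • Pi.single (ixP 4 i s) 1 = _
  rw [smul_smul (x _) c, smul_smul _ (sn e : F), e4]
  module

theorem sg_eq_X' (i : Fin 4) (s : Bool) (j : Fin 4) (s' : Bool) (hij : i ≠ j) (e : Bool) {r : ℕ}
    (hr : ED4 r = tE j s' i s e) (c : F)
    (h : polar (plusQ F 4) ((framePlus F 4).b i s) (c • (framePlus F 4).b j s') = 0) :
    toGL (plusQ F 4) (sg ((framePlus F 4).qb i s) h) = repD4.X F r (-((sn e : F) * c)) := by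
  apply Units.ext
  apply mat_ext
  intro x
  rw [toGL_mulVec, Rep.coe_X, Matrix.add_mulVec, Matrix.one_mulVec, Matrix.smul_mulVec, Rep.M, hr, ev_tE]
  show siegel ((framePlus F 4).qb i s) h x = _
  rw [siegel_apply, qsmul, (framePlus F 4).qb, mul_zero, zero_mul, zero_smul, sub_zero, polar_smul_right]
  have e1 : polar (plusQ F 4) x ((framePlus F 4).b i s) = x (ixP 4 i (!s)) := polar_single_plus F 4 x i s
  have e2 : polar (plusQ F 4) x ((framePlus F 4).b j s') = x (ixP 4 j (!s')) := polar_single_plus F 4 x j s'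
  rw [e1, e2]
  have e3 : (sn e : F) * (sn e : F) = 1 := by cases e <;> simp [sn]
  have e4 : -((sn e : F) * c) * (sn e : F) = -c := by linear_combination (-c) * e3
  show x + x (ixP 4 i !s) • c • Pi.single (ixP 4 j s') 1 - (c * x (ixP 4 j !s')) • Pi.single (ixP 4 i s) 1 = _
  rw [smul_smul (x _) c, smul_smul _ (sn e : F), e4]
  module

theorem range_D4 (f : chevD4.SteinbergGroup F →* GL (Fin 4 ⊕ Fin 4) F)
    (hf : ∀ (r : ℕ) (t : F), r < chevD4.nroots → f (chevD4.stGen F r t) = repD4.X F r t) :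
    f.range = (framePlus F 4).H.map (toGL (plusQ F 4)) := by
  apply le_antisymm
  · rw [MonoidHom.range_eq_map, ← Cfsg.Agent.H6.Chev.pres_top, MonoidHom.map_closure, Subgroup.closure_le]
    rintro _ ⟨_, ⟨r, t, hr, _, rfl⟩, rfl⟩
    rw [hf r t hr]
    obtain ⟨i, s, j, s', e, hij, hE⟩ := fact1 ⟨r, hr⟩
    have h : polar (plusQ F 4) ((framePlus F 4).b i s) (((sn e : F) * t) • (framePlus F 4).b j s') = 0 := by
      rw [polar_smul_right, (framePlus F 4).bb_ne hij, mul_zero]
    have h1 := sg_eq_X (F := F) i s j s' hij e hE _ h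
    have e3 : (sn e : F) * (sn e : F) = 1 := by cases e <;> simp [sn]
    rw [← mul_assoc, e3, one_mul] at h1
    exact ⟨_, Subgroup.subset_closure (Or.inl ⟨i, s, j, s', _, h, hij, rfl⟩), h1⟩
  · rw [Subgroup.map_le_iff_le_comap, Frame.H, Subgroup.closure_le]
    rintro _ (⟨i, s, j, s', t, h, hij, rfl⟩ | ⟨i, s, t, h, rfl⟩)
    · show toGL (plusQ F 4) _ ∈ f.range
      obtain ⟨r, e, hE | hE⟩ := fact2 i s j s' hij
      · rw [sg_eq_X i s j s' hij e hE, ← hf r _ r.2]
        exact ⟨_, rfl⟩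
      · rw [sg_eq_X' i s j s' hij e hE, ← hf r _ r.2]
        exact ⟨_, rfl⟩
    · show toGL (plusQ F 4) _ ∈ f.range
      rw [sg_trivial _ h ⟨0, by
        show t • (0 : Fin 4 ⊕ Fin 4 → F) = _
        simp⟩, map_one]
      exact Subgroup.one_mem _

end Cfsg.Agent.H6.Ort
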