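import Cfsg.Prelude
import Mathlib.GroupTheory.GroupAction.MultipleTransitivity

/-!
The rank-one set-up: elementary facts.
-/

set_option autoImplicit false
set_option linter.unusedSectionVars false

namespace Cfsg.Agent.H6.R1

open Cfsg
open scoped Pointwise

section odd

variable {M : Type*} [Group M]

/-- unique square roots for elements of odd order -/
theorem sq_inj {x y : M} (hx : Odd (orderOf x)) (hy : Odd (orderOf y)) (h : x * x = y * y) : x = y := by
  obtain ⟨i, hi⟩ := hx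
  obtain ⟨j, hj⟩ := hy
  have e : ∀ {z : M} {n m : ℕ}, orderOf z = 2 * n + 1 → z = (z * z) ^ ((n + 1) + m * (2 * n + 1)) := by
    intro z n m hz
    rw [← sq, ← pow_mul]
    have h1 : 2 * (n + 1 + m * (2 * n + 1)) = 1 + (2 * n + 1) * (1 + 2 * m) := by ring
    rw [h1, pow_add, pow_mul, ← hz, pow_orderOf_eq_one, one_pow, pow_one, mul_one]
  -- choose a common exponent
  have e2 : ∀ {z : M} {n : ℕ} (N : ℕ), orderOf z = 2 * n + 1 → (2 * n + 1) ∣ N → Odd N →
      z = (z * z) ^ ((N + 1) / 2) := by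
    intro z n N hz hN hodd
    obtain ⟨k, hk⟩ := hodd
    rw [← sq, ← pow_mul]
    have h1 : 2 * ((N + 1) / 2) = N + 1 := by omega
    obtain ⟨c, hc⟩ := hN
    rw [h1, hc, pow_succ, pow_mul, ← hz, pow_orderOf_eq_one, one_pow, one_mul]
  have hodd : Odd ((2 * i + 1) * (2 * j + 1)) := by
    rw [Nat.odd_mul]; exact ⟨⟨i, rfl⟩, ⟨j, rfl⟩⟩
  rw [e2 _ hi (dvd_mul_right _ (2 * j + 1)) hodd, e2 _ hj (dvd_mul_left _ (2 * i + 1)) hodd, h]

theorem odd_orderOf [Finite M] {X : Subgroup M} (hodd : Odd (Nat.card X)) {x : M} (hx : x ∈ X) : Odd (orderOf x) := by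
  have h := orderOf_dvd_natCard (⟨x, hx⟩ : X)
  rw [Subgroup.orderOf_mk] at h
  exact Odd.of_dvd_nat hodd h

/-- square root inside the group generated -/
theorem exists_sqrt {x : M} (hx : Odd (orderOf x)) : ∃ n : ℕ, (x ^ n) * (x ^ n) = x := by
  obtain ⟨i, hi⟩ := hx
  refine ⟨i + 1, ?_⟩
  rw [← pow_add]
  have : i + 1 + (i + 1) = orderOf x + 1 := by omega
  rw [this, pow_succ, pow_orderOf_eq_one, one_mul]

/-- real elements of odd order groups are trivial -/
theorem real_eq_one [Finite M] {X : Subgroup M} (hodd : Odd (Nat.card X)) {x g : M} (hx : x ∈ X) (hg : g ∈ X)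
    (h : g * x * g⁻¹ = x⁻¹) : x = 1 := by
  have h2 : (g * g) * x = x * (g * g) := by
    have h3 : g * x = x⁻¹ * g := by rw [← h]; group
    have h4 : g * x⁻¹ = x * g := by
      have : g * x⁻¹ * g⁻¹ = x := by
        have := congrArg (·⁻¹) h
        simp only [mul_inv_rev, inv_inv] at this
        rw [mul_assoc]; exact this
      calc g * x⁻¹ = (g * x⁻¹ * g⁻¹) * g := by group
        _ = x * g := by rw [this]
    rw [mul_assoc, h3, ← mul_assoc, h4, mul_assoc]
  have h5 : g * x = x * g := by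
    obtain ⟨n, hn⟩ := exists_sqrt (odd_orderOf hodd hg)
    have h6 : Commute (g * g) x := h2
    have h7 : g = (g * g) ^ n := by rw [← sq, ← pow_mul, mul_comm, pow_mul, sq]; exact hn.symm
    rw [h7]
    exact (h6.pow_left n).eq
  rw [h5, mul_inv_cancel_right] at h
  have h6 : x * x = 1 * 1 := by nth_rewrite 2 [h]; simp
  exact sq_inj (odd_orderOf hodd hx) (by simp) h6

/-- S1124 -/
theorem odd_decomp [Finite M] (t : M) (ht : orderOf t = 2) (X : Subgroup M) (hodd : Odd (Nat.card X))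
    (hnorm : ∀ x ∈ X, t * x * t⁻¹ ∈ X) :
    (∀ x ∈ X, ∃! p : M × M, p.1 ∈ X ⊓ Subgroup.centralizer {t} ∧ p.2 ∈ Cfsg.invertedBy X t ∧ x = p.1 * p.2) ∧
      Nat.card X = Nat.card ↥(X ⊓ Subgroup.centralizer {t}) * Nat.card (Cfsg.invertedBy X t) ∧
      ∀ x ∈ X, MulAut.conj x • Subgroup.closure (Cfsg.invertedBy X t) = Subgroup.closure (Cfsg.invertedBy X t) := by
  have htt : t * t = 1 := by rw [← sq, ← ht, pow_orderOf_eq_one]
  have hti : t⁻¹ = t := inv_eq_of_mul_eq_one_left htt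
  have hcen : ∀ {y : M}, y ∈ Subgroup.centralizer {t} ↔ t * y * t⁻¹ = y := by
    intro y
    rw [Subgroup.mem_centralizer_singleton_iff, mul_inv_eq_iff_eq_mul]
    exact ⟨fun h => h.symm, fun h => h.symm⟩
  have hpow : ∀ {z : M}, z ∈ Cfsg.invertedBy X t → ∀ n : ℕ, z ^ n ∈ Cfsg.invertedBy X t := by
    rintro z ⟨h1, h2⟩ n
    refine ⟨pow_mem h1 n, ?_⟩
    have h3 : t * z ^ n * t⁻¹ = (t * z * t⁻¹) ^ n := by
      have := (MulAut.conj t).toMonoidHom.map_pow z n
      simpa using this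
    rw [h3, h2, inv_pow]
  have hex : ∀ x ∈ X, ∃ p : M × M, p.1 ∈ X ⊓ Subgroup.centralizer {t} ∧ p.2 ∈ Cfsg.invertedBy X t ∧ x = p.1 * p.2 := by
    intro x hx
    set w := (t * x * t⁻¹)⁻¹ * x with hw
    have hwX : w ∈ X := mul_mem (inv_mem (hnorm x hx)) hx
    have hwi : w ∈ Cfsg.invertedBy X t := by
      refine ⟨hwX, ?_⟩
      rw [hw, hti]
      simp only [mul_inv_rev, inv_inv, hti]
      calc t * (t * (x⁻¹ * t) * x) * t = (t * t) * x⁻¹ * t * x * t := by group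
        _ = _ := by rw [htt]; group
    obtain ⟨n, hn⟩ := exists_sqrt (odd_orderOf hodd hwX)
    have hz := hpow hwi n
    refine ⟨(x * (w ^ n)⁻¹, w ^ n), ⟨X.mul_mem hx (X.inv_mem hz.1), hcen.2 ?_⟩, hz, by group⟩
    have h1 : t * x * t⁻¹ = x * w⁻¹ := by rw [hw]; group
    have h2 : t * (w ^ n)⁻¹ * t⁻¹ = w ^ n := by
      have := congrArg (·⁻¹) hz.2
      simp only [mul_inv_rev, inv_inv] at this
      rw [← mul_assoc] at this
      exact this
    calc t * (x * (w ^ n)⁻¹) * t⁻¹ = (t * x * t⁻¹) * (t * (w ^ n)⁻¹ * t⁻¹) := by group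
      _ = x * w⁻¹ * w ^ n := by rw [h1, h2]
      _ = x * (w ^ n * w ^ n)⁻¹ * w ^ n := by rw [hn]
      _ = x * (w ^ n)⁻¹ := by group
  have huniq : ∀ (p p' : M × M), p.1 ∈ X ⊓ Subgroup.centralizer {t} → p.2 ∈ Cfsg.invertedBy X t →
      p'.1 ∈ X ⊓ Subgroup.centralizer {t} → p'.2 ∈ Cfsg.invertedBy X t → p.1 * p.2 = p'.1 * p'.2 → p = p' := by
    rintro ⟨y, z⟩ ⟨y', z'⟩ h1 h2 h1' h2' he
    have key : ∀ {y z : M}, y ∈ X ⊓ Subgroup.centralizer {t} → z ∈ Cfsg.invertedBy X t →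
        (t * (y * z) * t⁻¹)⁻¹ * (y * z) = z * z := by
      intro y z hy hz
      have e1 : t * (y * z) * t⁻¹ = (t * y * t⁻¹) * (t * z * t⁻¹) := by group
      rw [e1, hcen.1 hy.2, hz.2]
      group
    have k1 := key h1 h2
    have k2 := key h1' h2'
    simp only at he k1 k2
    rw [he, k2] at k1
    have hz : z' = z := sq_inj (odd_orderOf hodd h2'.1) (odd_orderOf hodd h2.1) k1
    subst hz
    have hy : y = y' := mul_right_cancel he
    rw [hy]
  refine ⟨fun x hx => ?_, ?_, ?_⟩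
  · obtain ⟨p, hp⟩ := hex x hx
    exact ⟨p, hp, fun p' hp' => huniq p' p hp'.1 hp'.2.1 hp.1 hp.2.1 (by rw [← hp'.2.2, ← hp.2.2])⟩
  · rw [← Nat.card_prod]
    symm
    apply Nat.card_congr
    refine Equiv.ofBijective (fun p : ↥(X ⊓ Subgroup.centralizer {t}) × ↥(Cfsg.invertedBy X t) =>
      (⟨(p.1 : M) * (p.2 : M), mul_mem p.1.2.1 p.2.2.1⟩ : X)) ⟨?_, ?_⟩
    · rintro ⟨y, z⟩ ⟨y', z'⟩ h
      have h' := congrArg Subtype.val h
      have := huniq ((y : M), (z : M)) ((y' : M), (z' : M)) y.2 z.2 y'.2 z'.2 h'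
      rw [Prod.mk.injEq] at this
      exact Prod.ext (Subtype.ext this.1) (Subtype.ext this.2)
    · rintro ⟨x, hx⟩
      obtain ⟨⟨y, z⟩, hy, hz, rfl⟩ := hex x hx
      exact ⟨(⟨y, hy⟩, ⟨z, hz⟩), rfl⟩
  · have h1 : ∀ x ∈ X, ∀ z ∈ Cfsg.invertedBy X t, x * z * x⁻¹ ∈ Subgroup.closure (Cfsg.invertedBy X t) := by
      intro x hx z hz
      obtain ⟨⟨y, z'⟩, hy, hz', rfl⟩ := hex x hx
      have h2 : y * (z' * z * z'⁻¹) * y⁻¹ ∈ Subgroup.closure (Cfsg.invertedBy X t) := by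
        have h3 : ∀ u ∈ Cfsg.invertedBy X t, y * u * y⁻¹ ∈ Cfsg.invertedBy X t := by
          rintro u ⟨hu1, hu2⟩
          refine ⟨mul_mem (mul_mem hy.1 hu1) (inv_mem hy.1), ?_⟩
          have h4 := hcen.1 hy.2
          simp only at h4
          have e1 : t * (y * u * y⁻¹) * t⁻¹ = (t * y * t⁻¹) * (t * u * t⁻¹) * (t * y * t⁻¹)⁻¹ := by group
          rw [e1, h4, hu2]; group
        have e : y * (z' * z * z'⁻¹) * y⁻¹ = (y * z' * y⁻¹) * (y * z * y⁻¹) * (y * z' * y⁻¹)⁻¹ := by group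
        rw [e]
        exact mul_mem (mul_mem (Subgroup.subset_closure (h3 _ hz')) (Subgroup.subset_closure (h3 _ hz)))
          (inv_mem (Subgroup.subset_closure (h3 _ hz')))
      have e : y * z' * z * (y * z')⁻¹ = y * (z' * z * z'⁻¹) * y⁻¹ := by group
      simp only
      rw [e]
      exact h2
    have h2 : ∀ x ∈ X, ∀ c ∈ Subgroup.closure (Cfsg.invertedBy X t),
        x * c * x⁻¹ ∈ Subgroup.closure (Cfsg.invertedBy X t) := by
      intro x hx c hc
      induction hc using Subgroup.closure_induction with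
      | mem z hz => exact h1 x hx z hz
      | one => rw [mul_one, mul_inv_cancel]; exact one_mem _
      | mul a b _ _ ha hb =>
        have e : x * (a * b) * x⁻¹ = (x * a * x⁻¹) * (x * b * x⁻¹) := by group
        rw [e]; exact mul_mem ha hb
      | inv a _ ha =>
        have e : x * a⁻¹ * x⁻¹ = (x * a * x⁻¹)⁻¹ := by group
        rw [e]; exact inv_mem ha
    intro x hx
    ext y
    rw [Subgroup.mem_smul_pointwise_iff_exists]
    constructor
    · rintro ⟨c, hc, rfl⟩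
      exact h2 x hx c hc
    · intro hy
      refine ⟨x⁻¹ * y * (x⁻¹)⁻¹, h2 x⁻¹ (inv_mem hx) y hy, ?_⟩
      rw [MulAut.smul_def, MulAut.conj_apply]
      group

end odd

end Cfsg.Agent.H6.R1
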