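import Cfsg.Agent.H6_R1
import Mathlib

/-!
The rank-one set-up: basic structure.
-/

set_option autoImplicit false
set_option linter.unusedSectionVars false

namespace Cfsg.Agent.H6.R1

open Cfsg
open scoped Pointwise

variable {G Ω : Type*} [Group G] [Finite G] [MulAction G Ω] {a : Ω} {t : G} {Q : Subgroup G}

local notation "𝔾" => MulAction.stabilizer G a
local notation "𝔻" => (MulAction.stabilizer G a ⊓ MulAction.stabilizer G (t • a))

section basic

variable (S : IsRankOneSetup G Ω a t Q)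

include S

theorem tinv : t⁻¹ = t := inv_eq_of_mul_eq_one_left S.mul_self

theorem tta : t • t • a = a := by rw [smul_smul, S.mul_self, one_smul]

theorem ta_ne : t • a ≠ a := S.not_mem

theorem tt (x : G) : t * (t * x) = x := by rw [← mul_assoc, S.mul_self, one_mul]

theorem Qa {x : G} (hx : x ∈ Q) : x • a = a := S.le hx

/-- two-transitivity -/
theorem two_trans {b c b' c' : Ω} (h : b ≠ c) (h' : b' ≠ c') : ∃ g : G, g • b = b' ∧ g • c = c' :=
  (MulAction.is_two_pretransitive_iff.1 S.two_transitive) h h'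

theorem D_conj_t {d : G} (hd : d ∈ 𝔻) : t * d * t ∈ 𝔻 := by
  obtain ⟨h1, h2⟩ := Subgroup.mem_inf.1 hd
  rw [MulAction.mem_stabilizer_iff] at h1 h2
  refine Subgroup.mem_inf.2 ⟨?_, ?_⟩ <;> rw [MulAction.mem_stabilizer_iff]
  · rw [mul_smul, mul_smul, h2, tta S]
  · rw [smul_smul, mul_assoc, S.mul_self, mul_one, mul_smul, h1]

theorem D_conj_Q {d x : G} (hd : d ∈ 𝔾) (hx : x ∈ Q) : d * x * d⁻¹ ∈ Q := S.conj_mem d hd x hx

theorem exists_QD {g : G} (hg : g ∈ 𝔾) : ∃ x ∈ Q, ∃ d ∈ 𝔻, g = x * d := by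
  rw [← S.sup_eq] at hg
  have hn : (𝔻 : Subgroup G) ≤ Subgroup.normalizer (Q : Set G) := by
    intro d hd
    rw [Subgroup.mem_normalizer_iff]
    intro x
    constructor
    · intro hx; exact S.conj_mem d hd.1 x hx
    · intro hx
      have := S.conj_mem d⁻¹ (inv_mem hd.1) _ hx
      have e : d⁻¹ * (d * x * d⁻¹) * d⁻¹⁻¹ = x := by group
      rwa [e] at this
  have h1 : ∀ g ∈ Q ⊔ 𝔻, ∃ x ∈ Q, ∃ d ∈ 𝔻, g = x * d := by
    intro g hg
    have h2 : g ∈ ((Q ⊔ 𝔻 : Subgroup G) : Set G) := hg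
    rw [sup_comm, Subgroup.coe_mul_of_left_le_normalizer_right _ _ hn] at h2
    obtain ⟨d, hd, x, hx, rfl⟩ := h2
    exact ⟨d * x * d⁻¹, S.conj_mem d hd.1 x hx, d, hd, by group⟩
  exact h1 g hg

theorem eq_one_of_ta {x : G} (hx : x ∈ Q) (h : x • t • a = t • a) : x = 1 := by
  have : x ∈ Q ⊓ MulAction.stabilizer G (t • a) := ⟨hx, h⟩
  rwa [S.inf_eq_bot, Subgroup.mem_bot] at this

theorem trans_ta {c : Ω} (hc : c ≠ a) : ∃ x ∈ Q, x • t • a = c := by
  obtain ⟨g, h1, h2⟩ := two_trans S (ta_ne S) hc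
  obtain ⟨x, hx, d, hd, rfl⟩ := exists_QD S (g := g) h2
  refine ⟨x, hx, ?_⟩
  rw [mul_smul, hd.2] at h1
  exact h1

theorem trans {b c : Ω} (hb : b ≠ a) (hc : c ≠ a) : ∃ x ∈ Q, x • b = c := by
  obtain ⟨x, hx, rfl⟩ := trans_ta S hb
  obtain ⟨y, hy, rfl⟩ := trans_ta S hc
  exact ⟨y * x⁻¹, mul_mem hy (inv_mem hx), by rw [mul_smul, inv_smul_smul]⟩

theorem eq_one_of_fix {x : G} (hx : x ∈ Q) {c : Ω} (hc : c ≠ a) (h : x • c = c) : x = 1 := by
  obtain ⟨y, hy, rfl⟩ := trans_ta S hc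
  have h1 : (y⁻¹ * x * y) • t • a = t • a := by
    rw [mul_smul, mul_smul, h, inv_smul_smul]
  have h2 := eq_one_of_ta S (mul_mem (mul_mem (inv_mem hy) hx) hy) h1
  have e : x = y * (y⁻¹ * x * y) * y⁻¹ := by group
  rw [e, h2]; group

theorem unique {x y : G} (hx : x ∈ Q) (hy : y ∈ Q) {c : Ω} (hc : c ≠ a) (h : x • c = y • c) : x = y := by
  have h1 := eq_one_of_fix S (mul_mem (inv_mem hy) hx) hc (by rw [mul_smul, h, inv_smul_smul])
  exact (inv_mul_eq_one.1 h1).symm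

theorem regular (b c : Ω) (hb : b ≠ a) (hc : c ≠ a) : ∃! x : Q, (x : G) • b = c := by
  obtain ⟨x, hx, h⟩ := trans S hb hc
  exact ⟨⟨x, hx⟩, h, fun y hy => Subtype.ext (unique S y.2 hx hb (hy.trans h.symm))⟩

theorem finΩ : Finite Ω := by
  have h : Function.Surjective (fun g : G => g • a) := by
    intro c
    by_cases hc : c = a
    · exact ⟨1, by rw [hc]; exact one_smul _ _⟩
    · obtain ⟨x, hx, h⟩ := trans_ta S hc
      exact ⟨x * t, by rw [← h]; exact mul_smul _ _ _⟩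
  exact Finite.of_surjective _ h

theorem card_Ω : Nat.card Ω = Nat.card Q + 1 := by
  have := finΩ S
  classical
  have e : Q ≃ {c : Ω // c ≠ a} := by
    refine Equiv.ofBijective (fun x => ⟨(x : G) • t • a, fun h => ?_⟩) ⟨?_, ?_⟩
    · have h2 : (x : G)⁻¹ • a = a := Qa S (inv_mem x.2)
      rw [← h, inv_smul_smul] at h2
      exact ta_ne S (h2.trans (by rw [h]))
    · intro x y h
      exact Subtype.ext (unique S x.2 y.2 (ta_ne S) (congrArg Subtype.val h))
    · rintro ⟨c, hc⟩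
      obtain ⟨x, hx, h⟩ := trans_ta S hc
      exact ⟨⟨x, hx⟩, Subtype.ext h⟩
  rw [Nat.card_congr e, ← Nat.card_congr (Equiv.optionSubtypeNe a), Finite.card_option]

theorem pretrans : MulAction.IsPretransitive G Ω := by
  have h1 : ∀ c : Ω, ∃ g : G, g • a = c := by
    intro c
    by_cases hc : c = a
    · exact ⟨1, by rw [hc]; exact one_smul _ _⟩
    · obtain ⟨x, hx, h⟩ := trans_ta S hc
      exact ⟨x * t, by rw [← h]; exact mul_smul _ _ _⟩
  refine ⟨fun b c => ?_⟩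
  obtain ⟨g, rfl⟩ := h1 b
  obtain ⟨h, rfl⟩ := h1 c
  exact ⟨h * g⁻¹, by rw [mul_smul, inv_smul_smul]⟩

theorem card_Ga : Nat.card 𝔾 = Nat.card Q * Nat.card ↥𝔻 := by
  rw [← Nat.card_prod]
  symm
  apply Nat.card_congr
  refine Equiv.ofBijective (fun p : Q × ↥𝔻 => (⟨(p.1 : G) * (p.2 : G), mul_mem (S.le p.1.2) p.2.2.1⟩ : 𝔾)) ⟨?_, ?_⟩
  · rintro ⟨x, d⟩ ⟨x', d'⟩ h
    have h' : (x : G) * (d : G) = x' * d' := congrArg Subtype.val h
    have h1 : (x : G) = x' := by
      apply unique S x.2 x'.2 (ta_ne S)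
      have h2 : ((x : G) * (d : G)) • t • a = ((x' : G) * (d' : G)) • t • a := by rw [h']
      have e1 : (d : G) • t • a = t • a := d.2.2
      have e2 : (d' : G) • t • a = t • a := d'.2.2
      rwa [mul_smul, mul_smul, e1, e2] at h2
    rw [h1] at h'
    exact Prod.ext (Subtype.ext h1) (Subtype.ext (mul_left_cancel h'))
  · rintro ⟨g, hg⟩
    obtain ⟨x, hx, d, hd, rfl⟩ := exists_QD S hg
    exact ⟨(⟨x, hx⟩, ⟨d, hd⟩), rfl⟩

theorem card_G : Nat.card G = Nat.card Q * Nat.card ↥𝔻 * (Nat.card Q + 1) := by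
  have := finΩ S
  have := pretrans S
  have h1 := (MulAction.stabilizer G a).index_mul_card
  rw [MulAction.index_stabilizer_of_transitive, card_Ω S, card_Ga S] at h1
  rw [← h1, mul_comm]

theorem exists_sylow : ∃ P : Sylow 2 G, (P : Subgroup G) ≤ Q := by
  classical
  have : Fact (Nat.Prime 2) := ⟨Nat.prime_two⟩
  obtain ⟨P⟩ : Nonempty (Sylow 2 Q) := inferInstance
  let P' : Subgroup G := (P : Subgroup Q).map Q.subtype
  have hc : Nat.card P' = 2 ^ (Nat.card G).factorization 2 := by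
    have h1 : Nat.card P' = Nat.card (P : Subgroup Q) :=
      Nat.card_congr ((P : Subgroup Q).equivMapOfInjective Q.subtype Q.subtype_injective).symm.toEquiv
    rw [h1, P.card_eq_multiplicity, card_G S]
    congr 1
    have hQ : Nat.card Q ≠ 0 := Nat.card_pos.ne'
    have hD : Nat.card ↥𝔻 ≠ 0 := Nat.card_pos.ne'
    have e1 : (Nat.card ↥𝔻).factorization 2 = 0 :=
      Nat.factorization_eq_zero_of_not_dvd (fun h => by
        have := S.odd_card
        rw [← Nat.not_even_iff_odd, even_iff_two_dvd] at this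
        exact this h)
    have e2 : (Nat.card Q + 1).factorization 2 = 0 :=
      Nat.factorization_eq_zero_of_not_dvd (fun h => by
        have := S.even_card
        rw [even_iff_two_dvd] at this
        omega)
    rw [Nat.factorization_mul (mul_ne_zero hQ hD) (Nat.succ_ne_zero _), Nat.factorization_mul hQ hD]
    rw [Finsupp.add_apply, Finsupp.add_apply, e1, e2, add_zero, add_zero]
  exact ⟨Sylow.ofCard P' hc, by
    change P' ≤ Q
    rintro _ ⟨x, -, rfl⟩
    exact x.2⟩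

theorem canonical (g : G) (hg : g ∉ 𝔾) : ∃! p : G × G, p.1 ∈ 𝔾 ∧ p.2 ∈ Q ∧ g = p.1 * t * p.2 := by
  have hg' : g⁻¹ • a ≠ a := fun h => hg (by
    rw [MulAction.mem_stabilizer_iff]; nth_rewrite 1 [← h]; exact smul_inv_smul _ _)
  obtain ⟨y, hy, h⟩ := trans_ta S hg'
  refine ⟨(g * y * t, y⁻¹), ⟨?_, inv_mem hy, ?_⟩, ?_⟩
  · simp only
    rw [MulAction.mem_stabilizer_iff, mul_smul, mul_smul, h, smul_inv_smul]
  · simp only
    rw [mul_assoc (g * y), S.mul_self]; group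
  · rintro ⟨x', y'⟩ ⟨h1, h2, h3⟩
    simp only at h1 h2 h3
    have h4 : y'⁻¹ = y := by
      apply unique S (inv_mem h2) hy (ta_ne S)
      rw [h, h3]
      simp only [mul_inv_rev, mul_smul]
      have : x'⁻¹ • a = a := inv_mem h1
      rw [this, tinv S]
    subst h4
    rw [Prod.mk.injEq]
    refine ⟨?_, (inv_inv _).symm⟩
    rw [h3]
    rw [mul_inv_cancel_right, mul_assoc, S.mul_self, mul_one]

/-- uniqueness of the canonical form -/
theorem canon_unique {x y x' y' : G} (hx : x ∈ 𝔾) (hy : y ∈ Q) (hx' : x' ∈ 𝔾) (hy' : y' ∈ Q)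
    (h : x * t * y = x' * t * y') : x = x' ∧ y = y' := by
  have hg : x * t * y ∉ 𝔾 := by
    intro h1
    have h2 : t ∈ 𝔾 := by
      have e : t = x⁻¹ * (x * t * y) * y⁻¹ := by group
      rw [e]; exact mul_mem (mul_mem (inv_mem hx) h1) (inv_mem (S.le hy))
    exact S.not_mem h2
  obtain ⟨p, -, hp⟩ := canonical S _ hg
  have h1 := hp (x, y) ⟨hx, hy, rfl⟩
  have h2 := hp (x', y') ⟨hx', hy', h⟩
  rw [← h2, Prod.mk.injEq] at h1
  exact h1

/-- three-part uniqueness -/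
theorem canon3 {g h f g' h' f' : G} (hg : g ∈ Q) (hh : h ∈ 𝔻) (hf : f ∈ Q) (hg' : g' ∈ Q) (hh' : h' ∈ 𝔻)
    (hf' : f' ∈ Q) (he : g * h * t * f = g' * h' * t * f') : g = g' ∧ h = h' ∧ f = f' := by
  obtain ⟨h1, h2⟩ := canon_unique S (mul_mem (S.le hg) hh.1) hf (mul_mem (S.le hg') hh'.1) hf' he
  have h3 : g = g' := by
    apply unique S hg hg' (ta_ne S)
    have h4 : (g * h) • t • a = (g' * h') • t • a := by rw [h1]
    have e1 : h • t • a = t • a := hh.2
    have e2 : h' • t • a = t • a := hh'.2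
    rwa [mul_smul, mul_smul, e1, e2] at h4
  subst h3
  exact ⟨rfl, mul_left_cancel h1, h2⟩

/-! ### S1118 -/

theorem normalizer_le (X : Set G) (hX : X ⊆ (Q : Set G)) (h1 : ∃ x ∈ X, x ≠ 1) : Subgroup.normalizer X ≤ 𝔾 := by
  intro g hg
  obtain ⟨x, hx, hx1⟩ := h1
  rw [MulAction.mem_stabilizer_iff]
  by_contra hc
  have h2 : g * x * g⁻¹ ∈ X := (hg x).1 hx
  have h3 := eq_one_of_fix S (hX h2) hc (by rw [mul_smul, mul_smul, inv_smul_smul, Qa S (hX hx)])
  apply hx1
  have e : x = g⁻¹ * (g * x * g⁻¹) * g := by group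
  rw [e, h3]; group

theorem exists_ne_one : ∃ x ∈ Q, x ≠ 1 := by
  by_contra h
  push Not at h
  have : Q = ⊥ := by rw [Subgroup.eq_bot_iff_forall]; exact h
  have h2 := S.even_card
  rw [this, Subgroup.card_bot] at h2
  exact absurd h2 (by decide)

theorem normalizer_Q : Subgroup.normalizer (Q : Set G) = 𝔾 := by
  apply le_antisymm
  · obtain ⟨x, hx, h1⟩ := exists_ne_one S
    exact normalizer_le S _ (fun _ h => h) ⟨x, hx, h1⟩
  · intro d hd
    rw [Subgroup.mem_normalizer_iff]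
    intro x
    constructor
    · intro hx; exact S.conj_mem d hd x hx
    · intro hx
      have := S.conj_mem d⁻¹ (inv_mem hd) _ hx
      have e : d⁻¹ * (d * x * d⁻¹) * d⁻¹⁻¹ = x := by group
      rwa [e] at this

theorem normalizer_Ga : Subgroup.normalizer (𝔾 : Set G) = 𝔾 := by
  apply le_antisymm
  · intro g hg
    rw [MulAction.mem_stabilizer_iff]
    by_contra hc
    obtain ⟨x, hx, h1⟩ := exists_ne_one S
    apply h1
    apply eq_one_of_fix S hx hc
    have h2 : g⁻¹ * x * g⁻¹⁻¹ ∈ 𝔾 := (Subgroup.mem_normalizer_iff.1 (inv_mem hg) x).1 (S.le hx)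
    rw [MulAction.mem_stabilizer_iff, inv_inv, mul_smul, mul_smul] at h2
    have h3 := congrArg (g • ·) h2
    simp only [smul_inv_smul] at h3
    exact h3
  · exact Subgroup.le_normalizer

end basic

end Cfsg.Agent.H6.R1
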