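import Cfsg.Agent.H6_R2

/-!
The rank-one set-up: involutions.
-/

set_option autoImplicit false
set_option linter.unusedSectionVars false

namespace Cfsg.Agent.H6.R1

open Cfsg
open scoped Pointwise

variable {G Ω : Type*} [Group G] [Finite G] [MulAction G Ω] {a : Ω} {t : G} {Q : Subgroup G}

local notation "𝔾" => MulAction.stabilizer G a
local notation "𝔻" => (MulAction.stabilizer G a ⊓ MulAction.stabilizer G (t • a))
local notation "𝕂" => invertedBy (MulAction.stabilizer G a ⊓ MulAction.stabilizer G (t • a)) t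
local notation "𝕀" => involutionsIn (MulAction.stabilizer G a : Set G)

/-- product of two involutions of even order -/
theorem exists_central_of_even {G : Type*} [Group G] [Finite G] {s u : G} (hs : s * s = 1) (hu : u * u = 1)
    (h : ¬ Odd (orderOf (s * u))) : ∃ z : G, z ≠ 1 ∧ z * z = 1 ∧ z * s = s * z ∧ z * u = u * z := by
  rw [Nat.not_odd_iff_even] at h
  obtain ⟨n, hn⟩ := h
  have hpos : 0 < n := by have := orderOf_pos (s * u); omega
  have hsi : s⁻¹ = s := inv_eq_of_mul_eq_one_left hs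
  have hui : u⁻¹ = u := inv_eq_of_mul_eq_one_left hu
  have hinv : ∀ m : ℕ, s * (s * u) ^ m * s = ((s * u) ^ m)⁻¹ := by
    intro m
    have h1 : s * (s * u) * s⁻¹ = (s * u)⁻¹ := by
      rw [mul_inv_rev, hsi, hui, ← mul_assoc, hs, one_mul]
    have h2 : s * (s * u) ^ m * s⁻¹ = (s * (s * u) * s⁻¹) ^ m := by
      have := (MulAut.conj s).toMonoidHom.map_pow (s * u) m
      simpa using this
    rw [h1, hsi, inv_pow] at h2
    exact h2
  have hz2 : (s * u) ^ n * (s * u) ^ n = 1 := by rw [← pow_add, ← hn, pow_orderOf_eq_one]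
  have hzi : ((s * u) ^ n)⁻¹ = (s * u) ^ n := inv_eq_of_mul_eq_one_left hz2
  have hzs : (s * u) ^ n * s = s * (s * u) ^ n := by
    have := hinv n
    rw [hzi] at this
    calc (s * u) ^ n * s = (s * s) * ((s * u) ^ n * s) := by rw [hs, one_mul]
      _ = s * (s * (s * u) ^ n * s) := by group
      _ = _ := by rw [this]
  refine ⟨(s * u) ^ n, fun h1 => ?_, hz2, hzs, ?_⟩
  · have := orderOf_le_of_pow_eq_one hpos h1
    omega
  · have h1 : (s * u) ^ n * (s * u) = (s * u) * (s * u) ^ n := by rw [← pow_succ, ← pow_succ']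
    have h2 : u = s * (s * u) := by rw [← mul_assoc, hs, one_mul]
    calc (s * u) ^ n * u = (s * u) ^ n * s * (s * u) := by nth_rewrite 2 [h2]; group
      _ = s * ((s * u) ^ n * (s * u)) := by rw [hzs]; group
      _ = s * ((s * u) * (s * u) ^ n) := by rw [h1]
      _ = u * (s * u) ^ n := by rw [← mul_assoc, ← h2]

/-- involutions with odd product are conjugate -/
theorem conj_of_odd {G : Type*} [Group G] {s u : G} (hs : s * s = 1) (hu : u * u = 1)
    (h : Odd (orderOf (s * u))) : ∃ g : G, g * s * g⁻¹ = u := by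
  obtain ⟨n, hn⟩ := exists_sqrt h
  have hsi : s⁻¹ = s := inv_eq_of_mul_eq_one_left hs
  have hui : u⁻¹ = u := inv_eq_of_mul_eq_one_left hu
  have h2 : s * (s * u) ^ n * s⁻¹ = ((s * u) ^ n)⁻¹ := by
    have h1 : s * (s * u) * s⁻¹ = (s * u)⁻¹ := by
      rw [mul_inv_rev, hsi, hui, ← mul_assoc, hs, one_mul]
    have h2 : s * (s * u) ^ n * s⁻¹ = (s * (s * u) * s⁻¹) ^ n := by
      have := (MulAut.conj s).toMonoidHom.map_pow (s * u) n
      simpa using this
    rw [h2, h1, inv_pow]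
  refine ⟨((s * u) ^ n)⁻¹, ?_⟩
  have h3 : s * (s * u) ^ n = ((s * u) ^ n)⁻¹ * s := by
    rw [← h2]; group
  rw [inv_inv, mul_assoc, h3, ← mul_assoc, ← mul_inv_rev, hn, mul_inv_rev, hsi, hui, mul_assoc, hs, mul_one]

section inv

variable (S : IsRankOneSetup G Ω a t Q)

include S

theorem QD_bot {x : G} (hx : x ∈ Q) (hd : x ∈ 𝔻) : x = 1 := eq_one_of_ta S hx hd.2

theorem inv_mem_Q {s : G} (hs : s ∈ 𝔾) (h2 : s * s = 1) : s ∈ Q := by
  obtain ⟨x, hx, d, hd, rfl⟩ := exists_QD S hs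
  have h4 : d * d = (x * (d * x * d⁻¹))⁻¹ := by
    rw [eq_inv_iff_mul_eq_one]
    have h3 : x * (d * x * d⁻¹) * (d * d) = 1 := by rw [← h2]; group
    rw [mul_eq_one_iff_eq_inv] at h3
    rw [h3]; group
  have h5 : d * d = 1 := by
    apply QD_bot S _ (mul_mem hd hd)
    rw [h4]
    exact inv_mem (mul_mem hx (S.conj_mem d hd.1 x hx))
  have h3 : d = 1 := sq_inj (odd_orderOf S.odd_card hd) (by simp) (by rw [h5, mul_one])
  rw [h3, mul_one]
  exact hx

theorem mem_I {s : G} : s ∈ 𝕀 ↔ s ∈ Q ∧ s ≠ 1 ∧ s * s = 1 :=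
  ⟨fun h => ⟨inv_mem_Q S h.1 h.2.2, h.2⟩, fun h => ⟨S.le h.1, h.2⟩⟩

/-- every involution is conjugate into `Q` -/
theorem exists_conj_Q {u : G} (h2 : u * u = 1) : ∃ g : G, g⁻¹ * u * g ∈ Q := by
  classical
  have : Fact (Nat.Prime 2) := ⟨Nat.prime_two⟩
  obtain ⟨P, hP⟩ := exists_sylow S
  have h1 : IsPGroup 2 (Subgroup.zpowers u) := by
    rintro ⟨x, hx⟩
    obtain ⟨k, rfl⟩ := Subgroup.mem_zpowers_iff.1 hx
    refine ⟨1, Subtype.ext ?_⟩
    change (u ^ k) ^ (2 ^ 1) = 1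
    rw [pow_one, sq, ← zpow_add, ← two_mul, zpow_mul, zpow_ofNat, sq, h2, one_zpow]
  obtain ⟨P', hP'⟩ := h1.exists_le_sylow
  obtain ⟨g, hg⟩ := MulAction.exists_smul_eq G P P'
  have h3 : u ∈ ((g • P : Sylow 2 G) : Subgroup G) := by rw [hg]; exact hP' (Subgroup.mem_zpowers u)
  rw [Sylow.coe_subgroup_smul, Subgroup.mem_smul_pointwise_iff_exists] at h3
  obtain ⟨s, hs, rfl⟩ := h3
  refine ⟨g, hP ?_⟩
  rw [MulAut.smul_def, MulAut.conj_apply]
  have e : g⁻¹ * (g * s * g⁻¹) * g = s := by group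
  rw [e]; exact hs

/-- every involution has a unique fixed point -/
theorem exists_fix {u : G} (h1 : u ≠ 1) (h2 : u * u = 1) : ∃ c : Ω, u • c = c ∧ ∀ d : Ω, u • d = d → d = c := by
  obtain ⟨g, hg⟩ := exists_conj_Q S h2
  have hne : g⁻¹ * u * g ≠ 1 := fun h => h1 (by
    have e : u = g * (g⁻¹ * u * g) * g⁻¹ := by group
    rw [e, h]; group)
  refine ⟨g • a, ?_, fun d hd => ?_⟩
  · have h3 := Qa S hg
    rw [mul_smul, mul_smul, inv_smul_eq_iff] at h3
    exact h3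
  · by_contra hc
    have h3 : g⁻¹ • d ≠ a := fun h => hc (by rw [← h, smul_inv_smul])
    exact hne (eq_one_of_fix S hg h3 (by rw [mul_smul, smul_inv_smul, mul_smul, hd]))

theorem fix_unique {u : G} (h1 : u ≠ 1) (h2 : u * u = 1) {c d : Ω} (hc : u • c = c) (hd : u • d = d) : c = d := by
  obtain ⟨e, -, h⟩ := exists_fix S h1 h2
  rw [h c hc, h d hd]

theorem comm_fix {u x : G} (h1 : u ≠ 1) (h2 : u * u = 1) {c : Ω} (hc : u • c = c) (hx : x * u = u * x) : x • c = c := by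
  apply fix_unique S h1 h2 _ hc
  rw [smul_smul, ← hx, mul_smul, hc]

/-- S1121 -/
theorem odd_mul {s u : G} (hs : s ∈ 𝔾) (hs1 : s ≠ 1) (hs2 : s * s = 1) (hu : u ∉ 𝔾) (hu1 : u ≠ 1)
    (hu2 : u * u = 1) : Odd (orderOf (s * u)) := by
  by_contra h
  obtain ⟨z, hz1, hz2, hzs, hzu⟩ := exists_central_of_even hs2 hu2 h
  have h1 : z • a = a := comm_fix S hs1 hs2 hs hzs
  exact hu (comm_fix S hz1 hz2 h1 hzu.symm)

theorem conj_t {u : G} (h1 : u ≠ 1) (h2 : u * u = 1) : ∃ g : G, g * u * g⁻¹ = t := by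
  obtain ⟨g, hg⟩ := exists_conj_Q S h2
  have hne : g⁻¹ * u * g ≠ 1 := fun h => h1 (by
    have e : u = g * (g⁻¹ * u * g) * g⁻¹ := by group
    rw [e, h]; group)
  have hsq : (g⁻¹ * u * g) * (g⁻¹ * u * g) = 1 := by
    calc (g⁻¹ * u * g) * (g⁻¹ * u * g) = g⁻¹ * (u * u) * g := by group
      _ = 1 := by rw [h2]; group
  obtain ⟨k, hk⟩ := conj_of_odd hsq S.mul_self (odd_mul S (S.le hg) hne hsq S.not_mem S.ne_one S.mul_self)
  exact ⟨k * g⁻¹, by rw [← hk]; group⟩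

theorem all_conj (u v : G) (hu1 : u ≠ 1) (hu2 : u * u = 1) (hv1 : v ≠ 1) (hv2 : v * v = 1) :
    ∃ g : G, g * u * g⁻¹ = v := by
  obtain ⟨g, hg⟩ := conj_t S hu1 hu2
  obtain ⟨h, hh⟩ := conj_t S hv1 hv2
  exact ⟨h⁻¹ * g, by
    calc h⁻¹ * g * u * (h⁻¹ * g)⁻¹ = h⁻¹ * (g * u * g⁻¹) * h := by group
      _ = h⁻¹ * (h * v * h⁻¹) * h := by rw [hg, hh]
      _ = v := by group⟩

/-! ### The set `K` -/

theorem K_iff {k : G} : k ∈ 𝕂 ↔ k ∈ 𝔻 ∧ t * k * t = k⁻¹ := by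
  change k ∈ 𝔻 ∧ t * k * t⁻¹ = k⁻¹ ↔ _
  rw [tinv S]

theorem K_tk {k : G} (hk : k ∈ 𝕂) : t * k = k⁻¹ * t := by
  have h := ((K_iff S).1 hk).2
  rw [← h, mul_assoc (t * k), S.mul_self, mul_one]

theorem K_sq {k : G} (hk : k ∈ 𝕂) : (t * k) * (t * k) = 1 := by
  nth_rewrite 1 [K_tk S hk]
  rw [mul_assoc, tt S, inv_mul_cancel]

theorem K_ne {k : G} (hk : k ∈ 𝕂) : t * k ≠ 1 := by
  intro h
  have h1 : t = k⁻¹ := eq_inv_of_mul_eq_one_left h
  exact S.not_mem (by rw [h1]; exact inv_mem hk.1.1)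

theorem K_swap {k : G} (hk : k ∈ 𝕂) : (t * k) • a = t • a := by
  have h : k • a = a := hk.1.1
  rw [mul_smul, h]

theorem K_pow {k : G} (hk : k ∈ 𝕂) (n : ℕ) : k ^ n ∈ 𝕂 := by
  refine ⟨pow_mem hk.1 n, ?_⟩
  have h3 : t * k ^ n * t⁻¹ = (t * k * t⁻¹) ^ n := by
    have := (MulAut.conj t).toMonoidHom.map_pow k n
    simpa using this
  rw [h3, hk.2, inv_pow]

theorem K_inv {k : G} (hk : k ∈ 𝕂) : k⁻¹ ∈ 𝕂 := by
  refine ⟨inv_mem hk.1, ?_⟩
  have := congrArg (·⁻¹) hk.2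
  simp only [mul_inv_rev, inv_inv] at this
  rw [← mul_assoc] at this
  rw [this, inv_inv]

theorem K_one : (1 : G) ∈ 𝕂 := ⟨one_mem _, by group⟩

theorem K_sqrt {k : G} (hk : k ∈ 𝕂) : ∃ l ∈ 𝕂, l * l = k := by
  obtain ⟨n, hn⟩ := exists_sqrt (odd_orderOf S.odd_card hk.1)
  exact ⟨k ^ n, K_pow S hk n, hn⟩

theorem K_sq_conj {l : G} (hl : l ∈ 𝕂) : t * (l * l) = l⁻¹ * t * l := by
  rw [← mul_assoc, K_tk S hl]

/-- involutions swapping the two points -/
theorem swap_form {u : G} (h2 : u * u = 1) (hu : u • a = t • a) : ∃ k ∈ 𝕂, u = t * k := by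
  have hui : u⁻¹ = u := inv_eq_of_mul_eq_one_left h2
  refine ⟨t * u, (K_iff S).2 ⟨Subgroup.mem_inf.2 ⟨?_, ?_⟩, ?_⟩, (tt S u).symm⟩
  · rw [MulAction.mem_stabilizer_iff, mul_smul, hu, tta S]
  · rw [MulAction.mem_stabilizer_iff, mul_smul, ← hu, smul_smul u, h2, one_smul, hu]
  · rw [tt S, mul_inv_rev, hui, tinv S]

/-- involutions moving `a` -/
theorem out_form {u : G} (hu : u ∉ 𝔾) (h2 : u * u = 1) : ∃ r ∈ Q, ∃ k ∈ 𝕂, u = r⁻¹ * (t * k) * r := by
  have hua : u • a ≠ a := hu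
  obtain ⟨x, hx, h⟩ := trans_ta S hua
  have h3 : (x⁻¹ * u * x) * (x⁻¹ * u * x) = 1 := by
    calc (x⁻¹ * u * x) * (x⁻¹ * u * x) = x⁻¹ * (u * u) * x := by group
      _ = 1 := by rw [h2]; group
  obtain ⟨k, hk, he⟩ := swap_form S h3 (by
    rw [mul_smul, mul_smul, Qa S hx, ← h, inv_smul_smul])
  refine ⟨x⁻¹, inv_mem hx, k, hk, ?_⟩
  rw [← he]; group

theorem out_unique {r r' k k' : G} (hr : r ∈ Q) (hr' : r' ∈ Q) (hk : k ∈ 𝕂) (hk' : k' ∈ 𝕂)
    (h : r⁻¹ * (t * k) * r = r'⁻¹ * (t * k') * r') : r = r' ∧ k = k' := by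
  have h1 : r⁻¹ • t • a = r'⁻¹ • t • a := by
    have h2 : (r⁻¹ * (t * k) * r) • a = (r'⁻¹ * (t * k') * r') • a := by rw [h]
    rwa [mul_smul, mul_smul, Qa S hr, K_swap S hk, mul_smul, mul_smul, Qa S hr', K_swap S hk'] at h2
  have h2 := unique S (inv_mem hr) (inv_mem hr') (ta_ne S) h1
  rw [inv_inj] at h2
  subst h2
  exact ⟨rfl, mul_left_cancel (mul_left_cancel (mul_right_cancel h))⟩

theorem card_K : Nat.card 𝕂 = Nat.card 𝕀 := by
  classical
  let J := {u : G // u ∉ 𝔾 ∧ u ≠ 1 ∧ u * u = 1}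
  have e2 : Nat.card (Q × 𝕂) = Nat.card J := by
    apply Nat.card_congr
    refine Equiv.ofBijective (fun p => ⟨(p.1 : G)⁻¹ * (t * (p.2 : G)) * (p.1 : G), ?_, ?_, ?_⟩) ⟨?_, ?_⟩
    · intro h
      have h3 := mul_mem (mul_mem (S.le p.1.2) h) (inv_mem (S.le p.1.2))
      have e : (p.1 : G) * ((p.1 : G)⁻¹ * (t * (p.2 : G)) * (p.1 : G)) * (p.1 : G)⁻¹ = t * p.2 := by group
      rw [e] at h3
      exact ta_ne S ((K_swap S p.2.2).symm.trans h3)
    · intro h
      apply K_ne S p.2.2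
      have e : t * (p.2 : G) = (p.1 : G) * ((p.1 : G)⁻¹ * (t * (p.2 : G)) * (p.1 : G)) * (p.1 : G)⁻¹ := by group
      rw [e, h]; group
    · have h := K_sq S p.2.2
      calc (p.1 : G)⁻¹ * (t * (p.2 : G)) * (p.1 : G) * ((p.1 : G)⁻¹ * (t * (p.2 : G)) * (p.1 : G)) =
          (p.1 : G)⁻¹ * ((t * (p.2 : G)) * (t * (p.2 : G))) * (p.1 : G) := by group
        _ = 1 := by rw [h]; group
    · rintro ⟨r, k⟩ ⟨r', k'⟩ h
      obtain ⟨h1, h2⟩ := out_unique S r.2 r'.2 k.2 k'.2 (congrArg Subtype.val h)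
      exact Prod.ext (Subtype.ext h1) (Subtype.ext h2)
    · rintro ⟨u, h1, h2, h3⟩
      obtain ⟨r, hr, k, hk, rfl⟩ := out_form S h1 h3
      exact ⟨(⟨r, hr⟩, ⟨k, hk⟩), rfl⟩
  have e1 : Nat.card (Q × 𝕀) = Nat.card J := by
    apply Nat.card_congr
    refine Equiv.ofBijective (fun p => ⟨(p.1 : G) * (t * (p.2 : G) * t) * (p.1 : G)⁻¹, ?_, ?_, ?_⟩) ⟨?_, ?_⟩
    · intro h
      have h3 := mul_mem (mul_mem (inv_mem (S.le p.1.2)) h) (S.le p.1.2)
      have e : (p.1 : G)⁻¹ * ((p.1 : G) * (t * (p.2 : G) * t) * (p.1 : G)⁻¹) * (p.1 : G) = t * p.2 * t := by group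
      rw [e, MulAction.mem_stabilizer_iff, mul_smul, mul_smul] at h3
      have h4 : (p.2 : G) • t • a = t • a := by
        have := congrArg (t • ·) h3
        simp only [smul_smul t t, S.mul_self, one_smul] at this
        exact this
      exact ((mem_I S).1 p.2.2).2.1 (eq_one_of_fix S ((mem_I S).1 p.2.2).1 (ta_ne S) h4)
    · intro h
      apply ((mem_I S).1 p.2.2).2.1
      have e : (p.2 : G) = t⁻¹ * ((p.1 : G)⁻¹ * ((p.1 : G) * (t * (p.2 : G) * t) * (p.1 : G)⁻¹) * (p.1 : G)) * t⁻¹ := by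
        group
      rw [e, h, tinv S]
      calc t * ((p.1 : G)⁻¹ * 1 * (p.1 : G)) * t = t * t := by group
        _ = 1 := S.mul_self
    · have h := ((mem_I S).1 p.2.2).2.2
      calc (p.1 : G) * (t * (p.2 : G) * t) * (p.1 : G)⁻¹ * ((p.1 : G) * (t * (p.2 : G) * t) * (p.1 : G)⁻¹) =
          (p.1 : G) * (t * (p.2 : G) * (t * t) * (p.2 : G) * t) * (p.1 : G)⁻¹ := by group
        _ = (p.1 : G) * (t * ((p.2 : G) * (p.2 : G)) * t) * (p.1 : G)⁻¹ := by rw [S.mul_self]; group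
        _ = 1 := by rw [h, mul_one, S.mul_self]; group
    · rintro ⟨r, s⟩ ⟨r', s'⟩ h
      have h' : (r : G) * (t * (s : G) * t) * (r : G)⁻¹ = (r' : G) * (t * (s' : G) * t) * (r' : G)⁻¹ :=
        congrArg Subtype.val h
      have fx : ∀ (r : Q) (s : 𝕀), ((r : G) * (t * (s : G) * t) * (r : G)⁻¹) • (r : G) • t • a = (r : G) • t • a := by
        intro r s
        have hs : (s : G) • a = a := s.2.1
        rw [mul_smul, inv_smul_smul, mul_smul, mul_smul, mul_smul, tta S, hs]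
      have hne : (r : G) * (t * (s : G) * t) * (r : G)⁻¹ ≠ 1 ∧ (r : G) * (t * (s : G) * t) * (r : G)⁻¹ *
          ((r : G) * (t * (s : G) * t) * (r : G)⁻¹) = 1 := by
        constructor
        · intro h
          apply ((mem_I S).1 s.2).2.1
          have e : (s : G) = t⁻¹ * ((r : G)⁻¹ * ((r : G) * (t * (s : G) * t) * (r : G)⁻¹) * (r : G)) * t⁻¹ := by
            group
          rw [e, h, tinv S]
          calc t * ((r : G)⁻¹ * 1 * (r : G)) * t = t * t := by group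
            _ = 1 := S.mul_self
        · have h := ((mem_I S).1 s.2).2.2
          calc (r : G) * (t * (s : G) * t) * (r : G)⁻¹ * ((r : G) * (t * (s : G) * t) * (r : G)⁻¹) =
              (r : G) * (t * (s : G) * (t * t) * (s : G) * t) * (r : G)⁻¹ := by group
            _ = (r : G) * (t * ((s : G) * (s : G)) * t) * (r : G)⁻¹ := by rw [S.mul_self]; group
            _ = 1 := by rw [h, mul_one, S.mul_self]; group
      have h1 : (r : G) • t • a = (r' : G) • t • a := by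
        apply fix_unique S hne.1 hne.2 (fx r s)
        rw [h']
        exact fx r' s'
      have h2 := unique S r.2 r'.2 (ta_ne S) h1
      have h3 : r = r' := Subtype.ext h2
      subst h3
      have h4 : (s : G) = s' := mul_left_cancel (mul_right_cancel (mul_left_cancel (mul_right_cancel h')))
      exact Prod.ext rfl (Subtype.ext h4)
    · rintro ⟨u, h1, h2, h3⟩
      obtain ⟨c, hc, hc'⟩ := exists_fix S h2 h3
      have hca : c ≠ a := fun h => h1 (by rw [← h]; exact MulAction.mem_stabilizer_iff.2 (by rw [h] at hc ⊢; exact hc))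
      obtain ⟨x, hx, hxc⟩ := trans_ta S hca
      refine ⟨(⟨x, hx⟩, ⟨t * (x⁻¹ * u * x) * t, ?_⟩), Subtype.ext ?_⟩
      · refine ⟨?_, ?_, ?_⟩
        · change t * (x⁻¹ * u * x) * t ∈ 𝔾
          rw [MulAction.mem_stabilizer_iff, mul_smul, mul_smul, mul_smul, mul_smul, hxc, hc, ← hxc, inv_smul_smul, tta S]
        · intro h
          apply h2
          have e : u = x * (t⁻¹ * (t * (x⁻¹ * u * x) * t) * t⁻¹) * x⁻¹ := by group
          rw [e, h, tinv S]
          calc x * (t * 1 * t) * x⁻¹ = x * (t * t) * x⁻¹ := by group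
            _ = 1 := by rw [S.mul_self]; group
        · calc t * (x⁻¹ * u * x) * t * (t * (x⁻¹ * u * x) * t) = t * (x⁻¹ * u * x) * (t * t) * (x⁻¹ * u * x) * t := by group
            _ = t * (x⁻¹ * (u * u) * x) * t := by rw [S.mul_self]; group
            _ = t * t := by rw [h3]; group
            _ = 1 := S.mul_self
      · change x * (t * (t * (x⁻¹ * u * x) * t) * t) * x⁻¹ = u
        calc x * (t * (t * (x⁻¹ * u * x) * t) * t) * x⁻¹ = x * ((t * t) * (x⁻¹ * u * x) * (t * t)) * x⁻¹ := by group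
          _ = u := by rw [S.mul_self]; group
  rw [Nat.card_prod] at e1 e2
  have hQ : Nat.card Q ≠ 0 := Nat.card_pos.ne'
  exact Nat.eq_of_mul_eq_mul_left (Nat.pos_of_ne_zero hQ) (e2.trans e1.symm)

end inv

end Cfsg.Agent.H6.R1
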