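import Cfsg.Agent.H6_R3

/-!
The rank-one set-up: the pair `(s, r)`, transitivity, centralizers.
-/

set_option autoImplicit false
set_option linter.unusedSectionVars false

namespace Cfsg.Agent.H6.R1

open Cfsg
open scoped Pointwise

variable {G Ω : Type*} [Group G] [Finite G] [MulAction G Ω] {a : Ω} {t : G} {Q : Subgroup G}

local notation "𝔾" => MulAction.stabilizer G a
local notation "𝔻" => (MulAction.stabilizer G a ⊓ MulAction.stabilizer G (t • a))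
local notation "𝕂" => invertedBy (MulAction.stabilizer G a ⊓ MulAction.stabilizer G (t • a)) t
local notation "𝕀" => involutionsIn (MulAction.stabilizer G a : Set G)

variable (S : IsRankOneSetup G Ω a t Q)

include S

theorem tst_out {s : G} (hs : s ∈ 𝕀) : t * s * t ∉ 𝔾 ∧ (t * s * t) * (t * s * t) = 1 := by
  obtain ⟨h1, h2, h3⟩ := (mem_I S).1 hs
  constructor
  · intro h
    rw [MulAction.mem_stabilizer_iff, mul_smul, mul_smul] at h
    have h4 : s • t • a = t • a := by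
      have := congrArg (t • ·) h
      simp only [smul_smul t t, S.mul_self, one_smul] at this
      exact this
    exact h2 (eq_one_of_fix S h1 (ta_ne S) h4)
  · calc t * s * t * (t * s * t) = t * s * (t * t) * s * t := by group
      _ = t * (s * s) * t := by rw [S.mul_self]; group
      _ = 1 := by rw [h3, mul_one, S.mul_self]

theorem tst_fix {s : G} (hs : s ∈ 𝕀) {c : Ω} (h : (t * s * t) • c = c) : c = t • a := by
  obtain ⟨h1, h2, h3⟩ := (mem_I S).1 hs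
  have h4 : s • t • c = t • c := by
    rw [mul_smul, mul_smul] at h
    have := congrArg (t • ·) h
    simp only [smul_smul t t, S.mul_self, one_smul] at this
    exact this
  have h5 : t • c = a := by
    by_contra hc
    exact h2 (eq_one_of_fix S h1 hc h4)
  rw [← h5, smul_smul, S.mul_self, one_smul]

/-- injectivity behind S1123 -/
theorem tst_inj {s s' r r' k : G} (hs : s ∈ 𝕀) (hs' : s' ∈ 𝕀) (hr : r ∈ Q) (hr' : r' ∈ Q)
    (h : t * s * t = r⁻¹ * (t * k) * r) (h' : t * s' * t = r'⁻¹ * (t * k) * r') : s = s' ∧ r = r' := by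
  have h1 : t * s' * t = (r⁻¹ * r')⁻¹ * (t * s * t) * (r⁻¹ * r') := by
    rw [h', h]; group
  have h2 : (t * s * t) • t • a = t • a := by
    have hsa : s • a = a := hs.1
    rw [mul_smul, mul_smul, tta S, hsa]
  have h3 : (r⁻¹ * r')⁻¹ • t • a = t • a := by
    apply tst_fix S hs'
    rw [h1, mul_smul, smul_inv_smul, mul_smul, h2]
  have h4 := eq_one_of_ta S (inv_mem (mul_mem (inv_mem hr) hr')) h3
  rw [inv_eq_one] at h4
  rw [h4, inv_one, one_mul, mul_one] at h1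
  exact ⟨(mul_left_cancel (mul_right_cancel h1)).symm, inv_mul_eq_one.1 h4⟩

theorem exists_sr_k {k : G} (hk : k ∈ 𝕂) : ∃ s ∈ 𝕀, ∃ r ∈ Q, t * s * t = r⁻¹ * (t * k) * r := by
  classical
  have h1 : ∀ s : 𝕀, ∃ k : 𝕂, ∃ r ∈ Q, t * (s : G) * t = r⁻¹ * (t * k) * r := by
    intro s
    obtain ⟨r, hr, k, hk, he⟩ := out_form S (tst_out S s.2).1 (tst_out S s.2).2
    exact ⟨⟨k, hk⟩, r, hr, he⟩
  choose κ ρ hρ he using h1
  have hinj : Function.Injective κ := by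
    intro s s' h
    have e' := he s'
    rw [← h] at e'
    exact Subtype.ext (tst_inj S s.2 s'.2 (hρ s) (hρ s') (he s) e').1
  have hbij := (Nat.bijective_iff_injective_and_card κ).2 ⟨hinj, (card_K S).symm⟩
  obtain ⟨s, hs⟩ := hbij.2 ⟨k, hk⟩
  refine ⟨s, s.2, ρ s, hρ s, ?_⟩
  rw [he s, hs]

/-- S1123 -/
theorem exists_unique_sr : ∃! p : G × G, p.1 ∈ 𝕀 ∧ p.2 ∈ Q ∧ t * p.1 * t = p.2⁻¹ * t * p.2 := by
  obtain ⟨s, hs, r, hr, he⟩ := exists_sr_k S (K_one S)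
  refine ⟨(s, r), ⟨hs, hr, by simpa using he⟩, ?_⟩
  rintro ⟨s', r'⟩ ⟨hs', hr', he'⟩
  obtain ⟨h1, h2⟩ := tst_inj S hs hs' hr hr' he (by simpa using he')
  rw [h1, h2]

theorem exists_sr : ∃ s ∈ 𝕀, ∃ r ∈ Q, t * s * t = r⁻¹ * t * r := by
  obtain ⟨s, hs, r, hr, he⟩ := exists_sr_k S (K_one S)
  exact ⟨s, hs, r, hr, by simpa using he⟩

theorem sr_unique {s s' r r' : G} (hs : s ∈ 𝕀) (hs' : s' ∈ 𝕀) (hr : r ∈ Q) (hr' : r' ∈ Q)
    (h : t * s * t = r⁻¹ * t * r) (h' : t * s' * t = r'⁻¹ * t * r') : s = s' ∧ r = r' :=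
  tst_inj S hs hs' hr hr' (k := 1) (by simpa using h) (by simpa using h')

theorem conj_I {d s : G} (hd : d ∈ 𝔾) (hs : s ∈ 𝕀) : d * s * d⁻¹ ∈ 𝕀 := by
  obtain ⟨h1, h2, h3⟩ := hs
  refine ⟨mul_mem (mul_mem hd h1) (inv_mem hd), fun h => h2 ?_, ?_⟩
  · have e : s = d⁻¹ * (d * s * d⁻¹) * d := by group
    rw [e, h]; group
  · calc d * s * d⁻¹ * (d * s * d⁻¹) = d * (s * s) * d⁻¹ := by group
      _ = 1 := by rw [h3]; group

/-- every involution is a `K`-conjugate of the distinguished one -/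
theorem I_form {s₀ r₀ : G} (hs₀ : s₀ ∈ 𝕀) (hr₀ : r₀ ∈ Q) (h₀ : t * s₀ * t = r₀⁻¹ * t * r₀) {s : G} (hs : s ∈ 𝕀) :
    ∃ l ∈ 𝕂, s = l * s₀ * l⁻¹ := by
  obtain ⟨r, hr, k, hk, he⟩ := out_form S (tst_out S hs).1 (tst_out S hs).2
  obtain ⟨l, hl, hlk⟩ := K_sqrt S hk
  have hlG : l ∈ 𝔾 := hl.1.1
  rw [← hlk, K_sq_conj S hl] at he
  have hr' : l * r * l⁻¹ ∈ Q := S.conj_mem l hlG r hr
  have h1 : t * (l⁻¹ * s * l) * t = (l * r * l⁻¹)⁻¹ * t * (l * r * l⁻¹) := by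
    have e1 : t * l⁻¹ = l * t := by rw [K_tk S (K_inv S hl), inv_inv]
    calc t * (l⁻¹ * s * l) * t = (t * l⁻¹) * s * (l * t) := by group
      _ = (l * t) * s * (t * l⁻¹) := by rw [e1]
      _ = l * (t * s * t) * l⁻¹ := by group
      _ = (l * r * l⁻¹)⁻¹ * t * (l * r * l⁻¹) := by rw [he]; group
  have h2 : l⁻¹ * s * l ∈ 𝕀 := by
    have := conj_I S (inv_mem hlG) hs
    rwa [inv_inv] at this
  obtain ⟨h3, -⟩ := sr_unique S hs₀ h2 hr₀ hr' h₀ h1
  exact ⟨l, hl, by rw [h3]; group⟩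

theorem K_inj {s₀ r₀ : G} (hs₀ : s₀ ∈ 𝕀) (hr₀ : r₀ ∈ Q) (h₀ : t * s₀ * t = r₀⁻¹ * t * r₀) {l : G} (hl : l ∈ 𝕂)
    (h : l * s₀ * l⁻¹ = s₀) : l = 1 := by
  classical
  let f : 𝕂 → 𝕀 := fun l => ⟨(l : G) * s₀ * (l : G)⁻¹, conj_I S l.2.1.1 hs₀⟩
  have hsurj : Function.Surjective f := by
    rintro ⟨s, hs⟩
    obtain ⟨l, hl, he⟩ := I_form S hs₀ hr₀ h₀ hs
    exact ⟨⟨l, hl⟩, Subtype.ext he.symm⟩
  have hbij := (Nat.bijective_iff_surjective_and_card f).2 ⟨hsurj, card_K S⟩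
  have := hbij.1 (a₁ := ⟨l, hl⟩) (a₂ := ⟨1, K_one S⟩) (Subtype.ext (by
    change l * s₀ * l⁻¹ = 1 * s₀ * 1⁻¹
    rw [h]; group))
  exact congrArg Subtype.val this

theorem mem_cen {x y : G} : x ∈ Subgroup.centralizer {y} ↔ x * y = y * x := by
  rw [Subgroup.mem_centralizer_singleton_iff]

/-- S1127, first part -/
theorem cen_eq {s r : G} (hs : s ∈ 𝕀) (hr : r ∈ Q) (h : t * s * t = r⁻¹ * t * r) :
    𝔻 ⊓ Subgroup.centralizer {t} = 𝔻 ⊓ Subgroup.centralizer {s} := by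
  ext x
  simp only [Subgroup.mem_inf]
  constructor
  · rintro ⟨hx, hc⟩
    refine ⟨hx, (mem_cen S).2 ?_⟩
    have hc := (mem_cen S).1 hc
    have h1 : t * (x * s * x⁻¹) * t = (x * r * x⁻¹)⁻¹ * t * (x * r * x⁻¹) := by
      have hc' : t * x⁻¹ = x⁻¹ * t := by
        have := congrArg (x⁻¹ * · * x⁻¹) hc
        simpa [mul_assoc] using this
      calc t * (x * s * x⁻¹) * t = (t * x) * s * (x⁻¹ * t) := by group
        _ = x * (t * s * t) * x⁻¹ := by rw [← hc, ← hc']; group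
        _ = x * r⁻¹ * t * r * x⁻¹ := by rw [h]; group
        _ = (x * r * x⁻¹)⁻¹ * (x * t) * (r * x⁻¹) := by group
        _ = (x * r * x⁻¹)⁻¹ * t * (x * r * x⁻¹) := by rw [hc]; group
    obtain ⟨h2, -⟩ := sr_unique S hs (conj_I S hx.1 hs) hr (S.conj_mem x hx.1 r hr) h h1
    calc x * s = x * s * x⁻¹ * x := by group
      _ = s * x := by rw [← h2]
  · rintro ⟨hx, hc⟩
    refine ⟨hx, (mem_cen S).2 ?_⟩
    have hc := (mem_cen S).1 hc
    -- the involution `x t x⁻¹` swaps the two points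
    have h1 : (x * t * x⁻¹) * (x * t * x⁻¹) = 1 := by
      calc x * t * x⁻¹ * (x * t * x⁻¹) = x * (t * t) * x⁻¹ := by group
        _ = 1 := by rw [S.mul_self]; group
    have h2 : (x * t * x⁻¹) • a = t • a := by
      have e1 : x⁻¹ • a = a := inv_mem hx.1
      have e2 : x • t • a = t • a := hx.2
      rw [mul_smul, mul_smul, e1, e2]
    obtain ⟨k, hk, he⟩ := swap_form S h1 h2
    obtain ⟨l, hl, hlk⟩ := K_sqrt S hk
    rw [← hlk, K_sq_conj S hl] at he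
    -- conjugate the relation
    have hsx : x * s * x⁻¹ = s := by rw [hc]; group
    have h3 : (x * t * x⁻¹) * s * (x * t * x⁻¹) = (x * r * x⁻¹)⁻¹ * (x * t * x⁻¹) * (x * r * x⁻¹) := by
      calc (x * t * x⁻¹) * s * (x * t * x⁻¹) = (x * t * x⁻¹) * (x * s * x⁻¹) * (x * t * x⁻¹) := by rw [hsx]
        _ = x * (t * s * t) * x⁻¹ := by group
        _ = _ := by rw [h]; group
    rw [he] at h3
    have h4 : t * (l * s * l⁻¹) * t = (l * (x * r * x⁻¹) * l⁻¹)⁻¹ * t * (l * (x * r * x⁻¹) * l⁻¹) := by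
      calc t * (l * s * l⁻¹) * t = l * (l⁻¹ * t * l * s * (l⁻¹ * t * l)) * l⁻¹ := by group
        _ = _ := by rw [h3]; group
    have hr' : x * r * x⁻¹ ∈ Q := S.conj_mem x hx.1 r hr
    obtain ⟨h5, -⟩ := sr_unique S hs (conj_I S hl.1.1 hs) hr (S.conj_mem l hl.1.1 _ hr') h h4
    have h6 := K_inj S hs hr h hl h5.symm
    rw [h6] at he
    have : x * t * x⁻¹ = t := by rw [he]; group
    calc x * t = x * t * x⁻¹ * x := by group
      _ = t * x := by rw [this]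

/-- S1127, second part -/
theorem cen_K : 𝔻 ⊓ Subgroup.centralizer {t} ⊓ Subgroup.centralizer (invertedBy 𝔻 t) =
    𝔻 ⊓ Subgroup.centralizer (involutionsIn (MulAction.stabilizer G a : Set G)) := by
  obtain ⟨s, hs, r, hr, h⟩ := exists_sr S
  have hcen := cen_eq S hs hr h
  ext x
  constructor
  · intro hx
    obtain ⟨h1, h2⟩ := Subgroup.mem_inf.1 hx
    have hx1 := h1
    rw [hcen] at h1
    refine Subgroup.mem_inf.2 ⟨h1.1, Subgroup.mem_centralizer_iff.2 fun s' hs' => ?_⟩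
    obtain ⟨l, hl, rfl⟩ := I_form S hs hr h hs'
    have c1 : l * x = x * l := Subgroup.mem_centralizer_iff.1 h2 l hl
    have c2 : x * s = s * x := (mem_cen S).1 h1.2
    have c3 : l⁻¹ * x = x * l⁻¹ := by
      have := congrArg (l⁻¹ * · * l⁻¹) c1
      simpa [mul_assoc] using this.symm
    calc l * s * l⁻¹ * x = l * s * (l⁻¹ * x) := by group
      _ = l * (s * x) * l⁻¹ := by rw [c3]; group
      _ = (l * x) * s * l⁻¹ := by rw [← c2]; group
      _ = x * (l * s * l⁻¹) := by rw [c1]; group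
  · intro hx
    obtain ⟨h1, h2⟩ := Subgroup.mem_inf.1 hx
    have hc : ∀ s' ∈ 𝕀, s' * x = x * s' := fun s' hs' => Subgroup.mem_centralizer_iff.1 h2 s' hs'
    have hxt : x ∈ 𝔻 ⊓ Subgroup.centralizer {t} := by
      rw [hcen]
      exact Subgroup.mem_inf.2 ⟨h1, (mem_cen S).2 (hc s hs).symm⟩
    have cxt : x * t = t * x := (mem_cen S).1 (Subgroup.mem_inf.1 hxt).2
    refine Subgroup.mem_inf.2 ⟨hxt, Subgroup.mem_centralizer_iff.2 fun l hl => ?_⟩
    -- `l⁻¹ x l` commutes with `s`, hence with `t`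
    have h3 : l⁻¹ * x * l ∈ 𝔻 ⊓ Subgroup.centralizer {t} := by
      rw [hcen]
      refine Subgroup.mem_inf.2 ⟨mul_mem (mul_mem (inv_mem hl.1) h1) hl.1, (mem_cen S).2 ?_⟩
      have h4 := hc _ (conj_I S hl.1.1 hs)
      calc l⁻¹ * x * l * s = l⁻¹ * (x * (l * s * l⁻¹)) * l := by group
        _ = l⁻¹ * (l * s * l⁻¹ * x) * l := by rw [h4]
        _ = _ := by group
    have h4 := (mem_cen S).1 (Subgroup.mem_inf.1 h3).2
    have tk := K_tk S hl
    have tki := K_tk S (K_inv S hl)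
    rw [inv_inv] at tki
    -- `l x l⁻¹ = l⁻¹ x l`
    have h5 : l * x * l⁻¹ = l⁻¹ * x * l := by
      have e1 : t * (l⁻¹ * x * l) = (l * x * l⁻¹) * t := by
        calc t * (l⁻¹ * x * l) = (t * l⁻¹) * x * l := by group
          _ = l * (t * x) * l := by rw [tki]; group
          _ = l * x * (t * l) := by rw [← cxt]; group
          _ = (l * x * l⁻¹) * t := by rw [tk]; group
      rw [← h4] at e1
      exact (mul_right_cancel e1).symm
    have h6 : (l * l) * x = x * (l * l) := by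
      calc (l * l) * x = l * (l * x * l⁻¹) * l := by group
        _ = l * (l⁻¹ * x * l) * l := by rw [h5]
        _ = _ := by group
    obtain ⟨n, hn⟩ := exists_sqrt (odd_orderOf S.odd_card hl.1)
    have h7 : l = (l * l) ^ n := by rw [← sq, ← pow_mul, mul_comm, pow_mul, sq]; exact hn.symm
    have h8 : Commute (l * l) x := h6
    rw [h7]
    exact (h8.pow_left n).eq

/-- conjugates of `K`: unique solvability -/
theorem K_bruck {n k l : G} (hn : n ∈ 𝕂) (hk : k ∈ 𝕂) (hl : l ∈ 𝕂) (h : k * n * k = l * n * l) : k = l := by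
  obtain ⟨p, hp, rfl⟩ := K_sqrt S hn
  have hm : ∀ {x : G}, x ∈ 𝕂 → p * x * p ∈ 𝔻 := fun hx => mul_mem (mul_mem hp.1 hx.1) hp.1
  have h1 : (p * k * p) * (p * k * p) = (p * l * p) * (p * l * p) := by
    calc (p * k * p) * (p * k * p) = p * (k * (p * p) * k) * p := by group
      _ = p * (l * (p * p) * l) * p := by rw [h]
      _ = _ := by group
  have h2 := sq_inj (odd_orderOf S.odd_card (hm hk)) (odd_orderOf S.odd_card (hm hl)) h1
  exact mul_left_cancel (mul_right_cancel h2)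

/-- S1122 -/
theorem K_trans (s : G) (hs : s ∈ 𝕀) (s' : G) (hs' : s' ∈ 𝕀) : ∃ k ∈ 𝕂, k⁻¹ * s * k = s' := by
  classical
  obtain ⟨s₀, hs₀, r₀, hr₀, h₀⟩ := exists_sr S
  obtain ⟨m, hm, hms⟩ := I_form S hs₀ hr₀ h₀ hs
  let f : 𝕂 → 𝕀 := fun k => ⟨(k : G)⁻¹ * s * k, by
    have := conj_I S (inv_mem k.2.1.1) hs
    rwa [inv_inv] at this⟩
  have hinj : Function.Injective f := by
    rintro ⟨k, hk⟩ ⟨l, hl⟩ h
    have h' : k⁻¹ * s * k = l⁻¹ * s * l := congrArg Subtype.val h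
    -- `c = k l⁻¹` centralizes `s`
    have h1 : (k * l⁻¹) * s = s * (k * l⁻¹) := by
      calc (k * l⁻¹) * s = k * (l⁻¹ * s * l) * l⁻¹ := by group
        _ = k * (k⁻¹ * s * k) * l⁻¹ := by rw [h']
        _ = _ := by group
    have h2 : m⁻¹ * (k * l⁻¹) * m ∈ 𝔻 ⊓ Subgroup.centralizer {t} := by
      rw [cen_eq S hs₀ hr₀ h₀]
      refine Subgroup.mem_inf.2 ⟨mul_mem (mul_mem (inv_mem hm.1) (mul_mem hk.1 (inv_mem hl.1))) hm.1, (mem_cen S).2 ?_⟩
      have e1 : s₀ = m⁻¹ * s * m := by rw [hms]; group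
      rw [e1]
      calc m⁻¹ * (k * l⁻¹) * m * (m⁻¹ * s * m) = m⁻¹ * ((k * l⁻¹) * s) * m := by group
        _ = m⁻¹ * (s * (k * l⁻¹)) * m := by rw [h1]
        _ = _ := by group
    have h3 := (mem_cen S).1 (Subgroup.mem_inf.1 h2).2
    have tm := K_tk S hm
    have tmi := K_tk S (K_inv S hm)
    have tk := K_tk S hk
    have tl := K_tk S (K_inv S hl)
    rw [inv_inv] at tmi tl
    -- `m⁻¹ k l⁻¹ m t = t m⁻¹ k l⁻¹ m = m k⁻¹ l m⁻¹ t`
    have h4 : t * (m⁻¹ * (k * l⁻¹) * m) = (m * (k⁻¹ * l) * m⁻¹) * t := by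
      calc t * (m⁻¹ * (k * l⁻¹) * m) = (t * m⁻¹) * (k * l⁻¹) * m := by group
        _ = m * (t * k) * l⁻¹ * m := by rw [tmi]; group
        _ = m * k⁻¹ * (t * l⁻¹) * m := by rw [tk]; group
        _ = m * k⁻¹ * l * (t * m) := by rw [tl]; group
        _ = (m * (k⁻¹ * l) * m⁻¹) * t := by rw [tm]; group
    rw [← h3] at h4
    have h5 := mul_right_cancel h4
    have h6 : k * (m * m)⁻¹ * k = l * (m * m)⁻¹ * l := by
      have h7 : k * l⁻¹ = m * m * (k⁻¹ * l) * (m * m)⁻¹ := by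
        calc k * l⁻¹ = m * (m⁻¹ * (k * l⁻¹) * m) * m⁻¹ := by group
          _ = m * (m * (k⁻¹ * l) * m⁻¹) * m⁻¹ := by rw [h5]
          _ = _ := by group
      calc k * (m * m)⁻¹ * k = k * (m * m)⁻¹ * (k * l⁻¹) * l := by group
        _ = k * (m * m)⁻¹ * (m * m * (k⁻¹ * l) * (m * m)⁻¹) * l := by rw [← h7]
        _ = _ := by group
    have h7 := K_bruck S (K_inv S (K_pow S hm 2)) hk hl (by rw [sq]; exact h6)
    exact Subtype.ext h7
  have hbij := (Nat.bijective_iff_injective_and_card f).2 ⟨hinj, card_K S⟩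
  obtain ⟨⟨k, hk⟩, h⟩ := hbij.2 ⟨s', hs'⟩
  exact ⟨k, hk, congrArg Subtype.val h⟩

end Cfsg.Agent.H6.R1
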