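import Cfsg.Agent.H6_R4

/-!
The rank-one set-up: centralizers of subsets of `D`, canonical form identities.
-/

set_option autoImplicit false
set_option linter.unusedSectionVars false

namespace Cfsg.Agent.H6.R1

open Cfsg
open scoped Pointwise

variable {G Ω : Type*} [Group G] [Finite G] [MulAction G Ω] {a : Ω} {t : G} {Q : Subgroup G}

local notation "𝔾" => MulAction.stabilizer G a
local notation "𝔻" => (MulAction.stabilizer G a ⊓ MulAction.stabilizer G (t • a))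
local notation "𝕂" => invertedBy (MulAction.stabilizer G a ⊓ MulAction.stabilizer G (t • a)) t
local notation "𝕀" => involutionsIn (MulAction.stabilizer G a : Set G)

variable (S : IsRankOneSetup G Ω a t Q)

include S

theorem cq_trans {X : Set G} (hX : ∀ x ∈ X, x ∈ 𝔾) {c d : Ω} (hc : c ≠ a) (hd : d ≠ a) (fc : ∀ x ∈ X, x • c = c)
    (fd : ∀ x ∈ X, x • d = d) : ∃ x ∈ Q, (∀ y ∈ X, y * x = x * y) ∧ x • c = d := by
  obtain ⟨x, hx, he⟩ := trans S hc hd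
  refine ⟨x, hx, fun y hy => ?_, he⟩
  have h1 : y * x * y⁻¹ = x := by
    apply unique S (S.conj_mem y (hX y hy) x hx) hx hc
    have h2 : y⁻¹ • c = c := by rw [inv_smul_eq_iff, fc y hy]
    rw [mul_smul, h2, mul_smul, he, fd y hy]
  calc y * x = y * x * y⁻¹ * y := by group
    _ = x * y := by rw [h1]

theorem cqt_trans {X : Set G} (hX : ∀ x ∈ X, x ∈ MulAction.stabilizer G (t • a)) {c d : Ω} (hc : c ≠ t • a)
    (hd : d ≠ t • a) (fc : ∀ x ∈ X, x • c = c) (fd : ∀ x ∈ X, x • d = d) :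
    ∃ x : G, (∀ y ∈ X, y * x = x * y) ∧ x • c = d := by
  obtain ⟨x, hx, h1, h2⟩ := cq_trans S (X := (fun y => t * y * t) '' X) (c := t • c) (d := t • d)
    (by
      rintro _ ⟨y, hy, rfl⟩
      have h : y • t • a = t • a := hX y hy
      rw [MulAction.mem_stabilizer_iff, mul_smul, mul_smul, h, tta S])
    (fun h => hc (by rw [← h, smul_smul, S.mul_self, one_smul]))
    (fun h => hd (by rw [← h, smul_smul, S.mul_self, one_smul]))
    (by
      rintro _ ⟨y, hy, rfl⟩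
      change (t * y * t) • t • c = t • c
      rw [mul_smul, mul_smul, smul_smul t t, S.mul_self, one_smul, fc y hy])
    (by
      rintro _ ⟨y, hy, rfl⟩
      change (t * y * t) • t • d = t • d
      rw [mul_smul, mul_smul, smul_smul t t, S.mul_self, one_smul, fd y hy])
  refine ⟨t * x * t, fun y hy => ?_, ?_⟩
  · have h3 := h1 _ ⟨y, hy, rfl⟩
    simp only at h3
    calc y * (t * x * t) = (t * t) * y * t * x * t := by rw [S.mul_self]; group
      _ = t * (t * y * t * x) * t := by group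
      _ = t * (x * (t * y * t)) * t := by rw [h3]
      _ = t * x * t * y * (t * t) := by group
      _ = t * x * t * y := by rw [S.mul_self, mul_one]
  · rw [mul_smul, mul_smul, h2, smul_smul, S.mul_self, one_smul]

section fix

variable {X : Set G} (hX : ∀ x ∈ X, x ∈ (MulAction.stabilizer G a ⊓ MulAction.stabilizer G (t • a)))
  (h3 : ∃ b c d : Ω, b ≠ c ∧ b ≠ d ∧ c ≠ d ∧ ∀ x ∈ X, x • b = b ∧ x • c = c ∧ x • d = d)

include hX h3

theorem exists_third : ∃ e : Ω, e ≠ a ∧ e ≠ t • a ∧ ∀ x ∈ X, x • e = e := by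
  obtain ⟨b, c, d, h1, h2, h3, h4⟩ := h3
  by_cases hb : b ≠ a ∧ b ≠ t • a
  · exact ⟨b, hb.1, hb.2, fun x hx => (h4 x hx).1⟩
  by_cases hc : c ≠ a ∧ c ≠ t • a
  · exact ⟨c, hc.1, hc.2, fun x hx => (h4 x hx).2.1⟩
  refine ⟨d, ?_, ?_, fun x hx => (h4 x hx).2.2⟩
  · rintro rfl
    apply hb
    refine ⟨h2, fun hb' => hc ⟨h3, fun hc' => h1 (hb'.trans hc'.symm)⟩⟩
  · intro hd
    apply hb
    refine ⟨fun hb' => hc ⟨fun hc' => h1 (hb'.trans hc'.symm), fun hc' => h3 (hc'.trans hd.symm)⟩,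
      fun hb' => h2 (hb'.trans hd.symm)⟩

theorem cen_trans {c : Ω} (fc : ∀ x ∈ X, x • c = c) : ∃ g ∈ Subgroup.centralizer X, g • a = c := by
  have ha : ∀ x ∈ X, x • a = a := fun x hx => (hX x hx).1
  have hb : ∀ x ∈ X, x • t • a = t • a := fun x hx => (hX x hx).2
  have hXa : ∀ x ∈ X, x ∈ 𝔾 := fun x hx => (hX x hx).1
  have hXb : ∀ x ∈ X, x ∈ MulAction.stabilizer G (t • a) := fun x hx => (hX x hx).2
  by_cases hc : c = t • a
  · obtain ⟨e, he1, he2, he3⟩ := exists_third S hX h3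
    obtain ⟨x, hx, hxe⟩ := cqt_trans S hXb (ta_ne S).symm he2 ha he3
    obtain ⟨y, -, hy, hye⟩ := cq_trans S hXa he1 (ta_ne S) he3 hb
    refine ⟨y * x, ?_, by rw [mul_smul, hxe, hye, hc]⟩
    exact mul_mem (Subgroup.mem_centralizer_iff.2 fun z hz => hy z hz)
      (Subgroup.mem_centralizer_iff.2 fun z hz => hx z hz)
  · obtain ⟨x, hx, hxe⟩ := cqt_trans S hXb (ta_ne S).symm hc ha fc
    exact ⟨x, Subgroup.mem_centralizer_iff.2 fun z hz => hx z hz, hxe⟩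

theorem fix_smul {g : G} (hg : g ∈ Subgroup.centralizer X) {c : Ω} (fc : ∀ x ∈ X, x • c = c) :
    ∀ x ∈ X, x • g • c = g • c := by
  intro x hx
  rw [smul_smul, Subgroup.mem_centralizer_iff.1 hg x hx, mul_smul, fc x hx]

theorem cen_two_trans (b₁ b₂ c₁ c₂ : Ω) (h : ∀ x ∈ X, x • b₁ = b₁ ∧ x • b₂ = b₂ ∧ x • c₁ = c₁ ∧ x • c₂ = c₂)
    (hb : b₁ ≠ b₂) (hc : c₁ ≠ c₂) : ∃ g ∈ Subgroup.centralizer X, g • b₁ = c₁ ∧ g • b₂ = c₂ := by
  obtain ⟨g₁, hg₁, e₁⟩ := cen_trans S hX h3 (c := b₁) fun x hx => (h x hx).1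
  obtain ⟨g₂, hg₂, e₂⟩ := cen_trans S hX h3 (c := c₁) fun x hx => (h x hx).2.2.1
  obtain ⟨x, hxQ, hx, he⟩ := cq_trans S (X := X) (c := g₁⁻¹ • b₂) (d := g₂⁻¹ • c₂) (fun x hx => (hX x hx).1)
    (fun h => hb (by rw [← e₁, ← h, smul_inv_smul]))
    (fun h => hc (by rw [← e₂, ← h, smul_inv_smul]))
    (fix_smul S hX h3 (inv_mem hg₁) fun x hx => (h x hx).2.1)
    (fix_smul S hX h3 (inv_mem hg₂) fun x hx => (h x hx).2.2.2)
  refine ⟨g₂ * x * g₁⁻¹, mul_mem (mul_mem hg₂ (Subgroup.mem_centralizer_iff.2 fun z hz => hx z hz)) (inv_mem hg₁),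
    ?_, ?_⟩
  · rw [mul_smul, ← e₁, inv_smul_smul, mul_smul, Qa S hxQ, e₂]
  · rw [mul_smul, mul_smul, he, smul_inv_smul]

theorem exists_swap : ∃ g ∈ Subgroup.centralizer X, g • a = t • a ∧ g • t • a = a :=
  cen_two_trans S hX h3 a (t • a) (t • a) a (fun x hx => ⟨(hX x hx).1, (hX x hx).2, (hX x hx).2, (hX x hx).1⟩)
    (ta_ne S).symm (ta_ne S)

/-- an involution of `Q` centralizing `X` -/
theorem exists_inv_cen : ∃ z ∈ Q, z ∈ Subgroup.centralizer X ∧ z ≠ 1 ∧ z * z = 1 := by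
  obtain ⟨g, hg, h1, h2⟩ := exists_swap S hX h3
  have heven : Even (orderOf g) := by
    by_contra hodd
    rw [Nat.not_even_iff_odd] at hodd
    obtain ⟨n, hn⟩ := hodd
    have hg2 : (g * g) • a = a := by rw [mul_smul, h1, h2]
    have h4 : ∀ k : ℕ, ((g * g) ^ k) • a = a := by
      intro k
      induction k with
      | zero => rw [pow_zero, one_smul]
      | succ k ih => rw [pow_succ, mul_smul, hg2, ih]
    have h5 : g = (g * g) ^ (n + 1) := by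
      rw [← sq, ← pow_mul]
      have : 2 * (n + 1) = orderOf g + 1 := by omega
      rw [this, pow_succ, pow_orderOf_eq_one, one_mul]
    have h6 := h4 (n + 1)
    rw [← h5, h1] at h6
    exact ta_ne S h6
  obtain ⟨n, hn⟩ := heven
  have hpos : 0 < n := by have := orderOf_pos g; omega
  have hz1 : g ^ n ≠ 1 := fun h => by
    have := orderOf_le_of_pow_eq_one hpos h
    omega
  have hz2 : g ^ n * g ^ n = 1 := by rw [← pow_add, ← hn, pow_orderOf_eq_one]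
  have hzX : g ^ n ∈ Subgroup.centralizer X := pow_mem hg n
  obtain ⟨c, hc, -⟩ := exists_fix S hz1 hz2
  have fc : ∀ x ∈ X, x • c = c := fun x hx =>
    comm_fix S hz1 hz2 hc (Subgroup.mem_centralizer_iff.1 hzX x hx)
  obtain ⟨k, hk, hka⟩ := cen_trans S hX h3 fc
  have h4 : (k⁻¹ * g ^ n * k) * (k⁻¹ * g ^ n * k) = 1 := by
    calc (k⁻¹ * g ^ n * k) * (k⁻¹ * g ^ n * k) = k⁻¹ * (g ^ n * g ^ n) * k := by group
      _ = 1 := by rw [hz2]; group
  refine ⟨k⁻¹ * g ^ n * k, inv_mem_Q S ?_ h4, mul_mem (mul_mem (inv_mem hk) hzX) hk, ?_, h4⟩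
  · rw [MulAction.mem_stabilizer_iff, mul_smul, mul_smul, hka, hc, inv_smul_eq_iff, hka]
  · intro h
    apply hz1
    have e : g ^ n = k * (k⁻¹ * g ^ n * k) * k⁻¹ := by group
    rw [e, h]; group

theorem even_cen : Even (Nat.card ↥(Subgroup.centralizer X ⊓ Q)) := by
  obtain ⟨z, hz, hzX, hz1, hz2⟩ := exists_inv_cen S hX h3
  have h1 : orderOf z = 2 := by
    rw [orderOf_eq_prime_iff]
    exact ⟨by rw [sq, hz2], hz1⟩
  have h2 := (Subgroup.centralizer X ⊓ Q).orderOf_dvd_natCard (Subgroup.mem_inf.2 ⟨hzX, hz⟩)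
  rw [h1] at h2
  exact even_iff_two_dvd.2 h2

theorem cen_sup : (Subgroup.centralizer X ⊓ Q) ⊔ (Subgroup.centralizer X ⊓ 𝔻) = Subgroup.centralizer X ⊓ 𝔾 := by
  apply le_antisymm
  · exact sup_le (inf_le_inf_left _ S.le) (inf_le_inf_left _ inf_le_left)
  · rintro g ⟨h1, h2⟩
    obtain ⟨x, hxQ, hx, he⟩ := cq_trans S (X := X) (c := t • a) (d := g • t • a) (fun x hx => (hX x hx).1)
      (ta_ne S) (fun h => ta_ne S (by
        have hga : g • a = a := h2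
        exact MulAction.injective g (h.trans hga.symm)))
      (fun x hx => (hX x hx).2) (fix_smul S hX h3 h1 (fun x hx => (hX x hx).2))
    have e : g = x * (x⁻¹ * g) := by group
    have hxc : x ∈ Subgroup.centralizer X := Subgroup.mem_centralizer_iff.2 fun z hz => hx z hz
    rw [e]
    refine Subgroup.mul_mem_sup ⟨hxc, hxQ⟩ (Subgroup.mem_inf.2 ⟨mul_mem (inv_mem hxc) h1,
      Subgroup.mem_inf.2 ⟨mul_mem (inv_mem (S.le hxQ)) h2, ?_⟩⟩)
    change (x⁻¹ * g) • t • a = t • a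
    rw [mul_smul, ← he, inv_smul_smul]

/-- S1126 -/
theorem conj_cen : ∃ k ∈ 𝔻, ∀ x ∈ X, (k * x * k⁻¹) * t = t * (k * x * k⁻¹) := by
  obtain ⟨z, hz, hzX, hz1, hz2⟩ := exists_inv_cen S hX h3
  obtain ⟨g, hg, h1, h2⟩ := exists_swap S hX h3
  have hu2 : (g * z * g⁻¹) * (g * z * g⁻¹) = 1 := by
    calc (g * z * g⁻¹) * (g * z * g⁻¹) = g * (z * z) * g⁻¹ := by group
      _ = 1 := by rw [hz2]; group
  have huX : g * z * g⁻¹ ∈ Subgroup.centralizer X := mul_mem (mul_mem hg hzX) (inv_mem hg)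
  have hua : (g * z * g⁻¹) • a ≠ a := by
    intro h
    apply hz1
    apply eq_one_of_fix S hz (ta_ne S)
    rw [mul_smul, mul_smul] at h
    have h4 : g⁻¹ • a = t • a := by rw [inv_smul_eq_iff, h2]
    rw [h4] at h
    have := congrArg (g⁻¹ • ·) h
    simp only [inv_smul_smul] at this
    rw [this, h4]
  have fa : ∀ x ∈ X, x • a = a := fun x hx => (hX x hx).1
  obtain ⟨y, hyQ, hy, hye⟩ := cq_trans S (X := X) (c := (g * z * g⁻¹) • a) (d := t • a) (fun x hx => (hX x hx).1) hua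
    (ta_ne S) (fix_smul S hX h3 huX fa) (fun x hx => (hX x hx).2)
  have hyX : y ∈ Subgroup.centralizer X := Subgroup.mem_centralizer_iff.2 fun z hz => hy z hz
  have hv2 : (y * (g * z * g⁻¹) * y⁻¹) * (y * (g * z * g⁻¹) * y⁻¹) = 1 := by
    calc (y * (g * z * g⁻¹) * y⁻¹) * (y * (g * z * g⁻¹) * y⁻¹) = y * ((g * z * g⁻¹) * (g * z * g⁻¹)) * y⁻¹ := by group
      _ = 1 := by rw [hu2]; group
  have hva : (y * (g * z * g⁻¹) * y⁻¹) • a = t • a := by
    rw [mul_smul, mul_smul, Qa S (inv_mem hyQ), hye]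
  obtain ⟨k, hk, he⟩ := swap_form S hv2 hva
  obtain ⟨l, hl, hlk⟩ := K_sqrt S hk
  rw [← hlk, K_sq_conj S hl] at he
  refine ⟨l, hl.1, fun x hx => ?_⟩
  have hvX : y * (g * z * g⁻¹) * y⁻¹ ∈ Subgroup.centralizer X := mul_mem (mul_mem hyX huX) (inv_mem hyX)
  rw [he] at hvX
  have h4 := Subgroup.mem_centralizer_iff.1 hvX x hx
  calc l * x * l⁻¹ * t = l * (x * (l⁻¹ * t * l)) * l⁻¹ := by group
    _ = l * ((l⁻¹ * t * l) * x) * l⁻¹ := by rw [h4]
    _ = t * (l * x * l⁻¹) := by group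

end fix

/-- an element of `D` fixing three points and inverted by `t` modulo `D` is trivial -/
theorem real_three {x : G} (hx : x ∈ 𝔻) {u : G} (hu : u * x * u⁻¹ = x⁻¹) (hut : ∃ d ∈ 𝔻, u = t * d)
    (h3 : ∃ e : Ω, e ≠ a ∧ e ≠ t • a ∧ x • e = e) : x = 1 := by
  obtain ⟨e, he1, he2, he3⟩ := h3
  obtain ⟨k, hk, hc⟩ := conj_cen S (X := {x}) (by rintro _ rfl; exact hx) ⟨a, t • a, e, (ta_ne S).symm, he1.symm, he2.symm,
    by rintro _ rfl; exact ⟨hx.1, hx.2, he3⟩⟩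
  have hc := hc x rfl
  obtain ⟨d, hd, rfl⟩ := hut
  -- `x' = k x k⁻¹` is real in `D`
  have h1 : (k * (t * d) * k⁻¹ * t) * (k * x * k⁻¹) * (k * (t * d) * k⁻¹ * t)⁻¹ = (k * x * k⁻¹)⁻¹ := by
    calc (k * (t * d) * k⁻¹ * t) * (k * x * k⁻¹) * (k * (t * d) * k⁻¹ * t)⁻¹ =
        (k * (t * d) * k⁻¹) * (t * (k * x * k⁻¹)) * t⁻¹ * (k * (t * d) * k⁻¹)⁻¹ := by group
      _ = (k * (t * d) * k⁻¹) * (k * x * k⁻¹) * (k * (t * d) * k⁻¹)⁻¹ := by rw [← hc]; group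
      _ = k * ((t * d) * x * (t * d)⁻¹) * k⁻¹ := by group
      _ = _ := by rw [hu]; group
  have h2 : k * (t * d) * k⁻¹ * t ∈ 𝔻 := by
    have e : k * (t * d) * k⁻¹ * t = k * (t * (d * k⁻¹) * t) := by group
    rw [e]
    exact mul_mem hk (D_conj_t S (mul_mem hd (inv_mem hk)))
  have h4 := real_eq_one S.odd_card (mul_mem (mul_mem hk hx) (inv_mem hk)) h2 h1
  have e : x = k⁻¹ * (k * x * k⁻¹) * k := by group
  rw [e, h4]; group

/-- S1128 -/
theorem fpf {x : G} (hx : x ∈ 𝕂) (hx1 : x ≠ 1) : Q ⊓ Subgroup.centralizer {x} = ⊥ := by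
  rw [Subgroup.eq_bot_iff_forall]
  rintro y ⟨hy, hc⟩
  have hc := (mem_cen S).1 hc
  by_contra hy1
  apply hx1
  refine real_three S hx.1 (u := t) hx.2 ⟨1, one_mem _, (mul_one t).symm⟩ ⟨y • t • a, ?_, ?_, ?_⟩
  · intro h
    have h2 : y⁻¹ • a = a := Qa S (inv_mem hy)
    rw [← h, inv_smul_smul] at h2
    exact ta_ne S (h2.trans h)
  · intro h
    exact hy1 (eq_one_of_ta S hy h)
  · have hxb : x • t • a = t • a := hx.1.2
    rw [smul_smul, ← hc, mul_smul, hxb]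

/-! ### The canonical form identities -/

theorem H_inv {x g h f : G} (hg : g ∈ Q) (hh : h ∈ 𝔻) (hf : f ∈ Q) (heq : t * x * t = g * h * t * f)
    {g₁ h₁ f₁ : G} (hg₁ : g₁ ∈ Q) (hh₁ : h₁ ∈ 𝔻) (hf₁ : f₁ ∈ Q) (h1 : t * x⁻¹ * t = g₁ * h₁ * t * f₁) :
    f₁ = g⁻¹ ∧ h₁ = t * h⁻¹ * t := by
  have h2 : t * x⁻¹ * t = f⁻¹ * (t * h⁻¹ * t) * t * g⁻¹ := by
    have e : t * x⁻¹ * t = (t * x * t)⁻¹ := by
      rw [mul_inv_rev, mul_inv_rev, tinv S]; group
    rw [e, heq]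
    simp only [mul_inv_rev, tinv S]
    calc f⁻¹ * (t * (h⁻¹ * g⁻¹)) = f⁻¹ * (t * h⁻¹ * 1) * g⁻¹ := by group
      _ = f⁻¹ * (t * h⁻¹ * (t * t)) * g⁻¹ := by rw [S.mul_self]
      _ = _ := by group
  rw [h2] at h1
  obtain ⟨-, e2, e3⟩ := canon3 S (inv_mem hf) (D_conj_t S (inv_mem hh)) (inv_mem hg) hg₁ hh₁ hf₁ h1
  exact ⟨e3.symm, e2.symm⟩

theorem H_f {x g h f : G} (hx : x ∈ Q) (hg : g ∈ Q) (hh : h ∈ 𝔻) (heq : t * x * t = g * h * t * f)
    {g₂ h₂ f₂ : G} (hg₂ : g₂ ∈ Q) (hh₂ : h₂ ∈ 𝔻) (hf₂ : f₂ ∈ Q) (h1 : t * f * t = g₂ * h₂ * t * f₂) :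
    f₂ = x ∧ h₂ = h⁻¹ := by
  have h2 : t * f * t = (h⁻¹ * g⁻¹ * h⁻¹⁻¹) * h⁻¹ * t * x := by
    have e : t * f = h⁻¹ * g⁻¹ * (t * x * t) := by rw [heq]; group
    rw [e]
    calc h⁻¹ * g⁻¹ * (t * x * t) * t = h⁻¹ * g⁻¹ * t * x * (t * t) := by group
      _ = _ := by rw [S.mul_self]; group
  rw [h2] at h1
  obtain ⟨-, e2, e3⟩ := canon3 S (S.conj_mem _ (inv_mem hh.1) _ (inv_mem hg)) (inv_mem hh) hx hg₂ hh₂ hf₂ h1
  exact ⟨e3.symm, e2.symm⟩

theorem H_conj {x g h f : G} (hg : g ∈ Q) (hh : h ∈ 𝔻) (hf : f ∈ Q) (heq : t * x * t = g * h * t * f)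
    {c : G} (hc : c ∈ 𝔻) {g₃ h₃ f₃ : G} (hg₃ : g₃ ∈ Q) (hh₃ : h₃ ∈ 𝔻) (hf₃ : f₃ ∈ Q)
    (h1 : t * (c⁻¹ * x * c) * t = g₃ * h₃ * t * f₃) :
    f₃ = (t * c * t)⁻¹ * f * (t * c * t) ∧ h₃ = (t * c * t)⁻¹ * h * c := by
  have hct := D_conj_t S hc
  have h2 : t * (c⁻¹ * x * c) * t = ((t * c * t)⁻¹ * g * (t * c * t)⁻¹⁻¹) * ((t * c * t)⁻¹ * h * c) * t *
      ((t * c * t)⁻¹ * f * (t * c * t)⁻¹⁻¹) := by
    have hi : (t * c * t)⁻¹ = t * c⁻¹ * t := by rw [mul_inv_rev, mul_inv_rev, tinv S]; group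
    have e : t * (c⁻¹ * x * c) * t = (t * c⁻¹ * t) * (t * x * t) * (t * c * t) := by
      calc t * (c⁻¹ * x * c) * t = t * c⁻¹ * 1 * x * 1 * c * t := by group
        _ = t * c⁻¹ * (t * t) * x * (t * t) * c * t := by rw [S.mul_self]
        _ = _ := by group
    have e2 : c * t * (t * c * t)⁻¹ = t := by
      rw [hi]
      calc c * t * (t * c⁻¹ * t) = c * (t * t) * c⁻¹ * t := by group
        _ = t := by rw [S.mul_self]; group
    rw [e, heq, ← hi]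
    calc (t * c * t)⁻¹ * (g * h * t * f) * (t * c * t) = (t * c * t)⁻¹ * g * h * t * f * (t * c * t) := by group
      _ = (t * c * t)⁻¹ * g * h * (c * t * (t * c * t)⁻¹) * f * (t * c * t) := by rw [e2]
      _ = _ := by group
  rw [h2] at h1
  obtain ⟨-, e2, e3⟩ := canon3 S (S.conj_mem _ (inv_mem hct.1) _ hg) (mul_mem (mul_mem (inv_mem hct) hh) hc)
    (S.conj_mem _ (inv_mem hct.1) _ hf) hg₃ hh₃ hf₃ h1
  rw [inv_inv] at e3
  exact ⟨e3.symm, e2.symm⟩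

theorem H6 {x y gx hx fx gy hy fy : G} (hxQ : x ∈ Q) (hyQ : y ∈ Q) (hxy : x * y ≠ 1)
    (hgx : gx ∈ Q) (hhx : hx ∈ 𝔻) (hfx : fx ∈ Q) (ex : t * x * t = gx * hx * t * fx)
    (hgy : gy ∈ Q) (hhy : hy ∈ 𝔻) (hfy : fy ∈ Q) (ey : t * y * t = gy * hy * t * fy) :
    fx * gy ≠ 1 ∧
      ∀ gz hz fz g' h' f' : G, gz ∈ Q → hz ∈ 𝔻 → fz ∈ Q → t * (fx * gy) * t = gz * hz * t * fz →
        g' ∈ Q → h' ∈ 𝔻 → f' ∈ Q → t * (x * y) * t = g' * h' * t * f' →
          f' = (t * hy * t)⁻¹ * fz * (t * hy * t) * fy ∧ h' = hx * hz * hy := by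
  have e0 : t * (x * y) * t = gx * hx * t * (fx * gy) * hy * t * fy := by
    calc t * (x * y) * t = t * x * 1 * y * t := by group
      _ = t * x * (t * t) * y * t := by rw [S.mul_self]
      _ = (t * x * t) * (t * y * t) := by group
      _ = _ := by rw [ex, ey]; group
  constructor
  · intro hz
    rw [hz, mul_one] at e0
    have h1 : t * (x * y) * t ∈ 𝔾 := by
      have e1 : gx * hx * t * hy * t * fy = gx * hx * (t * hy * t) * fy := by group
      rw [e0, e1]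
      exact mul_mem (mul_mem (mul_mem (S.le hgx) hhx.1) (D_conj_t S hhy).1) (S.le hfy)
    apply hxy
    apply eq_one_of_ta S (mul_mem hxQ hyQ)
    rw [MulAction.mem_stabilizer_iff, mul_smul, mul_smul] at h1
    have := congrArg (t • ·) h1
    simp only [smul_smul t t, S.mul_self, one_smul] at this
    exact this
  · intro gz hz fz g' h' f' hgz hhz hfz ez hg' hh' hf' e'
    have hyt := D_conj_t S hhy
    have h2 : t * (x * y) * t = (gx * (hx * gz * hx⁻¹)) * (hx * hz * hy) * t *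
        (((t * hy * t)⁻¹ * fz * (t * hy * t)⁻¹⁻¹) * fy) := by
      have hi : (t * hy * t)⁻¹ = t * hy⁻¹ * t := by rw [mul_inv_rev, mul_inv_rev, tinv S]; group
      have e2 : hy * t * (t * hy * t)⁻¹ = t := by
        rw [hi]
        calc hy * t * (t * hy⁻¹ * t) = hy * (t * t) * hy⁻¹ * t := by group
          _ = t := by rw [S.mul_self]; group
      have e3 : t * (fx * gy) = gz * hz * t * fz * t := by
        rw [← ez]
        calc t * (fx * gy) = t * (fx * gy) * 1 := by group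
          _ = t * (fx * gy) * (t * t) := by rw [S.mul_self]
          _ = _ := by group
      rw [e0]
      calc gx * hx * t * (fx * gy) * hy * t * fy = gx * hx * (t * (fx * gy)) * hy * t * fy := by group
        _ = gx * hx * gz * hz * t * fz * (t * hy * t) * fy := by rw [e3]; group
        _ = gx * hx * gz * hz * (hy * t * (t * hy * t)⁻¹) * fz * (t * hy * t) * fy := by rw [e2]
        _ = _ := by group
    rw [h2] at e'
    obtain ⟨-, e2, e3⟩ := canon3 S (mul_mem hgx (S.conj_mem _ hhx.1 _ hgz)) (mul_mem (mul_mem hhx hhz) hhy)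
      (mul_mem (S.conj_mem _ (inv_mem hyt.1) _ hfz) hfy) hg' hh' hf' e'
    rw [inv_inv] at e3
    exact ⟨e3.symm, e2.symm⟩

end Cfsg.Agent.H6.R1
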