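import Cfsg.Agent.H6_Ree31

/-!
The Ree groups: automorphisms.
-/

set_option autoImplicit false
set_option linter.unusedSectionVars false

namespace Cfsg.Agent.H6.Ree

open Cfsg Cfsg.Lie
open scoped Pointwise

namespace RG

variable {K : Type*} [Field K] {G : Type*} [Group G] (R : RG K G)

include R

/-- the centre of `U` -/
theorem central_U {x : G} (hx : x ∈ R.U) (h : ∀ y ∈ R.U, x * y = y * x) : ∃ v, x = R.w 0 0 v := by
  obtain ⟨t, u, v, rfl⟩ := hx
  have h1 := h _ (R.w_mem 0 1 0)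
  rw [R.wmul, R.wmul] at h1
  have e1 := (R.winj h1).2.2
  have ht : t = 0 := by
    rw [map_zero] at e1
    linear_combination e1
  subst ht
  have h2 := h _ (R.w_mem 1 0 0)
  rw [R.wmul, R.wmul] at h2
  have e2 := (R.winj h2).2.2
  have hu : u = 0 := by
    rw [map_zero] at e2
    linear_combination -e2
  exact ⟨v, by rw [hu]⟩

theorem w00_comm (v : K) {y : G} (hy : y ∈ R.U) : R.w 0 0 v * y = y * R.w 0 0 v := by
  obtain ⟨t', u', v', rfl⟩ := hy
  rw [R.wmul, R.wmul]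
  congr 1
  · ring
  · rw [map_zero]; ring
  · rw [map_zero]; ring

/-- an automorphism preserving `U` acts on its centre -/
theorem exists_beta (α : MulAut G) (hU : ∀ x, α x ∈ R.U ↔ x ∈ R.U) : ∃ β : K →+ K, Function.Injective β ∧
    ∀ v, α (R.w 0 0 v) = R.w 0 0 (β v) := by
  have key : ∀ v, ∃ v', α (R.w 0 0 v) = R.w 0 0 v' := by
    intro v
    apply R.central_U ((hU _).2 (R.w_mem _ _ _))
    intro y hy
    have h1 : α.symm y ∈ R.U := by
      rw [← hU, MulEquiv.apply_symm_apply]; exact hy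
    have h2 := congrArg α (R.w00_comm v h1)
    rwa [map_mul, map_mul, MulEquiv.apply_symm_apply] at h2
  choose b hb using key
  have hadd : ∀ v v', b (v + v') = b v + b v' := by
    intro v v'
    have h1 := R.w_mul0 0 v 0 v'
    have h2 := congrArg α h1
    rw [map_mul, hb, hb, R.w_mul0, add_zero, hb] at h2
    exact (R.winj h2).2.2.symm
  refine ⟨AddMonoidHom.mk' b hadd, ?_, hb⟩
  intro v v' h
  have h1 : b v = b v' := h
  have h2 : α (R.w 0 0 v) = α (R.w 0 0 v') := by rw [hb, hb, h1]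
  exact (R.winj (α.injective h2)).2.2

theorem beta_smul (α : MulAut G) {β : K →+ K} (hβ : ∀ v, α (R.w 0 0 v) = R.w 0 0 (β v)) {s s' : Kˣ}
    (hs : α (R.h s) = R.h s') (v : K) : β (s * v) = s' * β v := by
  have h1 : R.h s * R.w 0 0 v * (R.h s)⁻¹ = R.w 0 0 (s * v) := by
    rw [R.hw]; simp
  have h2 := congrArg α h1
  rw [map_mul, map_mul, map_inv, hs, hβ, hβ, R.hw] at h2
  exact ((R.winj h2).2.2).symm

section fin

variable [Fintype K] [Finite G] {m : ℕ} (hm : 1 ≤ m) (hK : Fintype.card K = 3 ^ (2 * m + 1))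

include hm hK

theorem exists_s : ∃ s : Kˣ, s ≠ 1 ∧ s ≠ -1 ∧ R.h s ∈ R.A2 (m := m) := by
  have hq27 : 27 ≤ 3 ^ (2 * m + 1) := by
    calc 27 = 3 ^ 3 := rfl
      _ ≤ 3 ^ (2 * m + 1) := Nat.pow_le_pow_right (by norm_num) (by omega)
  have h0 : R.A2 (m := m) ≠ ⊥ := by
    intro h0
    have := R.card_A2 hK
    rw [h0, Subgroup.card_bot] at this
    omega
  obtain ⟨x, hx, hx1⟩ := (Subgroup.bot_or_exists_ne_one _).resolve_left h0
  obtain ⟨s, hs1, hs2, rfl⟩ := R.A2_pm hK hx hx1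
  exact ⟨s, hs1, hs2, hx⟩

/-- every automorphism can be adjusted to preserve `H` -/
theorem exists_fix_H (α : MulAut G) : ∃ g : G, ∀ x ∈ R.H, (MulAut.conj g * α) x ∈ R.H := by
  have ht := R.tor_A2 hK
  have hD : IsCyclic ((R.A2 (m := m)).map α.toMonoidHom) := by
    have := ht.cyc
    exact isCyclic_of_surjective (α.toMonoidHom.subgroupMap (R.A2 (m := m))) (α.toMonoidHom.subgroupMap_surjective _)
  have hc : Nat.card ((R.A2 (m := m)).map α.toMonoidHom) = Nat.card (R.A2 (m := m)) :=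
    (Nat.card_congr (Subgroup.equivMapOfInjective _ _ α.injective).toEquiv).symm
  obtain ⟨g, hg⟩ := ht.conj_of_card hD ht.cyc (by rw [hc]) hc
  refine ⟨g, fun x hx => ?_⟩
  obtain ⟨s, hs1, hs2, hs⟩ := R.exists_s hm hK
  have h1 : (MulAut.conj g * α) (R.h s) ∈ R.A2 (m := m) := by
    rw [hg]
    exact ⟨_, ⟨_, hs, rfl⟩, rfl⟩
  have h2 : (MulAut.conj g * α) (R.h s) ≠ 1 := by
    rw [ne_eq, map_eq_one_iff _ (MulAut.conj g * α).injective]
    intro h
    rw [← map_one R.h] at h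
    exact hs1 (R.hinj h)
  rw [← ht.cen _ h1 h2, ← map_mul, ← map_mul]
  congr 1
  exact ht.comm _ (R.h_mem s) _ hx

/-- the two Sylow `3`-subgroups normalised by `H` -/
theorem fix_U (α : MulAut G) (hH : ∀ x ∈ R.H, α x ∈ R.H) :
    (∀ x, α x ∈ R.U ↔ x ∈ R.U) ∨ (∀ x, R.n * α x * R.n ∈ R.U ↔ x ∈ R.U) := by
  have : Fact (Nat.Prime 3) := ⟨Nat.prime_three⟩
  obtain ⟨P, hP⟩ := R.exists_sylow hK
  obtain ⟨g, hg⟩ := MulAction.exists_smul_eq G P (α • P)
  have key : ∀ x, g⁻¹ * α x * g ∈ R.U ↔ x ∈ R.U := by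
    intro x
    have h1 : α x ∈ ((α • P : Sylow 3 G) : Subgroup G) ↔ x ∈ R.U := by
      have h := Subgroup.mem_pointwise_smul_iff_inv_smul_mem (a := α) (S := (P : Subgroup G)) (x := α x)
      have e : α⁻¹ • α x = x := α.symm_apply_apply x
      rw [e] at h
      rw [← hP]
      exact h
    have h2 : α x ∈ ((g • P : Sylow 3 G) : Subgroup G) ↔ g⁻¹ * α x * g ∈ R.U := by
      have h := Subgroup.mem_pointwise_smul_iff_inv_smul_mem (a := MulAut.conj g) (S := (P : Subgroup G)) (x := α x)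
      have e : (MulAut.conj g)⁻¹ • α x = g⁻¹ * α x * g := by
        rw [← map_inv]
        change g⁻¹ * α x * g⁻¹⁻¹ = _
        rw [inv_inv]
      rw [e] at h
      rw [← hP]
      exact h
    rw [← h1, ← h2, hg]
  have hHs : ∀ x ∈ R.H, ∃ y ∈ R.H, α y = x := by
    have h1 : R.H.map α.toMonoidHom ≤ R.H := by
      rintro _ ⟨y, hy, rfl⟩
      exact hH y hy
    have h2 : R.H.map α.toMonoidHom = R.H := by
      apply Subgroup.eq_of_le_of_card_ge h1
      rw [← Nat.card_congr (Subgroup.equivMapOfInjective R.H _ α.injective).toEquiv]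
    intro x hx
    rw [← h2] at hx
    exact hx
  rcases R.cover g with hgB | ⟨a, ha, b, hb, rfl⟩
  · left
    intro x
    rw [← key x]
    constructor
    · intro h
      have := R.B_norm_U (inv_mem hgB) h
      rwa [inv_inv] at this
    · intro h
      have := R.B_norm_U hgB h
      have e : g * (g⁻¹ * α x * g) * g⁻¹ = α x := by group
      rwa [e] at this
  · right
    obtain ⟨t, u, v, s, rfl⟩ := ha
    set w := R.w t u v with hw
    have hwU : w ∈ R.U := R.w_mem _ _ _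
    have key2 : ∀ x, R.n * (w⁻¹ * α x * w) * R.n⁻¹ ∈ R.U ↔ x ∈ R.U := by
      intro x
      rw [← key x]
      have hh : ∀ y, y ∈ R.U ↔ (R.h s) * y * (R.h s)⁻¹ ∈ R.U := by
        intro y
        constructor
        · exact R.hU s
        · intro h
          have := R.hU s⁻¹ h
          have e : R.h s⁻¹ * (R.h s * y * (R.h s)⁻¹) * (R.h s⁻¹)⁻¹ = y := by
            rw [map_inv]; group
          rwa [e] at this
      have hbb : ∀ y, y ∈ R.U ↔ b⁻¹ * y * b ∈ R.U := by
        intro y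
        constructor
        · intro h
          exact mul_mem (mul_mem (inv_mem hb) h) hb
        · intro h
          have := mul_mem (mul_mem hb h) (inv_mem hb)
          have e : b * (b⁻¹ * y * b) * b⁻¹ = y := by group
          rwa [e] at this
      rw [hh, hbb]
      have e : b⁻¹ * (R.h s * (R.n * (w⁻¹ * α x * w) * R.n⁻¹) * (R.h s)⁻¹) * b =
          (w * R.h s * R.n * b)⁻¹ * α x * (w * R.h s * R.n * b) := by
        have e1 : R.h s * R.n = R.n⁻¹ * (R.h s)⁻¹ := by rw [R.n_inv, R.hnc, map_inv]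
        have e2 : R.n⁻¹ * (R.h s)⁻¹ = R.h s * R.n := e1.symm
        calc b⁻¹ * (R.h s * (R.n * (w⁻¹ * α x * w) * R.n⁻¹) * (R.h s)⁻¹) * b
            = b⁻¹ * ((R.h s * R.n) * (w⁻¹ * α x * w) * (R.n⁻¹ * (R.h s)⁻¹)) * b := by group
          _ = b⁻¹ * ((R.n⁻¹ * (R.h s)⁻¹) * (w⁻¹ * α x * w) * (R.h s * R.n)) * b := by rw [e2, e1]
          _ = _ := by group
      rw [e]
    obtain ⟨s₀, hs1, hs2, hs⟩ := R.exists_s hm hK
    have hwH : w⁻¹ * R.h s₀ * w ∈ R.H := by
      obtain ⟨y, hy, hyx⟩ := hHs _ (R.h_mem s₀)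
      have hyU : ∀ x ∈ R.U, y * x * y⁻¹ ∈ R.U := by
        obtain ⟨r, rfl⟩ := R.mem_H.1 hy
        exact fun x hx => R.hU r hx
      -- a nontrivial element of `U`
      have hzne : R.w 0 0 (1 : K) ≠ 1 := by
        rw [ne_eq, R.w_one_iff]
        rintro ⟨-, -, h⟩
        exact one_ne_zero h
      set x := α.symm (w * (R.n⁻¹ * R.w 0 0 1 * R.n) * w⁻¹) with hx
      have hαx : α x = w * (R.n⁻¹ * R.w 0 0 1 * R.n) * w⁻¹ := by rw [hx, MulEquiv.apply_symm_apply]
      have hxU : x ∈ R.U := by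
        rw [← key2, hαx]
        have e0 : R.n * (w⁻¹ * (w * (R.n⁻¹ * R.w 0 0 1 * R.n) * w⁻¹) * w) * R.n⁻¹ = R.w 0 0 1 := by group
        rw [e0]; exact R.w_mem _ _ _
      have h1 := (key2 _).2 (hyU x hxU)
      rw [map_mul, map_mul, map_inv, hyx, hαx] at h1
      have hkB : R.n * (w⁻¹ * R.h s₀ * w) * R.n⁻¹ ∈ R.B := by
        apply R.TI (x := R.w 0 0 1) (R.w_mem _ _ _) hzne (R.U_le_B h1)
        group
      rw [R.n_inv] at hkB
      apply R.n_conj_B' _ hkB
      exact mul_mem (mul_mem (inv_mem (R.U_le_B hwU)) (R.hB _)) (R.U_le_B hwU)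
    have hw1 : w = 1 := by
      apply R.hU_fix hs1 hs2 hwU
      have h1 : (w⁻¹ * R.h s₀ * w) * (R.h s₀)⁻¹ ∈ R.U ⊓ R.H := by
        refine ⟨?_, R.H.mul_mem hwH (R.H.inv_mem (R.h_mem _))⟩
        have e : w⁻¹ * R.h s₀ * w * (R.h s₀)⁻¹ = w⁻¹ * (R.h s₀ * w * (R.h s₀)⁻¹) := by group
        rw [e]
        exact R.U.mul_mem (R.U.inv_mem hwU) (R.hU _ hwU)
      rw [R.U_inf_H, Subgroup.mem_bot] at h1
      have h2 := mul_inv_eq_one.1 h1
      calc R.h s₀ * w = w * (w⁻¹ * R.h s₀ * w) := by group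
        _ = w * R.h s₀ := by rw [h2]
    intro x
    rw [← key2 x, hw1, R.n_inv, inv_one, one_mul, mul_one]

/-- every automorphism can be adjusted to act as a field automorphism on `H` -/
theorem exists_field (α : MulAut G) : ∃ (g : G) (τ : K →+* K), ∀ s : Kˣ, (MulAut.conj g * α) (R.h s) =
    R.h (Units.map (τ : K →* K) s) := by
  obtain ⟨g₁, hg₁⟩ := R.exists_fix_H hm hK α
  obtain ⟨g₂, hH, hU⟩ : ∃ g₂ : G, (∀ x ∈ R.H, (MulAut.conj g₂ * (MulAut.conj g₁ * α)) x ∈ R.H) ∧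
      (∀ x, (MulAut.conj g₂ * (MulAut.conj g₁ * α)) x ∈ R.U ↔ x ∈ R.U) := by
    rcases R.fix_U hm hK _ hg₁ with h | h
    · refine ⟨1, ?_, ?_⟩
      · rw [map_one, one_mul]; exact hg₁
      · rw [map_one, one_mul]; exact h
    · refine ⟨R.n, ?_, ?_⟩
      · intro x hx
        change R.n * _ * R.n⁻¹ ∈ R.H
        rw [R.n_inv]
        exact R.n_conj_H (hg₁ x hx)
      · intro x
        rw [← h x]
        change R.n * _ * R.n⁻¹ ∈ R.U ↔ _
        rw [R.n_inv]
        exact Iff.rfl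
  set α₂ := MulAut.conj g₂ * (MulAut.conj g₁ * α) with hα₂
  obtain ⟨β, hβi, hβ⟩ := R.exists_beta α₂ hU
  have hb0 : β 1 ≠ 0 := by
    intro h
    exact one_ne_zero (hβi (h.trans (map_zero β).symm))
  have hσ : ∀ s : Kˣ, ∃ s' : Kˣ, α₂ (R.h s) = R.h s' := fun s => R.mem_H.1 (hH _ (R.h_mem s))
  choose σ hσ using hσ
  have hβs : ∀ (s : Kˣ) (v : K), β (s * v) = σ s * β v := fun s v => R.beta_smul α₂ hβ (hσ s) v
  have hβ1 : ∀ s : Kˣ, β s = σ s * β 1 := fun s => by rw [← hβs, mul_one]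
  let τ : K →+* K :=
    { toFun := fun v => (β 1)⁻¹ * β v
      map_one' := inv_mul_cancel₀ hb0
      map_zero' := by simp
      map_add' := fun x y => by rw [map_add, mul_add]
      map_mul' := fun x y => by
        by_cases hx : x = 0
        · subst hx; simp
        · have h1 := hβs (Units.mk0 x hx) y
          have h2 := hβ1 (Units.mk0 x hx)
          rw [Units.val_mk0] at h1 h2
          rw [h1, h2]
          field_simp }
  have hτ : ∀ s : Kˣ, Units.map (τ : K →* K) s = σ s := by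
    intro s
    apply Units.ext
    change (β 1)⁻¹ * β s = σ s
    rw [hβ1]
    field_simp
  refine ⟨g₂ * g₁, τ, fun s => ?_⟩
  rw [hτ, ← hσ, hα₂, map_mul, mul_assoc]

end fin

end RG

end Cfsg.Agent.H6.Ree
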