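import Cfsg.Agent.H6_Ree34

/-!
The Ree groups: automorphisms fixing `H` are inner.
-/

set_option autoImplicit false
set_option linter.unusedSectionVars false

namespace Cfsg.Agent.H6.Ree

open Cfsg Cfsg.Lie
open scoped Pointwise

local notation "SL2" => Matrix.SpecialLinearGroup (Fin 2)

namespace RG

variable {K : Type*} [Field K] {G : Type*} [Group G] (R : RG K G)

include R

theorem two_ne : (2 : K) ≠ 0 := by
  rw [R.two_eq]
  exact neg_ne_zero.2 one_ne_zero

/-- a twisted identity forcing `K` to be small -/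
theorem theta_absurd (θ : K →+* K) (h : ∀ s, s ≠ 0 → θ s ^ 2 = s * θ (R.φ s) ^ 3) (s : K) (hs : s ≠ 0) : s = 1 ∨ s = -1 := by
  have hall : ∀ s, θ s ^ 2 = s * θ (R.φ s) ^ 3 := by
    intro s
    by_cases hs : s = 0
    · subst hs; simp
    · exact h s hs
  have h3 := R.char3
  have key : ∀ s, θ (R.φ s) ^ 3 = s := by
    intro s
    have h1 := hall s
    have h2 := hall (s + 1)
    rw [map_add θ s 1, map_one, map_add R.φ, map_one, map_add θ, map_one] at h2
    set X := θ s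
    set Y := θ (R.φ s)
    have h4 : (Y + 1) ^ 3 = Y ^ 3 + 1 := by linear_combination (Y ^ 2 + Y) * h3
    rw [h4] at h2
    have h5 : Y ^ 3 = 2 * X - s := by linear_combination h1 - h2
    rw [h5] at h1
    have h6 : (X - s) ^ 2 = 0 := by linear_combination h1
    have h7 : X = s := sub_eq_zero.1 (pow_eq_zero_iff (two_ne_zero) |>.1 h6)
    rw [h5, h7]; ring
  have hθ : ∀ s, θ s = s := by
    intro s
    have h1 := hall s
    rw [key] at h1
    have h2 := hall (s + 1)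
    rw [key, map_add, map_one] at h2
    have h5 : R.φ.toRingHom 0 = 0 := map_zero _
    have h6 : 2 * (θ s - s) = 0 := by linear_combination h2 - h1
    exact sub_eq_zero.1 ((mul_eq_zero.1 h6).resolve_left R.two_ne)
  apply R.s2 hs
  have := key s
  rwa [hθ] at this

/-- no automorphism of the additive group inverts the multiplicative group -/
theorem inv_absurd (β : K →+ K) (hb : β 1 ≠ 0) (h : ∀ s : Kˣ, β s = ((s⁻¹ : Kˣ) : K) * β 1) (s : K) (hs : s ≠ 0) (hs1 : s ≠ -1) :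
    s = 1 := by
  have h1 := h (Units.mk0 s hs)
  have hs2 : s + 1 ≠ 0 := fun h => hs1 (eq_neg_of_add_eq_zero_left h)
  have h2 := h (Units.mk0 (s + 1) hs2)
  rw [Units.val_mk0, Units.val_inv_eq_inv_val, Units.val_mk0] at h1 h2
  rw [map_add, h1] at h2
  have h3 : s⁻¹ + 1 = (s + 1)⁻¹ := by
    apply mul_right_cancel₀ hb
    rw [← h2]; ring
  have h4 : (s - 1) ^ 2 = 0 := by
    have h5 : (1 + s) * (s + 1) = s := by
      have h6 : (s⁻¹ + 1) * (s * (s + 1)) = s := by rw [h3]; field_simp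
      have h7 : (s⁻¹ + 1) * (s * (s + 1)) = (1 + s) * (s + 1) := by field_simp
      rw [← h7, h6]
    have h3' := R.char3
    linear_combination h5 - s * h3'
  exact sub_eq_zero.1 (pow_eq_zero_iff (two_ne_zero) |>.1 h4)

section fin

variable [Fintype K] [Finite G] {m : ℕ} (hm : 1 ≤ m) (hK : Fintype.card K = 3 ^ (2 * m + 1))

include hm hK

theorem exists_big : ∃ s : K, s ≠ 0 ∧ s ≠ 1 ∧ s ≠ -1 := by
  obtain ⟨s, h1, h2, -⟩ := R.exists_s hm hK
  refine ⟨s, s.ne_zero, fun h => h1 (Units.ext h), fun h => h2 (Units.ext (by rw [h, Units.val_neg, Units.val_one]))⟩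

/-- an automorphism trivial on `H` and preserving `U`, acting trivially on the centre of `U`, is trivial on `U` -/
theorem fix_U_of (α : MulAut G) (hα : ∀ s, α (R.h s) = R.h s) (hU : ∀ x, α x ∈ R.U ↔ x ∈ R.U)
    (hZ : ∀ v, α (R.w 0 0 v) = R.w 0 0 v) (t u v : K) : α (R.w t u v) = R.w t u v := by
  have h3 := R.char3
  -- the second layer
  have hγ : ∀ u, ∃ u', α (R.w 0 u 0) = R.w 0 u' 0 := by
    intro u
    obtain ⟨t', u', v', h'⟩ := (hU _).2 (R.w_mem 0 u 0)
    have h1 := congrArg α (R.a_w u)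
    rw [map_mul, map_mul, h', R.a_def, hα, ← R.a_def, R.a_comm_iff] at h1
    exact ⟨u', by rw [h', h1.1, h1.2]⟩
  choose γ hγ using hγ
  have hτ : ∀ t, ∃ t' u' v', α (R.w t 0 0) = R.w t' u' v' := fun t => (hU _).2 (R.w_mem t 0 0)
  choose τ ρ μ hτ using hτ
  have hw0 : ∀ t u v, R.w t 0 0 * R.w 0 u v = R.w t u v := fun t u v => (R.w_mul_uv t u v).symm
  have hrel : ∀ t u, τ t * γ u = t * u := by
    intro t u
    have e : R.w 0 u 0 * R.w t 0 0 = R.w t 0 0 * R.w 0 u 0 * R.w 0 0 (-(t * u)) := by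
      rw [mul_assoc, R.w_mul0, R.wmul, R.wmul]
      congr 1
      · ring
      · rw [map_zero]; ring
      · rw [map_zero]; ring
    have h1 := congrArg α e
    rw [map_mul, map_mul, map_mul, hγ, hτ, hZ, mul_assoc, R.w_mul0, R.wmul, R.wmul] at h1
    have h2 := (R.winj h1).2.2
    rw [map_zero] at h2
    linear_combination -h2
  have h11 := hrel 1 1
  rw [one_mul] at h11
  have hγ1 : γ 1 ≠ 0 := by
    intro h; rw [h, mul_zero] at h11; exact zero_ne_one h11
  have hτ1 : τ 1 ≠ 0 := by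
    intro h; rw [h, zero_mul] at h11; exact zero_ne_one h11
  have hτt : ∀ t, τ t = τ 1 * t := by
    intro t
    have h1 := hrel t 1
    apply mul_right_cancel₀ hγ1
    rw [h1]; linear_combination (-t) * h11
  have hγu : ∀ u, γ u = γ 1 * u := by
    intro u
    have h1 := hrel 1 u
    apply mul_left_cancel₀ hτ1
    rw [h1]; linear_combination (-u) * h11
  -- the cube
  have hd : R.φ (τ 1) ^ 3 * (τ 1) ^ 2 = 1 := by
    have h1 := R.w_cube 1 0 0
    have h2 := congrArg α h1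
    rw [map_mul, map_mul, hτ, R.w_cube, hZ] at h2
    have h4 := (R.winj h2).2.2
    rw [map_one] at h4
    linear_combination -h4
  have hτone : τ 1 = 1 := by
    have h1 := congrArg R.φ hd
    rw [map_mul, map_pow, map_pow, map_one, R.φφ] at h1
    have hφ0 : R.φ (τ 1) ≠ 0 := (map_ne_zero R.φ).2 hτ1
    have h5 : R.φ (τ 1) = 1 := by
      have h6 : R.φ (τ 1) ^ 3 * (τ 1) ^ 2 = R.φ (τ 1) * (R.φ (τ 1) ^ 2 * τ 1 * τ 1) := by ring
      have h7 : τ 1 * R.φ (τ 1) ^ 2 = 1 := h1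
      have h8 : R.φ (τ 1) ^ 4 * (τ 1) ^ 2 = 1 := by linear_combination (R.φ (τ 1) ^ 2 * τ 1 + 1) * h7
      have h9 : R.φ (τ 1) * (R.φ (τ 1) ^ 3 * (τ 1) ^ 2) = 1 := by linear_combination h8
      rwa [hd, mul_one] at h9
    exact R.φ.injective (by rw [h5, map_one])
  have hγone : γ 1 = 1 := by rwa [hτone, one_mul] at h11
  have hτt' : ∀ t, τ t = t := fun t => by rw [hτt, hτone, one_mul]
  have hγu' : ∀ u, γ u = u := fun u => by rw [hγu, hγone, one_mul]
  have hL : ∀ u v, α (R.w 0 u v) = R.w 0 u v := by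
    intro u v
    have e : R.w 0 u 0 * R.w 0 0 v = R.w 0 u v := by rw [R.w_mul0, add_zero, zero_add]
    rw [← e, map_mul, hγ, hZ, hγu']
  have hT : ∀ t u v, α (R.w t u v) = R.w t (ρ t + u) (μ t + v) := by
    intro t u v
    rw [← hw0, map_mul, hτ, hL, hτt', R.wmul]
    congr 1
    · ring
    · rw [map_zero]; ring
    · rw [map_zero]; ring
  -- additivity of `ρ` and `μ`
  have hadd : ∀ t t', ρ (t + t') = ρ t + ρ t' ∧ μ (t + t') = μ t + μ t' - t' * ρ t := by
    intro t t'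
    have h1 := congrArg α (R.wmul t 0 0 t' 0 0)
    rw [map_mul, hT, hT, hT, R.wmul] at h1
    obtain ⟨-, h2, h4⟩ := R.winj h1
    constructor
    · linear_combination -h2
    · linear_combination -h4
  -- equivariance
  have hequi : ∀ (s : Kˣ) t, ρ ((s : K) ^ 2 * (R.φ s ^ 3)⁻¹ * t) = R.φ s ^ 3 * (s : K)⁻¹ * ρ t ∧
      μ ((s : K) ^ 2 * (R.φ s ^ 3)⁻¹ * t) = s * μ t := by
    intro s t
    have h1 := congrArg α (R.hw s t 0 0)
    rw [map_mul, map_mul, map_inv, hα, hT, R.hw, hT] at h1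
    obtain ⟨-, h2, h4⟩ := R.winj h1
    constructor
    · linear_combination -h2
    · linear_combination -h4
  have hρ : ∀ t, ρ t = 0 := by
    intro t
    have h1 := (hequi (-1) t).1
    have h0 : ρ 0 = 0 := by
      have := (hadd 0 0).1
      rw [add_zero] at this
      linear_combination -this
    have h2 := (hadd t (-t)).1
    rw [add_neg_cancel, h0] at h2
    have e1 : ((-1 : Kˣ) : K) ^ 2 * (R.φ ((-1 : Kˣ) : K) ^ 3)⁻¹ * t = -t := by
      rw [Units.val_neg, Units.val_one, map_neg, map_one]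
      have : ((-1 : K) ^ 3)⁻¹ = -1 := by norm_num
      rw [this]; ring
    have e2 : R.φ ((-1 : Kˣ) : K) ^ 3 * (((-1 : Kˣ) : K))⁻¹ = 1 := by
      rw [Units.val_neg, Units.val_one, map_neg, map_one]
      norm_num
    rw [e1, e2, one_mul] at h1
    rw [h1] at h2
    have h5 : 2 * ρ t = 0 := by linear_combination -h2
    exact (mul_eq_zero.1 h5).resolve_left R.two_ne
  have hμadd : ∀ t t', μ (t + t') = μ t + μ t' := by
    intro t t'
    rw [(hadd t t').2, hρ]; ring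
  -- the map `x ↦ x² φ(x)⁻³` is bijective
  have hchi : ∀ x : Kˣ, ∃ s : Kˣ, (s : K) ^ 2 * (R.φ s ^ 3)⁻¹ = x := by
    let f : Kˣ →* Kˣ :=
      { toFun := fun s => s ^ 2 * ((Units.map (R.φ : K →* K) s) ^ 3)⁻¹
        map_one' := by simp
        map_mul' := fun x y => by rw [map_mul, mul_pow, mul_pow, mul_inv, mul_mul_mul_comm] }
    have hf : Function.Injective f := by
      rw [injective_iff_map_eq_one]
      intro s hs
      have h1 : s ^ 2 = (Units.map (R.φ : K →* K) s) ^ 3 := mul_inv_eq_one.1 hs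
      have h2 := congrArg Units.val h1
      apply Units.ext
      exact R.s1 s.ne_zero h2
    have hf2 : Function.Surjective f := Finite.surjective_of_injective hf
    intro x
    obtain ⟨s, hs⟩ := hf2 x
    refine ⟨s, ?_⟩
    have := congrArg Units.val hs
    rw [← this]
    change _ = ((s ^ 2 * ((Units.map (R.φ : K →* K) s) ^ 3)⁻¹ : Kˣ) : K)
    rw [Units.val_mul, Units.val_inv_eq_inv_val]
    rfl
  have hμ1 : μ 1 = 0 := by
    by_contra hμ1
    have hm1 : ∀ x y, μ (x * y) * μ 1 = μ x * μ y := by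
      intro x y
      by_cases hx : x = 0
      · subst hx
        have h0 : μ 0 = 0 := by
          have := hμadd 0 0
          rw [add_zero] at this
          linear_combination -this
        rw [zero_mul, h0]; ring
      · obtain ⟨s, hs⟩ := hchi (Units.mk0 x hx)
        rw [Units.val_mk0] at hs
        have h1 := (hequi s y).2
        have h2 := (hequi s 1).2
        rw [hs] at h1 h2
        rw [mul_one] at h2
        rw [h1, h2]; ring
    let θ : K →+* K :=
      { toFun := fun x => (μ 1)⁻¹ * μ x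
        map_one' := inv_mul_cancel₀ hμ1
        map_zero' := by
          have := hμadd 0 0
          rw [add_zero] at this
          have h0 : μ 0 = 0 := by linear_combination -this
          rw [h0, mul_zero]
        map_add' := fun x y => by rw [hμadd]; ring
        map_mul' := fun x y => by
          have := hm1 x y
          field_simp
          linear_combination this }
    have hθ : ∀ s : Kˣ, θ ((s : K) ^ 2 * (R.φ s ^ 3)⁻¹) = s := by
      intro s
      have h2 := (hequi s 1).2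
      rw [mul_one] at h2
      change (μ 1)⁻¹ * μ _ = _
      rw [h2]
      field_simp
    have hθ2 : ∀ s, s ≠ 0 → θ s ^ 2 = s * θ (R.φ s) ^ 3 := by
      intro s hs
      have h1 := hθ (Units.mk0 s hs)
      rw [Units.val_mk0, map_mul, map_pow, map_inv₀, map_pow] at h1
      have h2 : θ (R.φ s) ≠ 0 := (map_ne_zero θ).2 ((map_ne_zero R.φ).2 hs)
      rw [mul_inv_eq_iff_eq_mul₀ (pow_ne_zero 3 h2)] at h1
      exact h1
    obtain ⟨s, hs0, hs1, hs2⟩ := R.exists_big hm hK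
    rcases R.theta_absurd θ hθ2 s hs0 with h | h
    · exact hs1 h
    · exact hs2 h
  have hμ : ∀ t, μ t = 0 := by
    intro t
    by_cases ht : t = 0
    · subst ht
      have := hμadd 0 0
      rw [add_zero] at this
      linear_combination -this
    · obtain ⟨s, hs⟩ := hchi (Units.mk0 t ht)
      rw [Units.val_mk0] at hs
      have h1 := (hequi s 1).2
      rw [mul_one, hs, hμ1, mul_zero] at h1
      exact h1
  rw [hT, hρ, hμ, zero_add, zero_add]

omit [Finite G] hm in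
/-- the relation `(w₁ n)³ = 1` -/
theorem wn_rel : R.n * R.w 0 1 0 * R.n = (R.w 0 1 0)⁻¹ * R.n * (R.w 0 1 0)⁻¹ := by
  have h1 : (uu 1 * ww : SL2 K) * (uu 1 * ww) * (uu 1 * ww) = 1 := by
    have huu : ((uu 1 : SL2 K) : Matrix (Fin 2) (Fin 2) K) = !![1, 1; 0, 1] := rfl
    have h2 := mul_form huu (ww_form (K := K))
    refine sl2_ext' (mul_form (mul_form h2 h2) h2) one_form ?_ ?_ ?_ ?_ <;> ring
  have h2 := congrArg R.sl h1
  rw [map_mul, map_mul, map_mul, map_one, R.sl_uu, R.sl_ww] at h2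
  have hn := R.n_inv
  calc R.n * R.w 0 1 0 * R.n = (R.w 0 1 0)⁻¹ * (R.w 0 1 0 * R.n * (R.w 0 1 0 * R.n) * (R.w 0 1 0 * R.n)) * R.n⁻¹ *
        (R.w 0 1 0)⁻¹ := by group
    _ = _ := by rw [h2, hn, mul_one]

theorem inner_of_fix (α : MulAut G) (hα : ∀ s, α (R.h s) = R.h s) : ∃ g, α = MulAut.conj g := by
  obtain ⟨s₁, hs0, hs1, hs2⟩ := R.exists_big hm hK
  have hH : ∀ x ∈ R.H, α x ∈ R.H := by
    intro x hx
    obtain ⟨s, rfl⟩ := R.mem_H.1 hx
    rw [hα]; exact hx
  have hU : ∀ x, α x ∈ R.U ↔ x ∈ R.U := by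
    rcases R.fix_U hm hK α hH with h | h
    · exact h
    · exfalso
      set α' : MulAut G := MulAut.conj R.n * α with hα'
      have hU' : ∀ x, α' x ∈ R.U ↔ x ∈ R.U := by
        intro x
        rw [← h x]
        change R.n * _ * R.n⁻¹ ∈ R.U ↔ _
        rw [R.n_inv]
        exact Iff.rfl
      have hα's : ∀ s : Kˣ, α' (R.h s) = R.h s⁻¹ := by
        intro s
        change R.n * α (R.h s) * R.n⁻¹ = _
        rw [hα, R.nhc, R.n_inv, mul_assoc, R.nn, mul_one]
      obtain ⟨β, hβi, hβ⟩ := R.exists_beta α' hU'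
      have hb0 : β 1 ≠ 0 := by
        intro h
        exact one_ne_zero (hβi (h.trans (map_zero β).symm))
      have hβs : ∀ s : Kˣ, β s = ((s⁻¹ : Kˣ) : K) * β 1 := by
        intro s
        rw [← R.beta_smul α' hβ (hα's s), mul_one]
      exact hs1 (R.inv_absurd β hb0 hβs s₁ hs0 hs2)
  obtain ⟨β, hβi, hβ⟩ := R.exists_beta α hU
  have hb0 : β 1 ≠ 0 := by
    intro h
    exact one_ne_zero (hβi (h.trans (map_zero β).symm))
  have hβs : ∀ v : K, β v = v * β 1 := by
    intro v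
    by_cases hv : v = 0
    · subst hv; simp
    · have := R.beta_smul α hβ (hα (Units.mk0 v hv)) 1
      rwa [Units.val_mk0, mul_one] at this
  -- adjust
  let b : Kˣ := Units.mk0 (β 1) hb0
  set α₂ : MulAut G := MulAut.conj (R.h b⁻¹) * α with hα₂
  have h2a : ∀ s, α₂ (R.h s) = R.h s := by
    intro s
    change R.h b⁻¹ * α (R.h s) * (R.h b⁻¹)⁻¹ = _
    rw [hα, ← map_mul, ← map_inv, ← map_mul]
    congr 1
    rw [mul_comm b⁻¹ s, mul_inv_cancel_right]
  have h2U : ∀ x, α₂ x ∈ R.U ↔ x ∈ R.U := by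
    intro x
    rw [← hU x]
    change R.h b⁻¹ * α x * (R.h b⁻¹)⁻¹ ∈ R.U ↔ _
    constructor
    · intro h
      have := R.hU b h
      have e : R.h b * (R.h b⁻¹ * α x * (R.h b⁻¹)⁻¹) * (R.h b)⁻¹ = α x := by
        rw [map_inv]; group
      rwa [e] at this
    · exact R.hU _
  have h2Z : ∀ v, α₂ (R.w 0 0 v) = R.w 0 0 v := by
    intro v
    change R.h b⁻¹ * α (R.w 0 0 v) * (R.h b⁻¹)⁻¹ = _
    rw [hβ, hβs, R.hw]
    congr 1
    · ring
    · ring
    · rw [Units.val_inv_eq_inv_val]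
      change (β 1)⁻¹ * (v * β 1) = v
      field_simp
  have h2w := R.fix_U_of hm hK α₂ h2a h2U h2Z
  -- the Weyl element
  obtain ⟨s, hs1', hs2', -⟩ := R.exists_s hm hK
  have hn1 : R.n * α₂ R.n ∈ R.H := by
    rw [← R.cen_H hs1' hs2']
    have h1 := congrArg α₂ (R.nhc s)
    rw [map_mul, map_mul, h2a, h2a] at h1
    have h3 := R.nhc s⁻¹
    rw [inv_inv] at h3
    calc R.h s * (R.n * α₂ R.n) = (R.h s * R.n) * α₂ R.n := by group
      _ = (R.n * R.h s⁻¹) * α₂ R.n := by rw [R.hnc]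
      _ = R.n * (R.h s⁻¹ * α₂ R.n) := by group
      _ = R.n * (α₂ R.n * R.h s) := by rw [h1]
      _ = _ := by group
  obtain ⟨s₀, hs₀⟩ := R.mem_H.1 hn1
  have hαn : α₂ R.n = R.n * R.h s₀ := by
    rw [← hs₀, ← mul_assoc, R.nn, one_mul]
  have hrel := R.wn_rel hK
  have hrel2 := congrArg α₂ hrel
  rw [map_mul, map_mul, map_mul, map_mul, map_inv, h2w, hαn] at hrel2
  set w := R.w 0 1 0 with hw
  set h := R.h s₀ with hh
  have hhn : h * R.n = R.n * h⁻¹ := by rw [hh, R.hnc, map_inv]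
  have hhn' : h⁻¹ * R.n = R.n * h := by
    have := R.hnc s₀⁻¹
    rwa [inv_inv, map_inv] at this
  -- E2 : n (h w h⁻¹) n = w⁻¹ h⁻¹ n w⁻¹
  have E2 : R.n * (h * w * h⁻¹) * R.n = w⁻¹ * h⁻¹ * R.n * w⁻¹ := by
    calc R.n * (h * w * h⁻¹) * R.n = R.n * h * w * (h⁻¹ * R.n) := by group
      _ = R.n * h * w * (R.n * h) := by rw [hhn']
      _ = w⁻¹ * (R.n * h) * w⁻¹ := hrel2
      _ = w⁻¹ * (h⁻¹ * R.n) * w⁻¹ := by rw [hhn']
      _ = _ := by group
  have E1 : R.n * (h * w * h⁻¹) * R.n = (h⁻¹ * w⁻¹ * h * h⁻¹ * h⁻¹) * R.n * (h⁻¹ * w⁻¹ * h) := by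
    calc R.n * (h * w * h⁻¹) * R.n = (R.n * h) * w * (h⁻¹ * R.n) := by group
      _ = (h⁻¹ * R.n) * w * (R.n * h) := by rw [hhn']
      _ = h⁻¹ * (R.n * w * R.n) * h := by group
      _ = h⁻¹ * (w⁻¹ * R.n * w⁻¹) * h := by rw [hrel]
      _ = (h⁻¹ * w⁻¹) * R.n * w⁻¹ * h := by group
      _ = (h⁻¹ * w⁻¹ * h * h⁻¹) * R.n * (h * h⁻¹) * w⁻¹ * h := by group
      _ = (h⁻¹ * w⁻¹ * h * h⁻¹) * (R.n * h) * (h⁻¹ * w⁻¹ * h) := by group
      _ = (h⁻¹ * w⁻¹ * h * h⁻¹) * (h⁻¹ * R.n) * (h⁻¹ * w⁻¹ * h) := by rw [hhn']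
      _ = _ := by group
  have hwU : w ∈ R.U := R.w_mem _ _ _
  have hhB : h ∈ R.B := R.hB _
  have hwi : h⁻¹ * w⁻¹ * h ∈ R.U := by
    have := R.hU s₀⁻¹ (inv_mem hwU)
    rwa [map_inv, inv_inv] at this
  have hB1 : h⁻¹ * w⁻¹ * h * h⁻¹ * h⁻¹ ∈ R.B := mul_mem (mul_mem (R.U_le_B hwi) (inv_mem hhB)) (inv_mem hhB)
  have hB2 : w⁻¹ * h⁻¹ ∈ R.B := mul_mem (inv_mem (R.U_le_B hwU)) (inv_mem hhB)
  obtain ⟨q1, q2⟩ := R.big_uniq hB1 hwi hB2 (inv_mem hwU) (E1.symm.trans E2)
  have hh1 : h = 1 := by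
    rw [q2] at q1
    have q3 : h⁻¹ = 1 := by
      have : w⁻¹ * h⁻¹ * h⁻¹ = w⁻¹ * h⁻¹ * 1 := by rw [mul_one]; exact q1
      exact mul_left_cancel this
    rwa [inv_eq_one] at q3
  rw [hh1, mul_one] at hαn
  have hα₂1 : α₂ = 1 := by
    ext x
    change α₂ x = x
    have hb : ∀ b ∈ R.B, α₂ b = b := by
      rintro _ ⟨t, u, v, s, rfl⟩
      rw [map_mul, h2w, h2a]
    rcases R.cover x with hx | ⟨a, ha, b, hb', rfl⟩
    · exact hb x hx
    · rw [map_mul, map_mul, hb a ha, hb b (R.U_le_B hb'), hαn]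
  refine ⟨(R.h b⁻¹)⁻¹, ?_⟩
  rw [map_inv]
  exact eq_inv_of_mul_eq_one_right hα₂1

end fin

end RG

end Cfsg.Agent.H6.Ree
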