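import Cfsg.Agent.H6_Ree35
import Cfsg.Agent.H14_ChevV

/-!
The Ree groups: the outer automorphism group.
-/

set_option autoImplicit false
set_option linter.unusedSectionVars false

namespace Cfsg.Agent.H6.Ree

open Cfsg Cfsg.Lie
open Cfsg.Agent.H6 Cfsg.Agent.H6.Chev Cfsg.Agent.H6.Chev.Model
open Cfsg.Agent.H14.Chev (fr fr_X fr_hHom fr_H)

section frob

variable {K : Type*} [Field K]

theorem exists_frob_pow [Fintype K] {m : ℕ} (hK : Fintype.card K = 3 ^ (2 * m + 1)) (τ : K →+* K) :
    ∃ i : ℕ, ∀ x, τ x = x ^ (3 ^ i) := by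
  have : Fact (Nat.Prime 3) := ⟨Nat.prime_three⟩
  have : CharP K 3 := by
    obtain ⟨p, hp⟩ := CharP.exists K
    have hpp : p.Prime := (CharP.char_is_prime_or_zero K p).resolve_right (CharP.char_ne_zero_of_finite K p)
    have h1 : p ∣ Fintype.card K := by
      rw [← CharP.cast_eq_zero_iff K p]; exact Nat.cast_card_eq_zero K
    rw [hK] at h1
    have h2 := (Nat.prime_dvd_prime_iff_eq hpp Nat.prime_three).1 (hpp.dvd_of_dvd_pow h1)
    rwa [← h2]
  let : Algebra (ZMod 3) K := ZMod.algebra K 3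
  let f : K →ₐ[ZMod 3] K := { τ with
    commutes' := fun x => by
      have : (τ : K →+* K).comp (algebraMap (ZMod 3) K) = algebraMap (ZMod 3) K := Subsingleton.elim _ _
      exact congrArg (fun f : ZMod 3 →+* K => f x) this }
  obtain ⟨n, hn⟩ := (FiniteField.bijective_frobeniusAlgHom_pow (ZMod 3) K).2 f
  refine ⟨n.1, fun x => ?_⟩
  have h1 : (FiniteField.frobeniusAlgHom (ZMod 3) K ^ n.1) x = τ x := by
    have := DFunLike.congr_fun hn x
    exact this
  rw [← h1, AlgHom.coe_pow, FiniteField.coe_frobeniusAlgHom, pow_iterate, ZMod.card]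

theorem wordMat_eq {D : ChevalleyDatum} (M : Model D) (w : List (ℕ × K)) :
    D.wordMat K w = ((w.map fun p => M.X p.1 p.2).prod : GL D.Idx K) := by
  induction w with
  | nil => simp [ChevalleyDatum.wordMat]
  | cons p w ih =>
    simp only [ChevalleyDatum.wordMat, List.map_cons, List.prod_cons, Units.val_mul] at ih ⊢
    rw [ih, M.coe_X]

theorem fr_word {D : ChevalleyDatum} (M : Model D) (σ : K →+* K) {w : List (ℕ × K)} {g : GL D.Idx K}
    (hg : (g : Matrix D.Idx D.Idx K) = D.wordMat K w) :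
    ((fr D σ g : GL D.Idx K) : Matrix D.Idx D.Idx K) = D.wordMat K (w.map fun p => (p.1, σ p.2)) := by
  rw [wordMat_eq M] at hg
  have h1 : g = (w.map fun p => M.X p.1 p.2).prod := Units.ext hg
  rw [wordMat_eq M, h1, map_list_prod, List.map_map, List.map_map]
  congr 2
  apply List.map_congr_left
  intro p _
  exact fr_X M σ p.1 p.2

theorem fr_tw (σ : K →+* K) {e : ℕ} {g : GL chevG2.Idx K} (hg : g ∈ twistedG2 K e) : fr chevG2 σ g ∈ twistedG2 K e := by
  have h : twistedG2 K e ≤ (twistedG2 K e).comap (fr chevG2 σ) := by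
    unfold twistedG2 ChevalleyDatum.genSubgroup
    rw [Subgroup.closure_le]
    rintro g ⟨w, ⟨t, u, v, hw⟩, hg⟩
    apply Subgroup.subset_closure
    refine ⟨w.map fun p => (p.1, σ p.2), ⟨σ t, σ u, σ v, ?_⟩, fr_word modelG2 σ hg⟩
    rcases hw with rfl | rfl
    · left
      simp [reeWordU]
    · right
      simp [reeWordV, reeWordU, ChevalleyDatum.negWord]
  exact h hg

theorem fr_inj (σ : K →+* K) {D : ChevalleyDatum} : Function.Injective (fr D σ) := by
  intro g g' h
  apply Units.ext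
  ext i j
  have h1 := congrArg (fun x : GL D.Idx K => (x : Matrix D.Idx D.Idx K) i j) h
  exact σ.injective h1

/-- the automorphism induced by an endomorphism of the field -/
noncomputable def frAut [Fintype K] (σ : K →+* K) (e : ℕ) : MulAut ↥(twistedG2 K e) :=
  MulEquiv.ofBijective (((fr chevG2 σ).comp (twistedG2 K e).subtype).codRestrict (twistedG2 K e) (fun g => fr_tw σ g.2)) (by
    have : Finite ↥(twistedG2 K e) := Finite.of_injective (fun g => ((g : GL chevG2.Idx K) : Matrix chevG2.Idx chevG2.Idx K))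
      (fun a b h => Subtype.ext (Units.ext h))
    apply Finite.injective_iff_bijective.1
    intro g g' h
    have h1 := congrArg Subtype.val h
    exact Subtype.ext (fr_inj σ h1))

theorem coe_frAut [Fintype K] (σ : K →+* K) (e : ℕ) (g : ↥(twistedG2 K e)) :
    ((frAut σ e g : ↥(twistedG2 K e)) : GL chevG2.Idx K) = fr chevG2 σ g := rfl

theorem fr_frob_H [CharP K 3] {h : GL chevG2.Idx K} (hh : h ∈ chevG2.diagonalSubgroup K) :
    fr chevG2 (frobenius K 3) h = h ^ 3 := by
  obtain ⟨b, rfl⟩ := modelG2.mem_H.1 hh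
  rw [fr_hHom, ← map_pow]
  congr 1

theorem frobenius_pow_card [CharP K 3] [Fintype K] {m : ℕ} (hK : Fintype.card K = 3 ^ (2 * m + 1)) (g : GL chevG2.Idx K) :
    (fr chevG2 (frobenius K 3))^[2 * m + 1] g = g := by
  have key : ∀ (n : ℕ) (g : GL chevG2.Idx K) (i j : chevG2.Idx), (((fr chevG2 (frobenius K 3))^[n] g : GL chevG2.Idx K) :
      Matrix chevG2.Idx chevG2.Idx K) i j = ((g : Matrix chevG2.Idx chevG2.Idx K) i j) ^ (3 ^ n) := by
    intro n
    induction n with
    | zero => intro g i j; simp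
    | succ n ih =>
      intro g i j
      rw [Function.iterate_succ_apply, ih]
      have : ((fr chevG2 (frobenius K 3) g : GL chevG2.Idx K) : Matrix chevG2.Idx chevG2.Idx K) i j =
        ((g : Matrix chevG2.Idx chevG2.Idx K) i j) ^ 3 := rfl
      rw [this, ← pow_mul, pow_succ']
  apply Units.ext
  ext i j
  rw [key, ← hK, FiniteField.pow_card]

end frob

universe u

theorem card_out {K : Type u} [Field K] [Fintype K] {m : ℕ} (hm : 1 ≤ m) (hK : Fintype.card K = 3 ^ (2 * m + 1)) :
    Nat.card (Cfsg.Out ↥(twistedG2 K (3 ^ m))) = 2 * m + 1 := by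
  have hp3 : Fact (Nat.Prime 3) := ⟨Nat.prime_three⟩
  have hchar : CharP K 3 := by
    obtain ⟨p, hp⟩ := CharP.exists K
    have hpp : p.Prime := (CharP.char_is_prime_or_zero K p).resolve_right (CharP.char_ne_zero_of_finite K p)
    have h1 : p ∣ Fintype.card K := by
      rw [← CharP.cast_eq_zero_iff K p]; exact Nat.cast_card_eq_zero K
    rw [hK] at h1
    have h2 := (Nat.prime_dvd_prime_iff_eq hpp Nat.prime_three).1 (hpp.dvd_of_dvd_pow h1)
    rwa [← h2]
  have hfin : Finite ↥(twistedG2 K (3 ^ m)) := Finite.of_injective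
    (fun g => ((g : GL chevG2.Idx K) : Matrix chevG2.Idx chevG2.Idx K)) (fun a b h => Subtype.ext (Units.ext h))
  obtain ⟨R, -, -, hH, -⟩ := exists_RG hK
  have hHd : ∀ s, ((R.h s : ↥(twistedG2 K (3 ^ m))) : GL chevG2.Idx K) ∈ chevG2.diagonalSubgroup K := fun s => (hH _).2 ⟨s, rfl⟩
  set F : MulAut ↥(twistedG2 K (3 ^ m)) := frAut (frobenius K 3) (3 ^ m) with hF
  have hF1 : ∀ s : Kˣ, F (R.h s) = R.h (s ^ 3) := by
    intro s
    apply Subtype.ext
    rw [hF, coe_frAut, fr_frob_H (hHd s), map_pow]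
    rfl
  have hFi : ∀ (i : ℕ) (s : Kˣ), (F ^ i) (R.h s) = R.h (s ^ (3 ^ i)) := by
    intro i
    induction i with
    | zero => intro s; simp
    | succ i ih =>
      intro s
      rw [pow_succ, MulAut.mul_apply, hF1, ih, ← pow_mul, pow_succ']
  have hFit : ∀ (i : ℕ) (g : ↥(twistedG2 K (3 ^ m))), (((F ^ i) g : ↥(twistedG2 K (3 ^ m))) : GL chevG2.Idx K) =
      (fr chevG2 (frobenius K 3))^[i] g := by
    intro i
    induction i with
    | zero => intro g; simp
    | succ i ih =>
      intro g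
      rw [pow_succ, MulAut.mul_apply, ih, Function.iterate_succ_apply]
      rfl
  have hFone : F ^ (2 * m + 1) = 1 := by
    ext g : 1
    apply Subtype.ext
    rw [hFit, frobenius_pow_card hK]
    rfl
  have hgen : ∀ x : Cfsg.Out ↥(twistedG2 K (3 ^ m)), x ∈ Subgroup.zpowers (QuotientGroup.mk F : Cfsg.Out ↥(twistedG2 K (3 ^ m))) := by
    intro x
    induction x using QuotientGroup.induction_on with
    | H α =>
      obtain ⟨g, τ, hg⟩ := R.exists_field hm hK α
      obtain ⟨i, hi⟩ := exists_frob_pow hK τ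
      have hγ : ∀ s, ((F ^ i)⁻¹ * (MulAut.conj g * α)) (R.h s) = R.h s := by
        intro s
        rw [MulAut.mul_apply, hg]
        have e : Units.map (τ : K →* K) s = s ^ (3 ^ i) := by
          apply Units.ext
          rw [Units.val_pow_eq_pow_val, ← hi]
          rfl
        rw [e, ← hFi, MulAut.inv_apply_self]
      obtain ⟨g', hg'⟩ := R.inner_of_fix hm hK _ hγ
      have h1 : α = (MulAut.conj g)⁻¹ * (F ^ i) * MulAut.conj g' := by
        rw [← hg']; group
      have h2 : (QuotientGroup.mk α : Cfsg.Out ↥(twistedG2 K (3 ^ m))) = (QuotientGroup.mk F) ^ i := by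
        have c : ∀ g, (QuotientGroup.mk (MulAut.conj g) : Cfsg.Out ↥(twistedG2 K (3 ^ m))) = 1 := fun g => by
          rw [QuotientGroup.eq_one_iff]
          exact ⟨g, rfl⟩
        rw [h1, QuotientGroup.mk_mul, QuotientGroup.mk_mul, QuotientGroup.mk_inv, c, c, mul_one, inv_one, one_mul,
          QuotientGroup.mk_pow]
      rw [h2]
      exact Subgroup.npow_mem_zpowers _ _
  rw [← orderOf_eq_card_of_forall_mem_zpowers hgen, orderOf_eq_iff (by omega)]
  constructor
  · rw [← QuotientGroup.mk_pow, hFone, QuotientGroup.mk_one]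
  · intro i hi hi0 h1
    rw [← QuotientGroup.mk_pow, QuotientGroup.eq_one_iff] at h1
    obtain ⟨g, hg⟩ := h1
    have hg' : ∀ s : Kˣ, g * R.h s * g⁻¹ = R.h (s ^ (3 ^ i)) := by
      intro s
      rw [← hFi, ← hg]
      rfl
    obtain ⟨s₁, hs1, hs2, -⟩ := R.exists_s hm hK
    obtain ⟨s', h2⟩ := R.norm_H hs1 hs2 (x := g) (by rw [hg']; exact R.h_mem _)
    rcases h2 with ⟨h2, -⟩ | ⟨h2, -⟩
    · have h3 : ∀ s : Kˣ, s ^ (3 ^ i) = s := by
        intro s
        apply R.hinj
        rw [← hg' s, h2, ← map_mul, mul_comm, map_mul]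
        group
      obtain ⟨s, hs⟩ := IsCyclic.exists_generator (α := Kˣ)
      have h4 : orderOf s = 3 ^ (2 * m + 1) - 1 := by
        rw [orderOf_eq_card_of_forall_mem_zpowers hs, card_units' hK]
      have h5 : s ^ (3 ^ i - 1) = 1 := by
        have h6 : s ^ (3 ^ i - 1) * s = 1 * s := by
          rw [← pow_succ, one_mul, Nat.sub_add_cancel (Nat.one_le_pow _ _ (by norm_num)), h3]
        exact mul_right_cancel h6
      have h6 := Nat.le_of_dvd (by
        have : 3 ^ 1 ≤ 3 ^ i := Nat.pow_le_pow_right (by norm_num) hi0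
        omega) (orderOf_dvd_of_pow_eq_one h5)
      rw [h4] at h6
      have h7 : 3 ^ i < 3 ^ (2 * m + 1) := Nat.pow_lt_pow_right (by norm_num) hi
      have h8 : 1 ≤ 3 ^ i := Nat.one_le_pow _ _ (by norm_num)
      omega
    · have h3 : ∀ s : Kˣ, s ^ (3 ^ i) = s⁻¹ := by
        intro s
        apply R.hinj
        rw [← hg' s, h2]
        calc R.h s' * R.n * R.h s * (R.h s' * R.n)⁻¹ = R.h s' * (R.n * R.h s) * (R.n⁻¹ * (R.h s')⁻¹) := by group
          _ = R.h s' * (R.h s⁻¹ * R.n) * (R.n⁻¹ * (R.h s')⁻¹) := by rw [R.nhc]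
          _ = (R.h s' * R.h s⁻¹) * (R.h s')⁻¹ := by group
          _ = (R.h s⁻¹ * R.h s') * (R.h s')⁻¹ := by rw [← map_mul, mul_comm, map_mul]
          _ = _ := by group
      obtain ⟨s, hs0, hsa, hsb⟩ := R.exists_big hm hK
      have h4 : (iterateFrobenius K 3 i : K →+* K).toAddMonoidHom 1 ≠ 0 := by
        change (iterateFrobenius K 3 i) 1 ≠ 0
        rw [map_one]
        exact one_ne_zero
      refine hsa (R.inv_absurd (iterateFrobenius K 3 i : K →+* K).toAddMonoidHom h4 ?_ s hs0 hsb)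
      intro s
      change (iterateFrobenius K 3 i) (s : K) = ((s⁻¹ : Kˣ) : K) * (iterateFrobenius K 3 i) 1
      rw [map_one, mul_one, iterateFrobenius_def, ← h3, Units.val_pow_eq_pow_val]

end Cfsg.Agent.H6.Ree
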