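import Mathlib
import Cfsg.Agent.H14_Schur2

/-!
Tools for Schur multipliers in the defining characteristic: digit sums and invariant biadditive maps.
-/

set_option autoImplicit false
set_option linter.unusedSectionVars false

namespace Cfsg.Agent.H6.SM

open Subgroup Cfsg Cfsg.Agent.H14.Schur
open scoped commutatorElement

/-! ### digit sums -/

/-- the digit sum in base `p` -/
def ds (p n : ℕ) : ℕ := (Nat.digits p n).sum

theorem ds_rec {p : ℕ} (hp : 1 < p) (n : ℕ) : ds p n = n % p + ds p (n / p) := by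
  rcases Nat.eq_zero_or_pos n with rfl | hn
  · simp [ds]
  · unfold ds
    rw [Nat.digits_def' hp hn, List.sum_cons]

theorem ds_zero (p : ℕ) : ds p 0 = 0 := by simp [ds]

theorem ds_lt {p : ℕ} (hp : 1 < p) {n : ℕ} (hn : n < p) : ds p n = n := by
  rw [ds_rec hp, Nat.mod_eq_of_lt hn, Nat.div_eq_of_lt hn, ds_zero, add_zero]

theorem ds_add {p : ℕ} (hp : 1 < p) : ∀ N a b : ℕ, a + b ≤ N → ds p (a + b) ≤ ds p a + ds p b := by
  intro N
  induction N with
  | zero =>
    intro a b h
    have ha : a = 0 := by omega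
    have hb : b = 0 := by omega
    subst ha; subst hb; simp
  | succ N ih =>
    intro a b h
    rcases Nat.eq_zero_or_pos a with rfl | ha
    · rw [zero_add, ds_zero, zero_add]
    rcases Nat.eq_zero_or_pos b with rfl | hb
    · rw [add_zero, ds_zero, add_zero]
    obtain ⟨c, hc⟩ : ∃ c, c = (a % p + b % p) / p := ⟨_, rfl⟩
    have hp0 : 0 < p := by omega
    have ha1 := Nat.mod_lt a hp0
    have hb1 := Nat.mod_lt b hp0
    have e1 : (a + b) / p = a / p + (b / p + c) := by
      rw [Nat.add_div hp0]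
      have : (if p ≤ a % p + b % p then 1 else 0) = c := by
        rw [hc]
        split_ifs with h1
        · symm
          rw [Nat.div_eq_iff hp0]; omega
        · symm
          exact Nat.div_eq_of_lt (by omega)
      rw [this]; ring
    have e2 : (a + b) % p + p * c = a % p + b % p := by
      rw [Nat.add_mod, hc]
      exact Nat.mod_add_div _ _
    have hc1 : c < p := by
      rw [hc]
      exact lt_of_lt_of_le ((Nat.div_lt_iff_lt_mul hp0).2 (by nlinarith : a % p + b % p < 2 * p)) (by omega)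
    have hlt : (a + b) / p < a + b := Nat.div_lt_self (by omega) hp
    have h0 : a / p + (b / p + c) ≤ N := by omega
    have h1 : ds p (a / p + (b / p + c)) ≤ ds p (a / p) + ds p (b / p + c) := ih _ _ h0
    have h2 : ds p (b / p + c) ≤ ds p (b / p) + ds p c := ih _ _ (le_trans (Nat.le_add_left _ _) h0)
    rw [ds_lt hp hc1] at h2
    rw [ds_rec hp (a + b), e1, ds_rec hp a, ds_rec hp b]
    have h3 : c ≤ p * c := Nat.le_mul_of_pos_left _ hp0
    omega

theorem ds_add_le {p : ℕ} (hp : 1 < p) (a b : ℕ) : ds p (a + b) ≤ ds p a + ds p b := ds_add hp _ a b le_rfl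

theorem ds_append {p : ℕ} (hp : 1 < p) (n : ℕ) : ∀ A B : ℕ, B < p ^ n → ds p (A * p ^ n + B) = ds p A + ds p B := by
  have hp0 : 0 < p := by omega
  induction n with
  | zero =>
    intro A B h
    have : B = 0 := by simpa using h
    subst this; simp [ds_zero]
  | succ n ih =>
    intro A B h
    have e1 : (A * p ^ (n + 1) + B) % p = B % p := by
      rw [pow_succ, ← mul_assoc, Nat.add_mod, Nat.mul_mod_left, zero_add, Nat.mod_mod]
    have e2 : (A * p ^ (n + 1) + B) / p = A * p ^ n + B / p := by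
      rw [pow_succ, ← mul_assoc, add_comm, Nat.add_mul_div_right _ _ hp0, add_comm]
    rw [ds_rec hp (A * p ^ (n + 1) + B), e1, e2, ih A (B / p) (by
      rw [Nat.div_lt_iff_lt_mul hp0, ← pow_succ]; exact h), ds_rec hp B]
    omega

theorem ds_pow_mul {p : ℕ} (hp : 1 < p) (A n : ℕ) : ds p (A * p ^ n) = ds p A := by
  have := ds_append hp n A 0 (by positivity)
  rwa [add_zero, ds_zero, add_zero] at this

theorem ds_top {p : ℕ} (hp : 1 < p) (n : ℕ) : ds p (p ^ n - 1) = n * (p - 1) := by
  induction n with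
  | zero => simp [ds_zero]
  | succ n ih =>
    have h1 : 1 ≤ p ^ n := Nat.one_le_pow _ _ (by omega)
    have e : p ^ (n + 1) - 1 = (p - 1) * p ^ n + (p ^ n - 1) := by
      have h2 : p ^ (n + 1) = p * p ^ n := by ring
      have h3 : p * p ^ n = (p - 1) * p ^ n + p ^ n := by
        obtain ⟨k, rfl⟩ : ∃ k, p = k + 1 := ⟨p - 1, by omega⟩
        rw [Nat.add_sub_cancel]; ring
      omega
    rw [e, ds_append hp n _ _ (by omega), ih, ds_lt hp (by omega : p - 1 < p)]
    ring

theorem ds_ge {p : ℕ} (hp : 1 < p) {n : ℕ} (hn : n ≠ 0) : ∀ N : ℕ, 0 < N → (p ^ n - 1) ∣ N → n * (p - 1) ≤ ds p N := by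
  have h1 : 2 ≤ p ^ n := by
    calc 2 ≤ p := hp
      _ = p ^ 1 := (pow_one p).symm
      _ ≤ p ^ n := Nat.pow_le_pow_right (by omega) (by omega)
  intro N
  induction N using Nat.strong_induction_on with
  | _ N ih =>
    intro hN hd
    rcases Nat.lt_or_ge N (p ^ n) with h | h
    · have h2 := Nat.le_of_dvd hN hd
      have h3 : N = p ^ n - 1 := by omega
      rw [h3, ds_top hp]
    · have hpos : 0 < p ^ n := by omega
      have e := Nat.div_add_mod N (p ^ n)
      have hB := Nat.mod_lt N hpos
      have hA : 1 ≤ N / p ^ n := (Nat.one_le_div_iff hpos).2 h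
      obtain ⟨A, hA'⟩ : ∃ A, A = N / p ^ n := ⟨_, rfl⟩
      obtain ⟨B, hB'⟩ : ∃ B, B = N % p ^ n := ⟨_, rfl⟩
      rw [← hA', ← hB'] at e
      rw [← hA'] at hA
      rw [← hB'] at hB
      have e' : N = A * p ^ n + B := by rw [← e]; ring
      have e3 : A * (p ^ n - 1) + (A + B) = A * p ^ n + B := by
        obtain ⟨k, hk⟩ : ∃ k, p ^ n = k + 1 := ⟨p ^ n - 1, by omega⟩
        rw [hk, Nat.add_sub_cancel]; ring
      have h4 : (p ^ n - 1) ∣ A + B := by
        have : (p ^ n - 1) ∣ A * (p ^ n - 1) + (A + B) := by rw [e3, ← e']; exact hd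
        exact (Nat.dvd_add_right (Dvd.intro_left _ rfl)).1 this
      have h5 : A + B < N := by
        have : A * 2 ≤ A * p ^ n := Nat.mul_le_mul_left _ h1
        omega
      have h6 := ih (A + B) h5 (by omega) h4
      rw [e', ds_append hp n A B hB]
      exact h6.trans (ds_add_le hp A B)

/-- no Frobenius conjugate of `κ ^ a` is inverse to `κ ^ b` if the digit sums are small -/
theorem frob_ne {K : Type*} [Field K] {p n : ℕ} (hp : 1 < p) (hn : n ≠ 0) {κ : K} (hκ : orderOf κ = p ^ n - 1)
    {a b : ℕ} (ha : 0 < a) (h : ds p a + ds p b < n * (p - 1)) (k : ℕ) : (κ ^ a) ^ (p ^ k) * κ ^ b ≠ 1 := by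
  intro h1
  rw [← pow_mul, ← pow_add] at h1
  have h2 := orderOf_dvd_of_pow_eq_one h1
  rw [hκ] at h2
  have h3 := ds_ge hp hn _ (by positivity) h2
  have h4 := ds_add_le hp (a * p ^ k) b
  rw [ds_pow_mul hp] at h4
  omega

/-! ### invariant biadditive maps -/

theorem exists_frob {K : Type*} [Field K] [Finite K] (p : ℕ) [Fact p.Prime] [CharP K p] (τ : K →+* K) :
    ∃ k : ℕ, ∀ x, τ x = x ^ p ^ k := by
  let : Algebra (ZMod p) K := ZMod.algebra K p
  let f : K →ₐ[ZMod p] K := { τ with
    commutes' := fun x => by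
      have : (τ : K →+* K).comp (algebraMap (ZMod p) K) = algebraMap (ZMod p) K := Subsingleton.elim _ _
      exact congrArg (fun f : ZMod p →+* K => f x) this }
  obtain ⟨n, hn⟩ := (FiniteField.bijective_frobeniusAlgHom_pow (ZMod p) K).2 f
  refine ⟨n.1, fun x => ?_⟩
  have h1 : (FiniteField.frobeniusAlgHom (ZMod p) K ^ n.1) x = τ x := by
    have := DFunLike.congr_fun hn x
    exact this
  rw [← h1, AlgHom.coe_pow, FiniteField.coe_frobeniusAlgHom, pow_iterate, ZMod.card]

section bil

variable {K : Type*} [Field K] [Finite K] {p : ℕ} [Fact p.Prime] [CharP K p] {Γ : Type*} [Group Γ] (β : K → K → Γ)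
  (h1 : ∀ a a' b, β (a + a') b = β a b * β a' b) (h2 : ∀ a b b', β a (b + b') = β a b * β a b')

include h1 h2

/-- an invariant biadditive map is trivial unless the weights are conjugate -/
theorem kill {x y : K} (hy : y ≠ 0) (hinv : ∀ a b, β (x * a) (y * b) = β a b)
    (hxy : ∀ k : ℕ, x ^ p ^ k * y ≠ 1) (a b : K) : β a b = 1 := by
  by_contra hne
  have z2 : ∀ a, β a 0 = 1 := by
    intro a
    have := h2 a 0 0
    rw [add_zero] at this
    exact left_eq_mul.1 this
  have z1 : ∀ b, β 0 b = 1 := by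
    intro b
    have := h1 0 0 b
    rw [add_zero] at this
    exact left_eq_mul.1 this
  have n1 : ∀ a b, β (-a) b = (β a b)⁻¹ := by
    intro a b
    have := h1 (-a) a b
    rw [neg_add_cancel, z1] at this
    exact eq_inv_of_mul_eq_one_left this.symm
  have n2 : ∀ a b, β a (-b) = (β a b)⁻¹ := by
    intro a b
    have := h2 a (-b) b
    rw [neg_add_cancel, z2] at this
    exact eq_inv_of_mul_eq_one_left this.symm
  let S : Subring (K × K) :=
    { carrier := {c | ∀ a b, β (c.1 * a) b = β a (c.2 * b)}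
      mul_mem' := by
        intro c d hc hd a b
        have e1 : (c * d).1 * a = c.1 * (d.1 * a) := by rw [Prod.fst_mul]; ring
        have e2 : (c * d).2 * b = d.2 * (c.2 * b) := by rw [Prod.snd_mul]; ring
        rw [e1, e2, hc, hd]
      one_mem' := by intro a b; rw [Prod.fst_one, Prod.snd_one, one_mul, one_mul]
      add_mem' := by
        intro c d hc hd a b
        rw [Prod.fst_add, Prod.snd_add, add_mul, add_mul, h1, h2, hc, hd]
      zero_mem' := by intro a b; rw [Prod.fst_zero, Prod.snd_zero, zero_mul, zero_mul, z1, z2]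
      neg_mem' := by
        intro c hc a b
        rw [Prod.fst_neg, Prod.snd_neg, neg_mul, neg_mul, n1, n2, hc] }
  have hS : ∀ c, c ∈ S ↔ ∀ a b, β (c.1 * a) b = β a (c.2 * b) := fun c => Iff.rfl
  have hxS : ((x, y⁻¹) : K × K) ∈ S := by
    rw [hS]
    intro a b
    have := hinv a (y⁻¹ * b)
    rwa [mul_inv_cancel_left₀ hy] at this
  let : Algebra (ZMod p) K := ZMod.algebra K p
  have hpoly : ∀ P : Polynomial (ZMod p), ((Polynomial.aeval x P, Polynomial.aeval y⁻¹ P) : K × K) ∈ S := by
    intro P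
    induction P using Polynomial.induction_on' with
    | add P Q hP hQ =>
      rw [map_add, map_add]
      exact add_mem hP hQ
    | monomial n c =>
      rw [Polynomial.aeval_monomial, Polynomial.aeval_monomial]
      have hc : ((algebraMap (ZMod p) K c, algebraMap (ZMod p) K c) : K × K) ∈ S := by
        rw [← ZMod.natCast_zmod_val c, map_natCast]
        exact natCast_mem S c.val
      exact mul_mem hc (pow_mem hxS n)
  have h0 := (hS _).1 (hpoly (minpoly (ZMod p) x))
  have hint : IsIntegral (ZMod p) x := Algebra.IsIntegral.isIntegral x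
  simp only [minpoly.aeval, zero_mul, z1] at h0
  have hroot : Polynomial.aeval y⁻¹ (minpoly (ZMod p) x) = 0 := by
    by_contra hn0
    apply hne
    have := h0 a ((Polynomial.aeval y⁻¹ (minpoly (ZMod p) x))⁻¹ * b)
    rw [mul_inv_cancel_left₀ hn0] at this
    exact this.symm
  have hmin : minpoly (ZMod p) x = minpoly (ZMod p) y⁻¹ :=
    minpoly.eq_of_irreducible_of_monic (minpoly.irreducible hint) hroot (minpoly.monic hint)
  have hconj : IsConjRoot (ZMod p) x y⁻¹ := hmin
  have : Algebra.IsAlgebraic (ZMod p) K := inferInstance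
  have : IsGalois (ZMod p) K := inferInstance
  obtain ⟨τ, hτ⟩ := isConjRoot_iff_exists_algEquiv.1 hconj.symm
  obtain ⟨k, hk⟩ := exists_frob p (τ : K →+* K)
  apply hxy k
  rw [← hk]
  change τ x * y = 1
  rw [hτ, inv_mul_cancel₀ hy]

omit h1 h2 in
/-- an invariant additive map is trivial -/
theorem kill1 (f : K → Γ) (hf : ∀ a b, f (a + b) = f a * f b) {x : K} (hx : x ≠ 1) (hinv : ∀ a, f (x * a) = f a) (a : K) :
    f a = 1 := by
  have z : f 0 = 1 := by
    have := hf 0 0
    rw [add_zero] at this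
    exact left_eq_mul.1 this
  have n : ∀ a, f (-a) = (f a)⁻¹ := by
    intro a
    have := hf (-a) a
    rw [neg_add_cancel, z] at this
    exact eq_inv_of_mul_eq_one_left this.symm
  have hx' : x - 1 ≠ 0 := sub_ne_zero.2 hx
  have e : a = x * ((x - 1)⁻¹ * a) + -((x - 1)⁻¹ * a) := by
    field_simp
    ring
  rw [e, hf, n, hinv, mul_inv_cancel]

end bil

end Cfsg.Agent.H6.SM
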