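import Cfsg.Agent.H6_SM1

/-!
Central extensions of `p`-groups split in the presence of a torus with independent weights.
-/

set_option autoImplicit false
set_option linter.unusedSectionVars false

namespace Cfsg.Agent.H6.SM

open Subgroup Cfsg Cfsg.Agent.H14.Schur
open scoped commutatorElement

universe u v w

section bil

variable {K : Type w} [Field K] [Finite K] {p : ℕ} [Fact p.Prime] [CharP K p] {Γ : Type v} [Group Γ] (β : K → K → Γ)
  (h1 : ∀ a a' b, β (a + a') b = β a b * β a' b) (h2 : ∀ a b b', β a (b + b') = β a b * β a b')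

include h1 h2

/-- an invariant biadditive map is trivial unless the weights are simultaneously conjugate -/
theorem killF {ι : Type*} {x y : ι → K} (hx : ∀ s, x s ≠ 0) (hy : ∀ s, y s ≠ 0)
    (hinv : ∀ s a b, β (x s * a) (y s * b) = β a b)
    (hxy : ∀ k : ℕ, ∃ s, x s ^ p ^ k * y s ≠ 1) (a b : K) : β a b = 1 := by
  by_contra hne
  have z1 : ∀ b, β 0 b = 1 := by
    intro b
    have := h1 0 0 b
    rw [add_zero] at this
    exact left_eq_mul.1 this
  have n2 : ∀ a b, β a (-b) = (β a b)⁻¹ := by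
    intro a b
    have z2 : β a 0 = 1 := by
      have := h2 a 0 0
      rw [add_zero] at this
      exact left_eq_mul.1 this
    have := h2 a (-b) b
    rw [neg_add_cancel, z2] at this
    exact eq_inv_of_mul_eq_one_left this.symm
  let M : Subgroup (Kˣ × Kˣ) :=
    { carrier := {c | ∀ a b, β ((c.1 : K) * a) b = β a ((c.2 : K) * b)}
      mul_mem' := by
        intro c d hc hd a b
        have e1 : ((c * d).1 : K) * a = c.1 * (d.1 * a) := by rw [Prod.fst_mul, Units.val_mul]; ring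
        have e2 : ((c * d).2 : K) * b = d.2 * (c.2 * b) := by rw [Prod.snd_mul, Units.val_mul]; ring
        rw [e1, e2, hc, hd]
      one_mem' := by intro a b; rw [Prod.fst_one, Prod.snd_one, Units.val_one, one_mul, one_mul]
      inv_mem' := by
        intro c hc a b
        have := hc (((c⁻¹).1 : K) * a) (((c⁻¹).2 : K) * b)
        rw [Prod.fst_inv, Prod.snd_inv, Units.mul_inv_cancel_left, Units.mul_inv_cancel_left] at this
        rw [Prod.fst_inv, Prod.snd_inv]
        exact this.symm }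
  have hM : ∀ c, c ∈ M ↔ ∀ a b, β ((c.1 : K) * a) b = β a ((c.2 : K) * b) := fun c => Iff.rfl
  have hinj : Function.Injective ((MonoidHom.fst Kˣ Kˣ).comp M.subtype) := by
    rw [injective_iff_map_eq_one]
    rintro ⟨c, hc⟩ h
    have h' : c.1 = 1 := h
    rw [hM] at hc
    apply Subtype.ext
    refine Prod.ext h' ?_
    apply Units.ext
    by_contra h3
    have h4 : (c.2 : K) - 1 ≠ 0 := sub_ne_zero.2 h3
    apply hne
    have h5 := hc a (((c.2 : K) - 1)⁻¹ * b)
    rw [h', Units.val_one, one_mul] at h5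
    have e : (c.2 : K) * (((c.2 : K) - 1)⁻¹ * b) = b + ((c.2 : K) - 1)⁻¹ * b := by
      field_simp
      ring
    rw [e, h2] at h5
    exact (mul_eq_right.1 h5.symm)
  have hcyc : IsCyclic M := isCyclic_of_injective _ hinj
  obtain ⟨g, hg⟩ := hcyc.exists_generator
  obtain ⟨k, hk⟩ : ∃ k : ℕ, ((g : Kˣ × Kˣ).1 : K) ^ p ^ k * (((g : Kˣ × Kˣ).2 : K))⁻¹ = 1 := by
    by_contra hcon
    push Not at hcon
    apply hne
    refine kill β h1 h2 (x := (g : Kˣ × Kˣ).1) (y := (((g : Kˣ × Kˣ).2 : K))⁻¹) (inv_ne_zero (Units.ne_zero _)) ?_ hcon a b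
    intro a b
    have := (hM _).1 g.2 a ((((g : Kˣ × Kˣ).2 : K))⁻¹ * b)
    rw [mul_inv_cancel_left₀ (Units.ne_zero _)] at this
    exact this
  obtain ⟨s, hs⟩ := hxy k
  apply hs
  have hmem : ((Units.mk0 _ (hx s), (Units.mk0 _ (hy s))⁻¹) : Kˣ × Kˣ) ∈ M := by
    rw [hM]
    intro a b
    have := hinv s a ((y s)⁻¹ * b)
    rw [mul_inv_cancel_left₀ (hy s)] at this
    rw [Units.val_inv_eq_inv_val]
    exact this
  obtain ⟨i, hi⟩ := hg ⟨_, hmem⟩
  have hi' : (g : Kˣ × Kˣ) ^ i = (Units.mk0 _ (hx s), (Units.mk0 _ (hy s))⁻¹) := congrArg Subtype.val hi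
  have e1 : (g : Kˣ × Kˣ).1 ^ i = Units.mk0 _ (hx s) := congrArg Prod.fst hi'
  have e2 : (g : Kˣ × Kˣ).2 ^ i = (Units.mk0 _ (hy s))⁻¹ := congrArg Prod.snd hi'
  have hk' : (g : Kˣ × Kˣ).1 ^ p ^ k = (g : Kˣ × Kˣ).2 := by
    apply Units.ext
    rw [Units.val_pow_eq_pow_val]
    exact (mul_inv_eq_one₀ (Units.ne_zero _)).1 hk
  have e3 : Units.mk0 _ (hx s) ^ p ^ k = (Units.mk0 _ (hy s))⁻¹ := by
    rw [← e1, ← e2, ← hk', ← zpow_natCast, ← zpow_natCast, ← zpow_mul, ← zpow_mul, mul_comm]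
  have e4 : Units.mk0 _ (hx s) ^ p ^ k * Units.mk0 _ (hy s) = 1 := by rw [e3, inv_mul_cancel]
  have := congrArg Units.val e4
  simpa using this

end bil

section ext

variable {Γ : Type v} {G : Type u} [Group Γ] [Group G] {σ : Γ →* G}

theorem comm_iff {x y : Γ} : ⁅x, y⁆ = 1 ↔ x * y = y * x := commutatorElement_eq_one_iff_mul_comm

theorem lift_comm (hc : σ.ker ≤ center Γ) {x y x' y' : Γ} (hx : σ x = σ x') (hy : σ y = σ y') : ⁅x, y⁆ = ⁅x', y'⁆ := by
  obtain ⟨z, hz, -, rfl⟩ := eq_mul_ker hc hx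
  obtain ⟨w, hw, -, rfl⟩ := eq_mul_ker hc hy
  rw [H14.Schur.comm_mul_left hz, H14.Schur.comm_mul_right hw]

theorem comm_mul_l {x x' y : Γ} (h : ⁅x', y⁆ ∈ center Γ) : ⁅x * x', y⁆ = ⁅x, y⁆ * ⁅x', y⁆ := by
  have e : ⁅x * x', y⁆ = x * ⁅x', y⁆ * x⁻¹ * ⁅x, y⁆ := by simp only [commutatorElement_def]; group
  rw [e, mem_center_iff.1 h x, mul_inv_cancel_right, mem_center_iff.1 h]

theorem comm_mul_r {x y y' : Γ} (h : ⁅x, y'⁆ ∈ center Γ) : ⁅x, y * y'⁆ = ⁅x, y⁆ * ⁅x, y'⁆ := by
  have e : ⁅x, y * y'⁆ = ⁅x, y⁆ * (y * ⁅x, y'⁆ * y⁻¹) := by simp only [commutatorElement_def]; group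
  rw [e, mem_center_iff.1 h y, mul_inv_cancel_right]

end ext

variable {K : Type w} [Field K] [Finite K] {p : ℕ} [Fact p.Prime] [CharP K p]

include K in
/-- splitting of a central extension of a group with a series with independent weights -/
theorem split_series {ι : Type*} (n : ℕ) : ∀ (B : Type u) (Γ : Type v) [Group B] [Group Γ] [Finite Γ] (σ : Γ →* B)
    (_ : Function.Surjective σ) (_ : σ.ker ≤ center Γ) (V : ℕ → Subgroup B) (x : ℕ → K → B) (t : ι → B) (χ : ℕ → ι → K)
    (_ : V 0 = ⊥) (_ : ∀ i < n, ∀ g, g ∈ V (i + 1) ↔ ∃ a, ∃ v ∈ V i, g = x i a * v)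
    (_ : ∀ i ≤ n, (V i).Normal) (_ : ∀ g : B, ∃ u ∈ V n, ∃ s, g = u * t s) (_ : ∀ s s', t s * t s' = t s' * t s)
    (_ : ∀ i < n, ∀ a b, ∃ v ∈ V i, x i (a + b) = x i a * x i b * v)
    (_ : ∀ i < n, ∀ a, ∀ u ∈ V n, ∃ v ∈ V i, x i a * u = u * x i a * v)
    (_ : ∀ i < n, ∀ s a, ∃ v ∈ V i, t s * x i a * (t s)⁻¹ = x i (χ i s * a) * v)
    (_ : ∀ i < n, ∀ a, x i a ∈ V i → a = 0) (_ : ∀ i s, χ i s ≠ 0) (_ : ∀ i < n, ∃ s, χ i s ≠ 1)
    (_ : ∀ i j, i ≤ j → j < n → (∀ k : ℕ, ∃ s, χ i s ^ p ^ k * χ j s ≠ 1) ∨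
      (∀ a b g h, σ g = x i a → σ h = x j b → g * h = h * g)),
    ∃ N : Subgroup Γ, V n ≤ N.map σ ∧ ∀ g ∈ N, σ g = 1 → g = 1 := by
  induction n with
  | zero =>
    intro B Γ _ _ _ σ hs hc V x t χ hV0 _ _ _ _ _ _ _ _ _ _ _
    refine ⟨⊥, ?_, ?_⟩
    · rw [hV0]; exact bot_le
    · intro g hg _; exact (Subgroup.mem_bot).1 hg
  | succ n ih =>
    intro B Γ _ _ _ σ hs hc V x t χ hV0 hV nrm gen tt add com act inj χ0 χ1 wt
    have hV1 : ∀ g, g ∈ V 1 ↔ ∃ a, g = x 0 a := by
      intro g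
      rw [hV 0 (by omega)]
      constructor
      · rintro ⟨a, v, hv, rfl⟩
        rw [hV0, Subgroup.mem_bot] at hv
        exact ⟨a, by rw [hv, mul_one]⟩
      · rintro ⟨a, rfl⟩
        exact ⟨a, 1, one_mem _, (mul_one _).symm⟩
    have add0 : ∀ a b, x 0 (a + b) = x 0 a * x 0 b := by
      intro a b
      obtain ⟨v, hv, h⟩ := add 0 (by omega) a b
      rw [hV0, Subgroup.mem_bot] at hv
      rw [h, hv, mul_one]
    have x00 : x 0 0 = 1 := by
      have := add0 0 0
      rw [add_zero] at this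
      exact left_eq_mul.1 this
    have com0 : ∀ a, ∀ u ∈ V (n + 1), x 0 a * u = u * x 0 a := by
      intro a u hu
      obtain ⟨v, hv, h⟩ := com 0 (by omega) a u hu
      rw [hV0, Subgroup.mem_bot] at hv
      rw [h, hv, mul_one]
    have act0 : ∀ s a, t s * x 0 a * (t s)⁻¹ = x 0 (χ 0 s * a) := by
      intro s a
      obtain ⟨v, hv, h⟩ := act 0 (by omega) s a
      rw [hV0, Subgroup.mem_bot] at hv
      rw [h, hv, mul_one]
    have hmono : ∀ j, j ≤ n → V j ≤ V (j + 1) := by
      intro j hj g hg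
      have h0 : x j 0 ∈ V j := by
        obtain ⟨v, hv, h⟩ := add j (by omega) 0 0
        rw [add_zero] at h
        have : x j 0 = v⁻¹ := by
          have h' : x j 0 * (x j 0 * v) = x j 0 * 1 := by rw [mul_one, ← mul_assoc]; exact h.symm
          exact eq_inv_of_mul_eq_one_left (mul_left_cancel h')
        rw [this]; exact inv_mem hv
      rw [hV j (by omega)]
      exact ⟨0, (x j 0)⁻¹ * g, mul_mem (inv_mem h0) hg, by rw [mul_inv_cancel_left]⟩
    have hmono' : ∀ j, j ≤ n + 1 → V j ≤ V (n + 1) := by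
      intro j hj
      obtain ⟨d, hd⟩ : ∃ d, n + 1 = j + d := ⟨n + 1 - j, by omega⟩
      rw [hd]
      clear hj
      have : ∀ d, j + d ≤ n + 1 → V j ≤ V (j + d) := by
        intro d
        induction d with
        | zero => intro _; exact le_rfl
        | succ d ihd => intro h; exact (ihd (by omega)).trans (hmono _ (by omega))
      exact this d (by omega)
    have xmem : ∀ j, j < n + 1 → ∀ a, x j a ∈ V (j + 1) := by
      intro j hj a
      rw [hV j hj]
      exact ⟨a, 1, one_mem _, (mul_one _).symm⟩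
    have hVn : V 1 ≤ V (n + 1) := hmono' 1 (by omega)
    have hN1 : (V 1).Normal := nrm 1 (by omega)
    -- the preimage of `V 1` centralises the preimage of `V (n + 1)`
    have key : ∀ j, j ≤ n + 1 → ∀ g h, σ g ∈ V 1 → σ h ∈ V j → g * h = h * g := by
      intro j
      induction j with
      | zero =>
        intro _ g h _ hh
        rw [hV0, Subgroup.mem_bot] at hh
        exact mem_center_iff.1 (hc hh) g
      | succ j ihj =>
        intro hj
        have ihj' := ihj (by omega)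
        -- the commutator map
        have main : ∀ a b g h, σ g = x 0 a → σ h = x j b → g * h = h * g := by
          rcases wt 0 j (by omega) (by omega) with hw | hw
          · intro a b g h hg hh
            let l : B → Γ := Function.surjInv hs
            have hl : ∀ y, σ (l y) = y := Function.surjInv_eq hs
            let β : K → K → Γ := fun a b => ⁅l (x 0 a), l (x j b)⁆
            have hcen : ∀ a b, ⁅l (x 0 a), l (x j b)⁆ ∈ center Γ := by
              intro a b
              apply hc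
              rw [MonoidHom.mem_ker, map_commutatorElement, hl, hl, comm_iff]
              exact com0 a _ (hmono' (j + 1) hj (xmem j (by omega) b))
            have hβ : ∀ a b, β a b = ⁅l (x 0 a), l (x j b)⁆ := fun _ _ => rfl
            have key1 : ∀ a b y z, σ y = x 0 a → (∃ v ∈ V j, σ z = x j b * v) → ⁅y, z⁆ = β a b := by
              rintro a b y z hy ⟨v, hv, hz⟩
              have e1 : ⁅y, z⁆ = ⁅l (x 0 a), l (x j b) * l v⁆ :=
                lift_comm hc (by rw [hy, hl]) (by rw [hz, map_mul, hl, hl])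
              have e2 : ⁅l (x 0 a), l v⁆ = 1 := by
                rw [comm_iff]
                exact ihj' _ _ (by rw [hl, hV1]; exact ⟨a, rfl⟩) (by rw [hl]; exact hv)
              rw [e1, comm_mul_r (by rw [e2]; exact one_mem _), e2, mul_one, hβ]
            have b1 : ∀ a a' b, β (a + a') b = β a b * β a' b := by
              intro a a' b
              rw [← key1 (a + a') b (l (x 0 a) * l (x 0 a')) (l (x j b)) (by rw [map_mul, hl, hl, add0])
                ⟨1, one_mem _, by rw [hl, mul_one]⟩, comm_mul_l (hcen a' b)]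
            have b2 : ∀ a b b', β a (b + b') = β a b * β a b' := by
              intro a b b'
              obtain ⟨v, hv, h⟩ := add j (by omega) b b'
              rw [← key1 a (b + b') (l (x 0 a)) (l (x j b) * l (x j b')) (hl _)
                ⟨v⁻¹, inv_mem hv, by rw [map_mul, hl, hl, h, mul_inv_cancel_right]⟩, comm_mul_r (hcen a b')]
            have b3 : ∀ s a b, β (χ 0 s * a) (χ j s * b) = β a b := by
              intro s a b
              obtain ⟨v, hv, h⟩ := act j (by omega) s b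
              rw [← key1 (χ 0 s * a) (χ j s * b) (l (t s) * l (x 0 a) * (l (t s))⁻¹) (l (t s) * l (x j b) * (l (t s))⁻¹)
                (by rw [map_mul, map_mul, map_inv, hl, hl, act0]) ⟨v, hv, by rw [map_mul, map_mul, map_inv, hl, hl, h]⟩]
              have e : ⁅l (t s) * l (x 0 a) * (l (t s))⁻¹, l (t s) * l (x j b) * (l (t s))⁻¹⁆ =
                  l (t s) * ⁅l (x 0 a), l (x j b)⁆ * (l (t s))⁻¹ := by
                simp only [commutatorElement_def]; group
              rw [e, mem_center_iff.1 (hcen a b), mul_inv_cancel_right]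
            have := killF (p := p) β b1 b2 (fun s => χ0 0 s) (fun s => χ0 j s) b3 hw a b
            rw [← comm_iff, key1 a b g h hg ⟨1, one_mem _, by rw [hh, mul_one]⟩]
            exact this
          · exact hw
        intro g h hg hh
        obtain ⟨a, ha⟩ := (hV1 _).1 hg
        obtain ⟨b, v, hv, hb⟩ := (hV j (by omega) _).1 hh
        obtain ⟨h1, hh1⟩ := hs (x j b)
        have e1 : g * h1 = h1 * g := main a b g h1 ha hh1
        have e2 : g * (h1⁻¹ * h) = (h1⁻¹ * h) * g := ihj' g _ hg (by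
          rw [map_mul, map_inv, hh1, hb, inv_mul_cancel_left]; exact hv)
        calc g * h = (g * h1) * (h1⁻¹ * h) := by group
          _ = h1 * (g * (h1⁻¹ * h)) := by rw [e1]; group
          _ = h * g := by rw [e2]; group
    have keyn : ∀ g h, σ g ∈ V 1 → σ h ∈ V (n + 1) → g * h = h * g := key (n + 1) le_rfl
    obtain ⟨s0, hs0⟩ := χ1 0 (by omega)
    have hs0' : χ 0 s0 - 1 ≠ 0 := sub_ne_zero.2 hs0
    obtain ⟨τ, hτ⟩ := hs (t s0)
    have δmul : ∀ v v', σ v ∈ V 1 → σ v' ∈ V 1 → ⁅τ, v * v'⁆ = ⁅τ, v⁆ * ⁅τ, v'⁆ := by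
      intro v v' hv hv'
      have h1 : σ ⁅τ, v'⁆ ∈ V 1 := by
        rw [map_commutatorElement, commutatorElement_def]
        exact mul_mem (hN1.conj_mem _ hv' _) (inv_mem hv')
      have h2 := keyn v ⁅τ, v'⁆ hv (hVn h1)
      have e : ⁅τ, v * v'⁆ = ⁅τ, v⁆ * (v * ⁅τ, v'⁆ * v⁻¹) := by simp only [commutatorElement_def]; group
      rw [e, h2, mul_inv_cancel_right]
    let W : Subgroup Γ :=
      { carrier := {w | ∃ v, σ v ∈ V 1 ∧ w = ⁅τ, v⁆}
        mul_mem' := by
          rintro _ _ ⟨v, hv, rfl⟩ ⟨v', hv', rfl⟩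
          exact ⟨v * v', by rw [map_mul]; exact mul_mem hv hv', (δmul v v' hv hv').symm⟩
        one_mem' := ⟨1, by rw [map_one]; exact one_mem _, (commutatorElement_one_right τ).symm⟩
        inv_mem' := by
          rintro _ ⟨v, hv, rfl⟩
          refine ⟨v⁻¹, by rw [map_inv]; exact inv_mem hv, ?_⟩
          have := δmul v⁻¹ v (by rw [map_inv]; exact inv_mem hv) hv
          rw [inv_mul_cancel, commutatorElement_one_right] at this
          exact (eq_inv_of_mul_eq_one_left this.symm).symm }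
    have hW : ∀ w, w ∈ W ↔ ∃ v, σ v ∈ V 1 ∧ w = ⁅τ, v⁆ := fun w => Iff.rfl
    have σδ : ∀ v a, σ v = x 0 a → σ ⁅τ, v⁆ = x 0 ((χ 0 s0 - 1) * a) := by
      intro v a hv
      have hneg : x 0 (-a) = (x 0 a)⁻¹ := by
        have := add0 (-a) a
        rw [neg_add_cancel, x00] at this
        exact eq_inv_of_mul_eq_one_left this.symm
      rw [map_commutatorElement, commutatorElement_def, hτ, hv, act0, ← hneg, ← add0]
      congr 1
      ring
    have hWV : ∀ w ∈ W, σ w ∈ V 1 := by
      rintro w hw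
      obtain ⟨v, hv, rfl⟩ := (hW w).1 hw
      obtain ⟨a, ha⟩ := (hV1 _).1 hv
      rw [σδ v a ha, hV1]
      exact ⟨_, rfl⟩
    have hWZ : ∀ w ∈ W, σ w = 1 → w = 1 := by
      intro w hw h
      obtain ⟨v, hv, rfl⟩ := (hW w).1 hw
      obtain ⟨a, ha⟩ := (hV1 _).1 hv
      rw [σδ v a ha] at h
      have h1 := inj 0 (by omega) _ (by rw [h]; exact one_mem _)
      have h2 : a = 0 := (mul_eq_zero.1 h1).resolve_left hs0'
      rw [h2, x00] at ha
      have h3 := mem_center_iff.1 (hc ha) τ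
      rw [comm_iff, h3]
    have hWV' : ∀ g ∈ V 1, ∃ w ∈ W, σ w = g := by
      intro g hg
      obtain ⟨a, rfl⟩ := (hV1 _).1 hg
      obtain ⟨v, hv⟩ := hs (x 0 ((χ 0 s0 - 1)⁻¹ * a))
      refine ⟨⁅τ, v⁆, ⟨v, by rw [hv, hV1]; exact ⟨_, rfl⟩, rfl⟩, ?_⟩
      rw [σδ v _ hv, mul_inv_cancel_left₀ hs0']
    have hWn : W.Normal := by
      constructor
      intro w hw g
      obtain ⟨v, hv, rfl⟩ := (hW w).1 hw
      obtain ⟨u, hu, s, hg⟩ := gen (σ g)
      obtain ⟨u', hu'⟩ := hs u
      have hgu : σ (u'⁻¹ * g) = t s := by rw [map_mul, map_inv, hu', hg, inv_mul_cancel_left]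
      set r := u'⁻¹ * g with hr
      have e1 : r * ⁅τ, v⁆ * r⁻¹ = ⁅τ, r * v * r⁻¹⁆ := by
        have e2 : r * ⁅τ, v⁆ * r⁻¹ = ⁅r * τ * r⁻¹, r * v * r⁻¹⁆ := by simp only [commutatorElement_def]; group
        rw [e2]
        apply lift_comm hc _ rfl
        rw [map_mul, map_mul, map_inv, hgu, hτ, tt, mul_inv_cancel_right]
      have h3 : ⁅τ, r * v * r⁻¹⁆ ∈ W := ⟨_, by
        rw [map_mul, map_mul, map_inv]; exact hN1.conj_mem _ hv _, rfl⟩
      have h4 := keyn _ u' (hWV _ h3) (by rw [hu']; exact hu)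
      have e5 : g * ⁅τ, v⁆ * g⁻¹ = u' * ⁅τ, r * v * r⁻¹⁆ * u'⁻¹ := by
        rw [← e1, hr]; group
      rw [e5, ← h4, mul_inv_cancel_right]
      exact h3
    -- the quotient
    have hle : W ≤ (V 1).comap σ := fun w hw => hWV w hw
    let σ' : Γ ⧸ W →* B ⧸ V 1 := QuotientGroup.map W (V 1) σ hle
    have hσ' : ∀ g : Γ, σ' (QuotientGroup.mk' W g) = QuotientGroup.mk' (V 1) (σ g) := fun g => rfl
    have hs' : Function.Surjective σ' := by
      intro y
      obtain ⟨y, rfl⟩ := QuotientGroup.mk'_surjective _ y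
      obtain ⟨g, rfl⟩ := hs y
      exact ⟨QuotientGroup.mk' W g, rfl⟩
    have hZW : ∀ g, σ g ∈ V 1 → ∃ w ∈ W, ∃ z ∈ center Γ, g = w * z := by
      intro g hg
      obtain ⟨w, hw, hwg⟩ := hWV' _ hg
      obtain ⟨z, hz, -, rfl⟩ := eq_mul_ker hc hwg.symm
      exact ⟨w, hw, z, hz, rfl⟩
    have mk1 : ∀ g ∈ V 1, QuotientGroup.mk' (V 1) g = 1 := fun g hg => (QuotientGroup.eq_one_iff g).2 hg
    have mkW : ∀ g ∈ W, QuotientGroup.mk' W g = 1 := fun g hg => (QuotientGroup.eq_one_iff g).2 hg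
    have hc' : σ'.ker ≤ center (Γ ⧸ W) := by
      intro y hy
      obtain ⟨y, rfl⟩ := QuotientGroup.mk'_surjective _ y
      have h1 : σ y ∈ V 1 := (QuotientGroup.eq_one_iff _).1 hy
      obtain ⟨w, hw, z, hz, rfl⟩ := hZW y h1
      rw [map_mul, mkW w hw, one_mul, mem_center_iff]
      intro g
      obtain ⟨g, rfl⟩ := QuotientGroup.mk'_surjective _ g
      rw [← map_mul, ← map_mul, mem_center_iff.1 hz]
    let q := QuotientGroup.mk' (V 1)
    have hq : Function.Surjective q := QuotientGroup.mk'_surjective _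
    have V1j : ∀ j, j ≤ n → V 1 ≤ V (j + 1) := by
      intro j hj
      induction j with
      | zero => exact le_rfl
      | succ j ihj => exact (ihj (by omega)).trans (hmono _ (by omega))
    have qmem : ∀ j, j ≤ n → ∀ g, q g ∈ (V (j + 1)).map q → g ∈ V (j + 1) := by
      rintro j hj g ⟨y, hy, hyg⟩
      have h1 : y⁻¹ * g ∈ V 1 := QuotientGroup.eq.1 hyg
      have : g = y * (y⁻¹ * g) := by group
      rw [this]; exact mul_mem hy (V1j j hj h1)
    obtain ⟨N', hN', hN1'⟩ := ih (B ⧸ V 1) (Γ ⧸ W) σ' hs' hc' (fun i => (V (i + 1)).map q) (fun i a => q (x (i + 1) a))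
      (fun s => q (t s)) (fun i => χ (i + 1))
      (by
        rw [eq_bot_iff]
        rintro _ ⟨y, hy, rfl⟩
        rw [Subgroup.mem_bot]; exact mk1 y hy)
      (by
        intro i hi g
        obtain ⟨g, rfl⟩ := hq g
        constructor
        · intro hg
          obtain ⟨a, v, hv, h⟩ := (hV (i + 1) (by omega) _).1 (qmem (i + 1) (by omega) _ hg)
          exact ⟨a, q v, ⟨v, hv, rfl⟩, by rw [h, map_mul]⟩
        · rintro ⟨a, _, ⟨v, hv, rfl⟩, h⟩
          exact ⟨x (i + 1) a * v, (hV (i + 1) (by omega) _).2 ⟨a, v, hv, rfl⟩, by rw [h, map_mul]⟩)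
      (by
        intro i hi
        have := nrm (i + 1) (by omega)
        exact this.map q hq)
      (by
        intro g
        obtain ⟨g, rfl⟩ := hq g
        obtain ⟨u, hu, s, h⟩ := gen g
        exact ⟨q u, ⟨u, hu, rfl⟩, s, by rw [h, map_mul]⟩)
      (by intro s s'; rw [← map_mul, ← map_mul, tt])
      (by
        intro i hi a b
        obtain ⟨v, hv, h⟩ := add (i + 1) (by omega) a b
        exact ⟨q v, ⟨v, hv, rfl⟩, by rw [← map_mul, ← map_mul, h]⟩)
      (by
        rintro i hi a _ ⟨u, hu, rfl⟩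
        obtain ⟨v, hv, h⟩ := com (i + 1) (by omega) a u hu
        exact ⟨q v, ⟨v, hv, rfl⟩, by rw [← map_mul, ← map_mul, ← map_mul, h]⟩)
      (by
        intro i hi s a
        obtain ⟨v, hv, h⟩ := act (i + 1) (by omega) s a
        exact ⟨q v, ⟨v, hv, rfl⟩, by rw [← map_inv, ← map_mul, ← map_mul, ← map_mul, h]⟩)
      (by
        intro i hi a ha
        exact inj (i + 1) (by omega) a (qmem i (by omega) _ ha))
      (fun i s => χ0 (i + 1) s) (fun i hi => χ1 (i + 1) (by omega))
      (by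
        intro i j hij hj
        rcases wt (i + 1) (j + 1) (by omega) (by omega) with h | h
        · exact Or.inl h
        · refine Or.inr fun a b g' h' hg hh => ?_
          obtain ⟨g, rfl⟩ := QuotientGroup.mk'_surjective _ g'
          obtain ⟨h', rfl⟩ := QuotientGroup.mk'_surjective _ h'
          obtain ⟨g1, hg1⟩ := hs (x (i + 1) a)
          obtain ⟨h1, hh1⟩ := hs (x (j + 1) b)
          have e0 := h a b g1 h1 hg1 hh1
          have red : ∀ (k : Γ) (k1 : Γ), q (σ k) = q (σ k1) → ∃ z ∈ center Γ, QuotientGroup.mk' W k = QuotientGroup.mk' W (k1 * z) := by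
            intro k k1 hk
            have h2 : σ (k1⁻¹ * k) ∈ V 1 := by
              rw [map_mul, map_inv]
              exact QuotientGroup.eq.1 hk.symm
            obtain ⟨w, hw, z, hz, e⟩ := hZW _ h2
            refine ⟨z, hz, ?_⟩
            have e3 : k = k1 * w * z := by
              rw [mul_assoc, ← e]; group
            rw [e3, map_mul, map_mul, mkW w hw, mul_one, ← map_mul]
          obtain ⟨z, hz, ez⟩ := red g g1 (by rw [hg1]; exact hg)
          obtain ⟨y, hy, ey⟩ := red h' h1 (by rw [hh1]; exact hh)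
          rw [ez, ey, ← map_mul, ← map_mul]
          congr 1
          have c1 := mem_center_iff.1 hz
          have c2 := mem_center_iff.1 hy
          calc g1 * z * (h1 * y) = g1 * (h1 * z) * y := by rw [c1 h1]; group
            _ = (g1 * h1) * (z * y) := by group
            _ = h1 * (g1 * y) * z := by rw [e0, ← c1 y]; group
            _ = h1 * y * (g1 * z) := by rw [c2 g1]; group)
    refine ⟨N'.comap (QuotientGroup.mk' W), ?_, ?_⟩
    · intro g hg
      have h1 : q g ∈ (V (n + 1)).map q := ⟨g, hg, rfl⟩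
      obtain ⟨k, hk, hkg⟩ := hN' h1
      obtain ⟨k, rfl⟩ := QuotientGroup.mk'_surjective _ k
      have h2 : (σ k)⁻¹ * g ∈ V 1 := QuotientGroup.eq.1 hkg
      obtain ⟨w, hw, hwg⟩ := hWV' _ h2
      refine ⟨k * w, ?_, by rw [map_mul, hwg, mul_inv_cancel_left]⟩
      change QuotientGroup.mk' W (k * w) ∈ N'
      rw [map_mul, mkW w hw, mul_one]
      exact hk
    · intro g hg h
      have h1 : QuotientGroup.mk' W g = 1 := hN1' _ hg (by rw [hσ', h, map_one])
      exact hWZ g ((QuotientGroup.eq_one_iff _).1 h1) h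

end Cfsg.Agent.H6.SM
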