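import Cfsg.Agent.H6_SM2

/-!
Central extensions of `p`-groups split in the presence of a torus: version for subgroups of a stem extension.
-/

set_option autoImplicit false
set_option linter.unusedSectionVars false

namespace Cfsg.Agent.H6.SM

open Subgroup Cfsg Cfsg.Agent.H14.Schur
open scoped commutatorElement

universe u v w

variable {K : Type w} [Field K] [Finite K] {p : ℕ} [Fact p.Prime] [CharP K p]

include K in
/-- splitting over a subgroup normalised by a torus, inside a central extension -/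
theorem split_sub {ι : Type*} {G : Type u} {Γ : Type v} [Group G] [Group Γ] [Finite Γ] (σ : Γ →* G)
    (hs : Function.Surjective σ) (hc : σ.ker ≤ center Γ) (n : ℕ) (B : Subgroup G) (V : ℕ → Subgroup G) (x : ℕ → K → G)
    (t : ι → G) (χ : ℕ → ι → K) (hVB : V n ≤ B) (htB : ∀ s, t s ∈ B)
    (hV0 : V 0 = ⊥) (hV : ∀ i < n, ∀ g, g ∈ V (i + 1) ↔ ∃ a, ∃ v ∈ V i, g = x i a * v)
    (nrm : ∀ i ≤ n, ∀ b ∈ B, ∀ v ∈ V i, b * v * b⁻¹ ∈ V i) (gen : ∀ g ∈ B, ∃ u ∈ V n, ∃ s, g = u * t s)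
    (tt : ∀ s s', t s * t s' = t s' * t s)
    (add : ∀ i < n, ∀ a b, ∃ v ∈ V i, x i (a + b) = x i a * x i b * v)
    (com : ∀ i < n, ∀ a, ∀ u ∈ V n, ∃ v ∈ V i, x i a * u = u * x i a * v)
    (act : ∀ i < n, ∀ s a, ∃ v ∈ V i, t s * x i a * (t s)⁻¹ = x i (χ i s * a) * v)
    (inj : ∀ i < n, ∀ a, x i a ∈ V i → a = 0) (χ0 : ∀ i s, χ i s ≠ 0) (χ1 : ∀ i < n, ∃ s, χ i s ≠ 1)
    (wt : ∀ i j, i ≤ j → j < n → (∀ k : ℕ, ∃ s, χ i s ^ p ^ k * χ j s ≠ 1) ∨
      (∀ a b g h, σ g = x i a → σ h = x j b → g * h = h * g)) :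
    ∃ N : Subgroup Γ, V n ≤ N.map σ ∧ ∀ g ∈ N, σ g = 1 → g = 1 := by
  classical
  have xV : ∀ i < n, ∀ a, x i a ∈ V (i + 1) := by
    intro i hi a
    rw [hV i hi]
    exact ⟨a, 1, one_mem _, (mul_one _).symm⟩
  have hmono : ∀ j, j < n → V j ≤ V (j + 1) := by
    intro j hj g hg
    have h0 : x j 0 ∈ V j := by
      obtain ⟨v, hv, h⟩ := add j (by omega) 0 0
      rw [add_zero] at h
      have : x j 0 = v⁻¹ := by
        have h' : x j 0 * (x j 0 * v) = x j 0 * 1 := by rw [mul_one, ← mul_assoc]; exact h.symm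
        exact eq_inv_of_mul_eq_one_left (mul_left_cancel h')
      rw [this]; exact inv_mem hv
    rw [hV j (by omega)]
    exact ⟨0, (x j 0)⁻¹ * g, mul_mem (inv_mem h0) hg, by rw [mul_inv_cancel_left]⟩
  have hVn : ∀ i, i ≤ n → V i ≤ V n := by
    intro i hi
    obtain ⟨d, hd⟩ : ∃ d, n = i + d := ⟨n - i, by omega⟩
    have : ∀ d, i + d ≤ n → V i ≤ V (i + d) := by
      intro d
      induction d with
      | zero => intro _; exact le_rfl
      | succ d ihd => intro h; exact (ihd (by omega)).trans (hmono _ (by omega))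
    have h1 := this d (by omega)
    rwa [← hd] at h1
  have xB : ∀ i < n, ∀ a, x i a ∈ B := fun i hi a => hVB (hVn (i + 1) (by omega) (xV i hi a))
  let σB : (B.comap σ) →* B := σ.subgroupComap B
  have hσB : ∀ g : B.comap σ, ((σB g : B) : G) = σ g := fun g => rfl
  have hsB : Function.Surjective σB := MonoidHom.subgroupComap_surjective_of_surjective σ B hs
  have hcB : σB.ker ≤ center (B.comap σ) := by
    intro g hg
    rw [mem_center_iff]
    intro h
    have h1 : σ (g : Γ) = 1 := congrArg Subtype.val hg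
    exact Subtype.ext (mem_center_iff.1 (hc h1) h)
  let x' : ℕ → K → B := fun i a => if h : i < n then ⟨x i a, xB i h a⟩ else 1
  have hx' : ∀ i < n, ∀ a, ((x' i a : B) : G) = x i a := by
    intro i hi a
    change ((if h : i < n then (⟨x i a, xB i h a⟩ : B) else 1 : B) : G) = x i a
    rw [dif_pos hi]
  have hmem : ∀ (i : ℕ) (g : B), g ∈ (V i).subgroupOf B ↔ (g : G) ∈ V i := fun i g => Subgroup.mem_subgroupOf
  have hVnB : ∀ i ≤ n, ∀ v ∈ V i, v ∈ B := fun i hi v hv => hVB (hVn i hi hv)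
  obtain ⟨N, hN, hN1⟩ := split_series (p := p) n B (B.comap σ) σB hsB hcB (fun i => (V i).subgroupOf B) x'
    (fun s => ⟨t s, htB s⟩) χ
    (by
      rw [eq_bot_iff]
      intro g hg
      have h1 : (g : G) ∈ V 0 := hg
      rw [hV0, Subgroup.mem_bot] at h1
      rw [Subgroup.mem_bot]
      exact Subtype.ext h1)
    (by
      intro i hi g
      constructor
      · intro hg
        obtain ⟨a, v, hv, h⟩ := (hV i hi _).1 ((hmem _ _).1 hg)
        exact ⟨a, ⟨v, hVnB i (by omega) v hv⟩, hv, Subtype.ext (by rw [Subgroup.coe_mul, hx' i hi, h])⟩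
      · rintro ⟨a, v, hv, rfl⟩
        refine (hV i hi _).2 ⟨a, v, hv, ?_⟩
        rw [← hx' i hi]; rfl)
    (by
      intro i hi
      constructor
      intro v hv b
      exact nrm i hi b b.2 v hv)
    (by
      intro g
      obtain ⟨u, hu, s, h⟩ := gen g g.2
      exact ⟨⟨u, hVB hu⟩, hu, s, Subtype.ext h⟩)
    (fun s s' => Subtype.ext (tt s s'))
    (by
      intro i hi a b
      obtain ⟨v, hv, h⟩ := add i hi a b
      exact ⟨⟨v, hVnB i (by omega) v hv⟩, hv, Subtype.ext (by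
        rw [Subgroup.coe_mul, Subgroup.coe_mul, hx' i hi, hx' i hi, hx' i hi]; exact h)⟩)
    (by
      intro i hi a u hu
      obtain ⟨v, hv, h⟩ := com i hi a u hu
      exact ⟨⟨v, hVnB i (by omega) v hv⟩, hv, Subtype.ext (by
        rw [Subgroup.coe_mul, Subgroup.coe_mul, Subgroup.coe_mul, hx' i hi]; exact h)⟩)
    (by
      intro i hi s a
      obtain ⟨v, hv, h⟩ := act i hi s a
      exact ⟨⟨v, hVnB i (by omega) v hv⟩, hv, Subtype.ext (by
        rw [Subgroup.coe_mul, Subgroup.coe_mul, Subgroup.coe_mul, hx' i hi, hx' i hi]; exact h)⟩)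
    (by
      intro i hi a ha
      apply inj i hi a
      have := (hmem _ _).1 ha
      rwa [hx' i hi] at this)
    χ0 χ1
    (by
      intro i j hij hj
      rcases wt i j hij hj with h | h
      · exact Or.inl h
      · refine Or.inr fun a b g h' hg hh => Subtype.ext (h a b g h' ?_ ?_)
        · rw [← hx' i (by omega), ← hg]; rfl
        · rw [← hx' j (by omega), ← hh]; rfl)
  refine ⟨N.map (B.comap σ).subtype, ?_, ?_⟩
  · intro v hv
    obtain ⟨y, hy, hyv⟩ := hN (show (⟨v, hVB hv⟩ : B) ∈ (V n).subgroupOf B from hv)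
    exact ⟨y, ⟨y, hy, rfl⟩, congrArg Subtype.val hyv⟩
  · rintro _ ⟨y, hy, rfl⟩ h
    have := hN1 y hy (Subtype.ext h)
    rw [this]; rfl

end Cfsg.Agent.H6.SM
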