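import Cfsg.Agent.H6_SM3
import Cfsg.Agent.H14_Schur3
import Cfsg.Agent.H6_Ree20
import Cfsg.Agent.S1073

/-!
The Schur multiplier of `²G₂(q)` is trivial.
-/

set_option autoImplicit false
set_option linter.unusedSectionVars false

namespace Cfsg.Agent.H6.SM

open Subgroup Cfsg Cfsg.Agent.H14.Schur Cfsg.Agent.H6.Ree
open scoped commutatorElement

universe u v w

/-! ### weights -/

theorem ree_ds {m a : ℕ} (ha : a = 1 ∨ a = 1 + 3 ^ (m + 1) ∨ a = 2 + 3 ^ (m + 1)) : ds 3 a ≤ 3 := by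
  have h1 : ds 3 1 = 1 := ds_lt (by norm_num) (by norm_num)
  have h2 : ds 3 2 = 2 := ds_lt (by norm_num) (by norm_num)
  have h3 : ds 3 (3 ^ (m + 1)) = 1 := by
    have := ds_pow_mul (p := 3) (by norm_num) 1 (m + 1)
    rwa [one_mul, h1] at this
  rcases ha with rfl | rfl | rfl
  · rw [h1]; norm_num
  · have := ds_add_le (p := 3) (by norm_num) 1 (3 ^ (m + 1))
    omega
  · have := ds_add_le (p := 3) (by norm_num) 2 (3 ^ (m + 1))
    omega

theorem ree_wt {K : Type*} [Field K] {m : ℕ} (hm : 1 ≤ m) {κ : K} (hκ : orderOf κ = 3 ^ (2 * m + 1) - 1) {a b : ℕ}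
    (ha : a = 1 ∨ a = 1 + 3 ^ (m + 1) ∨ a = 2 + 3 ^ (m + 1)) (hb : b = 1 ∨ b = 1 + 3 ^ (m + 1) ∨ b = 2 + 3 ^ (m + 1))
    (k : ℕ) : (κ ^ a) ^ 3 ^ k * κ ^ b ≠ 1 := by
  rcases Nat.lt_or_ge 1 m with h | h
  · refine frob_ne (by norm_num) (n := 2 * m + 1) (by omega) hκ (by rcases ha with rfl | rfl | rfl <;> positivity) ?_ k
    have h1 := ree_ds ha
    have h2 := ree_ds hb
    omega
  · have hm1 : m = 1 := by omega
    subst hm1
    intro h1
    rw [← pow_mul, ← pow_add] at h1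
    have h2 := orderOf_dvd_of_pow_eq_one h1
    rw [hκ] at h2
    norm_num at h2 ha hb
    have h3 : ∀ k : ℕ, 3 ^ k % 26 = 1 ∨ 3 ^ k % 26 = 3 ∨ 3 ^ k % 26 = 9 := by
      intro k
      induction k with
      | zero => left; rfl
      | succ k ih => rw [pow_succ]; omega
    have h4 := h3 k
    generalize 3 ^ k = c at h2 h4
    rcases ha with rfl | rfl | rfl <;> rcases hb with rfl | rfl | rfl <;> omega

section ree

variable {K : Type w} [Field K] [Fintype K] {G : Type u} [Group G] [Finite G] (R : RG K G) {m : ℕ} (hm : 1 ≤ m)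
  (hK : Fintype.card K = 3 ^ (2 * m + 1)) {Γ : Type v} [Group Γ] [Finite Γ] (σ : Γ →* G) (hσ : IsStemExtension σ)

/-- the subgroups of the series -/
def D1 : Subgroup G where
  carrier := {g | ∃ v, g = R.w 0 0 v}
  mul_mem' := by
    rintro _ _ ⟨v, rfl⟩ ⟨v', rfl⟩
    exact ⟨v + v', by rw [R.w_mul0]; simp⟩
  one_mem' := ⟨0, R.w_zero.symm⟩
  inv_mem' := by
    rintro _ ⟨v, rfl⟩
    refine ⟨-v, ?_⟩
    rw [R.w_inv]; simp

def D2 : Subgroup G where
  carrier := {g | ∃ u v, g = R.w 0 u v}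
  mul_mem' := by
    rintro _ _ ⟨u, v, rfl⟩ ⟨u', v', rfl⟩
    exact ⟨u + u', v + v', by rw [R.w_mul0]⟩
  one_mem' := ⟨0, 0, R.w_zero.symm⟩
  inv_mem' := by
    rintro _ ⟨u, v, rfl⟩
    refine ⟨-u, -v, ?_⟩
    rw [R.w_inv]; simp

def VR : ℕ → Subgroup G
  | 0 => ⊥
  | 1 => D1 R
  | 2 => D2 R
  | _ => R.U

def xR : ℕ → K → G
  | 0 => fun v => R.w 0 0 v
  | 1 => fun u => R.w 0 u 0
  | _ => fun t => R.w t 0 0

def χR : ℕ → Kˣ → K
  | 0 => fun s => s
  | 1 => fun s => R.φ s ^ 3 * (s : K)⁻¹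
  | _ => fun s => (s : K) ^ 2 * (R.φ s ^ 3)⁻¹

include hm hK hσ

theorem no_three (hφ : ∀ x, R.φ x = x ^ 3 ^ m) (hcard : Nat.card σ.ker = 3) : False := by
  classical
  have : Fact (Nat.Prime 3) := ⟨Nat.prime_three⟩
  have hchar : CharP K 3 := by
    have h3 : ((3 : ℕ) : K) = 0 := by exact_mod_cast R.char3
    rcases CharP.exists K with ⟨p, hp⟩
    have h1 := (CharP.cast_eq_zero_iff K p 3).1 h3
    have hpp : p.Prime := (CharP.char_is_prime_or_zero K p).resolve_right (by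
      rintro rfl
      have := hp.cast_eq_zero_iff 3
      rw [h3] at this
      simp at this)
    have h2 := (Nat.prime_dvd_prime_iff_eq hpp Nat.prime_three).1 h1
    rwa [← h2]
  obtain ⟨hs, hc, hd⟩ := id hσ
  have md1 : ∀ g, g ∈ D1 R ↔ ∃ v, g = R.w 0 0 v := fun _ => Iff.rfl
  have md2 : ∀ g, g ∈ D2 R ↔ ∃ u v, g = R.w 0 u v := fun _ => Iff.rfl
  have hU : ∀ g, g ∈ R.U ↔ ∃ t u v, g = R.w t u v := fun _ => Iff.rfl
  -- multiplication modulo the smaller terms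
  have m0 : ∀ v v', R.w 0 0 v * R.w 0 0 v' = R.w 0 0 (v + v') := by intro v v'; rw [R.w_mul0]; simp
  have m1 : ∀ t u v v', R.w t u v * R.w 0 0 v' = R.w t u (v + v') := by
    intro t u v v'
    rw [R.wmul]; simp
  have m1' : ∀ t u v v', R.w 0 0 v' * R.w t u v = R.w t u (v' + v) := by
    intro t u v v'
    rw [R.wmul]; simp
  -- a generator
  obtain ⟨κu, hκu⟩ := IsCyclic.exists_generator (α := Kˣ)
  have hκ : orderOf (κu : K) = 3 ^ (2 * m + 1) - 1 := by
    rw [orderOf_units, orderOf_eq_card_of_forall_mem_zpowers hκu, Nat.card_units, Nat.card_eq_fintype_card, hK]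
  obtain ⟨κ, hκ'⟩ : ∃ κ : K, κ = (κu : K) := ⟨_, rfl⟩
  rw [← hκ'] at hκ
  have hκ0 : κ ≠ 0 := by rw [hκ']; exact Units.ne_zero _
  set f : K := R.φ κ ^ 3 with hf
  have hf0 : f ≠ 0 := by rw [hf]; exact pow_ne_zero _ ((map_ne_zero R.φ).2 hκ0)
  have hφf : R.φ f = κ := by rw [hf, map_pow, R.φφ]
  have hfp : f = κ ^ 3 ^ (m + 1) := by rw [hf, hφ, ← pow_mul, ← pow_succ]
  let s0 : Kˣ := Units.mk0 (κ ^ 2 * f) (mul_ne_zero (pow_ne_zero _ hκ0) hf0)
  have c0 : χR R 0 s0 = κ ^ (2 + 3 ^ (m + 1)) := by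
    change κ ^ 2 * f = _
    rw [hfp, ← pow_add κ 2]
  have hφs : R.φ (s0 : K) ^ 3 = f ^ 2 * κ ^ 3 := by
    change R.φ (κ ^ 2 * f) ^ 3 = _
    rw [map_mul, map_pow, hφf, hf]; ring
  have c1 : χR R 1 s0 = κ ^ (1 + 3 ^ (m + 1)) := by
    change R.φ (s0 : K) ^ 3 * (s0 : K)⁻¹ = _
    rw [hφs, pow_add κ 1, ← hfp]
    change f ^ 2 * κ ^ 3 * (κ ^ 2 * f)⁻¹ = _
    field_simp
  have c2 : χR R 2 s0 = κ ^ 1 := by
    change (s0 : K) ^ 2 * (R.φ (s0 : K) ^ 3)⁻¹ = _
    rw [hφs]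
    change (κ ^ 2 * f) ^ 2 * (f ^ 2 * κ ^ 3)⁻¹ = _
    field_simp
  have hχ : ∀ i < 3, ∃ e : ℕ, (e = 1 ∨ e = 1 + 3 ^ (m + 1) ∨ e = 2 + 3 ^ (m + 1)) ∧ χR R i s0 = κ ^ e := by
    intro i hi
    interval_cases i
    · exact ⟨_, Or.inr (Or.inr rfl), c0⟩
    · exact ⟨_, Or.inr (Or.inl rfl), c1⟩
    · exact ⟨_, Or.inl rfl, c2⟩
  have hχ1 : ∀ i < 3, χR R i s0 ≠ 1 := by
    intro i hi h
    obtain ⟨e, he, h1⟩ := hχ i hi
    have := ree_wt hm hκ he he 0
    rw [← h1, h] at this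
    simp at this
  obtain ⟨N, hN, hN1⟩ := split_sub (K := K) (p := 3) σ hs hc 3 R.B (VR R) (xR R) (fun s : Kˣ => R.h s) (χR R)
    R.U_le_B (fun s => R.hB s) rfl
    (by
      intro i hi g
      interval_cases i
      · change g ∈ D1 R ↔ ∃ a, ∃ v ∈ (⊥ : Subgroup G), g = R.w 0 0 a * v
        rw [md1]
        constructor
        · rintro ⟨v, rfl⟩
          exact ⟨v, 1, one_mem _, (mul_one _).symm⟩
        · rintro ⟨a, v, hv, rfl⟩
          rw [Subgroup.mem_bot] at hv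
          exact ⟨a, by rw [hv, mul_one]⟩
      · change g ∈ D2 R ↔ ∃ a, ∃ v ∈ D1 R, g = R.w 0 a 0 * v
        rw [md2]
        constructor
        · rintro ⟨u, v, rfl⟩
          exact ⟨u, _, ⟨v, rfl⟩, by rw [m1, zero_add]⟩
        · rintro ⟨a, _, ⟨v, rfl⟩, rfl⟩
          exact ⟨a, v, by rw [m1, zero_add]⟩
      · change g ∈ R.U ↔ ∃ a, ∃ v ∈ D2 R, g = R.w a 0 0 * v
        rw [hU]
        constructor
        · rintro ⟨t, u, v, rfl⟩
          exact ⟨t, _, ⟨u, v, rfl⟩, R.w_mul_uv t u v⟩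
        · rintro ⟨a, _, ⟨u, v, rfl⟩, rfl⟩
          exact ⟨a, u, v, (R.w_mul_uv a u v).symm⟩)
    (by
      have hgen : ∀ i ≤ 3, ∀ t u v s, ∀ y ∈ VR R i, (R.w t u v * R.h s) * y * (R.w t u v * R.h s)⁻¹ ∈ VR R i := by
        intro i hi t u v s y hy
        have e : (R.w t u v * R.h s) * y * (R.w t u v * R.h s)⁻¹ = R.w t u v * (R.h s * y * (R.h s)⁻¹) * (R.w t u v)⁻¹ := by
          group
        rw [e]
        interval_cases i
        · have hy' : y ∈ (⊥ : Subgroup G) := hy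
          rw [Subgroup.mem_bot] at hy'
          subst hy'
          simp only [mul_one, mul_inv_cancel]
          exact one_mem _
        · obtain ⟨v', rfl⟩ := (md1 _).1 hy
          rw [R.hw]
          simp only [mul_zero]
          refine (md1 _).2 ⟨s * v', ?_⟩
          rw [mul_inv_eq_iff_eq_mul, m1, m1', add_comm]
        · obtain ⟨u', v', rfl⟩ := (md2 _).1 hy
          rw [R.hw]
          simp only [mul_zero]
          refine (md2 _).2 ⟨R.φ s ^ 3 * (s : K)⁻¹ * u', s * v' - R.φ s ^ 3 * (s : K)⁻¹ * u' * 0 + t * (R.φ s ^ 3 * (s : K)⁻¹ * u'), ?_⟩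
          rw [mul_inv_eq_iff_eq_mul, R.wmul, R.wmul]
          congr 1
          · ring
          · rw [map_zero]; ring
          · rw [map_zero]; ring
        · exact mul_mem (mul_mem (R.w_mem _ _ _) (R.hU s hy)) (inv_mem (R.w_mem _ _ _))
      rintro i hi _ ⟨t, u, v, s, rfl⟩ y hy
      exact hgen i hi t u v s y hy)
    (by
      rintro _ ⟨t, u, v, s, rfl⟩
      exact ⟨_, ⟨t, u, v, rfl⟩, s, rfl⟩)
    (by intro s s'; rw [← map_mul, ← map_mul, mul_comm])
    (by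
      intro i hi a b
      interval_cases i
      · exact ⟨1, one_mem _, by change R.w 0 0 (a + b) = R.w 0 0 a * R.w 0 0 b * 1; rw [m0, mul_one]⟩
      · refine ⟨1, one_mem _, ?_⟩
        change R.w 0 (a + b) 0 = R.w 0 a 0 * R.w 0 b 0 * 1
        rw [R.w_mul0, mul_one, add_zero]
      · refine ⟨(R.w a 0 0 * R.w b 0 0)⁻¹ * R.w (a + b) 0 0, ?_, ?_⟩
        · change _ ∈ D2 R
          have e : R.w a 0 0 * R.w b 0 0 = R.w (a + b) 0 0 * R.w 0 (0 + 0 - R.φ b ^ 3 * a)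
              (0 + 0 - b * 0 + R.φ b ^ 3 * a * b - R.φ b ^ 3 * a ^ 2) := by
            rw [R.wmul, ← R.w_mul_uv]
          rw [e, mul_inv_rev, inv_mul_cancel_right]
          exact inv_mem ⟨_, _, rfl⟩
        · change R.w (a + b) 0 0 = R.w a 0 0 * R.w b 0 0 * _
          rw [mul_inv_cancel_left])
    (by
      rintro i hi a _ ⟨t, u, v, rfl⟩
      interval_cases i
      · refine ⟨1, one_mem _, ?_⟩
        change R.w 0 0 a * R.w t u v = R.w t u v * R.w 0 0 a * 1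
        rw [m1, m1', mul_one, add_comm]
      · refine ⟨(R.w t u v * R.w 0 a 0)⁻¹ * (R.w 0 a 0 * R.w t u v), ?_, ?_⟩
        · change _ ∈ D1 R
          have e : R.w 0 a 0 * R.w t u v = R.w t u v * R.w 0 a 0 * R.w 0 0 (-(t * a)) := by
            rw [R.wmul, R.wmul, R.wmul]
            congr 1
            · ring
            · simp only [map_zero]; ring
            · simp only [map_zero]; ring
          rw [e, inv_mul_cancel_left]
          exact ⟨_, rfl⟩
        · change R.w 0 a 0 * R.w t u v = R.w t u v * R.w 0 a 0 * _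
          rw [mul_inv_cancel_left]
      · refine ⟨(R.w t u v * R.w a 0 0)⁻¹ * (R.w a 0 0 * R.w t u v), ?_, ?_⟩
        · change _ ∈ D2 R
          obtain ⟨A, B, hAB⟩ : ∃ A B, R.w a 0 0 * R.w t u v = R.w (a + t) 0 0 * R.w 0 A B := by
            rw [R.wmul]
            exact ⟨_, _, R.w_mul_uv _ _ _⟩
          obtain ⟨A', B', hAB'⟩ : ∃ A B, R.w t u v * R.w a 0 0 = R.w (a + t) 0 0 * R.w 0 A B := by
            rw [R.wmul, add_comm a t]
            exact ⟨_, _, R.w_mul_uv _ _ _⟩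
          rw [hAB, hAB', mul_inv_rev, mul_assoc, inv_mul_cancel_left]
          exact mul_mem (inv_mem ⟨_, _, rfl⟩) ⟨_, _, rfl⟩
        · change R.w a 0 0 * R.w t u v = R.w t u v * R.w a 0 0 * _
          rw [mul_inv_cancel_left])
    (by
      intro i hi s a
      refine ⟨1, one_mem _, ?_⟩
      rw [mul_one]
      interval_cases i
      · change R.h s * R.w 0 0 a * (R.h s)⁻¹ = R.w 0 0 (s * a)
        rw [R.hw]; simp only [mul_zero]
      · change R.h s * R.w 0 a 0 * (R.h s)⁻¹ = R.w 0 (R.φ s ^ 3 * (s : K)⁻¹ * a) 0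
        rw [R.hw]; simp only [mul_zero]
      · change R.h s * R.w a 0 0 * (R.h s)⁻¹ = R.w ((s : K) ^ 2 * (R.φ s ^ 3)⁻¹ * a) 0 0
        rw [R.hw]; simp only [mul_zero])
    (by
      intro i hi a ha
      interval_cases i
      · have ha' : R.w 0 0 a ∈ (⊥ : Subgroup G) := ha
        rw [Subgroup.mem_bot] at ha'
        exact (R.w_one_iff.1 ha').2.2
      · obtain ⟨v, hv⟩ : ∃ v, R.w 0 a 0 = R.w 0 0 v := ha
        exact (R.winj hv).2.1
      · obtain ⟨u, v, hv⟩ : ∃ u v, R.w a 0 0 = R.w 0 u v := ha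
        exact (R.winj hv).1)
    (by
      intro i s
      have hs0 : (s : K) ≠ 0 := Units.ne_zero _
      have hφ0 : R.φ (s : K) ≠ 0 := (map_ne_zero R.φ).2 hs0
      rcases i with _ | _ | i
      · exact hs0
      · exact mul_ne_zero (pow_ne_zero _ hφ0) (inv_ne_zero hs0)
      · exact mul_ne_zero (pow_ne_zero _ hs0) (inv_ne_zero (pow_ne_zero _ hφ0)))
    (fun i hi => ⟨s0, hχ1 i hi⟩)
    (by
      intro i j hij hj
      refine Or.inl fun k => ⟨s0, ?_⟩
      obtain ⟨a, ha, ea⟩ := hχ i (by omega)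
      obtain ⟨b, hb, eb⟩ := hχ j hj
      rw [ea, eb]
      exact ree_wt hm hκ ha hb k)
  obtain ⟨P, hP⟩ := R.exists_sylow hK
  refine false_of_split σ hσ hcard R.U ?_ ?_ N hN hN1
  · rw [← hP]; exact P.isPGroup'
  · rw [← hP]; exact P.not_dvd_index

omit hm in
include R in
theorem no_two (hcard : Nat.card σ.ker = 2) : False := by
  classical
  have : Fact (Nat.Prime 2) := ⟨Nat.prime_two⟩
  obtain ⟨hs, hc, hd⟩ := id hσ
  obtain ⟨S, hS⟩ := R.exists_S hK
  obtain ⟨-, hsq⟩ := R.sylow2 hK S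
  have hnd := R.nodup_S hK hS
  simp only [Set.mem_insert_iff, Set.mem_singleton_iff] at hS
  have conj : ∀ z : G, z * z = 1 → z ≠ 1 → IsConj R.a z := by
    intro z hz hz1
    obtain ⟨g, hg⟩ := R.inv_conj_a hK hz hz1
    rw [isConj_iff]
    exact ⟨g, by rw [← hg]; group⟩
  simp only [List.nodup_cons, List.mem_cons, List.not_mem_nil, or_false, not_or, not_false_eq_true,
    List.nodup_nil, and_true] at hnd
  obtain ⟨⟨n1, n2, n3, n4, n5, n6, n7⟩, -⟩ := hnd
  have ma : R.a ∈ S := (hS _).2 (by simp)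
  have mn : R.n ∈ S := (hS _).2 (by simp)
  have mj : R.j ∈ S := (hS _).2 (by simp)
  have hga : Good σ R.a := good_of_eight hs hc hcard R.a R.n R.j (hsq _ ma) (hsq _ mn) (hsq _ mj)
    (hsq _ (mul_mem ma mn)) (hsq _ (mul_mem ma mj)) (hsq _ (mul_mem ma (mul_mem mn mj))) (hsq _ (mul_mem mn mj))
    (conj _ (hsq _ mn) (Ne.symm n2)) (conj _ (hsq _ mj) (Ne.symm n3)) (conj _ (hsq _ (mul_mem ma mn)) (Ne.symm n5))
    (conj _ (hsq _ (mul_mem ma mj)) (Ne.symm n6)) (conj _ (hsq _ (mul_mem mn mj)) (Ne.symm n4))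
    (conj _ (hsq _ (mul_mem ma (mul_mem mn mj))) (Ne.symm n7))
  have hgood : ∀ z ∈ S, Good σ z := by
    intro z hz
    by_cases h1 : z = 1
    · subst h1
      intro x hx
      exact sq_of_ker hcard hx
    · obtain ⟨g, hg⟩ := isConj_iff.1 (conj z (hsq z hz) h1)
      rw [← hg]
      exact good_conj hs hc hcard hga g
  refine false_of_comm_le σ hσ hcard (S : Subgroup G) S.isPGroup' S.not_dvd_index ⊥ ?_ (fun x hx _ => (Subgroup.mem_bot).1 hx)
  rw [Subgroup.commutator_le]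
  intro x hx y hy
  rw [Subgroup.mem_bot, comm_iff]
  exact comm_of_good (hgood _ hx) (hgood _ hy) (hgood _ (mul_mem hx hy)) rfl rfl

end ree

theorem ree_multiplier {K : Type u} [Field K] [Fintype K] {m : ℕ} (hm : 1 ≤ m) (hK : Fintype.card K = 3 ^ (2 * m + 1)) :
    HasCyclicSchurMultiplier ↥(Cfsg.Lie.twistedG2 K (3 ^ m)) 1 := by
  obtain ⟨R, hφ, -⟩ := exists_RG hK
  obtain ⟨ρ, hρ⟩ := exists_rho hm hK
  obtain ⟨hsimp, hnc⟩ := Cfsg.Agent.S1073.result hm hK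
  have hperf : commutator ↥(Cfsg.Lie.twistedG2 K (3 ^ m)) = ⊤ := by
    rcases (inferInstance : (commutator ↥(Cfsg.Lie.twistedG2 K (3 ^ m))).Normal).eq_bot_or_eq_top with h | h
    · exfalso
      apply hnc
      constructor
      constructor
      intro a b
      have : ⁅a, b⁆ ∈ commutator ↥(Cfsg.Lie.twistedG2 K (3 ^ m)) :=
        Subgroup.commutator_mem_commutator (Subgroup.mem_top _) (Subgroup.mem_top _)
      rw [h, Subgroup.mem_bot] at this
      exact comm_iff.1 this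
    · exact h
  apply trivial_of_primes
  intro p hp Γ _ _ σ hσ hcard
  have : Finite ↥(Cfsg.Lie.twistedG2 K (3 ^ m)) := inferInstance
  rcases Nat.lt_or_ge 3 p with h | h
  · have h1 := Cfsg.Agent.S0102.result hperf (p := p) (fun P => R.sylow_cyclic hK ρ hρ h P) σ hσ.1 hσ.2.1
      (perfect_of_stem σ hσ hperf)
    rw [hcard] at h1
    exact h1 dvd_rfl
  · have h2 := hp.out.two_le
    interval_cases p
    · exact no_two R hK σ hσ hcard
    · exact no_three R hm hK σ hσ hφ hcard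

end Cfsg.Agent.H6.SM
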