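import Mathlib
import Cfsg.Prelude.Def_SteinbergCover
import Cfsg.Agent.H6_ChevSt4

/-!
The group presented by Steinberg's relators (R1) and (R2): perfectness.
-/

set_option autoImplicit false
set_option linter.unusedSectionVars false
set_option maxRecDepth 100000

namespace Cfsg.Agent.H6.StC

open Cfsg.Lie
open scoped commutatorElement

section Basic

variable {D : ChevalleyDatum} {F : Type*} [Field F]

theorem mk_eq_one {w : FreeGroup (Fin D.nroots × F)} (h : w ∈ D.steinbergRelsAB F) :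
    PresentedGroup.mk (D.steinbergRelsAB F) w = 1 :=
  (QuotientGroup.eq_one_iff _).2 (Subgroup.subset_normalClosure h)

theorem mk_stWord (w : List (ℕ × F)) : PresentedGroup.mk (D.steinbergRelsAB F) (D.stWord w) =
    (w.map fun p => D.scGen F p.1 p.2).prod := by
  unfold ChevalleyDatum.stWord ChevalleyDatum.scGen
  rw [map_list_prod, List.map_map]
  rfl

theorem gen_ge {r : ℕ} (hr : ¬ r < D.nroots) (t : F) : D.scGen F r t = 1 := by
  unfold ChevalleyDatum.scGen ChevalleyDatum.stX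
  rw [dif_neg hr, map_one]

theorem gen_add (r : ℕ) (t u : F) : D.scGen F r t * D.scGen F r u = D.scGen F r (t + u) := by
  by_cases hr : r < D.nroots
  · have h1 := mk_eq_one (D := D) (F := F) (w := D.stX r t * D.stX r u * (D.stX r (t + u))⁻¹)
        (Or.inl ⟨r, t, u, hr, rfl⟩)
    rw [map_mul, map_mul, map_inv, mul_inv_eq_one] at h1
    exact h1
  · rw [gen_ge hr, gen_ge hr, gen_ge hr, one_mul]

theorem gen_zero (r : ℕ) : D.scGen F r 0 = 1 := by
  have := gen_add (D := D) (F := F) r 0 0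
  rw [add_zero] at this
  exact mul_eq_left.1 this

theorem gen_neg (r : ℕ) (t : F) : D.scGen F r (-t) = (D.scGen F r t)⁻¹ := by
  rw [eq_inv_iff_mul_eq_one, gen_add, neg_add_cancel, gen_zero]

theorem gen_comm {r s : ℕ} (hr : r < D.nroots) (hs : s < D.nroots) (hsr : s ≠ r) (hsn : s ≠ D.neg r) (t u : F) :
    (D.scGen F s u)⁻¹ * (D.scGen F r t)⁻¹ * D.scGen F s u * D.scGen F r t =
      ((D.commWord F r s t u).map fun p => D.scGen F p.1 p.2).prod := by
  have h1 := mk_eq_one (D := D) (F := F)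
    (w := (D.stX s u)⁻¹ * (D.stX r t)⁻¹ * D.stX s u * D.stX r t * (D.stWord (D.commWord F r s t u))⁻¹)
    (Or.inr ⟨r, s, t, u, hr, hs, hsr, hsn, rfl⟩)
  rw [map_mul, map_inv, mul_inv_eq_one, mk_stWord] at h1
  rw [← h1]
  simp only [map_mul, map_inv]
  rfl

theorem cover_top : Subgroup.closure {g : D.SteinbergCover F | ∃ (r : ℕ) (t : F), r < D.nroots ∧ g = D.scGen F r t} = ⊤ := by
  rw [eq_top_iff, ← PresentedGroup.closure_range_of (D.steinbergRelsAB F), Subgroup.closure_le]
  rintro _ ⟨⟨r, t⟩, rfl⟩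
  refine Subgroup.subset_closure ⟨r, t, r.2, ?_⟩
  unfold ChevalleyDatum.scGen ChevalleyDatum.stX
  rw [dif_pos r.2]
  rfl

end Basic

section Perfect

variable (D : ChevalleyDatum) (F : Type*) [Field F]

/-- the root group lies in the commutator subgroup -/
def InA (p : ℕ) : Prop := ∀ t : F, D.scGen F p t ∈ commutator (D.SteinbergCover F)

variable {D F}

theorem comm_mem (a b : D.SteinbergCover F) : a⁻¹ * b⁻¹ * a * b ∈ commutator (D.SteinbergCover F) := by
  have h := Subgroup.commutator_mem_commutator (Subgroup.mem_top a⁻¹) (Subgroup.mem_top b⁻¹)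
  rw [commutatorElement_def, inv_inv, inv_inv] at h
  exact h

theorem word_mem {r s : ℕ} (hr : r < D.nroots) (hs : s < D.nroots) (hsr : s ≠ r) (hsn : s ≠ D.neg r) (t u : F) :
    ((D.commWord F r s t u).map fun p => D.scGen F p.1 p.2).prod ∈ commutator (D.SteinbergCover F) := by
  rw [← gen_comm hr hs hsr hsn]
  exact comm_mem _ _

theorem inA_one {r s p : ℕ} {c : ℤ} (hr : r < D.nroots) (hs : s < D.nroots) (hsr : s ≠ r) (hsn : s ≠ D.neg r)
    (h : D.commTerms r s = [(p, c, 1, 1)]) (hc : c = 1 ∨ c = -1) : InA D F p := by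
  intro t
  have h1 := word_mem (F := F) hr hs hsr hsn (-((c : F) * t)) 1
  unfold ChevalleyDatum.commWord at h1
  rw [h] at h1
  have hcc : (c : F) * (c : F) = 1 := by rcases hc with rfl | rfl <;> simp
  have e : (c : F) * (- -((c : F) * t)) ^ 1 * 1 ^ 1 = t := by linear_combination t * hcc
  simp only [List.map_cons, List.map_nil, List.prod_cons, List.prod_nil, mul_one, e] at h1
  exact h1

theorem rest_mem {l : List (ℕ × ℤ × ℕ × ℕ)} (hl : ∀ e ∈ l, InA D F e.1) (t u : F) :
    ((l.map fun c => (c.1, (c.2.1 : F) * (-t) ^ c.2.2.1 * u ^ c.2.2.2)).map fun p => D.scGen F p.1 p.2).prod ∈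
      commutator (D.SteinbergCover F) := by
  apply Subgroup.list_prod_mem
  intro x hx
  rw [List.map_map, List.mem_map] at hx
  obtain ⟨e, he, rfl⟩ := hx
  exact hl e he _

theorem inA_two {r s p p' : ℕ} {c c' : ℤ} {l : List (ℕ × ℤ × ℕ × ℕ)} (hr : r < D.nroots) (hs : s < D.nroots) (hsr : s ≠ r)
    (hsn : s ≠ D.neg r) (h : D.commTerms r s = (p, c, 1, 1) :: (p', c', 1, 2) :: l) (hc : c = 1 ∨ c = -1)
    (hc' : c' = 1 ∨ c' = -1) (hl : ∀ e ∈ l, InA D F e.1) (ha : ∃ a : F, a ≠ 0 ∧ a ≠ 1) : InA D F p ∧ InA D F p' := by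
  obtain ⟨a, ha0, ha1⟩ := ha
  have key : ∀ t u : F, D.scGen F p ((c : F) * (-t) * u) * D.scGen F p' ((c' : F) * (-t) * u ^ 2) ∈
      commutator (D.SteinbergCover F) := by
    intro t u
    have h1 := word_mem (F := F) hr hs hsr hsn t u
    unfold ChevalleyDatum.commWord at h1
    rw [h, List.map_cons, List.map_cons, List.map_cons, List.map_cons, List.prod_cons, List.prod_cons, ← mul_assoc] at h1
    simp only [pow_one] at h1
    exact (Subgroup.mul_mem_cancel_right _ (rest_mem hl t u)).1 h1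
  have h2 : InA D F p' := by
    intro v
    have hcc : (c' : F) * (c' : F) = 1 := by rcases hc' with rfl | rfl <;> simp
    have ha1' : 1 - a ≠ 0 := sub_ne_zero.2 (Ne.symm ha1)
    -- t u fixed
    obtain ⟨w, hw⟩ : ∃ w : F, (c' : F) * w * (1 - a) = v := ⟨(c' : F) * v * (1 - a)⁻¹, by
      have : (c' : F) * ((c' : F) * v * (1 - a)⁻¹) * (1 - a) = ((c' : F) * (c' : F)) * v * ((1 - a)⁻¹ * (1 - a)) := by ring
      rw [this, hcc, inv_mul_cancel₀ ha1']; ring⟩
    have k1 := key (-w) 1
    have k2 := key (-w * a⁻¹) a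
    have e1 : (c : F) * (-(-w * a⁻¹)) * a = (c : F) * (- -w) * 1 := by field_simp
    have e2 : (c' : F) * (-(-w * a⁻¹)) * a ^ 2 = (c' : F) * w * a := by field_simp
    have e3 : (c' : F) * (- -w) * 1 ^ 2 = (c' : F) * w := by ring
    rw [e1, e2] at k2
    rw [e3] at k1
    have k3 := Subgroup.mul_mem _ (Subgroup.inv_mem _ k2) k1
    have e4 : (D.scGen F p ((c : F) * (- -w) * 1) * D.scGen F p' ((c' : F) * w * a))⁻¹ *
        (D.scGen F p ((c : F) * (- -w) * 1) * D.scGen F p' ((c' : F) * w)) = D.scGen F p' v := by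
      rw [mul_inv_rev, mul_assoc, inv_mul_cancel_left, ← gen_neg, gen_add, ← hw]
      congr 1
      ring
    rw [e4] at k3
    exact k3
  refine ⟨?_, h2⟩
  intro v
  have hcc : (c : F) * (c : F) = 1 := by rcases hc with rfl | rfl <;> simp
  have k1 := key (-((c : F) * v)) 1
  have e1 : (c : F) * (- -((c : F) * v)) * 1 = v := by linear_combination v * hcc
  rw [e1] at k1
  exact (Subgroup.mul_mem_cancel_right _ (h2 _)).1 k1

theorem perfect_of (h : ∀ p < D.nroots, InA D F p) : commutator (D.SteinbergCover F) = ⊤ := by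
  rw [eq_top_iff, ← cover_top, Subgroup.closure_le]
  rintro _ ⟨r, t, hr, rfl⟩
  exact h r hr t

/-- check of a witness -/
def ckw (D : ChevalleyDatum) (e : ℕ × ℕ × ℕ) : Bool :=
  Nat.blt e.2.1 D.nroots && Nat.blt e.2.2 D.nroots && !(Nat.beq e.2.2 e.2.1) && !(Nat.beq e.2.2 (D.neg e.2.1)) &&
  match D.commTerms e.2.1 e.2.2 with
  | (p, c, i, j) :: l => l.isEmpty && Nat.beq p e.1 && (decide (c = 1) || decide (c = -1)) && Nat.beq i 1 && Nat.beq j 1
  | [] => false

theorem inA_of_ckw {e : ℕ × ℕ × ℕ} (h : ckw D e = true) : InA D F e.1 := by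
  unfold ckw at h
  simp only [Bool.and_eq_true] at h
  obtain ⟨⟨⟨⟨h1, h2⟩, h3⟩, h4⟩, h5⟩ := h
  have h1' : e.2.1 < D.nroots := by simpa [Nat.blt] using h1
  have h2' : e.2.2 < D.nroots := by simpa [Nat.blt] using h2
  have h3' : e.2.2 ≠ e.2.1 := by
    intro h; rw [h] at h3; simp at h3
  have h4' : e.2.2 ≠ D.neg e.2.1 := by
    intro h; rw [← h] at h4; simp at h4
  match hc : D.commTerms e.2.1 e.2.2, h5 with
  | (p, c, i, j) :: l, h5 =>
    simp only [Bool.and_eq_true, Bool.or_eq_true, decide_eq_true_eq] at h5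
    obtain ⟨⟨⟨⟨hl, hp⟩, hcc⟩, hi⟩, hj⟩ := h5
    have hl' : l = [] := List.isEmpty_iff.1 hl
    have hi' := Nat.eq_of_beq_eq_true hi
    have hj' := Nat.eq_of_beq_eq_true hj
    have hp' := Nat.eq_of_beq_eq_true hp
    subst hl' hi' hj' hp'
    exact inA_one h1' h2' h3' h4' hc hcc

theorem perfect_of_wit (W : List (ℕ × ℕ × ℕ)) (h1 : W.map (fun e => e.1) = List.range D.nroots) (h2 : W.all (ckw D) = true) :
    commutator (D.SteinbergCover F) = ⊤ := by
  apply perfect_of
  intro p hp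
  have : p ∈ W.map (fun e => e.1) := by rw [h1]; exact List.mem_range.2 hp
  obtain ⟨e, he, rfl⟩ := List.mem_map.1 this
  exact inA_of_ckw (List.all_eq_true.1 h2 e he)

end Perfect

/-- witnesses -/
def witD4 : List (ℕ × ℕ × ℕ) :=
  [(0, 1, 9), (1, 0, 14), (2, 0, 15), (3, 0, 16), (4, 0, 17), (5, 1, 17), (6, 0, 19), (7, 0, 20), (8, 0, 21), (9, 0, 22), (10, 1, 20), (11, 1, 21), (12, 2, 22), (13, 3, 22), (14, 1, 23), (15, 2, 23), (16, 3, 23), (17, 4, 23), (18, 6, 22), (19, 6, 23), (20, 7, 23), (21, 8, 23), (22, 9, 23), (23, 14, 22)]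

/-- witnesses -/
def witF4 : List (ℕ × ℕ × ℕ) :=
  [(0, 1, 23), (1, 0, 24), (2, 0, 26), (3, 7, 14), (4, 0, 31), (5, 0, 32), (6, 1, 32), (7, 3, 33), (8, 3, 34), (9, 3, 35), (10, 3, 36), (11, 3, 37), (12, 3, 38), (13, 3, 39), (14, 3, 40), (15, 0, 42), (16, 0, 43), (17, 1, 43), (18, 7, 37), (19, 7, 38), (20, 7, 39), (21, 0, 45), (22, 1, 45), (23, 0, 46), (24, 1, 47), (25, 2, 46), (26, 2, 47), (27, 8, 40), (28, 9, 40), (29, 10, 40), (30, 4, 46), (31, 4, 47), (32, 5, 47), (33, 7, 44), (34, 8, 44), (35, 9, 44), (36, 10, 44), (37, 11, 44), (38, 12, 44), (39, 13, 44), (40, 14, 44), (41, 15, 46), (42, 15, 47), (43, 16, 47), (44, 33, 40), (45, 21, 47), (46, 23, 47), (47, 24, 46)]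

/-- witnesses -/
def witE6 : List (ℕ × ℕ × ℕ) :=
  [(0, 1, 25), (1, 0, 46), (2, 0, 47), (3, 0, 48), (4, 0, 49), (5, 0, 50), (6, 0, 51), (7, 0, 52), (8, 0, 53), (9, 0, 54), (10, 0, 55), (11, 1, 53), (12, 1, 54), (13, 1, 55), (14, 2, 55), (15, 5, 55), (16, 0, 61), (17, 0, 62), (18, 0, 63), (19, 0, 64), (20, 0, 65), (21, 0, 66), (22, 0, 67), (23, 0, 68), (24, 0, 69), (25, 0, 70), (26, 1, 64), (27, 1, 65), (28, 1, 66), (29, 2, 66), (30, 1, 67), (31, 1, 68), (32, 1, 69), (33, 2, 67), (34, 2, 68), (35, 3, 67), (36, 4, 68), (37, 3, 69), (38, 4, 69), (39, 2, 70), (40, 3, 70), (41, 4, 70), (42, 5, 69), (43, 5, 70), (44, 6, 70), (45, 7, 70), (46, 1, 71), (47, 2, 71), (48, 3, 71), (49, 4, 71), (50, 5, 71), (51, 6, 71), (52, 7, 71), (53, 8, 71), (54, 9, 71), (55, 10, 71), (56, 16, 66), (57, 16, 69), (58, 16, 70), (59, 17, 70), (60, 18, 70), (61, 16, 71), (62, 17, 71), (63, 18, 71), (64, 19, 71), (65, 20, 71), (66, 21, 71), (67, 22, 71), (68, 23, 71), (69, 24, 71), (70, 25,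 71), (71, 46, 70)]

/-- witnesses -/
def witE7 : List (ℕ × ℕ × ℕ) :=
  [(0, 1, 32), (1, 0, 93), (2, 0, 94), (3, 0, 95), (4, 0, 96), (5, 0, 97), (6, 0, 98), (7, 0, 99), (8, 0, 100), (9, 0, 101), (10, 0, 102), (11, 0, 103), (12, 0, 104), (13, 0, 105), (14, 0, 106), (15, 0, 107), (16, 0, 108), (17, 0, 109), (18, 0, 110), (19, 0, 111), (20, 0, 112), (21, 0, 113), (22, 0, 114), (23, 0, 115), (24, 0, 116), (25, 0, 117), (26, 0, 118), (27, 0, 119), (28, 0, 120), (29, 0, 121), (30, 0, 122), (31, 0, 123), (32, 0, 124), (33, 1, 109), (34, 1, 110), (35, 1, 111), (36, 1, 112), (37, 1, 113), (38, 1, 114), (39, 1, 115), (40, 1, 116), (41, 1, 117), (42, 1, 118), (43, 2, 115), (44, 2, 116), (45, 2, 117), (46, 2, 118), (47, 3, 118), (48, 1, 119), (49, 1, 120), (50, 1, 121), (51, 1, 122), (52, 1, 123), (53, 2, 119), (54, 2, 120), (55, 2, 121), (56, 2, 122), (57, 3, 119), (58, 3, 120), (59, 3, 121), (60, 4, 119), (61, 4, 120), (62, 5, 119), (63, 6, 120), (64, 5, 121), (65, 6, 121),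 (66, 4, 122), (67, 5, 122), (68, 6, 122), (69, 3, 123), (70, 4, 123), (71, 5, 123), (72, 6, 123), (73, 2, 124), (74, 3, 124), (75, 4, 124), (76, 5, 124), (77, 6, 124), (78, 7, 122), (79, 7, 123), (80, 8, 123), (81, 9, 123), (82, 10, 123), (83, 7, 124), (84, 8, 124), (85, 9, 124), (86, 10, 124), (87, 11, 124), (88, 12, 124), (89, 13, 124), (90, 14, 124), (91, 15, 124), (92, 16, 124), (93, 1, 125), (94, 2, 125), (95, 3, 125), (96, 4, 125), (97, 5, 125), (98, 6, 125), (99, 7, 125), (100, 8, 125), (101, 9, 125), (102, 10, 125), (103, 11, 125), (104, 12, 125), (105, 13, 125), (106, 14, 125), (107, 15, 125), (108, 16, 125), (109, 17, 125), (110, 18, 125), (111, 19, 125), (112, 20, 125), (113, 21, 125), (114, 22, 125), (115, 23, 125), (116, 24, 125), (117, 25, 125), (118, 26, 125), (119, 27, 125), (120, 28, 125), (121, 29, 125), (122, 30, 125), (123, 31, 125), (124, 32, 125), (125, 93, 124)]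

/-- witnesses -/
def witE8 : List (ℕ × ℕ × ℕ) :=
  [(0, 1, 119), (1, 0, 120), (2, 0, 122), (3, 0, 125), (4, 0, 129), (5, 0, 134), (6, 0, 140), (7, 0, 146), (8, 0, 151), (9, 0, 155), (10, 0, 158), (11, 0, 160), (12, 0, 161), (13, 1, 161), (14, 0, 168), (15, 0, 173), (16, 0, 177), (17, 0, 180), (18, 0, 182), (19, 0, 183), (20, 1, 183), (21, 0, 187), (22, 0, 190), (23, 0, 192), (24, 0, 193), (25, 1, 193), (26, 0, 196), (27, 0, 198), (28, 0, 199), (29, 1, 199), (30, 0, 201), (31, 0, 202), (32, 1, 202), (33, 0, 203), (34, 1, 203), (35, 2, 203), (36, 0, 206), (37, 0, 208), (38, 0, 209), (39, 1, 209), (40, 0, 211), (41, 0, 212), (42, 1, 212), (43, 0, 213), (44, 1, 213), (45, 2, 213), (46, 0, 215), (47, 0, 216), (48, 1, 216), (49, 0, 217), (50, 1, 217), (51, 2, 217), (52, 0, 218), (53, 1, 218), (54, 2, 218), (55, 3, 218), (56, 0, 220), (57, 0, 221), (58, 1, 221), (59, 0, 222), (60, 1, 222), (61, 2, 222), (62, 0, 223), (63, 1, 223), (64, 2, 223), (65, 3, 223), (66, 0,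 224), (67, 1, 224), (68, 2, 224), (69, 3, 224), (70, 4, 224), (71, 0, 225), (72, 1, 225), (73, 2, 225), (74, 3, 225), (75, 4, 225), (76, 5, 225), (77, 6, 225), (78, 0, 227), (79, 0, 228), (80, 1, 228), (81, 0, 229), (82, 1, 229), (83, 2, 229), (84, 0, 230), (85, 1, 230), (86, 2, 230), (87, 3, 230), (88, 0, 231), (89, 1, 231), (90, 2, 231), (91, 3, 231), (92, 4, 231), (93, 0, 232), (94, 1, 232), (95, 2, 232), (96, 3, 232), (97, 4, 232), (98, 5, 232), (99, 0, 233), (100, 1, 233), (101, 2, 233), (102, 3, 233), (103, 4, 233), (104, 5, 233), (105, 0, 234), (106, 1, 234), (107, 2, 234), (108, 3, 234), (109, 4, 234), (110, 0, 235), (111, 1, 235), (112, 2, 235), (113, 3, 235), (114, 0, 236), (115, 1, 236), (116, 2, 236), (117, 0, 237), (118, 1, 237), (119, 0, 238), (120, 1, 239), (121, 2, 238), (122, 2, 239), (123, 3, 237), (124, 3, 238), (125, 3, 239), (126, 4, 236), (127, 4, 237), (128, 4, 238), (129, 4, 239), (130, 5, 235), (131, 5, 236), (132, 5, 237), (133, 5, 238),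 (134, 5, 239), (135, 6, 234), (136, 6, 235), (137, 6, 236), (138, 6, 237), (139, 6, 238), (140, 6, 239), (141, 7, 234), (142, 7, 235), (143, 7, 236), (144, 7, 237), (145, 7, 238), (146, 7, 239), (147, 8, 235), (148, 8, 236), (149, 8, 237), (150, 8, 238), (151, 8, 239), (152, 9, 236), (153, 9, 237), (154, 9, 238), (155, 9, 239), (156, 10, 237), (157, 10, 238), (158, 10, 239), (159, 11, 238), (160, 11, 239), (161, 12, 239), (162, 14, 233), (163, 14, 234), (164, 14, 235), (165, 14, 236), (166, 14, 237), (167, 14, 238), (168, 14, 239), (169, 15, 235), (170, 15, 236), (171, 15, 237), (172, 15, 238), (173, 15, 239), (174, 16, 236), (175, 16, 237), (176, 16, 238), (177, 16, 239), (178, 17, 237), (179, 17, 238), (180, 17, 239), (181, 18, 238), (182, 18, 239), (183, 19, 239), (184, 21, 236), (185, 21, 237), (186, 21, 238), (187, 21, 239), (188, 22, 237), (189, 22, 238), (190, 22, 239), (191, 23, 238), (192, 23, 239), (193, 24, 239), (194, 26, 237), (195, 26, 238), (196,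 26, 239), (197, 27, 238), (198, 27, 239), (199, 28, 239), (200, 30, 238), (201, 30, 239), (202, 31, 239), (203, 33, 239), (204, 36, 237), (205, 36, 238), (206, 36, 239), (207, 37, 238), (208, 37, 239), (209, 38, 239), (210, 40, 238), (211, 40, 239), (212, 41, 239), (213, 43, 239), (214, 46, 238), (215, 46, 239), (216, 47, 239), (217, 49, 239), (218, 52, 239), (219, 56, 238), (220, 56, 239), (221, 57, 239), (222, 59, 239), (223, 62, 239), (224, 66, 239), (225, 71, 239), (226, 78, 238), (227, 78, 239), (228, 79, 239), (229, 81, 239), (230, 84, 239), (231, 88, 239), (232, 93, 239), (233, 99, 239), (234, 105, 239), (235, 110, 239), (236, 114, 239), (237, 117, 239), (238, 119, 239), (239, 120, 238)]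

/-- witnesses -/
def witG2 : List (ℕ × ℕ × ℕ) :=
  [(0, 1, 5), (1, 0, 6), (5, 0, 10), (6, 1, 11), (10, 5, 11), (11, 6, 10)]


theorem wk1D4 : witD4.map (fun e => e.1) = List.range chevD4.nroots := by decide +kernel
theorem wk2D4 : witD4.all (ckw chevD4) = true := by decide +kernel
theorem wk1F4 : witF4.map (fun e => e.1) = List.range chevF4.nroots := by decide +kernel
theorem wk2F4 : witF4.all (ckw chevF4) = true := by decide +kernel
theorem wk1E6 : witE6.map (fun e => e.1) = List.range chevE6.nroots := by decide +kernel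
theorem wk2E6 : witE6.all (ckw chevE6) = true := by decide +kernel
theorem wk1E7 : witE7.map (fun e => e.1) = List.range chevE7.nroots := by decide +kernel
theorem wk2E7 : witE7.all (ckw chevE7) = true := by decide +kernel
theorem wk1E8 : witE8.map (fun e => e.1) = List.range chevE8.nroots := by decide +kernel
theorem wk2E8 : witE8.all (ckw chevE8) = true := by decide +kernel
theorem wk2G2 : witG2.all (ckw chevG2) = true := by decide +kernel

theorem perfect_G2 {F : Type*} [Field F] (ha : ∃ a : F, a ≠ 0 ∧ a ≠ 1) : commutator (chevG2.SteinbergCover F) = ⊤ := by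
  have hl : ∀ e ∈ witG2, InA chevG2 F e.1 := fun e he => inA_of_ckw (List.all_eq_true.1 wk2G2 e he)
  have h0 : InA chevG2 F 0 := hl (0, 1, 5) (by simp [witG2])
  have h1 : InA chevG2 F 1 := hl (1, 0, 6) (by simp [witG2])
  have h5 : InA chevG2 F 5 := hl (5, 0, 10) (by simp [witG2])
  have h6 : InA chevG2 F 6 := hl (6, 1, 11) (by simp [witG2])
  have h10 : InA chevG2 F 10 := hl (10, 5, 11) (by simp [witG2])
  have h11 : InA chevG2 F 11 := hl (11, 6, 10) (by simp [witG2])
  have a1 := inA_two (D := chevG2) (F := F) (r := 0) (s := 8) (p := 2) (p' := 4) (c := 1) (c' := 1)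
    (l := [(6, -1, 1, 3), (1, -2, 2, 3)]) (by decide +kernel) (by decide +kernel) (by decide +kernel) (by decide +kernel)
    (by decide +kernel) (by simp) (by simp) (by simp [h1, h6]) ha
  have a2 := inA_two (D := chevG2) (F := F) (r := 0) (s := 9) (p := 3) (p' := 7) (c := -1) (c' := -1)
    (l := [(10, -1, 1, 3), (5, 2, 2, 3)]) (by decide +kernel) (by decide +kernel) (by decide +kernel) (by decide +kernel)
    (by decide +kernel) (by simp) (by simp) (by simp [h5, h10]) ha
  have a3 := inA_two (D := chevG2) (F := F) (r := 6) (s := 7) (p := 8) (p' := 9) (c := 1) (c' := 1)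
    (l := [(10, -1, 1, 3), (11, -2, 2, 3)]) (by decide +kernel) (by decide +kernel) (by decide +kernel) (by decide +kernel)
    (by decide +kernel) (by simp) (by simp) (by simp [h10, h11]) ha
  apply perfect_of
  intro p hp
  have hp' : p < 12 := hp
  interval_cases p
  exacts [h0, h1, a1.1, a2.1, a1.2, h5, h6, a2.2, a3.1, a3.2, h10, h11]

theorem perfect_B2 {F : Type*} [Field F] (ha : ∃ a : F, a ≠ 0 ∧ a ≠ 1) : commutator (chevB2.SteinbergCover F) = ⊤ := by
  have a1 := inA_two (D := chevB2) (F := F) (r := 0) (s := 5) (p := 1) (p' := 3) (c := 1) (c' := -1)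
    (l := []) (by decide +kernel) (by decide +kernel) (by decide +kernel) (by decide +kernel)
    (by decide +kernel) (by simp) (by simp) (by simp) ha
  have a2 := inA_two (D := chevB2) (F := F) (r := 0) (s := 6) (p := 2) (p' := 4) (c := -1) (c' := 1)
    (l := []) (by decide +kernel) (by decide +kernel) (by decide +kernel) (by decide +kernel)
    (by decide +kernel) (by simp) (by simp) (by simp) ha
  have a3 := inA_two (D := chevB2) (F := F) (r := 3) (s := 6) (p := 5) (p' := 7) (c := 1) (c' := 1)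
    (l := []) (by decide +kernel) (by decide +kernel) (by decide +kernel) (by decide +kernel)
    (by decide +kernel) (by simp) (by simp) (by simp) ha
  have a4 := inA_two (D := chevB2) (F := F) (r := 4) (s := 5) (p := 6) (p' := 7) (c := 1) (c' := -1)
    (l := []) (by decide +kernel) (by decide +kernel) (by decide +kernel) (by decide +kernel)
    (by decide +kernel) (by simp) (by simp) (by simp) ha
  have a5 := inA_two (D := chevB2) (F := F) (r := 3) (s := 2) (p := 1) (p' := 0) (c := -1) (c' := -1)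
    (l := []) (by decide +kernel) (by decide +kernel) (by decide +kernel) (by decide +kernel)
    (by decide +kernel) (by simp) (by simp) (by simp) ha
  apply perfect_of
  intro p hp
  have hp' : p < 8 := hp
  interval_cases p
  exacts [a5.2, a1.1, a2.1, a1.2, a2.2, a3.1, a4.1, a4.2]

end Cfsg.Agent.H6.StC
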