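import Cfsg.Agent.H6_BN2

/-!
Automorphisms of groups with a split (B,N)-pair: adjusting by inner automorphisms.
-/

set_option autoImplicit false
set_option linter.unusedSectionVars false

namespace Cfsg.Agent.H6.TO

open Cfsg Cfsg.Agent.H6 Cfsg.Agent.H6.BN

variable {G : Type*} [Group G] {ι : Type*}

/-- a split (B,N)-pair with rank-one root groups -/
structure SB (G : Type*) [Group G] (ι : Type*) where
  P : BNPair G
  s : ι → G
  hS : P.S = Set.range s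
  s_inj : Function.Injective s
  U : Subgroup G
  V : Subgroup G
  H : Subgroup G
  X : ι → Subgroup G
  Y : ι → Subgroup G
  n0 : G
  mem_B : ∀ b, b ∈ P.B ↔ ∃ u ∈ U, ∃ h ∈ H, b = u * h
  HU : ∀ h ∈ H, ∀ u ∈ U, h * u * h⁻¹ ∈ U
  HV : ∀ h ∈ H, ∀ u ∈ V, h * u * h⁻¹ ∈ V
  BV : ∀ v ∈ V, v ∈ P.B → v = 1
  n0U : ∀ x, n0 * x * n0⁻¹ ∈ V ↔ x ∈ U
  n0V : ∀ x, n0 * x * n0⁻¹ ∈ U ↔ x ∈ V
  XU : ∀ j, X j ≤ U
  YV : ∀ j, Y j ≤ V
  n0X : ∀ j x, n0 * x * n0⁻¹ ∈ Y j ↔ x ∈ X j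
  n0Y : ∀ j x, n0 * x * n0⁻¹ ∈ X j ↔ x ∈ Y j
  sX : ∀ j x, s j * x * (s j)⁻¹ ∈ Y j ↔ x ∈ X j
  Y_ne : ∀ j, Y j ≠ ⊥
  split : ∀ j, ∀ b ∈ P.B, ∃ x ∈ X j, ∃ c ∈ P.B, (s j)⁻¹ * c * s j ∈ P.B ∧ b = x * c
  long : ∀ n ∈ P.N, (∃ j, ∀ x ∈ X j, n * x * n⁻¹ ∈ U) ∨ n0⁻¹ * n ∈ H
  comm : ∀ i j, i ≠ j → ∀ x ∈ X i, ∀ y ∈ Y j, x * y = y * x
  ncomm : ∀ i, ∃ x ∈ X i, ∃ y ∈ Y i, x * y ≠ y * x

namespace SB

variable (D : SB G ι)

include D

theorem U_le_B : D.U ≤ D.P.B := fun u hu => (D.mem_B u).2 ⟨u, hu, 1, one_mem _, (mul_one u).symm⟩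

theorem H_le_B : D.H ≤ D.P.B := fun h hh => (D.mem_B h).2 ⟨1, one_mem _, h, hh, (one_mul h).symm⟩

theorem B_norm_U {b x : G} (hb : b ∈ D.P.B) (hx : x ∈ D.U) : b * x * b⁻¹ ∈ D.U := by
  obtain ⟨u, hu, h, hh, rfl⟩ := (D.mem_B b).1 hb
  have e : u * h * x * (u * h)⁻¹ = u * (h * x * h⁻¹) * u⁻¹ := by group
  rw [e]
  exact mul_mem (mul_mem hu (D.HU h hh x hx)) (inv_mem hu)

theorem s_mem (j : ι) : D.s j ∈ D.P.S := by rw [D.hS]; exact ⟨j, rfl⟩

theorem X_ne (j : ι) : D.X j ≠ ⊥ := by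
  intro h
  apply D.Y_ne j
  rw [eq_bot_iff]
  intro y hy
  have h1 : (D.s j)⁻¹ * y * D.s j ∈ D.X j := by
    rw [← D.sX]
    have : D.s j * ((D.s j)⁻¹ * y * D.s j) * (D.s j)⁻¹ = y := by group
    rwa [this]
  rw [h, Subgroup.mem_bot] at h1
  rw [Subgroup.mem_bot]
  have : y = D.s j * ((D.s j)⁻¹ * y * D.s j) * (D.s j)⁻¹ := by group
  rw [this, h1]; group

/-- `N(U) = B` -/
theorem normalizer_U : Subgroup.normalizer (D.U : Set G) = D.P.B := by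
  have hB : D.P.B ≤ Subgroup.normalizer (D.U : Set G) := by
    intro b hb
    rw [Subgroup.mem_normalizer_iff]
    intro x
    constructor
    · exact D.B_norm_U hb
    · intro h
      have := D.B_norm_U (inv_mem hb) h
      have e : b⁻¹ * (b * x * b⁻¹) * b⁻¹⁻¹ = x := by group
      rwa [e] at this
  have h1 := eq_parabolic _ hB
  have h2 : {s | s ∈ D.P.S ∧ s ∈ Subgroup.normalizer (D.U : Set G)} = ∅ := by
    rw [Set.eq_empty_iff_forall_notMem]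
    rintro s ⟨hs, hsN⟩
    rw [D.hS] at hs
    obtain ⟨j, rfl⟩ := hs
    obtain ⟨x, hx, hx1⟩ := (Subgroup.bot_or_exists_ne_one _).resolve_left (D.X_ne j)
    have h3 := (D.sX j x).2 hx
    have h4 := (Subgroup.mem_normalizer_iff.1 hsN x).1 (D.XU j hx)
    have h5 := D.BV _ (D.YV j h3) (D.U_le_B h4)
    apply hx1
    have : x = (D.s j)⁻¹ * (D.s j * x * (D.s j)⁻¹) * D.s j := by group
    rw [this, h5]; group
  rw [h2] at h1
  rw [h1]
  unfold BNPair.parabolic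
  rw [Subgroup.closure_empty, sup_bot_eq]

theorem UV {x : G} (hx : x ∈ D.U) (hV : x ∈ D.V) : x = 1 := D.BV x hV (D.U_le_B hx)

/-- conjugates of `U` meeting `U` trivially -/
theorem big {g : G} (h : ∀ x ∈ D.U, g * x * g⁻¹ ∈ D.U → x = 1) : ∃ u ∈ D.U, ∃ b ∈ D.P.B, g = u * D.n0 * b := by
  obtain ⟨w, hw⟩ := exists_C (P := D.P) g
  obtain ⟨n, rfl⟩ := QuotientGroup.mk_surjective w
  obtain ⟨b, hb, b', hb', rfl⟩ := mem_C_mk.1 hw
  rcases D.long n n.2 with ⟨j, hj⟩ | hn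
  · exfalso
    obtain ⟨x, hx, hx1⟩ := (Subgroup.bot_or_exists_ne_one _).resolve_left (D.X_ne j)
    have h1 := h (b'⁻¹ * x * b') (by
      have := D.B_norm_U (inv_mem hb') (D.XU j hx)
      rwa [inv_inv] at this) (by
      have e : b * (n : G) * b' * (b'⁻¹ * x * b') * (b * (n : G) * b')⁻¹ = b * ((n : G) * x * (n : G)⁻¹) * b⁻¹ := by group
      rw [e]
      exact D.B_norm_U hb (hj x hx))
    apply hx1
    have : x = b' * (b'⁻¹ * x * b') * b'⁻¹ := by group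
    rw [this, h1]; group
  · obtain ⟨u, hu, k, hk, rfl⟩ := (D.mem_B b).1 hb
    -- `k n = n (n⁻¹ k n)` and `n⁻¹ k n ∈ B`
    have hkN : k ∈ D.P.B ⊓ D.P.N → (n : G)⁻¹ * k * n ∈ D.P.B := by
      intro hk
      have := D.P.conj_mem (n : G)⁻¹ (inv_mem n.2) k hk
      rwa [inv_inv] at this
    refine ⟨u, hu, D.n0⁻¹ * k * n * b', ?_, by group⟩
    -- `n₀⁻¹ k n₀ ∈ B`: use `U` and `V`
    have h2 : D.n0⁻¹ * k * D.n0 ∈ Subgroup.normalizer (D.U : Set G) := by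
      rw [Subgroup.mem_normalizer_iff]
      intro x
      rw [← D.n0U x, ← D.n0U]
      have e : D.n0 * (D.n0⁻¹ * k * D.n0 * x * (D.n0⁻¹ * k * D.n0)⁻¹) * D.n0⁻¹ = k * (D.n0 * x * D.n0⁻¹) * k⁻¹ := by group
      rw [e]
      constructor
      · exact D.HV k hk _
      · intro h
        have := D.HV k⁻¹ (inv_mem hk) _ h
        have e : k⁻¹ * (k * (D.n0 * x * D.n0⁻¹) * k⁻¹) * k⁻¹⁻¹ = D.n0 * x * D.n0⁻¹ := by group
        rwa [e] at this
    rw [D.normalizer_U] at h2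
    have e : D.n0⁻¹ * k * n * b' = (D.n0⁻¹ * k * D.n0) * (D.n0⁻¹ * n) * b' := by group
    rw [e]
    exact mul_mem (mul_mem h2 (D.H_le_B hn)) hb'

/-- adjusting an automorphism -/
theorem adjust [Finite G] {p : ℕ} [Fact p.Prime] {S : Sylow p G} (hS : (S : Subgroup G) = D.U) (α : MulAut G) :
    ∃ g : G, (∀ x, (MulAut.conj g * α) x ∈ D.U ↔ x ∈ D.U) ∧ (∀ x, (MulAut.conj g * α) x ∈ D.V ↔ x ∈ D.V) := by
  -- first `U`
  obtain ⟨g₁, hg₁⟩ := MulAction.exists_smul_eq G (α • S) S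
  have h1 : ∀ x, (MulAut.conj g₁ * α) x ∈ D.U ↔ x ∈ D.U := by
    intro x
    have e1 : (g₁ • (α • S) : Sylow p G) = (MulAut.conj g₁ * α) • S := by
      rw [mul_smul]; rfl
    rw [e1] at hg₁
    have h := Subgroup.mem_pointwise_smul_iff_inv_smul_mem (a := (MulAut.conj g₁ * α)) (S := (S : Subgroup G))
      (x := (MulAut.conj g₁ * α) x)
    have e : (MulAut.conj g₁ * α)⁻¹ • (MulAut.conj g₁ * α) x = x := (MulAut.conj g₁ * α).symm_apply_apply x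
    rw [e] at h
    rw [← hS]
    have h2 : (MulAut.conj g₁ * α) x ∈ (((MulAut.conj g₁ * α) • S : Sylow p G) : Subgroup G) ↔ x ∈ (S : Subgroup G) := h
    rw [hg₁] at h2
    exact h2
  set β := MulAut.conj g₁ * α with hβ
  -- `β(V)` is conjugate to `U`
  obtain ⟨g₂, hg₂⟩ := MulAction.exists_smul_eq G S ((β * MulAut.conj D.n0) • S)
  have h2 : ∀ x, g₂⁻¹ * β x * g₂ ∈ D.U ↔ x ∈ D.V := by
    intro x
    have ha := Subgroup.mem_pointwise_smul_iff_inv_smul_mem (a := MulAut.conj g₂) (S := (S : Subgroup G)) (x := β x)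
    have e : (MulAut.conj g₂)⁻¹ • β x = g₂⁻¹ * β x * g₂ := by
      rw [← map_inv]
      change g₂⁻¹ * β x * g₂⁻¹⁻¹ = _
      rw [inv_inv]
    rw [e] at ha
    have hb := Subgroup.mem_pointwise_smul_iff_inv_smul_mem (a := (β * MulAut.conj D.n0)) (S := (S : Subgroup G)) (x := β x)
    have e2 : (β * MulAut.conj D.n0)⁻¹ • β x = D.n0⁻¹ * x * D.n0 := by
      have e3 : β x = (β * MulAut.conj D.n0) (D.n0⁻¹ * x * D.n0) := by
        change β x = β (D.n0 * (D.n0⁻¹ * x * D.n0) * D.n0⁻¹)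
        congr 1; group
      rw [e3]
      exact (β * MulAut.conj D.n0).symm_apply_apply _
    rw [e2] at hb
    have hc : β x ∈ ((g₂ • S : Sylow p G) : Subgroup G) ↔ g₂⁻¹ * β x * g₂ ∈ (S : Subgroup G) := ha
    have hd : β x ∈ (((β * MulAut.conj D.n0) • S : Sylow p G) : Subgroup G) ↔ D.n0⁻¹ * x * D.n0 ∈ (S : Subgroup G) := hb
    rw [hg₂] at hc
    rw [← hS, ← hc, hd, hS, ← D.n0U]
    have e4 : D.n0 * (D.n0⁻¹ * x * D.n0) * D.n0⁻¹ = x := by group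
    rw [e4]
  obtain ⟨u, hu, b, hb, he⟩ := D.big (g := g₂) (by
    intro x hx hx2
    obtain ⟨y, hy⟩ := β.surjective (g₂ * x * g₂⁻¹)
    have h3 : y ∈ D.V := by
      rw [← h2, hy]
      have : g₂⁻¹ * (g₂ * x * g₂⁻¹) * g₂ = x := by group
      rwa [this]
    have h4 : y ∈ D.U := by rw [← h1, hy]; exact hx2
    have h5 := D.UV h4 h3
    rw [h5, map_one] at hy
    have : x = g₂⁻¹ * (g₂ * x * g₂⁻¹) * g₂ := by group
    rw [this, ← hy]; group)
  refine ⟨u⁻¹ * g₁, ?_, ?_⟩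
  · intro x
    have e : (MulAut.conj (u⁻¹ * g₁) * α) x = u⁻¹ * β x * u := by
      rw [hβ, map_mul]
      change u⁻¹ * (g₁ * α x * g₁⁻¹) * u⁻¹⁻¹ = u⁻¹ * (g₁ * α x * g₁⁻¹) * u
      rw [inv_inv]
    rw [e, ← h1 x]
    constructor
    · intro h
      have := mul_mem (mul_mem hu h) (inv_mem hu)
      have e : u * (u⁻¹ * β x * u) * u⁻¹ = β x := by group
      rwa [e] at this
    · intro h
      exact mul_mem (mul_mem (inv_mem hu) h) hu
  · intro x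
    have e : (MulAut.conj (u⁻¹ * g₁) * α) x = u⁻¹ * β x * u := by
      rw [hβ, map_mul]
      change u⁻¹ * (g₁ * α x * g₁⁻¹) * u⁻¹⁻¹ = u⁻¹ * (g₁ * α x * g₁⁻¹) * u
      rw [inv_inv]
    rw [e, ← h2 x, he]
    set z := u⁻¹ * β x * u with hz
    have e1 : (u * D.n0 * b)⁻¹ * β x * (u * D.n0 * b) = b⁻¹ * (D.n0⁻¹ * z * D.n0) * b := by rw [hz]; group
    have e2 : D.n0 * (D.n0⁻¹ * z * D.n0) * D.n0⁻¹ = z := by group
    have h3 := D.n0U (D.n0⁻¹ * z * D.n0)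
    rw [e2] at h3
    rw [e1, h3]
    constructor
    · intro h
      have := D.B_norm_U (inv_mem hb) h
      rwa [inv_inv] at this
    · intro h
      have := D.B_norm_U hb h
      have e : b * (b⁻¹ * (D.n0⁻¹ * z * D.n0) * b) * b⁻¹ = D.n0⁻¹ * z * D.n0 := by group
      rwa [e] at this

theorem n0_conj_H {k : G} (hk : k ∈ D.H) : D.n0⁻¹ * k * D.n0 ∈ D.P.B := by
  rw [← D.normalizer_U, Subgroup.mem_normalizer_iff]
  intro x
  rw [← D.n0U x, ← D.n0U]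
  have e : D.n0 * (D.n0⁻¹ * k * D.n0 * x * (D.n0⁻¹ * k * D.n0)⁻¹) * D.n0⁻¹ = k * (D.n0 * x * D.n0⁻¹) * k⁻¹ := by group
  rw [e]
  constructor
  · exact D.HV k hk _
  · intro h
    have := D.HV k⁻¹ (inv_mem hk) _ h
    have e : k⁻¹ * (k * (D.n0 * x * D.n0⁻¹) * k⁻¹) * k⁻¹⁻¹ = D.n0 * x * D.n0⁻¹ := by group
    rwa [e] at this

/-! ### Minimal parabolics -/

/-- the minimal parabolics -/
def Pj (j : ι) : Subgroup G := D.P.parabolic {D.s j}

theorem B_le_Pj (j : ι) : D.P.B ≤ D.Pj j := B_le_parabolic _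

theorem s_Pj (j : ι) : D.s j ∈ D.Pj j := coe_mem_parabolic (Subgroup.subset_closure rfl)

theorem single_sub (j : ι) : ({D.s j} : Set G) ⊆ D.P.S := by
  rw [Set.singleton_subset_iff]; exact D.s_mem j

theorem mem_Pj {j : ι} {g : G} (hg : g ∈ D.Pj j) : g ∈ D.P.B ∨ ∃ b ∈ D.P.B, ∃ b' ∈ D.P.B, g = b * D.s j * b' := by
  obtain ⟨w, ⟨l, hl, rfl⟩, hw⟩ := (mem_parabolic_iff_C (D.single_sub j)).1 hg
  have key : ∀ l : List D.P.S, (∀ s ∈ l, (s : G) ∈ ({D.s j} : Set G)) →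
      Cox.wp (σ D.P) l = 1 ∨ Cox.wp (σ D.P) l = σ D.P ⟨D.s j, D.s_mem j⟩ := by
    intro l
    induction l with
    | nil => intro _; exact Or.inl rfl
    | cons a l ih =>
      intro h
      have ha : a = ⟨D.s j, D.s_mem j⟩ := Subtype.ext (h a List.mem_cons_self)
      rw [Cox.wp_cons, ha]
      rcases ih (fun s hs => h s (List.mem_cons_of_mem _ hs)) with h1 | h1
      · right; rw [h1, mul_one]
      · left; rw [h1, sigma_sq]
  rcases key l hl with h | h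
  · left
    rw [h, mem_C_one] at hw
    exact hw
  · right
    rw [h] at hw
    exact mem_C_sigma.1 hw

/-- overgroups of `B` in a minimal parabolic -/
theorem eq_Pj_of_le {M : Subgroup G} (hM : D.P.B ≤ M) {j : ι} (h : M ≤ D.Pj j) (hne : M ≠ D.P.B) : M = D.Pj j := by
  have h1 := eq_parabolic M hM
  set J := {s | s ∈ D.P.S ∧ s ∈ M} with hJ
  have hJS : J ⊆ D.P.S := fun s hs => hs.1
  have h2 : J ⊆ {D.s j} := by
    rw [h1] at h
    exact (parabolic_le_iff hJS (D.single_sub j)).1 h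
  rcases Set.subset_singleton_iff_eq.1 h2 with h3 | h3
  · exfalso
    apply hne
    rw [h1, h3]
    unfold BNPair.parabolic
    rw [Subgroup.closure_empty, sup_bot_eq]
  · rw [h1, h3]; rfl

theorem Pj_ne (j : ι) : D.Pj j ≠ D.P.B := by
  intro h
  have h1 := D.s_Pj j
  rw [h] at h1
  exact not_mem_B ⟨D.s j, D.s_mem j⟩ h1

theorem exists_Pj_le {M : Subgroup G} (hM : D.P.B ≤ M) (hne : M ≠ D.P.B) : ∃ j, D.Pj j ≤ M := by
  have h1 := eq_parabolic M hM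
  by_cases h : ∃ s, s ∈ D.P.S ∧ s ∈ M
  · obtain ⟨s, hs, hsM⟩ := h
    rw [D.hS] at hs
    obtain ⟨j, rfl⟩ := hs
    refine ⟨j, ?_⟩
    unfold Pj BNPair.parabolic
    refine sup_le hM ((Subgroup.closure_le _).2 ?_)
    rintro x rfl
    exact hsM
  · exfalso
    apply hne
    push Not at h
    rw [h1]
    have : {s | s ∈ D.P.S ∧ s ∈ M} = ∅ := by
      rw [Set.eq_empty_iff_forall_notMem]
      rintro s ⟨hs, hsM⟩
      exact h s hs hsM
    rw [this]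
    unfold BNPair.parabolic
    rw [Subgroup.closure_empty, sup_bot_eq]

theorem Pj_inj {i j : ι} (h : D.Pj i = D.Pj j) : i = j := by
  have := parabolic_inj (D.single_sub i) (D.single_sub j) h
  exact D.s_inj (Set.singleton_injective this)

/-- an automorphism fixing `B` permutes the minimal parabolics -/
theorem perm_Pj {α : MulAut G} (hB : ∀ x, α x ∈ D.P.B ↔ x ∈ D.P.B) (j : ι) : ∃ i, ∀ x, α x ∈ D.Pj i ↔ x ∈ D.Pj j := by
  set M := (D.Pj j).comap (α⁻¹ : MulAut G).toMonoidHom with hM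
  have hMm : ∀ x, x ∈ M ↔ α⁻¹ x ∈ D.Pj j := fun x => Iff.rfl
  have hBM : D.P.B ≤ M := by
    intro x hx
    rw [hMm]
    apply D.B_le_Pj j
    rw [← hB, MulAut.apply_inv_self]
    exact hx
  have hne : M ≠ D.P.B := by
    intro h
    apply D.Pj_ne j
    ext x
    rw [← hB, ← h, hMm, MulAut.inv_apply_self]
  obtain ⟨i, hi⟩ := D.exists_Pj_le hBM hne
  refine ⟨i, fun x => ?_⟩
  set M' := (D.Pj i).comap (α : MulAut G).toMonoidHom with hM'
  have hMm' : ∀ x, x ∈ M' ↔ α x ∈ D.Pj i := fun x => Iff.rfl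
  have h2 : D.P.B ≤ M' := by
    intro x hx
    rw [hMm']
    exact D.B_le_Pj i ((hB x).2 hx)
  have h3 : M' ≤ D.Pj j := by
    intro x hx
    rw [hMm'] at hx
    have := hi hx
    rwa [hMm, MulAut.inv_apply_self] at this
  have h4 : M' ≠ D.P.B := by
    intro h
    apply D.Pj_ne i
    ext x
    have e : α (α⁻¹ x) = x := MulAut.apply_inv_self _ _ _
    rw [← e, hB, ← h, hMm']
  have h5 := D.eq_Pj_of_le h2 h3 h4
  rw [← hMm', h5]

/-- `V ∩ P_j = Y_j` -/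
theorem V_inf_Pj [Finite G] (j : ι) {v : G} (hv : v ∈ D.V) (hP : v ∈ D.Pj j) : v ∈ D.Y j := by
  classical
  -- every non-trivial element of `V ∩ P_j` lies in `x s B` for some `1 ≠ x ∈ X_j`
  have key : ∀ v ∈ D.V ⊓ D.Pj j, v ≠ 1 → ∃ x ∈ D.X j, x ≠ 1 ∧ ∃ b ∈ D.P.B, v = x * D.s j * b := by
    rintro v ⟨hv, hvP⟩ hv1
    rcases D.mem_Pj hvP with h | ⟨b, hb, b', hb', h⟩
    · exact absurd (D.BV v hv h) hv1
    · obtain ⟨x, hx, c, hc, hc', rfl⟩ := D.split j b hb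
      have e : v = x * D.s j * (((D.s j)⁻¹ * c * D.s j) * b') := by rw [h]; group
      refine ⟨x, hx, ?_, _, mul_mem hc' hb', e⟩
      rintro rfl
      obtain ⟨y, hy, hy1⟩ := (Subgroup.bot_or_exists_ne_one _).resolve_left (D.Y_ne j)
      have h3 : (D.s j)⁻¹ * y * D.s j ∈ D.X j := by
        rw [← D.sX]
        have : D.s j * ((D.s j)⁻¹ * y * D.s j) * (D.s j)⁻¹ = y := by group
        rwa [this]
      have h4 : v⁻¹ * y * v ∈ D.P.B := by
        rw [e]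
        set k := (D.s j)⁻¹ * c * D.s j * b' with hk
        have hkB : k ∈ D.P.B := mul_mem hc' hb'
        have e2 : (1 * D.s j * k)⁻¹ * y * (1 * D.s j * k) = k⁻¹ * ((D.s j)⁻¹ * y * D.s j) * k := by group
        rw [e2]
        exact mul_mem (mul_mem (inv_mem hkB) (D.U_le_B (D.XU j h3))) hkB
      have h5 := D.BV _ (mul_mem (mul_mem (inv_mem hv) (D.YV j hy)) hv) h4
      apply hy1
      have : y = v * (v⁻¹ * y * v) * v⁻¹ := by group
      rw [this, h5]; group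
  have key2 : ∀ v : ↥(D.V ⊓ D.Pj j), ∃ x : D.X j, (x = 1 ↔ (v : G) = 1) ∧ ((v : G) ≠ 1 → ∃ b ∈ D.P.B, (v : G) = x * D.s j * b) := by
    intro v
    by_cases h : (v : G) = 1
    · exact ⟨1, by simp [h], fun h' => absurd h h'⟩
    · obtain ⟨x, hx, hx1, b, hb, he⟩ := key v v.2 h
      refine ⟨⟨x, hx⟩, ?_, fun _ => ⟨b, hb, he⟩⟩
      constructor
      · intro h'; exact absurd (congrArg Subtype.val h') hx1
      · intro h'; exact absurd h' h
  choose f hf1 hf2 using key2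
  have hf : Function.Injective f := by
    intro v w hvw
    by_cases hv1 : (v : G) = 1
    · have h1 := (hf1 v).2 hv1
      rw [hvw] at h1
      exact Subtype.ext (hv1.trans ((hf1 w).1 h1).symm)
    · have hw1 : (w : G) ≠ 1 := by
        intro h
        have h1 := (hf1 w).2 h
        rw [← hvw] at h1
        exact hv1 ((hf1 v).1 h1)
      obtain ⟨b, hb, h1⟩ := hf2 v hv1
      obtain ⟨b', hb', h2⟩ := hf2 w hw1
      have h3 : (v : G)⁻¹ * w ∈ D.P.B := by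
        rw [h1, h2, hvw]
        have : ((f w : G) * D.s j * b)⁻¹ * ((f w : G) * D.s j * b') = b⁻¹ * b' := by group
        rw [this]
        exact mul_mem (inv_mem hb) hb'
      have h4 := D.BV _ (mul_mem (inv_mem v.2.1) w.2.1) h3
      exact Subtype.ext (inv_mul_eq_one.1 h4)
  have hle : D.Y j ≤ D.V ⊓ D.Pj j := by
    intro y hy
    refine ⟨D.YV j hy, ?_⟩
    have h3 : (D.s j)⁻¹ * y * D.s j ∈ D.X j := by
      rw [← D.sX]
      have : D.s j * ((D.s j)⁻¹ * y * D.s j) * (D.s j)⁻¹ = y := by group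
      rwa [this]
    have e : y = D.s j * ((D.s j)⁻¹ * y * D.s j) * (D.s j)⁻¹ := by group
    rw [e]
    exact (D.Pj j).mul_mem ((D.Pj j).mul_mem (D.s_Pj j) (D.B_le_Pj j (D.U_le_B (D.XU j h3)))) ((D.Pj j).inv_mem (D.s_Pj j))
  have hXY : Nat.card (D.X j) = Nat.card (D.Y j) := by
    have h1 : (D.X j).map (MulAut.conj (D.s j)).toMonoidHom = D.Y j := by
      ext y
      constructor
      · rintro ⟨x, hx, rfl⟩
        exact (D.sX j x).2 hx
      · intro hy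
        refine ⟨(D.s j)⁻¹ * y * D.s j, ?_, ?_⟩
        · change (D.s j)⁻¹ * y * D.s j ∈ D.X j
          rw [← D.sX]
          have : D.s j * ((D.s j)⁻¹ * y * D.s j) * (D.s j)⁻¹ = y := by group
          rwa [this]
        · change D.s j * ((D.s j)⁻¹ * y * D.s j) * (D.s j)⁻¹ = y
          group
    rw [← h1]
    exact Nat.card_congr (Subgroup.equivMapOfInjective _ _ (MulAut.conj (D.s j)).injective).toEquiv
  have hcard : Nat.card ↥(D.V ⊓ D.Pj j) ≤ Nat.card (D.Y j) := by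
    rw [← hXY]
    exact Nat.card_le_card_of_injective f hf
  have h6 := Subgroup.eq_of_le_of_card_ge hle hcard
  rw [h6]
  exact ⟨hv, hP⟩

theorem Y_le_Pj (j : ι) : D.Y j ≤ D.Pj j := by
  intro y hy
  have h3 : (D.s j)⁻¹ * y * D.s j ∈ D.X j := by
    rw [← D.sX]
    have : D.s j * ((D.s j)⁻¹ * y * D.s j) * (D.s j)⁻¹ = y := by group
    rwa [this]
  have e : y = D.s j * ((D.s j)⁻¹ * y * D.s j) * (D.s j)⁻¹ := by group
  rw [e]
  exact (D.Pj j).mul_mem ((D.Pj j).mul_mem (D.s_Pj j) (D.B_le_Pj j (D.U_le_B (D.XU j h3)))) ((D.Pj j).inv_mem (D.s_Pj j))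

theorem mem_Y_iff [Finite G] (j : ι) (v : G) : v ∈ D.Y j ↔ v ∈ D.V ∧ v ∈ D.Pj j :=
  ⟨fun h => ⟨D.YV j h, D.Y_le_Pj j h⟩, fun h => D.V_inf_Pj j h.1 h.2⟩

/-- an automorphism fixing `U` and `V` permutes the root groups -/
theorem perm_XY [Finite G] {α : MulAut G} (hU : ∀ x, α x ∈ D.U ↔ x ∈ D.U) (hV : ∀ x, α x ∈ D.V ↔ x ∈ D.V) :
    ∃ π : ι → ι, Function.Injective π ∧ (∀ j x, α x ∈ D.Pj (π j) ↔ x ∈ D.Pj j) ∧ (∀ j x, α x ∈ D.X (π j) ↔ x ∈ D.X j) ∧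
      (∀ j x, α x ∈ D.Y (π j) ↔ x ∈ D.Y j) := by
  have hB : ∀ x, α x ∈ D.P.B ↔ x ∈ D.P.B := by
    have key : ∀ β : MulAut G, (∀ x, β x ∈ D.U ↔ x ∈ D.U) → ∀ x, x ∈ D.P.B → β x ∈ D.P.B := by
      intro β hβ x hx
      rw [← D.normalizer_U, Subgroup.mem_normalizer_iff] at hx ⊢
      intro y
      obtain ⟨z, rfl⟩ := β.surjective y
      rw [← map_inv, ← map_mul, ← map_mul, hβ, hβ]
      exact hx z
    intro x
    refine ⟨fun h => ?_, key α hU x⟩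
    have h1 := key α⁻¹ (fun y => by rw [← hU, MulAut.apply_inv_self]) _ h
    rwa [MulAut.inv_apply_self] at h1
  choose π hπ using D.perm_Pj hB
  have hYπ : ∀ j x, α x ∈ D.Y (π j) ↔ x ∈ D.Y j := by
    intro j x
    rw [D.mem_Y_iff, D.mem_Y_iff, hV, hπ]
  -- the opposite parabolics
  set β : MulAut G := (MulAut.conj D.n0)⁻¹ * α * MulAut.conj D.n0 with hβ
  have hβx : ∀ x, D.n0 * β x * D.n0⁻¹ = α (D.n0 * x * D.n0⁻¹) := by
    intro x
    change MulAut.conj D.n0 (β x) = α (MulAut.conj D.n0 x)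
    rw [hβ, MulAut.mul_apply, MulAut.mul_apply, MulAut.apply_inv_self]
  have hβU : ∀ x, β x ∈ D.U ↔ x ∈ D.U := by
    intro x
    rw [← D.n0U, hβx, hV, D.n0U]
  have hβB : ∀ x, β x ∈ D.P.B ↔ x ∈ D.P.B := by
    have key : ∀ β : MulAut G, (∀ x, β x ∈ D.U ↔ x ∈ D.U) → ∀ x, x ∈ D.P.B → β x ∈ D.P.B := by
      intro β hβ x hx
      rw [← D.normalizer_U, Subgroup.mem_normalizer_iff] at hx ⊢
      intro y
      obtain ⟨z, rfl⟩ := β.surjective y
      rw [← map_inv, ← map_mul, ← map_mul, hβ, hβ]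
      exact hx z
    intro x
    refine ⟨fun h => ?_, key β hβU x⟩
    have h1 := key β⁻¹ (fun y => by rw [← hβU, MulAut.apply_inv_self]) _ h
    rwa [MulAut.inv_apply_self] at h1
  have hβV : ∀ x, β x ∈ D.V ↔ x ∈ D.V := by
    intro x
    rw [← D.n0V, hβx, hU, D.n0V]
  choose τ hτ using D.perm_Pj hβB
  have hXτ : ∀ j x, α x ∈ D.X (τ j) ↔ x ∈ D.X j := by
    intro j x
    have h1 : ∀ x, β x ∈ D.Y (τ j) ↔ x ∈ D.Y j := fun x => by
      rw [D.mem_Y_iff, D.mem_Y_iff, hβV, hτ]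
    have h2 := h1 (D.n0⁻¹ * x * D.n0)
    rw [← D.n0Y, ← D.n0Y j, hβx] at h2
    have e : D.n0 * (D.n0⁻¹ * x * D.n0) * D.n0⁻¹ = x := by group
    rwa [e] at h2
  have hτπ : ∀ j, τ j = π j := by
    intro j
    by_contra hne
    obtain ⟨x, hx, y, hy, hxy⟩ := D.ncomm j
    apply hxy
    apply α.injective
    rw [map_mul, map_mul]
    exact D.comm (τ j) (π j) hne _ ((hXτ j x).2 hx) _ ((hYπ j y).2 hy)
  refine ⟨π, ?_, hπ, fun j x => by rw [← hτπ j]; exact hXτ j x, hYπ⟩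
  intro i j hij
  apply D.Pj_inj
  ext x
  rw [← hπ, hij, hπ]

end SB

end Cfsg.Agent.H6.TO
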