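import Cfsg.Agent.H6_TO1
import Cfsg.Agent.H6_TwH
import Cfsg.Agent.H6_TwOrd

/-!
Twisted groups as groups with a split (B,N)-pair.
-/

set_option autoImplicit false
set_option linter.unusedSectionVars false

namespace Cfsg.Agent.H6.Chev

open Cfsg Cfsg.Lie Cfsg.Lie.ChevalleyDatum

namespace Model

variable {D : ChevalleyDatum} (m : Model D) {F : Type*} [Field F]

theorem gen_conj_iff {n : GL D.Idx F} {w : Equiv.Perm (Fin D.nroots)} (hn : n ∈ D.monomialSubgroup F) (h : m.Acts n w)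
    {R R' : ℕ → Prop} (hR : ∀ r : Fin D.nroots, R' (w r) ↔ R r) (x : GL D.Idx F) :
    n * x * n⁻¹ ∈ m.gen F R' ↔ x ∈ m.gen F R := by
  constructor
  · intro hx
    have h1 := m.acts_inv hn h
    have h2 := m.map_gen_acts (F := F) h1 (R := R') (R' := R) (fun r hr => by
      rw [← hR]
      have : w (w⁻¹ r) = r := by rw [← Equiv.Perm.mul_apply, mul_inv_cancel, Equiv.Perm.one_apply]
      rwa [this])
    have h3 := h2 ⟨_, hx, rfl⟩
    change n⁻¹ * (n * x * n⁻¹) * n⁻¹⁻¹ ∈ _ at h3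
    have e : n⁻¹ * (n * x * n⁻¹) * n⁻¹⁻¹ = x := by group
    rwa [e] at h3
  · intro hx
    exact m.map_gen_acts (F := F) h (R := R) (R' := R') (fun r hr => (hR r).2 hr) ⟨x, hx, rfl⟩

end Model

namespace TwG

variable {D : ChevalleyDatum} {m : Model D} {F : Type*} [Field F] {ι : Type} {T : Tw m F ι} (P : TwG T)

theorem mem_bnB {x : ↥P.G1} : x ∈ P.bn.B ↔ (x : GL D.Idx F) ∈ D.borelSubgroup F := by
  change x ∈ (D.borelSubgroup F ⊓ P.G1).subgroupOf P.G1 ↔ _
  rw [Subgroup.mem_subgroupOf, Subgroup.mem_inf]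
  exact ⟨fun h => h.1, fun h => ⟨h, x.2⟩⟩

theorem mem_bnN {x : ↥P.G1} : x ∈ P.bn.N ↔ (x : GL D.Idx F) ∈ D.monomialSubgroup F := by
  change x ∈ (D.monomialSubgroup F ⊓ P.G1).subgroupOf P.G1 ↔ _
  rw [Subgroup.mem_subgroupOf, Subgroup.mem_inf]
  exact ⟨fun h => h.1, fun h => ⟨h, x.2⟩⟩

/-- the split (B,N)-pair -/
noncomputable def sb {w0 : Equiv.Perm (Fin D.nroots)} (hw0 : w0 ∈ T.W1) (hl : ∀ r : Fin D.nroots, m.N ≤ r ↔ (w0 r : ℕ) < m.N)
    (hJ0 : ∀ j (r : Fin D.nroots), D.InRootSub (T.Js j) (w0 r) ↔ D.InRootSub (T.Js j) r)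
    (hcomm : ∀ i j, i ≠ j → ∀ x ∈ T.UJ i, ∀ y ∈ T.VJ j, x * y = y * x)
    (hnc : ∀ i, ∃ x ∈ T.UJ i, x ∈ P.G1 ∧ ∃ y ∈ T.VJ i, y ∈ P.G1 ∧ x * y ≠ y * x) : TO.SB ↥P.G1 ι where
  P := P.bn
  s j := ⟨P.nj j, P.nj_G j⟩
  hS := by
    ext x
    constructor
    · rintro ⟨j, hj⟩; exact ⟨j, Subtype.ext hj.symm⟩
    · rintro ⟨j, rfl⟩; exact ⟨j, rfl⟩
  s_inj := by
    intro i j hij
    have h1 : P.nj i = P.nj j := congrArg Subtype.val hij
    have h2 := P.nj_acts i
    rw [h1] at h2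
    exact T.wj_inj (m.acts_unique h2 (P.nj_acts j))
  U := (D.posUnipotent F).subgroupOf P.G1
  V := (D.negUnipotent F).subgroupOf P.G1
  H := (D.diagonalSubgroup F).subgroupOf P.G1
  X j := (T.UJ j).subgroupOf P.G1
  Y j := (T.VJ j).subgroupOf P.G1
  n0 := ⟨(P.exists_n1 hw0).choose, (P.exists_n1 hw0).choose_spec.2.1⟩
  mem_B := by
    intro b
    rw [P.mem_bnB]
    constructor
    · intro h
      obtain ⟨u, hu, huG, k, hk, hkG, he⟩ := P.mem_B1 b.2 h
      exact ⟨⟨u, huG⟩, hu, ⟨k, hkG⟩, hk, Subtype.ext he⟩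
    · rintro ⟨u, hu, k, hk, rfl⟩
      exact mul_mem (Model.U_le_B hu) (Model.H_le_B hk)
  HU := by
    intro h hh u hu
    rw [Subgroup.mem_subgroupOf] at hh hu ⊢
    rw [m.posUnipotent_eq] at hu ⊢
    exact (m.gen_conj_iff (m.H_le_N hh) (m.acts_h hh) (fun r => Iff.rfl) _).2 hu
  HV := by
    intro h hh u hu
    rw [Subgroup.mem_subgroupOf] at hh hu ⊢
    rw [m.negUnipotent_eq] at hu ⊢
    exact (m.gen_conj_iff (m.H_le_N hh) (m.acts_h hh) (fun r => Iff.rfl) _).2 hu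
  BV := by
    intro v hv hB
    rw [P.mem_bnB] at hB
    rw [Subgroup.mem_subgroupOf] at hv
    have : (v : GL D.Idx F) ∈ D.borelSubgroup F ⊓ D.negUnipotent F := Subgroup.mem_inf.2 ⟨hB, hv⟩
    rw [m.B_inf_V, Subgroup.mem_bot] at this
    exact Subtype.ext this
  n0U := by
    intro x
    have h1 := (P.exists_n1 hw0).choose_spec
    rw [Subgroup.mem_subgroupOf, Subgroup.mem_subgroupOf, m.posUnipotent_eq, m.negUnipotent_eq]
    exact m.gen_conj_iff h1.1 h1.2.2 (fun r => (hl r).symm) _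
  n0V := by
    intro x
    have h1 := (P.exists_n1 hw0).choose_spec
    rw [Subgroup.mem_subgroupOf, Subgroup.mem_subgroupOf, m.posUnipotent_eq, m.negUnipotent_eq]
    exact m.gen_conj_iff h1.1 h1.2.2 (fun r => by have := hl r; omega) _
  XU := by
    intro j x hx
    rw [Subgroup.mem_subgroupOf] at hx ⊢
    exact T.UJ_le_U j hx
  YV := by
    intro j x hx
    rw [Subgroup.mem_subgroupOf] at hx ⊢
    exact T.VJ_le_V j hx
  n0X := by
    intro j x
    have h1 := (P.exists_n1 hw0).choose_spec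
    rw [Subgroup.mem_subgroupOf, Subgroup.mem_subgroupOf]
    exact m.gen_conj_iff h1.1 h1.2.2 (fun r => by rw [hJ0, ← hl]) _
  n0Y := by
    intro j x
    have h1 := (P.exists_n1 hw0).choose_spec
    rw [Subgroup.mem_subgroupOf, Subgroup.mem_subgroupOf]
    exact m.gen_conj_iff h1.1 h1.2.2 (fun r => by
      rw [hJ0]
      have := hl r
      constructor
      · rintro ⟨h2, h3⟩; exact ⟨by omega, h3⟩
      · rintro ⟨h2, h3⟩; exact ⟨by omega, h3⟩) _
  sX := by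
    intro j x
    rw [Subgroup.mem_subgroupOf, Subgroup.mem_subgroupOf]
    exact m.gen_conj_iff (P.nj_N j) (P.nj_acts j) (fun r => by
      rw [T.wj_sub]
      constructor
      · rintro ⟨h2, h3⟩
        refine ⟨?_, h3⟩
        by_contra hc
        have := T.wj_neg' (not_le.1 hc) h3
        omega
      · rintro ⟨h2, h3⟩; exact ⟨T.wj_neg h2 h3, h3⟩) _
  Y_ne := by
    intro j h
    obtain ⟨v, hv, hvG, hv1⟩ := P.ex_V j
    have h1 : (⟨v, hvG⟩ : ↥P.G1) ∈ (T.VJ j).subgroupOf P.G1 := hv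
    rw [h, Subgroup.mem_bot] at h1
    exact hv1 (congrArg Subtype.val h1)
  split := by
    intro j b hb
    rw [P.mem_bnB] at hb
    obtain ⟨u, hu, huG, k, hk, hkG, he⟩ := P.mem_B1 b.2 hb
    obtain ⟨x, hx, hxf, a, ha, haf, rfl⟩ := T.split_fix j hu (P.le_fix huG)
    have hxG := P.UJ_le j x hx hxf
    have haU : a ∈ D.posUnipotent F := by
      rw [m.posUnipotent_eq]
      exact m.gen_mono (fun r _ hr => hr.1) ha
    have haG : a ∈ P.G1 := P.U_fix_le haU haf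
    refine ⟨⟨x, hxG⟩, hx, ⟨a, haG⟩ * ⟨k, hkG⟩, ?_, ?_, ?_⟩
    · rw [P.mem_bnB]
      exact mul_mem (Model.U_le_B haU) (Model.H_le_B hk)
    · rw [P.mem_bnB]
      change (P.nj j)⁻¹ * (a * k) * P.nj j ∈ _
      have h1 := m.acts_inv (P.nj_N j) (P.nj_acts j)
      rw [T.wj_inv] at h1
      have h2 : (P.nj j)⁻¹ * a * P.nj j ∈ D.posUnipotent F := by
        have h2 := m.map_gen_acts (F := F) h1 (R := fun r => m.N ≤ r ∧ ¬ D.InRootSub (T.Js j) r) (R' := fun r => m.N ≤ r)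
          (fun r hr => T.wj_pos hr.1 hr.2)
        have h3 := h2 ⟨a, ha, rfl⟩
        change (P.nj j)⁻¹ * a * ((P.nj j)⁻¹)⁻¹ ∈ _ at h3
        rw [inv_inv] at h3
        rw [m.posUnipotent_eq]
        exact h3
      have h3 : (P.nj j)⁻¹ * k * P.nj j ∈ D.diagonalSubgroup F := by
        have := (Subgroup.mem_normalizer_iff.1 (m.N_le_normalizer (inv_mem (P.nj_N j))) k).1 hk
        rwa [inv_inv] at this
      have e : (P.nj j)⁻¹ * (a * k) * P.nj j = ((P.nj j)⁻¹ * a * P.nj j) * ((P.nj j)⁻¹ * k * P.nj j) := by group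
      rw [e]
      exact mul_mem (Model.U_le_B h2) (Model.H_le_B h3)
    · apply Subtype.ext
      rw [he]
      change x * a * k = x * (a * k)
      rw [mul_assoc]
  long := by
    intro n hn
    rw [P.mem_bnN] at hn
    have h1 := (P.exists_n1 hw0).choose_spec
    obtain ⟨w, hw, hact⟩ := P.N1_acts hn n.2
    by_cases hex : ∃ i, m.N ≤ (w (m.p i) : ℕ)
    · left
      obtain ⟨i, hi⟩ := hex
      refine ⟨T.o i, fun x hx => ?_⟩
      rw [Subgroup.mem_subgroupOf] at hx ⊢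
      rw [m.posUnipotent_eq]
      exact m.map_gen_acts (F := F) hact (R := fun r => m.N ≤ r ∧ D.InRootSub (T.Js (T.o i)) r) (R' := fun r => m.N ≤ r)
        (fun r hr => m.sub_pos (m.isW hw.1) (J := T.Js (T.o i))
          (fun i' hi' => (T.W1_sign' hw (T.mem_Js.1 hi').symm).1 hi) hr.1 hr.2) ⟨x, hx, rfl⟩
    · right
      push Not at hex
      rw [Subgroup.mem_subgroupOf]
      change (P.exists_n1 hw0).choose⁻¹ * (n : GL D.Idx F) ∈ _
      have h2 : w = w0 := by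
        have h3 : w0⁻¹ * w ∈ m.Wg := mul_mem (inv_mem hw0.1) hw.1
        have h4 : ∀ i, m.N ≤ ((w0⁻¹ * w) (m.p i) : ℕ) := by
          intro i
          rw [hl]
          have : w0 ((w0⁻¹ * w) (m.p i)) = w (m.p i) := by
            rw [← Equiv.Perm.mul_apply, mul_inv_cancel_left]
          rw [this]
          exact hex i
        have h5 : w0⁻¹ * w = 1 := m.eq_one_of_pos h3 h4
        rw [← mul_one w0, ← h5]; group
      subst h2
      exact H_of_acts h1.1 hn h1.2.2 hact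
  comm := by
    intro i j hij x hx y hy
    exact Subtype.ext (hcomm i j hij x hx y hy)
  ncomm := by
    intro i
    obtain ⟨x, hx, hxG, y, hy, hyG, h⟩ := hnc i
    exact ⟨⟨x, hxG⟩, hx, ⟨y, hyG⟩, hy, fun he => h (congrArg Subtype.val he)⟩

end TwG

end Cfsg.Agent.H6.Chev
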