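import Cfsg.Agent.H6_SL2

/-!
Rigidity of rank one groups.
-/

set_option autoImplicit false
set_option linter.unusedSectionVars false

namespace Cfsg.Agent.H6.TO

open Cfsg.Agent.H6.SL2

local notation "SL2" => Matrix.SpecialLinearGroup (Fin 2)

section jordan

variable {k : Type*} [Field k] [Finite k]

/-- an additive map with `f(t² s) = f(t)² f(s)` and `f(1) = 1` is a ring homomorphism -/
theorem jordan (f : k → k) (hadd : ∀ x y, f (x + y) = f x + f y) (h1 : f 1 = 1)
    (h : ∀ t s, f (t ^ 2 * s) = f t ^ 2 * f s) : ∃ σ : k →+* k, ∀ x, σ x = f x := by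
  have h0 : f 0 = 0 := by
    have := hadd 0 0
    rw [add_zero] at this
    exact left_eq_add.1 this
  have hmul : ∀ x y, f (x * y) = f x * f y := by
    by_cases h2 : (2 : k) = 0
    · -- characteristic two: squares
      have hc : CharP k 2 := CharTwo.of_one_ne_zero_of_two_eq_zero one_ne_zero h2
      intro x y
      obtain ⟨t, rfl⟩ : ∃ t : k, t ^ 2 = x := by
        have hinj : Function.Injective (fun t : k => t ^ 2) := by
          intro a b hab
          have hab' : a ^ 2 = b ^ 2 := hab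
          have e : (a - b) ^ 2 = 0 := by linear_combination hab' + (b ^ 2 - a * b) * h2
          exact sub_eq_zero.1 (pow_eq_zero_iff (two_ne_zero) |>.1 e)
        exact (Finite.surjective_of_injective hinj) x
      rw [h]
      have := h t 1
      rw [mul_one, h1, mul_one] at this
      rw [this]
    · intro x y
      have e1 := h x y
      have e2 := h (x + 1) y
      have e3 : (x + 1) ^ 2 * y = x ^ 2 * y + (x * y + x * y) + y := by ring
      rw [e3, hadd, hadd, hadd, hadd, h1, e1] at e2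
      apply mul_left_cancel₀ h2
      linear_combination e2
  exact ⟨{ toFun := f, map_one' := h1, map_zero' := h0, map_add' := hadd, map_mul' := hmul }, fun x => rfl⟩

end jordan

section rigid

variable {k : Type*} [Field k] {G : Type*} [Group G] (R : RankOne k G)

/-- elements of the kernel of the map from `SL₂` are `±1` -/
theorem ker_pm {sl : SL2 k →* G} (hsl : ∀ (g : SL2 k) (t : k),
      ((g : Matrix (Fin 2) (Fin 2) k) = !![1, t; 0, 1] → sl g = R.X t) ∧
      ((g : Matrix (Fin 2) (Fin 2) k) = !![1, 0; t, 1] → sl g = R.Y t))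
    (hXi : Function.Injective R.X) {B : Subgroup G} (hXB : ∀ t, R.X t ∈ B) (hYB : ∀ t, R.Y t ∈ B → t = 0)
    {g : SL2 k} (hg : sl g = 1) : g 0 1 = 0 ∧ g 1 0 = 0 ∧ g 1 1 = g 0 0 ∧ g 0 0 * g 0 0 = 1 := by
  have hdet : g 0 0 * g 1 1 - g 0 1 * g 1 0 = 1 := by
    rw [← Matrix.det_fin_two]; exact g.2
  have eta : (g : Matrix (Fin 2) (Fin 2) k) = !![g 0 0, g 0 1; g 1 0, g 1 1] := Matrix.eta_fin_two _
  have hc : g 1 0 = 0 := by
    by_contra hc
    let u1 : SL2 k := ⟨!![1, (g 0 0 - 1) / g 1 0; 0, 1], by simp⟩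
    let l : SL2 k := ⟨!![1, 0; g 1 0, 1], by simp⟩
    let u2 : SL2 k := ⟨!![1, (g 1 1 - 1) / g 1 0; 0, 1], by simp⟩
    have e : u1 * l * u2 = g := by
      apply Subtype.ext
      rw [Matrix.SpecialLinearGroup.coe_mul, Matrix.SpecialLinearGroup.coe_mul]
      change !![1, (g 0 0 - 1) / g 1 0; 0, 1] * !![1, 0; g 1 0, 1] * !![1, (g 1 1 - 1) / g 1 0; 0, 1] = _
      rw [Matrix.mul_fin_two, Matrix.mul_fin_two, eta]
      have e1 : g 0 1 = (g 0 0 * g 1 1 - 1) / g 1 0 := by
        rw [eq_div_iff hc]; linear_combination -hdet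
      congr 1
      simp only [Matrix.of_apply]
      rw [e1]
      ext i j
      fin_cases i <;> fin_cases j <;> simp <;> field_simp <;> ring
    have h1 : R.X ((g 0 0 - 1) / g 1 0) * R.Y (g 1 0) * R.X ((g 1 1 - 1) / g 1 0) = 1 := by
      rw [← (hsl u1 _).1 rfl, ← (hsl l _).2 rfl, ← (hsl u2 _).1 rfl, ← map_mul, ← map_mul, e, hg]
    apply hc
    apply hYB
    have : R.Y (g 1 0) = (R.X ((g 0 0 - 1) / g 1 0))⁻¹ * (R.X ((g 1 1 - 1) / g 1 0))⁻¹ := by
      rw [eq_inv_mul_iff_mul_eq, ← mul_eq_one_iff_eq_inv]; exact h1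
    rw [this]
    exact mul_mem (inv_mem (hXB _)) (inv_mem (hXB _))
  rw [hc, mul_zero, sub_zero] at hdet
  have ha : g 0 0 ≠ 0 := left_ne_zero_of_mul (hdet ▸ one_ne_zero)
  -- `g` normalises: `g u(t) g⁻¹ = u(a² t)`
  have hconj : ∀ t, g 0 0 ^ 2 * t = t := by
    intro t
    let u : SL2 k := ⟨!![1, t; 0, 1], by simp⟩
    let u' : SL2 k := ⟨!![1, g 0 0 ^ 2 * t; 0, 1], by simp⟩
    have e : g * u = u' * g := by
      apply Subtype.ext
      rw [Matrix.SpecialLinearGroup.coe_mul, Matrix.SpecialLinearGroup.coe_mul]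
      change (g : Matrix (Fin 2) (Fin 2) k) * !![1, t; 0, 1] = !![1, g 0 0 ^ 2 * t; 0, 1] * (g : Matrix (Fin 2) (Fin 2) k)
      rw [eta, hc, Matrix.mul_fin_two, Matrix.mul_fin_two]
      ext i j
      fin_cases i <;> fin_cases j <;> simp
      linear_combination (-(g 0 0 * t)) * hdet
    have h1 : sl (g * u) = sl (u' * g) := by rw [e]
    rw [map_mul, map_mul, hg, one_mul, mul_one, (hsl u t).1 rfl, (hsl u' _).1 rfl] at h1
    exact (hXi h1).symm
  have haa : g 0 0 * g 0 0 = 1 := by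
    have := hconj 1
    rwa [mul_one, pow_two] at this
  have hd : g 1 1 = g 0 0 := by
    apply mul_left_cancel₀ ha
    rw [hdet, haa]
  refine ⟨?_, hc, hd, haa⟩
  -- now `g = a * u(b / a)`; `a * a = 1`
  have h0 : g 0 1 = 0 := by
    -- `g * g = u(2 a b)`, and `n g n⁻¹` is lower triangular
    let w : SL2 k := ⟨!![0, 1; -1, 0], by simp⟩
    have hwg : sl (w * g * w⁻¹) = 1 := by rw [map_mul, map_mul, hg, map_inv]; group
    -- `w g w⁻¹ = a * l(-b/a)`
    let l : SL2 k := ⟨!![1, 0; -(g 0 1 * g 0 0), 1], by simp⟩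
    have e : w * g * w⁻¹ = (w * g * w⁻¹ * l⁻¹) * l := by group
    -- `z = w g w⁻¹ l⁻¹ = diag(a, a)`, and `g u(-ba) = diag(a,a)`
    let u : SL2 k := ⟨!![1, g 0 1 * g 0 0; 0, 1], by simp⟩
    let z : SL2 k := ⟨!![g 0 0, 0; 0, g 0 0], by rw [Matrix.det_fin_two_of]; linear_combination haa⟩
    have e1 : z * u = g := by
      apply Subtype.ext
      rw [Matrix.SpecialLinearGroup.coe_mul]
      change !![g 0 0, 0; 0, g 0 0] * !![1, g 0 1 * g 0 0; 0, 1] = (g : Matrix (Fin 2) (Fin 2) k)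
      rw [eta, hc, hd, Matrix.mul_fin_two]
      ext i j
      fin_cases i <;> fin_cases j <;> simp
      linear_combination (g 0 1) * haa
    have e2 : w * g = (z * l) * w := by
      apply Subtype.ext
      rw [Matrix.SpecialLinearGroup.coe_mul, Matrix.SpecialLinearGroup.coe_mul, Matrix.SpecialLinearGroup.coe_mul]
      change !![0, 1; -1, 0] * (g : Matrix (Fin 2) (Fin 2) k) = !![g 0 0, 0; 0, g 0 0] * !![1, 0; -(g 0 1 * g 0 0), 1] * !![0, 1; -1, 0]
      rw [eta, hc, hd, Matrix.mul_fin_two, Matrix.mul_fin_two, Matrix.mul_fin_two]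
      ext i j
      fin_cases i <;> fin_cases j <;> simp
      linear_combination (-(g 0 1)) * haa
    have h1 : sl z * R.X (g 0 1 * g 0 0) = 1 := by
      rw [← (hsl u _).1 rfl, ← map_mul, e1, hg]
    have h2 : sl z * R.Y (-(g 0 1 * g 0 0)) = 1 := by
      have h3 : sl (w * g) = sl ((z * l) * w) := by rw [e2]
      rw [map_mul, map_mul, map_mul, hg, mul_one, (hsl l _).2 rfl] at h3
      exact right_eq_mul.1 h3
    have h3 : R.Y (-(g 0 1 * g 0 0)) = R.X (g 0 1 * g 0 0) := mul_left_cancel (h2.trans h1.symm)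
    have h4 := hYB _ (by rw [h3]; exact hXB _)
    have h5 : g 0 1 * g 0 0 = 0 := neg_eq_zero.1 h4
    exact (mul_eq_zero.1 h5).resolve_right ha
  exact h0

theorem b_eq (hXi : Function.Injective R.X) {B : Subgroup G} (hXB : ∀ t, R.X t ∈ B) (hYB : ∀ t, R.Y t ∈ B → t = 0)
    {a b d s : k} (hd : d ≠ 0) (h : R.X a * R.Y b * R.X a * R.X d = R.Y s * (R.X a * R.Y b * R.X a)) : 1 + a * b = 0 := by
  obtain ⟨sl, -, hsl⟩ := R.exists_hom
  let ua : SL2 k := ⟨!![1, a; 0, 1], by simp⟩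
  let lb : SL2 k := ⟨!![1, 0; b, 1], by simp⟩
  let ud : SL2 k := ⟨!![1, d; 0, 1], by simp⟩
  let ls : SL2 k := ⟨!![1, 0; s, 1], by simp⟩
  set M : SL2 k := ua * lb * ua with hM
  have hMf : (M : Matrix (Fin 2) (Fin 2) k) = !![1 + a * b, (1 + a * b) * a + a; b, b * a + 1] := by
    rw [hM, Matrix.SpecialLinearGroup.coe_mul, Matrix.SpecialLinearGroup.coe_mul]
    change !![1, a; 0, 1] * !![1, 0; b, 1] * !![1, a; 0, 1] = _
    rw [Matrix.mul_fin_two, Matrix.mul_fin_two]
    ext i j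
    fin_cases i <;> fin_cases j <;> simp
  have hMs : sl M = R.X a * R.Y b * R.X a := by
    rw [hM, map_mul, map_mul, (hsl ua a).1 rfl, (hsl lb b).2 rfl]
  have h1 : sl (M * ud) = sl (ls * M) := by
    rw [sl.map_mul M ud, sl.map_mul ls M, hMs, (hsl ud d).1 rfl, (hsl ls s).2 rfl, h]
  have h2 : sl ((ls * M)⁻¹ * (M * ud)) = 1 := by
    rw [map_mul, map_inv, h1, inv_mul_cancel]
  obtain ⟨z1, z2, z3, z4⟩ := ker_pm R hsl hXi hXB hYB h2
  set z := (ls * M)⁻¹ * (M * ud) with hz
  have h3 : M * ud = (ls * M) * z := by rw [hz]; group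
  have hzf : (z : Matrix (Fin 2) (Fin 2) k) = !![z 0 0, 0; 0, z 0 0] := by
    have e : (z : Matrix (Fin 2) (Fin 2) k) = !![z 0 0, z 0 1; z 1 0, z 1 1] := Matrix.eta_fin_two _
    rw [z1, z2, z3] at e
    exact e
  have h4 : (M : Matrix (Fin 2) (Fin 2) k) * !![1, d; 0, 1] = !![1, 0; s, 1] * (M : Matrix (Fin 2) (Fin 2) k) *
      (z : Matrix (Fin 2) (Fin 2) k) := by
    have := congrArg (fun g : SL2 k => (g : Matrix (Fin 2) (Fin 2) k)) h3
    simp only [Matrix.SpecialLinearGroup.coe_mul] at this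
    exact this
  rw [hzf, hMf, Matrix.mul_fin_two, Matrix.mul_fin_two, Matrix.mul_fin_two] at h4
  have e00 := congrFun (congrFun h4 0) 0
  have e01 := congrFun (congrFun h4 0) 1
  simp at e00 e01
  have hc : z 0 0 = 1 ∨ z 0 0 = -1 := by
    have : (z 0 0 - 1) * (z 0 0 + 1) = 0 := by linear_combination z4
    rcases mul_eq_zero.1 this with h | h
    · exact Or.inl (sub_eq_zero.1 h)
    · exact Or.inr (eq_neg_of_add_eq_zero_left h)
  rcases hc with hc | hc
  · rw [hc] at e01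
    have : (1 + a * b) * d = 0 := by linear_combination e01
    exact (mul_eq_zero.1 this).resolve_right hd
  · rw [hc] at e00 e01
    by_cases h2 : (2 : k) = 0
    · have : (1 + a * b) * d = 0 := by linear_combination e01 - ((1 + a * b) * a + a) * h2
      exact (mul_eq_zero.1 this).resolve_right hd
    · have : 2 * (1 + a * b) = 0 := by linear_combination e00
      exact (mul_eq_zero.1 this).resolve_left h2

theorem rigid [Finite k] (hXi : Function.Injective R.X) {B : Subgroup G} (hXB : ∀ t, R.X t ∈ B) (hYB : ∀ t, R.Y t ∈ B → t = 0)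
    (α : MulAut G) {f g : k → k} (hf : ∀ t, α (R.X t) = R.X (f t)) (hg : ∀ t, α (R.Y t) = R.Y (g t)) :
    ∃ σ : k →+* k, ∃ c : k, c ≠ 0 ∧ (∀ t, f t = c * σ t) ∧ ∀ t, g t = c⁻¹ * σ t := by
  have hadd : ∀ x y, f (x + y) = f x + f y := by
    intro x y
    apply hXi
    rw [← hf, R.X_add, map_mul, hf, hf, ← R.X_add]
  have hf0 : f 0 = 0 := by
    have := hadd 0 0
    rw [add_zero] at this
    exact left_eq_add.1 this
  have hfn : ∀ x, f (-x) = -f x := by
    intro x
    have := hadd x (-x)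
    rw [add_neg_cancel, hf0] at this
    exact (neg_eq_of_add_eq_zero_right this.symm).symm
  have hfi : ∀ t, t ≠ 0 → f t ≠ 0 := by
    intro t ht h
    apply ht
    apply hXi
    apply α.injective
    rw [hf, hf, h, hf0]
  have hf1 := hfi 1 one_ne_zero
  have hgt : ∀ t, t ≠ 0 → g (-t⁻¹) = -(f t)⁻¹ := by
    intro t ht
    have h1 := R.nX t 1 ht
    rw [R.n_def] at h1
    have h2 := congrArg α h1
    rw [map_mul, map_mul, map_mul, map_mul, map_mul, map_mul, hf, hf, hg, hg] at h2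
    have h3 := b_eq R hXi hXB hYB hf1 h2
    have h4 := hfi t ht
    apply mul_left_cancel₀ h4
    rw [mul_neg, mul_inv_cancel₀ h4]
    linear_combination h3
  have hαn : ∀ t, t ≠ 0 → α (R.n t) = R.n (f t) := by
    intro t ht
    rw [R.n_def, map_mul, map_mul, hf, hg, hgt t ht, R.n_def]
  have hrel : ∀ t s, t ≠ 0 → f (t ^ 2 * s) = f t ^ 2 * (f 1 ^ 2)⁻¹ * f s := by
    intro t s ht
    have h1 := R.hX ht s
    rw [R.h_def] at h1
    have h2 := congrArg α h1
    have hm1 : (-1 : k) ≠ 0 := neg_ne_zero.2 one_ne_zero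
    rw [map_mul, map_mul, map_mul, map_mul, hαn t ht, hαn (-1) hm1, hf, hf, mul_assoc, R.nX _ _ (hfi _ hm1), ← mul_assoc,
      R.nY (hfi t ht), mul_assoc] at h2
    have h3 := hXi (mul_right_cancel h2)
    rw [← h3, hfn]
    have := hf1
    field_simp
  obtain ⟨σ, hσ⟩ := jordan (fun t => (f 1)⁻¹ * f t) (fun x y => by simp only [hadd]; ring) (inv_mul_cancel₀ hf1) (by
    intro t s
    by_cases ht : t = 0
    · subst ht
      simp [hf0]
    · simp only [hrel t s ht]
      field_simp)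
  have hfσ : ∀ t, f t = f 1 * σ t := by
    intro t
    rw [hσ]
    field_simp
  refine ⟨σ, f 1, hf1, hfσ, ?_⟩
  intro t
  by_cases ht : t = 0
  · subst ht
    rw [map_zero, mul_zero]
    apply hYB
    rw [← hg, R.Y_zero, map_one]
    exact one_mem _
  · have h1 := hgt (-t⁻¹) (neg_ne_zero.2 (inv_ne_zero ht))
    have e : -(-t⁻¹)⁻¹ = t := by rw [inv_neg, neg_neg, inv_inv]
    rw [e, hfσ, map_neg, map_inv₀] at h1
    have h2 : σ t ≠ 0 := (map_ne_zero σ).2 ht
    rw [h1]
    field_simp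

end rigid

end Cfsg.Agent.H6.TO
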