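import Cfsg.Agent.H6_TO1
import Cfsg.Agent.H6_TO3

/-!
Rank one data: pull back, products; rigidity for the rank one subgroups of a split (B,N)-pair.
-/

set_option autoImplicit false
set_option linter.unusedSectionVars false

namespace Cfsg.Agent.H6.SL2.RankOne

variable {F : Type*} [Field F] {G : Type*} [Group G]

/-- pull back along a field homomorphism -/
def comap {k : Type*} [Field k] (R : RankOne F G) (f : k →+* F) : RankOne k G where
  X x := R.X (f x)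
  Y x := R.Y (f x)
  X_add x y := by rw [map_add, R.X_add]
  Y_add x y := by rw [map_add, R.Y_add]
  n x := R.n (f x)
  h x := R.h (f x)
  n_def x := by rw [R.n_def, map_neg, map_inv₀]
  h_def x := by rw [R.h_def, map_neg, map_one]
  nX t s ht := by rw [R.nX _ _ ((map_ne_zero f).2 ht), map_mul, map_neg, map_inv₀, map_pow]
  h_mul s t hs ht := by rw [R.h_mul _ _ ((map_ne_zero f).2 hs) ((map_ne_zero f).2 ht), map_mul]

section prod

variable (R R' : RankOne F G) (hXX : ∀ x y, Commute (R.X x) (R'.X y)) (hXY : ∀ x y, Commute (R.X x) (R'.Y y))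
  (hYX : ∀ x y, Commute (R.Y x) (R'.X y)) (hYY : ∀ x y, Commute (R.Y x) (R'.Y y))

include hXX hXY hYX hYY

theorem comm_nX (x y : F) : Commute (R.n x) (R'.X y) := by
  rw [R.n_def]
  exact ((hXX _ _).mul_left (hYX _ _)).mul_left (hXX _ _)

theorem comm_nY (x y : F) : Commute (R.n x) (R'.Y y) := by
  rw [R.n_def]
  exact ((hXY _ _).mul_left (hYY _ _)).mul_left (hXY _ _)

theorem comm_nn (x y : F) : Commute (R.n x) (R'.n y) := by
  rw [R'.n_def]
  exact ((comm_nX R R' hXX hXY hYX hYY _ _).mul_right (comm_nY R R' hXX hXY hYX hYY _ _)).mul_right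
    (comm_nX R R' hXX hXY hYX hYY _ _)

/-- product of commuting rank one data -/
def prod : RankOne F G where
  X x := R.X x * R'.X x
  Y x := R.Y x * R'.Y x
  X_add x y := by
    rw [R.X_add, R'.X_add]
    calc R.X x * R.X y * (R'.X x * R'.X y) = R.X x * (R.X y * R'.X x) * R'.X y := by group
      _ = R.X x * (R'.X x * R.X y) * R'.X y := by rw [(hXX y x).eq]
      _ = _ := by group
  Y_add x y := by
    rw [R.Y_add, R'.Y_add]
    calc R.Y x * R.Y y * (R'.Y x * R'.Y y) = R.Y x * (R.Y y * R'.Y x) * R'.Y y := by group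
      _ = R.Y x * (R'.Y x * R.Y y) * R'.Y y := by rw [(hYY y x).eq]
      _ = _ := by group
  n x := R.n x * R'.n x
  h x := R.h x * R'.h x
  n_def x := by
    rw [R.n_def, R'.n_def]
    have h1 : Commute (R.X x) (R'.X x * R'.Y (-x⁻¹)) := (hXX _ _).mul_right (hXY _ _)
    calc R.X x * R.Y (-x⁻¹) * R.X x * (R'.X x * R'.Y (-x⁻¹) * R'.X x)
        = R.X x * R.Y (-x⁻¹) * (R.X x * (R'.X x * R'.Y (-x⁻¹))) * R'.X x := by group
      _ = R.X x * R.Y (-x⁻¹) * ((R'.X x * R'.Y (-x⁻¹)) * R.X x) * R'.X x := by rw [h1.eq]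
      _ = R.X x * (R.Y (-x⁻¹) * R'.X x) * R'.Y (-x⁻¹) * R.X x * R'.X x := by group
      _ = R.X x * (R'.X x * R.Y (-x⁻¹)) * R'.Y (-x⁻¹) * R.X x * R'.X x := by rw [(hYX _ _).eq]
      _ = _ := by group
  h_def x := by
    rw [R.h_def, R'.h_def]
    calc R.n x * R.n (-1) * (R'.n x * R'.n (-1)) = R.n x * (R.n (-1) * R'.n x) * R'.n (-1) := by group
      _ = R.n x * (R'.n x * R.n (-1)) * R'.n (-1) := by rw [(comm_nn R R' hXX hXY hYX hYY _ _).eq]
      _ = _ := by group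
  nX t s ht := by
    calc R.n t * R'.n t * (R.X s * R'.X s) = R.n t * (R'.n t * R.X s) * R'.X s := by group
      _ = R.n t * (R.X s * R'.n t) * R'.X s := by
        rw [(comm_nX R' R (fun a b => (hXX b a).symm) (fun a b => (hYX b a).symm) (fun a b => (hXY b a).symm)
          (fun a b => (hYY b a).symm) t s).eq]
      _ = (R.n t * R.X s) * (R'.n t * R'.X s) := by group
      _ = (R.Y (-(t ^ 2)⁻¹ * s) * R.n t) * (R'.Y (-(t ^ 2)⁻¹ * s) * R'.n t) := by rw [R.nX _ _ ht, R'.nX _ _ ht]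
      _ = R.Y (-(t ^ 2)⁻¹ * s) * (R.n t * R'.Y (-(t ^ 2)⁻¹ * s)) * R'.n t := by group
      _ = R.Y (-(t ^ 2)⁻¹ * s) * (R'.Y (-(t ^ 2)⁻¹ * s) * R.n t) * R'.n t := by
        rw [(comm_nY R R' hXX hXY hYX hYY _ _).eq]
      _ = _ := by group
  h_mul s t hs ht := by
    have hh : Commute (R.h t) (R'.h s) := by
      rw [R.h_def, R'.h_def]
      exact ((comm_nn R R' hXX hXY hYX hYY _ _).mul_right (comm_nn R R' hXX hXY hYX hYY _ _)).mul_left
        ((comm_nn R R' hXX hXY hYX hYY _ _).mul_right (comm_nn R R' hXX hXY hYX hYY _ _))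
    calc R.h s * R'.h s * (R.h t * R'.h t) = R.h s * (R'.h s * R.h t) * R'.h t := by group
      _ = R.h s * (R.h t * R'.h s) * R'.h t := by rw [hh.eq]
      _ = (R.h s * R.h t) * (R'.h s * R'.h t) := by group
      _ = _ := by rw [R.h_mul _ _ hs ht, R'.h_mul _ _ hs ht]

end prod

/-- restriction to a subgroup -/
def res (R : RankOne F G) (S : Subgroup G) (hX : ∀ x, R.X x ∈ S) (hY : ∀ x, R.Y x ∈ S) :
    RankOne F S where
  X x := ⟨R.X x, hX x⟩
  Y x := ⟨R.Y x, hY x⟩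
  X_add x y := Subtype.ext (R.X_add x y)
  Y_add x y := Subtype.ext (R.Y_add x y)
  n t := ⟨R.n t, by rw [R.n_def]; exact mul_mem (mul_mem (hX _) (hY _)) (hX _)⟩
  h t := ⟨R.h t, by
    rw [R.h_def, R.n_def, R.n_def]
    exact mul_mem (mul_mem (mul_mem (hX _) (hY _)) (hX _)) (mul_mem (mul_mem (hX _) (hY _)) (hX _))⟩
  n_def t := Subtype.ext (R.n_def t)
  h_def t := Subtype.ext (R.h_def t)
  nX t s ht := Subtype.ext (R.nX t s ht)
  h_mul s t hs ht := Subtype.ext (R.h_mul s t hs ht)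

theorem map_h (R : RankOne F G) (α : MulAut G) {σ : F →+* F} (hX : ∀ t, α (R.X t) = R.X (σ t))
    (hY : ∀ t, α (R.Y t) = R.Y (σ t)) (t : F) : α (R.h t) = R.h (σ t) := by
  rw [R.h_def, R.h_def, R.n_def, R.n_def, R.n_def]
  simp only [map_mul, hX, hY, map_neg, map_inv₀, map_one]

end Cfsg.Agent.H6.SL2.RankOne

namespace Cfsg.Agent.H6.TO

open Cfsg Cfsg.Agent.H6 Cfsg.Agent.H6.BN Cfsg.Agent.H6.SL2

namespace SB

variable {G : Type*} [Group G] {ι : Type*} (D : SB G ι)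

theorem card_X (j : ι) : Nat.card (D.X j) = Nat.card (D.Y j) := by
  have h1 : (D.X j).map (MulAut.conj (D.s j)).toMonoidHom = D.Y j := by
    ext y
    constructor
    · rintro ⟨x, hx, rfl⟩
      exact (D.sX j x).2 hx
    · intro hy
      refine ⟨(D.s j)⁻¹ * y * D.s j, ?_, ?_⟩
      · change (D.s j)⁻¹ * y * D.s j ∈ D.X j
        rw [← D.sX]
        have : D.s j * ((D.s j)⁻¹ * y * D.s j) * (D.s j)⁻¹ = y := by group
        rwa [this]
      · change D.s j * ((D.s j)⁻¹ * y * D.s j) * (D.s j)⁻¹ = y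
        group
  rw [← h1]
  exact Nat.card_congr (Subgroup.equivMapOfInjective _ _ (MulAut.conj (D.s j)).injective).toEquiv

/-- rank one data parametrising `X_j`, `Y_j` -/
structure Par (D : SB G ι) (j : ι) {k : Type*} [Field k] (R : RankOne k G) : Prop where
  X : ∀ x, x ∈ D.X j ↔ ∃ t, x = R.X t
  Xi : Function.Injective R.X
  Y : ∀ t, R.Y t ∈ D.Y j
  Yi : Function.Injective R.Y

variable {D} {j : ι} {k : Type*} [Field k] [Finite k] {R : RankOne k G}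

theorem Par.exists_Y [Finite G] (h : D.Par j R) {y : G} (hy : y ∈ D.Y j) : ∃ t, y = R.Y t := by
  have hc : Nat.card k = Nat.card (D.X j) := Nat.card_congr (Equiv.ofBijective (fun t => (⟨R.X t, (h.X _).2 ⟨t, rfl⟩⟩ : D.X j))
    ⟨fun a b hab => h.Xi (congrArg Subtype.val hab), fun ⟨x, hx⟩ => by
      obtain ⟨t, rfl⟩ := (h.X x).1 hx
      exact ⟨t, rfl⟩⟩)
  rw [D.card_X] at hc
  let f : k → D.Y j := fun t => ⟨R.Y t, h.Y t⟩
  have hf : Function.Injective f := fun a b hab => h.Yi (congrArg Subtype.val hab)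
  have hb := (Nat.bijective_iff_injective_and_card f).2 ⟨hf, hc⟩
  obtain ⟨t, ht⟩ := hb.2 ⟨y, hy⟩
  exact ⟨t, (congrArg Subtype.val ht).symm⟩

theorem Par.rigid [Finite G] (h : D.Par j R) (α : MulAut G) (hX : ∀ x, α x ∈ D.X j ↔ x ∈ D.X j)
    (hY : ∀ x, α x ∈ D.Y j ↔ x ∈ D.Y j) :
    ∃ σ : k →+* k, ∃ c : k, c ≠ 0 ∧ (∀ t, α (R.X t) = R.X (c * σ t)) ∧ ∀ t, α (R.Y t) = R.Y (c⁻¹ * σ t) := by
  have h1 : ∀ t, ∃ t', α (R.X t) = R.X t' := fun t => (h.X _).1 ((hX _).2 ((h.X _).2 ⟨t, rfl⟩))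
  have h2 : ∀ t, ∃ t', α (R.Y t) = R.Y t' := fun t => h.exists_Y ((hY _).2 (h.Y t))
  choose f hf using h1
  choose g hg using h2
  obtain ⟨σ, c, hc, e1, e2⟩ := TO.rigid R h.Xi (B := D.P.B) (fun t => D.U_le_B (D.XU j ((h.X _).2 ⟨t, rfl⟩)))
    (fun t ht => h.Yi ((D.BV _ (D.YV j (h.Y t)) ht).trans R.Y_zero.symm)) α hf hg
  exact ⟨σ, c, hc, fun t => by rw [hf, e1], fun t => by rw [hg, e2]⟩

/-- elements normalising `U` and `V` -/
theorem mem_H_of {g : G} (hU : ∀ x ∈ D.U, g * x * g⁻¹ ∈ D.U) (hU' : ∀ x, g * x * g⁻¹ ∈ D.U → x ∈ D.U)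
    (hV : ∀ x ∈ D.V, g * x * g⁻¹ ∈ D.V) (hV' : ∀ x, g * x * g⁻¹ ∈ D.V → x ∈ D.V) : g ∈ D.H := by
  have h1 : g ∈ D.P.B := by
    rw [← D.normalizer_U, Subgroup.mem_normalizer_iff]
    exact fun x => ⟨hU x, hU' x⟩
  obtain ⟨u, hu, k, hk, rfl⟩ := (D.mem_B g).1 h1
  have h2 : D.n0⁻¹ * (u * k) * D.n0 ∈ D.P.B := by
    rw [← D.normalizer_U, Subgroup.mem_normalizer_iff]
    intro x
    rw [← D.n0U x, ← D.n0U]
    have e : D.n0 * (D.n0⁻¹ * (u * k) * D.n0 * x * (D.n0⁻¹ * (u * k) * D.n0)⁻¹) * D.n0⁻¹ =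
      (u * k) * (D.n0 * x * D.n0⁻¹) * (u * k)⁻¹ := by group
    rw [e]
    exact ⟨hV _, hV' _⟩
  have h3 : D.n0⁻¹ * u * D.n0 ∈ D.P.B := by
    have e : D.n0⁻¹ * u * D.n0 = (D.n0⁻¹ * (u * k) * D.n0) * (D.n0⁻¹ * k * D.n0)⁻¹ := by group
    rw [e]
    exact mul_mem h2 (inv_mem (D.n0_conj_H hk))
  have h4 : D.n0⁻¹ * u * D.n0 ∈ D.V := by
    rw [← D.n0V]
    have : D.n0 * (D.n0⁻¹ * u * D.n0) * D.n0⁻¹ = u := by group
    rwa [this]
  have h5 := D.BV _ h4 h3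
  have h6 : u = 1 := by
    have : u = D.n0 * (D.n0⁻¹ * u * D.n0) * D.n0⁻¹ := by group
    rw [this, h5]; group
  rw [h6, one_mul]
  exact hk

end SB

end Cfsg.Agent.H6.TO
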