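import Cfsg.Agent.H6_TO2
import Cfsg.Agent.H6_TO4
import Cfsg.Agent.H14_ChevV
import Cfsg.Agent.H14_ChevK
import Cfsg.Agent.H6_TwHD4

/-!
Diagonal and field automorphisms of twisted groups; counting outer automorphisms.
-/

set_option autoImplicit false
set_option linter.unusedSectionVars false

namespace Cfsg.Agent.H6.TO

open Cfsg Cfsg.Agent.H6

section count

variable {G C Γ : Type*} [Group G] [CommGroup C] [Group Γ] (δ : C →* MulAut G) (F : Γ →* MulAut G) (C0 : Subgroup C)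

/-- counting outer automorphisms -/
theorem card_out_of (h1 : ∀ α : MulAut G, ∃ (g : G) (c : C) (σ : Γ), MulAut.conj g * α = δ c * F σ)
    (h2 : ∀ (c : C) (σ : Γ) (g : G), δ c * F σ = MulAut.conj g → σ = 1 ∧ c ∈ C0)
    (h3 : ∀ c ∈ C0, ∃ g : G, δ c = MulAut.conj g) :
    Nat.card (Cfsg.Out G) = C0.index * Nat.card Γ := by
  have cj : ∀ g, (QuotientGroup.mk (MulAut.conj g) : Cfsg.Out G) = 1 := fun g => by
    rw [QuotientGroup.eq_one_iff]
    exact ⟨g, rfl⟩
  let f : C × Γ → Cfsg.Out G := fun x => QuotientGroup.mk (δ x.1 * F x.2)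
  have hf : ∀ c c' : C, ∀ σ σ' : Γ, f (c, σ) = f (c', σ') ↔ σ = σ' ∧ c'⁻¹ * c ∈ C0 := by
    intro c c' σ σ'
    constructor
    · intro h
      have h4 : (QuotientGroup.mk (δ c'⁻¹ * (δ c * F σ) * F σ'⁻¹) : Cfsg.Out G) = 1 := by
        have h5 : (QuotientGroup.mk (δ c'⁻¹ * (δ c' * F σ') * F σ'⁻¹) : Cfsg.Out G) = 1 := by
          rw [map_inv, map_inv, inv_mul_cancel_left, mul_inv_cancel, QuotientGroup.mk_one]
        rw [← h5]
        have h6 : (QuotientGroup.mk (δ c * F σ) : Cfsg.Out G) = QuotientGroup.mk (δ c' * F σ') := h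
        exact congrArg (fun x : Cfsg.Out G => (QuotientGroup.mk (δ c'⁻¹) : Cfsg.Out G) * x * QuotientGroup.mk (F σ'⁻¹)) h6
      rw [QuotientGroup.eq_one_iff] at h4
      obtain ⟨g, hg⟩ := h4
      have h5 := h2 (c'⁻¹ * c) (σ * σ'⁻¹) g (by
        rw [map_mul, map_mul, hg]; group)
      exact ⟨mul_inv_eq_one.1 h5.1, h5.2⟩
    · rintro ⟨rfl, h⟩
      obtain ⟨g, hg⟩ := h3 _ h
      have h4 : δ c = δ c' * MulAut.conj g := by
        rw [← hg, ← map_mul, mul_inv_cancel_left]
      change (QuotientGroup.mk (δ c * F σ) : Cfsg.Out G) = QuotientGroup.mk (δ c' * F σ)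
      rw [h4, QuotientGroup.mk_mul, QuotientGroup.mk_mul, cj, mul_one, ← QuotientGroup.mk_mul]
  let e : (C ⧸ C0) × Γ → Cfsg.Out G := fun x => f (x.1.out, x.2)
  have he : Function.Bijective e := by
    constructor
    · rintro ⟨a, σ⟩ ⟨b, τ⟩ h
      obtain ⟨h4, h5⟩ := (hf _ _ _ _).1 h
      have h4 : σ = τ := h4
      have h5 : (b.out)⁻¹ * a.out ∈ C0 := h5
      rw [h4]
      have h6 : (QuotientGroup.mk b.out : C ⧸ C0) = QuotientGroup.mk a.out := QuotientGroup.eq.2 h5
      rw [QuotientGroup.out_eq', QuotientGroup.out_eq'] at h6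
      rw [h6]
    · intro x
      induction x using QuotientGroup.induction_on with
      | H α =>
        obtain ⟨g, c, σ, h⟩ := h1 α
        refine ⟨(QuotientGroup.mk c, σ), ?_⟩
        have h4 : (QuotientGroup.mk α : Cfsg.Out G) = f (c, σ) := by
          change _ = (QuotientGroup.mk (δ c * F σ) : Cfsg.Out G)
          rw [← h, QuotientGroup.mk_mul, cj, one_mul]
        rw [h4]
        apply (hf _ _ _ _).2
        refine ⟨rfl, ?_⟩
        apply QuotientGroup.eq.1
        rw [QuotientGroup.out_eq']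
  rw [← Nat.card_congr (Equiv.ofBijective e he), Nat.card_prod]
  rfl

end count

/-- the action of torus elements glues the field maps -/
theorem glue {G : Type*} [Group G] {k k' : Type*} [Field k] [Field k'] (R : SL2.RankOne k G) (R' : SL2.RankOne k' G)
    (hi : Function.Injective R'.X) (f : k →+* k') (hact : ∀ u : k, u ≠ 0 → ∀ s, R.h u * R'.X s * (R.h u)⁻¹ = R'.X ((f u)⁻¹ * s))
    (α : MulAut G) {σ : k →+* k} {σ' : k' →+* k'} (hX : ∀ t, α (R.X t) = R.X (σ t)) (hY : ∀ t, α (R.Y t) = R.Y (σ t))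
    (hX' : ∀ t, α (R'.X t) = R'.X (σ' t)) (u : k) : σ' (f u) = f (σ u) := by
  by_cases hu : u = 0
  · rw [hu, map_zero, map_zero, map_zero, map_zero]
  have h1 := congrArg α (hact u hu 1)
  rw [map_mul, map_mul, map_inv, R.map_h α hX hY, hX', hX', hact _ ((map_ne_zero σ).2 hu)] at h1
  have h2 := hi h1
  rw [map_one, mul_one, mul_one, map_inv₀] at h2
  exact (inv_injective h2).symm

end Cfsg.Agent.H6.TO

namespace Cfsg.Agent.H6.Chev

open Cfsg Cfsg.Lie Cfsg.Lie.ChevalleyDatum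
open Cfsg.Agent.H14.Chev (fr fr_X fr_hHom fr_H fr_gen)

namespace Model

variable {D : ChevalleyDatum} (m : Model D) {F : Type*} [Field F]

/-- diagonal elements -/
noncomputable def dT (F : Type*) [Field F] : (Fin D.rank → Fˣ) →* GL D.Idx F := m.dmHom.comp (ext1 D F)

theorem dT_X (b : Fin D.rank → Fˣ) (r : ℕ) (t : F) :
    m.dT F b * m.X r t * (m.dT F b)⁻¹ = m.X r (((m.chi (ext1 D F b) r : Fˣ) : F) * t) := by
  rw [mul_inv_eq_iff_eq_mul]
  exact m.dm_X _ _ _

theorem chi_p (b : Fin D.rank → Fˣ) (i : Fin D.rank) : m.chi (ext1 D F b) (D.simple i) = b i := by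
  rw [m.chi_simple _ i.2, ext1_apply]

theorem chi_np (b : Fin D.rank → Fˣ) (i : Fin D.rank) : m.chi (ext1 D F b) (D.neg (D.simple i)) = (b i)⁻¹ := by
  have h := m.chi_neg (ext1 D F b) (m.p i).2
  rw [m.coe_p, m.chi_p] at h
  exact h

theorem dT_inj {b c : Fin D.rank → Fˣ} (h : m.dT F b = m.dT F c) : b = c := by
  funext i
  have := m.dm_inj h i i.2
  rwa [ext1_apply, ext1_apply] at this

/-- the Cartan map -/
def cm (D : ChevalleyDatum) (F : Type*) [Field F] : (Fin D.rank → Fˣ) →* (Fin D.rank → Fˣ) where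
  toFun b j := ∏ k : Fin D.rank, b k ^ D.cartan k (D.simple j)
  map_one' := by funext j; simp
  map_mul' b c := by funext j; simp [mul_zpow, Finset.prod_mul_distrib]

theorem hT_eq_dT (b : Fin D.rank → Fˣ) : m.hT F b = m.dT F (cm D F b) := by
  rw [m.hT_eq]
  apply m.dm_congr
  intro k hk
  have h := ext1_apply (D := D) (F := F) (cm D F b) ⟨k, hk⟩
  change _ = ext1 D F (cm D F b) k
  change ext1 D F (cm D F b) k = _ at h
  rw [h]
  change ∏ i ∈ Finset.range D.rank, _ = _
  rw [Finset.prod_range]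
  apply Finset.prod_congr rfl
  intro i _
  rw [ext1_apply]

theorem dT_word (b : Fin D.rank → Fˣ) (w : List (ℕ × F)) :
    m.dT F b * m.word w * (m.dT F b)⁻¹ = m.word (w.map fun p => (p.1, ((m.chi (ext1 D F b) p.1 : Fˣ) : F) * p.2)) := by
  induction w with
  | nil => simp [Model.word_nil]
  | cons p w ih =>
    rw [List.map_cons, Model.word_cons, Model.word_cons, ← ih, ← m.dT_X]
    group

theorem fr_word' (σ : F →+* F) (w : List (ℕ × F)) : fr D σ (m.word w) = m.word (w.map fun p => (p.1, σ p.2)) := by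
  induction w with
  | nil => simp [Model.word_nil]
  | cons p w ih =>
    rw [List.map_cons, Model.word_cons, Model.word_cons, ← ih, map_mul, fr_X m]

end Model

section aut

variable {D : ChevalleyDatum} {K : Type*} [Field K]

theorem fr_comp (σ τ : K →+* K) (g : GL D.Idx K) : fr D (σ.comp τ) g = fr D σ (fr D τ g) := rfl

theorem fr_id (g : GL D.Idx K) : fr D (RingHom.id K) g = g := by
  apply Units.ext
  ext i j
  rfl

/-- field automorphisms -/
noncomputable def frA (G1 : Subgroup (GL D.Idx K)) (h : ∀ σ : K →+* K, ∀ g ∈ G1, fr D σ g ∈ G1) : (RingAut K) →* MulAut ↥G1 where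
  toFun σ :=
    { toFun := fun g => ⟨fr D (σ : K →+* K) g, h _ g g.2⟩
      invFun := fun g => ⟨fr D (σ.symm : K →+* K) g, h _ g g.2⟩
      left_inv := fun g => by
        apply Subtype.ext
        change fr D _ (fr D _ _) = _
        rw [← fr_comp]
        have : (σ.symm : K →+* K).comp (σ : K →+* K) = RingHom.id K := by ext x; simp
        rw [this, fr_id]
      right_inv := fun g => by
        apply Subtype.ext
        change fr D _ (fr D _ _) = _
        rw [← fr_comp]
        have : (σ : K →+* K).comp (σ.symm : K →+* K) = RingHom.id K := by ext x; simp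
        rw [this, fr_id]
      map_mul' := fun a b => Subtype.ext (map_mul (fr D (σ : K →+* K)) _ _) }
  map_one' := by
    ext g : 1
    apply Subtype.ext
    exact fr_id _
  map_mul' σ τ := by
    ext g : 1
    apply Subtype.ext
    rfl

theorem coe_frA (G1 : Subgroup (GL D.Idx K)) (h : ∀ σ : K →+* K, ∀ g ∈ G1, fr D σ g ∈ G1) (σ : RingAut K) (g : ↥G1) :
    ((frA G1 h σ g : ↥G1) : GL D.Idx K) = fr D (σ : K →+* K) g := rfl

/-- diagonal automorphisms -/
noncomputable def dA (m : Model D) (A : Subgroup (Fin D.rank → Kˣ)) (G1 : Subgroup (GL D.Idx K))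
    (h : ∀ b ∈ A, ∀ g ∈ G1, m.dT K b * g * (m.dT K b)⁻¹ ∈ G1) : A →* MulAut ↥G1 :=
  G1.normalizerMonoidHom.comp (((m.dT K).comp A.subtype).codRestrict _ fun b => by
    rw [Subgroup.mem_normalizer_iff]
    intro g
    refine ⟨h b b.2 g, fun h1 => ?_⟩
    have h2 := h _ (inv_mem b.2) _ h1
    rw [map_inv, inv_inv] at h2
    have e : (m.dT K (b : Fin D.rank → Kˣ))⁻¹ * (m.dT K (b : Fin D.rank → Kˣ) * g * (m.dT K (b : Fin D.rank → Kˣ))⁻¹) *
      m.dT K (b : Fin D.rank → Kˣ) = g := by group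
    rwa [← e])

theorem coe_dA (m : Model D) (A : Subgroup (Fin D.rank → Kˣ)) (G1 : Subgroup (GL D.Idx K))
    (h : ∀ b ∈ A, ∀ g ∈ G1, m.dT K b * g * (m.dT K b)⁻¹ ∈ G1) (b : A) (g : ↥G1) :
    ((dA m A G1 h b g : ↥G1) : GL D.Idx K) = m.dT K b * g * (m.dT K b)⁻¹ := rfl

end aut

section torus

variable {D : ChevalleyDatum} {m : Model D} {K : Type*} [Field K] {ι : Type} (T : Tw m K ι)

theorem Tw.cm_Tf {b : Fin D.rank → Kˣ} (hb : b ∈ T.Tf) : Model.cm D K b ∈ T.Tf := by
  rw [Tw.mem_Tf']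
  intro i
  have h1 : T.s (m.hT K b) = m.hT K b := by rw [T.s_hT, T.mem_Tf.1 hb]
  have hg := m.H_le_G (m.hT_mem_H (F := K) b)
  have h2 : m.hT K b * m.X (m.p i) 1 * (m.hT K b)⁻¹ = m.X (m.p i) ((Model.cm D K b i : Kˣ) : K) := by
    rw [m.hT_eq_dT, m.coe_p, m.dT_X, m.chi_p, mul_one]
  have h3 := congrArg T.s h2
  rw [T.s_mul (mul_mem hg (m.X_mem_group _ _)) (inv_mem hg), T.s_mul hg (m.X_mem_group _ _), T.s_inv hg, h1,
    T.s_X, T.s_X, T.ρ_p, T.ε_p, one_mul, one_mul, map_one, m.hT_eq_dT, m.coe_p, m.dT_X, m.chi_p, mul_one] at h3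
  apply Units.ext
  exact m.X_inj (m.p (T.π i)).2 h3

/-- the Cartan map on the fixed torus parameters -/
def Tw.cmT : T.Tf →* T.Tf := ((Model.cm D K).comp T.Tf.subtype).codRestrict T.Tf fun b => T.cm_Tf b.2

theorem Tw.index_cmT [Finite K] : T.cmT.range.index = Nat.card ↥(T.Tf ⊓ (m.hT K).ker) := by
  have h1 := T.cmT.range.card_mul_index
  have h2 := T.cmT.ker.card_mul_index
  rw [Subgroup.index_ker] at h2
  have h3 : 0 < Nat.card T.cmT.range := Nat.card_pos
  have h4 : Nat.card T.cmT.ker = Nat.card ↥(T.Tf ⊓ (m.hT K).ker) := by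
    refine Nat.card_congr
      { toFun := fun b => ⟨b.1.1, b.1.2, ?_⟩
        invFun := fun b => ⟨⟨b.1, b.2.1⟩, ?_⟩
        left_inv := fun b => rfl
        right_inv := fun b => rfl }
    · have h5 : T.cmT b.1 = 1 := b.2
      have h6 := congrArg Subtype.val h5
      change Model.cm D K b.1.1 = 1 at h6
      change m.hT K b.1.1 = 1
      rw [m.hT_eq_dT, h6, map_one]
    · have h5 : m.hT K b.1 = 1 := b.2.2
      rw [MonoidHom.mem_ker]
      apply Subtype.ext
      apply m.dT_inj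
      change m.dT K (Model.cm D K b.1) = _
      rw [← m.hT_eq_dT, h5]
      exact (map_one _).symm
  rw [← h4]
  have h5 : Nat.card T.cmT.range * T.cmT.range.index = Nat.card T.cmT.range * Nat.card T.cmT.ker := by
    rw [h1, ← h2, mul_comm]
  exact Nat.eq_of_mul_eq_mul_left h3 h5

end torus

/-- the fixed field -/
def kF {K : Type*} [Field K] (φ : K ≃+* K) : Subfield K := RingHom.eqLocusField (φ : K →+* K) (RingHom.id K)

theorem mem_kF {K : Type*} [Field K] {φ : K ≃+* K} {t : K} : t ∈ kF φ ↔ φ t = t := Iff.rfl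

end Cfsg.Agent.H6.Chev
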