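import Cfsg.Agent.H6_TO5
import Cfsg.Agent.H6_TwPf

/-!
Twisted groups as groups with a split (B,N)-pair: table checks.
-/

set_option autoImplicit false
set_option linter.unusedSectionVars false
set_option maxRecDepth 100000

namespace Cfsg.Agent.H6.SL2.RankOne

variable {F : Type*} [Field F] {G : Type*} [Group G]

theorem noncomm (R : RankOne F G) (h : ∀ s t, R.X s = R.Y t → s = 0) : R.X 1 * R.Y (-1) ≠ R.Y (-1) * R.X 1 := by
  intro hc
  have h1 := R.nX 1 1 one_ne_zero
  have h2 : R.n 1 = R.X 1 * R.Y (-1) * R.X 1 := by rw [R.n_def, inv_one]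
  rw [one_pow, inv_one, mul_one, h2] at h1
  have h3 : R.X 1 * R.Y (-1) * R.X 1 * R.X 1 = R.X 1 * (R.X 1 * R.Y (-1) * R.X 1) := by
    calc R.X 1 * R.Y (-1) * R.X 1 * R.X 1 = R.X 1 * (R.Y (-1) * R.X 1) * R.X 1 := by group
      _ = R.X 1 * (R.X 1 * R.Y (-1)) * R.X 1 := by rw [hc]
      _ = _ := by group
  rw [h3] at h1
  exact one_ne_zero (h _ _ (mul_right_cancel h1))

end Cfsg.Agent.H6.SL2.RankOne

namespace Cfsg.Agent.H6.Chev

open Cfsg Cfsg.Lie Cfsg.Lie.ChevalleyDatum

namespace Model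

variable {D : ChevalleyDatum} (m : Model D) {F : Type*} [Field F]

theorem gen_comm {R R' : ℕ → Prop} (h : ∀ r < D.nroots, R r → ∀ s < D.nroots, R' s → ∀ x y : F, m.X r x * m.X s y = m.X s y * m.X r x)
    {a b : GL D.Idx F} (ha : a ∈ m.gen F R) (hb : b ∈ m.gen F R') : a * b = b * a := by
  have h1 : m.gen F R' ≤ Subgroup.centralizer (m.gen F R : Set (GL D.Idx F)) := by
    apply m.gen_le
    intro s hs hRs y
    rw [Subgroup.mem_centralizer_iff]
    intro g hg
    have h2 : m.gen F R ≤ Subgroup.centralizer {m.X s y} := by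
      apply m.gen_le
      intro r hr hRr x
      rw [Subgroup.mem_centralizer_iff]
      rintro _ rfl
      exact (h r hr hRr s hs hRs x y).symm
    exact (Subgroup.mem_centralizer_iff.1 (h2 hg) _ rfl).symm
  exact Subgroup.mem_centralizer_iff.1 (h1 hb) a ha

theorem inRootSub_ng_iff {J : Set ℕ} (r : Fin D.nroots) : D.InRootSub J (m.ng r) ↔ D.InRootSub J r := by
  constructor
  · intro h
    have := m.inRootSub_neg (m.ng r).2 h
    rwa [m.coe_ng, m.neg_neg r.2] at this
  · exact m.inRootSub_neg r.2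

end Model

namespace Tab

variable {t : Tab} {k : ℕ} (d : t.TwD k) {D : ChevalleyDatum} (m : Model D) (b : t.Base D) (ck : t.Checks D)
  {F : Type*} [Field F]

theorem comm_UV (T : Tw m F (Fin k)) (hT : T.toTwC = d.toTwC m b ck) {i j : Fin k}
    (h : (allNat t.N fun s => allNat t.N fun r => !(Nat.blt (t.pw (d.Wl i) (t.N + r)) t.N &&
      Nat.blt (t.pw (d.Wl j) (t.ng s)) t.N) || t.comOK 0 (t.N + r) s) = true)
    {x y : GL D.Idx F} (hx : x ∈ T.UJ i) (hy : y ∈ T.VJ j) : x * y = y * x := by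
  have hn := b.nroots
  have hn2 := b.n2
  have hN := TwD.N_eq m b
  refine m.gen_comm (R := fun r => m.N ≤ r ∧ D.InRootSub (T.Js i) r) (R' := fun r => r < m.N ∧ D.InRootSub (T.Js j) r) ?_ hx hy
  rintro r hr ⟨h1, h2⟩ s hs ⟨h3, h4⟩ x y
  have h5 := allNat_iff (allNat_iff h s (by omega)) (r - t.N) (by omega)
  rw [show t.N + (r - t.N) = r by omega] at h5
  have h6 : Nat.blt (t.pw (d.Wl i) r) t.N = true := by
    have h7 := (T.wj_neg_iff (j := i) (r := ⟨r, hr⟩) h1).2 h2
    have h8 := d.wj_eq m b ck i ⟨r, hr⟩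
    rw [← hT] at h8
    rw [h8, hN] at h7
    rw [Nat.blt_eq]; exact h7
  have h7 : Nat.blt (t.pw (d.Wl j) (t.ng s)) t.N = true := by
    have h9 : m.N ≤ (m.ng ⟨s, hs⟩ : ℕ) := (m.ng_ge_iff _).2 h3
    have h7 := (T.wj_neg_iff (j := j) h9).2 ((m.inRootSub_ng_iff ⟨s, hs⟩).2 h4)
    have h8 := d.wj_eq m b ck j (m.ng ⟨s, hs⟩)
    rw [← hT] at h8
    rw [h8, hN, m.coe_ng, b.ng_eq (by omega)] at h7
    rw [Nat.blt_eq]; exact h7
  rw [h6, h7] at h5
  simp only [Bool.and_self, Bool.not_true, Bool.false_or] at h5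
  exact com_sound m b ck (p := 0) (by simp) (by omega) (by omega) h5 x y

/-- product of the generators of the twisted Weyl group -/
def pwl (d : t.TwD k) (l : List (Fin k)) (r : ℕ) : ℕ := l.foldr (fun j x => t.pw (d.Wl j) x) r

theorem w0_eq (T : Tw m F (Fin k)) (hT : T.toTwC = d.toTwC m b ck) (l : List (Fin k)) (r : Fin D.nroots) :
    (((l.map T.wj).prod r : Fin D.nroots) : ℕ) = pwl d l r := by
  induction l with
  | nil => rfl
  | cons j l ih =>
    rw [List.map_cons, List.prod_cons, Equiv.Perm.mul_apply]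
    have h := d.wj_eq m b ck j ((l.map T.wj).prod r)
    rw [← hT] at h
    rw [h, ih]
    rfl

end Tab

theorem Tw.wjs_mem {D : ChevalleyDatum} {m : Model D} {F : Type*} [Field F] {ι : Type} (T : Tw m F ι) (l : List ι) :
    (l.map T.wj).prod ∈ T.W1 := by
  apply Subgroup.list_prod_mem
  intro w hw
  rw [List.mem_map] at hw
  obtain ⟨j, -, rfl⟩ := hw
  exact T.wj_mem_W1 j

end Cfsg.Agent.H6.Chev
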