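import Cfsg.Agent.H6_TO6

/-!
The groups `³D₄(q)`: the split (B,N)-pair.
-/

set_option autoImplicit false
set_option linter.unusedSectionVars false
set_option maxRecDepth 100000

namespace Cfsg.Agent.H6.Chev

open Cfsg Cfsg.Lie Cfsg.Lie.ChevalleyDatum
open Cfsg.Agent.H6.SL2

section D4

variable {K : Type*} [Field K] (φ : K ≃+* K)

theorem d4_lt : (14 < chevD4.nroots ∧ 18 < chevD4.nroots) ∧ 13 < chevD4.nroots ∧ 12 < chevD4.nroots := by
  have hn := baseD4.nroots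
  have hn' : tabD4.n = 24 := rfl
  omega

theorem d4_ng : chevD4.neg 14 = 9 ∧ chevD4.neg 18 = 5 ∧ chevD4.neg 13 = 10 ∧ chevD4.neg 12 = 11 :=
  ⟨baseD4.ng_eq (r := 14) (by decide), baseD4.ng_eq (r := 18) (by decide), baseD4.ng_eq (r := 13) (by decide),
    baseD4.ng_eq (r := 12) (by decide)⟩

theorem d4_o1 : Model.Ort K modelD4 18 13 := ort_of modelD4 baseD4 checksD4 (p := 0) (by simp) (by decide +kernel)
theorem d4_o2 : Model.Ort K modelD4 18 12 := ort_of modelD4 baseD4 checksD4 (p := 0) (by simp) (by decide +kernel)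
theorem d4_o3 : Model.Ort K modelD4 13 12 := ort_of modelD4 baseD4 checksD4 (p := 0) (by simp) (by decide +kernel)

/-- rank one datum of the first node -/
noncomputable def d4R0 : RankOne (kF φ) (GL chevD4.Idx K) := (modelD4.rk1 K d4_lt.1.1).comap (kF φ).subtype

/-- rank one datum of two roots -/
noncomputable def d4R2 : RankOne K (GL chevD4.Idx K) :=
  RankOne.prod ((modelD4.rk1 K d4_lt.2.1).comap (φ : K →+* K)) ((modelD4.rk1 K d4_lt.2.2).comap ((φ : K →+* K).comp (φ : K →+* K)))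
    (fun _ _ => d4_o3.1 _ _) (fun _ _ => d4_o3.2.1 _ _) (fun _ _ => d4_o3.2.2.1 _ _) (fun _ _ => d4_o3.2.2.2 _ _)

/-- rank one datum of the second node -/
noncomputable def d4R1 : RankOne K (GL chevD4.Idx K) :=
  RankOne.prod (modelD4.rk1 K d4_lt.1.2) (d4R2 φ)
    (fun _ _ => Commute.mul_right (d4_o1.1 _ _) (d4_o2.1 _ _))
    (fun _ _ => Commute.mul_right (d4_o1.2.1 _ _) (d4_o2.2.1 _ _))
    (fun _ _ => Commute.mul_right (d4_o1.2.2.1 _ _) (d4_o2.2.2.1 _ _))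
    (fun _ _ => Commute.mul_right (d4_o1.2.2.2 _ _) (d4_o2.2.2.2 _ _))

theorem d4R0_X (t : kF φ) : (d4R0 φ).X t = modelD4.X 14 (t : K) := rfl

theorem d4R0_Y (t : kF φ) : (d4R0 φ).Y t = modelD4.X 9 (t : K) := by
  change modelD4.X (chevD4.neg 14) _ = _
  rw [d4_ng.1]; rfl

theorem d4R1_X (t : K) : (d4R1 φ).X t = modelD4.X 18 t * (modelD4.X 13 (φ t) * modelD4.X 12 (φ (φ t))) := rfl

theorem d4R1_Y (t : K) : (d4R1 φ).Y t = modelD4.X 5 t * (modelD4.X 10 (φ t) * modelD4.X 11 (φ (φ t))) := by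
  change modelD4.X (chevD4.neg 18) _ * (modelD4.X (chevD4.neg 13) _ * modelD4.X (chevD4.neg 12) _) = _
  rw [d4_ng.2.1, d4_ng.2.2.1, d4_ng.2.2.2]; rfl

theorem d4R0_Xi : Function.Injective (d4R0 φ).X := fun a b h => by
  rw [d4R0_X, d4R0_X] at h
  exact Subtype.ext (modelD4.X_inj d4_lt.1.1 h)

theorem d4R0_Yi : Function.Injective (d4R0 φ).Y := fun a b h => by
  have hn := baseD4.nroots
  have hn' : tabD4.n = 24 := rfl
  rw [d4R0_Y, d4R0_Y] at h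
  exact Subtype.ext (modelD4.X_inj (r := 9) (by omega) h)

theorem d4R1_Xi : Function.Injective (d4R1 φ).X := fun a b h => by
  rw [d4R1_X, d4R1_X] at h
  have key : ∀ x y z : K, modelD4.X 18 x * (modelD4.X 13 y * modelD4.X 12 z) =
      modelD4.X 12 z * (modelD4.X 13 y * modelD4.X 18 x) := by
    intro x y z
    rw [comD4 (a := 13) (c := 12) (by decide +kernel), ← mul_assoc,
      comD4 (a := 18) (c := 12) (by decide +kernel), mul_assoc, comD4 (a := 18) (c := 13) (by decide +kernel)]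
  rw [key, key] at h
  exact (triple_inj (d4_UJ φ 1 (L := [12, 13, 18]) (by decide +kernel)).2 h).2.2

theorem d4_neg_word {a b c : K} (h : modelD4.X 5 a * (modelD4.X 10 b * modelD4.X 11 c) = 1) : a = 0 := by
  by_contra ha
  have hp : ∀ k : ℕ, k < 4 → chevD4.simple k = nth tabD4.S k := fun k hk => baseD4.simple_eq hk
  have hr : chevD4.rank = 4 := baseD4.rank
  have hg : ∀ r < 24, chevD4.neg r = tabD4.ng r := fun r hr => baseD4.ng_eq hr
  have e5 : chevD4.neg (chevD4.simple 0) = 5 := by rw [hp 0 (by norm_num), hg _ (by decide)]; decide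
  have e10 : chevD4.neg (chevD4.simple 2) = 10 := by rw [hp 2 (by norm_num), hg _ (by decide)]; decide
  have e11 : chevD4.neg (chevD4.simple 3) = 11 := by rw [hp 3 (by norm_num), hg _ (by decide)]; decide
  have h1 := modelD4.word_neg_ne_one (F := K) (i := 0) (by omega) ha (l := [(10, b), (11, c)]) (by
    intro p hp
    simp only [List.mem_cons, List.not_mem_nil, or_false] at hp
    rcases hp with rfl | rfl
    · exact ⟨2, by omega, by norm_num, e10.symm⟩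
    · exact ⟨3, by omega, by norm_num, e11.symm⟩)
  rw [e5, Model.word_cons, Model.word_cons, Model.word_nil, mul_one] at h1
  exact h1 h

theorem d4R1_Yi : Function.Injective (d4R1 φ).Y := fun a b h => by
  have h1 : (d4R1 φ).Y (a - b) = 1 := by
    rw [sub_eq_add_neg, (d4R1 φ).Y_add, h, ← (d4R1 φ).Y_add, add_neg_cancel, (d4R1 φ).Y_zero]
  rw [d4R1_Y] at h1
  exact sub_eq_zero.1 (d4_neg_word h1)

variable {q : ℕ} (hφ : ∀ x, φ x = x ^ q) (hφ3 : ∀ x : K, ((x ^ q) ^ q) ^ q = x)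

include hφ hφ3

theorem d4R0_iff (g : GL chevD4.Idx K) :
    (g ∈ (twD4 φ).UJ 0 ∧ g ∈ (twD4 φ).fix) ↔ ∃ t, g = (d4R0 φ).X t := by
  rw [d4_UJ0 φ hφ hφ3]
  constructor
  · rintro ⟨⟨t, ht⟩, rfl⟩
    exact ⟨⟨t, (hφ t).trans ht⟩, rfl⟩
  · rintro ⟨⟨t, ht⟩, rfl⟩
    exact ⟨⟨t, (hφ t).symm.trans ht⟩, rfl⟩

theorem d4R1_iff (g : GL chevD4.Idx K) :
    (g ∈ (twD4 φ).UJ 1 ∧ g ∈ (twD4 φ).fix) ↔ ∃ t, g = (d4R1 φ).X t := by
  rw [d4_UJ1 φ hφ hφ3]
  have e : ∀ t : K, modelD4.X 18 t * (modelD4.X 13 (t ^ q) * modelD4.X 12 (t ^ q ^ 2)) = (d4R1 φ).X t := by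
    intro t
    rw [d4R1_X, hφ, hφ, sq, pow_mul]
  simp only [e]

omit hφ3 in
theorem d4R0_Y_mem {P : TwG (twD4 φ)} (hP : P.G1 = twistedD4 K q) (t : kF φ) :
    (d4R0 φ).Y t ∈ (twD4 φ).VJ 0 ∧ (d4R0 φ).Y t ∈ P.G1 := by
  rw [d4R0_Y, hP]
  exact ⟨d4_VJ φ 0 (r := 9) (by decide +kernel) _, d4_single_G ((hφ _).symm.trans t.2) (by decide)⟩

omit hφ3 in
theorem d4R1_Y_mem {P : TwG (twD4 φ)} (hP : P.G1 = twistedD4 K q) (t : K) :
    (d4R1 φ).Y t ∈ (twD4 φ).VJ 1 ∧ (d4R1 φ).Y t ∈ P.G1 := by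
  rw [d4R1_Y, hP]
  refine ⟨mul_mem (d4_VJ φ 1 (r := 5) (by decide +kernel) _) (mul_mem (d4_VJ φ 1 (r := 10) (by decide +kernel) _)
        (d4_VJ φ 1 (r := 11) (by decide +kernel) _)), ?_⟩
  have := d4_triple_G (q := q) t (a := 5) (b := 10) (c := 11) (by decide)
  rwa [sq, pow_mul, ← hφ, ← hφ] at this

omit hφ3 in
theorem d4R1_X_mem {P : TwG (twD4 φ)} (hP : P.G1 = twistedD4 K q) (t : K) : (d4R1 φ).X t ∈ P.G1 := by
  rw [d4R1_X, hP]
  have := d4_triple_G (q := q) t (a := 18) (b := 13) (c := 12) (by decide)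
  rwa [sq, pow_mul, ← hφ, ← hφ] at this

omit hφ3 in
theorem d4R0_X_mem {P : TwG (twD4 φ)} (hP : P.G1 = twistedD4 K q) (t : kF φ) : (d4R0 φ).X t ∈ P.G1 := by
  rw [d4R0_X, hP]
  exact d4_single_G ((hφ _).symm.trans t.2) (by decide)

omit hφ hφ3 in
theorem d4_XY {F : Type*} [Field F] (R : RankOne F (GL chevD4.Idx K)) {j : Fin 2} (hi : Function.Injective R.X)
    (hX : ∀ t, R.X t ∈ (twD4 φ).UJ j) (hY : ∀ t, R.Y t ∈ (twD4 φ).VJ j) : R.X 1 * R.Y (-1) ≠ R.Y (-1) * R.X 1 := by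
  apply R.noncomm
  intro s t h
  have h1 := (twD4 φ).UJ_le_U j (hX s)
  have h2 := (twD4 φ).VJ_le_V j (hY t)
  rw [← h] at h2
  have h3 : R.X s ∈ chevD4.borelSubgroup K ⊓ chevD4.negUnipotent K := Subgroup.mem_inf.2 ⟨Model.U_le_B h1, h2⟩
  rw [modelD4.B_inf_V, Subgroup.mem_bot] at h3
  exact hi (h3.trans R.X_zero.symm)

omit hφ hφ3 in
theorem d4_w0 (r : Fin chevD4.nroots) : ((([0, 1, 0, 1, 0, 1] : List (Fin 2)).map (twD4 φ).wj).prod r) = modelD4.ng r := by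
  apply Fin.ext
  have h := Tab.w0_eq twdD4 modelD4 baseD4 checksD4 (twD4 φ) rfl [0, 1, 0, 1, 0, 1] r
  rw [h]
  have hn := baseD4.nroots
  have h1 := allNat_iff (by decide +kernel : (allNat tabD4.n fun r => Nat.beq (Tab.pwl twdD4 [0, 1, 0, 1, 0, 1] r) (tabD4.ng r)) = true)
    r (by have := r.2; omega)
  rw [Nat.eq_of_beq_eq_true h1, modelD4.coe_ng, baseD4.ng_eq (by have := r.2; omega)]

/-- the split (B,N)-pair of `³D₄(q)` -/
noncomputable def d4SB (P : TwG (twD4 φ)) (hP : P.G1 = twistedD4 K q) : TO.SB ↥P.G1 (Fin 2) :=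
  P.sb ((twD4 φ).wjs_mem [0, 1, 0, 1, 0, 1])
    (fun r => by rw [d4_w0, modelD4.ng_lt_iff])
    (fun j r => by rw [d4_w0]; exact modelD4.inRootSub_ng_iff r)
    (by
      intro i j hij x hx y hy
      fin_cases i <;> fin_cases j
      · exact absurd rfl hij
      · exact Tab.comm_UV twdD4 modelD4 baseD4 checksD4 (twD4 φ) rfl (by decide +kernel) hx hy
      · exact Tab.comm_UV twdD4 modelD4 baseD4 checksD4 (twD4 φ) rfl (by decide +kernel) hx hy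
      · exact absurd rfl hij)
    (by
      intro i
      fin_cases i
      · have hX : ∀ t, (d4R0 φ).X t ∈ (twD4 φ).UJ 0 := fun t => ((d4R0_iff φ hφ hφ3 _).2 ⟨t, rfl⟩).1
        have hY : ∀ t, (d4R0 φ).Y t ∈ (twD4 φ).VJ 0 := fun t => (d4R0_Y_mem φ hφ hP t).1
        exact ⟨_, hX 1, d4R0_X_mem φ hφ hP 1, _, hY (-1), (d4R0_Y_mem φ hφ hP _).2, d4_XY φ _ (d4R0_Xi φ) hX hY⟩
      · have hX : ∀ t, (d4R1 φ).X t ∈ (twD4 φ).UJ 1 := fun t => ((d4R1_iff φ hφ hφ3 _).2 ⟨t, rfl⟩).1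
        have hY : ∀ t, (d4R1 φ).Y t ∈ (twD4 φ).VJ 1 := fun t => (d4R1_Y_mem φ hφ hP t).1
        exact ⟨_, hX 1, d4R1_X_mem φ hφ hP 1, _, hY (-1), (d4R1_Y_mem φ hφ hP _).2, d4_XY φ _ (d4R1_Xi φ) hX hY⟩)

/-- the rank one data -/
noncomputable def d4S0 (P : TwG (twD4 φ)) (hP : P.G1 = twistedD4 K q) : RankOne (kF φ) ↥P.G1 :=
  (d4R0 φ).res P.G1 (d4R0_X_mem φ hφ hP) (fun t => (d4R0_Y_mem φ hφ hP t).2)

noncomputable def d4S1 (P : TwG (twD4 φ)) (hP : P.G1 = twistedD4 K q) : RankOne K ↥P.G1 :=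
  (d4R1 φ).res P.G1 (d4R1_X_mem φ hφ hP) (fun t => (d4R1_Y_mem φ hφ hP t).2)

theorem d4_par0 (P : TwG (twD4 φ)) (hP : P.G1 = twistedD4 K q) : (d4SB φ hφ hφ3 P hP).Par 0 (d4S0 φ hφ P hP) where
  X x := by
    constructor
    · intro hx
      have hx : (x : GL chevD4.Idx K) ∈ (twD4 φ).UJ 0 := hx
      obtain ⟨t, ht⟩ := (d4R0_iff φ hφ hφ3 _).1 ⟨hx, P.le_fix x.2⟩
      exact ⟨t, Subtype.ext ht⟩
    · rintro ⟨t, rfl⟩
      exact ((d4R0_iff φ hφ hφ3 _).2 ⟨t, rfl⟩).1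
  Xi a b h := d4R0_Xi φ (congrArg Subtype.val h)
  Y t := (d4R0_Y_mem φ hφ hP t).1
  Yi a b h := d4R0_Yi φ (congrArg Subtype.val h)

theorem d4_par1 (P : TwG (twD4 φ)) (hP : P.G1 = twistedD4 K q) : (d4SB φ hφ hφ3 P hP).Par 1 (d4S1 φ hφ P hP) where
  X x := by
    constructor
    · intro hx
      have hx : (x : GL chevD4.Idx K) ∈ (twD4 φ).UJ 1 := hx
      obtain ⟨t, ht⟩ := (d4R1_iff φ hφ hφ3 _).1 ⟨hx, P.le_fix x.2⟩
      exact ⟨t, Subtype.ext ht⟩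
    · rintro ⟨t, rfl⟩
      exact ((d4R1_iff φ hφ hφ3 _).2 ⟨t, rfl⟩).1
  Xi a b h := d4R1_Xi φ (congrArg Subtype.val h)
  Y t := (d4R1_Y_mem φ hφ hP t).1
  Yi a b h := d4R1_Yi φ (congrArg Subtype.val h)

end D4

end Cfsg.Agent.H6.Chev
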