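import Cfsg.Agent.H6_TO7

/-!
Outer automorphisms of twisted groups: the final count, general part; the groups `³D₄(q)`.
-/

set_option autoImplicit false
set_option linter.unusedSectionVars false
set_option maxRecDepth 100000

namespace Cfsg.Agent.H6.TO

theorem exists_sylow {G : Type*} [Group G] [Finite G] {p : ℕ} [Fact p.Prime] (U : Subgroup G) {n c : ℕ}
    (hU : Nat.card U = p ^ n) (hG : Nat.card G = p ^ n * c) (hc : ¬ p ∣ c) : ∃ S : Sylow p G, (S : Subgroup G) = U := by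
  have hp : p.Prime := Fact.out
  have hc0 : c ≠ 0 := fun h => hc (h ▸ dvd_zero p)
  refine ⟨Sylow.ofCard U ?_, rfl⟩
  rw [hU, hG, Nat.factorization_mul (pow_ne_zero _ hp.ne_zero) hc0, Finsupp.add_apply, Nat.Prime.factorization_pow hp,
    Finsupp.single_eq_same, Nat.factorization_eq_zero_of_not_dvd hc, add_zero]

theorem iff_of_finite {G : Type*} [Group G] [Finite G] (U : Subgroup G) (α : MulAut G) (h : ∀ x ∈ U, α x ∈ U) (x : G)
    (hx : α x ∈ U) : x ∈ U := by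
  have h1 : U.map α.toMonoidHom = U := by
    apply Subgroup.eq_of_le_of_card_ge
    · rintro _ ⟨y, hy, rfl⟩; exact h y hy
    · exact (Nat.card_congr (Subgroup.equivMapOfInjective U α.toMonoidHom α.injective).toEquiv).le
  rw [← h1] at hx
  obtain ⟨y, hy, he⟩ := hx
  have : y = x := α.injective he
  rwa [← this]

end Cfsg.Agent.H6.TO

namespace Cfsg.Agent.H6.Chev

open Cfsg Cfsg.Lie Cfsg.Lie.ChevalleyDatum
open Cfsg.Agent.H6.SL2
open Cfsg.Agent.H14.Chev (fr fr_X fr_hHom fr_H fr_gen)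

theorem Model.dT_gen {D : ChevalleyDatum} (m : Model D) {F : Type*} [Field F] {R : ℕ → Prop} (b : Fin D.rank → Fˣ)
    {x : GL D.Idx F} (hx : x ∈ m.gen F R) : m.dT F b * x * (m.dT F b)⁻¹ ∈ m.gen F R := by
  have h : m.gen F R ≤ (m.gen F R).comap (MulAut.conj (m.dT F b)).toMonoidHom := by
    apply m.gen_le
    intro r _ hr t
    change m.dT F b * m.X r t * (m.dT F b)⁻¹ ∈ m.gen F R
    rw [m.dT_X]
    exact m.X_mem_gen hr _
  exact h hx

section general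

variable {D : ChevalleyDatum} {m : Model D} {F : Type*} [Field F] [Finite F] {ι : Type} {T : Tw m F ι} (P : TwG T)
  (B : TO.SB ↥P.G1 ι) (hBU : B.U = (D.posUnipotent F).subgroupOf P.G1) (hBV : B.V = (D.negUnipotent F).subgroupOf P.G1)
  (hBH : B.H = (D.diagonalSubgroup F).subgroupOf P.G1)
  (hf : ∀ σ : F →+* F, ∀ g ∈ P.G1, fr D σ g ∈ P.G1)
  (hd : ∀ b ∈ T.Tf, ∀ g ∈ P.G1, m.dT F b * g * (m.dT F b)⁻¹ ∈ P.G1)

include hBU hBV hBH

theorem TwG.mem_H_of_dA {b : T.Tf} {σ : RingAut F} {g : ↥P.G1}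
    (h : dA m T.Tf P.G1 hd b * frA P.G1 hf σ = MulAut.conj g) : (g : GL D.Idx F) ∈ D.diagonalSubgroup F := by
  have h1 : ∀ x : ↥P.G1, ((g * x * g⁻¹ : ↥P.G1) : GL D.Idx F) = m.dT F b * fr D (σ : F →+* F) x * (m.dT F b)⁻¹ := by
    intro x
    have h2 : (MulAut.conj g) x = g * x * g⁻¹ := rfl
    rw [← h2, ← h]
    rfl
  have hU : ∀ x ∈ B.U, g * x * g⁻¹ ∈ B.U := by
    intro x hx
    rw [hBU] at hx ⊢
    rw [Subgroup.mem_subgroupOf] at hx ⊢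
    rw [h1 x]
    rw [m.posUnipotent_eq] at hx ⊢
    exact m.dT_gen _ (fr_gen m _ hx)
  have hV : ∀ x ∈ B.V, g * x * g⁻¹ ∈ B.V := by
    intro x hx
    rw [hBV] at hx ⊢
    rw [Subgroup.mem_subgroupOf] at hx ⊢
    rw [h1 x]
    rw [m.negUnipotent_eq] at hx ⊢
    exact m.dT_gen _ (fr_gen m _ hx)
  have h2 := B.mem_H_of hU (TO.iff_of_finite B.U (MulAut.conj g) hU) hV (TO.iff_of_finite B.V (MulAut.conj g) hV)
  rw [hBH] at h2
  exact h2

end general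

section D4

variable {K : Type*} [Field K] (φ : K ≃+* K) {q : ℕ} (hφ : ∀ x, φ x = x ^ q) (hφ3 : ∀ x : K, ((x ^ q) ^ q) ^ q = x)

include hφ hφ3

omit hφ3 in
theorem d4_fr (P : TwG (twD4 φ)) (hP : P.G1 = twistedD4 K q) (σ : K →+* K) (g : GL chevD4.Idx K) (hg : g ∈ P.G1) :
    fr chevD4 σ g ∈ P.G1 := by
  rw [hP] at hg ⊢
  have h : twistedD4 K q ≤ (twistedD4 K q).comap (fr chevD4 σ) := by
    apply modelD4.genSub_le
    intro w hw
    rw [Subgroup.mem_comap, modelD4.fr_word']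
    apply modelD4.word_mem_genSub
    rcases hw with ⟨t, ht, r, hr, rfl⟩ | ⟨t, rs, hrs, rfl⟩
    · refine Or.inl ⟨σ t, ?_, r, hr, rfl⟩
      rw [← map_pow, ht]
    · refine Or.inr ⟨σ t, rs, hrs, ?_⟩
      simp [map_pow]
  exact h hg

omit hφ hφ3 in
theorem d4_chi (b : Fin chevD4.rank → Kˣ) : modelD4.chi (Model.ext1 chevD4 K b) 14 = b (1 : Fin 4) ∧ modelD4.chi (Model.ext1 chevD4 K b) 18 = b (0 : Fin 4) ∧
    modelD4.chi (Model.ext1 chevD4 K b) 13 = b (2 : Fin 4) ∧ modelD4.chi (Model.ext1 chevD4 K b) 12 = b (3 : Fin 4) := by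
  have hs0 : chevD4.simple 0 = 18 := baseD4.simple_eq (i := 0) (by decide)
  have hs1 : chevD4.simple 1 = 14 := baseD4.simple_eq (i := 1) (by decide)
  have hs2 : chevD4.simple 2 = 13 := baseD4.simple_eq (i := 2) (by decide)
  have hs3 : chevD4.simple 3 = 12 := baseD4.simple_eq (i := 3) (by decide)
  refine ⟨?_, ?_, ?_, ?_⟩
  · rw [← hs1]; exact modelD4.chi_p b (1 : Fin 4)
  · rw [← hs0]; exact modelD4.chi_p b (0 : Fin 4)
  · rw [← hs2]; exact modelD4.chi_p b (2 : Fin 4)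
  · rw [← hs3]; exact modelD4.chi_p b (3 : Fin 4)

omit hφ hφ3 in
theorem d4_chin (b : Fin chevD4.rank → Kˣ) : modelD4.chi (Model.ext1 chevD4 K b) 9 = (b (1 : Fin 4))⁻¹ ∧ modelD4.chi (Model.ext1 chevD4 K b) 5 = (b (0 : Fin 4))⁻¹ ∧
    modelD4.chi (Model.ext1 chevD4 K b) 10 = (b (2 : Fin 4))⁻¹ ∧ modelD4.chi (Model.ext1 chevD4 K b) 11 = (b (3 : Fin 4))⁻¹ := by
  obtain ⟨n1, n2, n3, n4⟩ := d4_ng
  obtain ⟨⟨l1, l2⟩, l3, l4⟩ := d4_lt
  obtain ⟨c1, c2, c3, c4⟩ := d4_chi b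
  refine ⟨?_, ?_, ?_, ?_⟩
  · rw [← n1, modelD4.chi_neg _ l1, c1]
  · rw [← n2, modelD4.chi_neg _ l2, c2]
  · rw [← n3, modelD4.chi_neg _ l3, c3]
  · rw [← n4, modelD4.chi_neg _ l4, c4]

omit hφ hφ3 in
/-- diagonal elements act on the rank one data -/
theorem d4_dR {b : Fin chevD4.rank → Kˣ} (hb : b ∈ (twD4 φ).Tf) :
    (∀ t : kF φ, modelD4.dT K b * (d4R0 φ).X t * (modelD4.dT K b)⁻¹ = modelD4.X 14 ((b (1 : Fin 4) : K) * t)) ∧
    (∀ t : kF φ, modelD4.dT K b * (d4R0 φ).Y t * (modelD4.dT K b)⁻¹ = modelD4.X 9 ((b (1 : Fin 4) : K)⁻¹ * t)) ∧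
    (∀ t : K, modelD4.dT K b * (d4R1 φ).X t * (modelD4.dT K b)⁻¹ = (d4R1 φ).X ((b (0 : Fin 4) : K) * t)) ∧
    (∀ t : K, modelD4.dT K b * (d4R1 φ).Y t * (modelD4.dT K b)⁻¹ = (d4R1 φ).Y ((b (0 : Fin 4) : K)⁻¹ * t)) := by
  obtain ⟨h0, h1, h2, h3⟩ := (d4_Tf φ).1 hb
  obtain ⟨c1, c2, c3, c4⟩ := d4_chi b
  obtain ⟨e1, e2, e3, e4⟩ := d4_chin b
  have sp : ∀ g x y z : GL chevD4.Idx K, g * (x * (y * z)) * g⁻¹ = (g * x * g⁻¹) * ((g * y * g⁻¹) * (g * z * g⁻¹)) := by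
    intro g x y z; group
  refine ⟨fun t => ?_, fun t => ?_, fun t => ?_, fun t => ?_⟩
  · rw [d4R0_X, modelD4.dT_X, c1]
  · rw [d4R0_Y, modelD4.dT_X, e1, Units.val_inv_eq_inv_val]
  · rw [d4R1_X, sp, modelD4.dT_X, modelD4.dT_X, modelD4.dT_X, c2, c3, c4, d4R1_X, map_mul, map_mul, ← h0, ← h2]
  · rw [d4R1_Y, sp, modelD4.dT_X, modelD4.dT_X, modelD4.dT_X, e2, e3, e4, d4R1_Y, map_mul, map_mul,
      Units.val_inv_eq_inv_val, Units.val_inv_eq_inv_val, Units.val_inv_eq_inv_val, map_inv₀, map_inv₀, ← h0, ← h2]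

omit hφ3 in
theorem d4_dT (P : TwG (twD4 φ)) (hP : P.G1 = twistedD4 K q) (b : Fin chevD4.rank → Kˣ) (hb : b ∈ (twD4 φ).Tf) (g : GL chevD4.Idx K)
    (hg : g ∈ P.G1) : modelD4.dT K b * g * (modelD4.dT K b)⁻¹ ∈ P.G1 := by
  rw [hP] at hg
  have h : twistedD4 K q ≤ P.G1.comap (MulAut.conj (modelD4.dT K b)).toMonoidHom := by
    obtain ⟨h1, h2, h3, h4⟩ := d4_dR φ hb
    obtain ⟨b0, b1, b2, b3⟩ := (d4_Tf φ).1 hb
    have m1 : ∀ t : kF φ, (b (1 : Fin 4) : K) * t ∈ kF φ := fun t => by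
      rw [mem_kF, map_mul, ← b1, mem_kF.1 t.2]
    have m2 : ∀ t : kF φ, (b (1 : Fin 4) : K)⁻¹ * t ∈ kF φ := fun t => by
      rw [mem_kF, map_mul, map_inv₀, ← b1, mem_kF.1 t.2]
    apply modelD4.genSub_le
    intro w hw
    rw [Subgroup.mem_comap]
    change modelD4.dT K b * modelD4.word w * (modelD4.dT K b)⁻¹ ∈ P.G1
    rcases hw with ⟨t, ht, r, hr, rfl⟩ | ⟨t, rs, hrs, rfl⟩
    · rw [Model.word_cons, Model.word_nil, mul_one]
      have ht' : φ t = t := (hφ t).trans ht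
      simp only [List.mem_cons, List.not_mem_nil, or_false] at hr
      rcases hr with rfl | rfl
      · have e := h1 ⟨t, ht'⟩
        rw [d4R0_X] at e
        change modelD4.dT K b * modelD4.X 14 t * (modelD4.dT K b)⁻¹ ∈ P.G1
        rw [e]
        exact d4R0_X_mem φ hφ hP ⟨_, m1 ⟨t, ht'⟩⟩
      · have e := h2 ⟨t, ht'⟩
        rw [d4R0_Y] at e
        change modelD4.dT K b * modelD4.X 9 t * (modelD4.dT K b)⁻¹ ∈ P.G1
        rw [e]
        have := (d4R0_Y_mem φ hφ hP ⟨_, m2 ⟨t, ht'⟩⟩).2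
        rwa [d4R0_Y] at this
    · rw [Model.word_cons, Model.word_cons, Model.word_cons, Model.word_nil, mul_one]
      have e2 : t ^ q ^ 2 = φ (φ t) := by rw [hφ, hφ, sq, pow_mul]
      simp only [List.mem_cons, List.not_mem_nil, or_false] at hrs
      rcases hrs with rfl | rfl
      · change modelD4.dT K b * (modelD4.X 18 t * (modelD4.X 13 (t ^ q) * modelD4.X 12 (t ^ q ^ 2))) * (modelD4.dT K b)⁻¹ ∈ P.G1
        rw [e2, ← hφ, ← d4R1_X, h3]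
        exact d4R1_X_mem φ hφ hP _
      · change modelD4.dT K b * (modelD4.X 5 t * (modelD4.X 10 (t ^ q) * modelD4.X 11 (t ^ q ^ 2))) * (modelD4.dT K b)⁻¹ ∈ P.G1
        rw [e2, ← hφ, ← d4R1_Y, h4]
        exact (d4R1_Y_mem φ hφ hP _).2
  exact h hg

end D4

end Cfsg.Agent.H6.Chev
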