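import Cfsg.Agent.H6_TO8
import Cfsg.Agent.H6_TwOrd

/-!
The outer automorphism group of `³D₄(q)`.
-/

set_option autoImplicit false
set_option linter.unusedSectionVars false
set_option maxRecDepth 100000

namespace Cfsg.Agent.H6.Chev

open Cfsg Cfsg.Lie Cfsg.Lie.ChevalleyDatum
open Cfsg.Agent.H6.SL2
open Cfsg.Agent.H14.Chev (fr fr_X fr_hHom fr_H fr_gen)

theorem cm_tab {t : Tab} {D : ChevalleyDatum} (b : t.Base D) (ck : t.Checks D) {F : Type*} [Field F]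
    (C : List (List ℤ)) (h : (allNat t.l fun i => allNat t.l fun j => intEq (t.c i (nth t.S j)) (mt C i j)) = true)
    (x : Fin D.rank → Fˣ) (j : Fin D.rank) : Model.cm D F x j = ∏ k : Fin D.rank, x k ^ mt C k j := by
  have hr := b.rank
  have key : ∀ k j : Fin D.rank, D.cartan k (D.simple j) = mt C k j := by
    intro k j
    rw [b.simple_eq (by omega), b.cartan_eq (by omega) (Tab.S_facts b ck (by omega)).1]
    exact intEq_iff (allNat_iff (allNat_iff h k (by omega)) j (by omega))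
  change ∏ k : Fin D.rank, x k ^ D.cartan k (D.simple j) = _
  simp only [key]

section D4

variable {K : Type*} [Field K] (φ : K ≃+* K) {q : ℕ} (hφ : ∀ x, φ x = x ^ q) (hφ3 : ∀ x : K, ((x ^ q) ^ q) ^ q = x)

theorem d4_act_GL (u : kF φ) (hu : u ≠ 0) (s : K) :
    (d4R0 φ).h u * (d4R1 φ).X s * ((d4R0 φ).h u)⁻¹ = (d4R1 φ).X ((u : K)⁻¹ * s) := by
  have hu' : (u : K) ≠ 0 := fun h => hu (Subtype.ext h)
  let v : Kˣ := Units.mk0 (u : K) hu'
  let b : Fin chevD4.rank → Kˣ := (![1, v, 1, 1] : Fin 4 → Kˣ)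
  have hb : b ∈ (twD4 φ).Tf := by
    refine (d4_Tf φ (b := b)).2 ⟨?_, ?_, ?_, ?_⟩
    · change (1 : K) = φ 1
      rw [map_one]
    · change (u : K) = φ u
      exact u.2.symm
    · change (1 : K) = φ 1
      rw [map_one]
    · change (1 : K) = φ 1
      rw [map_one]
  have hb' : b = Pi.mulSingle (1 : Fin 4) v := by
    funext (k : Fin 4)
    fin_cases k <;> simp [b, Pi.mulSingle, Function.update]
  have h1 : (d4R0 φ).h u = modelD4.dT K (Model.cm chevD4 K b) := by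
    rw [← modelD4.hT_eq_dT, hb']
    have := modelD4.hT_single (F := K) (1 : Fin 4) v
    refine Eq.trans ?_ this.symm
    have hs1 : chevD4.simple 1 = 14 := baseD4.simple_eq (i := 1) (by decide)
    change modelD4.hh 14 (u : K) = modelD4.hh (chevD4.simple 1) (u : K)
    rw [hs1]
  rw [h1, (d4_dR φ ((twD4 φ).cm_Tf hb)).2.2.1]
  congr 2
  have h2 := cm_tab baseD4 checksD4 (F := K) cmD4 (by decide +kernel) b (0 : Fin 4)
  have h3 : ∏ k : Fin 4, b k ^ mt cmD4 k (0 : Fin 4) = v⁻¹ := by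
    rw [Fin.prod_univ_four]
    simp [cmD4, mt, b]
  have h4 : Model.cm chevD4 K b (0 : Fin 4) = v⁻¹ := h2.trans h3
  rw [h4, Units.val_inv_eq_inv_val]
  rfl

include hφ hφ3

omit hφ3 in
theorem d4_act (P : TwG (twD4 φ)) (hP : P.G1 = twistedD4 K q) (u : kF φ) (hu : u ≠ 0) (s : K) :
    (d4S0 φ hφ P hP).h u * (d4S1 φ hφ P hP).X s * ((d4S0 φ hφ P hP).h u)⁻¹ = (d4S1 φ hφ P hP).X (((kF φ).subtype u)⁻¹ * s) :=
  Subtype.ext (d4_act_GL φ u hu s)

/-- two automorphisms which agree on the rank one subgroups are equal -/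
theorem d4_ext (P : TwG (twD4 φ)) (hP : P.G1 = twistedD4 K q) {α β : MulAut ↥P.G1}
    (h0 : ∀ t, α ((d4S0 φ hφ P hP).X t) = β ((d4S0 φ hφ P hP).X t)) (h0' : ∀ t, α ((d4S0 φ hφ P hP).Y t) = β ((d4S0 φ hφ P hP).Y t))
    (h1 : ∀ t, α ((d4S1 φ hφ P hP).X t) = β ((d4S1 φ hφ P hP).X t)) (h1' : ∀ t, α ((d4S1 φ hφ P hP).Y t) = β ((d4S1 φ hφ P hP).Y t)) :
    α = β := by
  have key : P.G1 ≤ (MonoidHom.eqLocus α.toMonoidHom β.toMonoidHom).map P.G1.subtype := by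
    conv_lhs => rw [hP]
    apply modelD4.genSub_le
    intro w hw
    rcases hw with ⟨t, ht, r, hr, rfl⟩ | ⟨t, rs, hrs, rfl⟩
    · rw [Model.word_cons, Model.word_nil, mul_one]
      have ht' : φ t = t := (hφ t).trans ht
      simp only [List.mem_cons, List.not_mem_nil, or_false] at hr
      rcases hr with rfl | rfl
      · exact ⟨_, h0 ⟨t, ht'⟩, rfl⟩
      · exact ⟨_, h0' ⟨t, ht'⟩, d4R0_Y φ _⟩
    · rw [Model.word_cons, Model.word_cons, Model.word_cons, Model.word_nil, mul_one]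
      have e2 : t ^ q ^ 2 = φ (φ t) := by rw [hφ, hφ, sq, pow_mul]
      simp only [List.mem_cons, List.not_mem_nil, or_false] at hrs
      rcases hrs with rfl | rfl
      · change modelD4.X 18 t * (modelD4.X 13 (t ^ q) * modelD4.X 12 (t ^ q ^ 2)) ∈ _
        rw [e2, ← hφ, ← d4R1_X]
        exact ⟨_, h1 t, rfl⟩
      · change modelD4.X 5 t * (modelD4.X 10 (t ^ q) * modelD4.X 11 (t ^ q ^ 2)) ∈ _
        rw [e2, ← hφ, ← d4R1_Y]
        exact ⟨_, h1' t, rfl⟩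
  ext g : 1
  obtain ⟨x, hx, hxg⟩ := key g.2
  have : x = g := Subtype.ext hxg
  rw [← this]
  exact hx

/-- the parameters of diagonal automorphisms -/
theorem d4_tf (c0 : kF φ) (h0 : c0 ≠ 0) (c1 : K) (h1 : c1 ≠ 0) :
    ∃ b ∈ (twD4 φ).Tf, ((b (1 : Fin 4) : Kˣ) : K) = c0 ∧ ((b (0 : Fin 4) : Kˣ) : K) = c1 := by
  let v : Kˣ := Units.mk0 (c0 : K) (fun h => h0 (Subtype.ext h))
  let w : Kˣ := Units.mk0 c1 h1
  refine ⟨(![w, v, Units.map (φ : K →* K) w, Units.map (φ : K →* K) (Units.map (φ : K →* K) w)] : Fin 4 → Kˣ), ?_, rfl, rfl⟩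
  refine (d4_Tf φ).2 ⟨rfl, ?_, rfl, ?_⟩
  · change (c0 : K) = φ c0
    exact c0.2.symm
  · change c1 = φ (φ (φ c1))
    rw [hφ, hφ, hφ, hφ3]

variable [Fintype K]

theorem d4_sylow {p f : ℕ} [Fact p.Prime] (hf : 1 ≤ f) (hq : q = p ^ f) (hK : Fintype.card K = q ^ 3)
    (P : TwG (twD4 φ)) (hP : P.G1 = twistedD4 K q) (hc : ∀ j, Nat.card ↥((twD4 φ).UJ j ⊓ P.G1) = q ^ kkD4 j) :
    ∃ S : Sylow p ↥P.G1, (S : Subgroup ↥P.G1) = (d4SB φ hφ hφ3 P hP).U := by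
  have hp : p.Prime := Fact.out
  have hqp : IsPrimePow q := by rw [hq]; exact hp.isPrimePow.pow (by omega)
  have h1 := d4_card_H φ (fun x => by rw [hφ, hφ, hφ]; exact hφ3 x) hφ hqp.one_lt hK P hP
  have h2 := P.card_G1 (d := 1) one_pos hkkD4 hc
  have h5 := P.card_U1 (d := 1) one_pos hkkD4 hc
  have hN : modelD4.N / 1 = 12 := by
    have h1 := modelD4.nroots_eq
    have h2 := baseD4.nroots
    have h3 : tabD4.n = 24 := rfl
    omega
  have h4 : (twD4 φ).PA Set.univ 1 q = _ := paD4 q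
  have hfin : Finite ↥P.G1 := inferInstance
  apply TO.exists_sylow (n := f * 12) (c := (q ^ 2 - 1) * (q ^ 6 - 1) * (q ^ 8 + q ^ 4 + 1))
  · change Nat.card ↥((chevD4.posUnipotent K).subgroupOf P.G1) = _
    rw [← Subgroup.inf_subgroupOf_right, Nat.card_congr (Subgroup.subgroupOfEquivOfLe inf_le_right).toEquiv, h5, hN, hq,
      ← pow_mul]
  · rw [hN, h1, h4] at h2
    rw [h2]
    have h3 := ppD4 (q : ℤ)
    have hq1 : 1 ≤ q := hqp.one_lt.le
    have e1 : ((q - 1 : ℕ) : ℤ) = (q : ℤ) - 1 := by rw [Nat.cast_sub hq1]; simp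
    have e2 : ((q ^ 2 - 1 : ℕ) : ℤ) = (q : ℤ) ^ 2 - 1 := by rw [Nat.cast_sub (Nat.one_le_pow _ _ hq1)]; simp
    have e3 : ((q ^ 6 - 1 : ℕ) : ℤ) = (q : ℤ) ^ 6 - 1 := by rw [Nat.cast_sub (Nat.one_le_pow _ _ hq1)]; simp
    rw [pow_mul, ← hq]
    zify
    rw [e1, e2, e3, poly_cast, poly_cast]
    linear_combination (q : ℤ) ^ 12 * h3
  · have hpq : p ∣ q := by rw [hq]; exact dvd_pow_self p (by omega)
    have hq1 : 1 ≤ q := hqp.one_lt.le
    have key : ∀ n : ℕ, n ≠ 0 → ¬ p ∣ q ^ n - 1 := by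
      intro n hn h
      have h6 : p ∣ q ^ n := dvd_pow hpq hn
      have h7 := (Nat.dvd_sub h6 h)
      have : q ^ n - (q ^ n - 1) = 1 := by have := Nat.one_le_pow n q hq1; omega
      rw [this] at h7
      exact hp.one_lt.ne' (Nat.dvd_one.1 h7)
    intro h
    rcases hp.dvd_mul.1 h with h | h
    · rcases hp.dvd_mul.1 h with h | h
      · exact key 2 (by norm_num) h
      · exact key 6 (by norm_num) h
    · have h6 : p ∣ q ^ 8 + q ^ 4 := (dvd_add (dvd_pow hpq (by norm_num)) (dvd_pow hpq (by norm_num)))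
      have h7 := (Nat.dvd_add_right h6).1 h
      exact hp.one_lt.ne' (Nat.dvd_one.1 h7)

/-- adjusting an automorphism -/
theorem d4_adjust {p f : ℕ} [Fact p.Prime] (hf : 1 ≤ f) (hq : q = p ^ f) (hK : Fintype.card K = q ^ 3)
    (P : TwG (twD4 φ)) (hP : P.G1 = twistedD4 K q) (hc : ∀ j, Nat.card ↥((twD4 φ).UJ j ⊓ P.G1) = q ^ kkD4 j)
    (α : MulAut ↥P.G1) : ∃ (g : ↥P.G1) (b : (twD4 φ).Tf) (σ : RingAut K), MulAut.conj g * α =
      dA modelD4 (twD4 φ).Tf P.G1 (d4_dT φ hφ P hP) b * frA P.G1 (d4_fr φ hφ P hP) σ := by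
  have hp : p.Prime := Fact.out
  have hqp : IsPrimePow q := by rw [hq]; exact hp.isPrimePow.pow (by omega)
  have hq1 := hqp.one_lt
  obtain ⟨S, hS⟩ := d4_sylow φ hφ hφ3 hf hq hK P hP hc
  set B := d4SB φ hφ hφ3 P hP with hB
  obtain ⟨g, hU, hV⟩ := B.adjust hS α
  set β := MulAut.conj g * α with hβ
  obtain ⟨π, hπ, -, hX, hY⟩ := B.perm_XY hU hV
  have par0 := d4_par0 φ hφ hφ3 P hP
  have par1 := d4_par1 φ hφ hφ3 P hP
  rw [← hB] at par0 par1
  -- cardinalities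
  have hcX : ∀ j, Nat.card (B.X j) = q ^ kkD4 j := by
    intro j
    rw [← hc j]
    change Nat.card ↥(((twD4 φ).UJ j).subgroupOf P.G1) = _
    rw [← Subgroup.inf_subgroupOf_right, Nat.card_congr (Subgroup.subgroupOfEquivOfLe inf_le_right).toEquiv]
  have hπc : ∀ j, Nat.card (B.X (π j)) = Nat.card (B.X j) := by
    intro j
    have h1 : (B.X j).map β.toMonoidHom = B.X (π j) := by
      ext y
      constructor
      · rintro ⟨x, hx, rfl⟩; exact (hX j x).2 hx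
      · intro hy
        obtain ⟨x, rfl⟩ := β.surjective y
        exact ⟨x, (hX j x).1 hy, rfl⟩
    rw [← h1]
    exact (Nat.card_congr (Subgroup.equivMapOfInjective (B.X j) β.toMonoidHom β.injective).toEquiv).symm
  have hk0 : kkD4 ((0 : Fin 2) : ℕ) = 1 := rfl
  have hk1 : kkD4 ((1 : Fin 2) : ℕ) = 3 := rfl
  have hne : q ^ 3 ≠ q ^ 1 := fun h => by
    have := Nat.pow_right_injective hq1 h
    omega
  have hπ0 : π 0 = 0 := by
    have h1 := hπc 0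
    rw [hcX, hcX, hk0] at h1
    generalize π 0 = i at h1
    fin_cases i
    · rfl
    · exact absurd h1 hne
  have hπ1 : π 1 = 1 := by
    have h1 := hπc 1
    rw [hcX, hcX, hk1] at h1
    generalize π 1 = i at h1
    fin_cases i
    · exact absurd h1.symm hne
    · rfl
  have hX0 := hX 0
  have hX1 := hX 1
  have hY0 := hY 0
  have hY1 := hY 1
  rw [hπ0] at hX0 hY0
  rw [hπ1] at hX1 hY1
  obtain ⟨σ0, c0, hc0, a0, b0⟩ := par0.rigid β hX0 hY0
  obtain ⟨σ1, c1, hc1, a1, b1⟩ := par1.rigid β hX1 hY1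
  obtain ⟨d, hd, hd1, hd0⟩ := d4_tf φ hφ hφ3 c0 hc0 c1 hc1
  set δ := dA modelD4 (twD4 φ).Tf P.G1 (d4_dT φ hφ P hP) ⟨d, hd⟩ with hδ
  obtain ⟨r1, r2, r3, r4⟩ := d4_dR φ hd
  have s1 : ∀ t, δ ((d4S0 φ hφ P hP).X t) = (d4S0 φ hφ P hP).X (c0 * t) := by
    intro t
    apply Subtype.ext
    refine (r1 t).trans ?_
    rw [hd1]
    rfl
  have s2 : ∀ t, δ ((d4S0 φ hφ P hP).Y t) = (d4S0 φ hφ P hP).Y (c0⁻¹ * t) := by
    intro t
    apply Subtype.ext
    refine (r2 t).trans ?_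
    rw [hd1]
    exact (d4R0_Y φ (c0⁻¹ * t)).symm
  have s3 : ∀ t, δ ((d4S1 φ hφ P hP).X t) = (d4S1 φ hφ P hP).X (c1 * t) := by
    intro t
    apply Subtype.ext
    refine (r3 t).trans ?_
    rw [hd0]
    rfl
  have s4 : ∀ t, δ ((d4S1 φ hφ P hP).Y t) = (d4S1 φ hφ P hP).Y (c1⁻¹ * t) := by
    intro t
    apply Subtype.ext
    refine (r4 t).trans ?_
    rw [hd0]
    rfl
  set γ := δ⁻¹ * β with hγ
  have hγδ : ∀ x, δ (γ x) = β x := fun x => by
    rw [hγ, MulAut.mul_apply, MulAut.apply_inv_self]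
  have u1 : ∀ t, γ ((d4S0 φ hφ P hP).X t) = (d4S0 φ hφ P hP).X (σ0 t) := fun t => δ.injective (by rw [hγδ, a0, s1])
  have u2 : ∀ t, γ ((d4S0 φ hφ P hP).Y t) = (d4S0 φ hφ P hP).Y (σ0 t) := fun t => δ.injective (by rw [hγδ, b0, s2])
  have u3 : ∀ t, γ ((d4S1 φ hφ P hP).X t) = (d4S1 φ hφ P hP).X (σ1 t) := fun t => δ.injective (by rw [hγδ, a1, s3])
  have u4 : ∀ t, γ ((d4S1 φ hφ P hP).Y t) = (d4S1 φ hφ P hP).Y (σ1 t) := fun t => δ.injective (by rw [hγδ, b1, s4])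
  have hgl := TO.glue (d4S0 φ hφ P hP) (d4S1 φ hφ P hP) par1.Xi (kF φ).subtype (d4_act φ hφ P hP) γ u1 u2 u3
  have hσb : Function.Bijective σ1 := Finite.injective_iff_bijective.1 σ1.injective
  let σ : RingAut K := RingEquiv.ofBijective σ1 hσb
  have hσ : (σ : K →+* K) = σ1 := by ext x; rfl
  refine ⟨g, ⟨d, hd⟩, σ, ?_⟩
  rw [← hδ, ← hβ]
  have h2 : γ = frA P.G1 (d4_fr φ hφ P hP) σ := by
    have e0 : ∀ t : kF φ, ((σ0 t : kF φ) : K) = σ1 (t : K) := fun t => (hgl t).symm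
    have e1 : ∀ t : K, φ (σ1 t) = σ1 (φ t) := fun t => by rw [hφ, hφ, map_pow]
    apply d4_ext φ hφ hφ3 P hP
    · intro t
      rw [u1]
      apply Subtype.ext
      rw [coe_frA, hσ]
      refine Eq.trans ?_ (fr_X modelD4 σ1 14 (t : K)).symm
      rw [← e0]; rfl
    · intro t
      rw [u2]
      apply Subtype.ext
      rw [coe_frA, hσ]
      change (d4R0 φ).Y (σ0 t) = fr chevD4 σ1 ((d4R0 φ).Y t)
      rw [d4R0_Y, d4R0_Y, fr_X modelD4, e0]
    · intro t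
      rw [u3]
      apply Subtype.ext
      rw [coe_frA, hσ]
      change (d4R1 φ).X (σ1 t) = fr chevD4 σ1 ((d4R1 φ).X t)
      rw [d4R1_X, d4R1_X, map_mul, map_mul, fr_X modelD4, fr_X modelD4, fr_X modelD4, e1, e1]
    · intro t
      rw [u4]
      apply Subtype.ext
      rw [coe_frA, hσ]
      change (d4R1 φ).Y (σ1 t) = fr chevD4 σ1 ((d4R1 φ).Y t)
      rw [d4R1_Y, d4R1_Y, map_mul, map_mul, fr_X modelD4, fr_X modelD4, fr_X modelD4, e1, e1]
  rw [← h2, hγ, mul_inv_cancel_left]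

theorem d4_out {p f : ℕ} [Fact p.Prime] (hf : 1 ≤ f) (hq : q = p ^ f) (hK : Fintype.card K = q ^ 3)
    (P : TwG (twD4 φ)) (hP : P.G1 = twistedD4 K q) (hc : ∀ j, Nat.card ↥((twD4 φ).UJ j ⊓ P.G1) = q ^ kkD4 j) :
    Nat.card (Cfsg.Out ↥P.G1) = Nat.card (RingAut K) := by
  have hφ3' : ∀ x, φ (φ (φ x)) = x := fun x => by rw [hφ, hφ, hφ]; exact hφ3 x
  have h1 := TO.card_out_of (dA modelD4 (twD4 φ).Tf P.G1 (d4_dT φ hφ P hP)) (frA P.G1 (d4_fr φ hφ P hP))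
    (twD4 φ).cmT.range (d4_adjust φ hφ hφ3 hf hq hK P hP hc) ?_ ?_
  · rw [h1, (twD4 φ).index_cmT]
    have h2 : (twD4 φ).Tf ⊓ (modelD4.hT K).ker = ⊥ := by
      rw [eq_bot_iff]
      rintro b ⟨h1, h2⟩
      exact d4_inj φ hφ3' h1 h2
    rw [h2, Subgroup.card_bot, one_mul]
  · intro b σ g h
    have h2 := TwG.mem_H_of_dA P (d4SB φ hφ hφ3 P hP) rfl rfl rfl _ _ h
    have h3 : (g : GL chevD4.Idx K) ∈ (twD4 φ).H0 := by
      rw [← d4_H φ hφ3' hφ P hP]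
      exact Subgroup.mem_inf.2 ⟨h2, g.2⟩
    obtain ⟨b', hb', he⟩ := h3
    rw [modelD4.hT_eq_dT] at he
    have h4 : ∀ x : ↥P.G1, modelD4.dT K b * fr chevD4 (σ : K →+* K) x * (modelD4.dT K b)⁻¹ =
        modelD4.dT K (Model.cm chevD4 K b') * x * (modelD4.dT K (Model.cm chevD4 K b'))⁻¹ := by
      intro x
      rw [he]
      exact congrArg (fun f : MulAut ↥P.G1 => ((f x : ↥P.G1) : GL chevD4.Idx K)) h
    have hcb := (twD4 φ).cm_Tf hb'
    obtain ⟨r1, -, r3, -⟩ := d4_dR φ hcb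
    obtain ⟨v1, -, v3, -⟩ := d4_dR φ b.2
    have h5 : ∀ t : K, ((b : Fin chevD4.rank → Kˣ) (0 : Fin 4) : K) * σ t = (Model.cm chevD4 K b' (0 : Fin 4) : K) * t := by
      intro t
      have h6 := h4 ((d4S1 φ hφ P hP).X t)
      change modelD4.dT K b * fr chevD4 (σ : K →+* K) ((d4R1 φ).X t) * (modelD4.dT K b)⁻¹ =
        modelD4.dT K (Model.cm chevD4 K b') * (d4R1 φ).X t * (modelD4.dT K (Model.cm chevD4 K b'))⁻¹ at h6
      have h7 : fr chevD4 (σ : K →+* K) ((d4R1 φ).X t) = (d4R1 φ).X (σ t) := by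
        have e1 : ∀ t : K, φ (σ t) = σ (φ t) := fun t => by rw [hφ, hφ, map_pow]
        rw [d4R1_X, d4R1_X, map_mul, map_mul, fr_X modelD4, fr_X modelD4, fr_X modelD4, e1, e1]
        rfl
      rw [h7, v3, r3] at h6
      exact d4R1_Xi φ h6
    have h6 := h5 1
    rw [map_one, mul_one, mul_one] at h6
    have h7 : σ = 1 := by
      ext t
      have h8 := h5 t
      rw [← h6] at h8
      exact mul_left_cancel₀ (Units.ne_zero _) h8
    refine ⟨h7, ⟨⟨b', hb'⟩, ?_⟩⟩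
    have h8 : ((b : Fin chevD4.rank → Kˣ) (1 : Fin 4) : K) = (Model.cm chevD4 K b' (1 : Fin 4) : K) := by
      have h9 := h4 ((d4S0 φ hφ P hP).X 1)
      change modelD4.dT K b * fr chevD4 (σ : K →+* K) ((d4R0 φ).X 1) * (modelD4.dT K b)⁻¹ =
        modelD4.dT K (Model.cm chevD4 K b') * (d4R0 φ).X 1 * (modelD4.dT K (Model.cm chevD4 K b'))⁻¹ at h9
      have h10 : fr chevD4 (σ : K →+* K) ((d4R0 φ).X 1) = (d4R0 φ).X 1 := by
        rw [d4R0_X, fr_X modelD4]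
        congr 1
        exact map_one _
      rw [h10, v1, r1] at h9
      have h11 := modelD4.X_inj d4_lt.1.1 h9
      change _ * (1 : K) = _ * (1 : K) at h11
      rwa [mul_one, mul_one] at h11
    obtain ⟨p0, p1, p2, p3⟩ := (d4_Tf φ).1 b.2
    obtain ⟨q0, q1, q2, q3⟩ := (d4_Tf φ).1 hcb
    apply Subtype.ext
    change Model.cm chevD4 K b' = b.1
    funext (k : Fin 4)
    apply Units.ext
    have h12 : ((b : Fin chevD4.rank → Kˣ) (2 : Fin 4) : K) = (Model.cm chevD4 K b' (2 : Fin 4) : K) :=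
      p0.trans ((congrArg φ h6).trans q0.symm)
    fin_cases k
    · exact h6.symm
    · exact h8.symm
    · exact h12.symm
    · exact (p2.trans ((congrArg φ h12).trans q2.symm)).symm
  · rintro _ ⟨b, rfl⟩
    have h2 : modelD4.hT K b ∈ P.G1 := d4_H0_le φ hφ3' hφ P hP ⟨b, b.2, rfl⟩
    refine ⟨⟨modelD4.hT K b, h2⟩, ?_⟩
    ext x : 1
    apply Subtype.ext
    change modelD4.dT K (Model.cm chevD4 K b) * x * (modelD4.dT K (Model.cm chevD4 K b))⁻¹ =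
      modelD4.hT K b * x * (modelD4.hT K b)⁻¹
    rw [modelD4.hT_eq_dT]

end D4

end Cfsg.Agent.H6.Chev
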