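import Cfsg.Agent.H6_TO8
import Cfsg.Agent.H6_TO9
import Cfsg.Agent.H6_TwHE6

/-!
The groups `²E₆(q)`: the split (B,N)-pair.
-/

set_option autoImplicit false
set_option linter.unusedSectionVars false
set_option maxRecDepth 100000

namespace Cfsg.Agent.H6.Chev

open Cfsg Cfsg.Lie Cfsg.Lie.ChevalleyDatum
open Cfsg.Agent.H6.SL2
open Cfsg.Agent.H14.Chev (fr fr_X fr_hHom fr_H fr_gen)

theorem Model.pair_zero {D : ChevalleyDatum} (m : Model D) {F : Type*} [Field F] {a b : ℕ} (ha : a < D.nroots)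
    (hb : b < D.nroots) (hab : a ≠ b) {s u : F} (h : m.X a s * m.X b u = 1) : s = 0 := by
  by_contra hs
  rw [mul_eq_one_iff_eq_inv, ← m.X_neg] at h
  exact hab (m.X_eq_X ha hb hs h)

section E6

variable {K : Type*} [Field K] (φ : K ≃+* K)

theorem e6_lt : (46 < chevE6.nroots ∧ 39 < chevE6.nroots) ∧ (42 < chevE6.nroots ∧ 37 < chevE6.nroots) ∧
    (56 < chevE6.nroots ∧ 36 < chevE6.nroots) := by
  have hn := baseE6.nroots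
  have hn' : tabE6.n = 72 := rfl
  omega

theorem e6_lt' : (25 < chevE6.nroots ∧ 32 < chevE6.nroots) ∧ (29 < chevE6.nroots ∧ 34 < chevE6.nroots) ∧
    (15 < chevE6.nroots ∧ 35 < chevE6.nroots) := by
  have hn := baseE6.nroots
  have hn' : tabE6.n = 72 := rfl
  omega

theorem e6_ng : (chevE6.neg 46 = 25 ∧ chevE6.neg 39 = 32) ∧ (chevE6.neg 42 = 29 ∧ chevE6.neg 37 = 34) ∧
    (chevE6.neg 56 = 15 ∧ chevE6.neg 36 = 35) :=
  ⟨⟨baseE6.ng_eq (r := 46) (by decide), baseE6.ng_eq (r := 39) (by decide)⟩,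
    ⟨baseE6.ng_eq (r := 42) (by decide), baseE6.ng_eq (r := 37) (by decide)⟩,
    ⟨baseE6.ng_eq (r := 56) (by decide), baseE6.ng_eq (r := 36) (by decide)⟩⟩

/-- rank one datum of a fixed root -/
noncomputable def e6S {r : ℕ} (hr : r < chevE6.nroots) : RankOne (kF φ) (GL chevE6.Idx K) :=
  (modelE6.rk1 K hr).comap (kF φ).subtype

/-- rank one datum of a pair of roots -/
noncomputable def e6D {a b : ℕ} (ha : a < chevE6.nroots) (hb : b < chevE6.nroots) (o : Model.Ort K modelE6 a b) :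
    RankOne K (GL chevE6.Idx K) :=
  RankOne.prod (modelE6.rk1 K ha) ((modelE6.rk1 K hb).comap (φ : K →+* K))
    (fun _ _ => o.1 _ _) (fun _ _ => o.2.1 _ _) (fun _ _ => o.2.2.1 _ _) (fun _ _ => o.2.2.2 _ _)

noncomputable def e6R0 : RankOne (kF φ) (GL chevE6.Idx K) := e6S φ e6_lt.1.1
noncomputable def e6R1 : RankOne (kF φ) (GL chevE6.Idx K) := e6S φ e6_lt.1.2
noncomputable def e6R2 : RankOne K (GL chevE6.Idx K) := e6D φ e6_lt.2.1.1 e6_lt.2.1.2 ort42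
noncomputable def e6R3 : RankOne K (GL chevE6.Idx K) := e6D φ e6_lt.2.2.1 e6_lt.2.2.2 ort56

theorem e6R0_X (t : kF φ) : (e6R0 φ).X t = modelE6.X 46 (t : K) := rfl
theorem e6R1_X (t : kF φ) : (e6R1 φ).X t = modelE6.X 39 (t : K) := rfl
theorem e6R2_X (t : K) : (e6R2 φ).X t = modelE6.X 42 t * modelE6.X 37 (φ t) := rfl
theorem e6R3_X (t : K) : (e6R3 φ).X t = modelE6.X 56 t * modelE6.X 36 (φ t) := rfl

theorem e6R0_Y (t : kF φ) : (e6R0 φ).Y t = modelE6.X 25 (t : K) := by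
  change modelE6.X (chevE6.neg 46) _ = _
  rw [e6_ng.1.1]; rfl
theorem e6R1_Y (t : kF φ) : (e6R1 φ).Y t = modelE6.X 32 (t : K) := by
  change modelE6.X (chevE6.neg 39) _ = _
  rw [e6_ng.1.2]; rfl
theorem e6R2_Y (t : K) : (e6R2 φ).Y t = modelE6.X 29 t * modelE6.X 34 (φ t) := by
  change modelE6.X (chevE6.neg 42) _ * modelE6.X (chevE6.neg 37) _ = _
  rw [e6_ng.2.1.1, e6_ng.2.1.2]; rfl
theorem e6R3_Y (t : K) : (e6R3 φ).Y t = modelE6.X 15 t * modelE6.X 35 (φ t) := by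
  change modelE6.X (chevE6.neg 56) _ * modelE6.X (chevE6.neg 36) _ = _
  rw [e6_ng.2.2.1, e6_ng.2.2.2]; rfl

theorem inj_of_zero {F : Type*} [Field F] {G : Type*} [Group G] {X : F → G} (hadd : ∀ s t, X (s + t) = X s * X t)
    (h : ∀ s, X s = 1 → s = 0) : Function.Injective X := by
  intro a b hab
  have h0 : X 0 = 1 := by
    have := hadd 0 0
    rw [add_zero] at this
    exact mul_eq_left.1 this.symm
  have h1 : X (a - b) = 1 := by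
    rw [sub_eq_add_neg, hadd, hab, ← hadd, add_neg_cancel, h0]
  exact sub_eq_zero.1 (h _ h1)

theorem e6R0_Xi : Function.Injective (e6R0 φ).X := fun a b h => Subtype.ext (modelE6.X_inj e6_lt.1.1 h)
theorem e6R1_Xi : Function.Injective (e6R1 φ).X := fun a b h => Subtype.ext (modelE6.X_inj e6_lt.1.2 h)
theorem e6R2_Xi : Function.Injective (e6R2 φ).X := inj_of_zero (e6R2 φ).X_add fun _ h =>
  modelE6.pair_zero e6_lt.2.1.1 e6_lt.2.1.2 (by decide) h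
theorem e6R3_Xi : Function.Injective (e6R3 φ).X := inj_of_zero (e6R3 φ).X_add fun _ h =>
  modelE6.pair_zero e6_lt.2.2.1 e6_lt.2.2.2 (by decide) h
theorem e6R0_Yi : Function.Injective (e6R0 φ).Y := fun a b h => by
  rw [e6R0_Y, e6R0_Y] at h
  exact Subtype.ext (modelE6.X_inj e6_lt'.1.1 h)
theorem e6R1_Yi : Function.Injective (e6R1 φ).Y := fun a b h => by
  rw [e6R1_Y, e6R1_Y] at h
  exact Subtype.ext (modelE6.X_inj e6_lt'.1.2 h)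
theorem e6R2_Yi : Function.Injective (e6R2 φ).Y := inj_of_zero (e6R2 φ).Y_add fun s h => by
  rw [e6R2_Y] at h
  exact modelE6.pair_zero e6_lt'.2.1.1 e6_lt'.2.1.2 (by decide) h
theorem e6R3_Yi : Function.Injective (e6R3 φ).Y := inj_of_zero (e6R3 φ).Y_add fun s h => by
  rw [e6R3_Y] at h
  exact modelE6.pair_zero e6_lt'.2.2.1 e6_lt'.2.2.2 (by decide) h

variable {q : ℕ} (hφ : ∀ x, φ x = x ^ q) (hφ2 : ∀ x : K, (x ^ q) ^ q = x)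

include hφ hφ2

theorem e6_iff_single {g : GL chevE6.Idx K} {r : ℕ} {p : Prop} (h : p ↔ ∃ t : {t : K // t ^ q = t}, g = modelE6.X r (t : K)) :
    p ↔ ∃ t : kF φ, g = modelE6.X r (t : K) := by
  rw [h]
  constructor
  · rintro ⟨⟨t, ht⟩, rfl⟩
    exact ⟨⟨t, (hφ t).trans ht⟩, rfl⟩
  · rintro ⟨⟨t, ht⟩, rfl⟩
    exact ⟨⟨t, (hφ t).symm.trans ht⟩, rfl⟩

theorem e6R0_iff (g : GL chevE6.Idx K) : (g ∈ (twE6 φ).UJ 0 ∧ g ∈ (twE6 φ).fix) ↔ ∃ t, g = (e6R0 φ).X t :=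
  e6_iff_single φ hφ hφ2 (e6_UJ0 φ hφ hφ2 g)

theorem e6R1_iff (g : GL chevE6.Idx K) : (g ∈ (twE6 φ).UJ 1 ∧ g ∈ (twE6 φ).fix) ↔ ∃ t, g = (e6R1 φ).X t :=
  e6_iff_single φ hφ hφ2 (e6_UJ1 φ hφ hφ2 g)

theorem e6R2_iff (g : GL chevE6.Idx K) : (g ∈ (twE6 φ).UJ 2 ∧ g ∈ (twE6 φ).fix) ↔ ∃ t, g = (e6R2 φ).X t := by
  rw [e6_UJ2 φ hφ hφ2]
  have e : ∀ t : K, modelE6.X 42 t * modelE6.X 37 (t ^ q) = (e6R2 φ).X t := by
    intro t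
    rw [e6R2_X, hφ]
  simp only [e]

theorem e6R3_iff (g : GL chevE6.Idx K) : (g ∈ (twE6 φ).UJ 3 ∧ g ∈ (twE6 φ).fix) ↔ ∃ t, g = (e6R3 φ).X t := by
  rw [e6_UJ3 φ hφ hφ2]
  have e : ∀ t : K, modelE6.X 56 t * modelE6.X 36 (t ^ q) = (e6R3 φ).X t := by
    intro t
    rw [e6R3_X, hφ]
  simp only [e]

variable {P : TwG (twE6 φ)} (hP : P.G1 = twistedE6 K q)

include hP

omit hφ2

theorem e6R0_X_mem (t : kF φ) : (e6R0 φ).X t ∈ P.G1 := by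
  rw [e6R0_X, hP]
  exact e6_single_G ((hφ _).symm.trans t.2) (by decide)

theorem e6R1_X_mem (t : kF φ) : (e6R1 φ).X t ∈ P.G1 := by
  rw [e6R1_X, hP]
  exact e6_single_G ((hφ _).symm.trans t.2) (by decide)

theorem e6R2_X_mem (t : K) : (e6R2 φ).X t ∈ P.G1 := by
  rw [e6R2_X, hP, hφ]
  exact e6_pair_G t (by decide)

theorem e6R3_X_mem (t : K) : (e6R3 φ).X t ∈ P.G1 := by
  rw [e6R3_X, hP, hφ]
  exact e6_pair_G t (by decide)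

theorem e6R0_Y_mem (t : kF φ) : (e6R0 φ).Y t ∈ (twE6 φ).VJ 0 ∧ (e6R0 φ).Y t ∈ P.G1 := by
  rw [e6R0_Y, hP]
  exact ⟨e6_VJ φ 0 (r := 25) (by decide +kernel) _, e6_single_G ((hφ _).symm.trans t.2) (by decide)⟩

theorem e6R1_Y_mem (t : kF φ) : (e6R1 φ).Y t ∈ (twE6 φ).VJ 1 ∧ (e6R1 φ).Y t ∈ P.G1 := by
  rw [e6R1_Y, hP]
  exact ⟨e6_VJ φ 1 (r := 32) (by decide +kernel) _, e6_single_G ((hφ _).symm.trans t.2) (by decide)⟩

theorem e6R2_Y_mem (t : K) : (e6R2 φ).Y t ∈ (twE6 φ).VJ 2 ∧ (e6R2 φ).Y t ∈ P.G1 := by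
  rw [e6R2_Y, hP]
  refine ⟨mul_mem (e6_VJ φ 2 (r := 29) (by decide +kernel) _) (e6_VJ φ 2 (r := 34) (by decide +kernel) _), ?_⟩
  rw [hφ]
  exact e6_pair_G t (by decide)

theorem e6R3_Y_mem (t : K) : (e6R3 φ).Y t ∈ (twE6 φ).VJ 3 ∧ (e6R3 φ).Y t ∈ P.G1 := by
  rw [e6R3_Y, hP]
  refine ⟨mul_mem (e6_VJ φ 3 (r := 15) (by decide +kernel) _) (e6_VJ φ 3 (r := 35) (by decide +kernel) _), ?_⟩
  rw [hφ]
  exact e6_pair_G t (by decide)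

omit hφ hP

theorem XY_noncomm {D : ChevalleyDatum} {m : Model D} {ι : Type} {T : Tw m K ι} {F : Type*} [Field F] (R : RankOne F (GL D.Idx K)) {j : ι}
    (hi : Function.Injective R.X) (hX : ∀ t, R.X t ∈ T.UJ j) (hY : ∀ t, R.Y t ∈ T.VJ j) :
    R.X 1 * R.Y (-1) ≠ R.Y (-1) * R.X 1 := by
  apply R.noncomm
  intro s t h
  have h1 := T.UJ_le_U j (hX s)
  have h2 := T.VJ_le_V j (hY t)
  rw [← h] at h2
  have h3 : R.X s ∈ D.borelSubgroup K ⊓ D.negUnipotent K := Subgroup.mem_inf.2 ⟨Model.U_le_B h1, h2⟩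
  rw [m.B_inf_V, Subgroup.mem_bot] at h3
  exact hi (h3.trans R.X_zero.symm)

def e6W : List (Fin 4) := [0, 1, 2, 3, 0, 1, 2, 3, 0, 1, 2, 3, 0, 1, 2, 3, 0, 1, 2, 3, 0, 1, 2, 3]

theorem e6_w0 (r : Fin chevE6.nroots) : ((e6W.map (twE6 φ).wj).prod r) = modelE6.ng ((twE6 φ).ρ r) := by
  apply Fin.ext
  have h := Tab.w0_eq twdE6 modelE6 baseE6 checksE6 (twE6 φ) rfl e6W r
  rw [h]
  have hn := baseE6.nroots
  have hr := r.2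
  have h1 := allNat_iff (by decide +kernel : (allNat tabE6.n fun r => Nat.beq (Tab.pwl twdE6 e6W r)
    (tabE6.ng (Tab.rho gaE6R r)) && Nat.blt (Tab.rho gaE6R r) tabE6.n) = true) r (by omega)
  rw [Bool.and_eq_true] at h1
  have h2 : (((twE6 φ).ρ r : Fin chevE6.nroots) : ℕ) = Tab.rho gaE6R r := rfl
  rw [Nat.eq_of_beq_eq_true h1.1, modelE6.coe_ng, h2, baseE6.ng_eq (Nat.le_of_ble_eq_true h1.2)]

include hφ hφ2

/-- the split (B,N)-pair of `²E₆(q)` -/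
noncomputable def e6SB (P : TwG (twE6 φ)) (hP : P.G1 = twistedE6 K q) : TO.SB ↥P.G1 (Fin 4) :=
  P.sb ((twE6 φ).wjs_mem e6W)
    (fun r => by rw [e6_w0, modelE6.ng_lt_iff, (twE6 φ).ρ_pos])
    (fun j r => by rw [e6_w0, modelE6.inRootSub_ng_iff, (twE6 φ).ρ_sub])
    (by
      intro i j hij x hx y hy
      have h : ∀ i j : Fin 4, i ≠ j → (allNat tabE6.N fun s => allNat tabE6.N fun r =>
        !(Nat.blt (tabE6.pw (twdE6.Wl i) (tabE6.N + r)) tabE6.N && Nat.blt (tabE6.pw (twdE6.Wl j) (tabE6.ng s)) tabE6.N) ||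
          tabE6.comOK 0 (tabE6.N + r) s) = true := by decide +kernel
      exact Tab.comm_UV twdE6 modelE6 baseE6 checksE6 (twE6 φ) rfl (h i j hij) hx hy)
    (by
      intro i
      fin_cases i
      · have hX : ∀ t, (e6R0 φ).X t ∈ (twE6 φ).UJ 0 := fun t => ((e6R0_iff φ hφ hφ2 _).2 ⟨t, rfl⟩).1
        have hY : ∀ t, (e6R0 φ).Y t ∈ (twE6 φ).VJ 0 := fun t => (e6R0_Y_mem φ hφ hP t).1
        exact ⟨_, hX 1, e6R0_X_mem φ hφ hP 1, _, hY (-1), (e6R0_Y_mem φ hφ hP _).2, XY_noncomm _ (e6R0_Xi φ) hX hY⟩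
      · have hX : ∀ t, (e6R1 φ).X t ∈ (twE6 φ).UJ 1 := fun t => ((e6R1_iff φ hφ hφ2 _).2 ⟨t, rfl⟩).1
        have hY : ∀ t, (e6R1 φ).Y t ∈ (twE6 φ).VJ 1 := fun t => (e6R1_Y_mem φ hφ hP t).1
        exact ⟨_, hX 1, e6R1_X_mem φ hφ hP 1, _, hY (-1), (e6R1_Y_mem φ hφ hP _).2, XY_noncomm _ (e6R1_Xi φ) hX hY⟩
      · have hX : ∀ t, (e6R2 φ).X t ∈ (twE6 φ).UJ 2 := fun t => ((e6R2_iff φ hφ hφ2 _).2 ⟨t, rfl⟩).1
        have hY : ∀ t, (e6R2 φ).Y t ∈ (twE6 φ).VJ 2 := fun t => (e6R2_Y_mem φ hφ hP t).1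
        exact ⟨_, hX 1, e6R2_X_mem φ hφ hP 1, _, hY (-1), (e6R2_Y_mem φ hφ hP _).2, XY_noncomm _ (e6R2_Xi φ) hX hY⟩
      · have hX : ∀ t, (e6R3 φ).X t ∈ (twE6 φ).UJ 3 := fun t => ((e6R3_iff φ hφ hφ2 _).2 ⟨t, rfl⟩).1
        have hY : ∀ t, (e6R3 φ).Y t ∈ (twE6 φ).VJ 3 := fun t => (e6R3_Y_mem φ hφ hP t).1
        exact ⟨_, hX 1, e6R3_X_mem φ hφ hP 1, _, hY (-1), (e6R3_Y_mem φ hφ hP _).2, XY_noncomm _ (e6R3_Xi φ) hX hY⟩)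

omit hφ2

noncomputable def e6S0 (P : TwG (twE6 φ)) (hP : P.G1 = twistedE6 K q) : RankOne (kF φ) ↥P.G1 :=
  (e6R0 φ).res P.G1 (e6R0_X_mem φ hφ hP) (fun t => (e6R0_Y_mem φ hφ hP t).2)
noncomputable def e6S1 (P : TwG (twE6 φ)) (hP : P.G1 = twistedE6 K q) : RankOne (kF φ) ↥P.G1 :=
  (e6R1 φ).res P.G1 (e6R1_X_mem φ hφ hP) (fun t => (e6R1_Y_mem φ hφ hP t).2)
noncomputable def e6S2 (P : TwG (twE6 φ)) (hP : P.G1 = twistedE6 K q) : RankOne K ↥P.G1 :=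
  (e6R2 φ).res P.G1 (e6R2_X_mem φ hφ hP) (fun t => (e6R2_Y_mem φ hφ hP t).2)
noncomputable def e6S3 (P : TwG (twE6 φ)) (hP : P.G1 = twistedE6 K q) : RankOne K ↥P.G1 :=
  (e6R3 φ).res P.G1 (e6R3_X_mem φ hφ hP) (fun t => (e6R3_Y_mem φ hφ hP t).2)

omit hφ

theorem par_res {P : TwG (twE6 φ)} {B : TO.SB ↥P.G1 (Fin 4)} {j : Fin 4} {F : Type*} [Field F] {R : RankOne F (GL chevE6.Idx K)}
    (hBX : B.X j = ((twE6 φ).UJ j).subgroupOf P.G1) (hBY : B.Y j = ((twE6 φ).VJ j).subgroupOf P.G1)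
    (hX : ∀ t, R.X t ∈ P.G1) (hY : ∀ t, R.Y t ∈ (twE6 φ).VJ j ∧ R.Y t ∈ P.G1)
    (hiff : ∀ g, (g ∈ (twE6 φ).UJ j ∧ g ∈ (twE6 φ).fix) ↔ ∃ t, g = R.X t) (hXi : Function.Injective R.X)
    (hYi : Function.Injective R.Y) : B.Par j (R.res P.G1 hX (fun t => (hY t).2)) where
  X x := by
    rw [hBX]
    constructor
    · intro hx
      obtain ⟨t, ht⟩ := (hiff _).1 ⟨hx, P.le_fix x.2⟩
      exact ⟨t, Subtype.ext ht⟩
    · rintro ⟨t, rfl⟩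
      exact ((hiff _).2 ⟨t, rfl⟩).1
  Xi a b h := hXi (congrArg Subtype.val h)
  Y t := by
    rw [hBY]
    exact (hY t).1
  Yi a b h := hYi (congrArg Subtype.val h)

include hφ hφ2

theorem e6_par0 (P : TwG (twE6 φ)) (hP : P.G1 = twistedE6 K q) : (e6SB φ hφ hφ2 P hP).Par 0 (e6S0 φ hφ P hP) :=
  par_res φ rfl rfl (e6R0_X_mem φ hφ hP) (e6R0_Y_mem φ hφ hP) (e6R0_iff φ hφ hφ2) (e6R0_Xi φ) (e6R0_Yi φ)
theorem e6_par1 (P : TwG (twE6 φ)) (hP : P.G1 = twistedE6 K q) : (e6SB φ hφ hφ2 P hP).Par 1 (e6S1 φ hφ P hP) :=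
  par_res φ rfl rfl (e6R1_X_mem φ hφ hP) (e6R1_Y_mem φ hφ hP) (e6R1_iff φ hφ hφ2) (e6R1_Xi φ) (e6R1_Yi φ)
theorem e6_par2 (P : TwG (twE6 φ)) (hP : P.G1 = twistedE6 K q) : (e6SB φ hφ hφ2 P hP).Par 2 (e6S2 φ hφ P hP) :=
  par_res φ rfl rfl (e6R2_X_mem φ hφ hP) (e6R2_Y_mem φ hφ hP) (e6R2_iff φ hφ hφ2) (e6R2_Xi φ) (e6R2_Yi φ)
theorem e6_par3 (P : TwG (twE6 φ)) (hP : P.G1 = twistedE6 K q) : (e6SB φ hφ hφ2 P hP).Par 3 (e6S3 φ hφ P hP) :=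
  par_res φ rfl rfl (e6R3_X_mem φ hφ hP) (e6R3_Y_mem φ hφ hP) (e6R3_iff φ hφ hφ2) (e6R3_Xi φ) (e6R3_Yi φ)

end E6

end Cfsg.Agent.H6.Chev

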