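import Cfsg.Agent.H6_TP2

/-!
The outer automorphism group of `²E₆(q)`.
-/

set_option autoImplicit false
set_option linter.unusedSectionVars false
set_option maxRecDepth 100000

namespace Cfsg.Agent.H6.Chev

open Cfsg Cfsg.Lie Cfsg.Lie.ChevalleyDatum
open Cfsg.Agent.H6.SL2
open Cfsg.Agent.H14.Chev (fr fr_X fr_hHom fr_H fr_gen)

section E6

variable {K : Type*} [Field K] (φ : K ≃+* K) {q : ℕ} (hφ : ∀ x, φ x = x ^ q) (hφ2 : ∀ x : K, (x ^ q) ^ q = x)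

/-- the parameters of diagonal automorphisms -/
theorem e6_tf (hφφ : ∀ x, φ (φ x) = x) (c0 : kF φ) (h0 : c0 ≠ 0) (c1 : kF φ) (h1 : c1 ≠ 0) (c2 : K) (h2 : c2 ≠ 0) (c3 : K) (h3 : c3 ≠ 0) :
    ∃ b ∈ (twE6 φ).Tf, ((b (1 : Fin 6) : Kˣ) : K) = c0 ∧ ((b (3 : Fin 6) : Kˣ) : K) = c1 ∧
      ((b (2 : Fin 6) : Kˣ) : K) = c2 ∧ ((b (0 : Fin 6) : Kˣ) : K) = c3 := by
  let v0 : Kˣ := Units.mk0 (c0 : K) (fun h => h0 (Subtype.ext h))
  let v1 : Kˣ := Units.mk0 (c1 : K) (fun h => h1 (Subtype.ext h))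
  let v2 : Kˣ := Units.mk0 c2 h2
  let v3 : Kˣ := Units.mk0 c3 h3
  refine ⟨(![v3, v0, v2, v1, Units.map (φ : K →* K) v2, Units.map (φ : K →* K) v3] : Fin 6 → Kˣ), ?_, rfl, rfl, rfl, rfl⟩
  refine (e6_Tf φ).2 ⟨rfl, ?_, rfl, ?_, ?_, ?_⟩
  · change (c0 : K) = φ c0
    exact c0.2.symm
  · change (c1 : K) = φ c1
    exact c1.2.symm
  · change c2 = φ (φ c2)
    exact (hφφ _).symm
  · change c3 = φ (φ c3)
    exact (hφφ _).symm

include hφ hφ2

variable [Fintype K]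

theorem e6_sylow {p f : ℕ} [Fact p.Prime] (hf : 1 ≤ f) (hq : q = p ^ f) (hK : Fintype.card K = q ^ 2)
    (P : TwG (twE6 φ)) (hP : P.G1 = twistedE6 K q) (hc : ∀ j, Nat.card ↥((twE6 φ).UJ j ⊓ P.G1) = q ^ kkE6 j) :
    ∃ S : Sylow p ↥P.G1, (S : Subgroup ↥P.G1) = (e6SB φ hφ hφ2 P hP).U := by
  have hp : p.Prime := Fact.out
  have hqp : IsPrimePow q := by rw [hq]; exact hp.isPrimePow.pow (by omega)
  have h1 := e6_card_H φ hφ hφ2 hqp.one_lt hK P hP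
  have h2 := P.card_G1 (d := 1) one_pos hkkE6 hc
  have h5 := P.card_U1 (d := 1) one_pos hkkE6 hc
  have hN : modelE6.N / 1 = 36 := by
    have h1 := modelE6.nroots_eq
    have h2 := baseE6.nroots
    have h3 : tabE6.n = 72 := rfl
    omega
  have h4 : (twE6 φ).PA Set.univ 1 q = _ := paE6 q
  have hfin : Finite ↥P.G1 := inferInstance
  rw [hN, h4] at h2
  have hq1 : 1 ≤ q := hqp.one_lt.le
  have h6 : Nat.gcd 3 (q + 1) * Nat.card ↥P.G1 =
      q ^ 36 * ((q ^ 2 - 1) * (q ^ 5 + 1) * (q ^ 6 - 1) * (q ^ 8 - 1) * (q ^ 9 + 1) * (q ^ 12 - 1)) := by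
    rw [h2]
    have h3 := ppE6 (q : ℤ)
    have e1 : ((q - 1 : ℕ) : ℤ) = (q : ℤ) - 1 := by rw [Nat.cast_sub hq1]; simp
    have e2 : ((q ^ 2 - 1 : ℕ) : ℤ) = (q : ℤ) ^ 2 - 1 := by rw [Nat.cast_sub (Nat.one_le_pow _ _ hq1)]; simp
    have e6 : ((q ^ 6 - 1 : ℕ) : ℤ) = (q : ℤ) ^ 6 - 1 := by rw [Nat.cast_sub (Nat.one_le_pow _ _ hq1)]; simp
    have e8 : ((q ^ 8 - 1 : ℕ) : ℤ) = (q : ℤ) ^ 8 - 1 := by rw [Nat.cast_sub (Nat.one_le_pow _ _ hq1)]; simp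
    have e12 : ((q ^ 12 - 1 : ℕ) : ℤ) = (q : ℤ) ^ 12 - 1 := by rw [Nat.cast_sub (Nat.one_le_pow _ _ hq1)]; simp
    zify at h1 ⊢
    rw [e1] at h1
    rw [e2, e6, e8, e12, poly_cast, poly_cast, poly_cast, poly_cast]
    generalize poly [1, 1, 1, 0, 1, 1, 2, 1, 1, 1, 2, 2, 1, 1, 1, 2, 1, 1, 0, 1, 1, 1] (q : ℤ) *
      poly [1, 0, 1, 0, 1, 1, 0, 1, 0, 1] (q : ℤ) * poly [1, 1, 0, 1, 1] (q : ℤ) * poly [1, 0, 1] (q : ℤ) = A at h3 ⊢
    linear_combination (q : ℤ) ^ 36 * h3 + (q : ℤ) ^ 36 * A * h1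
  have hpq : p ∣ q := by rw [hq]; exact dvd_pow_self p (by omega)
  have key : ∀ n : ℕ, n ≠ 0 → ¬ p ∣ q ^ n - 1 := by
    intro n hn h
    have h6 : p ∣ q ^ n := dvd_pow hpq hn
    have h7 := (Nat.dvd_sub h6 h)
    have : q ^ n - (q ^ n - 1) = 1 := by have := Nat.one_le_pow n q hq1; omega
    rw [this] at h7
    exact hp.one_lt.ne' (Nat.dvd_one.1 h7)
  have key' : ∀ n : ℕ, n ≠ 0 → ¬ p ∣ q ^ n + 1 := by
    intro n hn h
    have h7 := (Nat.dvd_add_right (dvd_pow hpq hn)).1 h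
    exact hp.one_lt.ne' (Nat.dvd_one.1 h7)
  generalize hM : Nat.card ↥(chevE6.diagonalSubgroup K ⊓ P.G1) = M at h2
  generalize hA : poly [1, 1, 1, 0, 1, 1, 2, 1, 1, 1, 2, 2, 1, 1, 1, 2, 1, 1, 0, 1, 1, 1] q *
      poly [1, 0, 1, 0, 1, 1, 0, 1, 0, 1] q * poly [1, 1, 0, 1, 1] q * poly [1, 0, 1] q = A at h2
  apply TO.exists_sylow (n := f * 36) (c := M * A)
  · change Nat.card ↥((chevE6.posUnipotent K).subgroupOf P.G1) = _
    rw [← Subgroup.inf_subgroupOf_right, Nat.card_congr (Subgroup.subgroupOfEquivOfLe inf_le_right).toEquiv, h5, hN, hq,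
      ← pow_mul]
  · rw [pow_mul, ← hq, h2, mul_assoc]
  · intro h
    have hq0 : 0 < q ^ 36 := pow_pos (by omega) _
    have h8 : Nat.gcd 3 (q + 1) * (M * A) = (q ^ 2 - 1) * (q ^ 5 + 1) * (q ^ 6 - 1) * (q ^ 8 - 1) * (q ^ 9 + 1) * (q ^ 12 - 1) := by
      apply Nat.eq_of_mul_eq_mul_left hq0
      rw [← h6, h2]
      ring
    have h9 : p ∣ (q ^ 2 - 1) * (q ^ 5 + 1) * (q ^ 6 - 1) * (q ^ 8 - 1) * (q ^ 9 + 1) * (q ^ 12 - 1) := by
      rw [← h8]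
      exact Dvd.dvd.mul_left h _
    rcases hp.dvd_mul.1 h9 with h9 | h9
    · rcases hp.dvd_mul.1 h9 with h9 | h9
      · rcases hp.dvd_mul.1 h9 with h9 | h9
        · rcases hp.dvd_mul.1 h9 with h9 | h9
          · rcases hp.dvd_mul.1 h9 with h9 | h9
            · exact key 2 (by norm_num) h9
            · exact key' 5 (by norm_num) h9
          · exact key 6 (by norm_num) h9
        · exact key 8 (by norm_num) h9
      · exact key' 9 (by norm_num) h9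
    · exact key 12 (by norm_num) h9

/-- adjusting an automorphism -/
theorem e6_adjust {p f : ℕ} [Fact p.Prime] (hf : 1 ≤ f) (hq : q = p ^ f) (hK : Fintype.card K = q ^ 2)
    (P : TwG (twE6 φ)) (hP : P.G1 = twistedE6 K q) (hc : ∀ j, Nat.card ↥((twE6 φ).UJ j ⊓ P.G1) = q ^ kkE6 j)
    (α : MulAut ↥P.G1) : ∃ (g : ↥P.G1) (b : (twE6 φ).Tf) (σ : RingAut K), MulAut.conj g * α =
      dA modelE6 (twE6 φ).Tf P.G1 (e6_dT φ hφ P hP) b * frA P.G1 (e6_fr φ P hP) σ := by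
  have hp : p.Prime := Fact.out
  have hqp : IsPrimePow q := by rw [hq]; exact hp.isPrimePow.pow (by omega)
  have hq1 := hqp.one_lt
  have hφφ : ∀ x : K, φ (φ x) = x := fun x => by rw [hφ, hφ, hφ2]
  obtain ⟨S, hS⟩ := e6_sylow φ hφ hφ2 hf hq hK P hP hc
  set B := e6SB φ hφ hφ2 P hP with hB
  obtain ⟨g, hU, hV⟩ := B.adjust hS α
  set β := MulAut.conj g * α with hβ
  obtain ⟨π, hπ, -, hX, hY⟩ := B.perm_XY hU hV
  have par0 := e6_par0 φ hφ hφ2 P hP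
  have par1 := e6_par1 φ hφ hφ2 P hP
  have par2 := e6_par2 φ hφ hφ2 P hP
  have par3 := e6_par3 φ hφ hφ2 P hP
  rw [← hB] at par0 par1 par2 par3
  -- cardinalities
  have hcX : ∀ j, Nat.card (B.X j) = q ^ kkE6 j := by
    intro j
    rw [← hc j]
    change Nat.card ↥(((twE6 φ).UJ j).subgroupOf P.G1) = _
    rw [← Subgroup.inf_subgroupOf_right, Nat.card_congr (Subgroup.subgroupOfEquivOfLe inf_le_right).toEquiv]
  have hπc : ∀ j, Nat.card (B.X (π j)) = Nat.card (B.X j) := by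
    intro j
    have h1 : (B.X j).map β.toMonoidHom = B.X (π j) := by
      ext y
      constructor
      · rintro ⟨x, hx, rfl⟩; exact (hX j x).2 hx
      · intro hy
        obtain ⟨x, rfl⟩ := β.surjective y
        exact ⟨x, (hX j x).1 hy, rfl⟩
    rw [← h1]
    exact (Nat.card_congr (Subgroup.equivMapOfInjective (B.X j) β.toMonoidHom β.injective).toEquiv).symm
  have hk : kkE6 ((0 : Fin 4) : ℕ) = 1 ∧ kkE6 ((1 : Fin 4) : ℕ) = 1 ∧ kkE6 ((2 : Fin 4) : ℕ) = 2 ∧ kkE6 ((3 : Fin 4) : ℕ) = 2 :=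
    ⟨rfl, rfl, rfl, rfl⟩
  have hne : q ^ 2 ≠ q ^ 1 := fun h => by
    have := Nat.pow_right_injective hq1 h
    omega
  have hsm : ∀ j : Fin 4, kkE6 j = 1 → π j = 0 ∨ π j = 1 := by
    intro j hj
    have h1 := hπc j
    rw [hcX, hcX, hj] at h1
    generalize π j = i at h1
    fin_cases i
    · exact Or.inl rfl
    · exact Or.inr rfl
    · exact absurd h1 hne
    · exact absurd h1 hne
  have hbg : ∀ j : Fin 4, kkE6 j = 2 → π j = 2 ∨ π j = 3 := by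
    intro j hj
    have h1 := hπc j
    rw [hcX, hcX, hj] at h1
    generalize π j = i at h1
    fin_cases i
    · exact absurd h1.symm hne
    · exact absurd h1.symm hne
    · exact Or.inl rfl
    · exact Or.inr rfl
  -- commuting root subgroups
  have hcm : ∀ i j : Fin 4, (i = 0 ∧ (j = 2 ∨ j = 3)) ∨ (i = 1 ∧ j = 3) → ∀ x ∈ B.X i, ∀ y ∈ B.X j, x * y = y * x := by
    intro i j hij x hx y hy
    rcases hij with ⟨rfl, rfl | rfl⟩ | ⟨rfl, rfl⟩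
    · obtain ⟨s, rfl⟩ := (par0.X x).1 hx
      obtain ⟨t, rfl⟩ := (par2.X y).1 hy
      apply Subtype.ext
      change modelE6.X 46 (s : K) * (modelE6.X 42 t * modelE6.X 37 (φ t)) = (modelE6.X 42 t * modelE6.X 37 (φ t)) * modelE6.X 46 (s : K)
      rw [← mul_assoc, comE6 (a := 46) (c := 42) (by decide +kernel), mul_assoc, comE6 (a := 46) (c := 37) (by decide +kernel), mul_assoc]
    · obtain ⟨s, rfl⟩ := (par0.X x).1 hx
      obtain ⟨t, rfl⟩ := (par3.X y).1 hy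
      apply Subtype.ext
      change modelE6.X 46 (s : K) * (modelE6.X 56 t * modelE6.X 36 (φ t)) = (modelE6.X 56 t * modelE6.X 36 (φ t)) * modelE6.X 46 (s : K)
      rw [← mul_assoc, comE6 (a := 46) (c := 56) (by decide +kernel), mul_assoc, comE6 (a := 46) (c := 36) (by decide +kernel), mul_assoc]
    · obtain ⟨s, rfl⟩ := (par1.X x).1 hx
      obtain ⟨t, rfl⟩ := (par3.X y).1 hy
      apply Subtype.ext
      change modelE6.X 39 (s : K) * (modelE6.X 56 t * modelE6.X 36 (φ t)) = (modelE6.X 56 t * modelE6.X 36 (φ t)) * modelE6.X 39 (s : K)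
      rw [← mul_assoc, comE6 (a := 39) (c := 56) (by decide +kernel), mul_assoc, comE6 (a := 39) (c := 36) (by decide +kernel), mul_assoc]
  have hx1 : (e6S1 φ hφ P hP).X 1 ∈ B.X 1 := (par1.X _).2 ⟨1, rfl⟩
  have hx2 : (e6S2 φ hφ P hP).X 1 ∈ B.X 2 := (par2.X _).2 ⟨1, rfl⟩
  have hnn : (e6S1 φ hφ P hP).X 1 * (e6S2 φ hφ P hP).X 1 ≠ (e6S2 φ hφ P hP).X 1 * (e6S1 φ hφ P hP).X 1 :=
    fun h => e6_noncomm φ (congrArg Subtype.val h)
  have hnc : ¬ ((π 1 = 0 ∧ (π 2 = 2 ∨ π 2 = 3)) ∨ (π 1 = 1 ∧ π 2 = 3)) := by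
    intro h
    have h1 := hcm (π 1) (π 2) h (β ((e6S1 φ hφ P hP).X 1)) ((hX 1 _).2 hx1) (β ((e6S2 φ hφ P hP).X 1)) ((hX 2 _).2 hx2)
    rw [← map_mul, ← map_mul] at h1
    exact hnn (β.injective h1)
  have hπ1 : π 1 = 1 := by
    rcases hsm 1 rfl with h | h
    · exact absurd (Or.inl ⟨h, hbg 2 rfl⟩) hnc
    · exact h
  have hπ2 : π 2 = 2 := by
    rcases hbg 2 rfl with h | h
    · exact h
    · exact absurd (Or.inr ⟨hπ1, h⟩) hnc
  have hπ0 : π 0 = 0 := by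
    rcases hsm 0 rfl with h | h
    · exact h
    · have := hπ (h.trans hπ1.symm)
      exact absurd this (by decide)
  have hπ3 : π 3 = 3 := by
    rcases hbg 3 rfl with h | h
    · have := hπ (h.trans hπ2.symm)
      exact absurd this (by decide)
    · exact h
  have hX0 := hX 0
  have hX1 := hX 1
  have hX2 := hX 2
  have hX3 := hX 3
  have hY0 := hY 0
  have hY1 := hY 1
  have hY2 := hY 2
  have hY3 := hY 3
  rw [hπ0] at hX0 hY0
  rw [hπ1] at hX1 hY1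
  rw [hπ2] at hX2 hY2
  rw [hπ3] at hX3 hY3
  obtain ⟨σ0, c0, hc0, a0, b0⟩ := par0.rigid β hX0 hY0
  obtain ⟨σ1, c1, hc1, a1, b1⟩ := par1.rigid β hX1 hY1
  obtain ⟨σ2, c2, hc2, a2, b2⟩ := par2.rigid β hX2 hY2
  obtain ⟨σ3, c3, hc3, a3, b3⟩ := par3.rigid β hX3 hY3
  obtain ⟨d, hd, hd0, hd1, hd2, hd3⟩ := e6_tf φ hφφ c0 hc0 c1 hc1 c2 hc2 c3 hc3
  set δ := dA modelE6 (twE6 φ).Tf P.G1 (e6_dT φ hφ P hP) ⟨d, hd⟩ with hδ
  obtain ⟨⟨r0, r0'⟩, ⟨r1, r1'⟩, ⟨r2, r2'⟩, r3, r3'⟩ := e6_dR φ hd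
  have s0 : ∀ t, δ ((e6S0 φ hφ P hP).X t) = (e6S0 φ hφ P hP).X (c0 * t) := by
    intro t
    apply Subtype.ext
    refine (r0 t).trans ?_
    rw [hd0]
    rfl
  have s0' : ∀ t, δ ((e6S0 φ hφ P hP).Y t) = (e6S0 φ hφ P hP).Y (c0⁻¹ * t) := by
    intro t
    apply Subtype.ext
    refine (r0' t).trans ?_
    rw [hd0]
    exact (e6R0_Y φ (c0⁻¹ * t)).symm
  have s1 : ∀ t, δ ((e6S1 φ hφ P hP).X t) = (e6S1 φ hφ P hP).X (c1 * t) := by
    intro t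
    apply Subtype.ext
    refine (r1 t).trans ?_
    rw [hd1]
    rfl
  have s1' : ∀ t, δ ((e6S1 φ hφ P hP).Y t) = (e6S1 φ hφ P hP).Y (c1⁻¹ * t) := by
    intro t
    apply Subtype.ext
    refine (r1' t).trans ?_
    rw [hd1]
    exact (e6R1_Y φ (c1⁻¹ * t)).symm
  have s2 : ∀ t, δ ((e6S2 φ hφ P hP).X t) = (e6S2 φ hφ P hP).X (c2 * t) := by
    intro t
    apply Subtype.ext
    refine (r2 t).trans ?_
    rw [hd2]
    rfl
  have s2' : ∀ t, δ ((e6S2 φ hφ P hP).Y t) = (e6S2 φ hφ P hP).Y (c2⁻¹ * t) := by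
    intro t
    apply Subtype.ext
    refine (r2' t).trans ?_
    rw [hd2]
    rfl
  have s3 : ∀ t, δ ((e6S3 φ hφ P hP).X t) = (e6S3 φ hφ P hP).X (c3 * t) := by
    intro t
    apply Subtype.ext
    refine (r3 t).trans ?_
    rw [hd3]
    rfl
  have s3' : ∀ t, δ ((e6S3 φ hφ P hP).Y t) = (e6S3 φ hφ P hP).Y (c3⁻¹ * t) := by
    intro t
    apply Subtype.ext
    refine (r3' t).trans ?_
    rw [hd3]
    rfl
  set γ := δ⁻¹ * β with hγ
  have hγδ : ∀ x, δ (γ x) = β x := fun x => by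
    rw [hγ, MulAut.mul_apply, MulAut.apply_inv_self]
  have u0 : ∀ t, γ ((e6S0 φ hφ P hP).X t) = (e6S0 φ hφ P hP).X (σ0 t) := fun t => δ.injective (by rw [hγδ, a0, s0])
  have u0' : ∀ t, γ ((e6S0 φ hφ P hP).Y t) = (e6S0 φ hφ P hP).Y (σ0 t) := fun t => δ.injective (by rw [hγδ, b0, s0'])
  have u1 : ∀ t, γ ((e6S1 φ hφ P hP).X t) = (e6S1 φ hφ P hP).X (σ1 t) := fun t => δ.injective (by rw [hγδ, a1, s1])
  have u1' : ∀ t, γ ((e6S1 φ hφ P hP).Y t) = (e6S1 φ hφ P hP).Y (σ1 t) := fun t => δ.injective (by rw [hγδ, b1, s1'])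
  have u2 : ∀ t, γ ((e6S2 φ hφ P hP).X t) = (e6S2 φ hφ P hP).X (σ2 t) := fun t => δ.injective (by rw [hγδ, a2, s2])
  have u2' : ∀ t, γ ((e6S2 φ hφ P hP).Y t) = (e6S2 φ hφ P hP).Y (σ2 t) := fun t => δ.injective (by rw [hγδ, b2, s2'])
  have u3 : ∀ t, γ ((e6S3 φ hφ P hP).X t) = (e6S3 φ hφ P hP).X (σ3 t) := fun t => δ.injective (by rw [hγδ, a3, s3])
  have u3' : ∀ t, γ ((e6S3 φ hφ P hP).Y t) = (e6S3 φ hφ P hP).Y (σ3 t) := fun t => δ.injective (by rw [hγδ, b3, s3'])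
  have g01 := TO.glue (e6S0 φ hφ P hP) (e6S1 φ hφ P hP) par1.Xi (RingHom.id (kF φ))
    (fun u hu s => Subtype.ext (e6_act01 φ u hu s)) γ u0 u0' u1
  have g12 := TO.glue (e6S1 φ hφ P hP) (e6S2 φ hφ P hP) par2.Xi (kF φ).subtype
    (fun u hu s => Subtype.ext (e6_act12 φ u hu s)) γ u1 u1' u2
  have g23 := TO.glue (e6S2 φ hφ P hP) (e6S3 φ hφ P hP) par3.Xi (RingHom.id K)
    (fun u hu s => Subtype.ext (e6_act23 φ hφφ u hu s)) γ u2 u2' u3
  have e3 : σ3 = σ2 := RingHom.ext g23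
  have e1 : ∀ t : kF φ, ((σ1 t : kF φ) : K) = σ2 (t : K) := fun t => (g12 t).symm
  have e0 : ∀ t : kF φ, ((σ0 t : kF φ) : K) = σ2 (t : K) := fun t => by
    rw [← e1]
    have := g01 t
    change σ1 t = σ0 t at this
    rw [this]
  subst e3
  have hσb : Function.Bijective σ3 := Finite.injective_iff_bijective.1 σ3.injective
  let σ : RingAut K := RingEquiv.ofBijective σ3 hσb
  have hσ : (σ : K →+* K) = σ3 := by ext x; rfl
  refine ⟨g, ⟨d, hd⟩, σ, ?_⟩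
  rw [← hδ, ← hβ]
  have h2 : γ = frA P.G1 (e6_fr φ P hP) σ := by
    have eφ : ∀ t : K, φ (σ3 t) = σ3 (φ t) := fun t => by rw [hφ, hφ, map_pow]
    apply e6_ext φ hφ P hP
    · intro t
      rw [u0]
      apply Subtype.ext
      rw [coe_frA, hσ]
      change (e6R0 φ).X (σ0 t) = fr chevE6 σ3 ((e6R0 φ).X t)
      rw [e6R0_X, e6R0_X, fr_X modelE6, e0]
    · intro t
      rw [u0']
      apply Subtype.ext
      rw [coe_frA, hσ]
      change (e6R0 φ).Y (σ0 t) = fr chevE6 σ3 ((e6R0 φ).Y t)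
      rw [e6R0_Y, e6R0_Y, fr_X modelE6, e0]
    · intro t
      rw [u1]
      apply Subtype.ext
      rw [coe_frA, hσ]
      change (e6R1 φ).X (σ1 t) = fr chevE6 σ3 ((e6R1 φ).X t)
      rw [e6R1_X, e6R1_X, fr_X modelE6, e1]
    · intro t
      rw [u1']
      apply Subtype.ext
      rw [coe_frA, hσ]
      change (e6R1 φ).Y (σ1 t) = fr chevE6 σ3 ((e6R1 φ).Y t)
      rw [e6R1_Y, e6R1_Y, fr_X modelE6, e1]
    · intro t
      rw [u2]
      apply Subtype.ext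
      rw [coe_frA, hσ]
      change (e6R2 φ).X (σ3 t) = fr chevE6 σ3 ((e6R2 φ).X t)
      rw [e6R2_X, e6R2_X, map_mul, fr_X modelE6, fr_X modelE6, eφ]
    · intro t
      rw [u2']
      apply Subtype.ext
      rw [coe_frA, hσ]
      change (e6R2 φ).Y (σ3 t) = fr chevE6 σ3 ((e6R2 φ).Y t)
      rw [e6R2_Y, e6R2_Y, map_mul, fr_X modelE6, fr_X modelE6, eφ]
    · intro t
      rw [u3]
      apply Subtype.ext
      rw [coe_frA, hσ]
      change (e6R3 φ).X (σ3 t) = fr chevE6 σ3 ((e6R3 φ).X t)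
      rw [e6R3_X, e6R3_X, map_mul, fr_X modelE6, fr_X modelE6, eφ]
    · intro t
      rw [u3']
      apply Subtype.ext
      rw [coe_frA, hσ]
      change (e6R3 φ).Y (σ3 t) = fr chevE6 σ3 ((e6R3 φ).Y t)
      rw [e6R3_Y, e6R3_Y, map_mul, fr_X modelE6, fr_X modelE6, eφ]
  rw [← h2, hγ, mul_inv_cancel_left]

theorem e6_out {p f : ℕ} [Fact p.Prime] (hf : 1 ≤ f) (hq : q = p ^ f) (hK : Fintype.card K = q ^ 2)
    (P : TwG (twE6 φ)) (hP : P.G1 = twistedE6 K q) (hc : ∀ j, Nat.card ↥((twE6 φ).UJ j ⊓ P.G1) = q ^ kkE6 j) :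
    Nat.card (Cfsg.Out ↥P.G1) = Nat.gcd 3 (q + 1) * Nat.card (RingAut K) := by
  have hp : p.Prime := Fact.out
  have hqp : IsPrimePow q := by rw [hq]; exact hp.isPrimePow.pow (by omega)
  have h1 := TO.card_out_of (dA modelE6 (twE6 φ).Tf P.G1 (e6_dT φ hφ P hP)) (frA P.G1 (e6_fr φ P hP))
    (twE6 φ).cmT.range (e6_adjust φ hφ hφ2 hf hq hK P hP hc) ?_ ?_
  · rw [h1, (twE6 φ).index_cmT, e6_card_ker φ hφ hφ2 hqp.one_lt hK]
  · intro b σ g h
    have h2 := TwG.mem_H_of_dA P (e6SB φ hφ hφ2 P hP) rfl rfl rfl _ _ h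
    have h3 : (g : GL chevE6.Idx K) ∈ (twE6 φ).H0 := by
      have := (qE6 φ hφ hφ2 P hP).H_eq
      change chevE6.diagonalSubgroup K ⊓ P.G1 = (twE6 φ).H0 at this
      rw [← this]
      exact Subgroup.mem_inf.2 ⟨h2, g.2⟩
    obtain ⟨b', hb', he⟩ := h3
    rw [modelE6.hT_eq_dT] at he
    have h4 : ∀ x : ↥P.G1, modelE6.dT K b * fr chevE6 (σ : K →+* K) x * (modelE6.dT K b)⁻¹ =
        modelE6.dT K (Model.cm chevE6 K b') * x * (modelE6.dT K (Model.cm chevE6 K b'))⁻¹ := by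
      intro x
      rw [he]
      exact congrArg (fun f : MulAut ↥P.G1 => ((f x : ↥P.G1) : GL chevE6.Idx K)) h
    have hcb := (twE6 φ).cm_Tf hb'
    obtain ⟨⟨r0, -⟩, ⟨r1, -⟩, ⟨r2, -⟩, r3, -⟩ := e6_dR φ hcb
    obtain ⟨⟨v0, -⟩, ⟨v1, -⟩, ⟨v2, -⟩, v3, -⟩ := e6_dR φ b.2
    have eφ : ∀ t : K, φ (σ t) = σ (φ t) := fun t => by rw [hφ, hφ, map_pow]
    have h5 : ∀ t : K, ((b : Fin chevE6.rank → Kˣ) (0 : Fin 6) : K) * σ t = (Model.cm chevE6 K b' (0 : Fin 6) : K) * t := by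
      intro t
      have h6 := h4 ((e6S3 φ hφ P hP).X t)
      change modelE6.dT K b * fr chevE6 (σ : K →+* K) ((e6R3 φ).X t) * (modelE6.dT K b)⁻¹ =
        modelE6.dT K (Model.cm chevE6 K b') * (e6R3 φ).X t * (modelE6.dT K (Model.cm chevE6 K b'))⁻¹ at h6
      have h7 : fr chevE6 (σ : K →+* K) ((e6R3 φ).X t) = (e6R3 φ).X (σ t) := by
        rw [e6R3_X, e6R3_X, map_mul, fr_X modelE6, fr_X modelE6, eφ]
        rfl
      rw [h7, v3, r3] at h6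
      exact e6R3_Xi φ h6
    have h6 := h5 1
    rw [map_one, mul_one, mul_one] at h6
    have h7 : σ = 1 := by
      ext t
      have h8 := h5 t
      rw [← h6] at h8
      exact mul_left_cancel₀ (Units.ne_zero _) h8
    refine ⟨h7, ⟨⟨b', hb'⟩, ?_⟩⟩
    have k2 : ((b : Fin chevE6.rank → Kˣ) (2 : Fin 6) : K) = (Model.cm chevE6 K b' (2 : Fin 6) : K) := by
      have h9 := h4 ((e6S2 φ hφ P hP).X 1)
      change modelE6.dT K b * fr chevE6 (σ : K →+* K) ((e6R2 φ).X 1) * (modelE6.dT K b)⁻¹ =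
        modelE6.dT K (Model.cm chevE6 K b') * (e6R2 φ).X 1 * (modelE6.dT K (Model.cm chevE6 K b'))⁻¹ at h9
      have h10 : fr chevE6 (σ : K →+* K) ((e6R2 φ).X 1) = (e6R2 φ).X 1 := by
        rw [e6R2_X, map_mul, fr_X modelE6, fr_X modelE6, map_one, map_one, map_one]
      rw [h10, v2, r2] at h9
      have h11 := e6R2_Xi φ h9
      rwa [mul_one, mul_one] at h11
    have k1 : ((b : Fin chevE6.rank → Kˣ) (1 : Fin 6) : K) = (Model.cm chevE6 K b' (1 : Fin 6) : K) := by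
      have h9 := h4 ((e6S0 φ hφ P hP).X 1)
      change modelE6.dT K b * fr chevE6 (σ : K →+* K) ((e6R0 φ).X 1) * (modelE6.dT K b)⁻¹ =
        modelE6.dT K (Model.cm chevE6 K b') * (e6R0 φ).X 1 * (modelE6.dT K (Model.cm chevE6 K b'))⁻¹ at h9
      have h10 : fr chevE6 (σ : K →+* K) ((e6R0 φ).X 1) = (e6R0 φ).X 1 := by
        rw [e6R0_X, fr_X modelE6]
        congr 1
        exact map_one _
      rw [h10, v0, r0] at h9
      have h11 := modelE6.X_inj e6_lt.1.1 h9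
      change _ * (1 : K) = _ * (1 : K) at h11
      rwa [mul_one, mul_one] at h11
    have k3 : ((b : Fin chevE6.rank → Kˣ) (3 : Fin 6) : K) = (Model.cm chevE6 K b' (3 : Fin 6) : K) := by
      have h9 := h4 ((e6S1 φ hφ P hP).X 1)
      change modelE6.dT K b * fr chevE6 (σ : K →+* K) ((e6R1 φ).X 1) * (modelE6.dT K b)⁻¹ =
        modelE6.dT K (Model.cm chevE6 K b') * (e6R1 φ).X 1 * (modelE6.dT K (Model.cm chevE6 K b'))⁻¹ at h9
      have h10 : fr chevE6 (σ : K →+* K) ((e6R1 φ).X 1) = (e6R1 φ).X 1 := by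
        rw [e6R1_X, fr_X modelE6]
        congr 1
        exact map_one _
      rw [h10, v1, r1] at h9
      have h11 := modelE6.X_inj e6_lt.1.2 h9
      change _ * (1 : K) = _ * (1 : K) at h11
      rwa [mul_one, mul_one] at h11
    obtain ⟨p5, -, p4, -, -, -⟩ := (e6_Tf φ).1 b.2
    obtain ⟨q5, -, q4, -, -, -⟩ := (e6_Tf φ).1 hcb
    apply Subtype.ext
    change Model.cm chevE6 K b' = b.1
    funext (k : Fin 6)
    apply Units.ext
    fin_cases k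
    · exact h6.symm
    · exact k1.symm
    · exact k2.symm
    · exact k3.symm
    · exact (p4.trans ((congrArg φ k2).trans q4.symm)).symm
    · exact (p5.trans ((congrArg φ h6).trans q5.symm)).symm
  · rintro _ ⟨b, rfl⟩
    have h2 : modelE6.hT K b ∈ P.G1 := e6_H0_le φ hφ P hP ⟨b, b.2, rfl⟩
    refine ⟨⟨modelE6.hT K b, h2⟩, ?_⟩
    ext x : 1
    apply Subtype.ext
    change modelE6.dT K (Model.cm chevE6 K b) * x * (modelE6.dT K (Model.cm chevE6 K b))⁻¹ =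
      modelE6.hT K b * x * (modelE6.hT K b)⁻¹
    rw [modelE6.hT_eq_dT]

end E6

end Cfsg.Agent.H6.Chev
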