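import Cfsg.Agent.H6_TO9
import Cfsg.Agent.H6_TwHF4
import Cfsg.Agent.H6_TwOrd

/-!
Groups with a split (B,N)-pair: automorphisms trivial on a positive root subgroup.
-/

set_option autoImplicit false
set_option linter.unusedSectionVars false
set_option maxRecDepth 100000

namespace Cfsg.Agent.H6.TO

open Cfsg Cfsg.Agent.H6 Cfsg.Agent.H6.BN

theorem mem_parabolic_single {G : Type*} [Group G] {P : BNPair G} {s : G} (hs : s ∈ P.S) {g : G}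
    (hg : g ∈ P.parabolic {s}) : g ∈ P.B ∨ ∃ b ∈ P.B, ∃ b' ∈ P.B, g = b * s * b' := by
  obtain ⟨w, ⟨l, hl, rfl⟩, hw⟩ := (mem_parabolic_iff_C (Set.singleton_subset_iff.2 hs)).1 hg
  have key : ∀ l : List P.S, (∀ x ∈ l, (x : G) ∈ ({s} : Set G)) →
      Cox.wp (σ P) l = 1 ∨ Cox.wp (σ P) l = σ P ⟨s, hs⟩ := by
    intro l
    induction l with
    | nil => intro _; exact Or.inl rfl
    | cons a l ih =>
      intro h
      have ha : a = ⟨s, hs⟩ := Subtype.ext (h a List.mem_cons_self)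
      rw [Cox.wp_cons, ha]
      rcases ih (fun s hs => h s (List.mem_cons_of_mem _ hs)) with h1 | h1
      · right; rw [h1, mul_one]
      · left; rw [h1, sigma_sq]
  rcases key l hl with h | h
  · left
    rw [h, mem_C_one] at hw
    exact hw
  · right
    rw [h] at hw
    exact mem_C_sigma.1 hw

namespace SB

variable {G : Type*} [Group G] {ι : Type*} (D : SB G ι)

theorem mem_Pj' {j : ι} {g : G} (hg : g ∈ D.Pj j) : g ∈ D.P.B ∨ ∃ x ∈ D.X j, ∃ b ∈ D.P.B, g = x * D.s j * b := by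
  rcases D.mem_Pj hg with h | ⟨b, hb, b', hb', rfl⟩
  · exact Or.inl h
  · right
    obtain ⟨x, hx, c, hc, hc', rfl⟩ := D.split j b hb
    exact ⟨x, hx, (D.s j)⁻¹ * c * D.s j * b', mul_mem hc' hb', by group⟩

/-- an automorphism which is trivial on `X_j` and preserves `B`, `P_j`, `Y_j` is trivial on `Y_j` -/
theorem fix_Y {j : ι} (hs' : ∀ x ∈ D.X j, (D.s j)⁻¹ * x * D.s j ∈ D.Y j) {α : MulAut G}
    (hB : ∀ x, α x ∈ D.P.B ↔ x ∈ D.P.B) (hP : ∀ x, α x ∈ D.Pj j ↔ x ∈ D.Pj j) (hY : ∀ x, α x ∈ D.Y j ↔ x ∈ D.Y j)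
    (hX : ∀ x ∈ D.X j, α x = x) {y : G} (hy : y ∈ D.Y j) : α y = y := by
  set s := D.s j with hs
  have hsB : s ∉ D.P.B := not_mem_B ⟨D.s j, D.s_mem j⟩
  -- `α(s) = x₀ s b₀`
  have h1 : α s ∈ D.Pj j := (hP _).2 (D.s_Pj j)
  have h2 : α s ∉ D.P.B := fun h => hsB ((hB _).1 h)
  obtain ⟨x₀, hx₀, b₀, hb₀, he⟩ := (D.mem_Pj' h1).resolve_left h2
  rw [← hs] at he
  have h3 : ∀ z ∈ D.Y j, s⁻¹ * (x₀⁻¹ * z * x₀) * s ∈ D.P.B := by
    intro z hz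
    obtain ⟨y', rfl⟩ := α.surjective z
    rw [hY] at hz
    have h4 : s⁻¹ * y' * s ∈ D.X j := by
      rw [← D.sX j, ← hs]
      have : s * (s⁻¹ * y' * s) * s⁻¹ = y' := by group
      rwa [this]
    have h5 : α y' = x₀ * s * b₀ * (s⁻¹ * y' * s) * b₀⁻¹ * s⁻¹ * x₀⁻¹ := by
      have h6 : α y' = α s * α (s⁻¹ * y' * s) * (α s)⁻¹ := by
        rw [← map_inv, ← map_mul, ← map_mul]
        congr 1
        group
      rw [h6, hX _ h4, he]
      group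
    have h6 : s⁻¹ * (x₀⁻¹ * α y' * x₀) * s = b₀ * (s⁻¹ * y' * s) * b₀⁻¹ := by
      rw [h5]; group
    rw [h6]
    exact mul_mem (mul_mem hb₀ (D.U_le_B (D.XU j h4))) (inv_mem hb₀)
  have hx1 : x₀ = 1 := by
    by_contra hne
    set y₀ := s⁻¹ * x₀ * s with hy₀
    have hy₀Y : y₀ ∈ D.Y j := hs' x₀ hx₀
    have hy₀B : y₀ ∉ D.P.B := by
      intro h
      have := D.BV _ (D.YV j hy₀Y) h
      apply hne
      have h' : x₀ = s * y₀ * s⁻¹ := by rw [hy₀]; group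
      rw [h', this]; group
    obtain ⟨x₂, hx₂, b₂, hb₂, he₂⟩ := (D.mem_Pj' (D.Y_le_Pj j hy₀Y)).resolve_left hy₀B
    rw [← hs] at he₂
    -- `y₀⁻¹ x y₀ ∈ B` for all `x ∈ X_j`
    have h4 : ∀ x ∈ D.X j, y₀⁻¹ * x * y₀ ∈ D.P.B := by
      intro x hx
      have h5 := h3 (s * x * s⁻¹) ((D.sX j x).2 hx)
      have e : s⁻¹ * (x₀⁻¹ * (s * x * s⁻¹) * x₀) * s = y₀⁻¹ * x * y₀ := by rw [hy₀]; group
      rwa [e] at h5
    obtain ⟨x, hx, hxne⟩ := (Subgroup.bot_or_exists_ne_one _).resolve_left (D.X_ne j)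
    have h5 := h4 (x₂ * x * x₂⁻¹) (mul_mem (mul_mem hx₂ hx) (inv_mem hx₂))
    have h6 : s⁻¹ * x * s ∈ D.P.B := by
      have e : s⁻¹ * x * s = b₂ * (y₀⁻¹ * (x₂ * x * x₂⁻¹) * y₀) * b₂⁻¹ := by rw [he₂]; group
      rw [e]
      exact mul_mem (mul_mem hb₂ h5) (inv_mem hb₂)
    have h7 := D.BV _ (D.YV j (hs' x hx)) h6
    apply hxne
    have h' : x = s * (s⁻¹ * x * s) * s⁻¹ := by group
    rw [h', h7]; group
  rw [hx1, one_mul] at he
  by_cases hy1 : y = 1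
  · rw [hy1, map_one]
  have hyB : y ∉ D.P.B := fun h => hy1 (D.BV _ (D.YV j hy) h)
  obtain ⟨x, hx, b, hb, hyx⟩ := (D.mem_Pj' (D.Y_le_Pj j hy)).resolve_left hyB
  rw [← hs] at hyx
  have h4 : α y = x * s * (b₀ * α b) := by
    rw [hyx, map_mul, map_mul, hX x hx, he]; group
  have h5 : y⁻¹ * α y ∈ D.P.B := by
    rw [h4]
    have e : y⁻¹ * (x * s * (b₀ * α b)) = b⁻¹ * (b₀ * α b) := by rw [hyx]; group
    rw [e]
    exact mul_mem (inv_mem hb) (mul_mem hb₀ ((hB _).2 hb))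
  have h6 := D.BV _ (D.YV j (mul_mem (inv_mem hy) ((hY _).2 hy))) h5
  exact (inv_mul_eq_one.1 h6).symm

theorem B_iff {α : MulAut G} (hU : ∀ x, α x ∈ D.U ↔ x ∈ D.U) : ∀ x, α x ∈ D.P.B ↔ x ∈ D.P.B := by
  have key : ∀ β : MulAut G, (∀ x, β x ∈ D.U ↔ x ∈ D.U) → ∀ x, x ∈ D.P.B → β x ∈ D.P.B := by
    intro β hβ x hx
    rw [← D.normalizer_U, Subgroup.mem_normalizer_iff] at hx ⊢
    intro y
    obtain ⟨z, rfl⟩ := β.surjective y
    rw [← map_inv, ← map_mul, ← map_mul, hβ, hβ]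
    exact hx z
  intro x
  refine ⟨fun h => ?_, key α hU x⟩
  have h1 := key α⁻¹ (fun y => by
    have := hU (α⁻¹ y)
    rw [MulAut.apply_inv_self] at this
    exact this.symm) _ h
  rwa [MulAut.inv_apply_self] at h1

end SB

end Cfsg.Agent.H6.TO

namespace Cfsg.Agent.H6.Chev

open Cfsg Cfsg.Lie Cfsg.Lie.ChevalleyDatum Cfsg.Agent.H6.BN

namespace TwG

variable {D : ChevalleyDatum} {m : Model D} {F : Type*} [Field F] {ι : Type} {T : Tw m F ι} (P : TwG T)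

theorem nj_inv_X {j : ι} {x : GL D.Idx F} (hx : x ∈ T.UJ j) : (P.nj j)⁻¹ * x * P.nj j ∈ T.VJ j := by
  have h1 := m.acts_inv (P.nj_N j) (P.nj_acts j)
  rw [T.wj_inv] at h1
  have h2 := m.map_gen_acts (F := F) h1
    (R := fun r => m.N ≤ r ∧ D.InRootSub (T.Js j) r) (R' := fun r => r < m.N ∧ D.InRootSub (T.Js j) r)
    (fun r hr => ⟨T.wj_neg hr.1 hr.2, (T.wj_sub j).2 hr.2⟩)
  have h3 := h2 ⟨x, hx, rfl⟩
  change (P.nj j)⁻¹ * x * ((P.nj j)⁻¹)⁻¹ ∈ _ at h3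
  rwa [inv_inv] at h3

theorem nj_inv_Y {j : ι} {x : GL D.Idx F} (hx : x ∈ T.VJ j) : (P.nj j)⁻¹ * x * P.nj j ∈ T.UJ j := by
  have h1 := m.acts_inv (P.nj_N j) (P.nj_acts j)
  rw [T.wj_inv] at h1
  have h2 := m.map_gen_acts (F := F) h1
    (R := fun r => r < m.N ∧ D.InRootSub (T.Js j) r) (R' := fun r => m.N ≤ r ∧ D.InRootSub (T.Js j) r)
    (fun r hr => ⟨T.wj_neg' hr.1 hr.2, (T.wj_sub j).2 hr.2⟩)
  have h3 := h2 ⟨x, hx, rfl⟩
  change (P.nj j)⁻¹ * x * ((P.nj j)⁻¹)⁻¹ ∈ _ at h3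
  rwa [inv_inv] at h3

theorem exists_noncomm (j : ι) : ∃ x ∈ T.UJ j, x ∈ P.G1 ∧ ∃ y ∈ T.VJ j, y ∈ P.G1 ∧ x * y ≠ y * x := by
  by_contra hcon
  push Not at hcon
  obtain ⟨v, hv, hvG, hv1⟩ := P.ex_V j
  have hx := P.nj_inv_Y hv
  have hxG : (P.nj j)⁻¹ * v * P.nj j ∈ P.G1 := mul_mem (mul_mem (inv_mem (P.nj_G j)) hvG) (P.nj_G j)
  let s : ↥P.G1 := ⟨P.nj j, P.nj_G j⟩
  have hs : s ∈ P.bn.S := ⟨j, rfl⟩
  have hvP : (⟨v, hvG⟩ : ↥P.G1) ∈ P.bn.parabolic {s} := by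
    have hsP : s ∈ P.bn.parabolic {s} := coe_mem_parabolic (Subgroup.subset_closure rfl)
    have hxP : (⟨_, hxG⟩ : ↥P.G1) ∈ P.bn.parabolic {s} := by
      apply B_le_parabolic
      rw [P.mem_bnB]
      exact Model.U_le_B (T.UJ_le_U j hx)
    have e : (⟨v, hvG⟩ : ↥P.G1) = s * ⟨_, hxG⟩ * s⁻¹ := by
      apply Subtype.ext
      change v = P.nj j * ((P.nj j)⁻¹ * v * P.nj j) * (P.nj j)⁻¹
      group
    rw [e]
    exact mul_mem (mul_mem hsP hxP) (inv_mem hsP)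
  have hUV : ∀ g ∈ T.VJ j, g ∈ D.borelSubgroup F → g = 1 := by
    intro g hg hgB
    have h3 : g ∈ D.borelSubgroup F ⊓ D.negUnipotent F := Subgroup.mem_inf.2 ⟨hgB, T.VJ_le_V j hg⟩
    rwa [m.B_inf_V, Subgroup.mem_bot] at h3
  rcases TO.mem_parabolic_single hs hvP with h | ⟨b, hb, b', hb', he⟩
  · rw [P.mem_bnB] at h
    exact hv1 (hUV v hv h)
  · rw [P.mem_bnB] at hb hb'
    obtain ⟨u, hu, huG, k, hk, hkG, hbe⟩ := P.mem_B1 b.2 hb
    obtain ⟨x₁, hx₁, hx₁f, a, ha, haf, rfl⟩ := T.split_fix j hu (P.le_fix huG)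
    have hx₁G := P.UJ_le j x₁ hx₁ hx₁f
    have he' : v = x₁ * P.nj j * ((P.nj j)⁻¹ * (a * k) * P.nj j * b') := by
      have h1 : v = (b : GL D.Idx F) * P.nj j * b' := congrArg Subtype.val he
      rw [h1, hbe]; group
    set c := (P.nj j)⁻¹ * (a * k) * P.nj j * b' with hc
    have hcB : c ∈ D.borelSubgroup F := by
      have h1 := m.acts_inv (P.nj_N j) (P.nj_acts j)
      rw [T.wj_inv] at h1
      have h2 : (P.nj j)⁻¹ * a * P.nj j ∈ D.posUnipotent F := by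
        have h2 := m.map_gen_acts (F := F) h1 (R := fun r => m.N ≤ r ∧ ¬ D.InRootSub (T.Js j) r) (R' := fun r => m.N ≤ r)
          (fun r hr => T.wj_pos hr.1 hr.2)
        have h3 := h2 ⟨a, ha, rfl⟩
        change (P.nj j)⁻¹ * a * ((P.nj j)⁻¹)⁻¹ ∈ _ at h3
        rw [inv_inv] at h3
        rw [m.posUnipotent_eq]
        exact h3
      have h3 : (P.nj j)⁻¹ * k * P.nj j ∈ D.diagonalSubgroup F := by
        have := (Subgroup.mem_normalizer_iff.1 (m.N_le_normalizer (inv_mem (P.nj_N j))) k).1 hk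
        rwa [inv_inv] at this
      have e : c = ((P.nj j)⁻¹ * a * P.nj j) * ((P.nj j)⁻¹ * k * P.nj j) * b' := by rw [hc]; group
      rw [e]
      exact mul_mem (mul_mem (Model.U_le_B h2) (Model.H_le_B h3)) hb'
    -- `z = nj⁻¹ v nj`
    set z := (P.nj j)⁻¹ * v * P.nj j with hz
    have hz1 : z ≠ 1 := by
      intro h
      apply hv1
      have : v = P.nj j * z * (P.nj j)⁻¹ := by rw [hz]; group
      rw [this, h]; group
    have hz' : x₁ * z * x₁⁻¹ ∈ T.UJ j := mul_mem (mul_mem hx₁ hx) (inv_mem hx₁)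
    have hz'G : x₁ * z * x₁⁻¹ ∈ P.G1 := mul_mem (mul_mem hx₁G hxG) (inv_mem hx₁G)
    have h1 := hcon _ hz' hz'G v hv hvG
    have h2 : (P.nj j)⁻¹ * z * P.nj j = c * (x₁ * z * x₁⁻¹) * c⁻¹ := by
      have h3 : v⁻¹ * (x₁ * z * x₁⁻¹) * v = x₁ * z * x₁⁻¹ := by
        rw [mul_assoc, h1]; group
      have h4 : v⁻¹ * (x₁ * z * x₁⁻¹) * v = c⁻¹ * ((P.nj j)⁻¹ * z * P.nj j) * c := by
        rw [he']; group
      rw [h4] at h3
      rw [← h3]; group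
    have h3 := hUV _ (P.nj_inv_X hx) (by
      rw [h2]
      exact mul_mem (mul_mem hcB (Model.U_le_B (T.UJ_le_U j hz'))) (inv_mem hcB))
    apply hz1
    have : z = P.nj j * ((P.nj j)⁻¹ * z * P.nj j) * (P.nj j)⁻¹ := by group
    rw [this, h3]; group

end TwG

end Cfsg.Agent.H6.Chev
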