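import Cfsg.Agent.H6_TQ1
import Cfsg.Agent.H6_TP1

/-!
The groups `²F₄(q)`: the split (B,N)-pair, diagonal and field automorphisms.
-/

set_option autoImplicit false
set_option linter.unusedSectionVars false
set_option maxRecDepth 100000

namespace Cfsg.Agent.H6.Chev

open Cfsg Cfsg.Lie Cfsg.Lie.ChevalleyDatum
open Cfsg.Agent.H6.SL2
open Cfsg.Agent.H14.Chev (fr fr_X fr_hHom fr_H fr_gen)

theorem sz_calc {G : Type*} [Group G] {a b c d a' b' c' d' g k : G} (r : b * a' = a' * b * (g * k))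
    (x1 : c * a' = a' * c) (x2 : d * a' = a' * d) (x3 : c * b' = b' * c) (x4 : d * b' = b' * d) (x5 : d * c' = c' * d)
    (x6 : k * c = c * k) (x7 : g * b' = b' * g) (x8 : k * b' = b' * k) (x9 : k * c' = c' * k) :
    a * (b * (c * d)) * (a' * (b' * (c' * d'))) = a * a' * (b * b' * (g * c * c' * (k * d * d'))) := by
  calc a * (b * (c * d)) * (a' * (b' * (c' * d')))
      = a * b * c * (d * a') * b' * c' * d' := by group
    _ = a * b * (c * a') * d * b' * c' * d' := by rw [x2]; group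
    _ = a * (b * a') * c * d * b' * c' * d' := by rw [x1]; group
    _ = a * a' * b * g * (k * c) * (d * b') * c' * d' := by rw [r]; group
    _ = a * a' * b * g * c * (k * b') * d * c' * d' := by rw [x6, x4]; group
    _ = a * a' * b * g * (c * b') * k * d * c' * d' := by rw [x8]; group
    _ = a * a' * b * (g * b') * c * k * d * c' * d' := by rw [x3]; group
    _ = a * a' * b * b' * g * c * k * (d * c') * d' := by rw [x7]; group
    _ = a * a' * b * b' * g * c * (k * c') * d * d' := by rw [x5]; group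
    _ = a * a' * (b * b' * (g * c * c' * (k * d * d'))) := by rw [x9]; group

section F4

variable {K : Type*} [Field K] [CharP K 2]

theorem f4_lt : (33 < chevF4.nroots ∧ 24 < chevF4.nroots) ∧ (27 < chevF4.nroots ∧ 25 < chevF4.nroots) ∧
    (28 < chevF4.nroots ∧ 30 < chevF4.nroots) := by
  have hn := baseF4.nroots
  have hn' : tabF4.n = 48 := rfl
  omega

theorem f4_ng : (chevF4.neg 33 = 14 ∧ chevF4.neg 24 = 23) ∧ (chevF4.neg 27 = 20 ∧ chevF4.neg 25 = 22) ∧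
    (chevF4.neg 28 = 19 ∧ chevF4.neg 30 = 17) :=
  ⟨⟨baseF4.ng_eq (r := 33) (by decide), baseF4.ng_eq (r := 24) (by decide)⟩,
    ⟨baseF4.ng_eq (r := 27) (by decide), baseF4.ng_eq (r := 25) (by decide)⟩,
    ⟨baseF4.ng_eq (r := 28) (by decide), baseF4.ng_eq (r := 30) (by decide)⟩⟩

theorem f4_simple : chevF4.simple 0 = 33 ∧ chevF4.simple 1 = 27 ∧ chevF4.simple 2 = 25 ∧ chevF4.simple 3 = 24 :=
  ⟨baseF4.simple_eq (i := 0) (by decide), baseF4.simple_eq (i := 1) (by decide), baseF4.simple_eq (i := 2) (by decide),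
    baseF4.simple_eq (i := 3) (by decide)⟩

theorem f4_ort : Model.Ort K modelF4 33 24 :=
  ort_of modelF4 baseF4 checksF4 (p := 2) (CharP.cast_eq_zero K 2) (by decide +kernel)

variable (φ : K ≃+* K)

/-- rank one datum of the first node -/
noncomputable def f4R0 : RankOne K (GL chevF4.Idx K) :=
  RankOne.prod ((modelF4.rk1 K f4_lt.1.1).comap (φ : K →+* K)) (modelF4.rk1 K f4_lt.1.2)
    (fun _ _ => f4_ort.1 _ _) (fun _ _ => f4_ort.2.1 _ _) (fun _ _ => f4_ort.2.2.1 _ _) (fun _ _ => f4_ort.2.2.2 _ _)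

theorem f4R0_X (t : K) : (f4R0 φ).X t = modelF4.X 33 (φ t) * modelF4.X 24 t := rfl

theorem f4R0_Y (t : K) : (f4R0 φ).Y t = modelF4.X 14 (φ t) * modelF4.X 23 t := by
  change modelF4.X (chevF4.neg 33) _ * modelF4.X (chevF4.neg 24) _ = _
  rw [f4_ng.1.1, f4_ng.1.2]; rfl

theorem f4R0_Xi : Function.Injective (f4R0 φ).X := inj_of_zero (f4R0 φ).X_add fun s h => by
  rw [f4R0_X] at h
  have := modelF4.pair_zero f4_lt.1.1 f4_lt.1.2 (by decide) h
  exact (map_eq_zero_iff φ φ.injective).1 this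

theorem f4R0_Yi : Function.Injective (f4R0 φ).Y := inj_of_zero (f4R0 φ).Y_add fun s h => by
  have hn := baseF4.nroots
  have hn' : tabF4.n = 48 := rfl
  rw [f4R0_Y] at h
  have := modelF4.pair_zero (a := 14) (b := 23) (by omega) (by omega) (by decide) h
  exact (map_eq_zero_iff φ φ.injective).1 this

/-- parametrization of the positive root subgroup of the second node -/
noncomputable def f4A (t u : K) : GL chevF4.Idx K :=
  modelF4.X 25 t * (modelF4.X 27 (φ t) * (modelF4.X 28 u * modelF4.X 30 (φ u ^ 2 + φ t ^ 2 * t)))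

/-- the negative root subgroup of the second node -/
noncomputable def f4C (t u : K) : GL chevF4.Idx K :=
  modelF4.X 22 t * (modelF4.X 20 (φ t) * (modelF4.X 19 u * modelF4.X 17 (φ u ^ 2 + φ t ^ 2 * t)))

theorem f4A_mul (hφ2 : ∀ x : K, φ (φ x) ^ 2 = x) (t u t' u' : K) :
    f4A φ t u * f4A φ t' u' = f4A φ (t + t') (u + u' + φ t * t') := by
  unfold f4A
  have c1 : ∀ x y : K, modelF4.X 28 x * modelF4.X 25 y = modelF4.X 25 y * modelF4.X 28 x := comF4 (by decide +kernel)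
  have c2 : ∀ x y : K, modelF4.X 30 x * modelF4.X 25 y = modelF4.X 25 y * modelF4.X 30 x := comF4 (by decide +kernel)
  have c3 : ∀ x y : K, modelF4.X 28 x * modelF4.X 27 y = modelF4.X 27 y * modelF4.X 28 x := comF4 (by decide +kernel)
  have c4 : ∀ x y : K, modelF4.X 30 x * modelF4.X 27 y = modelF4.X 27 y * modelF4.X 30 x := comF4 (by decide +kernel)
  have c5 : ∀ x y : K, modelF4.X 30 x * modelF4.X 28 y = modelF4.X 28 y * modelF4.X 30 x := comF4 (by decide +kernel)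
  have e4 : φ (u + u' + φ t * t') ^ 2 + φ (t + t') ^ 2 * (t + t') =
      (φ t ^ 2 * t' + (φ u ^ 2 + φ t ^ 2 * t)) + (φ u' ^ 2 + φ t' ^ 2 * t') := by
    rw [map_add, map_add, map_mul, map_add]
    have h2 : (2 : K) = 0 := CharTwo.two_eq_zero
    linear_combination (φ t') ^ 2 * hφ2 t + (φ u * φ u' + φ u * φ (φ t) * φ t' + φ u' * φ (φ t) * φ t' + φ t * φ t' * (t + t') + t * φ t' ^ 2) * h2
  have e3 : u + u' + φ t * t' = (φ t * t' + u) + u' := by ring
  rw [e4, e3, map_add]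
  generalize φ u ^ 2 + φ t ^ 2 * t = w
  generalize φ u' ^ 2 + φ t' ^ 2 * t' = w'
  rw [modelF4.X_add, modelF4.X_add, modelF4.X_add, modelF4.X_add, modelF4.X_add, modelF4.X_add]
  exact sz_calc (relF4p (φ t) t') (c1 _ _) (c2 _ _) (c3 _ _) (c4 _ _) (c5 _ _) (c5 _ _) (c3 _ _) (c4 _ _) (c5 _ _)

variable (hperf : ∀ x : K, ∃ y : K, y ^ 2 = x)

include hperf in
theorem f4A_inj (t u t' u' : K) (h : f4A φ t u = f4A φ t' u') : t = t' ∧ u = u' := by
  have h1 := quad_inj (f4_UJ φ hperf 1 (L := [25, 27, 28, 30]) (by decide +kernel)).2 h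
  exact ⟨h1.1, h1.2.2.1⟩

variable {e : ℕ} (hφ : ∀ x, φ x = x ^ e) (hφ2 : ∀ x : K, φ (φ x) ^ 2 = x)

include hφ hφ2

theorem f4R0_iff (g : GL chevF4.Idx K) : (g ∈ (twF4 φ hperf).UJ 0 ∧ g ∈ (twF4 φ hperf).fix) ↔ ∃ t, g = (f4R0 φ).X t := by
  rw [f4_UJ0 φ hperf hφ hφ2]
  have e1 : ∀ t : K, modelF4.word (f4PairWord e f4p1 f4p4 t) = (f4R0 φ).X t := by
    intro t
    unfold f4PairWord
    rw [Model.word_cons, Model.word_cons, Model.word_nil, mul_one, ← hφ]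
    rfl
  simp only [e1]

theorem f4A_iff (g : GL chevF4.Idx K) : (g ∈ (twF4 φ hperf).UJ 1 ∧ g ∈ (twF4 φ hperf).fix) ↔ ∃ t u, g = f4A φ t u := by
  rw [f4_UJ1 φ hperf hφ hφ2]
  constructor
  · rintro ⟨p, rfl⟩
    exact ⟨p.1, p.2, (f4_b2p φ hperf hφ hφ2 p.1 p.2).2⟩
  · rintro ⟨t, u, rfl⟩
    exact ⟨(t, u), (f4_b2p φ hperf hφ hφ2 t u).2.symm⟩

variable {P : TwG (twF4 φ hperf)} (hP : P.G1 = twistedF4 K e)

include hP

omit hφ2 in
theorem f4R0_X_mem (t : K) : (f4R0 φ).X t ∈ P.G1 := by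
  rw [hP]
  have h : modelF4.word (f4PairWord e f4p1 f4p4 t) ∈ twistedF4 K e := f4_word_G (Or.inl ⟨t, Or.inl rfl⟩)
  unfold f4PairWord at h
  rw [Model.word_cons, Model.word_cons, Model.word_nil, mul_one, ← hφ] at h
  exact h

omit hφ2 in
theorem f4R0_Y_mem (t : K) : (f4R0 φ).Y t ∈ (twF4 φ hperf).VJ 0 ∧ (f4R0 φ).Y t ∈ P.G1 := by
  rw [f4R0_Y, hP]
  refine ⟨mul_mem (f4_VJ φ hperf 0 (r := 14) (by decide +kernel) _) (f4_VJ φ hperf 0 (r := 23) (by decide +kernel) _), ?_⟩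
  have h : modelF4.word (f4PairWord e f4m1 f4m4 t) ∈ twistedF4 K e := f4_word_G (Or.inl ⟨t, Or.inr rfl⟩)
  unfold f4PairWord at h
  rw [Model.word_cons, Model.word_cons, Model.word_nil, mul_one, ← hφ] at h
  exact h

theorem f4A_mem (t u : K) : f4A φ t u ∈ P.G1 := by
  rw [hP]
  have h : modelF4.word (b2ClassWord e 27 25 28 30 t u) ∈ twistedF4 K e := f4_word_G (Or.inr ⟨t, u, Or.inl rfl⟩)
  rw [(f4_b2p φ hperf hφ hφ2 t u).2] at h
  exact h

theorem f4C_mem (t u : K) : f4C φ t u ∈ (twF4 φ hperf).VJ 1 ∧ f4C φ t u ∈ P.G1 := by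
  constructor
  · exact mul_mem (f4_VJ φ hperf 1 (by decide +kernel) _) (mul_mem (f4_VJ φ hperf 1 (by decide +kernel) _)
      (mul_mem (f4_VJ φ hperf 1 (by decide +kernel) _) (f4_VJ φ hperf 1 (by decide +kernel) _)))
  · rw [hP]
    have h : modelF4.word (b2ClassWord e 20 22 19 17 t u) ∈ twistedF4 K e := f4_word_G (Or.inr ⟨t, u, Or.inr rfl⟩)
    rw [(f4_b2n φ hperf hφ hφ2 t u).2] at h
    exact h

omit hφ hφ2 hP

theorem f4_w0 (r : Fin chevF4.nroots) :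
    ((([0, 1, 0, 1, 0, 1, 0, 1] : List (Fin 2)).map (twF4 φ hperf).wj).prod r) = modelF4.ng r := by
  apply Fin.ext
  have h := Tab.w0_eq twdF4 modelF4 baseF4 checksF4 (twF4 φ hperf) rfl [0, 1, 0, 1, 0, 1, 0, 1] r
  rw [h]
  have hn := baseF4.nroots
  have h1 := allNat_iff (by decide +kernel : (allNat tabF4.n fun r =>
    Nat.beq (Tab.pwl twdF4 [0, 1, 0, 1, 0, 1, 0, 1] r) (tabF4.ng r)) = true) r (by have := r.2; omega)
  rw [Nat.eq_of_beq_eq_true h1, modelF4.coe_ng, baseF4.ng_eq (by have := r.2; omega)]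

/-- the split (B,N)-pair of `²F₄(q)` -/
noncomputable def f4SB (P : TwG (twF4 φ hperf)) : TO.SB ↥P.G1 (Fin 2) :=
  P.sb ((twF4 φ hperf).wjs_mem [0, 1, 0, 1, 0, 1, 0, 1])
    (fun r => by rw [f4_w0, modelF4.ng_lt_iff])
    (fun j r => by rw [f4_w0]; exact modelF4.inRootSub_ng_iff r)
    (by
      intro i j hij x hx y hy
      fin_cases i <;> fin_cases j
      · exact absurd rfl hij
      · exact Tab.comm_UV twdF4 modelF4 baseF4 checksF4 (twF4 φ hperf) rfl (by decide +kernel) hx hy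
      · exact Tab.comm_UV twdF4 modelF4 baseF4 checksF4 (twF4 φ hperf) rfl (by decide +kernel) hx hy
      · exact absurd rfl hij)
    (fun i => P.exists_noncomm i)

/-- the rank one datum -/
noncomputable def f4S0 (hφ : ∀ x, φ x = x ^ e) (P : TwG (twF4 φ hperf)) (hP : P.G1 = twistedF4 K e) : RankOne K ↥P.G1 :=
  (f4R0 φ).res P.G1 (f4R0_X_mem φ hperf hφ hP) (fun t => (f4R0_Y_mem φ hperf hφ hP t).2)

theorem f4_par0 (hφ : ∀ x, φ x = x ^ e) (hφ2 : ∀ x : K, φ (φ x) ^ 2 = x) (P : TwG (twF4 φ hperf)) (hP : P.G1 = twistedF4 K e) :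
    (f4SB φ hperf P).Par 0 (f4S0 φ hperf hφ P hP) where
  X x := by
    constructor
    · intro hx
      have hx : (x : GL chevF4.Idx K) ∈ (twF4 φ hperf).UJ 0 := hx
      obtain ⟨t, ht⟩ := (f4R0_iff φ hperf hφ hφ2 _).1 ⟨hx, P.le_fix x.2⟩
      exact ⟨t, Subtype.ext ht⟩
    · rintro ⟨t, rfl⟩
      exact ((f4R0_iff φ hperf hφ hφ2 _).2 ⟨t, rfl⟩).1
  Xi a b h := f4R0_Xi φ (congrArg Subtype.val h)
  Y t := (f4R0_Y_mem φ hperf hφ hP t).1
  Yi a b h := f4R0_Yi φ (congrArg Subtype.val h)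

/-- parametrization in the group -/
noncomputable def f4B (hφ : ∀ x, φ x = x ^ e) (hφ2 : ∀ x : K, φ (φ x) ^ 2 = x) (P : TwG (twF4 φ hperf))
    (hP : P.G1 = twistedF4 K e) (t u : K) : ↥P.G1 := ⟨f4A φ t u, f4A_mem φ hperf hφ hφ2 hP t u⟩

theorem f4B_iff (hφ : ∀ x, φ x = x ^ e) (hφ2 : ∀ x : K, φ (φ x) ^ 2 = x) (P : TwG (twF4 φ hperf))
    (hP : P.G1 = twistedF4 K e) (x : ↥P.G1) : x ∈ (f4SB φ hperf P).X 1 ↔ ∃ t u, x = f4B φ hperf hφ hφ2 P hP t u := by
  constructor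
  · intro hx
    have hx : (x : GL chevF4.Idx K) ∈ (twF4 φ hperf).UJ 1 := hx
    obtain ⟨t, u, ht⟩ := (f4A_iff φ hperf hφ hφ2 _).1 ⟨hx, P.le_fix x.2⟩
    exact ⟨t, u, Subtype.ext ht⟩
  · rintro ⟨t, u, rfl⟩
    exact ((f4A_iff φ hperf hφ hφ2 _).2 ⟨t, u, rfl⟩).1

theorem f4_fr (P : TwG (twF4 φ hperf)) (hP : P.G1 = twistedF4 K e) (σ : K →+* K) (g : GL chevF4.Idx K)
    (hg : g ∈ P.G1) : fr chevF4 σ g ∈ P.G1 := by
  rw [hP] at hg ⊢
  have h : twistedF4 K e ≤ (twistedF4 K e).comap (fr chevF4 σ) := by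
    apply modelF4.genSub_le
    intro w hw
    rw [Subgroup.mem_comap, modelF4.fr_word']
    apply modelF4.word_mem_genSub
    rcases hw with ⟨t, rfl | rfl⟩ | ⟨t, u, rfl | rfl⟩
    · refine Or.inl ⟨σ t, Or.inl ?_⟩
      simp [f4PairWord]
    · refine Or.inl ⟨σ t, Or.inr ?_⟩
      simp [f4PairWord]
    · refine Or.inr ⟨σ t, σ u, Or.inl ?_⟩
      simp [b2ClassWord]
    · refine Or.inr ⟨σ t, σ u, Or.inr ?_⟩
      simp [b2ClassWord]
  exact h hg

end F4

end Cfsg.Agent.H6.Chev
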