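import Cfsg.Agent.H6_TQ3

/-!
The outer automorphism group of `²F₄(q)`.
-/

set_option autoImplicit false
set_option linter.unusedSectionVars false
set_option maxRecDepth 100000

namespace Cfsg.Agent.H6.Chev

open Cfsg Cfsg.Lie Cfsg.Lie.ChevalleyDatum
open Cfsg.Agent.H6.SL2
open Cfsg.Agent.H14.Chev (fr fr_X fr_hHom fr_H fr_gen)

section iff

variable {D : ChevalleyDatum} {K : Type*} [Field K]

theorem dA_iff (m : Model D) (A : Subgroup (Fin D.rank → Kˣ)) (G1 : Subgroup (GL D.Idx K))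
    (h : ∀ b ∈ A, ∀ g ∈ G1, m.dT K b * g * (m.dT K b)⁻¹ ∈ G1) (b : A) {R : ℕ → Prop} (x : ↥G1) :
    ((dA m A G1 h b x : ↥G1) : GL D.Idx K) ∈ m.gen K R ↔ (x : GL D.Idx K) ∈ m.gen K R := by
  rw [coe_dA]
  constructor
  · intro h1
    have h2 := m.dT_gen (b : Fin D.rank → Kˣ)⁻¹ h1
    have e : m.dT K (b : Fin D.rank → Kˣ)⁻¹ * (m.dT K (b : Fin D.rank → Kˣ) * x * (m.dT K (b : Fin D.rank → Kˣ))⁻¹) *
        (m.dT K (b : Fin D.rank → Kˣ)⁻¹)⁻¹ = x := by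
      rw [map_inv]; group
    rwa [e] at h2
  · exact m.dT_gen _

theorem frA_iff (m : Model D) (G1 : Subgroup (GL D.Idx K)) (h : ∀ σ : K →+* K, ∀ g ∈ G1, fr D σ g ∈ G1) (σ : RingAut K)
    {R : ℕ → Prop} (x : ↥G1) : ((frA G1 h σ x : ↥G1) : GL D.Idx K) ∈ m.gen K R ↔ (x : GL D.Idx K) ∈ m.gen K R := by
  constructor
  · intro h1
    have h2 := fr_gen m ((σ⁻¹ : RingAut K) : K →+* K) h1
    have e : fr D ((σ⁻¹ : RingAut K) : K →+* K) (frA G1 h σ x : ↥G1) = x := by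
      have := congrArg (fun f : MulAut ↥G1 => ((f x : ↥G1) : GL D.Idx K)) (show frA G1 h σ⁻¹ * frA G1 h σ = 1 by
        rw [← map_mul, inv_mul_cancel, map_one])
      exact this
    rwa [e] at h2
  · intro h1
    rw [coe_frA]
    exact fr_gen m _ h1

end iff

theorem pow_surj {K : Type*} [Field K] [Fintype K] {m : ℕ} (hK : Fintype.card K = 2 ^ (2 * m + 1)) (u : K) :
    ∃ t : K, t ^ (2 ^ m) * t = u := by
  by_cases hu : u = 0
  · exact ⟨0, by rw [hu, mul_zero]⟩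
  have hc : Nat.card Kˣ = 2 ^ (2 * m + 1) - 1 := by rw [Nat.card_units, Nat.card_eq_fintype_card, hK]
  have hcop : (Nat.card Kˣ).Coprime (2 ^ m + 1) := by
    rw [hc, Nat.coprime_iff_gcd_eq_one]
    have h1 : Nat.gcd (2 ^ (2 * m + 1) - 1) (2 ^ m + 1) ∣ 2 ^ (2 * m + 1) - 1 := Nat.gcd_dvd_left _ _
    have h2 : Nat.gcd (2 ^ (2 * m + 1) - 1) (2 ^ m + 1) ∣ 2 ^ m + 1 := Nat.gcd_dvd_right _ _
    have h3 : Nat.gcd (2 ^ (2 * m + 1) - 1) (2 ^ m + 1) ∣ 2 * ((2 ^ m + 1) * (2 ^ m - 1)) :=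
      (h2.mul_right _).mul_left _
    have h4 : 2 ^ (2 * m + 1) - 1 = 2 * ((2 ^ m + 1) * (2 ^ m - 1)) + 1 := by
      obtain ⟨k, hk⟩ : ∃ k, 2 ^ m = k + 1 := ⟨2 ^ m - 1, by have := Nat.one_le_two_pow (n := m); omega⟩
      have h5 : 2 ^ (2 * m + 1) = 2 * (k + 1) ^ 2 := by rw [pow_succ, mul_comm 2 m, pow_mul, hk, mul_comm]
      rw [h5, hk, Nat.add_sub_cancel]
      have : 2 * (k + 1) ^ 2 = 2 * ((k + 1 + 1) * k) + 1 + 1 := by ring
      omega
    rw [h4] at h1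
    have h5 := (Nat.dvd_add_right h3).1 (by rw [← h4] at h1 ⊢; exact h1)
    rw [h4] at h5 ⊢
    exact Nat.dvd_one.1 h5
  refine ⟨((powCoprime hcop).symm (Units.mk0 u hu) : Kˣ), ?_⟩
  have h1 := (powCoprime hcop).apply_symm_apply (Units.mk0 u hu)
  rw [powCoprime_apply] at h1
  have h2 := congrArg Units.val h1
  rw [Units.val_pow_eq_pow_val, pow_succ] at h2
  exact h2

section F4

variable {K : Type*} [Field K] [CharP K 2] (φ : K ≃+* K) (hperf : ∀ x : K, ∃ y : K, y ^ 2 = x)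
  (hφ2 : ∀ x : K, φ (φ x) ^ 2 = x) {m : ℕ} (hφ : ∀ x, φ x = x ^ (2 ^ m)) [Fintype K]

include hφ2 hφ

theorem f4_sylow (hK : Fintype.card K = 2 ^ (2 * m + 1))
    (P : TwG (twF4 φ hperf)) (hP : P.G1 = twistedF4 K (2 ^ m))
    (hc : ∀ j, Nat.card ↥((twF4 φ hperf).UJ j ⊓ P.G1) = (2 ^ (2 * m + 1)) ^ kkF4 j) :
    ∃ S : Sylow 2 ↥P.G1, (S : Subgroup ↥P.G1) = (f4SB φ hperf P).U := by
  have : Fact (Nat.Prime 2) := ⟨Nat.prime_two⟩
  have hq : Nat.card K = 2 ^ (2 * m + 1) := by rw [Nat.card_eq_fintype_card, hK]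
  have h1 := f4_card_H φ hperf hφ2 hφ P hP
  have h2 := P.card_G1 (d := 2) two_pos hkkF4 hc
  have h5 := P.card_U1 (d := 2) two_pos hkkF4 hc
  have hN : modelF4.N / 2 = 12 := by
    have h1 := modelF4.nroots_eq
    have h2 := baseF4.nroots
    have h3 : tabF4.n = 48 := rfl
    omega
  have h4 : (twF4 φ hperf).PA Set.univ 2 (2 ^ (2 * m + 1)) = _ := paF4 (2 ^ (2 * m + 1))
  have hfin : Finite ↥P.G1 := inferInstance
  rw [hN, h1, h4, hq] at h2
  rw [hN] at h5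
  generalize hx : 2 ^ (2 * m + 1) = q at h2 h5
  have hq1 : 1 ≤ q := by rw [← hx]; exact Nat.one_le_two_pow
  have hpq : 2 ∣ q := by rw [← hx]; exact dvd_pow_self 2 (by omega)
  apply TO.exists_sylow (n := (2 * m + 1) * 12) (c := (q - 1) * (q ^ 3 + 1) * (q ^ 4 - 1) * (q ^ 6 + 1))
  · change Nat.card ↥((chevF4.posUnipotent K).subgroupOf P.G1) = _
    rw [← Subgroup.inf_subgroupOf_right, Nat.card_congr (Subgroup.subgroupOfEquivOfLe inf_le_right).toEquiv, h5,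
      pow_mul, hx]
  · rw [h2, pow_mul, hx]
    have h3 := ppF4 (q : ℤ)
    have e1 : ((q - 1 : ℕ) : ℤ) = (q : ℤ) - 1 := by rw [Nat.cast_sub hq1]; simp
    have e2 : ((q ^ 4 - 1 : ℕ) : ℤ) = (q : ℤ) ^ 4 - 1 := by rw [Nat.cast_sub (Nat.one_le_pow _ _ hq1)]; simp
    zify
    rw [e1, e2, poly_cast, poly_cast]
    linear_combination (q : ℤ) ^ 12 * h3
  · have key : ∀ n : ℕ, n ≠ 0 → ¬ 2 ∣ q ^ n - 1 := by
      intro n hn h
      have h6 : 2 ∣ q ^ n := dvd_pow hpq hn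
      have := Nat.one_le_pow n q hq1
      omega
    have key' : ∀ n : ℕ, n ≠ 0 → ¬ 2 ∣ q ^ n + 1 := by
      intro n hn h
      have h6 : 2 ∣ q ^ n := dvd_pow hpq hn
      omega
    intro h
    rcases Nat.prime_two.dvd_mul.1 h with h | h
    · rcases Nat.prime_two.dvd_mul.1 h with h | h
      · rcases Nat.prime_two.dvd_mul.1 h with h | h
        · exact key 1 (by norm_num) (by rwa [pow_one])
        · exact key' 3 (by norm_num) h
      · exact key 4 (by norm_num) h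
    · exact key' 6 (by norm_num) h

omit hφ2 hφ [Fintype K] in
theorem f4_perm [Finite K] {q : ℕ} (hq : 1 < q) (P : TwG (twF4 φ hperf)) 
    (hc : ∀ j, Nat.card ↥((twF4 φ hperf).UJ j ⊓ P.G1) = q ^ kkF4 j) {α : MulAut ↥P.G1}
    (hU : ∀ x, α x ∈ (f4SB φ hperf P).U ↔ x ∈ (f4SB φ hperf P).U)
    (hV : ∀ x, α x ∈ (f4SB φ hperf P).V ↔ x ∈ (f4SB φ hperf P).V) (j : Fin 2) :
    (∀ x, α x ∈ (f4SB φ hperf P).Pj j ↔ x ∈ (f4SB φ hperf P).Pj j) ∧
    (∀ x, α x ∈ (f4SB φ hperf P).X j ↔ x ∈ (f4SB φ hperf P).X j) ∧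
    (∀ x, α x ∈ (f4SB φ hperf P).Y j ↔ x ∈ (f4SB φ hperf P).Y j) := by
  set B := f4SB φ hperf P with hB
  obtain ⟨π, hπ, hPj, hX, hY⟩ := B.perm_XY hU hV
  have hcX : ∀ j, Nat.card (B.X j) = q ^ kkF4 j := by
    intro j
    rw [← hc j]
    change Nat.card ↥(((twF4 φ hperf).UJ j).subgroupOf P.G1) = _
    rw [← Subgroup.inf_subgroupOf_right, Nat.card_congr (Subgroup.subgroupOfEquivOfLe inf_le_right).toEquiv]
  have hπc : ∀ j, Nat.card (B.X (π j)) = Nat.card (B.X j) := by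
    intro j
    have h1 : (B.X j).map α.toMonoidHom = B.X (π j) := by
      ext y
      constructor
      · rintro ⟨x, hx, rfl⟩; exact (hX j x).2 hx
      · intro hy
        obtain ⟨x, rfl⟩ := α.surjective y
        exact ⟨x, (hX j x).1 hy, rfl⟩
    rw [← h1]
    exact (Nat.card_congr (Subgroup.equivMapOfInjective (B.X j) α.toMonoidHom α.injective).toEquiv).symm
  have hk0 : kkF4 ((0 : Fin 2) : ℕ) = 1 := rfl
  have hk1 : kkF4 ((1 : Fin 2) : ℕ) = 2 := rfl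
  have hne : q ^ 2 ≠ q ^ 1 := fun h => by
    have := Nat.pow_right_injective hq h
    omega
  have hπj : π j = j := by
    have h1 := hπc j
    rw [hcX, hcX] at h1
    generalize π j = i at h1
    fin_cases i <;> fin_cases j
    · rfl
    · exact absurd h1.symm hne
    · exact absurd h1 hne
    · rfl
  have h1 := hPj j
  have h2 := hX j
  have h3 := hY j
  rw [hπj] at h1 h2 h3
  exact ⟨h1, h2, h3⟩

end F4

end Cfsg.Agent.H6.Chev
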