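import Cfsg.Agent.H6_TQ4

/-!
The outer automorphism group of `²F₄(q)`: the main argument.
-/

set_option autoImplicit false
set_option linter.unusedSectionVars false
set_option maxRecDepth 100000

namespace Cfsg.Agent.H6.Chev

open Cfsg Cfsg.Lie Cfsg.Lie.ChevalleyDatum
open Cfsg.Agent.H6.SL2
open Cfsg.Agent.H14.Chev (fr fr_X fr_hHom fr_H fr_gen)

/-- rigidity of groups of Suzuki type, semilinear part -/
theorem sz_semilinear {G K : Type*} [Group G] [Field K] (φ : K ≃+* K) (B : K → K → G)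
    (hmul : ∀ t u t' u', B t u * B t' u' = B (t + t') (u + u' + φ t * t'))
    (hinj : ∀ t u t' u', B t u = B t' u' → t = t' ∧ u = u') (h0 : B 0 0 = 1) (hchar : ∀ x : K, x + x = 0)
    (γ : MulAut G) (σ : K →+* K) (h h' : K → G)
    (hh : ∀ v, v ≠ 0 → ∀ t u, h v * B t u * (h v)⁻¹ = B (v⁻¹ * t) ((φ v)⁻¹ * v⁻¹ * u))
    (hh' : ∀ v, v ≠ 0 → ∀ t u, h' v * B t u * (h' v)⁻¹ = B ((σ v)⁻¹ * t) ((φ (σ v))⁻¹ * (σ v)⁻¹ * u))
    (hγ : ∀ v, γ (h v) = h' v) (hB : ∀ t u, ∃ t' u', γ (B t u) = B t' u') :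
    ∃ c : K, c ≠ 0 ∧ ∀ t u, ∃ w, γ (B t u) = B (c * σ t) w := by
  choose a b hab using hB
  have ha : ∀ t u t' u', a (t + t') (u + u' + φ t * t') = a t u + a t' u' := by
    intro t u t' u'
    have h1 := congrArg γ (hmul t u t' u')
    rw [map_mul, hab, hab, hab, hmul] at h1
    exact (hinj _ _ _ _ h1).1.symm
  have ha0 : ∀ u, a 0 u = 0 := by
    intro u
    have h1 : B 0 u * B 0 u = 1 := by rw [hmul, add_zero, map_zero, zero_mul, add_zero, hchar, h0]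
    have h2 := congrArg γ h1
    rw [map_mul, hab, hmul, map_one, ← h0] at h2
    have h3 := (hinj _ _ _ _ h2).2
    rw [hchar, zero_add] at h3
    rcases mul_eq_zero.1 h3 with h4 | h4
    · exact (map_eq_zero_iff φ φ.injective).1 h4
    · exact h4
  have hau : ∀ t u, a t u = a t 0 := by
    intro t u
    have := ha t 0 0 u
    rw [add_zero, zero_add, mul_zero, add_zero, ha0, add_zero] at this
    exact this
  have heq : ∀ v, v ≠ 0 → ∀ t, a (v⁻¹ * t) 0 = (σ v)⁻¹ * a t 0 := by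
    intro v hv t
    have h1 := congrArg γ (hh v hv t 0)
    rw [map_mul, map_mul, map_inv, hγ, hab, hab, hh' v hv] at h1
    have h2 := (hinj _ _ _ _ h1).1
    rw [hau (v⁻¹ * t)] at h2
    exact h2.symm
  have hlin : ∀ t, a t 0 = a 1 0 * σ t := by
    intro t
    by_cases ht : t = 0
    · rw [ht, ha0, map_zero, mul_zero]
    · have := heq t⁻¹ (inv_ne_zero ht) 1
      rw [inv_inv, mul_one, map_inv₀, inv_inv] at this
      rw [this, mul_comm]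
  refine ⟨a 1 0, ?_, fun t u => ⟨b t u, ?_⟩⟩
  · intro hz
    have h1 : γ (B 1 0) = B 0 (b 1 0) := by rw [hab, hz]
    have h2 : B 1 0 * B 1 0 = B 0 1 := by
      rw [hmul, hchar, map_one, one_mul, add_zero, zero_add]
    have h3 := congrArg γ h2
    rw [map_mul, h1, hmul, add_zero, map_zero, zero_mul, add_zero, hchar, h0] at h3
    have h4 : B 0 1 = B 0 0 := by
      rw [h0]
      apply γ.injective
      rw [← h3, map_one]
    exact one_ne_zero (hinj _ _ _ _ h4).2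
  · rw [hab, hau, hlin]

/-- rigidity of groups of Suzuki type, linear part -/
theorem sz_linear {G K : Type*} [Group G] [Field K] (φ : K ≃+* K) (B : K → K → G)
    (hmul : ∀ t u t' u', B t u * B t' u' = B (t + t') (u + u' + φ t * t'))
    (hinj : ∀ t u t' u', B t u = B t' u' → t = t' ∧ u = u') (hchar : ∀ x : K, x + x = 0)
    (γ : MulAut G) (h : K → G)
    (hh : ∀ v, v ≠ 0 → ∀ t u, h v * B t u * (h v)⁻¹ = B (v⁻¹ * t) ((φ v)⁻¹ * v⁻¹ * u))
    (hγ : ∀ v, γ (h v) = h v) (hB : ∀ t u, ∃ u', γ (B t u) = B t u') (hs : ∀ u : K, ∃ t, φ t * t = u)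
    (hφ : ∃ t : K, φ t ≠ t) (t u : K) : γ (B t u) = B t u := by
  choose b hb using hB
  have hbm : ∀ t u t' u', b (t + t') (u + u' + φ t * t') = b t u + b t' u' + φ t * t' := by
    intro t u t' u'
    have h1 := congrArg γ (hmul t u t' u')
    rw [map_mul, hb, hb, hb, hmul] at h1
    exact (hinj _ _ _ _ h1).2.symm
  have hb0 : ∀ u, b 0 u = u := by
    intro u
    obtain ⟨t, rfl⟩ := hs u
    have := hbm t 0 t 0
    rw [hchar, add_zero, zero_add, hchar, zero_add] at this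
    exact this
  have hbu : ∀ t u, b t u = b t 0 + u := by
    intro t u
    have := hbm t 0 0 u
    rw [add_zero, zero_add, mul_zero, add_zero, hb0, add_zero] at this
    exact this
  have hadd : ∀ t t', b (t + t') 0 = b t 0 + b t' 0 := by
    intro t t'
    have := hbm t 0 t' 0
    rw [add_zero, zero_add, hbu] at this
    exact add_right_cancel this
  have heq : ∀ v, v ≠ 0 → ∀ t, b (v⁻¹ * t) 0 = (φ v)⁻¹ * v⁻¹ * b t 0 := by
    intro v hv t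
    have h1 := congrArg γ (hh v hv t 0)
    rw [map_mul, map_mul, map_inv, hγ, hb, hb, hh v hv] at h1
    have h2 := (hinj _ _ _ _ h1).2
    rw [mul_zero] at h2
    exact h2.symm
  have hlin : ∀ t, t ≠ 0 → b t 0 = φ t * t * b 1 0 := by
    intro t ht
    have := heq t⁻¹ (inv_ne_zero ht) 1
    rw [inv_inv, mul_one, map_inv₀, inv_inv] at this
    exact this
  have h1 : b 1 0 = 0 := by
    by_contra hne
    obtain ⟨t, ht⟩ := hφ
    apply ht
    have ht0 : t ≠ 0 := fun h => ht (by rw [h, map_zero])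
    have ht1 : t + 1 ≠ 0 := by
      intro h
      have : t = -1 := eq_neg_of_add_eq_zero_left h
      exact ht (by rw [this, map_neg, map_one])
    have h2 := hadd t 1
    rw [hlin t ht0, hlin (t + 1) ht1, map_add, map_one] at h2
    have h3 : (φ t + t) * b 1 0 = 0 := by linear_combination h2
    rcases mul_eq_zero.1 h3 with h4 | h4
    · have h5 := hchar t
      have : φ t + t = t + t := by rw [h4, h5]
      exact add_right_cancel this
    · exact absurd h4 hne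
  have hd : ∀ t, b t 0 = 0 := by
    intro t
    by_cases ht : t = 0
    · rw [ht, hb0]
    · rw [hlin t ht, h1, mul_zero]
  rw [hb, hbu, hd, zero_add]

section F4

variable {K : Type*} [Field K] [CharP K 2] (φ : K ≃+* K) (hperf : ∀ x : K, ∃ y : K, y ^ 2 = x)
  (hφ2 : ∀ x : K, φ (φ x) ^ 2 = x) {m : ℕ} (hφ : ∀ x, φ x = x ^ (2 ^ m)) [Fintype K]

include hφ2 hφ

theorem f4_adjust (hm : 1 ≤ m) (hK : Fintype.card K = 2 ^ (2 * m + 1))
    (P : TwG (twF4 φ hperf)) (hP : P.G1 = twistedF4 K (2 ^ m))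
    (hc : ∀ j, Nat.card ↥((twF4 φ hperf).UJ j ⊓ P.G1) = (2 ^ (2 * m + 1)) ^ kkF4 j) (α : MulAut ↥P.G1) :
    ∃ (g : ↥P.G1) (b : (twF4 φ hperf).Tf) (σ : RingAut K), MulAut.conj g * α =
      dA modelF4 (twF4 φ hperf).Tf P.G1 (f4_dT φ hperf hφ2 hφ P hP) b * frA P.G1 (f4_fr φ hperf P hP) σ := by
  have hp : Fact (Nat.Prime 2) := ⟨Nat.prime_two⟩
  have hq1 : 1 < 2 ^ (2 * m + 1) := Nat.one_lt_two_pow (by omega)
  obtain ⟨S, hS⟩ := f4_sylow φ hperf hφ2 hφ hK P hP hc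
  set B := f4SB φ hperf P with hB
  obtain ⟨g, hU, hV⟩ := B.adjust hS α
  set β := MulAut.conj g * α with hβ
  obtain ⟨-, hX0, hY0⟩ := f4_perm φ hperf hq1 P hc hU hV 0
  obtain ⟨-, hX1, -⟩ := f4_perm φ hperf hq1 P hc hU hV 1
  have par0 := f4_par0 φ hperf hφ hφ2 P hP
  obtain ⟨σ0, c0, hc0, a0, b0⟩ := par0.rigid β hX0 hY0
  -- the first diagonal adjustment
  obtain ⟨d1, hd1, e1, e1'⟩ := f4_tf φ hperf hφ2 c0 hc0 1 one_ne_zero
  set δ1 := dA modelF4 (twF4 φ hperf).Tf P.G1 (f4_dT φ hperf hφ2 hφ P hP) ⟨d1, hd1⟩ with hδ1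
  obtain ⟨r1, r2, -, -⟩ := f4_dR φ hperf hφ2 hd1
  set γ1 := δ1⁻¹ * β with hγ1
  have hγδ1 : ∀ x, δ1 (γ1 x) = β x := fun x => by rw [hγ1, MulAut.mul_apply, MulAut.apply_inv_self]
  have s1 : ∀ t, δ1 ((f4S0 φ hperf hφ P hP).X t) = (f4S0 φ hperf hφ P hP).X (c0 * t) := by
    intro t
    apply Subtype.ext
    refine (r1 t).trans ?_
    rw [e1]
    rfl
  have s2 : ∀ t, δ1 ((f4S0 φ hperf hφ P hP).Y t) = (f4S0 φ hperf hφ P hP).Y (c0⁻¹ * t) := by
    intro t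
    apply Subtype.ext
    refine (r2 t).trans ?_
    rw [e1]
    rfl
  have u1 : ∀ t, γ1 ((f4S0 φ hperf hφ P hP).X t) = (f4S0 φ hperf hφ P hP).X (σ0 t) := fun t =>
    δ1.injective (by rw [hγδ1, a0, s1])
  have u2 : ∀ t, γ1 ((f4S0 φ hperf hφ P hP).Y t) = (f4S0 φ hperf hφ P hP).Y (σ0 t) := fun t =>
    δ1.injective (by rw [hγδ1, b0, s2])
  have iU : ∀ (b : (twF4 φ hperf).Tf) (x : ↥P.G1), dA modelF4 (twF4 φ hperf).Tf P.G1 (f4_dT φ hperf hφ2 hφ P hP) b x ∈ B.U ↔ x ∈ B.U := by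
    intro b x
    change ((dA modelF4 (twF4 φ hperf).Tf P.G1 (f4_dT φ hperf hφ2 hφ P hP) b x : ↥P.G1) : GL chevF4.Idx K) ∈ chevF4.posUnipotent K ↔
      (x : GL chevF4.Idx K) ∈ chevF4.posUnipotent K
    rw [modelF4.posUnipotent_eq]
    exact dA_iff _ _ _ _ _ _
  have iV : ∀ (b : (twF4 φ hperf).Tf) (x : ↥P.G1), dA modelF4 (twF4 φ hperf).Tf P.G1 (f4_dT φ hperf hφ2 hφ P hP) b x ∈ B.V ↔ x ∈ B.V := by
    intro b x
    change ((dA modelF4 (twF4 φ hperf).Tf P.G1 (f4_dT φ hperf hφ2 hφ P hP) b x : ↥P.G1) : GL chevF4.Idx K) ∈ chevF4.negUnipotent K ↔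
      (x : GL chevF4.Idx K) ∈ chevF4.negUnipotent K
    rw [modelF4.negUnipotent_eq]
    exact dA_iff _ _ _ _ _ _
  have jU : ∀ (σ : RingAut K) (x : ↥P.G1), frA P.G1 (f4_fr φ hperf P hP) σ x ∈ B.U ↔ x ∈ B.U := by
    intro σ x
    change ((frA P.G1 (f4_fr φ hperf P hP) σ x : ↥P.G1) : GL chevF4.Idx K) ∈ chevF4.posUnipotent K ↔
      (x : GL chevF4.Idx K) ∈ chevF4.posUnipotent K
    rw [modelF4.posUnipotent_eq]
    exact frA_iff modelF4 _ _ _ _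
  have jV : ∀ (σ : RingAut K) (x : ↥P.G1), frA P.G1 (f4_fr φ hperf P hP) σ x ∈ B.V ↔ x ∈ B.V := by
    intro σ x
    change ((frA P.G1 (f4_fr φ hperf P hP) σ x : ↥P.G1) : GL chevF4.Idx K) ∈ chevF4.negUnipotent K ↔
      (x : GL chevF4.Idx K) ∈ chevF4.negUnipotent K
    rw [modelF4.negUnipotent_eq]
    exact frA_iff modelF4 _ _ _ _
  have hγ1U : ∀ x, γ1 x ∈ B.U ↔ x ∈ B.U := fun x => by
    rw [← iU ⟨d1, hd1⟩, ← hδ1, hγδ1, hU]
  have hγ1V : ∀ x, γ1 x ∈ B.V ↔ x ∈ B.V := fun x => by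
    rw [← iV ⟨d1, hd1⟩, ← hδ1, hγδ1, hV]
  obtain ⟨-, g1X, -⟩ := f4_perm φ hperf hq1 P hc hγ1U hγ1V 1
  -- the second root group
  set Bt := f4B φ hperf hφ hφ2 P hP with hBt
  have hiff := f4B_iff φ hperf hφ hφ2 P hP
  rw [← hBt, ← hB] at hiff
  have hchar : ∀ x : K, x + x = 0 := CharTwo.add_self_eq_zero
  have hmul : ∀ t u t' u', Bt t u * Bt t' u' = Bt (t + t') (u + u' + φ t * t') := fun t u t' u' =>
    Subtype.ext (f4A_mul φ hφ2 t u t' u')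
  have hinj : ∀ t u t' u', Bt t u = Bt t' u' → t = t' ∧ u = u' := fun t u t' u' h =>
    f4A_inj φ hperf t u t' u' (congrArg Subtype.val h)
  have hB0 : Bt 0 0 = 1 := by
    have h1 := hmul 0 0 0 0
    rw [add_zero, map_zero, mul_zero, add_zero] at h1
    exact mul_eq_left.1 h1
  have hact : ∀ v, v ≠ 0 → ∀ t u, (f4S0 φ hperf hφ P hP).h v * Bt t u * ((f4S0 φ hperf hφ P hP).h v)⁻¹ =
      Bt (v⁻¹ * t) ((φ v)⁻¹ * v⁻¹ * u) := fun v hv t u => Subtype.ext (f4_act φ hperf hφ2 v hv t u)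
  obtain ⟨c1, hc1, hsl⟩ := sz_semilinear φ Bt hmul hinj hB0 hchar γ1 σ0 (f4S0 φ hperf hφ P hP).h
    (fun v => (f4S0 φ hperf hφ P hP).h (σ0 v)) hact (fun v hv t u => hact (σ0 v) ((map_ne_zero σ0).2 hv) t u)
    (fun v => (f4S0 φ hperf hφ P hP).map_h γ1 u1 u2 v)
    (fun t u => (hiff _).1 ((g1X _).2 ((hiff _).2 ⟨t, u, rfl⟩)))
  -- the second diagonal adjustment and the field automorphism
  obtain ⟨d2, hd2, e2, e2'⟩ := f4_tf φ hperf hφ2 1 one_ne_zero c1 hc1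
  set δ2 := dA modelF4 (twF4 φ hperf).Tf P.G1 (f4_dT φ hperf hφ2 hφ P hP) ⟨d2, hd2⟩ with hδ2
  obtain ⟨r3, r4, r5, -⟩ := f4_dR φ hperf hφ2 hd2
  have hσb : Function.Bijective σ0 := Finite.injective_iff_bijective.1 σ0.injective
  let σ : RingAut K := RingEquiv.ofBijective σ0 hσb
  have hσ : (σ : K →+* K) = σ0 := by ext x; rfl
  set Fσ := frA P.G1 (f4_fr φ hperf P hP) σ with hFσ
  have v1 : ∀ t, (δ2 * Fσ) ((f4S0 φ hperf hφ P hP).X t) = (f4S0 φ hperf hφ P hP).X (σ0 t) := by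
    intro t
    apply Subtype.ext
    change modelF4.dT K d2 * fr chevF4 (σ : K →+* K) ((f4R0 φ).X t) * (modelF4.dT K d2)⁻¹ = (f4R0 φ).X (σ0 t)
    rw [hσ, (f4_frA φ hφ σ0 t 0).1, r3, e2, one_mul]
  have v2 : ∀ t, (δ2 * Fσ) ((f4S0 φ hperf hφ P hP).Y t) = (f4S0 φ hperf hφ P hP).Y (σ0 t) := by
    intro t
    apply Subtype.ext
    change modelF4.dT K d2 * fr chevF4 (σ : K →+* K) ((f4R0 φ).Y t) * (modelF4.dT K d2)⁻¹ = (f4R0 φ).Y (σ0 t)
    rw [hσ, (f4_frA φ hφ σ0 t 0).2.1, r4, e2, inv_one, one_mul]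
  have v3 : ∀ t u, ∃ w, (δ2 * Fσ) (Bt t u) = Bt (c1 * σ0 t) w := by
    intro t u
    refine ⟨φ c1 * c1 * σ0 u, ?_⟩
    apply Subtype.ext
    change modelF4.dT K d2 * fr chevF4 (σ : K →+* K) (f4A φ t u) * (modelF4.dT K d2)⁻¹ = f4A φ (c1 * σ0 t) (φ c1 * c1 * σ0 u)
    rw [hσ, (f4_frA φ hφ σ0 t u).2.2, r5, e2']
  set γ3 := (δ2 * Fσ)⁻¹ * γ1 with hγ3
  have hγδ3 : ∀ x, (δ2 * Fσ) (γ3 x) = γ1 x := fun x => by
    rw [hγ3]
    exact MulAut.apply_inv_self _ (δ2 * Fσ) (γ1 x)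
  have w1 : ∀ t, γ3 ((f4S0 φ hperf hφ P hP).X t) = (f4S0 φ hperf hφ P hP).X t := fun t =>
    (δ2 * Fσ).injective (by rw [hγδ3, u1, v1])
  have w2 : ∀ t, γ3 ((f4S0 φ hperf hφ P hP).Y t) = (f4S0 φ hperf hφ P hP).Y t := fun t =>
    (δ2 * Fσ).injective (by rw [hγδ3, u2, v2])
  have hγ3U : ∀ x, γ3 x ∈ B.U ↔ x ∈ B.U := fun x => by
    rw [← jU σ, ← hFσ, ← iU ⟨d2, hd2⟩, ← hδ2, ← MulAut.mul_apply, hγδ3, hγ1U]
  have hγ3V : ∀ x, γ3 x ∈ B.V ↔ x ∈ B.V := fun x => by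
    rw [← jV σ, ← hFσ, ← iV ⟨d2, hd2⟩, ← hδ2, ← MulAut.mul_apply, hγδ3, hγ1V]
  obtain ⟨g3P, g3X, g3Y⟩ := f4_perm φ hperf hq1 P hc hγ3U hγ3V 1
  have w3 : ∀ t u, ∃ u', γ3 (Bt t u) = Bt t u' := by
    intro t u
    obtain ⟨t', u', h1⟩ := (hiff _).1 ((g3X _).2 ((hiff _).2 ⟨t, u, rfl⟩))
    obtain ⟨w, h2⟩ := v3 t' u'
    obtain ⟨w', h3⟩ := hsl t u
    have h4 := hγδ3 (Bt t u)
    rw [h1, h2, h3] at h4
    have h5 := (hinj _ _ _ _ h4).1
    have h6 := σ0.injective (mul_left_cancel₀ hc1 h5)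
    exact ⟨u', by rw [h1, h6]⟩
  have hsur : ∀ u : K, ∃ t, φ t * t = u := fun u => by
    obtain ⟨t, ht⟩ := pow_surj hK u
    exact ⟨t, by rw [hφ, ht]⟩
  have hmv : ∃ t : K, φ t ≠ t := by
    by_contra hcon
    push Not at hcon
    have h1 : ∀ t : K, t = 0 ∨ t = 1 := by
      intro t
      have h2 := hφ2 t
      rw [hcon, hcon] at h2
      have h3 : t * (t - 1) = 0 := by linear_combination h2
      rcases mul_eq_zero.1 h3 with h4 | h4
      · exact Or.inl h4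
      · exact Or.inr (sub_eq_zero.1 h4)
    have h2 : Fintype.card K ≤ 2 := by
      classical
      have h3 : (Finset.univ : Finset K) ⊆ {0, 1} := by
        intro t _
        rw [Finset.mem_insert, Finset.mem_singleton]
        exact h1 t
      exact (Finset.card_le_card h3).trans (Finset.card_le_two)
    rw [hK] at h2
    have h3 : 2 ^ 2 ≤ 2 ^ (2 * m + 1) := Nat.pow_le_pow_right (by norm_num) (by omega)
    omega
  have w4 := sz_linear φ Bt hmul hinj hchar γ3 (f4S0 φ hperf hφ P hP).h hact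
    (fun v => (f4S0 φ hperf hφ P hP).map_h γ3 (σ := RingHom.id K) w1 w2 v) w3 hsur hmv
  have w5 : ∀ x ∈ B.X 1, γ3 x = x := by
    intro x hx
    obtain ⟨t, u, rfl⟩ := (hiff _).1 hx
    exact w4 t u
  have w6 : ∀ y ∈ B.Y 1, γ3 y = y := fun y hy =>
    B.fix_Y (fun x hx => P.nj_inv_X hx) (B.B_iff hγ3U) g3P g3Y w5 hy
  have h3 : γ3 = 1 := by
    apply f4_ext φ hperf hφ2 hφ P hP
    · intro t; rw [w1]; rfl
    · intro t; rw [w2]; rfl
    · intro x hx; rw [w5 x hx]; rfl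
    · intro x hx; rw [w6 x hx]; rfl
  have h4 : γ1 = δ2 * Fσ := by
    have : γ1 = (δ2 * Fσ) * γ3 := by rw [hγ3, mul_inv_cancel_left]
    rw [this, h3, mul_one]
  have h5 : β = δ1 * γ1 := by rw [hγ1, mul_inv_cancel_left]
  refine ⟨g, ⟨d1, hd1⟩ * ⟨d2, hd2⟩, σ, ?_⟩
  rw [← hβ, h5, h4, map_mul, ← hδ1, ← hδ2, ← hFσ, mul_assoc]

theorem f4_out (hm : 1 ≤ m) (hK : Fintype.card K = 2 ^ (2 * m + 1))
    (P : TwG (twF4 φ hperf)) (hP : P.G1 = twistedF4 K (2 ^ m))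
    (hc : ∀ j, Nat.card ↥((twF4 φ hperf).UJ j ⊓ P.G1) = (2 ^ (2 * m + 1)) ^ kkF4 j) :
    Nat.card (Cfsg.Out ↥P.G1) = Nat.card (RingAut K) := by
  have h1 := TO.card_out_of (dA modelF4 (twF4 φ hperf).Tf P.G1 (f4_dT φ hperf hφ2 hφ P hP)) (frA P.G1 (f4_fr φ hperf P hP))
    (twF4 φ hperf).cmT.range (f4_adjust φ hperf hφ2 hφ hm hK P hP hc) ?_ ?_
  · rw [h1, (twF4 φ hperf).index_cmT]
    have h2 : (twF4 φ hperf).Tf ⊓ (modelF4.hT K).ker = ⊥ := by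
      rw [eq_bot_iff]
      rintro b ⟨-, h2⟩
      exact f4_inj h2
    rw [h2, Subgroup.card_bot, one_mul]
  · intro b σ g h
    have h2 := TwG.mem_H_of_dA P (f4SB φ hperf P) rfl rfl rfl _ _ h
    have h3 : (g : GL chevF4.Idx K) ∈ (twF4 φ hperf).H0 := by
      rw [← f4_H φ hperf hφ2 hφ P hP]
      exact Subgroup.mem_inf.2 ⟨h2, g.2⟩
    obtain ⟨b', hb', he⟩ := h3
    rw [modelF4.hT_eq_dT] at he
    have h4 : ∀ x : ↥P.G1, modelF4.dT K b * fr chevF4 (σ : K →+* K) x * (modelF4.dT K b)⁻¹ =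
        modelF4.dT K (Model.cm chevF4 K b') * x * (modelF4.dT K (Model.cm chevF4 K b'))⁻¹ := by
      intro x
      rw [he]
      exact congrArg (fun f : MulAut ↥P.G1 => ((f x : ↥P.G1) : GL chevF4.Idx K)) h
    have hcb := (twF4 φ hperf).cm_Tf hb'
    obtain ⟨r1, -, r3, -⟩ := f4_dR φ hperf hφ2 hcb
    obtain ⟨v1, -, v3, -⟩ := f4_dR φ hperf hφ2 b.2
    have h5 : ∀ t : K, ((b : Fin chevF4.rank → Kˣ) (3 : Fin 4) : K) * σ t = (Model.cm chevF4 K b' (3 : Fin 4) : K) * t := by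
      intro t
      have h6 := h4 ((f4S0 φ hperf hφ P hP).X t)
      change modelF4.dT K b * fr chevF4 (σ : K →+* K) ((f4R0 φ).X t) * (modelF4.dT K b)⁻¹ =
        modelF4.dT K (Model.cm chevF4 K b') * (f4R0 φ).X t * (modelF4.dT K (Model.cm chevF4 K b'))⁻¹ at h6
      rw [(f4_frA φ hφ (σ : K →+* K) t 0).1, v1, r1] at h6
      exact f4R0_Xi φ h6
    have h6 := h5 1
    rw [map_one, mul_one, mul_one] at h6
    have h7 : σ = 1 := by
      ext t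
      have h8 := h5 t
      rw [← h6] at h8
      exact mul_left_cancel₀ (Units.ne_zero _) h8
    refine ⟨h7, ⟨⟨b', hb'⟩, ?_⟩⟩
    have h8 : ((b : Fin chevF4.rank → Kˣ) (2 : Fin 4) : K) = (Model.cm chevF4 K b' (2 : Fin 4) : K) := by
      have h9 := h4 (f4B φ hperf hφ hφ2 P hP 1 0)
      change modelF4.dT K b * fr chevF4 (σ : K →+* K) (f4A φ 1 0) * (modelF4.dT K b)⁻¹ =
        modelF4.dT K (Model.cm chevF4 K b') * f4A φ 1 0 * (modelF4.dT K (Model.cm chevF4 K b'))⁻¹ at h9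
      rw [(f4_frA φ hφ (σ : K →+* K) 1 0).2.2, v3, r3, map_one] at h9
      have h10 := (f4A_inj φ hperf _ _ _ _ h9).1
      rwa [mul_one, mul_one] at h10
    obtain ⟨-, -, p1, p0⟩ := (f4_Tf φ hperf).1 b.2
    obtain ⟨-, -, q1, q0⟩ := (f4_Tf φ hperf).1 hcb
    apply Subtype.ext
    change Model.cm chevF4 K b' = b.1
    funext (k : Fin 4)
    apply Units.ext
    fin_cases k
    · exact (p0.trans ((congrArg φ h6).trans q0.symm)).symm
    · exact (p1.trans ((congrArg φ h8).trans q1.symm)).symm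
    · exact h8.symm
    · exact h6.symm
  · rintro _ ⟨b, rfl⟩
    have h2 : modelF4.hT K b ∈ P.G1 := f4_H0_le φ hperf hφ2 hφ P hP ⟨b, b.2, rfl⟩
    refine ⟨⟨modelF4.hT K b, h2⟩, ?_⟩
    ext x : 1
    apply Subtype.ext
    change modelF4.dT K (Model.cm chevF4 K b) * x * (modelF4.dT K (Model.cm chevF4 K b))⁻¹ =
      modelF4.hT K b * x * (modelF4.hT K b)⁻¹
    rw [modelF4.hT_eq_dT]

end F4

end Cfsg.Agent.H6.Chev
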