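import Cfsg.Agent.H6_ChevCox2

/-!
Centres of the Weyl groups.
-/

set_option autoImplicit false
set_option linter.unusedSectionVars false
set_option maxRecDepth 100000

namespace Cfsg.Agent.H6.Chev

open Cfsg Cfsg.Lie Cfsg.Lie.ChevalleyDatum

namespace Model

variable {D : ChevalleyDatum} (m : Model D)

theorem sr_mem (i : Fin D.rank) : m.sr i ∈ m.Wg := Subgroup.subset_closure ⟨i, rfl⟩

theorem central_pm {z : Equiv.Perm (Fin D.nroots)} (hz : z ∈ m.Wg) (i : Fin D.rank) (hc : m.sr i * z = z * m.sr i) :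
    z (m.p i) = m.p i ∨ z (m.p i) = m.ng (m.p i) := by
  have h1 : m.sr i (z (m.p i)) = m.ng (z (m.p i)) := by
    have := congrArg (fun w : Equiv.Perm (Fin D.nroots) => w (m.p i)) hc
    simp only [Equiv.Perm.mul_apply] at this
    rw [this, m.sr_p, (m.isW hz).neg]
  by_cases hp : m.N ≤ z (m.p i)
  · left
    by_contra hne
    have h2 := m.sr_pos (i := i) hp hne
    rw [h1] at h2
    have := (m.ng_lt_iff (z (m.p i))).2 hp
    omega
  · right
    have hp' : m.N ≤ (m.ng (z (m.p i)) : ℕ) := (m.ng_ge_iff _).2 (by omega)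
    have h3 : m.ng (z (m.p i)) = m.p i := by
      by_contra hne
      have h2 := m.sr_pos (i := i) hp' hne
      rw [m.sr_ng, h1, m.ng_ng] at h2
      exact hp h2
    exact m.ng_inj (by rw [h3, m.ng_ng])

theorem central_sign {z : Equiv.Perm (Fin D.nroots)} (hz : z ∈ m.Wg) (hc : ∀ i, m.sr i * z = z * m.sr i) :
    (∀ i, z (m.p i) = m.p i) ∨ (∀ i, z (m.p i) = m.ng (m.p i)) := by
  have h1 := fun i => m.central_pm hz i (hc i)
  by_cases hA : ∀ i, z (m.p i) = m.p i
  · exact Or.inl hA
  right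
  by_contra hB
  push Not at hA hB
  obtain ⟨a, ha⟩ := hA
  obtain ⟨b, hb⟩ := hB
  have hb' : z (m.p b) = m.p b := (h1 b).resolve_right hb
  obtain ⟨i, hi, j, hj, ⟨hi', hJi⟩, hJj, hij⟩ := m.conn (fun k => ∃ hk : k < D.rank, z (m.p ⟨k, hk⟩) = m.p ⟨k, hk⟩)
    ⟨b, b.2, b.2, hb'⟩ ⟨a, a.2, fun ⟨_, h⟩ => ha h⟩
  have h2 : z (m.p ⟨j, hj⟩) = m.ng (m.p ⟨j, hj⟩) := (h1 ⟨j, hj⟩).resolve_left (fun h => hJj ⟨hj, h⟩)
  have h3 := (m.isW hz).pair (m.p ⟨i, hi⟩) (m.p ⟨j, hj⟩)
  rw [hJi, h2, m.coe_ng, m.pair_neg (m.p ⟨j, hj⟩).2, m.coe_p, m.coe_p, m.pair_simple hi] at h3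
  change - D.cartan i (D.simple j) = D.cartan i (D.simple j) at h3
  exact hij (by omega)

theorem eq_ng {z : Equiv.Perm (Fin D.nroots)} (hz : z ∈ m.Wg) (h : ∀ i, z (m.p i) = m.ng (m.p i)) (r : Fin D.nroots) :
    z r = m.ng r := by
  apply m.ext_coef
  intro j hj
  rw [(m.isW hz).lin r j hj, m.coe_ng, m.coef_neg r r.2 j hj, ← m.coef_sum r hj, ← Finset.sum_neg_distrib]
  apply Finset.sum_congr rfl
  intro k _
  rw [h, m.coe_ng, m.coef_neg _ (m.p k).2 j hj]
  ring

theorem center_mem_iff {z : m.Wg} : z ∈ Subgroup.center m.Wg ↔ ∀ i, m.sr i * (z : Equiv.Perm (Fin D.nroots)) = z * m.sr i := by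
  rw [Subgroup.mem_center_iff]
  constructor
  · intro h i
    exact congrArg Subtype.val (h ⟨m.sr i, m.sr_mem i⟩)
  · rintro h ⟨g, hg⟩
    apply Subtype.ext
    change g * z = z * g
    have h1 : m.Wg ≤ Subgroup.centralizer {(z : Equiv.Perm (Fin D.nroots))} := by
      refine (Subgroup.closure_le _).2 ?_
      rintro _ ⟨i, rfl⟩
      rw [SetLike.mem_coe, Subgroup.mem_centralizer_singleton_iff]
      exact h i
    exact Subgroup.mem_centralizer_singleton_iff.1 (h1 hg)

/-- the centre when `-1` is a power of the Coxeter element -/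
theorem center_two (M : CoxeterMatrix (Fin D.rank)) (hM : ∀ i j, orderOf (m.wl [i, j]) = M i j) (k : ℕ)
    (hk : ∀ i, (m.wl (List.finRange D.rank) ^ k) (m.p i) = m.ng (m.p i)) :
    Nat.card (Subgroup.center M.Group) = 2 ∧
      Subgroup.center M.Group ≤ Subgroup.zpowers ((List.finRange D.rank).map M.simple).prod := by
  obtain ⟨e, he⟩ := m.exists_cox M hM
  set c : m.Wg := ((List.finRange D.rank).map m.σ).prod with hcdef
  have hc : (c : Equiv.Perm (Fin D.nroots)) = m.wl (List.finRange D.rank) := m.coe_wp _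
  have hec : e c = ((List.finRange D.rank).map M.simple).prod := by
    rw [hcdef, map_list_prod, List.map_map]
    congr 1
    apply List.map_congr_left
    intro i _
    exact he i
  have hι : ((c ^ k : m.Wg) : Equiv.Perm (Fin D.nroots)) = m.wl (List.finRange D.rank) ^ k := by
    rw [SubgroupClass.coe_pow, hc]
  have hr : ∀ r, ((c ^ k : m.Wg) : Equiv.Perm (Fin D.nroots)) r = m.ng r := by
    apply m.eq_ng (c ^ k).2
    intro i
    rw [hι]; exact hk i
  have hcen : Subgroup.center m.Wg = Subgroup.zpowers (c ^ k) := by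
    apply le_antisymm
    · intro z hz
      rw [m.center_mem_iff] at hz
      rcases m.central_sign z.2 hz with h | h
      · have : (z : Equiv.Perm (Fin D.nroots)) = 1 := m.eq_one_of_pos z.2 (fun i => by rw [h]; exact m.p_pos i)
        have h1 : z = 1 := Subtype.ext this
        rw [h1]; exact one_mem _
      · have h1 : z = c ^ k := by
          apply Subtype.ext
          ext r
          rw [m.eq_ng z.2 h, hr]
        rw [h1]; exact Subgroup.mem_zpowers _
    · rw [Subgroup.zpowers_le, m.center_mem_iff]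
      intro i
      ext r
      rw [Equiv.Perm.mul_apply, Equiv.Perm.mul_apply, hr, hr, m.sr_ng]
  have hord : orderOf (c ^ k) = 2 := by
    rw [orderOf_eq_prime_iff]
    constructor
    · apply Subtype.ext
      rw [pow_two, Subgroup.coe_mul]
      ext r
      rw [Equiv.Perm.mul_apply, hr, hr, m.ng_ng]
      rfl
    · intro h
      have h1 := hr (m.p ⟨0, m.rank_pos⟩)
      rw [h] at h1
      have h2 : m.p ⟨0, m.rank_pos⟩ = m.ng (m.p ⟨0, m.rank_pos⟩) := h1
      have h3 := (m.ng_lt_iff (m.p ⟨0, m.rank_pos⟩)).2 (m.p_pos _)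
      rw [← h2] at h3
      have := m.p_pos ⟨0, m.rank_pos⟩
      omega
  constructor
  · rw [← Nat.card_congr (Subgroup.centerCongr e).toEquiv, hcen, Nat.card_zpowers, hord]
  · intro z hz
    obtain ⟨w, rfl⟩ := e.surjective z
    have hw : w ∈ Subgroup.center m.Wg := by
      rw [Subgroup.mem_center_iff] at hz ⊢
      intro g
      apply e.injective
      rw [map_mul, map_mul]
      exact hz (e g)
    rw [hcen] at hw
    obtain ⟨n, hn⟩ := Subgroup.mem_zpowers_iff.1 hw
    rw [← hec, ← hn, map_zpow, map_pow]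
    exact Subgroup.zpow_mem _ (Subgroup.pow_mem _ (Subgroup.mem_zpowers _) _) _

/-- the centre when the longest element is not `-1` -/
theorem center_one (M : CoxeterMatrix (Fin D.rank)) (hM : ∀ i j, orderOf (m.wl [i, j]) = M i j) (w : Equiv.Perm (Fin D.nroots))
    (hw : w ∈ m.Wg) (hneg : ∀ i, (w (m.p i) : ℕ) < m.N) (i : Fin D.rank) (hi : w (m.p i) ≠ m.ng (m.p i)) :
    Nat.card (Subgroup.center M.Group) = 1 ∧
      Subgroup.center M.Group ≤ Subgroup.zpowers ((List.finRange D.rank).map M.simple).prod := by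
  obtain ⟨e, he⟩ := m.exists_cox M hM
  have hcen : Subgroup.center m.Wg = ⊥ := by
    rw [eq_bot_iff]
    intro z hz
    rw [m.center_mem_iff] at hz
    rw [Subgroup.mem_bot]
    rcases m.central_sign z.2 hz with h | h
    · have : (z : Equiv.Perm (Fin D.nroots)) = 1 := m.eq_one_of_pos z.2 (fun i => by rw [h]; exact m.p_pos i)
      exact Subtype.ext this
    · exfalso
      have h1 : (z : Equiv.Perm (Fin D.nroots)) * w = 1 := by
        apply m.eq_one_of_pos (mul_mem z.2 hw)
        intro j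
        rw [Equiv.Perm.mul_apply, m.eq_ng z.2 h]
        exact (m.ng_ge_iff _).2 (hneg j)
      apply hi
      have h2 := congrArg (fun w : Equiv.Perm (Fin D.nroots) => w (m.p i)) h1
      simp only [Equiv.Perm.mul_apply, Equiv.Perm.one_apply] at h2
      rw [m.eq_ng z.2 h] at h2
      exact m.ng_inj (by rw [h2, m.ng_ng])
  have hcard : Nat.card (Subgroup.center M.Group) = 1 := by
    rw [← Nat.card_congr (Subgroup.centerCongr e).toEquiv, hcen]
    exact Subgroup.card_bot
  refine ⟨hcard, ?_⟩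
  rw [Subgroup.eq_bot_of_card_eq _ hcard]
  exact bot_le

end Model

namespace Tab

variable (t : Tab)

def ckNeg (l : List ℕ) (k : ℕ) : Bool :=
  allNat t.l fun i => Nat.beq (t.it l k (nth t.S i)) (t.n - 1 - nth t.S i)

def ckLt (l : List ℕ) (k : ℕ) : Bool :=
  allNat t.l fun i => Nat.ble (t.it l k (nth t.S i) + 1) t.N

variable {t}

theorem neg_of_ck {D : ChevalleyDatum} (m : Model D) (b : t.Base D) (ck : t.Checks D) (l : List (Fin D.rank)) (k : ℕ)
    (h : t.ckNeg (l.map Fin.val) k = true) (i : Fin D.rank) : (m.wl l ^ k) (m.p i) = m.ng (m.p i) := by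
  have hr := b.rank
  have hn := b.nroots
  apply Fin.ext
  have h1 := Nat.eq_of_beq_eq_true (allNat_iff h i (by omega))
  have hs : D.simple i = nth t.S i := b.simple_eq (by omega)
  have hlt := m.simple_lt i i.2
  rw [it_eq m b ck, m.coe_p, hs, h1, m.coe_ng, m.coe_p, b.neg_eq (by omega), hs]

theorem lt_of_ck {D : ChevalleyDatum} (m : Model D) (b : t.Base D) (ck : t.Checks D) (l : List (Fin D.rank)) (k : ℕ)
    (h : t.ckLt (l.map Fin.val) k = true) (i : Fin D.rank) : ((m.wl l ^ k) (m.p i) : ℕ) < m.N := by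
  have hr := b.rank
  have hn := b.nroots
  have hN := b.n2
  have hm := m.nroots_eq
  have h1 := Nat.le_of_ble_eq_true (allNat_iff h i (by omega))
  have hs : D.simple i = nth t.S i := b.simple_eq (by omega)
  rw [it_eq m b ck, m.coe_p, hs]
  omega

end Tab

end Cfsg.Agent.H6.Chev
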