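import Cfsg.Agent.H6_WC1

/-!
Centres of the Weyl groups: the types.
-/

set_option autoImplicit false
set_option maxRecDepth 100000

namespace Cfsg.Agent.H6.Chev

open Cfsg Cfsg.Lie

theorem cknB2 : tabB2.ckNeg [0, 1] 2 = true := by decide +kernel

theorem cenB2 : Nat.card (Subgroup.center ((CoxeterMatrix.B 2) : CoxeterMatrix (Fin 2)).Group) = 2 ∧
    Subgroup.center ((CoxeterMatrix.B 2) : CoxeterMatrix (Fin 2)).Group ≤ Subgroup.zpowers ((List.finRange 2).map ((CoxeterMatrix.B 2) : CoxeterMatrix (Fin 2)).simple).prod :=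
  modelB2.center_two (CoxeterMatrix.B 2) coxB2 2 (Tab.neg_of_ck modelB2 baseB2 checksB2 _ _ cknB2)

theorem cknG2 : tabG2.ckNeg [0, 1] 3 = true := by decide +kernel

theorem cenG2 : Nat.card (Subgroup.center (CoxeterMatrix.G₂ : CoxeterMatrix (Fin 2)).Group) = 2 ∧
    Subgroup.center (CoxeterMatrix.G₂ : CoxeterMatrix (Fin 2)).Group ≤ Subgroup.zpowers ((List.finRange 2).map (CoxeterMatrix.G₂ : CoxeterMatrix (Fin 2)).simple).prod :=
  modelG2.center_two CoxeterMatrix.G₂ coxG2 3 (Tab.neg_of_ck modelG2 baseG2 checksG2 _ _ cknG2)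

theorem cknD4 : tabD4.ckNeg [0, 1, 2, 3] 3 = true := by decide +kernel

theorem cenD4 : Nat.card (Subgroup.center (Cfsg.Lie.coxeterD4 : CoxeterMatrix (Fin 4)).Group) = 2 ∧
    Subgroup.center (Cfsg.Lie.coxeterD4 : CoxeterMatrix (Fin 4)).Group ≤ Subgroup.zpowers ((List.finRange 4).map (Cfsg.Lie.coxeterD4 : CoxeterMatrix (Fin 4)).simple).prod :=
  modelD4.center_two Cfsg.Lie.coxeterD4 coxD4 3 (Tab.neg_of_ck modelD4 baseD4 checksD4 _ _ cknD4)

theorem cknF4 : tabF4.ckNeg [0, 1, 2, 3] 6 = true := by decide +kernel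

theorem cenF4 : Nat.card (Subgroup.center (CoxeterMatrix.F₄ : CoxeterMatrix (Fin 4)).Group) = 2 ∧
    Subgroup.center (CoxeterMatrix.F₄ : CoxeterMatrix (Fin 4)).Group ≤ Subgroup.zpowers ((List.finRange 4).map (CoxeterMatrix.F₄ : CoxeterMatrix (Fin 4)).simple).prod :=
  modelF4.center_two CoxeterMatrix.F₄ coxF4 6 (Tab.neg_of_ck modelF4 baseF4 checksF4 _ _ cknF4)

theorem cknE7 : tabE7.ckNeg [0, 1, 2, 3, 4, 5, 6] 9 = true := by decide +kernel

theorem cenE7 : Nat.card (Subgroup.center (CoxeterMatrix.E₇ : CoxeterMatrix (Fin 7)).Group) = 2 ∧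
    Subgroup.center (CoxeterMatrix.E₇ : CoxeterMatrix (Fin 7)).Group ≤ Subgroup.zpowers ((List.finRange 7).map (CoxeterMatrix.E₇ : CoxeterMatrix (Fin 7)).simple).prod :=
  modelE7.center_two CoxeterMatrix.E₇ coxE7 9 (Tab.neg_of_ck modelE7 baseE7 checksE7 _ _ cknE7)

theorem cknE8 : tabE8.ckNeg [0, 1, 2, 3, 4, 5, 6, 7] 15 = true := by decide +kernel

theorem cenE8 : Nat.card (Subgroup.center (CoxeterMatrix.E₈ : CoxeterMatrix (Fin 8)).Group) = 2 ∧
    Subgroup.center (CoxeterMatrix.E₈ : CoxeterMatrix (Fin 8)).Group ≤ Subgroup.zpowers ((List.finRange 8).map (CoxeterMatrix.E₈ : CoxeterMatrix (Fin 8)).simple).prod :=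
  modelE8.center_two CoxeterMatrix.E₈ coxE8 15 (Tab.neg_of_ck modelE8 baseE8 checksE8 _ _ cknE8)

theorem cklE6 : tabE6.ckLt [0, 3, 5, 1, 2, 4] 6 = true := by decide +kernel

theorem ckwE6 : Nat.beq (tabE6.it [0, 3, 5, 1, 2, 4] 6 (nth tabE6.S 0)) (tabE6.n - 1 - nth tabE6.S 0) = false := by decide +kernel

theorem cenE6 : Nat.card (Subgroup.center (CoxeterMatrix.E₆ : CoxeterMatrix (Fin 6)).Group) = 1 ∧
    Subgroup.center (CoxeterMatrix.E₆ : CoxeterMatrix (Fin 6)).Group ≤ Subgroup.zpowers ((List.finRange 6).map (CoxeterMatrix.E₆ : CoxeterMatrix (Fin 6)).simple).prod := by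
  have h0 : ∀ k : Fin 6, (k : ℕ) < chevE6.rank := fun k => k.2
  let l : List (Fin chevE6.rank) := [⟨0, h0 0⟩, ⟨3, h0 3⟩, ⟨5, h0 5⟩, ⟨1, h0 1⟩, ⟨2, h0 2⟩, ⟨4, h0 4⟩]
  refine modelE6.center_one CoxeterMatrix.E₆ coxE6 (modelE6.wl l ^ 6) (pow_mem (modelE6.wl_mem l) 6)
    (Tab.lt_of_ck modelE6 baseE6 checksE6 l 6 cklE6) ⟨0, h0 0⟩ ?_
  intro h
  have h1 := congrArg Fin.val h
  rw [Tab.it_eq modelE6 baseE6 checksE6, modelE6.coe_ng, modelE6.coe_p] at h1
  have hs : chevE6.simple 0 = nth tabE6.S 0 := baseE6.simple_eq (by decide)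
  have hr := modelE6.simple_lt 0 modelE6.rank_pos
  have hn := baseE6.nroots
  change tabE6.it [0, 3, 5, 1, 2, 4] 6 (chevE6.simple 0) = chevE6.neg (chevE6.simple 0) at h1
  rw [baseE6.neg_eq (by omega), hs] at h1
  have h2 := ckwE6
  rw [h1] at h2
  simp at h2

end Cfsg.Agent.H6.Chev
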