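import Cfsg.Agent.H7_ChT
import Cfsg.Agent.H6_ChevTabB2

/-! The Chevalley group of type `B2` over the field with two elements. -/

namespace H7.ChB2

open Cfsg Cfsg.Lie Cfsg.Lie.ChevalleyDatum Cfsg.Agent.H6.Chev ChT
open scoped Matrix

set_option maxRecDepth 100000

def MT : List ℕ := [0x1000000000010000000000100000000001000000000010000001000100000010001000100000010010000000101000000001, 0x1000000000010000000010100000000001000000100010000000010100000100001010000100010000000000100100000001, 0x1000000000110000000000100000001001000000000010000000100100100000101000000010010000000000100010000001, 0x1000000000010000000001100000000001000000000110000000000100000000011000000000010000010000100000000001, 0x1000000000011000000000100000000001100000000010000000000110000000001000000000010000001000100000000001, 0x1001000000010100000000100100100001000000000010010000000100000000001100000000010000000000100000010001, 0x1000100000010000101000101000000001000100000010000000000101000000001000000000010000000000100000001001,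 0x1000000100010001000000100010000001000000000010000000000100000000001000000000010000000001100000000101]
def XT : List ℕ := [0x100, 0x100000, 0x101100, 0x1000000, 0x1010100, 0x1100010, 0x1111110, 0x1000000000, 0x1000000111, 0x1010100000, 0x1010101111, 0x1101000000, 0x1101010111, 0x1111100010, 0x1111111101]
def SG : List (List ℕ) := [[0, 1, 2, 3, 4, 5, 6, 8, 7, 10, 9, 12, 11, 14, 13], [0, 1, 2, 4, 3, 6, 5, 9, 10, 7, 8, 14, 13, 12, 11], [0, 2, 1, 3, 4, 6, 5, 11, 12, 14, 13, 7, 8, 10, 9], [0, 1, 2, 5, 6, 3, 4, 7, 8, 9, 10, 13, 14, 11, 12], [0, 5, 6, 3, 4, 1, 2, 7, 8, 13, 14, 11, 12, 9, 10], [2, 1, 0, 11, 14, 13, 12, 7, 10, 9, 8, 3, 6, 5, 4], [4, 9, 14, 3, 0, 13, 10, 7, 12, 1, 6, 11, 8, 5, 2], [8, 1, 10, 3, 12, 5, 14, 7, 0, 9, 2, 11, 4, 13, 6]]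
def SP : List (List ℕ) := [[0, 1, 3, 5, 7, 8], [1, 3, 5], [0], [0, 1, 2], [0, 3, 4], [1], [3], [1, 7, 9], [3, 7, 11], [7]]
def BB : Fin 8 → Fin 6 → Fin 6 := ![![1, 0, 2, 3, 4, 5], ![1, 0, 3, 2, 5, 4], ![1, 0, 4, 5, 2, 3], ![0, 1, 3, 2, 4, 5], ![0, 1, 4, 3, 2, 5], ![5, 4, 3, 2, 1, 0], ![5, 3, 4, 1, 2, 0], ![5, 1, 2, 3, 4, 0]]
def lab : Fin 15 → Finset (Fin 6) := ![{0, 1}, {2, 3}, {4, 5}, {2, 4}, {3, 5}, {3, 4}, {2, 5}, {0, 5}, {1, 5}, {1, 4}, {0, 4}, {1, 3}, {0, 3}, {1, 2}, {0, 2}]


/-- matrix entries -/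
def M (r i j : ℕ) : ℕ := dig (MT.getD r 0) (10 * i + j)

/-- vector entries -/
def xv (i k : ℕ) : ℕ := dig (XT.getD i 0) k

/-- the permutations -/
def sg (r i : ℕ) : ℕ := (SG.getD r []).getD i 0

def xck (r : Fin 8) (a b : chevB2.Idx) : Bool :=
  decide ((chevB2.x (ZMod 2) r 1 a b : ZMod 2) = (M r (ix a) (ix b) : ZMod 2))

theorem x_ck : ∀ r : Fin 8, ∀ a b : chevB2.Idx, xck r a b = true := by
  decide +kernel

theorem x_eq' {r : ℕ} (hr : r < 8) : chevB2.x (ZMod 2) r 1 = mat chevB2 2 (M r) := by
  ext a b; exact of_decide_eq_true (x_ck ⟨r, hr⟩ a b)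

theorem act_check : allTo (fun r => allTo (fun i => allTo (fun k =>
    sumTo (fun j => M r k j * xv i j) 10 % 2 == xv (sg r i) k % 2) 10) 15) 8 = true := by
  decide +kernel

theorem act_eq {r i : ℕ} (hr : r < 8) (hi : i < 15) :
    chevB2.x (ZMod 2) r 1 *ᵥ vec chevB2 2 (xv i) = vec chevB2 2 (xv (sg r i)) := by
  rw [x_eq' hr, mat_mulVec]
  apply vec_congr
  intro k hk
  have h1 := allTo_spec act_check r hr
  have h2 := allTo_spec h1 i hi
  have h3 := allTo_spec h2 k hk
  exact beq_iff_eq.1 h3

theorem span_check : ∀ k < 10, ∀ j < 10,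
    ((SP.getD k []).map (fun i => xv i j)).sum % 2 = (if j = k then 1 else 0) % 2 := by
  decide +kernel

theorem span_lt : ∀ k < 10, ∀ i ∈ SP.getD k [], i < 15 := by decide +kernel

/-- the family of vectors -/
def x (i : Fin 15) : chevB2.Idx → ZMod 2 := vec chevB2 2 (xv i)

theorem x_span (k : chevB2.Idx) : (Pi.single k 1 : chevB2.Idx → ZMod 2) ∈
    Submodule.span (ZMod 2) (Set.range x) := by
  have hk : ix k < 10 := ix_lt k
  have h1 := mem_span_of (D := chevB2) (p := 2) (x := fun i => vec chevB2 2 (xv i)) (span_lt _ hk)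
  rw [sum_vec] at h1
  have h2 : (Pi.single k 1 : chevB2.Idx → ZMod 2) =
      vec chevB2 2 (fun j => ((SP.getD (ix k) []).map (fun i => xv i j)).sum) := by
    have h3 : (Pi.single k 1 : chevB2.Idx → ZMod 2) = vec chevB2 2 (fun j => if j = ix k then 1 else 0) := by
      funext a
      simp only [Pi.single_apply, vec]
      by_cases h : a = k
      · rw [if_pos h, h, if_pos rfl]; simp
      · rw [if_neg h, if_neg (fun h' => h (ix_inj h'))]; simp
    rw [h3]
    apply vec_congr
    intro j hj
    exact (span_check _ hk j hj).symm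
  rw [h2]
  exact h1

attribute [local instance] act

/-- the permutations of fifteen points -/
theorem sg_lt : ∀ r : Fin 8, ∀ i : Fin 15, sg r i < 15 := by decide +kernel

def sp0 (r : Fin 8) (i : Fin 15) : Fin 15 := ⟨sg r i, sg_lt r i⟩

def sp (r : Fin 8) : Equiv.Perm (Fin 15) :=
  ⟨sp0 r, sp0 r, by revert r; decide +kernel, by revert r; decide +kernel⟩

/-- the generators -/
def a (r : Fin 8) : GL chevB2.Idx (ZMod 2) := modelB2.X r 1

theorem a_x (r : Fin 8) (i : Fin 15) : a r • x i = x (sp r i) := act_eq r.2 i.2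

theorem x_inj : Function.Injective x := by
  intro i j h
  have h1 : ∀ i j : Fin 15, (∀ k : chevB2.Idx, x i k = x j k) → i = j := by decide +kernel
  exact h1 i j (fun k => congrFun h k)

theorem closure_a : Subgroup.closure (Set.range a) = chevB2.group (ZMod 2) := by
  rw [modelB2.group_eq]
  apply le_antisymm
  · rw [Subgroup.closure_le]
    rintro _ ⟨r, rfl⟩
    exact modelB2.X_mem_gen trivial _
  · unfold Model.gen
    rw [Subgroup.closure_le]
    rintro _ ⟨r, t, -, rfl⟩
    by_cases hr : r < 8
    · have ht : t = 0 ∨ t = 1 := by revert t; decide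
      rcases ht with rfl | rfl
      · rw [modelB2.X_zero]; exact one_mem _
      · exact Subgroup.subset_closure ⟨⟨r, hr⟩, rfl⟩
    · have : modelB2.X r t = 1 := by
        apply Units.ext
        rw [modelB2.coe_X, x_of_ge hr]
        rfl
      rw [this]; exact one_mem _

/-- The permutations of six points. -/
def b (r : Fin 8) : Equiv.Perm (Fin 6) :=
  ⟨BB r, BB r, by revert r; decide, by revert r; decide⟩

/-- The action of permutations on sets. -/
@[reducible] def actS : MulAction (Equiv.Perm (Fin 6)) (Finset (Fin 6)) where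
  smul g s := s.map g.toEmbedding
  one_smul s := by
    show s.map (Equiv.refl _).toEmbedding = s
    simp
  mul_smul g h s := by
    show s.map (g * h).toEmbedding = (s.map h.toEmbedding).map g.toEmbedding
    rw [Finset.map_map]
    rfl

attribute [local instance] actS

theorem b_lab (r : Fin 8) (i : Fin 15) : b r • lab i = lab (sp r i) := by
  revert r i; decide +kernel

theorem lab_inj : Function.Injective lab := by
  intro i j; revert i j; decide +kernel

theorem faithful_b (g : Equiv.Perm (Fin 6)) (hg : ∀ i, g • lab i = lab i) : g = 1 := by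
  revert g
  decide +kernel

theorem closure_b : Subgroup.closure (Set.range b) = ⊤ := by
  have hb : ∀ r, b r ∈ Subgroup.closure (Set.range b) := fun r => Subgroup.subset_closure ⟨r, rfl⟩
  rw [eq_top_iff]
  intro g _
  have hg : g ∈ Submonoid.closure (Set.range fun i : Fin 5 => Equiv.swap i.castSucc i.succ) := by
    rw [Equiv.Perm.mclosure_swap_castSucc_succ]; trivial
  have hle : Submonoid.closure (Set.range fun i : Fin 5 => Equiv.swap i.castSucc i.succ) ≤
      (Subgroup.closure (Set.range b)).toSubmonoid := by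
    rw [Submonoid.closure_le]
    rintro _ ⟨i, rfl⟩
    show Equiv.swap i.castSucc i.succ ∈ Subgroup.closure (Set.range b)
    have key : ∀ i : Fin 5, Equiv.swap i.castSucc i.succ =
        (![b 0, b 3 * b 2 * b 7 * b 2 * b 3, b 3, b 3 * b 4 * b 3, b 0 * b 1 * b 3] : Fin 5 → _) i := by
      decide +kernel
    rw [key]
    fin_cases i
    · exact hb 0
    · exact mul_mem (mul_mem (mul_mem (mul_mem (hb 3) (hb 2)) (hb 7)) (hb 2)) (hb 3)
    · exact hb 3
    · exact mul_mem (mul_mem (hb 3) (hb 4)) (hb 3)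
    · exact mul_mem (mul_mem (hb 0) (hb 1)) (hb 3)
  exact hle hg

theorem main {F : Type*} [Field F] [Fintype F] (hF : Fintype.card F = 2) :
    Nonempty (↥(Lie.chevB2.group F) ≃* Equiv.Perm (Fin 6)) := by
  let f : F ≃+* ZMod 2 := FiniteField.ringEquivOfCardEq (by rw [hF]; rfl)
  obtain ⟨α, -⟩ := exists_group_equiv modelB2 f
  obtain ⟨e⟩ := GenIso.exists_equiv₂ (G := GL chevB2.Idx (ZMod 2)) (H := Equiv.Perm (Fin 6)) x x_inj a sp
    a_x (fun g _ hg => eq_one_of_fix x_span hg) lab lab_inj b b_lab (fun g _ => faithful_b g)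
  rw [closure_a, closure_b] at e
  exact ⟨(α.trans e).trans Subgroup.topEquiv⟩

end H7.ChB2
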