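import Cfsg.Agent.H6_ChevF2
import Cfsg.Agent.H7_GenIso

/-! Packed tables for matrices of Chevalley groups over `ZMod p`. -/

namespace H7.ChT

open Cfsg Cfsg.Lie Cfsg.Lie.ChevalleyDatum
open scoped Matrix

/-- Finite sums by recursion. -/
def sumTo (f : ℕ → ℕ) : ℕ → ℕ
  | 0 => 0
  | n + 1 => sumTo f n + f n

theorem sumTo_eq (f : ℕ → ℕ) (n : ℕ) : sumTo f n = ∑ j ∈ Finset.range n, f j := by
  induction n with
  | zero => rfl
  | succ n ih => rw [sumTo, ih, Finset.sum_range_succ]

/-- bounded checks -/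
def allTo (f : ℕ → Bool) : ℕ → Bool
  | 0 => true
  | n + 1 => f n && allTo f n

theorem allTo_spec {f : ℕ → Bool} {n : ℕ} (h : allTo f n = true) : ∀ i < n, f i = true := by
  induction n with
  | zero => intro i hi; omega
  | succ n ih =>
    rw [allTo, Bool.and_eq_true] at h
    intro i hi
    rcases Nat.lt_succ_iff_lt_or_eq.1 hi with h1 | rfl
    · exact ih h.2 i h1
    · exact h.1

/-- digit in base `16` -/
def dig (N k : ℕ) : ℕ := (N >>> (4 * k)) % 16

variable {D : ChevalleyDatum}

/-- The position of an index. -/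
def ix : D.Idx → ℕ := Sum.elim (fun i => i.val) (fun j => D.rank + j.val)

theorem ix_lt (k : D.Idx) : ix k < D.rank + D.nroots := by
  rcases k with i | j
  · have := i.2; show i.val < _; omega
  · have := j.2; show D.rank + j.val < _; omega

theorem ix_inj {a b : D.Idx} (h : ix a = ix b) : a = b := by
  rcases a with a | a <;> rcases b with b | b <;> simp only [ix, Sum.elim_inl, Sum.elim_inr] at h
  · rw [Fin.ext h]
  · have := a.2; omega
  · have := b.2; omega
  · have : a = b := Fin.ext (by omega)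
    rw [this]

theorem sum_ix {M : Type*} [AddCommMonoid M] (f : ℕ → M) :
    ∑ k : D.Idx, f (ix k) = ∑ j ∈ Finset.range (D.rank + D.nroots), f j := by
  rw [Fintype.sum_sum_type, Finset.sum_range, Fin.sum_univ_add]
  rfl

variable {p : ℕ}

/-- A vector from a function. -/
def vec (D : ChevalleyDatum) (p : ℕ) (v : ℕ → ℕ) : D.Idx → ZMod p := fun k => (v (ix k) : ZMod p)

/-- A matrix from a function. -/
def mat (D : ChevalleyDatum) (p : ℕ) (M : ℕ → ℕ → ℕ) : Matrix D.Idx D.Idx (ZMod p) :=
  Matrix.of fun a b => (M (ix a) (ix b) : ZMod p)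

theorem mat_mulVec (M : ℕ → ℕ → ℕ) (v : ℕ → ℕ) : mat D p M *ᵥ vec D p v =
    vec D p (fun k => sumTo (fun j => M k j * v j) (D.rank + D.nroots)) := by
  funext k
  simp only [Matrix.mulVec, dotProduct, mat, vec, Matrix.of_apply, sumTo_eq]
  rw [sum_ix (fun j => ((M (ix k) j : ℕ) : ZMod p) * ((v j : ℕ) : ZMod p))]
  push_cast
  rfl

theorem mat_mul (M N : ℕ → ℕ → ℕ) : mat D p M * mat D p N =
    mat D p (fun i k => sumTo (fun j => M i j * N j k) (D.rank + D.nroots)) := by
  ext i k
  simp only [Matrix.mul_apply, mat, Matrix.of_apply, sumTo_eq]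
  rw [sum_ix (fun j => ((M (ix i) j : ℕ) : ZMod p) * ((N j (ix k) : ℕ) : ZMod p))]
  push_cast
  rfl

theorem vec_congr {u v : ℕ → ℕ} (h : ∀ k < D.rank + D.nroots, u k % p = v k % p) :
    vec D p u = vec D p v := by
  funext k
  exact (ZMod.natCast_eq_natCast_iff' _ _ _).2 (h _ (ix_lt k))

theorem mat_congr {M N : ℕ → ℕ → ℕ} (h : ∀ i < D.rank + D.nroots, ∀ j < D.rank + D.nroots,
    M i j % p = N i j % p) : mat D p M = mat D p N := by
  ext i k
  exact (ZMod.natCast_eq_natCast_iff' _ _ _).2 (h _ (ix_lt i) _ (ix_lt k))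

/-- The action of `GL` on vectors. -/
@[reducible] def act (D : ChevalleyDatum) (F : Type*) [Field F] : MulAction (GL D.Idx F) (D.Idx → F) where
  smul g v := (g : Matrix D.Idx D.Idx F) *ᵥ v
  one_smul v := by
    show ((1 : Matrix D.Idx D.Idx F) *ᵥ v) = v
    rw [Matrix.one_mulVec]
  mul_smul g h v := by
    show ((g * h : GL D.Idx F) : Matrix D.Idx D.Idx F) *ᵥ v =
      (g : Matrix D.Idx D.Idx F) *ᵥ ((h : Matrix D.Idx D.Idx F) *ᵥ v)
    rw [Matrix.mulVec_mulVec]
    rfl

/-- A matrix fixing a family whose span contains all unit vectors is trivial. -/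
theorem eq_one_of_fix {F : Type*} [Field F] {ι : Type*} {x : ι → (D.Idx → F)}
    (hx : ∀ k : D.Idx, (Pi.single k 1 : D.Idx → F) ∈ Submodule.span F (Set.range x))
    {g : GL D.Idx F} (hg : ∀ i, (g : Matrix D.Idx D.Idx F) *ᵥ x i = x i) : g = 1 := by
  have h1 : ∀ v ∈ Submodule.span F (Set.range x), (g : Matrix D.Idx D.Idx F) *ᵥ v = v := by
    intro v hv
    induction hv using Submodule.span_induction with
    | mem v hv =>
      obtain ⟨i, rfl⟩ := hv
      exact hg i
    | zero => exact Matrix.mulVec_zero _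
    | add a b _ _ ha hb => rw [Matrix.mulVec_add, ha, hb]
    | smul c a _ ha => rw [Matrix.mulVec_smul, ha]
  apply Units.ext
  ext i j
  have h2 := h1 _ (hx j)
  rw [Matrix.mulVec_single_one] at h2
  have h3 := congrFun h2 i
  simp only [Matrix.col_apply] at h3
  rw [h3, Units.val_one, Matrix.one_apply, Pi.single_apply]

/-- A subset sum of vectors. -/
theorem mem_span_of {x : ℕ → (D.Idx → ZMod p)} {L : List ℕ} {n : ℕ} (hL : ∀ i ∈ L, i < n) :
    (L.map x).sum ∈ Submodule.span (ZMod p) (Set.range (fun i : Fin n => x i)) := by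
  induction L with
  | nil => simp
  | cons a L ih =>
    rw [List.map_cons, List.sum_cons]
    refine Submodule.add_mem _ (Submodule.subset_span ⟨⟨a, hL a (by simp)⟩, rfl⟩) (ih ?_)
    intro i hi
    exact hL i (List.mem_cons_of_mem _ hi)

theorem sum_vec (w : ℕ → ℕ → ℕ) (L : List ℕ) : (L.map (fun i => vec D p (w i))).sum =
    vec D p (fun k => (L.map (fun i => w i k)).sum) := by
  induction L with
  | nil => funext k; simp [vec]
  | cons a L ih =>
    rw [List.map_cons, List.sum_cons, ih]
    funext k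
    simp [vec]

end H7.ChT
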