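import Mathlib
import Cfsg.Agent.H7_CoS
import Cfsg.Agent.H7_T8a
import Cfsg.Agent.H7_T8b

set_option autoImplicit false

/-!
Simplicity of `Co2`.
-/

namespace Cfsg.Agent.H7.CoS2

open Cfsg Cfsg.Agent.H7.Golay Cfsg.Agent.H7.Oct Cfsg.Agent.H7.L1 Cfsg.Agent.H7.L2 Cfsg.Agent.H7.L3 Cfsg.Agent.H7.L4 Cfsg.Agent.H7.L5
  Cfsg.Agent.H7.L6 Cfsg.Agent.H7.L7 Cfsg.Agent.H7.L8 Cfsg.Agent.H7.L9 Cfsg.Agent.H7.L10 Cfsg.Agent.H7.L11 Cfsg.Agent.H7.LV
  Cfsg.Agent.H7.LV8 Cfsg.Agent.H7.Co Cfsg.Agent.H7.Co2 Cfsg.Agent.H7.Co3 Cfsg.Agent.H7.Co4 Cfsg.Agent.H7.Co5 Cfsg.Agent.H7.Co6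
  Cfsg.Agent.H7.CoT Cfsg.Agent.H7.Crit Cfsg.Agent.H7.CoS
open scoped Pointwise

theorem dt_vY : Dt vY vU = -16 := by
  show dotInt (vY : GolayPt → ℤ) vU = -16
  rw [vY_coe, vU_coe]; decide +kernel

/-- the 4600 vectors at a minimal vector -/
def Om (v : leechLattice) : Set leechLattice := {y | Nm y = 32 ∧ Dt y v = -16}

theorem om_dual {v y : leechLattice} (hv : Nm v = 32) (hy : y ∈ Om v) : -v - y ∈ Om v := by
  obtain ⟨h1, h2⟩ := hy
  refine ⟨?_, ?_⟩
  · rw [nm_sub, nm_neg, dt_neg, dt_comm v y, hv, h1, h2]; norm_num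
  · rw [dt_sub, dt_neg, dt_self, hv, h2]; norm_num

theorem dt_dual {v y w : leechLattice} (hw : w ∈ Om v) : Dt (-v - y) w = 16 - Dt y w := by
  rw [dt_sub, dt_neg, dt_comm v w, hw.2]; ring

theorem om_dots {v y w : leechLattice} (hv : Nm v = 32) (hy : y ∈ Om v) (hw : w ∈ Om v) :
    y = w ∨ y = -v - w ∨ Dt y w = 16 ∨ Dt y w = 8 ∨ Dt y w = 0 := by
  by_cases h1 : y = w
  · exact Or.inl h1
  by_cases h2 : y = -v - w
  · exact Or.inr (Or.inl h2)
  have h3 := nm_min (sub_ne_zero.2 h1)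
  have h4 := nm_min (sub_ne_zero.2 h2)
  have h5 : Dt y w % 8 = 0 := dot_emod y.2 w.2
  rw [nm_sub, hy.1, hw.1] at h3
  have h6 : Nm (y - (-v - w)) = 32 + 2 * Dt y w := by
    rw [nm_sub, nm_sub, dt_sub', dt_neg', nm_neg, dt_neg, hv, hy.1, hw.1, hy.2, dt_comm v w, hw.2]; ring
  rw [h6] at h4
  omega

theorem om_self {v w : leechLattice} (hw : w ∈ Om v) : Dt w w = 32 ∧ Dt (-v - w) w = -16 := by
  have h : Dt w w = 32 := by rw [dt_self]; exact hw.1
  exact ⟨h, by rw [dt_dual hw, h]; norm_num⟩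

theorem cnt_om (v w : leechLattice) (hv : Nm v = 32) (hw : w ∈ Om v) :
    {y | y ∈ Om v ∧ Dt y w = 16}.ncard = 891 ∧ {y | y ∈ Om v ∧ Dt y w = 8}.ncard = 2816 ∧
    {y | y ∈ Om v ∧ Dt y w = 0}.ncard = 891 := by
  obtain ⟨g, g1, g2⟩ := pair_m16 v w vU vY hv vU_norm hw.1 vY_norm hw.2 dt_vY
  have e : ∀ y : leechLattice, ∀ k : ℤ, (y ∈ Om v ∧ Dt y w = k) ↔
      (Nm (g • y) = 32 ∧ (Dt (g • y) vU = -16 ∧ Dt (g • y) vY = k)) := by
    intro y k
    rw [← g1, ← g2, nm_smul, dt_smul, dt_smul]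
    exact and_assoc
  have h16 : {y | y ∈ Om v ∧ Dt y w = 16}.ncard = 891 := by
    have hc := H7.T8a.count
    rw [ncard_sub (fun y => sqNorm y = 32 ∧ (dotInt y vU = -16 ∧ dotInt y vY = 16))] at hc
    exact (ncard_smul g _ _ fun y => e y _).trans hc
  refine ⟨h16, ?_, ?_⟩
  · have hc := H7.T8b.count
    rw [ncard_sub (fun y => sqNorm y = 32 ∧ (dotInt y vU = -16 ∧ dotInt y vY = 8))] at hc
    exact (ncard_smul g _ _ fun y => e y _).trans hc
  · rw [← h16, ← Set.ncard_image_of_injective {y | y ∈ Om v ∧ Dt y w = 16} (sub_right_injective (b := -v))]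
    congr 1
    ext y
    constructor
    · rintro ⟨h1, h2⟩
      exact ⟨-v - y, ⟨om_dual hv h1, by rw [dt_dual hw, h2]; norm_num⟩, sub_sub_cancel _ _⟩
    · rintro ⟨z, ⟨h1, h2⟩, rfl⟩
      exact ⟨om_dual hv h1, by rw [dt_dual hw, h2]; norm_num⟩

theorem tr_om (v w y z : leechLattice) (hv : Nm v = 32) (hw : w ∈ Om v) (hy : y ∈ Om v) (hz : z ∈ Om v)
    (h : Dt y w = Dt z w) : ∃ g : Co0, g • v = v ∧ g • w = w ∧ g • y = z := by
  obtain ⟨g, g1, g2⟩ := pair_m16 v w vU vY hv vU_norm hw.1 vY_norm hw.2 dt_vY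
  have e : ∀ y : leechLattice, ∀ k : ℤ, (y ∈ Om v ∧ Dt y w = k) ↔
      (Nm (g • y) = 32 ∧ (Dt (g • y) vU = -16 ∧ Dt (g • y) vY = k)) := by
    intro y k
    rw [← g1, ← g2, nm_smul, dt_smul, dt_smul]
    exact and_assoc
  have back : ∀ y z : leechLattice, (∃ k : Co0, k • vU = vU ∧ k • vY = vY ∧ k • (g • y) = g • z) →
      ∃ k : Co0, k • v = v ∧ k • w = w ∧ k • y = z := by
    rintro y z ⟨k, k1, k2, k3⟩
    refine ⟨g⁻¹ * k * g, ?_, ?_, ?_⟩
    · rw [mul_smul, mul_smul, g1, k1, ← g1, inv_smul_smul]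
    · rw [mul_smul, mul_smul, g2, k2, ← g2, inv_smul_smul]
    · rw [mul_smul, mul_smul, k3, inv_smul_smul]
  have t16 : ∀ y z : leechLattice, y ∈ Om v → z ∈ Om v → Dt y w = 16 → Dt z w = 16 →
      ∃ k : Co0, k • v = v ∧ k • w = w ∧ k • y = z := by
    intro y z hy hz h1 h2
    obtain ⟨k, k1, k2⟩ := H7.T8a.trans (g • y) (g • z) ((e y _).1 ⟨hy, h1⟩) ((e z _).1 ⟨hz, h2⟩)
    exact back y z ⟨k, k1 vU (by unfold H7.T8a.V; simp), k1 vY (by unfold H7.T8a.V; simp), k2⟩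
  obtain ⟨h0, h8⟩ := om_self hw
  rcases om_dots hv hy hw with h1 | h1 | h1 | h1 | h1
  · rcases om_dots hv hz hw with h2 | h2 | h2 | h2 | h2
    · exact ⟨1, one_smul _ _, one_smul _ _, by rw [one_smul, h1, h2]⟩
    · rw [h1, h2, h0, h8] at h; omega
    · rw [h1, h2, h0] at h; omega
    · rw [h1, h2, h0] at h; omega
    · rw [h1, h2, h0] at h; omega
  · rcases om_dots hv hz hw with h2 | h2 | h2 | h2 | h2
    · rw [h1, h2, h0, h8] at h; omega
    · exact ⟨1, one_smul _ _, one_smul _ _, by rw [one_smul, h1, h2]⟩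
    · rw [h1, h2, h8] at h; omega
    · rw [h1, h2, h8] at h; omega
    · rw [h1, h2, h8] at h; omega
  · exact t16 y z hy hz h1 (h.symm.trans h1)
  · obtain ⟨k, k1, k2⟩ := H7.T8b.trans (g • y) (g • z) ((e y _).1 ⟨hy, h1⟩) ((e z _).1 ⟨hz, h.symm.trans h1⟩)
    exact back y z ⟨k, k1 vU (by unfold H7.T8b.V; simp), k1 vY (by unfold H7.T8b.V; simp), k2⟩
  · obtain ⟨k, k1, k2, k3⟩ := t16 (-v - y) (-v - z) (om_dual hv hy) (om_dual hv hz)
      (by rw [dt_dual hw, h1]; norm_num) (by rw [dt_dual hw, ← h, h1]; norm_num)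
    refine ⟨k, k1, k2, ?_⟩
    rw [smul_sub'', smul_neg'', k1] at k3
    exact sub_right_injective k3

section co2

/-- `Co2` -/
noncomputable abbrev G2 : Subgroup Co0 := MulAction.stabilizer Co0 vA

theorem g2_smul (g : G2) : (g : Co0) • vA = vA := g.2

/-- the element of order 23 in `Co2` -/
noncomputable def t2 : G2 := ⟨tt, tt_vA⟩

theorem orderOf_t2 : orderOf t2 = 23 := by
  rw [← orderOf_tt]
  exact (Subgroup.orderOf_mk tt tt_vA)

theorem cent_t2 (g : G2) (h : g * t2 = t2 * g) : g ∈ Subgroup.zpowers t2 := by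
  have h1 : (g : Co0) * tt = tt * g := congrArg Subtype.val h
  obtain ⟨k, hk⟩ := cent_of_fix (by norm_num) nm_vA tt_vA g.2 h1
  rw [Subgroup.mem_zpowers_iff]
  refine ⟨k, Subtype.ext ?_⟩
  rw [zpow_natCast]
  exact hk.symm

/-- four at infinity, minus four at a point -/
def M4 (j : ZMod 23) : leechLattice :=
  ⟨_, (memA (show (none : GolayPt) ≠ some j by simp) (a := 4) (b := -4) (Or.inl rfl) (Or.inr rfl)).1⟩

theorem M4_nm (j : ZMod 23) : Nm (M4 j) = 32 :=
  (memA (show (none : GolayPt) ≠ some j by simp) (Or.inl rfl) (Or.inr rfl)).2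

theorem two_M4 (j : ZMod 23) : (2 : ℤ) • M4 j = O8 none - O8 (some j) := by
  apply Subtype.ext
  show (2 : ℤ) • (Pi.single none 4 + Pi.single (some j) (-4) : GolayPt → ℤ) = Pi.single none 8 - Pi.single (some j) 8
  rw [smul_add, ← Pi.single_smul, ← Pi.single_smul, sub_eq_add_neg, ← Pi.single_neg]
  norm_num

theorem M4_mem (j : ZMod 23) : M4 j ∈ Om vA := by
  refine ⟨M4_nm j, ?_⟩
  have h1 : 2 * Dt (M4 j) vA = Dt (O8 none) vA - Dt (O8 (some j)) vA := by
    rw [← dt_sub, ← two_M4 j, two_smul, dt_add]; ring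
  rw [dt_O8, dt_O8, vA_apply, vA_apply, if_pos rfl, if_neg (by simp)] at h1
  omega

theorem ten_O8 : (10 : ℤ) • O8 none = (∑ j : ZMod 23, M4 j) + (4 : ℤ) • vA := by
  apply Subtype.ext
  funext i
  rw [AddSubgroup.coe_zsmul, AddSubgroup.coe_add, AddSubgroup.coe_zsmul, AddSubmonoidClass.coe_finsetSum]
  rw [Pi.add_apply, Pi.smul_apply, Pi.smul_apply, Finset.sum_apply, O8_coe, vA_apply]
  have h1 : ∀ j : ZMod 23, (M4 j : GolayPt → ℤ) i =
      (Pi.single none 4 : GolayPt → ℤ) i + (Pi.single (some j) (-4) : GolayPt → ℤ) i := fun j => rfl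
  simp only [h1, smul_eq_mul]
  cases i with
  | none =>
    simp only [Pi.single_eq_same, if_true]
    have h2 : ∀ j : ZMod 23, (4 : ℤ) + (Pi.single (some j) (-4) : GolayPt → ℤ) none = 4 := by
      intro j
      rw [Pi.single_eq_of_ne (by simp)]; norm_num
    rw [Finset.sum_congr rfl fun j _ => h2 j, Finset.sum_const, show (Finset.univ : Finset (ZMod 23)).card = 23 from rfl]
    norm_num
  | some k =>
    have h2 : ∀ j : ZMod 23, (Pi.single none 4 : GolayPt → ℤ) (some k) + (Pi.single (some j) (-4) : GolayPt → ℤ) (some k) =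
        if k = j then -4 else 0 := by
      intro j
      rw [Pi.single_eq_of_ne (by simp), zero_add, Pi.single_apply]
      simp
    rw [Pi.single_eq_of_ne (by simp), if_neg (by simp), Finset.sum_congr rfl fun j _ => h2 j, Finset.sum_ite_eq,
      if_pos (Finset.mem_univ _)]
    norm_num

theorem triv_of_fix2 {g : Co0} (h1 : g • vA = vA) (h2 : ∀ j : ZMod 23, g • M4 j = M4 j) : g = 1 := by
  have h3 : g • O8 none = O8 none := by
    apply zsmul_inj (n := 10) (by norm_num)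
    rw [← smul_zsmul'', ten_O8, smul_add'', smul_zsmul'', h1, Finset.smul_sum]
    congr 1
    exact Finset.sum_congr rfl fun j _ => h2 j
  apply ext8
  intro i
  rw [one_smul]
  cases i with
  | none => exact h3
  | some j =>
    have h4 := h2 j
    have h5 : (2 : ℤ) • (g • M4 j) = g • (O8 none - O8 (some j)) := by
      rw [← smul_zsmul'', two_M4]
    rw [h4, two_M4, smul_sub'', h3] at h5
    exact (sub_right_injective h5).symm

theorem orbit_g2 : MulAction.orbit G2 (M4 0) = Om vA := by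
  ext y
  constructor
  · rintro ⟨g, rfl⟩
    refine ⟨(nm_smul g (M4 0)).trans (M4_nm 0), ?_⟩
    have h := dt_smul (g : Co0) (M4 0) vA
    rw [g2_smul] at h
    exact h.trans (M4_mem 0).2
  · rintro ⟨h1, h2⟩
    obtain ⟨g, g1, g2⟩ := pair_m16 vA (M4 0) vA y nm_vA nm_vA (M4_nm 0) h1 (M4_mem 0).2 h2
    exact ⟨⟨g, g1⟩, g2⟩

/-- the numbers -/
def c2 (k : ℤ) : ℕ := if k = 32 then 1 else if k = -16 then 1 else if k = 8 then 2816 else 891

/-- the values -/
def L2s : Finset ℤ := {32, -16, 16, 8, 0}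

theorem cnt2 (k : ℤ) (hk : k ∈ L2s) : {y | y ∈ MulAction.orbit G2 (M4 0) ∧ Dt y (M4 0) = k}.ncard = c2 k := by
  rw [orbit_g2]
  have hw := M4_mem 0
  obtain ⟨h0, h8⟩ := om_self hw
  obtain ⟨a1, a2, a3⟩ := cnt_om vA (M4 0) nm_vA hw
  simp only [L2s, Finset.mem_insert, Finset.mem_singleton] at hk
  rcases hk with rfl | rfl | rfl | rfl | rfl
  · have : {y | y ∈ Om vA ∧ Dt y (M4 0) = 32} = {M4 0} := by
      ext y
      rw [Set.mem_ofPred_eq, Set.mem_singleton_iff]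
      constructor
      · rintro ⟨h1, h2⟩
        rcases om_dots nm_vA h1 hw with h | h | h | h | h
        · exact h
        · rw [h, h8] at h2; norm_num at h2
        · omega
        · omega
        · omega
      · rintro rfl
        exact ⟨hw, h0⟩
    rw [this, Set.ncard_singleton]; rfl
  · have : {y | y ∈ Om vA ∧ Dt y (M4 0) = -16} = {-vA - M4 0} := by
      ext y
      rw [Set.mem_ofPred_eq, Set.mem_singleton_iff]
      constructor
      · rintro ⟨h1, h2⟩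
        rcases om_dots nm_vA h1 hw with h | h | h | h | h
        · rw [h, h0] at h2; norm_num at h2
        · exact h
        · omega
        · omega
        · omega
      · rintro rfl
        exact ⟨om_dual nm_vA hw, h8⟩
    rw [this, Set.ncard_singleton]; rfl
  · exact a1
  · exact a2
  · exact a3

theorem tr2 (y z : leechLattice) (hy : y ∈ MulAction.orbit G2 (M4 0)) (hz : z ∈ MulAction.orbit G2 (M4 0))
    (h : Dt y (M4 0) = Dt z (M4 0)) : ∃ g : G2, g • M4 0 = M4 0 ∧ g • y = z := by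
  rw [orbit_g2] at hy hz
  obtain ⟨g, g1, g2, g3⟩ := tr_om vA (M4 0) y z nm_vA (M4_mem 0) hy hz h
  exact ⟨⟨g, g1⟩, g2, g3⟩

theorem card_G2 : Nat.card G2 = 42305421312000 := card_stab32 vA nm_vA

theorem val2 (y : leechLattice) (hy : y ∈ MulAction.orbit G2 (M4 0)) : Dt y (M4 0) ∈ L2s := by
  rw [orbit_g2] at hy
  obtain ⟨h0, h8⟩ := om_self (M4_mem 0)
  simp only [L2s, Finset.mem_insert, Finset.mem_singleton]
  rcases om_dots nm_vA hy (M4_mem 0) with h | h | h | h | h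
  · left; rw [h, h0]
  · right; left; rw [h, h8]
  · right; right; left; exact h
  · right; right; right; left; exact h
  · right; right; right; right; exact h

theorem blk2 (H : Subgroup G2) (hH : MulAction.stabilizer G2 (M4 0) ≤ H) : ∃ S ⊆ L2s,
    (∀ y ∈ MulAction.orbit G2 (M4 0), (y ∈ MulAction.orbit H (M4 0) ↔ Dt y (M4 0) ∈ S)) ∧
      (MulAction.orbit H (M4 0)).ncard = ∑ k ∈ S, c2 k ∧ ∑ k ∈ S, c2 k ∣ 4600 := by
  have hfin : (MulAction.orbit G2 (M4 0)).Finite := by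
    rw [orbit_g2]; exact (finite_nm 32).subset fun y hy => hy.1
  obtain ⟨S, hS, hS1, hS2, hS3⟩ := block (M4 0) H hH hfin (fun y => Dt y (M4 0)) L2s val2 (fun y hy z hz h => tr2 y z hy hz h)
  rw [Finset.sum_congr rfl fun k hk => cnt2 k (hS hk)] at hS2
  have h4600 : (MulAction.orbit G2 (M4 0)).ncard = 4600 := by
    rw [orbit_g2]; exact cnt_m16 vA nm_vA
  rw [hS2, h4600] at hS3
  exact ⟨S, hS, hS1, hS2, hS3⟩

theorem co2_div (N : Subgroup G2) (hN : N.Normal) (hne : N ≠ ⊥) : 23 ∣ Nat.card N := by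
  by_contra hnd
  apply hne
  have hmod := card_normal_modEq 23 t2 orderOf_t2 cent_t2 N hnd
  have hw := M4_mem 0
  obtain ⟨h0, h8⟩ := om_self hw
  obtain ⟨S, hS, hS1, hS2, hS3⟩ := blk2 (N ⊔ MulAction.stabilizer G2 (M4 0)) le_sup_right
  rw [orbit_normal_sup] at hS2
  have hnd2 : ¬ 23 ∣ ∑ k ∈ S, c2 k := by
    rw [← hS2, ← MulAction.index_stabilizer]
    exact fun h => hnd (h.trans (Subgroup.index_dvd_card _))
  have hS4 : (16 : ℤ) ∉ S ∧ (8 : ℤ) ∉ S ∧ (0 : ℤ) ∉ S := by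
    have : ∀ S ∈ L2s.powerset, (∑ k ∈ S, c2 k) ∣ 4600 → ¬ 23 ∣ ∑ k ∈ S, c2 k →
        ((16 : ℤ) ∉ S ∧ (8 : ℤ) ∉ S ∧ (0 : ℤ) ∉ S) ∨ ∑ k ∈ S, c2 k = 0 := by decide +kernel
    rcases this S (Finset.mem_powerset.2 hS) hS3 hnd2 with h | h
    · exact h
    · exfalso; rw [h] at hS3; norm_num at hS3
  -- the orbits of `N`
  have horb : ∀ n ∈ N, n • M4 0 = M4 0 ∨ n • M4 0 = -vA - M4 0 := by
    intro n hn
    have h1 : n • M4 0 ∈ MulAction.orbit G2 (M4 0) := ⟨n, rfl⟩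
    have h2 : n • M4 0 ∈ MulAction.orbit ↥(N ⊔ MulAction.stabilizer G2 (M4 0)) (M4 0) := by
      rw [orbit_normal_sup]; exact ⟨⟨n, hn⟩, rfl⟩
    have h3 := (hS1 _ h1).1 h2
    rw [orbit_g2] at h1
    rcases om_dots nm_vA h1 hw with h | h | h | h | h
    · exact Or.inl h
    · exact Or.inr h
    · rw [h] at h3; exact absurd h3 hS4.1
    · rw [h] at h3; exact absurd h3 hS4.2.1
    · rw [h] at h3; exact absurd h3 hS4.2.2
  have horb' : ∀ n ∈ N, ∀ w ∈ Om vA, n • w = w ∨ n • w = -vA - w := by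
    intro n hn w hw
    have h1 : w ∈ MulAction.orbit G2 (M4 0) := by rw [orbit_g2]; exact hw
    obtain ⟨g, rfl⟩ := h1
    have h2 := horb _ (hN.conj_mem n hn g⁻¹)
    rw [inv_inv, mul_smul, mul_smul] at h2
    rcases h2 with h2 | h2
    · left
      exact (inv_smul_eq_iff.1 h2)
    · right
      have h3 := inv_smul_eq_iff.1 h2
      rw [h3]
      show (g : Co0) • (-vA - M4 0) = _
      rw [smul_sub'', smul_neg'', g2_smul]
      rfl
  -- fixing one vector is fixing its neighbours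
  have hnb : ∀ n ∈ N, ∀ w ∈ Om vA, ∀ x ∈ Om vA, Dt x w = 16 → n • w = w → n • x = x := by
    intro n hn w hw x hx hd hnw
    rcases horb' n hn x hx with h | h
    · exact h
    · exfalso
      have h1 : Dt (n • x) (n • w) = Dt x w := dt_smul _ _ _
      rw [hnw, h, dt_dual hw, hd] at h1
      norm_num at h1
  let K : Subgroup G2 := N ⊓ MulAction.stabilizer G2 (M4 0)
  have hKH : MulAction.stabilizer G2 (M4 0) ≤ Subgroup.normalizer (K : Set G2) := by
    intro g hg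
    rw [Subgroup.mem_normalizer_iff]
    intro n
    constructor
    · rintro ⟨h1, h2⟩
      have h2' : n ∈ MulAction.stabilizer G2 (M4 0) := h2
      have h3' : g * n * g⁻¹ ∈ MulAction.stabilizer G2 (M4 0) := mul_mem (mul_mem hg h2') (inv_mem hg)
      exact ⟨hN.conj_mem n h1 g, h3'⟩
    · rintro ⟨h1, h2⟩
      have h2' : g * n * g⁻¹ ∈ MulAction.stabilizer G2 (M4 0) := h2
      have h3 := hN.conj_mem _ h1 g⁻¹
      have h4 := mul_mem (mul_mem (inv_mem hg) h2') hg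
      rw [inv_inv] at h3
      have e : g⁻¹ * (g * n * g⁻¹) * g = n := by group
      rw [e] at h3 h4
      exact ⟨h3, h4⟩
  obtain ⟨S', hS', hS1', hS2', hS3'⟩ := blk2 (Subgroup.normalizer (K : Set G2)) hKH
  have h16 : (16 : ℤ) ∈ S' := by
    obtain ⟨a1, _, _⟩ := cnt_om vA (M4 0) nm_vA hw
    have hne' : {y | y ∈ Om vA ∧ Dt y (M4 0) = 16}.Nonempty := Set.nonempty_of_ncard_ne_zero (by rw [a1]; norm_num)
    obtain ⟨x, hx, hd⟩ := hne'
    have hxo : x ∈ MulAction.orbit G2 (M4 0) := by rw [orbit_g2]; exact hx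
    have := (hS1' x hxo).1 (by
      obtain ⟨g, hg⟩ := hxo
      have hg' : g • M4 0 = x := hg
      refine ⟨⟨g, ?_⟩, hg⟩
      rw [Subgroup.mem_normalizer_iff]
      -- `n` fixes `w` iff it fixes `g⁻¹ w`
      have hy : g⁻¹ • M4 0 ∈ Om vA := by rw [← orbit_g2]; exact ⟨g⁻¹, rfl⟩
      have hyd : Dt (g⁻¹ • M4 0) (M4 0) = 16 := by
        have h1 : Dt (g • (g⁻¹ • M4 0)) (g • M4 0) = Dt (g⁻¹ • M4 0) (M4 0) := dt_smul _ _ _
        rw [smul_inv_smul, hg', dt_comm, hd] at h1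
        exact h1.symm
      intro n
      constructor
      · rintro ⟨h1, h2⟩
        refine ⟨hN.conj_mem n h1 g, ?_⟩
        have h2' : n • M4 0 = M4 0 := h2
        show (g * n * g⁻¹) • M4 0 = M4 0
        rw [mul_smul, mul_smul, hnb n h1 (M4 0) hw _ hy hyd h2', smul_inv_smul]
      · rintro ⟨h1, h2⟩
        have h3 := hN.conj_mem _ h1 g⁻¹
        have e : g⁻¹ * (g * n * g⁻¹) * g⁻¹⁻¹ = n := by group
        rw [e] at h3
        refine ⟨h3, ?_⟩
        have h2' : (g * n * g⁻¹) • M4 0 = M4 0 := h2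
        show n • M4 0 = M4 0
        rw [mul_smul, mul_smul] at h2'
        have h4 : n • (g⁻¹ • M4 0) = g⁻¹ • M4 0 := by
          rw [← smul_left_cancel_iff g, h2', smul_inv_smul]
        exact hnb n h3 _ hy (M4 0) hw (by rw [dt_comm]; exact hyd) h4)
    rwa [hd] at this
  have h32 : (32 : ℤ) ∈ S' := by
    have := (hS1' (M4 0) ⟨1, one_smul _ _⟩).1 ⟨1, one_smul _ _⟩
    rwa [h0] at this
  have hall : S' = L2s := by
    have : ∀ S ∈ L2s.powerset, (∑ k ∈ S, c2 k) ∣ 4600 → (16 : ℤ) ∈ S → (32 : ℤ) ∈ S → S = L2s := by decide +kernel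
    exact this S' (Finset.mem_powerset.2 hS') hS3' h16 h32
  have hstab : MulAction.stabilizer N (M4 0) = ⊥ := by
    rw [eq_bot_iff]
    intro n hn
    rw [MulAction.mem_stabilizer_iff] at hn
    rw [Subgroup.mem_bot]
    apply Subtype.ext
    apply Subtype.ext
    have hnK : (n : G2) ∈ K := ⟨n.2, hn⟩
    apply triv_of_fix2 (g2_smul n)
    intro j
    have hj : M4 j ∈ MulAction.orbit G2 (M4 0) := by rw [orbit_g2]; exact M4_mem j
    have hj2 : M4 j ∈ MulAction.orbit (Subgroup.normalizer (K : Set G2)) (M4 0) := by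
      rw [hS1' _ hj, hall]; exact val2 _ hj
    obtain ⟨⟨h, hh⟩, hhj⟩ := hj2
    have hhj' : h • M4 0 = M4 j := hhj
    have h5 : h⁻¹ * n * h ∈ K := by
      have := (Subgroup.mem_normalizer_iff.1 (inv_mem hh) (n : G2)).1 hnK
      rwa [inv_inv] at this
    have h6 : (h⁻¹ * n * h) • M4 0 = M4 0 := h5.2
    rw [mul_smul, mul_smul, hhj', inv_smul_eq_iff, hhj'] at h6
    exact h6
  have hcard := card_of_trivial_stab (M4 0) hstab
  have h5 : (MulAction.orbit N (M4 0)).ncard ≤ 2 := by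
    have h6 : MulAction.orbit N (M4 0) ⊆ {M4 0, -vA - M4 0} := by
      rintro _ ⟨n, rfl⟩
      exact horb n n.2
    refine (Set.ncard_le_ncard h6 (Set.toFinite _)).trans (Set.ncard_insert_le _ _ |>.trans ?_)
    rw [Set.ncard_singleton]
  have h7 : Nat.card N = 1 := by
    have h8 : Nat.card N ≤ 2 := by rw [hcard]; exact h5
    have h9 : Nat.card N % 23 = 1 % 23 := hmod
    omega
  exact Subgroup.card_eq_one.1 h7

theorem co2_simple : IsSimpleGroup G2 := by
  refine simple_crit 23 11 1839366144000 (by norm_num) t2 orderOf_t2 cent_t2 (by rw [card_G2]) (by norm_num) ?_ (by norm_num)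
    co2_div
  intro k hk _ h
  have h1 : k ∈ Nat.divisors 22 := Nat.mem_divisors.2 ⟨hk, by norm_num⟩
  have h2 : Nat.divisors 22 = {1, 2, 11, 22} := by decide +kernel
  rw [h2] at h1
  simp only [Finset.mem_insert, Finset.mem_singleton] at h1
  rcases h1 with rfl | rfl | rfl | rfl
  · norm_num at h
  · norm_num at h
  · rfl
  · norm_num at h

end co2

end Cfsg.Agent.H7.CoS2
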