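import Mathlib
import Cfsg.Agent.H7_CoS2

set_option autoImplicit false

/-!
Simplicity of `Co1`.
-/

namespace Cfsg.Agent.H7.CoS1

open Cfsg Cfsg.Agent.H7.Golay Cfsg.Agent.H7.Oct Cfsg.Agent.H7.L1 Cfsg.Agent.H7.L2 Cfsg.Agent.H7.L3 Cfsg.Agent.H7.L4 Cfsg.Agent.H7.L5
  Cfsg.Agent.H7.L6 Cfsg.Agent.H7.L7 Cfsg.Agent.H7.L8 Cfsg.Agent.H7.L9 Cfsg.Agent.H7.L10 Cfsg.Agent.H7.L11 Cfsg.Agent.H7.LV
  Cfsg.Agent.H7.LV8 Cfsg.Agent.H7.Co Cfsg.Agent.H7.Co2 Cfsg.Agent.H7.Co3 Cfsg.Agent.H7.Co4 Cfsg.Agent.H7.Co5 Cfsg.Agent.H7.Co6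
  Cfsg.Agent.H7.CoT Cfsg.Agent.H7.Crit Cfsg.Agent.H7.CoS Cfsg.Agent.H7.CoS2
open scoped Pointwise

/-- suborbits of `Co0` on the minimal vectors -/
theorem tr0 (v y z : leechLattice) (hv : Nm v = 32) (hy : Nm y = 32) (hz : Nm z = 32) (h : Dt y v = Dt z v) :
    ∃ g : Co0, g • v = v ∧ g • y = z := by
  have self : Dt v v = 32 := by rw [dt_self]; exact hv
  have nself : Dt (-v) v = -32 := by rw [dt_neg, self]
  have neg : ∀ y z : leechLattice, (∃ g : Co0, g • v = v ∧ g • (-y) = -z) → ∃ g : Co0, g • v = v ∧ g • y = z := by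
    rintro y z ⟨g, g1, g2⟩
    rw [smul_neg''] at g2
    exact ⟨g, g1, neg_injective g2⟩
  have hy' := (nm_neg y).trans hy
  have hz' := (nm_neg z).trans hz
  rcases dots32 hy hv with h1 | h1 | h1 | h1 | h1 | h1 | h1
  · rcases dots32 hz hv with h2 | h2 | h2 | h2 | h2 | h2 | h2
    · exact ⟨1, one_smul _ _, by rw [one_smul, h1, h2]⟩
    · rw [h1, h2, self, nself] at h; omega
    all_goals (rw [h1, self, h2] at h; omega)
  · rcases dots32 hz hv with h2 | h2 | h2 | h2 | h2 | h2 | h2
    · rw [h1, h2, self, nself] at h; omega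
    · exact ⟨1, one_smul _ _, by rw [one_smul, h1, h2]⟩
    all_goals (rw [h1, nself, h2] at h; omega)
  · exact neg y z (pair_m16 v (-y) v (-z) hv hv hy' hz' (by rw [dt_neg, h1]) (by rw [dt_neg, ← h, h1]))
  · exact neg y z (pair_m8 v (-y) v (-z) hv hv hy' hz' (by rw [dt_neg, h1]) (by rw [dt_neg, ← h, h1]))
  · exact pair_0 v y v z hv hv hy hz h1 (h.symm.trans h1)
  · exact pair_m8 v y v z hv hv hy hz h1 (h.symm.trans h1)
  · exact pair_m16 v y v z hv hv hy hz h1 (h.symm.trans h1)

/-- the numbers -/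
def c0 (k : ℤ) : ℕ := if k = 32 then 1 else if k = -32 then 1 else if k = 16 then 4600 else if k = -16 then 4600 else
  if k = 8 then 47104 else if k = -8 then 47104 else 93150

/-- the values -/
def L0s : Finset ℤ := {32, -32, 16, -16, 8, -8, 0}

theorem cnt_neg (v : leechLattice) (k : ℤ) : {y : leechLattice | Nm y = 32 ∧ Dt y v = k}.ncard =
    {y : leechLattice | Nm y = 32 ∧ Dt y v = -k}.ncard := by
  rw [← Set.ncard_image_of_injective {y : leechLattice | Nm y = 32 ∧ Dt y v = k} neg_injective]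
  congr 1
  ext y
  constructor
  · rintro ⟨z, ⟨h1, h2⟩, rfl⟩
    exact ⟨(nm_neg z).trans h1, by rw [dt_neg, h2]⟩
  · rintro ⟨h1, h2⟩
    exact ⟨-y, ⟨(nm_neg y).trans h1, by rw [dt_neg, h2, neg_neg]⟩, neg_neg y⟩

theorem cnt0 (v : leechLattice) (hv : Nm v = 32) (k : ℤ) (hk : k ∈ L0s) :
    {y | y ∈ MulAction.orbit Co0 v ∧ Dt y v = k}.ncard = c0 k := by
  rw [orbit32 v hv]
  have e : {y | y ∈ {y : leechLattice | Nm y = 32} ∧ Dt y v = k} = {y : leechLattice | Nm y = 32 ∧ Dt y v = k} := rfl
  rw [e]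
  have self : Dt v v = 32 := by rw [dt_self]; exact hv
  have nself : Dt (-v) v = -32 := by rw [dt_neg, self]
  simp only [L0s, Finset.mem_insert, Finset.mem_singleton] at hk
  have h32 : {y : leechLattice | Nm y = 32 ∧ Dt y v = 32}.ncard = 1 := by
    have : {y : leechLattice | Nm y = 32 ∧ Dt y v = 32} = {v} := by
      ext y
      rw [Set.mem_ofPred_eq, Set.mem_singleton_iff]
      constructor
      · rintro ⟨h1, h2⟩
        rcases dots32 h1 hv with h | h | h | h | h | h | h
        · exact h
        · rw [h, nself] at h2; norm_num at h2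
        all_goals omega
      · rintro rfl
        exact ⟨hv, self⟩
    rw [this, Set.ncard_singleton]
  rcases hk with rfl | rfl | rfl | rfl | rfl | rfl | rfl
  · exact h32
  · rw [cnt_neg, neg_neg]; exact h32
  · rw [cnt_neg]; exact cnt_m16 v hv
  · exact cnt_m16 v hv
  · rw [cnt_neg]; exact cnt_m8 v hv
  · exact cnt_m8 v hv
  · exact cnt_0 v hv

theorem val0 (v : leechLattice) (hv : Nm v = 32) (y : leechLattice) (hy : y ∈ MulAction.orbit Co0 v) : Dt y v ∈ L0s := by
  rw [orbit32 v hv] at hy
  simp only [L0s, Finset.mem_insert, Finset.mem_singleton]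
  have self : Dt v v = 32 := by rw [dt_self]; exact hv
  rcases dots32 hy hv with h | h | h | h | h | h | h
  · left; rw [h, self]
  · right; left; rw [h, dt_neg, self]
  · right; right; left; exact h
  · right; right; right; right; left; exact h
  · right; right; right; right; right; right; exact h
  · right; right; right; right; right; left; exact h
  · right; right; right; left; exact h

/-- a normal subgroup containing `-1` is central or everything -/
theorem normal_co0 (M : Subgroup Co0) (hM : M.Normal) (hm1 : m1 ∈ M) : M ≤ Subgroup.center Co0 ∨ M = ⊤ := by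
  have hself : Dt vA vA = 32 := by rw [dt_self]; exact nm_vA
  obtain ⟨S, hS, hS1, hS2, hS3⟩ := block vA (M ⊔ MulAction.stabilizer Co0 vA) le_sup_right
    (by rw [orbit32 vA nm_vA]; exact finite_nm 32) (fun y => Dt y vA) L0s (val0 vA nm_vA) (fun y hy z hz h => by
      rw [orbit32 vA nm_vA] at hy hz
      exact tr0 vA y z nm_vA hy hz h)
  rw [Finset.sum_congr rfl fun k hk => cnt0 vA nm_vA k (hS hk)] at hS2
  have h0 : (MulAction.orbit Co0 vA).ncard = 196560 := by rw [orbit32 vA nm_vA, cnt32]
  rw [hS2, h0] at hS3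
  have horb : ∀ y, y ∈ MulAction.orbit Co0 vA → (y ∈ MulAction.orbit M vA ↔ Dt y vA ∈ S) := by
    intro y hy
    rw [← hS1 y hy, orbit_normal_sup]
  have h32 : (32 : ℤ) ∈ S := by
    have := (horb vA ⟨1, one_smul _ _⟩).1 ⟨1, one_smul _ _⟩
    rwa [hself] at this
  have hm32 : (-32 : ℤ) ∈ S := by
    have h1 : -vA ∈ MulAction.orbit Co0 vA := ⟨m1, m1_smul vA⟩
    have := (horb (-vA) h1).1 ⟨⟨m1, hm1⟩, m1_smul vA⟩
    rwa [dt_neg, hself] at this
  have hcases : S = {32, -32} ∨ S = L0s := by
    have : ∀ S ∈ L0s.powerset, (∑ k ∈ S, c0 k) ∣ 196560 → (32 : ℤ) ∈ S → (-32 : ℤ) ∈ S → S = {32, -32} ∨ S = L0s := by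
      decide +kernel
    exact this S (Finset.mem_powerset.2 hS) hS3 h32 hm32
  rcases hcases with hc | hc
  · left
    have hpm : ∀ m ∈ M, ∀ w, Nm w = 32 → m • w = w ∨ m • w = -w := by
      have h1 : ∀ m ∈ M, m • vA = vA ∨ m • vA = -vA := by
        intro m hm
        have h2 : m • vA ∈ MulAction.orbit Co0 vA := ⟨m, rfl⟩
        have h3 := (horb _ h2).1 ⟨⟨m, hm⟩, rfl⟩
        rw [hc] at h3
        rcases dots32 ((nm_smul m vA).trans nm_vA) nm_vA with h | h | h | h | h | h | h
        · exact Or.inl h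
        · exact Or.inr h
        all_goals (rw [h] at h3; exact absurd h3 (by decide))
      intro m hm w hw
      obtain ⟨g, rfl⟩ := trans32 vA w nm_vA hw
      rcases h1 _ (hM.conj_mem m hm g⁻¹) with h2 | h2
      · left
        rw [inv_inv, mul_smul, mul_smul, inv_smul_eq_iff] at h2
        exact h2
      · right
        rw [inv_inv, mul_smul, mul_smul, inv_smul_eq_iff, smul_neg''] at h2
        exact h2
    have key : ∀ m ∈ M, m • vA = vA → m = 1 := by
      intro m hm h1
      apply triv_of_fix2 h1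
      intro j
      rcases hpm m hm (M4 j) (M4_nm j) with h2 | h2
      · exact h2
      · exfalso
        have h3 := dt_smul m (M4 j) vA
        rw [h1, h2, dt_neg, (M4_mem j).2] at h3
        norm_num at h3
    intro m hm
    rw [center_eq]
    rcases hpm m hm vA nm_vA with h1 | h1
    · left; exact key m hm h1
    · right
      have h2 := key (m1 * m) (mul_mem hm1 hm) (by rw [mul_smul, h1, m1_smul, neg_neg])
      have h3 : m1 * (m1 * m) = m1 := by rw [h2, mul_one]
      rwa [← mul_assoc, m1_sq, one_mul] at h3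
  · right
    have htrans : ∀ w, Nm w = 32 → ∃ m ∈ M, m • vA = w := by
      intro w hw
      have h1 : w ∈ MulAction.orbit Co0 vA := by rw [orbit32 vA nm_vA]; exact hw
      obtain ⟨m, hm⟩ := (horb w h1).2 (by rw [hc]; exact val0 vA nm_vA w h1)
      exact ⟨m, m.2, hm⟩
    have hsn : (M.subgroupOf G2).Normal := hM.subgroupOf _
    rcases co2_simple.eq_bot_or_eq_top_of_normal _ hsn with hb | ht
    · exfalso
      have htriv : ∀ m ∈ M, m • vA = vA → m = 1 := by
        intro m hm h1
        have h2 : (⟨m, h1⟩ : G2) ∈ M.subgroupOf G2 := hm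
        rw [hb, Subgroup.mem_bot] at h2
        exact congrArg Subtype.val h2
      have hreg : ∀ a ∈ M, ∀ b ∈ M, a • vA = b • vA → a = b := by
        intro a ha b hb h
        have h1 := htriv (b⁻¹ * a) (mul_mem (inv_mem hb) ha) (by rw [mul_smul, h, inv_smul_smul])
        exact (inv_mul_eq_one.1 h1).symm
      have hcard : Nat.card M = 196560 := by
        have h1 : MulAction.stabilizer M vA = ⊥ := by
          rw [eq_bot_iff]
          intro m hm
          rw [Subgroup.mem_bot]
          exact Subtype.ext (htriv m m.2 hm)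
        rw [card_of_trivial_stab vA h1, ← h0]
        congr 1
        ext y
        constructor
        · rintro ⟨m, rfl⟩; exact ⟨m, rfl⟩
        · intro hy
          rw [orbit32 vA nm_vA] at hy
          obtain ⟨m, hm, h2⟩ := htrans y hy
          exact ⟨⟨m, hm⟩, h2⟩
      -- elements of four prime orders
      have hex : ∀ q : ℕ, q.Prime → q ∣ 196560 → ∃ a ∈ M, orderOf a = q := by
        intro q hq hd
        have : Fact q.Prime := ⟨hq⟩
        rw [← hcard] at hd
        obtain ⟨a, ha⟩ := exists_prime_orderOf_dvd_card' q hd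
        exact ⟨a, a.2, by rw [Subgroup.orderOf_coe]; exact ha⟩
      have hm1c : ∀ g : Co0, m1 * g = g * m1 := fun g =>
        (Subgroup.mem_center_iff.1 ((center_eq m1).2 (Or.inr rfl)) g).symm
      -- equal values imply equal orders
      have hcomp : ∀ a ∈ M, ∀ b ∈ M, ∀ q q' : ℕ, q.Prime → q'.Prime → q ≠ 2 → q' ≠ 2 → orderOf a = q → orderOf b = q' →
          |Dt (a • vA) vA| = |Dt (b • vA) vA| → q = q' := by
        intro a ha b hb q q' hq hq' h2 h2' hoa hob hd
        have h3 : ∀ b' ∈ M, Dt (a • vA) vA = Dt (b' • vA) vA → ∃ g : Co0, g * a * g⁻¹ = b' := by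
          intro b' hb' h4
          obtain ⟨g, g1, g2⟩ := tr0 vA (a • vA) (b' • vA) nm_vA ((nm_smul a vA).trans nm_vA) ((nm_smul b' vA).trans nm_vA) h4
          refine ⟨g, hreg _ (hM.conj_mem a ha g) b' hb' ?_⟩
          rw [mul_smul, mul_smul, inv_smul_eq_iff.2 g1.symm, g2]
        rcases abs_eq_abs.1 hd with h4 | h4
        · obtain ⟨g, hg⟩ := h3 b hb h4
          rw [← hoa, ← hob, ← hg, H7.Simple.orderOf_conj']
        · have h5 : Dt (a • vA) vA = Dt ((m1 * b) • vA) vA := by
            rw [mul_smul, m1_smul, dt_neg]; exact h4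
          obtain ⟨g, hg⟩ := h3 (m1 * b) (mul_mem hm1 hb) h5
          have h6 : orderOf (m1 * b) = q := by rw [← hg, H7.Simple.orderOf_conj', hoa]
          have h7 : (m1 * b) ^ (2 * q) = 1 := by rw [mul_comm 2 q, pow_mul, ← h6, pow_orderOf_eq_one, one_pow]
          have h8 : (m1 * b) ^ (2 * q) = b ^ (2 * q) := by
            rw [(show Commute m1 b from hm1c b).mul_pow, pow_mul m1 2 q, pow_two, m1_sq, one_pow, one_mul]
          rw [h8] at h7
          have h9 := orderOf_dvd_of_pow_eq_one h7
          rw [hob] at h9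
          rcases (Nat.Prime.dvd_mul hq').1 h9 with h10 | h10
          · exact absurd ((Nat.prime_dvd_prime_iff_eq hq' Nat.prime_two).1 h10) h2'
          · exact ((Nat.prime_dvd_prime_iff_eq hq' hq).1 h10).symm
      have hval : ∀ a ∈ M, ∀ q : ℕ, q.Prime → q ≠ 2 → orderOf a = q →
          |Dt (a • vA) vA| = 16 ∨ |Dt (a • vA) vA| = 8 ∨ |Dt (a • vA) vA| = 0 := by
        intro a ha q hq h2 hoa
        rcases dots32 ((nm_smul a vA).trans nm_vA) nm_vA with h | h | h | h | h | h | h
        · exfalso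
          rw [htriv a ha h, orderOf_one] at hoa
          exact hq.one_lt.ne hoa
        · exfalso
          have h3 := hreg a ha m1 hm1 (by rw [h, m1_smul])
          rw [h3] at hoa
          have h4 : orderOf m1 ∣ 2 := orderOf_dvd_of_pow_eq_one (by rw [pow_two, m1_sq])
          rw [hoa] at h4
          exact h2 ((Nat.prime_dvd_prime_iff_eq hq Nat.prime_two).1 h4)
        all_goals (rw [h]; norm_num)
      obtain ⟨a, ha, hoa⟩ := hex 3 (by norm_num) (by norm_num)
      obtain ⟨b, hb, hob⟩ := hex 5 (by norm_num) (by norm_num)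
      obtain ⟨c, hcM, hoc⟩ := hex 7 (by norm_num) (by norm_num)
      obtain ⟨d, hd, hod⟩ := hex 13 (by norm_num) (by norm_num)
      have va := hval a ha 3 (by norm_num) (by norm_num) hoa
      have vb := hval b hb 5 (by norm_num) (by norm_num) hob
      have vc := hval c hcM 7 (by norm_num) (by norm_num) hoc
      have vd := hval d hd 13 (by norm_num) (by norm_num) hod
      have nab : |Dt (a • vA) vA| ≠ |Dt (b • vA) vA| := fun h => by
        have := hcomp a ha b hb 3 5 (by norm_num) (by norm_num) (by norm_num) (by norm_num) hoa hob h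
        omega
      have nac : |Dt (a • vA) vA| ≠ |Dt (c • vA) vA| := fun h => by
        have := hcomp a ha c hcM 3 7 (by norm_num) (by norm_num) (by norm_num) (by norm_num) hoa hoc h
        omega
      have nad : |Dt (a • vA) vA| ≠ |Dt (d • vA) vA| := fun h => by
        have := hcomp a ha d hd 3 13 (by norm_num) (by norm_num) (by norm_num) (by norm_num) hoa hod h
        omega
      have nbc : |Dt (b • vA) vA| ≠ |Dt (c • vA) vA| := fun h => by
        have := hcomp b hb c hcM 5 7 (by norm_num) (by norm_num) (by norm_num) (by norm_num) hob hoc h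
        omega
      have nbd : |Dt (b • vA) vA| ≠ |Dt (d • vA) vA| := fun h => by
        have := hcomp b hb d hd 5 13 (by norm_num) (by norm_num) (by norm_num) (by norm_num) hob hod h
        omega
      have ncd : |Dt (c • vA) vA| ≠ |Dt (d • vA) vA| := fun h => by
        have := hcomp c hcM d hd 7 13 (by norm_num) (by norm_num) (by norm_num) (by norm_num) hoc hod h
        omega
      generalize |Dt (a • vA) vA| = A at *
      generalize |Dt (b • vA) vA| = B at *
      generalize |Dt (c • vA) vA| = C at *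
      generalize |Dt (d • vA) vA| = D at *
      omega
    · rw [eq_top_iff]
      intro g _
      obtain ⟨m, hm, h1⟩ := htrans (g • vA) ((nm_smul g vA).trans nm_vA)
      have h2 : m⁻¹ * g ∈ G2 := by
        rw [MulAction.mem_stabilizer_iff, mul_smul, ← h1, inv_smul_smul]
      have h3 : (⟨m⁻¹ * g, h2⟩ : G2) ∈ M.subgroupOf G2 := by rw [ht]; exact Subgroup.mem_top _
      have h4 : m⁻¹ * g ∈ M := h3
      have := mul_mem hm h4
      rwa [mul_inv_cancel_left] at this

theorem co1_simple : IsSimpleGroup (Co0 ⧸ Subgroup.center Co0) := by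
  have hntr : Nontrivial (Co0 ⧸ Subgroup.center Co0) := by
    rw [← Finite.one_lt_card_iff_nontrivial]
    have h1 := Subgroup.card_eq_card_quotient_mul_card_subgroup (Subgroup.center Co0)
    rw [card_Co0, card_center] at h1
    omega
  refine ⟨fun N hN => ?_⟩
  have hMn : (N.comap (QuotientGroup.mk' (Subgroup.center Co0))).Normal := hN.comap _
  have hm1 : m1 ∈ N.comap (QuotientGroup.mk' (Subgroup.center Co0)) := by
    rw [Subgroup.mem_comap]
    have : QuotientGroup.mk' (Subgroup.center Co0) m1 = 1 := by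
      rw [QuotientGroup.mk'_apply, QuotientGroup.eq_one_iff]
      exact (center_eq m1).2 (Or.inr rfl)
    rw [this]
    exact one_mem _
  have hmap : (N.comap (QuotientGroup.mk' (Subgroup.center Co0))).map (QuotientGroup.mk' (Subgroup.center Co0)) = N :=
    Subgroup.map_comap_eq_self_of_surjective (QuotientGroup.mk'_surjective _) N
  rcases normal_co0 _ hMn hm1 with h | h
  · left
    rw [← hmap, Subgroup.map_eq_bot_iff, QuotientGroup.ker_mk']
    exact h
  · right
    rw [← hmap, h, Subgroup.map_top_of_surjective _ (QuotientGroup.mk'_surjective _)]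

end Cfsg.Agent.H7.CoS1
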