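import Mathlib
import Cfsg.Prelude.Def_Sporadic
import Cfsg.Agent.H7_CoS1
import Cfsg.Agent.H7_CoS3

set_option autoImplicit false

/-!
The Conway groups, `McL` and `HS`: transport to arbitrary vectors.
-/

namespace Cfsg.Agent.H7.CoF

open Cfsg Cfsg.Agent.H7.Golay Cfsg.Agent.H7.Oct Cfsg.Agent.H7.L1 Cfsg.Agent.H7.L2 Cfsg.Agent.H7.L3 Cfsg.Agent.H7.L4 Cfsg.Agent.H7.L5
  Cfsg.Agent.H7.L6 Cfsg.Agent.H7.L7 Cfsg.Agent.H7.L8 Cfsg.Agent.H7.L9 Cfsg.Agent.H7.L10 Cfsg.Agent.H7.L11 Cfsg.Agent.H7.LV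
  Cfsg.Agent.H7.LV8 Cfsg.Agent.H7.Co Cfsg.Agent.H7.Co2 Cfsg.Agent.H7.Co3 Cfsg.Agent.H7.Co4 Cfsg.Agent.H7.Co5 Cfsg.Agent.H7.Co6
  Cfsg.Agent.H7.Co7 Cfsg.Agent.H7.CoT Cfsg.Agent.H7.Crit Cfsg.Agent.H7.CoS Cfsg.Agent.H7.CoS1 Cfsg.Agent.H7.CoS2
  Cfsg.Agent.H7.CoM Cfsg.Agent.H7.CoS3 Cfsg.Agent.H7.M24c
open scoped Pointwise

theorem stab_iff (g : Co0) {a b : leechLattice} (h : g • a = b) (x : Co0) :
    x ∈ MulAction.stabilizer Co0 a ↔ g * x * g⁻¹ ∈ MulAction.stabilizer Co0 b := by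
  rw [MulAction.mem_stabilizer_iff, MulAction.mem_stabilizer_iff, ← h, mul_smul, mul_smul, inv_smul_smul]
  exact (smul_left_cancel_iff g).symm

theorem stab_equiv {a b : leechLattice} (h : ∃ g : Co0, g • a = b) :
    Nonempty (MulAction.stabilizer Co0 a ≃* MulAction.stabilizer Co0 b) := by
  obtain ⟨g, hg⟩ := h
  exact ⟨conjEquiv g _ _ fun x => stab_iff g hg x⟩

theorem inf_equiv {a b c d : leechLattice} (h : ∃ g : Co0, g • a = c ∧ g • b = d) :
    Nonempty (↥(MulAction.stabilizer Co0 a ⊓ MulAction.stabilizer Co0 b) ≃*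
      ↥(MulAction.stabilizer Co0 c ⊓ MulAction.stabilizer Co0 d)) := by
  obtain ⟨g, hg1, hg2⟩ := h
  exact ⟨conjEquiv g _ _ fun x => and_congr (stab_iff g hg1 x) (stab_iff g hg2 x)⟩

theorem transfer {G H : Type*} [Group G] [Group H] (h : Nonempty (G ≃* H)) (hs : IsSimpleGroup H) (n : ℕ)
    (hc : Nat.card H = n) : IsSimpleGroup G ∧ Nat.card G = n := by
  obtain ⟨e⟩ := h
  exact ⟨(MulEquiv.isSimpleGroup_congr e).2 hs, (Nat.card_congr e.toEquiv).trans hc⟩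

theorem isCo1 : IsCo1 (Co0 ⧸ Subgroup.center Co0) := by
  refine ⟨co1_simple, ?_⟩
  have h1 := Subgroup.card_eq_card_quotient_mul_card_subgroup (Subgroup.center Co0)
  rw [card_Co0, card_center] at h1
  omega

theorem isCo2 (v : leechLattice) (hv : Nm v = 32) : IsCo2 (MulAction.stabilizer Co0 v) :=
  transfer (stab_equiv (trans32 v vA hv nm_vA)) co2_simple _ card_G2

theorem isCo3 (v : leechLattice) (hv : Nm v = 48) : IsCo3 (MulAction.stabilizer Co0 v) :=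
  transfer (stab_equiv (trans48 v vE hv nm_vE)) co3_simple _ card_G3

theorem isMcL' (u v : leechLattice) (hu : Nm u = 48) (hv : Nm v = 32) (h : Dt v u = 24) :
    IsMcL ↥(MulAction.stabilizer Co0 u ⊓ MulAction.stabilizer Co0 v) :=
  transfer (inf_equiv (std_mcl u v hu hv h)) mcl_simple _ card_GM

theorem isHS' (u v : leechLattice) (hu : Nm u = 48) (hv : Nm v = 32) (h : Dt v u = 16) :
    IsHS ↥(MulAction.stabilizer Co0 u ⊓ MulAction.stabilizer Co0 v) :=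
  transfer (inf_equiv (std_hs u v hu hv h)) hs_simple _ card_GH

theorem isMcL (v w : leechLattice) (hv : Nm v = 32) (hw : Nm w = 32) (hvw : Dt v w = -8) :
    IsMcL ↥(MulAction.stabilizer Co0 v ⊓ MulAction.stabilizer Co0 w) := by
  have h : MulAction.stabilizer Co0 v ⊓ MulAction.stabilizer Co0 w =
      MulAction.stabilizer Co0 (v + w) ⊓ MulAction.stabilizer Co0 v := by
    ext g
    simp only [Subgroup.mem_inf, MulAction.mem_stabilizer_iff]
    constructor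
    · rintro ⟨h1, h2⟩; exact ⟨by rw [smul_add'', h1, h2], h1⟩
    · rintro ⟨h1, h2⟩
      rw [smul_add'', h2] at h1
      exact ⟨h2, add_left_cancel h1⟩
  rw [h]
  apply isMcL'
  · rw [nm_add, hv, hw, hvw]; norm_num
  · exact hv
  · rw [dt_add', dt_self, hv, hvw]; norm_num

theorem isHS (v w : leechLattice) (hv : Nm v = 48) (hw : Nm w = 48) (hvw : Dt v w = -32) :
    IsHS ↥(MulAction.stabilizer Co0 v ⊓ MulAction.stabilizer Co0 w) := by
  have h : MulAction.stabilizer Co0 v ⊓ MulAction.stabilizer Co0 w =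
      MulAction.stabilizer Co0 v ⊓ MulAction.stabilizer Co0 (v + w) := by
    ext g
    simp only [Subgroup.mem_inf, MulAction.mem_stabilizer_iff]
    constructor
    · rintro ⟨h1, h2⟩; exact ⟨h1, by rw [smul_add'', h1, h2]⟩
    · rintro ⟨h1, h2⟩
      rw [smul_add'', h1] at h2
      exact ⟨h1, add_left_cancel h2⟩
  rw [h]
  apply isHS'
  · exact hv
  · rw [nm_add, hv, hw, hvw]; norm_num
  · rw [dt_add, dt_self, hv, dt_comm w v, hvw]; norm_num

end Cfsg.Agent.H7.CoF
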