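import Mathlib
import Cfsg.Prelude.Def_Sporadic_a

set_option autoImplicit false
set_option linter.all false

open Finset

namespace Cfsg.Agent.H7.St

variable {α : Type*} [Fintype α] [DecidableEq α] {t k : ℕ} {B : Set (Finset α)}

/-- the blocks as a finset -/
noncomputable def bl (B : Set (Finset α)) : Finset (Finset α) := (Set.toFinite B).toFinset

omit [DecidableEq α] in
theorem mem_bl {b : Finset α} : b ∈ bl B ↔ b ∈ B := by
  unfold bl
  rw [Set.Finite.mem_toFinset]

omit [DecidableEq α] in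
theorem ncard_bl (P : Finset α → Prop) [DecidablePred P] : {c | c ∈ B ∧ P c}.ncard = ((bl B).filter P).card := by
  rw [← Set.ncard_coe_finset]
  congr 1
  ext c
  simp [mem_bl]

omit [DecidableEq α] in
theorem ncard_B : B.ncard = (bl B).card := by
  rw [← Set.ncard_coe_finset]
  congr 1
  ext c
  simp [mem_bl]

omit [Fintype α] in
theorem card_between (s b : Finset α) (hs : s ⊆ b) (t : ℕ) (ht : s.card ≤ t) :
    ((b.powersetCard t).filter (fun u => s ⊆ u)).card = (b.card - s.card).choose (t - s.card) := by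
  rw [← Finset.card_sdiff_of_subset hs, ← Finset.card_powersetCard]
  apply Finset.card_bij' (fun u _ => u \ s) (fun v _ => v ∪ s)
  · intro u hu
    rw [mem_filter, mem_powersetCard] at hu
    rw [mem_powersetCard]
    refine ⟨Finset.sdiff_subset_sdiff hu.1.1 (Finset.Subset.refl s), ?_⟩
    rw [Finset.card_sdiff_of_subset hu.2, hu.1.2]
  · intro v hv
    rw [mem_powersetCard] at hv
    rw [mem_filter, mem_powersetCard]
    refine ⟨⟨Finset.union_subset (hv.1.trans Finset.sdiff_subset) hs, ?_⟩, Finset.subset_union_right⟩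
    rw [Finset.card_union_of_disjoint, hv.2]
    · omega
    · exact Finset.disjoint_of_subset_left hv.1 Finset.sdiff_disjoint
  · intro u hu
    rw [mem_filter, mem_powersetCard] at hu
    exact Finset.sdiff_union_of_subset hu.2
  · intro v hv
    rw [mem_powersetCard] at hv
    rw [Finset.union_sdiff_right]
    exact Finset.sdiff_eq_self_of_disjoint (Finset.disjoint_of_subset_left hv.1 Finset.sdiff_disjoint)

theorem one_block (hB : IsSteinerSystem t k B) (u : Finset α) (hu : u.card = t) :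
    ((bl B).filter (fun b => u ⊆ b)).card = 1 := by
  obtain ⟨b, hb, hu'⟩ := hB.2 u hu
  rw [Finset.card_eq_one]
  refine ⟨b, ?_⟩
  ext c
  rw [mem_filter, mem_bl, mem_singleton]
  exact ⟨fun h => hu' c h, fun h => h ▸ hb⟩

theorem lam (hB : IsSteinerSystem t k B) (s : Finset α) (hs : s.card ≤ t) :
    ((bl B).filter (fun b => s ⊆ b)).card * (k - s.card).choose (t - s.card) =
      (Fintype.card α - s.card).choose (t - s.card) := by
  have h := Finset.sum_card_bipartiteAbove_eq_sum_card_bipartiteBelow (s := (bl B).filter (fun b => s ⊆ b))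
    (t := ((univ : Finset α).powersetCard t).filter (fun u => s ⊆ u)) (fun b u => u ⊆ b)
  have h1 : ∀ b ∈ (bl B).filter (fun b => s ⊆ b),
      ((((univ : Finset α).powersetCard t).filter (fun u => s ⊆ u)).bipartiteAbove (fun b u => u ⊆ b) b).card =
      (k - s.card).choose (t - s.card) := by
    intro b hb
    rw [mem_filter, mem_bl] at hb
    rw [← hB.1 b hb.1, ← card_between s b hb.2 t hs]
    congr 1
    ext u
    simp only [Finset.mem_bipartiteAbove, mem_filter, mem_powersetCard, Finset.subset_univ, true_and]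
    tauto
  have h2 : ∀ u ∈ ((univ : Finset α).powersetCard t).filter (fun u => s ⊆ u),
      (((bl B).filter (fun b => s ⊆ b)).bipartiteBelow (fun b u => u ⊆ b) u).card = 1 := by
    intro u hu
    rw [mem_filter, mem_powersetCard] at hu
    rw [← one_block hB u hu.1.2]
    congr 1
    ext b
    simp only [Finset.mem_bipartiteBelow, mem_filter]
    constructor
    · rintro ⟨⟨h1, -⟩, h3⟩
      exact ⟨h1, h3⟩
    · rintro ⟨h1, h3⟩
      exact ⟨⟨h1, hu.2.trans h3⟩, h3⟩
  rw [Finset.sum_congr rfl h1, Finset.sum_congr rfl h2, Finset.sum_const, Finset.sum_const, smul_eq_mul, smul_eq_mul,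
    mul_one, card_between s univ (Finset.subset_univ s) t hs, Finset.card_univ] at h
  exact h

theorem count (hB : IsSteinerSystem t k B) : B.ncard * k.choose t = (Fintype.card α).choose t := by
  have := lam hB ∅ (by simp)
  simpa [ncard_B] using this

theorem moment (X : Finset α) (j L : ℕ) (hL : ∀ u : Finset α, u.card = j → ((bl B).filter (fun b => u ⊆ b)).card = L) :
    ∑ c ∈ bl B, (X ∩ c).card.choose j = X.card.choose j * L := by
  have h := Finset.sum_card_bipartiteAbove_eq_sum_card_bipartiteBelow (s := bl B)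
    (t := X.powersetCard j) (fun b u => u ⊆ b)
  have h1 : ∀ b ∈ bl B, ((X.powersetCard j).bipartiteAbove (fun b u => u ⊆ b) b).card = (X ∩ b).card.choose j := by
    intro b _
    rw [← Finset.card_powersetCard]
    congr 1
    ext u
    simp only [Finset.mem_bipartiteAbove, mem_powersetCard, Finset.subset_inter_iff]
    tauto
  have h2 : ∀ u ∈ X.powersetCard j, ((bl B).bipartiteBelow (fun b u => u ⊆ b) u).card = L := by
    intro u hu
    rw [mem_powersetCard] at hu
    exact hL u hu.2
  rw [Finset.sum_congr rfl h1, Finset.sum_congr rfl h2, Finset.sum_const, smul_eq_mul, Finset.card_powersetCard] at h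
  exact h

/-- number of blocks meeting `X` in exactly `i` points -/
noncomputable def xi (B : Set (Finset α)) (X : Finset α) (i : ℕ) : ℕ := ((bl B).filter (fun c => (X ∩ c).card = i)).card

theorem moment_xi (X : Finset α) (n : ℕ) (hn : ∀ c ∈ B, (X ∩ c).card < n) (j L : ℕ)
    (hL : ∀ u : Finset α, u.card = j → ((bl B).filter (fun b => u ⊆ b)).card = L) :
    ∑ i ∈ range n, xi B X i * i.choose j = X.card.choose j * L := by
  rw [← moment X j L hL]
  rw [← Finset.sum_fiberwise_of_maps_to (s := bl B) (t := range n) (g := fun c => (X ∩ c).card)]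
  · apply Finset.sum_congr rfl
    intro i _
    rw [Finset.sum_congr rfl (g := fun _ => i.choose j)]
    · rw [Finset.sum_const, smul_eq_mul]
      rfl
    · intro c hc
      rw [mem_filter] at hc
      rw [hc.2]
  · intro c hc
    rw [Finset.mem_range]
    exact hn c (mem_bl.1 hc)

theorem xi_pos {X c : Finset α} (hc : c ∈ B) (i : ℕ) (hi : (X ∩ c).card = i) : xi B X i ≠ 0 := by
  unfold xi
  rw [Finset.card_ne_zero]
  exact ⟨c, by rw [mem_filter, mem_bl]; exact ⟨hc, hi⟩⟩

theorem xi_zero {X : Finset α} (i : ℕ) (h : ∀ c ∈ B, (X ∩ c).card ≠ i) : xi B X i = 0 := by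
  unfold xi
  rw [Finset.card_eq_zero, Finset.filter_eq_empty_iff]
  intro c hc
  exact h c (mem_bl.1 hc)

theorem eq_of_inter (hB : IsSteinerSystem t k B) {b c : Finset α} (hb : b ∈ B) (hc : c ∈ B)
    (h : t ≤ (b ∩ c).card) : b = c := by
  obtain ⟨u, hu, hut⟩ := Finset.exists_subset_card_eq h
  obtain ⟨d, -, hd⟩ := hB.2 u hut
  rw [hd b ⟨hb, hu.trans Finset.inter_subset_left⟩, hd c ⟨hc, hu.trans Finset.inter_subset_right⟩]

theorem xi_top (hB : IsSteinerSystem t k B) {b : Finset α} (hb : b ∈ B) (htk : t ≤ k) : xi B b k = 1 := by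
  unfold xi
  rw [Finset.card_eq_one]
  refine ⟨b, ?_⟩
  ext c
  rw [mem_filter, mem_bl, mem_singleton]
  constructor
  · rintro ⟨h1, h2⟩
    exact (eq_of_inter hB hb h1 (by omega)).symm
  · rintro rfl
    exact ⟨hb, by rw [Finset.inter_self, hB.1 _ hb]⟩

theorem xi_mid (hB : IsSteinerSystem t k B) {b : Finset α} (hb : b ∈ B) (i : ℕ) (h1 : t ≤ i) (h2 : i < k) :
    xi B b i = 0 := by
  apply xi_zero
  intro c hc hi
  have := eq_of_inter hB hb hc (by omega)
  rw [← this, Finset.inter_self, hB.1 _ hb] at hi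
  omega

theorem inter_lt (hB : IsSteinerSystem t k B) {b : Finset α} (hb : b ∈ B) : ∀ c ∈ B, (b ∩ c).card < k + 1 := by
  intro c _
  have := Finset.card_le_card (Finset.inter_subset_left (s₁ := b) (s₂ := c))
  rw [hB.1 _ hb] at this
  omega

/-! ### the five designs -/

theorem lam_of (hB : IsSteinerSystem t k B) (j L : ℕ) (hj : j ≤ t)
    (hL : (k - j).choose (t - j) ≠ 0) (h : (Fintype.card α - j).choose (t - j) = L * (k - j).choose (t - j)) :
    ∀ u : Finset α, u.card = j → ((bl B).filter (fun b => u ⊆ b)).card = L := by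
  intro u hu
  have := lam hB u (by omega)
  rw [hu, h] at this
  exact Nat.eq_of_mul_eq_mul_right (Nat.pos_of_ne_zero hL) this

section S24
variable (hα : Fintype.card α = 24) (hB : IsSteinerSystem 5 8 B)
include hα hB
theorem lam24_4 : ∀ u : Finset α, u.card = 4 → ((bl B).filter (fun b => u ⊆ b)).card = 5 :=
  lam_of hB 4 5 (by norm_num) (by decide) (by rw [hα]; decide)
theorem lam24_3 : ∀ u : Finset α, u.card = 3 → ((bl B).filter (fun b => u ⊆ b)).card = 21 :=
  lam_of hB 3 21 (by norm_num) (by decide) (by rw [hα]; decide)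
theorem lam24_2 : ∀ u : Finset α, u.card = 2 → ((bl B).filter (fun b => u ⊆ b)).card = 77 :=
  lam_of hB 2 77 (by norm_num) (by decide) (by rw [hα]; decide)
theorem lam24_1 : ∀ u : Finset α, u.card = 1 → ((bl B).filter (fun b => u ⊆ b)).card = 253 :=
  lam_of hB 1 253 (by norm_num) (by decide) (by rw [hα]; decide +kernel)
theorem lam24_0 : ∀ u : Finset α, u.card = 0 → ((bl B).filter (fun b => u ⊆ b)).card = 759 :=
  lam_of hB 0 759 (by norm_num) (by decide) (by rw [hα]; decide +kernel)

theorem xi24 {b : Finset α} (hb : b ∈ B) : xi B b 0 = 30 ∧ xi B b 1 = 0 ∧ xi B b 2 = 448 ∧ xi B b 3 = 0 ∧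
    xi B b 4 = 280 := by
  have hc := hB.1 b hb
  have e0 := moment_xi b 9 (inter_lt hB hb) 0 759 (lam24_0 hα hB)
  have e1 := moment_xi b 9 (inter_lt hB hb) 1 253 (lam24_1 hα hB)
  have e2 := moment_xi b 9 (inter_lt hB hb) 2 77 (lam24_2 hα hB)
  have e3 := moment_xi b 9 (inter_lt hB hb) 3 21 (lam24_3 hα hB)
  have e4 := moment_xi b 9 (inter_lt hB hb) 4 5 (lam24_4 hα hB)
  have t8 := xi_top hB hb (by norm_num)
  have t7 := xi_mid hB hb 7 (by norm_num) (by norm_num)
  have t6 := xi_mid hB hb 6 (by norm_num) (by norm_num)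
  have t5 := xi_mid hB hb 5 (by norm_num) (by norm_num)
  simp only [Finset.sum_range_succ, Finset.sum_range_zero, hc, t8, t7, t6, t5, Nat.choose] at e0 e1 e2 e3 e4
  omega

theorem inter24 {b c : Finset α} (hb : b ∈ B) (hc : c ∈ B) (hbc : b ≠ c) :
    (b ∩ c).card = 0 ∨ (b ∩ c).card = 2 ∨ (b ∩ c).card = 4 := by
  obtain ⟨-, h1, -, h3, -⟩ := xi24 hα hB hb
  have hlt : (b ∩ c).card < 5 := by
    by_contra h
    exact hbc (eq_of_inter hB hb hc (by omega))
  have n1 : (b ∩ c).card ≠ 1 := fun h => xi_pos hc 1 h h1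
  have n3 : (b ∩ c).card ≠ 3 := fun h => xi_pos hc 3 h h3
  omega
end S24

section S23
variable (hα : Fintype.card α = 23) (hB : IsSteinerSystem 4 7 B)
include hα hB
theorem lam23_3 : ∀ u : Finset α, u.card = 3 → ((bl B).filter (fun b => u ⊆ b)).card = 5 :=
  lam_of hB 3 5 (by norm_num) (by decide) (by rw [hα]; decide)
theorem lam23_2 : ∀ u : Finset α, u.card = 2 → ((bl B).filter (fun b => u ⊆ b)).card = 21 :=
  lam_of hB 2 21 (by norm_num) (by decide) (by rw [hα]; decide)
theorem lam23_1 : ∀ u : Finset α, u.card = 1 → ((bl B).filter (fun b => u ⊆ b)).card = 77 :=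
  lam_of hB 1 77 (by norm_num) (by decide) (by rw [hα]; decide +kernel)
theorem lam23_0 : ∀ u : Finset α, u.card = 0 → ((bl B).filter (fun b => u ⊆ b)).card = 253 :=
  lam_of hB 0 253 (by norm_num) (by decide) (by rw [hα]; decide +kernel)

theorem xi23 {b : Finset α} (hb : b ∈ B) : xi B b 0 = 0 ∧ xi B b 1 = 112 ∧ xi B b 2 = 0 ∧ xi B b 3 = 140 := by
  have hc := hB.1 b hb
  have e0 := moment_xi b 8 (inter_lt hB hb) 0 253 (lam23_0 hα hB)
  have e1 := moment_xi b 8 (inter_lt hB hb) 1 77 (lam23_1 hα hB)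
  have e2 := moment_xi b 8 (inter_lt hB hb) 2 21 (lam23_2 hα hB)
  have e3 := moment_xi b 8 (inter_lt hB hb) 3 5 (lam23_3 hα hB)
  have t7 := xi_top hB hb (by norm_num)
  have t6 := xi_mid hB hb 6 (by norm_num) (by norm_num)
  have t5 := xi_mid hB hb 5 (by norm_num) (by norm_num)
  have t4 := xi_mid hB hb 4 (by norm_num) (by norm_num)
  simp only [Finset.sum_range_succ, Finset.sum_range_zero, hc, t7, t6, t5, t4, Nat.choose] at e0 e1 e2 e3
  omega

theorem inter23 {b c : Finset α} (hb : b ∈ B) (hc : c ∈ B) (hbc : b ≠ c) :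
    (b ∩ c).card = 1 ∨ (b ∩ c).card = 3 := by
  obtain ⟨h0, -, h2, -⟩ := xi23 hα hB hb
  have hlt : (b ∩ c).card < 4 := by
    by_contra h
    exact hbc (eq_of_inter hB hb hc (by omega))
  have n1 : (b ∩ c).card ≠ 0 := fun h => xi_pos hc 0 h h0
  have n3 : (b ∩ c).card ≠ 2 := fun h => xi_pos hc 2 h h2
  omega
end S23

section S22
variable (hα : Fintype.card α = 22) (hB : IsSteinerSystem 3 6 B)
include hα hB
theorem lam22_2 : ∀ u : Finset α, u.card = 2 → ((bl B).filter (fun b => u ⊆ b)).card = 5 :=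
  lam_of hB 2 5 (by norm_num) (by decide) (by rw [hα]; decide)
theorem lam22_1 : ∀ u : Finset α, u.card = 1 → ((bl B).filter (fun b => u ⊆ b)).card = 21 :=
  lam_of hB 1 21 (by norm_num) (by decide) (by rw [hα]; decide +kernel)
theorem lam22_0 : ∀ u : Finset α, u.card = 0 → ((bl B).filter (fun b => u ⊆ b)).card = 77 :=
  lam_of hB 0 77 (by norm_num) (by decide) (by rw [hα]; decide +kernel)

theorem xi22 {b : Finset α} (hb : b ∈ B) : xi B b 0 = 16 ∧ xi B b 1 = 0 ∧ xi B b 2 = 60 := by
  have hc := hB.1 b hb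
  have e0 := moment_xi b 7 (inter_lt hB hb) 0 77 (lam22_0 hα hB)
  have e1 := moment_xi b 7 (inter_lt hB hb) 1 21 (lam22_1 hα hB)
  have e2 := moment_xi b 7 (inter_lt hB hb) 2 5 (lam22_2 hα hB)
  have t6 := xi_top hB hb (by norm_num)
  have t5 := xi_mid hB hb 5 (by norm_num) (by norm_num)
  have t4 := xi_mid hB hb 4 (by norm_num) (by norm_num)
  have t3 := xi_mid hB hb 3 (by norm_num) (by norm_num)
  simp only [Finset.sum_range_succ, Finset.sum_range_zero, hc, t6, t5, t4, t3, Nat.choose] at e0 e1 e2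
  omega

theorem inter22 {b c : Finset α} (hb : b ∈ B) (hc : c ∈ B) (hbc : b ≠ c) :
    (b ∩ c).card = 0 ∨ (b ∩ c).card = 2 := by
  obtain ⟨-, h1, -⟩ := xi22 hα hB hb
  have hlt : (b ∩ c).card < 3 := by
    by_contra h
    exact hbc (eq_of_inter hB hb hc (by omega))
  have n1 : (b ∩ c).card ≠ 1 := fun h => xi_pos hc 1 h h1
  omega
end S22

section S12
variable (hα : Fintype.card α = 12) (hB : IsSteinerSystem 5 6 B)
include hα hB
theorem lam12_4 : ∀ u : Finset α, u.card = 4 → ((bl B).filter (fun b => u ⊆ b)).card = 4 :=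
  lam_of hB 4 4 (by norm_num) (by decide) (by rw [hα]; decide)
theorem lam12_3 : ∀ u : Finset α, u.card = 3 → ((bl B).filter (fun b => u ⊆ b)).card = 12 :=
  lam_of hB 3 12 (by norm_num) (by decide) (by rw [hα]; decide)
theorem lam12_2 : ∀ u : Finset α, u.card = 2 → ((bl B).filter (fun b => u ⊆ b)).card = 30 :=
  lam_of hB 2 30 (by norm_num) (by decide) (by rw [hα]; decide)
theorem lam12_1 : ∀ u : Finset α, u.card = 1 → ((bl B).filter (fun b => u ⊆ b)).card = 66 :=
  lam_of hB 1 66 (by norm_num) (by decide) (by rw [hα]; decide +kernel)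
theorem lam12_0 : ∀ u : Finset α, u.card = 0 → ((bl B).filter (fun b => u ⊆ b)).card = 132 :=
  lam_of hB 0 132 (by norm_num) (by decide) (by rw [hα]; decide +kernel)

theorem xi12 {b : Finset α} (hb : b ∈ B) : xi B b 0 = 1 ∧ xi B b 1 = 0 ∧ xi B b 2 = 45 ∧ xi B b 3 = 40 ∧
    xi B b 4 = 45 := by
  have hc := hB.1 b hb
  have e0 := moment_xi b 7 (inter_lt hB hb) 0 132 (lam12_0 hα hB)
  have e1 := moment_xi b 7 (inter_lt hB hb) 1 66 (lam12_1 hα hB)
  have e2 := moment_xi b 7 (inter_lt hB hb) 2 30 (lam12_2 hα hB)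
  have e3 := moment_xi b 7 (inter_lt hB hb) 3 12 (lam12_3 hα hB)
  have e4 := moment_xi b 7 (inter_lt hB hb) 4 4 (lam12_4 hα hB)
  have t6 := xi_top hB hb (by norm_num)
  have t5 := xi_mid hB hb 5 (by norm_num) (by norm_num)
  simp only [Finset.sum_range_succ, Finset.sum_range_zero, hc, t6, t5, Nat.choose] at e0 e1 e2 e3 e4
  omega

theorem inter12 {b c : Finset α} (hb : b ∈ B) (hc : c ∈ B) (hbc : b ≠ c) :
    (b ∩ c).card = 0 ∨ (b ∩ c).card = 2 ∨ (b ∩ c).card = 3 ∨ (b ∩ c).card = 4 := by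
  obtain ⟨-, h1, -⟩ := xi12 hα hB hb
  have hlt : (b ∩ c).card < 5 := by
    by_contra h
    exact hbc (eq_of_inter hB hb hc (by omega))
  have n1 : (b ∩ c).card ≠ 1 := fun h => xi_pos hc 1 h h1
  omega

theorem compl12 {b : Finset α} (hb : b ∈ B) : bᶜ ∈ B := by
  obtain ⟨h0, -⟩ := xi12 hα hB hb
  have : ((bl B).filter (fun c => (b ∩ c).card = 0)).Nonempty := by
    rw [← Finset.card_pos]
    unfold xi at h0
    omega
  obtain ⟨c, hc⟩ := this
  rw [mem_filter, mem_bl] at hc
  have : c = bᶜ := by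
    apply Finset.eq_of_subset_of_card_le
    · intro x hx
      rw [Finset.mem_compl]
      intro hxb
      rw [Finset.card_eq_zero] at hc
      have : x ∈ b ∩ c := Finset.mem_inter.2 ⟨hxb, hx⟩
      rw [hc.2] at this
      exact absurd this (Finset.notMem_empty x)
    · rw [Finset.card_compl, hα, hB.1 _ hb, hB.1 _ hc.1]
  rw [← this]
  exact hc.1

/-- number of blocks with prescribed intersection with `b` -/
theorem presc (b s : Finset α) (hs : s ⊆ b) : ((bl B).filter (fun c => s ⊆ c)).card =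
    ∑ u ∈ b.powerset.filter (fun u => s ⊆ u), ((bl B).filter (fun c => b ∩ c = u)).card := by
  rw [Finset.card_eq_sum_card_fiberwise (f := fun c => b ∩ c) (t := b.powerset.filter (fun u => s ⊆ u))]
  · apply Finset.sum_congr rfl
    intro u hu
    rw [mem_filter, mem_powerset] at hu
    congr 1
    ext c
    simp only [mem_filter]
    constructor
    · rintro ⟨⟨h1, -⟩, h2⟩
      exact ⟨h1, h2⟩
    · rintro ⟨h1, h2⟩
      exact ⟨⟨h1, (hu.2.trans h2.symm.subset).trans Finset.inter_subset_right⟩, h2⟩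
  · intro c hc
    rw [Finset.mem_coe, mem_filter] at hc
    rw [Finset.mem_coe, mem_filter, mem_powerset]
    exact ⟨Finset.inter_subset_left, Finset.subset_inter hs hc.2⟩
end S12

end Cfsg.Agent.H7.St
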