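import Mathlib
import Cfsg.Agent.H7_St1

set_option autoImplicit false
set_option linter.all false

open Finset

namespace Cfsg.Agent.H7.St

/-- sets that are sums of blocks -/
inductive InC {α : Type*} [DecidableEq α] (B : Set (Finset α)) : Finset α → Prop
  | empty : InC B ∅
  | add {s b : Finset α} : InC B s → b ∈ B → InC B (symmDiff s b)

section
variable {α : Type*} [DecidableEq α] {B : Set (Finset α)}

theorem InC.symm {s t : Finset α} (hs : InC B s) (ht : InC B t) : InC B (symmDiff s t) := by
  induction ht with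
  | empty =>
    rw [show symmDiff s ∅ = s from symmDiff_bot s]
    exact hs
  | add ht hb ih =>
    rw [← symmDiff_assoc]
    exact InC.add ih hb

theorem InC.of_mem {b : Finset α} (hb : b ∈ B) : InC B b := by
  have := InC.add (InC.empty (B := B)) hb
  rwa [show symmDiff ∅ b = b from bot_symmDiff b] at this

theorem card_sd (s t : Finset α) : (symmDiff s t).card + 2 * (s ∩ t).card = s.card + t.card := by
  have h1 : (symmDiff s t) = (s \ t) ∪ (t \ s) := rfl
  have h2 : Disjoint (s \ t) (t \ s) := by
    rw [Finset.disjoint_left]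
    intro x hx hy
    rw [Finset.mem_sdiff] at hx hy
    exact hx.2 hy.1
  rw [h1, Finset.card_union_of_disjoint h2]
  have h3 := Finset.card_sdiff_add_card_inter s t
  have h4 := Finset.card_sdiff_add_card_inter t s
  rw [Finset.inter_comm t s] at h4
  omega

theorem inter_sd (s c b : Finset α) : (symmDiff s c) ∩ b = symmDiff (s ∩ b) (c ∩ b) := by
  ext x
  simp only [Finset.mem_inter, Finset.mem_symmDiff]
  tauto

theorem card_sd_inter (s c b : Finset α) :
    ((symmDiff s c) ∩ b).card + 2 * ((s ∩ b) ∩ (c ∩ b)).card = (s ∩ b).card + (c ∩ b).card := by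
  rw [inter_sd]
  exact card_sd _ _

/-- even intersections propagate -/
theorem InC.even_inter {t : Finset α} (ht : ∀ b ∈ B, Even (b ∩ t).card) {s : Finset α} (hs : InC B s) :
    Even (s ∩ t).card := by
  induction hs with
  | empty => simp
  | @add s b hs hb ih =>
    have := card_sd_inter s b t
    have h1 := ht _ hb
    rw [Nat.even_iff] at *
    omega

/-- doubly even property -/
theorem InC.four_dvd (h4 : ∀ b ∈ B, 4 ∣ b.card) (hev : ∀ b ∈ B, ∀ c ∈ B, Even (b ∩ c).card) {s : Finset α}
    (hs : InC B s) : 4 ∣ s.card := by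
  induction hs with
  | empty => simp
  | @add s b hs hb ih =>
    have h1 := card_sd s b
    have h2 := h4 _ hb
    have h3 : Even (s ∩ b).card := hs.even_inter (fun c hc => hev c hc b hb)
    obtain ⟨m, hm⟩ := h3
    omega
end

section S24
variable {α : Type*} [Fintype α] [DecidableEq α] {B : Set (Finset α)} (hα : Fintype.card α = 24)
  (hB : IsSteinerSystem 5 8 B)
include hα hB

theorem even24 {b c : Finset α} (hb : b ∈ B) (hc : c ∈ B) : Even (b ∩ c).card := by
  by_cases h : b = c
  · rw [h, Finset.inter_self, hB.1 c hc]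
    decide
  · rcases inter24 hα hB hb hc h with h1 | h1 | h1 <;> rw [h1] <;> decide

theorem four24 {s : Finset α} (hs : InC B s) : 4 ∣ s.card :=
  hs.four_dvd (fun b hb => by rw [hB.1 b hb]; norm_num) (fun b hb c hc => even24 hα hB hb hc)

theorem evenC24 {s b : Finset α} (hs : InC B s) (hb : b ∈ B) : Even (s ∩ b).card :=
  hs.even_inter (fun c hc => even24 hα hB hc hb)

theorem no4 {s : Finset α} (hs : InC B s) : s.card ≠ 4 := by
  intro h4
  -- choose three points
  obtain ⟨u, hu, hu3⟩ := Finset.exists_subset_card_eq (s := s) (n := 3) (by omega)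
  have h21 := lam24_3 hα hB u hu3
  have h5 := lam24_4 hα hB s h4
  have hlt : ((bl B).filter (fun b => s ⊆ b)).card < ((bl B).filter (fun b => u ⊆ b)).card := by omega
  obtain ⟨b, hb1, hb2⟩ := Finset.exists_mem_notMem_of_card_lt_card hlt
  rw [mem_filter, mem_bl] at hb1 hb2
  have hev := evenC24 hα hB hs hb1.1
  have h3 : 3 ≤ (s ∩ b).card := by
    rw [← hu3]
    exact Finset.card_le_card (Finset.subset_inter hu hb1.2)
  have h4' : (s ∩ b).card < 4 := by
    by_contra hge
    apply hb2
    refine ⟨hb1.1, ?_⟩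
    have : s ∩ b = s := Finset.eq_of_subset_of_card_le Finset.inter_subset_left (by omega)
    rw [← this]
    exact Finset.inter_subset_right
  obtain ⟨m, hm⟩ := hev
  omega

theorem mem_of_8 {s : Finset α} (hs : InC B s) (h8 : s.card = 8) : s ∈ B := by
  obtain ⟨u, hu, hu5⟩ := Finset.exists_subset_card_eq (s := s) (n := 5) (by omega)
  obtain ⟨b, ⟨hb, hub⟩, -⟩ := hB.2 u hu5
  have h5 : 5 ≤ (s ∩ b).card := by
    rw [← hu5]
    exact Finset.card_le_card (Finset.subset_inter hu hub)
  have hC : InC B (symmDiff s b) := InC.add hs hb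
  have h1 := card_sd s b
  rw [h8, hB.1 b hb] at h1
  have h2 := four24 hα hB hC
  have h3 := no4 hα hB hC
  have h4 : (symmDiff s b).card = 0 := by omega
  rw [Finset.card_eq_zero] at h4
  have : s = b := symmDiff_eq_bot.1 h4
  rw [this]
  exact hb

theorem sd_mem {b c : Finset α} (hb : b ∈ B) (hc : c ∈ B) (h4 : (b ∩ c).card = 4) : symmDiff b c ∈ B := by
  apply mem_of_8 hα hB ((InC.of_mem hb).symm (InC.of_mem hc))
  have h1 := card_sd b c
  rw [hB.1 b hb, hB.1 c hc, h4] at h1
  omega
end S24

end Cfsg.Agent.H7.St
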