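import Mathlib
import Cfsg.Agent.H7_St4

set_option autoImplicit false
set_option linter.all false

open Finset

/-!
A 12-dimensional doubly even binary code of length 24 without words of weight 4 gives S(5,8,24).
-/

namespace Cfsg.Agent.H7.St

variable {β : Type*} [Fintype β] [DecidableEq β]

/-- indicator word of a set -/
def ind (s : Finset β) : β → ZMod 2 := fun x => if x ∈ s then 1 else 0

theorem supp_ind (s : Finset β) : support₂ (ind s) = s := by
  ext x
  simp [support₂, ind]

theorem ind_supp (w : β → ZMod 2) : ind (support₂ w) = w := by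
  funext x
  simp only [ind, support₂, Finset.mem_filter, Finset.mem_univ, true_and]
  generalize w x = c
  revert c
  decide

theorem ind_sd (s t : Finset β) : ind (symmDiff s t) = ind s + ind t := by
  funext x
  simp only [ind, Finset.mem_symmDiff, Pi.add_apply]
  by_cases h1 : x ∈ s <;> by_cases h2 : x ∈ t <;> simp [h1, h2]
  all_goals try decide

theorem ind_sub (s t : Finset β) : ind s - ind t = ind (symmDiff s t) := by
  rw [ind_sd]
  funext x
  simp only [Pi.sub_apply, Pi.add_apply]
  generalize ind s x = a
  generalize ind t x = b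
  revert a b
  decide

theorem norm_ind (s : Finset β) : hammingNorm (ind s) = s.card := by
  unfold hammingNorm
  congr 1
  ext x
  simp [ind]

theorem mem_words {C : Submodule (ZMod 2) (β → ZMod 2)} {n : ℕ} {s : Finset β} :
    s ∈ wordsOfWeight (C : Set (β → ZMod 2)) n ↔ ind s ∈ C ∧ s.card = n := by
  unfold wordsOfWeight supports
  simp only [Set.mem_ofPred_eq, Set.mem_image, SetLike.mem_coe]
  constructor
  · rintro ⟨⟨w, hw, rfl⟩, h2⟩
    rw [ind_supp]
    exact ⟨hw, h2⟩
  · rintro ⟨h1, h2⟩
    exact ⟨⟨ind s, h1, supp_ind s⟩, h2⟩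

theorem steiner_of_code (hβ : Fintype.card β = 24) (C : Submodule (ZMod 2) (β → ZMod 2))
    (hdim : Module.finrank (ZMod 2) C = 12) (h4 : ∀ s : Finset β, ind s ∈ C → 4 ∣ s.card)
    (hno4 : ∀ s : Finset β, ind s ∈ C → s.card ≠ 4) :
    IsSteinerSystem 5 8 (wordsOfWeight (C : Set (β → ZMod 2)) 8) := by
  classical
  have hsmall : ∀ s : Finset β, ind s ∈ C → s.card < 8 → s = ∅ := by
    intro s hs hlt
    have h1 := h4 s hs
    have h2 := hno4 s hs
    rw [← Finset.card_eq_zero]
    omega
  constructor
  · intro b hb
    exact (mem_words.1 hb).2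
  intro s hs
  -- existence via counting
  let q : Finset β → ((β → ZMod 2) ⧸ C) := fun t => Submodule.Quotient.mk (ind t)
  have hq : ∀ t u, q t = q u ↔ ind (symmDiff t u) ∈ C := by
    intro t u
    show Submodule.Quotient.mk (ind t) = Submodule.Quotient.mk (ind u) ↔ _
    rw [Submodule.Quotient.eq, ind_sub]
  have hcardQ : Fintype.card ((β → ZMod 2) ⧸ C) = 4096 := by
    have h1 := Submodule.card_eq_card_quotient_mul_card C
    have h2 : Nat.card (β → ZMod 2) = 2 ^ 24 := by
      rw [Nat.card_eq_fintype_card, Fintype.card_fun, hβ, ZMod.card]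
    have h3 : Nat.card C = 2 ^ 12 := by
      rw [Nat.card_eq_fintype_card, Module.card_eq_pow_finrank (K := ZMod 2), hdim, ZMod.card]
    rw [h2, h3] at h1
    rw [← Nat.card_eq_fintype_card]
    have h5 : (2 : ℕ) ^ 12 * 4096 = 2 ^ 12 * Nat.card ((β → ZMod 2) ⧸ C) := by
      rw [← h1]
      norm_num
    exact (Nat.eq_of_mul_eq_mul_left (Nat.two_pow_pos 12) h5).symm
  set SM : Finset (Finset β) := (univ : Finset (Finset β)).filter (fun t => t.card ≤ 3) with hSM
  have hSMcard : SM.card = 2325 := by
    have e : SM = (univ.powersetCard 0) ∪ ((univ.powersetCard 1) ∪ ((univ.powersetCard 2) ∪ (univ.powersetCard 3))) := by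
      ext t
      simp only [hSM, mem_filter, mem_univ, true_and, mem_union, mem_powersetCard, subset_univ]
      omega
    have d : ∀ i j, i ≠ j → Disjoint ((univ : Finset β).powersetCard i) ((univ : Finset β).powersetCard j) := by
      intro i j hij
      rw [Finset.disjoint_left]
      intro t h1 h2
      rw [mem_powersetCard] at h1 h2
      exact hij (h1.2.symm.trans h2.2)
    rw [e, card_union_of_disjoint, card_union_of_disjoint, card_union_of_disjoint]
    · simp only [card_powersetCard, card_univ, hβ, Nat.choose]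
    · exact d 2 3 (by norm_num)
    · rw [disjoint_union_right]
      exact ⟨d 1 2 (by norm_num), d 1 3 (by norm_num)⟩
    · rw [disjoint_union_right, disjoint_union_right]
      exact ⟨d 0 1 (by norm_num), d 0 2 (by norm_num), d 0 3 (by norm_num)⟩
  have hinj : Set.InjOn q (SM : Set (Finset β)) := by
    intro t ht u hu h
    rw [hq] at h
    have h1 := card_sd t u
    simp only [hSM, coe_filter, mem_univ, true_and, Set.mem_ofPred_eq] at ht hu
    have := hsmall _ h (by omega)
    exact symmDiff_eq_bot.1 this
  have himg : (SM.image q).card = 2325 := by rw [Finset.card_image_of_injOn hinj, hSMcard]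
  set TT : Finset (Finset β) := (univ : Finset β).powersetCard 4 with hTT
  have hTTcard : TT.card = 10626 := by
    rw [hTT, card_powersetCard, card_univ, hβ]
    decide +kernel
  set R : Finset ((β → ZMod 2) ⧸ C) := univ \ SM.image q with hR
  have hRcard : R.card = 1771 := by
    rw [hR, card_sdiff_of_subset (subset_univ _), himg, card_univ, hcardQ]
  have hmaps : ∀ t ∈ TT, q t ∈ R := by
    intro t ht
    rw [hR, mem_sdiff]
    refine ⟨mem_univ _, ?_⟩
    intro h
    rw [mem_image] at h
    obtain ⟨u, hu, huq⟩ := h
    rw [hq] at huq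
    have h1 := card_sd u t
    rw [hTT, mem_powersetCard] at ht
    simp only [hSM, mem_filter, mem_univ, true_and] at hu
    have := hsmall _ huq (by omega)
    rw [symmDiff_eq_bot.1 this] at hu
    omega
  have hdisj : ∀ c, ∀ t ∈ TT.filter (fun t => q t = c), ∀ u ∈ TT.filter (fun t => q t = c), t ≠ u → Disjoint t u := by
    intro c t ht u hu htu
    rw [mem_filter, hTT, mem_powersetCard] at ht hu
    have h := (hq t u).1 (ht.2.trans hu.2.symm)
    have h1 := card_sd t u
    rw [disjoint_iff_inter_eq_empty, ← Finset.card_eq_zero]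
    by_contra hne
    have := hsmall _ h (by omega)
    exact htu (symmDiff_eq_bot.1 this)
  have hunion : ∀ c, ((TT.filter (fun t => q t = c)).biUnion (fun t => t)).card = (TT.filter (fun t => q t = c)).card * 4 := by
    intro c
    rw [card_biUnion (hdisj c), Finset.sum_congr rfl (g := fun _ => 4), sum_const, smul_eq_mul]
    intro t ht
    rw [mem_filter, hTT, mem_powersetCard] at ht
    exact ht.1.2
  have hle : ∀ c ∈ R, (TT.filter (fun t => q t = c)).card ≤ 6 := by
    intro c _
    have h1 := hunion c
    have h2 : ((TT.filter (fun t => q t = c)).biUnion (fun t => t)).card ≤ 24 := by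
      rw [← hβ]
      exact card_le_univ _
    omega
  have hsum : TT.card = ∑ c ∈ R, (TT.filter (fun t => q t = c)).card :=
    Finset.card_eq_sum_card_fiberwise (fun t ht => hmaps t ht)
  have hall : ∀ c ∈ R, (TT.filter (fun t => q t = c)).card = 6 := by
    have h1 : ∑ c ∈ R, (TT.filter (fun t => q t = c)).card = ∑ c ∈ R, 6 := by
      rw [← hsum, hTTcard, sum_const, hRcard, smul_eq_mul]
    exact (Finset.sum_eq_sum_iff_of_le hle).1 h1
  -- now the five-set
  obtain ⟨x, hx⟩ : s.Nonempty := by
    rw [← Finset.card_pos]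
    omega
  set t := s.erase x with ht
  have htc : t.card = 4 := by rw [ht, card_erase_of_mem hx, hs]
  have htT : t ∈ TT := by
    rw [hTT, mem_powersetCard]
    exact ⟨subset_univ _, htc⟩
  have h6 := hall (q t) (hmaps t htT)
  have hfull : (TT.filter (fun u => q u = q t)).biUnion (fun u => u) = univ := by
    rw [← Finset.card_eq_iff_eq_univ, hunion, h6, hβ]
  have hxm : x ∈ (TT.filter (fun u => q u = q t)).biUnion (fun u => u) := by
    rw [hfull]
    exact mem_univ _
  rw [mem_biUnion] at hxm
  obtain ⟨u, hu, hxu⟩ := hxm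
  have htu : t ≠ u := by
    rintro rfl
    exact (Finset.notMem_erase x s) hxu
  have hdj := hdisj (q t) t (by rw [mem_filter]; exact ⟨htT, rfl⟩) u hu htu
  rw [mem_filter, hTT, mem_powersetCard] at hu
  have hC : ind (symmDiff t u) ∈ C := (hq t u).1 hu.2.symm
  refine ⟨symmDiff t u, ⟨mem_words.2 ⟨hC, ?_⟩, ?_⟩, ?_⟩
  · have h1 := card_sd t u
    rw [disjoint_iff_inter_eq_empty.1 hdj, card_empty] at h1
    omega
  · intro y hy
    rw [mem_symmDiff]
    by_cases hyx : y = x
    · right
      rw [hyx]
      exact ⟨hxu, notMem_erase x s⟩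
    · left
      have hyt : y ∈ t := by
        rw [ht, mem_erase]
        exact ⟨hyx, hy⟩
      exact ⟨hyt, fun hyu => (Finset.disjoint_left.1 hdj) hyt hyu⟩
  · rintro b ⟨hb, hsb⟩
    rw [mem_words] at hb
    have hCb : ind (symmDiff b (symmDiff t u)) ∈ C := by
      rw [ind_sd]
      exact C.add_mem hb.1 hC
    have h8 : (symmDiff t u).card = 8 := by
      have h1 := card_sd t u
      rw [disjoint_iff_inter_eq_empty.1 hdj, card_empty] at h1
      omega
    have hsub : s ⊆ symmDiff t u := by
      intro y hy
      rw [mem_symmDiff]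
      by_cases hyx : y = x
      · right
        rw [hyx]
        exact ⟨hxu, notMem_erase x s⟩
      · left
        have hyt : y ∈ t := by
          rw [ht, mem_erase]
          exact ⟨hyx, hy⟩
        exact ⟨hyt, fun hyu => (Finset.disjoint_left.1 hdj) hyt hyu⟩
    have h5 : 5 ≤ (b ∩ symmDiff t u).card := by
      rw [← hs]
      exact card_le_card (subset_inter hsb hsub)
    have h1 := card_sd b (symmDiff t u)
    have := hsmall _ hCb (by omega)
    exact symmDiff_eq_bot.1 this

end Cfsg.Agent.H7.St
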