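import Cfsg.Statements.S0358
import Cfsg.Agent.H7_Oct

set_option autoImplicit false
open Cfsg

open Cfsg.Agent.H7.Golay
open Cfsg.Agent.H7.Oct

namespace Cfsg.Agent.S0358

/-- The length-24 code built from the squares modulo 23 has dimension 12 over the field with two elements. -/
theorem result : Module.finrank (ZMod 2) Cfsg.golayCode = 12 := by
  have hcard : Nat.card golayCode = 4096 := by
    have hS : (golayCode : Set (GolayPt → ZMod 2)) = word '' (codeL.toFinset : Set ℕ) := by
      ext w
      rw [SetLike.mem_coe, mem_golayCode_iff]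
      constructor
      · rintro ⟨m, hm, rfl⟩; exact ⟨m, by simpa using hm, rfl⟩
      · rintro ⟨m, hm, rfl⟩; exact ⟨m, by simpa using hm, rfl⟩
    have h1 : Nat.card golayCode = (golayCode : Set (GolayPt → ZMod 2)).ncard := rfl
    rw [h1, hS, Set.InjOn.ncard_image, Set.ncard_coe_finset, List.toFinset_card_of_nodup codeL_nodup, codeL_length]
    intro a ha b hb hab
    exact (word_inj (codeL_lt (by simpa using ha)) (codeL_lt (by simpa using hb))).1 hab
  have h2 := Module.natCard_eq_pow_finrank (K := ZMod 2) (V := golayCode)
  rw [hcard, Nat.card_zmod] at h2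
  have h3 : (2 : ℕ) ^ 12 = 2 ^ Module.finrank (ZMod 2) golayCode := by rw [← h2]; norm_num
  exact (Nat.pow_right_injective (le_refl 2) h3).symm

end Cfsg.Agent.S0358
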