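import Mathlib
import Cfsg.Agent.H7_St7
import Cfsg.Agent.S0358
import Cfsg.Agent.S0359

set_option autoImplicit false
set_option linter.all false

open Finset

/-!
Cosets of the length-24 code.
-/

namespace Cfsg.Agent.H7.St

section
variable {β : Type*} [Fintype β] [DecidableEq β]

/-- coset structure -/
theorem coset_struct (hβ : Fintype.card β = 24) (C : Submodule (ZMod 2) (β → ZMod 2))
    (hdim : Module.finrank (ZMod 2) C = 12) (h4 : ∀ s : Finset β, ind s ∈ C → 4 ∣ s.card)
    (hno4 : ∀ s : Finset β, ind s ∈ C → s.card ≠ 4) (w : β → ZMod 2) :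
    (∃ t : Finset β, t.card ≤ 3 ∧ w - ind t ∈ C ∧ ∀ u : Finset β, u.card ≤ 4 → w - ind u ∈ C → u = t) ∨
    ({t : Finset β | t.card = 4 ∧ w - ind t ∈ C}.ncard = 6 ∧
      (∀ u : Finset β, u.card ≤ 4 → w - ind u ∈ C → u.card = 4) ∧ ∀ x : β, ∃ t : Finset β, t.card = 4 ∧ w - ind t ∈ C ∧ x ∈ t) := by
  classical
  have hsmall : ∀ s : Finset β, ind s ∈ C → s.card < 8 → s = ∅ := by
    intro s hs hlt
    have h1 := h4 s hs
    have h2 := hno4 s hs
    rw [← Finset.card_eq_zero]
    omega
  -- existence via counting
  let q : Finset β → ((β → ZMod 2) ⧸ C) := fun t => Submodule.Quotient.mk (ind t)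
  have hq : ∀ t u, q t = q u ↔ ind (symmDiff t u) ∈ C := by
    intro t u
    show Submodule.Quotient.mk (ind t) = Submodule.Quotient.mk (ind u) ↔ _
    rw [Submodule.Quotient.eq, ind_sub]
  have hcardQ : Fintype.card ((β → ZMod 2) ⧸ C) = 4096 := by
    have h1 := Submodule.card_eq_card_quotient_mul_card C
    have h2 : Nat.card (β → ZMod 2) = 2 ^ 24 := by
      rw [Nat.card_eq_fintype_card, Fintype.card_fun, hβ, ZMod.card]
    have h3 : Nat.card C = 2 ^ 12 := by
      rw [Nat.card_eq_fintype_card, Module.card_eq_pow_finrank (K := ZMod 2), hdim, ZMod.card]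
    rw [h2, h3] at h1
    rw [← Nat.card_eq_fintype_card]
    have h5 : (2 : ℕ) ^ 12 * 4096 = 2 ^ 12 * Nat.card ((β → ZMod 2) ⧸ C) := by
      rw [← h1]
      norm_num
    exact (Nat.eq_of_mul_eq_mul_left (Nat.two_pow_pos 12) h5).symm
  set SM : Finset (Finset β) := (univ : Finset (Finset β)).filter (fun t => t.card ≤ 3) with hSM
  have hSMcard : SM.card = 2325 := by
    have e : SM = (univ.powersetCard 0) ∪ ((univ.powersetCard 1) ∪ ((univ.powersetCard 2) ∪ (univ.powersetCard 3))) := by
      ext t
      simp only [hSM, mem_filter, mem_univ, true_and, mem_union, mem_powersetCard, subset_univ]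
      omega
    have d : ∀ i j, i ≠ j → Disjoint ((univ : Finset β).powersetCard i) ((univ : Finset β).powersetCard j) := by
      intro i j hij
      rw [Finset.disjoint_left]
      intro t h1 h2
      rw [mem_powersetCard] at h1 h2
      exact hij (h1.2.symm.trans h2.2)
    rw [e, card_union_of_disjoint, card_union_of_disjoint, card_union_of_disjoint]
    · simp only [card_powersetCard, card_univ, hβ, Nat.choose]
    · exact d 2 3 (by norm_num)
    · rw [disjoint_union_right]
      exact ⟨d 1 2 (by norm_num), d 1 3 (by norm_num)⟩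
    · rw [disjoint_union_right, disjoint_union_right]
      exact ⟨d 0 1 (by norm_num), d 0 2 (by norm_num), d 0 3 (by norm_num)⟩
  have hinj : Set.InjOn q (SM : Set (Finset β)) := by
    intro t ht u hu h
    rw [hq] at h
    have h1 := card_sd t u
    simp only [hSM, coe_filter, mem_univ, true_and, Set.mem_ofPred_eq] at ht hu
    have := hsmall _ h (by omega)
    exact symmDiff_eq_bot.1 this
  have himg : (SM.image q).card = 2325 := by rw [Finset.card_image_of_injOn hinj, hSMcard]
  set TT : Finset (Finset β) := (univ : Finset β).powersetCard 4 with hTT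
  have hTTcard : TT.card = 10626 := by
    rw [hTT, card_powersetCard, card_univ, hβ]
    decide +kernel
  set R : Finset ((β → ZMod 2) ⧸ C) := univ \ SM.image q with hR
  have hRcard : R.card = 1771 := by
    rw [hR, card_sdiff_of_subset (subset_univ _), himg, card_univ, hcardQ]
  have hmaps : ∀ t ∈ TT, q t ∈ R := by
    intro t ht
    rw [hR, mem_sdiff]
    refine ⟨mem_univ _, ?_⟩
    intro h
    rw [mem_image] at h
    obtain ⟨u, hu, huq⟩ := h
    rw [hq] at huq
    have h1 := card_sd u t
    rw [hTT, mem_powersetCard] at ht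
    simp only [hSM, mem_filter, mem_univ, true_and] at hu
    have := hsmall _ huq (by omega)
    rw [symmDiff_eq_bot.1 this] at hu
    omega
  have hdisj : ∀ c, ∀ t ∈ TT.filter (fun t => q t = c), ∀ u ∈ TT.filter (fun t => q t = c), t ≠ u → Disjoint t u := by
    intro c t ht u hu htu
    rw [mem_filter, hTT, mem_powersetCard] at ht hu
    have h := (hq t u).1 (ht.2.trans hu.2.symm)
    have h1 := card_sd t u
    rw [disjoint_iff_inter_eq_empty, ← Finset.card_eq_zero]
    by_contra hne
    have := hsmall _ h (by omega)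
    exact htu (symmDiff_eq_bot.1 this)
  have hunion : ∀ c, ((TT.filter (fun t => q t = c)).biUnion (fun t => t)).card = (TT.filter (fun t => q t = c)).card * 4 := by
    intro c
    rw [card_biUnion (hdisj c), Finset.sum_congr rfl (g := fun _ => 4), sum_const, smul_eq_mul]
    intro t ht
    rw [mem_filter, hTT, mem_powersetCard] at ht
    exact ht.1.2
  have hle : ∀ c ∈ R, (TT.filter (fun t => q t = c)).card ≤ 6 := by
    intro c _
    have h1 := hunion c
    have h2 : ((TT.filter (fun t => q t = c)).biUnion (fun t => t)).card ≤ 24 := by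
      rw [← hβ]
      exact card_le_univ _
    omega
  have hsum : TT.card = ∑ c ∈ R, (TT.filter (fun t => q t = c)).card :=
    Finset.card_eq_sum_card_fiberwise (fun t ht => hmaps t ht)
  have hall : ∀ c ∈ R, (TT.filter (fun t => q t = c)).card = 6 := by
    have h1 : ∑ c ∈ R, (TT.filter (fun t => q t = c)).card = ∑ c ∈ R, 6 := by
      rw [← hsum, hTTcard, sum_const, hRcard, smul_eq_mul]
    exact (Finset.sum_eq_sum_iff_of_le hle).1 h1
  set c0 : (β → ZMod 2) ⧸ C := Submodule.Quotient.mk w with hc0
  have hw : ∀ t : Finset β, w - ind t ∈ C ↔ q t = c0 := by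
    intro t
    show _ ↔ Submodule.Quotient.mk (ind t) = c0
    rw [hc0, eq_comm, Submodule.Quotient.eq]
  by_cases hc : c0 ∈ SM.image q
  · left
    rw [mem_image] at hc
    obtain ⟨t, ht, htq⟩ := hc
    have ht3 : t.card ≤ 3 := by
      simpa [hSM] using ht
    refine ⟨t, ht3, (hw t).2 htq, ?_⟩
    intro u hu4 huC
    rw [hw] at huC
    by_cases hu3 : u.card ≤ 3
    · exact hinj (by simp [hSM, hu3]) (by simp [hSM, ht3]) (huC.trans htq.symm)
    · exfalso
      have hu : u ∈ TT := by
        rw [hTT, mem_powersetCard]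
        exact ⟨subset_univ _, by omega⟩
      have h1 := hmaps u hu
      rw [hR, mem_sdiff] at h1
      apply h1.2
      rw [huC, ← htq]
      exact mem_image_of_mem q ht
  · right
    have hcR : c0 ∈ R := by
      rw [hR, mem_sdiff]
      exact ⟨mem_univ _, hc⟩
    have h6 := hall c0 hcR
    have hfull : (TT.filter (fun u => q u = c0)).biUnion (fun u => u) = univ := by
      rw [← Finset.card_eq_iff_eq_univ, hunion, h6, hβ]
    refine ⟨?_, ?_, ?_⟩
    · rw [← h6, ← Set.ncard_coe_finset]
      congr 1
      ext t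
      simp only [hTT, coe_filter, mem_powersetCard, subset_univ, true_and, Set.mem_ofPred_eq, hw]
    · intro u hu4 huC
      rw [hw] at huC
      by_contra hne
      apply hc
      rw [← huC]
      apply mem_image_of_mem
      simp only [hSM, mem_filter, mem_univ, true_and]
      omega
    · intro x
      have hxm : x ∈ (TT.filter (fun u => q u = c0)).biUnion (fun u => u) := by
        rw [hfull]
        exact mem_univ _
      rw [mem_biUnion] at hxm
      obtain ⟨t, ht, hxt⟩ := hxm
      rw [mem_filter, hTT, mem_powersetCard] at ht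
      exact ⟨t, ht.1.2, (hw t).2 ht.2, hxt⟩

end

open Cfsg

theorem golay_struct (w : GolayPt → ZMod 2) :
    (∃ t : Finset GolayPt, t.card ≤ 3 ∧ w - ind t ∈ golayCode ∧ ∀ u : Finset GolayPt, u.card ≤ 4 → w - ind u ∈ golayCode → u = t) ∨
    ({t : Finset GolayPt | t.card = 4 ∧ w - ind t ∈ golayCode}.ncard = 6 ∧
      (∀ u : Finset GolayPt, u.card ≤ 4 → w - ind u ∈ golayCode → u.card = 4) ∧
      ∀ x : GolayPt, ∃ t : Finset GolayPt, t.card = 4 ∧ w - ind t ∈ golayCode ∧ x ∈ t) := by
  classical
  have h := coset_struct (β := GolayPt) rfl golayCode Cfsg.Agent.S0358.result ?_ ?_ w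
  · exact h
  · intro s hs
    have := Cfsg.Agent.S0359.result _ hs
    rw [norm_ind] at this
    rcases this with h | h | h | h | h <;> rw [h] <;> norm_num
  · intro s hs
    have := Cfsg.Agent.S0359.result _ hs
    rw [norm_ind] at this
    omega

end Cfsg.Agent.H7.St
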