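import Mathlib
import Cfsg.Agent.H7_Cos
import Cfsg.Agent.H7_Oct

set_option autoImplicit false
set_option linter.all false

open Finset

/-!
The punctured code.
-/

namespace Cfsg.Agent.H7.Cos

open Cfsg Cfsg.Agent.H7.St Cfsg.Agent.H7.Golay Cfsg.Agent.H7.Oct

theorem ind_inj {β : Type*} [Fintype β] [DecidableEq β] {s t : Finset β} (h : ind s = ind t) : s = t := by
  rw [← supp_ind s, ← supp_ind t, h]

theorem coset (w : GolayPt → ZMod 2) : ({v : GolayPt → ZMod 2 | hammingNorm v ≤ 4 ∧ w - v ∈ golayCode}.ncard = 1 ∧ ∃ v : GolayPt → ZMod 2, hammingNorm v ≤ 3 ∧ w - v ∈ golayCode) ∨ ({v : GolayPt → ZMod 2 | hammingNorm v ≤ 4 ∧ w - v ∈ golayCode}.ncard = 6 ∧ ∀ v : GolayPt → ZMod 2, w - v ∈ golayCode → hammingNorm v ≤ 4 → hammingNorm v = 4) := by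
  rcases golay_struct w with ⟨t, h1, h2, h3⟩ | ⟨h1, h2, -⟩
  · left
    constructor
    · rw [Set.ncard_eq_one]
      refine ⟨ind t, ?_⟩
      ext v
      rw [Set.mem_ofPred_eq, Set.mem_singleton_iff]
      constructor
      · rintro ⟨h4, h5⟩
        rw [← ind_supp v] at h4 h5 ⊢
        rw [norm_ind] at h4
        rw [h3 _ h4 h5]
      · rintro rfl
        rw [norm_ind]
        exact ⟨by omega, h2⟩
    · exact ⟨ind t, by rw [norm_ind]; exact h1, h2⟩
  · right
    constructor
    · rw [← h1, ← Set.ncard_image_of_injective _ (fun s t h => ind_inj h : Function.Injective (ind : Finset GolayPt → GolayPt → ZMod 2))]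
      congr 1
      ext v
      rw [Set.mem_ofPred_eq, Set.mem_image]
      constructor
      · rintro ⟨h4, h5⟩
        rw [← ind_supp v, norm_ind] at h4
        rw [← ind_supp v] at h5
        exact ⟨support₂ v, ⟨h2 _ h4 h5, h5⟩, ind_supp v⟩
      · rintro ⟨s, ⟨h4, h5⟩, rfl⟩
        rw [norm_ind]
        exact ⟨h4.le, h5⟩
    · intro v h4 h5
      rw [← ind_supp v] at h4
      rw [← ind_supp v, norm_ind] at h5 ⊢
      exact h2 _ h5 h4

/-! puncturing -/

def P : Set (ZMod 23 → ZMod 2) := {u | ∃ w ∈ golayCode, ∀ x : ZMod 23, u x = w (some x)}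

def res (w : GolayPt → ZMod 2) : ZMod 23 → ZMod 2 := fun x => w (some x)

theorem norm_res (w : GolayPt → ZMod 2) : hammingNorm w = hammingNorm (res w) + (if w none = 0 then 0 else 1) := by
  unfold hammingNorm res
  rw [Finset.card_filter, Finset.card_filter, Fintype.sum_option, add_comm]
  congr 1
  by_cases h : w none = 0 <;> simp [h]

theorem min_golay {w : GolayPt → ZMod 2} (hw : w ∈ golayCode) (h0 : w ≠ 0) : 8 ≤ hammingNorm w := by
  rcases Cfsg.Agent.S0359.result w hw with h | h | h | h | h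
  · exact absurd (hammingNorm_eq_zero.1 h) h0
  all_goals omega

theorem min_P {u : ZMod 23 → ZMod 2} (hu : u ∈ P) (h0 : u ≠ 0) : 7 ≤ hammingNorm u := by
  obtain ⟨w, hw, hwu⟩ := hu
  have hu : u = res w := funext hwu
  have hw0 : w ≠ 0 := by
    rintro rfl
    exact h0 (by rw [hu]; rfl)
  have h1 := min_golay hw hw0
  have h2 := norm_res w
  rw [← hu] at h2
  split_ifs at h2 <;> omega

theorem P_sub {u v : ZMod 23 → ZMod 2} (hu : u ∈ P) (hv : v ∈ P) : u - v ∈ P := by
  obtain ⟨w, hw, hwu⟩ := hu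
  obtain ⟨w', hw', hwv⟩ := hv
  exact ⟨w - w', golayCode.sub_mem hw hw', fun x => by rw [Pi.sub_apply, hwu, hwv, Pi.sub_apply]⟩

theorem dist_norm {β : Type*} [Fintype β] (x y : β → ZMod 2) : hammingDist x y = hammingNorm (x - y) := by
  rw [hammingDist_eq_hammingNorm]
  congr 1
  funext b
  have : ∀ a c : ZMod 2, -a + c = a - c := by decide
  exact this _ _

theorem perfect (u : ZMod 23 → ZMod 2) : ∃! c : ZMod 23 → ZMod 2, c ∈ P ∧ hammingDist u c ≤ 3 := by
  let w0 : GolayPt → ZMod 2 := fun p => match p with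
    | none => 0
    | some x => u x
  have hw0 : res w0 = u := rfl
  have key : ∀ t : Finset GolayPt, w0 - ind t ∈ golayCode → hammingNorm (res (ind t)) ≤ 3 → ∃ c, c ∈ P ∧ hammingDist u c ≤ 3 := by
    intro t ht h3
    refine ⟨res (w0 - ind t), ⟨_, ht, fun x => rfl⟩, ?_⟩
    rw [dist_norm]
    have : u - res (w0 - ind t) = res (ind t) := by
      funext x
      show u x - (u x - ind t (some x)) = ind t (some x)
      ring
    rw [this]; exact h3
  have hex : ∃ c, c ∈ P ∧ hammingDist u c ≤ 3 := by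
    rcases golay_struct w0 with ⟨t, h1, h2, -⟩ | ⟨-, -, h3⟩
    · apply key t h2
      have := norm_res (ind t)
      rw [norm_ind] at this
      split_ifs at this <;> omega
    · obtain ⟨t, ht1, ht2, ht3⟩ := h3 none
      apply key t ht2
      have := norm_res (ind t)
      rw [norm_ind, ht1] at this
      have h1 : ind t none = 1 := by simp [ind, ht3]
      rw [h1, if_neg one_ne_zero] at this
      omega
  obtain ⟨c, hc1, hc2⟩ := hex
  refine ⟨c, ⟨hc1, hc2⟩, ?_⟩
  rintro d ⟨hd1, hd2⟩
  by_contra hne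
  have h1 := min_P (P_sub hd1 hc1) (sub_ne_zero.2 hne)
  have h2 : hammingDist d c ≤ hammingDist d u + hammingDist u c := hammingDist_triangle d u c
  rw [hammingDist_comm d u] at h2
  have h3 : hammingDist d c = hammingNorm (d - c) := dist_norm d c
  omega

end Cfsg.Agent.H7.Cos
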