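import Mathlib
import Cfsg.Agent.H7_Cos2

set_option autoImplicit false
set_option linter.all false

open Finset

/-!
Weights of the punctured code.
-/

namespace Cfsg.Agent.H7.Cos

open Cfsg Cfsg.Agent.H7.St Cfsg.Agent.H7.Golay Cfsg.Agent.H7.Oct

theorem res_word_and (m : ℕ) : res (word (m &&& 0x7fffff)) = res (word m) := by
  funext x
  unfold res word
  have h : (m &&& 0x7fffff).testBit (ix (some x)) = m.testBit (ix (some x)) := by
    rw [Nat.testBit_and]
    have : ∀ x : ZMod 23, (0x7fffff : ℕ).testBit (ix (some x)) = true := by decide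
    rw [this, Bool.and_true]
  rw [h]

theorem norm_res_word (m : ℕ) : hammingNorm (res (word m)) = pc (m &&& 0x7fffff) := by
  have h1 := norm_res (word (m &&& 0x7fffff))
  rw [res_word_and, hammingNorm_word] at h1
  have h2 : word (m &&& 0x7fffff) none = 0 := by
    unfold word
    have : (m &&& 0x7fffff).testBit (ix none) = false := by
      rw [Nat.testBit_and]
      have : (0x7fffff : ℕ).testBit (ix none) = false := by decide
      rw [this, Bool.and_false]
    rw [this]
    rfl
  rw [h2, if_pos rfl, add_zero] at h1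
  exact h1.symm

theorem res_inj {w w' : GolayPt → ZMod 2} (hw : w ∈ golayCode) (hw' : w' ∈ golayCode) (h : res w = res w') : w = w' := by
  by_contra hne
  have h1 := min_golay (golayCode.sub_mem hw hw') (sub_ne_zero.2 hne)
  have h2 := norm_res (w - w')
  have h3 : res (w - w') = 0 := by
    funext x
    have := congrFun h x
    unfold res at this ⊢
    rw [Pi.sub_apply, this, sub_self]; rfl
  rw [h3, hammingNorm_zero] at h2
  split_ifs at h2 <;> omega

theorem count (p : ℕ → Bool) : {u : ZMod 23 → ZMod 2 | u ∈ P ∧ p (hammingNorm u) = true}.ncard = (codeL.filter (fun m => p (pc (m &&& 0x7fffff)))).length := by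
  classical
  have h : {u : ZMod 23 → ZMod 2 | u ∈ P ∧ p (hammingNorm u) = true} = (fun m => res (word m)) '' ((codeL.filter (fun m => p (pc (m &&& 0x7fffff)))).toFinset : Set ℕ) := by
    ext u
    rw [Set.mem_ofPred_eq, Set.mem_image]
    constructor
    · rintro ⟨⟨w, hw, hwu⟩, h2⟩
      obtain ⟨m, hm, rfl⟩ := mem_golayCode_iff.1 hw
      have hu : u = res (word m) := funext hwu
      refine ⟨m, ?_, hu.symm⟩
      rw [List.coe_toFinset, Set.mem_ofPred_eq, List.mem_filter]
      rw [hu, norm_res_word] at h2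
      exact ⟨hm, h2⟩
    · rintro ⟨m, hm, rfl⟩
      rw [List.coe_toFinset, Set.mem_ofPred_eq, List.mem_filter] at hm
      refine ⟨⟨word m, mem_golayCode_iff.2 ⟨m, hm.1, rfl⟩, fun x => rfl⟩, ?_⟩
      rw [norm_res_word]
      exact hm.2
  rw [h, Set.ncard_image_of_injOn, Set.ncard_coe_finset, List.toFinset_card_of_nodup (codeL_nodup.filter _)]
  intro a ha b hb hab
  rw [List.coe_toFinset, Set.mem_ofPred_eq, List.mem_filter] at ha hb
  have h1 := res_inj (mem_golayCode_iff.2 ⟨a, ha.1, rfl⟩) (mem_golayCode_iff.2 ⟨b, hb.1, rfl⟩) hab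
  exact (word_inj (codeL_lt ha.1) (codeL_lt hb.1)).1 h1

theorem count_eq (k c : ℕ) (h : (codeL.filter (fun m => Nat.beq (pc (Nat.land m 0x7fffff)) k)).length = c) :
    {u : ZMod 23 → ZMod 2 | u ∈ P ∧ hammingNorm u = k}.ncard = c := by
  rw [← h]
  have h2 := count (fun n => Nat.beq n k)
  rw [show (codeL.filter (fun m => Nat.beq (pc (Nat.land m 0x7fffff)) k)).length = _ from h2.symm]
  congr 1
  ext u
  rw [Set.mem_ofPred_eq, Set.mem_ofPred_eq, Nat.beq_eq]

theorem count_all : P.ncard = 4096 := by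
  have h := count (fun _ => true)
  rw [List.filter_true] at h
  rw [codeL_length] at h
  rw [← h]
  congr 1
  ext u
  rw [Set.mem_ofPred_eq]
  exact ⟨fun h => ⟨h, rfl⟩, fun h => h.1⟩

theorem c7 : (codeL.filter (fun m => Nat.beq (pc (Nat.land m 0x7fffff)) 7)).length = 253 := by decide +kernel
theorem c8 : (codeL.filter (fun m => Nat.beq (pc (Nat.land m 0x7fffff)) 8)).length = 506 := by decide +kernel
theorem c11 : (codeL.filter (fun m => Nat.beq (pc (Nat.land m 0x7fffff)) 11)).length = 1288 := by decide +kernel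
theorem c12 : (codeL.filter (fun m => Nat.beq (pc (Nat.land m 0x7fffff)) 12)).length = 1288 := by decide +kernel
theorem c15 : (codeL.filter (fun m => Nat.beq (pc (Nat.land m 0x7fffff)) 15)).length = 506 := by decide +kernel
theorem c16 : (codeL.filter (fun m => Nat.beq (pc (Nat.land m 0x7fffff)) 16)).length = 253 := by decide +kernel

theorem weights : P.ncard = 4096 ∧ {u : ZMod 23 → ZMod 2 | u ∈ P ∧ hammingNorm u = 7}.ncard = 253 ∧
    {u : ZMod 23 → ZMod 2 | u ∈ P ∧ hammingNorm u = 8}.ncard = 506 ∧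
    {u : ZMod 23 → ZMod 2 | u ∈ P ∧ hammingNorm u = 11}.ncard = 1288 ∧
    {u : ZMod 23 → ZMod 2 | u ∈ P ∧ hammingNorm u = 12}.ncard = 1288 ∧
    {u : ZMod 23 → ZMod 2 | u ∈ P ∧ hammingNorm u = 15}.ncard = 506 ∧
    {u : ZMod 23 → ZMod 2 | u ∈ P ∧ hammingNorm u = 16}.ncard = 253 ∧
    ∀ u ∈ P, u ≠ 0 → 7 ≤ hammingNorm u :=
  ⟨count_all, count_eq _ _ c7, count_eq _ _ c8, count_eq _ _ c11, count_eq _ _ c12, count_eq _ _ c15, count_eq _ _ c16,
    fun u hu h0 => min_P hu h0⟩

end Cfsg.Agent.H7.Cos
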