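import Mathlib
import Cfsg.Agent.H7_PairFacts

set_option autoImplicit false

/-! Small lemmas used to apply `H7_PairFacts`. -/

namespace Cfsg.Agent.H7.PairUse

open Cfsg Cfsg.Agent.H7.Golay Cfsg.Agent.H7.Oct Cfsg.Agent.H7.M24 Cfsg.Agent.H7.M24b Cfsg.Agent.H7.M24c
open Cfsg.Agent.H7.M24d Cfsg.Agent.H7.Pairs Cfsg.Agent.H7.PairFacts
open scoped Pointwise

theorem octad_inter {o o' : Finset GolayPt} (ho : o ∈ octads) (ho' : o' ∈ octads) :
    (o ∩ o').card = 0 ∨ (o ∩ o').card = 2 ∨ (o ∩ o').card = 4 ∨ (o ∩ o').card = 8 := by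
  have h1 := symmDiff_mem_supports ho.1 ho'.1
  have h2 := card_symmDiff' o o'
  have h3 := supports_weight h1
  rw [ho.2, ho'.2] at h2
  have h4 : (o ∩ o').card ≤ 8 := by rw [← ho.2]; exact Finset.card_le_card Finset.inter_subset_left
  omega

theorem octad_inter_eight {o o' : Finset GolayPt} (ho : o ∈ octads) (ho' : o' ∈ octads)
    (h : (o ∩ o').card = 8) : o = o' := eq_of_five ho ho' (by omega)

theorem dodecad_inter {d d' : Finset GolayPt} (hd : d ∈ dodecads) (hd' : d' ∈ dodecads) :
    (d ∩ d').card = 0 ∨ (d ∩ d').card = 4 ∨ (d ∩ d').card = 6 ∨ (d ∩ d').card = 8 ∨ (d ∩ d').card = 12 := by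
  have h1 := symmDiff_mem_supports hd.1 hd'.1
  have h2 := card_symmDiff' d d'
  have h3 := supports_weight h1
  rw [hd.2, hd'.2] at h2
  have h4 : (d ∩ d').card ≤ 12 := by rw [← hd.2]; exact Finset.card_le_card Finset.inter_subset_left
  omega

theorem dodecad_inter_12 {d d' : Finset GolayPt} (hd : d ∈ dodecads) (hd' : d' ∈ dodecads)
    (h : (d ∩ d').card = 12) : d = d' := by
  have h1 : d ∩ d' = d := Finset.eq_of_subset_of_card_le Finset.inter_subset_left (by rw [h, hd.2])
  have h2 : d ∩ d' = d' := Finset.eq_of_subset_of_card_le Finset.inter_subset_right (by rw [h, hd'.2])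
  rw [← h1]; exact h2

theorem dodecad_inter_0 {d d' : Finset GolayPt} (hd : d ∈ dodecads) (hd' : d' ∈ dodecads)
    (h : (d ∩ d').card = 0) : d' = dᶜ := by
  have h1 : d' ⊆ dᶜ := by
    intro x hx
    rw [Finset.mem_compl]
    intro hxd
    rw [Finset.card_eq_zero] at h
    have : x ∈ d ∩ d' := Finset.mem_inter.2 ⟨hxd, hx⟩
    rw [h] at this
    exact absurd this (Finset.notMem_empty x)
  apply Finset.eq_of_subset_of_card_le h1
  rw [Finset.card_compl, hd.2, hd'.2]
  decide

theorem octadsSet {s : Finset GolayPt} : mask s ∈ octL ↔ s ∈ octads := mem_octads_iff.symm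

theorem dodecadsSet {s : Finset GolayPt} : mask s ∈ dodL ↔ s ∈ dodecads := mem_dodecads_iff.symm

/-- a set of `k ≤ 5` points to the first `k` points -/
theorem std_set {s : Finset GolayPt} {k : ℕ} (hk : k ≤ 5) (hs : s.card = k) :
    ∃ h ∈ M24, h • s = ofMask (2 ^ k - 1) := by
  let e := (s.equivFinOfCardEq hs).symm
  obtain ⟨g, hg, h⟩ := ktrans k hk (fun i => (e i : GolayPt)) (fun i => pt i)
    (fun i j hij => e.injective (Subtype.ext hij)) (by
      intro i j hij
      exact Fin.ext ((pt_inj (by omega) (by omega)).1 hij))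
  refine ⟨g, hg, ?_⟩
  have hc : (ofMask (2 ^ k - 1)).card = k := by
    rw [card_ofMask]
    have : ∀ k, k ≤ 5 → pc (2 ^ k - 1) = k := by decide
    exact this k hk
  symm
  apply Finset.eq_of_subset_of_card_le
  · intro p hp
    rw [mem_ofMask, Nat.testBit_two_pow_sub_one, decide_eq_true_eq] at hp
    rw [Finset.mem_smul_finset]
    refine ⟨e ⟨ix p, hp⟩, (e ⟨ix p, hp⟩).2, ?_⟩
    have := h ⟨ix p, hp⟩
    rw [Equiv.Perm.smul_def, this, pt_ix]
  · rw [hc, Finset.card_smul_finset, hs]

/-- two points and a pair of further points -/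
theorem std_ppp {p q : GolayPt} (hpq : p ≠ q) {s : Finset GolayPt} (hs : s.card = 2) (hp : p ∉ s) (hq : q ∉ s) :
    ∃ h ∈ M24, h • ((p, q, s) : GolayPt × GolayPt × Finset GolayPt) = (pt 0, pt 1, ofMask 12) := by
  obtain ⟨a, b, hab, rfl⟩ := Finset.card_eq_two.1 hs
  have h1 : p ≠ a := fun h => hp (by rw [h]; simp)
  have h2 : p ≠ b := fun h => hp (by rw [h]; simp)
  have h3 : q ≠ a := fun h => hq (by rw [h]; simp)
  have h4 : q ≠ b := fun h => hq (by rw [h]; simp)
  obtain ⟨g, hg, h⟩ := ktrans 4 (by norm_num) ![p, q, a, b] (fun i => pt i) (by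
      intro i j hij
      fin_cases i <;> fin_cases j <;> simp_all) (by
      intro i j hij
      exact Fin.ext ((pt_inj (by omega) (by omega)).1 hij))
  refine ⟨g, hg, Prod.ext (h 0) (Prod.ext (h 1) ?_)⟩
  show g • ({a, b} : Finset GolayPt) = ofMask 12
  have e : ofMask 12 = {pt 2, pt 3} := by decide
  rw [e, Finset.smul_finset_insert, Finset.smul_finset_singleton]
  have h5 : g • a = pt 2 := h 2
  have h6 : g • b = pt 3 := h 3
  rw [h5, h6]

/-- octads meeting an octad in a prescribed set -/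
theorem octad_trace {o : Finset GolayPt} (ho : o ∈ octads) (k : ℕ) (hk : k ≤ 5) (s : Finset GolayPt) (hs : s ⊆ o)
    (hc : s.card = k) : {o' : Finset GolayPt | o' ∈ octads ∧ o ∩ o' = s}.ncard =
      (octL.filter fun m => Nat.beq (Nat.land 5279 m) (2 ^ k - 1)).length := by
  let e := (s.equivFinOfCardEq hc).symm
  obtain ⟨g, hg, hgo, h⟩ := std_in ho k hk (fun i => (e i : GolayPt))
    (fun i j hij => e.injective (Subtype.ext hij)) (fun i => hs (e i).2)
  have hgs : g • s = ofMask (2 ^ k - 1) := by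
    have hc' : (ofMask (2 ^ k - 1)).card = k := by
      rw [card_ofMask]
      have : ∀ k, k ≤ 5 → pc (2 ^ k - 1) = k := by decide
      exact this k hk
    symm
    apply Finset.eq_of_subset_of_card_le
    · intro p hp
      rw [mem_ofMask, Nat.testBit_two_pow_sub_one, decide_eq_true_eq] at hp
      rw [Finset.mem_smul_finset]
      refine ⟨e ⟨ix p, hp⟩, (e ⟨ix p, hp⟩).2, ?_⟩
      have := h ⟨ix p, hp⟩
      rw [Equiv.Perm.smul_def, this, pt_ix]
    · rw [hc', Finset.card_smul_finset, hc]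
  rw [ncard_transport g _ {o' : Finset GolayPt | o' ∈ octads ∧ O0 ∩ o' = ofMask (2 ^ k - 1)}]
  · apply ncard_of_list _ (octL_nodup.filter _)
    · intro m hm
      exact octL_lt (List.mem_of_mem_filter hm)
    · intro s
      rw [List.mem_filter, ← mem_octads_iff, beq_iff]
      refine and_congr_right fun hs' => ?_
      have h2 : O0 ∩ s = ofMask (Nat.land 5279 (mask s)) := by
        have : ofMask (5279 &&& mask s) = ofMask 5279 ∩ ofMask (mask s) := ofMask_and _ _
        rw [ofMask_mask] at this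
        exact this.symm
      rw [h2, ofMask_inj]
      · exact Nat.and_lt_two_pow (n := 24) _ (mask_lt s)
      · have : 2 ^ k ≤ 2 ^ 5 := Nat.pow_le_pow_right (by norm_num) hk
        omega
  · intro o'
    refine and_congr (smul_mem_octads_iff hg).symm ?_
    rw [← hgs, ← hgo, ← Finset.smul_finset_inter]
    exact (smul_left_cancel_iff g).symm

end Cfsg.Agent.H7.PairUse
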