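import Mathlib
import Cfsg.Agent.H7_PairUse

set_option autoImplicit false

/-!
Pairs of complementary dodecads.
-/

namespace Cfsg.Agent.H7.DodPair

open Cfsg Cfsg.Agent.H7.Golay Cfsg.Agent.H7.Oct Cfsg.Agent.H7.M24 Cfsg.Agent.H7.M24b Cfsg.Agent.H7.M24c
  Cfsg.Agent.H7.M24d Cfsg.Agent.H7.Pairs Cfsg.Agent.H7.PairFacts Cfsg.Agent.H7.PairUse
open scoped Pointwise

/-- a set and its complement -/
def pr (e : Finset GolayPt) : Finset (Finset GolayPt) := {e, eᶜ}

theorem mem_pr {e f : Finset GolayPt} : f ∈ pr e ↔ f = e ∨ f = eᶜ := by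
  rw [pr, Finset.mem_insert, Finset.mem_singleton]

theorem pr_compl (e : Finset GolayPt) : pr eᶜ = pr e := by
  ext f
  rw [mem_pr, mem_pr, compl_compl, or_comm]

theorem pr_eq {e f : Finset GolayPt} (h : pr e = pr f) : e = f ∨ e = fᶜ := by
  have : e ∈ pr f := by rw [← h, mem_pr]; exact Or.inl rfl
  exact mem_pr.1 this

theorem smul_compl' (g : Equiv.Perm GolayPt) (e : Finset GolayPt) : g • eᶜ = (g • e)ᶜ := by
  ext x
  rw [Finset.mem_compl, Finset.mem_smul_finset, Finset.mem_smul_finset]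
  constructor
  · rintro ⟨y, hy, rfl⟩ ⟨z, hz, h⟩
    rw [g.injective h] at hz
    exact (Finset.mem_compl.1 hy) hz
  · intro h
    refine ⟨g⁻¹ x, ?_, g.apply_symm_apply x⟩
    rw [Finset.mem_compl]
    intro h'
    exact h ⟨_, h', g.apply_symm_apply x⟩

theorem smul_pr (g : Equiv.Perm GolayPt) (e : Finset GolayPt) : g • pr e = pr (g • e) := by
  ext f
  rw [mem_pr, Finset.mem_smul_finset]
  constructor
  · rintro ⟨y, hy, rfl⟩
    rcases mem_pr.1 hy with rfl | rfl
    · exact Or.inl rfl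
    · exact Or.inr (smul_compl' g e)
  · rintro (rfl | rfl)
    · exact ⟨e, mem_pr.2 (Or.inl rfl), rfl⟩
    · exact ⟨eᶜ, mem_pr.2 (Or.inr rfl), smul_compl' g e⟩

theorem smul_pr' (g : ↥M24) (e : Finset GolayPt) : g • pr e = pr ((g : Equiv.Perm GolayPt) • e) := smul_pr g.1 e

theorem compl_mem_dod {d : Finset GolayPt} (hd : d ∈ dodecads) : dᶜ ∈ dodecads :=
  ⟨compl_mem_supports hd.1, by rw [Finset.card_compl, hd.2]; rfl⟩

theorem inter_compl_card {d e : Finset GolayPt} (hd : d.card = 12) : (d ∩ e).card + (d ∩ eᶜ).card = 12 := by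
  rw [← hd, ← Finset.card_union_of_disjoint, ← Finset.inter_union_distrib_left, Finset.union_compl,
    Finset.inter_univ]
  exact Finset.disjoint_of_subset_left Finset.inter_subset_right
    (Finset.disjoint_of_subset_right Finset.inter_subset_right disjoint_compl_right)

theorem ncard_pr_two (S : Set (Finset GolayPt)) (hS : ∀ e ∈ S, eᶜ ∈ S) (hfin : S.Finite) :
    2 * (pr '' S).ncard = S.ncard := by
  have h1 : S = {e | e ∈ S ∧ pt 0 ∈ e} ∪ {e | e ∈ S ∧ pt 0 ∉ e} := by
    ext e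
    constructor
    · intro he
      by_cases h : pt 0 ∈ e
      · exact Or.inl ⟨he, h⟩
      · exact Or.inr ⟨he, h⟩
    · rintro (h | h)
      · exact h.1
      · exact h.1
  have h2 : {e | e ∈ S ∧ pt 0 ∉ e} = compl '' {e | e ∈ S ∧ pt 0 ∈ e} := by
    ext e
    constructor
    · rintro ⟨h, h'⟩
      exact ⟨eᶜ, ⟨hS _ h, Finset.mem_compl.2 h'⟩, compl_compl e⟩
    · rintro ⟨f, ⟨h, h'⟩, rfl⟩
      exact ⟨hS _ h, fun hx => Finset.mem_compl.1 hx h'⟩
  have h3 : {e | e ∈ S ∧ pt 0 ∉ e}.ncard = {e | e ∈ S ∧ pt 0 ∈ e}.ncard := by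
    rw [h2, Set.ncard_image_of_injective _ compl_injective]
  have h4 : S.ncard = 2 * {e | e ∈ S ∧ pt 0 ∈ e}.ncard := by
    conv_lhs => rw [h1]
    rw [Set.ncard_union_eq _ (hfin.subset fun e he => he.1) (hfin.subset fun e he => he.1), h3, two_mul]
    rw [Set.disjoint_left]
    rintro e ⟨_, h⟩ ⟨_, h'⟩
    exact h' h
  have h5 : pr '' S = pr '' {e | e ∈ S ∧ pt 0 ∈ e} := by
    ext Y
    constructor
    · rintro ⟨e, he, rfl⟩
      by_cases h : pt 0 ∈ e
      · exact ⟨e, ⟨he, h⟩, rfl⟩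
      · exact ⟨eᶜ, ⟨hS _ he, Finset.mem_compl.2 h⟩, pr_compl e⟩
    · rintro ⟨e, he, rfl⟩
      exact ⟨e, he.1, rfl⟩
  rw [h5, h4, Set.InjOn.ncard_image]
  rintro e ⟨_, h⟩ f ⟨_, h'⟩ hef
  rcases pr_eq hef with h1 | h1
  · exact h1
  · rw [h1] at h
    exact absurd h' (Finset.mem_compl.1 h)

theorem coatom {d : Finset GolayPt} (hd : d ∈ dodecads) : IsCoatom (MulAction.stabilizer M24 (pr d)) := by
  have hself : (d ∩ d).card = 12 := by rw [Finset.inter_self, hd.2]
  have hnil : (d ∩ dᶜ).card = 0 := by rw [Finset.inter_compl]; rfl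
  have hset : ∀ k, {s : Finset GolayPt | mask s ∈ dodL ∧ (fun X s => (X ∩ s).card = k) d s} =
      {e : Finset GolayPt | e ∈ dodecads ∧ (d ∩ e).card = k} := by
    intro k
    ext e
    exact and_congr_left fun _ => dodecadsSet
  refine coatom_of_suborbits (G := ↥M24) (pr d) 2
    ![pr '' {e | e ∈ dodecads ∧ (d ∩ e).card = 8}, pr '' {e | e ∈ dodecads ∧ (d ∩ e).card = 6}]
    ?_ ?_ ?_ ?_ ![495, 792] ?_ ⟨0, by decide⟩ (by decide)
  · intro Y
    constructor
    · rintro ⟨g, rfl⟩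
      have h1 : g.1 • d ∈ dodecads := (smul_mem_dodecads_iff g.2).2 hd
      have h2 := dodecad_inter hd h1
      have h3 : g • pr d = pr (g.1 • d) := smul_pr' g d
      change g • pr d = _ ∨ ∃ i, g • pr d ∈ _
      rw [h3]
      rcases h2 with h | h | h | h | h
      · left
        rw [dodecad_inter_0 hd h1 h, pr_compl]
      · right
        refine ⟨0, (g.1 • d)ᶜ, ⟨compl_mem_dod h1, ?_⟩, pr_compl _⟩
        have := inter_compl_card (e := g.1 • d) hd.2
        omega
      · exact Or.inr ⟨1, _, ⟨h1, h⟩, rfl⟩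
      · exact Or.inr ⟨0, _, ⟨h1, h⟩, rfl⟩
      · left
        rw [← dodecad_inter_12 hd h1 h]
    · intro h
      have : ∃ e ∈ dodecads, pr e = Y := by
        rcases h with rfl | ⟨i, hi⟩
        · exact ⟨d, hd, rfl⟩
        · fin_cases i
          · obtain ⟨e, he, rfl⟩ := hi
            exact ⟨e, he.1, rfl⟩
          · obtain ⟨e, he, rfl⟩ := hi
            exact ⟨e, he.1, rfl⟩
      obtain ⟨e, he, rfl⟩ := this
      obtain ⟨g, hg, h⟩ := dodecad_trans hd he
      refine ⟨⟨g, hg⟩, ?_⟩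
      show g • pr d = pr e
      rw [smul_pr, h]
  · intro i hi
    fin_cases i
    · obtain ⟨e, he, hY⟩ := hi
      have h8 := he.2
      rcases pr_eq hY with h | h
      · rw [h, hself] at h8; omega
      · rw [h, hnil] at h8; omega
    · obtain ⟨e, he, hY⟩ := hi
      have h8 := he.2
      rcases pr_eq hY with h | h
      · rw [h, hself] at h8; omega
      · rw [h, hnil] at h8; omega
  · have key : ∀ Y, Y ∈ pr '' {e | e ∈ dodecads ∧ (d ∩ e).card = 8} →
        Y ∈ pr '' {e | e ∈ dodecads ∧ (d ∩ e).card = 6} → False := by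
      rintro _ ⟨e, ⟨he, h8⟩, rfl⟩ ⟨f, ⟨hf, h6⟩, hfe⟩
      have h2 := inter_compl_card (e := e) hd.2
      rcases pr_eq hfe with h | h
      · rw [h] at h6; omega
      · rw [h] at h6; omega
    intro i j Y hi hj
    fin_cases i <;> fin_cases j
    · rfl
    · exact (key Y hi hj).elim
    · exact (key Y hj hi).elim
    · rfl
  · intro i Y hY Y' hY'
    fin_cases i
    · obtain ⟨e, he, rfl⟩ := hY
      obtain ⟨f, hf, rfl⟩ := hY'
      obtain ⟨g, hg, h1, h2⟩ := trans_dd8 (dodecad_std hd) (dodecadsSet.2 he.1) (dodecadsSet.2 hf.1) he.2 hf.2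
      refine ⟨⟨g, hg⟩, ?_, ?_⟩
      · show g • pr d = pr d
        rw [smul_pr, h1]
      · show g • pr e = pr f
        rw [smul_pr, h2]
    · obtain ⟨e, he, rfl⟩ := hY
      obtain ⟨f, hf, rfl⟩ := hY'
      obtain ⟨g, hg, h1, h2⟩ := trans_dd6 (dodecad_std hd) (dodecadsSet.2 he.1) (dodecadsSet.2 hf.1) he.2 hf.2
      refine ⟨⟨g, hg⟩, ?_, ?_⟩
      · show g • pr d = pr d
        rw [smul_pr, h1]
      · show g • pr e = pr f
        rw [smul_pr, h2]
  · have hfin : ∀ k, ({e : Finset GolayPt | e ∈ dodecads ∧ (d ∩ e).card = k}).Finite := fun k => Set.toFinite _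
    intro i
    fin_cases i
    · show (pr '' {e | e ∈ dodecads ∧ (d ∩ e).card = 8}).ncard = 495
      rw [Set.InjOn.ncard_image, ← hset, count_dd8 (dodecad_std hd)]
      rintro e ⟨_, he⟩ f ⟨_, hf⟩ hef
      rcases pr_eq hef with h | h
      · exact h
      · have h2 := inter_compl_card (e := f) hd.2
        rw [h] at he
        omega
    · show (pr '' {e | e ∈ dodecads ∧ (d ∩ e).card = 6}).ncard = 792
      have h1 := ncard_pr_two {e | e ∈ dodecads ∧ (d ∩ e).card = 6} (by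
        rintro e ⟨he, he'⟩
        refine ⟨compl_mem_dod he, ?_⟩
        have h2 := inter_compl_card (e := e) hd.2
        omega) (hfin 6)
      rw [← hset 6, count_dd6 (dodecad_std hd), hset 6] at h1
      omega

end Cfsg.Agent.H7.DodPair
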