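import Mathlib
import Cfsg.Prelude.Def_SporadicB
import Cfsg.Prelude.Def_FischerSpaces
import Cfsg.Agent.H7_Fis4

set_option autoImplicit false

/-!
3-transposition groups with `O(⟨D_x⟩)` not central: twins, and absence of triangles in the commuting graph.
-/

namespace Cfsg.Agent.H7.Fis

open Cfsg Cfsg.Agent.H28.Basic Cfsg.Agent.H28.TT1

variable {G : Type*} [Group G] {D : Set G}

/-- `w` is a twin of `v` relative to `u` -/
def Tw (D : Set G) (u v w : G) : Prop := v ∈ DD D u ∧ w ∈ DD D u ∧ ∀ y ∈ DD D u, (y ∈ DD D v ↔ y ∈ DD D w)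

theorem DD_symm {u v : G} (hu : u ∈ D) (h : v ∈ DD D u) : u ∈ DD D v := ⟨hu, h.2.1.symm, h.2.2.symm⟩

theorem Tw.symm {u v w : G} (h : Tw D u v w) : Tw D u w v := ⟨h.2.1, h.1, fun y hy => (h.2.2 y hy).symm⟩

theorem Tw.cj (hc : ∀ g : G, ∀ d ∈ D, g * d * g⁻¹ ∈ D) {u v w : G} (g : G) (h : Tw D u v w) :
    Tw D (cj g u) (cj g v) (cj g w) := by
  refine ⟨(cjDD hc).2 h.1, (cjDD hc).2 h.2.1, ?_⟩
  intro y hy
  rw [← cj_cj_inv g y] at hy ⊢
  rw [cjDD hc] at hy ⊢
  rw [cjDD hc]
  exact h.2.2 _ hy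

/-- distinct twins do not commute -/
theorem Tw.nc {u v w : G} (h : Tw D u v w) (hne : v ≠ w) : ¬ Commute v w := by
  intro hcm
  have h1 : w ∈ DD D v := ⟨h.2.1.1, hne.symm, hcm⟩
  exact ((h.2.2 w h.2.1).1 h1).2.1 rfl

/-- a third point of a line through `c`, seen from a point commuting with one of them -/
theorem cj_fix_iff {g x : G} : cj g x = x ↔ Commute g x := by
  unfold cj
  rw [mul_inv_eq_iff_eq_mul]
  exact Iff.rfl

theorem nc_third (hS : IsThreeTranspositionSet D) {a b c : G} (hb : b ∈ D) (hc : c ∈ D) (hbc : ¬ Commute b c)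
    (hac : Commute a c) (hab : ¬ Commute a b) : ¬ Commute a (cj b c) := by
  intro h
  apply hab
  have h2 : cj (cj b c) c = b := (third_conj hS hb hc hbc).2
  rw [← h2]
  exact commute_third h hac

section four

variable (hS : IsThreeTranspositionSet D) (hc : ∀ g : G, ∀ d ∈ D, g * d * g⁻¹ ∈ D)

include hS in
theorem cj_self_twice {s x : G} (hs : s ∈ D) : cj s (cj s x) = x := by
  rw [cj_cj, tt_sq hS hs]; unfold cj; group

include hS hc in
/-- the flip of a path `d - p - c - a` -/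
theorem path_flip {d p c a : G} (hd : d ∈ D) (hp : p ∈ D) (hcD : c ∈ D) (ha : a ∈ D)
    (hdp : ¬ Commute d p) (hpc : ¬ Commute p c) (hca : ¬ Commute c a) (hdc : Commute d c) (hda : Commute d a) (hpa : Commute p a) :
    ∃ g : G, cj g d = a ∧ cj g a = d ∧ cj g p = c ∧ cj g c = p := by
  have hpcs : ¬ Commute c p := fun h => hpc h.symm
  obtain ⟨s, hs⟩ : ∃ s, s = cj c p := ⟨_, rfl⟩
  have hsD : s ∈ D := by rw [hs]; exact hc c p hp
  have hs' : s = cj p c := by rw [hs]; exact third_swap hS hcD hp hpcs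
  have hsc : cj s c = p := by rw [hs]; exact (third_conj hS hcD hp hpcs).1
  have hsp : cj s p = c := by rw [hs]; exact (third_conj hS hcD hp hpcs).2
  have hds : ¬ Commute d s := by
    rw [hs']
    exact nc_third hS hp hcD hpc hdc hdp
  have has : ¬ Commute a s := by
    rw [hs]
    exact nc_third hS hcD hp hpcs hpa.symm (fun h => hca h.symm)
  obtain ⟨q, hq⟩ : ∃ q, q = cj s a := ⟨_, rfl⟩
  obtain ⟨r, hr⟩ : ∃ r, r = cj s d := ⟨_, rfl⟩
  have hqD : q ∈ D := by rw [hq]; exact hc s a ha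
  have hrD : r ∈ D := by rw [hr]; exact hc s d hd
  obtain ⟨t, ht⟩ : ∃ t, t = cj d q := ⟨_, rfl⟩
  have ht' : t = cj a r := by
    rw [ht, hq, hr, third_swap hS hsD ha (fun h => has h.symm), cj_cj, hda.eq, ← cj_cj,
      third_swap hS hd hsD hds]
  have hdq : ¬ Commute d q := by
    rw [hq]; exact nc_third hS hsD ha (fun h => has h.symm) hda hds
  have har : ¬ Commute a r := by
    rw [hr]; exact nc_third hS hsD hd (fun h => hds h.symm) hda.symm has
  have htd : cj t d = q := by rw [ht]; exact (third_conj hS hd hqD hdq).1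
  have hta : cj t a = r := by rw [ht']; exact (third_conj hS ha hrD har).1
  have hsq : cj s q = a := by rw [hq]; exact cj_self_twice hS hsD
  have hsr : cj s r = d := by rw [hr]; exact cj_self_twice hS hsD
  have hpr : Commute p r := by
    rw [hr, ← hsc]; exact cj_commute.2 hdc.symm
  have hcq : Commute c q := by
    rw [hq, ← hsp]; exact cj_commute.2 hpa
  have htp : Commute t p := by rw [ht']; exact (commute_third hpa hpr).symm
  have htc : Commute t c := by rw [ht]; exact (commute_third hdc.symm hcq).symm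
  refine ⟨s * t, ?_, ?_, ?_, ?_⟩
  · rw [← cj_cj, htd, hsq]
  · rw [← cj_cj, hta, hsr]
  · rw [← cj_cj, cj_of_commute htp, hsp]
  · rw [← cj_cj, cj_of_commute htc, hsc]

end four

section main

variable [Finite G] (hD : Hyp D)

include hD in
/-- members are determined by their commuting partners -/
theorem DD_inj {d b : G} (hd : d ∈ D) (hb : b ∈ DD D d) {u v : G} (hu : u ∈ D) (hv : v ∈ D) (h : DD D u = DD D v) : u = v := by
  by_contra hne
  have key : ∀ z, Relation.ReflTransGen (fun a b => DD D a = DD D b) d z → DD D d = DD D z := by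
    intro z hz
    induction hz with
    | refl => rfl
    | tail _ h2 ih => exact ih.trans h2
  have hcon := conn_of_prim hD (R := fun a b => DD D a = DD D b) (fun _ _ h => h.symm) (fun g a b hab => by
    ext y
    rw [← cj_cj_inv g y, cjDD hD.hc, cjDD hD.hc, hab]) hu hv hne h hd hb.1
  have h2 := key b hcon
  have h3 : b ∈ DD D b := h2 ▸ hb
  exact h3.2.1 rfl

include hD in
theorem card_DD {u v : G} (hu : u ∈ D) (hv : v ∈ D) : (DD D u).ncard = (DD D v).ncard := by
  obtain ⟨g, hg⟩ := hD.hprim.1 u hu v hv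
  have : DD D v = cj g '' DD D u := by
    rw [show v = cj g u from hg.symm]
    ext y
    constructor
    · intro hy
      refine ⟨cj g⁻¹ y, ?_, cj_cj_inv g y⟩
      rw [← cj_cj_inv g y, cjDD hD.hc] at hy
      exact hy
    · rintro ⟨z, hz, rfl⟩
      exact (cjDD hD.hc).2 hz
  rw [this, Set.ncard_image_of_injective _ (fun _ _ h => cj_inj h)]

include hD in
/-- key lemma -/
theorem tw_key {a d d1 : G} (ha : a ∈ D) (h : Tw D a d d1) (hne : d ≠ d1) : ∃ w, Tw D d a w ∧ ¬ Commute w d1 := by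
  have hd : d ∈ D := h.1.1
  have hd1 : d1 ∈ D := h.2.1.1
  have hnc : ¬ Commute d d1 := h.nc hne
  obtain ⟨c, hcd, hcd1⟩ : ∃ c, c ∈ DD D d ∧ c ∉ DD D d1 := by
    by_contra hcon
    push Not at hcon
    exact hne (DD_inj hD ha h.1 hd hd1 (Set.eq_of_subset_of_ncard_le hcon (card_DD hD hd hd1).ge (Set.toFinite _)))
  have hcD : c ∈ D := hcd.1
  have hcd1' : ¬ Commute d1 c := fun hcm => hcd1 ⟨hcD, fun e => hnc (e ▸ hcd.2.2), hcm⟩
  have hca : ¬ Commute c a := by
    intro hcm
    have hca : c ≠ a := by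
      rintro rfl
      exact hcd1' h.2.1.2.2.symm
    exact hcd1 ((h.2.2 c ⟨hcD, hca, hcm.symm⟩).1 hcd)
  obtain ⟨g, h1, h2, h3, h4⟩ := path_flip hD.hS hD.hc hd hd1 hcD ha hnc hcd1' hca hcd.2.2 h.1.2.2.symm h.2.1.2.2.symm
  refine ⟨c, ?_, fun e => hcd1' e.symm⟩
  have := h.cj hD.hc g
  rwa [h1, h2, h3] at this

include hD in
/-- transitivity on commuting pairs -/
theorem trans_pairs {a b c d : G} (ha : a ∈ D) (hb : b ∈ DD D a) (hc : c ∈ D) (hd : d ∈ DD D c) :
    ∃ g : G, cj g a = c ∧ cj g b = d := by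
  obtain ⟨g, hg⟩ := hD.hprim.1 a ha c hc
  have hb' : cj g b ∈ DD D c := by
    rw [← show cj g a = c from hg]; exact (cjDD hD.hc).2 hb
  obtain ⟨g', hg', hg2⟩ := trans_DD hD hc hb' hd
  refine ⟨g' * g, ?_, ?_⟩
  · rw [← cj_cj, show cj g a = c from hg]
    apply cj_of_commute
    have : ∀ z ∈ Subgroup.closure (DD D c), Commute z c := by
      intro z hz
      have hle : Subgroup.closure (DD D c) ≤ Subgroup.centralizer {c} := by
        rw [Subgroup.closure_le]
        intro y hy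
        rw [SetLike.mem_coe, Subgroup.mem_centralizer_singleton_iff]
        exact hy.2.2.symm.eq
      exact Subgroup.mem_centralizer_singleton_iff.1 (hle hz)
    exact this g' hg'
  · rw [← cj_cj]; exact hg2

include hD in
/-- if there are proper twins then the commuting graph has no triangles -/
theorem no_tri {u v w : G} (hu : u ∈ D) (h : Tw D u v w) (hvw : v ≠ w) {d a x : G} (hd : d ∈ D) (ha : a ∈ DD D d)
    (hx : x ∈ DD D d) (hxa : x ∈ DD D a) : False := by
  have tw : ∀ a ∈ D, ∀ d ∈ DD D a, ∃ d1, Tw D a d d1 ∧ d ≠ d1 := by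
    intro a ha d hd
    obtain ⟨g, h1, h2⟩ := trans_pairs hD hu h.1 ha hd
    have := h.cj hD.hc g
    rw [h1, h2] at this
    exact ⟨_, this, fun e => hvw (cj_inj (h2.trans e))⟩
  have hS := hD.hS
  have hxD : x ∈ D := hx.1
  have haD : a ∈ D := ha.1
  have hda : d ∈ DD D a := DD_symm hd ha
  have hdx : d ∈ DD D x := DD_symm hd hx
  have hax : a ∈ DD D x := DD_symm haD hxa
  obtain ⟨d1, hd1, hne1⟩ := tw a haD d hda
  obtain ⟨w, hw, hwd1⟩ := tw_key hD haD hd1 hne1
  obtain ⟨e, he, hnee⟩ := tw x hxD d hdx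
  obtain ⟨x1, hx1, hx1e⟩ := tw_key hD hxD he hnee
  have hd1D : d1 ∈ D := hd1.2.1.1
  have hwD : w ∈ D := hw.2.1.1
  have heD : e ∈ D := he.2.1.1
  have hx1D : x1 ∈ D := hx1.2.1.1
  have hdd1 : ¬ Commute d d1 := hd1.nc hne1
  have hde : ¬ Commute d e := he.nc hnee
  -- `a` and `w` do not commute
  have haw : ¬ Commute a w := hw.nc (by rintro rfl; exact hwd1 hd1.2.1.2.2)
  have hxx1 : ¬ Commute x x1 := hx1.nc (by rintro rfl; exact hx1e he.2.1.2.2)
  have hx_w : x ∈ DD D w := (hw.2.2 x hx).1 hxa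
  have ha_e : a ∈ DD D e := (he.2.2 a hax).1 ha
  have ha_x1 : a ∈ DD D x1 := (hx1.2.2 a ha).1 hax
  have hw_x : w ∈ DD D x := DD_symm hwD hx_w
  have hw_x1 : w ∈ DD D x1 := (hx1.2.2 w hw.2.1).1 hw_x
  have hw_e : w ∈ DD D e := (he.2.2 w hw_x).1 hw.2.1
  have hx1_a : x1 ∈ DD D a := DD_symm hx1D ha_x1
  have hx1_d1 : x1 ∈ DD D d1 := (hd1.2.2 x1 hx1_a).1 hx1.2.1
  -- commutation facts
  have c_ad1 : Commute a d1 := hd1.2.1.2.2
  have c_ae : Commute a e := ha_e.2.2.symm
  have c_ax1 : Commute a x1 := hx1_a.2.2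
  have c_ad : Commute a d := hda.2.2
  have c_dx1 : Commute d x1 := hx1.2.1.2.2
  have c_d1x1 : Commute d1 x1 := hx1_d1.2.2
  have c_wd : Commute w d := hw.2.1.2.2.symm
  have c_we : Commute w e := hw_e.2.2.symm
  have c_wx1 : Commute w x1 := hw_x1.2.2.symm
  have hex1 : ¬ Commute e x1 := fun h => hx1e h.symm
  -- the element
  obtain ⟨y, hy⟩ : ∃ y, y = cj e x1 := ⟨_, rfl⟩
  have hyD : y ∈ D := by rw [hy]; exact hD.hc e x1 hx1D
  have hdy : ¬ Commute d y := by rw [hy]; exact nc_third hS heD hx1D hex1 c_dx1 hde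
  have hwy : Commute w y := by rw [hy]; exact commute_third c_we c_wx1
  have hay : Commute a y := by rw [hy]; exact commute_third c_ae c_ax1
  suffices hz : ∃ z ∈ D, Commute d z ∧ ¬ Commute w z ∧ (z = a → x1 = a) ∧ Commute a z by
    obtain ⟨z, hzD, h1, h2, h3, h4⟩ := hz
    have hza : z ≠ a := fun e => hxx1 (by rw [h3 e]; exact hax.2.2)
    have hzd : z ≠ d := by rintro rfl; exact h2 c_wd
    exact h2 (((hw.2.2 z ⟨hzD, hzd, h1⟩).1 ⟨hzD, hza, h4⟩).2.2)
  by_cases hcase : Commute d1 e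
  · have hd1y : Commute d1 y := by rw [hy]; exact commute_third hcase c_d1x1
    obtain ⟨y2, hy2⟩ : ∃ y2, y2 = cj d y := ⟨_, rfl⟩
    have hy2D : y2 ∈ D := by rw [hy2]; exact hD.hc d y hyD
    have hd1y2 : ¬ Commute d1 y2 := by rw [hy2]; exact nc_third hS hd hyD hdy hd1y (fun h => hdd1 h.symm)
    have hwy2 : Commute w y2 := by rw [hy2]; exact commute_third c_wd hwy
    refine ⟨cj d1 y2, hD.hc _ _ hy2D, ?_, nc_third hS hd1D hy2D hd1y2 hwy2 hwd1, ?_, ?_⟩
    · -- braid
      have hb := tt_braid hS hd hd1D hdd1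
      have h1 : cj d (cj d1 y2) = cj d1 y2 := by
        rw [hy2, cj_cj, cj_cj, cj_cj]
        have e1 : d * d1 * d = d1 * d * d1 := hb
        rw [e1, ← cj_cj (d1 * d) d1, cj_of_commute hd1y]
      exact (cj_fix_iff).1 h1
    · intro hza
      have : cj (d1 * d * e) x1 = cj (d1 * d * e) a := by
        rw [cj_of_commute (((c_ad1.mul_right c_ad).mul_right c_ae).symm), ← cj_cj, ← hy, ← cj_cj, ← hy2, hza]
      exact cj_inj this
    · exact commute_third c_ad1 (by rw [hy2]; exact commute_third c_ad hay)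
  · have hd1e := hcase
    have hd1y : ¬ Commute d1 y := by rw [hy]; exact nc_third hS heD hx1D hex1 c_d1x1 hd1e
    obtain ⟨y2, hy2⟩ : ∃ y2, y2 = cj d1 y := ⟨_, rfl⟩
    have hy2D : y2 ∈ D := by rw [hy2]; exact hD.hc d1 y hyD
    have hwy2 : ¬ Commute w y2 := by rw [hy2]; exact nc_third hS hd1D hyD hd1y hwy hwd1
    refine ⟨cj (e * d) y2, hD.hc _ _ hy2D, ?_, ?_, ?_, ?_⟩
    · have hb := tt_braid hS hd heD hde
      have hb1 := tt_braid hS hd1D heD hd1e
      have h1 : cj d (cj (e * d) y2) = cj (e * d) y2 := by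
        rw [hy2, hy]
        simp only [cj_cj]
        have e1 : d * (e * d) * d1 * e = e * d * d1 * e * d1 := by
          calc d * (e * d) * d1 * e = (d * e * d) * d1 * e := by group
            _ = (e * d * e) * d1 * e := by rw [hb]
            _ = e * d * (e * d1 * e) := by group
            _ = e * d * (d1 * e * d1) := by rw [hb1]
            _ = e * d * d1 * e * d1 := by group
        have e2 : d * (e * d * (d1 * e)) = e * d * d1 * e * d1 := by rw [← e1]; group
        rw [e2, ← cj_cj, cj_of_commute c_d1x1]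
        congr 1
        group
      exact (cj_fix_iff).1 h1
    · intro hcm
      apply hwy2
      have h2 : cj (e * d) w = w := cj_of_commute ((c_we.mul_right c_wd).symm)
      rw [← h2] at hcm
      exact cj_commute.1 hcm
    · intro hza
      have : cj (e * d * d1 * e) x1 = cj (e * d * d1 * e) a := by
        rw [cj_of_commute ((((c_ae.mul_right c_ad).mul_right c_ad1).mul_right c_ae).symm), ← cj_cj, ← hy, ← cj_cj, ← hy2, hza]
      exact cj_inj this
    · have h2 : Commute a y2 := by rw [hy2]; exact commute_third c_ad1 hay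
      have h3 : cj (e * d) a = a := cj_of_commute ((c_ae.mul_right c_ad).symm)
      have : Commute (cj (e * d) a) (cj (e * d) y2) := cj_commute.2 h2
      rwa [h3] at this

end main

end Cfsg.Agent.H7.Fis
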