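import Mathlib
import Cfsg.Prelude.Def_CaseTheorems
import Cfsg.Prelude.Def_Solvable
import Cfsg.Agent.H7_Fis6

set_option autoImplicit false
set_option linter.all false

/-!
Twins from a non-central odd order normal subgroup of `⟨D_x⟩`.
-/

namespace Cfsg.Agent.H7.Fis

open Cfsg Cfsg.Agent.H28.Basic Cfsg.Agent.H28.TT1

section abs

variable {H : Type*} [Group H] {N : Subgroup H} [N.Normal]

theorem odd_inv (hodd : (Nat.card N).Coprime 2) {z : H} (hz : z ∈ N) (h2 : z ^ 2 = 1) : z = 1 := by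
  have h1 : orderOf (⟨z, hz⟩ : N) ∣ Nat.card N := orderOf_dvd_natCard _
  rw [Subgroup.orderOf_mk] at h1
  have h3 : orderOf z ∣ 2 := orderOf_dvd_of_pow_eq_one h2
  have h4 : orderOf z ∣ 1 := by
    rw [← hodd]; exact Nat.dvd_gcd h1 h3
  exact orderOf_eq_one_iff.1 (Nat.dvd_one.1 h4)

theorem abs_key (hodd : (Nat.card N).Coprime 2) {y a w : H} (ha : a * a = 1) (hw : w * w = 1) (hy : y * y = 1)
    (haw : a * w ∈ N) (hya : Commute y a) (hne : y ≠ a) (h3 : ¬ Commute y w → (y * w) ^ 3 = 1) : Commute y w ∧ y ≠ w := by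
  have hya2 : (y * a) ^ 2 = 1 := by
    rw [hya.mul_pow, sq, sq, hy, ha, one_mul]
  have hnot : y * a ∉ N := by
    intro h
    have := odd_inv hodd h hya2
    apply hne
    calc y = y * (a * a) := by rw [ha, mul_one]
      _ = (y * a) * a := by group
      _ = a := by rw [this, one_mul]
  constructor
  · by_contra hcon
    have h4 := h3 hcon
    apply hnot
    rw [← QuotientGroup.eq_one_iff]
    have e : (QuotientGroup.mk (y * a) : H ⧸ N) = QuotientGroup.mk (y * w) := by
      rw [QuotientGroup.eq]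
      have : (y * a)⁻¹ * (y * w) = a * w := by
        rw [mul_inv_rev, inv_eq_of_mul_eq_one_right ha]; group
      rw [this]; exact haw
    have h5 : (QuotientGroup.mk (y * a) : H ⧸ N) ^ 3 = 1 := by
      rw [e, ← QuotientGroup.mk_pow, h4, QuotientGroup.mk_one]
    have h6 : (QuotientGroup.mk (y * a) : H ⧸ N) ^ 2 = 1 := by
      rw [← QuotientGroup.mk_pow, hya2, QuotientGroup.mk_one]
    rwa [pow_succ, h6, one_mul] at h5
  · rintro rfl
    apply hnot
    have : y * a = (a * y)⁻¹ := by
      rw [mul_inv_rev, inv_eq_of_mul_eq_one_right ha, inv_eq_of_mul_eq_one_right hy]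
    rw [this]; exact N.inv_mem haw

end abs

variable {G : Type*} [Group G] {D : Set G}

/-- a non-central odd order normal subgroup of `⟨D_x⟩` yields twins -/
theorem exists_twin [Finite G] (hS : IsThreeTranspositionSet D) (hc : ∀ g : G, ∀ d ∈ D, g * d * g⁻¹ ∈ D) {x : G} (hx : x ∈ D)
    (h : ¬ oddCore ↥(Subgroup.closure (DD D x)) ≤ Subgroup.center ↥(Subgroup.closure (DD D x))) :
    ∃ a w, Tw D x a w ∧ a ≠ w := by
  obtain ⟨N, hN, hodd, hnc⟩ : ∃ N : Subgroup ↥(Subgroup.closure (DD D x)), N.Normal ∧ (Nat.card N).Coprime 2 ∧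
      ¬ N ≤ Subgroup.center _ := by
    by_contra hcon
    push Not at hcon
    apply h
    unfold oddCore pPrimeCore
    rw [sSup_le_iff]
    rintro N ⟨h1, h2⟩
    exact hcon N h1 h2
  haveI := hN
  obtain ⟨n, hn, a, ha, hna⟩ : ∃ n ∈ N, ∃ a, ∃ ha : a ∈ DD D x,
      ¬ Commute (n : G) a := by
    by_contra hcon
    push Not at hcon
    apply hnc
    intro n hn
    rw [Subgroup.mem_center_iff]
    have hle : Subgroup.closure (DD D x) ≤ Subgroup.centralizer {(n : G)} := by
      rw [Subgroup.closure_le]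
      intro y hy
      rw [SetLike.mem_coe, Subgroup.mem_centralizer_singleton_iff]
      exact (hcon n hn y hy).eq.symm
    intro g
    apply Subtype.ext
    exact Subgroup.mem_centralizer_singleton_iff.1 (hle g.2)
  have hnx : Commute (n : G) x := by
    have hle : Subgroup.closure (DD D x) ≤ Subgroup.centralizer {x} := by
      rw [Subgroup.closure_le]
      intro y hy
      rw [SetLike.mem_coe, Subgroup.mem_centralizer_singleton_iff]
      exact hy.2.2.symm.eq
    exact Subgroup.mem_centralizer_singleton_iff.1 (hle n.2)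
  have hwx : cj (n : G) a ∈ DD D x := by
    have := (cjDD hc (g := (n : G))).2 ha
    rwa [cj_of_commute hnx] at this
  obtain ⟨w, hw⟩ : ∃ w, w = cj (n : G) a := ⟨_, rfl⟩
  rw [← hw] at hwx
  set a' : ↥(Subgroup.closure (DD D x)) := ⟨a, Subgroup.subset_closure ha⟩ with ha'
  set w' : ↥(Subgroup.closure (DD D x)) := ⟨w, Subgroup.subset_closure hwx⟩ with hw'
  have haa : a' * a' = 1 := Subtype.ext (tt_sq hS ha.1)
  have hww : w' * w' = 1 := Subtype.ext (tt_sq hS hwx.1)
  have hw2 : w' = n * a' * n⁻¹ := Subtype.ext hw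
  have haw : a' * w' ∈ N := by
    rw [hw2]
    have e : a' * (n * a' * n⁻¹) = (a' * n * a'⁻¹) * n⁻¹ := by
      rw [inv_eq_of_mul_eq_one_right haa]; group
    rw [e]
    exact N.mul_mem (hN.conj_mem n hn a') (N.inv_mem hn)
  have hwa : w' * a' ∈ N := by
    have : w' * a' = (a' * w')⁻¹ := by
      rw [mul_inv_rev, inv_eq_of_mul_eq_one_right haa, inv_eq_of_mul_eq_one_right hww]
    rw [this]; exact N.inv_mem haw
  have h3 : ∀ u v : G, u ∈ D → v ∈ D → ¬ Commute u v → (u * v) ^ 3 = 1 := by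
    intro u v hu hv huv
    rw [← tt_orderOf_mul hS hu hv huv]; exact pow_orderOf_eq_one _
  refine ⟨a, w, ⟨ha, hwx, ?_⟩, ?_⟩
  · intro y hy
    set y' : ↥(Subgroup.closure (DD D x)) := ⟨y, Subgroup.subset_closure hy⟩ with hy'
    have hyy : y' * y' = 1 := Subtype.ext (tt_sq hS hy.1)
    have cm : ∀ u : ↥(Subgroup.closure (DD D x)), Commute y' u ↔ Commute y (u : G) := by
      intro u
      constructor
      · intro h; exact congrArg Subtype.val h.eq
      · intro h; exact Subtype.ext h.eq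
    constructor
    · intro hya
      obtain ⟨h5, h6⟩ := abs_key hodd haa hww hyy haw ((cm a').2 hya.2.2.symm) (fun e => hya.2.1 (congrArg Subtype.val e))
        (fun hn => Subtype.ext (h3 y w hy.1 hwx.1 (fun h => hn ((cm w').2 h))))
      exact ⟨hy.1, fun e => h6 (Subtype.ext e), ((cm w').1 h5).symm⟩
    · intro hyw
      obtain ⟨h5, h6⟩ := abs_key hodd hww haa hyy hwa ((cm w').2 hyw.2.2.symm) (fun e => hyw.2.1 (congrArg Subtype.val e))
        (fun hn => Subtype.ext (h3 y a hy.1 ha.1 (fun h => hn ((cm a').2 h))))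
      exact ⟨hy.1, fun e => h6 (Subtype.ext e), ((cm a').1 h5).symm⟩
  · intro e
    apply hna
    apply (cj_fix_iff).1
    rw [← hw, ← e]

end Cfsg.Agent.H7.Fis
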