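import Mathlib

set_option autoImplicit false
set_option linter.all false

/-!
Integrality condition for strongly regular graphs with `λ = 0` (triangle free).
-/

namespace Cfsg.Agent.H7.Srg

open Matrix

theorem trace_idem {V : Type*} [Fintype V] [DecidableEq V] (E : Matrix V V ℝ) (h : E * E = E) : ∃ m : ℕ, E.trace = m := by
  have h1 : IsIdempotentElem (Matrix.toLin' E) := by
    show Matrix.toLin' E * Matrix.toLin' E = Matrix.toLin' E
    rw [Module.End.mul_eq_comp, ← Matrix.toLin'_mul, h]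
  have h2 := (LinearMap.isProj_range_iff_isIdempotentElem _).2 h1
  refine ⟨Module.finrank ℝ (LinearMap.range (Matrix.toLin' E)), ?_⟩
  rw [← h2.trace, Matrix.trace_toLin'_eq]

theorem srg_square {V : Type*} [Fintype V] [DecidableEq V] (adj : V → V → Prop) [DecidableRel adj] (k l : ℕ)
    (hsymm : ∀ u v, adj u v → adj v u) (hirr : ∀ u, ¬ adj u u) [Nonempty V]
    (hk : ∀ u, (Finset.univ.filter fun w => adj u w).card = k)
    (hadj : ∀ u v, adj u v → ∀ w, adj u w → ¬ adj w v)
    (hnadj : ∀ u v, u ≠ v → ¬ adj u v → (Finset.univ.filter fun w => adj u w ∧ adj w v).card = l)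
    (hk0 : k ≠ 0) (hkl : k + l ≠ 3) (hlk : l < k) :
    ∃ s : ℕ, s ^ 2 = l ^ 2 + 4 * (k - l) := by
  set A : Matrix V V ℝ := Matrix.of fun u v => if adj u v then 1 else 0 with hA
  set J : Matrix V V ℝ := Matrix.of fun _ _ => 1 with hJ
  set n : ℝ := (Fintype.card V : ℝ) with hn
  have hn0 : n ≠ 0 := by rw [hn]; exact_mod_cast Fintype.card_ne_zero
  have hAJ : A * J = (k : ℝ) • J := by
    ext u v
    rw [Matrix.mul_apply]
    simp only [hA, hJ, Matrix.of_apply, mul_one, Matrix.smul_apply, smul_eq_mul]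
    rw [Finset.sum_boole, hk]
  have hJA : J * A = (k : ℝ) • J := by
    ext u v
    rw [Matrix.mul_apply]
    simp only [hA, hJ, Matrix.of_apply, one_mul, Matrix.smul_apply, smul_eq_mul, mul_one]
    rw [Finset.sum_boole, ← hk v]
    congr 2
    ext w
    simp only [Finset.mem_filter, Finset.mem_univ, true_and]
    exact ⟨hsymm _ _, hsymm _ _⟩
  have hJJ : J * J = n • J := by
    ext u v
    rw [Matrix.mul_apply]
    simp [hJ, hn]
  have hAA : A * A = ((k : ℝ) - l) • (1 : Matrix V V ℝ) - (l : ℝ) • A + (l : ℝ) • J := by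
    ext u v
    rw [Matrix.mul_apply]
    have e1 : ∀ w, A u w * A w v = if adj u w ∧ adj w v then 1 else 0 := by
      intro w
      simp only [hA, Matrix.of_apply]
      by_cases h1 : adj u w <;> by_cases h2 : adj w v <;> simp [h1, h2]
    simp only [e1]
    rw [Finset.sum_boole]
    simp only [Matrix.add_apply, Matrix.sub_apply, Matrix.smul_apply, smul_eq_mul, hA, hJ, Matrix.of_apply, mul_one, Matrix.one_apply]
    by_cases huv : u = v
    · subst huv
      have : (Finset.univ.filter fun w => adj u w ∧ adj w u) = (Finset.univ.filter fun w => adj u w) := by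
        ext w
        simp only [Finset.mem_filter, Finset.mem_univ, true_and]
        exact ⟨fun h => h.1, fun h => ⟨h, hsymm _ _ h⟩⟩
      rw [this, hk, if_pos rfl, if_neg (hirr u)]
      ring
    · rw [if_neg huv]
      by_cases h : adj u v
      · have : (Finset.univ.filter fun w => adj u w ∧ adj w v) = ∅ := by
          ext w
          simp only [Finset.mem_filter, Finset.mem_univ, true_and, Finset.notMem_empty, iff_false]
          exact fun h2 => hadj u v h w h2.1 h2.2
        rw [this, if_pos h]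
        simp
      · rw [hnadj u v huv h, if_neg h]
        ring
  -- the number of points
  have hv : (k : ℝ) ^ 2 = k + l * (n - 1 - k) := by
    have h1 : A * A * J = ((k : ℝ) ^ 2) • J := by
      rw [Matrix.mul_assoc, hAJ, Matrix.mul_smul, hAJ, smul_smul, sq]
    rw [hAA] at h1
    have h2 : (((k : ℝ) - l) • (1 : Matrix V V ℝ) - (l : ℝ) • A + (l : ℝ) • J) * J = ((k : ℝ) - l - l * k + l * n) • J := by
      rw [Matrix.add_mul, Matrix.sub_mul, Matrix.smul_mul, Matrix.smul_mul, Matrix.smul_mul, hAJ, hJJ, Matrix.one_mul]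
      module
    rw [h2] at h1
    obtain ⟨u⟩ := ‹Nonempty V›
    have h3 := congrFun (congrFun h1 u) u
    simp only [Matrix.smul_apply, hJ, Matrix.of_apply, smul_eq_mul, mul_one] at h3
    linarith
  set Δ : ℝ := (l : ℝ) ^ 2 + 4 * (k - l) with hΔ
  have hΔ0 : 0 < Δ := by
    have : (l : ℝ) < k := by exact_mod_cast hlk
    have : 0 ≤ (l : ℝ) ^ 2 := sq_nonneg _
    rw [hΔ]; linarith
  set s : ℝ := Real.sqrt Δ with hs
  have hs2 : s ^ 2 = Δ := Real.sq_sqrt hΔ0.le
  have hs0 : s ≠ 0 := by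
    intro h
    rw [h] at hs2; norm_num at hs2; linarith
  set α : ℝ := 1 / 2 + l / (2 * s) with hα
  set β : ℝ := 1 / s with hβ
  set γ : ℝ := - (1 / (2 * n)) * (1 + (2 * k + l) / s) with hγ
  set E : Matrix V V ℝ := α • (1 : Matrix V V ℝ) + β • A + γ • J with hE
  have hEE : E * E = E := by
    have e1 : E * E = (α ^ 2 + β ^ 2 * (k - l)) • (1 : Matrix V V ℝ) + (2 * α * β - β ^ 2 * l) • A
        + (2 * α * γ + β ^ 2 * l + 2 * β * γ * k + γ ^ 2 * n) • J := by
      rw [hE]
      simp only [Matrix.add_mul, Matrix.mul_add, Matrix.smul_mul, Matrix.mul_smul, Matrix.one_mul, Matrix.mul_one, hAA, hAJ, hJA, hJJ]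
      module
    have f1 : α ^ 2 + β ^ 2 * (k - l) = α := by
      rw [hα, hβ]; field_simp
      linear_combination (-1 : ℝ) * hs2 - hΔ
    have f2 : 2 * α * β - β ^ 2 * l = β := by
      rw [hα, hβ]; field_simp; ring
    have f3 : 2 * α * γ + β ^ 2 * l + 2 * β * γ * k + γ ^ 2 * n = γ := by
      rw [hα, hβ, hγ]; field_simp
      have h5 : (l : ℝ) * n = k ^ 2 - k + l + l * k := by linarith
      linear_combination hs2 + hΔ + (4 : ℝ) * h5
    rw [e1, f1, f2, f3]
  obtain ⟨m, hm⟩ := trace_idem E hEE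
  have htr : E.trace = α * n + γ * n := by
    rw [hE, Matrix.trace_add, Matrix.trace_add, Matrix.trace_smul, Matrix.trace_smul, Matrix.trace_smul]
    have t1 : (1 : Matrix V V ℝ).trace = n := by rw [Matrix.trace_one]
    have t2 : A.trace = 0 := by
      rw [Matrix.trace]
      apply Finset.sum_eq_zero
      intro u _
      simp [hA, hirr]
    have t3 : J.trace = n := by
      rw [Matrix.trace]
      simp [hJ, hn]
    rw [t1, t2, t3]
    simp
  have hsm : s * (2 * m - n + 1) = k * (k + l - 3) := by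
    rw [← hm, htr, hα, hγ]
    field_simp
    nlinarith [hv]
  -- rationality
  set q : ℤ := 2 * m - Fintype.card V + 1 with hq
  set p : ℤ := k * (k + l - 3) with hp
  have hsq : s * (q : ℝ) = (p : ℝ) := by
    rw [hq, hp]; push_cast; exact hsm
  have hp0 : p ≠ 0 := by
    rw [hp]
    refine mul_ne_zero (by exact_mod_cast hk0) ?_
    omega
  have hq0 : q ≠ 0 := by
    rintro h
    rw [h] at hsq
    simp at hsq
    exact hp0 (by exact_mod_cast hsq.symm)
  have hint : q ^ 2 * ((l : ℤ) ^ 2 + 4 * ((k : ℤ) - l)) = p ^ 2 := by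
    have : ((q ^ 2 * ((l : ℤ) ^ 2 + 4 * ((k : ℤ) - l)) : ℤ) : ℝ) = ((p ^ 2 : ℤ) : ℝ) := by
      push_cast
      rw [← hsq, mul_pow, hs2, hΔ]; ring
    exact_mod_cast this
  have hdvd : q ∣ p := by
    have : q ^ 2 ∣ p ^ 2 := ⟨_, hint.symm⟩
    exact (Int.pow_dvd_pow_iff (by norm_num)).1 this
  obtain ⟨r, hr⟩ := hdvd
  refine ⟨r.natAbs, ?_⟩
  rw [hr, mul_pow] at hint
  have h6 : (l : ℤ) ^ 2 + 4 * ((k : ℤ) - l) = r ^ 2 := mul_left_cancel₀ (pow_ne_zero 2 hq0) hint
  have h7 : ((r.natAbs ^ 2 : ℕ) : ℤ) = ((l ^ 2 + 4 * (k - l) : ℕ) : ℤ) := by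
    push_cast [Nat.cast_sub hlk.le]
    rw [sq_abs, h6]
  exact_mod_cast h7

end Cfsg.Agent.H7.Srg
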