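import Mathlib
import Cfsg.Agent.H7_Fis7
import Cfsg.Agent.H7_Srg

set_option autoImplicit false
set_option linter.all false

/-!
The commuting graph is the Petersen graph when there are proper twins.
-/

namespace Cfsg.Agent.H7.Fis

open Cfsg Cfsg.Agent.H28.Basic Cfsg.Agent.H28.TT1

variable {G : Type*} [Group G] {D : Set G}

theorem closure_stab (hS : IsThreeTranspositionSet D) {S : Set G} (hSD : S ⊆ D)
    (hcl : ∀ s ∈ S, ∀ t ∈ S, s * t * s⁻¹ ∈ S) : ∀ g ∈ Subgroup.closure S, ∀ w ∈ S, g * w * g⁻¹ ∈ S := by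
  intro g hg
  induction hg using Subgroup.closure_induction_left with
  | one => intro w hw; simpa using hw
  | mul_left x hx y _ ih =>
    intro w hw
    have := hcl x hx _ (ih w hw)
    have e1 : x * y * w * (x * y)⁻¹ = x * (y * w * y⁻¹) * x⁻¹ := by group
    rw [e1]; exact this
  | inv_mul_cancel x hx y _ ih =>
    intro w hw
    have := hcl x hx _ (ih w hw)
    have e1 : x⁻¹ * y * w * (x⁻¹ * y)⁻¹ = x⁻¹ * (y * w * y⁻¹) * x⁻¹⁻¹ := by group
    rw [e1, tt_inv hS (hSD hx)]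
    exact this

/-- a closed set of pairwise non-commuting members has 3-power size -/
theorem card_nc [Finite G] (hS : IsThreeTranspositionSet D) {S : Set G} (hSD : S ⊆ D)
    (hcl : ∀ s ∈ S, ∀ t ∈ S, s * t * s⁻¹ ∈ S) (hnc : ∀ s ∈ S, ∀ t ∈ S, Commute s t → s = t) {s : G} (hs : s ∈ S) :
    ∃ n, S.ncard = 3 ^ n := by
  haveI : Fact (Nat.Prime 3) := ⟨Nat.prime_three⟩
  set P : Subgroup G := (pCore 3 (Subgroup.closure S)).map (Subgroup.closure S).subtype with hP
  have hPp : IsPGroup 3 P := (Cfsg.Agent.H11.Cores.pCore_isPGroup (G := Subgroup.closure S) 3).map _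
  letI : MulAction P G := MulAction.compHom G ((MulAut.conj : G →* MulAut G).comp P.subtype)
  have hsm : ∀ (g : P) (x : G), g • x = (g : G) * x * (g : G)⁻¹ := fun g x => rfl
  have horb : MulAction.orbit P s = S := by
    ext t
    constructor
    · rintro ⟨g, rfl⟩
      show g • s ∈ S
      rw [hsm]
      refine closure_stab hS hSD hcl _ ?_ s hs
      obtain ⟨y, -, hy⟩ := g.2
      rw [← hy]; exact y.2
    · intro ht
      by_cases hst : Commute s t
      · rw [hnc s hs t ht hst]; exact MulAction.mem_orbit_self _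
      · have hcS : cj s t ∈ S := hcl s hs t ht
        have hg : cj s t * s ∈ P := noncomm_pair hS hSD hcl hnc hcS hs
        refine ⟨⟨_, hg⟩, ?_⟩
        show (⟨cj s t * s, hg⟩ : P) • s = t
        rw [hsm]
        show cj (cj s t * s) s = t
        rw [← cj_cj, cj_of_commute (Commute.refl s)]
        exact (third_conj hS (hSD hs) (hSD ht) hst).1
  obtain ⟨n, hn⟩ := hPp.card_orbit s
  refine ⟨n, ?_⟩
  rw [← hn, horb]
  rfl

theorem nt1 : ∀ (m s c : ℕ), c % 3 = 2 → s ^ 2 = 3 ^ m * c → False := by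
  intro m
  induction m using Nat.strong_induction_on with
  | _ m ih =>
    intro s c hc h
    match m, ih, h with
    | 0, _, h =>
      have : s ^ 2 % 3 = 2 := by rw [h]; simpa using hc
      have h3 : s % 3 = 0 ∨ s % 3 = 1 ∨ s % 3 = 2 := by omega
      rcases h3 with h3 | h3 | h3 <;> simp [Nat.pow_mod, h3] at this
    | 1, _, h =>
      have h3 : 3 ∣ s := Nat.Prime.dvd_of_dvd_pow Nat.prime_three (n := 2) (by rw [h]; exact ⟨c, by ring⟩)
      obtain ⟨r, rfl⟩ := h3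
      have : 3 * r ^ 2 = c := by nlinarith
      omega
    | m + 2, ih, h =>
      have h3 : 3 ∣ s := Nat.Prime.dvd_of_dvd_pow Nat.prime_three (n := 2) (by rw [h]; exact ⟨3 ^ (m + 1) * c, by ring⟩)
      obtain ⟨r, rfl⟩ := h3
      refine ih m (by omega) r c hc ?_
      have e : 9 * r ^ 2 = 9 * (3 ^ m * c) := by
        calc 9 * r ^ 2 = (3 * r) ^ 2 := by ring
          _ = 3 ^ (m + 2) * c := h
          _ = 9 * (3 ^ m * c) := by ring
      omega

theorem nt2 {n m s : ℕ} (hmn : m < n) (h : s ^ 2 = (3 ^ m) ^ 2 + 4 * (3 ^ n - 3 ^ m)) : n = 1 ∧ m = 0 := by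
  obtain ⟨j, rfl⟩ : ∃ j, n = m + (j + 1) := ⟨n - m - 1, by omega⟩
  rcases Nat.eq_zero_or_pos m with rfl | hm
  · rcases Nat.eq_zero_or_pos j with rfl | hj
    · simp
    · exfalso
      obtain ⟨i, rfl⟩ : ∃ i, j = i + 1 := ⟨j - 1, by omega⟩
      have e : s ^ 2 + 3 = 36 * 3 ^ i := by
        have h1 : 3 ^ (0 + (i + 1 + 1)) = 9 * 3 ^ i := by rw [zero_add]; ring
        rw [h1] at h
        have : 1 ≤ 3 ^ i := Nat.one_le_pow _ _ (by norm_num)
        simp at h
        omega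
      have h3 : 3 ∣ s := Nat.Prime.dvd_of_dvd_pow Nat.prime_three (n := 2) (by omega)
      obtain ⟨r, rfl⟩ := h3
      have : 9 * r ^ 2 + 3 = 36 * 3 ^ i := by rw [← e]; ring
      omega
  · exfalso
    obtain ⟨i, rfl⟩ : ∃ i, m = i + 1 := ⟨m - 1, by omega⟩
    apply nt1 (i + 1) s (3 ^ (i + 1) + 4 * (3 ^ (j + 1) - 1))
    · have h1 : 1 ≤ 3 ^ j := Nat.one_le_pow _ _ (by norm_num)
      have h2 : 3 ^ (j + 1) = 3 * 3 ^ j := by ring
      have h3 : 3 ^ (i + 1) = 3 * 3 ^ i := by ring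
      rw [h2, h3]
      omega
    · have e : 3 ^ (i + 1 + (j + 1)) - 3 ^ (i + 1) = 3 ^ (i + 1) * (3 ^ (j + 1) - 1) := by
        rw [pow_add, Nat.mul_sub, mul_one]
      rw [h, e, Nat.mul_add, ← sq]
      congr 1
      rw [Nat.mul_left_comm]

section main

variable [Finite G] (hD : Hyp D)

theorem filter_card (S : Set G) (hSD : S ⊆ D) [Fintype D] [DecidablePred fun w : D => (w : G) ∈ S] :
    (Finset.univ.filter fun w : D => (w : G) ∈ S).card = S.ncard := by
  rw [← Set.ncard_coe_finset, ← Set.ncard_image_of_injective _ (Subtype.val_injective)]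
  congr 1
  ext x
  constructor
  · rintro ⟨y, hy, rfl⟩
    simpa using hy
  · intro hx
    exact ⟨⟨x, hSD hx⟩, by simpa using hx, rfl⟩

include hD in
theorem petersen {u v w : G} (hu : u ∈ D) (h : Tw D u v w) (hvw : v ≠ w) :
    (∀ d ∈ D, (DD D d).ncard = 3) ∧ (∀ d ∈ D, ∀ b ∈ D, ¬ Commute d b → {y | y ∈ DD D d ∧ y ∈ DD D b}.ncard = 1) := by
  have hS := hD.hS
  have hc := hD.hc
  have htri : ∀ d ∈ D, ∀ a ∈ DD D d, ∀ x ∈ DD D d, x ∉ DD D a := fun d hd a ha x hx hxa => no_tri hD hu h hvw hd ha hx hxa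
  have hcl : ∀ d : G, ∀ s ∈ DD D d, ∀ t ∈ DD D d, cj s t ∈ DD D d := by
    intro d s hs t ht
    have := (cjDD hc (g := s)).2 ht
    rwa [cj_of_commute hs.2.2.symm] at this
  have hncd : ∀ d ∈ D, ∀ s ∈ DD D d, ∀ t ∈ DD D d, Commute s t → s = t := by
    intro d hd s hs t ht hst
    by_contra hne
    exact htri d hd s hs t ht ⟨ht.1, fun e => hne e.symm, hst⟩
  -- the valency
  set k := (DD D u).ncard with hk
  have hkall : ∀ d ∈ D, (DD D d).ncard = k := fun d hd => card_DD hD hd hu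
  obtain ⟨n, hn⟩ := card_nc hS (S := DD D u) (fun x hx => hx.1) (hcl u) (hncd u hu) h.1
  rw [← hk] at hn
  -- the other parameter
  have hvwnc := h.nc hvw
  set l := {y | y ∈ DD D v ∧ y ∈ DD D w}.ncard with hl
  have hvD : v ∈ D := h.1.1
  have hwD : w ∈ D := h.2.1.1
  have hlall : ∀ d ∈ D, ∀ b ∈ D, ¬ Commute d b → {y | y ∈ DD D d ∧ y ∈ DD D b}.ncard = l := by
    intro d hd b hb hdb
    obtain ⟨g, hg⟩ := hD.hprim.1 d hd v hvD
    have h1 : ¬ Commute v (cj g b) := by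
      rw [← show cj g d = v from hg]; exact fun h => hdb (cj_commute.1 h)
    obtain ⟨g', h2, h3⟩ := trans_AA hD hu h.1 hvD (hc g b hb) hwD h1 hvwnc
    have h4 : cj (g' * g) d = v := by rw [← cj_cj, show cj g d = v from hg, h2]
    have h5 : cj (g' * g) b = w := by rw [← cj_cj, h3]
    rw [hl, ← h4, ← h5, ← Set.ncard_image_of_injective {y | y ∈ DD D d ∧ y ∈ DD D b} (f := cj (g' * g)) (fun _ _ h => cj_inj h)]
    congr 1
    ext y
    constructor
    · rintro ⟨z, ⟨hz1, hz2⟩, rfl⟩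
      exact ⟨(cjDD hc).2 hz1, (cjDD hc).2 hz2⟩
    · rintro ⟨hy1, hy2⟩
      refine ⟨cj (g' * g)⁻¹ y, ⟨?_, ?_⟩, cj_cj_inv _ _⟩
      · rw [← cj_cj_inv (g' * g) y, cjDD hc] at hy1; exact hy1
      · rw [← cj_cj_inv (g' * g) y, cjDD hc] at hy2; exact hy2
  obtain ⟨m, hm⟩ := card_nc hS (S := {y | y ∈ DD D v ∧ y ∈ DD D w}) (fun x hx => hx.1.1)
    (fun s hs t ht => ⟨hcl v s hs.1 t ht.1, hcl w s hs.2 t ht.2⟩) (fun s hs t ht => hncd v hvD s hs.1 t ht.1)
    (s := u) ⟨DD_symm hu h.1, DD_symm hu h.2.1⟩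
  rw [← hl] at hm
  have hlk : l < k := by
    rw [← hkall v hvD]
    apply Set.ncard_lt_ncard _ (Set.toFinite _)
    refine ⟨fun y hy => hy.1, ?_⟩
    intro hle
    have h1 : DD D v ⊆ DD D w := fun y hy => (hle hy).2
    have h2 := Set.eq_of_subset_of_ncard_le h1 (card_DD hD hvD hwD).ge (Set.toFinite _)
    exact hvw (DD_inj hD hu h.1 hvD hwD h2)
  have hk2 : 2 ≤ k := by
    have : ({v, w} : Set G) ⊆ DD D u := by
      rintro y (rfl | rfl)
      · exact h.1
      · exact h.2.1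
    have h2 := Set.ncard_le_ncard this (Set.toFinite _)
    rwa [Set.ncard_pair hvw] at h2
  have hk3 : 3 ≤ k := by
    rw [hn] at hk2 ⊢
    rcases Nat.eq_zero_or_pos n with rfl | hn0
    · simp at hk2
    · calc 3 = 3 ^ 1 := by norm_num
        _ ≤ 3 ^ n := Nat.pow_le_pow_right (by norm_num) hn0
  have hl1 : 1 ≤ l := by
    rw [hm]; exact Nat.one_le_pow _ _ (by norm_num)
  -- the spectral condition
  classical
  haveI : Fintype D := Fintype.ofFinite _
  haveI : Nonempty D := ⟨⟨u, hu⟩⟩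
  obtain ⟨s, hs⟩ := Cfsg.Agent.H7.Srg.srg_square (V := D) (fun a b => (b : G) ∈ DD D (a : G)) k l
    (fun a b hab => DD_symm a.2 hab) (fun a ha => ha.2.1 rfl)
    (fun a => by rw [filter_card (DD D (a : G)) (fun x hx => hx.1)]; exact hkall a a.2)
    (fun a b hab c hac hcb => htri a a.2 b hab c hac (DD_symm c.2 hcb))
    (fun a b hab hnab => by
      have hnc : ¬ Commute (a : G) b := fun hcm => hnab ⟨b.2, fun e => hab (Subtype.ext e.symm), hcm⟩
      rw [← hlall a a.2 b b.2 hnc, ← filter_card (D := D) {y | y ∈ DD D (a : G) ∧ y ∈ DD D (b : G)} (fun x hx => hx.1.1)]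
      congr 1
      ext c
      simp only [Finset.mem_filter, Finset.mem_univ, true_and, Set.mem_setOf_eq]
      exact and_congr_right fun _ => ⟨fun h => DD_symm c.2 h, fun h => DD_symm b.2 h⟩)
    (by omega) (by omega) hlk
  have hmn : m < n := by
    rw [hm, hn] at hlk
    exact (Nat.pow_lt_pow_iff_right (by norm_num)).1 hlk
  rw [hm, hn] at hs
  obtain ⟨h1, h2⟩ := nt2 hmn hs
  refine ⟨fun d hd => ?_, fun d hd b hb hdb => ?_⟩
  · rw [hkall d hd, hn, h1, pow_one]
  · rw [hlall d hd b hb hdb, hm, h2, pow_zero]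

end main

end Cfsg.Agent.H7.Fis
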