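import Mathlib
import Cfsg.Agent.H7_Fis8
import Cfsg.Agent.H3_Burnside

set_option autoImplicit false
set_option linter.all false

/-!
Identification of the symmetric group of degree 5.
-/

namespace Cfsg.Agent.H7.Fis

open Cfsg Cfsg.Agent.H28.Basic Cfsg.Agent.H28.TT1

section cosets

variable {G : Type*} [Group G]

/-- coset enumeration for the path `d - p - c - a` -/
theorem coset_enum {d p c a : G} (hd : d * d = 1) (hp : p * p = 1) (hc : c * c = 1) (ha : a * a = 1)
    (hdp : d * p * d = p * d * p) (hpc : p * c * p = c * p * c) (hca : c * a * c = a * c * a)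
    (hdc : d * c = c * d) (hda : d * a = a * d) (hpa : p * a = a * p)
    (hgen : Subgroup.closure ({d, p, c, a} : Set G) = ⊤) :
    Nat.card (G ⧸ Subgroup.closure ({d, p, c} : Set G)) ≤ 5 := by
  set S := Subgroup.closure ({d, p, c} : Set G) with hS
  have hdS : d ∈ S := Subgroup.subset_closure (by simp)
  have hpS : p ∈ S := Subgroup.subset_closure (by simp)
  have hcS : c ∈ S := Subgroup.subset_closure (by simp)
  set L : Fin 5 → G := ![1, a, c * a, p * (c * a), d * (p * (c * a))] with hL
  have step : ∀ x ∈ ({d, p, c, a} : Set G), ∀ i : Fin 5, ∃ j : Fin 5, (L j)⁻¹ * (x * L i) ∈ S := by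
    have fin : ∀ (x : G) (i j : Fin 5) (s : G), s ∈ S → x * L i = L j * s → ∃ j : Fin 5, (L j)⁻¹ * (x * L i) ∈ S := by
      intro x i j s hs h
      exact ⟨j, by rw [h, inv_mul_cancel_left]; exact hs⟩
    have dd : ∀ z, d * (d * z) = z := fun z => by rw [← mul_assoc, hd, one_mul]
    have pp : ∀ z, p * (p * z) = z := fun z => by rw [← mul_assoc, hp, one_mul]
    have cc : ∀ z, c * (c * z) = z := fun z => by rw [← mul_assoc, hc, one_mul]
    have aa : ∀ z, a * (a * z) = z := fun z => by rw [← mul_assoc, ha, one_mul]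
    have dc : ∀ z, d * (c * z) = c * (d * z) := fun z => by rw [← mul_assoc, hdc, mul_assoc]
    have da : ∀ z, d * (a * z) = a * (d * z) := fun z => by rw [← mul_assoc, hda, mul_assoc]
    have pa : ∀ z, p * (a * z) = a * (p * z) := fun z => by rw [← mul_assoc, hpa, mul_assoc]
    have dpd : ∀ z, d * (p * (d * z)) = p * (d * (p * z)) := fun z => by
      rw [← mul_assoc, ← mul_assoc, hdp]; group
    have pcp : ∀ z, p * (c * (p * z)) = c * (p * (c * z)) := fun z => by
      rw [← mul_assoc, ← mul_assoc, hpc]; group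
    have cac : ∀ z, c * (a * (c * z)) = a * (c * (a * z)) := fun z => by
      rw [← mul_assoc, ← mul_assoc, hca]; group
    intro x hx i
    rcases hx with rfl | rfl | rfl | rfl
    · -- x = d
      fin_cases i
      · exact fin x 0 0 x hdS (by simp [hL])
      · exact fin x 1 1 x hdS (by simp [hL, hda])
      · exact fin x 2 2 x hdS (by
          show x * (c * a) = (c * a) * x
          rw [dc, hda, mul_assoc])
      · exact fin x 3 4 1 S.one_mem (by simp [hL])
      · exact fin x 4 3 1 S.one_mem (by
          show x * (x * (p * (c * a))) = p * (c * a) * 1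
          rw [dd, mul_one])
    · fin_cases i
      · exact fin x 0 0 x hpS (by simp [hL])
      · exact fin x 1 1 x hpS (by simp [hL, hpa])
      · exact fin x 2 3 1 S.one_mem (by simp [hL])
      · exact fin x 3 2 1 S.one_mem (by
          show x * (x * (c * a)) = (c * a) * 1
          rw [pp, mul_one])
      · exact fin x 4 4 d hdS (by
          show x * (d * (x * (c * a))) = d * (x * (c * a)) * d
          rw [← dpd, mul_assoc, mul_assoc, mul_assoc, ← hda, dc])
    · fin_cases i
      · exact fin x 0 0 x hcS (by simp [hL])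
      · exact fin x 1 2 1 S.one_mem (by simp [hL])
      · exact fin x 2 1 1 S.one_mem (by
          show x * (x * a) = a * 1
          rw [cc, mul_one])
      · exact fin x 3 3 p hpS (by
          show x * (p * (x * a)) = p * (x * a) * p
          rw [← pcp, mul_assoc, mul_assoc, hpa])
      · exact fin x 4 4 p hpS (by
          show x * (d * (p * (x * a))) = d * (p * (x * a)) * p
          rw [← dc, ← pcp, mul_assoc, mul_assoc, mul_assoc, hpa])
    · fin_cases i
      · exact fin x 0 1 1 S.one_mem (by simp [hL])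
      · exact fin x 1 0 1 S.one_mem (by simp [hL, ha])
      · exact fin x 2 2 c hcS (by
          show x * (c * x) = c * x * c
          rw [hca, mul_assoc])
      · exact fin x 3 3 c hcS (by
          show x * (p * (c * x)) = p * (c * x) * c
          rw [← pa, mul_assoc, hca, mul_assoc])
      · exact fin x 4 4 c hcS (by
          show x * (d * (p * (c * x))) = d * (p * (c * x)) * c
          rw [← da, ← pa, mul_assoc, mul_assoc, hca, mul_assoc])
  have all : ∀ g : G, ∃ j : Fin 5, (L j)⁻¹ * g ∈ S := by
    intro g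
    have hg : g ∈ Subgroup.closure ({d, p, c, a} : Set G) := by rw [hgen]; trivial
    induction hg using Subgroup.closure_induction_left with
    | one => exact ⟨0, by simp [hL, S.one_mem]⟩
    | mul_left x hx y _ ih =>
      obtain ⟨i, hi⟩ := ih
      obtain ⟨j, hj⟩ := step x hx i
      refine ⟨j, ?_⟩
      have : (L j)⁻¹ * (x * y) = ((L j)⁻¹ * (x * L i)) * ((L i)⁻¹ * y) := by group
      rw [this]; exact S.mul_mem hj hi
    | inv_mul_cancel x hx y _ ih =>
      obtain ⟨i, hi⟩ := ih
      obtain ⟨j, hj⟩ := step x hx i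
      refine ⟨j, ?_⟩
      have hxx : x⁻¹ = x := by
        rcases hx with rfl | rfl | rfl | rfl
        · exact inv_eq_of_mul_eq_one_right hd
        · exact inv_eq_of_mul_eq_one_right hp
        · exact inv_eq_of_mul_eq_one_right hc
        · exact inv_eq_of_mul_eq_one_right ha
      have : (L j)⁻¹ * (x⁻¹ * y) = ((L j)⁻¹ * (x * L i)) * ((L i)⁻¹ * y) := by rw [hxx]; group
      rw [this]; exact S.mul_mem hj hi
  have hsurj : Function.Surjective (fun j : Fin 5 => (QuotientGroup.mk (L j) : G ⧸ S)) := by
    intro q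
    induction q using QuotientGroup.induction_on with
    | H g =>
      obtain ⟨j, hj⟩ := all g
      exact ⟨j, QuotientGroup.eq.2 hj⟩
  have := Nat.card_le_card_of_surjective _ hsurj
  simpa using this

/-- recognition of `S₅` -/
theorem s5_of_path [Finite G] (hsol : ∀ N : Subgroup G, N.Normal → Group.IsSolvable ↥N → N = ⊥)
    {d p c a : G} (hd : d * d = 1) (hp : p * p = 1) (hc : c * c = 1) (ha : a * a = 1)
    (hdp : d * p * d = p * d * p) (hpc : p * c * p = c * p * c) (hca : c * a * c = a * c * a)
    (hdc : d * c = c * d) (hda : d * a = a * d) (hpa : p * a = a * p) (hne : d ≠ c)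
    (hgen : Subgroup.closure ({d, p, c, a} : Set G) = ⊤) : Nonempty (G ≃* Equiv.Perm (Fin 5)) := by
  have h5 := coset_enum hd hp hc ha hdp hpc hca hdc hda hpa hgen
  set S := Subgroup.closure ({d, p, c} : Set G) with hS
  obtain ⟨φ, h1, h2, h3⟩ := exists_hom_s4 d p c hd hp hc hdp.symm hpc.symm hdc.symm
  have hinj : Function.Injective φ := by
    apply s4_hom_injective
    rw [map_mul, h1, h3]
    intro h
    apply hne
    calc d = d * (c * c) := by rw [hc, mul_one]
      _ = (d * c) * c := by group
      _ = c := by rw [h, one_mul]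
  have hrange : φ.range = S := by
    apply le_antisymm
    · rintro _ ⟨σ, rfl⟩
      obtain ⟨n, rfl⟩ := s4_surj σ
      unfold wprod
      rw [map_list_prod, List.map_map]
      apply Subgroup.list_prod_mem
      intro y hy
      rw [List.mem_map] at hy
      obtain ⟨i, -, rfl⟩ := hy
      fin_cases i
      · show φ (Equiv.swap 0 1) ∈ S
        rw [h1]; exact Subgroup.subset_closure (by simp)
      · show φ (Equiv.swap 1 2) ∈ S
        rw [h2]; exact Subgroup.subset_closure (by simp)
      · show φ (Equiv.swap 2 3) ∈ S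
        rw [h3]; exact Subgroup.subset_closure (by simp)
    · rw [hS, Subgroup.closure_le]
      rintro y (rfl | rfl | rfl)
      · exact ⟨_, h1⟩
      · exact ⟨_, h2⟩
      · exact ⟨_, h3⟩
  have hcS : Nat.card S = 24 := by
    rw [← hrange, ← Nat.card_congr (MonoidHom.ofInjective hinj).toEquiv, Nat.card_perm, Nat.card_fin]
    rfl
  have hsolS : Group.IsSolvable S :=
    Cfsg.Agent.H3.Burnside.burnside _ S 2 3 3 1 Nat.prime_two Nat.prime_three hcS (by norm_num)
  have hker : (MulAction.toPermHom G (G ⧸ S)).ker = ⊥ := by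
    rw [← Subgroup.normalCore_eq_ker]
    apply hsol _ inferInstance
    exact Group.isSolvable_of_isSolvable_injective (f := Subgroup.inclusion (Subgroup.normalCore_le S)) (Subgroup.inclusion_injective _)
  have hinj2 : Function.Injective (MulAction.toPermHom G (G ⧸ S)) := (MonoidHom.ker_eq_bot_iff _).1 hker
  have hcard : Nat.card G = Nat.card (G ⧸ S) * 24 := by
    rw [← hcS]; exact (Subgroup.card_eq_card_quotient_mul_card_subgroup S)
  have hle : Nat.card G ≤ (Nat.card (G ⧸ S)).factorial := by
    rw [← Nat.card_perm]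
    exact Nat.card_le_card_of_injective _ hinj2
  have hpos : 0 < Nat.card (G ⧸ S) := Nat.card_pos
  have hj : Nat.card (G ⧸ S) = 5 := by
    rw [hcard] at hle
    generalize Nat.card (G ⧸ S) = j at *
    interval_cases j
    · simp at hle
    · simp [Nat.factorial] at hle
    · simp [Nat.factorial] at hle
    · simp [Nat.factorial] at hle
    · rfl
  have hbij : Function.Bijective (MulAction.toPermHom G (G ⧸ S)) := by
    rw [Nat.bijective_iff_injective_and_card]
    refine ⟨hinj2, ?_⟩
    rw [Nat.card_perm, hj, hcard, hj]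
    rfl
  have e1 : G ≃* Equiv.Perm (G ⧸ S) := MulEquiv.ofBijective _ hbij
  have e2 : (G ⧸ S) ≃ Fin 5 := Finite.equivFinOfCardEq hj
  exact ⟨e1.trans e2.permCongrHom⟩

end cosets

section main

variable {G : Type*} [Group G] {D : Set G} [Finite G] (hD : Hyp D)

include hD in
theorem s5_of_twin (hsol : ∀ N : Subgroup G, N.Normal → Group.IsSolvable ↥N → N = ⊥) {a d p : G} (ha : a ∈ D) (h : Tw D a d p) (hne : d ≠ p) :
    Nonempty (G ≃* Equiv.Perm (Fin 5)) := by
  have hS := hD.hS
  have hcj := hD.hc
  obtain ⟨h3, h1⟩ := petersen hD ha h hne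
  obtain ⟨c, hc, hcp⟩ := tw_key hD ha h hne
  have hdD : d ∈ D := h.1.1
  have hpD : p ∈ D := h.2.1.1
  have hcD : c ∈ D := hc.2.1.1
  have hdp : ¬ Commute d p := h.nc hne
  have hpc : ¬ Commute p c := fun e => hcp e.symm
  have hca : ¬ Commute c a := fun e => hc.nc (by rintro rfl; exact hcp h.2.1.2.2) e.symm
  have hdc : Commute d c := hc.2.1.2.2
  have hda : Commute d a := hc.1.2.2
  have hpa : Commute p a := h.2.1.2.2.symm
  -- the members commuting with `d`
  have hDD : DD D d = {c, a, cj c a} := by
    symm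
    have hca' : cj c a ∈ DD D d := by
      have := (cjDD hcj (g := c)).2 hc.1
      rwa [cj_of_commute hdc.symm] at this
    apply Set.eq_of_subset_of_ncard_le _ _ (Set.toFinite _)
    · rintro y (rfl | rfl | rfl)
      · exact hc.2.1
      · exact hc.1
      · exact hca'
    · rw [h3 d hdD]
      have e1 : c ≠ a := by rintro rfl; exact hca (Commute.refl _)
      have e2 : c ≠ cj c a := by
        intro e
        exact third_nc hS hcD hca (e ▸ Commute.refl c)
      have e3 : a ≠ cj c a := by
        intro e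
        exact hca (cj_fix_iff.1 e.symm)
      rw [Set.ncard_eq_three.2 ⟨c, a, cj c a, e1, e2, e3, rfl⟩]
  set K := Subgroup.closure ({d, p, c, a} : Set G) with hK
  have hdK : d ∈ K := Subgroup.subset_closure (by simp)
  have hpK : p ∈ K := Subgroup.subset_closure (by simp)
  have hcK : c ∈ K := Subgroup.subset_closure (by simp)
  have haK : a ∈ K := Subgroup.subset_closure (by simp)
  have step : ∀ y ∈ D, y ∈ K → (∃ g ∈ K, y = cj g d) → ∀ z ∈ D, z ∈ K → ¬ Commute y z → ∃ g ∈ K, z = cj g d := by
    rintro y hy hyK ⟨g, hg, hyg⟩ z hz hzK hyz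
    refine ⟨cj y z * g, K.mul_mem (K.mul_mem (K.mul_mem hyK hzK) (K.inv_mem hyK)) hg, ?_⟩
    rw [← cj_cj, ← hyg]
    exact (third_conj hS hy hz hyz).1.symm
  have kd : ∃ g ∈ K, d = cj g d := ⟨1, K.one_mem, (cj_of_commute (Commute.one_left d)).symm⟩
  have kp := step d hdD hdK kd p hpD hpK hdp
  have kc := step p hpD hpK kp c hcD hcK hpc
  have ka := step c hcD hcK kc a ha haK hca
  have kca : ∃ g ∈ K, cj c a = cj g d := by
    obtain ⟨g, hg, e⟩ := ka
    exact ⟨c * g, K.mul_mem hcK hg, by rw [e, cj_cj]⟩
  have hall := cm_closed hD hdD hc.1 (B := {y | ∃ g ∈ K, y = cj g d}) (u := d) hdD kd (by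
    rintro u ⟨g, hg, hu⟩ huD v hv huv
    by_cases huv' : v = u
    · rw [huv']; exact ⟨g, hg, hu⟩
    have hvu : v ∈ DD D u := ⟨hv, huv', huv⟩
    rw [hu, ← cj_cj_inv g v, cjDD hcj, hDD] at hvu
    have key : ∃ g' ∈ K, cj g⁻¹ v = cj g' d := by
      rcases hvu with e | e | e
      · rw [e]; exact kc
      · rw [e]; exact ka
      · rw [e]; exact kca
    obtain ⟨g', hg', e⟩ := key
    refine ⟨g * g', K.mul_mem hg hg', ?_⟩
    rw [← cj_cj, ← e, cj_cj_inv])
  have hKtop : K = ⊤ := by
    rw [eq_top_iff, ← hD.hgen, Subgroup.closure_le]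
    intro y hy
    obtain ⟨g, hg, e⟩ := hall y hy
    rw [e]
    exact K.mul_mem (K.mul_mem hg hdK) (K.inv_mem hg)
  exact s5_of_path hsol (tt_sq hS hdD) (tt_sq hS hpD) (tt_sq hS hcD) (tt_sq hS ha)
    (tt_braid hS hdD hpD hdp) (tt_braid hS hpD hcD hpc) (tt_braid hS hcD ha hca) hdc.eq hda.eq hpa.eq
    hc.2.1.2.1.symm hKtop

end main

end Cfsg.Agent.H7.Fis
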