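import Cfsg.Agent.H7_U33

/-! Two generators of `SU(3, 3)` acting on the 63 non-isotropic points. -/

namespace H7.G22

open Matrix GF9 U33
open scoped MatrixGroups
open Cfsg.Agent

set_option maxRecDepth 100000

/-- the 63 points -/
def PT : List (List T) := [
[(⟨2,0⟩, ⟨2,1⟩, ⟨2,0⟩), (⟨1,0⟩, ⟨1,2⟩, ⟨1,0⟩), (⟨0,1⟩, ⟨1,1⟩, ⟨0,1⟩), (⟨0,2⟩, ⟨2,2⟩, ⟨0,2⟩)],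
[(⟨2,0⟩, ⟨0,1⟩, ⟨2,2⟩), (⟨1,0⟩, ⟨0,2⟩, ⟨1,1⟩), (⟨0,1⟩, ⟨1,0⟩, ⟨2,1⟩), (⟨0,2⟩, ⟨2,0⟩, ⟨1,2⟩)],
[(⟨2,0⟩, ⟨1,2⟩, ⟨0,1⟩), (⟨1,0⟩, ⟨2,1⟩, ⟨0,2⟩), (⟨0,1⟩, ⟨2,2⟩, ⟨1,0⟩), (⟨0,2⟩, ⟨1,1⟩, ⟨2,0⟩)],
[(⟨2,0⟩, ⟨0,2⟩, ⟨2,2⟩), (⟨1,0⟩, ⟨0,1⟩, ⟨1,1⟩), (⟨0,1⟩, ⟨2,0⟩, ⟨2,1⟩), (⟨0,2⟩, ⟨1,0⟩, ⟨1,2⟩)],
[(⟨2,1⟩, ⟨0,0⟩, ⟨1,2⟩), (⟨1,2⟩, ⟨0,0⟩, ⟨2,1⟩), (⟨1,1⟩, ⟨0,0⟩, ⟨2,2⟩), (⟨2,2⟩, ⟨0,0⟩, ⟨1,1⟩)],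
[(⟨2,1⟩, ⟨0,2⟩, ⟨1,0⟩), (⟨1,2⟩, ⟨0,1⟩, ⟨2,0⟩), (⟨1,1⟩, ⟨2,0⟩, ⟨0,2⟩), (⟨2,2⟩, ⟨1,0⟩, ⟨0,1⟩)],
[(⟨2,1⟩, ⟨1,0⟩, ⟨0,1⟩), (⟨1,2⟩, ⟨2,0⟩, ⟨0,2⟩), (⟨1,1⟩, ⟨0,2⟩, ⟨1,0⟩), (⟨2,2⟩, ⟨0,1⟩, ⟨2,0⟩)],
[(⟨2,0⟩, ⟨2,0⟩, ⟨2,1⟩), (⟨1,0⟩, ⟨1,0⟩, ⟨1,2⟩), (⟨0,1⟩, ⟨0,1⟩, ⟨1,1⟩), (⟨0,2⟩, ⟨0,2⟩, ⟨2,2⟩)],
[(⟨2,0⟩, ⟨1,0⟩, ⟨1,1⟩), (⟨1,0⟩, ⟨2,0⟩, ⟨2,2⟩), (⟨0,1⟩, ⟨0,2⟩, ⟨1,2⟩), (⟨0,2⟩, ⟨0,1⟩, ⟨2,1⟩)],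
[(⟨2,1⟩, ⟨1,1⟩, ⟨0,0⟩), (⟨1,2⟩, ⟨2,2⟩, ⟨0,0⟩), (⟨1,1⟩, ⟨1,2⟩, ⟨0,0⟩), (⟨2,2⟩, ⟨2,1⟩, ⟨0,0⟩)],
[(⟨2,0⟩, ⟨1,1⟩, ⟨2,0⟩), (⟨1,0⟩, ⟨2,2⟩, ⟨1,0⟩), (⟨0,1⟩, ⟨1,2⟩, ⟨0,1⟩), (⟨0,2⟩, ⟨2,1⟩, ⟨0,2⟩)],
[(⟨2,1⟩, ⟨0,1⟩, ⟨2,0⟩), (⟨1,2⟩, ⟨0,2⟩, ⟨1,0⟩), (⟨1,1⟩, ⟨1,0⟩, ⟨0,1⟩), (⟨2,2⟩, ⟨2,0⟩, ⟨0,2⟩)],
[(⟨2,1⟩, ⟨2,0⟩, ⟨0,2⟩), (⟨1,2⟩, ⟨1,0⟩, ⟨0,1⟩), (⟨1,1⟩, ⟨0,1⟩, ⟨2,0⟩), (⟨2,2⟩, ⟨0,2⟩, ⟨1,0⟩)],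
[(⟨2,1⟩, ⟨0,1⟩, ⟨0,2⟩), (⟨1,2⟩, ⟨0,2⟩, ⟨0,1⟩), (⟨1,1⟩, ⟨1,0⟩, ⟨2,0⟩), (⟨2,2⟩, ⟨2,0⟩, ⟨1,0⟩)],
[(⟨0,0⟩, ⟨2,1⟩, ⟨1,2⟩), (⟨0,0⟩, ⟨1,2⟩, ⟨2,1⟩), (⟨0,0⟩, ⟨1,1⟩, ⟨2,2⟩), (⟨0,0⟩, ⟨2,2⟩, ⟨1,1⟩)],
[(⟨2,1⟩, ⟨0,2⟩, ⟨0,1⟩), (⟨1,2⟩, ⟨0,1⟩, ⟨0,2⟩), (⟨1,1⟩, ⟨2,0⟩, ⟨1,0⟩), (⟨2,2⟩, ⟨1,0⟩, ⟨2,0⟩)],
[(⟨2,0⟩, ⟨0,2⟩, ⟨2,1⟩), (⟨1,0⟩, ⟨0,1⟩, ⟨1,2⟩), (⟨0,1⟩, ⟨2,0⟩, ⟨1,1⟩), (⟨0,2⟩, ⟨1,0⟩, ⟨2,2⟩)],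
[(⟨2,0⟩, ⟨0,0⟩, ⟨0,0⟩), (⟨1,0⟩, ⟨0,0⟩, ⟨0,0⟩), (⟨0,1⟩, ⟨0,0⟩, ⟨0,0⟩), (⟨0,2⟩, ⟨0,0⟩, ⟨0,0⟩)],
[(⟨2,1⟩, ⟨2,0⟩, ⟨0,1⟩), (⟨1,2⟩, ⟨1,0⟩, ⟨0,2⟩), (⟨1,1⟩, ⟨0,1⟩, ⟨1,0⟩), (⟨2,2⟩, ⟨0,2⟩, ⟨2,0⟩)],
[(⟨2,1⟩, ⟨0,0⟩, ⟨2,1⟩), (⟨1,2⟩, ⟨0,0⟩, ⟨1,2⟩), (⟨1,1⟩, ⟨0,0⟩, ⟨1,1⟩), (⟨2,2⟩, ⟨0,0⟩, ⟨2,2⟩)],
[(⟨2,1⟩, ⟨1,0⟩, ⟨2,0⟩), (⟨1,2⟩, ⟨2,0⟩, ⟨1,0⟩), (⟨1,1⟩, ⟨0,2⟩, ⟨0,1⟩), (⟨2,2⟩, ⟨0,1⟩, ⟨0,2⟩)],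
[(⟨2,1⟩, ⟨1,0⟩, ⟨1,0⟩), (⟨1,2⟩, ⟨2,0⟩, ⟨2,0⟩), (⟨1,1⟩, ⟨0,2⟩, ⟨0,2⟩), (⟨2,2⟩, ⟨0,1⟩, ⟨0,1⟩)],
[(⟨2,0⟩, ⟨2,1⟩, ⟨1,0⟩), (⟨1,0⟩, ⟨1,2⟩, ⟨2,0⟩), (⟨0,1⟩, ⟨1,1⟩, ⟨0,2⟩), (⟨0,2⟩, ⟨2,2⟩, ⟨0,1⟩)],
[(⟨2,0⟩, ⟨1,0⟩, ⟨1,2⟩), (⟨1,0⟩, ⟨2,0⟩, ⟨2,1⟩), (⟨0,1⟩, ⟨0,2⟩, ⟨2,2⟩), (⟨0,2⟩, ⟨0,1⟩, ⟨1,1⟩)],
[(⟨2,0⟩, ⟨1,2⟩, ⟨2,0⟩), (⟨1,0⟩, ⟨2,1⟩, ⟨1,0⟩), (⟨0,1⟩, ⟨2,2⟩, ⟨0,1⟩), (⟨0,2⟩, ⟨1,1⟩, ⟨0,2⟩)],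
[(⟨2,0⟩, ⟨0,1⟩, ⟨1,1⟩), (⟨1,0⟩, ⟨0,2⟩, ⟨2,2⟩), (⟨0,1⟩, ⟨1,0⟩, ⟨1,2⟩), (⟨0,2⟩, ⟨2,0⟩, ⟨2,1⟩)],
[(⟨2,0⟩, ⟨1,1⟩, ⟨0,1⟩), (⟨1,0⟩, ⟨2,2⟩, ⟨0,2⟩), (⟨0,1⟩, ⟨1,2⟩, ⟨1,0⟩), (⟨0,2⟩, ⟨2,1⟩, ⟨2,0⟩)],
[(⟨2,0⟩, ⟨2,1⟩, ⟨0,2⟩), (⟨1,0⟩, ⟨1,2⟩, ⟨0,1⟩), (⟨0,1⟩, ⟨1,1⟩, ⟨2,0⟩), (⟨0,2⟩, ⟨2,2⟩, ⟨1,0⟩)],
[(⟨0,0⟩, ⟨2,1⟩, ⟨2,2⟩), (⟨0,0⟩, ⟨1,2⟩, ⟨1,1⟩), (⟨0,0⟩, ⟨1,1⟩, ⟨2,1⟩), (⟨0,0⟩, ⟨2,2⟩, ⟨1,2⟩)],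
[(⟨2,1⟩, ⟨2,1⟩, ⟨0,0⟩), (⟨1,2⟩, ⟨1,2⟩, ⟨0,0⟩), (⟨1,1⟩, ⟨1,1⟩, ⟨0,0⟩), (⟨2,2⟩, ⟨2,2⟩, ⟨0,0⟩)],
[(⟨2,1⟩, ⟨2,0⟩, ⟨2,0⟩), (⟨1,2⟩, ⟨1,0⟩, ⟨1,0⟩), (⟨1,1⟩, ⟨0,1⟩, ⟨0,1⟩), (⟨2,2⟩, ⟨0,2⟩, ⟨0,2⟩)],
[(⟨2,0⟩, ⟨0,2⟩, ⟨1,1⟩), (⟨1,0⟩, ⟨0,1⟩, ⟨2,2⟩), (⟨0,1⟩, ⟨2,0⟩, ⟨1,2⟩), (⟨0,2⟩, ⟨1,0⟩, ⟨2,1⟩)],
[(⟨2,0⟩, ⟨2,2⟩, ⟨2,0⟩), (⟨1,0⟩, ⟨1,1⟩, ⟨1,0⟩), (⟨0,1⟩, ⟨2,1⟩, ⟨0,1⟩), (⟨0,2⟩, ⟨1,2⟩, ⟨0,2⟩)],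
[(⟨0,0⟩, ⟨2,1⟩, ⟨1,1⟩), (⟨0,0⟩, ⟨1,2⟩, ⟨2,2⟩), (⟨0,0⟩, ⟨1,1⟩, ⟨1,2⟩), (⟨0,0⟩, ⟨2,2⟩, ⟨2,1⟩)],
[(⟨2,0⟩, ⟨2,1⟩, ⟨0,1⟩), (⟨1,0⟩, ⟨1,2⟩, ⟨0,2⟩), (⟨0,1⟩, ⟨1,1⟩, ⟨1,0⟩), (⟨0,2⟩, ⟨2,2⟩, ⟨2,0⟩)],
[(⟨2,1⟩, ⟨0,2⟩, ⟨0,2⟩), (⟨1,2⟩, ⟨0,1⟩, ⟨0,1⟩), (⟨1,1⟩, ⟨2,0⟩, ⟨2,0⟩), (⟨2,2⟩, ⟨1,0⟩, ⟨1,0⟩)],
[(⟨2,0⟩, ⟨2,2⟩, ⟨1,0⟩), (⟨1,0⟩, ⟨1,1⟩, ⟨2,0⟩), (⟨0,1⟩, ⟨2,1⟩, ⟨0,2⟩), (⟨0,2⟩, ⟨1,2⟩, ⟨0,1⟩)],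
[(⟨2,0⟩, ⟨1,1⟩, ⟨0,2⟩), (⟨1,0⟩, ⟨2,2⟩, ⟨0,1⟩), (⟨0,1⟩, ⟨1,2⟩, ⟨2,0⟩), (⟨0,2⟩, ⟨2,1⟩, ⟨1,0⟩)],
[(⟨2,0⟩, ⟨2,2⟩, ⟨0,1⟩), (⟨1,0⟩, ⟨1,1⟩, ⟨0,2⟩), (⟨0,1⟩, ⟨2,1⟩, ⟨1,0⟩), (⟨0,2⟩, ⟨1,2⟩, ⟨2,0⟩)],
[(⟨2,1⟩, ⟨0,2⟩, ⟨2,0⟩), (⟨1,2⟩, ⟨0,1⟩, ⟨1,0⟩), (⟨1,1⟩, ⟨2,0⟩, ⟨0,1⟩), (⟨2,2⟩, ⟨1,0⟩, ⟨0,2⟩)],
[(⟨2,1⟩, ⟨1,0⟩, ⟨0,2⟩), (⟨1,2⟩, ⟨2,0⟩, ⟨0,1⟩), (⟨1,1⟩, ⟨0,2⟩, ⟨2,0⟩), (⟨2,2⟩, ⟨0,1⟩, ⟨1,0⟩)],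
[(⟨2,0⟩, ⟨0,1⟩, ⟨1,2⟩), (⟨1,0⟩, ⟨0,2⟩, ⟨2,1⟩), (⟨0,1⟩, ⟨1,0⟩, ⟨2,2⟩), (⟨0,2⟩, ⟨2,0⟩, ⟨1,1⟩)],
[(⟨2,0⟩, ⟨2,0⟩, ⟨1,1⟩), (⟨1,0⟩, ⟨1,0⟩, ⟨2,2⟩), (⟨0,1⟩, ⟨0,1⟩, ⟨1,2⟩), (⟨0,2⟩, ⟨0,2⟩, ⟨2,1⟩)],
[(⟨2,0⟩, ⟨1,0⟩, ⟨2,1⟩), (⟨1,0⟩, ⟨2,0⟩, ⟨1,2⟩), (⟨0,1⟩, ⟨0,2⟩, ⟨1,1⟩), (⟨0,2⟩, ⟨0,1⟩, ⟨2,2⟩)],
[(⟨0,0⟩, ⟨2,0⟩, ⟨0,0⟩), (⟨0,0⟩, ⟨1,0⟩, ⟨0,0⟩), (⟨0,0⟩, ⟨0,1⟩, ⟨0,0⟩), (⟨0,0⟩, ⟨0,2⟩, ⟨0,0⟩)],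
[(⟨2,0⟩, ⟨2,0⟩, ⟨1,2⟩), (⟨1,0⟩, ⟨1,0⟩, ⟨2,1⟩), (⟨0,1⟩, ⟨0,1⟩, ⟨2,2⟩), (⟨0,2⟩, ⟨0,2⟩, ⟨1,1⟩)],
[(⟨2,0⟩, ⟨2,0⟩, ⟨2,2⟩), (⟨1,0⟩, ⟨1,0⟩, ⟨1,1⟩), (⟨0,1⟩, ⟨0,1⟩, ⟨2,1⟩), (⟨0,2⟩, ⟨0,2⟩, ⟨1,2⟩)],
[(⟨2,0⟩, ⟨1,0⟩, ⟨2,2⟩), (⟨1,0⟩, ⟨2,0⟩, ⟨1,1⟩), (⟨0,1⟩, ⟨0,2⟩, ⟨2,1⟩), (⟨0,2⟩, ⟨0,1⟩, ⟨1,2⟩)],
[(⟨2,1⟩, ⟨0,1⟩, ⟨0,1⟩), (⟨1,2⟩, ⟨0,2⟩, ⟨0,2⟩), (⟨1,1⟩, ⟨1,0⟩, ⟨1,0⟩), (⟨2,2⟩, ⟨2,0⟩, ⟨2,0⟩)],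
[(⟨2,1⟩, ⟨2,2⟩, ⟨0,0⟩), (⟨1,2⟩, ⟨1,1⟩, ⟨0,0⟩), (⟨1,1⟩, ⟨2,1⟩, ⟨0,0⟩), (⟨2,2⟩, ⟨1,2⟩, ⟨0,0⟩)],
[(⟨2,0⟩, ⟨1,2⟩, ⟨0,2⟩), (⟨1,0⟩, ⟨2,1⟩, ⟨0,1⟩), (⟨0,1⟩, ⟨2,2⟩, ⟨2,0⟩), (⟨0,2⟩, ⟨1,1⟩, ⟨1,0⟩)],
[(⟨2,1⟩, ⟨0,1⟩, ⟨1,0⟩), (⟨1,2⟩, ⟨0,2⟩, ⟨2,0⟩), (⟨1,1⟩, ⟨1,0⟩, ⟨0,2⟩), (⟨2,2⟩, ⟨2,0⟩, ⟨0,1⟩)],
[(⟨2,1⟩, ⟨0,0⟩, ⟨1,1⟩), (⟨1,2⟩, ⟨0,0⟩, ⟨2,2⟩), (⟨1,1⟩, ⟨0,0⟩, ⟨1,2⟩), (⟨2,2⟩, ⟨0,0⟩, ⟨2,1⟩)],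
[(⟨2,0⟩, ⟨0,1⟩, ⟨2,1⟩), (⟨1,0⟩, ⟨0,2⟩, ⟨1,2⟩), (⟨0,1⟩, ⟨1,0⟩, ⟨1,1⟩), (⟨0,2⟩, ⟨2,0⟩, ⟨2,2⟩)],
[(⟨2,1⟩, ⟨2,0⟩, ⟨1,0⟩), (⟨1,2⟩, ⟨1,0⟩, ⟨2,0⟩), (⟨1,1⟩, ⟨0,1⟩, ⟨0,2⟩), (⟨2,2⟩, ⟨0,2⟩, ⟨0,1⟩)],
[(⟨2,0⟩, ⟨1,1⟩, ⟨1,0⟩), (⟨1,0⟩, ⟨2,2⟩, ⟨2,0⟩), (⟨0,1⟩, ⟨1,2⟩, ⟨0,2⟩), (⟨0,2⟩, ⟨2,1⟩, ⟨0,1⟩)],
[(⟨2,0⟩, ⟨1,2⟩, ⟨1,0⟩), (⟨1,0⟩, ⟨2,1⟩, ⟨2,0⟩), (⟨0,1⟩, ⟨2,2⟩, ⟨0,2⟩), (⟨0,2⟩, ⟨1,1⟩, ⟨0,1⟩)],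
[(⟨0,0⟩, ⟨0,0⟩, ⟨2,0⟩), (⟨0,0⟩, ⟨0,0⟩, ⟨1,0⟩), (⟨0,0⟩, ⟨0,0⟩, ⟨0,1⟩), (⟨0,0⟩, ⟨0,0⟩, ⟨0,2⟩)],
[(⟨2,1⟩, ⟨1,2⟩, ⟨0,0⟩), (⟨1,2⟩, ⟨2,1⟩, ⟨0,0⟩), (⟨1,1⟩, ⟨2,2⟩, ⟨0,0⟩), (⟨2,2⟩, ⟨1,1⟩, ⟨0,0⟩)],
[(⟨0,0⟩, ⟨2,1⟩, ⟨2,1⟩), (⟨0,0⟩, ⟨1,2⟩, ⟨1,2⟩), (⟨0,0⟩, ⟨1,1⟩, ⟨1,1⟩), (⟨0,0⟩, ⟨2,2⟩, ⟨2,2⟩)],
[(⟨2,1⟩, ⟨0,0⟩, ⟨2,2⟩), (⟨1,2⟩, ⟨0,0⟩, ⟨1,1⟩), (⟨1,1⟩, ⟨0,0⟩, ⟨2,1⟩), (⟨2,2⟩, ⟨0,0⟩, ⟨1,2⟩)],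
[(⟨2,0⟩, ⟨2,2⟩, ⟨0,2⟩), (⟨1,0⟩, ⟨1,1⟩, ⟨0,1⟩), (⟨0,1⟩, ⟨2,1⟩, ⟨2,0⟩), (⟨0,2⟩, ⟨1,2⟩, ⟨1,0⟩)],
[(⟨2,0⟩, ⟨0,2⟩, ⟨1,2⟩), (⟨1,0⟩, ⟨0,1⟩, ⟨2,1⟩), (⟨0,1⟩, ⟨2,0⟩, ⟨2,2⟩), (⟨0,2⟩, ⟨1,0⟩, ⟨1,1⟩)]]
/-- the two matrices (rows) -/
def Br : Fin 2 → T × T × T
  | 0 => ((⟨1,1⟩, ⟨0,2⟩, ⟨1,0⟩), (⟨2,0⟩, ⟨2,1⟩, ⟨2,0⟩), (⟨1,0⟩, ⟨0,2⟩, ⟨1,1⟩))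
  | 1 => ((⟨1,1⟩, ⟨1,1⟩, ⟨0,0⟩), (⟨2,1⟩, ⟨1,2⟩, ⟨0,0⟩), (⟨0,0⟩, ⟨0,0⟩, ⟨1,0⟩))
/-- the two permutations and their inverses -/
def QT : Fin 2 → ℕ := ![0x3a1757f2be7c09dcb3ad23c5b4f8a49b8f645586e6a936c5c7a3bf62098710cc38143f9e26325913759781a84af1180, 0x2af5fa6ce5e15b5c369274a704d09ed3ae8c268e42f80601e245960fbf63b2554f96c6ecf5dc0967ea1f06350b4c202]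
def QI : Fin 2 → ℕ := ![0x2d6f073e40fd68f2e57a0b7e64ca00c589de0e30ba5a953ec7257aa32187ef9922ab9d647384dd2cdb1781f44519180, 0x13f47ac9e623583ad3d64676500faa7eee82a62e495e220f38c6fdb371bd52554ab27446971428f0b017c6deed0084c]

def y (i : Fin 63) : Finset T := (PT.getD i.val []).toFinset

/-- table lookup -/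
def lk (N : ℕ) (i : Fin 63) : Fin 63 := Fin.ofNat 63 ((N >>> (6 * i.val)) % 64)

def q (k : Fin 2) : Equiv.Perm (Fin 63) :=
  ⟨lk (QT k), lk (QI k), by
    have h : ∀ k : Fin 2, ∀ i : Fin 63, lk (QI k) (lk (QT k) i) = i := by decide +kernel
    exact h k, by
    have h : ∀ k : Fin 2, ∀ i : Fin 63, lk (QT k) (lk (QI k) i) = i := by decide +kernel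
    exact h k⟩

theorem det_Br (k : Fin 2) : (toM (Br k)).det = 1 := by
  rw [det_toM]
  revert k; decide +kernel

theorem unit_Br : ∀ k : Fin 2, ((toM (Br k))ᵀ * (toM (Br k)).map (fun x => x ^ 3)) = 1 := by
  decide +kernel

/-- The generators. -/
def gb (k : Fin 2) : Cfsg.SU 3 GF9 3 :=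
  ⟨⟨toM (Br k), det_Br k⟩, by
    have h := (H5.Unit.mem_GU_iff (q := 3) hGF 3 (SpecialLinearGroup.toGL ⟨toM (Br k), det_Br k⟩)).2 (by
      have h1 := unit_Br k
      have h2 : (toM (Br k)).map (H5.Fld.frob hGF) = (toM (Br k)).map (fun x => x ^ 3) := by
        refine Matrix.ext fun i j => ?_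
        simp only [Matrix.map_apply, H5.Fld.frob_apply]
      show (toM (Br k))ᵀ * (toM (Br k)).map (H5.Fld.frob hGF) = 1
      rw [h2, h1])
    exact h⟩

attribute [local instance] actT

open scoped Pointwise

theorem gb_smul (k : Fin 2) (t : T) : gb k • t = mulT (Br k) t := by
  show ofV (toM (Br k) *ᵥ toV t) = _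
  rw [toM_mulVec]; rfl

theorem y_check : ∀ (k : Fin 2) (i : Fin 63), (y i).image (mulT (Br k)) = y (lk (QT k) i) := by
  decide +kernel

theorem gb_y (k : Fin 2) (i : Fin 63) : gb k • y i = y (q k i) := by
  have h : gb k • y i = (y i).image (mulT (Br k)) := by
    rw [← Finset.image_smul]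
    apply Finset.image_congr
    intro t _
    exact gb_smul k t
  rw [h, y_check]; rfl

/-- a chosen point of each set -/
def rep (i : Fin 63) : T := (PT.getD i.val []).headD (0, 0, 0)

theorem rep_mem : ∀ i j : Fin 63, rep i ∈ y j → i = j := by decide +kernel

theorem rep_self : ∀ i : Fin 63, rep i ∈ y i := by decide +kernel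

theorem y_inj : Function.Injective y := by
  intro i j h
  apply rep_mem
  rw [← h]; exact rep_self i

theorem mem17 : ∀ a b c : GF9, (a, b, c) ∈ y 17 → b = 0 ∧ c = 0 := by decide +kernel
theorem mem44 : ∀ a b c : GF9, (a, b, c) ∈ y 44 → a = 0 ∧ c = 0 := by decide +kernel
theorem mem57 : ∀ a b c : GF9, (a, b, c) ∈ y 57 → a = 0 ∧ b = 0 := by decide +kernel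
theorem mem46 : ∀ a b c : GF9, (a, b, c * ⟨1, 1⟩) ∈ y 46 → a = b ∧ a = c := by decide +kernel
theorem cube : ∀ a : GF9, a * a * a = 1 → a = 1 := by decide +kernel

theorem faithful (g : Cfsg.SU 3 GF9 3) (hg : ∀ i, g • y i = y i) : g = 1 := by
  have hmem : ∀ i, ∀ t ∈ y i, g • t ∈ y i := by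
    intro i t ht
    rw [← hg i]
    exact Finset.smul_mem_smul_finset ht
  set M := H5.Unit.mat g with hM
  have h1 : g • ((1, 0, 0) : T) = (M 0 0, M 1 0, M 2 0) := by
    show ofV (M *ᵥ ![1, 0, 0]) = _
    simp [ofV, Matrix.mulVec, dotProduct, Fin.sum_univ_three]
  have h2 : g • ((0, 1, 0) : T) = (M 0 1, M 1 1, M 2 1) := by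
    show ofV (M *ᵥ ![0, 1, 0]) = _
    simp [ofV, Matrix.mulVec, dotProduct, Fin.sum_univ_three]
  have h3 : g • ((0, 0, 1) : T) = (M 0 2, M 1 2, M 2 2) := by
    show ofV (M *ᵥ ![0, 0, 1]) = _
    simp [ofV, Matrix.mulVec, dotProduct, Fin.sum_univ_three]
  have m1 := hmem 17 (1, 0, 0) (by decide +kernel)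
  have m2 := hmem 44 (0, 1, 0) (by decide +kernel)
  have m3 := hmem 57 (0, 0, 1) (by decide +kernel)
  rw [h1] at m1
  rw [h2] at m2
  rw [h3] at m3
  obtain ⟨z1, z2⟩ := mem17 _ _ _ m1
  obtain ⟨z3, z4⟩ := mem44 _ _ _ m2
  obtain ⟨z5, z6⟩ := mem57 _ _ _ m3
  have h4 : g • ((1, 1, ⟨1, 1⟩) : T) = (M 0 0, M 1 1, M 2 2 * ⟨1, 1⟩) := by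
    show ofV (M *ᵥ ![1, 1, ⟨1, 1⟩]) = _
    simp [ofV, Matrix.mulVec, dotProduct, Fin.sum_univ_three, z1, z2, z3, z4, z5, z6]
  have m4 := hmem 46 (1, 1, ⟨1, 1⟩) (by decide +kernel)
  rw [h4] at m4
  obtain ⟨z7, z8⟩ := mem46 _ _ _ m4
  have hdet : M.det = 1 := g.1.2
  rw [Matrix.det_fin_three, z1, z2, z3, z4, z5, z6, ← z7, ← z8] at hdet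
  have hd : M 0 0 * M 0 0 * M 0 0 = 1 := by
    rw [← hdet]; ring
  have h0 := cube _ hd
  apply Subtype.ext
  apply Subtype.ext
  show M = 1
  refine Matrix.ext fun i j => ?_
  fin_cases i <;> fin_cases j
  · exact h0
  · exact z3
  · exact z5
  · exact z1
  · show M 1 1 = 1
    rw [← z7]; exact h0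
  · exact z6
  · exact z2
  · exact z4
  · show M 2 2 = 1
    rw [← z8]; exact h0

abbrev Q : Subgroup (Equiv.Perm (Fin 63)) := Subgroup.closure (Set.range q)

theorem exists_Q : Nonempty (Subgroup.closure (Set.range gb) ≃* Q) := by
  obtain ⟨e, -⟩ := GenIso.exists_equiv (G := Cfsg.SU 3 GF9 3) y y_inj gb q gb_y (fun g _ => faithful g)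
  exact ⟨e⟩

theorem card_SU33 : Nat.card (Cfsg.SU 3 GF9 3) = 6048 := by
  have h1 := H5.Unit.card_SU_mul hGF (n := 3) (by norm_num)
  rw [H5.Unit.card_GU hGF 3] at h1
  have h2 : H5.Herm.guOrd 3 3 = 24192 := by decide +kernel
  rw [h2] at h1
  omega

end H7.G22
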