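import Mathlib

/-! Commutator subgroups of groups given by generators. -/

namespace H7.GenIso

open Subgroup
open scoped commutatorElement

theorem comm_equiv {G H : Type*} [Group G] [Group H] (e : G ≃* H) :
    Nonempty (commutator G ≃* commutator H) := by
  have h : (commutator G).map e.toMonoidHom = commutator H := by
    rw [commutator_def, Subgroup.map_commutator, ← MonoidHom.range_eq_map,
      MonoidHom.range_eq_top.2 e.surjective, ← commutator_def]
  exact ⟨(e.subgroupMap _).trans (MulEquiv.subgroupCongr h)⟩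

theorem comm_sub_equiv {G : Type*} [Group G] (P : Subgroup G) :
    Nonempty (commutator P ≃* (⁅P, P⁆ : Subgroup G)) := by
  have h : (commutator P).map P.subtype = ⁅P, P⁆ := Subgroup.map_subtype_commutator P
  exact ⟨((commutator P).equivMapOfInjective P.subtype P.subtype_injective).trans
    (MulEquiv.subgroupCongr h)⟩

/-- The commutator subgroup of `closure S` is contained in a subgroup normalised by `S` and
containing the commutators of the elements of `S`. -/
theorem comm_le {G : Type*} [Group G] {S : Set G} {Q : Subgroup G}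
    (hn : ∀ s ∈ S, s ∈ Subgroup.normalizer (Q : Set G)) (hc : ∀ s ∈ S, ∀ t ∈ S, ⁅s, t⁆ ∈ Q) :
    ⁅closure S, closure S⁆ ≤ Q := by
  have hN : closure S ≤ Subgroup.normalizer (Q : Set G) := (closure_le _).2 hn
  have hconj : ∀ h ∈ closure S, ∀ q ∈ Q, h * q * h⁻¹ ∈ Q := fun h hh q hq =>
    (Subgroup.mem_normalizer_iff.1 (hN hh) q).1 hq
  have key1 : ∀ s ∈ S, ∀ h ∈ closure S, ⁅s, h⁆ ∈ Q := by
    intro s hs h hh
    induction hh using closure_induction with
    | mem t ht => exact hc s hs t ht
    | one => simp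
    | mul a b ha hb h1 h2 =>
      have : ⁅s, a * b⁆ = ⁅s, a⁆ * (a * ⁅s, b⁆ * a⁻¹) := by
        simp only [commutatorElement_def]; group
      rw [this]
      exact Q.mul_mem h1 (hconj a ha _ h2)
    | inv a ha h1 =>
      have : ⁅s, a⁻¹⁆ = a⁻¹ * ⁅s, a⁆⁻¹ * a⁻¹⁻¹ := by
        simp only [commutatorElement_def]; group
      rw [this]
      exact hconj _ (inv_mem ha) _ (Q.inv_mem h1)
  rw [Subgroup.commutator_le]
  intro g hg h hh
  induction hg using closure_induction with
  | mem t ht => exact key1 t ht h hh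
  | one => simp
  | mul a b ha hb h1 h2 =>
    have : ⁅a * b, h⁆ = (a * ⁅b, h⁆ * a⁻¹) * ⁅a, h⁆ := by
      simp only [commutatorElement_def]; group
    rw [this]
    exact Q.mul_mem (hconj a ha _ h2) h1
  | inv a ha h1 =>
    have : ⁅a⁻¹, h⁆ = a⁻¹ * ⁅a, h⁆⁻¹ * a⁻¹⁻¹ := by
      simp only [commutatorElement_def]; group
    rw [this]
    exact hconj _ (inv_mem ha) _ (Q.inv_mem h1)

/-- An element of a finite group conjugating the generators of `Q` into `Q` normalises `Q`. -/
theorem mem_normalizer_of {G : Type*} [Group G] [Finite G] {κ : Type*} {q : κ → G} {g : G}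
    (h : ∀ k, g * q k * g⁻¹ ∈ closure (Set.range q)) :
    g ∈ Subgroup.normalizer ((closure (Set.range q) : Subgroup G) : Set G) := by
  set Q := closure (Set.range q) with hQ
  have h1 : Q.map (MulAut.conj g).toMonoidHom ≤ Q := by
    rw [hQ, MonoidHom.map_closure, closure_le]
    rintro _ ⟨_, ⟨k, rfl⟩, rfl⟩
    exact h k
  have h2 : Q.map (MulAut.conj g).toMonoidHom = Q := by
    apply Subgroup.eq_of_le_of_card_ge h1
    have hi : Function.Injective (MulAut.conj g).toMonoidHom := (MulAut.conj g).injective
    rw [Nat.card_congr (Q.equivMapOfInjective _ hi).toEquiv]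
  rw [Subgroup.mem_normalizer_iff]
  intro x
  constructor
  · intro hx
    exact h1 ⟨x, hx, rfl⟩
  · intro hx
    have hx' : g * x * g⁻¹ ∈ Q.map (MulAut.conj g).toMonoidHom := by rw [h2]; exact hx
    obtain ⟨y, hy, hy2⟩ := hx'
    have : y = x := (MulAut.conj g).injective hy2
    rwa [← this]

end H7.GenIso
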