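import Cfsg.Agent.H7_G2a
import Cfsg.Agent.H7_GenIso2

/-! The group of order 12096 on 63 points. -/

namespace H7.G22

open scoped commutatorElement

set_option maxRecDepth 100000

/-- the permutations of the root elements -/
def ST : List ℕ := [0x32ab75ed591f1dc249be67540be9353d6893f33748a330a71ed9f169c58ef93abb03e2f9d5961ba0a021c66c4488040, 0x2d9229f2a1f8d06aa3ba66975bf922b4c39ed537ddfc854e07bd1bb5c443c99a00ec7365f394c16b5887862d84c2040, 0x33eeff55d6e423e4ffa6c56f3838a49725a932367d9d8536c78857e8658ab0e8382b2f7d2d94c46ca42786704508040, 0x3aa38a7e93c45b3d63ad3672d0c93ac9efdc1567971f220887163d979586b4994b03deed73c42bcaaa178674448c040, 0x2bd77a209dff2ff69b1496adae2b3fb0d3be53c5a8a387ae184116e435e24f0f298e71d59264c2ed5c2106147548040, 0x268e4d95e39d3bbb7cb330b9f5393ae26dcbfe23cf6a64a2475e8a45858751e94b1258f42d0b1c207e57816840cd180, 0x3dfafcea4b8db7af2ef4620f2e928d7a52c38f7ad41d8707e58916ca1315535e95b97239a71cc15a0c23462d9248001,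 0x21ab0da59efd7bdeec4ccfce34360afda5fe59e8b8a3faca065c96da99874f214283411582b7291371505e14448e1c0, 0x2ca1eaea91fc58cf2d74df096e4beefaa7d295bf9647860e3c34b6ce8f63c399426d1445da74c7274c1886450580202, 0x257afdb0661cfbd72df4c7af2e3a8ae0a6c908fa71cae2a1bd6936dde581512d470458d0ad40c5620668df5d200f243, 0x3ca3eef857acf6c72df4d6194c59eadfa7d224be6709c06aac5e36c52d876de541c33823513ee6418a74e0680490284, 0x1e96cdaa89fcfbc74df2d60a2e37c63aa6f8d3f479f91b0e3e4886c42ab0cf25499d08e590b4c05955c92101a5d12c5]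
/-- words for the root elements -/
def WD : List (List ℕ) := [[0, 0], [0, 0, 1, 0, 0, 1, 2, 1, 2], [2], [1, 0, 1, 2, 1, 1, 0, 2, 1, 2], [1, 1, 0, 0, 2, 1], [0, 1, 0, 1, 2, 1, 1, 0, 2, 1], [1, 1, 0, 0, 1], [1, 2, 1, 2, 1, 0, 1, 1, 0, 1, 1, 2, 1], [0, 1, 2, 1, 1, 0, 2, 1, 2, 1], [0, 2, 1, 0, 0, 0, 1, 1, 0, 1, 1, 0], [0, 1, 2, 0, 1, 2, 1, 0, 1, 0, 1], [0, 0, 1, 0, 0, 1, 2, 0, 1, 2]]
/-- words for conjugates -/
def CJ : List (List ℕ) := [[0, 0, 0], [1, 0, 0, 1, 0, 0, 1, 1]]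

/-- the involutions -/
def sg (r : Fin 12) : Equiv.Perm (Fin 63) :=
  ⟨lk (ST.getD r.val 0), lk (ST.getD r.val 0), by
    have h : ∀ r : Fin 12, ∀ i : Fin 63, lk (ST.getD r.val 0) (lk (ST.getD r.val 0) i) = i := by
      decide +kernel
    exact h r, by
    have h : ∀ r : Fin 12, ∀ i : Fin 63, lk (ST.getD r.val 0) (lk (ST.getD r.val 0) i) = i := by
      decide +kernel
    exact h r⟩

abbrev P : Subgroup (Equiv.Perm (Fin 63)) := Subgroup.closure (Set.range sg)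

/-- letters -/
def lt (k : ℕ) : Equiv.Perm (Fin 63) := if k = 0 then q 0 else if k = 1 then q 1 else sg 2

theorem word_mem (L : List ℕ) : (L.map lt).prod ∈ Q ⊔ Subgroup.zpowers (sg 2) := by
  apply Subgroup.list_prod_mem
  intro x hx
  obtain ⟨k, -, rfl⟩ := List.mem_map.1 hx
  unfold lt
  split_ifs
  · exact Subgroup.mem_sup_left (Subgroup.subset_closure ⟨0, rfl⟩)
  · exact Subgroup.mem_sup_left (Subgroup.subset_closure ⟨1, rfl⟩)
  · exact Subgroup.mem_sup_right (Subgroup.mem_zpowers _)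

theorem sg_word : ∀ (r : Fin 12) (i : Fin 63), sg r i = ((WD.getD r.val []).map lt).prod i := by
  decide +kernel

theorem P_le : P ≤ Q ⊔ Subgroup.zpowers (sg 2) := by
  rw [Subgroup.closure_le]
  rintro _ ⟨r, rfl⟩
  have : sg r = ((WD.getD r.val []).map lt).prod := Equiv.ext (sg_word r)
  rw [this]
  exact word_mem _

theorem q_comm : ∀ i : Fin 63, q 0 i = (sg 1 * (sg 1 * sg 7) * (sg 1)⁻¹ * (sg 1 * sg 7)⁻¹) i ∧
    q 1 i = (sg 3 * sg 8 * (sg 3)⁻¹ * (sg 8)⁻¹) i := by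
  decide +kernel

theorem sg_mem (r : Fin 12) : sg r ∈ P := Subgroup.subset_closure ⟨r, rfl⟩

theorem Q_le : Q ≤ ⁅P, P⁆ := by
  rw [Subgroup.closure_le]
  rintro _ ⟨k, rfl⟩
  have h0 : q 0 = ⁅sg 1, sg 1 * sg 7⁆ := Equiv.ext fun i => (q_comm i).1
  have h1 : q 1 = ⁅sg 3, sg 8⁆ := Equiv.ext fun i => (q_comm i).2
  fin_cases k
  · show q 0 ∈ ⁅P, P⁆
    rw [h0]
    exact Subgroup.commutator_mem_commutator (sg_mem 1) (mul_mem (sg_mem 1) (sg_mem 7))
  · show q 1 ∈ ⁅P, P⁆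
    rw [h1]
    exact Subgroup.commutator_mem_commutator (sg_mem 3) (sg_mem 8)

theorem conj_check : ∀ i : Fin 63, (sg 2 * q 0 * (sg 2)⁻¹) i = (((CJ.getD 0 []).map lt).prod) i ∧
    (sg 2 * q 1 * (sg 2)⁻¹) i = (((CJ.getD 1 []).map lt).prod) i := by
  decide +kernel

theorem CJ_lt : ∀ L ∈ CJ, ∀ k ∈ L, k < 2 := by decide

theorem wordQ_mem (L : List ℕ) (hL : ∀ k ∈ L, k < 2) : (L.map lt).prod ∈ Q := by
  apply Subgroup.list_prod_mem
  intro x hx
  obtain ⟨k, hk, rfl⟩ := List.mem_map.1 hx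
  have := hL k hk
  unfold lt
  split_ifs with h0 h1
  · exact Subgroup.subset_closure ⟨0, rfl⟩
  · exact Subgroup.subset_closure ⟨1, rfl⟩
  · omega

theorem sg2_norm : sg 2 ∈ Subgroup.normalizer (Q : Set (Equiv.Perm (Fin 63))) := by
  apply GenIso.mem_normalizer_of
  intro k
  have h0 : sg 2 * q 0 * (sg 2)⁻¹ = ((CJ.getD 0 []).map lt).prod := Equiv.ext fun i => (conj_check i).1
  have h1 : sg 2 * q 1 * (sg 2)⁻¹ = ((CJ.getD 1 []).map lt).prod := Equiv.ext fun i => (conj_check i).2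
  fin_cases k
  · show sg 2 * q 0 * (sg 2)⁻¹ ∈ Q
    rw [h0]
    exact wordQ_mem _ (CJ_lt _ (by decide))
  · show sg 2 * q 1 * (sg 2)⁻¹ ∈ Q
    rw [h1]
    exact wordQ_mem _ (CJ_lt _ (by decide))

theorem sg2_sq : sg 2 * sg 2 = 1 := by
  have h : ∀ i : Fin 63, (sg 2 * sg 2) i = i := by decide +kernel
  exact Equiv.ext h

/-- every element of the join is in `Q` or `Q * sg 2` -/
theorem mem_join {g : Equiv.Perm (Fin 63)} (hg : g ∈ Q ⊔ Subgroup.zpowers (sg 2)) :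
    g ∈ Q ∨ g * sg 2 ∈ Q := by
  have hc : Q ⊔ Subgroup.zpowers (sg 2) = Subgroup.closure (Set.range q ∪ {sg 2}) := by
    rw [Subgroup.closure_union, Subgroup.zpowers_eq_closure]
  rw [hc] at hg
  have hi : (sg 2)⁻¹ = sg 2 := by rw [inv_eq_iff_mul_eq_one]; exact sg2_sq
  have hn : ∀ x, x ∈ Q ↔ sg 2 * x * sg 2 ∈ Q := by
    intro x
    have := Subgroup.mem_normalizer_iff.1 sg2_norm x
    rwa [hi] at this
  have hQ : ∀ k, q k ∈ Q := fun k => Subgroup.subset_closure ⟨k, rfl⟩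
  induction hg using Subgroup.closure_induction with
  | mem g hg =>
    rcases hg with ⟨k, rfl⟩ | rfl
    · exact Or.inl (hQ k)
    · right; rw [sg2_sq]; exact one_mem _
  | one => exact Or.inl (one_mem _)
  | mul a b _ _ ha hb =>
    rcases ha with ha | ha <;> rcases hb with hb | hb
    · exact Or.inl (mul_mem ha hb)
    · right; rw [mul_assoc]; exact mul_mem ha hb
    · right
      have h1 : a * b * sg 2 = (a * sg 2) * (sg 2 * b * sg 2) := by
        rw [mul_assoc a (sg 2), mul_assoc (sg 2) b, ← mul_assoc (sg 2) (sg 2), sg2_sq, one_mul, mul_assoc]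
      rw [h1]
      exact mul_mem ha ((hn b).1 hb)
    · left
      have h1 : a * b = (a * sg 2) * (sg 2 * (b * sg 2) * sg 2) := by
        rw [mul_assoc a (sg 2), mul_assoc (sg 2) (b * sg 2), mul_assoc b, sg2_sq, mul_one,
          ← mul_assoc (sg 2) (sg 2), sg2_sq, one_mul]
      rw [h1]
      exact mul_mem ha ((hn _).1 hb)
  | inv a _ ha =>
    rcases ha with ha | ha
    · exact Or.inl (inv_mem ha)
    · right
      have h1 := (hn _).1 (inv_mem ha)
      rw [mul_inv_rev, hi, ← mul_assoc, sg2_sq, one_mul] at h1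
      exact h1

theorem le_Q : ⁅P, P⁆ ≤ Q := by
  have h1 : ⁅P, P⁆ ≤ ⁅Subgroup.closure (Set.range q ∪ {sg 2}), Subgroup.closure (Set.range q ∪ {sg 2})⁆ := by
    have hc : P ≤ Subgroup.closure (Set.range q ∪ {sg 2}) := by
      rw [Subgroup.closure_union, ← Subgroup.zpowers_eq_closure]
      exact P_le
    exact Subgroup.commutator_mono hc hc
  refine h1.trans ?_
  have hQ : ∀ k, q k ∈ Q := fun k => Subgroup.subset_closure ⟨k, rfl⟩
  have hn1 : ∀ s ∈ (Set.range q ∪ {sg 2} : Set (Equiv.Perm (Fin 63))),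
      s ∈ Subgroup.normalizer (Q : Set (Equiv.Perm (Fin 63))) := by
    rintro s (⟨k, rfl⟩ | rfl)
    · exact Subgroup.le_normalizer (hQ k)
    · exact sg2_norm
  have key : ∀ s ∈ (Set.range q ∪ {sg 2} : Set (Equiv.Perm (Fin 63))), ∀ k, ⁅s, q k⁆ ∈ Q := by
    intro s hs k
    rw [commutatorElement_def]
    exact mul_mem ((Subgroup.mem_normalizer_iff.1 (hn1 s hs) _).1 (hQ k)) (inv_mem (hQ k))
  apply GenIso.comm_le hn1
  rintro s hs t (⟨k, rfl⟩ | rfl)
  · exact key s hs k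
  · rcases hs with ⟨k, rfl⟩ | rfl
    · rw [← commutatorElement_inv]
      exact inv_mem (key _ (Or.inr rfl) k)
    · rw [commutatorElement_self]; exact one_mem _

theorem PP_eq : ⁅P, P⁆ = Q := le_antisymm le_Q Q_le

theorem card_P_le : Nat.card P ≤ 2 * Nat.card Q := by
  have h1 : (P : Set (Equiv.Perm (Fin 63))) ⊆ (Q : Set _) ∪ (fun g => g * sg 2) '' (Q : Set _) := by
    intro g hg
    rcases mem_join (P_le hg) with h | h
    · exact Or.inl h
    · right
      refine ⟨_, h, ?_⟩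
      show g * sg 2 * sg 2 = g
      rw [mul_assoc, sg2_sq, mul_one]
  have h2 := (Set.ncard_le_ncard h1 (Set.toFinite _)).trans (Set.ncard_union_le _ _)
  have h3 : ((fun g => g * sg 2) '' (Q : Set (Equiv.Perm (Fin 63)))).ncard ≤ (Q : Set (Equiv.Perm (Fin 63))).ncard :=
    Set.ncard_image_le (Set.toFinite _)
  have h4 : (P : Set (Equiv.Perm (Fin 63))).ncard = Nat.card P := rfl
  have h5 : (Q : Set (Equiv.Perm (Fin 63))).ncard = Nat.card Q := rfl
  rw [h4] at h2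
  rw [h5] at h3 h2
  omega

/-- `Q` is isomorphic to the unitary group. -/
theorem exists_SU (hc : Nat.card P = 12096) : Nonempty (Cfsg.SU 3 GF9 3 ≃* Q) := by
  obtain ⟨e⟩ := exists_Q
  have h1 := card_P_le
  rw [hc] at h1
  have h2 : 6048 ≤ Nat.card Q := by omega
  rw [← Nat.card_congr e.toEquiv] at h2
  haveI : Finite (Cfsg.SU 3 GF9 3) := Nat.finite_of_card_ne_zero (by rw [card_SU33]; norm_num)
  have h3 : Subgroup.closure (Set.range gb) = ⊤ := by
    apply Subgroup.eq_top_of_le_card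
    rw [card_SU33]; exact h2
  rw [h3] at e
  exact ⟨Subgroup.topEquiv.symm.trans e⟩

end H7.G22
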