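import Cfsg.Agent.H7_ChT
import Cfsg.Agent.H6_ChevTabG2
import Cfsg.Agent.H7_G2b

/-! The Chevalley group of type `G2` over the field with two elements. -/

namespace H7.G22

open Cfsg Cfsg.Lie Cfsg.Lie.ChevalleyDatum Cfsg.Agent.H6.Chev ChT
open scoped Matrix

set_option maxRecDepth 100000

def MT : List ℕ := [0x1000000000000001000000000000001000000000000001000000000000001000000000000001000000000100001000000000000001000000001000001000000001000001000000000100001000100000000001100000000000001010000000000001, 0x1000000000000001000000000000001000000000000001000000000000001000000000100001000000000000001000000000100001000000000000001000000000100001000001000000001011000000100001000100000000001001000000000001, 0x1000000000000001000000000000001000000000001001000000000001001000000000000001000000000000001000000010000001000000010000001000000010000001000110010001001000010010001001000010000000001000000000000001, 0x1000000000000001000000000000101000000000000001000000000010001000000000000001000000001010101000000000000101000000000100001000110000010001000000000000001000000001010101000001000000001000010000000001, 0x1000000000000001000000000000011000000000000101000000000000001000000000011101000000000000001000000000001001000010000000101000000000001001000000000010111000000000000001000000000000001000001000000001,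 0x1000000000000011000000000000001000000000000001000000000000011000000000000001000000000000011000000100000001000000000000011000000000000001000000000000001000000000000011000000010000001000000000000001, 0x1100000000000001000000000000001000000000000001100000000000001000000000000001100000010000001000000000000001100000000000001000000000000001000000000000001100000000000001000000001000001000000000000001, 0x1000000000000001110100000000001001000000000001010000000000001001000010000001000000000000001011100000000001000000000000001010000000000001100000000000001000000000000001000000000000001000000001000001, 0x1010101000000001000000000000001000100000000001000010001100001010000000000001010101000000001000000000000001000100000000001000000000000001010000000000001000000000000001000000000010001000000000100001, 0x1001000100100001001000100100001000000100010001000000100000001000000100000001000000000000001000000000000001001000000000001001000000000001000000000000001000000000000001000000000001001000000000000001, 0x1000010000000001000000001011001000010000000001000000000000001000010000000001000000000000001000010000000001000000000000001000000000000001000000000000001000000000000001000000000000101000000000001001,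 0x1000000000011001000010000000001000001000000001000001000000001000000000000001000010000000001000000000000001000000000000001000000000000001000000000000001000000000000001000000000000001000000000000101]
def XT : List ℕ := [0x100, 0x1100, 0x101010100, 0x1001000100100, 0x10000100, 0x10000000000101, 0x1000, 0x10111100, 0x101011100, 0x11011001101100, 0x1000010001111, 0x10000100001101, 0x100000000, 0x111110110, 0x1111111010101, 0x11101101110110, 0x10101111010100, 0x10010101010101, 0x1001010100100, 0x1001000111111, 0x1000000000000, 0x1111101101101, 0x11011101110111, 0x11101000100101, 0x10000000, 0x110001110, 0x11000010000101, 0x10000000000000, 0x10010001011101, 0x10101010100101, 0x10111000, 0x10010001001000, 0x1000000001011, 0x100001000, 0x10111011101111, 0x10111011011110, 0x11110110111101, 0x111111010, 0x1111100111110, 0x11101111011111, 0x11011011111001, 0x11000000000000, 0x11110001001011, 0x1000010000000, 0x1001010111011, 0x1110111110111, 0x10000100000000, 0x10101111111001, 0x11000100001011, 0x110000010, 0x1110100000000, 0x1111110000010, 0x11110100000000, 0x11000110000010, 0x10101010000000, 0x10111110000010,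 0x10010101001000, 0x11011111101110, 0x1110101001011, 0x11101010000000, 0x10111110111011, 0x11110011111010, 0x1110110111000]
def SPN : List (List ℕ) := [[0, 2, 3, 7, 13, 19], [1, 5, 9, 11, 13, 14, 15, 19], [0], [0, 1], [2, 5, 7, 9, 11, 14, 15, 19], [0, 1, 2, 4, 5, 9, 11, 14, 15, 19], [1, 7, 9, 14, 15, 19], [0, 4], [0, 1, 5, 11], [1, 7, 10, 19], [0, 2, 5, 13, 14, 15], [0, 1, 7, 9, 11, 14], [2, 3, 4, 5, 7, 9, 10, 11, 14, 15], [2, 3, 5, 7, 13, 19]]

/-- matrix entries -/
def M (r i j : ℕ) : ℕ := dig (MT.getD r 0) (14 * i + j)

def xv (i k : ℕ) : ℕ := dig (XT.getD i 0) k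

def sgn (r i : ℕ) : ℕ := ((ST.getD r 0) >>> (6 * i)) % 64

def xck (r : Fin 12) (a b : chevG2.Idx) : Bool :=
  decide ((chevG2.x (ZMod 2) r 1 a b : ZMod 2) = (M r (ix a) (ix b) : ZMod 2))

theorem x_ck : ∀ r : Fin 12, ∀ a b : chevG2.Idx, xck r a b = true := by
  decide +kernel

theorem x_eq' {r : ℕ} (hr : r < 12) : chevG2.x (ZMod 2) r 1 = mat chevG2 2 (M r) := by
  ext a b; exact of_decide_eq_true (x_ck ⟨r, hr⟩ a b)

theorem act_check : allTo (fun r => allTo (fun i => allTo (fun k =>
    sumTo (fun j => M r k j * xv i j) 14 % 2 == xv (sgn r i) k % 2) 14) 63) 12 = true := by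
  decide +kernel

theorem act_eq {r i : ℕ} (hr : r < 12) (hi : i < 63) :
    chevG2.x (ZMod 2) r 1 *ᵥ vec chevG2 2 (xv i) = vec chevG2 2 (xv (sgn r i)) := by
  rw [x_eq' hr, mat_mulVec]
  apply vec_congr
  intro k hk
  have h1 := allTo_spec act_check r hr
  have h2 := allTo_spec h1 i hi
  have h3 := allTo_spec h2 k hk
  exact beq_iff_eq.1 h3

theorem span_check : ∀ k < 14, ∀ j < 14,
    ((SPN.getD k []).map (fun i => xv i j)).sum % 2 = (if j = k then 1 else 0) % 2 := by
  decide +kernel

theorem span_lt : ∀ k < 14, ∀ i ∈ SPN.getD k [], i < 63 := by decide +kernel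

/-- the family of vectors -/
def x (i : Fin 63) : chevG2.Idx → ZMod 2 := vec chevG2 2 (xv i)

theorem x_span (k : chevG2.Idx) : (Pi.single k 1 : chevG2.Idx → ZMod 2) ∈
    Submodule.span (ZMod 2) (Set.range x) := by
  have hk : ix k < 14 := ix_lt k
  have h1 := mem_span_of (D := chevG2) (p := 2) (x := fun i => vec chevG2 2 (xv i)) (span_lt _ hk)
  rw [sum_vec] at h1
  have h2 : (Pi.single k 1 : chevG2.Idx → ZMod 2) =
      vec chevG2 2 (fun j => ((SPN.getD (ix k) []).map (fun i => xv i j)).sum) := by
    have h3 : (Pi.single k 1 : chevG2.Idx → ZMod 2) = vec chevG2 2 (fun j => if j = ix k then 1 else 0) := by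
      funext a
      simp only [Pi.single_apply, vec]
      by_cases h : a = k
      · rw [if_pos h, h, if_pos rfl]; simp
      · rw [if_neg h, if_neg (fun h' => h (ix_inj h'))]; simp
    rw [h3]
    apply vec_congr
    intro j hj
    exact (span_check _ hk j hj).symm
  rw [h2]
  exact h1

attribute [local instance] act

theorem sg_val : ∀ r : Fin 12, ∀ i : Fin 63, ((sg r i : Fin 63) : ℕ) = sgn r i := by decide +kernel

/-- the generators -/
def a (r : Fin 12) : GL chevG2.Idx (ZMod 2) := modelG2.X r 1

theorem x_def (i : Fin 63) : x i = vec chevG2 2 (xv (i : ℕ)) := rfl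

theorem a_x (r : Fin 12) (i : Fin 63) : a r • x i = x (sg r i) := by
  have h : a r • x i = chevG2.x (ZMod 2) r 1 *ᵥ x i := rfl
  rw [h, x_def, x_def, sg_val]
  exact act_eq r.2 i.2

theorem x_inj : Function.Injective x := by
  intro i j h
  have h1 : ∀ i j : Fin 63, (∀ k < 14, xv i k = xv j k) → i = j := by decide +kernel
  apply h1 i j
  intro k hk
  have h2 : ∀ i : Fin 63, ∀ k < 14, xv i k < 2 := by decide +kernel
  have hk' : ∃ a : chevG2.Idx, ix a = k := by
    by_cases h3 : k < 2
    · exact ⟨Sum.inl ⟨k, h3⟩, rfl⟩
    · refine ⟨Sum.inr ⟨k - 2, ?_⟩, ?_⟩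
      · show k - 2 < 12
        omega
      · show 2 + (k - 2) = k
        omega
  obtain ⟨a, rfl⟩ := hk'
  have h4 := congrFun h a
  have h5 := (ZMod.natCast_eq_natCast_iff' _ _ _).1 h4
  rwa [Nat.mod_eq_of_lt (h2 i _ hk), Nat.mod_eq_of_lt (h2 j _ hk)] at h5

theorem closure_a : Subgroup.closure (Set.range a) = chevG2.group (ZMod 2) := by
  rw [modelG2.group_eq]
  apply le_antisymm
  · rw [Subgroup.closure_le]
    rintro _ ⟨r, rfl⟩
    exact modelG2.X_mem_gen trivial _
  · unfold Model.gen
    rw [Subgroup.closure_le]
    rintro _ ⟨r, t, -, rfl⟩
    by_cases hr : r < 12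
    · have ht : t = 0 ∨ t = 1 := by revert t; decide
      rcases ht with rfl | rfl
      · rw [modelG2.X_zero]; exact one_mem _
      · exact Subgroup.subset_closure ⟨⟨r, hr⟩, rfl⟩
    · have : modelG2.X r t = 1 := by
        apply Units.ext
        rw [modelG2.coe_X, x_of_ge hr]
        rfl
      rw [this]; exact one_mem _

theorem exists_P : Nonempty (chevG2.group (ZMod 2) ≃* P) := by
  obtain ⟨e, -⟩ := GenIso.exists_equiv (G := GL chevG2.Idx (ZMod 2)) x x_inj a sg a_x
    (fun g _ hg => eq_one_of_fix x_span hg)
  rw [closure_a] at e
  exact ⟨e⟩

theorem main (hc : Nat.card (chevG2.group (ZMod 2)) = 12096) {F : Type*} [Field F] [Fintype F]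
    (hF : Fintype.card F = 2) :
    Nonempty (↥(commutator ↥(Lie.chevG2.group F)) ≃* Cfsg.SU 3 GF9 3) := by
  let f : F ≃+* ZMod 2 := FiniteField.ringEquivOfCardEq (by rw [hF]; rfl)
  obtain ⟨α, -⟩ := exists_group_equiv modelG2 f
  obtain ⟨e⟩ := exists_P
  obtain ⟨e1⟩ := GenIso.comm_equiv (α.trans e)
  obtain ⟨e2⟩ := GenIso.comm_sub_equiv P
  obtain ⟨e3⟩ := exists_SU (by rw [← Nat.card_congr e.toEquiv, hc])
  exact ⟨((e1.trans e2).trans (MulEquiv.subgroupCongr PP_eq)).trans e3.symm⟩

end H7.G22
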