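import Mathlib

/-! A computable field with eight elements. -/

namespace H7.GF8

/-- the field with 8 elements, `GF(2)[z]/(z^3+z+1)`, elements coded by bits -/
def GF : Type := Fin 8

instance : DecidableEq GF := inferInstanceAs (DecidableEq (Fin 8))
instance : Fintype GF := inferInstanceAs (Fintype (Fin 8))

def ofN (n : ℕ) : GF := (⟨n % 8, Nat.mod_lt _ (by norm_num)⟩ : Fin 8)

def toN (a : GF) : ℕ := Fin.val (n := 8) a

def tbl : ℕ := 2821848294356612419217921029917578219971947684264937521152

def mulN (a b : ℕ) : ℕ := (tbl >>> (3 * (8 * a + b))) &&& 7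

def invN (a : ℕ) : ℕ := (9272648 >>> (3 * a)) &&& 7

instance : Zero GF := ⟨ofN 0⟩
instance : One GF := ⟨ofN 1⟩
instance : Add GF := ⟨fun a b => ofN (toN a ^^^ toN b)⟩
instance : Mul GF := ⟨fun a b => ofN (mulN (toN a) (toN b))⟩
instance : Neg GF := ⟨fun a => a⟩
instance : Inv GF := ⟨fun a => ofN (invN (toN a))⟩

theorem add_assoc' : ∀ a b c : GF, a + b + c = a + (b + c) := by decide +kernel
theorem zero_add' : ∀ a : GF, 0 + a = a := by decide +kernel
theorem add_zero' : ∀ a : GF, a + 0 = a := by decide +kernel
theorem add_comm' : ∀ a b : GF, a + b = b + a := by decide +kernel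
theorem neg_add' : ∀ a : GF, -a + a = 0 := by decide +kernel
theorem mul_assoc' : ∀ a b c : GF, a * b * c = a * (b * c) := by decide +kernel
theorem one_mul' : ∀ a : GF, 1 * a = a := by decide +kernel
theorem mul_one' : ∀ a : GF, a * 1 = a := by decide +kernel
theorem mul_comm' : ∀ a b : GF, a * b = b * a := by decide +kernel
theorem left_distrib' : ∀ a b c : GF, a * (b + c) = a * b + a * c := by decide +kernel
theorem right_distrib' : ∀ a b c : GF, (a + b) * c = a * c + b * c := by decide +kernel
theorem zero_mul' : ∀ a : GF, 0 * a = 0 := by decide +kernel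
theorem mul_zero' : ∀ a : GF, a * 0 = 0 := by decide +kernel
theorem mul_inv' : ∀ a : GF, a ≠ 0 → a * a⁻¹ = 1 := by decide +kernel
theorem inv_zero' : (0 : GF)⁻¹ = 0 := by decide +kernel
theorem zero_ne_one' : (0 : GF) ≠ 1 := by decide +kernel

instance : Field GF where
  add := (· + ·)
  add_assoc := add_assoc'
  zero := 0
  zero_add := zero_add'
  add_zero := add_zero'
  add_comm := add_comm'
  neg := Neg.neg
  neg_add_cancel := neg_add'
  mul := (· * ·)
  mul_assoc := mul_assoc'
  one := 1
  one_mul := one_mul'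
  mul_one := mul_one'
  mul_comm := mul_comm'
  left_distrib := left_distrib'
  right_distrib := right_distrib'
  zero_mul := zero_mul'
  mul_zero := mul_zero'
  inv := Inv.inv
  mul_inv_cancel := mul_inv'
  inv_zero := inv_zero'
  exists_pair_ne := ⟨0, 1, zero_ne_one'⟩
  nsmul := nsmulRec
  zsmul := zsmulRec
  npow := npowRec
  nnqsmul := _
  nnqsmul_def := fun _ _ => rfl
  qsmul := _
  qsmul_def := fun _ _ => rfl

theorem card_GF : Fintype.card GF = 8 := by decide +kernel

end H7.GF8
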