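import Mathlib
import Cfsg.Prelude.Def_SporadicCombinatorics

set_option autoImplicit false
set_option linter.all false

/-!
The hexacode: weights and monomial automorphisms.
-/

namespace Cfsg.Agent.H7.Hex

open Cfsg

/-! ### the model -/

def mul4 (a b : Fin 4) : Fin 4 := (![![0,0,0,0],![0,1,2,3],![0,2,3,1],![0,3,1,2]] : Fin 4 → Fin 4 → Fin 4) a b
def add4 (a b : Fin 4) : Fin 4 := (![![0,1,2,3],![1,0,3,2],![2,3,0,1],![3,2,1,0]] : Fin 4 → Fin 4 → Fin 4) a b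
def cj : Fin 4 → Fin 4 := ![0,1,3,2]
def G : Fin 3 → Fin 6 → Fin 4 := ![![2,3,3,2,3,2],![3,2,2,3,3,2],![3,2,3,2,2,3]]
def W (a b c : Fin 4) (i : Fin 6) : Fin 4 := add4 (add4 (mul4 a (G 0 i)) (mul4 b (G 1 i))) (mul4 c (G 2 i))
def ip (u v : Fin 6 → Fin 4) : Fin 4 := add4 (add4 (add4 (add4 (add4 (mul4 (u 0) (cj (v 0))) (mul4 (u 1) (cj (v 1))))
  (mul4 (u 2) (cj (v 2)))) (mul4 (u 3) (cj (v 3)))) (mul4 (u 4) (cj (v 4)))) (mul4 (u 5) (cj (v 5)))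
def inC (v : Fin 6 → Fin 4) : Bool := decide (ip v (G 0) = 0) && decide (ip v (G 1) = 0) && decide (ip v (G 2) = 0)
def wt (v : Fin 6 → Fin 4) : ℕ := (Finset.univ.filter fun i => v i ≠ 0).card
def mm (σ : Equiv.Perm (Fin 6)) (c v : Fin 6 → Fin 4) (i : Fin 6) : Fin 4 := mul4 (c i) (v (σ.symm i))

theorem W_inC : ∀ a b c, inC (W a b c) = true := by decide +kernel
theorem W_inj : ∀ a b c a' b' c', W a b c = W a' b' c' → a = a' ∧ b = b' ∧ c = c' := by decide +kernel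
theorem inC_W0 : ∀ v0 v1 v2 v3 v4 v5 : Fin 4, inC ![v0, v1, v2, v3, v4, v5] = true → ∃ a b c, ![v0, v1, v2, v3, v4, v5] = W a b c := by decide +kernel
theorem vec6 {α : Type*} (v : Fin 6 → α) : v = ![v 0, v 1, v 2, v 3, v 4, v 5] := by
  ext i; fin_cases i <;> rfl
theorem inC_W (v : Fin 6 → Fin 4) (h : inC v = true) : ∃ a b c, v = W a b c := by
  rw [vec6 v] at h ⊢; exact inC_W0 _ _ _ _ _ _ h
theorem wtW : ∀ a b c, W a b c = (fun _ => 0) ∨ wt (W a b c) = 4 ∨ wt (W a b c) = 6 := by decide +kernel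
theorem n45 : (Finset.univ.filter fun z : Fin 4 × Fin 4 × Fin 4 => wt (W z.1 z.2.1 z.2.2) = 4).card = 45 := by decide +kernel
theorem n18 : (Finset.univ.filter fun z : Fin 4 × Fin 4 × Fin 4 => wt (W z.1 z.2.1 z.2.2) = 6).card = 18 := by decide +kernel

def T3 : List ℕ := [0, 0, 0, 0, 0, 0, 0, 0, 2901, 3669, 1461, 1509, 0, 3669, 0, 2901, 2925, 2937, 0, 2901, 3669, 0, 3801, 3741, 0, 1509, 1725, 1977, 0, 1461, 0, 1461, 3561, 2541, 1509, 0, 0, 0, 3669, 2901, 1509, 1461, 0, 0, 0, 0, 0, 0, 2901, 0, 0, 3669, 2541, 1977, 3669, 0, 2901, 0, 3561, 1725, 1461, 0, 3741, 2937, 0, 1509, 1509, 0, 3801, 2925, 1461, 0, 0, 2901, 0, 3669, 1725, 3561, 3669, 0, 0, 2901, 3741, 3801, 0, 0, 0, 0, 0, 0, 2901, 3669, 0, 0, 2733, 4089, 2925, 2541, 0, 4089, 0, 2733, 2937, 1977, 0, 2733, 4089, 0, 0, 3669, 2901, 0, 1977, 2541, 2901, 0, 3669, 0, 2937, 2925, 3669,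 2901, 0, 0, 4089, 2733, 0, 0, 0, 0, 0, 0, 3801, 3561, 2733, 0, 0, 4089, 3741, 1725, 4089, 0, 2733, 0, 0, 1461, 2925, 3801, 0, 1509, 1509, 0, 2541, 3561, 0, 1461, 1725, 3741, 0, 2733, 0, 4089, 1977, 2937, 4089, 0, 0, 2733, 0, 0, 0, 0, 0, 0, 1461, 1509, 2733, 4089, 0, 0, 0, 1509, 2937, 3741, 1461, 0, 1461, 0, 1977, 1725, 1509, 0, 3561, 3801, 0, 4089, 2733, 0, 2541, 2925, 2733, 0, 4089, 0, 1509, 1461, 4089, 2733, 0, 0, 0, 0, 0, 0, 0, 0]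
def c3 (i j k r : Fin 6) : Fin 4 := Fin.ofNat 4 (Nat.land (Nat.shiftRight (T3.getD (36 * i.val + 6 * j.val + k.val) 0) (2 * r.val)) 3)

theorem chk3 : ∀ i j k : Fin 6, i ≠ j → i ≠ k → j ≠ k → (∀ r, c3 i j k r ≠ 0) ∧
    ∀ r, inC (mm (Equiv.swap i j * Equiv.swap j k) (c3 i j k) (G r)) = true := by decide +kernel
theorem chk10 : ∀ c0 c1 c2 c3 c4 c5 : Fin 3, (∀ r, inC (mm 1 ![c0.succ, c1.succ, c2.succ, c3.succ, c4.succ, c5.succ] (G r)) = true) →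
    c0 = c1 ∧ c0 = c2 ∧ c0 = c3 ∧ c0 = c4 ∧ c0 = c5 := by decide +kernel
theorem chk20 : ∀ c0 c1 c2 c3 c4 c5 : Fin 3, ¬ (∀ r, inC (mm (Equiv.swap 0 1) ![c0.succ, c1.succ, c2.succ, c3.succ, c4.succ, c5.succ] (G r)) = true) := by decide +kernel

theorem succ_of_ne : ∀ a : Fin 4, a ≠ 0 → ∃ b : Fin 3, a = b.succ := by decide

theorem chk1 (c : Fin 6 → Fin 4) (h : ∀ i, c i ≠ 0) (hr : ∀ r, inC (mm 1 c (G r)) = true) (i : Fin 6) : c i = c 0 := by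
  obtain ⟨b0, h0⟩ := succ_of_ne _ (h 0)
  obtain ⟨b1, h1⟩ := succ_of_ne _ (h 1)
  obtain ⟨b2, h2⟩ := succ_of_ne _ (h 2)
  obtain ⟨b3, h3⟩ := succ_of_ne _ (h 3)
  obtain ⟨b4, h4⟩ := succ_of_ne _ (h 4)
  obtain ⟨b5, h5⟩ := succ_of_ne _ (h 5)
  rw [vec6 c, h0, h1, h2, h3, h4, h5] at hr
  obtain ⟨e1, e2, e3, e4, e5⟩ := chk10 _ _ _ _ _ _ hr
  rw [h0]
  fin_cases i
  · exact h0
  · rw [e1]; exact h1
  · rw [e2]; exact h2
  · rw [e3]; exact h3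
  · rw [e4]; exact h4
  · rw [e5]; exact h5

theorem chk2 (c : Fin 6 → Fin 4) (h : ∀ i, c i ≠ 0) (hr : ∀ r, inC (mm (Equiv.swap 0 1) c (G r)) = true) : False := by
  obtain ⟨b0, h0⟩ := succ_of_ne _ (h 0)
  obtain ⟨b1, h1⟩ := succ_of_ne _ (h 1)
  obtain ⟨b2, h2⟩ := succ_of_ne _ (h 2)
  obtain ⟨b3, h3⟩ := succ_of_ne _ (h 3)
  obtain ⟨b4, h4⟩ := succ_of_ne _ (h 4)
  obtain ⟨b5, h5⟩ := succ_of_ne _ (h 5)
  rw [vec6 c, h0, h1, h2, h3, h4, h5] at hr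
  exact chk20 _ _ _ _ _ _ hr

end Cfsg.Agent.H7.Hex
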