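import Mathlib
import Cfsg.Prelude.Def_SporadicCombinatorics
import Cfsg.Agent.H7_Hex

set_option autoImplicit false
set_option linter.all false

/-!
The hexacode over a field of order four.
-/

namespace Cfsg.Agent.H7.Hex

open Cfsg

section

variable {F : Type*} [Field F] [Fintype F] [DecidableEq F]

theorem two0 (hF : Fintype.card F = 4) : (2 : F) = 0 := by
  have h := FiniteField.cast_card_eq_zero F
  rw [hF] at h
  have h2 : (2 : F) * 2 = 0 := by push_cast at h; linear_combination h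
  rcases mul_eq_zero.mp h2 with h3 | h3 <;> exact h3

def dec (ω : F) (a : Fin 4) : F := (![0, 1, ω, ω ^ 2] : Fin 4 → F) a

theorem dec_add (h2 : (2 : F) = 0) (ω : F) (hω : ω ^ 2 + ω + 1 = 0) (a b : Fin 4) :
    dec ω (add4 a b) = dec ω a + dec ω b := by
  fin_cases a <;> fin_cases b <;> simp [dec, add4] <;> first
    | linear_combination (-1 : F) * h2
    | linear_combination (-ω) * h2
    | linear_combination (-ω ^ 2) * h2
    | linear_combination (-1 : F) * hω + (ω ^ 2) * h2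
    | linear_combination (-1 : F) * hω + (ω) * h2
    | linear_combination (-1 : F) * hω + h2

theorem dec_mul (ω : F) (hω : ω ^ 2 + ω + 1 = 0) (a b : Fin 4) :
    dec ω (mul4 a b) = dec ω a * dec ω b := by
  fin_cases a <;> fin_cases b <;> simp [dec, mul4] <;> first
    | linear_combination (1 - ω) * hω
    | linear_combination (ω - ω ^ 2) * hω
    | ring

theorem dec_inj (h2 : (2 : F) = 0) (ω : F) (hω : ω ^ 2 + ω + 1 = 0) : Function.Injective (dec ω) := by
  have h0 : ω ≠ 0 := by rintro rfl; simp at hω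
  have h1 : ω ≠ 1 := by
    rintro rfl
    have : (1 : F) = 0 := by linear_combination hω - h2
    exact one_ne_zero this
  have h3 : ω ^ 2 ≠ 0 := pow_ne_zero 2 h0
  have h4 : ω ^ 2 ≠ 1 := by
    intro h
    apply h0; linear_combination hω - h - h2
  have h5 : ω ^ 2 ≠ ω := by
    intro h
    have : (ω - 1) * ω = 0 := by linear_combination h
    rcases mul_eq_zero.mp this with h6 | h6
    · exact h1 (sub_eq_zero.mp h6)
    · exact h0 h6
  intro a b hab
  fin_cases a <;> fin_cases b <;> simp only [dec] at hab ⊢ <;>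
    first
    | rfl
    | exact absurd hab.symm one_ne_zero
    | exact absurd hab one_ne_zero
    | exact absurd hab h0
    | exact absurd hab h1
    | exact absurd hab h3
    | exact absurd hab h4
    | exact absurd hab h5
    | exact absurd hab.symm h0
    | exact absurd hab.symm h1
    | exact absurd hab.symm h3
    | exact absurd hab.symm h4
    | exact absurd hab.symm h5

theorem dec_bij (hF : Fintype.card F = 4) (ω : F) (hω : ω ^ 2 + ω + 1 = 0) : Function.Bijective (dec ω) :=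
  (Fintype.bijective_iff_injective_and_card (dec ω)).mpr ⟨dec_inj (two0 hF) ω hω, by simp [hF]⟩

theorem dec_zero (ω : F) : dec ω 0 = 0 := by simp [dec]
theorem dec_ne (hF : Fintype.card F = 4) (ω : F) (hω : ω ^ 2 + ω + 1 = 0) (a : Fin 4) : dec ω a ≠ 0 ↔ a ≠ 0 := by
  constructor
  · rintro h rfl; exact h (dec_zero ω)
  · intro h h'; exact h (dec_inj (two0 hF) ω hω (h'.trans (dec_zero ω).symm))

def D (ω : F) (v : Fin 6 → Fin 4) (i : Fin 6) : F := dec ω (v i)

theorem D_inj (hF : Fintype.card F = 4) (ω : F) (hω : ω ^ 2 + ω + 1 = 0) : Function.Injective (D ω) := by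
  intro u v h; funext i; exact dec_inj (two0 hF) ω hω (congrFun h i)
theorem D_surj (hF : Fintype.card F = 4) (ω : F) (hω : ω ^ 2 + ω + 1 = 0) (x : Fin 6 → F) : ∃ v, D ω v = x := by
  choose v hv using fun i => (dec_bij hF ω hω).2 (x i)
  exact ⟨v, funext hv⟩

theorem DG (ω : F) : D ω (G 0) = ![ω, ω ^ 2, ω ^ 2, ω, ω ^ 2, ω] ∧ D ω (G 1) = ![ω ^ 2, ω, ω, ω ^ 2, ω ^ 2, ω] ∧
    D ω (G 2) = ![ω ^ 2, ω, ω ^ 2, ω, ω, ω ^ 2] := by
  refine ⟨?_, ?_, ?_⟩ <;> (funext i; fin_cases i <;> simp [D, dec, G])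

theorem hex_eq (ω : F) : hexacode F ω = Submodule.span F {D ω (G 0), D ω (G 1), D ω (G 2)} := by
  obtain ⟨h0, h1, h2⟩ := DG ω
  rw [h0, h1, h2]; rfl

theorem DW (hF : Fintype.card F = 4) (ω : F) (hω : ω ^ 2 + ω + 1 = 0) (a b c : Fin 4) :
    D ω (W a b c) = dec ω a • D ω (G 0) + dec ω b • D ω (G 1) + dec ω c • D ω (G 2) := by
  funext i
  simp only [D, W, dec_add (two0 hF) ω hω, dec_mul ω hω, Pi.add_apply, Pi.smul_apply, smul_eq_mul]

theorem mem_hex (hF : Fintype.card F = 4) (ω : F) (hω : ω ^ 2 + ω + 1 = 0) (x : Fin 6 → F) :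
    x ∈ hexacode F ω ↔ ∃ a b c, D ω (W a b c) = x := by
  rw [hex_eq, Submodule.mem_span_triple]
  constructor
  · rintro ⟨a, b, c, h⟩
    obtain ⟨a, rfl⟩ := (dec_bij hF ω hω).2 a
    obtain ⟨b, rfl⟩ := (dec_bij hF ω hω).2 b
    obtain ⟨c, rfl⟩ := (dec_bij hF ω hω).2 c
    exact ⟨a, b, c, by rw [DW hF ω hω, h]⟩
  · rintro ⟨a, b, c, h⟩
    exact ⟨dec ω a, dec ω b, dec ω c, by rw [← h, DW hF ω hω]⟩

theorem D_mem (hF : Fintype.card F = 4) (ω : F) (hω : ω ^ 2 + ω + 1 = 0) (v : Fin 6 → Fin 4) :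
    D ω v ∈ hexacode F ω ↔ inC v = true := by
  rw [mem_hex hF ω hω]
  constructor
  · rintro ⟨a, b, c, h⟩
    rw [← D_inj hF ω hω h]; exact W_inC a b c
  · intro h
    obtain ⟨a, b, c, rfl⟩ := inC_W v h
    exact ⟨a, b, c, rfl⟩

theorem wt_D (hF : Fintype.card F = 4) (ω : F) (hω : ω ^ 2 + ω + 1 = 0) (v : Fin 6 → Fin 4) :
    (Finset.univ.filter fun i => D ω v i ≠ 0).card = wt v := by
  unfold wt
  congr 1
  ext i
  simp only [Finset.mem_filter, Finset.mem_univ, true_and]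
  exact dec_ne hF ω hω (v i)

theorem cards (hF : Fintype.card F = 4) (ω : F) (hω : ω ^ 2 + ω + 1 = 0) :
    Nat.card ↥(Cfsg.hexacode F ω) = 64 ∧ (∀ x ∈ Cfsg.hexacode F ω, x ≠ 0 → (Finset.univ.filter fun i => x i ≠ 0).card = 4 ∨ (Finset.univ.filter fun i => x i ≠ 0).card = 6) ∧ {x : Fin 6 → F | x ∈ Cfsg.hexacode F ω ∧ (Finset.univ.filter fun i => x i ≠ 0).card = 4}.ncard = 45 ∧ {x : Fin 6 → F | x ∈ Cfsg.hexacode F ω ∧ (Finset.univ.filter fun i => x i ≠ 0).card = 6}.ncard = 18 := by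
  set Φ : Fin 4 × Fin 4 × Fin 4 → (Fin 6 → F) := fun z => D ω (W z.1 z.2.1 z.2.2) with hΦ
  have hinj : Function.Injective Φ := by
    rintro ⟨a, b, c⟩ ⟨a', b', c'⟩ h
    obtain ⟨rfl, rfl, rfl⟩ := W_inj _ _ _ _ _ _ (D_inj hF ω hω h)
    rfl
  have hkey : ∀ m : ℕ, {x : Fin 6 → F | x ∈ Cfsg.hexacode F ω ∧ (Finset.univ.filter fun i => x i ≠ 0).card = m}.ncard =
      (Finset.univ.filter fun z : Fin 4 × Fin 4 × Fin 4 => wt (W z.1 z.2.1 z.2.2) = m).card := by
    intro m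
    have h1 : {x : Fin 6 → F | x ∈ Cfsg.hexacode F ω ∧ (Finset.univ.filter fun i => x i ≠ 0).card = m} =
        Φ '' ((Finset.univ.filter fun z : Fin 4 × Fin 4 × Fin 4 => wt (W z.1 z.2.1 z.2.2) = m : Finset _) : Set _) := by
      ext x
      simp only [Set.mem_setOf_eq, Set.mem_image, Finset.coe_filter, Finset.mem_univ, true_and]
      constructor
      · rintro ⟨hx, hw⟩
        obtain ⟨a, b, c, rfl⟩ := (mem_hex hF ω hω x).mp hx
        rw [wt_D hF ω hω] at hw
        exact ⟨⟨a, b, c⟩, hw, rfl⟩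
      · rintro ⟨⟨a, b, c⟩, hw, rfl⟩
        refine ⟨(mem_hex hF ω hω _).mpr ⟨a, b, c, rfl⟩, ?_⟩
        rw [hΦ, wt_D hF ω hω]; exact hw
    rw [h1, Set.ncard_image_of_injective _ hinj, Set.ncard_coe_finset]
  refine ⟨?_, ?_, ?_, ?_⟩
  · have h1 : (Cfsg.hexacode F ω : Set (Fin 6 → F)) = Φ '' Set.univ := by
      ext x
      simp only [SetLike.mem_coe, Set.mem_image, Set.mem_univ, true_and]
      rw [mem_hex hF ω hω]
      constructor
      · rintro ⟨a, b, c, h⟩; exact ⟨⟨a, b, c⟩, h⟩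
      · rintro ⟨⟨a, b, c⟩, h⟩; exact ⟨a, b, c, h⟩
    have h2 : Nat.card ↥(Cfsg.hexacode F ω) = (Cfsg.hexacode F ω : Set (Fin 6 → F)).ncard := rfl
    rw [h2, h1, Set.ncard_image_of_injective _ hinj, Set.ncard_univ]
    simp
  · intro x hx hx0
    obtain ⟨a, b, c, rfl⟩ := (mem_hex hF ω hω x).mp hx
    rw [wt_D hF ω hω]
    rcases wtW a b c with h | h | h
    · exfalso; apply hx0; funext i; rw [h]; exact dec_zero ω
    · left; exact h
    · right; exact h
  · rw [hkey, n45]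
  · rw [hkey, n18]

/-! ### monomial maps -/

def good (ω : F) (σ : Equiv.Perm (Fin 6)) (c : Fin 6 → Fˣ) : Prop := ∀ x ∈ hexacode F ω, monomialMap σ c x ∈ hexacode F ω

theorem mono_D (ω : F) (hω : ω ^ 2 + ω + 1 = 0) (σ : Equiv.Perm (Fin 6)) (c : Fin 6 → Fˣ) (c' v : Fin 6 → Fin 4)
    (hc : ∀ i, dec ω (c' i) = c i) : monomialMap σ c (D ω v) = D ω (mm σ c' v) := by
  funext i
  simp only [monomialMap, D, mm, dec_mul ω hω, hc]

theorem good_iff (hF : Fintype.card F = 4) (ω : F) (hω : ω ^ 2 + ω + 1 = 0) (σ : Equiv.Perm (Fin 6)) (c : Fin 6 → Fˣ)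
    (c' : Fin 6 → Fin 4) (hc : ∀ i, dec ω (c' i) = c i) : good ω σ c ↔ ∀ r, inC (mm σ c' (G r)) = true := by
  constructor
  · intro h r
    rw [← D_mem hF ω hω, ← mono_D ω hω σ c c' (G r) hc]
    apply h
    rw [hex_eq]
    apply Submodule.subset_span
    fin_cases r <;> simp
  · intro h x hx
    have hlin : ∃ L : (Fin 6 → F) →ₗ[F] (Fin 6 → F), ∀ x, L x = monomialMap σ c x := by
      refine ⟨⟨⟨monomialMap σ c, ?_⟩, ?_⟩, fun _ => rfl⟩
      · intro x y; funext i; simp [monomialMap, mul_add]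
      · intro a x; funext i; simp [monomialMap]; ring
    obtain ⟨L, hL⟩ := hlin
    rw [← hL]
    have : (hexacode F ω) ≤ (hexacode F ω).comap L := by
      conv_lhs => rw [hex_eq]
      rw [Submodule.span_le]
      rintro y hy
      simp only [Set.mem_insert_iff, Set.mem_singleton_iff] at hy
      rw [SetLike.mem_coe, Submodule.mem_comap, hL]
      rcases hy with rfl | rfl | rfl <;>
        (rw [mono_D ω hω σ c c' _ hc, D_mem hF ω hω]; exact h _)
    exact this hx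

theorem lift_c (hF : Fintype.card F = 4) (ω : F) (hω : ω ^ 2 + ω + 1 = 0) (c : Fin 6 → Fˣ) :
    ∃ c' : Fin 6 → Fin 4, (∀ i, c' i ≠ 0) ∧ ∀ i, dec ω (c' i) = c i := by
  obtain ⟨c', hc'⟩ := D_surj hF ω hω (fun i => (c i : F))
  refine ⟨c', fun i => ?_, fun i => congrFun hc' i⟩
  rw [← dec_ne hF ω hω]
  have := congrFun hc' i
  unfold D at this
  rw [this]; exact (c i).ne_zero

theorem lift_c' (hF : Fintype.card F = 4) (ω : F) (hω : ω ^ 2 + ω + 1 = 0) (c' : Fin 6 → Fin 4) (h : ∀ i, c' i ≠ 0) :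
    ∃ c : Fin 6 → Fˣ, ∀ i, dec ω (c' i) = c i :=
  ⟨fun i => Units.mk0 (dec ω (c' i)) ((dec_ne hF ω hω _).mpr (h i)), fun i => rfl⟩

theorem diag_const (hF : Fintype.card F = 4) (ω : F) (hω : ω ^ 2 + ω + 1 = 0) (c : Fin 6 → Fˣ) (h : good ω 1 c) (i j : Fin 6) :
    c i = c j := by
  obtain ⟨c', h1, h2⟩ := lift_c hF ω hω c
  have h3 := (good_iff hF ω hω 1 c c' h2).mp h
  have h4 : ∀ i, c i = c 0 := by
    intro i
    apply Units.ext
    rw [← h2, ← h2, chk1 c' h1 h3 i]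
  rw [h4 i, h4 j]

theorem good_mul (ω : F) (σ τ : Equiv.Perm (Fin 6)) (c d : Fin 6 → Fˣ) (h1 : good ω σ c) (h2 : good ω τ d) :
    good ω (σ * τ) (fun i => c i * d (σ.symm i)) := by
  intro x hx
  have h3 := h1 _ (h2 x hx)
  convert h3 using 1
  funext i
  simp only [monomialMap, Units.val_mul, mul_assoc]
  rfl

theorem good_one (ω : F) : good ω 1 (fun _ => 1) := by
  intro x hx
  convert hx using 1
  funext i
  simp only [monomialMap, Units.val_one, one_mul]
  rfl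

theorem good_smul (ω : F) (σ : Equiv.Perm (Fin 6)) (c : Fin 6 → Fˣ) (u : Fˣ) (h : good ω σ c) : good ω σ (fun i => u * c i) := by
  intro x hx
  have := (hexacode F ω).smul_mem (u : F) (h x hx)
  convert this using 1
  funext i
  simp [monomialMap, mul_assoc]

theorem mono_inj (σ : Equiv.Perm (Fin 6)) (c : Fin 6 → Fˣ) : Function.Injective (monomialMap (F := F) σ c) := by
  intro x y h
  funext i
  have := congrFun h (σ i)
  simp only [monomialMap, Equiv.symm_apply_apply] at this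
  exact mul_left_cancel₀ (c (σ i)).ne_zero this

theorem good_inv (ω : F) (σ : Equiv.Perm (Fin 6)) (c : Fin 6 → Fˣ) (h : good ω σ c) :
    good ω σ⁻¹ (fun i => (c (σ i))⁻¹) := by
  intro x hx
  have hs : Function.Surjective (fun y : ↥(hexacode F ω) => (⟨monomialMap σ c y.1, h y.1 y.2⟩ : ↥(hexacode F ω))) := by
    apply Finite.surjective_of_injective
    intro y z hyz
    exact Subtype.ext (mono_inj σ c (congrArg Subtype.val hyz))
  obtain ⟨⟨y, hy⟩, hyx⟩ := hs ⟨x, hx⟩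
  have hyx' : monomialMap σ c y = x := congrArg Subtype.val hyx
  rw [← hyx']
  convert hy using 1
  funext i
  simp only [monomialMap]
  have : (σ⁻¹ : Equiv.Perm (Fin 6)).symm i = σ i := rfl
  rw [this, Equiv.symm_apply_apply]
  simp

def PP (ω : F) : Subgroup (Equiv.Perm (Fin 6)) where
  carrier := {σ | ∃ c, good ω σ c}
  mul_mem' := by rintro σ τ ⟨c, hc⟩ ⟨d, hd⟩; exact ⟨_, good_mul ω σ τ c d hc hd⟩
  one_mem' := ⟨_, good_one ω⟩
  inv_mem' := by rintro σ ⟨c, hc⟩; exact ⟨_, good_inv ω σ c hc⟩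

theorem three_mem (hF : Fintype.card F = 4) (ω : F) (hω : ω ^ 2 + ω + 1 = 0) (i j k : Fin 6) (h1 : i ≠ j) (h2 : i ≠ k) (h3 : j ≠ k) :
    Equiv.swap i j * Equiv.swap j k ∈ PP ω := by
  obtain ⟨h4, h5⟩ := chk3 i j k h1 h2 h3
  obtain ⟨c, hc⟩ := lift_c' hF ω hω _ h4
  exact ⟨c, (good_iff hF ω hω _ c _ hc).mpr h5⟩

theorem alt_le (hF : Fintype.card F = 4) (ω : F) (hω : ω ^ 2 + ω + 1 = 0) : alternatingGroup (Fin 6) ≤ PP ω := by
  rw [← Equiv.Perm.closure_three_cycles_eq_alternating, Subgroup.closure_le]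
  intro σ hσ
  have hσ : σ.IsThreeCycle := hσ
  have h3 : σ.support.card = 3 := hσ.card_support
  obtain ⟨x, hx⟩ := Finset.card_pos.mp (by rw [h3]; norm_num : 0 < σ.support.card)
  have := (Equiv.Perm.IsThreeCycle.eq_swap_mul_swap_iff_mem_support hσ).mpr hx
  rw [SetLike.mem_coe, this]
  have hnd := hσ.nodup_iff_mem_support.mpr hx
  simp only [List.nodup_cons, List.mem_cons, List.not_mem_nil, or_false, not_or, List.nodup_nil, and_true, not_false_eq_true] at hnd
  exact three_mem hF ω hω _ _ _ hnd.1.1 hnd.1.2 hnd.2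

theorem PP_eq (hF : Fintype.card F = 4) (ω : F) (hω : ω ^ 2 + ω + 1 = 0) : PP ω = alternatingGroup (Fin 6) := by
  apply le_antisymm _ (alt_le hF ω hω)
  intro σ hσ
  by_contra hc
  rw [Equiv.Perm.mem_alternatingGroup] at hc
  have h1 : σ * Equiv.swap 0 1 ∈ alternatingGroup (Fin 6) := by
    rw [Equiv.Perm.mem_alternatingGroup, Equiv.Perm.sign_mul, Equiv.Perm.sign_swap (by decide)]
    rcases Int.units_eq_one_or (Equiv.Perm.sign σ) with h | h
    · exact absurd h hc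
    · rw [h]; rfl
  have h2 : Equiv.swap 0 1 ∈ PP ω := by
    have := (PP ω).mul_mem ((PP ω).inv_mem hσ) (alt_le hF ω hω h1)
    simpa using this
  obtain ⟨c, hc⟩ := h2
  obtain ⟨c', h3, h4⟩ := lift_c hF ω hω c
  exact chk2 c' h3 ((good_iff hF ω hω _ c c' h4).mp hc)

theorem card_good (hF : Fintype.card F = 4) (ω : F) (hω : ω ^ 2 + ω + 1 = 0) :
    Nat.card {f : Equiv.Perm (Fin 6) × (Fin 6 → Fˣ) // good ω f.1 f.2} = 1080 := by
  have hex : ∀ σ : ↥(alternatingGroup (Fin 6)), ∃ c, good ω σ.1 c := fun σ => alt_le hF ω hω σ.2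
  choose cc hcc using hex
  have e : Function.Bijective (fun z : ↥(alternatingGroup (Fin 6)) × Fˣ =>
      (⟨(z.1.1, fun i => z.2 * cc z.1 i), good_smul ω _ _ _ (hcc z.1)⟩ :
        {f : Equiv.Perm (Fin 6) × (Fin 6 → Fˣ) // good ω f.1 f.2})) := by
    constructor
    · rintro ⟨σ, u⟩ ⟨τ, v⟩ h
      have h1 := congrArg (fun z => z.1) h
      simp only [Prod.mk.injEq] at h1
      obtain ⟨h2, h3⟩ := h1
      have h2 : σ = τ := Subtype.ext h2
      subst h2
      have h4 := congrFun h3 0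
      rw [mul_left_inj] at h4
      rw [h4]
    · rintro ⟨⟨σ, c⟩, hg⟩
      have hg : good ω σ c := hg
      have hσ : σ ∈ alternatingGroup (Fin 6) := by rw [← PP_eq hF ω hω]; exact ⟨c, hg⟩
      have h1 := good_mul ω _ _ _ _ hg (good_inv ω _ _ (hcc ⟨σ, hσ⟩))
      rw [mul_inv_cancel] at h1
      have h2 := diag_const hF ω hω _ h1
      refine ⟨(⟨σ, hσ⟩, c 0 * (cc ⟨σ, hσ⟩ 0)⁻¹), ?_⟩
      apply Subtype.ext
      simp only [Prod.mk.injEq, true_and]
      funext i
      have h3 := h2 i 0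
      simp only [Equiv.apply_symm_apply] at h3
      rw [← h3]; simp
  rw [← Nat.card_congr (Equiv.ofBijective _ e), Nat.card_prod]
  have h6 : Nat.card ↥(alternatingGroup (Fin 6)) = 360 := by
    have := two_mul_nat_card_alternatingGroup (α := Fin 6)
    rw [Nat.card_eq_fintype_card (α := Equiv.Perm (Fin 6)), Fintype.card_perm, Fintype.card_fin] at this
    have h720 : Nat.factorial 6 = 720 := rfl
    omega
  have h3 : Nat.card Fˣ = 3 := by
    rw [Nat.card_units, Nat.card_eq_fintype_card, hF]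
  rw [h6, h3]

end

end Cfsg.Agent.H7.Hex
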