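import Mathlib
import Cfsg.Agent.H7_Ix1

set_option autoImplicit false
set_option linter.all false

/-!
Orbits of the Sylow 2-subgroups of `M24` and `M23`.
-/

namespace Cfsg.Agent.H7.Ix

open Cfsg Cfsg.Agent.H7.Golay Cfsg.Agent.H7.Oct Cfsg.Agent.H7.M24 Cfsg.Agent.H7.M24b Cfsg.Agent.H7.M24c Cfsg.Agent.H7.M24d
open scoped Pointwise
open MulAction (orbit)

local notation "PG" => Equiv.Perm GolayPt

theorem orb_eq {G α : Type*} [Group G] [MulAction G α] (K : Subgroup G) {x y : α} (h : y ∈ orbit K x) : orbit K y = orbit K x :=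
  MulAction.orbit_eq_iff.2 h

theorem orb_symm {G α : Type*} [Group G] [MulAction G α] (K : Subgroup G) {x y : α} (h : y ∈ orbit K x) : x ∈ orbit K y := by
  rw [orb_eq K h]; exact MulAction.mem_orbit_self x

theorem orb_disj {G α : Type*} [Group G] [MulAction G α] (K : Subgroup G) {x y : α} (h : (orbit K x).ncard ≠ (orbit K y).ncard) :
    Disjoint (orbit K x) (orbit K y) := by
  rw [Set.disjoint_left]
  intro z h1 h2
  exact h (by rw [← orb_eq K h1, ← orb_eq K h2])

/-- a 2-subgroup of order `2^10` -/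
theorem S_struct (S : Subgroup PG) (hS : S ≤ M24) (hc : Nat.card S = 2 ^ 10) :
    ∃ o ∈ octads, (∀ g ∈ S, g • o = o) ∧ (∀ y ∈ o, orbit S y = (o : Set GolayPt)) ∧
      ∀ y ∉ o, orbit S y = ((oᶜ : Finset GolayPt) : Set GolayPt) := by
  haveI : Fact (Nat.Prime 2) := ⟨Nat.prime_two⟩
  have h1 := fix_mod S hc octads (fun g hg x hx => (smul_mem_octads_iff (hS hg)).2 hx)
  rw [octads_ncard] at h1
  have h2 : {x | x ∈ octads ∧ ∀ g ∈ S, g • x = x}.Nonempty := by
    rw [← Set.ncard_pos (Set.toFinite _)]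
    by_contra hcon
    have h0 : {x | x ∈ octads ∧ ∀ g ∈ S, g • x = x}.ncard = 0 := by omega
    rw [h0] at h1
    revert h1
    decide
  obtain ⟨o, ho, hfix⟩ := h2
  refine ⟨o, ho, hfix, fun y hy => ?_, fun y hy => ?_⟩
  · have h3 := card_eq_orbit_mul S y
    have h4 : Nat.card ↥(S ⊓ MulAction.stabilizer PG y) ∣ 10200960 := by
      rw [← card_pt y]
      exact Subgroup.card_dvd_of_le (inf_le_inf_right _ hS)
    have h5 : Nat.card ↥(S ⊓ MulAction.stabilizer PG y) ∣ 1024 := by
      rw [hc] at h3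
      exact ⟨_, (h3.trans (mul_comm _ _))⟩
    have h6 := Nat.dvd_gcd h4 h5
    rw [show Nat.gcd 10200960 1024 = 128 by norm_num] at h6
    have h7 := Nat.le_of_dvd (by norm_num) h6
    have hsub : orbit S y ⊆ (o : Set GolayPt) := orb_sub S _ (fun g hg x hx => (mem_smul_iff' (hfix g hg) x).2 hx) hy
    refine Set.eq_of_subset_of_ncard_le hsub ?_ (Set.toFinite _)
    rw [Set.ncard_coe_finset, ho.2]
    rw [hc] at h3
    by_contra hcon
    push Not at hcon
    have : (orbit S y).ncard * Nat.card ↥(S ⊓ MulAction.stabilizer PG y) ≤ 7 * 128 := Nat.mul_le_mul (by omega) h7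
    omega
  · have h3 := card_eq_orbit_mul S y
    have h4 : Nat.card ↥(S ⊓ MulAction.stabilizer PG y) ∣ 20160 := by
      rw [← card_oct_off ho hy]
      exact Subgroup.card_dvd_of_le (inf_le_inf_right _ fun g hg => ⟨hS hg, hfix g hg⟩)
    have h5 : Nat.card ↥(S ⊓ MulAction.stabilizer PG y) ∣ 1024 := by
      rw [hc] at h3
      exact ⟨_, (h3.trans (mul_comm _ _))⟩
    have h6 := Nat.dvd_gcd h4 h5
    rw [show Nat.gcd 20160 1024 = 64 by norm_num] at h6
    have h7 := Nat.le_of_dvd (by norm_num) h6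
    have hsub : orbit S y ⊆ ((oᶜ : Finset GolayPt) : Set GolayPt) := orb_sub S _ (fun g hg x hx => by
      rw [Finset.mem_coe, Finset.mem_compl] at hx ⊢
      exact fun h => hx ((mem_smul_iff' (hfix g hg) x).1 h)) (by rw [Finset.mem_coe, Finset.mem_compl]; exact hy)
    refine Set.eq_of_subset_of_ncard_le hsub ?_ (Set.toFinite _)
    rw [Set.ncard_coe_finset, oct_compl_card ho]
    rw [hc] at h3
    by_contra hcon
    push Not at hcon
    have : (orbit S y).ncard * Nat.card ↥(S ⊓ MulAction.stabilizer PG y) ≤ 15 * 64 := Nat.mul_le_mul (by omega) h7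
    omega

structure TS (T : Subgroup PG) (x a b c d : GolayPt) (o : Finset GolayPt) : Prop where
  ho : o ∈ octads
  fx : ∀ g ∈ T, g x = x
  hax : a ≠ x
  fa : ∀ g ∈ T, g a = a
  cb : (orbit T b).ncard = 2
  cc : (orbit T c).ncard = 4
  od : orbit T d = ((oᶜ : Finset GolayPt) : Set GolayPt)
  eo : (o : Set GolayPt) = {x} ∪ {a} ∪ orbit T b ∪ orbit T c

theorem T_struct (T : Subgroup PG) (hT : T ≤ M24) (hc : Nat.card T = 2 ^ 7) {x : GolayPt} (hx : ∀ g ∈ T, g x = x) :
    ∃ a b c d o, TS T x a b c d o := by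
  haveI : Fact (Nat.Prime 2) := ⟨Nat.prime_two⟩
  have h1 := fix_mod T hc {o : Finset GolayPt | o ∈ octads ∧ x ∈ o} (fun g hg o ho => by
    refine ⟨(smul_mem_octads_iff (hT hg)).2 ho.1, ?_⟩
    rw [Finset.mem_smul_finset]
    exact ⟨x, ho.2, hx g hg⟩)
  rw [octads_pt] at h1
  have h2 : {o | o ∈ {o : Finset GolayPt | o ∈ octads ∧ x ∈ o} ∧ ∀ g ∈ T, g • o = o}.Nonempty := by
    rw [← Set.ncard_pos (Set.toFinite _)]
    by_contra hcon
    have h0 : {o | o ∈ {o : Finset GolayPt | o ∈ octads ∧ x ∈ o} ∧ ∀ g ∈ T, g • o = o}.ncard = 0 := by omega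
    rw [h0] at h1
    revert h1
    decide
  obtain ⟨o, ⟨ho, hxo⟩, hfix⟩ := h2
  have hinv : ∀ g ∈ T, ∀ y ∈ (o : Set GolayPt), g • y ∈ (o : Set GolayPt) := fun g hg y hy => (mem_smul_iff' (hfix g hg) y).2 hy
  -- the second fixed point
  have h3 := fix_mod T hc ((o : Set GolayPt) \ {x}) (fun g hg y hy => ⟨hinv g hg y hy.1, fun h => hy.2 (by
    have h' : g y = x := h
    exact g.injective (h'.trans (hx g hg).symm))⟩)
  have e7 : ((o : Set GolayPt) \ {x}).ncard = 7 := by
    rw [Set.ncard_diff_singleton_of_mem (by exact hxo), Set.ncard_coe_finset, ho.2]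
  rw [e7] at h3
  set F := {y | y ∈ (o : Set GolayPt) \ {x} ∧ ∀ g ∈ T, g • y = y} with hF
  have hF1 : F.ncard = 1 := by
    have hle : F.ncard < 2 := by
      by_contra hcon
      push Not at hcon
      have hxF : x ∉ F := fun h => h.1.2 rfl
      have h4 := dvd_of_fix T hT (k := 3) (by norm_num) (insert x F) (by
        rw [Set.ncard_insert_of_notMem hxF (Set.toFinite _)]; omega) (fun g hg p hp => by
        rcases hp with rfl | hp
        · exact hx g hg
        · exact hp.2 g hg)
      rw [hc] at h4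
      revert h4
      decide
    have h5 : F.ncard % 2 = 1 := by rw [← h3]
    omega
  obtain ⟨a, ha⟩ := Set.ncard_eq_one.1 hF1
  have haF : a ∈ F := by rw [ha]; rfl
  have hax : a ≠ x := haF.1.2
  have fa : ∀ g ∈ T, g a = a := haF.2
  have hao : a ∈ (o : Set GolayPt) := haF.1.1
  -- orbits on the other six points
  set D6 : Set GolayPt := (o : Set GolayPt) \ {x, a} with hD6
  have c6 : D6.ncard = 6 := by
    rw [hD6, Set.ncard_diff (by intro y hy; rcases hy with rfl | rfl; exacts [hxo, hao]), Set.ncard_pair hax.symm,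
      Set.ncard_coe_finset, ho.2]
  have inv6 : ∀ g ∈ T, ∀ y ∈ D6, g • y ∈ D6 := fun g hg y hy => ⟨hinv g hg y hy.1, fun h => hy.2 (by
    rcases h with h | h
    · exact Or.inl (g.injective (show g y = g x from (show g y = x from h).trans (hx g hg).symm))
    · exact Or.inr (g.injective (show g y = g a from (show g y = a from h).trans (fa g hg).symm)))⟩
  have s24 : ∀ y ∈ D6, (orbit T y).ncard = 2 ∨ (orbit T y).ncard = 4 := by
    intro y hy
    have h4 := orb_dvd T y
    have h5 := Set.ncard_le_ncard (orb_sub T D6 inv6 hy) (Set.toFinite _)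
    have h6 := orb_pos T y
    rw [c6] at h5
    rw [hc] at h4
    have h7 : (orbit T y).ncard ≠ 1 := by
      intro h
      have h8 := fixed_of_orb_one T y h
      have : y ∈ F := ⟨⟨hy.1, fun h => hy.2 (Or.inl h)⟩, h8⟩
      rw [ha] at this
      exact hy.2 (Or.inr this)
    generalize (orbit T y).ncard = s at h4 h5 h6 h7
    interval_cases s <;> revert h4 h7 <;> decide
  have exb : ∃ b ∈ D6, (orbit T b).ncard = 2 := by
    have hne : D6.Nonempty := by rw [← Set.ncard_pos (Set.toFinite _)]; omega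
    obtain ⟨y, hy⟩ := hne
    rcases s24 y hy with h | h
    · exact ⟨y, hy, h⟩
    have hs := orb_sub T D6 inv6 hy
    have c2 : (D6 \ orbit T y).ncard = 2 := by rw [Set.ncard_diff hs, c6, h]
    have hne : (D6 \ orbit T y).Nonempty := by rw [← Set.ncard_pos (Set.toFinite _)]; omega
    obtain ⟨z, hz⟩ := hne
    refine ⟨z, hz.1, ?_⟩
    have hs2 : orbit T z ⊆ D6 \ orbit T y := orb_sub T (D6 \ orbit T y) (fun g hg w hw => ⟨inv6 g hg w hw.1, fun h => hw.2 (by
      have h9 := orb_inv T y (inv_mem hg) h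
      rwa [inv_smul_smul] at h9)⟩) hz
    have h5 := Set.ncard_le_ncard hs2 (Set.toFinite _)
    rcases s24 z hz.1 with h | h
    · exact h
    · omega
  obtain ⟨b, hb, cb⟩ := exb
  have hsb := orb_sub T D6 inv6 hb
  have c4 : (D6 \ orbit T b).ncard = 4 := by rw [Set.ncard_diff hsb, c6, cb]
  have hne : (D6 \ orbit T b).Nonempty := by rw [← Set.ncard_pos (Set.toFinite _)]; omega
  obtain ⟨c, hcd⟩ := hne
  have hsc : orbit T c ⊆ D6 \ orbit T b := orb_sub T (D6 \ orbit T b) (fun g hg w hw => ⟨inv6 g hg w hw.1, fun h => hw.2 (by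
      have h9 := orb_inv T b (inv_mem hg) h
      rwa [inv_smul_smul] at h9)⟩) hcd
  have cc : (orbit T c).ncard = 4 := by
    rcases s24 c hcd.1 with h | h
    swap
    · exact h
    exfalso
    have k1 := card_eq_orbit_mul T b
    rw [hc, cb] at k1
    have k2 : Nat.card ↥(T ⊓ MulAction.stabilizer PG b) = 2 ^ 6 := by omega
    have k3 := card_eq_orbit_mul (T ⊓ MulAction.stabilizer PG b) c
    have k4 : (orbit ↥(T ⊓ MulAction.stabilizer PG b) c).ncard ≤ 2 := by
      rw [← h]
      apply Set.ncard_le_ncard _ (Set.toFinite _)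
      rintro _ ⟨k, rfl⟩
      exact ⟨⟨k.1, k.2.1⟩, rfl⟩
    have hfb : ∀ y ∈ orbit T b, ∀ g ∈ T ⊓ MulAction.stabilizer PG b, g • y = y := by
      intro y hy
      by_cases hyb : y = b
      · subst hyb; exact fun g hg => hg.2
      · refine fix_small (T ⊓ MulAction.stabilizer PG b) k2 (orbit T b \ {b}) ?_ ?_ y ⟨hy, hyb⟩
        · intro g hg w hw
          refine ⟨orb_inv T b hg.1 hw.1, fun h => hw.2 ?_⟩
          have h2 : g • w = g • b := h.trans (show g • b = b from hg.2).symm
          exact (g.injective h2 : w = b)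
        · rw [Set.ncard_diff_singleton_of_mem (MulAction.mem_orbit_self b), cb]; norm_num
    have k5 := dvd_of_fix (T ⊓ MulAction.stabilizer PG b ⊓ MulAction.stabilizer PG c) (fun g hg => hT hg.1.1) (k := 5) le_rfl
      ({x, a, c} ∪ orbit T b) (by
        have hd : Disjoint ({x, a, c} : Set GolayPt) (orbit T b) := by
          rw [Set.disjoint_left]
          intro y hy hy2
          rcases hy with rfl | rfl | rfl
          · exact (hsb hy2).2 (Or.inl rfl)
          · exact (hsb hy2).2 (Or.inr rfl)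
          · exact hcd.2 hy2
        rw [Set.ncard_union_eq hd (Set.toFinite _) (Set.toFinite _), cb]
        have h1 : a ∉ ({c} : Set GolayPt) := fun h => hcd.1.2 (Or.inr (Set.mem_singleton_iff.1 h).symm)
        have h2 : x ∉ ({a, c} : Set GolayPt) := by
          rintro (h | h)
          · exact hax h.symm
          · exact hcd.1.2 (Or.inl (Set.mem_singleton_iff.1 h).symm)
        rw [Set.ncard_insert_of_notMem h2 (Set.toFinite _), Set.ncard_insert_of_notMem h1 (Set.toFinite _), Set.ncard_singleton])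
      (fun g hg p hp => by
        rcases hp with (rfl | rfl | rfl) | hp
        · exact hx g hg.1.1
        · exact fa g hg.1.1
        · exact hg.2
        · exact hfb p hp g hg.1)
    rw [k2] at k3
    have k6 : Nat.card ↥(T ⊓ MulAction.stabilizer PG b ⊓ MulAction.stabilizer PG c) ∣ 2 ^ 6 := ⟨_, k3.trans (mul_comm _ _)⟩
    have k7 := orb_pos (T ⊓ MulAction.stabilizer PG b) c
    generalize Nat.card ↥(T ⊓ MulAction.stabilizer PG b ⊓ MulAction.stabilizer PG c) = m at *
    generalize (orbit ↥(T ⊓ MulAction.stabilizer PG b) c).ncard = s at *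
    have : s = 1 ∨ s = 2 := by omega
    rcases this with rfl | rfl
    · have : m = 64 := by omega
      subst this
      revert k5; decide
    · have : m = 32 := by omega
      subst this
      revert k5; decide
  -- the points off the octad
  have hne : ∃ d, d ∉ o := by
    by_contra hcon
    push Not at hcon
    have : o = Finset.univ := Finset.eq_univ_iff_forall.2 hcon
    have h8 := ho.2
    rw [this] at h8
    revert h8
    decide
  obtain ⟨d, hd⟩ := hne
  have od : orbit T d = ((oᶜ : Finset GolayPt) : Set GolayPt) := by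
    have h3 := card_eq_orbit_mul T d
    have h4 : Nat.card ↥(T ⊓ MulAction.stabilizer PG d) ∣ 2520 := by
      rw [← card_oct_on_off ho hxo hd]
      exact Subgroup.card_dvd_of_le (inf_le_inf_right _ fun g hg => ⟨⟨hT hg, hfix g hg⟩, hx g hg⟩)
    have h5 : Nat.card ↥(T ⊓ MulAction.stabilizer PG d) ∣ 128 := by
      rw [hc] at h3
      exact ⟨_, (h3.trans (mul_comm _ _))⟩
    have h6 := Nat.dvd_gcd h4 h5
    rw [show Nat.gcd 2520 128 = 8 by norm_num] at h6
    have h7 := Nat.le_of_dvd (by norm_num) h6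
    have hsub : orbit T d ⊆ ((oᶜ : Finset GolayPt) : Set GolayPt) := orb_sub T _ (fun g hg x hx => by
      rw [Finset.mem_coe, Finset.mem_compl] at hx ⊢
      exact fun h => hx ((mem_smul_iff' (hfix g hg) x).1 h)) (by rw [Finset.mem_coe, Finset.mem_compl]; exact hd)
    refine Set.eq_of_subset_of_ncard_le hsub ?_ (Set.toFinite _)
    rw [Set.ncard_coe_finset, oct_compl_card ho]
    rw [hc] at h3
    by_contra hcon
    push Not at hcon
    have : (orbit T d).ncard * Nat.card ↥(T ⊓ MulAction.stabilizer PG d) ≤ 15 * 8 := Nat.mul_le_mul (by omega) h7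
    omega
  refine ⟨a, b, c, d, o, ho, hx, hax, fa, cb, cc, od, ?_⟩
  have e1 : orbit T c = D6 \ orbit T b := Set.eq_of_subset_of_ncard_le hsc (by rw [c4, cc]) (Set.toFinite _)
  ext y
  rw [e1, hD6]
  constructor
  · intro hy
    by_cases hy1 : y = x
    · exact Or.inl (Or.inl (Or.inl hy1))
    by_cases hy2 : y = a
    · exact Or.inl (Or.inl (Or.inr hy2))
    by_cases hy3 : y ∈ orbit T b
    · exact Or.inl (Or.inr hy3)
    · exact Or.inr ⟨⟨hy, by rintro (h | h); exacts [hy1 h, hy2 h]⟩, hy3⟩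
  · rintro (((h | h) | h) | h)
    · rw [Set.mem_singleton_iff] at h; subst h; exact hxo
    · rw [Set.mem_singleton_iff] at h; subst h; exact hao
    · exact (hsb h).1
    · exact h.1.1

end Cfsg.Agent.H7.Ix
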