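import Mathlib
import Cfsg.Agent.H7_Ix2

set_option autoImplicit false
set_option linter.all false

/-!
Invariant sets of the Sylow 2-subgroups of `M23`; subgroups of index 253 in `M23`.
-/

namespace Cfsg.Agent.H7.Ix

open Cfsg Cfsg.Agent.H7.Golay Cfsg.Agent.H7.Oct Cfsg.Agent.H7.M24 Cfsg.Agent.H7.M24b Cfsg.Agent.H7.M24c Cfsg.Agent.H7.M24d
open scoped Pointwise
open MulAction (orbit)

local notation "PG" => Equiv.Perm GolayPt

variable {T : Subgroup PG} {x a b c d : GolayPt} {o : Finset GolayPt}

theorem inter_orb {G α : Type*} [Group G] [MulAction G α] [Finite α] (K : Subgroup G) (X : Set α)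
    (hX : ∀ g ∈ K, ∀ y ∈ X, g • y ∈ X) (y : α) [Decidable (y ∈ X)] :
    (X ∩ orbit K y).ncard = if y ∈ X then (orbit K y).ncard else 0 := by
  split_ifs with h
  · rw [Set.inter_eq_right.2 (orb_sub K X hX h)]
  · rw [Set.ncard_eq_zero (Set.toFinite _)]
    ext z
    constructor
    · rintro ⟨h1, h2⟩
      exact h (orb_sub K X hX h1 (orb_symm K h2))
    · exact fun h => h.elim

theorem TS.hx (h : TS T x a b c d o) : x ∈ o := by
  have : x ∈ (o : Set GolayPt) := by rw [h.eo]; exact Or.inl (Or.inl (Or.inl rfl))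
  exact this

theorem TS.ha (h : TS T x a b c d o) : a ∈ o := by
  have : a ∈ (o : Set GolayPt) := by rw [h.eo]; exact Or.inl (Or.inl (Or.inr rfl))
  exact this

theorem TS.hb (h : TS T x a b c d o) : orbit T b ⊆ (o : Set GolayPt) := by
  rw [h.eo]; exact fun y hy => Or.inl (Or.inr hy)

theorem TS.hc (h : TS T x a b c d o) : orbit T c ⊆ (o : Set GolayPt) := by
  rw [h.eo]; exact fun y hy => Or.inr hy

theorem TS.orbx (h : TS T x a b c d o) : orbit T x = {x} := orb_of_fixed T x h.fx
theorem TS.orba (h : TS T x a b c d o) : orbit T a = {a} := orb_of_fixed T a h.fa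

theorem TS.cd (h : TS T x a b c d o) : (orbit T d).ncard = 16 := by
  rw [h.od, Set.ncard_coe_finset, oct_compl_card h.ho]

theorem TS.ofix (h : TS T x a b c d o) : ∀ g ∈ T, g • o = o := by
  intro g hg
  have h1 : ∀ y, y ∉ o → g y ∉ o := by
    intro y hy
    have h2 : y ∈ orbit T d := by rw [h.od, Finset.mem_coe, Finset.mem_compl]; exact hy
    have h3 := orb_inv T d hg h2
    rw [h.od, Finset.mem_coe, Finset.mem_compl] at h3
    exact h3
  apply Finset.eq_of_superset_of_card_ge
  · intro z hz
    rw [Finset.mem_smul_finset]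
    refine ⟨g⁻¹ z, ?_, ?_⟩
    · by_contra hcon
      have := h1 _ hcon
      rw [show g (g⁻¹ z) = z from g.apply_symm_apply z] at this
      exact this hz
    · exact g.apply_symm_apply z
  · rw [Finset.card_smul_finset]

open Classical in
theorem TS.inv_card (h : TS T x a b c d o) (X : Set GolayPt) (hX : ∀ g ∈ T, ∀ y ∈ X, g • y ∈ X) :
    X.ncard = (if x ∈ X then 1 else 0) + (if a ∈ X then 1 else 0) + (if b ∈ X then 2 else 0) +
      (if c ∈ X then 4 else 0) + (if d ∈ X then 16 else 0) := by
  have e : X = (((X ∩ orbit T x) ∪ (X ∩ orbit T a)) ∪ (X ∩ orbit T b)) ∪ (X ∩ orbit T c) ∪ (X ∩ orbit T d) := by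
    rw [← Set.inter_union_distrib_left, ← Set.inter_union_distrib_left, ← Set.inter_union_distrib_left,
      ← Set.inter_union_distrib_left, h.orbx, h.orba, ← h.eo, h.od]
    ext y
    simp only [Set.mem_inter_iff, Set.mem_union, Finset.mem_coe, Finset.mem_compl]
    tauto
  have cx : (orbit T x).ncard = 1 := by rw [h.orbx, Set.ncard_singleton]
  have ca : (orbit T a).ncard = 1 := by rw [h.orba, Set.ncard_singleton]
  have cd := h.cd
  have dxa : Disjoint (X ∩ orbit T x) (X ∩ orbit T a) := by
    rw [h.orbx, h.orba, Set.disjoint_left]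
    rintro y ⟨-, h1⟩ ⟨-, h2⟩
    rw [Set.mem_singleton_iff] at h1 h2
    exact h.hax (h2.symm.trans h1)
  have dj : ∀ y z, (orbit T y).ncard ≠ (orbit T z).ncard → Disjoint (X ∩ orbit T y) (X ∩ orbit T z) := fun y z hyz =>
    Set.disjoint_of_subset Set.inter_subset_right Set.inter_subset_right (orb_disj T hyz)
  have n1 := inter_orb T X hX x
  have n2 := inter_orb T X hX a
  have n3 := inter_orb T X hX b
  have n4 := inter_orb T X hX c
  have n5 := inter_orb T X hX d
  rw [cx] at n1
  rw [ca] at n2
  rw [h.cb] at n3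
  rw [h.cc] at n4
  rw [cd] at n5
  conv_lhs => rw [e]
  rw [Set.ncard_union_eq _ (Set.toFinite _) (Set.toFinite _), Set.ncard_union_eq _ (Set.toFinite _) (Set.toFinite _),
    Set.ncard_union_eq _ (Set.toFinite _) (Set.toFinite _), Set.ncard_union_eq dxa (Set.toFinite _) (Set.toFinite _), n1, n2, n3, n4, n5]
  · rw [Set.disjoint_union_left]
    exact ⟨dj _ _ (by rw [cx, h.cb]; norm_num), dj _ _ (by rw [ca, h.cb]; norm_num)⟩
  · rw [Set.disjoint_union_left, Set.disjoint_union_left]
    exact ⟨⟨dj _ _ (by rw [cx, h.cc]; norm_num), dj _ _ (by rw [ca, h.cc]; norm_num)⟩, dj _ _ (by rw [h.cb, h.cc]; norm_num)⟩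
  · rw [Set.disjoint_union_left, Set.disjoint_union_left, Set.disjoint_union_left]
    exact ⟨⟨⟨dj _ _ (by rw [cx, cd]; norm_num), dj _ _ (by rw [ca, cd]; norm_num)⟩, dj _ _ (by rw [h.cb, cd]; norm_num)⟩,
      dj _ _ (by rw [h.cc, cd]; norm_num)⟩

/-- the two fixed points of `T` play the same role -/
theorem TS.swap (hTM : T ≤ M24) (hT : Nat.card T = 2 ^ 7) (h : TS T x a b c d o) {a' b' c' d' : GolayPt} {o' : Finset GolayPt}
    (h' : TS T a a' b' c' d' o') : o' = o ∧ a' = x ∧ orbit T b' = orbit T b ∧ orbit T c' = orbit T c := by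
  classical
  have key : ∀ (y z : GolayPt), (orbit T y).ncard ≠ 1 → (orbit T y).ncard = (orbit T z).ncard →
      orbit T y = orbit T b ∨ orbit T y = orbit T c ∨ orbit T y = orbit T d := by
    intro y z h1 h2
    by_cases hy : y ∈ o
    · have hy' : y ∈ (o : Set GolayPt) := hy
      rw [h.eo] at hy'
      rcases hy' with ((hy' | hy') | hy') | hy'
      · rw [Set.mem_singleton_iff] at hy'
        subst hy'
        rw [h.orbx, Set.ncard_singleton] at h1
        exact absurd rfl h1
      · rw [Set.mem_singleton_iff] at hy'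
        subst hy'
        rw [h.orba, Set.ncard_singleton] at h1
        exact absurd rfl h1
      · exact Or.inl (orb_eq T hy')
      · exact Or.inr (Or.inl (orb_eq T hy'))
    · have : y ∈ orbit T d := by rw [h.od, Finset.mem_coe, Finset.mem_compl]; exact hy
      exact Or.inr (Or.inr (orb_eq T this))
  have cb := h.cb
  have cc := h.cc
  have cd := h.cd
  have cb' := h'.cb
  have cc' := h'.cc
  have cd' := h'.cd
  have e1 : orbit T b' = orbit T b := by
    rcases key b' b (by omega) (by omega) with e | e | e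
    · exact e
    · rw [e] at cb'; omega
    · rw [e] at cb'; omega
  have e2 : orbit T c' = orbit T c := by
    rcases key c' c (by omega) (by omega) with e | e | e
    · rw [e] at cc'; omega
    · exact e
    · rw [e] at cc'; omega
  have e3 : orbit T d' = orbit T d := by
    rcases key d' d (by omega) (by omega) with e | e | e
    · rw [e] at cd'; omega
    · rw [e] at cd'; omega
    · exact e
  have e4 : o' = o := by
    have := h'.od
    rw [e3, h.od] at this
    have h2 := Finset.coe_injective this
    exact (compl_injective h2).symm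
  refine ⟨e4, ?_, e1, e2⟩
  have h5 : x ∈ (o' : Set GolayPt) := by rw [e4]; exact h.hx
  rw [h'.eo, e1, e2] at h5
  have nb : ∀ y, (orbit T y).ncard ≠ 1 → x ∉ orbit T y := by
    intro y hy hxy
    rw [← orb_eq T hxy, h.orbx, Set.ncard_singleton] at hy
    exact hy rfl
  rcases h5 with ((h5 | h5) | h5) | h5
  · exact absurd (Set.mem_singleton_iff.1 h5).symm h.hax
  · exact (Set.mem_singleton_iff.1 h5).symm
  · exact absurd h5 (nb b (by omega))
  · exact absurd h5 (nb c (by omega))

/-- residues of sizes of orbits modulo a prime -/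
theorem orb_mod {p : ℕ} [hp : Fact p.Prime] (h5 : 5 ≤ p) (L : Subgroup PG) (hL : L ≤ M24) (hpL : p ∣ Nat.card L) {x : GolayPt}
    (hx : ∀ g ∈ L, g x = x) (X : Set GolayPt) (hX : ∀ g ∈ L, ∀ y ∈ X, g • y ∈ X) (hxX : x ∉ X) : X.ncard % p < 24 % p := by
  obtain ⟨E, hEL, hE⟩ := exists_pgroup (p := p) (n := 1) L (by rwa [pow_one])
  have h1 := fix_count h5 one_ne_zero E (hEL.trans hL) hE
  have h2 := fix_mod E hE X (fun g hg => hX g (hEL hg))
  have h3 : insert x {y | y ∈ X ∧ ∀ g ∈ E, g • y = y} ⊆ {y : GolayPt | ∀ g ∈ E, g y = y} := by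
    intro y hy
    rcases hy with rfl | hy
    · exact fun g hg => hx g (hEL hg)
    · exact hy.2
  have h4 := Set.ncard_le_ncard h3 (Set.toFinite _)
  rw [Set.ncard_insert_of_notMem (fun h => hxX h.1) (Set.toFinite _), h1] at h4
  rw [Nat.ModEq] at h2
  rw [h2]
  exact lt_of_le_of_lt (Nat.mod_le _ _) (by omega)

theorem eq_of_card_le {G : Type*} [Group G] [Finite G] {H K : Subgroup G} (h : H ≤ K) (hc : Nat.card K ≤ Nat.card H) : H = K :=
  Subgroup.eq_of_le_of_card_ge h hc

/-- subgroups of `M23` of order 40320 -/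
theorem index253 (L : Subgroup PG) (hL : L ≤ M24) {x : GolayPt} (hx : ∀ g ∈ L, g x = x) (hc : Nat.card L = 40320) :
    (∃ s : Finset GolayPt, s.card = 2 ∧ x ∉ s ∧ ∀ g ∈ L, g • s = s) ∨ ∃ o ∈ octads, x ∈ o ∧ ∀ g ∈ L, g • o = o := by
  classical
  haveI : Fact (Nat.Prime 2) := ⟨Nat.prime_two⟩
  haveI : Fact (Nat.Prime 7) := ⟨by norm_num⟩
  obtain ⟨T, hTL, hT⟩ := exists_pgroup (p := 2) (n := 7) L (by rw [hc]; norm_num)
  obtain ⟨a, b, c, d, o, h⟩ := T_struct T (hTL.trans hL) hT (fun g hg => hx g (hTL hg))
  have hmod := fun (X : Set GolayPt) hX hxX => orb_mod (p := 7) (by norm_num) L hL (by rw [hc]; norm_num) hx X hX hxX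
  have hxo : ∀ y, y ≠ x → x ∉ orbit L y := by
    intro y hy h1
    have h2 := orb_symm L h1
    rw [orb_of_fixed L x hx] at h2
    exact hy h2
  have invT : ∀ y : GolayPt, ∀ g ∈ T, ∀ z ∈ orbit L y, g • z ∈ orbit L y := fun y g hg z hz => orb_inv L y (hTL hg) hz
  have hcx : c ≠ x := by
    rintro rfl
    have := h.cc
    rw [h.orbx, Set.ncard_singleton] at this
    omega
  have hbx : b ≠ x := by
    rintro rfl
    have := h.cb
    rw [h.orbx, Set.ncard_singleton] at this
    omega
  have hc1 := h.inv_card (orbit L c) (invT c)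
  rw [if_neg (hxo c hcx), if_pos (MulAction.mem_orbit_self (M := L) c)] at hc1
  have hc2 := hmod (orbit L c) (fun g hg z hz => orb_inv L c hg hz) (hxo c hcx)
  have hc3 := orb_dvd L c
  rw [hc] at hc3
  have smul_set : ∀ (s : Set GolayPt), (∀ g ∈ L, ∀ y : GolayPt, y ∈ s → g • y ∈ s) → ∀ g ∈ L, g • s.toFinset = s.toFinset := by
    intro s hs g hg
    apply Finset.eq_of_subset_of_card_le
    · intro y hy
      obtain ⟨z, hz, rfl⟩ := Finset.mem_smul_finset.1 hy
      rw [Set.mem_toFinset] at hz ⊢
      exact hs g hg z hz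
    · rw [Finset.card_smul_finset]
  by_cases hd : d ∈ orbit L c
  · -- the orbit of `b`
    left
    rw [if_pos hd] at hc1
    by_cases ha : a ∈ orbit L c
    · rw [if_pos ha] at hc1
      by_cases hb : b ∈ orbit L c
      · rw [if_pos hb] at hc1
        rw [hc1] at hc3
        exact absurd hc3 (by decide)
      · have hbc : ¬ c ∈ orbit L b := fun h => hb (orb_symm L h)
        have hba : ¬ a ∈ orbit L b := fun h => hb (by
          have := orb_eq L h
          rw [← orb_eq L ha, this]; exact MulAction.mem_orbit_self b)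
        have hbd : ¬ d ∈ orbit L b := fun h => hb (by
          have := orb_eq L h
          rw [← orb_eq L hd, this]; exact MulAction.mem_orbit_self b)
        have hb1 := h.inv_card (orbit L b) (invT b)
        rw [if_neg (hxo b hbx), if_pos (MulAction.mem_orbit_self (M := L) b), if_neg hbc, if_neg hba, if_neg hbd] at hb1
        refine ⟨(orbit L b).toFinset, ?_, ?_, smul_set (orbit L b) (fun g hg y hy => orb_inv L b hg hy)⟩
        · rw [← Set.ncard_eq_toFinset_card', hb1]
        · rw [Set.mem_toFinset]; exact hxo b hbx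
    · rw [if_neg ha] at hc1
      by_cases hb : b ∈ orbit L c
      · rw [if_pos hb] at hc1
        rw [hc1] at hc3
        exact absurd hc3 (by decide)
      · rw [if_neg hb] at hc1
        rw [hc1] at hc2
        exact absurd hc2 (by decide)
  · right
    rw [if_neg hd] at hc1
    by_cases ha : a ∈ orbit L c
    · by_cases hb : b ∈ orbit L c
      · refine ⟨o, h.ho, h.hx, ?_⟩
        have hsub : orbit L c ⊆ (o : Set GolayPt) := by
          intro y hy
          by_contra hyo
          have : y ∈ orbit T d := by rw [h.od, Finset.mem_coe, Finset.mem_compl]; exact hyo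
          exact hd (orb_sub T _ (invT c) hy (orb_symm T this))
        have hins : insert x (orbit L c) = (o : Set GolayPt) := by
          apply Set.eq_of_subset_of_ncard_le
          · intro y hy
            rcases hy with rfl | hy
            · exact h.hx
            · exact hsub hy
          · rw [Set.ncard_coe_finset, h.ho.2, Set.ncard_insert_of_notMem (hxo c hcx) (Set.toFinite _), hc1, if_pos ha, if_pos hb]
          · exact Set.toFinite _
        intro g hg
        apply Finset.eq_of_subset_of_card_le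
        · intro y hy
          obtain ⟨z, hz, rfl⟩ := Finset.mem_smul_finset.1 hy
          have hz' : z ∈ (o : Set GolayPt) := hz
          have : g • z ∈ (o : Set GolayPt) := by
            rw [← hins] at hz' ⊢
            rcases hz' with rfl | hz'
            · exact Or.inl (hx g hg)
            · exact Or.inr (orb_inv L c hg hz')
          exact this
        · rw [Finset.card_smul_finset]
      · exfalso
        rw [if_pos ha, if_neg hb] at hc1
        rw [hc1] at hc2
        exact absurd hc2 (by decide)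
    · exfalso
      rw [if_neg ha] at hc1
      by_cases hb : b ∈ orbit L c
      · rw [if_pos hb] at hc1
        rw [hc1] at hc2
        exact absurd hc2 (by decide)
      · rw [if_neg hb] at hc1
        rw [hc1] at hc2
        exact absurd hc2 (by decide)

end Cfsg.Agent.H7.Ix
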