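import Mathlib
import Cfsg.Agent.H7_Ix3

set_option autoImplicit false
set_option linter.all false

/-!
Subgroups of index 253 in `M23`: statement for subgroups of the point stabiliser.
-/

namespace Cfsg.Agent.H7.Ix

open Cfsg Cfsg.Agent.H7.Golay Cfsg.Agent.H7.Oct Cfsg.Agent.H7.M24 Cfsg.Agent.H7.M24b Cfsg.Agent.H7.M24c Cfsg.Agent.H7.M24d
open scoped Pointwise
open MulAction (orbit)

local notation "PG" => Equiv.Perm GolayPt

/-- order of the stabiliser of a point and a pair off it -/
theorem card_pt_pair {x : GolayPt} {s : Finset GolayPt} (hs : s.card = 2) (hx : x ∉ s) :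
    Nat.card ↥(M24 ⊓ MulAction.stabilizer PG x ⊓ MulAction.stabilizer PG s) = 40320 := by
  have h1 := card_eq_orbit_mul (M24 ⊓ MulAction.stabilizer PG x) s
  have h2 : orbit ↥(M24 ⊓ MulAction.stabilizer PG x) s = (({x}ᶜ : Finset GolayPt).powersetCard 2 : Finset (Finset GolayPt)) := by
    ext t
    rw [Finset.mem_coe, Finset.mem_powersetCard]
    constructor
    · rintro ⟨k, rfl⟩
      refine ⟨?_, by show (k.1 • s).card = 2; rw [Finset.card_smul_finset, hs]⟩
      intro y hy
      rw [Finset.mem_compl, Finset.mem_singleton]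
      rintro rfl
      apply hx
      have hy' : y ∈ k.1 • s := hy
      rw [Finset.mem_smul_finset] at hy'
      obtain ⟨z, hz, h⟩ := hy'
      have h3 : k.1 y = y := k.2.2
      have : z = y := k.1.injective (h.trans h3.symm)
      rwa [← this]
    · rintro ⟨ht, htc⟩
      obtain ⟨a, b, hab, rfl⟩ := Finset.card_eq_two.1 hs
      obtain ⟨a', b', hab', rfl⟩ := Finset.card_eq_two.1 htc
      have ha' : a' ≠ x := by have := ht (show a' ∈ ({a', b'} : Finset GolayPt) by simp); simpa using this
      have hb' : b' ≠ x := by have := ht (show b' ∈ ({a', b'} : Finset GolayPt) by simp); simpa using this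
      rw [Finset.mem_insert, Finset.mem_singleton, not_or] at hx
      have i1 : Function.Injective (![x, a, b] : Fin 3 → GolayPt) := by
        have := hx.1
        have := hx.2
        intro i j hij
        fin_cases i <;> fin_cases j <;> simp_all
      have i2 : Function.Injective (![x, a', b'] : Fin 3 → GolayPt) := by
        have := ha'.symm
        have := hb'.symm
        intro i j hij
        fin_cases i <;> fin_cases j <;> simp_all
      obtain ⟨k, hk, h⟩ := ktrans 3 (by norm_num) ![x, a, b] ![x, a', b'] i1 i2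
      refine ⟨⟨k, hk, h 0⟩, ?_⟩
      show k • ({a, b} : Finset GolayPt) = {a', b'}
      rw [Finset.smul_finset_insert, Finset.smul_finset_singleton]
      exact congrArg₂ (fun x y => ({x, y} : Finset GolayPt)) (h 1) (h 2)
  have h23 : ({x}ᶜ : Finset GolayPt).card = 23 := by rw [Finset.card_compl, Finset.card_singleton]; rfl
  rw [card_pt x, h2, Set.ncard_coe_finset, Finset.card_powersetCard, h23] at h1
  have h3 : Nat.choose 23 2 = 253 := rfl
  rw [h3] at h1
  omega

/-- push a subgroup of the point stabiliser down to the permutations -/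
noncomputable def dn {x : GolayPt} (H : Subgroup ↥(MulAction.stabilizer M24 x)) : Subgroup PG :=
  H.map (M24.subtype.comp (MulAction.stabilizer M24 x).subtype)

theorem dn_inj {x : GolayPt} : Function.Injective (M24.subtype.comp (MulAction.stabilizer M24 x).subtype) :=
  M24.subtype_injective.comp (MulAction.stabilizer M24 x).subtype_injective

theorem card_dn {x : GolayPt} (H : Subgroup ↥(MulAction.stabilizer M24 x)) : Nat.card (dn H) = Nat.card H :=
  (Nat.card_congr (Subgroup.equivMapOfInjective H _ dn_inj).toEquiv).symm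

theorem mem_dn {x : GolayPt} {H : Subgroup ↥(MulAction.stabilizer M24 x)} {g : PG} : g ∈ dn H ↔ ∃ h ∈ H, h.1.1 = g := Iff.rfl

theorem card_stab_pt (x : GolayPt) : Nat.card ↥(MulAction.stabilizer M24 x) = 10200960 := by
  rw [← card_pt x]; exact card_stab M24 x

theorem s1609 (x : GolayPt) (H : Subgroup ↥(MulAction.stabilizer M24 x)) (hH : H.index = 253) :
    (∃ s : Finset GolayPt, s.card = 2 ∧ x ∉ s ∧ H = (MulAction.stabilizer M24 s).subgroupOf (MulAction.stabilizer M24 x)) ∨
    ∃ o ∈ octads, x ∈ o ∧ H = (MulAction.stabilizer M24 o).subgroupOf (MulAction.stabilizer M24 x) := by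
  have hcH : Nat.card H = 40320 := by
    have h := H.card_mul_index
    rw [hH, card_stab_pt] at h
    omega
  have hL : dn H ≤ M24 := by
    intro g hg
    obtain ⟨h, hh, rfl⟩ := mem_dn.1 hg
    exact h.1.2
  have hx : ∀ g ∈ dn H, g x = x := by
    intro g hg
    obtain ⟨h, hh, rfl⟩ := mem_dn.1 hg
    exact h.2
  have key : ∀ t : Finset GolayPt, (∀ g ∈ dn H, g • t = t) →
      Nat.card ↥(M24 ⊓ MulAction.stabilizer PG x ⊓ MulAction.stabilizer PG t) = 40320 →
      H = (MulAction.stabilizer M24 t).subgroupOf (MulAction.stabilizer M24 x) := by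
    intro t ht hct
    apply Subgroup.eq_of_le_of_card_ge
    · intro h hh
      rw [Subgroup.mem_subgroupOf]
      exact ht h.1.1 (mem_dn.2 ⟨h, hh, rfl⟩)
    · rw [hcH, ← hct, ← card_dn]
      apply Nat.le_of_dvd Nat.card_pos
      apply Subgroup.card_dvd_of_le
      intro g hg
      obtain ⟨h, hh, rfl⟩ := mem_dn.1 hg
      rw [Subgroup.mem_subgroupOf] at hh
      exact ⟨⟨h.1.2, h.2⟩, hh⟩
  rcases index253 (dn H) hL hx (by rw [card_dn, hcH]) with ⟨s, hs, hxs, h⟩ | ⟨o, ho, hxo, h⟩
  · exact Or.inl ⟨s, hs, hxs, key s h (card_pt_pair hs hxs)⟩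
  · refine Or.inr ⟨o, ho, hxo, key o h ?_⟩
    rw [← card_oct_on ho hxo]
    congr 2
    rw [inf_assoc, inf_comm (MulAction.stabilizer PG x), ← inf_assoc]

end Cfsg.Agent.H7.Ix
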