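import Mathlib
import Cfsg.Agent.H7_Ix4

set_option autoImplicit false
set_option linter.all false

/-!
Transitive subgroups of `M24`: subdegrees.
-/

namespace Cfsg.Agent.H7.Ix

open Cfsg Cfsg.Agent.H7.Golay Cfsg.Agent.H7.Oct Cfsg.Agent.H7.M24 Cfsg.Agent.H7.M24b Cfsg.Agent.H7.M24c Cfsg.Agent.H7.M24d
open scoped Pointwise
open MulAction (orbit)

local notation "PG" => Equiv.Perm GolayPt

/-- the subdegree of the pair `x, y` -/
noncomputable def rs (K : Subgroup PG) (x y : GolayPt) : ℕ := (orbit ↥(K ⊓ MulAction.stabilizer PG x) y).ncard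

theorem rs_conj {K : Subgroup PG} {h : PG} (hh : h ∈ K) (x y : GolayPt) : rs K (h x) (h y) = rs K x y := by
  have e : orbit ↥(K ⊓ MulAction.stabilizer PG (h x)) (h y) = h '' orbit ↥(K ⊓ MulAction.stabilizer PG x) y := by
    ext z
    constructor
    · rintro ⟨k, rfl⟩
      have hk : k.1 (h x) = h x := k.2.2
      refine ⟨h⁻¹ (k.1 (h y)), ⟨⟨h⁻¹ * k.1 * h, (mul_mem (mul_mem (inv_mem hh) k.2.1) hh : h⁻¹ * k.1 * h ∈ K), ?_⟩, rfl⟩, h.apply_symm_apply _⟩
      show h.symm (k.1 (h x)) = x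
      rw [hk, Equiv.symm_apply_apply]
    · rintro ⟨_, ⟨k, rfl⟩, rfl⟩
      have hk : k.1 x = x := k.2.2
      refine ⟨⟨h * k.1 * h⁻¹, (mul_mem (mul_mem hh k.2.1) (inv_mem hh) : h * k.1 * h⁻¹ ∈ K), ?_⟩, ?_⟩
      · show h (k.1 (h.symm (h x))) = h x
        rw [Equiv.symm_apply_apply, hk]
      · show h (k.1 (h.symm (h y))) = h (k.1 y)
        rw [Equiv.symm_apply_apply]
  rw [rs, e, Set.ncard_image_of_injective _ h.injective]
  rfl

theorem rs_self (K : Subgroup PG) (x : GolayPt) : rs K x x = 1 := by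
  rw [rs, orb_of_fixed (K ⊓ MulAction.stabilizer PG x) x (fun g hg => hg.2), Set.ncard_singleton]

theorem card_St {K : Subgroup PG} (htr : ∀ x y : GolayPt, y ∈ orbit K x) (x : GolayPt) :
    Nat.card K = 24 * Nat.card ↥(K ⊓ MulAction.stabilizer PG x) := by
  have h := card_eq_orbit_mul K x
  have h2 : orbit K x = Set.univ := Set.eq_univ_of_forall (htr x)
  have h24 : Nat.card GolayPt = 24 := by rw [Nat.card_eq_fintype_card]; rfl
  rw [h2, Set.ncard_univ, h24] at h
  exact h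

theorem rs_symm {K : Subgroup PG} (htr : ∀ x y : GolayPt, y ∈ orbit K x) (x y : GolayPt) : rs K x y = rs K y x := by
  have h1 := card_eq_orbit_mul (K ⊓ MulAction.stabilizer PG x) y
  have h2 := card_eq_orbit_mul (K ⊓ MulAction.stabilizer PG y) x
  have e : K ⊓ MulAction.stabilizer PG y ⊓ MulAction.stabilizer PG x = K ⊓ MulAction.stabilizer PG x ⊓ MulAction.stabilizer PG y :=
    inf_right_comm _ _ _
  rw [e] at h2
  have h3 := card_St htr x
  have h4 := card_St htr y
  have h5 : 0 < Nat.card ↥(K ⊓ MulAction.stabilizer PG x ⊓ MulAction.stabilizer PG y) := Nat.card_pos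
  have h6 : Nat.card ↥(K ⊓ MulAction.stabilizer PG x) = Nat.card ↥(K ⊓ MulAction.stabilizer PG y) := by omega
  rw [h6, h2] at h1
  exact (Nat.eq_of_mul_eq_mul_right h5 h1).symm

noncomputable def Cs (K : Subgroup PG) (s : ℕ) (x : GolayPt) : Finset GolayPt := Finset.univ.filter fun y => rs K x y ≠ s

theorem mem_Cs {K : Subgroup PG} {s : ℕ} {x y : GolayPt} : y ∈ Cs K s x ↔ rs K x y ≠ s := by simp [Cs]

theorem Cs_smul {K : Subgroup PG} {s : ℕ} {x : GolayPt} {h : PG} (hh : h ∈ K) : Cs K s (h x) = h • Cs K s x := by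
  ext y
  rw [mem_Cs, Finset.mem_smul_finset]
  constructor
  · intro hy
    refine ⟨h⁻¹ y, ?_, h.apply_symm_apply y⟩
    rw [mem_Cs, ← rs_conj hh, show h (h⁻¹ y) = y from h.apply_symm_apply y]
    exact hy
  · rintro ⟨z, hz, rfl⟩
    rw [mem_Cs] at hz
    rw [Equiv.Perm.smul_def, rs_conj hh]
    exact hz

theorem Cs_symm {K : Subgroup PG} (htr : ∀ x y : GolayPt, y ∈ orbit K x) {s : ℕ} {x y : GolayPt} :
    y ∈ Cs K s x ↔ x ∈ Cs K s y := by
  rw [mem_Cs, mem_Cs, rs_symm htr]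

theorem self_Cs {K : Subgroup PG} {s : ℕ} (hs : s ≠ 1) (x : GolayPt) : x ∈ Cs K s x := by
  rw [mem_Cs, rs_self]; exact hs.symm

/-- equivariant block functions -/
theorem blk_of_base {K : Subgroup PG} (htr : ∀ x y : GolayPt, y ∈ orbit K x) {C : GolayPt → Finset GolayPt}
    (hC : ∀ h ∈ K, ∀ x, C (h x) = h • C x) {x0 : GolayPt} (h0 : ∀ y ∈ C x0, C y = C x0) :
    ∀ x, ∀ y ∈ C x, C y = C x := by
  intro x y hy
  obtain ⟨⟨k, hk⟩, rfl⟩ := htr x0 x
  have e : C (k x0) = k • C x0 := hC k hk x0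
  have hy' : y ∈ k • C x0 := by rw [← e]; exact hy
  obtain ⟨z, hz, rfl⟩ := Finset.mem_smul_finset.1 hy'
  show C (k z) = C (k x0)
  rw [e, hC k hk, h0 z hz]

theorem card_of_base {K : Subgroup PG} (htr : ∀ x y : GolayPt, y ∈ orbit K x) {C : GolayPt → Finset GolayPt}
    (hC : ∀ h ∈ K, ∀ x, C (h x) = h • C x) (x0 : GolayPt) (x : GolayPt) : (C x).card = (C x0).card := by
  obtain ⟨⟨k, hk⟩, rfl⟩ := htr x0 x
  have e : C (k x0) = k • C x0 := hC k hk x0
  show (C (k x0)).card = _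
  rw [e, Finset.card_smul_finset]

theorem block_dvd {α : Type*} [DecidableEq α] (C : α → Finset α) (F : Finset α) (m : ℕ) (hself : ∀ x ∈ F, x ∈ C x)
    (hblk : ∀ x ∈ F, ∀ y ∈ C x, C y = C x) (hm : ∀ x ∈ F, (C x).card = m) (hF : ∀ x ∈ F, C x ⊆ F) : m ∣ F.card := by
  rw [Finset.card_eq_sum_card_fiberwise (s := F) (t := F.image C) (f := C) (fun x hx => Finset.mem_image_of_mem C hx)]
  rw [Finset.sum_congr rfl (g := fun _ => m)]
  · rw [Finset.sum_const, smul_eq_mul]; exact dvd_mul_left _ _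
  · intro B hB
    obtain ⟨x, hx, rfl⟩ := Finset.mem_image.1 hB
    rw [← hm x hx]
    congr 1
    ext y
    rw [Finset.mem_filter]
    constructor
    · rintro ⟨hy, h⟩
      rw [← h]; exact hself y hy
    · intro hy
      exact ⟨hF x hx hy, hblk x hx y hy⟩

/-- fixed points as a finite set -/
noncomputable def FX (E : Subgroup PG) : Finset GolayPt := (Set.toFinite {x : GolayPt | ∀ g ∈ E, g x = x}).toFinset

theorem mem_FX {E : Subgroup PG} {x : GolayPt} : x ∈ FX E ↔ ∀ g ∈ E, g x = x := by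
  rw [FX, Set.Finite.mem_toFinset, Set.mem_setOf_eq]

theorem card_FX {p : ℕ} [hp : Fact p.Prime] (h5 : 5 ≤ p) (E : Subgroup PG) (hE : E ≤ M24) (hc : Nat.card E = p ^ 1) :
    (FX E).card = 24 % p := by
  rw [FX, ← Set.ncard_eq_toFinset_card, fix_count h5 one_ne_zero E hE hc]

theorem FX_mod {p : ℕ} [hp : Fact p.Prime] (E : Subgroup PG) (hc : Nat.card E = p ^ 1) (D : Finset GolayPt)
    (hD : ∀ g ∈ E, g • D = D) : D.card ≡ (D ∩ FX E).card [MOD p] := by
  have h := fix_mod E hc (D : Set GolayPt) (fun g hg x hx => by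
    have := Finset.smul_mem_smul_finset (a := g) (show x ∈ D from hx)
    rw [hD g hg] at this
    exact this)
  rw [Set.ncard_coe_finset] at h
  have e : {x | x ∈ (D : Set GolayPt) ∧ ∀ g ∈ E, g • x = x} = ((D ∩ FX E : Finset GolayPt) : Set GolayPt) := by
    ext x
    rw [Finset.mem_coe, Finset.mem_inter, mem_FX]
    exact Iff.rfl
  rwa [e, Set.ncard_coe_finset] at h

theorem FX_small {p : ℕ} [hp : Fact p.Prime] (E : Subgroup PG) (hc : Nat.card E = p ^ 1) (D : Finset GolayPt)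
    (hD : ∀ g ∈ E, g • D = D) (hs : D.card < p) : D ⊆ FX E := by
  intro x hx
  rw [mem_FX]
  exact fix_small E hc (D : Set GolayPt) (fun g hg x hx => by
    have := Finset.smul_mem_smul_finset (a := g) (show x ∈ D from hx)
    rw [hD g hg] at this
    exact this) (by rwa [Set.ncard_coe_finset]) x hx

/-- a system of imprimitivity of three octads excludes elements of order 5 -/
theorem trio_contra {K : Subgroup PG} (hK : K ≤ M24) (h5 : 5 ∣ Nat.card K) (C : GolayPt → Finset GolayPt)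
    (hC : ∀ h ∈ K, ∀ x, C (h x) = h • C x) (hself : ∀ x, x ∈ C x) (h8 : ∀ x, (C x).card = 8) (hblk : ∀ x, ∀ y ∈ C x, C y = C x) : False := by
  haveI : Fact (Nat.Prime 5) := ⟨by norm_num⟩
  obtain ⟨E, hEK, hE⟩ := exists_pgroup (p := 5) (n := 1) K (by rwa [pow_one])
  have hF := card_FX (p := 5) le_rfl E (hEK.trans hK) hE
  have h3 : ∀ x ∈ FX E, 3 ≤ (C x ∩ FX E).card := by
    intro x hx
    have h := FX_mod E hE (C x) (fun g hg => by rw [← hC g (hEK hg), mem_FX.1 hx g hg])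
    rw [h8, Nat.ModEq] at h
    omega
  have hne : (FX E).Nonempty := by rw [← Finset.card_pos, hF]; norm_num
  obtain ⟨x, hx⟩ := hne
  have hx3 := h3 x hx
  have hx4 : (C x ∩ FX E).card ≠ 4 := by
    intro h
    have h' := FX_mod E hE (C x) (fun g hg => by rw [← hC g (hEK hg), mem_FX.1 hx g hg])
    rw [h8, h] at h'
    revert h'; decide
  have hle : (C x ∩ FX E).card ≤ (FX E).card := Finset.card_le_card Finset.inter_subset_right
  rw [hF] at hle
  have : ∃ z ∈ FX E, z ∉ C x := by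
    by_contra hcon
    push Not at hcon
    rw [Finset.inter_eq_right.2 hcon, hF] at hx4
    exact hx4 rfl
  obtain ⟨z, hz, hzx⟩ := this
  have hz3 := h3 z hz
  have hd : Disjoint (C x ∩ FX E) (C z ∩ FX E) := by
    rw [Finset.disjoint_left]
    intro w hw1 hw2
    have e1 := hblk x w (Finset.mem_inter.1 hw1).1
    have e2 := hblk z w (Finset.mem_inter.1 hw2).1
    exact hzx (by rw [← e1, e2]; exact hself z)
  have hu := Finset.card_le_card (Finset.union_subset (Finset.inter_subset_right (s₁ := C x) (s₂ := FX E)) (Finset.inter_subset_right (s₁ := C z) (s₂ := FX E)))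
  rw [Finset.card_union_of_disjoint hd, hF] at hu
  omega

/-- odd index: octad stabiliser or transitive -/
theorem odd_index {K : Subgroup PG} (hK : K ≤ M24) (h : 2 ^ 10 ∣ Nat.card K) :
    (∃ o ∈ octads, ∀ g ∈ K, g • o = o) ∨ ∀ x y : GolayPt, y ∈ orbit K x := by
  haveI : Fact (Nat.Prime 2) := ⟨Nat.prime_two⟩
  obtain ⟨S, hSK, hS⟩ := exists_pgroup (p := 2) (n := 10) K h
  obtain ⟨o, ho, h1, h2, h3⟩ := S_struct S (hSK.trans hK) hS
  have hsub : ∀ y : GolayPt, orbit S y ⊆ orbit K y := by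
    rintro y _ ⟨k, rfl⟩
    exact ⟨⟨k.1, hSK k.2⟩, rfl⟩
  have hne : ∃ y0, y0 ∈ o := by
    have : o.Nonempty := by rw [← Finset.card_pos, ho.2]; norm_num
    exact this
  obtain ⟨y0, hy0⟩ := hne
  by_cases hc : ∃ z ∉ o, z ∈ orbit K y0
  · right
    obtain ⟨z, hz, hzo⟩ := hc
    have hu : ∀ w, w ∈ orbit K y0 := by
      intro w
      by_cases hw : w ∈ o
      · apply hsub; rw [h2 y0 hy0]; exact hw
      · have : w ∈ orbit K z := by apply hsub; rw [h3 z hz, Finset.mem_coe, Finset.mem_compl]; exact hw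
        rwa [orb_eq K hzo] at this
    intro x y
    rw [orb_eq K (hu x)]
    exact hu y
  · left
    push Not at hc
    refine ⟨o, ho, fun g hg => ?_⟩
    apply Finset.eq_of_subset_of_card_le
    · intro w hw
      obtain ⟨v, hv, rfl⟩ := Finset.mem_smul_finset.1 hw
      by_contra hcon
      refine hc _ hcon ?_
      apply orb_inv K y0 hg
      apply hsub
      rw [h2 y0 hy0]
      exact hv
    · rw [Finset.card_smul_finset]

end Cfsg.Agent.H7.Ix
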