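import Mathlib
import Cfsg.Agent.H7_Ix5

set_option autoImplicit false
set_option linter.all false

/-!
Transitive subgroups of `M24` of odd index divisible by 7.
-/

namespace Cfsg.Agent.H7.Ix

open Cfsg Cfsg.Agent.H7.Golay Cfsg.Agent.H7.Oct Cfsg.Agent.H7.M24 Cfsg.Agent.H7.M24b Cfsg.Agent.H7.M24c Cfsg.Agent.H7.M24d
open scoped Pointwise
open MulAction (orbit)

local notation "PG" => Equiv.Perm GolayPt

variable {T L K : Subgroup PG} {x a b c d : GolayPt} {o : Finset GolayPt}

theorem sub_orb (hTL : T ≤ L) (y : GolayPt) : orbit T y ⊆ orbit L y := by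
  rintro _ ⟨k, rfl⟩
  exact ⟨⟨k.1, hTL k.2⟩, rfl⟩

theorem TS.mem_cases (h : TS T x a b c d o) (y : GolayPt) :
    y = x ∨ y = a ∨ y ∈ orbit T b ∨ y ∈ orbit T c ∨ y ∈ orbit T d := by
  by_cases hy : y ∈ o
  · have hy' : y ∈ (o : Set GolayPt) := hy
    rw [h.eo] at hy'
    rcases hy' with ((h | h) | h) | h
    · exact Or.inl h
    · exact Or.inr (Or.inl h)
    · exact Or.inr (Or.inr (Or.inl h))
    · exact Or.inr (Or.inr (Or.inr (Or.inl h)))
  · refine Or.inr (Or.inr (Or.inr (Or.inr ?_)))
    rw [h.od, Finset.mem_coe, Finset.mem_compl]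
    exact hy

theorem not_mem_orb (hx : ∀ g ∈ L, g x = x) {y : GolayPt} (hy : y ≠ x) : x ∉ orbit L y := by
  intro h1
  have h2 := orb_symm L h1
  rw [orb_of_fixed L x hx] at h2
  exact hy h2

theorem TS.bx (h : TS T x a b c d o) : b ≠ x := by
  rintro rfl
  have := h.cb
  rw [h.orbx, Set.ncard_singleton] at this
  omega

theorem TS.cx (h : TS T x a b c d o) : c ≠ x := by
  rintro rfl
  have := h.cc
  rw [h.orbx, Set.ncard_singleton] at this
  omega

theorem TS.dx (h : TS T x a b c d o) : d ≠ x := by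
  rintro rfl
  have := h.cd
  rw [h.orbx, Set.ncard_singleton] at this
  omega

theorem TS.orbL (h : TS T x a b c d o) (hTL : T ≤ L) (hx : ∀ g ∈ L, g x = x) {y : GolayPt} (hy : y ≠ x)
    [Decidable (a ∈ orbit L y)] [Decidable (b ∈ orbit L y)] [Decidable (c ∈ orbit L y)] [Decidable (d ∈ orbit L y)] :
    (orbit L y).ncard = (if a ∈ orbit L y then 1 else 0) + (if b ∈ orbit L y then 2 else 0) +
      (if c ∈ orbit L y then 4 else 0) + (if d ∈ orbit L y then 16 else 0) := by
  classical
  have h1 := h.inv_card (orbit L y) (fun g hg z hz => orb_inv L y (hTL hg) hz)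
  rw [if_neg (not_mem_orb hx hy), zero_add] at h1
  convert h1

/-- if `d` is not in the orbits of the others, the orbit of `d` has length 16 -/
theorem TS.orbd (h : TS T x a b c d o) (hTL : T ≤ L) (hx : ∀ g ∈ L, g x = x) (ha : a ∉ orbit L d) (hb : b ∉ orbit L d)
    (hc : c ∉ orbit L d) : (orbit L d).ncard = 16 ∧ ∀ y ∈ o, y ∉ orbit L d := by
  classical
  refine ⟨?_, ?_⟩
  · rw [h.orbL hTL hx h.dx, if_neg ha, if_neg hb, if_neg hc, if_pos (MulAction.mem_orbit_self _)]
  · intro y hy hyd
    have hy' : y ∈ (o : Set GolayPt) := hy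
    rw [h.eo] at hy'
    rcases hy' with ((h1 | h1) | h1) | h1
    · rw [Set.mem_singleton_iff] at h1
      subst h1
      exact not_mem_orb hx h.dx hyd
    · rw [Set.mem_singleton_iff] at h1
      subst h1
      exact ha hyd
    · exact hb (by
        have h2 := sub_orb hTL b h1
        rw [← orb_eq L hyd, orb_eq L h2]; exact MulAction.mem_orbit_self _)
    · exact hc (by
        have h2 := sub_orb hTL c h1
        rw [← orb_eq L hyd, orb_eq L h2]; exact MulAction.mem_orbit_self _)

theorem Cs_eq_compl {s : ℕ} {x z : GolayPt} (hz : (orbit ↥(K ⊓ MulAction.stabilizer PG x) z).ncard = s)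
    (ho : ∀ y, y ∉ orbit ↥(K ⊓ MulAction.stabilizer PG x) z → (orbit ↥(K ⊓ MulAction.stabilizer PG x) y).ncard ≠ s) (y : GolayPt) :
    y ∈ Cs K s x ↔ y ∉ orbit ↥(K ⊓ MulAction.stabilizer PG x) z := by
  rw [mem_Cs, rs]
  constructor
  · intro h hy
    apply h
    rw [orb_eq _ hy, hz]
  · exact ho y

theorem Cs_card {s : ℕ} {x z : GolayPt} (hz : (orbit ↥(K ⊓ MulAction.stabilizer PG x) z).ncard = s)
    (ho : ∀ y, y ∉ orbit ↥(K ⊓ MulAction.stabilizer PG x) z → (orbit ↥(K ⊓ MulAction.stabilizer PG x) y).ncard ≠ s) :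
    (Cs K s x).card = 24 - s := by
  classical
  have e : Cs K s x = ((orbit ↥(K ⊓ MulAction.stabilizer PG x) z).toFinset)ᶜ := by
    ext y
    rw [Cs_eq_compl hz ho, Finset.mem_compl, Set.mem_toFinset]
  rw [e, Finset.card_compl, ← Set.ncard_eq_toFinset_card', hz]
  rfl

/-- if the 8-set of points with subdegree different from 16 is the octad, it is the same for the second fixed point -/
theorem TS.same16 (h : TS T x a b c d o) (htr : ∀ x y : GolayPt, y ∈ orbit K x) (hTK : T ≤ K) (hCo : Cs K 16 x = o) :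
    Cs K 16 a = o := by
  classical
  have hcard : (Cs K 16 a).card = 8 := by
    rw [card_of_base htr (fun h hh x => Cs_smul hh) x a, hCo, h.ho.2]
  have hX : ∀ g ∈ T, ∀ y ∈ ((Cs K 16 a : Finset GolayPt) : Set GolayPt), g • y ∈ ((Cs K 16 a : Finset GolayPt) : Set GolayPt) := by
    intro g hg y hy
    have h1 : g • Cs K 16 a = Cs K 16 a := by
      rw [← Cs_smul (hTK hg), h.fa g hg]
    have h2 : g • y ∈ g • Cs K 16 a := Finset.smul_mem_smul_finset hy
    rw [h1] at h2
    exact h2
  have h1 := h.inv_card _ hX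
  rw [Set.ncard_coe_finset, hcard] at h1
  have hd : d ∉ ((Cs K 16 a : Finset GolayPt) : Set GolayPt) := by
    intro hd
    rw [if_pos hd] at h1
    omega
  symm
  rw [if_neg hd] at h1
  have hx' : x ∈ ((Cs K 16 a : Finset GolayPt) : Set GolayPt) := by
    by_contra hh
    rw [if_neg hh] at h1
    split_ifs at h1 <;> omega
  have ha' : a ∈ ((Cs K 16 a : Finset GolayPt) : Set GolayPt) := by
    by_contra hh
    rw [if_neg hh] at h1
    split_ifs at h1 <;> omega
  have hb' : b ∈ ((Cs K 16 a : Finset GolayPt) : Set GolayPt) := by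
    by_contra hh
    rw [if_neg hh] at h1
    split_ifs at h1 <;> omega
  have hc' : c ∈ ((Cs K 16 a : Finset GolayPt) : Set GolayPt) := by
    by_contra hh
    rw [if_neg hh] at h1
    split_ifs at h1 <;> omega
  apply Finset.eq_of_subset_of_card_le
  · intro y hy
    have hy' : y ∈ (o : Set GolayPt) := hy
    rw [h.eo] at hy'
    rcases hy' with ((h2 | h2) | h2) | h2
    · rw [Set.mem_singleton_iff] at h2; rw [h2]; exact hx'
    · rw [Set.mem_singleton_iff] at h2; rw [h2]; exact ha'
    · exact orb_sub T _ hX hb' h2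
    · exact orb_sub T _ hX hc' h2
  · rw [hcard, h.ho.2]

theorem St_fix (K : Subgroup PG) (x : GolayPt) : ∀ g ∈ K ⊓ MulAction.stabilizer PG x, g x = x := fun g hg => hg.2

theorem inv_Cs {s : ℕ} {x : GolayPt} (E : Subgroup PG) (hE : E ≤ K) (hx : x ∈ FX E) : ∀ g ∈ E, g • Cs K s x = Cs K s x := by
  intro g hg
  rw [← Cs_smul (hE hg), mem_FX.1 hx g hg]

/-- no transitive subgroup of odd index and order divisible by 35 but not by 11 or 23 -/
theorem no_trans (hK : K ≤ M24) (htr : ∀ x y : GolayPt, y ∈ orbit K x) (h2 : 2 ^ 10 ∣ Nat.card K) (h5 : 5 ∣ Nat.card K)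
    (h7 : 7 ∣ Nat.card K) (h11 : ¬ 11 ∣ Nat.card K) (h23 : ¬ 23 ∣ Nat.card K) : False := by
  classical
  haveI : Fact (Nat.Prime 2) := ⟨Nat.prime_two⟩
  haveI : Fact (Nat.Prime 5) := ⟨by norm_num⟩
  haveI : Fact (Nat.Prime 7) := ⟨by norm_num⟩
  have x : GolayPt := none
  have hcard := card_St htr x
  set L := K ⊓ MulAction.stabilizer PG x with hLdef
  have hL7 : 7 ∣ Nat.card L := by
    rw [hcard] at h7
    exact (Nat.Coprime.dvd_mul_left (by norm_num)).1 h7
  have hL2 : 2 ^ 7 ∣ Nat.card L := by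
    rw [hcard, show 24 = 2 ^ 3 * 3 by norm_num, show (2 : ℕ) ^ 10 = 2 ^ 3 * 2 ^ 7 by norm_num, mul_assoc] at h2
    exact (Nat.Coprime.dvd_mul_left (by norm_num)).1 (Nat.dvd_of_mul_dvd_mul_left (by norm_num) h2)
  have hL11 : ¬ 11 ∣ Nat.card L := fun h => h11 (by rw [hcard]; exact dvd_mul_of_dvd_right h _)
  have hL23 : ¬ 23 ∣ Nat.card L := fun h => h23 (by rw [hcard]; exact dvd_mul_of_dvd_right h _)
  have hLM : L ≤ M24 := inf_le_left.trans hK
  have hLx : ∀ g ∈ L, g x = x := St_fix K x
  obtain ⟨T, hTL, hT⟩ := exists_pgroup (p := 2) (n := 7) L hL2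
  obtain ⟨a, b, c, d, o, h⟩ := T_struct T (hTL.trans hLM) hT (fun g hg => hLx g (hTL hg))
  have hTK : T ≤ K := hTL.trans inf_le_left
  have hc1 := h.orbL hTL hLx h.cx
  rw [if_pos (MulAction.mem_orbit_self (M := L) c)] at hc1
  have hc2 := orb_mod (p := 7) (by norm_num) L hLM hL7 hLx (orbit L c) (fun g hg z hz => orb_inv L c hg hz) (not_mem_orb hLx h.cx)
  have hc3 := orb_dvd L c
  by_cases hd : d ∈ orbit L c
  · rw [if_pos hd] at hc1
    by_cases ha : a ∈ orbit L c
    swap
    · rw [if_neg ha] at hc1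
      by_cases hb : b ∈ orbit L c
      · rw [if_pos hb] at hc1
        rw [hc1] at hc3
        exact hL11 ((show 11 ∣ 0 + 2 + 4 + 16 by norm_num).trans hc3)
      · rw [if_neg hb] at hc1
        rw [hc1] at hc2
        exact absurd hc2 (by decide)
    rw [if_pos ha] at hc1
    by_cases hb : b ∈ orbit L c
    · rw [if_pos hb] at hc1
      rw [hc1] at hc3
      exact hL23 ((show 23 ∣ 1 + 2 + 4 + 16 by norm_num).trans hc3)
    rw [if_neg hb] at hc1
    -- blocks of size three
    have hbc : c ∉ orbit L b := fun h => hb (orb_symm L h)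
    have hba : a ∉ orbit L b := fun h => hb (by rw [← orb_eq L ha, orb_eq L h]; exact MulAction.mem_orbit_self b)
    have hbd : d ∉ orbit L b := fun h => hb (by rw [← orb_eq L hd, orb_eq L h]; exact MulAction.mem_orbit_self b)
    have hb1 := h.orbL hTL hLx h.bx
    rw [if_pos (MulAction.mem_orbit_self (M := L) b), if_neg hbc, if_neg hba, if_neg hbd] at hb1
    have hother : ∀ y, y ∉ orbit L c → (orbit L y).ncard ≠ 21 := by
      intro y hy
      rcases h.mem_cases y with rfl | rfl | h1 | h1 | h1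
      · rw [orb_of_fixed L y hLx, Set.ncard_singleton]; norm_num
      · exact absurd ha hy
      · rw [orb_eq L (sub_orb hTL b h1), hb1]; norm_num
      · exact absurd (sub_orb hTL c h1) hy
      · refine absurd ?_ hy
        rw [← orb_eq L hd]; exact sub_orb hTL d h1
    have hcx : (Cs K 21 x).card = 3 := Cs_card (z := c) hc1 hother
    have hC3 : ∀ y, (Cs K 21 y).card = 3 := fun y => by
      rw [card_of_base htr (fun h hh x => Cs_smul hh) x y, hcx]
    have hblk : ∀ y, ∀ z ∈ Cs K 21 y, Cs K 21 z = Cs K 21 y := by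
      intro y z hz
      have hy7 : 7 ∣ Nat.card ↥(K ⊓ MulAction.stabilizer PG y) := by
        have := card_St htr y
        rw [this] at h7
        exact (Nat.Coprime.dvd_mul_left (by norm_num)).1 h7
      obtain ⟨E, hEL, hE⟩ := exists_pgroup (p := 7) (n := 1) _ (by rwa [pow_one])
      have hF := card_FX (p := 7) (by norm_num) E (hEL.trans (inf_le_left.trans hK)) hE
      have key : ∀ w ∈ FX E, Cs K 21 w = FX E := by
        intro w hw
        apply Finset.eq_of_subset_of_card_le
        · exact FX_small E hE _ (inv_Cs E (hEL.trans inf_le_left) hw) (by rw [hC3]; norm_num)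
        · rw [hF, hC3]
      have hyF : y ∈ FX E := mem_FX.2 fun g hg => (hEL hg).2
      have e1 := key y hyF
      rw [e1] at hz
      rw [e1, key z hz]
    obtain ⟨E, hEL, hE⟩ := exists_pgroup (p := 5) (n := 1) K (by rwa [pow_one])
    have hF := card_FX (p := 5) le_rfl E (hEL.trans hK) hE
    have := block_dvd (Cs K 21) (FX E) 3 (fun y _ => self_Cs (by norm_num) y) (fun y _ => hblk y) (fun y _ => hC3 y)
      (fun y hy => FX_small E hE _ (inv_Cs E hEL hy) (by rw [hC3]; norm_num))
    rw [hF] at this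
    exact absurd this (by decide)
  · rw [if_neg hd] at hc1
    by_cases ha : a ∈ orbit L c
    swap
    · rw [if_neg ha] at hc1
      by_cases hb : b ∈ orbit L c
      · rw [if_pos hb] at hc1
        rw [hc1] at hc2
        exact absurd hc2 (by decide)
      · rw [if_neg hb] at hc1
        rw [hc1] at hc2
        exact absurd hc2 (by decide)
    rw [if_pos ha] at hc1
    by_cases hb : b ∈ orbit L c
    swap
    · rw [if_neg hb] at hc1
      rw [hc1] at hc2
      exact absurd hc2 (by decide)
    rw [if_pos hb] at hc1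
    have hdc : c ∉ orbit L d := fun h => hd (orb_symm L h)
    have hda : a ∉ orbit L d := fun h => hd (by rw [← orb_eq L ha, orb_eq L h]; exact MulAction.mem_orbit_self d)
    have hdb : b ∉ orbit L d := fun h => hd (by rw [← orb_eq L hb, orb_eq L h]; exact MulAction.mem_orbit_self d)
    obtain ⟨hd16, hdo⟩ := h.orbd hTL hLx hda hdb hdc
    have hin : ∀ y ∈ o, y = x ∨ y ∈ orbit L c := by
      intro y hy
      rcases h.mem_cases y with h1 | h1 | h1 | h1 | h1
      · exact Or.inl h1
      · right; rw [h1]; exact ha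
      · right; rw [← orb_eq L hb]; exact sub_orb hTL b h1
      · right; exact sub_orb hTL c h1
      · exact absurd (sub_orb hTL d h1) (hdo y hy)
    have hother : ∀ y, y ∉ orbit L d → (orbit L y).ncard ≠ 16 := by
      intro y hy
      rcases h.mem_cases y with rfl | rfl | h1 | h1 | h1
      · rw [orb_of_fixed L y hLx, Set.ncard_singleton]; norm_num
      · rw [orb_eq L ha, hc1]; norm_num
      · rw [orb_eq L (sub_orb hTL b h1), orb_eq L hb, hc1]; norm_num
      · rw [orb_eq L (sub_orb hTL c h1), hc1]; norm_num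
      · exact absurd (sub_orb hTL d h1) hy
    have hCo : Cs K 16 x = o := by
      ext y
      rw [Cs_eq_compl (z := d) hd16 hother]
      constructor
      · intro hy
        by_contra hcon
        apply hy
        apply sub_orb hTL d
        rw [h.od, Finset.mem_coe, Finset.mem_compl]
        exact hcon
      · exact hdo y
    have hCa := h.same16 htr hTK hCo
    have hblk := blk_of_base htr (C := Cs K 16) (fun h hh x => Cs_smul hh) (x0 := x) (by
      intro y hy
      rw [hCo] at hy
      rcases hin y hy with rfl | hy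
      · rfl
      · have : y ∈ orbit L a := by rw [orb_eq L ha]; exact hy
        obtain ⟨⟨g, hg⟩, rfl⟩ := this
        show Cs K 16 (g a) = _
        rw [Cs_smul hg.1, hCa, ← hCo, ← Cs_smul hg.1, hLx g hg])
    refine trio_contra hK h5 (Cs K 16) (fun h hh x => Cs_smul hh) (fun x => self_Cs (by norm_num) x) (fun y => ?_) hblk
    rw [card_of_base htr (fun h hh x => Cs_smul hh) x y, hCo, h.ho.2]

end Cfsg.Agent.H7.Ix
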