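import Mathlib
import Cfsg.Agent.H7_Ix6

set_option autoImplicit false
set_option linter.all false

/-!
Subgroups of `M24` of index 276 and 1771.
-/

namespace Cfsg.Agent.H7.Ix

open Cfsg Cfsg.Agent.H7.Golay Cfsg.Agent.H7.Oct Cfsg.Agent.H7.M24 Cfsg.Agent.H7.M24b Cfsg.Agent.H7.M24c Cfsg.Agent.H7.M24d
open scoped Pointwise
open MulAction (orbit)

local notation "PG" => Equiv.Perm GolayPt

variable {T L K : Subgroup PG} {x a b c d : GolayPt} {o : Finset GolayPt}

theorem inv_mod {p : ℕ} [hp : Fact p.Prime] (h5 : 5 ≤ p) (hK : K ≤ M24) (hpK : p ∣ Nat.card K) (X : Set GolayPt)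
    (hX : ∀ g ∈ K, ∀ y ∈ X, g • y ∈ X) : X.ncard % p ≤ 24 % p := by
  obtain ⟨E, hEL, hE⟩ := exists_pgroup (p := p) (n := 1) K (by rwa [pow_one])
  have h1 := fix_count h5 one_ne_zero E (hEL.trans hK) hE
  have h2 := fix_mod E hE X (fun g hg => hX g (hEL hg))
  have h4 := Set.ncard_le_ncard (show {y | y ∈ X ∧ ∀ g ∈ E, g • y = y} ⊆ {y : GolayPt | ∀ g ∈ E, g y = y} from fun y hy => hy.2) (Set.toFinite _)
  rw [Nat.ModEq] at h2
  rw [h2]
  exact (Nat.mod_le _ _).trans (by omega)

theorem uniq_big {s : ℕ} {z : GolayPt} (hz : (orbit L z).ncard = s) (hs : 24 < 2 * s) : ∀ y, y ∉ orbit L z → (orbit L y).ncard ≠ s := by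
  intro y hy h
  have hd : Disjoint (orbit L y) (orbit L z) := by
    rw [Set.disjoint_left]
    intro w h1 h2
    exact hy (by rw [← orb_eq L h2, orb_eq L h1]; exact MulAction.mem_orbit_self y)
  have h1 := Set.ncard_union_eq hd (Set.toFinite _) (Set.toFinite _)
  have h2 := Set.ncard_le_ncard (Set.subset_univ (orbit L y ∪ orbit L z)) (Set.toFinite _)
  have h24 : Nat.card GolayPt = 24 := by rw [Nat.card_eq_fintype_card]; rfl
  rw [Set.ncard_univ, h24] at h2
  omega

theorem smul_toFinset {X : Set GolayPt} [Fintype ↥X] {g : PG} (hX : ∀ y ∈ X, g • y ∈ X) : g • X.toFinset = X.toFinset := by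
  apply Finset.eq_of_subset_of_card_le
  · intro y hy
    obtain ⟨z, hz, rfl⟩ := Finset.mem_smul_finset.1 hy
    rw [Set.mem_toFinset] at hz ⊢
    exact hX z hz
  · rw [Finset.card_smul_finset]

theorem smul_compl'' {g : PG} {s : Finset GolayPt} (h : g • s = s) : g • sᶜ = sᶜ := by
  apply Finset.eq_of_subset_of_card_le
  · intro y hy
    obtain ⟨z, hz, rfl⟩ := Finset.mem_smul_finset.1 hy
    rw [Finset.mem_compl] at hz ⊢
    intro h2
    rw [← h] at h2
    exact hz ((Finset.smul_mem_smul_finset_iff g).1 h2)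
  · rw [Finset.card_smul_finset]

theorem index276 (hK : K ≤ M24) (hc : Nat.card K = 887040) : ∃ s : Finset GolayPt, s.card = 2 ∧ ∀ g ∈ K, g • s = s := by
  classical
  haveI : Fact (Nat.Prime 7) := ⟨by norm_num⟩
  haveI : Fact (Nat.Prime 11) := ⟨by norm_num⟩
  have horb : ∀ y : GolayPt, (orbit K y).ncard = 2 ∨ (orbit K y).ncard = 22 ∨ (orbit K y).ncard = 24 := by
    intro y
    have h1 := inv_mod (p := 7) (by norm_num) hK (by rw [hc]; norm_num) (orbit K y) (fun g hg z hz => orb_inv K y hg hz)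
    have h2 := inv_mod (p := 11) (by norm_num) hK (by rw [hc]; norm_num) (orbit K y) (fun g hg z hz => orb_inv K y hg hz)
    have h3 := orb_dvd K y
    have h4 := orb_pos K y
    have h5 := Set.ncard_le_ncard (Set.subset_univ (orbit K y)) (Set.toFinite _)
    have h24 : Nat.card GolayPt = 24 := by rw [Nat.card_eq_fintype_card]; rfl
    rw [Set.ncard_univ, h24] at h5
    rw [hc] at h3
    have h6 : (orbit K y).ncard ≠ 1 := by
      intro h6
      have h7 := card_eq_orbit_mul K y
      rw [h6, one_mul, hc] at h7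
      have h8 : Nat.card ↥(K ⊓ MulAction.stabilizer PG y) ∣ 10200960 := by
        rw [← card_pt y]; exact Subgroup.card_dvd_of_le (inf_le_inf_right _ hK)
      rw [← h7] at h8
      revert h8; decide
    generalize (orbit K y).ncard = n at *
    interval_cases n <;> revert h1 h2 h3 h6 <;> decide
  by_cases h2 : ∃ y : GolayPt, (orbit K y).ncard = 2
  · obtain ⟨y, hy⟩ := h2
    exact ⟨(orbit K y).toFinset, by rw [← Set.ncard_eq_toFinset_card', hy], fun g hg => smul_toFinset fun z hz => orb_inv K y hg hz⟩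
  by_cases h22 : ∃ y : GolayPt, (orbit K y).ncard = 22
  · obtain ⟨y, hy⟩ := h22
    refine ⟨((orbit K y).toFinset)ᶜ, ?_, fun g hg => smul_compl'' (smul_toFinset fun z hz => orb_inv K y hg hz)⟩
    rw [Finset.card_compl, ← Set.ncard_eq_toFinset_card', hy]
    rfl
  exfalso
  push Not at h2 h22
  have htr : ∀ x y : GolayPt, y ∈ orbit K x := by
    intro x y
    have h1 : (orbit K x).ncard = 24 := by
      rcases horb x with h | h | h
      · exact absurd h (h2 x)
      · exact absurd h (h22 x)
      · exact h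
    have h24 : Nat.card GolayPt = 24 := by rw [Nat.card_eq_fintype_card]; rfl
    have : orbit K x = Set.univ := Set.eq_of_subset_of_ncard_le (Set.subset_univ _) (by rw [Set.ncard_univ, h24, h1]) (Set.toFinite _)
    rw [this]; trivial
  have hL : ∀ x : GolayPt, Nat.card ↥(K ⊓ MulAction.stabilizer PG x) = 36960 := by
    intro x
    have := card_St htr x
    rw [hc] at this
    omega
  have hsub : ∀ x y, y ≠ x → rs K x y = 1 ∨ rs K x y = 22 := by
    intro x y hyx
    have hx := St_fix K x
    have hm : K ⊓ MulAction.stabilizer PG x ≤ M24 := inf_le_left.trans hK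
    have h1 := orb_mod (p := 7) (by norm_num) _ hm (by rw [hL]; norm_num) hx (orbit ↥(K ⊓ MulAction.stabilizer PG x) y)
      (fun g hg z hz => orb_inv _ y hg hz) (not_mem_orb hx hyx)
    have h2 := orb_mod (p := 11) (by norm_num) _ hm (by rw [hL]; norm_num) hx (orbit ↥(K ⊓ MulAction.stabilizer PG x) y)
      (fun g hg z hz => orb_inv _ y hg hz) (not_mem_orb hx hyx)
    have h3 := orb_dvd (K ⊓ MulAction.stabilizer PG x) y
    have h4 := orb_pos (K ⊓ MulAction.stabilizer PG x) y
    have h5 := Set.ncard_le_ncard (Set.subset_univ (orbit ↥(K ⊓ MulAction.stabilizer PG x) y)) (Set.toFinite _)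
    have h24 : Nat.card GolayPt = 24 := by rw [Nat.card_eq_fintype_card]; rfl
    rw [Set.ncard_univ, h24] at h5
    rw [hL] at h3
    show (orbit ↥(K ⊓ MulAction.stabilizer PG x) y).ncard = 1 ∨ (orbit ↥(K ⊓ MulAction.stabilizer PG x) y).ncard = 22
    generalize (orbit ↥(K ⊓ MulAction.stabilizer PG x) y).ncard = n at *
    interval_cases n <;> revert h1 h2 h3 <;> decide
  have hex : ∀ x, ∃ z, rs K x z = 22 := by
    intro x
    by_contra hcon
    push Not at hcon
    have hall : ∀ y, rs K x y = 1 := by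
      intro y
      by_cases hyx : y = x
      · rw [hyx, rs_self]
      · rcases hsub x y hyx with h | h
        · exact h
        · exact absurd h (hcon y)
    have hbot := card_one_of_nine (K ⊓ MulAction.stabilizer PG x) (inf_le_left.trans hK) Set.univ (by
      have h24 : Nat.card GolayPt = 24 := by rw [Nat.card_eq_fintype_card]; rfl
      rw [Set.ncard_univ, h24]; norm_num) (fun g hg p _ => fixed_of_orb_one _ p (hall p) g hg)
    have := hL x
    rw [hbot, Subgroup.card_bot] at this
    norm_num at this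
  have hC2 : ∀ x, (Cs K 22 x).card = 2 := by
    intro x
    obtain ⟨z, hz⟩ := hex x
    exact Cs_card hz (uniq_big hz (by norm_num))
  have hblk : ∀ x, ∀ y ∈ Cs K 22 x, Cs K 22 y = Cs K 22 x := by
    intro x y hy
    by_cases hyx : y = x
    · rw [hyx]
    rw [mem_Cs] at hy
    have h1 : rs K x y = 1 := by
      rcases hsub x y hyx with h | h
      · exact h
      · exact absurd h hy
    have h2 : K ⊓ MulAction.stabilizer PG x ≤ K ⊓ MulAction.stabilizer PG y := fun g hg => ⟨hg.1, fixed_of_orb_one _ y h1 g hg⟩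
    have h3 : K ⊓ MulAction.stabilizer PG x = K ⊓ MulAction.stabilizer PG y := Subgroup.eq_of_le_of_card_ge h2 (by rw [hL, hL])
    ext z
    rw [mem_Cs, mem_Cs, rs, rs, h3]
  obtain ⟨E, hEL, hE⟩ := exists_pgroup (p := 7) (n := 1) K (by rw [hc]; norm_num)
  have hF := card_FX (p := 7) (by norm_num) E (hEL.trans hK) hE
  have := block_dvd (Cs K 22) (FX E) 2 (fun y _ => self_Cs (by norm_num) y) (fun y _ => hblk y) (fun y _ => hC2 y)
    (fun y hy => FX_small E hE _ (inv_Cs E hEL hy) (by rw [hC2]; norm_num))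
  rw [hF] at this
  exact absurd this (by decide)

theorem card_fiber {α : Type*} [DecidableEq α] [Fintype α] (C : α → Finset α) (m : ℕ) (hself : ∀ x, x ∈ C x)
    (hblk : ∀ x, ∀ y ∈ C x, C y = C x) (hm : ∀ x, (C x).card = m) : Fintype.card α = (Finset.univ.image C).card * m := by
  rw [← Finset.card_univ, Finset.card_eq_sum_card_fiberwise (s := Finset.univ) (t := Finset.univ.image C) (f := C) (fun x hx => Finset.mem_image_of_mem C hx)]
  rw [Finset.sum_congr rfl (g := fun _ => m)]
  · rw [Finset.sum_const, smul_eq_mul]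
  · intro B hB
    obtain ⟨x, hx, rfl⟩ := Finset.mem_image.1 hB
    rw [← hm x]
    congr 1
    ext y
    rw [Finset.mem_filter]
    constructor
    · rintro ⟨hy, h⟩
      rw [← h]; exact hself y
    · intro hy
      exact ⟨Finset.mem_univ _, hblk x y hy⟩

theorem oct_inter {o o' : Finset GolayPt} (ho : o ∈ octads) (ho' : o' ∈ octads) :
    (o ∩ o').card = 0 ∨ (o ∩ o').card = 2 ∨ (o ∩ o').card = 4 ∨ (o ∩ o').card = 8 := by
  have h1 := symmDiff_mem_supports ho.1 ho'.1
  have h2 := card_symmDiff' o o'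
  have h3 := supports_weight h1
  have h4 := ho.2
  have h5 := ho'.2
  have h6 := Finset.card_le_card (Finset.inter_subset_left (s₁ := o) (s₂ := o'))
  omega

/-- case (5, 18) -/
theorem caseA1 (hL : L ≤ M24) (h : TS T x a b c d o) (hTL : T ≤ L) (hx : ∀ g ∈ L, g x = x) (hb : b ∉ orbit L c) (hd : d ∉ orbit L c)
    (hc5 : (orbit L c).ncard = 5) (hdb : d ∈ orbit L b) : False := by
  classical
  have hsub : orbit L c ⊆ (o : Set GolayPt) := by
    intro y hy
    rcases h.mem_cases y with h1 | h1 | h1 | h1 | h1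
    · rw [h1] at hy; exact absurd hy (not_mem_orb hx h.cx)
    · rw [h1]; exact h.ha
    · exact absurd (by rw [← orb_eq L hy, orb_eq L (sub_orb hTL b h1)]; exact MulAction.mem_orbit_self _) hb
    · exact h.hc h1
    · exact absurd (by rw [← orb_eq L hy, orb_eq L (sub_orb hTL d h1)]; exact MulAction.mem_orbit_self _) hd
  have hpres : ∀ g ∈ L, g • o = o := by
    intro g hg
    apply eq_of_five ((smul_mem_octads_iff (hL hg)).2 h.ho) h.ho
    have h5 : ((orbit L c).toFinset).card = 5 := by rw [← Set.ncard_eq_toFinset_card', hc5]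
    rw [← h5]
    apply Finset.card_le_card
    intro y hy
    rw [Set.mem_toFinset] at hy
    rw [Finset.mem_inter]
    refine ⟨?_, hsub hy⟩
    have h6 := orb_inv L c (inv_mem hg) hy
    rw [Finset.mem_smul_finset]
    exact ⟨g⁻¹ • y, hsub h6, smul_inv_smul g y⟩
  have hbo : b ∈ o := h.hb (MulAction.mem_orbit_self b)
  have hdo : d ∉ o := by
    have : d ∈ orbit T d := MulAction.mem_orbit_self d
    rw [h.od, Finset.mem_coe, Finset.mem_compl] at this
    exact this
  obtain ⟨g, rfl⟩ := hdb
  exact hdo ((mem_smul_iff' (hpres g.1 g.2) b).2 hbo)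

end Cfsg.Agent.H7.Ix
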