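import Mathlib
import Cfsg.Agent.H7_Ix7
import Cfsg.Prelude.Def_SporadicCombinatorics

set_option autoImplicit false
set_option linter.all false

/-!
Subgroups of `M24` of index 1771.
-/

namespace Cfsg.Agent.H7.Ix

open Cfsg Cfsg.Agent.H7.Golay Cfsg.Agent.H7.Oct Cfsg.Agent.H7.M24 Cfsg.Agent.H7.M24b Cfsg.Agent.H7.M24c Cfsg.Agent.H7.M24d
open scoped Pointwise
open MulAction (orbit)

local notation "PG" => Equiv.Perm GolayPt

variable {T L K : Subgroup PG} {x a b c d : GolayPt} {o : Finset GolayPt}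

noncomputable def Rs (K : Subgroup PG) (s : ℕ) (x : GolayPt) : Finset GolayPt := Finset.univ.filter fun y => rs K x y = s

theorem mem_Rs {s : ℕ} {x y : GolayPt} : y ∈ Rs K s x ↔ rs K x y = s := by simp [Rs]

theorem Rs_smul {s : ℕ} {x : GolayPt} {h : PG} (hh : h ∈ K) : Rs K s (h x) = h • Rs K s x := by
  ext y
  rw [mem_Rs, Finset.mem_smul_finset]
  constructor
  · intro hy
    refine ⟨h⁻¹ y, ?_, h.apply_symm_apply y⟩
    rw [mem_Rs, ← rs_conj hh, show h (h⁻¹ y) = y from h.apply_symm_apply y]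
    exact hy
  · rintro ⟨z, hz, rfl⟩
    rw [mem_Rs] at hz
    rw [Equiv.Perm.smul_def, rs_conj hh]
    exact hz

/-- case (5, 2, 16) -/
theorem caseA2 (hK : K ≤ M24) (htr : ∀ x y : GolayPt, y ∈ orbit K x) (h5 : 5 ∣ Nat.card ↥(K ⊓ MulAction.stabilizer PG x))
    (hR : (Rs K 2 x).card = 2) (h1 : ∀ y, y ≠ x → rs K x y ≠ 1) : False := by
  classical
  haveI : Fact (Nat.Prime 5) := ⟨by norm_num⟩
  have hR2 : ∀ y, (Rs K 2 y).card = 2 := fun y => by
    rw [card_of_base htr (fun h hh x => Rs_smul hh) x y, hR]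
  obtain ⟨E, hEL, hE⟩ := exists_pgroup (p := 5) (n := 1) (K ⊓ MulAction.stabilizer PG x) (by rwa [pow_one])
  have hF := card_FX (p := 5) le_rfl E (hEL.trans (inf_le_left.trans hK)) hE
  have hxF : x ∈ FX E := mem_FX.2 fun g hg => (hEL hg).2
  have hsub : ∀ w ∈ FX E, Rs K 2 w ⊆ FX E := fun w hw => FX_small E hE _ (fun g hg => by
    rw [← Rs_smul (hEL hg).1, mem_FX.1 hw g hg]) (by rw [hR2]; norm_num)
  have hxx : ∀ w, w ∉ Rs K 2 w := fun w hw => by
    rw [mem_Rs, rs_self] at hw; norm_num at hw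
  have hc3 : (insert x (Rs K 2 x)).card = 3 := by rw [Finset.card_insert_of_notMem (hxx x), hR]
  have : ∃ w ∈ FX E, w ∉ insert x (Rs K 2 x) := by
    by_contra hcon
    push Not at hcon
    have := Finset.card_le_card (show FX E ⊆ insert x (Rs K 2 x) from hcon)
    omega
  obtain ⟨w, hw, hwx⟩ := this
  rw [Finset.mem_insert, not_or] at hwx
  have hx' : x ∉ Rs K 2 w := fun h => hwx.2 (by rw [mem_Rs] at h ⊢; rw [rs_symm htr, h])
  have hc2 : (((FX E).erase w).erase x).card = 2 := by
    rw [Finset.card_erase_of_mem (Finset.mem_erase.2 ⟨Ne.symm hwx.1, hxF⟩), Finset.card_erase_of_mem hw, hF]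
  have e1 : Rs K 2 w = ((FX E).erase w).erase x := by
    apply Finset.eq_of_subset_of_card_le
    · intro y hy
      rw [Finset.mem_erase, Finset.mem_erase]
      exact ⟨fun h => hx' (h ▸ hy), fun h => hxx w (h ▸ hy), hsub w hw hy⟩
    · rw [hc2, hR2]
  have e2 : Rs K 2 x = ((FX E).erase w).erase x := by
    apply Finset.eq_of_subset_of_card_le
    · intro y hy
      rw [Finset.mem_erase, Finset.mem_erase]
      exact ⟨fun h => hxx x (h ▸ hy), fun h => hwx.2 (h ▸ hy), hsub x hxF hy⟩
    · rw [hc2, hR]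
  have e3 : Rs K 2 w = Rs K 2 x := e1.trans e2.symm
  have hne : (Rs K 2 x).Nonempty := by rw [← Finset.card_pos, hR]; norm_num
  obtain ⟨y, hy⟩ := hne
  have hall : insert x (orbit ↥(K ⊓ MulAction.stabilizer PG x) w) ⊆ ((Rs K 2 y : Finset GolayPt) : Set GolayPt) := by
    intro z hz
    rw [Finset.mem_coe, mem_Rs, rs_symm htr, ← mem_Rs]
    rcases hz with rfl | hz
    · exact hy
    · obtain ⟨g, rfl⟩ := hz
      show y ∈ Rs K 2 (g.1 w)
      rw [Rs_smul g.2.1, e3, ← Rs_smul g.2.1, (show g.1 x = x from g.2.2)]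
      exact hy
  have h2 := Set.ncard_le_ncard hall (Set.toFinite _)
  rw [Set.ncard_coe_finset, hR2, Set.ncard_insert_of_notMem (not_mem_orb (St_fix K x) hwx.1) (Set.toFinite _)] at h2
  have h3 := orb_pos (K ⊓ MulAction.stabilizer PG x) w
  exact h1 w hwx.1 (by show (orbit ↥(K ⊓ MulAction.stabilizer PG x) w).ncard = 1; omega)

/-- case (6, 1, 16) -/
theorem caseB (hK : K ≤ M24) (htr : ∀ x y : GolayPt, y ∈ orbit K x) (h5 : 5 ∣ Nat.card K)
    (h : TS T x a b c d o) (hTL : T ≤ K ⊓ MulAction.stabilizer PG x) (hCo : Cs K 16 x = o)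
    (hc6 : (orbit ↥(K ⊓ MulAction.stabilizer PG x) c).ncard = 6)
    (hin : ∀ y ∈ o, y = x ∨ y = a ∨ y ∈ orbit ↥(K ⊓ MulAction.stabilizer PG x) c)
    (hsub : ∀ y ∈ orbit ↥(K ⊓ MulAction.stabilizer PG x) c, y ∈ o)
    (hax : a ∉ orbit ↥(K ⊓ MulAction.stabilizer PG x) c)
    (hoff : ∀ y, y ∉ o → y ∈ orbit ↥(K ⊓ MulAction.stabilizer PG x) d) : False := by
  classical
  have hTK : T ≤ K := hTL.trans inf_le_left
  have hCa := h.same16 htr hTK hCo
  have hC8 : ∀ y, Cs K 16 y ∈ octads := by
    intro y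
    obtain ⟨⟨g, hg⟩, rfl⟩ := htr x y
    show Cs K 16 (g x) ∈ octads
    rw [Cs_smul hg, hCo]
    exact (smul_mem_octads_iff (hK hg)).2 h.ho
  have hself : ∀ y, y ∈ Cs K 16 y := fun y => self_Cs (by norm_num) y
  set X : Finset GolayPt := (orbit ↥(K ⊓ MulAction.stabilizer PG x) c).toFinset with hX
  have hX6 : X.card = 6 := by rw [hX, ← Set.ncard_eq_toFinset_card', hc6]
  have mX : ∀ y, y ∈ X ↔ y ∈ orbit ↥(K ⊓ MulAction.stabilizer PG x) c := fun y => by rw [hX, Set.mem_toFinset]
  by_cases hc : Cs K 16 c = o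
  · have hblk := blk_of_base htr (C := Cs K 16) (fun h hh x => Cs_smul hh) (x0 := x) (by
      intro y hy
      rw [hCo] at hy
      rcases hin y hy with rfl | rfl | hy
      · rfl
      · rw [hCa, hCo]
      · obtain ⟨⟨g, hg⟩, rfl⟩ := hy
        show Cs K 16 (g c) = _
        rw [Cs_smul hg.1, hc, ← hCo, ← Cs_smul hg.1, (show g x = x from hg.2)])
    exact trio_contra hK h5 (Cs K 16) (fun h hh x => Cs_smul hh) hself (fun y => (hC8 y).2) hblk
  · have h4 : ∀ y ∈ X, (Cs K 16 y \ o).card = 4 := by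
      intro y hy
      have hyo : y ∈ o := hsub y ((mX y).1 hy)
      have hne : Cs K 16 y ≠ o := by
        intro he
        obtain ⟨⟨g, hg⟩, hgy⟩ := orb_symm _ ((mX y).1 hy)
        apply hc
        have hgy' : g y = c := hgy
        rw [← hgy', Cs_smul hg.1, he, ← hCo, ← Cs_smul hg.1, (show g x = x from hg.2)]
      have hx1 : x ∈ Cs K 16 y := by rw [Cs_symm htr, hCo]; exact hyo
      have ha1 : a ∈ Cs K 16 y := by rw [Cs_symm htr, hCa]; exact hyo
      have hyx : y ≠ x := by
        rintro rfl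
        exact not_mem_orb (St_fix K y) h.cx ((mX y).1 hy)
      have hya : y ≠ a := by
        rintro rfl
        exact hax ((mX y).1 hy)
      have h3 : 3 ≤ (Cs K 16 y ∩ o).card := by
        have e3 : ({x, a, y} : Finset GolayPt).card = 3 := by
          rw [Finset.card_insert_of_notMem, Finset.card_pair hya.symm]
          rw [Finset.mem_insert, Finset.mem_singleton, not_or]
          exact ⟨h.hax.symm, hyx.symm⟩
        rw [← e3]
        apply Finset.card_le_card
        intro z hz
        rw [Finset.mem_insert, Finset.mem_insert, Finset.mem_singleton] at hz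
        rw [Finset.mem_inter]
        rcases hz with rfl | rfl | rfl
        · exact ⟨hx1, h.hx⟩
        · exact ⟨ha1, h.ha⟩
        · exact ⟨hself _, hyo⟩
      have h5 := oct_inter (hC8 y) h.ho
      have h6 := Finset.card_sdiff_add_card_inter (Cs K 16 y) o
      rw [(hC8 y).2] at h6
      have h7 : (Cs K 16 y ∩ o).card ≠ 8 := fun h8 => hne (eq_of_five (hC8 y) h.ho (by omega))
      omega
    -- double count
    have hmu : ∀ z ∈ oᶜ, (X.filter fun y => z ∈ Cs K 16 y).card = (X.filter fun y => d ∈ Cs K 16 y).card := by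
      intro z hz
      obtain ⟨⟨g, hg⟩, rfl⟩ := hoff z (Finset.mem_compl.1 hz)
      have e : (X.filter fun y => g d ∈ Cs K 16 y) = g • (X.filter fun y => d ∈ Cs K 16 y) := by
        ext y
        rw [Finset.mem_filter, Finset.mem_smul_finset]
        constructor
        · rintro ⟨h1, h2⟩
          refine ⟨g⁻¹ y, Finset.mem_filter.2 ⟨?_, ?_⟩, g.apply_symm_apply y⟩
          · rw [mX] at h1 ⊢
            exact orb_inv _ c (inv_mem hg) h1
          · have h3 : Cs K 16 y = g • Cs K 16 (g⁻¹ y) := by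
              rw [← Cs_smul hg.1, show g (g⁻¹ y) = y from g.apply_symm_apply y]
            rw [h3, show g d = g • d from rfl, Finset.smul_mem_smul_finset_iff] at h2
            exact h2
        · rintro ⟨w, hw, rfl⟩
          rw [Finset.mem_filter] at hw
          refine ⟨?_, ?_⟩
          · have := hw.1
            rw [mX] at this ⊢
            exact orb_inv _ c hg this
          · show g d ∈ Cs K 16 (g w)
            rw [Cs_smul hg.1]
            exact Finset.smul_mem_smul_finset hw.2
      show (X.filter fun y => g d ∈ Cs K 16 y).card = _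
      rw [e, Finset.card_smul_finset]
    have hdc := Finset.sum_card_bipartiteAbove_eq_sum_card_bipartiteBelow (s := X) (t := oᶜ) (fun y z => z ∈ Cs K 16 y)
    have l1 : ∑ y ∈ X, (Finset.bipartiteAbove (fun y z => z ∈ Cs K 16 y) oᶜ y).card = 24 := by
      rw [Finset.sum_congr rfl (g := fun _ => 4), Finset.sum_const, hX6]
      · rfl
      · intro y hy
        rw [← h4 y hy]
        congr 1
        ext z
        simp only [Finset.bipartiteAbove, Finset.mem_filter, Finset.mem_compl, Finset.mem_sdiff]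
        tauto
    have l2 : ∑ z ∈ oᶜ, (Finset.bipartiteBelow (fun y z => z ∈ Cs K 16 y) X z).card = 16 * (X.filter fun y => d ∈ Cs K 16 y).card := by
      rw [Finset.sum_congr rfl (g := fun _ => (X.filter fun y => d ∈ Cs K 16 y).card), Finset.sum_const, oct_compl_card h.ho, smul_eq_mul]
      intro z hz
      exact hmu z hz
    rw [l1, l2] at hdc
    omega

/-- case of blocks of size four: they form a sextet -/
theorem caseC (hK : K ≤ M24) (htr : ∀ x y : GolayPt, y ∈ orbit K x) (h5 : 5 ∣ Nat.card K)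
    (h : TS T x a b c d o) (hTL : T ≤ K ⊓ MulAction.stabilizer PG x) (hT : Nat.card T = 2 ^ 7)
    (hc20 : (orbit ↥(K ⊓ MulAction.stabilizer PG x) c).ncard = 20)
    (ha : a ∉ orbit ↥(K ⊓ MulAction.stabilizer PG x) c) (hb : b ∉ orbit ↥(K ⊓ MulAction.stabilizer PG x) c)
    (hd : d ∈ orbit ↥(K ⊓ MulAction.stabilizer PG x) c) :
    ∃ S ∈ sextets, ∀ g ∈ K, g • S = S := by
  classical
  haveI : Fact (Nat.Prime 5) := ⟨by norm_num⟩
  haveI : Fact (Nat.Prime 2) := ⟨Nat.prime_two⟩
  have hTK : T ≤ K := hTL.trans inf_le_left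
  have hC4x : (Cs K 20 x).card = 4 := Cs_card hc20 (uniq_big hc20 (by norm_num))
  have hC4 : ∀ y, (Cs K 20 y).card = 4 := fun y => by
    rw [card_of_base htr (fun h hh x => Cs_smul hh) x y, hC4x]
  have hself : ∀ y, y ∈ Cs K 20 y := fun y => self_Cs (by norm_num) y
  have hmx : ∀ y, y ∈ Cs K 20 x ↔ y ∉ orbit ↥(K ⊓ MulAction.stabilizer PG x) c :=
    fun y => Cs_eq_compl hc20 (uniq_big hc20 (by norm_num)) y
  have hblk : ∀ y, ∀ z ∈ Cs K 20 y, Cs K 20 z = Cs K 20 y := by
    intro y z hz
    have hy5 : 5 ∣ Nat.card ↥(K ⊓ MulAction.stabilizer PG y) := by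
      have := card_St htr y
      rw [this] at h5
      exact (Nat.Coprime.dvd_mul_left (by norm_num)).1 h5
    obtain ⟨E, hEL, hE⟩ := exists_pgroup (p := 5) (n := 1) _ (by rwa [pow_one])
    have hF := card_FX (p := 5) (by norm_num) E (hEL.trans (inf_le_left.trans hK)) hE
    have key : ∀ w ∈ FX E, Cs K 20 w = FX E := by
      intro w hw
      apply Finset.eq_of_subset_of_card_le
      · exact FX_small E hE _ (inv_Cs E (hEL.trans inf_le_left) hw) (by rw [hC4]; norm_num)
      · rw [hF, hC4]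
    have hyF : y ∈ FX E := mem_FX.2 fun g hg => (hEL hg).2
    have e1 := key y hyF
    rw [e1] at hz
    rw [e1, key z hz]
  set S : Finset (Finset GolayPt) := Finset.univ.image (Cs K 20) with hS
  have hS6 : S.card = 6 := by
    have := card_fiber (Cs K 20) 4 hself hblk hC4
    have h24 : Fintype.card GolayPt = 24 := rfl
    rw [h24, ← hS] at this
    omega
  have hSinv : ∀ g ∈ K, g • S = S := by
    intro g hg
    apply Finset.eq_of_subset_of_card_le
    · intro t ht
      obtain ⟨u, hu, rfl⟩ := Finset.mem_smul_finset.1 ht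
      obtain ⟨y, -, rfl⟩ := Finset.mem_image.1 hu
      rw [← Cs_smul hg]
      exact Finset.mem_image_of_mem _ (Finset.mem_univ _)
    · rw [Finset.card_smul_finset]
  -- the block fixed by `T`
  have hxS : Cs K 20 x ∈ S := Finset.mem_image_of_mem _ (Finset.mem_univ _)
  have hTx : ∀ g ∈ T, g • Cs K 20 x = Cs K 20 x := fun g hg => by rw [← Cs_smul (hTK hg), h.fx g hg]
  have hfm := fix_mod T hT ((S.erase (Cs K 20 x) : Finset (Finset GolayPt)) : Set (Finset GolayPt)) (fun g hg t ht => by
    rw [Finset.mem_coe, Finset.mem_erase] at ht ⊢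
    refine ⟨fun he => ht.1 ?_, ?_⟩
    · have h2 := hTx g hg
      rw [← h2] at he
      exact smul_left_cancel g he
    · rw [← hSinv g (hTK hg)]
      exact Finset.smul_mem_smul_finset ht.2)
  rw [Set.ncard_coe_finset, Finset.card_erase_of_mem hxS, hS6] at hfm
  have hne : {t | t ∈ ((S.erase (Cs K 20 x) : Finset (Finset GolayPt)) : Set (Finset GolayPt)) ∧ ∀ g ∈ T, g • t = t}.Nonempty := by
    rw [← Set.ncard_pos (Set.toFinite _)]
    by_contra hcon
    have h0 : {t | t ∈ ((S.erase (Cs K 20 x) : Finset (Finset GolayPt)) : Set (Finset GolayPt)) ∧ ∀ g ∈ T, g • t = t}.ncard = 0 := by omega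
    rw [h0] at hfm
    revert hfm
    decide
  obtain ⟨B, hB, hBT⟩ := hne
  rw [Finset.mem_coe, Finset.mem_erase] at hB
  obtain ⟨z, -, rfl⟩ := Finset.mem_image.1 hB.2
  have hdisj : ∀ y, y ∈ Cs K 20 x → y ∉ Cs K 20 z := fun y h1 h2 => hB.1 (by rw [← hblk x y h1, hblk z y h2])
  have hzinv : ∀ g ∈ T, ∀ y ∈ ((Cs K 20 z : Finset GolayPt) : Set GolayPt), g • y ∈ ((Cs K 20 z : Finset GolayPt) : Set GolayPt) := by
    intro g hg y hy
    have h2 : g • y ∈ g • Cs K 20 z := Finset.smul_mem_smul_finset hy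
    rw [hBT g hg] at h2
    exact h2
  have hcount := h.inv_card _ hzinv
  have nx : x ∉ ((Cs K 20 z : Finset GolayPt) : Set GolayPt) := hdisj x (hself x)
  have na : a ∉ ((Cs K 20 z : Finset GolayPt) : Set GolayPt) := hdisj a ((hmx a).2 ha)
  have nb : b ∉ ((Cs K 20 z : Finset GolayPt) : Set GolayPt) := hdisj b ((hmx b).2 hb)
  rw [if_neg nx, if_neg na, if_neg nb, Set.ncard_coe_finset, hC4] at hcount
  have hcz : c ∈ ((Cs K 20 z : Finset GolayPt) : Set GolayPt) := by
    by_contra hh
    rw [if_neg hh] at hcount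
    split_ifs at hcount <;> omega
  have hcc : Cs K 20 z = Cs K 20 c := (hblk z c hcz).symm
  have hTc : orbit T c ⊆ ((Cs K 20 c : Finset GolayPt) : Set GolayPt) := by
    rw [← hcc]; exact orb_sub T _ hzinv hcz
  have hTc' : ((Cs K 20 c : Finset GolayPt) : Set GolayPt) = orbit T c := by
    symm
    apply Set.eq_of_subset_of_ncard_le hTc _ (Set.toFinite _)
    rw [Set.ncard_coe_finset, hC4, h.cc]
  have hbase : Cs K 20 x ∪ Cs K 20 c = o := by
    apply Finset.eq_of_subset_of_card_le
    · intro y hy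
      rcases Finset.mem_union.1 hy with hy | hy
      · by_contra hyo
        apply (hmx y).1 hy
        have : y ∈ orbit T d := by rw [h.od, Finset.mem_coe, Finset.mem_compl]; exact hyo
        rw [← orb_eq _ hd]
        exact sub_orb hTL d this
      · have : y ∈ ((Cs K 20 c : Finset GolayPt) : Set GolayPt) := hy
        rw [hTc'] at this
        exact h.hc this
    · rw [Finset.card_union_of_disjoint, hC4, hC4, h.ho.2]
      rw [Finset.disjoint_left]
      intro y h1 h2
      rw [← hcc] at h2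
      exact hdisj y h1 h2
  have hx2 : ∀ w, w ∉ Cs K 20 x → Cs K 20 x ∪ Cs K 20 w ∈ octads := by
    intro w hw
    rw [hmx, not_not] at hw
    obtain ⟨⟨g, hg⟩, rfl⟩ := hw
    show Cs K 20 x ∪ Cs K 20 (g c) ∈ octads
    have e1 : Cs K 20 x = g • Cs K 20 x := by rw [← Cs_smul hg.1, (show g x = x from hg.2)]
    rw [e1, Cs_smul hg.1, ← Finset.smul_finset_union, hbase]
    exact (smul_mem_octads_iff (hK hg.1)).2 h.ho
  refine ⟨S, ⟨hS6, ?_, ?_⟩, hSinv⟩
  · intro t ht
    obtain ⟨y, -, rfl⟩ := Finset.mem_image.1 ht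
    exact hC4 y
  · intro t ht u hu htu
    obtain ⟨y, -, rfl⟩ := Finset.mem_image.1 ht
    obtain ⟨w, -, rfl⟩ := Finset.mem_image.1 hu
    obtain ⟨⟨k, hk⟩, rfl⟩ := htr x y
    have htu' : Cs K 20 (k x) ≠ Cs K 20 w := htu
    show Cs K 20 (k x) ∪ Cs K 20 w ∈ octads
    have e1 : Cs K 20 w = k • Cs K 20 (k⁻¹ w) := by
      rw [← Cs_smul hk, show k (k⁻¹ w) = w from k.apply_symm_apply w]
    have hnw : k⁻¹ w ∉ Cs K 20 x := by
      intro hh
      apply htu'
      rw [e1, Cs_smul hk, hblk x _ hh]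
    rw [e1, Cs_smul hk, ← Finset.smul_finset_union]
    exact (smul_mem_octads_iff (hK hk)).2 (hx2 _ hnw)

theorem index1771 (hK : K ≤ M24) (hc : Nat.card K = 138240) : ∃ S ∈ sextets, ∀ g ∈ K, g • S = S := by
  classical
  haveI : Fact (Nat.Prime 2) := ⟨Nat.prime_two⟩
  haveI : Fact (Nat.Prime 5) := ⟨by norm_num⟩
  rcases odd_index hK (by rw [hc]; norm_num) with ⟨o, ho, hKo⟩ | htr
  · exfalso
    have h1 : Nat.card K ∣ 322560 := by
      rw [← card_stab_octad ho]
      exact Subgroup.card_dvd_of_le fun g hg => ⟨hK hg, hKo g hg⟩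
    rw [hc] at h1
    revert h1; decide
  have x : GolayPt := none
  have hcard := card_St htr x
  have hL : Nat.card ↥(K ⊓ MulAction.stabilizer PG x) = 5760 := by rw [hc] at hcard; omega
  have hLM : K ⊓ MulAction.stabilizer PG x ≤ M24 := inf_le_left.trans hK
  have hLx : ∀ g ∈ K ⊓ MulAction.stabilizer PG x, g x = x := St_fix K x
  obtain ⟨T, hTL, hT⟩ := exists_pgroup (p := 2) (n := 7) (K ⊓ MulAction.stabilizer PG x) (by rw [hL]; norm_num)
  obtain ⟨a, b, c, d, o, h⟩ := T_struct T (hTL.trans hLM) hT (fun g hg => hLx g (hTL hg))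
  have h5 : 5 ∣ Nat.card K := by rw [hc]; norm_num
  have h5L : 5 ∣ Nat.card ↥(K ⊓ MulAction.stabilizer PG x) := by rw [hL]; norm_num
  set L := K ⊓ MulAction.stabilizer PG x with hLdef
  have hc1 := h.orbL hTL hLx h.cx
  rw [if_pos (MulAction.mem_orbit_self (M := L) c)] at hc1
  have hc2 := orb_mod (p := 5) (by norm_num) L hLM h5L hLx (orbit L c) (fun g hg z hz => orb_inv L c hg hz) (not_mem_orb hLx h.cx)
  have hc3 := orb_dvd L c
  rw [hL] at hc3
  by_cases hd : d ∈ orbit L c
  · rw [if_pos hd] at hc1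
    by_cases ha : a ∈ orbit L c
    · exfalso
      rw [if_pos ha] at hc1
      by_cases hb : b ∈ orbit L c
      · rw [if_pos hb] at hc1
        rw [hc1] at hc3
        exact absurd hc3 (by decide)
      · rw [if_neg hb] at hc1
        rw [hc1] at hc3
        exact absurd hc3 (by decide)
    rw [if_neg ha] at hc1
    by_cases hb : b ∈ orbit L c
    · exfalso
      rw [if_pos hb] at hc1
      rw [hc1] at hc3
      exact absurd hc3 (by decide)
    rw [if_neg hb] at hc1
    exact caseC hK htr h5 h hTL hT hc1 ha hb hd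
  exfalso
  rw [if_neg hd] at hc1
  have hdc : c ∉ orbit L d := fun h => hd (orb_symm L h)
  have hother : ∀ {z y : GolayPt}, y ∈ orbit L z → ∀ {w}, w ∈ orbit L y → w ∈ orbit L z := fun h1 _ h2 => by rwa [← orb_eq L h1]
  by_cases ha : a ∈ orbit L c
  · rw [if_pos ha] at hc1
    have hda : a ∉ orbit L d := fun h => hdc (hother h (orb_symm L ha))
    by_cases hb : b ∈ orbit L c
    · rw [if_pos hb] at hc1
      rw [hc1] at hc3
      exact absurd hc3 (by decide)
    rw [if_neg hb] at hc1
    by_cases hdb : d ∈ orbit L b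
    · exact caseA1 hLM h hTL hLx hb hd hc1 hdb
    · -- case (5, 2, 16)
      have hbd : b ∉ orbit L d := fun h => hdb (orb_symm L h)
      obtain ⟨hd16, hdo⟩ := h.orbd hTL hLx hda hbd hdc
      have hb1 := h.orbL hTL hLx h.bx
      have hba : a ∉ orbit L b := fun h => hb (hother ha (orb_symm L h))
      have hbc : c ∉ orbit L b := fun h => hb (orb_symm L h)
      rw [if_pos (MulAction.mem_orbit_self (M := L) b), if_neg hbc, if_neg hba, if_neg hdb] at hb1
      have hval : ∀ y, y ≠ x → ((orbit L y).ncard = 5 ∧ y ∉ orbit L b) ∨ ((orbit L y).ncard = 2 ∧ y ∈ orbit L b) ∨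
          ((orbit L y).ncard = 16 ∧ y ∉ orbit L b) := by
        intro y hy
        rcases h.mem_cases y with h1 | h1 | h1 | h1 | h1
        · exact absurd h1 hy
        · left; rw [h1]; exact ⟨by rw [orb_eq L ha, hc1], hba⟩
        · right; left; exact ⟨by rw [orb_eq L (sub_orb hTL b h1), hb1], sub_orb hTL b h1⟩
        · left; exact ⟨by rw [orb_eq L (sub_orb hTL c h1), hc1], fun h2 => hbc (hother h2 (orb_symm L (sub_orb hTL c h1)))⟩
        · right; right; exact ⟨by rw [orb_eq L (sub_orb hTL d h1), hd16], fun h2 => hdb (hother h2 (orb_symm L (sub_orb hTL d h1)))⟩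
      refine caseA2 hK htr h5L ?_ ?_
      · have e : Rs K 2 x = (orbit L b).toFinset := by
          ext y
          rw [mem_Rs, Set.mem_toFinset]
          by_cases hy : y = x
          · rw [hy, rs_self]
            refine ⟨fun h => absurd h (by norm_num), fun h1 => absurd h1 (not_mem_orb hLx h.bx)⟩
          · show (orbit L y).ncard = 2 ↔ _
            rcases hval y hy with ⟨h1, h2⟩ | ⟨h1, h2⟩ | ⟨h1, h2⟩
            · rw [h1]; exact ⟨fun h => absurd h (by norm_num), fun h => absurd h h2⟩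
            · exact ⟨fun _ => h2, fun _ => h1⟩
            · rw [h1]; exact ⟨fun h => absurd h (by norm_num), fun h => absurd h h2⟩
        rw [e, ← Set.ncard_eq_toFinset_card', hb1]
      · intro y hy
        show (orbit L y).ncard ≠ 1
        rcases hval y hy with ⟨h1, h2⟩ | ⟨h1, h2⟩ | ⟨h1, h2⟩ <;> omega
  · rw [if_neg ha] at hc1
    by_cases hb : b ∈ orbit L c
    swap
    · rw [if_neg hb] at hc1
      rw [hc1] at hc2
      exact absurd hc2 (by decide)
    rw [if_pos hb] at hc1
    have hdb : b ∉ orbit L d := fun h => hdc (hother h (orb_symm L hb))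
    have ha1 := h.orbL hTL hLx h.hax
    have hab : b ∉ orbit L a := fun h => ha (orb_symm L (hother h (orb_symm L hb)))
    have hac : c ∉ orbit L a := fun h => ha (orb_symm L h)
    rw [if_pos (MulAction.mem_orbit_self (M := L) a), if_neg hac, if_neg hab] at ha1
    by_cases had : d ∈ orbit L a
    · rw [if_pos had] at ha1
      have h7 := orb_dvd L a
      rw [hL, ha1] at h7
      exact absurd h7 (by decide)
    rw [if_neg had] at ha1
    have hda : a ∉ orbit L d := fun h => had (orb_symm L h)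
    obtain ⟨hd16, hdo⟩ := h.orbd hTL hLx hda hdb hdc
    have hin : ∀ y ∈ o, y = x ∨ y = a ∨ y ∈ orbit L c := by
      intro y hy
      rcases h.mem_cases y with h1 | h1 | h1 | h1 | h1
      · exact Or.inl h1
      · exact Or.inr (Or.inl h1)
      · right; right; rw [← orb_eq L hb]; exact sub_orb hTL b h1
      · right; right; exact sub_orb hTL c h1
      · exact absurd (sub_orb hTL d h1) (hdo y hy)
    have hoff : ∀ y, y ∉ o → y ∈ orbit L d := by
      intro y hy
      apply sub_orb hTL d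
      rw [h.od, Finset.mem_coe, Finset.mem_compl]
      exact hy
    have hothr : ∀ y, y ∉ orbit L d → (orbit L y).ncard ≠ 16 := by
      intro y hy
      have hyo : y ∈ o := by by_contra hcon; exact hy (hoff y hcon)
      rcases hin y hyo with rfl | rfl | h1
      · rw [orb_of_fixed L y hLx, Set.ncard_singleton]; norm_num
      · rw [ha1]; norm_num
      · rw [orb_eq L h1, hc1]; norm_num
    have hCo : Cs K 16 x = o := by
      ext y
      rw [Cs_eq_compl (z := d) hd16 hothr]
      constructor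
      · intro hy
        by_contra hcon
        exact hy (hoff y hcon)
      · exact hdo y
    refine caseB hK htr h5 h hTL hCo hc1 hin ?_ ha hoff
    intro y hy
    by_contra hcon
    exact hdc (hother (hoff y hcon) (orb_symm L hy))

end Cfsg.Agent.H7.Ix
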