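import Mathlib
import Cfsg.Agent.H7_OrbSS
import Cfsg.Agent.H7_OrbTT
import Cfsg.Agent.H7_Pairs

set_option autoImplicit false

/-!
Orbits of the stabiliser of a sextet on sextets, and of the stabiliser of a trio on trios; maximality.
-/

namespace Cfsg.Agent.H7.SSTT

open Cfsg Cfsg.Agent.H7.Golay Cfsg.Agent.H7.Oct Cfsg.Agent.H7.M24 Cfsg.Agent.H28.Sxt Cfsg.Agent.H28.SxtFix
open Cfsg.Agent.H28.Pk Cfsg.Agent.H28.SxtOrb Cfsg.Agent.H28.OrbK Cfsg.Agent.H7.OrbSS Cfsg.Agent.H7.OrbTT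
open scoped Pointwise

theorem sextets_card : sextets.ncard = 1771 := by
  have h := ncard_lab (α := Finset (Finset GolayPt)) sx sexL sexL_nodup (fun n hn n' hn' e => sx_inj hn e) sextets
    (fun x => sextet_iff) (fun _ => True) (fun _ => true) (fun n hn => by simp)
  rw [List.filter_true, sexL_length] at h
  rw [← h]
  congr 1
  ext x
  simp

theorem trios_card : trios.ncard = 3795 := by
  have h := ncard_lab (α := Finset (Finset GolayPt)) tr trioL trioL_nodup (fun n hn n' hn' e => tr_inj hn hn' e) trios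
    (fun x => trio_iff) (fun _ => True) (fun _ => true) (fun n hn => by simp)
  rw [List.filter_true, trioL_length] at h
  rw [← h]
  congr 1
  ext x
  simp

theorem orbit_S {S : Finset (Finset GolayPt)} (hS : S ∈ sextets) (y : Finset (Finset GolayPt)) :
    y ∈ MulAction.orbit M24 S ↔ y ∈ sextets := by
  constructor
  · rintro ⟨g, rfl⟩
    exact smul_mem_sextets g.2 hS
  · intro hy
    obtain ⟨g, hg, h⟩ := H28.OrbStd.sextet_trans hS hy
    exact ⟨⟨g, hg⟩, h⟩

theorem orbit_T {S : Finset (Finset GolayPt)} (hS : S ∈ trios) (y : Finset (Finset GolayPt)) :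
    y ∈ MulAction.orbit M24 S ↔ y ∈ trios := by
  constructor
  · rintro ⟨g, rfl⟩
    exact (smul_mem_trios_iff g.2).2 hS
  · intro hy
    obtain ⟨g, hg, h⟩ := H28.OrbStd.trio_trans hS hy
    exact ⟨⟨g, hg⟩, h⟩

theorem self6 {S : Finset (Finset GolayPt)} (hS : S ∈ sextets) : nn2 S S = 6 := by
  obtain ⟨h, hh, hS0⟩ := OrbSS.std hS
  rw [← OrbSS.hiv h hh, hS0]
  have h1 := hvS _ H28.OrbS.N0_mem
  have h2 : OrbSS.vS 4540727953540125241574305817590413058375695 = 6 := by decide +kernel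
  rw [h2] at h1
  exact h1.symm

theorem eq6 {S s : Finset (Finset GolayPt)} (hS : S ∈ sextets) (hs : s ∈ sextets) (h : nn2 S s = 6) : s = S := by
  obtain ⟨a, ha⟩ := Set.ncard_eq_one.1 (OrbSS.countS6 (OrbSS.std hS))
  have h1 : s ∈ {s | s ∈ FS.X ∧ nn2 S s = 6} := ⟨hs, h⟩
  have h2 : S ∈ {s | s ∈ FS.X ∧ nn2 S s = 6} := ⟨hS, self6 hS⟩
  rw [ha, Set.mem_singleton_iff] at h1 h2
  rw [h1, h2]

theorem self3 {S : Finset (Finset GolayPt)} (hS : S ∈ trios) : nn S S = 3 := by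
  obtain ⟨h, hh, hS0⟩ := OrbTT.std hS
  rw [← nn_smul h, hS0]
  have h1 := OrbTT.hvT _ H28.OrbT.n0_mem
  have h2 : OrbTT.vT 219146429672784 = 3 := by decide +kernel
  rw [h2] at h1
  exact h1.symm

theorem eq3 {S s : Finset (Finset GolayPt)} (hS : S ∈ trios) (hs : s ∈ trios) (h : nn S s = 3) : s = S := by
  obtain ⟨a, ha⟩ := Set.ncard_eq_one.1 (OrbTT.countT3 (OrbTT.std hS))
  have h1 : s ∈ {s | s ∈ FT.X ∧ nn S s = 3} := ⟨hs, h⟩
  have h2 : S ∈ {s | s ∈ FT.X ∧ nn S s = 3} := ⟨hS, self3 hS⟩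
  rw [ha, Set.mem_singleton_iff] at h1 h2
  rw [h1, h2]

theorem coatom_S {S : Finset (Finset GolayPt)} (hS : S ∈ sextets) : IsCoatom (MulAction.stabilizer M24 S) := by
  refine H7.Pairs.coatom_of_suborbits (G := ↥M24) S 3
    ![{s | s ∈ FS.X ∧ nn2 S s = 12}, {s | s ∈ FS.X ∧ nn2 S s = 2}, {s | s ∈ FS.X ∧ nn2 S s = 4}] ?_ ?_ ?_ ?_ ![90, 240, 1440] ?_ ?_ ?_
  · intro t
    rw [orbit_S hS]
    constructor
    · intro ht
      have := OrbSS.allS (OrbSS.std hS) (s := t) ht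
      simp only [List.mem_cons, List.not_mem_nil, or_false] at this
      rcases this with h | h | h | h
      · exact Or.inr ⟨1, ht, h⟩
      · exact Or.inr ⟨2, ht, h⟩
      · exact Or.inl (eq6 hS ht h)
      · exact Or.inr ⟨0, ht, h⟩
    · rintro (rfl | ⟨i, hi⟩)
      · exact hS
      · fin_cases i
        · exact hi.1
        · exact hi.1
        · exact hi.1
  · intro i hi
    have h6 := self6 hS
    fin_cases i
    · have := hi.2
      omega
    · have := hi.2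
      omega
    · have := hi.2
      omega
  · intro i j y hi hj
    fin_cases i <;> fin_cases j <;> first | rfl | (exfalso; have h1 := hi.2; have h2 := hj.2; omega)
  · intro i y hy y' hy'
    fin_cases i
    · obtain ⟨g, hg, h1, h2⟩ := OrbSS.transS12 (OrbSS.std hS) hy.1 hy'.1 hy.2 hy'.2
      exact ⟨⟨g, hg⟩, h1, h2⟩
    · obtain ⟨g, hg, h1, h2⟩ := OrbSS.transS2 (OrbSS.std hS) hy.1 hy'.1 hy.2 hy'.2
      exact ⟨⟨g, hg⟩, h1, h2⟩
    · obtain ⟨g, hg, h1, h2⟩ := OrbSS.transS4 (OrbSS.std hS) hy.1 hy'.1 hy.2 hy'.2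
      exact ⟨⟨g, hg⟩, h1, h2⟩
  · intro i
    fin_cases i
    · exact OrbSS.countS12 (OrbSS.std hS)
    · exact OrbSS.countS2 (OrbSS.std hS)
    · exact OrbSS.countS4 (OrbSS.std hS)
  · exact ⟨0, by decide⟩
  · decide

theorem coatom_T {S : Finset (Finset GolayPt)} (hS : S ∈ trios) : IsCoatom (MulAction.stabilizer M24 S) := by
  refine H7.Pairs.coatom_of_suborbits (G := ↥M24) S 4
    ![{s | s ∈ FT.X ∧ nn S s = 5}, {s | s ∈ FT.X ∧ nn S s = 6}, {s | s ∈ FT.X ∧ nn S s = 8}, {s | s ∈ FT.X ∧ nn S s = 9}] ?_ ?_ ?_ ?_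
    ![42, 56, 1008, 2688] ?_ ?_ ?_
  · intro t
    rw [orbit_T hS]
    constructor
    · intro ht
      have := OrbTT.allT (OrbTT.std hS) (s := t) ht
      simp only [List.mem_cons, List.not_mem_nil, or_false] at this
      rcases this with h | h | h | h | h
      · exact Or.inl (eq3 hS ht h)
      · exact Or.inr ⟨0, ht, h⟩
      · exact Or.inr ⟨1, ht, h⟩
      · exact Or.inr ⟨2, ht, h⟩
      · exact Or.inr ⟨3, ht, h⟩
    · rintro (rfl | ⟨i, hi⟩)
      · exact hS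
      · fin_cases i
        · exact hi.1
        · exact hi.1
        · exact hi.1
        · exact hi.1
  · intro i hi
    have h6 := self3 hS
    fin_cases i
    · have := hi.2
      omega
    · have := hi.2
      omega
    · have := hi.2
      omega
    · have := hi.2
      omega
  · intro i j y hi hj
    fin_cases i <;> fin_cases j <;> first | rfl | (exfalso; have h1 := hi.2; have h2 := hj.2; omega)
  · intro i y hy y' hy'
    fin_cases i
    · obtain ⟨g, hg, h1, h2⟩ := OrbTT.transT5 (OrbTT.std hS) hy.1 hy'.1 hy.2 hy'.2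
      exact ⟨⟨g, hg⟩, h1, h2⟩
    · obtain ⟨g, hg, h1, h2⟩ := OrbTT.transT6 (OrbTT.std hS) hy.1 hy'.1 hy.2 hy'.2
      exact ⟨⟨g, hg⟩, h1, h2⟩
    · obtain ⟨g, hg, h1, h2⟩ := OrbTT.transT8 (OrbTT.std hS) hy.1 hy'.1 hy.2 hy'.2
      exact ⟨⟨g, hg⟩, h1, h2⟩
    · obtain ⟨g, hg, h1, h2⟩ := OrbTT.transT9 (OrbTT.std hS) hy.1 hy'.1 hy.2 hy'.2
      exact ⟨⟨g, hg⟩, h1, h2⟩
  · intro i
    fin_cases i
    · exact OrbTT.countT5 (OrbTT.std hS)
    · exact OrbTT.countT6 (OrbTT.std hS)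
    · exact OrbTT.countT8 (OrbTT.std hS)
    · exact OrbTT.countT9 (OrbTT.std hS)
  · exact ⟨0, by decide⟩
  · decide

theorem compl_union {o o' : Finset GolayPt} (ho : o ∈ octads) (ho' : o' ∈ octads) (hd : Disjoint o o') : (o ∪ o')ᶜ ∈ octads := by
  have h1 := symmDiff_mem_supports ho.1 ho'.1
  rw [symmDiff_of_disjoint hd] at h1
  have h2 := compl_mem_supports h1
  refine ⟨h2, ?_⟩
  rw [Finset.card_compl, Finset.card_union_of_disjoint hd, ho.2, ho'.2]
  rfl

end Cfsg.Agent.H7.SSTT
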