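import Mathlib
import Cfsg.Agent.H7_Ix8
import Cfsg.Agent.H7_SSTT

set_option autoImplicit false
set_option linter.all false

/-!
Subgroups of `M24` of small index.
-/

namespace Cfsg.Agent.H7.Ix

open Cfsg Cfsg.Agent.H7.Golay Cfsg.Agent.H7.Oct Cfsg.Agent.H7.M24 Cfsg.Agent.H7.M24b Cfsg.Agent.H7.M24c Cfsg.Agent.H7.M24d
open scoped Pointwise
open MulAction (orbit)

local notation "PG" => Equiv.Perm GolayPt

noncomputable def dm (H : Subgroup ↥M24) : Subgroup PG := H.map M24.subtype

theorem card_dm (H : Subgroup ↥M24) : Nat.card (dm H) = Nat.card H :=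
  (Nat.card_congr (Subgroup.equivMapOfInjective H _ M24.subtype_injective).toEquiv).symm

theorem mem_dm {H : Subgroup ↥M24} {g : PG} : g ∈ dm H ↔ ∃ h ∈ H, h.1 = g := Iff.rfl

theorem dm_le (H : Subgroup ↥M24) : dm H ≤ M24 := by
  intro g hg
  obtain ⟨h, hh, rfl⟩ := mem_dm.1 hg
  exact h.2

theorem card_of_index {H : Subgroup ↥M24} {n : ℕ} (h : H.index = n) : Nat.card (dm H) * n = 244823040 := by
  rw [card_dm, ← h, Subgroup.card_mul_index, card_M24]

theorem eq_stab {α : Type*} [MulAction PG α] {H : Subgroup ↥M24} {t : α} (ht : ∀ g ∈ dm H, g • t = t)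
    (hc : Nat.card ↥(MulAction.stabilizer M24 t) ≤ Nat.card (dm H)) : H = MulAction.stabilizer M24 t := by
  apply Subgroup.eq_of_le_of_card_ge
  · intro h hh
    exact ht h.1 (mem_dm.2 ⟨h, hh, rfl⟩)
  · rw [card_dm] at hc
    exact hc

theorem card_stab_pair {s : Finset GolayPt} (hs : s.card = 2) : Nat.card ↥(MulAction.stabilizer M24 s) = 887040 := by
  have h1 := card_eq_orbit_mul M24 s
  have h2 : orbit ↥M24 s = ((Finset.univ : Finset GolayPt).powersetCard 2 : Finset (Finset GolayPt)) := by
    ext t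
    rw [Finset.mem_coe, Finset.mem_powersetCard]
    constructor
    · rintro ⟨k, rfl⟩
      exact ⟨Finset.subset_univ _, by show (k.1 • s).card = 2; rw [Finset.card_smul_finset, hs]⟩
    · rintro ⟨-, htc⟩
      obtain ⟨a, b, hab, rfl⟩ := Finset.card_eq_two.1 hs
      obtain ⟨a', b', hab', rfl⟩ := Finset.card_eq_two.1 htc
      have i1 : Function.Injective (![a, b] : Fin 2 → GolayPt) := by
        intro i j hij
        fin_cases i <;> fin_cases j <;> simp_all
      have i2 : Function.Injective (![a', b'] : Fin 2 → GolayPt) := by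
        intro i j hij
        fin_cases i <;> fin_cases j <;> simp_all
      obtain ⟨k, hk, h⟩ := ktrans 2 (by norm_num) ![a, b] ![a', b'] i1 i2
      refine ⟨⟨k, hk⟩, ?_⟩
      show k • ({a, b} : Finset GolayPt) = {a', b'}
      rw [Finset.smul_finset_insert, Finset.smul_finset_singleton]
      exact congrArg₂ (fun x y => ({x, y} : Finset GolayPt)) (h 0) (h 1)
  have h24 : (Finset.univ : Finset GolayPt).card = 24 := rfl
  rw [card_M24, h2, Set.ncard_coe_finset, Finset.card_powersetCard, h24] at h1
  have h3 : Nat.choose 24 2 = 276 := rfl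
  rw [h3] at h1
  rw [card_stab]
  omega

theorem card_stab_sextet {S : Finset (Finset GolayPt)} (hS : S ∈ sextets) : Nat.card ↥(MulAction.stabilizer M24 S) = 138240 := by
  have h1 := card_eq_orbit_mul M24 S
  have h2 : orbit ↥M24 S = sextets := Set.ext fun y => H7.SSTT.orbit_S hS y
  rw [card_M24, h2, H7.SSTT.sextets_card] at h1
  rw [card_stab]
  omega

theorem s1589 : (∀ H : Subgroup ↥M24, H.index = 759 → ∃ o ∈ octads, H = MulAction.stabilizer M24 o) ∧
    (∀ H : Subgroup ↥M24, H.index = 276 → ∃ s : Finset GolayPt, s.card = 2 ∧ H = MulAction.stabilizer M24 s) ∧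
    (∀ H : Subgroup ↥M24, H.index = 1771 → ∃ S ∈ sextets, H = MulAction.stabilizer M24 S) ∧
    ∀ H : Subgroup ↥M24, H.index ≠ 253 := by
  refine ⟨?_, ?_, ?_, ?_⟩
  · intro H hH
    have hc := card_of_index hH
    have hc' : Nat.card (dm H) = 322560 := by omega
    rcases odd_index (dm_le H) (by rw [hc']; norm_num) with ⟨o, ho, h⟩ | h
    · refine ⟨o, ho, eq_stab h ?_⟩
      rw [hc', card_stab, card_stab_octad ho]
    · exfalso
      exact no_trans (dm_le H) h (by rw [hc']; norm_num) (by rw [hc']; norm_num) (by rw [hc']; norm_num)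
        (by rw [hc']; norm_num) (by rw [hc']; norm_num)
  · intro H hH
    have hc := card_of_index hH
    have hc' : Nat.card (dm H) = 887040 := by omega
    obtain ⟨s, hs, h⟩ := index276 (dm_le H) hc'
    exact ⟨s, hs, eq_stab h (by rw [hc', card_stab_pair hs])⟩
  · intro H hH
    have hc := card_of_index hH
    have hc' : Nat.card (dm H) = 138240 := by omega
    obtain ⟨S, hS, h⟩ := index1771 (dm_le H) hc'
    exact ⟨S, hS, eq_stab h (by rw [hc', card_stab_sextet hS])⟩
  · intro H hH
    have hc := card_of_index hH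
    have hc' : Nat.card (dm H) = 967680 := by omega
    rcases odd_index (dm_le H) (by rw [hc']; norm_num) with ⟨o, ho, h⟩ | h
    · have h1 : Nat.card (dm H) ∣ 322560 := by
        rw [← card_stab_octad ho]
        exact Subgroup.card_dvd_of_le fun g hg => ⟨dm_le H hg, h g hg⟩
      rw [hc'] at h1
      revert h1; decide
    · exact no_trans (dm_le H) h (by rw [hc']; norm_num) (by rw [hc']; norm_num) (by rw [hc']; norm_num)
        (by rw [hc']; norm_num) (by rw [hc']; norm_num)

end Cfsg.Agent.H7.Ix
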