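import Mathlib
import Cfsg.Agent.H7_Ix8
import Cfsg.Agent.H28_Cls2
import Cfsg.Agent.H7_Srg

set_option autoImplicit false
set_option linter.all false

/-!
Normalisers of elements of order 11 in `M22`; no subgroups of index 56 and 210 in `M22`.
-/

namespace Cfsg.Agent.H7.Ix

open Cfsg Cfsg.Agent.H7.Golay Cfsg.Agent.H7.Oct Cfsg.Agent.H7.M24 Cfsg.Agent.H7.M24b Cfsg.Agent.H7.M24c Cfsg.Agent.H7.M24d
open scoped Pointwise
open MulAction (orbit)

local notation "PG" => Equiv.Perm GolayPt

/-- an involution with a fixed point has eight fixed points -/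
theorem inv_eight {t : PG} (ht : t ∈ M24) (h2 : t * t = 1) (h1 : t ≠ 1) {p : GolayPt} (hp : t p = p) :
    (Finset.univ.filter fun x => t x = x).card = 8 := by
  have ho : orderOf t = 2 := by
    apply orderOf_eq_prime
    · rw [sq, h2]
    · exact h1
  rcases Cfsg.Agent.H28.Cls.inv_fix ht ho with h | h
  · exact h.2
  · exfalso
    rw [Finset.card_eq_zero] at h
    have : p ∈ Cfsg.Agent.H28.Cls.fixF t := Cfsg.Agent.H28.Cls.mem_fixF.2 hp
    rw [h] at this
    exact absurd this (Finset.notMem_empty p)

theorem prime_sub {G : Type*} [Group G] [Finite G] {p : ℕ} (hp : p.Prime) {E C : Subgroup G} (hE : Nat.card E = p) (hC : C ≤ E) :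
    C = ⊥ ∨ C = E := by
  have h1 := Subgroup.card_dvd_of_le hC
  rw [hE] at h1
  rcases (Nat.dvd_prime hp).1 h1 with h | h
  · left; exact Subgroup.card_eq_one.1 h
  · right; exact Subgroup.eq_of_le_of_card_ge hC (by rw [hE, h])

/-- no involution fixing the two fixed points normalises a subgroup of order 11 -/
theorem noinv11 (E : Subgroup PG) (hE : E ≤ M24) (hc : Nat.card E = 11) {t : PG} (ht : t ∈ M24) (h2 : t * t = 1) (h1 : t ≠ 1)
    (hn : ∀ e ∈ E, t * e * t⁻¹ ∈ E) (hf : ∀ x ∈ FX E, t x = x) : False := by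
  classical
  haveI : Fact (Nat.Prime 11) := ⟨by norm_num⟩
  have hFX := card_FX (p := 11) (by norm_num) E hE (by rw [hc, pow_one])
  have hne : (FX E).Nonempty := by rw [← Finset.card_pos, hFX]; norm_num
  obtain ⟨p, hp⟩ := hne
  have h8 := inv_eight ht h2 h1 (hf p hp)
  set Ft := Finset.univ.filter fun x => t x = x with hFt
  have hsub : FX E ⊆ Ft := fun x hx => by rw [hFt, Finset.mem_filter]; exact ⟨Finset.mem_univ _, hf x hx⟩
  have h6 : (Ft \ FX E).card = 6 := by rw [Finset.card_sdiff_of_subset hsub, h8, hFX]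
  have hstab : ∀ y, y ∉ FX E → ∀ e ∈ E, e y = y → e = 1 := by
    intro y hy e he hey
    rcases prime_sub (by norm_num : Nat.Prime 11) hc (inf_le_left : E ⊓ MulAction.stabilizer PG y ≤ E) with h | h
    · have : e ∈ E ⊓ MulAction.stabilizer PG y := ⟨he, hey⟩
      rw [h, Subgroup.mem_bot] at this
      exact this
    · exfalso
      apply hy
      rw [mem_FX]
      intro g hg
      rw [← h] at hg
      exact hg.2
  rcases prime_sub (by norm_num : Nat.Prime 11) hc (inf_le_left : E ⊓ Subgroup.centralizer {t} ≤ E) with h | h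
  · -- trivial centraliser
    have hinj : Function.Injective (fun z : ↥(Ft \ FX E) × ↥E => z.2.1 z.1.1) := by
      rintro ⟨⟨y, hy⟩, ⟨e, he⟩⟩ ⟨⟨y', hy'⟩, ⟨e', he'⟩⟩ heq
      have heq : e y = e' y' := heq
      rw [Finset.mem_sdiff, hFt, Finset.mem_filter] at hy hy'
      have hu : (e'⁻¹ * e) y = y' := by
        rw [Equiv.Perm.mul_apply, heq]; exact e'.symm_apply_apply y'
      set u := e'⁻¹ * e with hudef
      have huE : u ∈ E := mul_mem (inv_mem he') he
      have h3 : (u⁻¹ * (t * u * t⁻¹)) y = y := by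
        have h4 : t⁻¹ y = y := by rw [Equiv.Perm.inv_eq_iff_eq]; exact hy.1.2.symm
        rw [Equiv.Perm.mul_apply, Equiv.Perm.mul_apply, Equiv.Perm.mul_apply, h4, hu, hy'.1.2, ← hu]
        exact u.symm_apply_apply y
      have h5 := hstab y hy.2 _ (mul_mem (inv_mem huE) (hn u huE)) h3
      have h6 : t * u = u * t := by
        have : t * u * t⁻¹ = u := by
          calc t * u * t⁻¹ = u * (u⁻¹ * (t * u * t⁻¹)) := by group
            _ = u := by rw [h5, mul_one]
        calc t * u = (t * u * t⁻¹) * t := by group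
          _ = u * t := by rw [this]
      have h7 : u ∈ E ⊓ Subgroup.centralizer {t} := Subgroup.mem_inf.2 ⟨huE, Subgroup.mem_centralizer_singleton_iff.2 h6.symm⟩
      rw [h, Subgroup.mem_bot] at h7
      have he1 : e = e' := by
        have : e = e' * u := by rw [hudef]; group
        rw [this, h7, mul_one]
      have hy1 : y = y' := by rw [← hu, h7]; rfl
      subst he1
      subst hy1
      rfl
    have h9 := Nat.card_le_card_of_injective _ hinj
    rw [Nat.card_prod, hc, Nat.card_eq_fintype_card, Fintype.card_coe, h6, Nat.card_eq_fintype_card] at h9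
    have : Fintype.card GolayPt = 24 := rfl
    rw [this] at h9
    omega
  · -- `t` centralises `E`
    have hcom : ∀ e ∈ E, e * t = t * e := by
      intro e he
      rw [← h] at he
      exact (Subgroup.mem_centralizer_singleton_iff.1 he.2)
    have hne : (Ft \ FX E).Nonempty := by rw [← Finset.card_pos, h6]; norm_num
    obtain ⟨y, hy⟩ := hne
    rw [Finset.mem_sdiff, hFt, Finset.mem_filter] at hy
    have hle : orbit E y ⊆ ((Ft : Finset GolayPt) : Set GolayPt) := by
      rintro _ ⟨e, rfl⟩
      rw [Finset.mem_coe, hFt, Finset.mem_filter]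
      refine ⟨Finset.mem_univ _, ?_⟩
      show t (e.1 y) = e.1 y
      have h3 := congrArg (fun z : PG => z y) (hcom e.1 e.2)
      have h4 : e.1 (t y) = t (e.1 y) := h3
      rw [← h4, hy.1.2]
    have h10 := Set.ncard_le_ncard hle (Set.toFinite _)
    rw [Set.ncard_coe_finset, h8] at h10
    have h11 := card_eq_orbit_mul E y
    have h12 : Nat.card ↥(E ⊓ MulAction.stabilizer PG y) = 1 := by
      rw [Subgroup.card_eq_one, Subgroup.eq_bot_iff_forall]
      intro g hg
      exact hstab y hy.2 g hg.1 hg.2
    rw [h12, mul_one, hc] at h11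
    omega

/-- Sylow count for the prime 11 in a subgroup fixing two points -/
theorem syl11 (L : Subgroup PG) (hL : L ≤ M24) {p q : GolayPt} (hpq : p ≠ q) (hp : ∀ g ∈ L, g p = p) (hq : ∀ g ∈ L, g q = q)
    (h11 : 11 ∣ Nat.card L) : ∃ n m : ℕ, n * m = Nat.card L ∧ n % 11 = 1 ∧ m % 2 = 1 ∧ 11 ∣ m := by
  classical
  haveI : Fact (Nat.Prime 11) := ⟨by norm_num⟩
  haveI : Fact (Nat.Prime 2) := ⟨Nat.prime_two⟩
  obtain ⟨P⟩ : Nonempty (Sylow 11 L) := inferInstance
  have hPc : Nat.card P = 11 := by
    have h1 : ¬ 11 ^ 2 ∣ Nat.card L := by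
      intro h
      have h2 := h.trans (Subgroup.card_dvd_of_le hL)
      rw [card_M24] at h2
      revert h2; decide
    have h2 := P.card_eq_multiplicity
    have h3 : (Nat.card L).factorization 11 = 1 := by
      apply le_antisymm
      · by_contra hcon
        push Not at hcon
        exact h1 ((Nat.Prime.pow_dvd_iff_le_factorization (by norm_num) Nat.card_pos.ne').2 hcon)
      · exact (Nat.Prime.dvd_iff_one_le_factorization (by norm_num) Nat.card_pos.ne').1 h11
    rw [h3, pow_one] at h2
    exact h2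
  set N := Subgroup.normalizer ((P : Subgroup L) : Set L) with hN
  refine ⟨Nat.card (Sylow 11 L), Nat.card N, ?_, ?_, ?_, ?_⟩
  · rw [P.card_eq_index_normalizer]
    exact Subgroup.index_mul_card _
  · have := card_sylow_modEq_one 11 L
    exact this
  · by_contra hcon
    have h2 : 2 ∣ Nat.card N := by omega
    obtain ⟨t, ht⟩ := exists_prime_orderOf_dvd_card' 2 h2
    have htt : t * t = 1 := by rw [← sq, ← ht]; exact pow_orderOf_eq_one t
    have ht1 : t ≠ 1 := by rintro rfl; rw [orderOf_one] at ht; norm_num at ht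
    set E : Subgroup PG := (P : Subgroup L).map L.subtype with hEdef
    have hEc : Nat.card E = 11 := by
      rw [← hPc]
      exact (Nat.card_congr (Subgroup.equivMapOfInjective (P : Subgroup L) L.subtype L.subtype_injective).toEquiv).symm
    have hEL : E ≤ L := Subgroup.map_subtype_le _
    have hFX : FX E = {p, q} := by
      symm
      apply Finset.eq_of_subset_of_card_le
      · intro x hx
        rw [Finset.mem_insert, Finset.mem_singleton] at hx
        rw [mem_FX]
        rcases hx with rfl | rfl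
        · exact fun g hg => hp g (hEL hg)
        · exact fun g hg => hq g (hEL hg)
      · rw [card_FX (p := 11) (by norm_num) E (hEL.trans hL) (by rw [hEc, pow_one]), Finset.card_pair hpq]
    refine noinv11 E (hEL.trans hL) hEc (t := t.1.1) (hL t.1.2) ?_ ?_ ?_ ?_
    · exact congrArg (fun z : N => z.1.1) htt
    · intro h
      exact ht1 (Subtype.ext (Subtype.ext h))
    · rintro e ⟨e', he', rfl⟩
      have h3 : t.1 ∈ Subgroup.normalizer ((P : Subgroup L) : Set L) := t.2
      rw [Subgroup.mem_normalizer_iff] at h3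
      exact ⟨t.1 * e' * t.1⁻¹, (h3 e').1 he', rfl⟩
    · intro x hx
      rw [hFX, Finset.mem_insert, Finset.mem_singleton] at hx
      rcases hx with rfl | rfl
      · exact hp _ t.1.2
      · exact hq _ t.1.2
  · rw [← hPc]
    exact Subgroup.card_dvd_of_le Subgroup.le_normalizer

end Cfsg.Agent.H7.Ix
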