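import Mathlib
import Cfsg.Agent.H7_Iy1

set_option autoImplicit false
set_option linter.all false

/-!
No subgroups of index 56 and 210 in `M22`.
-/

namespace Cfsg.Agent.H7.Ix

open Cfsg Cfsg.Agent.H7.Golay Cfsg.Agent.H7.Oct Cfsg.Agent.H7.M24 Cfsg.Agent.H7.M24b Cfsg.Agent.H7.M24c Cfsg.Agent.H7.M24d
open scoped Pointwise
open MulAction (orbit)

local notation "PG" => Equiv.Perm GolayPt

theorem rs_symm' {K : Subgroup PG} {x y : GolayPt} (hxy : Nat.card ↥(K ⊓ MulAction.stabilizer PG x) = Nat.card ↥(K ⊓ MulAction.stabilizer PG y)) :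
    rs K x y = rs K y x := by
  have h1 := card_eq_orbit_mul (K ⊓ MulAction.stabilizer PG x) y
  have h2 := card_eq_orbit_mul (K ⊓ MulAction.stabilizer PG y) x
  have e : K ⊓ MulAction.stabilizer PG y ⊓ MulAction.stabilizer PG x = K ⊓ MulAction.stabilizer PG x ⊓ MulAction.stabilizer PG y :=
    inf_right_comm _ _ _
  rw [e] at h2
  have h5 : 0 < Nat.card ↥(K ⊓ MulAction.stabilizer PG x ⊓ MulAction.stabilizer PG y) := Nat.card_pos
  rw [hxy, h2] at h1
  exact (Nat.eq_of_mul_eq_mul_right h5 h1).symm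

theorem no7920 (L : Subgroup PG) (hL : L ≤ M24) {p q : GolayPt} (hpq : p ≠ q) (hp : ∀ g ∈ L, g p = p) (hq : ∀ g ∈ L, g q = q)
    (hc : Nat.card L = 7920) : False := by
  classical
  haveI : Fact (Nat.Prime 3) := ⟨by norm_num⟩
  haveI : Fact (Nat.Prime 5) := ⟨by norm_num⟩
  haveI : Fact (Nat.Prime 11) := ⟨by norm_num⟩
  set Ω : Finset GolayPt := {p, q}ᶜ with hΩ
  have mΩ : ∀ y, y ∈ Ω ↔ y ≠ p ∧ y ≠ q := fun y => by
    rw [hΩ, Finset.mem_compl, Finset.mem_insert, Finset.mem_singleton, not_or]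
  have cΩ : Ω.card = 22 := by rw [hΩ, Finset.card_compl, Finset.card_pair hpq]; rfl
  have invΩ : ∀ g ∈ L, ∀ y ∈ Ω, g y ∈ Ω := by
    intro g hg y hy
    rw [mΩ] at hy ⊢
    exact ⟨fun h => hy.1 (g.injective (h.trans (hp g hg).symm)), fun h => hy.2 (g.injective (h.trans (hq g hg).symm))⟩
  have orbΩ : ∀ (M : Subgroup PG), M ≤ L → ∀ y ∈ Ω, orbit M y ⊆ (Ω : Set GolayPt) := by
    intro M hM y hy
    exact orb_sub M _ (fun g hg z hz => invΩ g (hM hg) z hz) hy
  -- subgroups of order 9
  have nine : ∀ (P : Subgroup PG), P ≤ L → Nat.card P = 3 ^ 2 → ∀ F : Set GolayPt, F ⊆ (Ω : Set GolayPt) → (∀ y ∈ F, ∀ g ∈ P, g y = y) → F.ncard ≤ 2 := by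
    intro P hP hPc F hF hfix
    by_contra hcon
    push Not at hcon
    have h1 := dvd_of_fix P (hP.trans hL) (k := 5) le_rfl (insert p (insert q F)) (by
      have n1 : q ∉ F := fun h => ((mΩ q).1 (hF h)).2 rfl
      have n2 : p ∉ insert q F := by
        rintro (h | h)
        · exact hpq h
        · exact ((mΩ p).1 (hF h)).1 rfl
      rw [Set.ncard_insert_of_notMem n2 (Set.toFinite _), Set.ncard_insert_of_notMem n1 (Set.toFinite _)]
      omega) (fun g hg y hy => by
        rcases hy with rfl | rfl | hy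
        · exact hp g (hP hg)
        · exact hq g (hP hg)
        · exact hfix y hy g hg)
    rw [hPc] at h1
    revert h1; decide
  -- fixed points of a 3-group of order 9 in an invariant set
  have nine_mod : ∀ (P : Subgroup PG), P ≤ L → Nat.card P = 3 ^ 2 → ∀ X : Set GolayPt, X ⊆ (Ω : Set GolayPt) → (∀ g ∈ P, ∀ y ∈ X, g • y ∈ X) →
      X.ncard % 3 = {y | y ∈ X ∧ ∀ g ∈ P, g y = y}.ncard := by
    intro P hP hPc X hX hinv
    have h1 : X.ncard ≡ {y | y ∈ X ∧ ∀ g ∈ P, g y = y}.ncard [MOD 3] := fix_mod P hPc X hinv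
    have h2 := nine P hP hPc {y | y ∈ X ∧ ∀ g ∈ P, g y = y} (fun y hy => hX hy.1) (fun y hy => hy.2)
    rw [Nat.ModEq] at h1
    rw [h1]
    exact Nat.mod_eq_of_lt (by omega)
  -- transitivity
  have htrΩ : ∀ y ∈ Ω, orbit L y = (Ω : Set GolayPt) := by
    intro y hy
    obtain ⟨E, hEL, hE⟩ := exists_pgroup (p := 11) (n := 1) L (by rw [hc]; norm_num)
    have hFX : FX E = {p, q} := by
      symm
      apply Finset.eq_of_subset_of_card_le
      · intro x hx
        rw [Finset.mem_insert, Finset.mem_singleton] at hx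
        rw [mem_FX]
        rcases hx with rfl | rfl
        · exact fun g hg => hp g (hEL hg)
        · exact fun g hg => hq g (hEL hg)
      · rw [card_FX (p := 11) (by norm_num) E (hEL.trans hL) hE, Finset.card_pair hpq]
    have h1 := fix_mod E hE (orbit L y) (fun g hg z hz => orb_inv L y (hEL hg) hz)
    have h0 : {x | x ∈ orbit L y ∧ ∀ g ∈ E, g • x = x} = ∅ := by
      ext x
      constructor
      · rintro ⟨h2, h3⟩
        have h4 : x ∈ FX E := mem_FX.2 h3
        have h5 := orbΩ L le_rfl y hy h2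
        rw [Finset.mem_coe, mΩ] at h5
        rw [hFX, Finset.mem_insert, Finset.mem_singleton] at h4
        rcases h4 with h4 | h4
        · exact h5.1 h4
        · exact h5.2 h4
      · exact fun h => h.elim
    rw [h0, Set.ncard_empty, Nat.ModEq] at h1
    have h2 := Set.ncard_le_ncard (orbΩ L le_rfl y hy) (Set.toFinite _)
    rw [Set.ncard_coe_finset, cΩ] at h2
    have h3 := orb_pos L y
    have h4 : (orbit L y).ncard = 11 ∨ (orbit L y).ncard = 22 := by omega
    rcases h4 with h4 | h4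
    · exfalso
      obtain ⟨P, hPL, hP⟩ := exists_pgroup (p := 3) (n := 2) L (by rw [hc]; norm_num)
      have a1 := nine_mod P hPL hP (orbit L y) (orbΩ L le_rfl y hy) (fun g hg z hz => orb_inv L y (hPL hg) hz)
      have hX2 : ((Ω : Set GolayPt) \ orbit L y).ncard = 11 := by
        have := Set.ncard_sdiff_add_ncard_of_subset (orbΩ L le_rfl y hy) (Set.toFinite _)
        rw [Set.ncard_coe_finset, cΩ] at this
        omega
      have b1 := nine_mod P hPL hP ((Ω : Set GolayPt) \ orbit L y) Set.diff_subset (fun g hg z hz => ⟨invΩ g (hPL hg) z hz.1, fun h5 => hz.2 (by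
        have h6 := orb_inv L y (inv_mem (hPL hg)) h5
        rwa [inv_smul_smul] at h6)⟩)
      rw [h4] at a1
      rw [hX2] at b1
      have hd : Disjoint {z | z ∈ orbit L y ∧ ∀ g ∈ P, g z = z} {z | z ∈ (Ω : Set GolayPt) \ orbit L y ∧ ∀ g ∈ P, g z = z} := by
        rw [Set.disjoint_left]
        intro z hz1 hz2
        exact hz2.1.2 hz1.1
      have := nine P hPL hP ({z | z ∈ orbit L y ∧ ∀ g ∈ P, g z = z} ∪ {z | z ∈ (Ω : Set GolayPt) \ orbit L y ∧ ∀ g ∈ P, g z = z}) (by
        rintro z (hz | hz)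
        · exact orbΩ L le_rfl y hy hz.1
        · exact hz.1.1) (by
        rintro z (hz | hz)
        · exact hz.2
        · exact hz.2)
      rw [Set.ncard_union_eq hd (Set.toFinite _) (Set.toFinite _)] at this
      omega
    · exact Set.eq_of_subset_of_ncard_le (orbΩ L le_rfl y hy) (by rw [Set.ncard_coe_finset, cΩ, h4]) (Set.toFinite _)
  have hSt : ∀ x ∈ Ω, Nat.card ↥(L ⊓ MulAction.stabilizer PG x) = 360 := by
    intro x hx
    have h1 := card_eq_orbit_mul L x
    rw [hc, htrΩ x hx, Set.ncard_coe_finset, cΩ] at h1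
    omega
  -- data at a point: the fourth fixed point of an element of order 5 and the subdegrees
  have five : ∀ x ∈ Ω, ∃ (E : Subgroup PG) (y0 : GolayPt), E ≤ L ⊓ MulAction.stabilizer PG x ∧ Nat.card E = 5 ^ 1 ∧ y0 ∈ Ω ∧ y0 ≠ x ∧
      FX E = {p, q, x, y0} := by
    intro x hx
    obtain ⟨E, hEL, hE⟩ := exists_pgroup (p := 5) (n := 1) (L ⊓ MulAction.stabilizer PG x) (by rw [hSt x hx]; norm_num)
    have hF := card_FX (p := 5) le_rfl E (hEL.trans (inf_le_left.trans hL)) hE
    have hx' := (mΩ x).1 hx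
    have h3 : ({p, q, x} : Finset GolayPt).card = 3 := by
      rw [Finset.card_insert_of_notMem, Finset.card_pair hx'.2.symm]
      rw [Finset.mem_insert, Finset.mem_singleton, not_or]
      exact ⟨hpq, hx'.1.symm⟩
    have hsub : ({p, q, x} : Finset GolayPt) ⊆ FX E := by
      intro z hz
      rw [Finset.mem_insert, Finset.mem_insert, Finset.mem_singleton] at hz
      rw [mem_FX]
      rcases hz with rfl | rfl | rfl
      · exact fun g hg => hp g (hEL hg).1
      · exact fun g hg => hq g (hEL hg).1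
      · exact fun g hg => (hEL hg).2
    have h1 : (FX E \ {p, q, x}).card = 1 := by rw [Finset.card_sdiff_of_subset hsub, hF, h3]
    obtain ⟨y0, hy0⟩ := Finset.card_eq_one.1 h1
    have hy0' : y0 ∈ FX E \ {p, q, x} := by rw [hy0]; exact Finset.mem_singleton_self _
    rw [Finset.mem_sdiff, Finset.mem_insert, Finset.mem_insert, Finset.mem_singleton, not_or, not_or] at hy0'
    refine ⟨E, y0, hEL, hE, (mΩ y0).2 ⟨hy0'.2.1, hy0'.2.2.1⟩, hy0'.2.2.2, ?_⟩
    symm
    apply Finset.eq_of_subset_of_card_le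
    · intro z hz
      rw [Finset.mem_insert, Finset.mem_insert, Finset.mem_insert, Finset.mem_singleton] at hz
      rcases hz with rfl | rfl | rfl | rfl
      · exact hsub (by simp)
      · exact hsub (by simp)
      · exact hsub (by simp)
      · exact hy0'.1
    · rw [hF]
      have : ({p, q, x, y0} : Finset GolayPt) = insert y0 {p, q, x} := by ext z; simp; tauto
      rw [this, Finset.card_insert_of_notMem (by
        rw [Finset.mem_insert, Finset.mem_insert, Finset.mem_singleton, not_or, not_or]; exact hy0'.2), h3]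
  have hdeg : ∀ x ∈ Ω, ∀ (E : Subgroup PG) (y0 : GolayPt), E ≤ L ⊓ MulAction.stabilizer PG x → Nat.card E = 5 ^ 1 → y0 ∈ Ω → y0 ≠ x →
      FX E = {p, q, x, y0} → rs L x y0 = 6 ∧ ∀ y ∈ Ω, y ≠ x → y ∉ orbit ↥(L ⊓ MulAction.stabilizer PG x) y0 → rs L x y = 15 := by
    intro x hx E y0 hEL hE hy0 hy0x hFX
    have hxfix := St_fix L x
    obtain ⟨P, hPL, hP⟩ := exists_pgroup (p := 3) (n := 2) (L ⊓ MulAction.stabilizer PG x) (by rw [hSt x hx]; norm_num)
    have hPx : ∀ g ∈ P, g x = x := fun g hg => (hPL hg).2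
    have a1 := nine_mod P (hPL.trans inf_le_left) hP (Ω : Set GolayPt) (le_refl _) (fun g hg z hz => invΩ g (hPL hg).1 z hz)
    rw [Set.ncard_coe_finset, cΩ] at a1
    obtain ⟨w, hw⟩ := Set.ncard_eq_one.1 a1.symm
    have hwx : ∀ z ∈ Ω, (∀ g ∈ P, g z = z) → z = x := by
      have h1 : ∀ z ∈ Ω, (∀ g ∈ P, g z = z) → z = w := by
        intro z hz h2
        have : z ∈ {y | y ∈ (Ω : Set GolayPt) ∧ ∀ g ∈ P, g y = y} := ⟨hz, h2⟩
        rw [hw, Set.mem_singleton_iff] at this
        exact this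
      intro z hz h2
      rw [h1 z hz h2, h1 x hx hPx]
    have h3 : ∀ y ∈ Ω, y ≠ x → rs L x y % 3 = 0 := by
      intro y hy hyx
      have b1 := nine_mod P (hPL.trans inf_le_left) hP (orbit ↥(L ⊓ MulAction.stabilizer PG x) y)
        (orbΩ _ inf_le_left y hy) (fun g hg z hz => orb_inv _ y (hPL hg) hz)
      show (orbit ↥(L ⊓ MulAction.stabilizer PG x) y).ncard % 3 = 0
      rw [b1, Set.ncard_eq_zero (Set.toFinite _)]
      ext z
      constructor
      · rintro ⟨hz, hz2⟩
        have hzx := hwx z (orbΩ _ inf_le_left y hy hz) hz2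
        rw [hzx] at hz
        exact not_mem_orb hxfix hyx hz
      · exact fun h => h.elim
    have h5 : ∀ y ∈ Ω, y ≠ x → rs L x y % 5 = if y0 ∈ orbit ↥(L ⊓ MulAction.stabilizer PG x) y then 1 else 0 := by
      intro y hy hyx
      have h1 := fix_mod E hE (orbit ↥(L ⊓ MulAction.stabilizer PG x) y) (fun g hg z hz => orb_inv _ y (hEL hg) hz)
      have h2 : {z | z ∈ orbit ↥(L ⊓ MulAction.stabilizer PG x) y ∧ ∀ g ∈ E, g • z = z} =
          if y0 ∈ orbit ↥(L ⊓ MulAction.stabilizer PG x) y then {y0} else ∅ := by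
        ext z
        have key : (∀ g ∈ E, g • z = z) → z ∈ orbit ↥(L ⊓ MulAction.stabilizer PG x) y → z = y0 := by
          intro h3 h4
          have h5 : z ∈ FX E := mem_FX.2 h3
          have h6 := orbΩ _ inf_le_left y hy h4
          rw [Finset.mem_coe, mΩ] at h6
          rw [hFX, Finset.mem_insert, Finset.mem_insert, Finset.mem_insert, Finset.mem_singleton] at h5
          rcases h5 with h5 | h5 | h5 | h5
          · exact absurd h5 h6.1
          · exact absurd h5 h6.2
          · exact absurd (h5 ▸ h4) (not_mem_orb hxfix hyx)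
          · exact h5
        split_ifs with h7
        · rw [Set.mem_singleton_iff]
          constructor
          · rintro ⟨h3, h4⟩; exact key h4 h3
          · rintro rfl
            have hyf : z ∈ FX E := by rw [hFX]; simp
            exact ⟨h7, mem_FX.1 hyf⟩
        · constructor
          · rintro ⟨h3, h4⟩
            have := key h4 h3
            rw [this] at h3
            exact absurd h3 h7
          · exact fun h => h.elim
      rw [h2, Nat.ModEq] at h1
      show (orbit ↥(L ⊓ MulAction.stabilizer PG x) y).ncard % 5 = _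
      rw [h1]
      split_ifs with h7
      · rw [Set.ncard_singleton]
      · rw [Set.ncard_empty]
    have hval : ∀ y ∈ Ω, y ≠ x → rs L x y = 6 ∨ rs L x y = 15 := by
      intro y hy hyx
      have b3 := h3 y hy hyx
      have b5 := h5 y hy hyx
      have b1 := orb_dvd (L ⊓ MulAction.stabilizer PG x) y
      rw [hSt x hx] at b1
      have b2 := Set.ncard_le_ncard (show insert x (orbit ↥(L ⊓ MulAction.stabilizer PG x) y) ⊆ (Ω : Set GolayPt) from by
        intro z hz
        rcases hz with rfl | hz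
        · exact hx
        · exact orbΩ _ inf_le_left y hy hz) (Set.toFinite _)
      rw [Set.ncard_insert_of_notMem (not_mem_orb hxfix hyx) (Set.toFinite _), Set.ncard_coe_finset, cΩ] at b2
      have b4 := orb_pos (L ⊓ MulAction.stabilizer PG x) y
      change rs L x y ∣ 360 at b1
      change rs L x y + 1 ≤ 22 at b2
      change 0 < rs L x y at b4
      have b6 : rs L x y % 5 ≤ 1 := by rw [b5]; split_ifs <;> norm_num
      have b7 : rs L x y ≤ 21 := by omega
      generalize rs L x y = n at b1 b3 b4 b6 b7 ⊢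
      interval_cases n <;> revert b1 b3 b6 <;> decide
    refine ⟨?_, ?_⟩
    · have h7 := h5 y0 hy0 hy0x
      rw [if_pos (MulAction.mem_orbit_self _)] at h7
      rcases hval y0 hy0 hy0x with h | h
      · exact h
      · rw [h] at h7; norm_num at h7
    · intro y hy hyx hyo
      have h7 := h5 y hy hyx
      rw [if_neg (fun h => hyo (orb_symm _ h))] at h7
      rcases hval y hy hyx with h | h
      · rw [h] at h7; norm_num at h7
      · exact h
  have hpΩ : p ∉ Ω := fun h => ((mΩ p).1 h).1 rfl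
  have hqΩ : q ∉ Ω := fun h => ((mΩ q).1 h).2 rfl
  have rs_off : ∀ x y, y ∉ Ω → rs L x y = 1 := by
    intro x y hy
    have : y = p ∨ y = q := by
      by_contra hcon
      rw [not_or] at hcon
      exact hy ((mΩ y).2 hcon)
    rcases this with rfl | rfl
    · rw [rs, orb_of_fixed (L ⊓ MulAction.stabilizer PG x) y (fun g hg => hp g hg.1), Set.ncard_singleton]
    · rw [rs, orb_of_fixed (L ⊓ MulAction.stabilizer PG x) y (fun g hg => hq g hg.1), Set.ncard_singleton]
  have hR : ∀ x ∈ Ω, ∀ (E : Subgroup PG) (y0 : GolayPt), E ≤ L ⊓ MulAction.stabilizer PG x → Nat.card E = 5 ^ 1 → y0 ∈ Ω → y0 ≠ x →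
      FX E = {p, q, x, y0} → ∀ y, y ∈ Rs L 6 x ↔ y ∈ orbit ↥(L ⊓ MulAction.stabilizer PG x) y0 := by
    intro x hx E y0 hEL hE hy0 hy0x hFX y
    obtain ⟨h6, h15⟩ := hdeg x hx E y0 hEL hE hy0 hy0x hFX
    rw [mem_Rs]
    constructor
    · intro hy
      by_contra hcon
      by_cases hyx : y = x
      · rw [hyx, rs_self] at hy; norm_num at hy
      by_cases hyΩ : y ∈ Ω
      · rw [h15 y hyΩ hyx hcon] at hy; norm_num at hy
      · rw [rs_off x y hyΩ] at hy; norm_num at hy
    · intro hy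
      rw [rs, orb_eq _ hy]
      exact h6
  have hR6 : ∀ x ∈ Ω, (Rs L 6 x).card = 6 := by
    intro x hx
    obtain ⟨E, y0, h1, h2, h3, h4, h5⟩ := five x hx
    have e : Rs L 6 x = (orbit ↥(L ⊓ MulAction.stabilizer PG x) y0).toFinset := by
      ext y
      rw [Set.mem_toFinset]
      exact hR x hx E y0 h1 h2 h3 h4 h5 y
    rw [e, ← Set.ncard_eq_toFinset_card']
    exact (hdeg x hx E y0 h1 h2 h3 h4 h5).1
  have hRΩ : ∀ x y, y ∈ Rs L 6 x → y ∈ Ω := by
    intro x y hy
    by_contra hcon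
    rw [mem_Rs, rs_off x y hcon] at hy
    norm_num at hy
  have hRself : ∀ x, x ∉ Rs L 6 x := fun x h => by rw [mem_Rs, rs_self] at h; norm_num at h
  have hRsymm : ∀ x ∈ Ω, ∀ y ∈ Ω, y ∈ Rs L 6 x → x ∈ Rs L 6 y := by
    intro x hx y hy h
    rw [mem_Rs] at h ⊢
    rw [rs_symm' (by rw [hSt y hy, hSt x hx]), h]
  -- transitivity on ordered adjacent pairs etc.
  have htrx : ∀ x ∈ Ω, ∀ y ∈ Ω, ∃ g ∈ L, g x = y := by
    intro x hx y hy
    have : y ∈ orbit L x := by rw [htrΩ x hx]; exact hy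
    obtain ⟨g, hg⟩ := this
    exact ⟨g.1, g.2, hg⟩
  obtain ⟨x, hx⟩ : ∃ x, x ∈ Ω := by
    have : Ω.Nonempty := by rw [← Finset.card_pos, cΩ]; norm_num
    exact this
  obtain ⟨E, y0, hEL, hE, hy0, hy0x, hFX⟩ := five x hx
  obtain ⟨hd6, hd15⟩ := hdeg x hx E y0 hEL hE hy0 hy0x hFX
  have hRx := hR x hx E y0 hEL hE hy0 hy0x hFX
  have hy0R : y0 ∈ Rs L 6 x := (hRx y0).2 (MulAction.mem_orbit_self _)
  have hEy0 : ∀ g ∈ E, g y0 = y0 := mem_FX.1 (by rw [hFX]; simp)
  have hEx : ∀ g ∈ E, g x = x := mem_FX.1 (by rw [hFX]; simp)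
  have adjtr : ∀ y ∈ Rs L 6 x, ∃ g ∈ L ⊓ MulAction.stabilizer PG x, g y0 = y := by
    intro y hy
    obtain ⟨g, hg⟩ := (hRx y).1 hy
    exact ⟨g.1, g.2, hg⟩
  by_cases htri : ∃ w, w ∈ Rs L 6 x ∧ w ∈ Rs L 6 y0
  · -- complete components
    obtain ⟨w, hw1, hw2⟩ := htri
    have hwy : w ≠ y0 := fun h => hRself y0 (h ▸ hw2)
    have hsub : (Rs L 6 x).erase y0 ⊆ Rs L 6 y0 := by
      have horb : orbit E w ⊆ (((Rs L 6 x).erase y0 ∩ Rs L 6 y0 : Finset GolayPt) : Set GolayPt) := by
        apply orb_sub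
        · intro g hg z hz
          rw [Finset.mem_coe, Finset.mem_inter, Finset.mem_erase] at hz ⊢
          refine ⟨⟨fun h => hz.1.1 (g.injective (show g z = g y0 from (show g z = y0 from h).trans (hEy0 g hg).symm)), ?_⟩, ?_⟩
          · have := Finset.smul_mem_smul_finset (a := g) hz.1.2
            rw [← Rs_smul (hEL hg).1, hEx g hg] at this
            exact this
          · have := Finset.smul_mem_smul_finset (a := g) hz.2
            rw [← Rs_smul (hEL hg).1, hEy0 g hg] at this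
            exact this
        · rw [Finset.mem_coe, Finset.mem_inter, Finset.mem_erase]
          exact ⟨⟨hwy, hw1⟩, hw2⟩
      have h1 : (orbit E w).ncard = 5 := by
        have h2 := orb_dvd E w
        rw [hE] at h2
        rcases (Nat.dvd_prime (by norm_num : Nat.Prime (5 ^ 1))).1 h2 with h3 | h3
        · exfalso
          have h4 : w ∈ FX E := mem_FX.2 (fixed_of_orb_one E w h3)
          rw [hFX, Finset.mem_insert, Finset.mem_insert, Finset.mem_insert, Finset.mem_singleton] at h4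
          rcases h4 with h4 | h4 | h4 | h4
          · exact hpΩ (h4 ▸ hRΩ x w hw1)
          · exact hqΩ (h4 ▸ hRΩ x w hw1)
          · exact hRself x (h4 ▸ hw1)
          · exact hwy h4
        · rw [h3]; norm_num
      have h2 := Set.ncard_le_ncard horb (Set.toFinite _)
      rw [h1, Set.ncard_coe_finset] at h2
      have h3 : ((Rs L 6 x).erase y0).card = 5 := by rw [Finset.card_erase_of_mem hy0R, hR6 x hx]
      have h4 : (Rs L 6 x).erase y0 ∩ Rs L 6 y0 = (Rs L 6 x).erase y0 :=
        Finset.eq_of_subset_of_card_le Finset.inter_subset_left (by rw [h3]; exact h2)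
      exact Finset.inter_eq_left.1 h4
    have hC0 : insert y0 (Rs L 6 y0) = insert x (Rs L 6 x) := by
      symm
      apply Finset.eq_of_subset_of_card_le
      · intro z hz
        rw [Finset.mem_insert] at hz ⊢
        rcases hz with rfl | hz
        · right; exact hRsymm _ hx _ hy0 hy0R
        · by_cases hzy : z = y0
          · exact Or.inl hzy
          · right; exact hsub (Finset.mem_erase.2 ⟨hzy, hz⟩)
      · rw [Finset.card_insert_of_notMem (hRself _), Finset.card_insert_of_notMem (hRself _), hR6 x hx, hR6 y0 hy0]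
    have hCsm : ∀ g ∈ L, ∀ z, insert (g z) (Rs L 6 (g z)) = g • insert z (Rs L 6 z) := by
      intro g hg z
      rw [Finset.smul_finset_insert, Rs_smul hg]
      rfl
    have hCx : ∀ y ∈ insert x (Rs L 6 x), insert y (Rs L 6 y) = insert x (Rs L 6 x) := by
      intro y hy
      rcases Finset.mem_insert.1 hy with rfl | hy
      · rfl
      · obtain ⟨g, hg, rfl⟩ := adjtr y hy
        rw [hCsm g hg.1, hC0, ← hCsm g hg.1, show g x = x from hg.2]
    have hCall : ∀ z ∈ Ω, ∀ y ∈ insert z (Rs L 6 z), insert y (Rs L 6 y) = insert z (Rs L 6 z) := by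
      intro z hz y hy
      obtain ⟨g, hg, rfl⟩ := htrx x hx z hz
      rw [hCsm g hg] at hy ⊢
      obtain ⟨u, hu, rfl⟩ := Finset.mem_smul_finset.1 hy
      show insert (g u) (Rs L 6 (g u)) = _
      rw [hCsm g hg, hCx u hu]
    have := block_dvd (fun z => insert z (Rs L 6 z)) Ω 7 (fun z _ => Finset.mem_insert_self _ _) hCall
      (fun z hz => by rw [Finset.card_insert_of_notMem (hRself _), hR6 z hz])
      (fun z hz y hy => by
        rcases Finset.mem_insert.1 hy with rfl | hy
        · exact hz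
        · exact hRΩ z y hy)
    rw [cΩ] at this
    exact absurd this (by decide)
  · -- triangle free
    push Not at htri
    have notri : ∀ u ∈ Ω, ∀ v ∈ Rs L 6 u, ∀ w ∈ Rs L 6 u, w ∉ Rs L 6 v := by
      intro u hu v hv w hw hwv
      obtain ⟨g, hg, rfl⟩ := htrx x hx u hu
      rw [Rs_smul hg] at hv hw
      obtain ⟨v', hv', rfl⟩ := Finset.mem_smul_finset.1 hv
      obtain ⟨w', hw', rfl⟩ := Finset.mem_smul_finset.1 hw
      have h1 : g • w' ∈ g • Rs L 6 v' := by rw [← Rs_smul hg]; exact hwv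
      rw [Finset.smul_mem_smul_finset_iff] at h1
      obtain ⟨k, hk, rfl⟩ := adjtr v' hv'
      rw [Rs_smul hk.1] at h1
      obtain ⟨w'', hw'', rfl⟩ := Finset.mem_smul_finset.1 h1
      have h2 : k • w'' ∈ k • Rs L 6 x := by rw [← Rs_smul hk.1, show k x = x from hk.2]; exact hw'
      rw [Finset.smul_mem_smul_finset_iff] at h2
      exact htri w'' h2 hw''
    -- common neighbours
    have hΔ : ∀ z ∈ Ω, z ≠ x → z ∉ Rs L 6 x → (Rs L 6 x ∩ Rs L 6 z).card = 2 := by
      set Δ : Finset GolayPt := Ω.filter fun z => z ≠ x ∧ z ∉ Rs L 6 x with hΔdef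
      have mΔ : ∀ z, z ∈ Δ ↔ z ∈ Ω ∧ z ≠ x ∧ z ∉ Rs L 6 x := fun z => by rw [hΔdef, Finset.mem_filter]
      have cΔ : Δ.card = 15 := by
        have e : Δ = Ω \ insert x (Rs L 6 x) := by
          ext z
          rw [mΔ, Finset.mem_sdiff, Finset.mem_insert, not_or]
        rw [e, Finset.card_sdiff_of_subset, cΩ, Finset.card_insert_of_notMem (hRself _), hR6 x hx]
        intro z hz
        rcases Finset.mem_insert.1 hz with rfl | hz
        · exact hx
        · exact hRΩ x z hz
      have trΔ : ∀ z ∈ Δ, ∀ z' ∈ Δ, ∃ g ∈ L ⊓ MulAction.stabilizer PG x, g z = z' := by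
        intro z hz z' hz'
        rw [mΔ] at hz hz'
        have h15 : (orbit ↥(L ⊓ MulAction.stabilizer PG x) z).ncard = 15 := hd15 z hz.1 hz.2.1 (fun h => hz.2.2 ((hRx z).2 h))
        have hsub : orbit ↥(L ⊓ MulAction.stabilizer PG x) z ⊆ (Δ : Set GolayPt) := by
          intro w hw
          rw [Finset.mem_coe, mΔ]
          refine ⟨orbΩ _ inf_le_left z hz.1 hw, fun h => not_mem_orb (St_fix L x) hz.2.1 (h ▸ hw), fun h => hz.2.2 ?_⟩
          rw [hRx] at h ⊢
          rw [← orb_eq _ h, orb_eq _ hw]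
          exact MulAction.mem_orbit_self z
        have he : orbit ↥(L ⊓ MulAction.stabilizer PG x) z = (Δ : Set GolayPt) :=
          Set.eq_of_subset_of_ncard_le hsub (by rw [Set.ncard_coe_finset, cΔ, h15]) (Set.toFinite _)
        have : z' ∈ orbit ↥(L ⊓ MulAction.stabilizer PG x) z := by rw [he, Finset.mem_coe, mΔ]; exact hz'
        obtain ⟨g, hg⟩ := this
        exact ⟨g.1, g.2, hg⟩
      intro z hz hzx hzR
      have hzΔ : z ∈ Δ := (mΔ z).2 ⟨hz, hzx, hzR⟩
      have hdc := Finset.sum_card_bipartiteAbove_eq_sum_card_bipartiteBelow (s := Rs L 6 x) (t := Δ) (fun y z => z ∈ Rs L 6 y)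
      have l1 : ∑ y ∈ Rs L 6 x, (Finset.bipartiteAbove (fun y z => z ∈ Rs L 6 y) Δ y).card = 30 := by
        rw [Finset.sum_congr rfl (g := fun _ => 5), Finset.sum_const, hR6 x hx]
        · rfl
        · intro y hy
          have hyΩ := hRΩ x y hy
          have e : Finset.bipartiteAbove (fun y z => z ∈ Rs L 6 y) Δ y = (Rs L 6 y).erase x := by
            ext w
            simp only [Finset.bipartiteAbove, Finset.mem_filter, mΔ, Finset.mem_erase]
            constructor
            · rintro ⟨⟨h1, h2, h3⟩, h4⟩; exact ⟨h2, h4⟩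
            · rintro ⟨h1, h2⟩
              exact ⟨⟨hRΩ y w h2, h1, fun h3 => notri x hx y hy w h3 h2⟩, h2⟩
          rw [e, Finset.card_erase_of_mem (hRsymm x hx y hyΩ hy), hR6 y hyΩ]
      have l2 : ∑ w ∈ Δ, (Finset.bipartiteBelow (fun y z => z ∈ Rs L 6 y) (Rs L 6 x) w).card = 15 * (Rs L 6 x ∩ Rs L 6 z).card := by
        rw [Finset.sum_congr rfl (g := fun _ => (Rs L 6 x ∩ Rs L 6 z).card), Finset.sum_const, cΔ, smul_eq_mul]
        intro w hw
        have e : Finset.bipartiteBelow (fun y z => z ∈ Rs L 6 y) (Rs L 6 x) w = Rs L 6 x ∩ Rs L 6 w := by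
          ext y
          simp only [Finset.bipartiteBelow, Finset.mem_filter, Finset.mem_inter]
          have hwΩ := ((mΔ w).1 hw).1
          constructor
          · rintro ⟨h1, h2⟩; exact ⟨h1, hRsymm y (hRΩ x y h1) w hwΩ h2⟩
          · rintro ⟨h1, h2⟩; exact ⟨h1, hRsymm w hwΩ y (hRΩ x y h1) h2⟩
        rw [e]
        obtain ⟨g, hg, rfl⟩ := trΔ z hzΔ w hw
        have e2 : Rs L 6 x ∩ Rs L 6 (g z) = g • (Rs L 6 x ∩ Rs L 6 z) := by
          rw [Finset.smul_finset_inter, ← Rs_smul hg.1, ← Rs_smul hg.1, show g x = x from hg.2]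
        rw [e2, Finset.card_smul_finset]
      rw [l1, l2] at hdc
      omega
    have hμ : ∀ u ∈ Ω, ∀ z ∈ Ω, z ≠ u → z ∉ Rs L 6 u → (Rs L 6 u ∩ Rs L 6 z).card = 2 := by
      intro u hu z hz hzu hzR
      obtain ⟨g, hg, rfl⟩ := htrx x hx u hu
      have hz' : g (g⁻¹ z) = z := g.apply_symm_apply z
      have h1 := hΔ (g⁻¹ z) (invΩ g⁻¹ (inv_mem hg) z hz) (fun h => hzu (by rw [← hz', h])) (fun h => hzR (by
        rw [Rs_smul hg, ← hz']
        exact Finset.smul_mem_smul_finset h))
      have e : Rs L 6 (g x) ∩ Rs L 6 z = g • (Rs L 6 x ∩ Rs L 6 (g⁻¹ z)) := by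
        rw [Finset.smul_finset_inter, ← Rs_smul hg, ← Rs_smul hg, hz']
      show (Rs L 6 (g x) ∩ Rs L 6 z).card = 2
      rw [e, Finset.card_smul_finset, h1]
    haveI : Nonempty ↥Ω := ⟨⟨x, hx⟩⟩
    obtain ⟨s, hs⟩ := Cfsg.Agent.H7.Srg.srg_square (V := ↥Ω) (fun u v => v.1 ∈ Rs L 6 u.1) 6 2
      (fun u v h => hRsymm u.1 u.2 v.1 v.2 h) (fun u => hRself u.1) (fun u => by
        refine (Finset.card_bij (t := Rs L 6 u.1) (fun w _ => w.1) (fun w hw => (Finset.mem_filter.1 hw).2) (fun w _ w' _ h => Subtype.ext h) ?_).trans (hR6 u.1 u.2)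
        intro w hw
        exact ⟨⟨w, hRΩ _ _ hw⟩, Finset.mem_filter.2 ⟨Finset.mem_univ _, hw⟩, rfl⟩)
      (fun u v huv w huw hwv => notri u.1 u.2 v.1 huv w.1 huw (hRsymm w.1 w.2 v.1 v.2 hwv))
      (fun u v huv hnadj => by
        refine (Finset.card_bij (t := Rs L 6 u.1 ∩ Rs L 6 v.1) (fun w _ => w.1) (fun w hw => ?_) (fun w _ w' _ h => Subtype.ext h) ?_).trans
          (hμ u.1 u.2 v.1 v.2 (fun h => huv (Subtype.ext h.symm)) hnadj)
        · have := (Finset.mem_filter.1 hw).2
          exact Finset.mem_inter.2 ⟨this.1, hRsymm w.1 w.2 v.1 v.2 this.2⟩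
        · intro w hw
          rw [Finset.mem_inter] at hw
          exact ⟨⟨w, hRΩ _ _ hw.1⟩, Finset.mem_filter.2 ⟨Finset.mem_univ _, hw.1, hRsymm v.1 v.2 w (hRΩ _ _ hw.1) hw.2⟩, rfl⟩)
      (by norm_num) (by norm_num) (by norm_num)
    have h20 : s ^ 2 = 20 := by rw [hs]; norm_num
    have h1 : s ≤ 4 := by nlinarith
    interval_cases s <;> omega

theorem card_two {p q : GolayPt} (hpq : p ≠ q) : Nat.card ↥(MulAction.stabilizer M24 p ⊓ MulAction.stabilizer M24 q) = 443520 := by
  have h1 := card_eq_orbit_mul (MulAction.stabilizer M24 p) q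
  have h2 : orbit ↥(MulAction.stabilizer M24 p) q = ((({p} : Finset GolayPt)ᶜ : Finset GolayPt) : Set GolayPt) := by
    ext y
    rw [Finset.mem_coe, Finset.mem_compl, Finset.mem_singleton]
    constructor
    · rintro ⟨k, rfl⟩ h
      have h3 : k.1.1 p = p := k.2
      have h4 : k.1.1 q = p := h
      exact hpq (k.1.1.injective (h3.trans h4.symm))
    · intro hy
      obtain ⟨g, hg, h⟩ := ktrans 2 (by norm_num) ![p, q] ![p, y] (by
        intro i j hij
        fin_cases i <;> fin_cases j <;> simp_all) (by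
        have := Ne.symm hy
        intro i j hij
        fin_cases i <;> fin_cases j <;> simp_all)
      exact ⟨⟨⟨g, hg⟩, h 0⟩, h 1⟩
  have h3 : Nat.card (MulAction.stabilizer M24 p) = 10200960 := card_stab_pt p
  rw [h3, h2, Set.ncard_coe_finset, Finset.card_compl, Finset.card_singleton] at h1
  have h24 : Fintype.card GolayPt = 24 := rfl
  rw [h24] at h1
  omega

theorem s1606 (p q : GolayPt) (hpq : p ≠ q) (H : Subgroup ↥(MulAction.stabilizer M24 p ⊓ MulAction.stabilizer M24 q)) :
    H.index ≠ 56 ∧ H.index ≠ 210 := by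
  set φ : ↥(MulAction.stabilizer M24 p ⊓ MulAction.stabilizer M24 q) →* PG :=
    M24.subtype.comp (MulAction.stabilizer M24 p ⊓ MulAction.stabilizer M24 q).subtype with hφ
  have hinj : Function.Injective φ := M24.subtype_injective.comp (Subgroup.subtype_injective _)
  have hcard : Nat.card (H.map φ) = Nat.card H := (Nat.card_congr (Subgroup.equivMapOfInjective H φ hinj).toEquiv).symm
  have hL : H.map φ ≤ M24 := by
    rintro _ ⟨h, hh, rfl⟩
    exact h.1.2
  have hp : ∀ g ∈ H.map φ, g p = p := by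
    rintro _ ⟨h, hh, rfl⟩
    exact h.2.1
  have hq : ∀ g ∈ H.map φ, g q = q := by
    rintro _ ⟨h, hh, rfl⟩
    exact h.2.2
  have hidx := H.card_mul_index
  rw [card_two hpq] at hidx
  constructor
  · intro h
    rw [h] at hidx
    exact no7920 (H.map φ) hL hpq hp hq (by rw [hcard]; omega)
  · intro h
    rw [h] at hidx
    have hc : Nat.card (H.map φ) = 2112 := by rw [hcard]; omega
    obtain ⟨n, m, h1, h2, h3, h4⟩ := syl11 (H.map φ) hL hpq hp hq (by rw [hc]; norm_num)
    rw [hc] at h1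
    have hn : n ∣ 2112 := ⟨m, h1.symm⟩
    obtain ⟨k, rfl⟩ := h4
    have h5 : n * k = 192 := by
      have : 11 * (n * k) = 11 * 192 := by rw [← mul_assoc, mul_comm 11 n, mul_assoc, h1]
      exact Nat.eq_of_mul_eq_mul_left (by norm_num) this
    have hk : k ∣ 192 := ⟨n, by rw [mul_comm]; exact h5.symm⟩
    have hk1 : k % 2 = 1 := by omega
    have hk2 : k ≤ 192 := Nat.le_of_dvd (by norm_num) hk
    have hk3 : k = 1 ∨ k = 3 := by
      have key : ∀ j ≤ 192, j ∣ 192 → j % 2 = 1 → j = 1 ∨ j = 3 := by decide +kernel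
      exact key k hk2 hk hk1
    rcases hk3 with rfl | rfl <;> omega

end Cfsg.Agent.H7.Ix
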