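import Mathlib
import Cfsg.Agent.H7_Iy2

set_option autoImplicit false
set_option linter.all false

/-!
`PSL(2, 23)` in `M24` and `23 : 11` in `M23`.
-/

namespace Cfsg.Agent.H7.Ix

open Cfsg Cfsg.Agent.H7.Golay Cfsg.Agent.H7.Oct Cfsg.Agent.H7.M24 Cfsg.Agent.H7.M24b Cfsg.Agent.H7.M24c Cfsg.Agent.H7.M24d
open scoped Pointwise
open MulAction (orbit)

local notation "PG" => Equiv.Perm GolayPt

/-- no involution fixing the fixed points normalises a subgroup of large prime order -/
theorem noinvP {p : ℕ} [hpp : Fact p.Prime] (h5 : 5 ≤ p) (h24 : 24 % p ≠ 0) (h24' : 24 % p ≤ 7) (hbig : 24 < (8 - 24 % p) * p) (h9 : 8 < p) (E : Subgroup PG) (hE : E ≤ M24) (hc : Nat.card E = p) {t : PG} (ht : t ∈ M24) (h2 : t * t = 1) (h1 : t ≠ 1)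
    (hn : ∀ e ∈ E, t * e * t⁻¹ ∈ E) (hf : ∀ x ∈ FX E, t x = x) : False := by
  classical
  have hFX := card_FX (p := p) h5 E hE (by rw [hc, pow_one])
  have hne : (FX E).Nonempty := by rw [← Finset.card_pos, hFX]; omega
  obtain ⟨w, hw⟩ := hne
  have h8 := inv_eight ht h2 h1 (hf w hw)
  set Ft := Finset.univ.filter fun x => t x = x with hFt
  have hsub : FX E ⊆ Ft := fun x hx => by rw [hFt, Finset.mem_filter]; exact ⟨Finset.mem_univ _, hf x hx⟩
  have h6 : (Ft \ FX E).card = 8 - 24 % p := by rw [Finset.card_sdiff_of_subset hsub, h8, hFX]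
  have hstab : ∀ y, y ∉ FX E → ∀ e ∈ E, e y = y → e = 1 := by
    intro y hy e he hey
    rcases prime_sub hpp.out hc (inf_le_left : E ⊓ MulAction.stabilizer PG y ≤ E) with h | h
    · have : e ∈ E ⊓ MulAction.stabilizer PG y := ⟨he, hey⟩
      rw [h, Subgroup.mem_bot] at this
      exact this
    · exfalso
      apply hy
      rw [mem_FX]
      intro g hg
      rw [← h] at hg
      exact hg.2
  rcases prime_sub hpp.out hc (inf_le_left : E ⊓ Subgroup.centralizer {t} ≤ E) with h | h
  · -- trivial centraliser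
    have hinj : Function.Injective (fun z : ↥(Ft \ FX E) × ↥E => z.2.1 z.1.1) := by
      rintro ⟨⟨y, hy⟩, ⟨e, he⟩⟩ ⟨⟨y', hy'⟩, ⟨e', he'⟩⟩ heq
      have heq : e y = e' y' := heq
      rw [Finset.mem_sdiff, hFt, Finset.mem_filter] at hy hy'
      have hu : (e'⁻¹ * e) y = y' := by
        rw [Equiv.Perm.mul_apply, heq]; exact e'.symm_apply_apply y'
      set u := e'⁻¹ * e with hudef
      have huE : u ∈ E := mul_mem (inv_mem he') he
      have h3 : (u⁻¹ * (t * u * t⁻¹)) y = y := by
        have h4 : t⁻¹ y = y := by rw [Equiv.Perm.inv_eq_iff_eq]; exact hy.1.2.symm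
        rw [Equiv.Perm.mul_apply, Equiv.Perm.mul_apply, Equiv.Perm.mul_apply, h4, hu, hy'.1.2, ← hu]
        exact u.symm_apply_apply y
      have h5 := hstab y hy.2 _ (mul_mem (inv_mem huE) (hn u huE)) h3
      have h6 : t * u = u * t := by
        have : t * u * t⁻¹ = u := by
          calc t * u * t⁻¹ = u * (u⁻¹ * (t * u * t⁻¹)) := by group
            _ = u := by rw [h5, mul_one]
        calc t * u = (t * u * t⁻¹) * t := by group
          _ = u * t := by rw [this]
      have h7 : u ∈ E ⊓ Subgroup.centralizer {t} := Subgroup.mem_inf.2 ⟨huE, Subgroup.mem_centralizer_singleton_iff.2 h6.symm⟩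
      rw [h, Subgroup.mem_bot] at h7
      have he1 : e = e' := by
        have : e = e' * u := by rw [hudef]; group
        rw [this, h7, mul_one]
      have hy1 : y = y' := by rw [← hu, h7]; rfl
      subst he1
      subst hy1
      rfl
    have h9 := Nat.card_le_card_of_injective _ hinj
    rw [Nat.card_prod, hc, Nat.card_eq_fintype_card, Fintype.card_coe, h6, Nat.card_eq_fintype_card] at h9
    have : Fintype.card GolayPt = 24 := rfl
    rw [this] at h9
    omega
  · -- `t` centralises `E`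
    have hcom : ∀ e ∈ E, e * t = t * e := by
      intro e he
      rw [← h] at he
      exact (Subgroup.mem_centralizer_singleton_iff.1 he.2)
    have hne : (Ft \ FX E).Nonempty := by rw [← Finset.card_pos, h6]; omega
    obtain ⟨y, hy⟩ := hne
    rw [Finset.mem_sdiff, hFt, Finset.mem_filter] at hy
    have hle : orbit E y ⊆ ((Ft : Finset GolayPt) : Set GolayPt) := by
      rintro _ ⟨e, rfl⟩
      rw [Finset.mem_coe, hFt, Finset.mem_filter]
      refine ⟨Finset.mem_univ _, ?_⟩
      show t (e.1 y) = e.1 y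
      have h3 := congrArg (fun z : PG => z y) (hcom e.1 e.2)
      have h4 : e.1 (t y) = t (e.1 y) := h3
      rw [← h4, hy.1.2]
    have h10 := Set.ncard_le_ncard hle (Set.toFinite _)
    rw [Set.ncard_coe_finset, h8] at h10
    have h11 := card_eq_orbit_mul E y
    have h12 : Nat.card ↥(E ⊓ MulAction.stabilizer PG y) = 1 := by
      rw [Subgroup.card_eq_one, Subgroup.eq_bot_iff_forall]
      intro g hg
      exact hstab y hy.2 g hg.1 hg.2
    rw [h12, mul_one, hc] at h11
    omega


/-! ### affine maps -/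

def T1 : PG := Equiv.optionCongr (Equiv.addRight (1 : ZMod 23))
def ML (u : (ZMod 23)ˣ) : PG := Equiv.optionCongr (Units.mulLeft u)
def aff (u : (ZMod 23)ˣ) (b : ZMod 23) : PG := Equiv.optionCongr ((Units.mulLeft u).trans (Equiv.addRight b))

theorem aff_some (u : (ZMod 23)ˣ) (b x : ZMod 23) : aff u b (some x) = some ((u : ZMod 23) * x + b) := rfl
theorem aff_none (u : (ZMod 23)ˣ) (b : ZMod 23) : aff u b none = none := rfl
theorem T1_some (x : ZMod 23) : T1 (some x) = some (x + 1) := rfl
theorem T1_none : T1 none = none := rfl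
theorem ML_some (u : (ZMod 23)ˣ) (x : ZMod 23) : ML u (some x) = some ((u : ZMod 23) * x) := rfl
theorem ML_none (u : (ZMod 23)ˣ) : ML u none = none := rfl

theorem aff_mul (u u' : (ZMod 23)ˣ) (b b' : ZMod 23) : aff u b * aff u' b' = aff (u * u') ((u : ZMod 23) * b' + b) := by
  ext1 x
  cases x with
  | none => rfl
  | some x =>
    rw [Equiv.Perm.mul_apply, aff_some, aff_some, aff_some]
    congr 1
    rw [Units.val_mul]; ring

theorem aff_one : aff 1 0 = 1 := by
  ext1 x
  cases x with
  | none => rfl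
  | some x =>
    rw [aff_some, Units.val_one, one_mul, add_zero]; rfl

theorem T1_eq : T1 = aff 1 1 := by
  ext1 x
  cases x with
  | none => rfl
  | some x => rw [aff_some, Units.val_one, one_mul]; rfl

theorem ML_eq (u : (ZMod 23)ˣ) : ML u = aff u 0 := by
  ext1 x
  cases x with
  | none => rfl
  | some x => rw [aff_some, add_zero]; rfl

theorem aff_inv (u : (ZMod 23)ˣ) (b : ZMod 23) : (aff u b)⁻¹ = aff u⁻¹ (-((u⁻¹ : (ZMod 23)ˣ) : ZMod 23) * b) := by
  rw [inv_eq_iff_mul_eq_one, aff_mul, mul_inv_cancel, ← aff_one]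
  congr 1
  rw [neg_mul, mul_neg, ← mul_assoc, ← Units.val_mul, mul_inv_cancel, Units.val_one, one_mul, neg_add_cancel]

def affG : Subgroup PG where
  carrier := {g | ∃ (u : (ZMod 23)ˣ) (b : ZMod 23), IsSquare u ∧ g = aff u b}
  mul_mem' := by
    rintro _ _ ⟨u, b, hu, rfl⟩ ⟨u', b', hu', rfl⟩
    exact ⟨u * u', _, hu.mul hu', aff_mul _ _ _ _⟩
  one_mem' := ⟨1, 0, IsSquare.one, aff_one.symm⟩
  inv_mem' := by
    rintro _ ⟨u, b, hu, rfl⟩
    exact ⟨u⁻¹, _, hu.inv, aff_inv u b⟩

def Bs : Subgroup PG := Subgroup.closure ({Equiv.optionCongr (Equiv.addRight (1 : ZMod 23))} ∪ {g : Equiv.Perm GolayPt | ∃ u : (ZMod 23)ˣ, IsSquare u ∧ g = Equiv.optionCongr (Units.mulLeft u)})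

theorem T1_Bs : T1 ∈ Bs := Subgroup.subset_closure (Or.inl rfl)
theorem ML_Bs {u : (ZMod 23)ˣ} (hu : IsSquare u) : ML u ∈ Bs := Subgroup.subset_closure (Or.inr ⟨u, hu, rfl⟩)

theorem Bs_le : Bs ≤ affG := by
  rw [Bs, Subgroup.closure_le]
  rintro g (h | ⟨u, hu, h⟩)
  · rw [Set.mem_singleton_iff] at h
    exact ⟨1, 1, IsSquare.one, h.trans T1_eq⟩
  · exact ⟨u, 0, hu, h.trans (ML_eq u)⟩

theorem sq_count : (Finset.univ.filter fun u : (ZMod 23)ˣ => ∃ r : (ZMod 23)ˣ, u = r * r).card = 11 := by decide +kernel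

theorem card_affG : Nat.card affG ≤ 253 := by
  classical
  have h1 : Function.Surjective (fun z : ↥(Finset.univ.filter fun u : (ZMod 23)ˣ => ∃ r : (ZMod 23)ˣ, u = r * r) × ZMod 23 =>
      (⟨aff z.1.1 z.2, z.1.1, z.2, (Finset.mem_filter.1 z.1.2).2, rfl⟩ : affG)) := by
    rintro ⟨_, u, b, hu, rfl⟩
    exact ⟨⟨⟨u, Finset.mem_filter.2 ⟨Finset.mem_univ _, hu⟩⟩, b⟩, rfl⟩
  have h2 := Nat.card_le_card_of_surjective _ h1
  have e1 : Nat.card ↥(Finset.univ.filter fun u : (ZMod 23)ˣ => ∃ r : (ZMod 23)ˣ, u = r * r) = 11 := by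
    rw [Nat.card_eq_fintype_card, Fintype.card_coe, sq_count]
  rw [Nat.card_prod, e1, Nat.card_zmod] at h2
  exact h2

theorem T1_pow (n : ℕ) : T1 ^ n = aff 1 (n : ZMod 23) := by
  induction n with
  | zero => rw [pow_zero, Nat.cast_zero, aff_one]
  | succ n ih => rw [pow_succ, ih, T1_eq, aff_mul, mul_one, Units.val_one, mul_one, Nat.cast_succ, add_comm]

def two : (ZMod 23)ˣ := ⟨2, 12, by decide, by decide⟩

theorem two_sq : IsSquare two := ⟨⟨5, 14, by decide, by decide⟩, by decide⟩

theorem T1_ne : T1 ≠ 1 := by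
  intro h
  have := congrArg (fun g : PG => g (some 0)) h
  revert this; decide

theorem orderOf_T1 : orderOf T1 = 23 := by
  haveI : Fact (Nat.Prime 23) := ⟨by norm_num⟩
  apply orderOf_eq_prime
  · rw [T1_pow, ← aff_one]; congr 1
  · exact T1_ne

theorem ML_pow (u : (ZMod 23)ˣ) (n : ℕ) : ML u ^ n = ML (u ^ n) := by
  induction n with
  | zero => rw [pow_zero, pow_zero, ML_eq, aff_one]
  | succ n ih => rw [pow_succ, ih, ML_eq, ML_eq, aff_mul, mul_zero, add_zero, ML_eq, pow_succ]

theorem orderOf_ML : orderOf (ML two) = 11 := by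
  haveI : Fact (Nat.Prime 11) := ⟨by norm_num⟩
  apply orderOf_eq_prime
  · rw [ML_pow, show two ^ 11 = 1 by decide, ML_eq, aff_one]
  · intro h
    have := congrArg (fun g : PG => g (some 1)) h
    revert this; decide

theorem card_Bs : Nat.card Bs = 253 := by
  have h1 : 23 ∣ Nat.card Bs := by
    rw [← orderOf_T1]; exact Subgroup.orderOf_dvd_natCard Bs T1_Bs
  have h2 : 11 ∣ Nat.card Bs := by
    rw [← orderOf_ML]; exact Subgroup.orderOf_dvd_natCard Bs (ML_Bs two_sq)
  have h3 : 11 * 23 ∣ Nat.card Bs := Nat.Coprime.mul_dvd_of_dvd_of_dvd (by norm_num) h2 h1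
  have h4 : Nat.card Bs ≤ 253 := (Nat.le_of_dvd Nat.card_pos (Subgroup.card_dvd_of_le Bs_le)).trans card_affG
  have h5 : 0 < Nat.card Bs := Nat.card_pos
  have h6 := Nat.le_of_dvd h5 h3
  omega

theorem E_mem {g : PG} : g ∈ Subgroup.zpowers T1 ↔ ∃ c : ZMod 23, g = aff 1 c := by
  constructor
  · rintro ⟨n, rfl⟩
    have h : T1 ^ n = T1 ^ (n % 23).toNat := by
      rw [← zpow_natCast, Int.toNat_of_nonneg (Int.emod_nonneg _ (by norm_num))]
      conv_rhs => rw [show (23 : ℤ) = ((orderOf T1 : ℕ) : ℤ) by rw [orderOf_T1]; rfl]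
      rw [zpow_mod_orderOf]
    show ∃ c, T1 ^ n = _
    rw [h, T1_pow]
    exact ⟨_, rfl⟩
  · rintro ⟨c, rfl⟩
    have : aff 1 c = T1 ^ c.val := by rw [T1_pow, ZMod.natCast_zmod_val]
    rw [this]
    exact pow_mem (Subgroup.mem_zpowers T1) _

theorem E_conj {g e : PG} (hg : g ∈ affG) (he : e ∈ Subgroup.zpowers T1) : g * e * g⁻¹ ∈ Subgroup.zpowers T1 := by
  obtain ⟨u, b, hu, rfl⟩ := hg
  rw [E_mem] at he ⊢
  obtain ⟨c, rfl⟩ := he
  rw [aff_inv, aff_mul, aff_mul, mul_one, mul_inv_cancel]
  exact ⟨_, rfl⟩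

theorem orb_zero {L : Subgroup PG} (hfix : ∀ g ∈ L, g none = none) (hT : T1 ∈ L) : (orbit L (some 0 : GolayPt)).ncard = 23 := by
  have h1 : orbit L (some 0 : GolayPt) = (({none} : Finset GolayPt)ᶜ : Finset GolayPt) := by
    ext y
    rw [Finset.mem_coe, Finset.mem_compl, Finset.mem_singleton]
    constructor
    · rintro ⟨k, rfl⟩ h
      have h2 : k.1 (some 0) = none := h
      have h3 := hfix k.1 k.2
      have := k.1.injective (h2.trans h3.symm)
      exact absurd this (by simp)
    · intro hy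
      cases y with
      | none => exact absurd rfl hy
      | some y =>
        refine ⟨⟨T1 ^ y.val, pow_mem hT _⟩, ?_⟩
        show (T1 ^ y.val) (some 0) = some y
        rw [T1_pow, aff_some, mul_zero, zero_add, ZMod.natCast_zmod_val]
  rw [h1, Set.ncard_coe_finset]
  rfl

theorem num1 : ((List.range 40321).all fun n => !(Nat.beq (40320 % n) 0 && Nat.beq (n % 23) 1) || [1, 24, 70, 576, 1680, 40320].contains n) = true := by decide +kernel

theorem num2 : ∀ n ∈ [24, 70, 576, 1680], ((List.range (n + 1)).all fun k => !(Nat.beq (n % k) 0 && Nat.beq (k % 2) 1) || !(Nat.beq ((n / k) % 11) 1)) = true := by decide +kernel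

/-- overgroups of `23 : 11` in `M23` -/
theorem card_cases (L : Subgroup PG) (hL : L ≤ M24) (hfix : ∀ g ∈ L, g none = none) (hB : Bs ≤ L) : Nat.card L = 253 ∨ Nat.card L = 10200960 := by
  classical
  haveI : Fact (Nat.Prime 23) := ⟨by norm_num⟩
  haveI : Fact (Nat.Prime 2) := ⟨Nat.prime_two⟩
  have hLd : Nat.card L ∣ 10200960 := by
    rw [← card_pt none]; exact Subgroup.card_dvd_of_le fun g hg => ⟨hL hg, hfix g hg⟩
  set E : Subgroup PG := Subgroup.zpowers T1 with hEdef
  have hEc : Nat.card E = 23 := by rw [hEdef, Nat.card_zpowers, orderOf_T1]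
  have hEL : E ≤ L := by rw [hEdef, Subgroup.zpowers_le]; exact hB T1_Bs
  have hPc : Nat.card (E.subgroupOf L) = 23 := by
    rw [Nat.card_congr (Subgroup.subgroupOfEquivOfLe hEL).toEquiv, hEc]
  have hfac : (Nat.card L).factorization 23 = 1 := by
    apply le_antisymm
    · by_contra hcon
      push Not at hcon
      have h1 := ((Nat.Prime.pow_dvd_iff_le_factorization (by norm_num : Nat.Prime 23) (Nat.card_pos (α := L)).ne').2 hcon).trans hLd
      revert h1; decide
    · apply (Nat.Prime.dvd_iff_one_le_factorization (by norm_num) Nat.card_pos.ne').1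
      rw [← hEc]; exact Subgroup.card_dvd_of_le hEL
  let P : Sylow 23 L := Sylow.ofCard (E.subgroupOf L) (by rw [hPc, hfac, pow_one])
  have hPE : (P : Subgroup L) = E.subgroupOf L := rfl
  set N := Subgroup.normalizer ((P : Subgroup L) : Set L) with hN
  have hcount : Nat.card (Sylow 23 L) * Nat.card N = Nat.card L := by
    rw [P.card_eq_index_normalizer]
    exact Subgroup.index_mul_card _
  have hmod : Nat.card (Sylow 23 L) % 23 = 1 := card_sylow_modEq_one 23 L
  have hNB : Bs.subgroupOf L ≤ N := by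
    intro b hb
    rw [Subgroup.mem_subgroupOf] at hb
    rw [hN, Subgroup.mem_normalizer_iff]
    intro e
    rw [hPE, Subgroup.mem_subgroupOf, Subgroup.mem_subgroupOf]
    constructor
    · intro he
      exact E_conj (Bs_le hb) he
    · intro he
      have := E_conj (inv_mem (Bs_le hb)) he
      have e2 : b.1⁻¹ * ((b * e * b⁻¹ : L) : PG) * b.1⁻¹⁻¹ = e.1 := by
        show b.1⁻¹ * (b.1 * e.1 * b.1⁻¹) * b.1⁻¹⁻¹ = e.1
        group
      rw [e2] at this
      exact this
  have hN1 : 253 ∣ Nat.card N := by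
    have h1 := Subgroup.card_dvd_of_le hNB
    rw [Nat.card_congr (Subgroup.subgroupOfEquivOfLe hB).toEquiv, card_Bs] at h1
    exact h1
  have hN2 : Nat.card N ∣ 23 * 22 := by
    have h1 := Subgroup.card_subgroup_dvd_card (Subgroup.normalizerMonoidHom (P : Subgroup L)).range
    have h2 : Nat.card (MulAut (P : Subgroup L)) = 22 := by
      haveI : IsCyclic (P : Subgroup L) := isCyclic_of_prime_card hPc
      rw [IsCyclic.card_mulAut]
      have : Nat.card (P : Subgroup L) = 23 := hPc
      rw [this]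
      decide
    rw [h2] at h1
    have h3 : Nat.card (Subgroup.normalizerMonoidHom (P : Subgroup L)).ker ∣ 23 := by
      have h4 : ∀ g ∈ (Subgroup.normalizerMonoidHom (P : Subgroup L)).ker, g.1 ∈ (P : Subgroup L) := by
        intro g hg
        rw [Subgroup.normalizerMonoidHom_ker, Subgroup.mem_subgroupOf] at hg
        have hcom : ∀ e ∈ E, e * g.1.1 = g.1.1 * e := by
          intro e he
          have h5 := Subgroup.mem_centralizer_iff.1 hg ⟨e, hEL he⟩ (show (⟨e, hEL he⟩ : L) ∈ ((P : Subgroup L) : Set L) from he)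
          exact congrArg Subtype.val h5
        have hgn : g.1.1 none = none := hfix _ g.1.2
        have hy : ∃ y, g.1.1 (some 0) = some y := by
          rcases h6 : g.1.1 (some 0) with _ | y
          · exact absurd (g.1.1.injective (h6.trans hgn.symm)) (by simp)
          · exact ⟨y, rfl⟩
        obtain ⟨y, hy⟩ := hy
        have : g.1.1 = aff 1 y := by
          ext1 x
          cases x with
          | none => rw [hgn, aff_none]
          | some x =>
            have h7 := congrArg (fun z : PG => z (some 0)) (hcom (aff 1 x) (E_mem.2 ⟨x, rfl⟩))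
            have h8 : aff 1 x (g.1.1 (some 0)) = g.1.1 (aff 1 x (some 0)) := h7
            rw [hy, aff_some, aff_some, mul_zero, zero_add, Units.val_one, one_mul] at h8
            rw [← h8, aff_some, Units.val_one, one_mul, add_comm]
        show g.1.1 ∈ E
        rw [this]
        exact E_mem.2 ⟨y, rfl⟩
      have h5 : Function.Injective (fun g : (Subgroup.normalizerMonoidHom (P : Subgroup L)).ker => (⟨g.1.1, h4 g.1 g.2⟩ : (P : Subgroup L))) := by
        intro g g' h
        have h' := congrArg (fun z : (P : Subgroup L) => z.1) h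
        exact Subtype.ext (Subtype.ext h')
      let φ : (Subgroup.normalizerMonoidHom (P : Subgroup L)).ker →* (P : Subgroup L) :=
        { toFun := fun g => ⟨g.1.1, h4 g.1 g.2⟩
          map_one' := rfl
          map_mul' := fun _ _ => rfl }
      have h6 := Subgroup.card_dvd_of_injective φ h5
      rwa [show Nat.card (P : Subgroup L) = 23 from hPc] at h6
    have h4 : Nat.card N = Nat.card (Subgroup.normalizerMonoidHom (P : Subgroup L)).ker * Nat.card (Subgroup.normalizerMonoidHom (P : Subgroup L)).range := by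
      rw [← Subgroup.index_ker, Subgroup.card_mul_index]
    rw [h4]
    exact Nat.mul_dvd_mul h3 h1
  have hN3 : Nat.card N % 2 = 1 := by
    by_contra hcon
    have h2 : 2 ∣ Nat.card N := by omega
    obtain ⟨t, ht⟩ := exists_prime_orderOf_dvd_card' 2 h2
    have htt : t * t = 1 := by rw [← sq, ← ht]; exact pow_orderOf_eq_one t
    have ht1 : t ≠ 1 := by rintro rfl; rw [orderOf_one] at ht; norm_num at ht
    have hFX : FX E = {none} := by
      symm
      apply Finset.eq_of_subset_of_card_le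
      · intro x hx
        rw [Finset.mem_singleton] at hx
        rw [mem_FX, hx]
        exact fun g hg => hfix g (hEL hg)
      · rw [card_FX (p := 23) (by norm_num) E (hEL.trans hL) (by rw [hEc, pow_one]), Finset.card_singleton]
    refine noinvP (p := 23) (by norm_num) (by norm_num) (by norm_num) (by norm_num) (by norm_num) E (hEL.trans hL) hEc (t := t.1.1) (hL t.1.2) ?_ ?_ ?_ ?_
    · exact congrArg (fun z : N => z.1.1) htt
    · intro h
      exact ht1 (Subtype.ext (Subtype.ext h))
    · intro e he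
      have h3 : t.1 ∈ Subgroup.normalizer ((P : Subgroup L) : Set L) := t.2
      rw [Subgroup.mem_normalizer_iff] at h3
      exact (h3 ⟨e, hEL he⟩).1 he
    · intro x hx
      rw [hFX, Finset.mem_singleton] at hx
      rw [hx]
      exact hfix _ t.1.2
  have hN4 : Nat.card N = 253 := by
    obtain ⟨k, hk⟩ := hN1
    rw [hk, show 23 * 22 = 253 * 2 by norm_num] at hN2
    have h1 : k ∣ 2 := Nat.dvd_of_mul_dvd_mul_left (by norm_num) hN2
    rcases (Nat.dvd_prime Nat.prime_two).1 h1 with rfl | rfl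
    · omega
    · omega
  rw [hN4] at hcount
  set n := Nat.card (Sylow 23 L) with hn
  have hnd : n ∣ 40320 := by
    rw [← hcount, show 10200960 = 40320 * 253 by norm_num] at hLd
    exact Nat.dvd_of_mul_dvd_mul_right (by norm_num) hLd
  have hn0 : n ≤ 40320 := Nat.le_of_dvd (by norm_num) hnd
  have hmem : n ∈ [1, 24, 70, 576, 1680, 40320] := by
    have h1 := List.all_eq_true.1 num1 n (List.mem_range.2 (by omega))
    rw [show 40320 % n = 0 from Nat.mod_eq_zero_of_dvd hnd, hmod] at h1
    simp only [Nat.beq_refl, Bool.and_self, Bool.not_true, Bool.false_or] at h1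
    exact List.contains_iff_mem.1 h1
  have hL0 := card_eq_orbit_mul L (some 0 : GolayPt)
  rw [orb_zero hfix (hB T1_Bs)] at hL0
  have hL0c : Nat.card ↥(L ⊓ MulAction.stabilizer PG (some 0 : GolayPt)) = 11 * n := by omega
  obtain ⟨n1, m, h1, h2, h3, h4⟩ := syl11 (L ⊓ MulAction.stabilizer PG (some 0 : GolayPt)) (inf_le_left.trans hL)
    (p := none) (q := some 0) (by simp) (fun g hg => hfix g hg.1) (fun g hg => hg.2) (by rw [hL0c]; exact dvd_mul_right _ _)
  obtain ⟨k, rfl⟩ := h4
  rw [hL0c] at h1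
  have h5 : n1 * k = n := by
    have : 11 * (n1 * k) = 11 * n := by rw [← h1]; ring
    exact Nat.eq_of_mul_eq_mul_left (by norm_num) this
  have hk2 : k % 2 = 1 := by omega
  have hn1 : 0 < n := Nat.card_pos
  have hk0 : 0 < k := by
    rcases Nat.eq_zero_or_pos k with h | h
    · rw [h] at hk2; norm_num at hk2
    · exact h
  have hdiv : n / k = n1 := by rw [← h5]; exact Nat.mul_div_cancel _ hk0
  have hnk : n % k = 0 := by rw [← h5]; exact Nat.mul_mod_left _ _
  have hkn : k ≤ n := Nat.le_of_dvd hn1 (Nat.dvd_of_mod_eq_zero hnk)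
  have hbad : n ∉ [24, 70, 576, 1680] := by
    intro hb
    have h6 := List.all_eq_true.1 (num2 n hb) k (List.mem_range.2 (by omega))
    rw [hnk, hk2, hdiv, h2] at h6
    simp at h6
  simp only [List.mem_cons, List.not_mem_nil, or_false, not_or] at hmem hbad
  rcases hmem with h | h | h | h | h | h
  · left; rw [← hcount, h]
  · exact absurd h hbad.1
  · exact absurd h hbad.2.1
  · exact absurd h hbad.2.2.1
  · exact absurd h hbad.2.2.2
  · right; rw [← hcount, h]

end Cfsg.Agent.H7.Ix
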