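import Mathlib
import Cfsg.Agent.H7_Iy3

set_option autoImplicit false
set_option linter.all false

/-!
`PSL(2, 23)` in `M24`.
-/

namespace Cfsg.Agent.H7.Ix

open Cfsg Cfsg.Agent.H7.Golay Cfsg.Agent.H7.Oct Cfsg.Agent.H7.M24 Cfsg.Agent.H7.M24b Cfsg.Agent.H7.M24c Cfsg.Agent.H7.M24d
open scoped Pointwise
open MulAction (orbit)

local notation "PG" => Equiv.Perm GolayPt

def G0 : Subgroup PG := Subgroup.closure ({Equiv.optionCongr (Equiv.addRight (1 : ZMod 23)), projInv} ∪ {g : Equiv.Perm GolayPt | ∃ u : (ZMod 23)ˣ, IsSquare u ∧ g = Equiv.optionCongr (Units.mulLeft u)})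

theorem G0_le : G0 ≤ M24 := by
  rw [G0, Subgroup.closure_le]
  rintro g ((h | h) | ⟨u, hu, h⟩)
  · rw [h]; exact T_mem
  · rw [Set.mem_singleton_iff.1 h]; exact projInv_mem
  · rw [h]; exact mulLeft_mem u hu

theorem Bs_le_G0 : Bs ≤ G0 := by
  rw [Bs, Subgroup.closure_le]
  rintro g (h | ⟨u, hu, h⟩)
  · rw [Set.mem_singleton_iff.1 h]; exact Subgroup.subset_closure (Or.inl (Or.inl rfl))
  · rw [h]; exact Subgroup.subset_closure (Or.inr ⟨u, hu, rfl⟩)

theorem projInv_G0 : projInv ∈ G0 := Subgroup.subset_closure (Or.inl (Or.inr rfl))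

theorem Bs_M24 : Bs ≤ M24 := Bs_le_G0.trans G0_le

theorem Bs_fix : ∀ g ∈ Bs, g none = none := by
  intro g hg
  obtain ⟨u, b, -, rfl⟩ := Bs_le hg
  exact aff_none u b

/-! ### the invariant of ordered triples -/

def Dd (i j : ℕ) : ℕ := if Nat.beq i 23 then (if Nat.beq j 23 then 0 else 1) else if Nat.beq j 23 then 22 else (i + 23 - j) % 23
def qr : ℕ := 340830
def ff (i j k : ℕ) : Bool := qr.testBit ((Dd i j * Dd j k * Dd k i) % 23)

def chkf (l : List ℕ) : Bool := (List.range 24).all fun i => (List.range 24).all fun j => (List.range 24).all fun k =>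
  (ff (l.getD i 0) (l.getD j 0) (l.getD k 0)) == (ff i j k)

def l2 : List ℕ := [0, 2, 4, 6, 8, 10, 12, 14, 16, 18, 20, 22, 1, 3, 5, 7, 9, 11, 13, 15, 17, 19, 21, 23]

theorem chk_T : chkf [1, 2, 3, 4, 5, 6, 7, 8, 9, 10, 11, 12, 13, 14, 15, 16, 17, 18, 19, 20, 21, 22, 0, 23] = true := by decide +kernel
theorem chk_I : chkf [23, 22, 11, 15, 17, 9, 19, 13, 20, 5, 16, 2, 21, 7, 18, 3, 10, 4, 14, 6, 8, 12, 1, 0] = true := by decide +kernel
theorem chk_2 : chkf l2 = true := by decide +kernel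

def Inv : Subgroup PG where
  carrier := {g | ∀ a b c, ff (ix (g a)) (ix (g b)) (ix (g c)) = ff (ix a) (ix b) (ix c)}
  mul_mem' := by
    intro g h hg hh a b c
    rw [Equiv.Perm.mul_apply, Equiv.Perm.mul_apply, Equiv.Perm.mul_apply, hg, hh]
  one_mem' := fun a b c => rfl
  inv_mem' := by
    intro g hg a b c
    rw [← hg (g⁻¹ a) (g⁻¹ b) (g⁻¹ c)]
    rw [show g (g⁻¹ a) = a from g.apply_symm_apply a, show g (g⁻¹ b) = b from g.apply_symm_apply b,
      show g (g⁻¹ c) = c from g.apply_symm_apply c]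

theorem mem_Inv {g : PG} : g ∈ Inv ↔ ∀ a b c, ff (ix (g a)) (ix (g b)) (ix (g c)) = ff (ix a) (ix b) (ix c) := Iff.rfl

theorem inv_of_chk {g : PG} {l : List ℕ} (hr : Rep g l) (h : chkf l = true) : g ∈ Inv := by
  rw [mem_Inv]
  intro a b c
  have h1 := List.all_eq_true.1 (List.all_eq_true.1 (List.all_eq_true.1 h (ix a) (List.mem_range.2 (ix_lt a))) (ix b) (List.mem_range.2 (ix_lt b)))
    (ix c) (List.mem_range.2 (ix_lt c))
  rw [hr.2, hr.2, hr.2]
  exact eq_of_beq h1

theorem rep_two : Rep (ML two) l2 := ⟨rfl, by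
  have h : ∀ p, ix (ML two p) = l2.getD (ix p) 0 := by decide +kernel
  exact h⟩

theorem sq_pow : ∀ u : (ZMod 23)ˣ, (∃ r, u = r * r) → ∃ k : Fin 11, u = two ^ k.val := by decide +kernel

theorem G0_inv : G0 ≤ Inv := by
  rw [G0, Subgroup.closure_le]
  rintro g ((h | h) | ⟨u, hu, h⟩)
  · rw [h]; exact inv_of_chk rep_T chk_T
  · rw [Set.mem_singleton_iff.1 h]; exact inv_of_chk rep_projInv chk_I
  · rw [h]
    obtain ⟨k, rfl⟩ := sq_pow u hu
    show ML (two ^ k.val) ∈ Inv
    rw [← ML_pow]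
    exact pow_mem (inv_of_chk rep_two chk_2) _

theorem not_le_Inv : ¬ M24 ≤ Inv := by
  intro h
  obtain ⟨g, hg, h1⟩ := ktrans 3 (by norm_num) ![pt 0, pt 1, pt 2] ![pt 1, pt 0, pt 2] (by decide) (by decide)
  have h2 := mem_Inv.1 (h hg) (pt 0) (pt 1) (pt 2)
  have e0 : g (pt 0) = pt 1 := h1 0
  have e1 : g (pt 1) = pt 0 := h1 1
  have e2 : g (pt 2) = pt 2 := h1 2
  rw [e0, e1, e2] at h2
  revert h2
  decide

theorem G0_trans (K : Subgroup PG) (hK : G0 ≤ K) : orbit K (none : GolayPt) = Set.univ := by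
  apply Set.eq_univ_of_forall
  intro y
  have h0 : (some 0 : GolayPt) ∈ orbit K (none : GolayPt) := ⟨⟨projInv, hK projInv_G0⟩, rfl⟩
  cases y with
  | none => exact MulAction.mem_orbit_self _
  | some y =>
    have h1 := orb_inv K none (pow_mem (hK (Bs_le_G0 T1_Bs)) y.val) h0
    have e : (T1 ^ y.val) • (some 0 : GolayPt) = some y := by
      show (T1 ^ y.val) (some 0) = some y
      rw [T1_pow, aff_some, mul_zero, zero_add, ZMod.natCast_zmod_val]
    rwa [e] at h1

theorem card_over (K : Subgroup PG) (hKM : K ≤ M24) (hK : G0 ≤ K) : Nat.card K = 6072 ∨ Nat.card K = 244823040 := by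
  have h := card_eq_orbit_mul K (none : GolayPt)
  have h24 : Nat.card GolayPt = 24 := by rw [Nat.card_eq_fintype_card]; rfl
  rw [G0_trans K hK, Set.ncard_univ, h24] at h
  rcases card_cases (K ⊓ MulAction.stabilizer PG (none : GolayPt)) (inf_le_left.trans hKM) (fun g hg => hg.2)
    (fun g hg => ⟨hK (Bs_le_G0 hg), Bs_fix g hg⟩) with h1 | h1
  · left; omega
  · right; omega

theorem card_G0 : Nat.card G0 = 6072 := by
  rcases card_over G0 G0_le le_rfl with h | h
  · exact h
  · exfalso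
    have : G0 = M24 := Subgroup.eq_of_le_of_card_ge G0_le (by rw [card_M24, h])
    exact not_le_Inv (this ▸ G0_inv)

theorem coatom_G0 : IsCoatom (G0.subgroupOf M24) := by
  constructor
  · intro h
    have h1 : Nat.card (G0.subgroupOf M24) = 6072 := by
      rw [Nat.card_congr (Subgroup.subgroupOfEquivOfLe G0_le).toEquiv, card_G0]
    rw [h, Subgroup.card_top, card_M24] at h1
    norm_num at h1
  · intro K hK
    have hle : G0 ≤ K.map M24.subtype := by
      intro g hg
      exact ⟨⟨g, G0_le hg⟩, hK.le (Subgroup.mem_subgroupOf.2 hg), rfl⟩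
    have hKM : K.map M24.subtype ≤ M24 := Subgroup.map_subtype_le K
    have hc : Nat.card (K.map M24.subtype) = Nat.card K :=
      (Nat.card_congr (Subgroup.equivMapOfInjective K _ M24.subtype_injective).toEquiv).symm
    rcases card_over _ hKM hle with h | h
    · exfalso
      have h2 : Nat.card (G0.subgroupOf M24) = 6072 := by
        rw [Nat.card_congr (Subgroup.subgroupOfEquivOfLe G0_le).toEquiv, card_G0]
      have h3 : G0.subgroupOf M24 = K := Subgroup.eq_of_le_of_card_ge hK.le (by rw [h2, ← hc, h])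
      exact hK.ne h3
    · apply Subgroup.eq_top_of_card_eq
      rw [← hc, h, card_M24]

theorem coatom_Bs : IsCoatom ((Bs.subgroupOf M24).subgroupOf (MulAction.stabilizer M24 (none : GolayPt))) := by
  have hc1 : Nat.card ((Bs.subgroupOf M24).subgroupOf (MulAction.stabilizer M24 (none : GolayPt))) = 253 := by
    have hle : Bs.subgroupOf M24 ≤ MulAction.stabilizer M24 (none : GolayPt) := by
      intro g hg
      exact Bs_fix g.1 hg
    rw [Nat.card_congr (Subgroup.subgroupOfEquivOfLe hle).toEquiv, Nat.card_congr (Subgroup.subgroupOfEquivOfLe Bs_M24).toEquiv, card_Bs]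
  constructor
  · intro h
    rw [h, Subgroup.card_top, card_stab_pt] at hc1
    norm_num at hc1
  · intro K hK
    have hle : Bs ≤ dn K := by
      intro g hg
      exact mem_dn.2 ⟨⟨⟨g, Bs_M24 hg⟩, Bs_fix g hg⟩, hK.le hg, rfl⟩
    have hKM : dn K ≤ M24 := by
      intro g hg
      obtain ⟨h, hh, rfl⟩ := mem_dn.1 hg
      exact h.1.2
    have hfix : ∀ g ∈ dn K, g none = none := by
      intro g hg
      obtain ⟨h, hh, rfl⟩ := mem_dn.1 hg
      exact h.2
    rcases card_cases _ hKM hfix hle with h | h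
    · exfalso
      have h3 := Subgroup.eq_of_le_of_card_ge hK.le (by rw [hc1, ← card_dn, h])
      exact hK.ne h3
    · apply Subgroup.eq_top_of_card_eq
      rw [← card_dn, h, card_stab_pt]

end Cfsg.Agent.H7.Ix
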