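import Cfsg.Statements.S0711
import Mathlib
import Cfsg.Agent.H9_Jordan

set_option autoImplicit false
open Cfsg

namespace Cfsg.Agent.S0711

open Equiv.Perm in
theorem exists_path {α : Type*} [Fintype α] [DecidableEq α] (g : Equiv.Perm α) (j : ℕ) (hj : j ≤ g.support.card) :
    ∃ S : Finset α, S ⊆ g.support ∧ S.card = j ∧ (S.filter (fun a => g a ∉ S)).card ≤ 1 := by
  classical
  induction j with
  | zero => exact ⟨∅, by simp, by simp, by simp⟩
  | succ j ih =>
    obtain ⟨S, hS1, hS2, hS3⟩ := ih (by omega)
    rcases Nat.eq_zero_or_pos (S.filter (fun a => g a ∉ S)).card with h0 | h0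
    · obtain ⟨b, hb, hbS⟩ := Finset.exists_mem_notMem_of_card_lt_card (show S.card < g.support.card by omega)
      refine ⟨insert b S, Finset.insert_subset hb hS1, by rw [Finset.card_insert_of_notMem hbS, hS2], ?_⟩
      have hsub : (insert b S).filter (fun a => g a ∉ insert b S) ⊆ {b} := by
        intro a ha
        rw [Finset.mem_filter] at ha
        rw [Finset.mem_singleton]
        by_contra hne
        have haS : a ∈ S := (Finset.mem_insert.1 ha.1).resolve_left hne
        have h1 : a ∈ S.filter (fun a => g a ∉ S) := by
          rw [Finset.mem_filter]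
          exact ⟨haS, fun h => ha.2 (Finset.mem_insert_of_mem h)⟩
        rw [Finset.card_eq_zero] at h0
        rw [h0] at h1
        exact absurd h1 (Finset.notMem_empty _)
      exact (Finset.card_le_card hsub).trans (by simp)
    · have h1 : (S.filter (fun a => g a ∉ S)).card = 1 := by omega
      obtain ⟨e, he⟩ := Finset.card_eq_one.1 h1
      have heS : e ∈ S ∧ g e ∉ S := by
        have : e ∈ S.filter (fun a => g a ∉ S) := by rw [he]; simp
        rwa [Finset.mem_filter] at this
      refine ⟨insert (g e) S, Finset.insert_subset (by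
        rw [Equiv.Perm.apply_mem_support]; exact hS1 heS.1) hS1, by rw [Finset.card_insert_of_notMem heS.2, hS2], ?_⟩
      have hsub : (insert (g e) S).filter (fun a => g a ∉ insert (g e) S) ⊆ {g e} := by
        intro a ha
        rw [Finset.mem_filter] at ha
        rw [Finset.mem_singleton]
        by_contra hne
        have haS : a ∈ S := (Finset.mem_insert.1 ha.1).resolve_left hne
        have h1 : a ∈ S.filter (fun a => g a ∉ S) := by
          rw [Finset.mem_filter]
          exact ⟨haS, fun h => ha.2 (Finset.mem_insert_of_mem h)⟩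
        rw [he, Finset.mem_singleton] at h1
        subst h1
        exact ha.2 (Finset.mem_insert_self _ _)
      exact (Finset.card_le_card hsub).trans (by simp)

/-- the main estimate -/
theorem estimate {α : Type*} [Fintype α] [DecidableEq α] (g x : Equiv.Perm α) (S : Finset α) (T : Finset α)
    (hTS : T ⊆ S) (hS : S ⊆ g.support) (hx : ∀ a ∈ S, x a = a) (hT : ∀ a ∈ T, g a ∈ S) :
    ((x * g * x⁻¹)⁻¹ * g).support ⊆ (g.support ∪ (x * g * x⁻¹).support) \ T := by
  intro a ha
  rw [Equiv.Perm.mem_support] at ha
  rw [Finset.mem_sdiff]
  constructor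
  · by_contra hcon
    rw [Finset.mem_union, not_or, Equiv.Perm.notMem_support, Equiv.Perm.notMem_support] at hcon
    apply ha
    rw [Equiv.Perm.mul_apply, hcon.1, Equiv.Perm.inv_eq_iff_eq, hcon.2]
  · intro haT
    apply ha
    rw [Equiv.Perm.mul_apply, Equiv.Perm.inv_eq_iff_eq]
    have h1 : x⁻¹ a = a := by rw [Equiv.Perm.inv_eq_iff_eq, hx a (hTS haT)]
    rw [Equiv.Perm.mul_apply, Equiv.Perm.mul_apply, h1, hx _ (hT a haT)]

/-- A `k`-transitive permutation group (`k ≥ 3`) with a non-identity element of support smaller than `2k - 2` contains a non-identity element of support at most 3, and therefore contains the alternating group. -/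
theorem result {α : Type*} [Fintype α] [DecidableEq α] (G : Subgroup (Equiv.Perm α)) {k : ℕ} (hk : 3 ≤ k) (hkn : k ≤ Fintype.card α) (hG : MulAction.IsMultiplyPretransitive G α k) (g : Equiv.Perm α) (hg : g ∈ G) (hg1 : g ≠ 1) (hsupp : g.support.card < 2 * k - 2) : (∃ h : Equiv.Perm α, h ∈ G ∧ h ≠ 1 ∧ h.support.card ≤ 3) ∧ alternatingGroup α ≤ G := by
  classical
  have hG' : MulAction.IsMultiplyPretransitive G α k := hG
  have hle : ∀ j, j ≤ k → MulAction.IsMultiplyPretransitive G α j := fun j hj =>
    MulAction.isMultiplyPretransitive_of_le (n := k) hj (by rw [Nat.card_eq_fintype_card]; omega)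
  have hprim : MulAction.IsPreprimitive G α := MulAction.isPreprimitive_of_is_two_pretransitive (hle 2 (by omega))
  -- minimal support
  obtain ⟨g0, ⟨hg0, hg01⟩, hmin⟩ := Set.exists_min_image {h : Equiv.Perm α | h ∈ G ∧ h ≠ 1} (fun h => h.support.card)
    (Set.toFinite _) ⟨g, hg, hg1⟩
  have hmin' : ∀ h ∈ G, h ≠ 1 → g0.support.card ≤ h.support.card := fun h h1 h2 => hmin h ⟨h1, h2⟩
  have hm : g0.support.card < 2 * k - 2 := lt_of_le_of_lt (hmin' g hg hg1) hsupp
  -- existence of x
  have hexx : ∀ (S : Finset α) (f f' : α), S.card + 1 ≤ k → f ∉ S → f' ∉ S → ∃ x ∈ G, (∀ a ∈ S, x a = a) ∧ x f = f' := by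
    intro S f f' hS hf hf'
    obtain ⟨x, hx⟩ := H9.Jordan.exists_of_multTrans (hle (S.card + 1) hS) (insert f S)
      (Finset.card_insert_of_notMem hf) (fun a => if a = f then f' else a) (by
        intro a ha b hb hab
        simp only [Finset.coe_insert, Set.mem_insert_iff, Finset.mem_coe] at ha hb
        simp only at hab
        split_ifs at hab with h1 h2 h2
        · rw [h1, h2]
        · exact absurd (hb.resolve_left h2) (by rw [← hab]; exact hf')
        · exact absurd (ha.resolve_left h1) (by rw [hab]; exact hf')
        · exact hab)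
    refine ⟨x, x.2, ?_, ?_⟩
    · intro a ha
      have := hx a (Finset.mem_insert_of_mem ha)
      rw [if_neg (by rintro rfl; exact hf ha)] at this
      exact this
    · have := hx f (Finset.mem_insert_self _ _)
      rw [if_pos rfl] at this
      exact this
  have hm3 : g0.support.card ≤ 3 := by
    by_contra hcon
    push Not at hcon
    -- a point outside the support
    have hout : ∃ z, z ∉ g0.support := by
      by_contra hz
      push Not at hz
      have hfull : g0.support.card = Fintype.card α := by
        rw [← Finset.card_univ]; congr 1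
        exact Finset.eq_univ_iff_forall.2 hz
      obtain ⟨T, -, hT⟩ := Finset.exists_subset_card_eq (s := (Finset.univ : Finset α)) (n := 3) (by rw [Finset.card_univ]; omega)
      obtain ⟨a, b, c, hab, hac, hbc, -⟩ := Finset.card_eq_three.1 hT
      obtain ⟨x, hx, hxa, hxb⟩ := hexx {a} b c (by simp; omega) (by simp [Ne.symm hab]) (by simp [Ne.symm hac])
      have h1 : x ≠ 1 := by rintro rfl; exact hbc hxb
      have h2 := hmin' x hx h1
      have h3 : x.support.card < Fintype.card α := by
        rw [← Finset.card_univ]
        apply Finset.card_lt_card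
        rw [Finset.ssubset_univ_iff]
        intro h
        have : a ∈ x.support := by rw [h]; simp
        rw [Equiv.Perm.mem_support] at this
        exact this (hxa a (by simp))
      omega
    obtain ⟨z, hz⟩ := hout
    have hconjcard : ∀ x : Equiv.Perm α, (x * g0 * x⁻¹).support.card = g0.support.card := fun x =>
      Equiv.Perm.card_support_conj
    have hconjmem : ∀ (x : Equiv.Perm α) (a : α), a ∈ g0.support → x a ∈ (x * g0 * x⁻¹).support := by
      intro x a ha
      rw [Equiv.Perm.mem_support] at ha ⊢
      intro h
      apply ha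
      rw [Equiv.Perm.mul_apply, Equiv.Perm.mul_apply, ← Equiv.Perm.mul_apply x⁻¹ x, inv_mul_cancel, Equiv.Perm.one_apply] at h
      exact x.injective h
    -- final inequality
    have hfinal : ∀ (x : Equiv.Perm α), x ∈ G → ∀ (S T W : Finset α), T ⊆ S → S ⊆ g0.support → (∀ a ∈ S, x a = a) →
        (∀ a ∈ T, g0 a ∈ S) → x * g0 * x⁻¹ ≠ g0 → W ⊆ g0.support ∩ (x * g0 * x⁻¹).support → T ⊆ W →
        g0.support.card + W.card + T.card ≤ 2 * g0.support.card := by
      intro x hx S T W hTS hS hxS hT hne hW hTW
      have h1 := estimate g0 x S T hTS hS hxS hT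
      have h2 : (x * g0 * x⁻¹)⁻¹ * g0 ≠ 1 := fun h => hne (inv_mul_eq_one.1 h)
      have h3 := hmin' _ (G.mul_mem (G.inv_mem (G.mul_mem (G.mul_mem hx hg0) (G.inv_mem hx))) hg0) h2
      have h4 := Finset.card_le_card h1
      have h5 : T ⊆ g0.support ∪ (x * g0 * x⁻¹).support := (hTS.trans hS).trans Finset.subset_union_left
      rw [Finset.card_sdiff_of_subset h5] at h4
      have h6 := Finset.card_union_add_card_inter g0.support (x * g0 * x⁻¹).support
      rw [hconjcard] at h6
      have h7 := Finset.card_le_card hW
      have h8 := Finset.card_le_card h5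
      omega
    rcases Nat.lt_or_ge k g0.support.card with hk1 | hk1
    · -- general case
      obtain ⟨S, hS1, hS2, hS3⟩ := exists_path g0 (k - 1) (by omega)
      rcases Nat.eq_zero_or_pos (S.filter (fun a => g0 a ∉ S)).card with h0 | h0
      · have hinv : ∀ a ∈ S, g0 a ∈ S := by
          intro a ha
          by_contra hna
          have : a ∈ S.filter (fun a => g0 a ∉ S) := Finset.mem_filter.2 ⟨ha, hna⟩
          rw [Finset.card_eq_zero.1 h0] at this
          exact absurd this (Finset.notMem_empty _)
        obtain ⟨f, hf, hfS⟩ := Finset.exists_mem_notMem_of_card_lt_card (show S.card < g0.support.card by omega)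
        obtain ⟨x, hx, hxS, hxf⟩ := hexx S f z (by omega) hfS (fun h => hz (hS1 h))
        have hne : x * g0 * x⁻¹ ≠ g0 := by
          intro h
          have h1 := hconjmem x f hf
          rw [hxf, h] at h1
          exact hz h1
        have := hfinal x hx S S S (subset_refl _) hS1 hxS hinv hne (by
          intro a ha
          rw [Finset.mem_inter]
          refine ⟨hS1 ha, ?_⟩
          rw [← hxS a ha]
          exact hconjmem x a (hS1 ha)) (subset_refl _)
        omega
      · have h1 : (S.filter (fun a => g0 a ∉ S)).card = 1 := by omega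
        obtain ⟨e, he⟩ := Finset.card_eq_one.1 h1
        have heS : e ∈ S ∧ g0 e ∉ S := by
          have : e ∈ S.filter (fun a => g0 a ∉ S) := by rw [he]; simp
          rwa [Finset.mem_filter] at this
        have hfs : g0 e ∈ g0.support := by rw [Equiv.Perm.apply_mem_support]; exact hS1 heS.1
        obtain ⟨f', hf', hf'S⟩ := Finset.exists_mem_notMem_of_card_lt_card (show (insert (g0 e) S).card < g0.support.card by
          rw [Finset.card_insert_of_notMem heS.2]; omega)
        rw [Finset.mem_insert, not_or] at hf'S
        obtain ⟨x, hx, hxS, hxf⟩ := hexx S (g0 e) f' (by omega) heS.2 hf'S.2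
        have hxinv : ∀ a ∈ S, x⁻¹ a = a := fun a ha => by rw [Equiv.Perm.inv_eq_iff_eq, hxS a ha]
        have hne : x * g0 * x⁻¹ ≠ g0 := by
          intro h
          have h2 : (x * g0 * x⁻¹) e = g0 e := by rw [h]
          rw [Equiv.Perm.mul_apply, Equiv.Perm.mul_apply, hxinv e heS.1, hxf] at h2
          exact hf'S.1 h2
        have := hfinal x hx S (S.erase e) (insert f' S) (Finset.erase_subset _ _) hS1 hxS (by
          intro a ha
          rw [Finset.mem_erase] at ha
          by_contra hna
          have : a ∈ S.filter (fun a => g0 a ∉ S) := Finset.mem_filter.2 ⟨ha.2, hna⟩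
          rw [he, Finset.mem_singleton] at this
          exact ha.1 this) hne (by
          intro a ha
          rw [Finset.mem_insert] at ha
          rw [Finset.mem_inter]
          rcases ha with rfl | ha
          · refine ⟨hf', ?_⟩
            rw [← hxf]
            exact hconjmem x _ hfs
          · refine ⟨hS1 ha, ?_⟩
            rw [← hxS a ha]
            exact hconjmem x a (hS1 ha)) ((Finset.erase_subset _ _).trans (Finset.subset_insert _ _))
        rw [Finset.card_insert_of_notMem hf'S.2, Finset.card_erase_of_mem heS.1] at this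
        omega
    · -- small support
      have hpos : 0 < g0.support.card := by omega
      obtain ⟨f, hf⟩ := Finset.card_pos.1 hpos
      have hScard : (g0.support.erase f).card = g0.support.card - 1 := Finset.card_erase_of_mem hf
      obtain ⟨x, hx, hxS, hxf⟩ := hexx (g0.support.erase f) f z (by omega) (Finset.notMem_erase _ _)
        (fun h => hz (Finset.mem_of_mem_erase h))
      have hne : x * g0 * x⁻¹ ≠ g0 := by
        intro h
        have h1 := hconjmem x f hf
        rw [hxf, h] at h1
        exact hz h1
      have hfinv : g0⁻¹ f ∈ g0.support.erase f := by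
        rw [Finset.mem_erase]
        refine ⟨?_, ?_⟩
        · intro h
          rw [Equiv.Perm.inv_eq_iff_eq] at h
          rw [Equiv.Perm.mem_support] at hf
          exact hf h.symm
        · rw [← Equiv.Perm.support_inv, Equiv.Perm.apply_mem_support, Equiv.Perm.support_inv]
          exact hf
      have := hfinal x hx (g0.support.erase f) ((g0.support.erase f).erase (g0⁻¹ f)) (g0.support.erase f)
        (Finset.erase_subset _ _) (Finset.erase_subset _ _) hxS (by
          intro a ha
          rw [Finset.mem_erase, Finset.mem_erase] at ha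
          rw [Finset.mem_erase]
          refine ⟨?_, ?_⟩
          · intro h
            apply ha.1
            rw [← h, ← Equiv.Perm.mul_apply, inv_mul_cancel, Equiv.Perm.one_apply]
          · rw [Equiv.Perm.apply_mem_support]; exact ha.2.2) hne (by
          intro a ha
          rw [Finset.mem_inter]
          refine ⟨Finset.mem_of_mem_erase ha, ?_⟩
          rw [← hxS a ha]
          exact hconjmem x a (Finset.mem_of_mem_erase ha)) (Finset.erase_subset _ _)
      rw [Finset.card_erase_of_mem hfinv, hScard] at this
      omega
  refine ⟨⟨g0, hg0, hg01, hm3⟩, ?_⟩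
  have h2 : 2 ≤ g0.support.card := Equiv.Perm.two_le_card_support_of_ne_one hg01
  rcases Nat.eq_or_lt_of_le h2 with h | h
  · have := Equiv.Perm.subgroup_eq_top_of_isPreprimitive_of_isSwap_mem hprim g0 (Equiv.Perm.card_support_eq_two.1 h.symm) hg0
    rw [this]; exact le_top
  · exact Equiv.Perm.alternatingGroup_le_of_isPreprimitive_of_isThreeCycle_mem hprim
      (card_support_eq_three_iff.1 (by omega)) hg0

end Cfsg.Agent.S0711
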