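import Mathlib
import Cfsg.Agent.S0711

set_option autoImplicit false

namespace H7.Jor

open Equiv Equiv.Perm

section perm

variable {ι : Type*} [Fintype ι] [DecidableEq ι]

theorem exists_avoid (s : Finset ι) (h : s.card < Fintype.card ι) : ∃ d, d ∉ s := by
  by_contra hcon
  push Not at hcon
  have : s = Finset.univ := Finset.eq_univ_iff_forall.2 hcon
  rw [this, Finset.card_univ] at h
  exact lt_irrefl _ h

theorem pl1 (hr : 4 ≤ Fintype.card ι) (A : Set (Perm ι)) (hconj : ∀ τ : Perm ι, ∀ σ ∈ A, τ * σ * τ⁻¹ ∈ A)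
    (hcomm : ∀ σ ∈ A, ∀ σ' ∈ A, σ * σ' = σ' * σ) {σ : Perm ι} (hσ : σ ∈ A) (a : ι) : σ (σ a) = a := by
  by_contra hne
  have hba : σ a ≠ a := fun h => hne (by rw [h, h])
  have hcb : σ (σ a) ≠ σ a := fun h => hba (σ.injective h)
  obtain ⟨d, hd⟩ := exists_avoid ({a, σ a, σ (σ a)} : Finset ι)
    (lt_of_le_of_lt (Finset.card_le_three) (by omega))
  simp only [Finset.mem_insert, Finset.mem_singleton, not_or] at hd
  obtain ⟨hda, hdb, hdc⟩ := hd
  have h := hcomm σ hσ _ (hconj (swap (σ (σ a)) d) σ hσ)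
  have h1 := congrArg (fun π : Perm ι => π a) h
  simp only [Perm.mul_apply, swap_inv] at h1
  rw [swap_apply_of_ne_of_ne (Ne.symm hne) (Ne.symm hda), swap_apply_of_ne_of_ne (Ne.symm hcb) (Ne.symm hdb), swap_apply_left] at h1
  exact hdc h1.symm

theorem pl2 (hr : 5 ≤ Fintype.card ι) (A : Set (Perm ι)) (hconj : ∀ τ : Perm ι, ∀ σ ∈ A, τ * σ * τ⁻¹ ∈ A)
    (hcomm : ∀ σ ∈ A, ∀ σ' ∈ A, σ * σ' = σ' * σ) {σ : Perm ι} (hσ : σ ∈ A) : σ = 1 := by
  have hsq := pl1 (by omega) A hconj hcomm hσ
  ext a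
  by_contra hba
  rw [Perm.one_apply] at hba
  by_cases hfix : ∃ c, σ c = c
  · obtain ⟨c, hc⟩ := hfix
    have hca : c ≠ a := by rintro rfl; exact hba hc
    have hcb : c ≠ σ a := by
      intro h
      have : σ c = a := by rw [h, hsq]
      rw [hc] at this; exact hca this
    have h := hcomm σ hσ _ (hconj (swap (σ a) c) σ hσ)
    have h1 := congrArg (fun π : Perm ι => π a) h
    simp only [Perm.mul_apply, swap_inv] at h1
    rw [swap_apply_of_ne_of_ne (Ne.symm hba) (Ne.symm hca), swap_apply_left, hc, swap_apply_right] at h1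
    exact hcb h1
  · push Not at hfix
    obtain ⟨c, hc⟩ := exists_avoid ({a, σ a} : Finset ι) (lt_of_le_of_lt (Finset.card_le_two) (by omega))
    simp only [Finset.mem_insert, Finset.mem_singleton, not_or] at hc
    obtain ⟨hca, hcb⟩ := hc
    obtain ⟨e, he⟩ := exists_avoid ({a, σ a, c, σ c} : Finset ι) (lt_of_le_of_lt (Finset.card_le_four) (by omega))
    simp only [Finset.mem_insert, Finset.mem_singleton, not_or] at he
    obtain ⟨hea, heb, hec, hed⟩ := he
    have hfe := hfix e
    have hfa : σ e ≠ a := fun h => heb (by rw [← h, hsq])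
    have hfb : σ e ≠ σ a := fun h => hea (σ.injective h)
    have hfc : σ e ≠ c := fun h => hed (by rw [← h, hsq])
    have hfd : σ e ≠ σ c := fun h => hec (σ.injective h)
    have h := hcomm σ hσ _ (hconj (swap (σ a) c * swap c e) σ hσ)
    have h1 := congrArg (fun π : Perm ι => π a) h
    simp only [Perm.mul_apply, swap_inv, mul_inv_rev] at h1
    rw [swap_apply_of_ne_of_ne (Ne.symm hba) (Ne.symm hca), swap_apply_of_ne_of_ne (Ne.symm hca) (Ne.symm hea),
      swap_apply_of_ne_of_ne (Ne.symm hcb) (Ne.symm heb), swap_apply_left, swap_apply_left] at h1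
    rw [swap_apply_of_ne_of_ne hfc hfe, swap_apply_of_ne_of_ne hfb hfc] at h1
    exact hfd h1.symm

theorem pl3 (hr : 3 ≤ Fintype.card ι) {σ : Perm ι} (hσ : ∀ τ : Perm ι, τ * σ = σ * τ) : σ = 1 := by
  ext a
  by_contra hba
  rw [Perm.one_apply] at hba
  obtain ⟨c, hc⟩ := exists_avoid ({a, σ a} : Finset ι) (lt_of_le_of_lt (Finset.card_le_two) (by omega))
  simp only [Finset.mem_insert, Finset.mem_singleton, not_or] at hc
  obtain ⟨hca, hcb⟩ := hc
  have h1 := congrArg (fun π : Perm ι => π a) (hσ (swap (σ a) c))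
  simp only [Perm.mul_apply] at h1
  rw [swap_apply_left, swap_apply_of_ne_of_ne (Ne.symm hba) (Ne.symm hca)] at h1
  exact hcb h1

end perm

theorem inj4 {α : Type*} {a b c d : α} (h1 : a ≠ b) (h2 : a ≠ c) (h3 : a ≠ d) (h4 : b ≠ c) (h5 : b ≠ d) (h6 : c ≠ d) :
    Function.Injective ![a, b, c, d] := by
  intro i j h
  fin_cases i <;> fin_cases j <;> simp_all

theorem fixmod {α : Type*} [Fintype α] [DecidableEq α] (σ : Perm α) (p : ℕ) [Fact p.Prime] (h : σ ^ p = 1) :
    Fintype.card α ≡ Fintype.card (Function.fixedPoints σ) [MOD p] := by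
  let f : Function.End α := fun x => σ x
  have key : ∀ n : ℕ, ∀ x, (f ^ n) x = (σ ^ n) x := by
    intro n
    induction n with
    | zero => intro x; rfl
    | succ n ih =>
      intro x
      rw [pow_succ, pow_succ, Perm.mul_apply]
      exact ih (σ x)
  have hf : f ^ p ^ 1 = 1 := by
    rw [pow_one]
    funext x
    rw [key, h]
    rfl
  exact Equiv.Perm.card_fixedPoints_modEq hf

theorem nine {α : Type*} [Fintype α] [DecidableEq α] (G : Subgroup (Equiv.Perm α)) (hc : Fintype.card α = 9)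
    (hG : MulAction.IsMultiplyPretransitive G α 4) : alternatingGroup α ≤ G := by
  by_contra hcon
  have hsharp : ∀ g ∈ G, ∀ s : Finset α, s.card = 4 → (∀ a ∈ s, g a = a) → g = 1 := by
    intro g hg s hs hfix
    by_contra hg1
    apply hcon
    refine (Cfsg.Agent.S0711.result G (k := 4) (by norm_num) (by omega) hG g hg hg1 ?_).2
    have h1 : g.support ⊆ sᶜ := by
      intro a ha
      rw [Finset.mem_compl]
      intro h
      exact (Perm.mem_support.1 ha) (hfix a h)
    have h2 := Finset.card_le_card h1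
    rw [Finset.card_compl, hs, hc] at h2
    omega
  have key : ∀ (a b : Fin 4 → α), Function.Injective a → Function.Injective b → ∃ g ∈ G, ∀ i, g (a i) = b i := by
    intro a b ha hb
    have htr : MulAction.IsPretransitive G (Fin 4 ↪ α) := hG
    obtain ⟨g, hg⟩ := MulAction.exists_smul_eq G (⟨a, ha⟩ : Fin 4 ↪ α) ⟨b, hb⟩
    refine ⟨g, g.2, fun i => ?_⟩
    exact DFunLike.congr_fun hg i
  have k4 : ∀ {a b c d a' b' c' d' : α}, a ≠ b → a ≠ c → a ≠ d → b ≠ c → b ≠ d → c ≠ d →
      a' ≠ b' → a' ≠ c' → a' ≠ d' → b' ≠ c' → b' ≠ d' → c' ≠ d' →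
      ∃ g ∈ G, g a = a' ∧ g b = b' ∧ g c = c' ∧ g d = d' := by
    intro a b c d a' b' c' d' h1 h2 h3 h4 h5 h6 h1' h2' h3' h4' h5' h6'
    obtain ⟨g, hg, h⟩ := key _ _ (inj4 h1 h2 h3 h4 h5 h6) (inj4 h1' h2' h3' h4' h5' h6')
    exact ⟨g, hg, h 0, h 1, h 2, h 3⟩
  have s4 : ∀ g ∈ G, ∀ {a b c d : α}, a ≠ b → a ≠ c → a ≠ d → b ≠ c → b ≠ d → c ≠ d →
      g a = a → g b = b → g c = c → g d = d → g = 1 := by
    intro g hg a b c d h1 h2 h3 h4 h5 h6 ha hb hc' hd
    refine hsharp g hg {a, b, c, d} ?_ ?_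
    · rw [Finset.card_insert_of_notMem, Finset.card_insert_of_notMem, Finset.card_insert_of_notMem, Finset.card_singleton]
      · simpa using h6
      · simp [h4, h5]
      · simp [h1, h2, h3]
    · intro x hx
      simp only [Finset.mem_insert, Finset.mem_singleton] at hx
      rcases hx with rfl | rfl | rfl | rfl <;> assumption
  -- four points
  obtain ⟨f⟩ : Nonempty (Fin 4 ↪ α) := by
    apply Function.Embedding.nonempty_of_card_le
    rw [hc, Fintype.card_fin]; norm_num
  have h01 : f 0 ≠ f 1 := fun h => by simpa using f.injective h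
  have h02 : f 0 ≠ f 2 := fun h => by simpa using f.injective h
  have h03 : f 0 ≠ f 3 := fun h => by simpa using f.injective h
  have h12 : f 1 ≠ f 2 := fun h => by simpa using f.injective h
  have h13 : f 1 ≠ f 3 := fun h => by simpa using f.injective h
  have h23 : f 2 ≠ f 3 := fun h => by simpa using f.injective h
  generalize f 0 = a0 at *
  generalize f 1 = a1 at *
  generalize f 2 = a2 at *
  generalize f 3 = a3 at *
  obtain ⟨g, hg, g0, g1, g2, g3⟩ := k4 h01 h02 h03 h12 h13 h23 h01 h03 h02 h13 h12 h23.symm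
  have gsq : g * g = 1 := s4 _ (G.mul_mem hg hg) h01 h02 h03 h12 h13 h23 (by simp [g0]) (by simp [g1])
    (by simp [g2, g3]) (by simp [g2, g3])
  have ggx : ∀ x, g (g x) = x := fun x => by
    have := congrArg (fun π : Perm α => π x) gsq
    simpa using this
  have g1ne : g ≠ 1 := by
    intro h
    rw [h, Perm.one_apply] at g2
    exact h23 g2
  haveI : Fact (Nat.Prime 2) := ⟨Nat.prime_two⟩
  haveI : Fact (Nat.Prime 3) := ⟨Nat.prime_three⟩
  have hfg : Fintype.card α ≡ Fintype.card (Function.fixedPoints g) [MOD 2] :=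
    fixmod g 2 (by rw [sq]; exact gsq)
  -- third fixed point
  obtain ⟨a4, g4, h40, h41⟩ : ∃ a4, g a4 = a4 ∧ a4 ≠ a0 ∧ a4 ≠ a1 := by
    by_contra hno
    push Not at hno
    have : Fintype.card (Function.fixedPoints g) = 2 := by
      rw [Fintype.card_of_subtype ({a0, a1} : Finset α)]
      · exact Finset.card_pair h01
      · intro x
        simp only [Finset.mem_insert, Finset.mem_singleton]
        constructor
        · rintro (rfl | rfl)
          · exact g0
          · exact g1
        · intro hx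
          by_cases hx0 : x = a0
          · exact Or.inl hx0
          · exact Or.inr (hno x hx hx0)
    rw [this, hc] at hfg
    exact absurd hfg (by decide)
  have h42 : a4 ≠ a2 := by rintro rfl; rw [g2] at g4; exact h23 g4.symm
  have h43 : a4 ≠ a3 := by rintro rfl; rw [g3] at g4; exact h23 g4
  have gfix : ∀ x, g x = x → x = a0 ∨ x = a1 ∨ x = a4 := by
    intro x hx
    by_contra h
    push Not at h
    exact g1ne (s4 g hg h.1 h.2.1 h.2.2 h01 h40.symm h41.symm hx g0 g1 g4)
  -- h
  have hcomm : ∀ x y, x ≠ y → x ≠ a2 → x ≠ a3 → y ≠ a2 → y ≠ a3 → g x = x → g y = y →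
      ∃ h ∈ G, h x = y ∧ h y = x ∧ h a2 = a2 ∧ h a3 = a3 ∧ g * h = h * g := by
    intro x y hxy hx2 hx3 hy2 hy3 gx gy
    obtain ⟨h, hh, h1, h2, h3, h4⟩ := k4 hxy hx2 hx3 hy2 hy3 h23 hxy.symm hy2 hy3 hx2 hx3 h23
    refine ⟨h, hh, h1, h2, h3, h4, ?_⟩
    have := s4 ((h * g)⁻¹ * (g * h)) (G.mul_mem (G.inv_mem (G.mul_mem hh hg)) (G.mul_mem hg hh)) hxy hx2 hx3 hy2 hy3 h23
      (by rw [Perm.mul_apply, Perm.inv_eq_iff_eq]; simp [h1, gx, gy])
      (by rw [Perm.mul_apply, Perm.inv_eq_iff_eq]; simp [h2, gx, gy])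
      (by rw [Perm.mul_apply, Perm.inv_eq_iff_eq]; simp [h3, h4, g2])
      (by rw [Perm.mul_apply, Perm.inv_eq_iff_eq]; simp [h3, h4, g3])
    exact (inv_mul_eq_one.1 this).symm
  obtain ⟨h, hh, hh0, hh1, hh2, hh3, hgh⟩ := hcomm a0 a1 h01 h02 h03 h12 h13 g0 g1
  obtain ⟨h', hh', hh0', hh4', hh2', hh3', hgh'⟩ := hcomm a0 a4 h40.symm h02 h03 h42 h43 g0 g4
  have hh4 : h a4 = a4 := by
    have e : g (h a4) = h a4 := by
      have := congrArg (fun π : Perm α => π a4) hgh
      simp only [Perm.mul_apply] at this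
      rw [this, g4]
    rcases gfix _ e with h1 | h1 | h1
    · rw [← hh1] at h1; exact absurd (h.injective h1) h41
    · rw [← hh0] at h1; exact absurd (h.injective h1) h40
    · exact h1
  have hh1' : h' a1 = a1 := by
    have e : g (h' a1) = h' a1 := by
      have := congrArg (fun π : Perm α => π a1) hgh'
      simp only [Perm.mul_apply] at this
      rw [this, g1]
    rcases gfix _ e with h1 | h1 | h1
    · rw [← hh4'] at h1; exact absurd (h'.injective h1) h41.symm
    · exact h1
    · rw [← hh0'] at h1; exact absurd (h'.injective h1) h01.symm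
  have hcG : h * h' ∈ G := G.mul_mem hh hh'
  have c0 : (h * h') a0 = a4 := by rw [Perm.mul_apply, hh0', hh4]
  have c4 : (h * h') a4 = a1 := by rw [Perm.mul_apply, hh4', hh0]
  have c1 : (h * h') a1 = a0 := by rw [Perm.mul_apply, hh1', hh1]
  have c2 : (h * h') a2 = a2 := by rw [Perm.mul_apply, hh2', hh2]
  have c3 : (h * h') a3 = a3 := by rw [Perm.mul_apply, hh3', hh3]
  have gc : ∀ x, g ((h * h') x) = (h * h') (g x) := by
    intro x
    have e1 : g * (h * h') = (h * h') * g := by rw [← mul_assoc, hgh, mul_assoc, hgh', mul_assoc]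
    exact congrArg (fun π : Perm α => π x) e1
  generalize h * h' = c at *
  have ccc : c ^ 3 = 1 := s4 _ (G.pow_mem hcG 3) h01 h02 h03 h12 h13 h23
    (by simp [pow_succ, c0, c4, c1]) (by simp [pow_succ, c0, c4, c1]) (by simp [pow_succ, c2]) (by simp [pow_succ, c3])
  have hfc : Fintype.card α ≡ Fintype.card (Function.fixedPoints c) [MOD 3] :=
    fixmod c 3 ccc
  obtain ⟨b, cb, hb2, hb3⟩ : ∃ b, c b = b ∧ b ≠ a2 ∧ b ≠ a3 := by
    by_contra hno
    push Not at hno
    have : Fintype.card (Function.fixedPoints c) = 2 := by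
      rw [Fintype.card_of_subtype ({a2, a3} : Finset α)]
      · exact Finset.card_pair h23
      · intro x
        simp only [Finset.mem_insert, Finset.mem_singleton]
        constructor
        · rintro (rfl | rfl)
          · exact c2
          · exact c3
        · intro hx
          by_cases hx0 : x = a2
          · exact Or.inl hx0
          · exact Or.inr (hno x hx hx0)
    rw [this, hc] at hfc
    exact absurd hfc (by decide)
  have hgb : g b ≠ b := by
    intro h1
    rcases gfix b h1 with rfl | rfl | rfl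
    · rw [c0] at cb; exact h40 cb
    · rw [c1] at cb; exact h01 cb
    · rw [c4] at cb; exact h41 cb.symm
  have hgb2 : g b ≠ a2 := by
    intro h1
    have := ggx b
    rw [h1, g2] at this
    exact hb3 this.symm
  have hgb3 : g b ≠ a3 := by
    intro h1
    have := ggx b
    rw [h1, g3] at this
    exact hb2 this.symm
  have hc1 := s4 c hcG hgb.symm hb2 hb3 hgb2 hgb3 h23 cb (by rw [← gc, cb]) c2 c3
  rw [hc1, Perm.one_apply] at c0
  exact h40 c0.symm

end H7.Jor
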