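import Mathlib
import Cfsg.Agent.H7_Jor1

set_option autoImplicit false

namespace H7.Jor

open MulAction

section loc

variable {Γ : Type*} [Group Γ] [Finite Γ] {α : Type*} [Fintype α] [MulAction Γ α] {p : ℕ} [hp : Fact p.Prime]
  {P : Subgroup Γ}

theorem stab_index {a : α} (ho : Nat.card (orbit P a) = p) : (stabilizer P a).index = p := by
  rw [MulAction.index_stabilizer]
  exact ho

theorem stab_normal (hP : IsPGroup p P) {a : α} (ho : Nat.card (orbit P a) = p) : (stabilizer P a).Normal := by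
  apply Subgroup.normal_of_index_eq_minFac_card
  rw [stab_index ho]
  obtain ⟨n, hn⟩ := IsPGroup.iff_card.1 hP
  have hn0 : n ≠ 0 := by
    rintro rfl
    have h1 := (stabilizer P a).index_dvd_card
    rw [hn, stab_index ho, pow_zero] at h1
    exact hp.out.one_lt.ne' (Nat.dvd_one.1 h1)
  rw [hn, hp.out.pow_minFac hn0]

theorem fix_orbit (hP : IsPGroup p P) {a : α} (ho : Nat.card (orbit P a) = p) {u v : Γ} (hu : u ∈ P) (hv : v ∈ P)
    (h : u • a = a) : u • (v • a) = v • a := by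
  have hn := stab_normal hP ho
  have h1 : (⟨u, hu⟩ : P) ∈ stabilizer P a := h
  have h2 := hn.conj_mem _ h1 (⟨v, hv⟩⁻¹ : P)
  have h3 : (v⁻¹ * u * v⁻¹⁻¹) • a = a := h2
  rw [inv_inv, mul_smul, mul_smul, inv_smul_eq_iff] at h3
  exact h3

theorem fix_orbit' (hP : IsPGroup p P) {a : α} (ho : Nat.card (orbit P a) = p) {u v : Γ} (hu : u ∈ P) (hv : v ∈ P)
    (h : u • (v • a) = v • a) : u • a = a := by
  have hn := stab_normal hP ho
  have h3 : (v⁻¹ * u * v) • a = a := by rw [mul_smul, mul_smul, h, inv_smul_smul]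
  have h1 : (⟨v⁻¹ * u * v, P.mul_mem (P.mul_mem (P.inv_mem hv) hu) hv⟩ : P) ∈ stabilizer P a := h3
  have h2 := hn.conj_mem _ h1 (⟨v, hv⟩ : P)
  have h4 : (v * (v⁻¹ * u * v) * v⁻¹) • a = a := h2
  rwa [show v * (v⁻¹ * u * v) * v⁻¹ = u by group] at h4

theorem pow_fix (hP : IsPGroup p P) {a : α} (ho : Nat.card (orbit P a) = p) {u : Γ} (hu : u ∈ P) : u ^ p • a = a := by
  haveI hn := stab_normal hP ho
  have h1 : Nat.card (P ⧸ stabilizer P a) = p := stab_index ho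
  have h2 : ((⟨u, hu⟩ : P) : P ⧸ stabilizer P a) ^ p = 1 := by
    have := pow_card_eq_one' (x := ((⟨u, hu⟩ : P) : P ⧸ stabilizer P a))
    rwa [h1] at this
  rw [← QuotientGroup.mk_pow, QuotientGroup.eq_one_iff] at h2
  exact h2

theorem comm_fix (hP : IsPGroup p P) {a : α} (ho : Nat.card (orbit P a) = p) {u v : Γ} (hu : u ∈ P) (hv : v ∈ P) :
    u • v • a = v • u • a := by
  haveI hn := stab_normal hP ho
  have h1 : Nat.card (P ⧸ stabilizer P a) = p := stab_index ho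
  haveI := isCyclic_of_prime_card h1
  have h2 : ((⟨u, hu⟩ * ⟨v, hv⟩ : P) : P ⧸ stabilizer P a) = ((⟨v, hv⟩ * ⟨u, hu⟩ : P) : P ⧸ stabilizer P a) := by
    rw [QuotientGroup.mk_mul, QuotientGroup.mk_mul]
    exact (IsCyclic.isMulCommutative (α := P ⧸ stabilizer P a)).is_comm.comm _ _
  rw [QuotientGroup.eq] at h2
  have h3 : ((u * v)⁻¹ * (v * u)) • a = a := h2
  rw [mul_smul, inv_smul_eq_iff, mul_smul, mul_smul] at h3
  exact h3.symm

theorem scal (hP : IsPGroup p P) {a : α} (ho : Nat.card (orbit P a) = p) {x : Γ} (hx : x ∈ Subgroup.normalizer (P : Set Γ))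
    (hxa : x • a ∈ orbit P a) : ∃ m : ℤ, ∀ u ∈ P, (x * u * x⁻¹) • a = u ^ m • a := by
  haveI hn := stab_normal hP ho
  have h1 : Nat.card (P ⧸ stabilizer P a) = p := stab_index ho
  haveI := isCyclic_of_prime_card h1
  let f : P →* P := MonoidHom.mk' (fun u : P => (⟨x * u * x⁻¹, (Subgroup.mem_normalizer_iff.1 hx u).1 u.2⟩ : P))
    (by intro u v; ext; simp only [Subgroup.coe_mul]; group)
  obtain ⟨w, hw⟩ := hxa
  have hf : stabilizer P a ≤ (stabilizer P a).comap f := by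
    intro u hu
    have hu' : (u : Γ) • a = a := hu
    show (x * (u : Γ) * x⁻¹) • a = a
    apply fix_orbit' hP ho (v := (w : Γ)) ((Subgroup.mem_normalizer_iff.1 hx u).1 u.2) w.2
    have hw' : (w : Γ) • a = x • a := hw
    rw [hw', mul_smul, mul_smul, inv_smul_smul, hu']
  obtain ⟨m, hm⟩ := MonoidHom.map_cyclic (QuotientGroup.map _ _ f hf)
  refine ⟨m, fun u hu => ?_⟩
  have h2 := hm ((⟨u, hu⟩ : P) : P ⧸ stabilizer P a)
  rw [QuotientGroup.map_mk, ← QuotientGroup.mk_zpow, QuotientGroup.eq] at h2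
  have h3 : ((x * u * x⁻¹)⁻¹ * u ^ m) • a = a := h2
  rw [mul_smul, inv_smul_eq_iff] at h3
  exact h3.symm

end loc

theorem smul_eq_of_fix_zpow {Γ : Type*} [Group Γ] {α : Type*} [MulAction Γ α] {u : Γ} {c : α} (h : u • c = c) (m : ℤ) :
    u ^ m • c = c := by
  have h1 : u ∈ stabilizer Γ c := h
  exact (stabilizer Γ c).zpow_mem h1 m

section glob

variable {Γ : Type*} [Group Γ] [Finite Γ] {α : Type*} [Fintype α] [MulAction Γ α] {p : ℕ} [hp : Fact p.Prime]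
  {P : Subgroup Γ} {Δ : Set α}

/-- elements preserving each moved orbit -/
def K (P : Subgroup Γ) (Δ : Set α) (x : Γ) : Prop :=
  x ∈ Subgroup.normalizer (P : Set Γ) ∧ ∀ b ∉ Δ, x • b ∈ orbit P b

theorem eq_of (hfix : ∀ u ∈ P, ∀ d ∈ Δ, u • d = d) (hL : ∀ g : Γ, (∀ a ∉ Δ, g • a = a) → g = 1)
    {u v : Γ} (h : ∀ a ∉ Δ, u • a = v • a) : u = v := by
  have := hL (v⁻¹ * u) (fun a ha => by rw [mul_smul, h a ha, inv_smul_smul])
  exact (inv_mul_eq_one.1 this).symm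

theorem Pcomm (hP : IsPGroup p P) (hfix : ∀ u ∈ P, ∀ d ∈ Δ, u • d = d) (hL : ∀ g : Γ, (∀ a ∉ Δ, g • a = a) → g = 1)
    (ho : ∀ a ∉ Δ, Nat.card (orbit P a) = p) {u v : Γ} (hu : u ∈ P) (hv : v ∈ P) : u * v = v * u := by
  apply eq_of hfix hL
  intro a ha
  rw [mul_smul, mul_smul]
  exact comm_fix hP (ho a ha) hu hv

theorem Ppow (hP : IsPGroup p P) (hL : ∀ g : Γ, (∀ a ∉ Δ, g • a = a) → g = 1)
    (ho : ∀ a ∉ Δ, Nat.card (orbit P a) = p) {u : Γ} (hu : u ∈ P) : u ^ p = 1 :=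
  hL _ (fun a ha => pow_fix hP (ho a ha) hu)

theorem conj_comm (hP : IsPGroup p P) (hfix : ∀ u ∈ P, ∀ d ∈ Δ, u • d = d) (hL : ∀ g : Γ, (∀ a ∉ Δ, g • a = a) → g = 1)
    (ho : ∀ a ∉ Δ, Nat.card (orbit P a) = p) {x y : Γ} (hx : K P Δ x) (hy : K P Δ y) {u : Γ} (hu : u ∈ P) :
    x * (y * u * y⁻¹) * x⁻¹ = y * (x * u * x⁻¹) * y⁻¹ := by
  apply eq_of hfix hL
  intro a ha
  obtain ⟨m, hm⟩ := scal hP (ho a ha) hx.1 (hx.2 a ha)
  obtain ⟨n, hn⟩ := scal hP (ho a ha) hy.1 (hy.2 a ha)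
  have e1 : (y * u * y⁻¹) ^ m = y * u ^ m * y⁻¹ := by rw [conj_zpow]
  have e2 : (x * u * x⁻¹) ^ n = x * u ^ n * x⁻¹ := by rw [conj_zpow]
  rw [hm _ ((Subgroup.mem_normalizer_iff.1 hy.1 u).1 hu), hn _ ((Subgroup.mem_normalizer_iff.1 hx.1 u).1 hu), e1, e2,
    hn _ (P.zpow_mem hu m), hm _ (P.zpow_mem hu n), ← zpow_mul, ← zpow_mul, mul_comm]

theorem D_pow (hP : IsPGroup p P) (hL : ∀ g : Γ, (∀ a ∉ Δ, g • a = a) → g = 1)
    (ho : ∀ a ∉ Δ, Nat.card (orbit P a) = p) {g : Γ} (hg : K P Δ g) (hc : ∀ u ∈ P, g * u = u * g) : g ^ p = 1 := by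
  apply hL
  intro a ha
  obtain ⟨u, hu⟩ := hg.2 a ha
  have hu' : (u : Γ) • a = g • a := hu
  have key : ∀ n : ℕ, g ^ n • a = (u : Γ) ^ n • a := by
    intro n
    induction n with
    | zero => simp
    | succ n ih =>
      have hcu : g * (u : Γ) ^ n = (u : Γ) ^ n * g := hc _ (P.pow_mem u.2 n)
      rw [pow_succ', mul_smul, ih, ← mul_smul, hcu, mul_smul, ← hu', ← mul_smul, ← pow_succ]
  rw [key, pow_fix hP (ho a ha) u.2]

theorem D_comm (hP : IsPGroup p P) (hL : ∀ g : Γ, (∀ a ∉ Δ, g • a = a) → g = 1)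
    (hfix : ∀ u ∈ P, ∀ d ∈ Δ, u • d = d)
    (ho : ∀ a ∉ Δ, Nat.card (orbit P a) = p) {g h : Γ} (hg : K P Δ g) (hcg : ∀ u ∈ P, g * u = u * g)
    (hh : K P Δ h) (hch : ∀ u ∈ P, h * u = u * h) : g * h = h * g := by
  apply eq_of hfix hL
  intro a ha
  obtain ⟨u, hu⟩ := hg.2 a ha
  obtain ⟨v, hv⟩ := hh.2 a ha
  have hu' : (u : Γ) • a = g • a := hu
  have hv' : (v : Γ) • a = h • a := hv
  rw [mul_smul, mul_smul, ← hv', ← hu', ← mul_smul, ← mul_smul, hcg _ v.2, hch _ u.2, mul_smul, mul_smul, ← hv', ← hu']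
  exact comm_fix hP (ho a ha) v.2 u.2

/-- scalar action when at most three moved orbits -/
theorem scalar (hP : IsPGroup p P) (hfix : ∀ u ∈ P, ∀ d ∈ Δ, u • d = d)
    (hL : ∀ g : Γ, (∀ a ∉ Δ, g • a = a) → g = 1)
    (ho : ∀ a ∉ Δ, Nat.card (orbit P a) = p)
    (hcyc : ∀ u ∈ P, u ≠ 1 → ∀ a ∉ Δ, ∃ b, u • b ≠ b ∧ b ∉ orbit P a)
    (h3 : ∀ a ∉ Δ, ∀ b ∉ Δ, ∀ c ∉ Δ, b ∉ orbit P a → c ∉ orbit P a → c ∉ orbit P b →
      ∀ d ∉ Δ, d ∈ orbit P a ∨ d ∈ orbit P b ∨ d ∈ orbit P c)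
    (hne : ∃ a, a ∉ Δ)
    {x : Γ} (hx : K P Δ x) : ∃ m : ℤ, ∀ u ∈ P, x * u * x⁻¹ = u ^ m := by
  classical
  have hxP : ∀ u ∈ P, x * u * x⁻¹ ∈ P := fun u hu => (Subgroup.mem_normalizer_iff.1 hx.1 u).1 hu
  by_cases hc : ∃ c, c ∉ Δ ∧ ∀ u ∈ P, u • c = c → u = 1
  · obtain ⟨c, hcΔ, hc⟩ := hc
    obtain ⟨m, hm⟩ := scal hP (ho c hcΔ) hx.1 (hx.2 c hcΔ)
    refine ⟨m, fun u hu => ?_⟩
    have h1 := hc ((u ^ m)⁻¹ * (x * u * x⁻¹)) (P.mul_mem (P.inv_mem (P.zpow_mem hu m)) (hxP u hu))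
      (by rw [mul_smul, hm u hu, inv_smul_smul])
    exact (inv_mul_eq_one.1 h1).symm
  · push Not at hc
    obtain ⟨a, ha⟩ := hne
    obtain ⟨m, hm⟩ := scal hP (ho a ha) hx.1 (hx.2 a ha)
    refine ⟨m, fun w hw => ?_⟩
    apply eq_of hfix hL
    intro b hb
    by_cases hba : b ∈ orbit P a
    · obtain ⟨v, rfl⟩ := hba
      have h1 : ((w ^ m)⁻¹ * (x * w * x⁻¹)) • a = a := by rw [mul_smul, hm w hw, inv_smul_smul]
      have h2 := fix_orbit hP (ho a ha) (P.mul_mem (P.inv_mem (P.zpow_mem hw m)) (hxP w hw)) v.2 h1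
      rw [mul_smul, inv_smul_eq_iff] at h2
      exact h2
    · -- different orbits
      obtain ⟨n, hn⟩ := scal hP (ho b hb) hx.1 (hx.2 b hb)
      obtain ⟨z, hz, hza, hz1⟩ := hc a ha
      obtain ⟨c, hzc, hcb⟩ := hcyc z hz hz1 b hb
      have hcΔ : c ∉ Δ := fun h => hzc (hfix z hz c h)
      have hca : c ∉ orbit P a := by
        rintro ⟨v, rfl⟩
        exact hzc (fix_orbit hP (ho a ha) hz v.2 hza)
      have hall := h3 a ha b hb c hcΔ hba hca hcb
      obtain ⟨u, hu, huc, hu1⟩ := hc c hcΔ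
      have hxc : (x * u * x⁻¹) • c = c := by
        obtain ⟨w', hw'⟩ := hx.2 c hcΔ
        have hw'' : (w' : Γ) • c = x • c := hw'
        apply fix_orbit' hP (ho c hcΔ) (hxP u hu) w'.2
        rw [hw'', mul_smul, mul_smul, inv_smul_smul, huc]
      -- an element fixing two of the orbits is trivial
      have triv : ∀ v ∈ P, ∀ d ∉ Δ, v • c = c → v • d = d → (∀ e ∉ Δ, e ∈ orbit P c ∨ e ∈ orbit P d ∨
          ∃ f, f ∉ Δ ∧ e ∈ orbit P f ∧ f = (if d = a then b else a)) → v = 1 := by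
        intro v hv d hd hvc hvd hcov
        by_contra hv1
        have hf : ∃ f, f ∉ Δ ∧ f = (if d = a then b else a) := by
          by_cases h : d = a
          · exact ⟨b, hb, by rw [if_pos h]⟩
          · exact ⟨a, ha, by rw [if_neg h]⟩
        obtain ⟨f, hfΔ, hf⟩ := hf
        obtain ⟨e, hve, hef⟩ := hcyc v hv hv1 f hfΔ
        have heΔ : e ∉ Δ := fun h => hve (hfix v hv e h)
        rcases hcov e heΔ with ⟨y, rfl⟩ | ⟨y, rfl⟩ | ⟨f', _, h', rfl⟩
        · exact hve (fix_orbit hP (ho c hcΔ) hv y.2 hvc)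
        · exact hve (fix_orbit hP (ho d hd) hv y.2 hvd)
        · rw [← hf] at h'; exact hef h'
      have hba' : b ≠ a := by rintro rfl; exact hba (mem_orbit_self _)
      have e1 : x * u * x⁻¹ = u ^ m := by
        have h1 := triv ((u ^ m)⁻¹ * (x * u * x⁻¹)) (P.mul_mem (P.inv_mem (P.zpow_mem hu m)) (hxP u hu)) a ha
          (by
            rw [mul_smul, hxc, inv_smul_eq_iff]
            exact (smul_eq_of_fix_zpow huc m).symm)
          (by rw [mul_smul, hm u hu, inv_smul_smul])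
          (by
            intro e he
            rcases hall e he with h | h | h
            · exact Or.inr (Or.inl h)
            · exact Or.inr (Or.inr ⟨b, hb, h, by rw [if_pos rfl]⟩)
            · exact Or.inl h)
        exact (inv_mul_eq_one.1 h1).symm
      have e2 : x * u * x⁻¹ = u ^ n := by
        have h1 := triv ((u ^ n)⁻¹ * (x * u * x⁻¹)) (P.mul_mem (P.inv_mem (P.zpow_mem hu n)) (hxP u hu)) b hb
          (by
            rw [mul_smul, hxc, inv_smul_eq_iff]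
            exact (smul_eq_of_fix_zpow huc n).symm)
          (by rw [mul_smul, hn u hu, inv_smul_smul])
          (by
            intro e he
            rcases hall e he with h | h | h
            · exact Or.inr (Or.inr ⟨a, ha, h, by rw [if_neg hba']⟩)
            · exact Or.inr (Or.inl h)
            · exact Or.inl h)
        exact (inv_mul_eq_one.1 h1).symm
      have e3 : u ^ (n - m) = 1 := by rw [zpow_sub, ← e1, ← e2, mul_inv_cancel]
      have hou : orderOf u = p := orderOf_eq_prime (Ppow hP hL ho hu) hu1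
      have e4 : (p : ℤ) ∣ n - m := by rw [← hou]; exact orderOf_dvd_iff_zpow_eq_one.2 e3
      obtain ⟨j, hj⟩ := e4
      have e5 : w ^ n = w ^ m := by
        have : n = m + p * j := by linarith
        rw [this, zpow_add, zpow_mul, zpow_natCast, Ppow hP hL ho hw, one_zpow, mul_one]
      rw [hn w hw, e5]

end glob

end H7.Jor
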