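import Mathlib
import Cfsg.Agent.H7_Jor2

set_option autoImplicit false

namespace H7.Jor

open MulAction Equiv

theorem final {Γ : Type*} [Group Γ] [Finite Γ] {α : Type*} [Fintype α] [MulAction Γ α] {p : ℕ} [hp : Fact p.Prime]
    {P : Subgroup Γ} {Δ : Set α} (hP : IsPGroup p P) (hfix : ∀ u ∈ P, ∀ d ∈ Δ, u • d = d)
    (hL : ∀ g : Γ, (∀ a ∉ Δ, g • a = a) → g = 1)
    (ho : ∀ a ∉ Δ, Nat.card (orbit P a) = p)
    (hcyc : ∀ u ∈ P, u ≠ 1 → ∀ a ∉ Δ, ∃ b, u • b ≠ b ∧ b ∉ orbit P a)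
    (hne : ∃ a, a ∉ Δ)
    {ι : Type*} [Fintype ι] [DecidableEq ι] {Ω : Type*} [Fintype Ω] [DecidableEq Ω]
    (φ : Subgroup.normalizer (P : Set Γ) →* Perm ι) (hφ : Function.Surjective φ)
    (ψ : Subgroup.normalizer (P : Set Γ) →* Perm Ω) (hψ : ∀ x ∈ ψ.ker, K P Δ (x : Γ))
    (hp3 : 3 ≤ p) (hr3 : 3 ≤ Fintype.card ι) (hsp : Fintype.card ι = 3 → 3 < p)
    (hk0 : 0 < Fintype.card Ω) (hk : Fintype.card Ω < Fintype.card ι)
    (h3 : Fintype.card Ω ≤ 3 → ∀ a ∉ Δ, ∀ b ∉ Δ, ∀ c ∉ Δ, b ∉ orbit P a → c ∉ orbit P a → c ∉ orbit P b →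
      ∀ d ∉ Δ, d ∈ orbit P a ∨ d ∈ orbit P b ∨ d ∈ orbit P c) : False := by
  -- centralizing elements act trivially
  have hD : ∀ x ∈ ψ.ker, (∀ u ∈ P, (x : Γ) * u = u * x) → φ x = 1 := by
    intro x hx hxc
    have hpow : (φ x) ^ p = 1 := by
      rw [← map_pow]
      have h1 : x ^ p = 1 := by
        apply Subtype.ext
        rw [Subgroup.coe_pow]
        exact D_pow hP hL ho (hψ x hx) hxc
      rw [h1, map_one]
    have hd1 : orderOf (φ x) ∣ p := orderOf_dvd_of_pow_eq_one hpow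
    rcases Nat.lt_or_ge (Fintype.card ι) 4 with h4 | h4
    · have hr : Fintype.card ι = 3 := by omega
      have hd2 : orderOf (φ x) ∣ 6 := by
        have h2 : orderOf (φ x) ∣ Fintype.card (Perm ι) := orderOf_dvd_card
        rw [Fintype.card_perm, hr] at h2
        exact h2
      have h5 := hsp hr
      rcases (Nat.dvd_prime hp.out).1 hd1 with h6 | h6
      · exact orderOf_eq_one_iff.1 h6
      · rw [h6] at hd2
        have h7 := Nat.le_of_dvd (by norm_num) hd2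
        have h8 := hp.out
        interval_cases p
        · exact absurd h8 (by norm_num)
        · exact absurd hd2 (by norm_num)
        · exact absurd h8 (by norm_num)
    · have hsq : ∀ a, φ x (φ x a) = a := by
        refine pl1 h4 {σ | ∃ y ∈ ψ.ker, (∀ u ∈ P, (y : Γ) * u = u * y) ∧ φ y = σ} ?_ ?_ ⟨x, hx, hxc, rfl⟩
        · rintro τ σ ⟨y, hy, hyc, rfl⟩
          obtain ⟨t, rfl⟩ := hφ τ
          refine ⟨t * y * t⁻¹, ψ.normal_ker.conj_mem y hy t, ?_, by simp only [map_mul, map_inv]⟩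
          intro u hu
          have hu' : (t : Γ)⁻¹ * u * t ∈ P := by
            have h9 := (Subgroup.mem_normalizer_iff.1 ((Subgroup.normalizer (P : Set Γ)).inv_mem t.2) u).1 hu
            rwa [inv_inv] at h9
          have h10 := hyc _ hu'
          simp only [Subgroup.coe_mul, Subgroup.coe_inv]
          calc (t : Γ) * y * (t : Γ)⁻¹ * u = t * (y * ((t : Γ)⁻¹ * u * t)) * (t : Γ)⁻¹ := by group
            _ = t * (((t : Γ)⁻¹ * u * t) * y) * (t : Γ)⁻¹ := by rw [h10]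
            _ = u * (t * y * (t : Γ)⁻¹) := by group
        · rintro σ ⟨y, hy, hyc, rfl⟩ σ' ⟨z, hz, hzc, rfl⟩
          rw [← map_mul, ← map_mul]
          congr 1
          apply Subtype.ext
          exact D_comm hP hL hfix ho (hψ y hy) hyc (hψ z hz) hzc
      have h2 : (φ x) ^ 2 = 1 := by
        ext a
        rw [sq, Perm.mul_apply, hsq]
        rfl
      have hd2 : orderOf (φ x) ∣ 2 := orderOf_dvd_of_pow_eq_one h2
      have hcop : Nat.Coprime 2 p := by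
        rw [Nat.coprime_primes Nat.prime_two hp.out]
        omega
      exact orderOf_eq_one_iff.1 (Nat.eq_one_of_dvd_coprimes hcop hd2 hd1)
  -- commutation
  have hcomm : ∀ x ∈ ψ.ker, ∀ y ∈ ψ.ker, φ x * φ y = φ y * φ x := by
    intro x hx y hy
    have h1 := hD ((y * x)⁻¹ * (x * y)) (ψ.ker.mul_mem (ψ.ker.inv_mem (ψ.ker.mul_mem hy hx)) (ψ.ker.mul_mem hx hy)) (by
      intro u hu
      have h2 := conj_comm hP hfix hL ho (hψ x hx) (hψ y hy) hu
      simp only [Subgroup.coe_mul, Subgroup.coe_inv]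
      have h3 : ((y : Γ) * x)⁻¹ * (x * y) * u * (((y : Γ) * x)⁻¹ * (x * y))⁻¹ = u := by
        calc ((y : Γ) * x)⁻¹ * (x * y) * u * (((y : Γ) * x)⁻¹ * (x * y))⁻¹
            = ((y : Γ) * x)⁻¹ * (x * (y * u * (y : Γ)⁻¹) * (x : Γ)⁻¹) * (y * x) := by group
          _ = ((y : Γ) * x)⁻¹ * (y * (x * u * (x : Γ)⁻¹) * (y : Γ)⁻¹) * (y * x) := by rw [h2]
          _ = u := by group
      exact mul_inv_eq_iff_eq_mul.1 h3)
    rw [map_mul, map_inv, map_mul, map_mul] at h1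
    exact (inv_mul_eq_one.1 h1).symm
  -- kernel containment
  have hker : ψ.ker ≤ φ.ker := by
    intro x hx
    rw [MonoidHom.mem_ker]
    rcases Nat.lt_or_ge (Fintype.card ι) 5 with h5 | h5
    · obtain ⟨m, hm⟩ := scalar hP hfix hL ho hcyc (h3 (by omega)) hne (hψ x hx)
      apply pl3 hr3
      intro τ
      obtain ⟨t, rfl⟩ := hφ τ
      have h1 := hD (x⁻¹ * (t * x * t⁻¹)) (ψ.ker.mul_mem (ψ.ker.inv_mem hx) (ψ.normal_ker.conj_mem x hx t)) (by
        intro u hu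
        have hu' : (t : Γ)⁻¹ * u * t ∈ P := by
          have h9 := (Subgroup.mem_normalizer_iff.1 ((Subgroup.normalizer (P : Set Γ)).inv_mem t.2) u).1 hu
          rwa [inv_inv] at h9
        have e1 := hm u hu
        have e2 := hm _ hu'
        have e3 : ((t : Γ)⁻¹ * u * t) ^ m = (t : Γ)⁻¹ * u ^ m * t := by
          have := conj_zpow (i := m) (a := (t : Γ)⁻¹) (b := u)
          rwa [inv_inv] at this
        simp only [Subgroup.coe_mul, Subgroup.coe_inv]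
        have h3 : (x : Γ)⁻¹ * (t * x * (t : Γ)⁻¹) * u * ((x : Γ)⁻¹ * (t * x * (t : Γ)⁻¹))⁻¹ = u := by
          calc (x : Γ)⁻¹ * (t * x * (t : Γ)⁻¹) * u * ((x : Γ)⁻¹ * (t * x * (t : Γ)⁻¹))⁻¹
              = (x : Γ)⁻¹ * (t * (x * ((t : Γ)⁻¹ * u * t) * (x : Γ)⁻¹) * (t : Γ)⁻¹) * x := by group
            _ = (x : Γ)⁻¹ * (t * ((t : Γ)⁻¹ * u ^ m * t) * (t : Γ)⁻¹) * x := by rw [e2, e3]
            _ = (x : Γ)⁻¹ * (u ^ m) * x := by group
            _ = (x : Γ)⁻¹ * (x * u * (x : Γ)⁻¹) * x := by rw [e1]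
            _ = u := by group
        exact mul_inv_eq_iff_eq_mul.1 h3)
      rw [map_mul, map_inv, map_mul, map_mul, map_inv] at h1
      have h2 : φ x = φ t * φ x * (φ t)⁻¹ := inv_mul_eq_one.1 h1
      rw [eq_mul_inv_iff_mul_eq] at h2
      exact h2.symm
    · refine pl2 h5 {σ | ∃ y ∈ ψ.ker, φ y = σ} ?_ ?_ ⟨x, hx, rfl⟩
      · rintro τ σ ⟨y, hy, rfl⟩
        obtain ⟨t, rfl⟩ := hφ τ
        exact ⟨t * y * t⁻¹, ψ.normal_ker.conj_mem y hy t, by simp only [map_mul, map_inv]⟩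
      · rintro σ ⟨y, hy, rfl⟩ σ' ⟨z, hz, rfl⟩
        exact hcomm y hy z hz
  have h1 := Subgroup.index_dvd_of_le hker
  rw [Subgroup.index_ker, Subgroup.index_ker, MonoidHom.range_eq_top.2 hφ] at h1
  have h2 : Nat.card (⊤ : Subgroup (Perm ι)) = (Fintype.card ι).factorial := by
    rw [Subgroup.card_top, Nat.card_eq_fintype_card, Fintype.card_perm]
  have h4 : Nat.card ψ.range ∣ (Fintype.card Ω).factorial := by
    have := ψ.range.card_subgroup_dvd_card
    rwa [Nat.card_eq_fintype_card (α := Perm Ω), Fintype.card_perm] at this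
  rw [h2] at h1
  have h5 := Nat.le_of_dvd (Nat.factorial_pos _) (h1.trans h4)
  exact absurd ((Nat.factorial_lt hk0).2 hk) (not_lt.2 h5)

end H7.Jor
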