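import Cfsg.Statements.S4219
import Mathlib
import Cfsg.Agent.H20_Basic

set_option autoImplicit false
open Cfsg

namespace Cfsg.Agent.S4219

/-- Let a finite group `G` act `t`-fold transitively on a finite set, let `H` be the stabilizer of `t` distinct points and `P` a Sylow `p`-subgroup of `H`. Then the normalizer of `P` in `G` is `t`-fold transitive on the fixed points of `P`: any `t` distinct fixed points of `P` can be carried to any other `t` distinct fixed points of `P` by an element normalizing `P`. -/
theorem result {G : Type*} [Group G] [Finite G] {α : Type*} [Fintype α] [MulAction G α] {t : ℕ} (hG : MulAction.IsMultiplyPretransitive G α t) (x : Fin t ↪ α) {p : ℕ} [Fact p.Prime] (P : Sylow p (MulAction.stabilizer G x)) (a b : Fin t ↪ α) (ha : ∀ i, a i ∈ MulAction.fixedPoints ((P : Subgroup (MulAction.stabilizer G x)).map (MulAction.stabilizer G x).subtype) α) (hb : ∀ i, b i ∈ MulAction.fixedPoints ((P : Subgroup (MulAction.stabilizer G x)).map (MulAction.stabilizer G x).subtype) α) : ∃ g ∈ Subgroup.normalizer ((((P : Subgroup (MulAction.stabilizer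 G x)).map (MulAction.stabilizer G x).subtype) : Subgroup G) : Set G), g • a = b := by
  set P' : Subgroup G := (P : Subgroup (MulAction.stabilizer G x)).map (MulAction.stabilizer G x).subtype with hP'
  have hP'p : IsPGroup p P' := P.isPGroup'.map _
  have hP'S : P' ≤ MulAction.stabilizer G x := Subgroup.map_subtype_le _
  have hP'i : ¬ p ∣ P'.relIndex (MulAction.stabilizer G x) := by
    have h : P'.relIndex (MulAction.stabilizer G x) = (P : Subgroup (MulAction.stabilizer G x)).index := by
      rw [hP', Subgroup.relIndex, Subgroup.subgroupOf, Subgroup.comap_map_eq_self_of_injective (MulAction.stabilizer G x).subtype_injective]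
    rw [h]; exact P.not_dvd_index
  have hpt : ∀ c : Fin t ↪ α, (∀ i, c i ∈ MulAction.fixedPoints P' α) → P' ≤ MulAction.stabilizer G c := by
    intro c hc g hg
    rw [MulAction.mem_stabilizer_iff]
    ext i
    exact hc i ⟨g, hg⟩
  have htr : MulAction.IsPretransitive G (Fin t ↪ α) := hG
  -- relative index in conjugate stabilizers
  have hcard : ∀ c : Fin t ↪ α, Nat.card (MulAction.stabilizer G c) = Nat.card (MulAction.stabilizer G x) := by
    intro c
    obtain ⟨g, hg⟩ := MulAction.exists_smul_eq G x c
    rw [← hg, MulAction.stabilizer_smul_eq_stabilizer_map_conj]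
    exact Subgroup.card_map_of_injective (MulAut.conj g).injective
  have hrel : ∀ (K L : Subgroup G), K ≤ L → Nat.card K * K.relIndex L = Nat.card L := by
    intro K L hKL
    have := Subgroup.relIndex_mul_relIndex (⊥ : Subgroup G) K L bot_le hKL
    rwa [Subgroup.relIndex_bot_left, Subgroup.relIndex_bot_left] at this
  have hidx : ∀ (c : Fin t ↪ α) (K : Subgroup G), K ≤ MulAction.stabilizer G c → Nat.card K = Nat.card P' →
      K.relIndex (MulAction.stabilizer G c) = P'.relIndex (MulAction.stabilizer G x) := by
    intro c K hK hKc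
    have h1 := hrel K _ hK
    have h2 := hrel P' _ hP'S
    rw [hcard c, ← h2, hKc] at h1
    exact Nat.eq_of_mul_eq_mul_left Nat.card_pos h1
  obtain ⟨g, hg⟩ := MulAction.exists_smul_eq G a b
  have hK : P'.map (MulAut.conj g).toMonoidHom ≤ MulAction.stabilizer G b := by
    rw [← hg, MulAction.stabilizer_smul_eq_stabilizer_map_conj]
    exact Subgroup.map_mono (hpt a ha)
  have hKcard : Nat.card (P'.map (MulAut.conj g).toMonoidHom) = Nat.card P' :=
    Subgroup.card_map_of_injective (MulAut.conj g).injective
  obtain ⟨h, hh, hconj⟩ := Cfsg.Agent.H20.Basic.exists_conj_of_relIndex (p := p) (MulAction.stabilizer G b)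
    (P'.map (MulAut.conj g).toMonoidHom) P' hK (hpt b hb) (hP'p.map _) hP'p
    (by rw [hidx b _ hK hKcard]; exact hP'i) (by rw [hidx b _ (hpt b hb) rfl]; exact hP'i)
  refine ⟨h * g, ?_, ?_⟩
  · rw [Subgroup.mem_normalizer_iff]
    intro y
    have h1 := hconj (g * y * g⁻¹)
    have h2 : g * y * g⁻¹ ∈ P'.map (MulAut.conj g).toMonoidHom ↔ y ∈ P' := by
      constructor
      · rintro ⟨z, hz, hzy⟩
        simp only [MulEquiv.toMonoidHom_eq_coe, MonoidHom.coe_coe, MulAut.conj_apply] at hzy
        have : z = y := by simpa using hzy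
        rw [← this]; exact hz
      · intro hy
        exact ⟨y, hy, rfl⟩
    rw [← h2, h1]
    have e : h * (g * y * g⁻¹) * h⁻¹ = h * g * y * (h * g)⁻¹ := by group
    rw [e]
  · rw [mul_smul, hg]
    exact hh

end Cfsg.Agent.S4219
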