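import Mathlib
import Cfsg.Agent.H7_Jor3
import Cfsg.Agent.S0713
import Cfsg.Agent.S4219

set_option autoImplicit false

namespace H7.Jor

open MulAction Equiv

theorem main {α : Type*} [Fintype α] [DecidableEq α] (G : Subgroup (Equiv.Perm α)) {k p r : ℕ} (hp : p.Prime)
    (hn : Fintype.card α = k * p + r) (hk : 1 ≤ k) (hpk : k < p) (hrk : k < r) (hex : ¬ (k = 1 ∧ r = 2))
    (hG : MulAction.IsMultiplyPretransitive G α (r + 1)) : alternatingGroup α ≤ G := by
  classical
  by_contra hcon
  haveI : Fact p.Prime := ⟨hp⟩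
  have hr3 : 3 ≤ r := by
    by_contra h
    exact hex ⟨by omega, by omega⟩
  have hp2 := hp.two_le
  have hkp : p ≤ k * p := Nat.le_mul_of_pos_left p (by omega)
  have hrn : r + 1 ≤ Fintype.card α := by omega
  have hGr : IsMultiplyPretransitive G α r := by
    haveI := hG
    exact isMultiplyPretransitive_of_le (n := r + 1) (by omega) (by rw [Nat.card_eq_fintype_card]; omega)
  have h2t : IsMultiplyPretransitive G α 2 := by
    haveI := hG
    exact isMultiplyPretransitive_of_le (n := r + 1) (by omega) (by rw [Nat.card_eq_fintype_card]; omega)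
  have hprim : IsPreprimitive G α := isPreprimitive_of_is_two_pretransitive h2t
  have hsmall : ∀ g : G, g ≠ 1 → ¬ (g : Perm α).support.card < 2 * (r + 1) - 2 := by
    intro g hg1 hs
    exact hcon (Cfsg.Agent.S0711.result G (k := r + 1) (by omega) hrn hG g g.2 (fun h => hg1 (Subtype.ext h)) hs).2
  obtain ⟨e⟩ : Nonempty (Fin r ↪ α) := Function.Embedding.nonempty_of_card_le (by rw [Fintype.card_fin]; omega)
  set Δ : Set α := Set.range e with hΔdef
  set H := stabilizer G e with hHdef
  obtain ⟨S⟩ : Nonempty (Sylow p H) := inferInstance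
  set P : Subgroup G := (S : Subgroup H).map H.subtype with hPdef
  have hP : IsPGroup p P := S.isPGroup'.map _
  have hHfix : ∀ h ∈ H, ∀ i, h • e i = e i := fun h hh i => DFunLike.congr_fun hh i
  have hPH : P ≤ H := Subgroup.map_subtype_le _
  have hfix : ∀ u ∈ P, ∀ d ∈ Δ, u • d = d := by
    rintro u hu _ ⟨i, rfl⟩
    exact hHfix u (hPH hu) i
  have hL : ∀ g : G, (∀ a ∉ Δ, g • a = a) → g = 1 := by
    intro g hg
    by_contra hg1
    apply hsmall g hg1
    have h1 : (g : Perm α).support ⊆ Finset.univ.image e := by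
      intro a ha
      by_contra h
      apply Perm.mem_support.1 ha
      apply hg a
      rintro ⟨i, rfl⟩
      exact h (Finset.mem_image_of_mem _ (Finset.mem_univ _))
    have h2 := Finset.card_le_card h1
    have h3 : (Finset.univ.image e).card ≤ r := by
      refine Finset.card_image_le.trans ?_
      rw [Finset.card_univ, Fintype.card_fin]
    omega
  have hΔc : Δᶜ.ncard = k * p := by
    rw [Set.ncard_compl, hΔdef, ← Nat.card_coe_set_eq, Nat.card_range_of_injective e.injective, Nat.card_fin,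
      Nat.card_eq_fintype_card, hn]
    omega
  have hPΔ : ∀ a ∉ Δ, ∀ u ∈ P, u • a ∉ Δ := by
    intro a ha u hu h
    have h1 := hfix u⁻¹ (P.inv_mem hu) _ h
    rw [inv_smul_smul] at h1
    rw [← h1] at h
    exact ha h
  have ho : ∀ a ∉ Δ, Nat.card (orbit P a) = p := by
    intro a ha
    have horbH : orbit H a = Δᶜ := by
      ext b
      constructor
      · rintro ⟨h, rfl⟩ ⟨i, hi⟩
        apply ha
        have h1 : (h : G) • a = e i := hi.symm
        have h2 := hHfix h h.2 i
        rw [← h2] at h1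
        exact ⟨i, (smul_left_cancel _ h1).symm⟩
      · intro hb
        have htr : MulAction.IsPretransitive G (Fin (r + 1) ↪ α) := hG
        obtain ⟨g, hg⟩ := MulAction.exists_smul_eq G
          (⟨Fin.cons a e, Fin.cons_injective_iff.2 ⟨ha, e.injective⟩⟩ : Fin (r + 1) ↪ α)
          ⟨Fin.cons b e, Fin.cons_injective_iff.2 ⟨hb, e.injective⟩⟩
        have h0 : g • a = b := DFunLike.congr_fun hg 0
        have h1 : ∀ i : Fin r, g • e i = e i := fun i => DFunLike.congr_fun hg i.succ
        have hgH : g ∈ H := by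
          rw [hHdef, mem_stabilizer_iff]
          ext i
          exact h1 i
        exact ⟨⟨g, hgH⟩, h0⟩
    have hidx : (stabilizer H a).index = k * p := by rw [index_stabilizer, horbH, hΔc]
    have hnofix : ¬ ∀ u ∈ P, u • a = a := by
      intro hall
      have h1 : (S : Subgroup H) ≤ stabilizer H a := fun s hs => hall (s : G) ⟨s, hs, rfl⟩
      have h2 := Subgroup.index_dvd_of_le h1
      rw [hidx] at h2
      exact S.not_dvd_index ((Dvd.intro_left k rfl).trans h2)
    obtain ⟨j, hj⟩ := hP.card_orbit a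
    have hj0 : j ≠ 0 := by
      rintro rfl
      rw [pow_zero, Nat.card_eq_one_iff_unique] at hj
      apply hnofix
      intro u hu
      haveI := hj.1
      have := Subsingleton.elim (⟨u • a, ⟨(⟨u, hu⟩ : P), rfl⟩⟩ : orbit P a) ⟨a, mem_orbit_self a⟩
      exact congrArg Subtype.val this
    have hle : Nat.card (orbit P a) ≤ k * p := by
      rw [← hΔc, Nat.card_coe_set_eq]
      refine Set.ncard_le_ncard ?_ (Set.toFinite _)
      rintro _ ⟨u, rfl⟩
      exact hPΔ a ha u u.2
    have hj2 : j < 2 := by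
      rw [← Nat.pow_lt_pow_iff_right hp.one_lt, ← hj]
      refine lt_of_le_of_lt hle ?_
      rw [sq]
      exact Nat.mul_lt_mul_of_pos_right hpk hp.pos
    have : j = 1 := by omega
    rw [hj, this, pow_one]
  have hcyc : ∀ u ∈ P, u ≠ 1 → ∀ a ∉ Δ, ∃ b, u • b ≠ b ∧ b ∉ orbit P a := by
    intro u hu hu1 a ha
    by_contra hno
    push Not at hno
    have hup := Ppow hP hL ho hu
    have hou : orderOf (u : Perm α) = p := by
      rw [Subgroup.orderOf_coe]
      exact orderOf_eq_prime hup hu1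
    have h1 : (u : Perm α).support.card ≤ p := by
      rw [← ho a ha, Nat.card_eq_fintype_card, ← Set.toFinset_card]
      apply Finset.card_le_card
      intro b hb
      rw [Set.mem_toFinset]
      exact hno b (Perm.mem_support.1 hb)
    have hcy : (u : Perm α).IsCycle := Equiv.Perm.isCycle_of_prime_order (by rw [hou]; exact hp) (by rw [hou]; omega)
    exact hcon (Cfsg.Agent.S0713.result G hprim hp (by omega) (by omega) hcy (by rw [← hcy.orderOf, hou]) u.2)
  -- normalizer facts
  have hΔfix : ∀ a, (∀ u ∈ P, u • a = a) → a ∈ Δ := by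
    intro a hall
    by_contra ha
    have h1 := ho a ha
    have h2 : Nat.card (orbit P a) = 1 := by
      rw [Nat.card_eq_one_iff_unique]
      refine ⟨⟨?_⟩, ⟨⟨a, mem_orbit_self a⟩⟩⟩
      rintro ⟨_, u, rfl⟩ ⟨_, v, rfl⟩
      apply Subtype.ext
      exact (hall u u.2).trans (hall v v.2).symm
    rw [h1] at h2
    exact hp.one_lt.ne' h2
  have hNP : ∀ g ∈ Subgroup.normalizer (P : Set G), ∀ u ∈ P, g⁻¹ * u * g ∈ P := by
    intro g hg u hu
    have h9 := (Subgroup.mem_normalizer_iff.1 ((Subgroup.normalizer (P : Set G)).inv_mem hg) u).1 hu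
    rwa [inv_inv] at h9
  have hNΔ : ∀ g ∈ Subgroup.normalizer (P : Set G), ∀ d ∈ Δ, g • d ∈ Δ := by
    intro g hg d hd
    apply hΔfix
    intro u hu
    have h1 := hfix _ (hNP g hg u hu) d hd
    rw [mul_smul, mul_smul, inv_smul_eq_iff] at h1
    exact h1
  have hNΔc : ∀ g ∈ Subgroup.normalizer (P : Set G), ∀ a ∉ Δ, g • a ∉ Δ := by
    intro g hg a ha h
    apply ha
    have := hNΔ g⁻¹ ((Subgroup.normalizer (P : Set G)).inv_mem hg) _ h
    rwa [inv_smul_smul] at this
  have hNorb : ∀ g ∈ Subgroup.normalizer (P : Set G), ∀ a : α, (fun x : α => g • x) '' orbit P a = orbit P (g • a) := by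
    intro g hg a
    ext b
    constructor
    · rintro ⟨_, ⟨u, rfl⟩, rfl⟩
      refine ⟨⟨g * u * g⁻¹, (Subgroup.mem_normalizer_iff.1 hg u).1 u.2⟩, ?_⟩
      show (g * (u : G) * g⁻¹) • g • a = g • (u : G) • a
      rw [mul_smul, mul_smul, inv_smul_smul]
    · rintro ⟨u, rfl⟩
      refine ⟨(g⁻¹ * (u : G) * g) • a, ⟨⟨g⁻¹ * u * g, hNP g hg u u.2⟩, rfl⟩, ?_⟩
      show g • ((g⁻¹ * (u : G) * g) • a) = (u : G) • g • a
      rw [mul_smul, mul_smul, smul_inv_smul]
  -- the two actions
  letI act1 : MulAction (Subgroup.normalizer (P : Set G)) Δ :=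
    { smul := fun g d => ⟨(g : G) • (d : α), hNΔ g g.2 d d.2⟩
      one_smul := fun d => Subtype.ext (one_smul G (d : α))
      mul_smul := fun g h d => Subtype.ext (mul_smul (g : G) (h : G) (d : α)) }
  let Ω := {s : Set α // ∃ a ∉ Δ, s = orbit P a}
  letI act2 : MulAction (Subgroup.normalizer (P : Set G)) Ω :=
    { smul := fun g s => ⟨(fun x : α => (g : G) • x) '' s.1, by
        obtain ⟨a, ha, hs⟩ := s.2
        exact ⟨(g : G) • a, hNΔc g g.2 a ha, by rw [hs]; exact hNorb g g.2 a⟩⟩
      one_smul := fun s => by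
        apply Subtype.ext
        show (fun x : α => ((1 : Subgroup.normalizer (P : Set G)) : G) • x) '' s.1 = s.1
        simp
      mul_smul := fun g h s => by
        apply Subtype.ext
        show (fun x : α => ((g * h : Subgroup.normalizer (P : Set G)) : G) • x) '' s.1 =
          (fun x : α => (g : G) • x) '' ((fun x : α => (h : G) • x) '' s.1)
        rw [Set.image_image]
        simp only [Subgroup.coe_mul, mul_smul] }
  haveI : Finite Ω := Subtype.finite
  letI : Fintype Ω := Fintype.ofFinite Ω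
  let φ := MulAction.toPermHom (Subgroup.normalizer (P : Set G)) Δ
  let ψ := MulAction.toPermHom (Subgroup.normalizer (P : Set G)) Ω
  have hφ : Function.Surjective φ := by
    intro τ
    let b : Fin r ↪ α := ⟨fun i => (τ ⟨e i, ⟨i, rfl⟩⟩ : α), fun i j h => by
      have h1 := τ.injective (Subtype.ext h)
      exact e.injective (congrArg Subtype.val h1)⟩
    obtain ⟨g, hg, hge⟩ := Cfsg.Agent.S4219.result (G := G) hGr e S e b
      (fun i u => hfix u u.2 _ ⟨i, rfl⟩) (fun i u => hfix u u.2 _ (τ ⟨e i, ⟨i, rfl⟩⟩).2)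
    refine ⟨⟨g, hg⟩, ?_⟩
    ext ⟨_, i, rfl⟩
    exact DFunLike.congr_fun hge i
  have hψ : ∀ x ∈ ψ.ker, K P Δ (x : G) := by
    intro x hx
    refine ⟨x.2, fun b hb => ?_⟩
    have h1 : ψ x = 1 := hx
    have h2 := congrArg (fun π : Perm Ω => (π ⟨orbit P b, b, hb, rfl⟩).1) h1
    have h3 : (fun y : α => (x : G) • y) '' orbit P b = orbit P b := h2
    rw [← h3]
    exact ⟨b, mem_orbit_self b, rfl⟩
  have hι : Fintype.card Δ = r := by
    rw [← Nat.card_eq_fintype_card, hΔdef, Nat.card_range_of_injective e.injective, Nat.card_fin]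
  have hΩ : Fintype.card Ω = k := by
    let f : (Δᶜ : Set α) → Ω := fun a => ⟨orbit P (a : α), a, a.2, rfl⟩
    have h1 : Nat.card (Δᶜ : Set α) = Nat.card (Σ s : Ω, {a : (Δᶜ : Set α) // f a = s}) :=
      Nat.card_congr (Equiv.sigmaFiberEquiv f).symm
    have h2 : ∀ s : Ω, Nat.card {a : (Δᶜ : Set α) // f a = s} = p := by
      rintro ⟨s, a₀, ha₀, rfl⟩
      rw [← ho a₀ ha₀]
      apply Nat.card_congr
      refine ⟨fun a => ⟨a.1.1, ?_⟩, fun b => ⟨⟨b.1, ?_⟩, ?_⟩, ?_, ?_⟩
      · have h3 : orbit P (a.1.1) = orbit P a₀ := congrArg Subtype.val a.2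
        exact MulAction.orbit_eq_iff.1 h3
      · obtain ⟨_, u, rfl⟩ := b
        exact hPΔ a₀ ha₀ u u.2
      · apply Subtype.ext
        exact MulAction.orbit_eq_iff.2 b.2
      · intro a; rfl
      · intro b; rfl
    rw [Nat.card_sigma, Finset.sum_congr rfl (fun s _ => h2 s), Finset.sum_const, Finset.card_univ, smul_eq_mul,
      Nat.card_coe_set_eq, hΔc] at h1
    exact (Nat.eq_of_mul_eq_mul_right hp.pos h1).symm
  obtain ⟨a₀, ha₀⟩ : ∃ a, a ∉ Δ := by
    by_contra h
    push Not at h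
    have : Δᶜ = ∅ := by ext x; simpa using h x
    rw [this, Set.ncard_empty] at hΔc
    omega
  have hk2 : 2 ≤ k := by
    by_contra hk2
    have hP1 : ∃ u ∈ P, u ≠ 1 := by
      by_contra hcon2
      push Not at hcon2
      apply ha₀
      apply hΔfix
      intro u hu
      rw [hcon2 u hu, one_smul]
    obtain ⟨u, hu, hu1⟩ := hP1
    obtain ⟨b, hb, hbo⟩ := hcyc u hu hu1 a₀ ha₀
    have hbΔ : b ∉ Δ := fun h => hb (hfix u hu b h)
    have h1 : Fintype.card Ω ≤ 1 := by omega
    haveI := Fintype.card_le_one_iff_subsingleton.1 h1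
    have h2 := congrArg Subtype.val (Subsingleton.elim (⟨orbit P b, b, hbΔ, rfl⟩ : Ω) ⟨orbit P a₀, a₀, ha₀, rfl⟩)
    exact hbo (MulAction.orbit_eq_iff.1 h2)
  have hsp : r = 3 → 3 < p := by
    intro hr
    by_contra h3
    have hk' : k = 2 := by omega
    have hp' : p = 3 := by omega
    subst hr hk' hp'
    exact hcon (nine G hn hG)
  refine final (ι := Δ) (Ω := Ω) hP hfix hL ho hcyc ⟨a₀, ha₀⟩ φ hφ ψ hψ (by omega) (by rw [hι]; exact hr3)
    (fun h => hsp (by rw [← hι]; exact h)) (by rw [hΩ]; omega) (by rw [hΩ, hι]; exact hrk) ?_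
  intro hΩ3 a ha b hb c hc hba hca hcb d hd
  by_contra hno
  push Not at hno
  obtain ⟨hda, hdb, hdc⟩ := hno
  let F : Fin 4 → Ω := ![⟨orbit P a, a, ha, rfl⟩, ⟨orbit P b, b, hb, rfl⟩, ⟨orbit P c, c, hc, rfl⟩, ⟨orbit P d, d, hd, rfl⟩]
  have hne : ∀ {x y : α} (hx : x ∉ Δ) (hy : y ∉ Δ), y ∉ orbit P x → (⟨orbit P x, x, hx, rfl⟩ : Ω) ≠ ⟨orbit P y, y, hy, rfl⟩ := by
    intro x y hx hy h h2
    exact h (MulAction.orbit_eq_iff.1 (congrArg Subtype.val h2).symm)
  have hF : Function.Injective F := inj4 (hne ha hb hba) (hne ha hc hca) (hne ha hd hda) (hne hb hc hcb) (hne hb hd hdb) (hne hc hd hdc)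
  have := Fintype.card_le_of_injective F hF
  rw [Fintype.card_fin] at this
  omega

end H7.Jor
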