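import Mathlib
import Cfsg.Agent.H7_L34

set_option autoImplicit false
set_option linter.all false

namespace Cfsg.Agent.H7.L34

open Cfsg Cfsg.Agent.H7.Golay Cfsg.Agent.H7.Oct Cfsg.Agent.H7.M24 Cfsg.Agent.H7.Hex Matrix

section

variable {F : Type} [Field F] [Fintype F] [DecidableEq F]

def V (ω : F) (x : ℕ) (k : Fin 3) : F := dec ω (vv x k)

def Rel (ω : F) (g : SpecialLinearGroup (Fin 3) F) (σ : Equiv.Perm GolayPt) : Prop :=
  σ ∈ M24 ∧ σ (pt 0) = pt 0 ∧ σ (pt 1) = pt 1 ∧ σ (pt 2) = pt 2 ∧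
  ∀ x : GolayPt, 3 ≤ ix x → ∃ c : F, c ≠ 0 ∧ (g : Matrix (Fin 3) (Fin 3) F) *ᵥ V ω (ix x) = c • V ω (ix (σ x))

theorem Rel.ge {ω : F} {g : SpecialLinearGroup (Fin 3) F} {σ : Equiv.Perm GolayPt} (h : Rel ω g σ) {x : GolayPt}
    (hx : 3 ≤ ix x) : 3 ≤ ix (σ x) := by
  by_contra hc
  obtain ⟨-, h0, h1, h2, -⟩ := h
  have h3 : ix (σ x) = 0 ∨ ix (σ x) = 1 ∨ ix (σ x) = 2 := by omega
  have key : ∀ i, i < 3 → σ (pt i) = pt i → ix (σ x) ≠ i := by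
    intro i hi hp h4
    have h5 : σ x = pt i := by rw [← h4, pt_ix]
    rw [← hp] at h5
    have h6 := σ.injective h5
    rw [h6, ix_pt i (by omega)] at hx
    omega
  rcases h3 with h3 | h3 | h3
  · exact key 0 (by norm_num) h0 h3
  · exact key 1 (by norm_num) h1 h3
  · exact key 2 (by norm_num) h2 h3

theorem Rel.mul {ω : F} {g h : SpecialLinearGroup (Fin 3) F} {σ τ : Equiv.Perm GolayPt} (hg : Rel ω g σ)
    (hh : Rel ω h τ) : Rel ω (g * h) (σ * τ) := by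
  refine ⟨mul_mem hg.1 hh.1, ?_, ?_, ?_, ?_⟩
  · rw [Equiv.Perm.mul_apply, hh.2.1, hg.2.1]
  · rw [Equiv.Perm.mul_apply, hh.2.2.1, hg.2.2.1]
  · rw [Equiv.Perm.mul_apply, hh.2.2.2.1, hg.2.2.2.1]
  · intro x hx
    obtain ⟨c, hc, h1⟩ := hh.2.2.2.2 x hx
    obtain ⟨d, hd, h2⟩ := hg.2.2.2.2 (τ x) (hh.ge hx)
    refine ⟨c * d, mul_ne_zero hc hd, ?_⟩
    have e : ((g * h : SpecialLinearGroup (Fin 3) F) : Matrix (Fin 3) (Fin 3) F) =
        (g : Matrix (Fin 3) (Fin 3) F) * (h : Matrix (Fin 3) (Fin 3) F) := Matrix.SpecialLinearGroup.coe_mul g h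
    rw [e, ← mulVec_mulVec, h1, mulVec_smul, h2, smul_smul, Equiv.Perm.mul_apply]

theorem Rel.one (ω : F) : Rel ω 1 1 := by
  refine ⟨one_mem _, rfl, rfl, rfl, fun x hx => ⟨1, one_ne_zero, ?_⟩⟩
  simp

theorem Rel.inv {ω : F} {g : SpecialLinearGroup (Fin 3) F} {σ : Equiv.Perm GolayPt} (hg : Rel ω g σ) :
    Rel ω g⁻¹ σ⁻¹ := by
  have h0 : σ⁻¹ (pt 0) = pt 0 := by rw [Equiv.Perm.inv_eq_iff_eq, hg.2.1]
  have h1 : σ⁻¹ (pt 1) = pt 1 := by rw [Equiv.Perm.inv_eq_iff_eq, hg.2.2.1]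
  have h2 : σ⁻¹ (pt 2) = pt 2 := by rw [Equiv.Perm.inv_eq_iff_eq, hg.2.2.2.1]
  refine ⟨inv_mem hg.1, h0, h1, h2, ?_⟩
  intro x hx
  have hy : 3 ≤ ix (σ⁻¹ x) := by
    by_contra hc
    have h3 : ix (σ⁻¹ x) = 0 ∨ ix (σ⁻¹ x) = 1 ∨ ix (σ⁻¹ x) = 2 := by omega
    have key : ∀ i, i < 3 → σ⁻¹ (pt i) = pt i → ix (σ⁻¹ x) ≠ i := by
      intro i hi hp h4
      have h5 : σ⁻¹ x = pt i := by rw [← h4, pt_ix]
      rw [← hp] at h5
      have h6 := σ⁻¹.injective h5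
      rw [h6, ix_pt i (by omega)] at hx
      omega
    rcases h3 with h3 | h3 | h3
    · exact key 0 (by norm_num) h0 h3
    · exact key 1 (by norm_num) h1 h3
    · exact key 2 (by norm_num) h2 h3
  obtain ⟨c, hc, h⟩ := hg.2.2.2.2 (σ⁻¹ x) hy
  refine ⟨c⁻¹, inv_ne_zero hc, ?_⟩
  rw [← Equiv.Perm.mul_apply, mul_inv_cancel, Equiv.Perm.one_apply] at h
  have h3 : V ω (ix (σ⁻¹ x)) = c • (((g⁻¹ : SpecialLinearGroup (Fin 3) F) : Matrix (Fin 3) (Fin 3) F) *ᵥ V ω (ix x)) := by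
    have e : ((g⁻¹ : SpecialLinearGroup (Fin 3) F) : Matrix (Fin 3) (Fin 3) F) * (g : Matrix (Fin 3) (Fin 3) F) = 1 := by
      have e1 := Matrix.SpecialLinearGroup.coe_mul g⁻¹ g
      rw [inv_mul_cancel] at e1
      exact e1.symm
    rw [← mulVec_smul, ← h, mulVec_mulVec, e, one_mulVec]
  rw [h3, smul_smul, inv_mul_cancel₀ hc, one_smul]

theorem V_ne (hF : Fintype.card F = 4) (ω : F) (hω : ω ^ 2 + ω + 1 = 0) (x y : GolayPt) (hx : 3 ≤ ix x)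
    (hy : 3 ≤ ix y) (c : F) (h : V ω (ix x) = c • V ω (ix y)) : x = y := by
  obtain ⟨c', rfl⟩ := (dec_bij hF ω hω).2 c
  apply ix_injective
  have := vv_ne ⟨ix x, ix_lt x⟩ ⟨ix y, ix_lt y⟩ hx hy c' (fun k => by
    apply (dec_bij hF ω hω).1
    rw [dec_mul ω hω]
    exact congrFun h k)
  exact congrArg Fin.val this

theorem Rel.unique (hF : Fintype.card F = 4) {ω : F} (hω : ω ^ 2 + ω + 1 = 0) {g : SpecialLinearGroup (Fin 3) F}
    {σ τ : Equiv.Perm GolayPt} (h1 : Rel ω g σ) (h2 : Rel ω g τ) : σ = τ := by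
  ext1 x
  by_cases hx : 3 ≤ ix x
  · obtain ⟨c, hc, h3⟩ := h1.2.2.2.2 x hx
    obtain ⟨d, hd, h4⟩ := h2.2.2.2.2 x hx
    apply V_ne hF ω hω _ _ (h1.ge hx) (h2.ge hx) (c⁻¹ * d)
    rw [mul_smul, ← h4, h3, smul_smul, inv_mul_cancel₀ hc, one_smul]
  · have h3 : ix x = 0 ∨ ix x = 1 ∨ ix x = 2 := by omega
    rcases h3 with h3 | h3 | h3
    · have : x = pt 0 := by rw [← h3, pt_ix]
      rw [this, h1.2.1, h2.2.1]
    · have : x = pt 1 := by rw [← h3, pt_ix]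
      rw [this, h1.2.2.1, h2.2.2.1]
    · have : x = pt 2 := by rw [← h3, pt_ix]
      rw [this, h1.2.2.2.1, h2.2.2.2.1]

theorem Rel.tv (hF : Fintype.card F = 4) {ω : F} (hω : ω ^ 2 + ω + 1 = 0) (i j : Fin 3) (hij : i ≠ j) (a : F) :
    ∃ σ, Rel ω (SpecialLinearGroup.transvection hij a) σ := by
  obtain ⟨a', rfl⟩ := (dec_bij hF ω hω).2 a
  by_cases ha : a' = 0
  · subst ha
    refine ⟨1, ?_⟩
    have : SpecialLinearGroup.transvection hij (dec ω 0) = 1 := by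
      rw [dec_zero]
      ext k l
      simp [SpecialLinearGroup.transvection_coe]
    rw [this]
    exact Rel.one ω
  · obtain ⟨e, he, rfl, rfl, rfl, h⟩ := tbl_ok i j a' hij ha
    have h1 := List.all_eq_true.1 tbl_isM24 e he
    simp only [Bool.and_eq_true] at h1
    obtain ⟨⟨⟨h1, h2⟩, h3⟩, h4⟩ := h1
    have h2 := Nat.eq_of_beq_eq_true h2
    have h3 := Nat.eq_of_beq_eq_true h3
    have h4 := Nat.eq_of_beq_eq_true h4
    obtain ⟨σ, hσ, hr⟩ := exists_M24 h1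
    refine ⟨σ, hσ, ?_, ?_, ?_, ?_⟩
    · rw [hr.apply_pt (by norm_num), h2]
    · rw [hr.apply_pt (by norm_num), h3]
    · rw [hr.apply_pt (by norm_num), h4]
    · intro x hx
      obtain ⟨c, hc, h5⟩ := h ⟨ix x, ix_lt x⟩ hx
      refine ⟨dec ω c, (dec_ne hF ω hω c).2 hc, ?_⟩
      rw [hr.2]
      ext k
      have h6 := congrArg (dec ω) (h5 k)
      rw [dec_mul ω hω] at h6
      rw [Pi.smul_apply, smul_eq_mul]
      refine Eq.trans ?_ h6
      rw [SpecialLinearGroup.transvection_coe, add_mulVec, one_mulVec, Pi.add_apply]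
      unfold L34.tv
      split_ifs with hk
      · subst hk
        rw [dec_add (two0 hF) ω hω, dec_mul ω hω]
        congr 1
        simp [Matrix.mulVec, dotProduct, Matrix.single_apply, V]
      · have : (Matrix.single e.1 e.2.1 (dec ω e.2.2.1) *ᵥ V ω (ix x)) k = 0 := by
          simp [Matrix.mulVec, dotProduct, Matrix.single_apply, V, Ne.symm hk]
        rw [this, add_zero]
        rfl

theorem exists_rel (hF : Fintype.card F = 4) {ω : F} (hω : ω ^ 2 + ω + 1 = 0) (g : SpecialLinearGroup (Fin 3) F) :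
    ∃ σ, Rel ω g σ := by
  have h : g ∈ Subgroup.closure {g : SpecialLinearGroup (Fin 3) F | ∃ (i j : Fin 3) (hij : i ≠ j) (a : F),
      g = SpecialLinearGroup.transvection hij a} := by
    rw [H5.SL.closure_transvections]; trivial
  induction h using Subgroup.closure_induction with
  | mem x hx =>
    obtain ⟨i, j, hij, a, rfl⟩ := hx
    exact Rel.tv hF hω i j hij a
  | one => exact ⟨1, Rel.one ω⟩
  | mul x y _ _ hx hy =>
    obtain ⟨σ, hσ⟩ := hx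
    obtain ⟨τ, hτ⟩ := hy
    exact ⟨σ * τ, hσ.mul hτ⟩
  | inv x _ hx =>
    obtain ⟨σ, hσ⟩ := hx
    exact ⟨σ⁻¹, hσ.inv⟩

end

end Cfsg.Agent.H7.L34
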