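import Mathlib
import Cfsg.Agent.H7_L34b

set_option autoImplicit false
set_option linter.all false

namespace Cfsg.Agent.H7.L34

open Cfsg Cfsg.Agent.H7.Golay Cfsg.Agent.H7.Oct Cfsg.Agent.H7.M24 Cfsg.Agent.H7.M24b Cfsg.Agent.H7.Hex Matrix

section

variable {F : Type} [Field F] [Fintype F] [DecidableEq F]

theorem V_frame (ω : F) : V ω 3 = ![1, 0, 0] ∧ V ω 4 = ![0, 1, 0] ∧ V ω 5 = ![0, 0, 1] ∧ V ω 6 = ![1, 1, 1] := by
  obtain ⟨h3, h4, h5, h6⟩ := vv_frame
  have key : ∀ (n : ℕ) (a b c : Fin 4), vv n = ![a, b, c] → V ω n = ![dec ω a, dec ω b, dec ω c] := by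
    intro n a b c h
    funext k
    show dec ω (vv n k) = _
    rw [h]
    fin_cases k <;> rfl
  refine ⟨?_, ?_, ?_, ?_⟩
  · rw [key _ _ _ _ h3]; simp [dec]
  · rw [key _ _ _ _ h4]; simp [dec]
  · rw [key _ _ _ _ h5]; simp [dec]
  · rw [key _ _ _ _ h6]; simp [dec]

theorem scalar_of_rel {ω : F} {g : Matrix.SpecialLinearGroup (Fin 3) F} (h : Rel ω g 1) :
    g ∈ Subgroup.center (Matrix.SpecialLinearGroup (Fin 3) F) := by
  obtain ⟨v3, v4, v5, v6⟩ := V_frame ω
  obtain ⟨a, ha, h3⟩ := h.2.2.2.2 (pt 3) (by rw [ix_pt 3 (by norm_num)])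
  obtain ⟨b, hb, h4⟩ := h.2.2.2.2 (pt 4) (by rw [ix_pt 4 (by norm_num)]; norm_num)
  obtain ⟨c, hc, h5⟩ := h.2.2.2.2 (pt 5) (by rw [ix_pt 5 (by norm_num)]; norm_num)
  obtain ⟨d, hd, h6⟩ := h.2.2.2.2 (pt 6) (by rw [ix_pt 6 (by norm_num)]; norm_num)
  rw [Equiv.Perm.one_apply, ix_pt 3 (by norm_num), v3] at h3
  rw [Equiv.Perm.one_apply, ix_pt 4 (by norm_num), v4] at h4
  rw [Equiv.Perm.one_apply, ix_pt 5 (by norm_num), v5] at h5
  rw [Equiv.Perm.one_apply, ix_pt 6 (by norm_num), v6] at h6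
  have g3 : ∀ i, (g : Matrix (Fin 3) (Fin 3) F) i 0 = a * (![1, 0, 0] : Fin 3 → F) i := by
    intro i
    have := congrFun h3 i
    simpa [Matrix.mulVec, dotProduct, Fin.sum_univ_three] using this
  have g4 : ∀ i, (g : Matrix (Fin 3) (Fin 3) F) i 1 = b * (![0, 1, 0] : Fin 3 → F) i := by
    intro i
    have := congrFun h4 i
    simpa [Matrix.mulVec, dotProduct, Fin.sum_univ_three] using this
  have g5 : ∀ i, (g : Matrix (Fin 3) (Fin 3) F) i 2 = c * (![0, 0, 1] : Fin 3 → F) i := by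
    intro i
    have := congrFun h5 i
    simpa [Matrix.mulVec, dotProduct, Fin.sum_univ_three] using this
  have g6 : ∀ i, (g : Matrix (Fin 3) (Fin 3) F) i 0 + (g : Matrix (Fin 3) (Fin 3) F) i 1 +
      (g : Matrix (Fin 3) (Fin 3) F) i 2 = d * (![1, 1, 1] : Fin 3 → F) i := by
    intro i
    have := congrFun h6 i
    simpa [Matrix.mulVec, dotProduct, Fin.sum_univ_three] using this
  have e0 := g6 0
  have e1 := g6 1
  have e2 := g6 2
  rw [g3, g4, g5] at e0 e1 e2
  simp at e0 e1 e2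
  subst e0 e1
  subst e2
  have hm : Matrix.scalar (Fin 3) c = (g : Matrix (Fin 3) (Fin 3) F) := by
    ext i j
    fin_cases j
    · show _ = (g : Matrix (Fin 3) (Fin 3) F) i 0
      rw [g3]
      fin_cases i <;> simp
    · show _ = (g : Matrix (Fin 3) (Fin 3) F) i 1
      rw [g4]
      fin_cases i <;> simp
    · show _ = (g : Matrix (Fin 3) (Fin 3) F) i 2
      rw [g5]
      fin_cases i <;> simp
  rw [Matrix.SpecialLinearGroup.mem_center_iff]
  refine ⟨c, ?_, hm⟩
  have hd := g.2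
  have : (Matrix.scalar (Fin 3) c).det = 1 := by rw [hm]; exact hd
  simpa using this

theorem rel_of_scalar {ω : F} {g : Matrix.SpecialLinearGroup (Fin 3) F}
    (h : g ∈ Subgroup.center (Matrix.SpecialLinearGroup (Fin 3) F)) : Rel ω g 1 := by
  obtain ⟨r, hr, h1⟩ := Matrix.SpecialLinearGroup.mem_center_iff.1 h
  refine ⟨one_mem _, rfl, rfl, rfl, fun x hx => ⟨r, ?_, ?_⟩⟩
  · rintro rfl
    simp at hr
  · rw [← h1, Equiv.Perm.one_apply]
    ext i
    simp [Matrix.scalar_apply, Matrix.mulVec_diagonal]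

noncomputable def Sg (ω : F) (hF : Fintype.card F = 4) (hω : ω ^ 2 + ω + 1 = 0) (g : Matrix.SpecialLinearGroup (Fin 3) F) :
    Equiv.Perm GolayPt := (exists_rel hF hω g).choose

theorem Sg_rel (ω : F) (hF : Fintype.card F = 4) (hω : ω ^ 2 + ω + 1 = 0) (g : Matrix.SpecialLinearGroup (Fin 3) F) :
    Rel ω g (Sg ω hF hω g) := (exists_rel hF hω g).choose_spec

theorem exists_omega (hF : Fintype.card F = 4) : ∃ ω : F, ω ^ 2 + ω + 1 = 0 := by
  have h2 := two0 hF
  have : ∃ x : F, x ≠ 0 ∧ x ≠ 1 := by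
    by_contra hc
    push Not at hc
    have h1 : (Finset.univ : Finset F) ⊆ {0, 1} := by
      intro x _
      rw [Finset.mem_insert, Finset.mem_singleton]
      by_cases hx : x = 0
      · exact Or.inl hx
      · exact Or.inr (hc x hx)
    have h3 := Finset.card_le_card h1
    rw [Finset.card_univ, hF] at h3
    have h4 := Finset.card_le_two (a := (0 : F)) (b := 1)
    omega
  obtain ⟨x, hx0, hx1⟩ := this
  refine ⟨x, ?_⟩
  have h3 : x ^ 4 = x := by rw [← hF]; exact FiniteField.pow_card x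
  have h4 : (x - 1) * (x * (x ^ 2 + x + 1)) = 0 := by linear_combination h3
  rcases mul_eq_zero.1 h4 with h5 | h5
  · exact absurd (sub_eq_zero.1 h5) hx1
  · rcases mul_eq_zero.1 h5 with h6 | h6
    · exact absurd h6 hx0
    · exact h6

end

theorem s0380 (p q r : GolayPt) (hpq : p ≠ q) (hpr : p ≠ r) (hqr : q ≠ r) (F : Type) [Field F] [Fintype F]
    (hF : Fintype.card F = 4) :
    Nonempty (↥(MulAction.stabilizer M24 p ⊓ MulAction.stabilizer M24 q ⊓ MulAction.stabilizer M24 r) ≃*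
      Matrix.ProjectiveSpecialLinearGroup (Fin 3) F) := by
  classical
  obtain ⟨ω, hω⟩ := exists_omega hF
  have hx : Function.Injective ![p, q, r] := by
    intro i j hij
    fin_cases i <;> fin_cases j <;> simp_all
  have hy : Function.Injective ![pt 0, pt 1, pt 2] := by
    have h01 : pt 0 ≠ pt 1 := by decide
    have h02 : pt 0 ≠ pt 2 := by decide
    have h12 : pt 1 ≠ pt 2 := by decide
    intro i j hij
    fin_cases i <;> fin_cases j <;> simp_all
  obtain ⟨τ, hτ, ht⟩ := ktrans 3 (by norm_num) ![p, q, r] ![pt 0, pt 1, pt 2] hx hy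
  have t0 : τ p = pt 0 := ht 0
  have t1 : τ q = pt 1 := ht 1
  have t2 : τ r = pt 2 := ht 2
  let K : Subgroup M24 := MulAction.stabilizer M24 p ⊓ MulAction.stabilizer M24 q ⊓ MulAction.stabilizer M24 r
  have hK : ∀ g : Matrix.SpecialLinearGroup (Fin 3) F,
      (⟨τ⁻¹ * Sg ω hF hω g * τ, mul_mem (mul_mem (inv_mem hτ) (Sg_rel ω hF hω g).1) hτ⟩ : M24) ∈ K := by
    intro g
    obtain ⟨h, h0, h1, h2, -⟩ := Sg_rel ω hF hω g
    refine ⟨⟨?_, ?_⟩, ?_⟩
    · show (τ⁻¹ * Sg ω hF hω g * τ) p = p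
      rw [Equiv.Perm.mul_apply, Equiv.Perm.mul_apply, t0, h0, ← t0, ← Equiv.Perm.mul_apply, inv_mul_cancel]; rfl
    · show (τ⁻¹ * Sg ω hF hω g * τ) q = q
      rw [Equiv.Perm.mul_apply, Equiv.Perm.mul_apply, t1, h1, ← t1, ← Equiv.Perm.mul_apply, inv_mul_cancel]; rfl
    · show (τ⁻¹ * Sg ω hF hω g * τ) r = r
      rw [Equiv.Perm.mul_apply, Equiv.Perm.mul_apply, t2, h2, ← t2, ← Equiv.Perm.mul_apply, inv_mul_cancel]; rfl
  let φ : Matrix.SpecialLinearGroup (Fin 3) F →* K := MonoidHom.mk' (fun g => ⟨_, hK g⟩) (by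
    intro g h
    apply Subtype.ext
    apply Subtype.ext
    show τ⁻¹ * Sg ω hF hω (g * h) * τ = (τ⁻¹ * Sg ω hF hω g * τ) * (τ⁻¹ * Sg ω hF hω h * τ)
    rw [Rel.unique hF hω (Sg_rel ω hF hω (g * h)) ((Sg_rel ω hF hω g).mul (Sg_rel ω hF hω h))]
    group)
  have hker : φ.ker = Subgroup.center (Matrix.SpecialLinearGroup (Fin 3) F) := by
    ext g
    rw [MonoidHom.mem_ker]
    constructor
    · intro h
      have h1 : τ⁻¹ * Sg ω hF hω g * τ = 1 := congrArg (fun x : K => ((x : M24) : Equiv.Perm GolayPt)) h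
      have h2 : Sg ω hF hω g = 1 := by
        have : Sg ω hF hω g = τ * (τ⁻¹ * Sg ω hF hω g * τ) * τ⁻¹ := by group
        rw [this, h1]; group
      have h3 := Sg_rel ω hF hω g
      rw [h2] at h3
      exact scalar_of_rel h3
    · intro h
      have h2 : Sg ω hF hω g = 1 := Rel.unique hF hω (Sg_rel ω hF hω g) (rel_of_scalar h)
      apply Subtype.ext
      apply Subtype.ext
      show τ⁻¹ * Sg ω hF hω g * τ = 1
      rw [h2]; group
  have hcardK : Nat.card K = 20160 := by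
    have h1 : Nat.card K = Nat.card ↥(M24 ⊓ MulAction.stabilizer (Equiv.Perm GolayPt) ![p, q, r]) := by
      apply card_sub M24 K
      intro g
      rw [MulAction.mem_stabilizer_iff]
      constructor
      · rintro ⟨⟨h1, h2⟩, h3⟩
        funext i
        fin_cases i
        · exact h1
        · exact h2
        · exact h3
      · intro h
        exact ⟨⟨congrFun h 0, congrFun h 1⟩, congrFun h 2⟩
    have h2 := card_stab_tuple 3 (by norm_num) ![p, q, r] hx
    rw [h1]
    have h3 : Nat.descFactorial 24 3 = 12144 := by decide +kernel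
    rw [h3] at h2
    omega
  have hcardP : Nat.card (Matrix.ProjectiveSpecialLinearGroup (Fin 3) F) = 20160 := by
    have h := H5.GL.card_PSL (F := F) (q := 4) hF 3 (by norm_num)
    rw [Fin.prod_univ_three, show Nat.gcd 3 (4 - 1) = 3 from by decide] at h
    simp only [Fin.val_zero, Fin.val_one, Fin.val_two] at h
    norm_num at h
    rw [Nat.card_eq_fintype_card]
    omega
  have e1 : Matrix.ProjectiveSpecialLinearGroup (Fin 3) F ≃* φ.range :=
    (QuotientGroup.quotientMulEquivOfEq hker.symm).trans (QuotientGroup.quotientKerEquivRange φ)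
  have hr : φ.range = ⊤ := by
    apply Subgroup.eq_top_of_card_eq
    rw [← Nat.card_congr e1.toEquiv, hcardP]
    exact hcardK.symm
  exact ⟨((e1.trans (MulEquiv.subgroupCongr hr)).trans Subgroup.topEquiv).symm⟩

end Cfsg.Agent.H7.L34
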