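import Mathlib

set_option autoImplicit false

namespace H7.Ord4

open Subgroup
open scoped commutatorElement

section abs

variable {N : Type*} [Group N]

theorem comm_mul_left (hcl : ∀ a b c : N, ⁅a, b⁆ * c = c * ⁅a, b⁆) (a b c : N) : ⁅a * b, c⁆ = ⁅a, c⁆ * ⁅b, c⁆ := by
  have h1 : ⁅a * b, c⁆ = a * ⁅b, c⁆ * c * a⁻¹ * c⁻¹ := by
    rw [commutatorElement_def, commutatorElement_def]; group
  rw [h1, ← hcl b c a, mul_assoc, mul_assoc, mul_assoc, hcl b c, commutatorElement_def a c]
  group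

theorem comm_mul_right (hcl : ∀ a b c : N, ⁅a, b⁆ * c = c * ⁅a, b⁆) (a b c : N) : ⁅a, b * c⁆ = ⁅a, b⁆ * ⁅a, c⁆ := by
  rw [← commutatorElement_inv (b * c) a, comm_mul_left hcl, mul_inv_rev, commutatorElement_inv, commutatorElement_inv,
    hcl a c]

theorem exp_two [Finite N] (ρ t : MulAut N) (hρ : ∀ v, ρ (ρ (ρ v)) = v) (ht : ∀ v, t (t v) = v)
    (htρ : ∀ v, t (ρ v) = ρ (ρ (t v))) (hfix : ∀ v, ρ v = v → v = 1)
    (hcl : ∀ a b c : N, ⁅a, b⁆ * c = c * ⁅a, b⁆) (h4 : ∀ v, (t v * v) ^ 2 = 1) : ∀ v : N, v ^ 2 = 1 := by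
  classical
  -- D
  let D : Subgroup N := _root_.commutator N
  have hDinv : ∀ (φ : MulAut N) (x : N), x ∈ D → φ x ∈ D := by
    intro φ x hx
    have h1 : D.comap φ.toMonoidHom = D := (inferInstance : (_root_.commutator N).Characteristic).fixed φ
    rw [← h1] at hx
    exact hx
  have hDcen : ∀ x ∈ D, ∀ c : N, x * c = c * x := by
    have h1 : D ≤ center N := by
      show _root_.commutator N ≤ center N
      rw [_root_.commutator_def, commutator_le]
      intro a _ b _
      rw [mem_center_iff]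
      intro c
      exact (hcl a b c).symm
    intro x hx c
    exact (mem_center_iff.1 (h1 hx) c).symm
  have hDcomm : ∀ a b : N, ⁅a, b⁆ ∈ D := fun a b => commutator_mem_commutator (mem_top a) (mem_top b)
  -- injectivity
  have hinj : ∀ a b : N, a⁻¹ * ρ a = b⁻¹ * ρ b → a = b := by
    intro a b h
    have h1 : ρ (b * a⁻¹) = b * a⁻¹ := by
      rw [map_mul, map_inv]
      have h2 : ρ b = b * (a⁻¹ * ρ a) := by rw [h]; group
      rw [h2]; group
    have h3 := hfix _ h1
    exact (mul_inv_eq_one.1 h3).symm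
  have hsurj : ∀ v : N, ∃ y : N, y⁻¹ * ρ y = v := by
    have : Function.Injective (fun y : N => y⁻¹ * ρ y) := fun a b h => hinj a b h
    exact Finite.surjective_of_injective this
  have hF1 : ∀ v : N, v⁻¹ * ρ v ∈ D → v ∈ D := by
    intro v hv
    let f : D → D := fun d => ⟨(d : N)⁻¹ * ρ d, D.mul_mem (D.inv_mem d.2) (hDinv ρ d d.2)⟩
    have hf : Function.Injective f := by
      intro a b h
      exact Subtype.ext (hinj a b (congrArg Subtype.val h))
    obtain ⟨e, he⟩ := Finite.surjective_of_injective hf ⟨_, hv⟩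
    have := hinj e v (congrArg Subtype.val he)
    rw [← this]; exact e.2
  have hF2 : ∀ v : N, v * ρ v * ρ (ρ v) = 1 := by
    intro v
    obtain ⟨y, rfl⟩ := hsurj v
    simp only [map_mul, map_inv]
    rw [hρ y]
    group
  have hF2' : ∀ v : N, ρ (ρ v) * ρ v * v = 1 := by
    intro v
    have h := hF2 v⁻¹
    simp only [map_inv] at h
    have h1 := congrArg (fun x => x⁻¹) h
    simp only [mul_inv_rev, inv_inv, inv_one] at h1
    rw [← mul_assoc] at h1
    exact h1
  have hcomm : ∀ v : N, ⁅v, ρ v⁆ = 1 := by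
    intro v
    rw [commutatorElement_eq_one_iff_mul_comm]
    have h1 : v * ρ v = (ρ (ρ v))⁻¹ := eq_inv_of_mul_eq_one_left (hF2 v)
    have h2 : ρ v * v = (ρ (ρ v))⁻¹ := by
      rw [eq_inv_iff_mul_eq_one]
      have := hF2' v
      rw [mul_assoc] at this
      exact mul_eq_one_comm.1 this
    rw [h1, h2]
  -- quotient
  let π : N →* Abelianization N := Abelianization.of
  have hπ : ∀ a b : N, π a = π b ↔ a⁻¹ * b ∈ D := by
    intro a b
    exact QuotientGroup.eq
  have hπ1 : ∀ a : N, π a = 1 ↔ a ∈ D := by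
    intro a
    exact QuotientGroup.eq_one_iff a
  have hπφ : ∀ (φ : MulAut N) (a b : N), π a = π b → π (φ a) = π (φ b) := by
    intro φ a b h
    rw [hπ] at h ⊢
    rw [← map_inv, ← map_mul]
    exact hDinv φ _ h
  -- squares
  have hsq : ∀ v : N, v ^ 2 ∈ D := by
    have key : ∀ v : N, π (t (v ^ 2)) = π ((v ^ 2)⁻¹) := by
      intro v
      have h := congrArg π (h4 v)
      rw [map_pow, map_mul, map_one, mul_pow, ← map_pow, ← map_pow, ← map_pow] at h
      rw [map_inv]
      exact eq_inv_of_mul_eq_one_left h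
    intro v
    have h1 := key (ρ v)
    have h2 := key v
    rw [← map_pow, htρ] at h1
    have h3 : π (ρ (ρ (t (v ^ 2)))) = π (ρ (ρ ((v ^ 2)⁻¹))) := hπφ ρ _ _ (hπφ ρ _ _ h2)
    rw [h3, map_inv, map_inv, map_inv, map_inv, inv_inj, eq_comm, hπ] at h1
    have h5 := hF1 _ h1
    have h6 : v ^ 2 = ρ (ρ (ρ (v ^ 2))) := (hρ _).symm
    rw [h6]
    exact hDinv ρ _ (hDinv ρ _ h5)
  -- D has exponent two
  have hc2 : ∀ a b : N, ⁅a, b⁆ ^ 2 = 1 := by
    intro a b
    have h1 : ⁅a ^ 2, b⁆ = ⁅a, b⁆ ^ 2 := by rw [pow_two, comm_mul_left hcl, pow_two]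
    rw [← h1, commutatorElement_eq_one_iff_mul_comm]
    exact hDcen _ (hsq a) b
  have hD2 : ∀ x ∈ D, x ^ 2 = 1 := by
    let E : Subgroup N :=
      { carrier := {x | (∀ c : N, x * c = c * x) ∧ x ^ 2 = 1}
        mul_mem' := by
          rintro x y ⟨hx, hx2⟩ ⟨hy, hy2⟩
          refine ⟨fun c => ?_, ?_⟩
          · rw [mul_assoc, hy c, ← mul_assoc, hx c, mul_assoc]
          · rw [(show Commute x y from hx y).mul_pow, hx2, hy2, one_mul]
        one_mem' := ⟨fun c => by simp, one_pow 2⟩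
        inv_mem' := by
          rintro x ⟨hx, hx2⟩
          refine ⟨fun c => ?_, by rw [inv_pow, hx2, inv_one]⟩
          have := (show Commute x c from hx c).inv_left
          exact this.eq }
    have h1 : D ≤ E := by
      show _root_.commutator N ≤ E
      rw [_root_.commutator_def, commutator_le]
      intro a _ b _
      exact ⟨hcl a b, hc2 a b⟩
    intro x hx
    exact (h1 hx).2
  -- almost fixed elements
  have hV : ∀ v c : N, c ∈ D → t v = v * c → v ^ 2 = 1 := by
    intro v c hc hv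
    have h1 := h4 (ρ v)
    have h2 : t (ρ v) * ρ v = ρ (ρ c) * v⁻¹ := by
      rw [htρ, hv, map_mul, map_mul]
      have hc' := hDinv ρ _ (hDinv ρ _ hc)
      rw [← hDcen _ hc' (ρ (ρ v)), mul_assoc]
      congr 1
      exact eq_inv_of_mul_eq_one_left (hF2' v)
    have hc' := hDinv ρ _ (hDinv ρ _ hc)
    rw [h2, (show Commute (ρ (ρ c)) v⁻¹ from hDcen _ hc' _).mul_pow, hD2 _ hc', one_mul, inv_pow, inv_eq_one] at h1
    exact h1
  intro v
  set w : N := t v * v with hw
  have hwt : t w = w * ((t v * v)⁻¹ * (v * t v)) := by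
    rw [hw, map_mul, ht]; group
  have hwc : (t v * v)⁻¹ * (v * t v) ∈ D := by
    have : (t v * v)⁻¹ * (v * t v) = ⁅v⁻¹, (t v)⁻¹⁆ := by
      rw [commutatorElement_def]; group
    rw [this]; exact hDcomm _ _
  have hw2 : w ^ 2 = 1 := hV w _ hwc hwt
  have hπ2 : ∀ x : N, (π x)⁻¹ = π x := by
    intro x
    rw [inv_eq_iff_mul_eq_one, ← pow_two, ← map_pow, hπ1]
    exact hsq x
  have hπ3 : ∀ x : N, π (ρ (ρ x)) = π x * π (ρ x) := by
    intro x
    have h := congrArg π (hF2 x)
    rw [map_mul, map_mul, map_one] at h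
    rw [← hπ2 (ρ (ρ x))]
    exact (eq_inv_of_mul_eq_one_left h).symm
  set u : N := v * ρ w with hu
  have hut : π u = π (t u) := by
    have h1 : π u = π v * (π (ρ (t v)) * π (ρ v)) := by
      rw [hu, hw, map_mul, map_mul, map_mul]
    have h2 : π (t u) = π (t v) * (π (ρ (ρ v)) * π (ρ (ρ (t v)))) := by
      rw [hu, map_mul, htρ, hw, map_mul t, ht, map_mul ρ, map_mul ρ, map_mul π, map_mul π]
    rw [h1, h2, hπ3 v, hπ3 (t v)]
    have h5 : π (t v) * π (t v) = 1 := by
      have := hπ2 (t v)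
      rw [inv_eq_iff_mul_eq_one] at this
      exact this
    calc π v * (π (ρ (t v)) * π (ρ v)) = (π (t v) * π (t v)) * (π v * (π (ρ (t v)) * π (ρ v))) := by rw [h5, one_mul]
      _ = π (t v) * (π v * π (ρ v) * (π (t v) * π (ρ (t v)))) := by
        simp only [mul_comm, mul_left_comm]
  have huc : u⁻¹ * t u ∈ D := (hπ _ _).1 hut
  have hu2 : u ^ 2 = 1 := hV u _ huc (by group)
  -- u and w commute
  have huw : ⁅u, w⁆ = 1 := by
    have h1 : (u * w) ^ 2 = 1 := by
      refine hV (u * w) ((u⁻¹ * t u) * ((t v * v)⁻¹ * (v * t v))) (D.mul_mem huc hwc) ?_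
      rw [map_mul, hwt]
      have h2 : t u = u * (u⁻¹ * t u) := by group
      have gen : ∀ c d : N, c * w = w * c → u * c * (w * d) = u * w * (c * d) := by
        intro c d h
        rw [mul_assoc u c, ← mul_assoc c w, h]
        simp only [mul_assoc]
      conv_lhs => rw [h2]
      exact gen _ _ (hDcen _ huc w)
    rw [commutatorElement_eq_one_iff_mul_comm]
    have hu' : u⁻¹ = u := by rw [inv_eq_iff_mul_eq_one, ← pow_two]; exact hu2
    have hw' : w⁻¹ = w := by rw [inv_eq_iff_mul_eq_one, ← pow_two]; exact hw2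
    have h3 : (u * w)⁻¹ = u * w := by rw [inv_eq_iff_mul_eq_one, ← pow_two]; exact h1
    rw [← h3, mul_inv_rev, hu', hw']
  have hX : v ^ 2 = ⁅u, ρ w⁆ := by
    have hρw : ρ w * ρ w = 1 := by rw [← map_mul, ← pow_two, hw2, map_one]
    have hu' : u⁻¹ = u := by rw [inv_eq_iff_mul_eq_one, ← pow_two]; exact hu2
    have hρ' : (ρ w)⁻¹ = ρ w := inv_eq_of_mul_eq_one_left hρw
    have hv : v = u * ρ w := by rw [hu, mul_assoc, hρw, mul_one]
    rw [commutatorElement_def, hu', hρ', pow_two]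
    conv_lhs => rw [hv]
    simp only [mul_assoc]
  rw [hX]
  set X := ⁅u, ρ w⁆ with hXd
  have c2 : X * ⁅w, ρ u⁆ = 1 := by
    have h := hcomm (u * w)
    rw [map_mul, comm_mul_left hcl, comm_mul_right hcl, comm_mul_right hcl, hcomm u, hcomm w, one_mul, mul_one] at h
    exact h
  have c3 : X * ⁅u, ρ (ρ w)⁆ = 1 := by
    have h : ⁅u, w * ρ w * ρ (ρ w)⁆ = 1 := by rw [hF2, commutatorElement_one_right]
    rw [comm_mul_right hcl, comm_mul_right hcl, huw, one_mul] at h
    exact h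
  have c4 : ρ X = X := by
    have h1 : ⁅u, ρ (ρ w)⁆ = X := by
      have hX2 : X * X = 1 := by rw [← pow_two]; exact hc2 _ _
      have := eq_inv_of_mul_eq_one_right c3
      rw [this]
      exact inv_eq_of_mul_eq_one_left hX2
    have h2 : ρ ⁅u, ρ (ρ w)⁆ = ⁅ρ u, w⁆ := by
      rw [map_commutatorElement, hρ]
    have h3 : ⁅ρ u, w⁆ = X := by
      rw [← commutatorElement_inv]
      exact (eq_inv_of_mul_eq_one_left c2).symm
    rw [h1, h3] at h2
    exact h2
  exact hfix _ c4

end abs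

end H7.Ord4
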