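import Mathlib
import Cfsg.Agent.H7_Aff
import Cfsg.Agent.H7_DodPair

set_option autoImplicit false
set_option linter.all false

/-!
Quartets of a dodecad; correspondence with the triples of the complementary dodecad.
-/

namespace Cfsg.Agent.H7.Qt

open Cfsg Cfsg.Agent.H7.Golay Cfsg.Agent.H7.Oct Cfsg.Agent.H7.M24 Cfsg.Agent.H7.M24b Cfsg.Agent.H7.M24c Cfsg.Agent.H7.M24d
open Cfsg.Agent.H7.Aff
open scoped Pointwise

/-- elements fixing three points of the standard dodecad -/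
def m9 : List (List ℕ) := [
  [0, 5, 2, 3, 8, 1, 9, 6, 11, 10, 7, 13, 18, 4, 14, 19, 12, 23, 22, 21, 15, 20, 16, 17],
  [0, 12, 2, 3, 4, 5, 13, 10, 9, 8, 7, 14, 1, 6, 11, 15, 18, 19, 16, 17, 20, 23, 22, 21],
  [0, 15, 2, 3, 13, 20, 10, 11, 8, 14, 7, 6, 23, 9, 4, 1, 19, 5, 17, 16, 18, 12, 21, 22],
  [0, 5, 2, 3, 7, 22, 13, 8, 14, 9, 6, 10, 18, 11, 4, 17, 1, 15, 12, 23, 21, 19, 16, 20],
  [0, 17, 2, 3, 6, 23, 11, 13, 7, 8, 4, 10, 19, 9, 14, 16, 21, 1, 15, 22, 12, 18, 20, 5],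
  [0, 5, 2, 3, 6, 12, 10, 7, 4, 13, 8, 9, 18, 14, 11, 20, 22, 21, 1, 15, 23, 17, 16, 19],
  [0, 17, 2, 3, 4, 15, 10, 6, 14, 11, 13, 8, 19, 7, 9, 5, 23, 12, 21, 1, 22, 16, 20, 18],
  [0, 17, 2, 3, 8, 15, 13, 11, 7, 6, 10, 4, 20, 14, 9, 16, 21, 12, 23, 22, 1, 5, 19, 18],
  [0, 15, 2, 3, 6, 20, 7, 14, 9, 11, 10, 13, 21, 8, 4, 12, 17, 5, 19, 18, 16, 1, 23, 22],
  [0, 12, 2, 3, 8, 16, 10, 13, 9, 4, 14, 7, 22, 11, 6, 15, 18, 20, 5, 17, 19, 21, 1, 23],
  [0, 15, 2, 3, 10, 19, 13, 6, 4, 7, 14, 11, 21, 9, 8, 22, 20, 16, 17, 5, 18, 12, 23, 1]]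

theorem m9_ok : m9.all (fun l => isM24 l && (Nat.beq (act l 28637) 28637 && (Nat.beq (l.getD 0 0) 0 && (Nat.beq (l.getD 2 0) 2 &&
    Nat.beq (l.getD 3 0) 3)))) = true := by decide +kernel

theorem m9_cover : ∀ x, x ∈ [5, 12, 15, 16, 17, 18, 19, 20, 21, 22, 23] → ∃ l ∈ m9, l.getD x 0 = 1 := by decide +kernel

theorem m9_base {x : GolayPt} (hx : x ∉ D0) : ∃ g ∈ M24, g • D0 = D0 ∧ g (pt 0) = pt 0 ∧ g (pt 2) = pt 2 ∧ g (pt 3) = pt 3 ∧ g x = pt 1 := by
  have h1 : ∀ i, i < 24 → ¬ Nat.testBit 28637 i = true → i = 1 ∨ i ∈ [5, 12, 15, 16, 17, 18, 19, 20, 21, 22, 23] := by decide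
  have h2 : ¬ Nat.testBit 28637 (ix x) = true := fun h => hx (mem_ofMask.2 h)
  rcases h1 _ (ix_lt x) h2 with h | h
  · refine ⟨1, one_mem _, one_smul _ _, rfl, rfl, rfl, ?_⟩
    rw [← h, pt_ix]; rfl
  · obtain ⟨l, hl, hlx⟩ := m9_cover _ h
    have h3 := List.all_eq_true.1 m9_ok l hl
    rw [Bool.and_eq_true, Bool.and_eq_true, Bool.and_eq_true, Bool.and_eq_true] at h3
    obtain ⟨h4, h5, h6, h7, h8⟩ := h3
    obtain ⟨g, hg, hr⟩ := exists_M24 h4
    refine ⟨g, hg, ?_, ?_, ?_, ?_, ?_⟩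
    · show g • ofMask _ = ofMask _
      rw [hr.smul_ofMask, Nat.eq_of_beq_eq_true h5]
    · rw [hr.apply_pt (by norm_num), Nat.eq_of_beq_eq_true h6]
    · rw [hr.apply_pt (by norm_num), Nat.eq_of_beq_eq_true h7]
    · rw [hr.apply_pt (by norm_num), Nat.eq_of_beq_eq_true h8]
    · rw [← pt_ix x, hr.apply_pt (ix_lt x), hlx]

/-- the pointwise stabiliser of three points is transitive on the complement -/
theorem three_compl {d : Finset GolayPt} (hd : d ∈ dodecads) {p q r : GolayPt} (hp : p ∈ d) (hq : q ∈ d) (hr : r ∈ d)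
    (hpq : p ≠ q) (hpr : p ≠ r) (hqr : q ≠ r) {x y : GolayPt} (hx : x ∉ d) (hy : y ∉ d) :
    ∃ g ∈ M24, g • d = d ∧ g p = p ∧ g q = q ∧ g r = r ∧ g x = y := by
  obtain ⟨k, hk, hkd⟩ := dodecad_std hd
  have hm : ∀ z ∈ d, k z ∈ D0 := by
    intro z hz
    rw [D0, ← hkd]
    exact Finset.smul_mem_smul_finset hz
  obtain ⟨k', hk', hkk⟩ := M12s_trans 3 (by norm_num) ![k p, k q, k r] ![pt 0, pt 2, pt 3] (by
    intro i
    fin_cases i
    · exact hm p hp
    · exact hm q hq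
    · exact hm r hr) (by
    intro i; fin_cases i <;> decide +kernel) (by
    intro i j hij
    fin_cases i <;> fin_cases j <;> simp_all) (by decide)
  have e1 : k' (k p) = pt 0 := hkk 0
  have e2 : k' (k q) = pt 2 := hkk 1
  have e3 : k' (k r) = pt 3 := hkk 2
  obtain ⟨h, hh⟩ : ∃ h, h = k' * k := ⟨_, rfl⟩
  have hhM : h ∈ M24 := by rw [hh]; exact mul_mem hk'.1 hk
  have hhd : h • d = D0 := by
    rw [hh, mul_smul, hkd]; exact hk'.2
  have hhp : h p = pt 0 := by rw [hh]; exact e1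
  have hhq : h q = pt 2 := by rw [hh]; exact e2
  have hhr : h r = pt 3 := by rw [hh]; exact e3
  have hn : ∀ z, z ∉ d → h z ∉ D0 := by
    intro z hz h1
    rw [← hhd, Finset.mem_smul_finset] at h1
    obtain ⟨w, hw, hw2⟩ := h1
    exact hz (h.injective hw2 ▸ hw)
  obtain ⟨g1, a1, a2, a3, a4, a5, a6⟩ := m9_base (hn x hx)
  obtain ⟨g2, b1, b2, b3, b4, b5, b6⟩ := m9_base (hn y hy)
  refine ⟨h⁻¹ * g2⁻¹ * g1 * h, mul_mem (mul_mem (mul_mem (inv_mem hhM) (inv_mem b1)) a1) hhM, ?_, ?_, ?_, ?_, ?_⟩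
  · rw [mul_smul, mul_smul, mul_smul, hhd, a2, inv_smul_eq_iff, hhd, inv_smul_eq_iff, b2]
  · show h.symm (g2.symm (g1 (h p))) = p
    rw [hhp, a3, Equiv.symm_apply_eq, Equiv.symm_apply_eq, hhp, b3]
  · show h.symm (g2.symm (g1 (h q))) = q
    rw [hhq, a4, Equiv.symm_apply_eq, Equiv.symm_apply_eq, hhq, b4]
  · show h.symm (g2.symm (g1 (h r))) = r
    rw [hhr, a5, Equiv.symm_apply_eq, Equiv.symm_apply_eq, hhr, b5]
  · show h.symm (g2.symm (g1 (h x))) = y
    rw [a6, Equiv.symm_apply_eq, Equiv.symm_apply_eq, b6]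

/-- the pointwise stabiliser of three points has order 72 -/
theorem card_three {d : Finset GolayPt} (hd : d ∈ dodecads) {p q r : GolayPt} (hp : p ∈ d) (hq : q ∈ d) (hr : r ∈ d)
    (hpq : p ≠ q) (hpr : p ≠ r) (hqr : q ≠ r) :
    Nat.card ↥(MulAction.stabilizer M24 d ⊓ MulAction.stabilizer M24 p ⊓ MulAction.stabilizer M24 q ⊓ MulAction.stabilizer M24 r) = 72 := by
  have h1 := card_eq_orbit_mul (MulAction.stabilizer M24 d) (![p, q, r] : Fin 3 → GolayPt)
  have hinj : Function.Injective (![p, q, r] : Fin 3 → GolayPt) := by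
    intro i j hij
    fin_cases i <;> fin_cases j <;> simp_all
  have h2 : MulAction.orbit (MulAction.stabilizer M24 d) (![p, q, r] : Fin 3 → GolayPt) =
      {y : Fin 3 → GolayPt | Function.Injective y ∧ ∀ i, y i ∈ d} := by
    ext y
    constructor
    · rintro ⟨k, rfl⟩
      refine ⟨fun i j hij => hinj (k.1.1.injective hij), fun i => ?_⟩
      have hk : (k.1.1 : Equiv.Perm GolayPt) • d = d := k.2
      show k.1.1 (![p, q, r] i) ∈ d
      rw [← inv_of_stab hk]
      fin_cases i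
      · exact hp
      · exact hq
      · exact hr
    · rintro ⟨hy1, hy2⟩
      obtain ⟨k, hk1, hk2, hk3⟩ := dodecad_five_trans hd 3 (by norm_num) ![p, q, r] y (by
        intro i
        fin_cases i
        · exact hp
        · exact hq
        · exact hr) hy2 hinj hy1
      exact ⟨⟨⟨k, hk1⟩, hk2⟩, funext hk3⟩
  have h4 : Nat.card (MulAction.stabilizer M24 d) = 95040 := by
    rw [← card_stab_dodecad hd]
    exact Nat.card_congr (subEquiv M24 _ (MulAction.stabilizer (Equiv.Perm GolayPt) d) fun _ => Iff.rfl).toEquiv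
  have h5 : MulAction.stabilizer M24 d ⊓ MulAction.stabilizer M24 (![p, q, r] : Fin 3 → GolayPt) =
      MulAction.stabilizer M24 d ⊓ MulAction.stabilizer M24 p ⊓ MulAction.stabilizer M24 q ⊓ MulAction.stabilizer M24 r := by
    ext g
    simp only [Subgroup.mem_inf, MulAction.mem_stabilizer_iff]
    constructor
    · rintro ⟨a, b⟩
      exact ⟨⟨⟨a, congrFun b 0⟩, congrFun b 1⟩, congrFun b 2⟩
    · rintro ⟨⟨⟨a, b⟩, c⟩, e⟩
      refine ⟨a, funext fun i => ?_⟩
      fin_cases i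
      · exact b
      · exact c
      · exact e
  rw [h4, h2, ncard_injective_mem, hd.2, h5] at h1
  have h3 : Nat.descFactorial 12 3 = 1320 := rfl
  rw [h3] at h1
  omega

/-! ### the correspondence -/

/-- standard quartet -/
def Q0 : Finset (Finset GolayPt) := {ofMask 1153, ofMask 28, ofMask 16960, ofMask 10496}

def T1 : Finset GolayPt := ofMask 4130

def FP (d : Finset GolayPt) (Q : Finset (Finset GolayPt)) (x : GolayPt) : Prop :=
  x ∉ d ∧ ∃ t ∈ Q, ∃ u ∈ Q, t ≠ u ∧ ∃ o ∈ octads, t ∪ u ⊆ o ∧ x ∈ o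

def GP (d T t : Finset GolayPt) : Prop :=
  t.card = 3 ∧ t ⊆ d ∧ ∀ s ⊆ T, s.card = 2 → ∃ o ∈ octads, o \ d = s ∧ t ⊆ o

theorem FP_smul {d : Finset GolayPt} {Q : Finset (Finset GolayPt)} {x : GolayPt} {g : Equiv.Perm GolayPt} (hg : g ∈ M24)
    (h : FP d Q x) : FP (g • d) (g • Q) (g x) := by
  obtain ⟨h1, t, ht, u, hu, htu, o, ho, h2, h3⟩ := h
  refine ⟨?_, g • t, Finset.smul_mem_smul_finset ht, g • u, Finset.smul_mem_smul_finset hu, ?_, g • o, (smul_mem_octads_iff hg).2 ho, ?_,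
    Finset.smul_mem_smul_finset h3⟩
  · intro h4
    rw [Finset.mem_smul_finset] at h4
    obtain ⟨w, hw, hw2⟩ := h4
    exact h1 (g.injective hw2 ▸ hw)
  · exact fun h4 => htu (smul_left_cancel g h4)
  · rw [← Finset.smul_finset_union]
    exact Finset.smul_finset_subset_smul_finset h2

theorem GP_smul {d T t : Finset GolayPt} {g : Equiv.Perm GolayPt} (hg : g ∈ M24) (h : GP d T t) : GP (g • d) (g • T) (g • t) := by
  obtain ⟨h1, h2, h3⟩ := h
  refine ⟨by rw [Finset.card_smul_finset, h1], Finset.smul_finset_subset_smul_finset h2, ?_⟩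
  intro s hs hs2
  obtain ⟨o, ho, h4, h5⟩ := h3 (g⁻¹ • s) (by
    rw [← Finset.smul_finset_subset_smul_finset_iff (a := g), smul_inv_smul]; exact hs) (by rw [Finset.card_smul_finset, hs2])
  refine ⟨g • o, (smul_mem_octads_iff hg).2 ho, ?_, Finset.smul_finset_subset_smul_finset h5⟩
  rw [← Finset.smul_finset_sdiff, h4, smul_inv_smul]

/-- masks of the standard quartet -/
def qm : List ℕ := [1153, 28, 16960, 10496]

theorem mem_Q0 {t : Finset GolayPt} : t ∈ Q0 ↔ ∃ m ∈ qm, t = ofMask m := by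
  simp only [Q0, qm, Finset.mem_insert, Finset.mem_singleton, List.mem_cons, List.not_mem_nil, or_false]
  constructor
  · rintro (h | h | h | h)
    · exact ⟨_, Or.inl rfl, h⟩
    · exact ⟨_, Or.inr (Or.inl rfl), h⟩
    · exact ⟨_, Or.inr (Or.inr (Or.inl rfl)), h⟩
    · exact ⟨_, Or.inr (Or.inr (Or.inr rfl)), h⟩
  · rintro ⟨m, rfl | rfl | rfl | rfl, h⟩
    · exact Or.inl h
    · exact Or.inr (Or.inl h)
    · exact Or.inr (Or.inr (Or.inl h))
    · exact Or.inr (Or.inr (Or.inr h))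

theorem qm_lt : ∀ m ∈ qm, m < 16777216 := by decide

theorem chkF : (qm.all fun a => qm.all fun b => Nat.beq a b || octL.all fun m =>
    !(Nat.beq (Nat.land m (Nat.lor a b)) (Nat.lor a b)) || Nat.beq (Nat.land m (Nat.lor 28637 4130)) m) = true := by decide +kernel

theorem chkF2 : ∀ i ∈ [1, 5, 12], ∃ a ∈ qm, ∃ b ∈ qm, a ≠ b ∧ ∃ m ∈ octL, Nat.land m (Nat.lor a b) = Nat.lor a b ∧ m.testBit i = true := by
  decide +kernel

theorem ofMask_sdiff (m : ℕ) : ofMask m \ D0 = ofMask (Nat.land m 16748578) := by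
  have h : ∀ i, i < 24 → ((16748578 : ℕ).testBit i = true ↔ ¬ (28637 : ℕ).testBit i = true) := by decide
  ext p
  rw [Finset.mem_sdiff, D0, mem_ofMask, mem_ofMask, mem_ofMask, ← h _ (ix_lt p)]
  show _ ↔ Nat.testBit (m &&& 16748578) (ix p) = true
  rw [Nat.testBit_and, Bool.and_eq_true]

theorem FP0 {x : GolayPt} : FP D0 Q0 x ↔ x ∈ T1 := by
  constructor
  · rintro ⟨h1, t, ht, u, hu, htu, o, ho, h2, h3⟩
    obtain ⟨a, ha, rfl⟩ := mem_Q0.1 ht
    obtain ⟨b, hb, rfl⟩ := mem_Q0.1 hu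
    obtain ⟨m, hm, rfl⟩ := mem_octads_iff'.1 ho
    have h4 := List.all_eq_true.1 (List.all_eq_true.1 chkF a ha) b hb
    rw [Bool.or_eq_true] at h4
    rcases h4 with h4 | h4
    · exact absurd (by rw [Nat.eq_of_beq_eq_true h4]) htu
    · have h5 := List.all_eq_true.1 h4 m hm
      rw [Bool.or_eq_true] at h5
      have h6 : Nat.land m (Nat.lor a b) = Nat.lor a b := by
        have h7 : ofMask (a ||| b) ⊆ ofMask m := by rw [ofMask_or]; exact h2
        have := (ofMask_subset (a := a ||| b) (b := m) (Nat.or_lt_two_pow (n := 24) (qm_lt a ha) (qm_lt b hb))).1 h7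
        rw [Nat.and_comm] at this
        exact this
      rcases h5 with h5 | h5
      · rw [h6, Nat.beq_refl] at h5
        exact absurd h5 (by decide)
      · have h8 := Nat.eq_of_beq_eq_true h5
        rw [mem_ofMask, ← h8] at h3
        have h9 : Nat.testBit (m &&& (28637 ||| 4130)) (ix x) = true := h3
        rw [Nat.testBit_and, Bool.and_eq_true, Nat.testBit_or, Bool.or_eq_true] at h9
        rcases h9.2 with h | h
        · exact absurd (mem_ofMask.2 h) h1
        · exact mem_ofMask.2 h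
  · intro hx
    have hx' : (4130 : ℕ).testBit (ix x) = true := mem_ofMask.1 hx
    have h1 : ∀ i, i < 24 → (4130 : ℕ).testBit i = true → i ∈ [1, 5, 12] := by decide
    obtain ⟨a, ha, b, hb, hab, m, hm, h2, h3⟩ := chkF2 _ (h1 _ (ix_lt x) hx')
    refine ⟨?_, ofMask a, mem_Q0.2 ⟨a, ha, rfl⟩, ofMask b, mem_Q0.2 ⟨b, hb, rfl⟩, ?_, ofMask m, mem_octads_iff'.2 ⟨m, hm, rfl⟩, ?_, mem_ofMask.2 h3⟩
    · have : ∀ i, i < 24 → (4130 : ℕ).testBit i = true → ¬ (28637 : ℕ).testBit i = true := by decide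
      exact fun h => this _ (ix_lt x) hx' (mem_ofMask.1 h)
    · rw [Ne, ofMask_inj (qm_lt a ha) (qm_lt b hb)]; exact hab
    · rw [← ofMask_or, ofMask_subset (Nat.or_lt_two_pow (n := 24) (qm_lt a ha) (qm_lt b hb)), Nat.and_comm]
      exact h2

theorem chkG : ((octL.filter fun m => Nat.beq (Nat.land m 16748578) 34).all fun m1 =>
    (octL.filter fun m => Nat.beq (Nat.land m 16748578) 4098).all fun m2 =>
    (octL.filter fun m => Nat.beq (Nat.land m 16748578) 4128).all fun m3 =>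
      Nat.blt (pc (Nat.land (Nat.land m1 m2) (Nat.land m3 28637))) 3 ||
        qm.any fun a => Nat.beq a (Nat.land (Nat.land m1 m2) (Nat.land m3 28637))) = true := by decide +kernel

theorem chkG2 : ∀ a ∈ qm, ∀ s ∈ [34, 4098, 4128], ∃ m ∈ octL, Nat.land m 16748578 = s ∧ Nat.land m a = a := by decide +kernel

theorem qm_pc : ∀ a ∈ qm, pc a = 3 ∧ Nat.land a 28637 = a := by decide +kernel

theorem T1_eq : T1 = {pt 1, pt 5, pt 12} := by decide +kernel

theorem pairs_T1 : ∀ s ∈ Finset.powersetCard 2 T1, s = ofMask 34 ∨ s = ofMask 4098 ∨ s = ofMask 4128 := by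
  intro s hs
  obtain ⟨h1, h2⟩ := Finset.mem_powersetCard.1 hs
  have hc : T1.card = 3 := by decide +kernel
  have h3 : (T1 \ s).card = 1 := by rw [Finset.card_sdiff_of_subset h1, hc, h2]
  obtain ⟨x, hx⟩ := Finset.card_eq_one.1 h3
  have h4 : s = T1 \ {x} := by rw [← hx, Finset.sdiff_sdiff_eq_self h1]
  have hxT : x ∈ T1 := by
    have : x ∈ T1 \ s := by rw [hx]; simp
    exact (Finset.mem_sdiff.1 this).1
  rw [T1_eq] at hxT
  simp only [Finset.mem_insert, Finset.mem_singleton] at hxT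
  rcases hxT with rfl | rfl | rfl
  · right; right; rw [h4]; decide +kernel
  · right; left; rw [h4]; decide +kernel
  · left; rw [h4]; decide +kernel

theorem GP0 {t : Finset GolayPt} : GP D0 T1 t ↔ t ∈ Q0 := by
  constructor
  · rintro ⟨h1, h2, h3⟩
    have get : ∀ s ∈ [34, 4098, 4128], ∃ m ∈ octL, Nat.beq (Nat.land m 16748578) s = true ∧ t ⊆ ofMask m := by
      intro s hs
      have hs' : ofMask s ⊆ T1 ∧ (ofMask s).card = 2 := by
        revert hs; revert s; decide +kernel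
      obtain ⟨o, ho, h4, h5⟩ := h3 (ofMask s) hs'.1 hs'.2
      obtain ⟨m, hm, rfl⟩ := mem_octads_iff'.1 ho
      refine ⟨m, hm, ?_, h5⟩
      rw [ofMask_sdiff] at h4
      have h6 : Nat.land m 16748578 = s := by
        refine (ofMask_inj ?_ ?_).1 h4
        · exact lt_of_le_of_lt Nat.and_le_left (octL_lt hm)
        · exact (by decide : ∀ s ∈ [34, 4098, 4128], s < 16777216) s hs
      rw [h6]; exact Nat.beq_refl s
    obtain ⟨m1, hm1, a1, b1⟩ := get 34 (by decide)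
    obtain ⟨m2, hm2, a2, b2⟩ := get 4098 (by decide)
    obtain ⟨m3, hm3, a3, b3⟩ := get 4128 (by decide)
    have h4 := List.all_eq_true.1 (List.all_eq_true.1 (List.all_eq_true.1 chkG m1 (List.mem_filter.2 ⟨hm1, a1⟩)) m2
      (List.mem_filter.2 ⟨hm2, a2⟩)) m3 (List.mem_filter.2 ⟨hm3, a3⟩)
    rw [Bool.or_eq_true] at h4
    have hsub : t ⊆ ofMask (Nat.land (Nat.land m1 m2) (Nat.land m3 28637)) := by
      have e : ofMask (Nat.land (Nat.land m1 m2) (Nat.land m3 28637)) = (ofMask m1 ∩ ofMask m2) ∩ (ofMask m3 ∩ D0) := by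
        show ofMask ((m1 &&& m2) &&& (m3 &&& 28637)) = _
        rw [ofMask_and, ofMask_and, ofMask_and]; rfl
      rw [e]
      exact Finset.subset_inter (Finset.subset_inter b1 b2) (Finset.subset_inter b3 h2)
    have hc := Finset.card_le_card hsub
    rw [h1, card_ofMask] at hc
    rcases h4 with h4 | h4
    · have := blt_lt h4
      omega
    · rw [List.any_eq_true] at h4
      obtain ⟨a, ha, hae⟩ := h4
      have hae' := Nat.eq_of_beq_eq_true hae
      rw [← hae'] at hsub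
      refine mem_Q0.2 ⟨a, ha, Finset.eq_of_subset_of_card_le hsub ?_⟩
      rw [card_ofMask, (qm_pc a ha).1, h1]
  · intro ht
    obtain ⟨a, ha, rfl⟩ := mem_Q0.1 ht
    refine ⟨by rw [card_ofMask, (qm_pc a ha).1], ?_, ?_⟩
    · rw [D0, ofMask_subset (qm_lt a ha)]
      exact (qm_pc a ha).2
    · intro s hs hs2
      have key : ∀ k ∈ [34, 4098, 4128], s = ofMask k → ∃ o ∈ octads, o \ D0 = s ∧ ofMask a ⊆ o := by
        rintro k hk rfl
        obtain ⟨m, hm, h1, h2⟩ := chkG2 a ha k hk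
        refine ⟨ofMask m, mem_octads_iff'.2 ⟨m, hm, rfl⟩, ?_, ?_⟩
        · rw [ofMask_sdiff, h1]
        · rw [ofMask_subset (qm_lt a ha), Nat.and_comm]; exact h2
      rcases pairs_T1 s (Finset.mem_powersetCard.2 ⟨hs, hs2⟩) with h | h | h
      · exact key 34 (by decide) h
      · exact key 4098 (by decide) h
      · exact key 4128 (by decide) h

theorem base_iff {k : Equiv.Perm GolayPt} (hk : k ∈ M24) (hkd : k • D0 = D0) : k • Q0 = Q0 ↔ k • T1 = T1 := by
  constructor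
  · intro h
    apply stab_of_inv
    intro p hp
    rw [← FP0] at hp ⊢
    have := FP_smul hk hp
    rwa [hkd, h] at this
  · intro h
    apply Finset.eq_of_subset_of_card_le
    · intro t ht
      rw [Finset.mem_smul_finset] at ht
      obtain ⟨u, hu, rfl⟩ := ht
      rw [← GP0] at hu ⊢
      have := GP_smul hk hu
      rwa [hkd, h] at this
    · rw [Finset.card_smul_finset]

/-- the link between quartets and triples of the complement -/
def Lk (d : Finset GolayPt) (Q : Finset (Finset GolayPt)) (T : Finset GolayPt) : Prop := ∃ g ∈ M24, g • d = D0 ∧ g • Q = Q0 ∧ g • T = T1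

theorem Lk.smul {d : Finset GolayPt} {Q : Finset (Finset GolayPt)} {T : Finset GolayPt} (h : Lk d Q T) {k : Equiv.Perm GolayPt}
    (hk : k ∈ M24) : Lk (k • d) (k • Q) (k • T) := by
  obtain ⟨g, hg, h1, h2, h3⟩ := h
  refine ⟨g * k⁻¹, mul_mem hg (inv_mem hk), ?_, ?_, ?_⟩
  · rw [mul_smul, inv_smul_smul, h1]
  · rw [mul_smul, inv_smul_smul, h2]
  · rw [mul_smul, inv_smul_smul, h3]

theorem Lk.unique {d : Finset GolayPt} {Q Q' : Finset (Finset GolayPt)} {T T' : Finset GolayPt} (h : Lk d Q T) (h' : Lk d Q' T') :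
    Q = Q' ↔ T = T' := by
  obtain ⟨g, hg, h1, h2, h3⟩ := h
  obtain ⟨g', hg', h1', h2', h3'⟩ := h'
  have hk : g' * g⁻¹ ∈ M24 := mul_mem hg' (inv_mem hg)
  have hkd : (g' * g⁻¹) • D0 = D0 := by rw [mul_smul, ← h1, inv_smul_smul, h1', h1]
  have hb := base_iff hk hkd
  constructor
  · rintro rfl
    have h4 := hb.1 (by rw [mul_smul, ← h2, inv_smul_smul, h2', h2])
    rw [mul_smul, ← h3, inv_smul_smul, h3, ← h3'] at h4
    exact smul_left_cancel g' h4
  · rintro rfl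
    have h4 := hb.2 (by rw [mul_smul, ← h3, inv_smul_smul, h3', h3])
    rw [mul_smul, ← h2, inv_smul_smul, h2, ← h2'] at h4
    exact smul_left_cancel g' h4

theorem Lk.dod {d : Finset GolayPt} {Q : Finset (Finset GolayPt)} {T : Finset GolayPt} (h : Lk d Q T) : T ⊆ dᶜ ∧ T.card = 3 := by
  obtain ⟨g, hg, h1, h2, h3⟩ := h
  have hb : T1 ⊆ D0ᶜ ∧ T1.card = 3 := by decide +kernel
  constructor
  · rw [← Finset.smul_finset_subset_smul_finset_iff (a := g), h3, Cfsg.Agent.H7.DodPair.smul_compl', h1]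
    exact hb.1
  · rw [← Finset.card_smul_finset g T, h3]; exact hb.2

/-- hexads on `g • d` -/
theorem hexads_smul {d h : Finset GolayPt} {g : Equiv.Perm GolayPt} (hg : g ∈ M24) (hh : h ∈ hexadsOn d) : g • h ∈ hexadsOn (g • d) := by
  obtain ⟨h1, o, ho, h2⟩ := hh
  refine ⟨by rw [Finset.card_smul_finset, h1], g • o, (smul_mem_octads_iff hg).2 ho, ?_⟩
  rw [← Finset.smul_finset_inter, h2]

theorem quartets_smul {d : Finset GolayPt} {Q : Finset (Finset GolayPt)} {g : Equiv.Perm GolayPt} (hg : g ∈ M24) (hQ : Q ∈ quartets d) :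
    g • Q ∈ quartets (g • d) := by
  obtain ⟨h1, h2, h3⟩ := hQ
  refine ⟨by rw [Finset.card_smul_finset, h1], ?_, ?_⟩
  · intro t ht
    rw [Finset.mem_smul_finset] at ht
    obtain ⟨u, hu, rfl⟩ := ht
    obtain ⟨h4, h5⟩ := h2 u hu
    exact ⟨by rw [Finset.card_smul_finset, h4], Finset.smul_finset_subset_smul_finset h5⟩
  · intro t ht u hu htu
    rw [Finset.mem_smul_finset] at ht hu
    obtain ⟨t, ht, rfl⟩ := ht
    obtain ⟨u, hu, rfl⟩ := hu
    rw [← Finset.smul_finset_union]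
    exact hexads_smul hg (h3 t ht u hu (fun h => htu (by rw [h])))

/-! ### uniqueness of the quartet through two triples, in the standard position -/

theorem chkB : (octL.all fun m1 => !(Nat.beq (Nat.land m1 1153) 1153 && Nat.beq (pc (Nat.land m1 28637)) 6) ||
    (octL.all fun m2 => !(Nat.beq (Nat.land m2 28637) (Nat.lor 28 (Nat.land m1 27484)) && Nat.beq (pc (Nat.land m2 28637)) 6) ||
      (Nat.beq (Nat.land m1 27484) 16960 || Nat.beq (Nat.land m1 27484) 10496))) = true := by decide +kernel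

theorem base_third {v : Finset GolayPt} (hv : v.card = 3) (h1 : ofMask 1153 ∪ v ∈ hexadsOn D0) (h2 : ofMask 28 ∪ v ∈ hexadsOn D0) :
    v = ofMask 16960 ∨ v = ofMask 10496 := by
  obtain ⟨c1, o1, ho1, e1⟩ := h1
  obtain ⟨c2, o2, ho2, e2⟩ := h2
  obtain ⟨m1, hm1, rfl⟩ := mem_octads_iff'.1 ho1
  obtain ⟨m2, hm2, rfl⟩ := mem_octads_iff'.1 ho2
  have hdis : Disjoint (ofMask 1153) v := by
    rw [← Finset.card_union_eq_card_add_card, c1, hv, card_ofMask]
    decide
  have l1 := octL_lt hm1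
  have l2 := octL_lt hm2
  have e1' : ofMask (m1 &&& 28637) = ofMask 1153 ∪ v := by rw [ofMask_and]; exact e1
  have e2' : ofMask (m2 &&& 28637) = ofMask 28 ∪ v := by rw [ofMask_and]; exact e2
  have hv' : v = ofMask (Nat.land m1 27484) := by
    ext p
    have hp : p ∈ ofMask (m1 &&& 28637) ↔ p ∈ ofMask 1153 ∪ v := by rw [e1']
    rw [Finset.mem_union, mem_ofMask, mem_ofMask, Nat.testBit_and, Bool.and_eq_true] at hp
    have hd : p ∈ ofMask 1153 → p ∉ v := fun h => Finset.disjoint_left.1 hdis h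
    rw [mem_ofMask] at hd
    rw [mem_ofMask]
    show _ ↔ Nat.testBit (m1 &&& 27484) (ix p) = true
    rw [Nat.testBit_and, Bool.and_eq_true]
    have hb : ∀ i, i < 24 → ((27484 : ℕ).testBit i = true ↔ ((28637 : ℕ).testBit i = true ∧ ¬ (1153 : ℕ).testBit i = true)) := by decide
    rw [hb _ (ix_lt p)]
    tauto
  have q1 : Nat.land m1 1153 = 1153 := by
    have : ofMask 1153 ⊆ ofMask m1 := by
      intro p hp
      have : p ∈ ofMask (m1 &&& 28637) := by rw [e1']; exact Finset.mem_union_left _ hp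
      rw [ofMask_and] at this
      exact (Finset.mem_inter.1 this).1
    have h := (ofMask_subset (by norm_num)).1 this
    rw [Nat.and_comm] at h
    exact h
  have q2 : pc (Nat.land m1 28637) = 6 := by
    have : pc (m1 &&& 28637) = 6 := by rw [← card_ofMask, e1', c1]
    exact this
  have q3 : Nat.land m2 28637 = Nat.lor 28 (Nat.land m1 27484) := by
    have h : ofMask (m2 &&& 28637) = ofMask (28 ||| (Nat.land m1 27484)) := by rw [e2', ofMask_or, ← hv']
    refine (ofMask_inj ?_ ?_).1 h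
    · exact lt_of_le_of_lt Nat.and_le_left l2
    · exact Nat.or_lt_two_pow (n := 24) (by norm_num) (lt_of_le_of_lt Nat.and_le_left l1)
  have q4 : pc (Nat.land m2 28637) = 6 := by
    have : pc (m2 &&& 28637) = 6 := by rw [← card_ofMask, e2', c2]
    exact this
  have h3 := List.all_eq_true.1 chkB m1 hm1
  rw [q1, q2] at h3
  simp only [Nat.beq_refl, Bool.and_self, Bool.not_true, Bool.false_or] at h3
  have h4 := List.all_eq_true.1 h3 m2 hm2
  rw [q4, ← q3] at h4
  simp only [Nat.beq_refl, Bool.and_self, Bool.not_true, Bool.false_or, Bool.or_eq_true] at h4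
  rcases h4 with h4 | h4
  · left; rw [hv', Nat.eq_of_beq_eq_true h4]
  · right; rw [hv', Nat.eq_of_beq_eq_true h4]

theorem base_unique {Q : Finset (Finset GolayPt)} (hQ : Q ∈ quartets D0) (h1 : ofMask 1153 ∈ Q) (h2 : ofMask 28 ∈ Q) : Q = Q0 := by
  obtain ⟨c, ht, hh⟩ := hQ
  apply Finset.eq_of_subset_of_card_le
  · intro v hv
    by_cases e1 : v = ofMask 1153
    · rw [e1]; exact mem_Q0.2 ⟨1153, by decide, rfl⟩
    by_cases e2 : v = ofMask 28
    · rw [e2]; exact mem_Q0.2 ⟨28, by decide, rfl⟩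
    rcases base_third (ht v hv).1 (hh _ h1 _ hv (fun h => e1 h.symm)) (hh _ h2 _ hv (fun h => e2 h.symm)) with h | h
    · rw [h]; exact mem_Q0.2 ⟨16960, by decide, rfl⟩
    · rw [h]; exact mem_Q0.2 ⟨10496, by decide, rfl⟩
  · rw [c]
    exact Finset.card_le_four

theorem chkQ : ∀ a ∈ qm, ∀ b ∈ qm, a ≠ b → pc (Nat.lor a b) = 6 ∧ ∃ m ∈ octL, Nat.land m 28637 = Nat.lor a b := by decide +kernel

theorem Q0_card : Q0.card = 4 := by decide +kernel

theorem Q0_mem : Q0 ∈ quartets D0 := by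
  refine ⟨Q0_card, ?_, ?_⟩
  · intro t ht
    obtain ⟨h1, h2, -⟩ := GP0.2 ht
    exact ⟨h1, h2⟩
  · intro t ht u hu htu
    obtain ⟨a, ha, rfl⟩ := mem_Q0.1 ht
    obtain ⟨b, hb, rfl⟩ := mem_Q0.1 hu
    obtain ⟨h1, m, hm, h2⟩ := chkQ a ha b hb (fun h => htu (by rw [h]))
    refine ⟨?_, ofMask m, mem_octads_iff'.2 ⟨m, hm, rfl⟩, ?_⟩
    · rw [← ofMask_or, card_ofMask]; exact h1
    · rw [D0, ← ofMask_and, ← ofMask_or]
      exact congrArg ofMask h2

end Cfsg.Agent.H7.Qt
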