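import Mathlib
import Cfsg.Agent.H7_Qt

set_option autoImplicit false
set_option linter.all false

/-!
Quartets of a dodecad: existence, uniqueness, transitivity, the link with triples of the complement.
-/

namespace Cfsg.Agent.H7.Qt

open Cfsg Cfsg.Agent.H7.Golay Cfsg.Agent.H7.Oct Cfsg.Agent.H7.M24 Cfsg.Agent.H7.M24b Cfsg.Agent.H7.M24c Cfsg.Agent.H7.M24d
open Cfsg.Agent.H7.Aff Cfsg.Agent.H7.DodPair
open scoped Pointwise

theorem smul_triple (g : Equiv.Perm GolayPt) (a b c : GolayPt) : g • ({a, b, c} : Finset GolayPt) = {g a, g b, g c} := by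
  rw [Finset.smul_finset_insert, Finset.smul_finset_insert, Finset.smul_finset_singleton]
  rfl

theorem inj_five {α : Type*} {a b c x y : α} (h1 : a ≠ b) (h2 : a ≠ c) (h3 : a ≠ x) (h4 : a ≠ y) (h5 : b ≠ c) (h6 : b ≠ x)
    (h7 : b ≠ y) (h8 : c ≠ x) (h9 : c ≠ y) (h10 : x ≠ y) : Function.Injective (![a, b, c, x, y] : Fin 5 → α) := by
  intro i j hij
  fin_cases i <;> fin_cases j <;> first | rfl | (exfalso; first | exact h1 hij | exact h1 hij.symm | exact h2 hij | exact h2 hij.symm | exact h3 hij | exact h3 hij.symm | exact h4 hij | exact h4 hij.symm | exact h5 hij | exact h5 hij.symm | exact h6 hij | exact h6 hij.symm | exact h7 hij | exact h7 hij.symm | exact h8 hij | exact h8 hij.symm | exact h9 hij | exact h9 hij.symm | exact h10 hij | exact h10 hij.symm)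

set_option maxHeartbeats 1000000 in
/-- standard position of two triples of a quartet -/
theorem std_two {d : Finset GolayPt} (hd : d ∈ dodecads) {t u : Finset GolayPt} (ht : t.card = 3) (hu : u.card = 3)
    (hh : t ∪ u ∈ hexadsOn d) : ∃ g ∈ M24, g • d = D0 ∧ g • t = ofMask 1153 ∧ g • u = ofMask 28 := by
  obtain ⟨h6, o, ho, ho2⟩ := hh
  have hdis : Disjoint t u := by rw [← Finset.card_union_eq_card_add_card, h6, ht, hu]
  have htd : t ⊆ d := fun p hp => by
    have : p ∈ o ∩ d := by rw [ho2]; exact Finset.mem_union_left _ hp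
    exact (Finset.mem_inter.1 this).2
  have hud : u ⊆ d := fun p hp => by
    have : p ∈ o ∩ d := by rw [ho2]; exact Finset.mem_union_right _ hp
    exact (Finset.mem_inter.1 this).2
  obtain ⟨a, b, c, hab, hac, hbc, rfl⟩ := Finset.card_eq_three.1 ht
  obtain ⟨x, y, z, hxy, hxz, hyz, rfl⟩ := Finset.card_eq_three.1 hu
  obtain ⟨g1, hg1, hg1d⟩ := dodecad_std hd
  have hm : ∀ q ∈ d, g1 q ∈ D0 := by
    intro q hq
    rw [D0, ← hg1d]
    exact Finset.smul_mem_smul_finset hq
  have hne : ∀ p ∈ ({a, b, c} : Finset GolayPt), ∀ q ∈ ({x, y, z} : Finset GolayPt), p ≠ q := by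
    rintro p hp q hq rfl
    exact Finset.disjoint_left.1 hdis hp hq
  have n1 := hne a (by simp) x (by simp)
  have n2 := hne a (by simp) y (by simp)
  have n3 := hne b (by simp) x (by simp)
  have n4 := hne b (by simp) y (by simp)
  have n5 := hne c (by simp) x (by simp)
  have n6 := hne c (by simp) y (by simp)
  obtain ⟨k, hk, hkk⟩ := M12s_trans 5 (by norm_num) ![g1 a, g1 b, g1 c, g1 x, g1 y] ![pt 0, pt 7, pt 10, pt 2, pt 3] (by
    intro i
    fin_cases i
    · exact hm a (htd (by simp))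
    · exact hm b (htd (by simp))
    · exact hm c (htd (by simp))
    · exact hm x (hud (by simp))
    · exact hm y (hud (by simp))) (by
    intro i; fin_cases i <;> decide +kernel) (inj_five (g1.injective.ne hab) (g1.injective.ne hac) (g1.injective.ne n1)
      (g1.injective.ne n2) (g1.injective.ne hbc) (g1.injective.ne n3) (g1.injective.ne n4) (g1.injective.ne n5) (g1.injective.ne n6)
      (g1.injective.ne hxy)) (by decide)
  have e0 : k (g1 a) = pt 0 := hkk 0
  have e1 : k (g1 b) = pt 7 := hkk 1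
  have e2 : k (g1 c) = pt 10 := hkk 2
  have e3 : k (g1 x) = pt 2 := hkk 3
  have e4 : k (g1 y) = pt 3 := hkk 4
  have hg : k * g1 ∈ M24 := mul_mem hk.1 hg1
  have hgd : (k * g1) • d = D0 := by rw [mul_smul, hg1d]; exact hk.2
  have hgt : (k * g1) • ({a, b, c} : Finset GolayPt) = ofMask 1153 := by
    rw [smul_triple]
    show ({k (g1 a), k (g1 b), k (g1 c)} : Finset GolayPt) = _
    rw [e0, e1, e2]
    decide +kernel
  refine ⟨k * g1, hg, hgd, hgt, ?_⟩
  -- the two octads
  obtain ⟨h1, m, hm1, h2⟩ := chkQ 1153 (by decide) 28 (by decide) (by decide)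
  have hmo : ofMask m ∈ octads := mem_octads_iff'.2 ⟨m, hm1, rfl⟩
  have hmD : ofMask m ∩ D0 = ofMask 1153 ∪ ofMask 28 := by
    rw [D0, ← ofMask_and, ← ofMask_or]; exact congrArg ofMask h2
  have hgo : (k * g1) • o ∈ octads := (smul_mem_octads_iff hg).2 ho
  have hgoD : (k * g1) • o ∩ D0 = ofMask 1153 ∪ (k * g1) • ({x, y, z} : Finset GolayPt) := by
    rw [← hgt, ← Finset.smul_finset_union, ← ho2, Finset.smul_finset_inter, hgd]
  have heq : (k * g1) • o = ofMask m := by
    apply eq_of_five hgo hmo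
    have hsub : ({pt 0, pt 7, pt 10, pt 2, pt 3} : Finset GolayPt) ⊆ (k * g1) • o ∩ ofMask m := by
      apply Finset.subset_inter
      · intro p hp
        have : p ∈ (k * g1) • o ∩ D0 := by
          rw [hgoD, smul_triple]
          show p ∈ ofMask 1153 ∪ ({k (g1 x), k (g1 y), k (g1 z)} : Finset GolayPt)
          rw [e3, e4]
          simp only [Finset.mem_insert, Finset.mem_singleton] at hp
          rcases hp with rfl | rfl | rfl | rfl | rfl
          · exact Finset.mem_union_left _ (by decide +kernel)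
          · exact Finset.mem_union_left _ (by decide +kernel)
          · exact Finset.mem_union_left _ (by decide +kernel)
          · exact Finset.mem_union_right _ (by simp)
          · exact Finset.mem_union_right _ (by simp)
        exact (Finset.mem_inter.1 this).1
      · intro p hp
        have : p ∈ ofMask m ∩ D0 := by
          rw [hmD]
          simp only [Finset.mem_insert, Finset.mem_singleton] at hp
          rcases hp with rfl | rfl | rfl | rfl | rfl
          · exact Finset.mem_union_left _ (by decide +kernel)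
          · exact Finset.mem_union_left _ (by decide +kernel)
          · exact Finset.mem_union_left _ (by decide +kernel)
          · exact Finset.mem_union_right _ (by decide +kernel)
          · exact Finset.mem_union_right _ (by decide +kernel)
        exact (Finset.mem_inter.1 this).1
    exact (by decide +kernel : (5 : ℕ) ≤ ({pt 0, pt 7, pt 10, pt 2, pt 3} : Finset GolayPt).card).trans (Finset.card_le_card hsub)
  have hU : ofMask 1153 ∪ (k * g1) • ({x, y, z} : Finset GolayPt) = ofMask 1153 ∪ ofMask 28 := by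
    rw [← hgoD, heq, hmD]
  have hd1 : Disjoint (ofMask 1153) ((k * g1) • ({x, y, z} : Finset GolayPt)) := by
    rw [← hgt]
    rw [Finset.disjoint_iff_inter_eq_empty, ← Finset.smul_finset_inter, Finset.disjoint_iff_inter_eq_empty.1 hdis]
    simp
  have hd2 : Disjoint (ofMask 1153) (ofMask 28) := by
    rw [ofMask_disjoint (by norm_num)]; decide
  rw [← Finset.union_sdiff_cancel_left hd1, hU, Finset.union_sdiff_cancel_left hd2]

theorem exists_unique_quartet {d : Finset GolayPt} (hd : d ∈ dodecads) {t u : Finset GolayPt} (ht : t.card = 3) (hu : u.card = 3)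
    (hh : t ∪ u ∈ hexadsOn d) : ∃! Q : Finset (Finset GolayPt), Q ∈ quartets d ∧ t ∈ Q ∧ u ∈ Q := by
  obtain ⟨g, hg, h1, h2, h3⟩ := std_two hd ht hu hh
  refine ⟨g⁻¹ • Q0, ⟨?_, ?_, ?_⟩, ?_⟩
  · have := quartets_smul (inv_mem hg) Q0_mem
    rwa [← h1, inv_smul_smul] at this
  · rw [Finset.mem_inv_smul_finset_iff, h2]
    exact mem_Q0.2 ⟨1153, by decide, rfl⟩
  · rw [Finset.mem_inv_smul_finset_iff, h3]
    exact mem_Q0.2 ⟨28, by decide, rfl⟩
  · rintro Q' ⟨hQ, ht', hu'⟩
    have h4 := quartets_smul hg hQ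
    rw [h1] at h4
    have h5 := base_unique h4 (by rw [← h2]; exact Finset.smul_mem_smul_finset ht') (by rw [← h3]; exact Finset.smul_mem_smul_finset hu')
    rw [← h5, inv_smul_smul]

theorem std_Q {d : Finset GolayPt} (hd : d ∈ dodecads) {Q : Finset (Finset GolayPt)} (hQ : Q ∈ quartets d) :
    ∃ g ∈ M24, g • d = D0 ∧ g • Q = Q0 := by
  obtain ⟨t, ht, u, hu, htu⟩ := Finset.one_lt_card.1 (show 1 < Q.card by rw [hQ.1]; norm_num)
  obtain ⟨g, hg, h1, h2, h3⟩ := std_two hd (hQ.2.1 t ht).1 (hQ.2.1 u hu).1 (hQ.2.2 t ht u hu htu)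
  refine ⟨g, hg, h1, ?_⟩
  have h4 := quartets_smul hg hQ
  rw [h1] at h4
  exact base_unique h4 (by rw [← h2]; exact Finset.smul_mem_smul_finset ht) (by rw [← h3]; exact Finset.smul_mem_smul_finset hu)

theorem trans_Q {d : Finset GolayPt} (hd : d ∈ dodecads) {Q Q' : Finset (Finset GolayPt)} (hQ : Q ∈ quartets d) (hQ' : Q' ∈ quartets d) :
    ∃ g : Equiv.Perm GolayPt, g ∈ M24 ∧ g • d = d ∧ g • Q = Q' := by
  obtain ⟨g, hg, h1, h2⟩ := std_Q hd hQ
  obtain ⟨k, hk, h3, h4⟩ := std_Q hd hQ'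
  refine ⟨k⁻¹ * g, mul_mem (inv_mem hk) hg, ?_, ?_⟩
  · rw [mul_smul, h1, ← h3, inv_smul_smul]
  · rw [mul_smul, h2, ← h4, inv_smul_smul]

theorem exists_T {d : Finset GolayPt} (hd : d ∈ dodecads) {Q : Finset (Finset GolayPt)} (hQ : Q ∈ quartets d) : ∃ T, Lk d Q T := by
  obtain ⟨g, hg, h1, h2⟩ := std_Q hd hQ
  exact ⟨g⁻¹ • T1, g, hg, h1, h2, smul_inv_smul g T1⟩

theorem Lk.quartet {d : Finset GolayPt} {Q : Finset (Finset GolayPt)} {T : Finset GolayPt} (h : Lk d Q T) : Q ∈ quartets d := by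
  obtain ⟨g, hg, h1, h2, -⟩ := h
  have := quartets_smul (inv_mem hg) Q0_mem
  rwa [← h1, inv_smul_smul, ← h2, inv_smul_smul] at this

theorem T1_spec : T1 ⊆ D0ᶜ ∧ T1.card = 3 := by decide +kernel

theorem exists_Q {d : Finset GolayPt} (hd : d ∈ dodecads) {T : Finset GolayPt} (hT : T ⊆ dᶜ) (hTc : T.card = 3) : ∃ Q, Lk d Q T := by
  obtain ⟨g, hg, h1⟩ := dodecad_std hd
  have h1' : g • d = D0 := h1
  have h2 : g • T ⊆ D0ᶜ := by
    rw [← h1', ← smul_compl']; exact Finset.smul_finset_subset_smul_finset hT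
  obtain ⟨k, hk, h3, h4⟩ := trans3 (compl_mem_dod D0_mem) h2 (by rw [Finset.card_smul_finset, hTc]) T1_spec.1 T1_spec.2
  have h5 : k • D0 = D0 := by
    rw [smul_compl'] at h3; exact compl_injective h3
  refine ⟨(k * g)⁻¹ • Q0, k * g, mul_mem hk hg, ?_, smul_inv_smul _ _, ?_⟩
  · rw [mul_smul, h1', h5]
  · rw [mul_smul, h4]

/-- counting quartets through triples of the complement -/
theorem ncard_link {d : Finset GolayPt} (hd : d ∈ dodecads) (O : Set (Finset GolayPt)) (hO : ∀ T ∈ O, T ⊆ dᶜ ∧ T.card = 3) :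
    {Q | ∃ T ∈ O, Lk d Q T}.ncard = O.ncard := by
  choose! f hf using fun T (hT : T ∈ O) => exists_Q hd (hO T hT).1 (hO T hT).2
  symm
  apply Set.ncard_congr (fun T _ => f T)
  · intro T hT
    exact ⟨T, hT, hf T hT⟩
  · intro T T' hT hT' h
    exact ((hf T hT).unique (hf T' hT')).1 h
  · rintro Q ⟨T, hT, h⟩
    exact ⟨T, hT, ((hf T hT).unique h).2 rfl⟩

theorem card_quartets {d : Finset GolayPt} (hd : d ∈ dodecads) : (quartets d).ncard = 220 := by
  have h1 : quartets d = {Q | ∃ T ∈ ((dᶜ.powersetCard 3 : Finset (Finset GolayPt)) : Set (Finset GolayPt)), Lk d Q T} := by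
    ext Q
    constructor
    · intro hQ
      obtain ⟨T, hT⟩ := exists_T hd hQ
      exact ⟨T, Finset.mem_coe.2 (Finset.mem_powersetCard.2 hT.dod), hT⟩
    · rintro ⟨T, -, hT⟩
      exact hT.quartet
  rw [h1, ncard_link hd _ (fun T hT => Finset.mem_powersetCard.1 (Finset.mem_coe.1 hT)), Set.ncard_coe_finset, Finset.card_powersetCard,
    (compl_mem_dod hd).2]
  rfl

theorem stab_compl (d : Finset GolayPt) (g : Equiv.Perm GolayPt) : g • dᶜ = dᶜ ↔ g • d = d := by
  rw [smul_compl']
  exact compl_injective.eq_iff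

/-- the stabiliser of a quartet -/
theorem stab_eq {d : Finset GolayPt} {Q : Finset (Finset GolayPt)} {T : Finset GolayPt} (h : Lk d Q T) :
    MulAction.stabilizer M24 d ⊓ MulAction.stabilizer M24 Q = KK dᶜ T := by
  ext g
  rw [Subgroup.mem_inf, KK_mem, stab_compl]
  show (g.1 • d = d ∧ g.1 • Q = Q) ↔ _
  refine and_congr_right fun hgd => ?_
  have h2 := h.smul g.2
  rw [hgd] at h2
  exact h2.unique h

end Cfsg.Agent.H7.Qt
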