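import Mathlib
import Cfsg.Agent.H7_Qt2

set_option autoImplicit false
set_option linter.all false

/-!
Orbits of a quartet stabiliser on quartets.
-/

namespace Cfsg.Agent.H7.Qt

open Cfsg Cfsg.Agent.H7.Golay Cfsg.Agent.H7.Oct Cfsg.Agent.H7.M24 Cfsg.Agent.H7.M24b Cfsg.Agent.H7.M24c Cfsg.Agent.H7.M24d
open Cfsg.Agent.H7.Aff Cfsg.Agent.H7.DodPair
open scoped Pointwise Matrix

/-! ### triples of the affine plane -/

def LL : Finset (Finset V) := (Finset.univ.powersetCard 3).filter fun s => ∑ v ∈ s, v = 0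
def NN : Finset (Finset V) := (Finset.univ.powersetCard 3).filter fun s => ∑ v ∈ s, v ≠ 0

theorem card_LL : LL.card = 12 := by decide +kernel
theorem card_NN : NN.card = 72 := by
  have h := Finset.card_filter_add_card_filter_not (s := (Finset.univ : Finset V).powersetCard 3) (fun s => ∑ v ∈ s, v = 0)
  have h2 : ((Finset.univ : Finset V).powersetCard 3).card = 84 := by
    rw [Finset.card_powersetCard, Finset.card_univ, Fintype.card_fun, ZMod.card, Fintype.card_fin]; rfl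
  rw [h2] at h
  have h3 : LL.card + NN.card = 84 := h
  rw [card_LL] at h3
  omega

theorem exists_w : ∀ u : V, u ≠ 0 → ∃ w : V, u 0 * w 1 - w 0 * u 1 ≠ 0 := by decide

set_option synthInstance.maxHeartbeats 400000 in
set_option synthInstance.maxSize 1000 in
theorem indep0 : ∀ u w : V, u ≠ 0 → w ≠ 0 → u ≠ w → u + w ≠ 0 → u 0 * w 1 - w 0 * u 1 ≠ 0 := by decide +kernel

theorem indep (x y z : V) (hxy : x ≠ y) (hxz : x ≠ z) (hyz : y ≠ z) (h : x + y + z ≠ 0) : (y - x) 0 * (z - x) 1 - (z - x) 0 * (y - x) 1 ≠ 0 := by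
  apply indep0
  · exact sub_ne_zero.2 hxy.symm
  · exact sub_ne_zero.2 hxz.symm
  · intro e; exact hyz (sub_left_injective e)
  · intro e
    apply h
    have h3 : ∀ a b c : ZMod 3, (b - a) + (c - a) = 0 → a + b + c = 0 := by decide
    ext i
    exact h3 _ _ _ (congrFun e i)

/-- matrix with two given columns -/
theorem exists_A (u w : V) (h : u 0 * w 1 - w 0 * u 1 ≠ 0) : ∃ A : GL (Fin 2) (ZMod 3), ∀ v : V, A.1 *ᵥ v = v 0 • u + v 1 • w := by
  refine ⟨Matrix.GeneralLinearGroup.mkOfDetNeZero !![u 0, w 0; u 1, w 1] (by rw [Matrix.det_fin_two_of]; exact h), fun v => ?_⟩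
  ext i
  fin_cases i
  · simp [Matrix.GeneralLinearGroup.mkOfDetNeZero, Matrix.mulVec, dotProduct, Fin.sum_univ_two]; try ring
  · simp [Matrix.GeneralLinearGroup.mkOfDetNeZero, Matrix.mulVec, dotProduct, Fin.sum_univ_two]; try ring

theorem std_LL {s : Finset V} (hs : s ∈ LL) : ∃ (A : GL (Fin 2) (ZMod 3)) (b : V), ({![0, 0], ![1, 0], ![2, 0]} : Finset V).image (fun v => A.1 *ᵥ v + b) = s := by
  rw [LL, Finset.mem_filter, Finset.mem_powersetCard] at hs
  obtain ⟨⟨-, h3⟩, h0⟩ := hs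
  obtain ⟨x, y, z, hxy, hxz, hyz, rfl⟩ := Finset.card_eq_three.1 h3
  rw [Finset.sum_insert (by simp [hxy, hxz]), Finset.sum_insert (by simp [hyz]), Finset.sum_singleton] at h0
  obtain ⟨w, hw⟩ := exists_w (y - x) (sub_ne_zero.2 hxy.symm)
  obtain ⟨A, hA⟩ := exists_A (y - x) w hw
  refine ⟨A, x, ?_⟩
  rw [Finset.image_insert, Finset.image_insert, Finset.image_singleton, hA, hA, hA]
  have e1 : (![0, 0] : V) 0 • (y - x) + (![0, 0] : V) 1 • w + x = x := by simp
  have e2 : (![1, 0] : V) 0 • (y - x) + (![1, 0] : V) 1 • w + x = y := by simp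
  have e3 : (![2, 0] : V) 0 • (y - x) + (![2, 0] : V) 1 • w + x = z := by
    have hz : ∀ a b c : ZMod 3, a + (b + c) = 0 → 2 * (b - a) + a = c := by decide
    ext i
    have := hz (x i) (y i) (z i) (congrFun h0 i)
    simpa using this
  rw [e1, e2, e3]

theorem std_NN {s : Finset V} (hs : s ∈ NN) : ∃ (A : GL (Fin 2) (ZMod 3)) (b : V), ({![0, 0], ![1, 0], ![0, 1]} : Finset V).image (fun v => A.1 *ᵥ v + b) = s := by
  rw [NN, Finset.mem_filter, Finset.mem_powersetCard] at hs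
  obtain ⟨⟨-, h3⟩, h0⟩ := hs
  obtain ⟨x, y, z, hxy, hxz, hyz, rfl⟩ := Finset.card_eq_three.1 h3
  rw [Finset.sum_insert (by simp [hxy, hxz]), Finset.sum_insert (by simp [hyz]), Finset.sum_singleton, ← add_assoc] at h0
  obtain ⟨A, hA⟩ := exists_A (y - x) (z - x) (indep x y z hxy hxz hyz h0)
  refine ⟨A, x, ?_⟩
  rw [Finset.image_insert, Finset.image_insert, Finset.image_singleton, hA, hA, hA]
  have e1 : (![0, 0] : V) 0 • (y - x) + (![0, 0] : V) 1 • (z - x) + x = x := by simp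
  have e2 : (![1, 0] : V) 0 • (y - x) + (![1, 0] : V) 1 • (z - x) + x = y := by simp
  have e3 : (![0, 1] : V) 0 • (y - x) + (![0, 1] : V) 1 • (z - x) + x = z := by simp
  rw [e1, e2, e3]

theorem aff_sum (A : GL (Fin 2) (ZMod 3)) (b : V) {s : Finset V} (hs : s.card = 3) :
    (s.image (fun v => A.1 *ᵥ v + b)).card = 3 ∧ (∑ v ∈ s.image (fun v => A.1 *ᵥ v + b), v = 0 ↔ ∑ v ∈ s, v = 0) := by
  have hinjA : Function.Injective (fun v : V => A.1 *ᵥ v) := by
    intro x y hxy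
    have := congrArg (fun v => A⁻¹.1 *ᵥ v) hxy
    simp only [Matrix.mulVec_mulVec] at this
    have e : A⁻¹.1 * A.1 = 1 := A.inv_mul
    rw [e, Matrix.one_mulVec, Matrix.one_mulVec] at this
    exact this
  have hinj : Function.Injective (fun v : V => A.1 *ᵥ v + b) := fun x y hxy => hinjA (add_right_cancel hxy)
  refine ⟨by rw [Finset.card_image_of_injective _ hinj, hs], ?_⟩
  rw [Finset.sum_image (fun x _ y _ h => hinj h), Finset.sum_add_distrib, Finset.sum_const, hs, ← Matrix.mulVec_sum]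
  have e3 : (3 : ℕ) • b = 0 := by
    ext i
    have : ∀ a : ZMod 3, (3 : ℕ) • a = 0 := by decide
    exact this _
  rw [e3, add_zero]
  constructor
  · intro h
    apply hinjA
    show A.1 *ᵥ _ = A.1 *ᵥ 0
    rw [h, Matrix.mulVec_zero]
  · intro h; rw [h, Matrix.mulVec_zero]

theorem inter_union_sd {α : Type*} [DecidableEq α] (S T : Finset α) : S ∩ T ∪ S \ T = S := by
  ext a
  by_cases h : a ∈ T <;> simp [h]

/-! ### orbits -/

theorem orbit_link {d : Finset GolayPt} (hd : d ∈ dodecads) {Q : Finset (Finset GolayPt)} {T : Finset GolayPt} (hT : Lk d Q T)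
    (O : Set (Finset GolayPt)) (hO : ∀ T' ∈ O, T' ⊆ dᶜ ∧ T'.card = 3) (hne : O.Nonempty)
    (htr : ∀ T₁ ∈ O, ∀ T₂ ∈ O, ∃ g ∈ M24, g • dᶜ = dᶜ ∧ g • T = T ∧ g • T₁ = T₂)
    (hinv : ∀ g ∈ M24, g • dᶜ = dᶜ → g • T = T → ∀ T' ∈ O, g • T' ∈ O) :
    ∃ X ∈ quartets d, MulAction.orbit ↥(MulAction.stabilizer M24 d ⊓ MulAction.stabilizer M24 Q) X = {Q' | ∃ T' ∈ O, Lk d Q' T'} := by
  obtain ⟨S, hS⟩ := hne
  obtain ⟨X, hX⟩ := exists_Q hd (hO S hS).1 (hO S hS).2
  refine ⟨X, hX.quartet, ?_⟩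
  ext Q'
  constructor
  · rintro ⟨k, rfl⟩
    have hk : k.1 ∈ KK dᶜ T := by rw [← stab_eq hT]; exact k.2
    refine ⟨k.1.1 • S, hinv _ k.1.2 hk.1 hk.2 S hS, ?_⟩
    have := hX.smul k.1.2
    rwa [show k.1.1 • d = d from k.2.1] at this
  · rintro ⟨T', hT', h⟩
    obtain ⟨g, hg, h1, h2, h3⟩ := htr S hS T' hT'
    have hgd : g • d = d := (stab_compl d g).1 h1
    have hgK : (⟨g, hg⟩ : M24) ∈ MulAction.stabilizer M24 d ⊓ MulAction.stabilizer M24 Q := by
      rw [stab_eq hT]; exact ⟨h1, h2⟩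
    refine ⟨⟨⟨g, hg⟩, hgK⟩, ?_⟩
    show g • X = Q'
    have h4 := hX.smul hg
    rw [hgd, h3] at h4
    exact (h4.unique h).2 rfl

set_option maxHeartbeats 1000000 in
theorem orbits_main {d : Finset GolayPt} (hd : d ∈ dodecads) {Q : Finset (Finset GolayPt)} (hQ : Q ∈ quartets d) :
    ∃ X₁ ∈ quartets d, ∃ X₂ ∈ quartets d, ∃ X₃ ∈ quartets d, ∃ X₄ ∈ quartets d,
      (MulAction.orbit ↥(MulAction.stabilizer M24 d ⊓ MulAction.stabilizer M24 Q) X₁).ncard = 12 ∧
      (MulAction.orbit ↥(MulAction.stabilizer M24 d ⊓ MulAction.stabilizer M24 Q) X₂).ncard = 27 ∧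
      (MulAction.orbit ↥(MulAction.stabilizer M24 d ⊓ MulAction.stabilizer M24 Q) X₃).ncard = 72 ∧
      (MulAction.orbit ↥(MulAction.stabilizer M24 d ⊓ MulAction.stabilizer M24 Q) X₄).ncard = 108 ∧
      quartets d = {Q} ∪ MulAction.orbit ↥(MulAction.stabilizer M24 d ⊓ MulAction.stabilizer M24 Q) X₁ ∪
        MulAction.orbit ↥(MulAction.stabilizer M24 d ⊓ MulAction.stabilizer M24 Q) X₂ ∪
        MulAction.orbit ↥(MulAction.stabilizer M24 d ⊓ MulAction.stabilizer M24 Q) X₃ ∪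
        MulAction.orbit ↥(MulAction.stabilizer M24 d ⊓ MulAction.stabilizer M24 Q) X₄ := by
  classical
  obtain ⟨T, hT⟩ := exists_T hd hQ
  obtain ⟨hTe, hTc⟩ := hT.dod
  have he := compl_mem_dod hd
  set e := dᶜ with hedef
  obtain ⟨p, hpe, hpT⟩ : ∃ p, p ∈ e ∧ p ∉ T := by
    obtain ⟨p, hp⟩ : (e \ T).Nonempty := by
      rw [← Finset.card_pos, Finset.card_sdiff_of_subset hTe, he.2, hTc]; norm_num
    exact ⟨p, Finset.mem_sdiff.1 hp⟩
  obtain ⟨φ, hφ, -⟩ := exists_crd he hTe hTc hpe hpT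
  have hφinj : Function.Injective (fun s : Finset V => s.image φ) := Finset.image_injective hφ.inj
  -- the four families
  set O1 : Set (Finset GolayPt) := (fun s : Finset V => s.image φ) '' (LL : Set (Finset V)) with hO1
  set O3 : Set (Finset GolayPt) := (fun s : Finset V => s.image φ) '' (NN : Set (Finset V)) with hO3
  set O2 : Set (Finset GolayPt) := {S | S ⊆ e ∧ S.card = 3 ∧ (S ∩ T).card = 2} with hO2
  set O4 : Set (Finset GolayPt) := {S | S ⊆ e ∧ S.card = 3 ∧ (S ∩ T).card = 1} with hO4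
  have him : ∀ s : Finset V, s.card = 3 → s.image φ ⊆ e ∧ (s.image φ).card = 3 := by
    intro s hs
    refine ⟨?_, by rw [Finset.card_image_of_injective _ hφ.inj, hs]⟩
    intro q hq
    obtain ⟨v, -, rfl⟩ := Finset.mem_image.1 hq
    exact ((hφ.mem _).1 ⟨v, rfl⟩).1
  have hLL3 : ∀ s ∈ LL, s.card = 3 := fun s hs => (Finset.mem_powersetCard.1 (Finset.mem_filter.1 hs).1).2
  have hNN3 : ∀ s ∈ NN, s.card = 3 := fun s hs => (Finset.mem_powersetCard.1 (Finset.mem_filter.1 hs).1).2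
  have w1 : ∀ T' ∈ O1, T' ⊆ e ∧ T'.card = 3 := by
    rintro _ ⟨s, hs, rfl⟩; exact him s (hLL3 s hs)
  have w3 : ∀ T' ∈ O3, T' ⊆ e ∧ T'.card = 3 := by
    rintro _ ⟨s, hs, rfl⟩; exact him s (hNN3 s hs)
  have w2 : ∀ T' ∈ O2, T' ⊆ e ∧ T'.card = 3 := fun T' h => ⟨h.1, h.2.1⟩
  have w4 : ∀ T' ∈ O4, T' ⊆ e ∧ T'.card = 3 := fun T' h => ⟨h.1, h.2.1⟩
  -- action on images
  have himg : ∀ (g : Equiv.Perm GolayPt) (A : GL (Fin 2) (ZMod 3)) (b : V), (∀ v, g (φ v) = φ (A.1 *ᵥ v + b)) → ∀ s : Finset V,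
      g • s.image φ = (s.image (fun v => A.1 *ᵥ v + b)).image φ := by
    intro g A b h s
    ext q
    rw [Finset.mem_smul_finset, Finset.mem_image]
    constructor
    · rintro ⟨r, hr, rfl⟩
      obtain ⟨v, hv, rfl⟩ := Finset.mem_image.1 hr
      exact ⟨_, Finset.mem_image_of_mem _ hv, (h v).symm⟩
    · rintro ⟨w, hw, rfl⟩
      obtain ⟨v, hv, rfl⟩ := Finset.mem_image.1 hw
      exact ⟨φ v, Finset.mem_image_of_mem _ hv, h v⟩
  have i1 : ∀ g ∈ M24, g • e = e → g • T = T → ∀ T' ∈ O1, g • T' ∈ O1 := by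
    rintro g hg hge hgT _ ⟨s, hs, rfl⟩
    obtain ⟨A, b, hA⟩ := hφ.act hTe hTc hg hge hgT
    have h3 := hLL3 s hs
    obtain ⟨h4, h5⟩ := aff_sum A b h3
    dsimp only
    rw [himg g A b hA]
    exact ⟨_, Finset.mem_filter.2 ⟨Finset.mem_powersetCard.2 ⟨Finset.subset_univ _, h4⟩, h5.2 (Finset.mem_filter.1 hs).2⟩, rfl⟩
  have i3 : ∀ g ∈ M24, g • e = e → g • T = T → ∀ T' ∈ O3, g • T' ∈ O3 := by
    rintro g hg hge hgT _ ⟨s, hs, rfl⟩
    obtain ⟨A, b, hA⟩ := hφ.act hTe hTc hg hge hgT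
    have h3 := hNN3 s hs
    obtain ⟨h4, h5⟩ := aff_sum A b h3
    dsimp only
    rw [himg g A b hA]
    exact ⟨_, Finset.mem_filter.2 ⟨Finset.mem_powersetCard.2 ⟨Finset.subset_univ _, h4⟩, fun h => (Finset.mem_filter.1 hs).2 (h5.1 h)⟩, rfl⟩
  have icard : ∀ g ∈ M24, g • e = e → g • T = T → ∀ n, ∀ T' ∈ {S | S ⊆ e ∧ S.card = 3 ∧ (S ∩ T).card = n}, g • T' ∈ {S | S ⊆ e ∧ S.card = 3 ∧ (S ∩ T).card = n} := by
    rintro g hg hge hgT n S ⟨h1, h2, h3⟩
    refine ⟨?_, by rw [Finset.card_smul_finset, h2], ?_⟩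
    · rw [← hge]; exact Finset.smul_finset_subset_smul_finset h1
    · have := card_smul_inter g S T
      rw [hgT] at this
      rw [this, h3]
  have t1 : ∀ T₁ ∈ O1, ∀ T₂ ∈ O1, ∃ g ∈ M24, g • e = e ∧ g • T = T ∧ g • T₁ = T₂ := by
    have base : ∀ T₁ ∈ O1, ∃ g : KK e T, g.1.1 • ((({![0, 0], ![1, 0], ![2, 0]} : Finset V)).image φ) = T₁ := by
      rintro _ ⟨s, hs, rfl⟩
      obtain ⟨A, b, hA⟩ := std_LL hs
      obtain ⟨g, hg⟩ := exists_aff he hφ hTe hTc A b
      exact ⟨g, by rw [himg g.1.1 A b hg, hA]⟩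
    intro T₁ h1 T₂ h2
    obtain ⟨g, hg⟩ := base T₁ h1
    obtain ⟨k, hk⟩ := base T₂ h2
    refine ⟨(k * g⁻¹ : KK e T).1.1, (k * g⁻¹ : KK e T).1.2, (k * g⁻¹ : KK e T).2.1, (k * g⁻¹ : KK e T).2.2, ?_⟩
    show (k.1.1 * g.1.1⁻¹) • T₁ = T₂
    rw [mul_smul, ← hg, inv_smul_smul, hk]
  have t3 : ∀ T₁ ∈ O3, ∀ T₂ ∈ O3, ∃ g ∈ M24, g • e = e ∧ g • T = T ∧ g • T₁ = T₂ := by
    have base : ∀ T₁ ∈ O3, ∃ g : KK e T, g.1.1 • ((({![0, 0], ![1, 0], ![0, 1]} : Finset V)).image φ) = T₁ := by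
      rintro _ ⟨s, hs, rfl⟩
      obtain ⟨A, b, hA⟩ := std_NN hs
      obtain ⟨g, hg⟩ := exists_aff he hφ hTe hTc A b
      exact ⟨g, by rw [himg g.1.1 A b hg, hA]⟩
    intro T₁ h1 T₂ h2
    obtain ⟨g, hg⟩ := base T₁ h1
    obtain ⟨k, hk⟩ := base T₂ h2
    refine ⟨(k * g⁻¹ : KK e T).1.1, (k * g⁻¹ : KK e T).1.2, (k * g⁻¹ : KK e T).2.1, (k * g⁻¹ : KK e T).2.2, ?_⟩
    show (k.1.1 * g.1.1⁻¹) • T₁ = T₂
    rw [mul_smul, ← hg, inv_smul_smul, hk]
  -- meeting `T` in two points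
  have dec2 : ∀ S ∈ O2, ∃ a b c x, T = {a, b, c} ∧ S = {a, b, x} ∧ a ≠ b ∧ a ≠ c ∧ b ≠ c ∧ x ∈ e ∧ x ≠ a ∧ x ≠ b ∧ x ≠ c := by
    rintro S ⟨h1, h2, h3⟩
    obtain ⟨a, b, hab, hST⟩ := Finset.card_eq_two.1 h3
    have haS : a ∈ S ∩ T := by rw [hST]; simp
    have hbS : b ∈ S ∩ T := by rw [hST]; simp
    rw [Finset.mem_inter] at haS hbS
    have c1 : (T \ {a, b}).card = 1 := by
      rw [Finset.card_sdiff_of_subset, hTc, Finset.card_pair hab]
      intro q hq; simp only [Finset.mem_insert, Finset.mem_singleton] at hq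
      rcases hq with rfl | rfl
      · exact haS.2
      · exact hbS.2
    have c2 : (S \ {a, b}).card = 1 := by
      rw [Finset.card_sdiff_of_subset, h2, Finset.card_pair hab]
      intro q hq; simp only [Finset.mem_insert, Finset.mem_singleton] at hq
      rcases hq with rfl | rfl
      · exact haS.1
      · exact hbS.1
    obtain ⟨c, hc⟩ := Finset.card_eq_one.1 c1
    obtain ⟨x, hx⟩ := Finset.card_eq_one.1 c2
    have hc' : c ∈ T \ {a, b} := by rw [hc]; simp
    have hx' : x ∈ S \ {a, b} := by rw [hx]; simp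
    simp only [Finset.mem_sdiff, Finset.mem_insert, Finset.mem_singleton, not_or] at hc' hx'
    refine ⟨a, b, c, x, ?_, ?_, hab, fun h => hc'.2.1 h.symm, fun h => hc'.2.2 h.symm, h1 hx'.1, hx'.2.1, hx'.2.2, ?_⟩
    · ext q
      have : q ∈ T \ {a, b} ↔ q = c := by rw [hc]; simp
      simp only [Finset.mem_sdiff, Finset.mem_insert, Finset.mem_singleton, not_or] at this ⊢
      constructor
      · intro hq
        by_cases hqa : q = a
        · exact Or.inl hqa
        by_cases hqb : q = b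
        · exact Or.inr (Or.inl hqb)
        exact Or.inr (Or.inr (this.1 ⟨hq, hqa, hqb⟩))
      · rintro (rfl | rfl | rfl)
        · exact haS.2
        · exact hbS.2
        · exact hc'.1
    · ext q
      have : q ∈ S \ {a, b} ↔ q = x := by rw [hx]; simp
      simp only [Finset.mem_sdiff, Finset.mem_insert, Finset.mem_singleton, not_or] at this ⊢
      constructor
      · intro hq
        by_cases hqa : q = a
        · exact Or.inl hqa
        by_cases hqb : q = b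
        · exact Or.inr (Or.inl hqb)
        exact Or.inr (Or.inr (this.1 ⟨hq, hqa, hqb⟩))
      · rintro (rfl | rfl | rfl)
        · exact haS.1
        · exact hbS.1
        · exact hx'.1
    · rintro rfl
      have : x ∈ S ∩ T := Finset.mem_inter.2 ⟨hx'.1, hc'.1⟩
      rw [hST] at this
      simp only [Finset.mem_insert, Finset.mem_singleton] at this
      rcases this with h | h
      · exact hx'.2.1 h
      · exact hx'.2.2 h
  have t2 : ∀ T₁ ∈ O2, ∀ T₂ ∈ O2, ∃ g ∈ M24, g • e = e ∧ g • T = T ∧ g • T₁ = T₂ := by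
    intro T₁ h1 T₂ h2
    obtain ⟨a, b, c, x, hT1, hS1, n1, n2, n3, n4, n5, n6, n7⟩ := dec2 T₁ h1
    obtain ⟨a', b', c', x', hT2, hS2, m1, m2, m3, m4, m5, m6, m7⟩ := dec2 T₂ h2
    have mem : ∀ q ∈ T, q ∈ e := fun q hq => hTe hq
    obtain ⟨g, hg, hge, hgg⟩ := dodecad_five_trans he 4 (by norm_num) ![a, b, c, x] ![a', b', c', x'] (by
      intro i
      fin_cases i
      · exact mem a (by rw [hT1]; simp)
      · exact mem b (by rw [hT1]; simp)
      · exact mem c (by rw [hT1]; simp)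
      · exact n4) (by
      intro i
      fin_cases i
      · exact mem a' (by rw [hT2]; simp)
      · exact mem b' (by rw [hT2]; simp)
      · exact mem c' (by rw [hT2]; simp)
      · exact m4) (by
      intro i j hij
      fin_cases i <;> fin_cases j <;> first | rfl | (exfalso; first | exact n1 hij | exact n1 hij.symm | exact n2 hij | exact n2 hij.symm | exact n3 hij | exact n3 hij.symm | exact n5 hij | exact n5 hij.symm | exact n6 hij | exact n6 hij.symm | exact n7 hij | exact n7 hij.symm)) (by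
      intro i j hij
      fin_cases i <;> fin_cases j <;> first | rfl | (exfalso; first | exact m1 hij | exact m1 hij.symm | exact m2 hij | exact m2 hij.symm | exact m3 hij | exact m3 hij.symm | exact m5 hij | exact m5 hij.symm | exact m6 hij | exact m6 hij.symm | exact m7 hij | exact m7 hij.symm))
    have e0 : g a = a' := hgg 0
    have e1 : g b = b' := hgg 1
    have e2 : g c = c' := hgg 2
    have e3 : g x = x' := hgg 3
    refine ⟨g, hg, hge, ?_, ?_⟩
    · calc g • T = g • {a, b, c} := by rw [← hT1]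
        _ = {a', b', c'} := by rw [smul_triple, e0, e1, e2]
        _ = T := hT2.symm
    · rw [hS1, hS2, smul_triple, e0, e1, e3]
  have dec4 : ∀ S ∈ O4, ∃ a b c x y, T = {a, b, c} ∧ S = {a, x, y} ∧ a ≠ b ∧ a ≠ c ∧ b ≠ c ∧ x ∈ e ∧ y ∈ e ∧ x ≠ y ∧ x ≠ a ∧ x ≠ b ∧ x ≠ c ∧ y ≠ a ∧ y ≠ b ∧ y ≠ c := by
    rintro S ⟨h1, h2, h3⟩
    obtain ⟨a, hST⟩ := Finset.card_eq_one.1 h3
    have haS : a ∈ S ∩ T := by rw [hST]; simp
    rw [Finset.mem_inter] at haS
    have c1 : (T.erase a).card = 2 := by rw [Finset.card_erase_of_mem haS.2, hTc]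
    have c2 : (S.erase a).card = 2 := by rw [Finset.card_erase_of_mem haS.1, h2]
    obtain ⟨b, c, hbc, hT'⟩ := Finset.card_eq_two.1 c1
    obtain ⟨x, y, hxy, hS'⟩ := Finset.card_eq_two.1 c2
    have hb : b ∈ T.erase a := by rw [hT']; simp
    have hc : c ∈ T.erase a := by rw [hT']; simp
    have hx : x ∈ S.erase a := by rw [hS']; simp
    have hy : y ∈ S.erase a := by rw [hS']; simp
    rw [Finset.mem_erase] at hb hc hx hy
    have nin : ∀ q, q ∈ S → q ≠ a → q ∉ T := by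
      intro q hq hqa hqT
      have : q ∈ S ∩ T := Finset.mem_inter.2 ⟨hq, hqT⟩
      rw [hST, Finset.mem_singleton] at this
      exact hqa this
    have hxT := nin x hx.2 hx.1
    have hyT := nin y hy.2 hy.1
    refine ⟨a, b, c, x, y, ?_, ?_, hb.1.symm, hc.1.symm, hbc, h1 hx.2, h1 hy.2, hxy, hx.1, ?_, ?_, hy.1, ?_, ?_⟩
    · rw [← Finset.insert_erase haS.2, hT']
    · rw [← Finset.insert_erase haS.1, hS']
    · rintro rfl; exact hxT hb.2
    · rintro rfl; exact hxT hc.2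
    · rintro rfl; exact hyT hb.2
    · rintro rfl; exact hyT hc.2
  have t4 : ∀ T₁ ∈ O4, ∀ T₂ ∈ O4, ∃ g ∈ M24, g • e = e ∧ g • T = T ∧ g • T₁ = T₂ := by
    intro T₁ h1 T₂ h2
    obtain ⟨a, b, c, x, y, hT1, hS1, n1, n2, n3, n4, n5, n6, n7, n8, n9, n10, n11, n12⟩ := dec4 T₁ h1
    obtain ⟨a', b', c', x', y', hT2, hS2, m1, m2, m3, m4, m5, m6, m7, m8, m9, m10, m11, m12⟩ := dec4 T₂ h2
    have mem : ∀ q ∈ T, q ∈ e := fun q hq => hTe hq
    obtain ⟨g, hg, hge, hgg⟩ := dodecad_five_trans he 5 (by norm_num) ![a, b, c, x, y] ![a', b', c', x', y'] (by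
      intro i
      fin_cases i
      · exact mem a (by rw [hT1]; simp)
      · exact mem b (by rw [hT1]; simp)
      · exact mem c (by rw [hT1]; simp)
      · exact n4
      · exact n5) (by
      intro i
      fin_cases i
      · exact mem a' (by rw [hT2]; simp)
      · exact mem b' (by rw [hT2]; simp)
      · exact mem c' (by rw [hT2]; simp)
      · exact m4
      · exact m5) (inj_five n1 n2 n7.symm n10.symm n3 n8.symm n11.symm n9.symm n12.symm n6)
        (inj_five m1 m2 m7.symm m10.symm m3 m8.symm m11.symm m9.symm m12.symm m6)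
    have e0 : g a = a' := hgg 0
    have e1 : g b = b' := hgg 1
    have e2 : g c = c' := hgg 2
    have e3 : g x = x' := hgg 3
    have e4 : g y = y' := hgg 4
    refine ⟨g, hg, hge, ?_, ?_⟩
    · calc g • T = g • {a, b, c} := by rw [← hT1]
        _ = {a', b', c'} := by rw [smul_triple, e0, e1, e2]
        _ = T := hT2.symm
    · rw [hS1, hS2, smul_triple, e0, e3, e4]
  -- cardinalities
  have c1 : O1.ncard = 12 := by
    rw [hO1, Set.ncard_image_of_injective _ hφinj, Set.ncard_coe_finset, card_LL]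
  have c3 : O3.ncard = 72 := by
    rw [hO3, Set.ncard_image_of_injective _ hφinj, Set.ncard_coe_finset, card_NN]
  have csplit : ∀ n, ({S | S ⊆ e ∧ S.card = 3 ∧ (S ∩ T).card = n} : Set (Finset GolayPt)).ncard = (3 : ℕ).choose n * (9 : ℕ).choose (3 - n) ∨ 3 < n := by
    intro n
    by_cases hn : 3 < n
    · exact Or.inr hn
    left
    have h1 : ({S | S ⊆ e ∧ S.card = 3 ∧ (S ∩ T).card = n} : Set (Finset GolayPt)) =
        (fun p : Finset GolayPt × Finset GolayPt => p.1 ∪ p.2) '' ((T.powersetCard n ×ˢ (e \ T).powersetCard (3 - n) : Finset _) : Set _) := by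
      ext S
      constructor
      · rintro ⟨h1, h2, h3⟩
        refine ⟨(S ∩ T, S \ T), ?_, inter_union_sd S T⟩
        rw [Finset.mem_coe, Finset.mem_product, Finset.mem_powersetCard, Finset.mem_powersetCard]
        refine ⟨⟨Finset.inter_subset_right, h3⟩, Finset.sdiff_subset_sdiff h1 (Finset.Subset.refl T), ?_⟩
        have := Finset.card_inter_add_card_sdiff S T
        show (S \ T).card = 3 - n
        omega
      · rintro ⟨⟨A, B⟩, hAB, rfl⟩
        rw [Finset.mem_coe, Finset.mem_product, Finset.mem_powersetCard, Finset.mem_powersetCard] at hAB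
        obtain ⟨⟨hA, hAc⟩, hB, hBc⟩ := hAB
        dsimp only at hA hAc hB hBc ⊢
        have hBT : Disjoint B T := Finset.disjoint_of_subset_left hB Finset.sdiff_disjoint
        refine ⟨Finset.union_subset (hA.trans hTe) (hB.trans Finset.sdiff_subset), ?_, ?_⟩
        · rw [Finset.card_union_of_disjoint (Finset.disjoint_of_subset_left hA hBT.symm), hAc, hBc]; omega
        · rw [Finset.union_inter_distrib_right, Finset.inter_eq_left.2 hA, Finset.disjoint_iff_inter_eq_empty.1 hBT, Finset.union_empty, hAc]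
    rw [h1, Set.ncard_image_of_injOn, Set.ncard_coe_finset, Finset.card_product, Finset.card_powersetCard, Finset.card_powersetCard, hTc,
      Finset.card_sdiff_of_subset hTe, he.2, hTc]
    rintro ⟨A, B⟩ h2 ⟨A', B'⟩ h3 h4
    rw [Finset.mem_coe, Finset.mem_product, Finset.mem_powersetCard, Finset.mem_powersetCard] at h2 h3
    dsimp only at h2 h3 h4
    have hBT : Disjoint B T := Finset.disjoint_of_subset_left h2.2.1 Finset.sdiff_disjoint
    have hBT' : Disjoint B' T := Finset.disjoint_of_subset_left h3.2.1 Finset.sdiff_disjoint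
    have f1 : A = (A ∪ B) ∩ T := by
      rw [Finset.union_inter_distrib_right, Finset.inter_eq_left.2 h2.1.1, Finset.disjoint_iff_inter_eq_empty.1 hBT, Finset.union_empty]
    have f2 : A' = (A' ∪ B') ∩ T := by
      rw [Finset.union_inter_distrib_right, Finset.inter_eq_left.2 h3.1.1, Finset.disjoint_iff_inter_eq_empty.1 hBT', Finset.union_empty]
    have f3 : B = (A ∪ B) \ T := by
      rw [Finset.union_sdiff_distrib, Finset.sdiff_eq_empty_iff_subset.2 h2.1.1, Finset.empty_union, Finset.sdiff_eq_self_of_disjoint hBT]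
    have f4 : B' = (A' ∪ B') \ T := by
      rw [Finset.union_sdiff_distrib, Finset.sdiff_eq_empty_iff_subset.2 h3.1.1, Finset.empty_union, Finset.sdiff_eq_self_of_disjoint hBT']
    exact Prod.ext (by rw [f1, f2, h4]) (by rw [f3, f4, h4])
  have c2 : O2.ncard = 27 := by
    rcases csplit 2 with h | h
    · exact h
    · omega
  have c4 : O4.ncard = 108 := by
    rcases csplit 1 with h | h
    · exact h
    · omega
  have ne_of : ∀ (O : Set (Finset GolayPt)) (n : ℕ), O.ncard = n → n ≠ 0 → O.Nonempty := by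
    intro O n h hn
    rw [Set.nonempty_iff_ne_empty]
    rintro rfl
    rw [Set.ncard_empty] at h
    exact hn h.symm
  obtain ⟨X1, hX1, o1⟩ := orbit_link hd hT O1 w1 (ne_of O1 12 c1 (by norm_num)) t1 i1
  obtain ⟨X2, hX2, o2⟩ := orbit_link hd hT O2 w2 (ne_of O2 27 c2 (by norm_num)) t2 (fun g hg h1 h2 => icard g hg h1 h2 2)
  obtain ⟨X3, hX3, o3⟩ := orbit_link hd hT O3 w3 (ne_of O3 72 c3 (by norm_num)) t3 i3
  obtain ⟨X4, hX4, o4⟩ := orbit_link hd hT O4 w4 (ne_of O4 108 c4 (by norm_num)) t4 (fun g hg h1 h2 => icard g hg h1 h2 1)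
  refine ⟨X1, hX1, X2, hX2, X3, hX3, X4, hX4, ?_, ?_, ?_, ?_, ?_⟩
  · rw [o1, ncard_link hd O1 w1, c1]
  · rw [o2, ncard_link hd O2 w2, c2]
  · rw [o3, ncard_link hd O3 w3, c3]
  · rw [o4, ncard_link hd O4 w4, c4]
  · rw [o1, o2, o3, o4]
    ext Q'
    constructor
    · intro hQ'
      obtain ⟨S, hS⟩ := exists_T hd hQ'
      obtain ⟨hSe, hSc⟩ := hS.dod
      have hle : (S ∩ T).card ≤ 3 := by rw [← hSc]; exact Finset.card_le_card Finset.inter_subset_left
      have h4 : (S ∩ T).card = 0 ∨ (S ∩ T).card = 1 ∨ (S ∩ T).card = 2 ∨ (S ∩ T).card = 3 := by omega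
      rcases h4 with h | h | h | h
      · -- disjoint
        have hdis : ∀ q ∈ S, q ∉ T := by
          intro q hq hqT
          have : q ∈ S ∩ T := Finset.mem_inter.2 ⟨hq, hqT⟩
          rw [Finset.card_eq_zero.1 h] at this
          exact absurd this (Finset.notMem_empty _)
        set s : Finset V := Finset.univ.filter fun v => φ v ∈ S with hs
        have hsS : s.image φ = S := by
          ext q
          rw [Finset.mem_image]
          constructor
          · rintro ⟨v, hv, rfl⟩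
            exact (Finset.mem_filter.1 hv).2
          · intro hq
            obtain ⟨v, rfl⟩ := (hφ.mem q).2 ⟨hSe hq, hdis q hq⟩
            exact ⟨v, Finset.mem_filter.2 ⟨Finset.mem_univ _, hq⟩, rfl⟩
        have hsc : s.card = 3 := by rw [← Finset.card_image_of_injective s hφ.inj, hsS, hSc]
        by_cases h0 : ∑ v ∈ s, v = 0
        · left; left; left; right
          exact ⟨S, ⟨s, Finset.mem_filter.2 ⟨Finset.mem_powersetCard.2 ⟨Finset.subset_univ _, hsc⟩, h0⟩, hsS⟩, hS⟩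
        · left; right
          exact ⟨S, ⟨s, Finset.mem_filter.2 ⟨Finset.mem_powersetCard.2 ⟨Finset.subset_univ _, hsc⟩, h0⟩, hsS⟩, hS⟩
      · right
        exact ⟨S, ⟨hSe, hSc, h⟩, hS⟩
      · left; left; right
        exact ⟨S, ⟨hSe, hSc, h⟩, hS⟩
      · left; left; left; left
        have h5 : S ∩ T = S := Finset.eq_of_subset_of_card_le Finset.inter_subset_left (by rw [h, hSc])
        have h6 : S ∩ T = T := Finset.eq_of_subset_of_card_le Finset.inter_subset_right (by rw [h, hTc])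
        exact (hS.unique hT).2 (h5.symm.trans h6)
    · rintro ((((h | ⟨S, -, h⟩) | ⟨S, -, h⟩) | ⟨S, -, h⟩) | ⟨S, -, h⟩)
      · rw [Set.mem_singleton_iff] at h
        rw [h]; exact hQ
      · exact h.quartet
      · exact h.quartet
      · exact h.quartet
      · exact h.quartet

theorem quot_main {d : Finset GolayPt} (hd : d ∈ dodecads) {Q : Finset (Finset GolayPt)} (hQ : Q ∈ quartets d) :
    Nat.card ↥(MulAction.stabilizer M24 d ⊓ MulAction.stabilizer M24 Q) = 432 ∧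
    (∃ (N : Subgroup ↥(MulAction.stabilizer M24 d ⊓ MulAction.stabilizer M24 Q)) (_ : N.Normal), Nat.card N = 9 ∧
      Nonempty (↥(MulAction.stabilizer M24 d ⊓ MulAction.stabilizer M24 Q) ⧸ N ≃* GL (Fin 2) (ZMod 3))) ∧
    ∀ p ∈ d, ∀ q ∈ d, ∃ g ∈ (MulAction.stabilizer M24 d ⊓ MulAction.stabilizer M24 Q), ((g : ↥M24) : Equiv.Perm GolayPt) p = q := by
  obtain ⟨T, hT⟩ := exists_T hd hQ
  obtain ⟨hTe, hTc⟩ := hT.dod
  have he := compl_mem_dod hd
  obtain ⟨p, hpe, hpT⟩ : ∃ p, p ∈ dᶜ ∧ p ∉ T := by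
    obtain ⟨p, hp⟩ : (dᶜ \ T).Nonempty := by
      rw [← Finset.card_pos, Finset.card_sdiff_of_subset hTe, he.2, hTc]; norm_num
    exact ⟨p, Finset.mem_sdiff.1 hp⟩
  obtain ⟨φ, hφ, -⟩ := exists_crd he hTe hTc hpe hpT
  rw [stab_eq hT]
  refine ⟨card_KK he hTe hTc, ⟨(lin hφ hTe hTc).ker, inferInstance, (card_ker_range he hφ hTe hTc).1,
    ⟨QuotientGroup.quotientKerEquivOfSurjective _ (lin_surj he hφ hTe hTc)⟩⟩, ?_⟩
  intro x hx y hy
  obtain ⟨a, b, c, hab, hac, hbc, rfl⟩ := Finset.card_eq_three.1 hTc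
  obtain ⟨g, hg, h1, h2, h3, h4, h5⟩ := three_compl he (hTe (show a ∈ _ by simp)) (hTe (show b ∈ _ by simp)) (hTe (show c ∈ _ by simp))
    hab hac hbc (x := x) (y := y) (by simpa using hx) (by simpa using hy)
  refine ⟨⟨g, hg⟩, ⟨h1, ?_⟩, h5⟩
  show g • ({a, b, c} : Finset GolayPt) = {a, b, c}
  rw [smul_triple, h2, h3, h4]

end Cfsg.Agent.H7.Qt
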