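import Mathlib
import Cfsg.Agent.H5_SL
import Cfsg.Agent.H7_GF8
import Cfsg.Agent.H7_GenIso

/-! `SL(2, 8)` on the projective line. -/

namespace H7.Ree3

open Matrix GF8
open Cfsg.Agent

abbrev S2 := Matrix.SpecialLinearGroup (Fin 2) GF

/-- The permutations. -/
def QQ : Fin 6 → Fin 9 → Fin 9 := ![![0, 2, 1, 5, 7, 3, 8, 4, 6], ![0, 3, 5, 1, 8, 2, 7, 6, 4], ![0, 4, 7, 8, 1, 6, 5, 2, 3], ![2, 1, 0, 6, 5, 4, 3, 8, 7], ![7, 1, 8, 4, 3, 6, 5, 0, 2], ![6, 1, 3, 2, 8, 7, 0, 5, 4]]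
/-- the points of the projective line -/
def PT : Fin 9 → ℕ × ℕ := ![(1, 0), (0, 1), (1, 1), (2, 1), (4, 1), (3, 1), (7, 1), (5, 1), (6, 1)]

/-- The action on pairs. -/
@[reducible] def actP : MulAction S2 (GF × GF) where
  smul g t := (g.1 0 0 * t.1 + g.1 0 1 * t.2, g.1 1 0 * t.1 + g.1 1 1 * t.2)
  one_smul t := by
    show ((1 : Matrix (Fin 2) (Fin 2) GF) 0 0 * t.1 + (1 : Matrix (Fin 2) (Fin 2) GF) 0 1 * t.2,
      (1 : Matrix (Fin 2) (Fin 2) GF) 1 0 * t.1 + (1 : Matrix (Fin 2) (Fin 2) GF) 1 1 * t.2) = t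
    simp
  mul_smul g h t := by
    show ((g.1 * h.1) 0 0 * t.1 + (g.1 * h.1) 0 1 * t.2, (g.1 * h.1) 1 0 * t.1 + (g.1 * h.1) 1 1 * t.2) =
      (g.1 0 0 * (h.1 0 0 * t.1 + h.1 0 1 * t.2) + g.1 0 1 * (h.1 1 0 * t.1 + h.1 1 1 * t.2),
       g.1 1 0 * (h.1 0 0 * t.1 + h.1 0 1 * t.2) + g.1 1 1 * (h.1 1 0 * t.1 + h.1 1 1 * t.2))
    simp only [Matrix.mul_apply, Fin.sum_univ_two]
    refine Prod.ext ?_ ?_
    · show _ = _
      ring
    · show _ = _
      ring

attribute [local instance] actP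

open scoped Pointwise

/-- the line spanned by a vector -/
def line (t : GF × GF) : Finset (GF × GF) :=
  ((Finset.univ : Finset GF).filter (· ≠ 0)).image (fun c => (c * t.1, c * t.2))

def pt (i : Fin 9) : GF × GF := (ofN (PT i).1, ofN (PT i).2)

def y (i : Fin 9) : Finset (GF × GF) := line (pt i)

/-- the transvections: positions and entries -/
def ti : Fin 6 → Fin 2 := ![0, 0, 0, 1, 1, 1]
def tj : Fin 6 → Fin 2 := ![1, 1, 1, 0, 0, 0]
def tc : Fin 6 → GF := ![ofN 1, ofN 2, ofN 4, ofN 1, ofN 2, ofN 4]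

theorem tij (k : Fin 6) : ti k ≠ tj k := by revert k; decide

def tg (k : Fin 6) : S2 := Matrix.SpecialLinearGroup.transvection (tij k) (tc k)

theorem T_add {i j : Fin 2} (hij : i ≠ j) (a b : GF) :
    (Matrix.SpecialLinearGroup.transvection hij (a + b) : S2) =
    Matrix.SpecialLinearGroup.transvection hij a * Matrix.SpecialLinearGroup.transvection hij b := by
  apply Subtype.ext
  exact (Matrix.transvection_mul_transvection_same i j hij a b).symm

theorem closure_tg : Subgroup.closure (Set.range tg) = ⊤ := by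
  rw [eq_top_iff, ← H5.SL.closure_transvections, Subgroup.closure_le]
  rintro _ ⟨i, j, hij, a, rfl⟩
  have h0 : (Matrix.SpecialLinearGroup.transvection hij (0 : GF) : S2) = 1 := by
    apply Subtype.ext
    show Matrix.transvection i j (0 : GF) = 1
    simp [Matrix.transvection]
  have hk : ∀ c : GF, (c = ofN 1 ∨ c = ofN 2 ∨ c = ofN 4) →
      (Matrix.SpecialLinearGroup.transvection hij c : S2) ∈ Subgroup.closure (Set.range tg) := by
    intro c hc
    have hk' : ∀ i j : Fin 2, i ≠ j → ∀ c : GF, (c = ofN 1 ∨ c = ofN 2 ∨ c = ofN 4) →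
        ∃ k : Fin 6, ti k = i ∧ tj k = j ∧ tc k = c := by decide +kernel
    obtain ⟨k, rfl, rfl, rfl⟩ := hk' i j hij c hc
    exact Subgroup.subset_closure ⟨k, rfl⟩
  have hk0 : ∀ c : GF, (c = 0 ∨ c = ofN 1 ∨ c = ofN 2 ∨ c = ofN 4) →
      (Matrix.SpecialLinearGroup.transvection hij c : S2) ∈ Subgroup.closure (Set.range tg) := by
    rintro c (rfl | hc)
    · rw [h0]; exact one_mem _
    · exact hk c hc
  have hd : ∀ a : GF, ∃ b c d : GF, (b = 0 ∨ b = ofN 1 ∨ b = ofN 2 ∨ b = ofN 4) ∧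
      (c = 0 ∨ c = ofN 1 ∨ c = ofN 2 ∨ c = ofN 4) ∧ (d = 0 ∨ d = ofN 1 ∨ d = ofN 2 ∨ d = ofN 4) ∧
      a = b + c + d := by decide +kernel
  obtain ⟨b, c, d, hb, hc, hd, rfl⟩ := hd a
  rw [T_add, T_add]
  exact mul_mem (mul_mem (hk0 b hb) (hk0 c hc)) (hk0 d hd)

/-- the permutations -/
def q (k : Fin 6) : Equiv.Perm (Fin 9) :=
  ⟨QQ k, QQ k, by revert k; decide +kernel, by revert k; decide +kernel⟩

theorem tg_pt (k : Fin 6) (t : GF × GF) : tg k • t =
    (Matrix.transvection (ti k) (tj k) (tc k) 0 0 * t.1 + Matrix.transvection (ti k) (tj k) (tc k) 0 1 * t.2,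
     Matrix.transvection (ti k) (tj k) (tc k) 1 0 * t.1 + Matrix.transvection (ti k) (tj k) (tc k) 1 1 * t.2) :=
  rfl

theorem tg_check : ∀ (k : Fin 6) (i : Fin 9), (y i).image (fun t =>
    (Matrix.transvection (ti k) (tj k) (tc k) 0 0 * t.1 + Matrix.transvection (ti k) (tj k) (tc k) 0 1 * t.2,
     Matrix.transvection (ti k) (tj k) (tc k) 1 0 * t.1 + Matrix.transvection (ti k) (tj k) (tc k) 1 1 * t.2)) =
    y (QQ k i) := by
  decide +kernel

theorem tg_y (k : Fin 6) (i : Fin 9) : tg k • y i = y (q k i) := by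
  show _ = y (QQ k i)
  rw [← tg_check, ← Finset.image_smul]
  rfl

theorem y_inj : Function.Injective y := by
  intro i j; revert i j; decide +kernel

theorem faithful {g : S2} (h0 : g • y 0 = y 0) (h1 : g • y 1 = y 1) (h2 : g • y 2 = y 2) : g = 1 := by
  have m0 : g • pt 0 ∈ y 0 := by
    rw [← h0]; exact Finset.smul_mem_smul_finset (by decide +kernel)
  have m1 : g • pt 1 ∈ y 1 := by
    rw [← h1]; exact Finset.smul_mem_smul_finset (by decide +kernel)
  have m2 : g • pt 2 ∈ y 2 := by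
    rw [← h2]; exact Finset.smul_mem_smul_finset (by decide +kernel)
  have e0 : pt 0 = (1, 0) := by decide +kernel
  have e1 : pt 1 = (0, 1) := by decide +kernel
  have e2 : pt 2 = (1, 1) := by decide +kernel
  have c0 : ∀ a b : GF, (a, b) ∈ y 0 → b = 0 := by decide +kernel
  have c1 : ∀ a b : GF, (a, b) ∈ y 1 → a = 0 := by decide +kernel
  have c2 : ∀ a b : GF, (a, b) ∈ y 2 → a = b := by decide +kernel
  have f0 : g.1 1 0 = 0 := by
    rw [e0] at m0
    have := c0 _ _ m0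
    simpa using this
  have f1 : g.1 0 1 = 0 := by
    rw [e1] at m1
    have := c1 _ _ m1
    simpa using this
  have f2 : g.1 0 0 = g.1 1 1 := by
    rw [e2] at m2
    have := c2 _ _ m2
    simpa [f0, f1] using this
  have hd := g.2
  rw [Matrix.det_fin_two, f0, f1, ← f2] at hd
  have hs : ∀ a : GF, a * a - 0 * 0 = 1 → a = 1 := by decide +kernel
  have f3 := hs _ hd
  apply Subtype.ext
  refine Matrix.ext fun i j => ?_
  fin_cases i <;> fin_cases j
  · exact f3
  · exact f1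
  · exact f0
  · show g.1 1 1 = 1
    rw [← f2]
    exact f3

theorem exists_q : ∃ e : S2 ≃* Subgroup.closure (Set.range q),
    ∀ (g : S2) i, g • y i = y ((e g : Equiv.Perm (Fin 9)) i) := by
  obtain ⟨e, he⟩ := GenIso.exists_equiv (G := S2) y y_inj tg q tg_y
    (fun g _ hg => faithful (hg 0) (hg 1) (hg 2))
  let e' : S2 ≃* Subgroup.closure (Set.range tg) :=
    (Subgroup.topEquiv.symm).trans (MulEquiv.subgroupCongr closure_tg.symm)
  exact ⟨e'.trans e, fun g i => he (e' g) i⟩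

end H7.Ree3
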