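import Cfsg.Agent.H7_Ree3a
import Cfsg.Agent.H7_GenIso2
import Cfsg.Agent.H5_SL2

/-! The group of order 1512 in the symmetric group of degree nine. -/

namespace H7.Ree3

open GF8
open scoped commutatorElement

set_option maxRecDepth 100000

attribute [local instance] actP
open scoped Pointwise

/-- permutations of nine points -/
def RR : Fin 2 → Fin 9 → Fin 9 := ![![1, 5, 8, 6, 3, 2, 7, 0, 4], ![4, 7, 6, 0, 8, 1, 3, 2, 5]]
def C1 : Fin 6 → List (Fin 2) := ![[0], [0, 0], [0], [0, 0], [1], [0, 1, 0]]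
def C2 : Fin 6 → List (Fin 2) := ![[0, 1, 0, 1, 1, 0, 0, 1], [0, 0, 0, 1, 0, 1], [0, 0, 1, 0, 1, 1, 1], [0, 0, 0, 0, 1], [0, 1, 0, 0, 0], [0, 1, 1, 0]]
def CJ : Fin 2 → Fin 6 → List (Fin 6) := ![![[3, 5], [4], [3, 4], [0, 1, 5, 0, 1], [2, 5, 0, 5, 2], [0, 4, 1, 3, 5]], ![[2, 3, 4, 5, 2], [2, 3, 2], [2, 5, 2], [4, 0, 4], [4, 2, 4], [4, 1, 2, 4]]]
def CW : List (Fin 6) := [4, 0, 4, 1, 4]
def W3 : List (Fin 2) := [0, 1, 1, 0, 0, 1, 0, 1]

def rho (k : Fin 2) : Equiv.Perm (Fin 9) :=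
  ⟨fun i => RR k i, fun i => ((RR k)^[(if k = 0 then 8 else 8)]) i, by revert k; decide +kernel,
    by revert k; decide +kernel⟩

abbrev P : Subgroup (Equiv.Perm (Fin 9)) := Subgroup.closure (Set.range rho)
abbrev Q : Subgroup (Equiv.Perm (Fin 9)) := Subgroup.closure (Set.range q)

theorem rho_mem (L : List (Fin 2)) : (L.map rho).prod ∈ P := by
  apply Subgroup.list_prod_mem
  intro x hx
  obtain ⟨k, -, rfl⟩ := List.mem_map.1 hx
  exact Subgroup.subset_closure ⟨k, rfl⟩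

theorem q_mem (L : List (Fin 6)) : (L.map q).prod ∈ Q := by
  apply Subgroup.list_prod_mem
  intro x hx
  obtain ⟨k, -, rfl⟩ := List.mem_map.1 hx
  exact Subgroup.subset_closure ⟨k, rfl⟩

theorem q_comm : ∀ k : Fin 6, q k = ((C1 k).map rho).prod * ((C2 k).map rho).prod *
    (((C1 k).map rho).prod)⁻¹ * (((C2 k).map rho).prod)⁻¹ := by
  decide +kernel

theorem Q_le : Q ≤ ⁅P, P⁆ := by
  rw [Subgroup.closure_le]
  rintro _ ⟨k, rfl⟩
  rw [q_comm]
  exact Subgroup.commutator_mem_commutator (rho_mem _) (rho_mem _)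

theorem conj_check : ∀ (s : Fin 2) (k : Fin 6), rho s * q k * (rho s)⁻¹ = ((CJ s k).map q).prod := by
  decide +kernel

theorem comm_check : rho 0 * rho 1 * (rho 0)⁻¹ * (rho 1)⁻¹ = (CW.map q).prod := by
  decide +kernel

theorem le_Q : ⁅P, P⁆ ≤ Q := by
  apply GenIso.comm_le
  · rintro _ ⟨s, rfl⟩
    apply GenIso.mem_normalizer_of
    intro k
    rw [conj_check]
    exact q_mem _
  · rintro _ ⟨s, rfl⟩ _ ⟨t, rfl⟩
    have h01 : ⁅rho 0, rho 1⁆ ∈ Q := by
      rw [commutatorElement_def, comm_check]; exact q_mem _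
    fin_cases s <;> fin_cases t
    · show ⁅rho 0, rho 0⁆ ∈ Q
      rw [commutatorElement_self]; exact one_mem _
    · exact h01
    · show ⁅rho 1, rho 0⁆ ∈ Q
      rw [← commutatorElement_inv]; exact inv_mem h01
    · show ⁅rho 1, rho 1⁆ ∈ Q
      rw [commutatorElement_self]; exact one_mem _

theorem PP_eq : ⁅P, P⁆ = Q := le_antisymm le_Q Q_le

theorem Q_le_P : Q ≤ P := Q_le.trans (Subgroup.commutator_le_self P)

theorem W3_notMem : (W3.map rho).prod ∉ Q := by
  intro h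
  obtain ⟨e, he⟩ := exists_q
  obtain ⟨g, hg⟩ := e.surjective ⟨_, h⟩
  have hf : ∀ i : Fin 9, (W3.map rho).prod i = i → g • y i = y i := by
    intro i hi
    rw [he, hg]
    show y ((W3.map rho).prod i) = y i
    rw [hi]
  have hg1 : g = 1 := faithful (hf 0 (by decide +kernel)) (hf 1 (by decide +kernel))
    (hf 2 (by decide +kernel))
  rw [hg1, map_one] at hg
  have h1 : (W3.map rho).prod = 1 := (congrArg Subtype.val hg).symm
  revert h1
  decide +kernel

theorem card_Q : Nat.card Q = 504 := by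
  obtain ⟨e, -⟩ := exists_q
  rw [← Nat.card_congr e.toEquiv]
  have h := Cfsg.Agent.H5.SL2.card_SL2 (F := GF)
  rw [card_GF] at h
  exact h

theorem card_P (h : Nat.card P ∣ 1512) : Nat.card P = 1512 := by
  have h1 : Nat.card Q ∣ Nat.card P := Subgroup.card_dvd_of_le Q_le_P
  rw [card_Q] at h1
  have h2 : Nat.card P ≠ 504 := by
    intro h2
    have h3 : Q = P := Subgroup.eq_of_le_of_card_ge Q_le_P (by rw [h2, card_Q])
    apply W3_notMem
    rw [h3]
    exact rho_mem _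
  obtain ⟨k, hk⟩ := h1
  rw [hk] at h h2 ⊢
  have hk3 : k ∣ 3 := by
    have h5 : 504 * k ∣ 504 * 3 := by simpa using h
    exact Nat.dvd_of_mul_dvd_mul_left (by norm_num) h5
  rcases (Nat.dvd_prime Nat.prime_three).1 hk3 with rfl | rfl
  · simp at h2
  · rfl

end H7.Ree3
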