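import Cfsg.Agent.H7_ChT
import Cfsg.Agent.H6_ChevTabG2
import Cfsg.Agent.H7_Ree3b
import Cfsg.Prelude

/-! The twisted group of type `G2` over the field with three elements. -/

namespace H7.Ree3

open Cfsg Cfsg.Lie Cfsg.Lie.ChevalleyDatum Cfsg.Agent.H6.Chev ChT
open scoped Matrix

set_option maxRecDepth 100000

/-- tables of root elements -/
def XM : List ℕ := [0x1000000000000001000100000000001101000000000001020000000000001002000011000001000000000000001000200000000001000000000000001220000000000001200000000000001000000000000001000000000000001000000001000001, 0x1100000000000001000000000000001000000000000001100000000000001000000000000001200000100000001000000000000001200000000000001000000000000001000000000000001200000000000001000000001000001000000000000001, 0x1000002000000001000000000000001020200000000001000020002100001020000000000001000001000000001000000000000001010100000000001000000000000001020000000000001000000000000001000000000000001000000000100001, 0x1000000000200001000000000100001000000200020001000200100000001000100200000001000000000000001000000000000001001000000000001001000000000001000000000000001000000000000001000000000000001000000000020001,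 0x1000000000000001000000000000021000000000000221000000000000001000000000020001000000000000001000000000002001000011000000201000000000001011000000000010001000000000000001000000000000001000001000000001, 0x1000000000000021000000000000001000000000000001000000000000021000000000000001000000000000021000001000000001000000000000011000000000000001000000000000001000000000000011000000010000001000000000000001, 0x1000000000000001000000000000201000000000000001000000000010101000000000000001000000001000001000000000000201000000000200001000210000020201000000000000001000000002000001000000000000001000010000000001, 0x1000000000000001000000000000001000000000001001000000000001001000000000000001000000000000001000000020010001000000010020001000000020000001000210000000001000020000000001000000000000001000200000000001]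
/-- tables of products -/
def PR : List ℕ := [0x1100000000000001000120000010001111200000100001121000002000001012100011000001200000100000001000210000000001200000000000001221000000000001210000000000001200000000000001000000001000001000000001200001, 0x1100002000000001000120000110001101002001010001120020021100001002220211000001200001100000001000210000000001210100000000001222000000000001200000000000001200000000000001000000001000001000000001010101, 0x1100002000210001000120000210001101022110000001120202101100001002012011000001200001100000001000210000000001211000000000001220000000000001200000000000001200000000000001000000001000001000000001001101, 0x1000000000000021000000000000121000000000001221000000000000021000000000120001000000000000021000001000012101000011000001211000200000021111001000000210001010000000000011000000010000001000021000000001, 0x1000000000000021000000000000021000000000002221000000000010121000000000120001000000001000021000001020222001000011200200211000111002001011000110000210001010000002000011000000010000001010101000000001,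 0x1000000000000021000000000000021000000000000221000000000001121000000000120001000000001000021000001002102001000011012020211000110112201011000020000210001010120002000011000000010000001011001000000001]
/-- the vectors -/
def XT : List ℕ := [0x1000, 0x20112021221001, 0x1100, 0x21220112211020, 0x21102211211002, 0x2112101220102, 0x1200, 0x10010202001000, 0x22121212121100, 0x12210101001011, 0x22011011211021, 0x2212211022101, 0x2211220112110, 0x11112211222200, 0x2210220221000, 0x12012022221021, 0x2210211110111, 0x20222210211022, 0x21120222221010, 0x11000010000221, 0x20010101001000, 0x20122021012120, 0x2212202201112, 0x2002020211222, 0x2001010200200, 0x10201010100212, 0x10020202010221, 0x2000000001022, 0x2001010211011, 0x11120221221020, 0x2000000000000, 0x21202101120110, 0x2110110211000, 0x22000000000000, 0x10221012022220, 0x11201122221002, 0x21012011121212, 0x22202111021111, 0x21111202101221, 0x2002020200100, 0x10000200002212, 0x2111110122120, 0x2111101201212, 0x12021012222112, 0x2112122020221, 0x2110122120211,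 0x20202212211012, 0x22102221011122, 0x2000000001011, 0x12000000000000, 0x12201112021222, 0x10101121221012, 0x2212220112220, 0x2211211010121, 0x20020101020121, 0x22022021212212, 0x12122201202121, 0x2111122012201, 0x11101202110210, 0x2112110122210, 0x2210202001022, 0x11212101101121, 0x2211202210202, 0x20212210221202, 0x21211122212100, 0x20102020100112, 0x11022002102100, 0x10211012211001, 0x2002020221011, 0x21021001102200, 0x22210122220201, 0x11220111211010, 0x12101222011211, 0x10121120221022, 0x10111120211102, 0x12222121111200, 0x2001010221122, 0x22110202001011, 0x20000100002112, 0x2110101001022, 0x12110211210101, 0x21000020000121, 0x22221102202221, 0x11011022111112]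
def SG : List (List ℕ) := [[1, 3, 5, 7, 9, 11, 13, 14, 16, 18, 20, 22, 8, 25, 10, 28, 21, 0, 32, 6, 35, 37, 31, 40, 42, 38, 23, 29, 27, 46, 33, 43, 48, 49, 24, 17, 52, 53, 34, 56, 58, 2, 59, 61, 36, 63, 60, 65, 51, 30, 57, 67, 45, 64, 41, 70, 47, 44, 72, 19, 73, 54, 75, 55, 76, 66, 74, 77, 4, 62, 50, 79, 69, 71, 81, 82, 80, 68, 83, 15, 12, 78, 26, 39], [2, 4, 6, 8, 10, 12, 0, 15, 17, 19, 21, 23, 24, 26, 27, 29, 30, 31, 33, 34, 36, 38, 39, 41, 32, 9, 43, 44, 45, 40, 5, 47, 22, 1, 50, 51, 37, 54, 55, 57, 49, 14, 60, 58, 62, 52, 64, 46, 59, 13, 66, 56, 68, 28, 69, 65, 71, 16, 7, 53, 48, 74, 76, 3, 77, 18, 67, 75, 42, 70, 78, 73, 35, 80, 72, 83, 79, 63, 81, 11, 61, 82, 20, 25]]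
def SP : List (List ℕ) := [[0, 1, 2, 3, 4, 4, 5, 10, 10, 11, 14, 14], [0, 1, 2, 5, 7, 8, 9, 9, 10, 14], [0, 0, 2], [0], [0, 0, 1, 1, 3, 3, 4, 4, 5, 7, 7, 9, 9, 10, 10, 11, 11, 14, 14, 15], [0, 2, 3, 5, 7, 8, 8, 11, 11, 15, 15], [0, 1, 2, 2, 3, 4, 5, 8, 10, 11, 12, 14, 15, 15], [0, 1, 4, 5, 5, 7, 7, 8, 8, 10, 10, 11, 11, 14, 15], [0, 1, 1, 3, 3, 8, 9, 9, 11, 11], [0, 0, 1, 2, 2, 4, 4, 5, 7, 7, 8, 10, 11, 12], [0, 1, 2, 4, 5, 5, 7, 8, 12, 12, 15, 15], [0, 0, 1, 3, 4, 8, 9, 11, 11, 14], [0, 1, 5, 7, 7, 8, 9, 10, 10, 11, 11, 12, 12, 14, 15], [1, 1, 2, 5, 5, 8, 9, 9, 10, 12, 12, 14]]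
/-- triples -/
def LB : List (List ℕ) := [[3, 7, 8], [0, 4, 6], [0, 2, 5], [1, 3, 7], [3, 4, 8], [1, 2, 8], [1, 4, 6], [0, 5, 6], [0, 2, 7], [3, 4, 6], [0, 5, 8], [4, 5, 8], [5, 6, 7], [3, 5, 7], [1, 2, 7], [1, 3, 4], [0, 1, 8], [2, 4, 6], [3, 6, 7], [0, 3, 8], [1, 2, 4], [1, 4, 5], [2, 3, 4], [1, 5, 8], [1, 2, 3], [0, 2, 6], [0, 1, 2], [2, 6, 7], [3, 5, 6], [0, 7, 8], [4, 5, 7], [3, 6, 8], [0, 6, 7], [0, 2, 3], [0, 4, 5], [3, 5, 8], [6, 7, 8], [2, 3, 5], [1, 7, 8], [0, 6, 8], [2, 4, 5], [1, 5, 7], [5, 6, 8], [4, 6, 7], [2, 3, 6], [0, 1, 3], [0, 1, 4], [0, 3, 5], [0, 1, 7], [1, 6, 8], [1, 4, 8], [0, 1, 5], [0, 4, 7], [2, 6, 8], [0, 1, 6], [2, 5, 7], [1, 4, 7], [3, 4, 5], [2, 3, 8], [2, 4, 7], [1, 3, 5], [0, 3, 7], [0, 3, 6], [1, 5, 6], [4, 7, 8], [1, 2, 6], [5, 7, 8], [1, 2, 5], [2, 4, 8], [3, 4, 7], [0, 2, 8], [2, 7, 8], [4, 6, 8], [2, 5, 6], [0, 2, 4], [1, 6, 7], [0, 3, 4], [2, 5, 8], [4, 5, 6], [0, 4, 8], [1, 3, 6], [1, 3, 8], [0, 5, 7], [2, 3, 7]]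

/-- packed matrices -/
def tm (N i j : ℕ) : ℕ := dig N (14 * i + j)

def xv (i k : ℕ) : ℕ := dig (XT.getD i 0) k

def sg (r i : ℕ) : ℕ := (SG.getD r []).getD i 0

/-- the letters -/
def lr : List ℕ := [7, 6, 8, 9, 4, 5, 3, 2]
def lt : List (ZMod 3) := [1, 1, 1, 1, 2, 2, 2, 2]

def xck (k : Fin 8) (a b : chevG2.Idx) : Bool :=
  decide ((chevG2.x (ZMod 3) (lr.getD k 0) (lt.getD k 0) a b : ZMod 3) = (tm (XM.getD k 0) (ix a) (ix b) : ZMod 3))

theorem x_ck : ∀ k : Fin 8, ∀ a b : chevG2.Idx, xck k a b = true := by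
  decide +kernel

theorem x_eq (k : Fin 8) : chevG2.x (ZMod 3) (lr.getD k 0) (lt.getD k 0) = mat chevG2 3 (tm (XM.getD k 0)) := by
  ext a b; exact of_decide_eq_true (x_ck k a b)

/-- product check -/
def pck (A B C : ℕ) : Bool := allTo (fun i => allTo (fun k =>
  sumTo (fun j => tm A i j * tm B j k) 14 % 3 == tm C i k % 3) 14) 14

theorem mul_of {A B C : ℕ} (h : pck A B C = true) :
    mat chevG2 3 (tm A) * mat chevG2 3 (tm B) = mat chevG2 3 (tm C) := by
  rw [mat_mul]
  apply mat_congr
  intro i hi j hj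
  have h1 := allTo_spec h i hi
  have h2 := allTo_spec h1 j hj
  exact beq_iff_eq.1 h2

theorem p1 : pck (XM.getD 0 0) (XM.getD 1 0) (PR.getD 0 0) = true := by decide +kernel
theorem p2 : pck (PR.getD 0 0) (XM.getD 2 0) (PR.getD 1 0) = true := by decide +kernel
theorem p3 : pck (PR.getD 1 0) (XM.getD 3 0) (PR.getD 2 0) = true := by decide +kernel
theorem p4 : pck (XM.getD 4 0) (XM.getD 5 0) (PR.getD 3 0) = true := by decide +kernel
theorem p5 : pck (PR.getD 3 0) (XM.getD 6 0) (PR.getD 4 0) = true := by decide +kernel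
theorem p6 : pck (PR.getD 4 0) (XM.getD 7 0) (PR.getD 5 0) = true := by decide +kernel

/-- the two generators -/
noncomputable def a : Fin 2 → GL chevG2.Idx (ZMod 3) :=
  ![modelG2.word (reeWordU 1 (1 : ZMod 3) 0 0), modelG2.word (reeWordV 1 (1 : ZMod 3) 0 0)]

theorem a0_eq : ((a 0 : GL chevG2.Idx (ZMod 3)) : Matrix chevG2.Idx chevG2.Idx (ZMod 3)) =
    mat chevG2 3 (tm (PR.getD 2 0)) := by
  have ha : a 0 = modelG2.word (reeWordU 1 (1 : ZMod 3) 0 0) := rfl
  rw [ha]
  have h : reeWordU 1 (1 : ZMod 3) 0 0 = [(7, 1), (6, 1), (8, 1), (9, 1), (10, 0), (11, 0)] := by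
    simp [reeWordU, g2a, g2b, g2ab, g2aab, g2aaab, g2aaabb]
  rw [modelG2.coe_word, h]
  have e0 := x_eq 0
  have e1 := x_eq 1
  have e2 := x_eq 2
  have e3 := x_eq 3
  simp only [lr, lt] at e0 e1 e2 e3
  have z0 : chevG2.x (ZMod 3) 10 0 = 1 := modelG2.x_zero 10
  have z1 : chevG2.x (ZMod 3) 11 0 = 1 := modelG2.x_zero 11
  have e0' : chevG2.x (ZMod 3) 7 1 = mat chevG2 3 (tm (XM.getD 0 0)) := e0
  have e1' : chevG2.x (ZMod 3) 6 1 = mat chevG2 3 (tm (XM.getD 1 0)) := e1
  have e2' : chevG2.x (ZMod 3) 8 1 = mat chevG2 3 (tm (XM.getD 2 0)) := e2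
  have e3' : chevG2.x (ZMod 3) 9 1 = mat chevG2 3 (tm (XM.getD 3 0)) := e3
  simp only [ChevalleyDatum.wordMat, List.map_cons, List.map_nil, List.prod_cons, List.prod_nil, z0, z1,
    mul_one]
  rw [e0', e1', e2', e3', ← mul_assoc, ← mul_assoc, mul_of p1, mul_of p2, mul_of p3]

theorem a1_eq : ((a 1 : GL chevG2.Idx (ZMod 3)) : Matrix chevG2.Idx chevG2.Idx (ZMod 3)) =
    mat chevG2 3 (tm (PR.getD 5 0)) := by
  have ha : a 1 = modelG2.word (reeWordV 1 (1 : ZMod 3) 0 0) := rfl
  rw [ha]
  have h : reeWordV 1 (1 : ZMod 3) 0 0 = [(4, 2), (5, 2), (3, 2), (2, 2), (1, 0), (0, 0)] := by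
    have h2 : (-1 : ZMod 3) = 2 := by decide
    have h3 : ∀ l : List (ℕ × ZMod 3), chevG2.negWord l = l.map fun p => (chevG2.negIdx.getD p.1 0, -p.2) :=
      fun _ => rfl
    rw [reeWordV, h3]
    simp only [reeWordU, g2a, g2b, g2ab, g2aab, g2aaab, g2aaabb, List.map_cons, List.map_nil]
    decide +kernel
  rw [modelG2.coe_word, h]
  have z0 : chevG2.x (ZMod 3) 1 0 = 1 := modelG2.x_zero 1
  have z1 : chevG2.x (ZMod 3) 0 0 = 1 := modelG2.x_zero 0
  have e0' : chevG2.x (ZMod 3) 4 2 = mat chevG2 3 (tm (XM.getD 4 0)) := x_eq 4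
  have e1' : chevG2.x (ZMod 3) 5 2 = mat chevG2 3 (tm (XM.getD 5 0)) := x_eq 5
  have e2' : chevG2.x (ZMod 3) 3 2 = mat chevG2 3 (tm (XM.getD 6 0)) := x_eq 6
  have e3' : chevG2.x (ZMod 3) 2 2 = mat chevG2 3 (tm (XM.getD 7 0)) := x_eq 7
  simp only [ChevalleyDatum.wordMat, List.map_cons, List.map_nil, List.prod_cons, List.prod_nil, z0, z1,
    mul_one]
  rw [e0', e1', e2', e3', ← mul_assoc, ← mul_assoc, mul_of p4, mul_of p5, mul_of p6]

theorem act_check : allTo (fun r => allTo (fun i => allTo (fun k =>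
    sumTo (fun j => tm (PR.getD (3 * r + 2) 0) k j * xv i j) 14 % 3 == xv (sg r i) k % 3) 14) 84) 2 = true := by
  decide +kernel

theorem act_eq {r i : ℕ} (hr : r < 2) (hi : i < 84) :
    mat chevG2 3 (tm (PR.getD (3 * r + 2) 0)) *ᵥ vec chevG2 3 (xv i) = vec chevG2 3 (xv (sg r i)) := by
  rw [mat_mulVec]
  apply vec_congr
  intro k hk
  have h1 := allTo_spec act_check r hr
  have h2 := allTo_spec h1 i hi
  have h3 := allTo_spec h2 k hk
  exact beq_iff_eq.1 h3

theorem span_check : ∀ k < 14, ∀ j < 14,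
    ((SP.getD k []).map (fun i => xv i j)).sum % 3 = (if j = k then 1 else 0) % 3 := by
  decide +kernel

theorem span_lt : ∀ k < 14, ∀ i ∈ SP.getD k [], i < 84 := by decide +kernel

/-- the family of vectors -/
def x (i : Fin 84) : chevG2.Idx → ZMod 3 := vec chevG2 3 (xv i)

theorem x_span (k : chevG2.Idx) : (Pi.single k 1 : chevG2.Idx → ZMod 3) ∈
    Submodule.span (ZMod 3) (Set.range x) := by
  have hk : ix k < 14 := ix_lt k
  have h1 := mem_span_of (D := chevG2) (p := 3) (x := fun i => vec chevG2 3 (xv i)) (span_lt _ hk)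
  rw [sum_vec] at h1
  have h2 : (Pi.single k 1 : chevG2.Idx → ZMod 3) =
      vec chevG2 3 (fun j => ((SP.getD (ix k) []).map (fun i => xv i j)).sum) := by
    have h3 : (Pi.single k 1 : chevG2.Idx → ZMod 3) = vec chevG2 3 (fun j => if j = ix k then 1 else 0) := by
      funext a
      simp only [Pi.single_apply, vec]
      by_cases h : a = k
      · rw [if_pos h, h, if_pos rfl]; simp
      · rw [if_neg h, if_neg (fun h' => h (ix_inj h'))]; simp
    rw [h3]
    apply vec_congr
    intro j hj
    exact (span_check _ hk j hj).symm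
  rw [h2]
  exact h1

attribute [local instance] act

theorem sg_lt : ∀ r : Fin 2, ∀ i : Fin 84, sg r i < 84 := by decide +kernel

def sp0 (r : Fin 2) (i : Fin 84) : Fin 84 := ⟨sg r i, sg_lt r i⟩

theorem sp_inj : ∀ r : Fin 2, Function.Injective (sp0 r) := by
  have h : ∀ r : Fin 2, ∀ i j : Fin 84, sp0 r i = sp0 r j → i = j := by decide +kernel
  exact fun r i j => h r i j

noncomputable def sp (r : Fin 2) : Equiv.Perm (Fin 84) :=
  Equiv.ofBijective (sp0 r) (Finite.injective_iff_bijective.1 (sp_inj r))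

theorem sp_val (r : Fin 2) (i : Fin 84) : ((sp r i : Fin 84) : ℕ) = sg r i := rfl

theorem x_def (i : Fin 84) : x i = vec chevG2 3 (xv (i : ℕ)) := rfl

theorem smul_of {g : GL chevG2.Idx (ZMod 3)} {M : Matrix chevG2.Idx chevG2.Idx (ZMod 3)}
    (h : (g : Matrix chevG2.Idx chevG2.Idx (ZMod 3)) = M) (v : chevG2.Idx → ZMod 3) : g • v = M *ᵥ v := by
  rw [← h]; rfl

theorem a_x0 (i : Fin 84) : a 0 • x i = x (sp 0 i) := by
  rw [smul_of a0_eq, x_def, x_def, sp_val]
  exact act_eq (r := 0) (by norm_num) i.2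

theorem a_x1 (i : Fin 84) : a 1 • x i = x (sp 1 i) := by
  rw [smul_of a1_eq, x_def, x_def, sp_val]
  exact act_eq (r := 1) (by norm_num) i.2

theorem a_x (r : Fin 2) (i : Fin 84) : a r • x i = x (sp r i) := by
  have hr : r = 0 ∨ r = 1 := by
    revert r; decide
  rcases hr with rfl | rfl
  · exact a_x0 i
  · exact a_x1 i

theorem x_inj : Function.Injective x := by
  intro i j h
  have h1 : ∀ i j : Fin 84, (∀ k < 14, xv i k = xv j k) → i = j := by decide +kernel
  apply h1 i j
  intro k hk
  have h2 : ∀ i : Fin 84, ∀ k < 14, xv i k < 3 := by decide +kernel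
  have hk' : ∃ a : chevG2.Idx, ix a = k := by
    by_cases h3 : k < 2
    · exact ⟨Sum.inl ⟨k, h3⟩, rfl⟩
    · refine ⟨Sum.inr ⟨k - 2, ?_⟩, ?_⟩
      · show k - 2 < 12
        omega
      · show 2 + (k - 2) = k
        omega
  obtain ⟨a, rfl⟩ := hk'
  have h4 := congrFun h a
  have h5 := (ZMod.natCast_eq_natCast_iff' _ _ _).1 h4
  rwa [Nat.mod_eq_of_lt (h2 i _ hk), Nat.mod_eq_of_lt (h2 j _ hk)] at h5

/-- The action of permutations on sets. -/
@[reducible] def actS9 : MulAction (Equiv.Perm (Fin 9)) (Finset (Fin 9)) where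
  smul g s := s.map g.toEmbedding
  one_smul s := by
    show s.map (Equiv.refl _).toEmbedding = s
    simp
  mul_smul g h s := by
    show s.map (g * h).toEmbedding = (s.map h.toEmbedding).map g.toEmbedding
    rw [Finset.map_map]
    rfl

attribute [local instance] actS9

def lab (i : Fin 84) : Finset (Fin 9) := Finset.univ.filter (fun k : Fin 9 => k.val ∈ LB.getD i [])

theorem lab_inj : Function.Injective lab := by
  have h : ∀ i j : Fin 84, lab i = lab j → i = j := by decide +kernel
  exact fun i j => h i j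

theorem rho_lab0 : ∀ (r : Fin 2) (i : Fin 84), (lab i).map (rho r).toEmbedding = lab (sp0 r i) := by
  decide +kernel

theorem rho_lab (r : Fin 2) (i : Fin 84) : rho r • lab i = lab (sp r i) := rho_lab0 r i

theorem faithful_rho (g : Equiv.Perm (Fin 9)) (hg : ∀ i, g • lab i = lab i) : g = 1 := by
  -- each point is the intersection of the triples containing it
  have h1 : ∀ (k l : Fin 9), k ≠ l → ∃ i : Fin 84, k ∈ lab i ∧ l ∉ lab i := by decide +kernel
  ext k
  by_contra hne
  have hne' : k ≠ g k := fun h => hne (by rw [← h]; rfl)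
  obtain ⟨i, hi, hl⟩ := h1 k (g k) hne'
  apply hl
  rw [← hg i]
  exact Finset.mem_map_of_mem _ hi

theorem exists_P : Nonempty (Subgroup.closure (Set.range a) ≃* P) :=
  GenIso.exists_equiv₂ (G := GL chevG2.Idx (ZMod 3)) (H := Equiv.Perm (Fin 9)) x x_inj a sp
    a_x (fun g _ hg => eq_one_of_fix x_span hg) lab lab_inj rho rho_lab (fun g _ => faithful_rho g)

theorem closure_a_le : Subgroup.closure (Set.range a) ≤ twistedG2 (ZMod 3) 1 := by
  rw [Subgroup.closure_le]
  rintro _ ⟨k, rfl⟩
  apply Subgroup.subset_closure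
  fin_cases k
  · exact ⟨_, ⟨1, 0, 0, Or.inl rfl⟩, modelG2.coe_word _⟩
  · exact ⟨_, ⟨1, 0, 0, Or.inr rfl⟩, modelG2.coe_word _⟩

/-- The main identification, given the order. -/
theorem exists_tw (hc : Nat.card (twistedG2 (ZMod 3) 1) = 1512) :
    Nonempty (twistedG2 (ZMod 3) 1 ≃* P) := by
  obtain ⟨e⟩ := exists_P
  have h1 : Nat.card (Subgroup.closure (Set.range a)) = Nat.card P := Nat.card_congr e.toEquiv
  have h2 : Nat.card P = 1512 := by
    apply card_P
    rw [← h1, ← hc]
    exact Subgroup.card_dvd_of_le closure_a_le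
  haveI : Finite (twistedG2 (ZMod 3) 1) := Nat.finite_of_card_ne_zero (by rw [hc]; norm_num)
  have h3 : Subgroup.closure (Set.range a) = twistedG2 (ZMod 3) 1 :=
    Subgroup.eq_of_le_of_card_ge closure_a_le (by rw [hc, h1, h2])
  rw [h3] at e
  exact ⟨e⟩

theorem main (hc : Nat.card (twistedG2 (ZMod 3) 1) = 1512) {L : Type*} [Field L] [Fintype L]
    (_hL : Fintype.card L = 8) :
    Nat.card ↥(commutator ↥(Lie.twistedG2 (ZMod 3) 1)) = 504 ∧
      Nonempty (↥(commutator ↥(Lie.twistedG2 (ZMod 3) 1)) ≃* Matrix.SpecialLinearGroup (Fin 2) GF8.GF) := by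
  obtain ⟨e⟩ := exists_tw hc
  obtain ⟨e1⟩ := GenIso.comm_equiv e
  obtain ⟨e2⟩ := GenIso.comm_sub_equiv P
  obtain ⟨e3, -⟩ := exists_q
  let e4 : ↥(commutator ↥(Lie.twistedG2 (ZMod 3) 1)) ≃* Q :=
    (e1.trans e2).trans (MulEquiv.subgroupCongr PP_eq)
  refine ⟨?_, ⟨e4.trans e3.symm⟩⟩
  rw [Nat.card_congr e4.toEquiv, card_Q]

end H7.Ree3
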