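import Mathlib
import Cfsg.Agent.H7_St4
import Cfsg.Agent.H7_M24

set_option autoImplicit false
set_option linter.all false

open Finset

/-!
Relabelling engine: uniqueness of S(5,8,24).
-/

namespace Cfsg.Agent.H7.St

open Cfsg Cfsg.Agent.H7.Golay Cfsg.Agent.H7.Oct Cfsg.Agent.H7.M24
open scoped Pointwise

def memb (x : ℕ) (l : List ℕ) : Bool := l.any (fun y => Nat.beq x y)

theorem memb_iff {x : ℕ} {l : List ℕ} : memb x l = true ↔ x ∈ l := by
  unfold memb
  rw [List.any_eq_true]
  constructor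
  · rintro ⟨y, hy, h⟩
    rw [Nat.eq_of_beq_eq_true h]
    exact hy
  · intro h
    exact ⟨x, h, Nat.beq_refl x⟩

def okc (n : ℕ) : Bool := Nat.beq n 0 || Nat.beq n 2 || Nat.beq n 4 || Nat.beq n 8

def compat (K : List ℕ) (m : ℕ) : Bool := K.all (fun k => okc (pc (Nat.land m k)))

noncomputable def chk1 (SG K G : List ℕ) (new : ℕ) (cf : ℕ → List ℕ) (m : ℕ) : Bool :=
  !(Nat.beq (pc m) 8) || !(compat K m) ||
    (let l := cf m
     valid l && Nat.beq (act l new) m && G.all (fun g => memb (act l g) SG))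

noncomputable def chk (K G : List ℕ) (five new : ℕ) (cf : ℕ → List ℕ) : Bool :=
  (List.range 24).all fun a => (List.range a).all fun b => (List.range b).all fun c =>
    chk1 (spanL G) K G new cf (Nat.lor five (Nat.lor (Nat.shiftLeft 1 a) (Nat.lor (Nat.shiftLeft 1 b) (Nat.shiftLeft 1 c))))

/-- swap certificate -/
def swp (ord : List ℕ) (new m : ℕ) : List ℕ :=
  let d := Nat.xor new m
  let A := ord.filter (fun i => (Nat.land new d).testBit i)
  let A' := ord.filter (fun i => (Nat.land m d).testBit i)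
  let z := A.zip A'
  (List.range 24).map (fun i => z.foldr (fun p acc => bif Nat.beq i p.1 then p.2 else bif Nat.beq i p.2 then p.1 else acc) i)

def look (tb : List (ℕ × List ℕ)) (m : ℕ) : List ℕ :=
  tb.foldr (fun p acc => bif Nat.beq m p.1 then p.2 else acc) []

variable {α : Type*} [Fintype α] [DecidableEq α] {B : Set (Finset α)}

theorem spanC (e : GolayPt ≃ α) (G : List ℕ) (hG : ∀ g ∈ G, InC B ((ofMask g).map e.toEmbedding)) :
    ∀ m ∈ spanL G, InC B ((ofMask m).map e.toEmbedding) := by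
  intro m hm
  refine spanL_induction (l := G) (P := fun m => InC B ((ofMask m).map e.toEmbedding)) ?_ ?_ hG m hm
  · rw [ofMask_zero, Finset.map_empty]
    exact InC.empty
  · intro a b ha hb
    rw [ofMask_xor]
    have : (symmDiff (ofMask a) (ofMask b)).map e.toEmbedding =
        symmDiff ((ofMask a).map e.toEmbedding) ((ofMask b).map e.toEmbedding) := by
      simp only [Finset.map_eq_image]
      exact Finset.image_symmDiff _ _ e.injective
    rw [this]
    exact ha.symm hb

theorem ofMask_two_pow (p : GolayPt) : ofMask (1 <<< (ix p)) = {p} := by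
  ext q
  rw [mem_ofMask, Nat.one_shiftLeft, Nat.testBit_two_pow, Finset.mem_singleton, decide_eq_true_eq, ix_inj]
  exact eq_comm

theorem three_sorted (T : Finset GolayPt) (hT : T.card = 3) : ∃ x y z : GolayPt, T = {x, y, z} ∧ ix y < ix x ∧ ix z < ix y := by
  obtain ⟨x, y, z, h1, h2, h3, rfl⟩ := Finset.card_eq_three.1 hT
  have e1 : ix x ≠ ix y := fun h => h1 (ix_injective h)
  have e2 : ix x ≠ ix z := fun h => h2 (ix_injective h)
  have e3 : ix y ≠ ix z := fun h => h3 (ix_injective h)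
  rcases lt_or_gt_of_ne e1 with a | a <;> rcases lt_or_gt_of_ne e2 with b | b <;> rcases lt_or_gt_of_ne e3 with c | c
  · exact ⟨z, y, x, by ext w; simp; tauto, c, a⟩
  · exact ⟨y, z, x, by ext w; simp; tauto, c, b⟩
  · omega
  · exact ⟨y, x, z, by ext w; simp; tauto, a, b⟩
  · exact ⟨z, x, y, by ext w; simp; tauto, b, a⟩
  · omega
  · exact ⟨x, z, y, by ext w; simp; tauto, b, c⟩
  · exact ⟨x, y, z, rfl, a, c⟩

theorem step (hα : Fintype.card α = 24) (hB : IsSteinerSystem 5 8 B) (K G : List ℕ) (five new : ℕ)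
    (cf : ℕ → List ℕ) (hK : K.all (fun k => Nat.beq (pc k) 8 && memb k (spanL G)) = true) (h5 : pc five = 5)
    (hf : five < 16777216) (hchk : chk K G five new cf = true)
    (h : ∃ e : GolayPt ≃ α, ∀ g ∈ G, InC B ((ofMask g).map e.toEmbedding)) :
    ∃ e : GolayPt ≃ α, ∀ g ∈ new :: G, InC B ((ofMask g).map e.toEmbedding) := by
  obtain ⟨e, he⟩ := h
  have hspan := spanC e G he
  obtain ⟨b, ⟨hb, hsub⟩, -⟩ := hB.2 ((ofMask five).map e.toEmbedding) (by rw [Finset.card_map, card_ofMask, h5])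
  set s : Finset GolayPt := b.map e.symm.toEmbedding with hs
  have hsb : s.map e.toEmbedding = b := by
    rw [hs, Finset.map_map]
    convert Finset.map_refl
    ext x
    simp
  have hsc : s.card = 8 := by rw [hs, Finset.card_map, hB.1 b hb]
  have hfs : ofMask five ⊆ s := by
    rw [← Finset.map_subset_map (f := e.toEmbedding), hsb]
    exact hsub
  have hT : (s \ ofMask five).card = 3 := by
    rw [Finset.card_sdiff_of_subset hfs, hsc, card_ofMask, h5]
  obtain ⟨x, y, z, hxyz, hyx, hzy⟩ := three_sorted _ hT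
  have hsm : s = ofMask (Nat.lor five (Nat.lor (Nat.shiftLeft 1 (ix x)) (Nat.lor (Nat.shiftLeft 1 (ix y)) (Nat.shiftLeft 1 (ix z))))) := by
    have e1 : ofMask (Nat.lor five (Nat.lor (Nat.shiftLeft 1 (ix x)) (Nat.lor (Nat.shiftLeft 1 (ix y)) (Nat.shiftLeft 1 (ix z))))) =
        ofMask five ∪ ({x} ∪ ({y} ∪ {z})) := by
      rw [← ofMask_two_pow x, ← ofMask_two_pow y, ← ofMask_two_pow z, ← ofMask_or, ← ofMask_or, ← ofMask_or]
      rfl
    rw [e1, ← Finset.union_sdiff_of_subset hfs, hxyz]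
    ext w
    simp only [Finset.mem_union, Finset.mem_insert, Finset.mem_singleton]
    try tauto
  unfold chk at hchk
  rw [List.all_eq_true] at hchk
  have h1 := hchk (ix x) (List.mem_range.2 (ix_lt x))
  rw [List.all_eq_true] at h1
  have h2 := h1 (ix y) (List.mem_range.2 hyx)
  rw [List.all_eq_true] at h2
  have h3 := h2 (ix z) (List.mem_range.2 hzy)
  set m := Nat.lor five (Nat.lor (Nat.shiftLeft 1 (ix x)) (Nat.lor (Nat.shiftLeft 1 (ix y)) (Nat.shiftLeft 1 (ix z)))) with hm
  unfold chk1 at h3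
  have hpc : pc m = 8 := by rw [← card_ofMask, ← hsm, hsc]
  have hcomp : compat K m = true := by
    unfold compat
    rw [List.all_eq_true]
    intro k hk
    rw [List.all_eq_true] at hK
    have hk' := hK k hk
    rw [Bool.and_eq_true] at hk'
    have hk8 : pc k = 8 := Nat.eq_of_beq_eq_true hk'.1
    have hkC := hspan k (memb_iff.1 hk'.2)
    have hkB : (ofMask k).map e.toEmbedding ∈ B := mem_of_8 hα hB hkC (by rw [Finset.card_map, card_ofMask, hk8])
    have hcard : pc (Nat.land m k) = (b ∩ (ofMask k).map e.toEmbedding).card := by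
      rw [← hsb, ← Finset.map_inter, Finset.card_map, hsm, ← ofMask_and, card_ofMask]
      rfl
    rw [hcard]
    unfold okc
    by_cases hbk : b = (ofMask k).map e.toEmbedding
    · rw [← hbk, Finset.inter_self, hB.1 b hb]
      rfl
    · rcases inter24 hα hB hb hkB hbk with h | h | h <;> rw [h] <;> rfl
  rw [hpc, hcomp] at h3
  simp only [Nat.beq_refl, Bool.not_true, Bool.false_or, Bool.and_eq_true] at h3
  obtain ⟨⟨hv, hnew⟩, hGl⟩ := h3
  have hnew : act (cf m) new = m := Nat.eq_of_beq_eq_true hnew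
  obtain ⟨τ, hτ⟩ := exists_perm hv
  have hmap : ∀ g, (ofMask g).map (τ.trans e).toEmbedding = (ofMask (act (cf m) g)).map e.toEmbedding := by
    intro g
    rw [← hτ.smul_ofMask]
    ext w
    simp only [Finset.mem_map, Finset.mem_smul_finset]
    constructor
    · rintro ⟨a, ha, rfl⟩
      exact ⟨τ a, ⟨a, ha, rfl⟩, rfl⟩
    · rintro ⟨_, ⟨a, ha, rfl⟩, rfl⟩
      exact ⟨a, ha, rfl⟩
  refine ⟨τ.trans e, ?_⟩
  intro g hg
  rw [hmap]
  rcases List.mem_cons.1 hg with rfl | hg
  · rw [hnew, ← hsm, hsb]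
    exact InC.of_mem hb
  · rw [List.all_eq_true] at hGl
    exact hspan _ (memb_iff.1 (hGl g hg))

end Cfsg.Agent.H7.St
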