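import Mathlib
import Cfsg.Agent.H7_St5

set_option autoImplicit false
set_option linter.all false
set_option maxRecDepth 100000

open Finset

namespace Cfsg.Agent.H7.St

open Cfsg Cfsg.Agent.H7.Golay Cfsg.Agent.H7.Oct Cfsg.Agent.H7.M24
open scoped Pointwise

def ordL : List ℕ := [0, 1, 2, 3, 13, 18, 20, 21, 5, 14, 23, 17, 8, 16, 19, 15, 11, 9, 22, 6, 4, 10, 7, 12]

theorem K0 : (([] : List ℕ)).all (fun k => Nat.beq (pc k) 8 && memb k (spanL [])) = true := by decide +kernel
theorem c0 : chk [] [] 8207 3416079 (swp ordL 3416079) = true := by decide +kernel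

theorem K1 : (([3416079] : List ℕ)).all (fun k => Nat.beq (pc k) 8 && memb k (spanL [3416079])) = true := by decide +kernel
theorem c1 : chk [3416079] [3416079] 47 8536111 (swp ordL 8536111) = true := by decide +kernel

theorem K2 : (([3416079, 8536111] : List ℕ)).all (fun k => Nat.beq (pc k) 8 && memb k (spanL [8536111, 3416079])) = true := by decide +kernel
theorem c2 : chk [3416079, 8536111] [8536111, 3416079] 271 622863 (swp ordL 622863) = true := by decide +kernel

theorem K3 : (([3416079, 8536111, 622863] : List ℕ)).all (fun k => Nat.beq (pc k) 8 && memb k (spanL [622863, 8536111, 3416079])) = true := by decide +kernel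
theorem c3 : chk [3416079, 8536111, 622863] [622863, 8536111, 3416079] 2063 4196943 (swp ordL 4196943) = true := by decide +kernel

theorem K4 : (([622863, 8536111, 4196943, 3416079] : List ℕ)).all (fun k => Nat.beq (pc k) 8 && memb k (spanL [4196943, 622863, 8536111, 3416079])) = true := by decide +kernel
theorem c4 : chk [622863, 8536111, 4196943, 3416079] [4196943, 622863, 8536111, 3416079] 31 5279 (swp ordL 5279) = true := by decide +kernel

theorem K5 : (([622863, 5279, 4196943, 3416079] : List ℕ)).all (fun k => Nat.beq (pc k) 8 && memb k (spanL [5279, 4196943, 622863, 8536111, 3416079])) = true := by decide +kernel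
theorem c5 : chk [622863, 5279, 4196943, 3416079] [5279, 4196943, 622863, 8536111, 3416079] 8238 10558 (swp ordL 10558) = true := by decide +kernel

theorem K6 : (([622863, 10558, 628112, 11952160] : List ℕ)).all (fun k => Nat.beq (pc k) 8 && memb k (spanL [10558, 5279, 4196943, 622863, 8536111, 3416079])) = true := by decide +kernel
theorem c6 : chk [622863, 10558, 628112, 11952160] [10558, 5279, 4196943, 622863, 8536111, 3416079] 2323 69395 (swp ordL 69395) = true := by decide +kernel

theorem K7 : (([560668, 69395, 8546577, 3410225, 4196943, 3416079] : List ℕ)).all (fun k => Nat.beq (pc k) 8 && memb k (spanL [69395, 10558, 5279, 4196943, 622863, 8536111, 3416079])) = true := by decide +kernel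
theorem c7 : chk [560668, 69395, 8546577, 3410225, 4196943, 3416079] [69395, 10558, 5279, 4196943, 622863, 8536111, 3416079] 2325 4721045 (swp ordL 4721045) = true := by decide +kernel

def tb8 : List (ℕ × List ℕ) := [(338384, [0, 1, 2, 3, 11, 5, 12, 22, 8, 10, 9, 4, 6, 13, 14, 15, 16, 17, 18, 19, 20, 21, 7, 23]),
  (798032, [0, 1, 2, 3, 11, 5, 15, 22, 4, 16, 9, 8, 6, 13, 14, 12, 10, 17, 18, 7, 20, 21, 19, 23]),
  (306064, [0, 1, 2, 3, 8, 5, 12, 19, 11, 10, 16, 4, 15, 13, 14, 6, 9, 17, 18, 22, 20, 21, 7, 23]),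
  (801552, [0, 1, 2, 3, 4, 5, 15, 7, 11, 16, 10, 8, 12, 13, 14, 6, 9, 17, 18, 22, 20, 21, 19, 23]),
  (4500752, [0, 1, 2, 3, 8, 5, 6, 19, 4, 9, 16, 11, 15, 13, 14, 12, 10, 17, 18, 7, 20, 21, 22, 23]),
  (4536592, [0, 1, 2, 3, 4, 5, 6, 7, 8, 9, 10, 11, 12, 13, 14, 15, 16, 17, 18, 19, 20, 21, 22, 23])]
theorem K8 : (([632881, 3410225, 7612992, 8536111, 69395, 4299781] : List ℕ)).all (fun k => Nat.beq (pc k) 8 && memb k (spanL [4721045, 69395, 10558, 5279, 4196943, 622863, 8536111, 3416079])) = true := by decide +kernel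
theorem c8 : chk [632881, 3410225, 7612992, 8536111, 69395, 4299781] [4721045, 69395, 10558, 5279, 4196943, 622863, 8536111, 3416079] 272656 4536592 (look tb8) = true := by decide +kernel

def tb9 : List (ℕ × List ℕ) := [(1584464, [0, 1, 2, 3, 4, 5, 6, 7, 8, 9, 10, 11, 12, 13, 14, 15, 16, 17, 18, 19, 20, 21, 22, 23]),
  (1092496, [0, 1, 3, 2, 11, 5, 7, 6, 8, 10, 9, 4, 22, 13, 14, 19, 16, 17, 18, 15, 20, 21, 12, 23])]
theorem K9 : (([7903248, 4536592, 8546577, 10558, 4465308, 7438406, 3416079] : List ℕ)).all (fun k => Nat.beq (pc k) 8 && memb k (spanL [4536592, 4721045, 69395, 10558, 5279, 4196943, 622863, 8536111, 3416079])) = true := by decide +kernel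
theorem c9 : chk [7903248, 4536592, 8546577, 10558, 4465308, 7438406, 3416079] [4536592, 4721045, 69395, 10558, 5279, 4196943, 622863, 8536111, 3416079] 1059088 1584464 (look tb9) = true := by decide +kernel

def tb10 : List (ℕ × List ℕ) := [(84464, [0, 1, 2, 3, 4, 5, 6, 7, 8, 9, 10, 11, 12, 13, 14, 15, 16, 17, 18, 19, 20, 21, 22, 23]),
  (547632, [0, 1, 2, 3, 8, 5, 12, 19, 11, 10, 16, 4, 15, 13, 14, 6, 9, 17, 21, 22, 18, 20, 7, 23]),
  (4246832, [0, 1, 2, 3, 11, 5, 15, 22, 4, 16, 9, 8, 6, 13, 14, 12, 10, 17, 20, 7, 21, 18, 19, 23])]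
theorem K10 : (([632881, 8546577, 12733024, 3416079, 4536592, 39257, 13262980] : List ℕ)).all (fun k => Nat.beq (pc k) 8 && memb k (spanL [1584464, 4536592, 4721045, 69395, 10558, 5279, 4196943, 622863, 8536111, 3416079])) = true := by decide +kernel
theorem c10 : chk [632881, 8546577, 12733024, 3416079, 4536592, 39257, 13262980] [1584464, 4536592, 4721045, 69395, 10558, 5279, 4196943, 622863, 8536111, 3416079] 18736 84464 (look tb10) = true := by decide +kernel

def tb11 : List (ℕ × List ℕ) := [(8919856, [0, 1, 2, 3, 4, 5, 6, 7, 8, 9, 10, 11, 12, 13, 14, 15, 16, 17, 18, 19, 20, 21, 22, 23]),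
  (12619056, [0, 1, 3, 2, 11, 5, 7, 6, 8, 10, 9, 4, 22, 13, 14, 19, 16, 17, 18, 15, 21, 20, 12, 23])]
theorem K11 : (([15335473, 8546577, 6857221, 1378634, 10619300, 9347075, 6644740] : List ℕ)).all (fun k => Nat.beq (pc k) 8 && memb k (spanL [84464, 1584464, 4536592, 4721045, 69395, 10558, 5279, 4196943, 622863, 8536111, 3416079])) = true := by decide +kernel
theorem c11 : chk [15335473, 8546577, 6857221, 1378634, 10619300, 9347075, 6644740] [84464, 1584464, 4536592, 4721045, 69395, 10558, 5279, 4196943, 622863, 8536111, 3416079] 8390960 8919856 (look tb11) = true := by decide +kernel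


variable {α : Type*} [Fintype α] [DecidableEq α] {B : Set (Finset α)}

theorem frame (hα : Fintype.card α = 24) (hB : IsSteinerSystem 5 8 B) :
    ∃ e : GolayPt ≃ α, ∀ g ∈ ([8919856, 84464, 1584464, 4536592, 4721045, 69395, 10558, 5279, 4196943, 622863, 8536111, 3416079] : List ℕ), InC B ((ofMask g).map e.toEmbedding) := by
  have h0 : ∃ e : GolayPt ≃ α, ∀ g ∈ ([] : List ℕ), InC B ((ofMask g).map e.toEmbedding) := by
    have : Fintype.card GolayPt = Fintype.card α := by rw [hα]; rfl
    exact ⟨Fintype.equivOfCardEq this, fun g hg => absurd hg (List.not_mem_nil)⟩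
  have h1 := step hα hB [] [] 8207 3416079 (swp ordL 3416079) K0 (by decide) (by norm_num) c0 h0
  have h2 := step hα hB [3416079] [3416079] 47 8536111 (swp ordL 8536111) K1 (by decide) (by norm_num) c1 h1
  have h3 := step hα hB [3416079, 8536111] [8536111, 3416079] 271 622863 (swp ordL 622863) K2 (by decide) (by norm_num) c2 h2
  have h4 := step hα hB [3416079, 8536111, 622863] [622863, 8536111, 3416079] 2063 4196943 (swp ordL 4196943) K3 (by decide) (by norm_num) c3 h3
  have h5 := step hα hB [622863, 8536111, 4196943, 3416079] [4196943, 622863, 8536111, 3416079] 31 5279 (swp ordL 5279) K4 (by decide) (by norm_num) c4 h4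
  have h6 := step hα hB [622863, 5279, 4196943, 3416079] [5279, 4196943, 622863, 8536111, 3416079] 8238 10558 (swp ordL 10558) K5 (by decide) (by norm_num) c5 h5
  have h7 := step hα hB [622863, 10558, 628112, 11952160] [10558, 5279, 4196943, 622863, 8536111, 3416079] 2323 69395 (swp ordL 69395) K6 (by decide) (by norm_num) c6 h6
  have h8 := step hα hB [560668, 69395, 8546577, 3410225, 4196943, 3416079] [69395, 10558, 5279, 4196943, 622863, 8536111, 3416079] 2325 4721045 (swp ordL 4721045) K7 (by decide) (by norm_num) c7 h7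
  have h9 := step hα hB [632881, 3410225, 7612992, 8536111, 69395, 4299781] [4721045, 69395, 10558, 5279, 4196943, 622863, 8536111, 3416079] 272656 4536592 (look tb8) K8 (by decide) (by norm_num) c8 h8
  have h10 := step hα hB [7903248, 4536592, 8546577, 10558, 4465308, 7438406, 3416079] [4536592, 4721045, 69395, 10558, 5279, 4196943, 622863, 8536111, 3416079] 1059088 1584464 (look tb9) K9 (by decide) (by norm_num) c9 h9
  have h11 := step hα hB [632881, 8546577, 12733024, 3416079, 4536592, 39257, 13262980] [1584464, 4536592, 4721045, 69395, 10558, 5279, 4196943, 622863, 8536111, 3416079] 18736 84464 (look tb10) K10 (by decide) (by norm_num) c10 h10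
  have h12 := step hα hB [15335473, 8546577, 6857221, 1378634, 10619300, 9347075, 6644740] [84464, 1584464, 4536592, 4721045, 69395, 10558, 5279, 4196943, 622863, 8536111, 3416079] 8390960 8919856 (look tb11) K11 (by decide) (by norm_num) c11 h11
  exact h12

theorem gens_in : gens.all (fun g => memb g (spanL [8919856, 84464, 1584464, 4536592, 4721045, 69395, 10558, 5279, 4196943, 622863, 8536111, 3416079])) = true := by decide +kernel

theorem exists_frame (hα : Fintype.card α = 24) (hB : IsSteinerSystem 5 8 B) :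
    ∃ e : GolayPt ≃ α, ∀ s ∈ octads, s.map e.toEmbedding ∈ B := by
  obtain ⟨e, he⟩ := frame hα hB
  refine ⟨e, ?_⟩
  intro s hs
  have h1 := spanC e _ he
  have h2 : ∀ g ∈ gens, InC B ((ofMask g).map e.toEmbedding) := by
    intro g hg
    have := gens_in
    rw [List.all_eq_true] at this
    exact h1 g (memb_iff.1 (this g hg))
  have h3 := spanC e gens h2
  obtain ⟨m, hm, rfl⟩ := mem_octads_iff'.1 hs
  rw [mem_octL] at hm
  apply mem_of_8 hα hB (h3 m hm.1)
  rw [Finset.card_map, card_ofMask, hm.2]

theorem iso_octads (hα : Fintype.card α = 24) (hB : IsSteinerSystem 5 8 B) :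
    ∃ e : GolayPt ≃ α, ∀ s : Finset GolayPt, s.map e.toEmbedding ∈ B ↔ s ∈ octads := by
  obtain ⟨e, he⟩ := exists_frame hα hB
  refine ⟨e, fun s => ⟨fun hs => ?_, he s⟩⟩
  have hB1 : B.ncard = 759 := by
    have := count hB
    rw [hα] at this
    norm_num [Nat.choose] at this
    omega
  have himg : (fun s : Finset GolayPt => s.map e.toEmbedding) '' octads = B := by
    apply Set.eq_of_subset_of_ncard_le
    · rintro _ ⟨t, ht, rfl⟩
      exact he t ht
    · rw [Set.ncard_image_of_injective _ (Finset.map_injective _), octads_ncard, hB1]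
    · exact Set.toFinite _
  rw [← himg] at hs
  obtain ⟨t, ht, hts⟩ := hs
  rw [← Finset.map_injective _ hts]
  exact ht

end Cfsg.Agent.H7.St
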