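import Mathlib
import Cfsg.Agent.H7_St6
import Cfsg.Agent.H7_St7
import Cfsg.Agent.H7_M24d
import Cfsg.Prelude.Def_Sporadic

set_option autoImplicit false
set_option linter.all false

open Finset

/-!
Transport of set systems; automorphism groups.
-/

namespace Cfsg.Agent.H7.St

open Cfsg
open scoped Pointwise

section transport
variable {α β : Type*} [Fintype α] [DecidableEq α] [Fintype β] [DecidableEq β]

omit [Fintype α] in
theorem smul_eq_map (g : Equiv.Perm α) (s : Finset α) : g • s = s.map g.toEmbedding := by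
  rw [Finset.map_eq_image]
  rfl

theorem mem_aut {B : Set (Finset α)} {g : Equiv.Perm α} : g ∈ setSystemAut B ↔ ∀ s ∈ B, s.map g.toEmbedding ∈ B := by
  unfold setSystemAut
  rw [MulAction.mem_stabilizer_set' (Set.toFinite _)]
  constructor
  · intro h s hs
    rw [← smul_eq_map]
    exact h hs
  · intro h s hs
    rw [smul_eq_map]
    exact h s hs

/-- isomorphism of systems -/
def Iso (C : Set (Finset β)) (B : Set (Finset α)) (e : β ≃ α) : Prop := ∀ s : Finset β, s.map e.toEmbedding ∈ B ↔ s ∈ C

theorem Iso.symm {C : Set (Finset β)} {B : Set (Finset α)} {e : β ≃ α} (h : Iso C B e) : Iso B C e.symm := by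
  intro s
  rw [← h (s.map e.symm.toEmbedding), Finset.map_map]
  have : (e.symm.toEmbedding.trans e.toEmbedding) = Function.Embedding.refl α := by
    ext x; simp
  rw [this, Finset.map_refl]

theorem Iso.trans {γ : Type*} [Fintype γ] [DecidableEq γ] {C : Set (Finset β)} {B : Set (Finset α)} {D : Set (Finset γ)} {e : β ≃ α} {f : α ≃ γ}
    (h : Iso C B e) (h' : Iso B D f) : Iso C D (e.trans f) := by
  intro s
  rw [← h s, ← h' (s.map e.toEmbedding), Finset.map_map]
  rfl

theorem Iso.toSSI {C : Set (Finset β)} {B : Set (Finset α)} {e : β ≃ α} (h : Iso C B e) : SetSystemIso C B := by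
  refine ⟨e, ?_⟩
  ext b
  constructor
  · rintro ⟨s, hs, rfl⟩
    have := (h s).2 hs
    rw [Finset.map_eq_image] at this
    exact this
  · intro hb
    refine ⟨b.map e.symm.toEmbedding, (h.symm b).2 hb, ?_⟩
    have : (b.map e.symm.toEmbedding).map e.toEmbedding = b := by
      rw [Finset.map_map]
      have : (e.symm.toEmbedding.trans e.toEmbedding) = Function.Embedding.refl α := by
        ext x; simp
      rw [this, Finset.map_refl]
    rw [Finset.map_eq_image] at this
    exact this

theorem Iso.aut_map {C : Set (Finset β)} {B : Set (Finset α)} {e : β ≃ α} (h : Iso C B e) :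
    (setSystemAut C).map (e.permCongrHom : Equiv.Perm β ≃* Equiv.Perm α).toMonoidHom = setSystemAut B := by
  ext g
  rw [Subgroup.mem_map]
  constructor
  · rintro ⟨k, hk, rfl⟩
    rw [mem_aut] at hk ⊢
    intro s hs
    have h1 := hk _ ((h.symm s).2 hs)
    rw [← h] at h1
    rw [Finset.map_map, Finset.map_map] at h1
    exact h1
  · intro hg
    refine ⟨e.permCongrHom.symm g, ?_, e.permCongrHom.apply_symm_apply g⟩
    rw [mem_aut] at hg ⊢
    intro s hs
    have h1 := hg _ ((h s).2 hs)
    rw [← h.symm] at h1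
    rw [Finset.map_map, Finset.map_map] at h1
    exact h1

noncomputable def Iso.aut {C : Set (Finset β)} {B : Set (Finset α)} {e : β ≃ α} (h : Iso C B e) :
    setSystemAut C ≃* setSystemAut B :=
  ((e.permCongrHom : Equiv.Perm β ≃* Equiv.Perm α).subgroupMap (setSystemAut C)).trans
    (MulEquiv.subgroupCongr h.aut_map)

theorem Iso.aut_apply {C : Set (Finset β)} {B : Set (Finset α)} {e : β ≃ α} (h : Iso C B e) (g : setSystemAut C) (x : α) :
    ((h.aut g : setSystemAut B) : Equiv.Perm α) x = e ((g : Equiv.Perm β) (e.symm x)) := rfl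

theorem Iso.trans_k {C : Set (Finset β)} {B : Set (Finset α)} {e : β ≃ α} (h : Iso C B e) (k : ℕ)
    (hk : MulAction.IsMultiplyPretransitive (setSystemAut C) β k) :
    MulAction.IsMultiplyPretransitive (setSystemAut B) α k := by
  rw [MulAction.isMultiplyPretransitive_iff] at hk ⊢
  intro x y
  obtain ⟨g, hg⟩ := hk (x.trans e.symm.toEmbedding) (y.trans e.symm.toEmbedding)
  refine ⟨h.aut g, ?_⟩
  ext i
  have h1 := DFunLike.congr_fun hg i
  have h2 : (g : Equiv.Perm β) (e.symm (x i)) = e.symm (y i) := h1
  show ((h.aut g : setSystemAut B) : Equiv.Perm α) (x i) = y i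
  rw [h.aut_apply, h2, Equiv.apply_symm_apply]

theorem simple_card {G H : Type*} [Group G] [Group H] (e : G ≃* H) {n : ℕ} (h : IsSimpleGroup G ∧ Nat.card G = n) :
    IsSimpleGroup H ∧ Nat.card H = n := by
  obtain ⟨h1, h2⟩ := h
  exact ⟨e.isSimpleGroup_congr.1 h1, by rw [← h2]; exact (Nat.card_congr e.toEquiv).symm⟩
end transport

section S24
variable {α : Type*} [Fintype α] [DecidableEq α] {B : Set (Finset α)} (hα : Fintype.card α = 24)
  (hB : IsSteinerSystem 5 8 B)
include hα hB

theorem iso24 : ∃ e : GolayPt ≃ α, Iso octads B e := iso_octads hα hB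

/-- with prescribed images of at most five points -/
theorem iso24_pts (k : ℕ) (hk : k ≤ 5) (x : Fin k → GolayPt) (y : Fin k → α) (hx : Function.Injective x)
    (hy : Function.Injective y) : ∃ e : GolayPt ≃ α, Iso octads B e ∧ ∀ i, e (x i) = y i := by
  obtain ⟨e, he⟩ := iso24 hα hB
  obtain ⟨g, hg, h⟩ := Cfsg.Agent.H7.M24b.ktrans k hk x (fun i => e.symm (y i)) hx (e.symm.injective.comp hy)
  refine ⟨(g : Equiv.Perm GolayPt).trans e, ?_, ?_⟩
  · have hg' : Iso octads octads g := by
      rw [Cfsg.Agent.H7.M24b.M24_eq_aut_octads] at hg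
      have hgi := inv_mem hg
      rw [mem_aut] at hg hgi
      intro s
      constructor
      · intro hs
        have := hgi _ hs
        rw [Finset.map_map] at this
        have e1 : (g.toEmbedding.trans (g⁻¹ : Equiv.Perm GolayPt).toEmbedding) = Function.Embedding.refl GolayPt := by
          ext x; simp
        rwa [e1, Finset.map_refl] at this
      · exact hg s
    exact hg'.trans he
  · intro i
    rw [Equiv.trans_apply, h i, Equiv.apply_symm_apply]

theorem aut24 : (IsSimpleGroup (setSystemAut B) ∧ Nat.card (setSystemAut B) = 244823040) ∧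
    MulAction.IsMultiplyPretransitive (setSystemAut B) α 5 := by
  obtain ⟨e, he⟩ := iso24 hα hB
  have hM := Cfsg.Agent.H7.M24b.M24_eq_aut_octads
  have h1 : IsSimpleGroup (setSystemAut octads) ∧ Nat.card (setSystemAut octads) = 244823040 := by
    rw [← hM]
    exact ⟨Cfsg.Agent.H7.M24c.M24_simple, Cfsg.Agent.H7.M24.card_M24⟩
  have h2 : MulAction.IsMultiplyPretransitive (setSystemAut octads) GolayPt 5 := by
    rw [← hM, MulAction.isMultiplyPretransitive_iff]
    intro x y
    obtain ⟨g, hg, h⟩ := Cfsg.Agent.H7.M24.five_trans x y x.injective y.injective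
    exact ⟨⟨g, hg⟩, DFunLike.ext _ _ fun i => h i⟩
  exact ⟨simple_card he.aut h1, he.trans_k 5 h2⟩
end S24

/-! ### generated families -/
section gen
variable {β : Type*} [Fintype β] [DecidableEq β] {G : Set (Finset β)}

def hat (G : Set (Finset β)) : Set (Finset β) := {s | InC G s ∧ s.card = 8}

theorem small_zero (h4 : ∀ b ∈ G, 4 ∣ b.card) (hev : ∀ b ∈ G, ∀ c ∈ G, Even (b ∩ c).card)
    (hno : ∀ s, InC G s → s.card ≠ 4) {s : Finset β} (hs : InC G s) (hlt : s.card < 8) : s = ∅ := by
  have h1 := hs.four_dvd h4 hev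
  have h2 := hno s hs
  rw [← Finset.card_eq_zero]
  omega

theorem hat_unique (h4 : ∀ b ∈ G, 4 ∣ b.card) (hev : ∀ b ∈ G, ∀ c ∈ G, Even (b ∩ c).card)
    (hno : ∀ s, InC G s → s.card ≠ 4) {s t : Finset β} (hs : s ∈ hat G) (ht : t ∈ hat G) (h5 : 5 ≤ (s ∩ t).card) : s = t := by
  have h1 := card_sd s t
  rw [hs.2, ht.2] at h1
  have := small_zero h4 hev hno (hs.1.symm ht.1) (by omega)
  exact symmDiff_eq_bot.1 this

theorem hat_steiner (h4 : ∀ b ∈ G, 4 ∣ b.card) (hev : ∀ b ∈ G, ∀ c ∈ G, Even (b ∩ c).card)
    (hno : ∀ s, InC G s → s.card ≠ 4) (hcov : ∀ t : Finset β, t.card = 5 → ∃ s ∈ hat G, t ⊆ s) :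
    IsSteinerSystem 5 8 (hat G) := by
  refine ⟨fun b hb => hb.2, ?_⟩
  intro t ht
  obtain ⟨s, hs, hts⟩ := hcov t ht
  refine ⟨s, ⟨hs, hts⟩, ?_⟩
  rintro u ⟨hu, htu⟩
  apply hat_unique h4 hev hno hu hs
  rw [← ht]
  exact Finset.card_le_card (Finset.subset_inter htu hts)

theorem InC.map {γ : Type*} [DecidableEq γ] {H : Set (Finset γ)} (f : β ↪ γ) (hf : ∀ b ∈ G, InC H (b.map f)) {s : Finset β}
    (hs : InC G s) : InC H (s.map f) := by
  induction hs with
  | empty => rw [Finset.map_empty]; exact InC.empty
  | @add s b hs hb ih =>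
    have : (symmDiff s b).map f = symmDiff (s.map f) (b.map f) := by
      simp only [Finset.map_eq_image]
      exact Finset.image_symmDiff _ _ f.injective
    rw [this]
    exact ih.symm (hf b hb)
end gen

/-! ### S(4,7,23) -/
section S23
variable {α : Type*} [Fintype α] [DecidableEq α] {B : Set (Finset α)}

theorem iN_inter (s t : Finset α) : insertNone s ∩ insertNone t = insertNone (s ∩ t) := by
  ext x
  rw [Finset.mem_inter, mem_insertNone, mem_insertNone, mem_insertNone]
  constructor
  · rintro ⟨h1, h2⟩ a ha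
    exact Finset.mem_inter.2 ⟨h1 a ha, h2 a ha⟩
  · intro h
    exact ⟨fun a ha => (Finset.mem_inter.1 (h a ha)).1, fun a ha => (Finset.mem_inter.1 (h a ha)).2⟩

theorem card_iN (s : Finset α) : (insertNone s).card = s.card + 1 := card_insertNone s

/-- generators on the extended point set -/
def G23 (B : Set (Finset α)) : Set (Finset (Option α)) := {s | ∃ b ∈ B, s = insertNone b}

theorem card_inter_iN (s : Finset (Option α)) (b : Finset α) :
    (s ∩ insertNone b).card = (eraseNone s ∩ b).card + (if none ∈ s then 1 else 0) := by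
  by_cases h : none ∈ s
  · rw [if_pos h]
    have : s = insertNone (eraseNone s) := by
      rw [insertNone_eraseNone, Finset.insert_eq_of_mem h]
    conv_lhs => rw [this]
    rw [iN_inter, card_iN]
  · rw [if_neg h, add_zero]
    have : s ∩ insertNone b = (eraseNone s ∩ b).map Function.Embedding.some := by
      ext x
      rw [Finset.mem_inter, mem_insertNone, Finset.mem_map]
      constructor
      · rintro ⟨h1, h2⟩
        cases x with
        | none => exact absurd h1 h
        | some a =>
          refine ⟨a, ?_, rfl⟩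
          rw [Finset.mem_inter, mem_eraseNone]
          exact ⟨h1, h2 a rfl⟩
      · rintro ⟨a, ha, rfl⟩
        rw [Finset.mem_inter, mem_eraseNone] at ha
        refine ⟨ha.1, ?_⟩
        intro c hc
        have : a = c := by simpa using hc
        rw [← this]
        exact ha.2
    rw [this, Finset.card_map]

theorem card_eN (s : Finset (Option α)) : s.card = (eraseNone s).card + (if none ∈ s then 1 else 0) := by
  have := card_inter_iN s univ
  rw [Finset.inter_univ] at this
  rw [← this]
  congr 1
  rw [Finset.inter_eq_left.2]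
  intro x _
  rw [mem_insertNone]
  intro a _
  exact mem_univ a

variable (hα : Fintype.card α = 23) (hB : IsSteinerSystem 4 7 B)
include hα hB

theorem g23_4 : ∀ b ∈ G23 B, 4 ∣ b.card := by
  rintro _ ⟨b, hb, rfl⟩
  rw [card_iN, hB.1 b hb]
  norm_num

theorem g23_ev : ∀ b ∈ G23 B, ∀ c ∈ G23 B, Even (b ∩ c).card := by
  rintro _ ⟨b, hb, rfl⟩ _ ⟨c, hc, rfl⟩
  rw [iN_inter, card_iN]
  by_cases h : b = c
  · rw [h, Finset.inter_self, hB.1 c hc]
    decide
  · rcases inter23 hα hB hb hc h with h | h <;> rw [h] <;> decide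

theorem g23_no4 : ∀ s, InC (G23 B) s → s.card ≠ 4 := by
  intro s hs h4
  have hev : ∀ b ∈ B, Even ((eraseNone s ∩ b).card + (if none ∈ s then 1 else 0)) := by
    intro b hb
    rw [← card_inter_iN]
    exact hs.even_inter (fun c hc => g23_ev hα hB c hc _ ⟨b, hb, rfl⟩)
  have hc := card_eN s
  rw [h4] at hc
  have e0 := fun n (hn : ∀ c ∈ B, (eraseNone s ∩ c).card < n) => moment_xi (eraseNone s) n hn 0 253 (lam23_0 hα hB)
  have e1 := fun n (hn : ∀ c ∈ B, (eraseNone s ∩ c).card < n) => moment_xi (eraseNone s) n hn 1 77 (lam23_1 hα hB)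
  have e2 := fun n (hn : ∀ c ∈ B, (eraseNone s ∩ c).card < n) => moment_xi (eraseNone s) n hn 2 21 (lam23_2 hα hB)
  have e3 := fun n (hn : ∀ c ∈ B, (eraseNone s ∩ c).card < n) => moment_xi (eraseNone s) n hn 3 5 (lam23_3 hα hB)
  have hn : ∀ c ∈ B, (eraseNone s ∩ c).card < 5 := by
    intro c _
    have := Finset.card_le_card (Finset.inter_subset_left (s₁ := eraseNone s) (s₂ := c))
    omega
  have e0 := e0 5 hn
  have e1 := e1 5 hn
  have e2 := e2 5 hn
  have e3 := e3 5 hn
  by_cases hN : none ∈ s
  · rw [if_pos hN] at hc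
    have z0 : xi B (eraseNone s) 0 = 0 := xi_zero 0 (fun c hc' h => by
      have := hev c hc'
      rw [if_pos hN, h] at this
      exact absurd this (by decide))
    have z2 : xi B (eraseNone s) 2 = 0 := xi_zero 2 (fun c hc' h => by
      have := hev c hc'
      rw [if_pos hN, h] at this
      exact absurd this (by decide))
    have z4 : xi B (eraseNone s) 4 = 0 := xi_zero 4 (fun c hc' h => by
      have := hev c hc'
      rw [if_pos hN, h] at this
      exact absurd this (by decide))
    have h3 : (eraseNone s).card = 3 := by omega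
    simp only [Finset.sum_range_succ, Finset.sum_range_zero, h3, z0, z2, z4, Nat.choose] at e0 e1 e2 e3
    omega
  · rw [if_neg hN] at hc
    have z1 : xi B (eraseNone s) 1 = 0 := xi_zero 1 (fun c hc' h => by
      have := hev c hc'
      rw [if_neg hN, h] at this
      exact absurd this (by decide))
    have z3 : xi B (eraseNone s) 3 = 0 := xi_zero 3 (fun c hc' h => by
      have := hev c hc'
      rw [if_neg hN, h] at this
      exact absurd this (by decide))
    have h3 : (eraseNone s).card = 4 := by omega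
    simp only [Finset.sum_range_succ, Finset.sum_range_zero, h3, z1, z3, Nat.choose] at e0 e1 e2 e3
    omega

theorem g23_cov : ∀ t : Finset (Option α), t.card = 5 → ∃ s ∈ hat (G23 B), t ⊆ s := by
  intro t ht
  have hc := card_eN t
  have sub_iN : ∀ (t : Finset (Option α)) (b : Finset α), eraseNone t ⊆ b → t ⊆ insertNone b := by
    intro t b h x hx
    rw [mem_insertNone]
    intro a ha
    apply h
    rw [mem_eraseNone]
    have : x = some a := by simpa using ha
    rw [← this]
    exact hx
  have mem8 : ∀ b ∈ B, insertNone b ∈ hat (G23 B) := fun b hb =>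
    ⟨InC.of_mem ⟨b, hb, rfl⟩, by rw [card_iN, hB.1 b hb]⟩
  by_cases hN : none ∈ t
  · rw [if_pos hN] at hc
    obtain ⟨b, ⟨hb, htb⟩, -⟩ := hB.2 (eraseNone t) (by omega)
    exact ⟨insertNone b, mem8 b hb, sub_iN t b htb⟩
  · rw [if_neg hN] at hc
    have hc5 : (eraseNone t).card = 5 := by omega
    obtain ⟨x, hx⟩ : (eraseNone t).Nonempty := by
      rw [← Finset.card_pos]; omega
    set u := (eraseNone t).erase x with hu
    have huc : u.card = 4 := by rw [hu, card_erase_of_mem hx, hc5]
    obtain ⟨b, ⟨hb, hub⟩, -⟩ := hB.2 u huc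
    by_cases hxb : x ∈ b
    · refine ⟨insertNone b, mem8 b hb, sub_iN t b ?_⟩
      intro y hy
      by_cases hyx : y = x
      · rw [hyx]; exact hxb
      · exact hub (mem_erase.2 ⟨hyx, hy⟩)
    · set r := b \ u with hr
      have hrc : r.card = 3 := by rw [hr, card_sdiff_of_subset hub, hB.1 b hb, huc]
      have hxr : x ∉ r := fun h => hxb (mem_sdiff.1 h).1
      obtain ⟨c, ⟨hcB, hrcc⟩, -⟩ := hB.2 (insert x r) (by rw [card_insert_of_notMem hxr, hrc])
      have hxc : x ∈ c := hrcc (mem_insert_self _ _)
      have hbc : b ≠ c := fun h => hxb (h ▸ hxc)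
      have hrsub : r ⊆ b ∩ c := subset_inter sdiff_subset ((subset_insert _ _).trans hrcc)
      have hle := card_le_card hrsub
      have hi := inter23 hα hB hb hcB hbc
      have hreq : r = b ∩ c := Finset.eq_of_subset_of_card_le hrsub (by omega)
      refine ⟨symmDiff (insertNone b) (insertNone c), ⟨(mem8 b hb).1.symm (mem8 c hcB).1, ?_⟩, ?_⟩
      · have h1 := card_sd (insertNone b) (insertNone c)
        rw [iN_inter, card_iN, card_iN, card_iN, hB.1 b hb, hB.1 c hcB, ← hreq, hrc] at h1
        omega
      · intro y hy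
        cases y with
        | none => exact absurd hy hN
        | some a =>
          have ha : a ∈ eraseNone t := mem_eraseNone.2 hy
          rw [mem_symmDiff, some_mem_insertNone, some_mem_insertNone]
          by_cases hax : a = x
          · right
            rw [hax]
            exact ⟨hxc, hxb⟩
          · left
            have hau : a ∈ u := mem_erase.2 ⟨hax, ha⟩
            refine ⟨hub hau, fun hac => ?_⟩
            have : a ∈ r := by
              rw [hreq]
              exact mem_inter.2 ⟨hub hau, hac⟩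
            exact (mem_sdiff.1 this).2 hau

theorem hat23 : IsSteinerSystem 5 8 (hat (G23 B)) :=
  hat_steiner (g23_4 hα hB) (g23_ev hα hB) (g23_no4 hα hB) (g23_cov hα hB)

theorem mem_hat23 {b : Finset α} : insertNone b ∈ hat (G23 B) ↔ b ∈ B := by
  constructor
  · intro h
    have h7 : b.card = 7 := by
      have := h.2
      rw [card_iN] at this
      omega
    obtain ⟨u, hu, huc⟩ := Finset.exists_subset_card_eq (s := b) (n := 4) (by omega)
    obtain ⟨c, ⟨hc, huc'⟩, -⟩ := hB.2 u huc
    have := hat_unique (g23_4 hα hB) (g23_ev hα hB) (g23_no4 hα hB) h (t := insertNone c)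
      ⟨InC.of_mem ⟨c, hc, rfl⟩, by rw [card_iN, hB.1 c hc]⟩ (by
        rw [iN_inter, card_iN]
        have := card_le_card (subset_inter hu huc')
        omega)
    have hbc : b = c := by
      have h1 := congrArg eraseNone this
      rwa [eraseNone_insertNone, eraseNone_insertNone] at h1
    rw [hbc]
    exact hc
  · intro h
    exact ⟨InC.of_mem ⟨b, h, rfl⟩, by rw [card_iN, hB.1 b h]⟩

end S23

end Cfsg.Agent.H7.St
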