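import Mathlib
import Cfsg.Agent.H7_St8

set_option autoImplicit false
set_option linter.all false

/-! Relabelling engine for S(5,6,12). -/

namespace Cfsg.Agent.H7.S12

open Cfsg Cfsg.Agent.H7.St Finset

/-- popcount of 12 bits -/
def pcn (m : ℕ) : ℕ := Nat.add (Nat.land m 1) (Nat.add (Nat.land (Nat.shiftRight m 1) 1)
  (Nat.add (Nat.land (Nat.shiftRight m 2) 1) (Nat.add (Nat.land (Nat.shiftRight m 3) 1)
  (Nat.add (Nat.land (Nat.shiftRight m 4) 1) (Nat.add (Nat.land (Nat.shiftRight m 5) 1)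
  (Nat.add (Nat.land (Nat.shiftRight m 6) 1) (Nat.add (Nat.land (Nat.shiftRight m 7) 1)
  (Nat.add (Nat.land (Nat.shiftRight m 8) 1) (Nat.add (Nat.land (Nat.shiftRight m 9) 1)
  (Nat.add (Nat.land (Nat.shiftRight m 10) 1) (Nat.land (Nat.shiftRight m 11) 1)))))))))))

def ofM (m : ℕ) : Finset (Fin 12) := Finset.univ.filter fun i => m.testBit i = true

theorem mem_ofM {m : ℕ} {i : Fin 12} : i ∈ ofM m ↔ m.testBit i = true := by simp [ofM]

theorem land_one (m i : ℕ) : Nat.land (Nat.shiftRight m i) 1 = if m.testBit i = true then 1 else 0 := by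
  show (m >>> i) &&& 1 = _
  rw [Nat.and_one_is_mod, Nat.testBit_eq_decide_div_mod_eq, Nat.shiftRight_eq_div_pow]
  rcases Nat.mod_two_eq_zero_or_one (m / 2 ^ i) with h | h <;> simp [h]

theorem land_one' (m : ℕ) : Nat.land m 1 = if m.testBit 0 = true then 1 else 0 := land_one m 0

theorem card_ofM (m : ℕ) : (ofM m).card = pcn m := by
  unfold ofM pcn
  rw [Finset.card_filter, land_one', land_one, land_one, land_one, land_one, land_one, land_one, land_one, land_one,
    land_one, land_one, land_one]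
  simp only [Fin.sum_univ_succ, Fin.sum_univ_zero]
  simp only [Nat.add_eq]
  rfl

def mkM (s : Finset (Fin 12)) : ℕ := Nat.ofBits (fun i : Fin 12 => decide (i ∈ s))

theorem ofM_mkM (s : Finset (Fin 12)) : ofM (mkM s) = s := by
  ext i
  rw [mem_ofM, mkM, Nat.testBit_ofBits_lt _ _ i.2]
  simp

theorem ofM_and (a b : ℕ) : ofM (Nat.land a b) = ofM a ∩ ofM b := by
  ext i
  rw [Finset.mem_inter, mem_ofM, mem_ofM, mem_ofM]
  show (a &&& b).testBit i = true ↔ _
  rw [Nat.testBit_and, Bool.and_eq_true]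

theorem ofM_or (a b : ℕ) : ofM (Nat.lor a b) = ofM a ∪ ofM b := by
  ext i
  rw [Finset.mem_union, mem_ofM, mem_ofM, mem_ofM]
  show (a ||| b).testBit i = true ↔ _
  rw [Nat.testBit_or, Bool.or_eq_true]

theorem ofM_pow (i : Fin 12) : ofM (Nat.shiftLeft 1 i) = {i} := by
  ext j
  rw [mem_ofM]
  show (1 <<< (i : ℕ)).testBit j = true ↔ _
  rw [Nat.one_shiftLeft, Nat.testBit_two_pow, Finset.mem_singleton, decide_eq_true_eq, Fin.ext_iff]
  exact eq_comm

theorem ofM_compl (a : ℕ) : ofM (Nat.xor a 4095) = (ofM a)ᶜ := by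
  ext i
  rw [Finset.mem_compl, mem_ofM, mem_ofM]
  show (a ^^^ 4095).testBit i = true ↔ _
  rw [Nat.testBit_xor]
  have : (4095 : ℕ).testBit i = true := by revert i; decide
  rw [this]
  cases a.testBit i <;> simp

def okc (n : ℕ) : Bool := Nat.beq n 0 || Nat.beq n 2 || Nat.beq n 3 || Nat.beq n 4 || Nat.beq n 6

def compat (K : List ℕ) (m : ℕ) : Bool := K.all (fun k => okc (pcn (Nat.land m k)))

/-- possible blocks through a five-set -/
def cands (K : List ℕ) (f : ℕ) : List ℕ :=
  ((List.range 12).filter (fun i => !(f.testBit i) && compat K (Nat.lor f (Nat.shiftLeft 1 i)))).map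
    (fun i => Nat.lor f (Nat.shiftLeft 1 i))

/-- forced propagation: `none` means contradiction -/
def prop : List ℕ → List ℕ → Option (List ℕ)
  | [], K => some K
  | f :: fs, K =>
    match Nat.beq (pcn f) 5, cands K f with
    | true, [] => none
    | true, [m] => prop fs (m :: Nat.xor m 4095 :: K)
    | _, _ => prop fs K

section
variable {α : Type*} [Fintype α] [DecidableEq α] {B : Set (Finset α)} (hα : Fintype.card α = 12)
  (hB : IsSteinerSystem 5 6 B) (e : Fin 12 ≃ α)

def Good (B : Set (Finset α)) (e : Fin 12 ≃ α) (K : List ℕ) : Prop := ∀ k ∈ K, (ofM k).map e.toEmbedding ∈ B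

include hα hB

theorem mem_cands {K : List ℕ} (hK : Good B e K) {f : ℕ} (h5 : pcn f = 5) :
    ∃ m ∈ cands K f, (ofM m).map e.toEmbedding ∈ B := by
  obtain ⟨b, ⟨hb, hsub⟩, -⟩ := hB.2 ((ofM f).map e.toEmbedding) (by rw [Finset.card_map, card_ofM, h5])
  set s : Finset (Fin 12) := b.map e.symm.toEmbedding with hs
  have hsb : s.map e.toEmbedding = b := by
    rw [hs, Finset.map_map]
    convert Finset.map_refl
    ext x
    simp
  have hsc : s.card = 6 := by rw [hs, Finset.card_map, hB.1 b hb]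
  have hfs : ofM f ⊆ s := by
    rw [← Finset.map_subset_map (f := e.toEmbedding), hsb]
    exact hsub
  have hT : (s \ ofM f).card = 1 := by
    rw [Finset.card_sdiff_of_subset hfs, hsc, card_ofM, h5]
  obtain ⟨x, hx⟩ := Finset.card_eq_one.1 hT
  have hxs : x ∉ ofM f := by
    have : x ∈ s \ ofM f := by rw [hx]; exact mem_singleton_self x
    exact (mem_sdiff.1 this).2
  have hsm : s = ofM (Nat.lor f (Nat.shiftLeft 1 (x : ℕ))) := by
    rw [ofM_or, ofM_pow, ← hx, Finset.union_sdiff_of_subset hfs]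
  refine ⟨Nat.lor f (Nat.shiftLeft 1 (x : ℕ)), ?_, by rw [← hsm, hsb]; exact hb⟩
  unfold cands
  rw [List.mem_map]
  refine ⟨x, ?_, rfl⟩
  rw [List.mem_filter]
  refine ⟨List.mem_range.2 x.2, ?_⟩
  rw [Bool.and_eq_true]
  constructor
  · rw [mem_ofM] at hxs
    simpa using hxs
  · unfold compat
    rw [List.all_eq_true]
    intro k hk
    have hkB := hK k hk
    have hcard : pcn (Nat.land (Nat.lor f (Nat.shiftLeft 1 (x : ℕ))) k) = (b ∩ (ofM k).map e.toEmbedding).card := by
      rw [← hsb, ← Finset.map_inter, Finset.card_map, hsm, ← ofM_and, card_ofM]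
    rw [hcard]
    unfold okc
    by_cases hbk : b = (ofM k).map e.toEmbedding
    · rw [← hbk, Finset.inter_self, hB.1 b hb]
      rfl
    · rcases inter12 hα hB hb hkB hbk with h | h | h | h <;> rw [h] <;> rfl

theorem good_cons {K : List ℕ} (hK : Good B e K) {m : ℕ} (hm : (ofM m).map e.toEmbedding ∈ B) :
    Good B e (m :: Nat.xor m 4095 :: K) := by
  intro k hk
  rw [List.mem_cons, List.mem_cons] at hk
  rcases hk with rfl | rfl | hk
  · exact hm
  · rw [ofM_compl]
    have := compl12 hα hB hm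
    have e1 : (ofM m)ᶜ.map e.toEmbedding = ((ofM m).map e.toEmbedding)ᶜ := by
      ext x
      simp only [Finset.mem_map, Finset.mem_compl, Equiv.coe_toEmbedding]
      constructor
      · rintro ⟨a, ha, rfl⟩ ⟨b, hb, hab⟩
        exact ha (e.injective hab ▸ hb)
      · intro h
        refine ⟨e.symm x, fun hh => h ⟨_, hh, e.apply_symm_apply x⟩, e.apply_symm_apply x⟩
    rw [e1]
    exact this
  · exact hK k hk

theorem prop_sound (fs : List ℕ) : ∀ K : List ℕ, Good B e K → ∃ K', prop fs K = some K' ∧ Good B e K' := by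
  induction fs with
  | nil => exact fun K hK => ⟨K, rfl, hK⟩
  | cons f fs ih =>
    intro K hK
    unfold prop
    by_cases h5 : pcn f = 5
    · obtain ⟨m, hm, hmB⟩ := mem_cands hα hB e hK h5
      have hb : Nat.beq (pcn f) 5 = true := by rw [h5]; rfl
      rw [hb]
      rcases hc : cands K f with _ | ⟨a, _ | ⟨b, l⟩⟩
      · rw [hc] at hm
        exact absurd hm (List.not_mem_nil)
      · rw [hc, List.mem_singleton] at hm
        subst hm
        exact ih _ (good_cons hα hB e hK hmB)
      · exact ih K hK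
    · have hb : Nat.beq (pcn f) 5 = false := by
        rw [Bool.eq_false_iff]
        intro h
        exact h5 (Nat.eq_of_beq_eq_true h)
      rw [hb]
      exact ih K hK
end

/-! permutations as lists -/

def actL (l : List ℕ) (m : ℕ) : ℕ :=
  (List.range 12).foldr (fun i acc => bif m.testBit i then Nat.lor (Nat.shiftLeft 1 (l.getD i 0)) acc else acc) 0

def permF (l : List ℕ) (i : Fin 12) : Fin 12 := ⟨(l.getD i 0) % 12, Nat.mod_lt _ (by norm_num)⟩

def validL (l : List ℕ) : Bool := decide (Function.Injective (permF l)) && l.all (fun x => Nat.blt x 12) && Nat.beq l.length 12 &&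
  (List.range 5).all (fun i => Nat.beq (l.getD i 0) i)

theorem testBit_foldr (l : List ℕ) (m j : ℕ) (r : List ℕ) :
    (r.foldr (fun i acc => bif m.testBit i then Nat.lor (Nat.shiftLeft 1 (l.getD i 0)) acc else acc) 0).testBit j = true ↔
      ∃ i ∈ r, m.testBit i = true ∧ l.getD i 0 = j := by
  induction r with
  | nil => simp
  | cons a r ih =>
    rw [List.foldr_cons]
    by_cases h : m.testBit a = true
    · rw [h, cond_true]
      show ((1 <<< (l.getD a 0)) ||| _).testBit j = true ↔ _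
      rw [Nat.testBit_or, Bool.or_eq_true, ih, Nat.one_shiftLeft, Nat.testBit_two_pow, decide_eq_true_eq]
      constructor
      · rintro (h1 | ⟨i, hi, h1, h2⟩)
        · exact ⟨a, by simp, h, h1⟩
        · exact ⟨i, by simp [hi], h1, h2⟩
      · rintro ⟨i, hi, h1, h2⟩
        rcases List.mem_cons.1 hi with rfl | hi
        · exact Or.inl h2
        · exact Or.inr ⟨i, hi, h1, h2⟩
    · rw [Bool.not_eq_true] at h
      rw [h, cond_false, ih]
      constructor
      · rintro ⟨i, hi, h1, h2⟩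
        exact ⟨i, by simp [hi], h1, h2⟩
      · rintro ⟨i, hi, h1, h2⟩
        rcases List.mem_cons.1 hi with rfl | hi
        · rw [h] at h1
          exact absurd h1 (by simp)
        · exact ⟨i, hi, h1, h2⟩

theorem exists_permL {l : List ℕ} (h : validL l = true) : ∃ τ : Equiv.Perm (Fin 12), (∀ i, τ i = permF l i) ∧
    (∀ m, (ofM m).map τ.toEmbedding = ofM (actL l m)) ∧ ∀ i : Fin 12, (i : ℕ) < 5 → τ i = i := by
  unfold validL at h
  simp only [Bool.and_eq_true, decide_eq_true_eq] at h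
  obtain ⟨⟨⟨h1, h2⟩, h3⟩, h4⟩ := h
  have hlen : l.length = 12 := Nat.eq_of_beq_eq_true h3
  have hlt : ∀ i : Fin 12, l.getD i 0 < 12 := by
    intro i
    rw [List.all_eq_true] at h2
    have hi : (i : ℕ) < l.length := by rw [hlen]; exact i.2
    have hm : l.getD i 0 ∈ l := by
      rw [List.getD_eq_getElem _ _ hi]
      exact List.getElem_mem hi
    have := h2 _ hm
    rwa [Nat.blt_eq] at this
  let τ : Equiv.Perm (Fin 12) := Equiv.ofBijective (permF l) (Finite.injective_iff_bijective.1 h1)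
  have hτ : ∀ i, τ i = permF l i := fun i => rfl
  refine ⟨τ, hτ, ?_, ?_⟩
  · intro m
    ext j
    rw [mem_ofM, Finset.mem_map]
    unfold actL
    rw [testBit_foldr]
    constructor
    · rintro ⟨i, hi, hij⟩
      rw [mem_ofM] at hi
      refine ⟨i, List.mem_range.2 i.2, hi, ?_⟩
      rw [← hij]
      show l.getD i 0 = ((permF l i : Fin 12) : ℕ)
      unfold permF
      exact (Nat.mod_eq_of_lt (hlt i)).symm
    · rintro ⟨i, hi, h5, h6⟩
      rw [List.mem_range] at hi
      refine ⟨⟨i, hi⟩, mem_ofM.2 h5, ?_⟩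
      apply Fin.ext
      show ((permF l ⟨i, hi⟩ : Fin 12) : ℕ) = j
      unfold permF
      show l.getD i 0 % 12 = j
      rw [Nat.mod_eq_of_lt (hlt ⟨i, hi⟩)]
      exact h6
  · intro i hi
    rw [List.all_eq_true] at h4
    have := Nat.eq_of_beq_eq_true (h4 i (List.mem_range.2 hi))
    apply Fin.ext
    rw [hτ]
    unfold permF
    show l.getD i 0 % 12 = i
    rw [this, Nat.mod_eq_of_lt i.2]

/-- certificate for a candidate: propagation list and permutation -/
def chkc (K KT : List ℕ) (m : ℕ) (c : List ℕ × List ℕ) : Bool :=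
  match prop c.1 (m :: Nat.xor m 4095 :: K) with
  | none => true
  | some K' => validL c.2 && KT.all (fun k => memb (actL c.2 k) K')

def lookc (tb : List (ℕ × (List ℕ × List ℕ))) (m : ℕ) : List ℕ × List ℕ :=
  tb.foldr (fun p acc => bif Nat.beq m p.1 then p.2 else acc) ([], [])

def chk (K KT : List ℕ) (f : ℕ) (tb : List (ℕ × (List ℕ × List ℕ))) : Bool :=
  Nat.beq (pcn f) 5 && (cands K f).all (fun m => chkc K KT m (lookc tb m))

theorem step {α : Type*} [Fintype α] [DecidableEq α] {B : Set (Finset α)} (hα : Fintype.card α = 12)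
    (hB : IsSteinerSystem 5 6 B) (x : Fin 12 → α) {K KT : List ℕ} {f : ℕ} {tb : List (ℕ × (List ℕ × List ℕ))}
    (hc : chk K KT f tb = true) (h : ∃ e : Fin 12 ≃ α, Good B e K ∧ ∀ i : Fin 12, (i : ℕ) < 5 → e i = x i) :
    ∃ e : Fin 12 ≃ α, Good B e KT ∧ ∀ i : Fin 12, (i : ℕ) < 5 → e i = x i := by
  obtain ⟨e, he, hx⟩ := h
  unfold chk at hc
  rw [Bool.and_eq_true, List.all_eq_true] at hc
  obtain ⟨m, hm, hmB⟩ := mem_cands hα hB e he (Nat.eq_of_beq_eq_true hc.1)
  have h1 := hc.2 m hm
  obtain ⟨K', hK', hg⟩ := prop_sound hα hB e (lookc tb m).1 _ (good_cons hα hB e he hmB)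
  unfold chkc at h1
  rw [hK'] at h1
  simp only [Bool.and_eq_true] at h1
  obtain ⟨τ, -, hτ, hτf⟩ := exists_permL h1.1
  refine ⟨τ.trans e, ?_, ?_⟩
  · intro k hk
    have h2 := h1.2
    rw [List.all_eq_true] at h2
    have h3 := hg _ (memb_iff.1 (h2 k hk))
    rw [← hτ k, Finset.map_map] at h3
    exact h3
  · intro i hi
    rw [Equiv.trans_apply, hτf i hi, hx i hi]

end Cfsg.Agent.H7.S12
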