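import Mathlib
import Cfsg.Agent.H7_Crit

set_option autoImplicit false
set_option linter.all false

open MulAction Function

namespace Cfsg.Agent.H7.Sharp

variable {G : Type*} [Group G] {α : Type*} [MulAction G α]

/-- sharply `k`-transitive action -/
def Sh (G : Type*) [Group G] (α : Type*) [MulAction G α] (k : ℕ) : Prop :=
  IsMultiplyPretransitive G α k ∧ ∀ x : Fin k ↪ α, stabilizer G x = ⊥

def e4 (a b c d : α) (h1 : a ≠ b) (h2 : a ≠ c) (h3 : a ≠ d) (h4 : b ≠ c) (h5 : b ≠ d) (h6 : c ≠ d) :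
    Fin 4 ↪ α := ⟨![a, b, c, d], by
  intro i j h
  fin_cases i <;> fin_cases j <;> simp_all⟩

theorem tr4 (h : Sh G α 4) {a b c d a' b' c' d' : α} (h1 : a ≠ b) (h2 : a ≠ c) (h3 : a ≠ d)
    (h4 : b ≠ c) (h5 : b ≠ d) (h6 : c ≠ d) (k1 : a' ≠ b') (k2 : a' ≠ c') (k3 : a' ≠ d')
    (k4 : b' ≠ c') (k5 : b' ≠ d') (k6 : c' ≠ d') :
    ∃ g : G, g • a = a' ∧ g • b = b' ∧ g • c = c' ∧ g • d = d' := by
  have := h.1
  obtain ⟨g, hg⟩ := exists_smul_eq G (e4 a b c d h1 h2 h3 h4 h5 h6) (e4 a' b' c' d' k1 k2 k3 k4 k5 k6)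
  refine ⟨g, ?_, ?_, ?_, ?_⟩
  · exact DFunLike.congr_fun hg 0
  · exact DFunLike.congr_fun hg 1
  · exact DFunLike.congr_fun hg 2
  · exact DFunLike.congr_fun hg 3

theorem un4 (h : Sh G α 4) {a b c d : α} (h1 : a ≠ b) (h2 : a ≠ c) (h3 : a ≠ d)
    (h4 : b ≠ c) (h5 : b ≠ d) (h6 : c ≠ d) {g k : G} (ha : g • a = k • a) (hb : g • b = k • b)
    (hc : g • c = k • c) (hd : g • d = k • d) : g = k := by
  have : k⁻¹ * g ∈ stabilizer G (e4 a b c d h1 h2 h3 h4 h5 h6) := by
    rw [mem_stabilizer_iff]
    ext i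
    show (k⁻¹ * g) • ((![a, b, c, d] : Fin 4 → α) i) = (![a, b, c, d] : Fin 4 → α) i
    fin_cases i
    · show (k⁻¹ * g) • a = a
      rw [mul_smul, ha, inv_smul_smul]
    · show (k⁻¹ * g) • b = b
      rw [mul_smul, hb, inv_smul_smul]
    · show (k⁻¹ * g) • c = c
      rw [mul_smul, hc, inv_smul_smul]
    · show (k⁻¹ * g) • d = d
      rw [mul_smul, hd, inv_smul_smul]
  rw [h.2, Subgroup.mem_bot] at this
  rw [inv_mul_eq_one] at this
  exact this.symm

theorem four [Fintype α] [DecidableEq α] (S : Finset α) (h : 4 ≤ S.card) : ∃ a ∈ S, ∃ b ∈ S, ∃ c ∈ S, ∃ d ∈ S,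
    a ≠ b ∧ a ≠ c ∧ a ≠ d ∧ b ≠ c ∧ b ≠ d ∧ c ≠ d := by
  obtain ⟨T, hT, hc⟩ := Finset.exists_subset_card_eq h
  obtain ⟨a, b, c, d, h1, h2, h3, h4, h5, h6, rfl⟩ := Finset.card_eq_four.1 hc
  exact ⟨a, hT (by simp), b, hT (by simp), c, hT (by simp), d, hT (by simp), h1, h2, h3, h4, h5, h6⟩

theorem main4 [Fintype α] [DecidableEq α] (h : Sh G α 4) (hn : 7 ≤ Fintype.card α) : Fintype.card α = 11 := by
  classical
  obtain ⟨a, -, b, -, c, -, d, -, h1, h2, h3, h4, h5, h6⟩ := four (Finset.univ : Finset α)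
    (by rw [Finset.card_univ]; omega)
  obtain ⟨i, ia, ib, ic, id⟩ := tr4 h h1 h2 h3 h4 h5 h6 h1 h3 h2 h5 h4 h6.symm
  have i2 : i * i = 1 := by
    apply un4 h h1 h2 h3 h4 h5 h6
    · rw [mul_smul, ia, ia, one_smul]
    · rw [mul_smul, ib, ib, one_smul]
    · rw [mul_smul, ic, id, one_smul]
    · rw [mul_smul, id, ic, one_smul]
  have ii : ∀ x : α, i • i • x = x := fun x => by rw [← mul_smul, i2, one_smul]
  set F := (Finset.univ : Finset α).filter (fun x => i • x = x) with hF
  set M := (Finset.univ : Finset α).filter (fun x => ¬ i • x = x) with hM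
  have hFM : F.card + M.card = Fintype.card α := by
    rw [hF, hM, Finset.card_filter_add_card_filter_not, Finset.card_univ]
  have mF : ∀ x, x ∈ F ↔ i • x = x := fun x => by simp [hF]
  have mM : ∀ x, x ∈ M ↔ ¬ i • x = x := fun x => by simp [hM]
  have hF3 : F.card ≤ 3 := by
    by_contra hlt
    obtain ⟨x, hx, y, hy, z, hz, w, hw, k1, k2, k3, k4, k5, k6⟩ := four F (by omega)
    have : i = 1 := by
      apply un4 h k1 k2 k3 k4 k5 k6
      · rw [(mF x).1 hx, one_smul]
      · rw [(mF y).1 hy, one_smul]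
      · rw [(mF z).1 hz, one_smul]
      · rw [(mF w).1 hw, one_smul]
    rw [this, one_smul] at ic
    exact h6 ic
  have hF2 : 2 ≤ F.card := by
    rw [← Finset.card_pair h1]
    apply Finset.card_le_card
    intro x hx
    rw [Finset.mem_insert, Finset.mem_singleton] at hx
    rcases hx with rfl | rfl
    · exact (mF _).2 ia
    · exact (mF _).2 ib
  have hcM : c ∈ M := (mM c).2 (by rw [ic]; exact h6.symm)
  have hMi : ∀ x ∈ M, i • x ∈ M := fun x hx => (mM _).2 fun hh => (mM x).1 hx (by
    rw [ii] at hh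
    exact hh.symm)
  have hMcard : ∀ x ∈ M, ((M.erase x).erase (i • x)).card = M.card - 2 := by
    intro x hx
    rw [Finset.card_erase_of_mem, Finset.card_erase_of_mem hx]
    · omega
    · rw [Finset.mem_erase]
      exact ⟨(mM x).1 hx, hMi x hx⟩
  obtain ⟨e, he⟩ : ((M.erase c).erase (i • c)).Nonempty := by
    rw [← Finset.card_pos, hMcard c hcM]
    omega
  rw [Finset.mem_erase, Finset.mem_erase] at he
  obtain ⟨he1, he2, he3⟩ := he
  rw [ic] at he1
  have hie : ¬ i • e = e := (mM e).1 he3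
  have hic : c ≠ i • e := fun hh => he1 (by rw [← ic, hh, ii])
  have hid : d ≠ i • e := fun hh => he2 (by
    have := congrArg (i • ·) hh
    simp only [ii] at this
    rw [id] at this
    exact this.symm)
  -- centraliser
  have comm : ∀ g : G, g * i = i * g → ∀ x : α, g • i • x = i • g • x := fun g hg x => by
    rw [← mul_smul, hg, mul_smul]
  have e1 : Nat.card {g : G // g * i = i * g} = M.card * (M.card - 2) := by
    have : M.card * (M.card - 2) = Nat.card ↥(M.sigma (fun x => (M.erase x).erase (i • x))) := by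
      rw [Nat.card_eq_fintype_card, Fintype.card_coe, Finset.card_sigma, Finset.sum_congr rfl hMcard,
        Finset.sum_const, smul_eq_mul]
    rw [this]
    refine Nat.card_congr (Equiv.ofBijective (fun g => ⟨⟨(g : G) • c, (g : G) • e⟩, ?_⟩) ⟨?_, ?_⟩)
    · have hg := comm g.1 g.2
      simp only [Finset.mem_sigma, Finset.mem_erase]
      refine ⟨(mM _).2 ?_, ?_, ?_, (mM _).2 ?_⟩
      · rw [← hg, ic]
        intro hh
        exact h6.symm (smul_left_cancel _ hh)
      · rw [← hg, ic]
        intro hh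
        exact he1 (smul_left_cancel _ hh)
      · intro hh
        exact he2 (smul_left_cancel _ hh)
      · rw [← hg]
        intro hh
        exact hie (smul_left_cancel _ hh)
    · rintro ⟨g, hg⟩ ⟨k, hk⟩ hh
      simp only [Subtype.mk.injEq, Sigma.mk.injEq, heq_eq_eq] at hh
      apply Subtype.ext
      show g = k
      refine un4 h h6 he2.symm hic he1.symm hid (Ne.symm hie) hh.1 ?_ hh.2 ?_
      · rw [← ic, comm g hg, comm k hk, hh.1]
      · rw [comm g hg, comm k hk, hh.2]
    · rintro ⟨⟨x, y⟩, hxy⟩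
      simp only [Finset.mem_sigma, Finset.mem_erase] at hxy
      obtain ⟨hx, hy1, hy2, hy⟩ := hxy
      have hx' := (mM x).1 hx
      have hy' := (mM y).1 hy
      have l1 : x ≠ i • y := fun hh => hy1 (by rw [hh, ii])
      have l2 : i • x ≠ i • y := fun hh => hy2 (smul_left_cancel _ hh).symm
      obtain ⟨g, g1, g2, g3, g4⟩ := tr4 h h6 he2.symm hic he1.symm hid (Ne.symm hie) (Ne.symm hx')
        hy2.symm l1 hy1.symm l2 (Ne.symm hy')
      have hg : g * i = i * g := by
        apply un4 h h6 he2.symm hic he1.symm hid (Ne.symm hie)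
        · rw [mul_smul, mul_smul, ic, g2, g1]
        · rw [mul_smul, mul_smul, id, g2, g1, ii]
        · rw [mul_smul, mul_smul, g3, g4]
        · rw [mul_smul, mul_smul, ii, g3, g4, ii]
      refine ⟨⟨g, hg⟩, ?_⟩
      apply Subtype.ext
      simp only [g1, g3]
  have e2 : Nat.card {g : G // g * i = i * g} = (F.card * F.card - F.card) * M.card := by
    have : (F.card * F.card - F.card) * M.card = Nat.card ↥(F.offDiag ×ˢ M) := by
      rw [Nat.card_eq_fintype_card, Fintype.card_coe, Finset.card_product, Finset.offDiag_card]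
    rw [this]
    refine Nat.card_congr (Equiv.ofBijective (fun g => ⟨(((g : G) • a, (g : G) • b), (g : G) • c), ?_⟩) ⟨?_, ?_⟩)
    · have hg := comm g.1 g.2
      simp only [Finset.mem_product, Finset.mem_offDiag]
      refine ⟨⟨(mF _).2 ?_, (mF _).2 ?_, ?_⟩, (mM _).2 ?_⟩
      · rw [← hg, ia]
      · rw [← hg, ib]
      · intro hh
        exact h1 (smul_left_cancel _ hh)
      · rw [← hg, ic]
        intro hh
        exact h6.symm (smul_left_cancel _ hh)
    · rintro ⟨g, hg⟩ ⟨k, hk⟩ hh
      simp only [Subtype.mk.injEq, Prod.mk.injEq] at hh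
      apply Subtype.ext
      show g = k
      refine un4 h h1 h2 h3 h4 h5 h6 hh.1.1 hh.1.2 hh.2 ?_
      rw [← ic, comm g hg, comm k hk, hh.2]
    · rintro ⟨⟨⟨x, y⟩, z⟩, hxy⟩
      simp only [Finset.mem_product, Finset.mem_offDiag] at hxy
      obtain ⟨⟨hx, hy, hne⟩, hz⟩ := hxy
      rw [mF] at hx hy
      rw [mM] at hz
      have l1 : x ≠ z := fun hh => hz (by rw [← hh, hx])
      have l2 : y ≠ z := fun hh => hz (by rw [← hh, hy])
      have l3 : x ≠ i • z := fun hh => l1 (by rw [← hx, hh, ii])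
      have l4 : y ≠ i • z := fun hh => l2 (by rw [← hy, hh, ii])
      obtain ⟨g, g1, g2, g3, g4⟩ := tr4 h h1 h2 h3 h4 h5 h6 hne l1 l3 l2 l4 (Ne.symm hz)
      have hg : g * i = i * g := by
        apply un4 h h1 h2 h3 h4 h5 h6
        · rw [mul_smul, mul_smul, ia, g1, hx]
        · rw [mul_smul, mul_smul, ib, g2, hy]
        · rw [mul_smul, mul_smul, ic, g4, g3]
        · rw [mul_smul, mul_smul, id, g3, g4, ii]
      refine ⟨⟨g, hg⟩, ?_⟩
      apply Subtype.ext
      simp only [g1, g2, g3]
  have e3 := e1.symm.trans e2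
  have hM4 : 4 ≤ M.card := by omega
  generalize M.card = m at *
  generalize F.card = f at *
  have hm : m - 2 = f * f - f := by
    have : m * (m - 2) = m * (f * f - f) := by rw [e3, mul_comm]
    exact Nat.eq_of_mul_eq_mul_left (by omega) this
  interval_cases f <;> omega

theorem pre_of (k : ℕ) (hk : 1 ≤ k) (h : Sh G α k) (hc : (k : ENat) ≤ ENat.card α) : IsPretransitive G α := by
  have := h.1
  have : IsMultiplyPretransitive G α 1 := isMultiplyPretransitive_of_le' (m := 1) (n := k) hk hc
  exact is_one_pretransitive_iff.1 this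

theorem Sh.step {k : ℕ} [hp : IsPretransitive G α] (h : Sh G α (k + 1)) (a : α) :
    Sh (stabilizer G a) (SubMulAction.ofStabilizer G a) k := by
  refine ⟨SubMulAction.ofStabilizer.isMultiplyPretransitive.1 h.1, ?_⟩
  intro x
  rw [eq_bot_iff]
  rintro ⟨g, hg⟩ hgx
  rw [Subgroup.mem_bot]
  apply Subtype.ext
  show g = 1
  have : g ∈ stabilizer G (SubMulAction.ofStabilizer.snoc x) := by
    rw [mem_stabilizer_iff] at hgx ⊢
    ext i
    rw [Function.Embedding.smul_apply]
    rcases Fin.eq_castSucc_or_eq_last i with ⟨i, rfl⟩ | rfl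
    · rw [SubMulAction.ofStabilizer.snoc_castSucc]
      have h1 := DFunLike.congr_fun hgx i
      exact congrArg Subtype.val h1
    · rw [SubMulAction.ofStabilizer.snoc_last]
      exact hg
  rw [h.2, Subgroup.mem_bot] at this
  exact this

theorem card_G [Finite α] {k : ℕ} (h : Sh G α k) (hk : k ≤ Nat.card α) :
    Nat.card G = (Nat.card α).descFactorial k := by
  have : Fintype α := Fintype.ofFinite α
  rw [Nat.card_eq_fintype_card (α := α)] at hk ⊢
  have hne : Nonempty (Fin k ↪ α) := by
    rw [Function.Embedding.nonempty_iff_card_le, Fintype.card_fin]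
    exact hk
  obtain ⟨x⟩ := hne
  have := h.1
  have hidx := index_stabilizer_of_transitive G x
  rw [h.2, Subgroup.index_bot] at hidx
  rw [hidx, Nat.card_eq_fintype_card (α := Fin k ↪ α), Fintype.card_embedding_eq, Fintype.card_fin]

theorem finite_G [Finite α] {k : ℕ} (h : Sh G α k) (hk : k ≤ Nat.card α) : Finite G := by
  apply Nat.finite_of_card_ne_zero
  rw [card_G h hk]
  have := Nat.descFactorial_pos (n := k) (k := Nat.card α)
  exact (Nat.descFactorial_pos.2 hk).ne'

/-- centraliser of an element of prime order `p` in a faithful group of degree `p` -/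
theorem cent_p [Finite α] [FaithfulSMul G α] (p : ℕ) [Fact p.Prime] (hα : Nat.card α = p) (t : G)
    (ht : orderOf t = p) (g : G) (hg : g * t = t * g) : g ∈ Subgroup.zpowers t := by
  classical
  have hp : p.Prime := Fact.out
  have : Fintype α := Fintype.ofFinite α
  have hne : t ≠ 1 := fun hh => by
    rw [hh, orderOf_one] at ht
    exact hp.one_lt.ne ht
  obtain ⟨x, hx⟩ : ∃ x : α, t • x ≠ x := by
    by_contra hcon
    push Not at hcon
    exact hne (FaithfulSMul.eq_of_smul_eq_smul (α := α) fun x => by rw [hcon x, one_smul])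
  -- the orbit of x under <t> is everything
  have horb : (orbit (Subgroup.zpowers t) x).ncard = p := by
    have hdvd : Nat.card (orbit (Subgroup.zpowers t) x) ∣ p := by
      have := Subgroup.index_dvd_card (stabilizer (Subgroup.zpowers t) x)
      rw [index_stabilizer, Nat.card_zpowers, ht] at this
      exact this
    rw [Nat.card_coe_set_eq] at hdvd
    rcases (Nat.dvd_prime hp).1 hdvd with h1 | h1
    · exfalso
      rw [Set.ncard_eq_one] at h1
      obtain ⟨y, hy⟩ := h1
      have hx1 : x ∈ orbit (Subgroup.zpowers t) x := mem_orbit_self x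
      have hx2 : t • x ∈ orbit (Subgroup.zpowers t) x := ⟨⟨t, Subgroup.mem_zpowers t⟩, rfl⟩
      rw [hy, Set.mem_singleton_iff] at hx1 hx2
      exact hx (by rw [hx2, hx1.symm])
    · exact h1
  have huniv : orbit (Subgroup.zpowers t) x = Set.univ := by
    apply Set.eq_of_subset_of_ncard_le (Set.subset_univ _)
    rw [Set.ncard_univ, horb, hα]
  have hmem : g • x ∈ orbit (Subgroup.zpowers t) x := by rw [huniv]; exact Set.mem_univ _
  obtain ⟨⟨s, hs⟩, hsx⟩ := hmem
  have hsx' : s • x = g • x := hsx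
  obtain ⟨k, rfl⟩ := Subgroup.mem_zpowers_iff.1 hs
  have hgt : Commute g t := hg
  have key : g = t ^ k := by
    apply FaithfulSMul.eq_of_smul_eq_smul (α := α)
    intro y
    have hy : y ∈ orbit (Subgroup.zpowers t) x := by rw [huniv]; exact Set.mem_univ _
    obtain ⟨⟨s', hs'⟩, hsy⟩ := hy
    have hsy' : s' • x = y := hsy
    obtain ⟨l, rfl⟩ := Subgroup.mem_zpowers_iff.1 hs'
    rw [← hsy', ← mul_smul, (hgt.zpow_right l).eq, mul_smul, ← hsx', ← mul_smul, ← mul_smul,
      (Commute.zpow_zpow_self t l k).eq]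
  rw [key]
  exact Subgroup.zpow_mem_zpowers t k

theorem faithful_of_sh {k : ℕ} (h : Sh G α k) (x : Fin k ↪ α) : FaithfulSMul G α := by
  refine ⟨fun {g g'} hgg => ?_⟩
  have : g'⁻¹ * g ∈ stabilizer G x := by
    rw [mem_stabilizer_iff]
    ext i
    rw [Function.Embedding.smul_apply, mul_smul, hgg, inv_smul_smul]
  rw [h.2, Subgroup.mem_bot, inv_mul_eq_one] at this
  exact this.symm

theorem exists_emb [Finite α] {k : ℕ} (hk : k ≤ Nat.card α) : Nonempty (Fin k ↪ α) := by
  have : Fintype α := Fintype.ofFinite α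
  rw [Nat.card_eq_fintype_card] at hk
  rw [Function.Embedding.nonempty_iff_card_le, Fintype.card_fin]
  exact hk

theorem sh4 [Finite α] (h : Sh G α 4) (hn : 4 ≤ Nat.card α) : Nat.card α = 4 ∨ Nat.card α = 5 ∨ Nat.card α = 6 ∨
    Nat.card α = 11 := by
  classical
  have : Fintype α := Fintype.ofFinite α
  rw [Nat.card_eq_fintype_card] at hn ⊢
  by_cases h7 : 7 ≤ Fintype.card α
  · exact Or.inr (Or.inr (Or.inr (main4 h h7)))
  · omega

theorem sh5 [Finite α] (h : Sh G α 5) (hn : 5 ≤ Nat.card α) : Nat.card α = 5 ∨ Nat.card α = 6 ∨ Nat.card α = 7 ∨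
    Nat.card α = 12 := by
  classical
  have hP : IsPretransitive G α := pre_of 5 (by norm_num) h (by
    rw [ENat.card_eq_coe_natCard]
    exact_mod_cast hn)
  have hne : Nonempty α := by
    rw [← Finite.card_pos_iff]
    omega
  obtain ⟨a⟩ := hne
  have hs := h.step a
  have hc := SubMulAction.nat_card_ofStabilizer_add_one_eq G a
  have := sh4 hs (by omega)
  omega

theorem no13 [Finite α] (h : Sh G α 6) (hn : Nat.card α = 13) : False := by
  classical
  obtain ⟨x⟩ := exists_emb (α := α) (k := 6) (by omega)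
  have hF := faithful_of_sh h x
  have hG : Nat.card G = 13 * 95040 := by
    rw [card_G h (by omega), hn]
    rfl
  have hfin : Finite G := finite_G h (by omega)
  have hp : Fact (Nat.Prime 13) := ⟨by norm_num⟩
  obtain ⟨t, ht⟩ := exists_prime_orderOf_dvd_card' 13 (show 13 ∣ Nat.card G by rw [hG]; exact Dvd.intro _ rfl)
  obtain ⟨k, hk, hN⟩ := H7.Crit.card_normalizer 13 t ht (fun g hg => cent_p 13 hn t ht g hg)
  have hsyl : ∀ P : Sylow 13 G, Nat.card P = 13 := by
    intro P
    rw [P.card_eq_multiplicity, hG]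
    have : (13 * 95040 : ℕ).factorization 13 = 1 := by
      rw [Nat.factorization_mul (by norm_num) (by norm_num)]
      simp only [Finsupp.coe_add, Pi.add_apply]
      rw [Nat.Prime.factorization_self (by norm_num), Nat.factorization_eq_zero_of_not_dvd (by norm_num)]
    rw [this, pow_one]
  have hz : IsPGroup 13 (Subgroup.zpowers t) := IsPGroup.of_card (n := 1) (by rw [Nat.card_zpowers, ht, pow_one])
  obtain ⟨P, hP⟩ := hz.exists_le_sylow
  have hPz : (P : Subgroup G) = Subgroup.zpowers t := by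
    symm
    apply Subgroup.eq_of_le_of_card_ge hP
    rw [Nat.card_zpowers, ht]
    exact (hsyl P).le
  have hmod := card_sylow_modEq_one 13 G
  have hidx : Nat.card (Sylow 13 G) = (Subgroup.normalizer ((P : Subgroup G) : Set G)).index := P.card_eq_index_normalizer
  have hmul := (Subgroup.normalizer ((P : Subgroup G) : Set G)).card_mul_index
  rw [← hidx, hPz, hN, hG] at hmul
  have hk12 : k ∣ 12 := hk
  have hkle : k ≤ 12 := Nat.le_of_dvd (by norm_num) hk12
  generalize Nat.card (Sylow 13 G) = s at *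
  have hs : k * s = 95040 := by
    have : 13 * (k * s) = 13 * 95040 := by rw [← hmul]; ring
    omega
  have hmod' : s % 13 = 1 := hmod
  interval_cases k <;> first | omega | (exfalso; revert hk12; decide)

theorem sh6 (k : ℕ) (hk : 6 ≤ k) : ∀ {G : Type*} [Group G] {α : Type*} [MulAction G α] [Finite α] (h : Sh G α k)
    (hn : k ≤ Nat.card α), Nat.card α = k ∨ Nat.card α = k + 1 ∨ Nat.card α = k + 2 := by
  induction k, hk using Nat.le_induction with
  | base =>
    intro G _ α _ _ h hn
    have hP : IsPretransitive G α := pre_of 6 (by norm_num) h (by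
      rw [ENat.card_eq_coe_natCard]
      exact_mod_cast hn)
    have hne : Nonempty α := by
      rw [← Finite.card_pos_iff]
      omega
    obtain ⟨a⟩ := hne
    have hs := h.step a
    have hc := SubMulAction.nat_card_ofStabilizer_add_one_eq G a
    have := sh5 hs (by omega)
    have h13 : Nat.card α ≠ 13 := fun hh => no13 h hh
    omega
  | succ k hk ih =>
    intro G _ α _ _ h hn
    have hP : IsPretransitive G α := pre_of (k + 1) (by omega) h (by
      rw [ENat.card_eq_coe_natCard]
      exact_mod_cast hn)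
    have hne : Nonempty α := by
      rw [← Finite.card_pos_iff]
      omega
    obtain ⟨a⟩ := hne
    have hs := h.step a
    have hc := SubMulAction.nat_card_ofStabilizer_add_one_eq G a
    have := ih hs (by omega)
    omega

end Cfsg.Agent.H7.Sharp
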