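import Mathlib
import Cfsg.Agent.H7_Sharp
import Cfsg.Prelude.Def_Sporadic

set_option autoImplicit false
set_option linter.all false

open MulAction Function

namespace Cfsg.Agent.H7.Sharp

variable {G : Type*} [Group G] {α : Type*} [MulAction G α]

theorem dvd_normal [Finite α] {k : ℕ} (hk : 2 ≤ k) (h : Sh G α k) (hn : k ≤ Nat.card α) (N : Subgroup G) [hN : N.Normal]
    (hne : N ≠ ⊥) : IsPretransitive N α ∧ Nat.card α ∣ Nat.card N := by
  obtain ⟨x⟩ := exists_emb (α := α) hn
  have hF := faithful_of_sh h x
  have h1 := h.1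
  have h2 : IsMultiplyPretransitive G α 2 := isMultiplyPretransitive_of_le' (m := 2) (n := k) hk (by
    rw [ENat.card_eq_coe_natCard]; exact_mod_cast hn)
  have hP : IsPreprimitive G α := isPreprimitive_of_is_two_pretransitive h2
  have hnt : Nonempty α := by
    rw [← Finite.card_pos_iff]
    omega
  have hfix : fixedPoints N α ≠ Set.univ := by
    intro hh
    apply hne
    rw [eq_bot_iff]
    intro g hg
    rw [Subgroup.mem_bot]
    apply FaithfulSMul.eq_of_smul_eq_smul (α := α)
    intro y
    rw [one_smul]
    have : y ∈ fixedPoints N α := by rw [hh]; exact Set.mem_univ _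
    exact this ⟨g, hg⟩
  have hT : IsPretransitive N α := IsQuasiPreprimitive.isPretransitive_of_normal (G := G) (N := N) hfix
  refine ⟨hT, ?_⟩
  obtain ⟨y⟩ := hnt
  rw [← index_stabilizer_of_transitive N y]
  exact Subgroup.index_dvd_card _

theorem m11 [Finite α] (h : Sh G α 4) (hn : Nat.card α = 11) : IsM11 G := by
  obtain ⟨x⟩ := exists_emb (α := α) (k := 4) (by omega)
  have hF := faithful_of_sh h x
  have hG : Nat.card G = 11 * 720 := by
    rw [card_G h (by omega), hn]
    rfl
  have hfin : Finite G := finite_G h (by omega)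
  have hp : Fact (Nat.Prime 11) := ⟨by norm_num⟩
  refine ⟨?_, by rw [hG]⟩
  obtain ⟨t, ht⟩ := exists_prime_orderOf_dvd_card' 11 (show 11 ∣ Nat.card G by rw [hG]; exact Dvd.intro _ rfl)
  refine H7.Crit.simple_crit 11 5 720 (by norm_num) t ht (fun g hg => cent_p 11 hn t ht g hg) hG (by norm_num) ?_
    (by norm_num) ?_
  · intro k hk hk2 hk3
    have hkle : k ≤ 10 := Nat.le_of_dvd (by norm_num) hk
    interval_cases k <;> first | rfl | (exfalso; revert hk3; norm_num; done) | (exfalso; revert hk; norm_num; done) | (exfalso; revert hk2; norm_num; done)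
  · intro N hN hne
    have := (dvd_normal (by norm_num) h (by omega) N hne).2
    rwa [hn] at this

theorem m12 [Finite α] (h : Sh G α 5) (hn : Nat.card α = 12) : IsM12 G := by
  classical
  obtain ⟨x⟩ := exists_emb (α := α) (k := 5) (by omega)
  have hF := faithful_of_sh h x
  have hG : Nat.card G = 95040 := by
    rw [card_G h (by omega), hn]
    rfl
  have hfin : Finite G := finite_G h (by omega)
  refine ⟨?_, hG⟩
  have hP : IsPretransitive G α := pre_of 5 (by norm_num) h (by
      rw [ENat.card_eq_coe_natCard, hn]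
      norm_num)
  obtain ⟨a⟩ : Nonempty α := by
    rw [← Finite.card_pos_iff]
    omega
  have hs := h.step a
  have hc := SubMulAction.nat_card_ofStabilizer_add_one_eq G a
  have hM := m11 hs (by omega)
  have hsimp := hM.1
  have hntG : Nontrivial G := by
    rw [← Finite.one_lt_card_iff_nontrivial]
    omega
  have hprim : IsPreprimitive G α := by
    have := h.1
    have h2 : IsMultiplyPretransitive G α 2 := isMultiplyPretransitive_of_le' (m := 2) (n := 5) (by norm_num) (by
      rw [ENat.card_eq_coe_natCard, hn]; norm_num)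
    exact isPreprimitive_of_is_two_pretransitive h2
  have hntα : Nontrivial α := by
    rw [← Finite.one_lt_card_iff_nontrivial]
    omega
  refine { exists_pair_ne := hntG.1, eq_bot_or_eq_top_of_normal := ?_ }
  intro N hN
  by_cases hne : N = ⊥
  · exact Or.inl hne
  right
  obtain ⟨hT, hdvd⟩ := dvd_normal (by norm_num) h (by omega) N hne
  -- N ∩ G_a
  have hsub : (N.subgroupOf (stabilizer G a)).Normal := inferInstance
  rcases hsimp.eq_bot_or_eq_top_of_normal _ hsub with h1 | h1
  · -- N regular of order 12
    exfalso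
    have hstab : ∀ n ∈ N, n • a = a → n = 1 := by
      intro n hn hna
      have : (⟨n, hna⟩ : stabilizer G a) ∈ N.subgroupOf (stabilizer G a) := by
        rw [Subgroup.mem_subgroupOf]
        exact hn
      rw [h1, Subgroup.mem_bot] at this
      exact congrArg Subtype.val this
    -- conjugation transports
    have hconj : ∀ n ∈ N, ∀ m ∈ N, n ≠ 1 → m ≠ 1 → orderOf n = orderOf m := by
      intro n hn m hm hn1 hm1
      have hna : n • a ≠ a := fun hh => hn1 (hstab n hn hh)
      have hma : m • a ≠ a := fun hh => hm1 (hstab m hm hh)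
      have h2 : IsMultiplyPretransitive G α 2 := by
        have := h.1
        exact isMultiplyPretransitive_of_le' (m := 2) (n := 5) (by norm_num) (by
          rw [ENat.card_eq_coe_natCard]
          norm_cast
          omega)
      obtain ⟨g, g1, g2⟩ := is_two_pretransitive_iff.1 h2 hna.symm hma.symm
      have hg : m⁻¹ * (g * n * g⁻¹) = 1 := by
        apply hstab
        · exact N.mul_mem (N.inv_mem hm) (hN.conj_mem n hn g)
        · rw [mul_smul, mul_smul, mul_smul, inv_smul_eq_iff]
          rw [show g⁻¹ • a = a by rw [inv_smul_eq_iff, g1], g2]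
      rw [inv_mul_eq_one] at hg
      have : orderOf (g * n * g⁻¹) = orderOf n := by
        rw [← MulAut.conj_apply]
        exact orderOf_injective (MulAut.conj g).toMonoidHom (MulAut.conj g).injective n
      rw [← this, hg]
    rw [hn] at hdvd
    have h2 : Fact (Nat.Prime 2) := ⟨by norm_num⟩
    have h3 : Fact (Nat.Prime 3) := ⟨by norm_num⟩
    obtain ⟨x2, hx2⟩ := exists_prime_orderOf_dvd_card' (G := N) 2 (Dvd.dvd.trans (by norm_num) hdvd)
    obtain ⟨x3, hx3⟩ := exists_prime_orderOf_dvd_card' (G := N) 3 (Dvd.dvd.trans (by norm_num) hdvd)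
    rw [← Subgroup.orderOf_coe] at hx2 hx3
    have := hconj x2 x2.2 x3 x3.2 (fun hh => by rw [hh, orderOf_one] at hx2; norm_num at hx2)
      (fun hh => by rw [hh, orderOf_one] at hx3; norm_num at hx3)
    omega
  · rw [Subgroup.subgroupOf_eq_top] at h1
    have hmax : IsCoatom (stabilizer G a) := IsPreprimitive.isCoatom_stabilizer_of_isPreprimitive (G := G) a
    rcases hmax.le_iff.1 h1 with h3 | h3
    · exact h3
    · -- N = stabilizer: not transitive
      exfalso
      obtain ⟨b, hb⟩ := exists_ne a
      obtain ⟨⟨n, hn'⟩, hnb⟩ := hT.exists_smul_eq a b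
      rw [h3] at hn'
      exact hb (by rw [← hnb]; exact hn')

end Cfsg.Agent.H7.Sharp
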