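import Mathlib
import Cfsg.Agent.H7_S12
import Cfsg.Agent.H7_Sharp2

set_option autoImplicit false
set_option linter.all false
set_option maxRecDepth 100000

open Finset

namespace Cfsg.Agent.H7.S12

open Cfsg Cfsg.Agent.H7.St

def K0 : List ℕ := []
def K1 : List ℕ := [63, 4032]
def tb0 : List (ℕ × (List ℕ × List ℕ)) := [(63, ([], [0, 1, 2, 3, 4, 5, 6, 7, 8, 9, 10, 11])),
  (95, ([], [0, 1, 2, 3, 4, 6, 5, 7, 8, 9, 10, 11])),
  (159, ([], [0, 1, 2, 3, 4, 7, 5, 6, 8, 9, 10, 11])),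
  (287, ([], [0, 1, 2, 3, 4, 8, 5, 6, 7, 9, 10, 11])),
  (543, ([], [0, 1, 2, 3, 4, 9, 5, 6, 7, 8, 10, 11])),
  (1055, ([], [0, 1, 2, 3, 4, 10, 5, 6, 7, 8, 9, 11])),
  (2079, ([], [0, 1, 2, 3, 4, 11, 5, 6, 7, 8, 9, 10]))]
theorem c0 : chk K0 K1 31 tb0 = true := by decide +kernel
def K2 : List ℕ := [63, 207, 3888, 4032]
def tb1 : List (ℕ × (List ℕ × List ℕ)) := [(207, ([], [0, 1, 2, 3, 4, 5, 6, 7, 8, 9, 10, 11])),
  (335, ([], [0, 1, 2, 3, 4, 5, 6, 8, 7, 9, 10, 11])),
  (591, ([], [0, 1, 2, 3, 4, 5, 6, 9, 7, 8, 10, 11])),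
  (1103, ([], [0, 1, 2, 3, 4, 5, 6, 10, 7, 8, 9, 11])),
  (2127, ([], [0, 1, 2, 3, 4, 5, 6, 11, 7, 8, 9, 10]))]
theorem c1 : chk K1 K2 79 tb1 = true := by decide +kernel
def K3 : List ℕ := [63, 207, 783, 1008, 3087, 3312, 3888, 4032]
def tb2 : List (ℕ × (List ℕ × List ℕ)) := [(783, ([1039], [0, 1, 2, 3, 4, 5, 6, 7, 8, 9, 10, 11])),
  (1295, ([527], [0, 1, 2, 3, 4, 5, 6, 7, 8, 10, 9, 11])),
  (2319, ([527], [0, 1, 2, 3, 4, 5, 6, 7, 8, 11, 9, 10]))]
theorem c2 : chk K2 K3 271 tb2 = true := by decide +kernel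
def K4 : List ℕ := [63, 207, 343, 783, 1008, 3087, 3312, 3752, 3888, 4032]
def tb3 : List (ℕ × (List ℕ × List ℕ)) := [(343, ([], [0, 1, 2, 3, 4, 5, 6, 7, 8, 9, 10, 11])),
  (599, ([], [0, 1, 2, 3, 4, 5, 6, 7, 9, 8, 10, 11])),
  (1111, ([], [0, 1, 2, 3, 4, 5, 6, 7, 10, 11, 8, 9])),
  (2135, ([], [0, 1, 2, 3, 4, 5, 6, 7, 11, 10, 8, 9]))]
theorem c3 : chk K3 K4 87 tb3 = true := by decide +kernel
def K5 : List ℕ := [63, 207, 343, 679, 783, 1008, 1175, 1319, 1512, 1607, 1656, 1944, 2151, 2439, 2488, 2583, 2776, 2920, 3087, 3312, 3416, 3752, 3888, 4032]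
def tb4 : List (ℕ × (List ℕ × List ℕ)) := [(663, ([1047], [])),
  (1175, ([535, 2119, 647, 2183, 1287, 1543], [0, 1, 2, 3, 4, 5, 6, 7, 8, 9, 10, 11])),
  (2199, ([535, 1095, 2119, 647, 1159, 2311], [0, 1, 2, 3, 4, 5, 6, 7, 8, 9, 11, 10]))]
theorem c4 : chk K4 K5 151 tb4 = true := by decide +kernel
def K6 : List ℕ := [63, 207, 243, 252, 343, 427, 603, 679, 783, 860, 867, 915, 940, 1008, 1131, 1175, 1307, 1319, 1340, 1475, 1492, 1512, 1587, 1607, 1656, 1675, 1716, 1740, 1892, 1944, 2151, 2203, 2355, 2379, 2420, 2439, 2488, 2508, 2583, 2603, 2620, 2755, 2776, 2788, 2920, 2964, 3087, 3155, 3180, 3228, 3235, 3312, 3416, 3492, 3668, 3752, 3843, 3852, 3888, 4032]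
def tb5 : List (ℕ × (List ℕ × List ℕ)) := [(603, ([1051, 2075, 1099, 2123, 395, 651, 2571, 115, 1107, 403, 2323, 1555, 355, 1187, 451, 707, 1795], [0, 1, 2, 3, 4, 5, 6, 7, 8, 9, 10, 11])),
  (1115, ([539, 2075, 331, 587, 395, 2187, 1547, 1075, 595, 2131, 403, 787, 227, 803, 451, 1347, 1667], [0, 1, 2, 3, 4, 5, 10, 11, 7, 6, 9, 8])),
  (2139, ([587, 1099, 2315, 2571, 595, 1107, 2195, 2323, 1555, 227, 1187, 803, 1571, 1219, 835, 899, 409], [0, 1, 2, 3, 4, 5, 8, 9, 6, 7, 11, 10]))]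
theorem c5 : chk K5 K6 91 tb5 = true := by decide +kernel
def K7 : List ℕ := [63, 207, 243, 252, 343, 365, 378, 414, 427, 437, 473, 486, 603, 622, 629, 669, 679, 698, 726, 745, 783, 822, 825, 860, 867, 915, 940, 965, 970, 1008, 1117, 1131, 1142, 1175, 1198, 1209, 1242, 1253, 1307, 1319, 1340, 1358, 1393, 1421, 1458, 1475, 1492, 1512, 1566, 1581, 1587, 1607, 1656, 1675, 1716, 1740, 1745, 1762, 1813, 1834, 1865, 1874, 1892, 1926, 1944, 1953, 2142, 2151, 2169, 2203, 2221, 2230, 2261, 2282, 2333, 2350, 2355, 2379, 2420, 2439, 2488, 2508, 2514, 2529, 2583, 2603, 2620, 2637, 2674, 2702, 2737, 2755, 2776, 2788, 2842, 2853, 2886, 2897, 2920, 2953, 2964, 2978, 3087, 3125, 3130, 3155, 3180, 3228, 3235, 3270, 3273, 3312, 3350, 3369, 3397, 3416, 3426, 3466, 3473, 3492, 3609, 3622, 3658, 3668, 3681, 3717, 3730, 3752, 3843, 3852, 3888, 4032]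
def tb6 : List (ℕ × (List ℕ × List ℕ)) := [(1117, ([541, 2077, 301, 557, 2093, 589, 397, 117, 181, 1077, 213, 789, 229, 805, 453, 1349, 1669, 121, 185, 313, 217, 1561, 233, 1321, 1225, 841, 905, 369, 689, 721, 849, 1425, 481, 1633, 929], [0, 1, 2, 3, 4, 5, 6, 7, 8, 9, 10, 11])),
  (2141, ([285, 541, 557, 1069, 2093, 333, 653, 117, 181, 309, 213, 1301, 229, 1573, 1221, 837, 901, 121, 185, 1081, 217, 793, 233, 809, 457, 1609, 1417, 625, 433, 465, 849, 1681, 737, 1377, 929], [0, 1, 2, 3, 4, 5, 7, 6, 10, 11, 8, 9]))]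
theorem c6 : chk K6 K7 93 tb6 = true := by decide +kernel

/-- the standard system -/
def B12 : Set (Finset (Fin 12)) := {s | mkM s ∈ K7}

theorem ofM_mem {m : ℕ} (hm : m ∈ K7) : ofM m ∈ B12 := by
  show mkM (ofM m) ∈ K7
  have : ∀ m ∈ K7, mkM (ofM m) = m := by decide +kernel
  rw [this m hm]
  exact hm

theorem B12_eq : B12 = ((fun m => ofM m) '' {m | m ∈ K7}) := by
  ext s
  constructor
  · intro hs
    exact ⟨mkM s, hs, ofM_mkM s⟩
  · rintro ⟨m, hm, rfl⟩
    exact ofM_mem hm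

theorem K_nodup : K7.Nodup := by decide +kernel
theorem K_len : K7.length = 132 := by decide +kernel

theorem ncard_B12 : B12.ncard = 132 := by
  have h1 : B12 = (((K7.map ofM).toFinset : Finset (Finset (Fin 12))) : Set (Finset (Fin 12))) := by
    rw [B12_eq]
    ext s
    simp
  rw [h1, Set.ncard_coe_finset, List.toFinset_card_of_nodup, List.length_map, K_len]
  apply List.Nodup.map_on _ K_nodup
  intro a ha b hb hab
  have : ∀ m ∈ K7, mkM (ofM m) = m := by decide +kernel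
  rw [← this a ha, ← this b hb]
  exact congrArg mkM hab

section
variable {α : Type*} [Fintype α] [DecidableEq α] {B : Set (Finset α)} (hα : Fintype.card α = 12)
  (hB : IsSteinerSystem 5 6 B)
include hα hB

theorem iso12 (x : Fin 5 ↪ α) : ∃ e : Fin 12 ≃ α, Iso B12 B e ∧ ∀ i : Fin 5, e (Fin.castLE (by norm_num) i) = x i := by
  let x' : Fin 12 → α := fun i => if h : (i : ℕ) < 5 then x ⟨i, h⟩ else x 0
  have h0 : ∃ e : Fin 12 ≃ α, Good B e K0 ∧ ∀ i : Fin 12, (i : ℕ) < 5 → e i = x' i := by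
    obtain ⟨e⟩ : Nonempty (Fin 12 ≃ α) := by
      rw [← Fintype.card_eq, Fintype.card_fin, hα]
    -- move the five points to their places
    have h5 : MulAction.IsMultiplyPretransitive (Equiv.Perm (Fin 12)) (Fin 12) 5 :=
      Equiv.Perm.isMultiplyPretransitive _ _
    rw [MulAction.isMultiplyPretransitive_iff] at h5
    let c : Fin 5 ↪ Fin 12 := ⟨Fin.castLE (by norm_num), Fin.castLE_injective _⟩
    obtain ⟨g, hg⟩ := h5 c (x.trans e.symm.toEmbedding)
    refine ⟨g.trans e, ?_, ?_⟩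
    · intro k hk
      exact absurd hk (List.not_mem_nil)
    · intro i hi
      have h1 := DFunLike.congr_fun hg ⟨i, hi⟩
      have h2 : g i = e.symm (x ⟨i, hi⟩) := h1
      rw [Equiv.trans_apply, h2, Equiv.apply_symm_apply]
      show _ = if h : (i : ℕ) < 5 then x ⟨i, h⟩ else x 0
      rw [dif_pos hi]
  have h1 := step hα hB x' c0 h0
  have h2 := step hα hB x' c1 h1
  have h3 := step hα hB x' c2 h2
  have h4 := step hα hB x' c3 h3
  have h5 := step hα hB x' c4 h4
  have h6 := step hα hB x' c5 h5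
  have h7 := step hα hB x' c6 h6
  obtain ⟨e, he, hx⟩ := h7
  have hB1 : B.ncard = 132 := by
    have := count hB
    rw [hα] at this
    norm_num [Nat.choose] at this
    omega
  have himg : (fun s : Finset (Fin 12) => s.map e.toEmbedding) '' B12 = B := by
    apply Set.eq_of_subset_of_ncard_le
    · rintro _ ⟨t, ht, rfl⟩
      rw [B12_eq] at ht
      obtain ⟨m, hm, rfl⟩ := ht
      exact he m hm
    · rw [Set.ncard_image_of_injective _ (Finset.map_injective _), ncard_B12, hB1]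
    · exact Set.toFinite _
  refine ⟨e, ?_, ?_⟩
  · intro s
    constructor
    · intro hs
      rw [← himg] at hs
      obtain ⟨t, ht, hts⟩ := hs
      rw [← Finset.map_injective _ hts]
      exact ht
    · intro hs
      rw [← himg]
      exact ⟨s, hs, rfl⟩
  · intro i
    have := hx (Fin.castLE (by norm_num) i) i.2
    rw [this]
    show (if h : (i : ℕ) < 5 then x ⟨i, h⟩ else x 0) = _
    rw [dif_pos i.2]
end

/-- five-element-plus-one membership -/
def q (a b c d x y : Fin 12) : Bool := memb (mkM {a, b, c, d, x, y}) K7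

theorem rigid : ∀ y5 : Fin 12, q 0 1 2 3 4 y5 = true → y5 = 5 := by decide +kernel

def al (P : Fin 12 → Bool) : Bool := (List.finRange 12).all P

theorem al_iff {P : Fin 12 → Bool} (h : al P = true) (i : Fin 12) : P i = true := by
  unfold al at h
  rw [List.all_eq_true] at h
  exact h i (List.mem_finRange i)

def rig : Bool := al fun y6 => al fun y7 => !(q 0 1 2 3 y6 y7) || al fun y8 => !(q 0 1 2 4 y6 y8) || al fun y9 =>
  !(q 0 1 2 3 y8 y9) || !(q 0 1 3 4 y6 y9) || al fun y10 => !(q 0 1 2 4 y7 y10) || !(q 0 2 3 4 y6 y10) ||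
    (decide (y6 = 6) && decide (y7 = 7) && decide (y8 = 8) && decide (y9 = 9) && decide (y10 = 10))

theorem rig_ok : rig = true := by decide +kernel

theorem rigid2 (y6 y7 y8 y9 y10 : Fin 12) (h1 : q 0 1 2 3 y6 y7 = true) (h2 : q 0 1 2 4 y6 y8 = true)
    (h3 : q 0 1 2 3 y8 y9 = true) (h4 : q 0 1 3 4 y6 y9 = true) (h5 : q 0 1 2 4 y7 y10 = true)
    (h6 : q 0 2 3 4 y6 y10 = true) : y6 = 6 ∧ y7 = 7 ∧ y8 = 8 ∧ y9 = 9 ∧ y10 = 10 := by
  have h := al_iff (al_iff rig_ok y6) y7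
  rw [h1, Bool.not_true, Bool.false_or] at h
  have h := al_iff h y8
  rw [h2, Bool.not_true, Bool.false_or] at h
  have h := al_iff h y9
  rw [h3, h4, Bool.not_true, Bool.false_or, Bool.false_or] at h
  have h := al_iff h y10
  rw [h5, h6, Bool.not_true, Bool.false_or, Bool.false_or] at h
  simpa [and_assoc] using h

theorem q_of_mem {g : Equiv.Perm (Fin 12)} (hg : g ∈ setSystemAut B12) (a b c d x y : Fin 12)
    (h : q a b c d x y = true) : q (g a) (g b) (g c) (g d) (g x) (g y) = true := by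
  unfold q at h ⊢
  rw [memb_iff] at h ⊢
  rw [mem_aut] at hg
  have h1 := hg {a, b, c, d, x, y} h
  have h2 : ({a, b, c, d, x, y} : Finset (Fin 12)).map g.toEmbedding = {g a, g b, g c, g d, g x, g y} := by
    simp [Finset.map_insert]
  rw [h2] at h1
  exact h1

theorem aut_rigid {g : Equiv.Perm (Fin 12)} (hg : g ∈ setSystemAut B12) (h : ∀ i : Fin 5, g (Fin.castLE (by norm_num) i) = Fin.castLE (by norm_num) i) :
    g = 1 := by
  have g0 : g 0 = 0 := h 0
  have g1 : g 1 = 1 := h 1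
  have g2 : g 2 = 2 := h 2
  have g3 : g 3 = 3 := h 3
  have g4 : g 4 = 4 := h 4
  have e5 := q_of_mem hg 0 1 2 3 4 5 (by decide +kernel)
  have e67 := q_of_mem hg 0 1 2 3 6 7 (by decide +kernel)
  have e68 := q_of_mem hg 0 1 2 4 6 8 (by decide +kernel)
  have e89 := q_of_mem hg 0 1 2 3 8 9 (by decide +kernel)
  have e69 := q_of_mem hg 0 1 3 4 6 9 (by decide +kernel)
  have e710 := q_of_mem hg 0 1 2 4 7 10 (by decide +kernel)
  have e610 := q_of_mem hg 0 2 3 4 6 10 (by decide +kernel)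
  rw [g0, g1, g2, g3, g4] at e5
  rw [g0, g1, g2, g3] at e67 e89
  rw [g0, g1, g2, g4] at e68 e710
  rw [g0, g1, g3, g4] at e69
  rw [g0, g2, g3, g4] at e610
  have g5 := rigid _ e5
  obtain ⟨g6, g7, g8, g9, g10⟩ := rigid2 _ _ _ _ _ e67 e68 e89 e69 e710 e610
  have hinj := g.injective
  have g11 : g 11 = 11 := by
    have key : ∀ y : Fin 12, y ≠ 0 → y ≠ 1 → y ≠ 2 → y ≠ 3 → y ≠ 4 → y ≠ 5 → y ≠ 6 → y ≠ 7 → y ≠ 8 → y ≠ 9 → y ≠ 10 → y = 11 := by
      intro y
      fin_cases y <;> simp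
    apply key
    · intro hh; rw [← g0] at hh; exact absurd (hinj hh) (by decide)
    · intro hh; rw [← g1] at hh; exact absurd (hinj hh) (by decide)
    · intro hh; rw [← g2] at hh; exact absurd (hinj hh) (by decide)
    · intro hh; rw [← g3] at hh; exact absurd (hinj hh) (by decide)
    · intro hh; rw [← g4] at hh; exact absurd (hinj hh) (by decide)
    · intro hh; rw [← g5] at hh; exact absurd (hinj hh) (by decide)
    · intro hh; rw [← g6] at hh; exact absurd (hinj hh) (by decide)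
    · intro hh; rw [← g7] at hh; exact absurd (hinj hh) (by decide)
    · intro hh; rw [← g8] at hh; exact absurd (hinj hh) (by decide)
    · intro hh; rw [← g9] at hh; exact absurd (hinj hh) (by decide)
    · intro hh; rw [← g10] at hh; exact absurd (hinj hh) (by decide)
  ext1 i
  rw [Equiv.Perm.one_apply]
  fin_cases i
  · exact g0
  · exact g1
  · exact g2
  · exact g3
  · exact g4
  · exact g5
  · exact g6
  · exact g7
  · exact g8
  · exact g9
  · exact g10
  · exact g11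

section
variable {α : Type*} [Fintype α] [DecidableEq α] {B : Set (Finset α)} (hα : Fintype.card α = 12)
  (hB : IsSteinerSystem 5 6 B)
include hα hB

theorem sh12 : Sharp.Sh (setSystemAut B) α 5 := by
  constructor
  · rw [MulAction.isMultiplyPretransitive_iff]
    intro x y
    obtain ⟨e, he, hx⟩ := iso12 hα hB x
    obtain ⟨f, hf, hy⟩ := iso12 hα hB y
    have hI : Iso B B (e.symm.trans f) := he.symm.trans hf
    refine ⟨⟨e.symm.trans f, ?_⟩, ?_⟩
    · rw [mem_aut]
      exact fun s hs => (hI s).2 hs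
    · apply DFunLike.ext
      intro i
      show f (e.symm (x i)) = y i
      rw [← hx i, Equiv.symm_apply_apply, hy i]
  · intro x
    rw [eq_bot_iff]
    rintro ⟨g, hg⟩ hgx
    rw [Subgroup.mem_bot]
    obtain ⟨e, he, hx⟩ := iso12 hα hB x
    have hfix : ∀ i, g (x i) = x i := fun i => DFunLike.congr_fun hgx i
    -- transport
    have hmem : e.permCongrHom.symm g ∈ setSystemAut B12 := by
      rw [mem_aut] at hg ⊢
      intro s hs
      have h1 := hg _ ((he s).2 hs)
      rw [← he.symm] at h1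
      rw [Finset.map_map, Finset.map_map] at h1
      exact h1
    have h1 := aut_rigid hmem (by
      intro i
      show e.symm (g (e (Fin.castLE (by norm_num) i))) = Fin.castLE (by norm_num) i
      rw [hx i, hfix i, ← hx i, Equiv.symm_apply_apply])
    apply Subtype.ext
    show g = 1
    have h2 := congrArg e.permCongrHom h1
    rwa [MulEquiv.apply_symm_apply, map_one] at h2
end

end Cfsg.Agent.H7.S12
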