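import Mathlib
import Cfsg.Agent.H7_St1

set_option autoImplicit false
set_option linter.all false

open Finset

namespace Cfsg.Agent.H7.St

section S12b
variable {α : Type*} [Fintype α] [DecidableEq α] {B : Set (Finset α)}

theorem presc' (hα : Fintype.card α = 12) (hB : IsSteinerSystem 5 6 B) {b : Finset α} (hb : b ∈ B) (s : Finset α) (hs : s ⊆ b) (n : ℕ → ℕ)
    (hn : ∀ u ⊆ b, s ⊆ u → ((bl B).filter (fun c => b ∩ c = u)).card = n u.card) :
    ((bl B).filter (fun c => s ⊆ c)).card =
      ∑ i ∈ range 7, (if s.card ≤ i then (6 - s.card).choose (i - s.card) else 0) * n i := by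
  rw [presc hα hB b s hs, ← Finset.sum_fiberwise_of_maps_to (s := b.powerset.filter (fun u => s ⊆ u)) (t := range 7)
    (g := fun u => u.card)]
  · apply Finset.sum_congr rfl
    intro i _
    have e : (b.powerset.filter (fun u => s ⊆ u)).filter (fun u => u.card = i) =
        (b.powersetCard i).filter (fun u => s ⊆ u) := by
      ext u
      simp only [mem_filter, mem_powerset, mem_powersetCard]
      tauto
    rw [e, Finset.sum_congr rfl (g := fun _ => n i), Finset.sum_const, smul_eq_mul]
    · congr 1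
      split_ifs with h
      · rw [card_between s b hs i h, hB.1 _ hb]
      · rw [Finset.card_eq_zero, Finset.filter_eq_empty_iff]
        intro u hu hsu
        rw [mem_powersetCard] at hu
        exact h (hu.2 ▸ Finset.card_le_card hsu)
    · intro u hu
      rw [mem_filter, mem_powersetCard] at hu
      rw [hn u hu.1.1 hu.2, hu.1.2]
  · intro u hu
    rw [mem_filter, mem_powerset] at hu
    rw [Finset.mem_range]
    have := Finset.card_le_card hu.1
    rw [hB.1 _ hb] at this
    omega

theorem N_top (hB : IsSteinerSystem 5 6 B) {b : Finset α} (hb : b ∈ B) (u : Finset α) (hu : u ⊆ b) (h : 6 ≤ u.card) :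
    ((bl B).filter (fun c => b ∩ c = u)).card = 1 := by
  have hub : u = b := Finset.eq_of_subset_of_card_le hu (by rw [hB.1 _ hb]; exact h)
  rw [Finset.card_eq_one]
  refine ⟨b, ?_⟩
  ext c
  rw [mem_filter, mem_bl, mem_singleton]
  constructor
  · rintro ⟨h1, h2⟩
    exact (eq_of_inter hB hb h1 (by rw [h2]; omega)).symm
  · rintro rfl
    exact ⟨hb, by rw [Finset.inter_self, hub]⟩

theorem N_5 (hB : IsSteinerSystem 5 6 B) {b : Finset α} (hb : b ∈ B) (u : Finset α) (hu : u ⊆ b) (h : u.card = 5) :
    ((bl B).filter (fun c => b ∩ c = u)).card = 0 := by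
  rw [Finset.card_eq_zero, Finset.filter_eq_empty_iff]
  intro c hc hcu
  have := eq_of_inter hB hb (mem_bl.1 hc) (by rw [hcu, h])
  rw [← this, Finset.inter_self] at hcu
  rw [← hcu, hB.1 _ hb] at h
  omega

theorem eq_of_card {s u : Finset α} (h : s ⊆ u) (hc : u.card = s.card) : u = s :=
  (Finset.eq_of_subset_of_card_le h hc.le).symm

theorem N_4 (hα : Fintype.card α = 12) (hB : IsSteinerSystem 5 6 B) {b : Finset α} (hb : b ∈ B) (s : Finset α) (hs : s ⊆ b) (h : s.card = 4) :
    ((bl B).filter (fun c => b ∩ c = s)).card = 3 := by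
  have := presc' hα hB hb s hs (fun i => if i = 4 then ((bl B).filter (fun c => b ∩ c = s)).card else if i = 5 then 0
    else 1) (by
      intro u hu hsu
      have h1 := Finset.card_le_card hu
      have h2 := Finset.card_le_card hsu
      rw [hB.1 _ hb] at h1
      try dsimp only
      split_ifs with h3 h4
      · rw [eq_of_card hsu (by omega)]
      · exact N_5 hB hb u hu h4
      · exact N_top hB hb u hu (by omega))
  rw [lam12_4 hα hB s h] at this
  simp only [Finset.sum_range_succ, Finset.sum_range_zero, h, Nat.choose] at this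
  norm_num [Nat.choose] at this
  omega

theorem N_3 (hα : Fintype.card α = 12) (hB : IsSteinerSystem 5 6 B) {b : Finset α} (hb : b ∈ B) (s : Finset α) (hs : s ⊆ b) (h : s.card = 3) :
    ((bl B).filter (fun c => b ∩ c = s)).card = 2 := by
  have := presc' hα hB hb s hs (fun i => if i = 3 then ((bl B).filter (fun c => b ∩ c = s)).card else
    if i = 4 then 3 else if i = 5 then 0 else 1) (by
      intro u hu hsu
      have h1 := Finset.card_le_card hu
      have h2 := Finset.card_le_card hsu
      rw [hB.1 _ hb] at h1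
      try dsimp only
      split_ifs with h3 h4 h5
      · rw [eq_of_card hsu (by omega)]
      · exact N_4 hα hB hb u hu h4
      · exact N_5 hB hb u hu h5
      · exact N_top hB hb u hu (by omega))
  rw [lam12_3 hα hB s h] at this
  simp only [Finset.sum_range_succ, Finset.sum_range_zero, h, Nat.choose] at this
  norm_num [Nat.choose] at this
  omega

theorem N_2 (hα : Fintype.card α = 12) (hB : IsSteinerSystem 5 6 B) {b : Finset α} (hb : b ∈ B) (s : Finset α) (hs : s ⊆ b) (h : s.card = 2) :
    ((bl B).filter (fun c => b ∩ c = s)).card = 3 := by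
  have := presc' hα hB hb s hs (fun i => if i = 2 then ((bl B).filter (fun c => b ∩ c = s)).card else
    if i = 3 then 2 else if i = 4 then 3 else if i = 5 then 0 else 1) (by
      intro u hu hsu
      have h1 := Finset.card_le_card hu
      have h2 := Finset.card_le_card hsu
      rw [hB.1 _ hb] at h1
      try dsimp only
      split_ifs with h3 h4 h5 h6
      · rw [eq_of_card hsu (by omega)]
      · exact N_3 hα hB hb u hu h4
      · exact N_4 hα hB hb u hu h5
      · exact N_5 hB hb u hu h6
      · exact N_top hB hb u hu (by omega))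
  rw [lam12_2 hα hB s h] at this
  simp only [Finset.sum_range_succ, Finset.sum_range_zero, h, Nat.choose] at this
  norm_num [Nat.choose] at this
  omega
end S12b

/-! ### derived design -/

theorem derived {α : Type*} [Fintype α] [DecidableEq α] {t k : ℕ} {B : Set (Finset α)}
    (hB : IsSteinerSystem (t + 1) (k + 1) B) (p : α) :
    IsSteinerSystem t k {b' : Finset {a : α // a ≠ p} | ∃ b ∈ B, p ∈ b ∧ b' = Finset.subtype (fun a => a ≠ p) b} := by
  have hcard : ∀ b : Finset α, p ∈ b → (Finset.subtype (fun a => a ≠ p) b).card = b.card - 1 := by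
    intro b hp
    rw [Finset.card_subtype, ← Finset.card_erase_of_mem hp]
    congr 1
    ext x
    simp [and_comm]
  constructor
  · rintro _ ⟨b, hb, hp, rfl⟩
    rw [hcard b hp, hB.1 b hb]
    rfl
  · intro s hs
    set s' := insert p (s.map (Function.Embedding.subtype _)) with hs'
    have hps : p ∉ s.map (Function.Embedding.subtype _) := by
      simp
    have hc : s'.card = t + 1 := by
      rw [hs', Finset.card_insert_of_notMem hps, Finset.card_map, hs]
    obtain ⟨b, ⟨hb, hsb⟩, hu⟩ := hB.2 s' hc
    have key : ∀ b : Finset α, s ⊆ Finset.subtype (fun a => a ≠ p) b → p ∈ b → s' ⊆ b := by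
      intro b h1 h2 x hx
      rw [hs', Finset.mem_insert, Finset.mem_map] at hx
      rcases hx with rfl | ⟨y, hy, rfl⟩
      · exact h2
      · have := h1 hy
        rw [Finset.mem_subtype] at this
        exact this
    refine ⟨Finset.subtype (fun a => a ≠ p) b, ⟨⟨b, hb, hsb (Finset.mem_insert_self _ _), rfl⟩, ?_⟩, ?_⟩
    · intro x hx
      rw [Finset.mem_subtype]
      apply hsb
      rw [hs']
      apply Finset.mem_insert_of_mem
      rw [Finset.mem_map]
      exact ⟨x, hx, rfl⟩
    · rintro _ ⟨⟨c, hc', hpc, rfl⟩, hsc⟩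
      rw [hu c ⟨hc', key c hsc hpc⟩]

/-! ### strongly regular graphs from S(3,6,22) -/

section SRG
variable {α : Type*} [Fintype α] [DecidableEq α] {B : Set (Finset α)} (hα : Fintype.card α = 22)
  (hB : IsSteinerSystem 3 6 B)

theorem inter_union (X Y c : Finset α) : ((X ∪ Y) ∩ c).card + (X ∩ Y ∩ c).card = (X ∩ c).card + (Y ∩ c).card := by
  have := Finset.card_union_add_card_inter (X ∩ c) (Y ∩ c)
  rw [← Finset.union_inter_distrib_right, ← Finset.inter_inter_distrib_right] at this
  exact this

theorem xi_one_of (X b c : Finset α) (i : ℕ) (hb : b ∈ B) (hc : c ∈ B) (hbc : b ≠ c)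
    (h1 : (X ∩ b).card = i) (h2 : (X ∩ c).card = i) (h : ∀ d ∈ B, d ≠ b → d ≠ c → (X ∩ d).card ≠ i) : xi B X i = 2 := by
  unfold xi
  rw [Finset.card_eq_two]
  refine ⟨b, c, hbc, ?_⟩
  ext d
  rw [mem_filter, mem_bl, mem_insert, mem_singleton]
  constructor
  · rintro ⟨h3, h4⟩
    by_contra hcon
    rw [not_or] at hcon
    exact h d h3 hcon.1 hcon.2 h4
  · rintro (rfl | rfl)
    · exact ⟨hb, h1⟩
    · exact ⟨hc, h2⟩

include hα hB

theorem disj_both_0 {b c : Finset α} (hb : b ∈ B) (hc : c ∈ B) (hd : (b ∩ c).card = 0) :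
    xi B (b ∪ c) 0 = 0 := by
  have hbc : b ≠ c := by
    rintro rfl
    rw [Finset.inter_self, hB.1 _ hb] at hd
    omega
  have hX : (b ∪ c).card = 12 := by
    have := Finset.card_union_add_card_inter b c
    rw [hB.1 _ hb, hB.1 _ hc, hd] at this
    omega
  have hval : ∀ d ∈ B, d ≠ b → d ≠ c → ((b ∪ c) ∩ d).card = 0 ∨ ((b ∪ c) ∩ d).card = 2 ∨ ((b ∪ c) ∩ d).card = 4 := by
    intro d hd' h1 h2
    have e := inter_union b c d
    have e0 : (b ∩ c ∩ d).card = 0 := by
      have := Finset.card_le_card (Finset.inter_subset_left (s₁ := b ∩ c) (s₂ := d))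
      omega
    have h3 := inter22 hα hB hb hd' (Ne.symm h1)
    have h4 := inter22 hα hB hc hd' (Ne.symm h2)
    omega
  have hvb : ((b ∪ c) ∩ b).card = 6 := by
    rw [Finset.union_inter_cancel_left, hB.1 _ hb]
  have hvc : ((b ∪ c) ∩ c).card = 6 := by
    rw [Finset.union_inter_cancel_right, hB.1 _ hc]
  have hlt : ∀ d ∈ B, ((b ∪ c) ∩ d).card < 7 := by
    intro d hd'
    by_cases h1 : d = b
    · rw [h1, hvb]; norm_num
    by_cases h2 : d = c
    · rw [h2, hvc]; norm_num
    have := hval d hd' h1 h2
    omega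
  have z : ∀ i, i ≠ 0 → i ≠ 2 → i ≠ 4 → i ≠ 6 → xi B (b ∪ c) i = 0 := by
    intro i h0 h2 h4 h6
    apply xi_zero
    intro d hd' hi
    by_cases h1 : d = b
    · rw [h1, hvb] at hi; omega
    by_cases h3 : d = c
    · rw [h3, hvc] at hi; omega
    have := hval d hd' h1 h3
    omega
  have t6 := xi_one_of (B := B) (b ∪ c) b c 6 hb hc hbc hvb hvc (by
    intro d hd' h1 h2
    have := hval d hd' h1 h2
    omega)
  have e0 := moment_xi (b ∪ c) 7 hlt 0 77 (lam22_0 hα hB)
  have e1 := moment_xi (b ∪ c) 7 hlt 1 21 (lam22_1 hα hB)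
  have e2 := moment_xi (b ∪ c) 7 hlt 2 5 (lam22_2 hα hB)
  have z1 := z 1 (by norm_num) (by norm_num) (by norm_num) (by norm_num)
  have z3 := z 3 (by norm_num) (by norm_num) (by norm_num) (by norm_num)
  have z5 := z 5 (by norm_num) (by norm_num) (by norm_num) (by norm_num)
  simp only [Finset.sum_range_succ, Finset.sum_range_zero, hX, t6, z1, z3, z5, Nat.choose] at e0 e1 e2
  omega

theorem disj_both_2 {b c : Finset α} (hb : b ∈ B) (hc : c ∈ B) (hd : (b ∩ c).card = 2) :
    xi B (b ∪ c) 0 = 4 := by
  have hbc : b ≠ c := by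
    rintro rfl
    rw [Finset.inter_self, hB.1 _ hb] at hd
    omega
  have hX : (b ∪ c).card = 10 := by
    have := Finset.card_union_add_card_inter b c
    rw [hB.1 _ hb, hB.1 _ hc, hd] at this
    omega
  have hval : ∀ d ∈ B, d ≠ b → d ≠ c → ((b ∪ c) ∩ d).card = 0 ∨ ((b ∪ c) ∩ d).card = 2 ∨ ((b ∪ c) ∩ d).card = 3 ∨
      ((b ∪ c) ∩ d).card = 4 := by
    intro d hd' h1 h2
    have e := inter_union b c d
    have e0 : (b ∩ c ∩ d).card ≤ (b ∩ d).card :=
      Finset.card_le_card (Finset.inter_subset_inter_right Finset.inter_subset_left)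
    have e1 : (b ∩ c ∩ d).card ≤ (c ∩ d).card :=
      Finset.card_le_card (Finset.inter_subset_inter_right Finset.inter_subset_right)
    have h3 := inter22 hα hB hb hd' (Ne.symm h1)
    have h4 := inter22 hα hB hc hd' (Ne.symm h2)
    omega
  have hvb : ((b ∪ c) ∩ b).card = 6 := by
    rw [Finset.union_inter_cancel_left, hB.1 _ hb]
  have hvc : ((b ∪ c) ∩ c).card = 6 := by
    rw [Finset.union_inter_cancel_right, hB.1 _ hc]
  have hlt : ∀ d ∈ B, ((b ∪ c) ∩ d).card < 7 := by
    intro d hd'
    by_cases h1 : d = b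
    · rw [h1, hvb]; norm_num
    by_cases h2 : d = c
    · rw [h2, hvc]; norm_num
    have := hval d hd' h1 h2
    omega
  have z : ∀ i, i ≠ 0 → i ≠ 2 → i ≠ 3 → i ≠ 4 → i ≠ 6 → xi B (b ∪ c) i = 0 := by
    intro i h0 h2 h3 h4 h6
    apply xi_zero
    intro d hd' hi
    by_cases h1 : d = b
    · rw [h1, hvb] at hi; omega
    by_cases h3 : d = c
    · rw [h3, hvc] at hi; omega
    have := hval d hd' h1 h3
    omega
  have t6 := xi_one_of (B := B) (b ∪ c) b c 6 hb hc hbc hvb hvc (by
    intro d hd' h1 h2
    have := hval d hd' h1 h2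
    omega)
  have e0 := moment_xi (b ∪ c) 7 hlt 0 77 (lam22_0 hα hB)
  have e1 := moment_xi (b ∪ c) 7 hlt 1 21 (lam22_1 hα hB)
  have e2 := moment_xi (b ∪ c) 7 hlt 2 5 (lam22_2 hα hB)
  have e3 := moment_xi (b ∪ c) 7 hlt 3 1 (fun u hu => one_block hB u hu)
  have z1 := z 1 (by norm_num) (by norm_num) (by norm_num) (by norm_num) (by norm_num)
  have z5 := z 5 (by norm_num) (by norm_num) (by norm_num) (by norm_num) (by norm_num)
  simp only [Finset.sum_range_succ, Finset.sum_range_zero, hX, t6, z1, z5, Nat.choose] at e0 e1 e2 e3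
  omega

/-- blocks through a point off `b` disjoint from `b` -/
theorem pt_disj {b : Finset α} (hb : b ∈ B) {p : α} (hp : p ∉ b) :
    ((bl B).filter (fun c => p ∈ c ∧ (b ∩ c).card = 0)).card = 6 := by
  -- blocks through p meeting b in two points ↔ pairs
  have h21 : ((bl B).filter (fun c => p ∈ c)).card = 21 := by
    have := lam22_1 hα hB {p} (Finset.card_singleton p)
    simpa [Finset.singleton_subset_iff] using this
  have h15 : ((bl B).filter (fun c => p ∈ c ∧ (b ∩ c).card = 2)).card = 15 := by
    have e : (b.powersetCard 2).card = 15 := by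
      rw [Finset.card_powersetCard, hB.1 _ hb]
      rfl
    rw [← e]
    apply Finset.card_bij (fun c _ => b ∩ c)
    · intro c hc
      rw [mem_filter] at hc
      rw [mem_powersetCard]
      exact ⟨Finset.inter_subset_left, hc.2.2⟩
    · intro c hc d hd h
      rw [mem_filter, mem_bl] at hc hd
      apply eq_of_inter hB hc.1 hd.1
      have hsub : insert p (b ∩ c) ⊆ c ∩ d := by
        intro x hx
        rw [Finset.mem_insert] at hx
        rcases hx with rfl | hx
        · exact Finset.mem_inter.2 ⟨hc.2.1, hd.2.1⟩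
        · exact Finset.mem_inter.2 ⟨(Finset.mem_inter.1 hx).2, by rw [h] at hx; exact (Finset.mem_inter.1 hx).2⟩
      have := Finset.card_le_card hsub
      rw [Finset.card_insert_of_notMem (fun hh => hp (Finset.mem_inter.1 hh).1), hc.2.2] at this
      exact this
    · intro u hu
      rw [mem_powersetCard] at hu
      have hpu : p ∉ u := fun hh => hp (hu.1 hh)
      obtain ⟨c, ⟨hc, hcu⟩, -⟩ := hB.2 (insert p u) (by rw [Finset.card_insert_of_notMem hpu, hu.2])
      have hpc : p ∈ c := hcu (Finset.mem_insert_self _ _)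
      have hbc : b ≠ c := fun hh => hp (hh ▸ hpc)
      have huc : u ⊆ b ∩ c := Finset.subset_inter hu.1 ((Finset.subset_insert _ _).trans hcu)
      have hle := Finset.card_le_card huc
      have := inter22 hα hB hb hc hbc
      refine ⟨c, ?_, ?_⟩
      · rw [mem_filter, mem_bl]
        exact ⟨hc, hpc, by omega⟩
      · exact (Finset.eq_of_subset_of_card_le huc (by omega)).symm
  have hsplit : ((bl B).filter (fun c => p ∈ c)).card = ((bl B).filter (fun c => p ∈ c ∧ (b ∩ c).card = 0)).card +
      ((bl B).filter (fun c => p ∈ c ∧ (b ∩ c).card = 2)).card := by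
    rw [← Finset.card_union_of_disjoint]
    · congr 1
      ext c
      simp only [mem_filter, mem_union, mem_bl]
      constructor
      · rintro ⟨h1, h2⟩
        have hbc : b ≠ c := fun hh => hp (hh ▸ h2)
        have := inter22 hα hB hb h1 hbc
        tauto
      · tauto
    · rw [Finset.disjoint_filter]
      intro c _ h1 h2
      omega
  omega

end SRG

end Cfsg.Agent.H7.St
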