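import Cfsg.Statements.S0376
import Cfsg.Agent.H7_M24b

set_option autoImplicit false
open Cfsg

open Cfsg.Agent.H7.Golay
open Cfsg.Agent.H7.Oct
open Cfsg.Agent.H7.M24
open Cfsg.Agent.H7.M24b

namespace Cfsg.Agent.S0376

/-- A point stabiliser in the group of the length-24 code has order 10200960 = 2^7·3^2·5·7·11·23. -/
theorem result (p : Cfsg.GolayPt) : Nat.card (MulAction.stabilizer Cfsg.M24 p) = 10200960 := by
  have h := card_stab_tuple 1 (by norm_num) (fun _ : Fin 1 => p) (fun i j _ => Subsingleton.elim i j)
  have h2 : Nat.card (MulAction.stabilizer M24 p) =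
      Nat.card ↥(M24 ⊓ MulAction.stabilizer (Equiv.Perm GolayPt) (fun _ : Fin 1 => p)) := by
    apply card_sub
    intro g
    rw [MulAction.mem_stabilizer_iff, MulAction.mem_stabilizer_iff]
    constructor
    · intro h; funext i; exact h
    · intro h; exact congrFun h 0
  rw [h2]
  have h3 : Nat.descFactorial 24 1 = 24 := rfl
  rw [h3] at h
  omega

end Cfsg.Agent.S0376
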