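import Cfsg.Statements.S0377
import Cfsg.Agent.H7_M24d

set_option autoImplicit false
open Cfsg

open Cfsg.Agent.H7.Golay
open Cfsg.Agent.H7.Oct
open Cfsg.Agent.H7.M24
open Cfsg.Agent.H7.M24b
open Cfsg.Agent.H7.M24c
open Cfsg.Agent.H7.M24d

namespace Cfsg.Agent.S0377

/-- A point stabiliser in the group of the length-24 code is simple. -/
theorem result (p : Cfsg.GolayPt) : IsSimpleGroup (MulAction.stabilizer Cfsg.M24 p) := by
  obtain ⟨e⟩ := stab_pt_equiv p
  have := M23_simple
  exact e.isSimpleGroup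

end Cfsg.Agent.S0377
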