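import Mathlib
import Cfsg.Agent.H7_St8
import Cfsg.Agent.H7_St2
import Cfsg.Agent.S0376
import Cfsg.Agent.S0377

set_option autoImplicit false
set_option linter.all false

open Finset

namespace Cfsg.Agent.H7.St

open Cfsg
open scoped Pointwise

theorem rn {α β : Type*} {e : Option α ≃ Option β} (h : e none = none) (x : α) :
    some (Equiv.removeNone e x) = e (some x) := by
  apply Equiv.removeNone_some
  have : e (some x) ≠ none := fun hh => by
    rw [← h] at hh
    exact absurd (e.injective hh) (by simp)
  obtain ⟨y, hy⟩ := Option.ne_none_iff_exists'.1 this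
  exact ⟨y, hy⟩

theorem iN_map {α β : Type*} {e : Option α ≃ Option β} (h : e none = none) (s : Finset α) :
    (insertNone s).map e.toEmbedding = insertNone (s.map (Equiv.removeNone e).toEmbedding) := by
  ext x
  rw [Finset.mem_map]
  constructor
  · rintro ⟨y, hy, rfl⟩
    cases y with
    | none =>
      show e none ∈ _
      rw [h]
      exact none_mem_insertNone
    | some a =>
      show e (some a) ∈ _
      rw [← rn h a, some_mem_insertNone, Finset.mem_map]
      exact ⟨a, some_mem_insertNone.1 hy, rfl⟩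
  · intro hx
    cases x with
    | none => exact ⟨none, none_mem_insertNone, h⟩
    | some b =>
      rw [some_mem_insertNone, Finset.mem_map] at hx
      obtain ⟨a, ha, hab⟩ := hx
      refine ⟨some a, some_mem_insertNone.2 ha, ?_⟩
      show e (some a) = some b
      rw [← rn h a]
      exact congrArg some hab

/-- the standard S(4,7,23) -/
def B23 : Set (Finset (ZMod 23)) := {s | insertNone s ∈ octads}

theorem st23 : IsSteinerSystem 4 7 B23 := by
  constructor
  · intro b hb
    have := H7.Oct.steiner.1 _ hb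
    rw [card_iN] at this
    omega
  · intro s hs
    obtain ⟨o, ⟨ho, hso⟩, hu⟩ := H7.Oct.steiner.2 (insertNone s) (by rw [card_iN, hs])
    have hN : none ∈ o := hso none_mem_insertNone
    have hoe : insertNone (eraseNone o) = o := by
      rw [insertNone_eraseNone, Finset.insert_eq_of_mem hN]
    refine ⟨eraseNone o, ⟨?_, ?_⟩, ?_⟩
    · show insertNone (eraseNone o) ∈ octads
      rw [hoe]
      exact ho
    · intro x hx
      rw [mem_eraseNone]
      exact hso (some_mem_insertNone.2 hx)
    · rintro b ⟨hb, hsb⟩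
      have := hu (insertNone b) ⟨hb, insertNone.monotone hsb⟩
      rw [← this, eraseNone_insertNone]

theorem code_of_InC {G : Set (Finset GolayPt)} (hG : ∀ b ∈ G, b ∈ octads) {s : Finset GolayPt} (hs : InC G s) :
    s ∈ supports (golayCode : Set (GolayPt → ZMod 2)) := by
  induction hs with
  | empty =>
    refine ⟨0, golayCode.zero_mem, ?_⟩
    ext x
    simp [support₂]
  | add hs hb ih => exact H7.Oct.symmDiff_mem_supports ih (hG _ hb).1

theorem hat_sub {G : Set (Finset GolayPt)} (hG : ∀ b ∈ G, b ∈ octads) : hat G ⊆ octads := fun s hs =>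
  ⟨code_of_InC hG hs.1, hs.2⟩

theorem hat_eq {G : Set (Finset GolayPt)} (hG : ∀ b ∈ G, b ∈ octads) (hS : IsSteinerSystem 5 8 (hat G)) :
    hat G = octads := by
  apply Set.Subset.antisymm (hat_sub hG)
  intro o ho
  obtain ⟨u, hu, huc⟩ := Finset.exists_subset_card_eq (s := o) (n := 5) (by rw [H7.Oct.steiner.1 o ho]; norm_num)
  obtain ⟨s, ⟨hs, hus⟩, -⟩ := hS.2 u huc
  have := eq_of_inter H7.Oct.steiner ho (hat_sub hG hs) (by
    rw [← huc]
    exact card_le_card (subset_inter hu hus))
  rw [this]
  exact hs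

theorem hat_B23 : hat (G23 B23) = octads := by
  apply hat_eq
  · rintro _ ⟨b, hb, rfl⟩
    exact hb
  · exact hat23 (by rfl) st23

section
variable {α : Type*} [Fintype α] [DecidableEq α] {B : Set (Finset α)} (hα : Fintype.card α = 23)
  (hB : IsSteinerSystem 4 7 B)
include hα hB

theorem iso23 : ∃ e : ZMod 23 ≃ α, Iso B23 B e := by
  obtain ⟨e, he, hp⟩ := iso24_pts (α := Option α) (B := hat (G23 B)) (by rw [Fintype.card_option, hα])
    (hat23 hα hB) 1 (by norm_num) (fun _ => none) (fun _ => none) (fun _ _ _ => Subsingleton.elim _ _)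
    (fun _ _ _ => Subsingleton.elim _ _)
  have hn : e none = none := hp 0
  refine ⟨Equiv.removeNone e, ?_⟩
  intro s
  rw [← mem_hat23 hα hB, ← iN_map hn]
  exact he (insertNone s)
end

theorem map_mem_octads {g : Equiv.Perm GolayPt} (hg : g ∈ M24) {o : Finset GolayPt} (ho : o ∈ octads) :
    o.map g.toEmbedding ∈ octads := by
  rw [H7.M24b.M24_eq_aut_octads, mem_aut] at hg
  exact hg o ho

/-- extension of an automorphism -/
theorem fwd23 {g : Equiv.Perm (ZMod 23)} (hg : g ∈ setSystemAut B23) : (Equiv.optionCongr g : Equiv.Perm GolayPt) ∈ M24 := by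
  rw [H7.M24b.M24_eq_aut_octads, mem_aut]
  rw [mem_aut] at hg
  intro o ho
  rw [← hat_B23] at ho ⊢
  refine ⟨InC.map _ ?_ ho.1, by rw [card_map]; exact ho.2⟩
  rintro _ ⟨b, hb, rfl⟩
  have hn : (Equiv.optionCongr g : Equiv.Perm GolayPt) none = none := rfl
  rw [iN_map hn]
  have hr : Equiv.removeNone (Equiv.optionCongr g) = g := Equiv.removeNone_optionCongr g
  rw [hr]
  exact InC.of_mem ⟨_, hg b hb, rfl⟩

theorem bwd23 {g : Equiv.Perm GolayPt} (hg : g ∈ M24) (hn : g none = none) :
    (Equiv.removeNone g : Equiv.Perm (ZMod 23)) ∈ setSystemAut B23 := by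
  rw [mem_aut]
  intro s hs
  show insertNone _ ∈ octads
  rw [← iN_map hn]
  exact map_mem_octads hg hs

noncomputable def aut23 : setSystemAut B23 ≃* MulAction.stabilizer M24 (none : GolayPt) where
  toFun g := ⟨⟨Equiv.optionCongr g, fwd23 g.2⟩, rfl⟩
  invFun g := ⟨Equiv.removeNone (g : Equiv.Perm GolayPt), bwd23 g.1.2 g.2⟩
  left_inv g := Subtype.ext (Equiv.removeNone_optionCongr _)
  right_inv g := by
    apply Subtype.ext
    apply Subtype.ext
    ext1 x
    show (Equiv.optionCongr (Equiv.removeNone (g : Equiv.Perm GolayPt))) x = (g : Equiv.Perm GolayPt) x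
    cases x with
    | none => exact (g.2 : (g : Equiv.Perm GolayPt) none = none).symm
    | some a => exact rn g.2 a
  map_mul' g h := by
    apply Subtype.ext
    apply Subtype.ext
    ext1 x
    cases x <;> rfl

theorem aut23_B23 : (IsSimpleGroup (setSystemAut B23) ∧ Nat.card (setSystemAut B23) = 10200960) ∧
    MulAction.IsMultiplyPretransitive (setSystemAut B23) (ZMod 23) 4 := by
  constructor
  · exact simple_card aut23.symm ⟨Cfsg.Agent.S0377.result none, Cfsg.Agent.S0376.result none⟩
  · rw [MulAction.isMultiplyPretransitive_iff]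
    intro x y
    have hinj : ∀ z : Fin 4 ↪ ZMod 23, Function.Injective (Fin.cons none (fun i => some (z i)) : Fin 5 → GolayPt) := by
      intro z
      rw [Fin.cons_injective_iff]
      refine ⟨?_, fun i j hij => z.injective (Option.some.inj hij)⟩
      rintro ⟨i, hi⟩
      exact absurd hi (by simp)
    obtain ⟨g, hg, h⟩ := H7.M24.five_trans _ _ (hinj x) (hinj y)
    have hn : g none = none := h 0
    refine ⟨⟨Equiv.removeNone g, bwd23 hg hn⟩, DFunLike.ext _ _ fun i => ?_⟩
    have h1 := h i.succ
    simp only [Fin.cons_succ] at h1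
    rw [← rn hn] at h1
    exact Option.some.inj h1

theorem aut_S23 {α : Type*} [Fintype α] [DecidableEq α] {B : Set (Finset α)} (hα : Fintype.card α = 23)
    (hB : IsSteinerSystem 4 7 B) : (IsSimpleGroup (setSystemAut B) ∧ Nat.card (setSystemAut B) = 10200960) ∧
    MulAction.IsMultiplyPretransitive (setSystemAut B) α 4 := by
  obtain ⟨e, he⟩ := iso23 hα hB
  exact ⟨simple_card he.aut aut23_B23.1, he.trans_k 4 aut23_B23.2⟩

end Cfsg.Agent.H7.St
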