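import Mathlib
import Cfsg.Agent.H7_S12b
import Cfsg.Agent.H7_St9

set_option autoImplicit false
set_option linter.all false

open Finset

/-! S(4,5,11). -/

namespace Cfsg.Agent.H7.S12

open Cfsg Cfsg.Agent.H7.St

section
variable {α : Type*} [Fintype α] [DecidableEq α] {B : Set (Finset α)} (hα : Fintype.card α = 11)
  (hB : IsSteinerSystem 4 5 B)

/-- extension to twelve points -/
def ext12 (B : Set (Finset α)) : Set (Finset (Option α)) := {s | ∃ b ∈ B, s = insertNone b ∨ sᶜ = insertNone b}

theorem mem_ext12 {b : Finset α} : insertNone b ∈ ext12 B ↔ b ∈ B := by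
  constructor
  · rintro ⟨c, hc, h | h⟩
    · have := congrArg eraseNone h
      rw [eraseNone_insertNone, eraseNone_insertNone] at this
      rw [this]
      exact hc
    · exfalso
      have h1 : (none : Option α) ∈ insertNone c := none_mem_insertNone
      rw [← h, mem_compl] at h1
      exact h1 none_mem_insertNone
  · intro h
    exact ⟨b, h, Or.inl rfl⟩

include hα hB

theorem lam11_3 : ∀ u : Finset α, u.card = 3 → ((bl B).filter (fun b => u ⊆ b)).card = 4 :=
  lam_of hB 3 4 (by norm_num) (by decide) (by rw [hα]; decide)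
theorem lam11_2 : ∀ u : Finset α, u.card = 2 → ((bl B).filter (fun b => u ⊆ b)).card = 12 :=
  lam_of hB 2 12 (by norm_num) (by decide) (by rw [hα]; decide)
theorem lam11_1 : ∀ u : Finset α, u.card = 1 → ((bl B).filter (fun b => u ⊆ b)).card = 30 :=
  lam_of hB 1 30 (by norm_num) (by decide) (by rw [hα]; decide +kernel)
theorem lam11_0 : ∀ u : Finset α, u.card = 0 → ((bl B).filter (fun b => u ⊆ b)).card = 66 :=
  lam_of hB 0 66 (by norm_num) (by decide) (by rw [hα]; decide +kernel)

open Classical in
theorem xi11 (t : Finset α) (ht : t.card = 5) : xi B t 0 = if t ∈ B then 0 else 1 := by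
  have hn : ∀ c ∈ B, (t ∩ c).card < 6 := by
    intro c _
    have := Finset.card_le_card (Finset.inter_subset_left (s₁ := t) (s₂ := c))
    omega
  have e0 := moment_xi t 6 hn 0 66 (lam11_0 hα hB)
  have e1 := moment_xi t 6 hn 1 30 (lam11_1 hα hB)
  have e2 := moment_xi t 6 hn 2 12 (lam11_2 hα hB)
  have e3 := moment_xi t 6 hn 3 4 (lam11_3 hα hB)
  have e4 := moment_xi t 6 hn 4 1 (fun u hu => one_block hB u hu)
  by_cases h : t ∈ B
  · have t5 := xi_top hB h (by norm_num)
    rw [if_pos h]
    simp only [Finset.sum_range_succ, Finset.sum_range_zero, ht, t5, Nat.choose] at e0 e1 e2 e3 e4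
    omega
  · have t5 : xi B t 5 = 0 := xi_zero 5 (by
      intro c hc h5
      apply h
      have h1 : t ∩ c = t := Finset.eq_of_subset_of_card_le inter_subset_left (by omega)
      have h2 : t ⊆ c := by rw [← h1]; exact inter_subset_right
      have h3 : t = c := Finset.eq_of_subset_of_card_le h2 (by rw [hB.1 c hc, ht])
      rw [h3]
      exact hc)
    rw [if_neg h]
    simp only [Finset.sum_range_succ, Finset.sum_range_zero, ht, t5, Nat.choose] at e0 e1 e2 e3 e4
    omega

theorem ext_steiner : IsSteinerSystem 5 6 (ext12 B) := by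
  classical
  have hc12 : Fintype.card (Option α) = 12 := by rw [Fintype.card_option, hα]
  constructor
  · rintro s ⟨b, hb, rfl | h⟩
    · rw [card_iN, hB.1 b hb]
    · have h1 := Finset.card_compl_add_card s
      rw [h, card_iN, hB.1 b hb, hc12] at h1
      omega
  intro t ht
  have hcard := card_eN t
  by_cases hN : none ∈ t
  · rw [if_pos hN] at hcard
    obtain ⟨b, ⟨hb, htb⟩, hu⟩ := hB.2 (eraseNone t) (by omega)
    refine ⟨insertNone b, ⟨mem_ext12.2 hb, ?_⟩, ?_⟩
    · intro x hx
      rw [mem_insertNone]
      intro a ha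
      apply htb
      rw [mem_eraseNone]
      have : x = some a := by simpa using ha
      rw [← this]
      exact hx
    · rintro s ⟨⟨c, hc, rfl | h⟩, hts⟩
      · have : c = b := hu c ⟨hc, by
          intro a ha
          rw [mem_eraseNone] at ha
          exact some_mem_insertNone.1 (hts ha)⟩
        rw [this]
      · exfalso
        have h1 : (none : Option α) ∈ insertNone c := none_mem_insertNone
        rw [← h, mem_compl] at h1
        exact h1 (hts hN)
  · rw [if_neg hN] at hcard
    have h5 : (eraseNone t).card = 5 := by omega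
    have hx := xi11 hα hB (eraseNone t) h5
    have hsub : ∀ c, t ⊆ insertNone c ↔ eraseNone t ⊆ c := by
      intro c
      constructor
      · intro h a ha
        rw [mem_eraseNone] at ha
        exact some_mem_insertNone.1 (h ha)
      · intro h x hx
        rw [mem_insertNone]
        intro a ha
        apply h
        rw [mem_eraseNone]
        have : x = some a := by simpa using ha
        rw [← this]
        exact hx
    have hdis : ∀ (s : Finset (Option α)) (c : Finset α), sᶜ = insertNone c → (t ⊆ s ↔ (eraseNone t ∩ c).card = 0) := by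
      intro s c h
      rw [card_eq_zero, eq_empty_iff_forall_notMem]
      constructor
      · intro hts a ha
        rw [mem_inter, mem_eraseNone] at ha
        have h1 : some a ∈ insertNone c := some_mem_insertNone.2 ha.2
        rw [← h, mem_compl] at h1
        exact h1 (hts ha.1)
      · intro hh x hx
        by_contra hxs
        rw [← mem_compl, h] at hxs
        rcases x with _ | a
        · exact hN hx
        · apply hh a
          rw [mem_inter, mem_eraseNone]
          exact ⟨hx, some_mem_insertNone.1 hxs⟩
    by_cases hB' : eraseNone t ∈ B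
    · rw [if_pos hB'] at hx
      refine ⟨insertNone (eraseNone t), ⟨mem_ext12.2 hB', (hsub _).2 (Subset.refl _)⟩, ?_⟩
      rintro s ⟨⟨c, hc, rfl | h⟩, hts⟩
      · rw [hsub] at hts
        have : eraseNone t = c := Finset.eq_of_subset_of_card_le hts (by rw [hB.1 c hc, h5])
        rw [this]
      · exfalso
        rw [hdis s c h] at hts
        exact xi_pos hc 0 hts hx
    · rw [if_neg hB'] at hx
      unfold xi at hx
      rw [card_eq_one] at hx
      obtain ⟨c, hc⟩ := hx
      have hcm : c ∈ (bl B).filter (fun c => (eraseNone t ∩ c).card = 0) := by rw [hc]; exact mem_singleton_self c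
      rw [mem_filter, mem_bl] at hcm
      have hcc : ((insertNone c)ᶜ)ᶜ = insertNone c := compl_compl _
      refine ⟨(insertNone c)ᶜ, ⟨⟨c, hcm.1, Or.inr hcc⟩, (hdis _ c hcc).2 hcm.2⟩, ?_⟩
      rintro s ⟨⟨d, hd, rfl | h⟩, hts⟩
      · exfalso
        rw [hsub] at hts
        have : eraseNone t = d := Finset.eq_of_subset_of_card_le hts (by rw [hB.1 d hd, h5])
        rw [this] at hB'
        exact hB' hd
      · rw [hdis s d h] at hts
        have h1 : d ∈ (bl B).filter (fun c => (eraseNone t ∩ c).card = 0) := by
          rw [mem_filter, mem_bl]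
          exact ⟨hd, hts⟩
        rw [hc, mem_singleton] at h1
        rw [← h1, ← h, compl_compl]

/-- labelled isomorphism with the standard system -/
theorem frame11 (x : Fin 4 ↪ α) : ∃ e : Fin 12 ≃ Option α, Iso B12 (ext12 B) e ∧ e 0 = none ∧ ∀ i : Fin 4, e (Fin.castLE (by norm_num) i.succ) = some (x i) := by
  have hinj : Function.Injective (Fin.cons none (fun i => some (x i)) : Fin 5 → Option α) := by
    rw [Fin.cons_injective_iff]
    refine ⟨?_, fun i j hij => x.injective (Option.some.inj hij)⟩
    rintro ⟨i, hi⟩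
    exact absurd hi (by simp)
  obtain ⟨e, he, hx⟩ := iso12 (α := Option α) (by rw [Fintype.card_option, hα]) (ext_steiner hα hB) ⟨_, hinj⟩
  refine ⟨e, he, hx 0, ?_⟩
  intro i
  exact hx i.succ

end

theorem iso_ext {α β : Type*} [Fintype α] [DecidableEq α] [Fintype β] [DecidableEq β] {B : Set (Finset α)}
    {C : Set (Finset β)} {f : Option α ≃ Option β} (h : Iso (ext12 B) (ext12 C) f) (h0 : f none = none) :
    Iso B C (Equiv.removeNone f) := by
  intro s
  rw [← mem_ext12 (B := B), ← mem_ext12 (B := C), ← iN_map h0]
  exact h _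

theorem iso11 {α β : Type*} [Fintype α] [DecidableEq α] [Fintype β] [DecidableEq β] {B : Set (Finset α)}
    {C : Set (Finset β)} (hα : Fintype.card α = 11) (hβ : Fintype.card β = 11) (hB : IsSteinerSystem 4 5 B)
    (hC : IsSteinerSystem 4 5 C) (x : Fin 4 ↪ α) (y : Fin 4 ↪ β) : ∃ e : α ≃ β, Iso B C e ∧ ∀ i, e (x i) = y i := by
  obtain ⟨e, he, e0, e1⟩ := frame11 hα hB x
  obtain ⟨f, hf, f0, f1⟩ := frame11 hβ hC y
  have h0 : (e.symm.trans f) none = none := by
    rw [Equiv.trans_apply, ← e0, Equiv.symm_apply_apply, f0]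
  refine ⟨Equiv.removeNone (e.symm.trans f), iso_ext (he.symm.trans hf) h0, ?_⟩
  intro i
  apply Option.some.inj
  rw [rn h0, Equiv.trans_apply, ← e1, Equiv.symm_apply_apply, f1]

theorem sh11 {α : Type*} [Fintype α] [DecidableEq α] {B : Set (Finset α)} (hα : Fintype.card α = 11)
    (hB : IsSteinerSystem 4 5 B) : Sharp.Sh (setSystemAut B) α 4 := by
  constructor
  · rw [MulAction.isMultiplyPretransitive_iff]
    intro x y
    obtain ⟨e, he, hx⟩ := iso11 hα hα hB hB x y
    refine ⟨⟨e, ?_⟩, DFunLike.ext _ _ hx⟩
    rw [mem_aut]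
    exact fun s hs => (he s).2 hs
  · intro x
    rw [eq_bot_iff]
    rintro ⟨g, hg⟩ hgx
    rw [Subgroup.mem_bot]
    have hfix : ∀ i, g (x i) = x i := fun i => DFunLike.congr_fun hgx i
    have hc12 : Fintype.card (Option α) = 12 := by rw [Fintype.card_option, hα]
    have hmem : Equiv.optionCongr g ∈ setSystemAut (ext12 B) := by
      rw [mem_aut] at hg ⊢
      have h0 : (Equiv.optionCongr g) none = none := rfl
      have hr : Equiv.removeNone (Equiv.optionCongr g) = g := Equiv.removeNone_optionCongr g
      rintro s ⟨b, hb, rfl | h⟩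
      · rw [iN_map h0, hr]
        exact ⟨_, hg b hb, Or.inl rfl⟩
      · refine ⟨_, hg b hb, Or.inr ?_⟩
        have e1 : (s.map (Equiv.optionCongr g).toEmbedding)ᶜ = sᶜ.map (Equiv.optionCongr g).toEmbedding := by
          ext x
          rw [mem_compl, Finset.mem_map_equiv, Finset.mem_map_equiv, mem_compl]
        rw [e1, h, iN_map h0, hr]
    have hinj : Function.Injective (Fin.cons none (fun i => some (x i)) : Fin 5 → Option α) := by
      rw [Fin.cons_injective_iff]
      refine ⟨?_, fun i j hij => x.injective (Option.some.inj hij)⟩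
      rintro ⟨i, hi⟩
      exact absurd hi (by simp)
    have h12 := (sh12 hc12 (ext_steiner hα hB)).2 ⟨_, hinj⟩
    have h2 : (⟨Equiv.optionCongr g, hmem⟩ : setSystemAut (ext12 B)) ∈ MulAction.stabilizer (setSystemAut (ext12 B))
        (⟨_, hinj⟩ : Fin 5 ↪ Option α) := by
      rw [MulAction.mem_stabilizer_iff]
      apply DFunLike.ext
      intro i
      refine Fin.cases ?_ ?_ i
      · rfl
      · intro j
        show (Equiv.optionCongr g) (some (x j)) = some (x j)
        show some (g (x j)) = some (x j)
        rw [hfix j]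
    have h2' := h12.le h2
    rw [Subgroup.mem_bot] at h2'
    have h3 := congrArg Subtype.val h2'
    have h4 : Equiv.optionCongr g = 1 := h3
    apply Subtype.ext
    show g = 1
    ext1 a
    have h5 := DFunLike.congr_fun h4 (some a)
    exact Option.some.inj h5

end Cfsg.Agent.H7.S12
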