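import Mathlib
import Cfsg.Agent.H7_L4
import Cfsg.Agent.H7_Co3

set_option autoImplicit false
set_option linter.all false

/-!
Counts of the lattice vectors of norm 48 by shape.
-/

namespace Cfsg.Agent.H7.Shape

open Cfsg Cfsg.Agent.H7.Golay Cfsg.Agent.H7.Oct Cfsg.Agent.H7.L1 Cfsg.Agent.H7.L3 Cfsg.Agent.H7.L4

/-- subsets of given parity -/
theorem card_parity {α : Type*} [DecidableEq α] (c : Finset α) (hc : c.Nonempty) (r : ℕ) (hr : r < 2) :
    (c.powerset.filter fun s => s.card % 2 = r).card = 2 ^ (c.card - 1) := by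
  obtain ⟨a, ha⟩ := hc
  rw [← Finset.card_erase_of_mem ha, ← Finset.card_powerset]
  refine Finset.card_nbij' (fun s => s.erase a) (fun s => if s.card % 2 = r then s else insert a s) ?_ ?_ ?_ ?_
  · intro s hs
    rw [Finset.mem_coe, Finset.mem_filter, Finset.mem_powerset] at hs
    rw [Finset.mem_coe, Finset.mem_powerset]
    exact Finset.erase_subset_erase a hs.1
  · intro s hs
    rw [Finset.mem_coe, Finset.mem_powerset] at hs
    rw [Finset.mem_coe, Finset.mem_filter, Finset.mem_powerset]
    have has : a ∉ s := fun h => by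
      have := hs h
      simp at this
    have hsc : s ⊆ c := hs.trans (Finset.erase_subset _ _)
    dsimp only
    split_ifs with h
    · exact ⟨hsc, h⟩
    · refine ⟨Finset.insert_subset ha hsc, ?_⟩
      rw [Finset.card_insert_of_notMem has]
      omega
  · intro s hs
    rw [Finset.mem_coe, Finset.mem_filter, Finset.mem_powerset] at hs
    dsimp only
    by_cases has : a ∈ s
    · rw [Finset.card_erase_of_mem has, if_neg, Finset.insert_erase has]
      have : 0 < s.card := Finset.card_pos.2 ⟨a, has⟩
      omega
    · rw [Finset.erase_eq_of_notMem has, if_pos hs.2]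
  · intro s hs
    rw [Finset.mem_coe, Finset.mem_powerset] at hs
    have has : a ∉ s := fun h => by
      have := hs h
      simp at this
    dsimp only
    split_ifs with h
    · exact Finset.erase_eq_of_notMem has
    · rw [Finset.erase_insert has]

noncomputable instance : DecidablePred (fun s : Finset GolayPt => s ∈ octads) := Classical.decPred _

noncomputable def octF : Finset (Finset GolayPt) := octads_finite.toFinset
noncomputable def dodF : Finset (Finset GolayPt) := (Set.toFinite dodecads).toFinset
noncomputable def cwF : Finset (Finset GolayPt) := (Set.toFinite Cw).toFinset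

theorem mem_octF {s : Finset GolayPt} : s ∈ octF ↔ s ∈ octads := by simp [octF]
theorem mem_dodF {s : Finset GolayPt} : s ∈ dodF ↔ s ∈ dodecads := by simp [dodF]
theorem mem_cwF {s : Finset GolayPt} : s ∈ cwF ↔ s ∈ Cw := by simp only [cwF, Set.Finite.mem_toFinset]

theorem card_octF : octF.card = 759 := by
  rw [octF, ← Set.ncard_eq_toFinset_card, octads_ncard]
theorem card_dodF : dodF.card = 2576 := by
  rw [dodF, ← Set.ncard_eq_toFinset_card, dodecads_ncard]
theorem card_cwF : cwF.card = 4096 := by
  rw [cwF, ← Set.ncard_eq_toFinset_card, Cfsg.Agent.H7.Co3.ncard_Cw]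

/-- counting through a parametrisation -/
theorem ncard_param {β : Type*} (P : Finset β) (f : β → GolayPt → ℤ) (g : (GolayPt → ℤ) → β) (hg : ∀ b ∈ P, g (f b) = b)
    (S : Set (GolayPt → ℤ)) (h1 : ∀ b ∈ P, f b ∈ S) (h2 : ∀ x ∈ S, g x ∈ P ∧ f (g x) = x) : S.ncard = P.card := by
  have : S = f '' (P : Set β) := by
    ext x
    constructor
    · intro hx
      exact ⟨g x, (h2 x hx).1, (h2 x hx).2⟩
    · rintro ⟨b, hb, rfl⟩
      exact h1 b hb
  rw [this, Set.ncard_image_of_injOn, Set.ncard_coe_finset]
  intro a ha b hb h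
  rw [← hg a ha, ← hg b hb, h]

/-- sign of a code word -/
def sg (c : Finset GolayPt) (i : GolayPt) : ℤ := if i ∈ c then 1 else -1

theorem sg_sq (c : Finset GolayPt) (i : GolayPt) : sg c i ^ 2 = 1 := by
  unfold sg; split_ifs <;> norm_num

theorem sum_sg (c : Finset GolayPt) : ∑ i, sg c i = 2 * c.card - 24 := by
  have h1 : ∀ i, sg c i = 2 * (if i ∈ c then 1 else 0) - 1 := by
    intro i; unfold sg; split_ifs <;> norm_num
  simp only [h1]
  rw [Finset.sum_sub_distrib, ← Finset.mul_sum, Finset.sum_boole, Finset.sum_const]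
  simp only [Finset.filter_mem_eq_inter, Finset.univ_inter]
  rw [show (Finset.univ : Finset GolayPt).card = 24 from rfl]
  simp

/-- general odd vector: `x = sg c * (1 + 4 k)` -/
def oddV (c : Finset GolayPt) (k : GolayPt → ℤ) : GolayPt → ℤ := fun i => sg c i * (1 + 4 * k i)

theorem cls_oddV (c : Finset GolayPt) (k : GolayPt → ℤ) : cls (oddV c k) 1 = c := by
  ext i
  rw [mem_cls, oddV, sg]
  by_cases hi : i ∈ c
  · simp only [hi, if_true, iff_true]; omega
  · simp only [hi, if_false, iff_false]; omega

theorem oddV_mem {c : Finset GolayPt} (hc : c ∈ Cw) {k : GolayPt → ℤ} (hk : (∑ i, k i) % 2 = 1) : OddT (oddV c k) := by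
  refine ⟨fun i => ?_, ?_, ?_⟩
  · rw [oddV, sg]; split_ifs <;> omega
  · have h1 : ∑ i, oddV c k i = (2 * c.card - 24) + 4 * ∑ i, sg c i * k i := by
      rw [← sum_sg, Finset.mul_sum, ← Finset.sum_add_distrib]
      apply Finset.sum_congr rfl
      intro i _
      rw [oddV]; ring
    have h2 : (∑ i, sg c i * k i) % 2 = (∑ i, k i) % 2 := by
      apply sum_emod
      intro i _
      rw [sg]; split_ifs <;> omega
    have h3 := weight4 hc
    rw [h1]
    omega
  · rw [cls_oddV]; exact hc

theorem oddT_eq {x : GolayPt → ℤ} (hx : OddT x) : ∃ k : GolayPt → ℤ, x = oddV (cls x 1) k ∧ (∑ i, k i) % 2 = 1 := by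
  have h : ∀ i, ∃ k : ℤ, x i = sg (cls x 1) i * (1 + 4 * k) := by
    intro i
    have := hx.1 i
    rw [sg]
    by_cases hi : i ∈ cls x 1
    · rw [if_pos hi]; rw [mem_cls] at hi
      exact ⟨x i / 4, by omega⟩
    · rw [if_neg hi]; rw [mem_cls] at hi
      exact ⟨(-x i) / 4, by omega⟩
  choose k hk using h
  refine ⟨k, funext hk, ?_⟩
  have h1 : ∑ i, x i = (2 * (cls x 1).card - 24) + 4 * ∑ i, sg (cls x 1) i * k i := by
    rw [← sum_sg, Finset.mul_sum, ← Finset.sum_add_distrib]
    apply Finset.sum_congr rfl
    intro i _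
    rw [hk i]; ring
  have h2 : (∑ i, sg (cls x 1) i * k i) % 2 = (∑ i, k i) % 2 := by
    apply sum_emod
    intro i _
    rw [sg]; split_ifs <;> omega
  have h3 := weight4 hx.2.2
  have h4 := hx.2.1
  omega

theorem norm_oddV (c : Finset GolayPt) (k : GolayPt → ℤ) : sqNorm (oddV c k) = ∑ i, (1 + 4 * k i) ^ 2 := by
  unfold sqNorm oddV
  apply Finset.sum_congr rfl
  intro i _
  rw [mul_pow, sg_sq, one_mul]

/-- `(±5, ±1^23)` -/
theorem count4 : {x : GolayPt → ℤ | x ∈ leechLattice ∧ sqNorm x = 48 ∧ ∃ i, |x i| = 5}.ncard = 98304 := by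
  classical
  rw [ncard_param (cwF ×ˢ (Finset.univ : Finset GolayPt)) (fun b => oddV b.1 (Pi.single b.2 1))
    (fun x => (cls x 1, if h : ∃ i, |x i| = 5 then h.choose else none))]
  · rw [Finset.card_product, card_cwF, Finset.card_univ]
    rfl
  · rintro ⟨c, p⟩ hb
    have h : ∃ i, |oddV c (Pi.single p 1) i| = 5 := by
      refine ⟨p, ?_⟩
      rw [oddV, Pi.single_eq_same, sg]; split_ifs <;> norm_num
    rw [dif_pos h]
    refine Prod.ext (cls_oddV _ _) ?_
    have h2 := h.choose_spec
    show h.choose = p
    by_contra hne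
    rw [oddV, Pi.single_eq_of_ne hne, sg] at h2
    split_ifs at h2 <;> norm_num at h2
  · rintro ⟨c, p⟩ hb
    rw [Finset.mem_product] at hb
    refine ⟨mem_leech_iff.2 (Or.inr (oddV_mem (mem_cwF.1 hb.1) (by rw [Finset.sum_pi_single']; simp))), ?_, p, ?_⟩
    · rw [norm_oddV]
      have h1 : ∀ i, (1 + 4 * (Pi.single p (1 : ℤ) : GolayPt → ℤ) i) ^ 2 = 1 + (Pi.single p (24 : ℤ) : GolayPt → ℤ) i := by
        intro i
        by_cases hi : i = p
        · subst hi; rw [Pi.single_eq_same, Pi.single_eq_same]; norm_num
        · rw [Pi.single_eq_of_ne hi, Pi.single_eq_of_ne hi]; norm_num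
      simp only [h1]
      rw [Finset.sum_add_distrib, sum_single, Finset.sum_const, show (Finset.univ : Finset GolayPt).card = 24 from rfl]
      norm_num
    · rw [oddV, Pi.single_eq_same, sg]; split_ifs <;> norm_num
  · rintro x ⟨hx, hn, h⟩
    rw [dif_pos h]
    set p := h.choose with hp
    have h5 : |x p| = 5 := h.choose_spec
    have hodd : OddT x := by
      rcases mem_leech_iff.1 hx with he | ho
      · exfalso
        have := he.1 p
        rcases abs_eq (by norm_num : (0 : ℤ) ≤ 5) |>.1 h5 with h | h <;> omega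
      · exact ho
    refine ⟨Finset.mem_product.2 ⟨mem_cwF.2 hodd.2.2, Finset.mem_univ _⟩, ?_⟩
    obtain ⟨k, hk, hsum⟩ := oddT_eq hodd
    have hk1 : ∀ i, x i = sg (cls x 1) i * (1 + 4 * k i) := fun i => congrFun hk i
    rw [hk, norm_oddV] at hn
    have hp1 : k p = 1 := by
      have := hk1 p
      rw [this, abs_mul] at h5
      have hs : |sg (cls x 1) p| = 1 := by unfold sg; split_ifs <;> norm_num
      rw [hs, one_mul] at h5
      rcases abs_eq (by norm_num : (0 : ℤ) ≤ 5) |>.1 h5 with h | h <;> omega
    have h0 : ∀ q, q ≠ p → k q = 0 := by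
      by_contra hcon
      push Not at hcon
      obtain ⟨q, hqp, hq⟩ := hcon
      have hle : ∑ i, (1 + 4 * k i) ^ 2 ≥ ∑ i, (1 + (Pi.single p (24 : ℤ) : GolayPt → ℤ) i + (Pi.single q (8 : ℤ) : GolayPt → ℤ) i) := by
        apply Finset.sum_le_sum
        intro i _
        by_cases hi : i = p
        · subst hi
          rw [Pi.single_eq_same, Pi.single_eq_of_ne hqp.symm, hp1]; norm_num
        · by_cases hi' : i = q
          · subst hi'
            rw [Pi.single_eq_same, Pi.single_eq_of_ne hi]
            have : 1 ≤ k i ∨ k i ≤ -1 := by omega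
            rcases this with h | h <;> nlinarith
          · rw [Pi.single_eq_of_ne hi, Pi.single_eq_of_ne hi']
            have : 0 ≤ k i ∨ k i ≤ -1 := by omega
            rcases this with h | h <;> nlinarith
      rw [Finset.sum_add_distrib, Finset.sum_add_distrib, sum_single, sum_single, Finset.sum_const,
        show (Finset.univ : Finset GolayPt).card = 24 from rfl, hn] at hle
      norm_num at hle
    have hkk : k = Pi.single p 1 := by
      ext i
      by_cases hi : i = p
      · rw [hi, hp1, Pi.single_eq_same]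
      · rw [h0 i hi, Pi.single_eq_of_ne hi]
    show oddV (cls x 1) (Pi.single p 1) = x
    rw [← hkk, ← hk]

/-- `(±3^3, ±1^21)` -/
theorem count2 : {x : GolayPt → ℤ | x ∈ leechLattice ∧ sqNorm x = 48 ∧ ∃ i j k, i ≠ j ∧ j ≠ k ∧ i ≠ k ∧ |x i| = 3 ∧ |x j| = 3 ∧ |x k| = 3}.ncard
    = 8290304 := by
  classical
  rw [ncard_param (cwF ×ˢ (Finset.univ : Finset GolayPt).powersetCard 3) (fun b => oddV b.1 (fun i => if i ∈ b.2 then -1 else 0))
    (fun x => (cls x 1, Finset.univ.filter fun i => |x i| = 3))]
  · rw [Finset.card_product, card_cwF, Finset.card_powersetCard, Finset.card_univ]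
    rfl
  · rintro ⟨c, T⟩ hb
    refine Prod.ext (cls_oddV _ _) ?_
    ext i
    simp only [Finset.mem_filter, Finset.mem_univ, true_and, oddV, sg]
    by_cases hi : i ∈ T <;> by_cases hc : i ∈ c <;> simp [hi, hc]
  · rintro ⟨c, T⟩ hb
    rw [Finset.mem_product, Finset.mem_powersetCard] at hb
    obtain ⟨hc, -, hT⟩ := hb
    dsimp only at hc hT ⊢
    have hsum : ∑ i, (if i ∈ T then (-1 : ℤ) else 0) = -3 := by
      rw [Finset.sum_ite_mem, Finset.univ_inter, Finset.sum_const, hT]; norm_num
    refine ⟨mem_leech_iff.2 (Or.inr (oddV_mem (mem_cwF.1 hc) (by rw [hsum]; norm_num))), ?_, ?_⟩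
    · rw [norm_oddV]
      have h1 : ∀ i, (1 + 4 * (if i ∈ T then (-1 : ℤ) else 0)) ^ 2 = 1 + 8 * (if i ∈ T then (1 : ℤ) else 0) := by
        intro i; split_ifs <;> norm_num
      simp only [h1]
      rw [Finset.sum_add_distrib, ← Finset.mul_sum, Finset.sum_ite_mem, Finset.univ_inter, Finset.sum_const, Finset.sum_const, hT,
        show (Finset.univ : Finset GolayPt).card = 24 from rfl]
      norm_num
    · obtain ⟨i, j, k, hij, hik, hjk, rfl⟩ := Finset.card_eq_three.1 hT
      refine ⟨i, j, k, hij, hjk, hik, ?_, ?_, ?_⟩ <;>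
      · rw [oddV, sg]; split_ifs <;> simp_all
  · rintro x ⟨hx, hn, i, j, l, hij, hjl, hil, h1, h2, h3⟩
    have hodd : OddT x := by
      rcases mem_leech_iff.1 hx with he | ho
      · exfalso
        have := he.1 i
        rcases abs_eq (by norm_num : (0 : ℤ) ≤ 3) |>.1 h1 with h | h <;> omega
      · exact ho
    obtain ⟨k, hk, hsum⟩ := oddT_eq hodd
    have hk1 : ∀ i, x i = sg (cls x 1) i * (1 + 4 * k i) := fun i => congrFun hk i
    rw [hk, norm_oddV] at hn
    have habs : ∀ q, |x q| = |1 + 4 * k q| := by
      intro q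
      rw [hk1 q, abs_mul]
      have hs : |sg (cls x 1) q| = 1 := by unfold sg; split_ifs <;> norm_num
      rw [hs, one_mul]
    have hm1 : ∀ q, |x q| = 3 ↔ k q = -1 := by
      intro q
      rw [habs]
      constructor
      · intro h
        rcases abs_eq (by norm_num : (0 : ℤ) ≤ 3) |>.1 h with h | h <;> omega
      · intro h; rw [h]; norm_num
    have hi1 := (hm1 i).1 h1
    have hj1 := (hm1 j).1 h2
    have hl1 := (hm1 l).1 h3
    have h0 : ∀ q, q ≠ i → q ≠ j → q ≠ l → k q = 0 := by
      by_contra hcon
      push Not at hcon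
      obtain ⟨q, hqi, hqj, hql, hq⟩ := hcon
      have hle : ∑ r, (1 + 4 * k r) ^ 2 ≥ ∑ r, (1 + ((Pi.single i (8 : ℤ) : GolayPt → ℤ) r + (Pi.single j (8 : ℤ) : GolayPt → ℤ) r
          + (Pi.single l (8 : ℤ) : GolayPt → ℤ) r + (Pi.single q (8 : ℤ) : GolayPt → ℤ) r)) := by
        apply Finset.sum_le_sum
        intro r _
        by_cases hr : r = i
        · subst hr
          rw [Pi.single_eq_same, Pi.single_eq_of_ne hij, Pi.single_eq_of_ne hil, Pi.single_eq_of_ne hqi.symm, hi1]; norm_num
        by_cases hr2 : r = j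
        · subst hr2
          rw [Pi.single_eq_same, Pi.single_eq_of_ne hij.symm, Pi.single_eq_of_ne hjl, Pi.single_eq_of_ne hqj.symm, hj1]; norm_num
        by_cases hr3 : r = l
        · subst hr3
          rw [Pi.single_eq_same, Pi.single_eq_of_ne hil.symm, Pi.single_eq_of_ne hjl.symm, Pi.single_eq_of_ne hql.symm, hl1]; norm_num
        by_cases hr4 : r = q
        · subst hr4
          rw [Pi.single_eq_same, Pi.single_eq_of_ne hr, Pi.single_eq_of_ne hr2, Pi.single_eq_of_ne hr3]
          have : 1 ≤ k r ∨ k r ≤ -1 := by omega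
          rcases this with h | h <;> nlinarith
        · rw [Pi.single_eq_of_ne hr, Pi.single_eq_of_ne hr2, Pi.single_eq_of_ne hr3, Pi.single_eq_of_ne hr4]
          have : 0 ≤ k r ∨ k r ≤ -1 := by omega
          rcases this with h | h <;> nlinarith
      rw [Finset.sum_add_distrib, Finset.sum_add_distrib, Finset.sum_add_distrib, Finset.sum_add_distrib, sum_single, sum_single, sum_single,
        sum_single, Finset.sum_const, show (Finset.univ : Finset GolayPt).card = 24 from rfl, hn] at hle
      norm_num at hle
    have hm3 : ∀ q, q ∈ (Finset.univ.filter fun i => |x i| = 3) ↔ |x q| = 3 := fun q => by simp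
    have hset : (Finset.univ.filter fun i => |x i| = 3) = {i, j, l} := by
      ext q
      rw [Finset.mem_filter, hm1]
      simp only [Finset.mem_univ, true_and, Finset.mem_insert, Finset.mem_singleton]
      constructor
      · intro hq
        by_contra hcon
        push Not at hcon
        rw [h0 q hcon.1 hcon.2.1 hcon.2.2] at hq
        norm_num at hq
      · rintro (rfl | rfl | rfl)
        · exact hi1
        · exact hj1
        · exact hl1
    rw [hset]
    refine ⟨Finset.mem_product.2 ⟨mem_cwF.2 hodd.2.2, Finset.mem_powersetCard.2 ⟨Finset.subset_univ _, ?_⟩⟩, ?_⟩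
    · exact Finset.card_eq_three.2 ⟨i, j, l, hij, hil, hjl, rfl⟩
    · show oddV (cls x 1) (fun q => if q ∈ ({i, j, l} : Finset GolayPt) then -1 else 0) = x
      conv_rhs => rw [hk]
      congr 1
      ext q
      rw [← hset]
      by_cases h : k q = -1
      · rw [if_pos ((hm3 q).2 ((hm1 q).2 h)), h]
      · rw [if_neg (fun hh => h ((hm1 q).1 ((hm3 q).1 hh)))]
        symm
        apply h0
        · rintro rfl; exact h hi1
        · rintro rfl; exact h hj1
        · rintro rfl; exact h hl1

/-- `(±2^12)` -/
theorem count1 : {x : GolayPt → ℤ | x ∈ leechLattice ∧ sqNorm x = 48 ∧ ∀ i, x i = 0 ∨ x i = 2 ∨ x i = -2}.ncard = 5275648 := by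
  classical
  rw [ncard_param (dodF.sigma fun d => d.powerset.filter fun s => s.card % 2 = 0)
    (fun b i => if i ∈ b.2 then -2 else if i ∈ b.1 then 2 else 0)
    (fun x => ⟨cls x 2, Finset.univ.filter fun i => x i = -2⟩)]
  · rw [Finset.card_sigma, Finset.sum_congr rfl (g := fun _ => 2 ^ 11), Finset.sum_const, card_dodF]
    · rfl
    · intro d hd
      have hd12 := (mem_dodecads.1 (mem_dodF.1 hd)).2
      rw [card_parity d (Finset.card_pos.1 (by omega)) 0 (by norm_num), hd12]
  · rintro ⟨d, s⟩ hb
    rw [Finset.mem_sigma, Finset.mem_filter, Finset.mem_powerset] at hb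
    obtain ⟨hd, hs, hp⟩ := hb
    dsimp only at hd hs hp ⊢
    have e1 : cls (fun i => if i ∈ s then (-2 : ℤ) else if i ∈ d then 2 else 0) 2 = d := by
      ext i
      rw [mem_cls]
      by_cases h1 : i ∈ s
      · simp [h1, hs h1]
      · by_cases h2 : i ∈ d <;> simp [h1, h2]
    have e2 : (Finset.univ.filter fun i => (if i ∈ s then (-2 : ℤ) else if i ∈ d then 2 else 0) = -2) = s := by
      ext i
      rw [Finset.mem_filter]
      by_cases h1 : i ∈ s
      · simp [h1]
      · by_cases h2 : i ∈ d <;> simp [h1, h2]
    rw [e1, e2]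
  · rintro ⟨d, s⟩ hb
    rw [Finset.mem_sigma, Finset.mem_filter, Finset.mem_powerset] at hb
    obtain ⟨hd, hs, hp⟩ := hb
    dsimp only at hd hs hp ⊢
    have hd' := mem_dodF.1 hd
    have hd12 := (mem_dodecads.1 hd').2
    have e1 : cls (fun i => if i ∈ s then (-2 : ℤ) else if i ∈ d then 2 else 0) 2 = d := by
      ext i
      rw [mem_cls]
      by_cases h1 : i ∈ s
      · simp [h1, hs h1]
      · by_cases h2 : i ∈ d <;> simp [h1, h2]
    have hval : ∀ i, (if i ∈ s then (-2 : ℤ) else if i ∈ d then 2 else 0) = 2 * (if i ∈ d then 1 else 0) - 4 * (if i ∈ s then 1 else 0) := by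
      intro i
      by_cases h1 : i ∈ s
      · simp [h1, hs h1]
      · by_cases h2 : i ∈ d <;> simp [h1, h2]
    have hval2 : ∀ i, (if i ∈ s then (-2 : ℤ) else if i ∈ d then 2 else 0) ^ 2 = 4 * (if i ∈ d then 1 else 0) := by
      intro i
      by_cases h1 : i ∈ s
      · simp [h1, hs h1]
      · by_cases h2 : i ∈ d <;> simp [h1, h2]
    refine ⟨mem_leech_iff.2 (Or.inl ⟨?_, ?_, ?_⟩), ?_, ?_⟩
    · intro i; dsimp only; split_ifs <;> norm_num
    · simp only [hval]
      rw [Finset.sum_sub_distrib, ← Finset.mul_sum, ← Finset.mul_sum, Finset.sum_ite_mem, Finset.sum_ite_mem, Finset.univ_inter,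
        Finset.univ_inter, Finset.sum_const, Finset.sum_const, hd12]
      simp only [nsmul_eq_mul, mul_one]
      push_cast
      omega
    · rw [e1]; exact (mem_dodecads.1 hd').1
    · unfold sqNorm
      simp only [hval2]
      rw [← Finset.mul_sum, Finset.sum_ite_mem, Finset.univ_inter, Finset.sum_const, hd12]
      norm_num
    · intro i; dsimp only; split_ifs <;> norm_num
  · rintro x ⟨hx, hn, h⟩
    have hev : EvenT x := by
      rcases mem_leech_iff.1 hx with he | ho
      · exact he
      · exfalso
        have h1 := ho.1 none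
        have h2 := h none
        omega
    have hmem : ∀ i, i ∈ cls x 2 ↔ x i ≠ 0 := by
      intro i
      rw [mem_cls]
      have := h i
      omega
    have hc : (cls x 2).card = 12 := by
      have h1 : sqNorm x = 4 * (cls x 2).card := by
        unfold sqNorm
        have h2 : ∀ i, x i ^ 2 = 4 * (if i ∈ cls x 2 then 1 else 0) := by
          intro i
          by_cases hi : i ∈ cls x 2
          · rw [if_pos hi]
            rcases h i with h3 | h3 | h3
            · exact absurd h3 ((hmem i).1 hi)
            · rw [h3]; norm_num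
            · rw [h3]; norm_num
          · rw [if_neg hi]
            rw [hmem, not_not] at hi
            rw [hi]; norm_num
        simp only [h2]
        rw [← Finset.mul_sum, Finset.sum_ite_mem, Finset.univ_inter, Finset.sum_const]
        simp
      omega
    have hm2 : ∀ i, i ∈ (Finset.univ.filter fun i => x i = -2) ↔ x i = -2 := fun i => by simp
    have hsub : (Finset.univ.filter fun i => x i = -2) ⊆ cls x 2 := by
      intro i hi
      rw [Finset.mem_filter] at hi
      rw [mem_cls, hi.2]; norm_num
    have hval : ∀ i, x i = 2 * (if i ∈ cls x 2 then 1 else 0) - 4 * (if i ∈ (Finset.univ.filter fun i => x i = -2) then 1 else 0) := by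
      intro i
      by_cases h1 : x i = -2
      · rw [if_pos (hsub ((hm2 i).2 h1)), if_pos ((hm2 i).2 h1), h1]; norm_num
      · rw [if_neg (fun hh => h1 ((hm2 i).1 hh))]
        by_cases h2 : i ∈ cls x 2
        · rw [if_pos h2]
          have := h i
          have := (hmem i).1 h2
          omega
        · rw [if_neg h2]
          rw [hmem, not_not] at h2
          omega
    refine ⟨?_, ?_⟩
    · rw [Finset.mem_sigma, Finset.mem_filter, Finset.mem_powerset]
      refine ⟨mem_dodF.2 (mem_dodecads.2 ⟨hev.2.2, hc⟩), hsub, ?_⟩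
      have h2 := hev.2.1
      have h3 : ∑ i, x i = 2 * 12 - 4 * ((Finset.univ.filter fun i => x i = -2).card : ℤ) := by
        rw [Finset.sum_congr rfl (fun i _ => hval i), Finset.sum_sub_distrib, ← Finset.mul_sum, ← Finset.mul_sum, Finset.sum_ite_mem,
          Finset.sum_ite_mem, Finset.univ_inter, Finset.univ_inter, Finset.sum_const, Finset.sum_const, hc]
        simp
      dsimp only
      omega
    · ext i
      dsimp only
      by_cases h1 : x i = -2
      · rw [if_pos ((hm2 i).2 h1), h1]
      · rw [if_neg (fun hh => h1 ((hm2 i).1 hh))]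
        by_cases h2 : i ∈ cls x 2
        · rw [if_pos h2]
          have := h i
          have := (hmem i).1 h2
          omega
        · rw [if_neg h2]
          rw [hmem, not_not] at h2
          exact h2.symm

/-- `(±4, ±2^8)` -/
theorem count3 : {x : GolayPt → ℤ | x ∈ leechLattice ∧ sqNorm x = 48 ∧ ∃ i, |x i| = 4}.ncard = 3108864 := by
  classical
  rw [ncard_param (octF.sigma fun o => (oᶜ ×ˢ (Finset.univ : Finset Bool)) ×ˢ (o.powerset.filter fun s => s.card % 2 = 1))
    (fun b i => if i = b.2.1.1 then (if b.2.1.2 = true then 4 else -4) else if i ∈ b.2.2 then -2 else if i ∈ b.1 then 2 else 0)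
    (fun x => ⟨cls x 2, ((if h : ∃ i, |x i| = 4 then h.choose else none, decide (x (if h : ∃ i, |x i| = 4 then h.choose else none) = 4)),
      Finset.univ.filter fun i => x i = -2)⟩)]
  · rw [Finset.card_sigma, Finset.sum_congr rfl (g := fun _ => 16 * 2 * 2 ^ 7), Finset.sum_const, card_octF]
    · rfl
    · intro d hd
      have hd8 := (mem_octads.1 (mem_octF.1 hd)).2
      rw [Finset.card_product, Finset.card_product, card_parity d (Finset.card_pos.1 (by omega)) 1 (by norm_num), hd8, Finset.card_compl, hd8]
      rfl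
  · rintro ⟨o, ⟨p, b⟩, s⟩ hb
    rw [Finset.mem_sigma, Finset.mem_product, Finset.mem_product, Finset.mem_compl, Finset.mem_filter, Finset.mem_powerset] at hb
    obtain ⟨ho, ⟨hpo, -⟩, hs, hp⟩ := hb
    dsimp only at ho hpo hs hp ⊢
    have hps : p ∉ s := fun h => hpo (hs h)
    set x : GolayPt → ℤ := fun i => if i = p then (if b = true then 4 else -4) else if i ∈ s then -2 else if i ∈ o then 2 else 0 with hx
    have xp : x p = if b = true then 4 else -4 := by rw [hx]; simp
    have xo : ∀ i, i ≠ p → x i = if i ∈ s then -2 else if i ∈ o then 2 else 0 := by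
      intro i hi; rw [hx]; simp [hi]
    have h : ∃ i, |x i| = 4 := ⟨p, by rw [xp]; split_ifs <;> norm_num⟩
    have hch : h.choose = p := by
      have h2 := h.choose_spec
      by_contra hne
      rw [xo _ hne] at h2
      split_ifs at h2 <;> norm_num at h2
    have e1 : cls x 2 = o := by
      ext i
      rw [mem_cls]
      by_cases hi : i = p
      · rw [hi, xp]
        simp only [hpo, iff_false]
        split_ifs <;> norm_num
      · rw [xo i hi]
        by_cases h1 : i ∈ s
        · simp [h1, hs h1]
        · by_cases h2 : i ∈ o <;> simp [h1, h2]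
    have e2 : (Finset.univ.filter fun i => x i = -2) = s := by
      ext i
      rw [Finset.mem_filter]
      by_cases hi : i = p
      · rw [hi, xp]
        simp only [hps, iff_false]
        split_ifs <;> norm_num
      · rw [xo i hi]
        by_cases h1 : i ∈ s
        · simp [h1]
        · by_cases h2 : i ∈ o <;> simp [h1, h2]
    have e3 : (if h : ∃ i, |x i| = 4 then h.choose else none) = p := by rw [dif_pos h, hch]
    rw [e1, e2, e3]
    congr 3
    cases b <;> simp
  · rintro ⟨o, ⟨p, b⟩, s⟩ hb
    rw [Finset.mem_sigma, Finset.mem_product, Finset.mem_product, Finset.mem_compl, Finset.mem_filter, Finset.mem_powerset] at hb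
    obtain ⟨ho, ⟨hpo, -⟩, hs, hp⟩ := hb
    dsimp only at ho hpo hs hp ⊢
    have hps : p ∉ s := fun h => hpo (hs h)
    have ho' := mem_octF.1 ho
    have ho8 := (mem_octads.1 ho').2
    set x : GolayPt → ℤ := fun i => if i = p then (if b = true then 4 else -4) else if i ∈ s then -2 else if i ∈ o then 2 else 0 with hx
    have xp : x p = if b = true then 4 else -4 := by rw [hx]; simp
    have xo : ∀ i, i ≠ p → x i = if i ∈ s then -2 else if i ∈ o then 2 else 0 := by
      intro i hi; rw [hx]; simp [hi]
    have e1 : cls x 2 = o := by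
      ext i
      rw [mem_cls]
      by_cases hi : i = p
      · rw [hi, xp]
        simp only [hpo, iff_false]
        split_ifs <;> norm_num
      · rw [xo i hi]
        by_cases h1 : i ∈ s
        · simp [h1, hs h1]
        · by_cases h2 : i ∈ o <;> simp [h1, h2]
    have hval : ∀ i, x i = 2 * (if i ∈ o then 1 else 0) - 4 * (if i ∈ s then 1 else 0) + (Pi.single p (if b = true then 4 else -4) : GolayPt → ℤ) i := by
      intro i
      by_cases hi : i = p
      · subst hi
        rw [xp, Pi.single_eq_same, if_neg hpo, if_neg hps]; ring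
      · rw [xo i hi, Pi.single_eq_of_ne hi]
        by_cases h1 : i ∈ s
        · simp [h1, hs h1]
        · by_cases h2 : i ∈ o <;> simp [h1, h2]
    have hval2 : ∀ i, x i ^ 2 = 4 * (if i ∈ o then 1 else 0) + (Pi.single p 16 : GolayPt → ℤ) i := by
      intro i
      by_cases hi : i = p
      · subst hi
        rw [xp, Pi.single_eq_same, if_neg hpo]
        split_ifs <;> norm_num
      · rw [xo i hi, Pi.single_eq_of_ne hi]
        by_cases h1 : i ∈ s
        · simp [h1, hs h1]
        · by_cases h2 : i ∈ o <;> simp [h1, h2]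
    refine ⟨mem_leech_iff.2 (Or.inl ⟨?_, ?_, ?_⟩), ?_, ?_⟩
    · intro i
      by_cases hi : i = p
      · rw [hi, xp]; split_ifs <;> norm_num
      · rw [xo i hi]; split_ifs <;> norm_num
    · rw [Finset.sum_congr rfl (fun i _ => hval i), Finset.sum_add_distrib, Finset.sum_sub_distrib, ← Finset.mul_sum, ← Finset.mul_sum,
        Finset.sum_ite_mem, Finset.sum_ite_mem, Finset.univ_inter, Finset.univ_inter, Finset.sum_const, Finset.sum_const, ho8, sum_single]
      simp only [nsmul_eq_mul, mul_one]
      push_cast
      split_ifs <;> omega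
    · rw [e1]; exact (mem_octads.1 ho').1
    · unfold sqNorm
      rw [Finset.sum_congr rfl (fun i _ => hval2 i), Finset.sum_add_distrib, ← Finset.mul_sum, Finset.sum_ite_mem, Finset.univ_inter,
        Finset.sum_const, ho8, sum_single]
      norm_num
    · exact ⟨p, by rw [xp]; split_ifs <;> norm_num⟩
  · rintro x ⟨hx, hn, h⟩
    have e3 : (if h : ∃ i, |x i| = 4 then h.choose else none) = h.choose := dif_pos h
    rw [e3]
    set p := h.choose with hpdef
    have h4 : |x p| = 4 := h.choose_spec
    have h4' : x p = 4 ∨ x p = -4 := abs_eq (by norm_num : (0 : ℤ) ≤ 4) |>.1 h4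
    have hev : EvenT x := by
      rcases mem_leech_iff.1 hx with he | ho
      · exact he
      · exfalso
        have h1 := ho.1 p
        omega
    have hpc : p ∉ cls x 2 := by rw [mem_cls]; omega
    -- norm bound
    have hge : ∀ i, x i ^ 2 ≥ 4 * (if i ∈ cls x 2 then 1 else 0) + (Pi.single p 16 : GolayPt → ℤ) i := by
      intro i
      by_cases hi : i = p
      · rw [hi, Pi.single_eq_same, if_neg hpc]
        rcases h4' with h | h <;> rw [h] <;> norm_num
      · rw [Pi.single_eq_of_ne hi]
        split_ifs with h1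
        · rw [mem_cls] at h1
          have : 2 ≤ x i ∨ x i ≤ -2 := by omega
          rcases this with h | h <;> nlinarith
        · have := sq_nonneg (x i)
          linarith
    have hsumge : ∑ i, (4 * (if i ∈ cls x 2 then 1 else 0) + (Pi.single p 16 : GolayPt → ℤ) i) = 4 * (cls x 2).card + 16 := by
      rw [Finset.sum_add_distrib, ← Finset.mul_sum, Finset.sum_ite_mem, Finset.univ_inter, Finset.sum_const, sum_single]
      simp
    have hle : (4 * (cls x 2).card + 16 : ℤ) ≤ 48 := by
      rw [← hsumge, ← hn]
      exact Finset.sum_le_sum fun i _ => hge i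
    have hwt := supports_weight hev.2.2
    have hc8 : (cls x 2).card = 8 := by
      rcases hwt with h0 | h8 | h12 | h16 | h24
      · exfalso
        -- all entries divisible by four
        have hcls : ∀ i, x i % 4 = 0 := by
          intro i
          have h1 := hev.1 i
          have h2 : i ∉ cls x 2 := by
            rw [Finset.card_eq_zero.1 h0]; exact Finset.notMem_empty _
          rw [mem_cls] at h2
          omega
        choose y hy using fun i => Int.dvd_of_emod_eq_zero (hcls i)
        have s1 : sqNorm x = 16 * ∑ i, y i ^ 2 := by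
          unfold sqNorm
          rw [Finset.mul_sum]
          apply Finset.sum_congr rfl
          intro i _
          rw [hy i]; ring
        have s2 : ∑ i, x i = 4 * ∑ i, y i := by
          rw [Finset.mul_sum]
          exact Finset.sum_congr rfl fun i _ => hy i
        have s3 : (∑ i, y i ^ 2) % 2 = (∑ i, y i) % 2 := by
          apply sum_emod
          intro i _
          rcases Int.emod_two_eq_zero_or_one (y i) with h | h <;> simp [sq, Int.mul_emod, h]
        have s4 := hev.2.1
        omega
      · exact h8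
      · omega
      · omega
      · omega
    have heq : ∀ i, 4 * (if i ∈ cls x 2 then 1 else 0) + (Pi.single p 16 : GolayPt → ℤ) i = x i ^ 2 := by
      intro i
      refine (Finset.sum_eq_sum_iff_of_le (fun i _ => hge i)).1 ?_ i (Finset.mem_univ i)
      rw [hsumge, hc8]
      rw [show ∑ i, x i ^ 2 = sqNorm x from rfl, hn]; norm_num
    have hin : ∀ i, i ∈ cls x 2 → x i = 2 ∨ x i = -2 := by
      intro i hi
      have h1 := heq i
      have hip : i ≠ p := by rintro rfl; exact hpc hi
      rw [if_pos hi, Pi.single_eq_of_ne hip] at h1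
      have : (x i - 2) * (x i + 2) = 0 := by ring_nf; linarith
      rcases mul_eq_zero.1 this with h | h
      · left; linarith
      · right; linarith
    have hout : ∀ i, i ∉ cls x 2 → i ≠ p → x i = 0 := by
      intro i hi hip
      have h1 := heq i
      rw [if_neg hi, Pi.single_eq_of_ne hip] at h1
      have : x i ^ 2 = 0 := by linarith
      exact pow_eq_zero_iff (by norm_num) |>.1 this
    have hm2 : ∀ i, i ∈ (Finset.univ.filter fun i => x i = -2) ↔ x i = -2 := fun i => by simp
    have hsub : (Finset.univ.filter fun i => x i = -2) ⊆ cls x 2 := by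
      intro i hi
      rw [Finset.mem_filter] at hi
      rw [mem_cls, hi.2]; norm_num
    have hval : ∀ i, x i = 2 * (if i ∈ cls x 2 then 1 else 0) - 4 * (if i ∈ (Finset.univ.filter fun i => x i = -2) then 1 else 0)
        + (Pi.single p (x p) : GolayPt → ℤ) i := by
      intro i
      by_cases hip : i = p
      · rw [hip, Pi.single_eq_same, if_neg hpc, if_neg (fun hh => hpc (hsub hh))]; ring
      rw [Pi.single_eq_of_ne hip]
      by_cases h1 : x i = -2
      · rw [if_pos (hsub ((hm2 i).2 h1)), if_pos ((hm2 i).2 h1), h1]; norm_num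
      · rw [if_neg (fun hh => h1 ((hm2 i).1 hh))]
        by_cases h2 : i ∈ cls x 2
        · rw [if_pos h2]
          have := hin i h2
          omega
        · rw [if_neg h2]
          have := hout i h2 hip
          omega
    refine ⟨?_, ?_⟩
    · rw [Finset.mem_sigma, Finset.mem_product, Finset.mem_product, Finset.mem_compl, Finset.mem_filter, Finset.mem_powerset]
      refine ⟨mem_octF.2 (mem_octads.2 ⟨hev.2.2, hc8⟩), ⟨hpc, Finset.mem_univ _⟩, hsub, ?_⟩
      have h2 := hev.2.1
      have h3 : ∑ i, x i = 2 * 8 - 4 * ((Finset.univ.filter fun i => x i = -2).card : ℤ) + x p := by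
        rw [Finset.sum_congr rfl (fun i _ => hval i), Finset.sum_add_distrib, Finset.sum_sub_distrib, ← Finset.mul_sum, ← Finset.mul_sum,
          Finset.sum_ite_mem, Finset.sum_ite_mem, Finset.univ_inter, Finset.univ_inter, Finset.sum_const, Finset.sum_const, hc8, sum_single]
        simp
      dsimp only
      rcases h4' with h | h <;> omega
    · ext i
      dsimp only
      by_cases hip : i = p
      · rw [if_pos hip, hip]
        rcases h4' with h | h
        · rw [h]; simp
        · rw [h]; simp
      · rw [if_neg hip]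
        by_cases h1 : x i = -2
        · rw [if_pos ((hm2 i).2 h1), h1]
        · rw [if_neg (fun hh => h1 ((hm2 i).1 hh))]
          by_cases h2 : i ∈ cls x 2
          · rw [if_pos h2]
            have := hin i h2
            omega
          · rw [if_neg h2]
            exact (hout i h2 hip).symm

end Cfsg.Agent.H7.Shape
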