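import Mathlib
import Cfsg.Agent.H7_Sharp

/-! A sharply 4-transitive action has finite degree. -/

set_option autoImplicit false
set_option linter.all false

open MulAction Function

namespace Cfsg.Agent.H7.Sharp

variable {G : Type*} [Group G] {α : Type*} [MulAction G α]

theorem finite4 (h : Sh G α 4) (x0 : Fin 4 ↪ α) : Finite α := by
  classical
  by_contra hinf
  rw [not_finite_iff_infinite] at hinf
  obtain ⟨a, b, c, d, h1, h2, h3, h4, h5, h6⟩ : ∃ a b c d : α, a ≠ b ∧ a ≠ c ∧ a ≠ d ∧ b ≠ c ∧ b ≠ d ∧ c ≠ d := by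
    refine ⟨x0 0, x0 1, x0 2, x0 3, ?_, ?_, ?_, ?_, ?_, ?_⟩ <;>
      · intro hh
        have := x0.injective hh
        revert this
        decide
  obtain ⟨i, ia, ib, ic, id⟩ := tr4 h h1 h2 h3 h4 h5 h6 h1 h3 h2 h5 h4 h6.symm
  have i2 : i * i = 1 := by
    apply un4 h h1 h2 h3 h4 h5 h6
    · rw [mul_smul, ia, ia, one_smul]
    · rw [mul_smul, ib, ib, one_smul]
    · rw [mul_smul, ic, id, one_smul]
    · rw [mul_smul, id, ic, one_smul]
  have ii : ∀ x : α, i • i • x = x := fun x => by rw [← mul_smul, i2, one_smul]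
  set F : Set α := {x | i • x = x} with hF
  have hFf : F.Finite := by
    by_contra hFi
    have hFi' : F.Infinite := hFi
    obtain ⟨S, hS, hc⟩ := hFi'.exists_subset_card_eq 4
    obtain ⟨x, y, z, w, k1, k2, k3, k4, k5, k6, rfl⟩ := Finset.card_eq_four.1 hc
    have hx : i • x = x := hS (by simp)
    have hy : i • y = y := hS (by simp)
    have hz : i • z = z := hS (by simp)
    have hw : i • w = w := hS (by simp)
    have : i = 1 := by
      apply un4 h k1 k2 k3 k4 k5 k6
      · rw [hx, one_smul]
      · rw [hy, one_smul]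
      · rw [hz, one_smul]
      · rw [hw, one_smul]
    rw [this, one_smul] at ic
    exact h6 ic
  have hMi : (F ∪ {c, d})ᶜ.Infinite := by
    apply Set.Finite.infinite_compl
    exact hFf.union (Set.toFinite _)
  obtain ⟨e, he⟩ := hMi.nonempty
  simp only [Set.mem_compl_iff, Set.mem_union, Set.mem_insert_iff, Set.mem_singleton_iff, not_or] at he
  obtain ⟨he0, he1, he2⟩ := he
  have hie : ¬ i • e = e := he0
  have hic : c ≠ i • e := fun hh => he2 (by
    have := congrArg (i • ·) hh
    simp only [ii] at this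
    rw [ic] at this
    exact this.symm)
  have hid : d ≠ i • e := fun hh => he1 (by
    have := congrArg (i • ·) hh
    simp only [ii] at this
    rw [id] at this
    exact this.symm)
  have comm : ∀ g : G, g * i = i * g → ∀ x : α, g • i • x = i • g • x := fun g hg x => by
    rw [← mul_smul, hg, mul_smul]
  set D : Set G := {g | g * i = i * g ∧ g • c = c} with hD
  have hDf : D.Finite := by
    have hinj : Set.InjOn (fun g : G => (g • a, g • b)) D := by
      rintro g ⟨hg, hgc⟩ k ⟨hk, hkc⟩ hh
      simp only [Prod.mk.injEq] at hh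
      refine un4 h h1 h2 h3 h4 h5 h6 hh.1 hh.2 (by rw [hgc, hkc]) ?_
      rw [← ic, comm g hg, comm k hk, hgc, hkc]
    have hmaps : (fun g : G => (g • a, g • b)) '' D ⊆ F ×ˢ F := by
      rintro _ ⟨g, ⟨hg, hgc⟩, rfl⟩
      refine ⟨?_, ?_⟩
      · show i • g • a = g • a
        rw [← comm g hg, ia]
      · show i • g • b = g • b
        rw [← comm g hg, ib]
    exact Set.Finite.of_finite_image ((hFf.prod hFf).subset hmaps) hinj
  have hsub : (F ∪ {c, d})ᶜ ⊆ (fun g : G => g • e) '' D := by
    intro y hy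
    simp only [Set.mem_compl_iff, Set.mem_union, Set.mem_insert_iff, Set.mem_singleton_iff, not_or] at hy
    obtain ⟨hy0, hy1, hy2⟩ := hy
    have hiy : ¬ i • y = y := hy0
    have hic' : c ≠ i • y := fun hh => hy2 (by
      have := congrArg (i • ·) hh
      simp only [ii] at this
      rw [ic] at this
      exact this.symm)
    have hid' : d ≠ i • y := fun hh => hy1 (by
      have := congrArg (i • ·) hh
      simp only [ii] at this
      rw [id] at this
      exact this.symm)
    obtain ⟨g, g1, g2, g3, g4⟩ := tr4 h h6 (Ne.symm he1) hic (Ne.symm he2) hid (Ne.symm hie) h6 (Ne.symm hy1) hic'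
      (Ne.symm hy2) hid' (Ne.symm hiy)
    have hg : g * i = i * g := by
      apply un4 h h6 (Ne.symm he1) hic (Ne.symm he2) hid (Ne.symm hie)
      · rw [mul_smul, mul_smul, ic, g2, g1, ic]
      · rw [mul_smul, mul_smul, id, g1, g2, id]
      · rw [mul_smul, mul_smul, g3, g4]
      · rw [mul_smul, mul_smul, ii, g3, g4, ii]
    exact ⟨g, ⟨hg, g1⟩, g3⟩
  exact hMi ((hDf.image _).subset hsub)

end Cfsg.Agent.H7.Sharp
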