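import Mathlib
import Cfsg.Agent.H7_St9

set_option autoImplicit false
set_option linter.all false

open Finset

namespace Cfsg.Agent.H7.St

open Cfsg
open scoped Pointwise

/-! ### linear algebra over F₂ -/
section lin
variable {β : Type*} [Fintype β] [DecidableEq β]

theorem ind_empty : ind (∅ : Finset β) = 0 := by
  funext x
  simp [ind]

/-- the code generated by a family -/
def code (G : Set (Finset β)) : Submodule (ZMod 2) (β → ZMod 2) := Submodule.span (ZMod 2) (ind '' G)

theorem mem_code {G : Set (Finset β)} {s : Finset β} : ind s ∈ code G ↔ InC G s := by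
  constructor
  · have key : ∀ w ∈ code G, InC G (support₂ w) := by
      intro w hw
      refine Submodule.span_induction (p := fun w _ => InC G (support₂ w)) ?_ ?_ ?_ ?_ hw
      · rintro _ ⟨b, hb, rfl⟩
        rw [supp_ind]
        exact InC.of_mem hb
      · have : support₂ (0 : β → ZMod 2) = ∅ := by
          rw [← ind_empty, supp_ind]
        rw [this]
        exact InC.empty
      · intro x y _ _ hx hy
        have : support₂ (x + y) = symmDiff (support₂ x) (support₂ y) := by
          conv_lhs => rw [← ind_supp x, ← ind_supp y, ← ind_sd, supp_ind]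
        rw [this]
        exact hx.symm hy
      · intro a x _ hx
        fin_cases a
        · have : support₂ ((0 : ZMod 2) • x) = ∅ := by
            rw [zero_smul, ← ind_empty, supp_ind]
          simp only [Fin.zero_eta, Fin.isValue]
          exact this ▸ InC.empty
        · have : support₂ ((1 : ZMod 2) • x) = support₂ x := by rw [one_smul]
          exact this ▸ hx
    intro h
    have := key _ h
    rwa [supp_ind] at this
  · intro h
    induction h with
    | empty =>
      rw [ind_empty]
      exact Submodule.zero_mem _
    | add hs hb ih =>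
      rw [ind_sd]
      exact Submodule.add_mem _ ih (Submodule.subset_span ⟨_, hb, rfl⟩)

theorem dot_ind (s t : Finset β) : ∑ i, ind s i * ind t i = ((s ∩ t).card : ZMod 2) := by
  simp only [ind, mul_ite, mul_one, mul_zero]
  rw [Finset.sum_ite, Finset.sum_const_zero, add_zero, Finset.sum_ite, Finset.sum_const_zero, add_zero, Finset.sum_const,
    nsmul_one]
  congr 2
  ext x
  simp [and_comm]

theorem even_iff (n : ℕ) : ((n : ℕ) : ZMod 2) = 0 ↔ Even n := by
  rw [ZMod.natCast_eq_zero_iff, even_iff_two_dvd]

/-- a self-dual family has dimension 12 on 24 points -/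
theorem finrank_code (hβ : Fintype.card β = 24) (G : Set (Finset β)) (hev : ∀ b ∈ G, ∀ c ∈ G, Even (b ∩ c).card)
    (hsd : ∀ t : Finset β, (∀ g ∈ G, Even (t ∩ g).card) → InC G t) : Module.finrank (ZMod 2) (code G) = 12 := by
  have hp : Fact (Nat.Prime 2) := ⟨Nat.prime_two⟩
  let Bf : LinearMap.BilinForm (ZMod 2) (β → ZMod 2) := (1 : Matrix β β (ZMod 2)).toBilin'
  have hBf : ∀ v w, Bf v w = ∑ i, v i * w i := by
    intro v w
    show (1 : Matrix β β (ZMod 2)).toBilin' v w = _
    rw [Matrix.toBilin'_apply', Matrix.one_mulVec]
    rfl
  have hnd : Bf.Nondegenerate := LinearMap.BilinForm.nondegenerate_toBilin'_of_det_ne_zero' _ (by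
    rw [Matrix.det_one]
    exact one_ne_zero)
  have horth : Bf.orthogonal (code G) = code G := by
    ext w
    rw [LinearMap.BilinForm.mem_orthogonal_iff]
    constructor
    · intro h
      rw [← ind_supp w, mem_code]
      apply hsd
      intro g hg
      have h1 := h (ind g) (mem_code.2 (InC.of_mem hg))
      have h2 : Bf (ind g) w = 0 := h1
      rw [hBf, ← ind_supp w, dot_ind, even_iff, Finset.inter_comm] at h2
      exact h2
    · intro h v hv
      show Bf v w = 0
      rw [← ind_supp w, mem_code] at h
      rw [← ind_supp v, mem_code] at hv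
      rw [hBf, ← ind_supp v, ← ind_supp w, dot_ind, even_iff]
      apply hv.even_inter
      intro b hb
      rw [Finset.inter_comm]
      exact h.even_inter (fun c hc => hev c hc b hb)
  have h1 := LinearMap.BilinForm.finrank_orthogonal hnd (code G)
  rw [horth, Module.finrank_fintype_fun_eq_card, hβ] at h1
  have h2 : Module.finrank (ZMod 2) (code G) ≤ 24 := by
    have := Submodule.finrank_le (code G)
    rwa [Module.finrank_fintype_fun_eq_card, hβ] at this
  omega

/-- a set meeting the generators evenly and `e` oddly -/
theorem exists_sep (G : Set (Finset β)) (e : Finset β) (he : ¬ InC G e) :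
    ∃ v : Finset β, (∀ g ∈ G, Even (v ∩ g).card) ∧ ¬ Even (v ∩ e).card := by
  have hp : Fact (Nat.Prime 2) := ⟨Nat.prime_two⟩
  rw [← mem_code] at he
  obtain ⟨f, hf, hf'⟩ := Submodule.exists_dual_map_eq_bot_of_notMem he inferInstance
  refine ⟨support₂ ((dotProductEquiv (ZMod 2) β).symm f), ?_, ?_⟩
  · intro g hg
    rw [← even_iff, ← dot_ind, ind_supp]
    have h1 : f (ind g) = 0 := by
      have : f (ind g) ∈ (code G).map f := Submodule.mem_map_of_mem (mem_code.2 (InC.of_mem hg))
      rw [hf'] at this
      exact this
    rw [← (dotProductEquiv (ZMod 2) β).apply_symm_apply f] at h1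
    exact h1
  · intro hev
    apply hf
    rw [← even_iff, ← dot_ind, ind_supp] at hev
    rw [← (dotProductEquiv (ZMod 2) β).apply_symm_apply f]
    exact hev

end lin

end Cfsg.Agent.H7.St
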