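import Mathlib
import Cfsg.Agent.H7_St10

set_option autoImplicit false
set_option linter.all false

open Finset

/-! S(3,6,22) extends to S(5,8,24). -/

namespace Cfsg.Agent.H7.St

open Cfsg
open scoped Pointwise

variable {α : Type*} [Fintype α] [DecidableEq α] {B : Set (Finset α)}

abbrev P0 : Option (Option α) := none
abbrev P1 : Option (Option α) := some none

def dbl (b : Finset α) : Finset (Option (Option α)) := insertNone (insertNone b)

/-- the finite part of a set -/
def fin' (s : Finset (Option (Option α))) : Finset α := eraseNone (eraseNone s)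

def n2 (s : Finset (Option (Option α))) : ℕ := (if none ∈ s then 1 else 0) + (if some none ∈ s then 1 else 0)

theorem card_inter_dbl (s : Finset (Option (Option α))) (b : Finset α) :
    (s ∩ dbl b).card = (fin' s ∩ b).card + n2 s := by
  unfold dbl fin' n2
  rw [card_inter_iN, card_inter_iN]
  simp only [mem_eraseNone]
  omega

theorem card_fin (s : Finset (Option (Option α))) : s.card = (fin' s).card + n2 s := by
  unfold fin' n2
  rw [card_eN s, card_eN (eraseNone s)]
  simp only [mem_eraseNone]
  omega

theorem card_dbl (b : Finset α) : (dbl b).card = b.card + 2 := by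
  unfold dbl
  rw [card_iN, card_iN]

theorem dbl_inter (s t : Finset α) : dbl s ∩ dbl t = dbl (s ∩ t) := by
  unfold dbl
  rw [iN_inter, iN_inter]

def G0 (B : Set (Finset α)) : Set (Finset (Option (Option α))) := {s | ∃ b ∈ B, s = dbl b}

variable (hα : Fintype.card α = 22) (hB : IsSteinerSystem 3 6 B)

section
include hα hB

theorem g0_4 : ∀ b ∈ G0 B, 4 ∣ b.card := by
  rintro _ ⟨b, hb, rfl⟩
  rw [card_dbl, hB.1 b hb]
  norm_num

theorem g0_ev : ∀ b ∈ G0 B, ∀ c ∈ G0 B, Even (b ∩ c).card := by
  rintro _ ⟨b, hb, rfl⟩ _ ⟨c, hc, rfl⟩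
  rw [dbl_inter, card_dbl]
  by_cases h : b = c
  · rw [h, Finset.inter_self, hB.1 c hc]
    decide
  · rcases inter22 hα hB hb hc h with h | h <;> rw [h] <;> decide

theorem exists_v : ∃ v : Finset (Option (Option α)), (∀ g ∈ G0 B, Even (v ∩ g).card) ∧ none ∈ v ∧ some none ∉ v := by
  have he : ¬ InC (G0 B) ({none, some none} : Finset (Option (Option α))) := by
    intro h
    have h1 := h.four_dvd (g0_4 hα hB) (g0_ev hα hB)
    rw [card_pair (by simp)] at h1
    omega
  obtain ⟨v, hv, hne⟩ := exists_sep _ _ he
  have hI : (v ∩ ({none, some none} : Finset (Option (Option α)))).card = n2 v := by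
    have : ({none, some none} : Finset (Option (Option α))) = dbl ∅ := by
      ext x
      unfold dbl
      rw [mem_insertNone]
      rcases x with _ | _ | x
      · simp
      · simp [mem_insertNone]
      · simp [mem_insertNone]
    rw [this, card_inter_dbl, Finset.inter_empty, card_empty, zero_add]
  rw [hI] at hne
  by_cases h0 : none ∈ v
  · refine ⟨v, hv, h0, ?_⟩
    intro h1
    apply hne
    unfold n2
    rw [if_pos h0, if_pos h1]
    decide
  · have h1 : some none ∈ v := by
      by_contra h1
      apply hne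
      unfold n2
      rw [if_neg h0, if_neg h1]
      decide
    refine ⟨symmDiff v {none, some none}, ?_, ?_, ?_⟩
    · intro g hg
      have e1 := card_sd_inter v {none, some none} g
      have e2 := hv g hg
      obtain ⟨b, hb, rfl⟩ := hg
      have e3 : (({none, some none} : Finset (Option (Option α))) ∩ dbl b).card = 2 := by
        rw [card_inter_dbl]
        have : fin' ({none, some none} : Finset (Option (Option α))) = ∅ := by
          ext x
          unfold fin'
          rw [mem_eraseNone, mem_eraseNone]
          simp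
        rw [this, Finset.empty_inter, card_empty]
        unfold n2
        simp
      rw [e3] at e1
      rw [Nat.even_iff] at *
      omega
    · rw [mem_symmDiff]
      right
      exact ⟨by simp, h0⟩
    · rw [mem_symmDiff]
      rintro (⟨_, h⟩ | ⟨_, h⟩)
      · exact h (by simp)
      · exact h h1
end

/-- the hypotheses on the extra word -/
def IsV (B : Set (Finset α)) (v : Finset (Option (Option α))) : Prop :=
  (∀ g ∈ G0 B, Even (v ∩ g).card) ∧ none ∈ v ∧ some none ∉ v

def G22 (B : Set (Finset α)) (v : Finset (Option (Option α))) : Set (Finset (Option (Option α))) := insert v (G0 B)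

section
variable {v : Finset (Option (Option α))} (hv : IsV B v)
include hα hB hv

theorem v_odd {b : Finset α} (hb : b ∈ B) : Odd (fin' v ∩ b).card := by
  have h1 := hv.1 _ ⟨b, hb, rfl⟩
  rw [card_inter_dbl] at h1
  unfold n2 at h1
  rw [if_pos hv.2.1, if_neg hv.2.2] at h1
  rw [Nat.even_iff] at h1
  rw [Nat.odd_iff]
  omega

theorem v_card : v.card = 8 ∨ v.card = 12 ∨ v.card = 16 := by
  have hc := card_fin v
  unfold n2 at hc
  rw [if_pos hv.2.1, if_neg hv.2.2] at hc
  have hn : ∀ c ∈ B, (fin' v ∩ c).card < 7 := by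
    intro c hc'
    have := Finset.card_le_card (Finset.inter_subset_right (s₁ := fin' v) (s₂ := c))
    rw [hB.1 c hc'] at this
    omega
  have e0 := moment_xi (fin' v) 7 hn 0 77 (lam22_0 hα hB)
  have e1 := moment_xi (fin' v) 7 hn 1 21 (lam22_1 hα hB)
  have e2 := moment_xi (fin' v) 7 hn 2 5 (lam22_2 hα hB)
  have e3 := moment_xi (fin' v) 7 hn 3 1 (fun u hu => one_block hB u hu)
  have z : ∀ i, Even i → xi B (fin' v) i = 0 := fun i hi => xi_zero i (fun c hc' h => by
    have := v_odd hα hB hv hc'
    rw [h, Nat.odd_iff] at this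
    rw [Nat.even_iff] at hi
    omega)
  have z0 := z 0 (by decide)
  have z2 := z 2 (by decide)
  have z4 := z 4 (by decide)
  have z6 := z 6 (by decide)
  have hle : (fin' v).card ≤ 22 := by
    rw [← hα]
    exact card_le_univ _
  simp only [Finset.sum_range_succ, Finset.sum_range_zero, z0, z2, z4, z6] at e0 e1 e2 e3
  generalize (fin' v).card = m at *
  interval_cases m <;> norm_num [Nat.choose] at e0 e1 e2 e3 <;> omega

theorem g22_4 : ∀ b ∈ G22 B v, 4 ∣ b.card := by
  rintro b (rfl | hb)
  · rcases v_card hα hB hv with h | h | h <;> rw [h] <;> norm_num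
  · exact g0_4 hα hB b hb

theorem g22_ev : ∀ b ∈ G22 B v, ∀ c ∈ G22 B v, Even (b ∩ c).card := by
  rintro b (rfl | hb) c (rfl | hc)
  · rw [Finset.inter_self]
    rcases v_card hα hB hv with h | h | h <;> rw [h] <;> decide
  · exact hv.1 c hc
  · rw [Finset.inter_comm]
    exact hv.1 b hb
  · exact g0_ev hα hB b hb c hc

theorem g22_no4 : ∀ s, InC (G22 B v) s → s.card ≠ 4 := by
  intro s hs h4
  have hev : ∀ b ∈ B, Even ((fin' s ∩ b).card + n2 s) := by
    intro b hb
    rw [← card_inter_dbl]
    exact hs.even_inter (fun c hc => g22_ev hα hB hv c hc _ (Or.inr ⟨b, hb, rfl⟩))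
  have hc := card_fin s
  rw [h4] at hc
  have hn : ∀ c ∈ B, (fin' s ∩ c).card < 5 := by
    intro c _
    have := Finset.card_le_card (Finset.inter_subset_left (s₁ := fin' s) (s₂ := c))
    omega
  have e0 := moment_xi (fin' s) 5 hn 0 77 (lam22_0 hα hB)
  have e1 := moment_xi (fin' s) 5 hn 1 21 (lam22_1 hα hB)
  have e2 := moment_xi (fin' s) 5 hn 2 5 (lam22_2 hα hB)
  have e3 := moment_xi (fin' s) 5 hn 3 1 (fun u hu => one_block hB u hu)
  have hn2 : n2 s ≤ 2 := by
    unfold n2
    split_ifs <;> omega
  have z : ∀ i, ¬ Even (i + n2 s) → xi B (fin' s) i = 0 := fun i hi => xi_zero i (fun c hc' h => by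
    have := hev c hc'
    rw [h] at this
    exact hi this)
  have hn2' : n2 s = 0 ∨ n2 s = 1 ∨ n2 s = 2 := by omega
  rcases hn2' with h | h | h
  · rw [h] at z hc
    have z1 := z 1 (by decide)
    have z3 := z 3 (by decide)
    have h3 : (fin' s).card = 4 := by omega
    simp only [Finset.sum_range_succ, Finset.sum_range_zero, h3, z1, z3, Nat.choose] at e0 e1 e2 e3
    omega
  · rw [h] at z hc
    have z0 := z 0 (by decide)
    have z2 := z 2 (by decide)
    have z4 := z 4 (by decide)
    have h3 : (fin' s).card = 3 := by omega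
    simp only [Finset.sum_range_succ, Finset.sum_range_zero, h3, z0, z2, z4, Nat.choose] at e0 e1 e2 e3
    omega
  · rw [h] at z hc
    have z1 := z 1 (by decide)
    have z3 := z 3 (by decide)
    have h3 : (fin' s).card = 2 := by omega
    simp only [Finset.sum_range_succ, Finset.sum_range_zero, h3, z1, z3, Nat.choose] at e0 e1 e2 e3
    omega
end

section
include hα hB

/-- reduction lemma: a set meeting all blocks evenly is a sum of blocks -/
theorem red22 : ∀ n, ∀ t : Finset α, t.card = n → (∀ b ∈ B, Even (t ∩ b).card) → InC B t := by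
  intro n
  induction n using Nat.strong_induction_on with
  | _ n ih =>
    intro t ht hev
    by_cases h : ∃ b ∈ B, 4 ≤ (t ∩ b).card
    · obtain ⟨b, hb, h4⟩ := h
      have h1 := card_sd t b
      rw [hB.1 b hb] at h1
      have h2 : InC B (symmDiff t b) := by
        apply ih _ _ _ rfl
        · intro c hc
          have e := card_sd_inter t b c
          have e1 := hev c hc
          have e2 : Even (b ∩ c).card := by
            by_cases hbc : b = c
            · rw [hbc, inter_self, hB.1 c hc]
              decide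
            · rcases inter22 hα hB hb hc hbc with h | h <;> rw [h] <;> decide
          rw [Nat.even_iff] at *
          omega
        · omega
      have h3 := h2.symm (InC.of_mem hb)
      rwa [symmDiff_assoc, symmDiff_self, symmDiff_bot] at h3
    · push Not at h
      have hle : ∀ b ∈ B, (t ∩ b).card ≤ 2 := by
        intro b hb
        have h1 := h b hb
        have h2 := hev b hb
        rw [Nat.even_iff] at h2
        omega
      have h2 : t.card ≤ 2 := by
        by_contra hgt
        obtain ⟨u, hu, huc⟩ := Finset.exists_subset_card_eq (s := t) (n := 3) (by omega)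
        obtain ⟨b, ⟨hb, hub⟩, -⟩ := hB.2 u huc
        have h1 := hle b hb
        have h2 := card_le_card (subset_inter hu hub)
        omega
      have hn : ∀ c ∈ B, (t ∩ c).card < 3 := by
        intro c hc
        have := hle c hc
        omega
      have e0 := moment_xi t 3 hn 0 77 (lam22_0 hα hB)
      have e1 := moment_xi t 3 hn 1 21 (lam22_1 hα hB)
      have e2 := moment_xi t 3 hn 2 5 (lam22_2 hα hB)
      have z1 : xi B t 1 = 0 := xi_zero 1 (fun c hc h => by
        have := hev c hc
        rw [h] at this
        exact absurd this (by decide))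
      have h0 : t.card = 0 := by
        interval_cases hc : t.card
        · rfl
        · simp only [Finset.sum_range_succ, Finset.sum_range_zero, z1, Nat.choose] at e0 e1 e2
          omega
        · simp only [Finset.sum_range_succ, Finset.sum_range_zero, z1, Nat.choose] at e0 e1 e2
          omega
      rw [card_eq_zero.1 h0]
      exact InC.empty
end

def up (t : Finset α) : Finset (Option (Option α)) := (t.map Function.Embedding.some).map Function.Embedding.some

theorem mem_up {t : Finset α} {x : Option (Option α)} : x ∈ up t ↔ ∃ a ∈ t, x = some (some a) := by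
  unfold up
  simp only [mem_map, Function.Embedding.some_apply]
  constructor
  · rintro ⟨_, ⟨a, ha, rfl⟩, rfl⟩
    exact ⟨a, ha, rfl⟩
  · rintro ⟨a, ha, rfl⟩
    exact ⟨some a, ⟨a, ha, rfl⟩, rfl⟩

theorem mem_dbl {t : Finset α} {x : Option (Option α)} : x ∈ dbl t ↔ x = none ∨ x = some none ∨ ∃ a ∈ t, x = some (some a) := by
  unfold dbl
  rcases x with _ | _ | x
  · simp
  · simp [mem_insertNone]
  · simp [mem_insertNone]

theorem up_sd_dbl (t b : Finset α) : symmDiff (up t) (dbl b) = dbl (symmDiff t b) := by
  ext x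
  rw [mem_symmDiff, mem_up, mem_dbl, mem_dbl]
  rcases x with _ | _ | x
  · simp
  · simp
  · simp [mem_symmDiff]

theorem dbl_sd_dbl (t b : Finset α) : symmDiff (dbl t) (dbl b) = up (symmDiff t b) := by
  ext x
  rw [mem_symmDiff, mem_up, mem_dbl, mem_dbl]
  rcases x with _ | _ | x
  · simp
  · simp
  · simp [mem_symmDiff]

section
variable {v : Finset (Option (Option α))} (hv : IsV B v)
include hα hB hv

theorem lift22 {t : Finset α} (ht : InC B t) :
    (InC (G22 B v) (up t) ∧ Even (t ∩ fin' v).card) ∨ (InC (G22 B v) (dbl t) ∧ ¬ Even (t ∩ fin' v).card) := by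
  induction ht with
  | empty =>
    left
    refine ⟨?_, by simp⟩
    have : up (∅ : Finset α) = ∅ := by
      unfold up
      simp
    rw [this]
    exact InC.empty
  | @add s b hs hb ih =>
    have h1 := card_sd_inter s b (fin' v)
    have h2 := v_odd hα hB hv hb
    rw [Finset.inter_comm] at h2
    have hg : dbl b ∈ G22 B v := Or.inr ⟨b, hb, rfl⟩
    rcases ih with ⟨h3, h4⟩ | ⟨h3, h4⟩
    · right
      rw [← up_sd_dbl]
      refine ⟨h3.add hg, ?_⟩
      rw [Nat.even_iff] at *
      rw [Nat.odd_iff] at h2
      omega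
    · left
      rw [← dbl_sd_dbl]
      refine ⟨h3.add hg, ?_⟩
      rw [Nat.even_iff] at *
      rw [Nat.odd_iff] at h2
      omega

theorem up_fin {t : Finset (Option (Option α))} (h0 : none ∉ t) (h1 : some none ∉ t) : up (fin' t) = t := by
  ext x
  rw [mem_up]
  unfold fin'
  constructor
  · rintro ⟨a, ha, rfl⟩
    rw [mem_eraseNone, mem_eraseNone] at ha
    exact ha
  · intro hx
    rcases x with _ | _ | x
    · exact absurd hx h0
    · exact absurd hx h1
    · exact ⟨x, by rw [mem_eraseNone, mem_eraseNone]; exact hx, rfl⟩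

theorem sd22_aux {t : Finset (Option (Option α))} (h : ∀ g ∈ G22 B v, Even (t ∩ g).card) (h0 : none ∉ t)
    (h1 : some none ∉ t) : InC (G22 B v) t := by
  have hn2 : n2 t = 0 := by
    unfold n2
    rw [if_neg h0, if_neg h1]
  have hred : InC B (fin' t) := by
    apply red22 hα hB _ _ rfl
    intro b hb
    have := h _ (Or.inr ⟨b, hb, rfl⟩)
    rwa [card_inter_dbl, hn2, add_zero] at this
  rcases lift22 hα hB hv hred with ⟨h2, h3⟩ | ⟨h2, h3⟩
  · rwa [up_fin hα hB hv h0 h1] at h2
  · exfalso
    apply h3
    have h4 := h v (Or.inl rfl)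
    have : (fin' t ∩ fin' v).card = (t ∩ v).card := by
      rw [card_fin (t ∩ v)]
      have e1 : n2 (t ∩ v) = 0 := by
        unfold n2
        rw [if_neg (fun h => h0 (mem_inter.1 h).1), if_neg (fun h => h1 (mem_inter.1 h).1)]
      have e2 : fin' (t ∩ v) = fin' t ∩ fin' v := by
        ext x
        unfold fin'
        simp only [mem_inter, mem_eraseNone]
      rw [e1, e2, add_zero]
    rw [this]
    exact h4

theorem exists_block : ∃ b, b ∈ B := by
  have h1 : (univ : Finset α).card = 22 := by rw [card_univ, hα]
  obtain ⟨u, -, huc⟩ := Finset.exists_subset_card_eq (s := (univ : Finset α)) (n := 3) (by omega)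
  obtain ⟨b, ⟨hb, -⟩, -⟩ := hB.2 u huc
  exact ⟨b, hb⟩

theorem even_sd {t g : Finset (Option (Option α))} (h : ∀ c ∈ G22 B v, Even (t ∩ c).card) (hg : g ∈ G22 B v) :
    ∀ c ∈ G22 B v, Even (symmDiff t g ∩ c).card := by
  intro c hc
  have e := card_sd_inter t g c
  have e1 := h c hc
  have e2 := g22_ev hα hB hv g hg c hc
  rw [Nat.even_iff] at *
  omega

theorem undo {t g : Finset (Option (Option α))} (hg : g ∈ G22 B v) (h : InC (G22 B v) (symmDiff t g)) : InC (G22 B v) t := by
  have := h.add hg
  rwa [symmDiff_assoc, symmDiff_self, symmDiff_bot] at this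

theorem sd22 {t : Finset (Option (Option α))} (h : ∀ g ∈ G22 B v, Even (t ∩ g).card) : InC (G22 B v) t := by
  obtain ⟨b, hb⟩ := exists_block hα hB hv
  have hbG : dbl b ∈ G22 B v := Or.inr ⟨b, hb, rfl⟩
  have hvG : v ∈ G22 B v := Or.inl rfl
  have b0 : none ∈ dbl b := mem_dbl.2 (Or.inl rfl)
  have b1 : some none ∈ dbl b := mem_dbl.2 (Or.inr (Or.inl rfl))
  by_cases h0 : none ∈ t
  · by_cases h1 : some none ∈ t
    · apply undo hα hB hv hbG
      apply sd22_aux hα hB hv (even_sd hα hB hv h hbG)
      · rw [mem_symmDiff]; tauto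
      · rw [mem_symmDiff]; tauto
    · apply undo hα hB hv hvG
      apply sd22_aux hα hB hv (even_sd hα hB hv h hvG)
      · rw [mem_symmDiff]; have := hv.2.1; tauto
      · rw [mem_symmDiff]; have := hv.2.2; tauto
  · by_cases h1 : some none ∈ t
    · apply undo hα hB hv hvG
      apply undo hα hB hv hbG
      apply sd22_aux hα hB hv (even_sd hα hB hv (even_sd hα hB hv h hvG) hbG)
      · rw [mem_symmDiff, mem_symmDiff]; have := hv.2.1; tauto
      · rw [mem_symmDiff, mem_symmDiff]; have := hv.2.2; tauto
    · exact sd22_aux hα hB hv h h0 h1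

theorem hat22 : IsSteinerSystem 5 8 (hat (G22 B v)) := by
  have hc24 : Fintype.card (Option (Option α)) = 24 := by rw [Fintype.card_option, Fintype.card_option, hα]
  have h1 := finrank_code hc24 (G22 B v) (g22_ev hα hB hv) (fun t ht => sd22 hα hB hv ht)
  have h2 := steiner_of_code hc24 (code (G22 B v)) h1
    (fun s hs => (mem_code.1 hs).four_dvd (g22_4 hα hB hv) (g22_ev hα hB hv))
    (fun s hs => g22_no4 hα hB hv s (mem_code.1 hs))
  have h3 : wordsOfWeight (code (G22 B v) : Set (Option (Option α) → ZMod 2)) 8 = hat (G22 B v) := by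
    ext s
    rw [mem_words, mem_code]
    rfl
  rwa [h3] at h2

theorem mem_hat22 {b : Finset α} : dbl b ∈ hat (G22 B v) ↔ b ∈ B := by
  have hmem : ∀ c ∈ B, dbl c ∈ hat (G22 B v) := fun c hc =>
    ⟨InC.of_mem (Or.inr ⟨c, hc, rfl⟩), by rw [card_dbl, hB.1 c hc]⟩
  constructor
  · intro h
    have h6 : b.card = 6 := by
      have := h.2
      rw [card_dbl] at this
      omega
    obtain ⟨u, hu, huc⟩ := Finset.exists_subset_card_eq (s := b) (n := 3) (by omega)
    obtain ⟨c, ⟨hc, huc'⟩, -⟩ := hB.2 u huc
    have := hat_unique (g22_4 hα hB hv) (g22_ev hα hB hv) (g22_no4 hα hB hv) h (hmem c hc) (by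
        rw [dbl_inter, card_dbl]
        have := card_le_card (subset_inter hu huc')
        omega)
    have hbc : b = c := by
      have h1 := congrArg fin' this
      unfold fin' dbl at h1
      rwa [eraseNone_insertNone, eraseNone_insertNone, eraseNone_insertNone, eraseNone_insertNone] at h1
    rw [hbc]
    exact hc
  · exact hmem b
end

end Cfsg.Agent.H7.St
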