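import Cfsg.Statements.S0378
import Cfsg.Agent.H7_M24b

set_option autoImplicit false
open Cfsg

open Cfsg.Agent.H7.Golay
open Cfsg.Agent.H7.Oct
open Cfsg.Agent.H7.M24
open Cfsg.Agent.H7.M24b

namespace Cfsg.Agent.S0378

/-- A two-point stabiliser in the group of the length-24 code has order 443520 = 2^7·3^2·5·7·11. -/
theorem result (p q : Cfsg.GolayPt) (hpq : p ≠ q) : Nat.card ↥(MulAction.stabilizer Cfsg.M24 p ⊓ MulAction.stabilizer Cfsg.M24 q) = 443520 := by
  have hinj : Function.Injective (![p, q] : Fin 2 → GolayPt) := by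
    intro i j hij
    fin_cases i <;> fin_cases j <;> simp_all
  have h := card_stab_tuple 2 (by norm_num) ![p, q] hinj
  have h2 : Nat.card ↥(MulAction.stabilizer M24 p ⊓ MulAction.stabilizer M24 q) =
      Nat.card ↥(M24 ⊓ MulAction.stabilizer (Equiv.Perm GolayPt) (![p, q] : Fin 2 → GolayPt)) := by
    apply card_sub
    intro g
    rw [Subgroup.mem_inf, MulAction.mem_stabilizer_iff, MulAction.mem_stabilizer_iff, MulAction.mem_stabilizer_iff]
    constructor
    · rintro ⟨h1, h2⟩
      funext i
      fin_cases i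
      · exact h1
      · exact h2
    · intro h; exact ⟨congrFun h 0, congrFun h 1⟩
  rw [h2]
  have h3 : Nat.descFactorial 24 2 = 552 := rfl
  rw [h3] at h
  omega

end Cfsg.Agent.S0378
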