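import Cfsg.Statements.S0379
import Cfsg.Agent.H7_M24d

set_option autoImplicit false
open Cfsg

open Cfsg.Agent.H7.Golay
open Cfsg.Agent.H7.Oct
open Cfsg.Agent.H7.M24
open Cfsg.Agent.H7.M24b
open Cfsg.Agent.H7.M24c
open Cfsg.Agent.H7.M24d

namespace Cfsg.Agent.S0379

/-- A two-point stabiliser in the group of the length-24 code is simple. -/
theorem result (p q : Cfsg.GolayPt) (hpq : p ≠ q) : IsSimpleGroup ↥(MulAction.stabilizer Cfsg.M24 p ⊓ MulAction.stabilizer Cfsg.M24 q) := by
  obtain ⟨e⟩ := stab_two_equiv p q hpq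
  have := M22_simple
  exact e.isSimpleGroup

end Cfsg.Agent.S0379
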