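import Mathlib
import Cfsg.Agent.H7_St11
import Cfsg.Agent.S0378
import Cfsg.Agent.S0379

set_option autoImplicit false
set_option linter.all false

open Finset

/-! uniqueness of S(3,6,22) and its automorphism group. -/

namespace Cfsg.Agent.H7.St

open Cfsg
open scoped Pointwise

theorem exists_iso22 {α : Type*} [Fintype α] [DecidableEq α] {B : Set (Finset α)} (hα : Fintype.card α = 22)
    (hB : IsSteinerSystem 3 6 B) {v : Finset (Option (Option α))} (hv : IsV B v) :
    ∃ e : GolayPt ≃ Option (Option α), Iso octads (hat (G22 B v)) e ∧ e none = none ∧ e (some 0) = some none := by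
  have hinj : Function.Injective (![none, some 0] : Fin 2 → GolayPt) := by
    intro i j h
    fin_cases i <;> fin_cases j <;> simp_all
  have hinj' : Function.Injective (![none, some none] : Fin 2 → Option (Option α)) := by
    intro i j h
    fin_cases i <;> fin_cases j <;> simp_all
  obtain ⟨e, he, hp⟩ := iso24_pts (α := Option (Option α)) (B := hat (G22 B v))
    (by rw [Fintype.card_option, Fintype.card_option, hα]) (hat22 hα hB hv) 2 (by norm_num) ![none, some 0]
    ![none, some none] hinj hinj'
  exact ⟨e, he, hp 0, hp 1⟩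

theorem dbl_map {α β : Type*} {e : Option (Option α) ≃ Option (Option β)} (h : e none = none)
    (h' : Equiv.removeNone e none = none) (s : Finset α) :
    (insertNone (insertNone s)).map e.toEmbedding =
      insertNone (insertNone (s.map (Equiv.removeNone (Equiv.removeNone e)).toEmbedding)) := by
  rw [iN_map h, iN_map h']

theorem rn_none {α β : Type*} {e : Option (Option α) ≃ Option (Option β)} (h : e none = none)
    (h' : e (some none) = some none) : Equiv.removeNone e none = none := by
  have := rn h none
  rw [h'] at this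
  exact Option.some.inj this

theorem iso22 {α β : Type*} [Fintype α] [DecidableEq α] [Fintype β] [DecidableEq β] {B : Set (Finset α)}
    {C : Set (Finset β)} (hα : Fintype.card α = 22) (hβ : Fintype.card β = 22) (hB : IsSteinerSystem 3 6 B)
    (hC : IsSteinerSystem 3 6 C) : ∃ e : α ≃ β, Iso B C e := by
  obtain ⟨v, hv⟩ := exists_v hα hB
  obtain ⟨w, hw⟩ := exists_v hβ hC
  obtain ⟨e, he, e0, e1⟩ := exists_iso22 hα hB hv
  obtain ⟨f, hf, f0, f1⟩ := exists_iso22 hβ hC hw
  set g := e.symm.trans f with hg
  have g0 : g none = none := by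
    rw [hg, Equiv.trans_apply, ← e0, Equiv.symm_apply_apply, f0]
  have g1 : g (some none) = some none := by
    rw [hg, Equiv.trans_apply, ← e1, Equiv.symm_apply_apply, f1]
  have hgi : Iso (hat (G22 B v)) (hat (G22 C w)) g := he.symm.trans hf
  refine ⟨Equiv.removeNone (Equiv.removeNone g), ?_⟩
  intro s
  rw [← mem_hat22 hα hB hv, ← mem_hat22 hβ hC hw]
  unfold dbl
  rw [← dbl_map g0 (rn_none g0 g1)]
  exact hgi _

section aut
variable {α : Type*} [Fintype α] [DecidableEq α] {B : Set (Finset α)} (hα : Fintype.card α = 22)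
    (hB : IsSteinerSystem 3 6 B) {v : Finset (Option (Option α))} (hv : IsV B v)

/-- double extension of a permutation -/
def ext2 (g : Equiv.Perm α) : Equiv.Perm (Option (Option α)) := Equiv.optionCongr (Equiv.optionCongr g)

omit [Fintype α] [DecidableEq α] in
theorem ext2_mul (g h : Equiv.Perm α) : ext2 (g * h) = ext2 g * ext2 h := by
  ext1 x
  rcases x with _ | _ | x <;> rfl

omit [Fintype α] [DecidableEq α] in
theorem ext2_dbl (g : Equiv.Perm α) (s : Finset α) :
    (insertNone (insertNone s)).map (ext2 g).toEmbedding = insertNone (insertNone (s.map g.toEmbedding)) := by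
  have h0 : ext2 g none = none := rfl
  have h1 : Equiv.removeNone (ext2 g) = Equiv.optionCongr g := Equiv.removeNone_optionCongr _
  rw [dbl_map h0 (by rw [h1]; rfl), h1, Equiv.removeNone_optionCongr]

/-- the swap of the two extra points -/
def sw : Equiv.Perm (Option (Option α)) := Equiv.swap none (some none)

theorem sw_comm (g : Equiv.Perm α) : sw * ext2 g = ext2 g * sw := by
  ext1 x
  rcases x with _ | _ | x
  · show sw none = ext2 g (sw none)
    unfold sw
    rw [Equiv.swap_apply_left]
    rfl
  · show sw (some none) = ext2 g (sw (some none))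
    unfold sw
    rw [Equiv.swap_apply_right]
    rfl
  · show sw (some (some (g x))) = ext2 g (sw (some (some x)))
    unfold sw
    rw [Equiv.swap_apply_of_ne_of_ne (by simp) (by simp), Equiv.swap_apply_of_ne_of_ne (by simp) (by simp)]
    rfl

theorem sw_sw : (sw : Equiv.Perm (Option (Option α))) * sw = 1 := Equiv.swap_mul_self _ _

theorem sw_dbl (s : Finset α) : (dbl s).map (sw : Equiv.Perm (Option (Option α))).toEmbedding = dbl s := by
  ext x
  simp only [mem_map, Equiv.coe_toEmbedding]
  constructor
  · rintro ⟨y, hy, rfl⟩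
    rw [mem_dbl] at hy ⊢
    unfold sw
    rcases hy with rfl | rfl | ⟨a, ha, rfl⟩
    · rw [Equiv.swap_apply_left]; simp
    · rw [Equiv.swap_apply_right]; simp
    · rw [Equiv.swap_apply_of_ne_of_ne (by simp) (by simp)]; simp [ha]
  · intro hx
    rw [mem_dbl] at hx
    unfold sw
    rcases hx with rfl | rfl | ⟨a, ha, rfl⟩
    · exact ⟨some none, mem_dbl.2 (by simp), Equiv.swap_apply_right _ _⟩
    · exact ⟨none, mem_dbl.2 (by simp), Equiv.swap_apply_left _ _⟩
    · exact ⟨some (some a), mem_dbl.2 (by simp [ha]), Equiv.swap_apply_of_ne_of_ne (by simp) (by simp)⟩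

theorem sw_aux (v2 : Finset (Option (Option α))) (hn0 : none ∈ v2) (hn1 : some none ∉ v2) :
    symmDiff v2 {none, some none} = v2.map (sw : Equiv.Perm (Option (Option α))).toEmbedding := by
  ext x
  rw [mem_symmDiff, mem_map]
  constructor
  · rintro (⟨h1, h2⟩ | ⟨h1, h2⟩)
    · refine ⟨x, h1, ?_⟩
      rw [mem_insert, mem_singleton, not_or] at h2
      exact Equiv.swap_apply_of_ne_of_ne h2.1 h2.2
    · rw [mem_insert, mem_singleton] at h1
      rcases h1 with rfl | rfl
      · exact absurd hn0 h2
      · exact ⟨none, hn0, Equiv.swap_apply_left _ _⟩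
  · rintro ⟨y, hy, rfl⟩
    rcases y with _ | _ | y
    · right
      have : (sw : Equiv.Perm (Option (Option α))) none = some none := Equiv.swap_apply_left _ _
      show sw none ∈ _ ∧ sw none ∉ _
      rw [this]
      exact ⟨by simp, hn1⟩
    · exact absurd hy hn1
    · left
      have : (sw : Equiv.Perm (Option (Option α))) (some (some y)) = some (some y) :=
        Equiv.swap_apply_of_ne_of_ne (by simp) (by simp)
      show sw (some (some y)) ∈ _ ∧ sw (some (some y)) ∉ _
      rw [this]
      exact ⟨hy, by simp⟩

theorem mem_aut_hat {G : Set (Finset α)} {g : Equiv.Perm α} (h : ∀ b ∈ G, InC G (b.map g.toEmbedding)) :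
    g ∈ setSystemAut (hat G) := by
  rw [mem_aut]
  intro s hs
  exact ⟨InC.map _ h hs.1, by rw [card_map]; exact hs.2⟩

include hα hB hv in
/-- the extension, possibly corrected by the swap, preserves the octads -/
theorem ext_cases {g : Equiv.Perm α} (hg : g ∈ setSystemAut B) :
    ext2 g ∈ setSystemAut (hat (G22 B v)) ∨ sw * ext2 g ∈ setSystemAut (hat (G22 B v)) := by
  rw [mem_aut] at hg
  have hdbl : ∀ b ∈ G0 B, b.map (ext2 g).toEmbedding ∈ G0 B := by
    rintro _ ⟨b, hb, rfl⟩
    exact ⟨b.map g.toEmbedding, hg b hb, ext2_dbl g b⟩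
  set v2 := v.map (ext2 g).toEmbedding with hv2
  -- v2 meets every doubled block evenly
  have hev2 : ∀ c ∈ G0 B, Even (v2 ∩ c).card := by
    rintro _ ⟨b, hb, rfl⟩
    have hginv : g⁻¹ ∈ setSystemAut B := inv_mem (mem_aut.2 hg)
    rw [mem_aut] at hginv
    have h1 := hginv b hb
    have h2 : dbl b = (dbl (b.map (g⁻¹ : Equiv.Perm α).toEmbedding)).map (ext2 g).toEmbedding := by
      unfold dbl
      rw [ext2_dbl, Finset.map_map]
      congr 2
      have : ((g⁻¹ : Equiv.Perm α).toEmbedding.trans g.toEmbedding) = Function.Embedding.refl α := by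
        ext x; simp
      rw [this, Finset.map_refl]
    rw [h2, hv2, ← Finset.map_inter, card_map]
    exact hv.1 _ ⟨_, h1, rfl⟩
  have hn0 : none ∈ v2 := by
    rw [hv2, mem_map]
    exact ⟨none, hv.2.1, rfl⟩
  have hn1 : some none ∉ v2 := by
    rw [hv2, mem_map]
    rintro ⟨x, hx, hx'⟩
    rcases x with _ | _ | x
    · exact absurd hx' (by show ¬ (none : Option (Option α)) = some none; simp)
    · exact hv.2.2 hx
    · exact absurd hx' (by show ¬ (some (some (g x)) : Option (Option α)) = some none; simp)
  set t := symmDiff v v2 with ht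
  have t0 : none ∉ t := by
    rw [ht, mem_symmDiff]; have := hv.2.1; tauto
  have t1 : some none ∉ t := by
    rw [ht, mem_symmDiff]; have := hv.2.2; tauto
  have htev : ∀ c ∈ G0 B, Even (t ∩ c).card := by
    intro c hc
    have e := card_sd_inter v v2 c
    rw [← ht] at e
    have e1 := hv.1 c hc
    have e2 := hev2 c hc
    rw [Nat.even_iff] at *
    omega
  have hred : InC B (fin' t) := by
    apply red22 hα hB _ _ rfl
    intro b hb
    have := htev _ ⟨b, hb, rfl⟩
    rw [card_inter_dbl] at this
    unfold n2 at this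
    rwa [if_neg t0, if_neg t1, add_zero, add_zero] at this
  have hvI : InC (G22 B v) v := InC.of_mem (Or.inl rfl)
  have hG0 : ∀ b ∈ G0 B, InC (G22 B v) b := fun b hb => InC.of_mem (Or.inr hb)
  rcases lift22 hα hB hv hred with ⟨h1, -⟩ | ⟨h1, -⟩
  · left
    rw [up_fin hα hB hv t0 t1] at h1
    apply mem_aut_hat
    rintro b (rfl | hb)
    · have h2 := hvI.symm h1
      rw [ht, ← symmDiff_assoc, symmDiff_self, bot_symmDiff] at h2
      exact h2
    · exact hG0 _ (hdbl b hb)
  · right
    apply mem_aut_hat
    rintro b (rfl | hb)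
    · have h2 := hvI.symm h1
      have h3 : symmDiff b (dbl (fin' t)) = b.map (sw * ext2 g : Equiv.Perm (Option (Option α))).toEmbedding := by
        have e1 : dbl (fin' t) = symmDiff t {none, some none} := by
          rw [← up_fin hα hB hv t0 t1]
          ext x
          rw [mem_dbl, mem_symmDiff, mem_up]
          rcases x with _ | _ | x
          · simp
          · simp
          · simp [up_fin hα hB hv t0 t1]
        rw [e1, ht, symmDiff_assoc, ← symmDiff_assoc, symmDiff_self, bot_symmDiff]
        have e2 : b.map (sw * ext2 g : Equiv.Perm (Option (Option α))).toEmbedding = v2.map sw.toEmbedding := by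
          rw [hv2, Finset.map_map]
          rfl
        rw [e2]
        exact sw_aux v2 hn0 hn1
      rw [← h3]
      exact h2
    · have h4 : b.map (sw * ext2 g : Equiv.Perm (Option (Option α))).toEmbedding =
          (b.map (ext2 g).toEmbedding).map sw.toEmbedding := by
        rw [Finset.map_map]
        rfl
      rw [h4]
      obtain ⟨c, hc, hbc⟩ := hdbl b hb
      rw [hbc, sw_dbl]
      exact hG0 _ ⟨c, hc, rfl⟩

end aut

end Cfsg.Agent.H7.St
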