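import Mathlib
import Cfsg.Agent.H7_St12

set_option autoImplicit false
set_option linter.all false

open Finset

/-! The automorphism group of S(3,6,22). -/

namespace Cfsg.Agent.H7.St

open Cfsg
open scoped Pointwise

section aut
variable {α : Type*} [Fintype α] [DecidableEq α] {B : Set (Finset α)} (hα : Fintype.card α = 22)
    (hB : IsSteinerSystem 3 6 B) {v : Finset (Option (Option α))} (hv : IsV B v)
include hα hB hv

theorem sw_not : (sw : Equiv.Perm (Option (Option α))) ∉ setSystemAut (hat (G22 B v)) := by
  have hc24 : Fintype.card (Option (Option α)) = 24 := by rw [Fintype.card_option, Fintype.card_option, hα]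
  have hS := hat22 hα hB hv
  intro h
  rw [mem_aut] at h
  have h1 := lam24_1 hc24 hS {none} (card_singleton _)
  have h2 := lam24_2 hc24 hS {none, some none} (card_pair (by simp))
  have hlt : ((bl (hat (G22 B v))).filter (fun b => ({none, some none} : Finset (Option (Option α))) ⊆ b)).card <
      ((bl (hat (G22 B v))).filter (fun b => ({none} : Finset (Option (Option α))) ⊆ b)).card := by omega
  obtain ⟨o, ho1, ho2⟩ := Finset.exists_mem_notMem_of_card_lt_card hlt
  rw [mem_filter, mem_bl, singleton_subset_iff] at ho1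
  have hn1 : some none ∉ o := by
    intro hh
    apply ho2
    rw [mem_filter, mem_bl]
    refine ⟨ho1.1, ?_⟩
    rw [insert_subset_iff, singleton_subset_iff]
    exact ⟨ho1.2, hh⟩
  have h3 := h o ho1.1
  rw [← sw_aux o ho1.2 hn1] at h3
  have h4 := card_sd o {none, some none}
  rw [hS.1 _ ho1.1, card_pair (by simp), hS.1 _ h3] at h4
  -- intersection with the image has 7 points
  have h5 := card_sd o (symmDiff o {none, some none})
  rw [← symmDiff_assoc, symmDiff_self, bot_symmDiff, card_pair (by simp), hS.1 _ ho1.1, hS.1 _ h3] at h5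
  have := eq_of_inter hS ho1.1 h3 (by omega)
  have h6 : (none : Option (Option α)) ∈ symmDiff o {none, some none} := by
    rw [← this]
    exact ho1.2
  rw [mem_symmDiff] at h6
  rcases h6 with ⟨-, h6⟩ | ⟨-, h6⟩
  · exact h6 (by simp)
  · exact h6 ho1.2

/-- restriction of an element fixing both extra points -/
theorem restrict {τ : Equiv.Perm (Option (Option α))} (h0 : τ none = none) (h1 : τ (some none) = some none) :
    ext2 (Equiv.removeNone (Equiv.removeNone τ)) = τ := by
  have hr := rn_none h0 h1
  ext1 x
  rcases x with _ | _ | x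
  · rw [h0]; rfl
  · rw [h1]; rfl
  · show some (some (Equiv.removeNone (Equiv.removeNone τ) x)) = _
    rw [rn hr, rn h0]

theorem restrict_mem {σ : Equiv.Perm α} (h : ext2 σ ∈ setSystemAut (hat (G22 B v)) ∨
    sw * ext2 σ ∈ setSystemAut (hat (G22 B v))) : σ ∈ setSystemAut B := by
  rw [mem_aut]
  intro s hs
  rw [← mem_hat22 hα hB hv] at hs ⊢
  rcases h with h | h
  · rw [mem_aut] at h
    have h1 := h _ hs
    unfold dbl at h1
    rw [ext2_dbl] at h1
    exact h1
  · rw [mem_aut] at h
    have h1 := h _ hs
    have h4 : (dbl s).map (sw * ext2 σ : Equiv.Perm (Option (Option α))).toEmbedding =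
          ((dbl s).map (ext2 σ).toEmbedding).map sw.toEmbedding := by
        rw [Finset.map_map]
        rfl
    rw [h4] at h1
    have h5 : (dbl s).map (ext2 σ).toEmbedding = dbl (s.map σ.toEmbedding) := ext2_dbl σ s
    rw [h5, sw_dbl] at h1
    exact h1

/-- elements of the octad group with prescribed images of at most five points -/
theorem N_trans (k : ℕ) (hk : k ≤ 5) (x y : Fin k → Option (Option α)) (hx : Function.Injective x)
    (hy : Function.Injective y) : ∃ τ ∈ setSystemAut (hat (G22 B v)), ∀ i, τ (x i) = y i := by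
  obtain ⟨e, he, -, -⟩ := exists_iso22 hα hB hv
  obtain ⟨g, hg, h⟩ := H7.M24b.ktrans k hk (fun i => e.symm (x i)) (fun i => e.symm (y i))
    (e.symm.injective.comp hx) (e.symm.injective.comp hy)
  rw [H7.M24b.M24_eq_aut_octads] at hg
  refine ⟨he.aut ⟨g, hg⟩, (he.aut ⟨g, hg⟩).2, fun i => ?_⟩
  rw [he.aut_apply]
  show e (g (e.symm (x i))) = y i
  rw [h i, Equiv.apply_symm_apply]

theorem trans22 : MulAction.IsMultiplyPretransitive (setSystemAut B) α 3 := by
  rw [MulAction.isMultiplyPretransitive_iff]
  intro x y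
  have hinj : ∀ z : Fin 3 ↪ α, Function.Injective (Fin.cons none (Fin.cons (some none) (fun i => some (some (z i)))) :
      Fin 5 → Option (Option α)) := by
    intro z
    rw [Fin.cons_injective_iff, Fin.cons_injective_iff]
    refine ⟨?_, ?_, fun i j hij => z.injective (Option.some.inj (Option.some.inj hij))⟩
    · rintro ⟨i, hi⟩
      refine Fin.cases ?_ ?_ i hi
      · intro h
        exact absurd h (by simp)
      · intro j h
        exact absurd h (by simp)
    · rintro ⟨i, hi⟩
      exact absurd hi (by simp)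
  obtain ⟨τ, hτ, h⟩ := N_trans hα hB hv 5 le_rfl _ _ (hinj x) (hinj y)
  have h0 : τ none = none := h 0
  have h1 : τ (some none) = some none := h 1
  have hr := restrict hα hB hv h0 h1
  refine ⟨⟨Equiv.removeNone (Equiv.removeNone τ), restrict_mem hα hB hv (Or.inl (by rw [hr]; exact hτ))⟩,
    DFunLike.ext _ _ fun i => ?_⟩
  have h2 := h i.succ.succ
  simp only [Fin.cons_succ] at h2
  rw [← hr] at h2
  exact Option.some.inj (Option.some.inj h2)

omit hα hB hv in
theorem ext2_one : ext2 (1 : Equiv.Perm α) = 1 := by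
  ext1 x
  rcases x with _ | _ | x <;> rfl

omit hα hB hv in
def ext2Hom : Equiv.Perm α →* Equiv.Perm (Option (Option α)) where
  toFun := ext2
  map_one' := ext2_one
  map_mul' := ext2_mul

omit hα hB hv in
/-- the index-two subgroup -/
def H22 (B : Set (Finset α)) (v : Finset (Option (Option α))) : Subgroup (setSystemAut B) :=
  (setSystemAut (hat (G22 B v))).comap (ext2Hom.comp (setSystemAut B).subtype)

omit hα hB hv in
theorem mem_H22 {σ : setSystemAut B} : σ ∈ H22 B v ↔ ext2 (σ : Equiv.Perm α) ∈ setSystemAut (hat (G22 B v)) := Iff.rfl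

theorem index22 : (H22 B v).index = 2 := by
  rw [Subgroup.index_eq_two_iff]
  -- an element exchanging the two points
  obtain ⟨τ, hτ, h⟩ := N_trans hα hB hv 2 (by norm_num) ![none, some none] ![some none, none]
    (by intro i j h; fin_cases i <;> fin_cases j <;> simp_all)
    (by intro i j h; fin_cases i <;> fin_cases j <;> simp_all)
  have t0 : τ none = some none := h 0
  have t1 : τ (some none) = none := h 1
  have s0 : (sw * τ : Equiv.Perm (Option (Option α))) none = none := by
    rw [Equiv.Perm.mul_apply, t0]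
    exact Equiv.swap_apply_right _ _
  have s1 : (sw * τ : Equiv.Perm (Option (Option α))) (some none) = some none := by
    rw [Equiv.Perm.mul_apply, t1]
    exact Equiv.swap_apply_left _ _
  have hr := restrict hα hB hv s0 s1
  have hsw : sw * ext2 (Equiv.removeNone (Equiv.removeNone (sw * τ))) = τ := by
    rw [hr, ← mul_assoc, sw_sw, one_mul]
  have hmem : Equiv.removeNone (Equiv.removeNone (sw * τ)) ∈ setSystemAut B :=
    restrict_mem hα hB hv (Or.inr (by rw [hsw]; exact hτ))
  refine ⟨⟨_, hmem⟩, ?_⟩
  intro b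
  set σ0 := Equiv.removeNone (Equiv.removeNone (sw * τ)) with hσ0
  have hN : sw * ext2 σ0 ∈ setSystemAut (hat (G22 B v)) := by rw [hsw]; exact hτ
  have key : ∀ g : Equiv.Perm α, ext2 g ∈ setSystemAut (hat (G22 B v)) → sw * ext2 g ∈ setSystemAut (hat (G22 B v)) → False := by
    intro g h1 h2
    apply sw_not hα hB hv
    have := mul_mem h2 (inv_mem h1)
    rwa [mul_assoc, mul_inv_cancel, mul_one] at this
  have hnot : ext2 σ0 ∉ setSystemAut (hat (G22 B v)) := fun h => key _ h hN
  by_cases hb : b ∈ H22 B v
  · right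
    refine ⟨hb, ?_⟩
    intro hba
    rw [mem_H22] at hb hba
    have h3 : ext2 ((b * ⟨σ0, hmem⟩ : setSystemAut B) : Equiv.Perm α) = ext2 (b : Equiv.Perm α) * ext2 σ0 := ext2_mul _ _
    rw [h3] at hba
    apply hnot
    have := mul_mem (inv_mem hb) hba
    rwa [← mul_assoc, inv_mul_cancel, one_mul] at this
  · left
    refine ⟨?_, hb⟩
    rw [mem_H22] at hb ⊢
    have h3 : ext2 ((b * ⟨σ0, hmem⟩ : setSystemAut B) : Equiv.Perm α) = ext2 (b : Equiv.Perm α) * ext2 σ0 := ext2_mul _ _
    rw [h3]
    have hb' : sw * ext2 (b : Equiv.Perm α) ∈ setSystemAut (hat (G22 B v)) := (ext_cases hα hB hv b.2).resolve_left hb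
    have := mul_mem hb' hN
    have e : sw * ext2 (b : Equiv.Perm α) * (sw * ext2 σ0) = ext2 (b : Equiv.Perm α) * ext2 σ0 := by
      rw [sw_comm, mul_assoc, ← mul_assoc sw sw, sw_sw, one_mul]
    rwa [e] at this

/-- the index-two subgroup is the two-point stabiliser in M24 -/
theorem equiv22 : Nonempty (H22 B v ≃* ↥(MulAction.stabilizer M24 (none : GolayPt) ⊓ MulAction.stabilizer M24 (some 0 : GolayPt))) := by
  obtain ⟨e, he, e0, e1⟩ := exists_iso22 hα hB hv
  have hM := H7.M24b.M24_eq_aut_octads
  let f : H22 B v →* M24 := 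
    { toFun := fun σ => ⟨(he.aut.symm ⟨ext2 ((σ : setSystemAut B) : Equiv.Perm α), σ.2⟩ : setSystemAut octads), by
        rw [hM]; exact (he.aut.symm ⟨ext2 ((σ : setSystemAut B) : Equiv.Perm α), σ.2⟩).2⟩
      map_one' := by
        apply Subtype.ext
        have : (⟨ext2 (((1 : H22 B v) : setSystemAut B) : Equiv.Perm α), (1 : H22 B v).2⟩ : setSystemAut (hat (G22 B v))) = 1 := by
          apply Subtype.ext
          ext1 x
          rcases x with _ | _ | x <;> rfl
        show ((he.aut.symm _ : setSystemAut octads) : Equiv.Perm GolayPt) = 1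
        rw [this, map_one]
        rfl
      map_mul' := by
        intro a b
        apply Subtype.ext
        have : (⟨ext2 (((a * b : H22 B v) : setSystemAut B) : Equiv.Perm α), (a * b : H22 B v).2⟩ : setSystemAut (hat (G22 B v))) =
          ⟨ext2 ((a : setSystemAut B) : Equiv.Perm α), a.2⟩ * ⟨ext2 ((b : setSystemAut B) : Equiv.Perm α), b.2⟩ := by
          apply Subtype.ext
          exact ext2_mul _ _
        show ((he.aut.symm _ : setSystemAut octads) : Equiv.Perm GolayPt) = _
        rw [this, map_mul]
        rfl }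
  have hf : ∀ (σ : H22 B v) (x : GolayPt), ((f σ : M24) : Equiv.Perm GolayPt) x =
      e.symm (ext2 ((σ : setSystemAut B) : Equiv.Perm α) (e x)) := by
    intro σ x
    have h1 := he.aut_apply (he.aut.symm ⟨ext2 ((σ : setSystemAut B) : Equiv.Perm α), σ.2⟩) (e x)
    rw [MulEquiv.apply_symm_apply, Equiv.symm_apply_apply] at h1
    rw [Equiv.eq_symm_apply]
    exact h1.symm
  have hinj : Function.Injective f := by
    intro a b hab
    apply Subtype.ext
    apply Subtype.ext
    ext1 x
    have h1 := congrArg (fun g : M24 => (g : Equiv.Perm GolayPt) (e.symm (some (some x)))) hab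
    simp only [hf, Equiv.apply_symm_apply, EmbeddingLike.apply_eq_iff_eq] at h1
    exact Option.some.inj (Option.some.inj h1)
  have hrange : f.range = MulAction.stabilizer M24 (none : GolayPt) ⊓ MulAction.stabilizer M24 (some 0 : GolayPt) := by
    ext g
    rw [MonoidHom.mem_range, Subgroup.mem_inf, MulAction.mem_stabilizer_iff, MulAction.mem_stabilizer_iff]
    constructor
    · rintro ⟨σ, rfl⟩
      constructor
      · show ((f σ : M24) : Equiv.Perm GolayPt) none = none
        rw [hf, e0]
        show e.symm none = none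
        rw [Equiv.symm_apply_eq, e0]
      · show ((f σ : M24) : Equiv.Perm GolayPt) (some 0) = some 0
        rw [hf, e1]
        show e.symm (some none) = some 0
        rw [Equiv.symm_apply_eq, e1]
    · rintro ⟨h0, h1⟩
      have h0 : (g : Equiv.Perm GolayPt) none = none := h0
      have h1 : (g : Equiv.Perm GolayPt) (some 0) = some 0 := h1
      have hg : (g : Equiv.Perm GolayPt) ∈ setSystemAut octads := by rw [← hM]; exact g.2
      set τ := he.aut ⟨g, hg⟩ with hτ
      have hτx : ∀ x, (τ : Equiv.Perm (Option (Option α))) x = e ((g : Equiv.Perm GolayPt) (e.symm x)) := fun x =>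
        he.aut_apply _ x
      have t0 : (τ : Equiv.Perm (Option (Option α))) none = none := by
        rw [hτx, show e.symm none = none by rw [Equiv.symm_apply_eq, e0], h0, e0]
      have t1 : (τ : Equiv.Perm (Option (Option α))) (some none) = some none := by
        rw [hτx, show e.symm (some none) = some 0 by rw [Equiv.symm_apply_eq, e1], h1, e1]
      have hr := restrict hα hB hv t0 t1
      have hmem : ext2 (Equiv.removeNone (Equiv.removeNone (τ : Equiv.Perm (Option (Option α))))) ∈
          setSystemAut (hat (G22 B v)) := by rw [hr]; exact τ.2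
      refine ⟨⟨⟨_, restrict_mem hα hB hv (Or.inl hmem)⟩, hmem⟩, ?_⟩
      apply Subtype.ext
      ext1 x
      rw [hf]
      show e.symm (ext2 (Equiv.removeNone (Equiv.removeNone (τ : Equiv.Perm (Option (Option α))))) (e x)) = _
      rw [hr, hτx, Equiv.symm_apply_apply, Equiv.symm_apply_apply]
  rw [← hrange]
  exact ⟨MonoidHom.ofInjective hinj⟩

end aut

theorem aut22 {α : Type*} [Fintype α] [DecidableEq α] {B : Set (Finset α)} (hα : Fintype.card α = 22)
    (hB : IsSteinerSystem 3 6 B) : Nat.card (setSystemAut B) = 887040 ∧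
    MulAction.IsMultiplyPretransitive (setSystemAut B) α 3 ∧
    ∃ H : Subgroup (setSystemAut B), H.index = 2 ∧ (IsSimpleGroup H ∧ Nat.card H = 443520) := by
  obtain ⟨v, hv⟩ := exists_v hα hB
  obtain ⟨f⟩ := equiv22 hα hB hv
  have h1 := index22 hα hB hv
  have h2 := simple_card f.symm ⟨Cfsg.Agent.S0379.result none (some 0) (by simp), Cfsg.Agent.S0378.result none (some 0) (by simp)⟩
  refine ⟨?_, trans22 hα hB hv, H22 B v, h1, h2⟩
  rw [← (H22 B v).card_mul_index, h1, h2.2]

end Cfsg.Agent.H7.St
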