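import Mathlib
import Cfsg.Agent.H7_St2

set_option autoImplicit false
set_option linter.all false

open Finset

namespace Cfsg.Agent.H7.St

section SRG
variable {α : Type*} [Fintype α] [DecidableEq α] {B : Set (Finset α)} (hα : Fintype.card α = 22)
  (hB : IsSteinerSystem 3 6 B)

open Classical in
theorem card_sub (S : Set B) : Nat.card S = ((bl B).filter (fun c => ∃ h : c ∈ B, (⟨c, h⟩ : B) ∈ S)).card := by
  rw [Nat.card_coe_set_eq, ← Set.ncard_image_of_injective S Subtype.val_injective, ← Set.ncard_coe_finset]
  congr 1
  ext c
  simp only [Set.mem_image, coe_filter, mem_bl, Set.mem_ofPred_eq]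
  constructor
  · rintro ⟨⟨x, hx⟩, h1, rfl⟩
    exact ⟨hx, hx, h1⟩
  · rintro ⟨h1, h2, h3⟩
    exact ⟨⟨c, h2⟩, h3, rfl⟩

theorem adj_block (hB : IsSteinerSystem 3 6 B) (b c : B) :
    (blockGraph B).Adj b c ↔ ((b : Finset α) ∩ c).card = 0 := by
  unfold blockGraph
  rw [SimpleGraph.fromRel_adj, Finset.card_eq_zero, ← Finset.disjoint_iff_inter_eq_empty]
  constructor
  · rintro ⟨_, h | h⟩
    · exact h
    · exact h.symm
  · intro h
    refine ⟨?_, Or.inl h⟩
    rintro rfl
    rw [Finset.disjoint_self_iff_empty] at h
    have := hB.1 _ b.2
    rw [h] at this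
    simp at this

include hα hB in
theorem srg77 [Fintype B] [DecidableRel (blockGraph B).Adj] : (blockGraph B).IsSRGWith 77 16 0 4 := by
  have hcommon : ∀ v w : B, Fintype.card ((blockGraph B).commonNeighbors v w) = xi B ((v : Finset α) ∪ w) 0 := by
    intro v w
    rw [← Nat.card_eq_fintype_card, card_sub]
    unfold xi
    apply congrArg Finset.card
    ext c
    simp only [mem_filter, mem_bl, SimpleGraph.mem_commonNeighbors]
    constructor
    · rintro ⟨h1, h2, h3, h4⟩
      rw [adj_block hB] at h3 h4
      refine ⟨h1, ?_⟩
      have := inter_union (v : Finset α) w c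
      dsimp only at h3 h4
      omega
    · rintro ⟨h1, h2⟩
      refine ⟨h1, h1, ?_, ?_⟩
      · rw [adj_block hB]
        have := Finset.card_le_card (Finset.inter_subset_inter_right (s := (v : Finset α)) (t := (v : Finset α) ∪ w) (u := c) Finset.subset_union_left)
        dsimp only
        omega
      · rw [adj_block hB]
        have := Finset.card_le_card (Finset.inter_subset_inter_right (s := (w : Finset α)) (t := (v : Finset α) ∪ w) (u := c) Finset.subset_union_right)
        dsimp only
        omega
  constructor
  · rw [← Nat.card_eq_fintype_card, Nat.card_coe_set_eq]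
    have := count hB
    rw [hα] at this
    norm_num [Nat.choose] at this
    omega
  · intro v
    rw [← SimpleGraph.card_neighborSet_eq_degree, ← Nat.card_eq_fintype_card, card_sub]
    refine Eq.trans ?_ (xi22 hα hB v.2).1
    unfold xi
    apply congrArg Finset.card
    ext c
    simp only [mem_filter, mem_bl, SimpleGraph.mem_neighborSet]
    constructor
    · rintro ⟨h1, h2, h3⟩
      rw [adj_block hB] at h3
      exact ⟨h1, h3⟩
    · rintro ⟨h1, h2⟩
      exact ⟨h1, h1, by rw [adj_block hB]; exact h2⟩
  · intro v w h
    rw [adj_block hB] at h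
    rw [hcommon, disj_both_0 hα hB v.2 w.2 h]
  · intro v w hne h
    rw [adj_block hB] at h
    rw [hcommon]
    apply disj_both_2 hα hB v.2 w.2
    have := inter22 hα hB v.2 w.2 (fun hh => hne (Subtype.ext hh))
    tauto

/-! the 100-vertex graph -/

theorem adj_nn : ¬ (pointBlockGraph B).Adj none none := SimpleGraph.irrefl _

theorem adj_np (a : α) : (pointBlockGraph B).Adj none (some (Sum.inl a)) := by
  unfold pointBlockGraph
  rw [SimpleGraph.fromRel_adj]
  exact ⟨by simp, Or.inl trivial⟩

theorem adj_nb (b : B) : ¬ (pointBlockGraph B).Adj none (some (Sum.inr b)) := by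
  unfold pointBlockGraph
  rw [SimpleGraph.fromRel_adj]
  rintro ⟨-, h | h⟩ <;> exact h

theorem adj_pp (a a' : α) : ¬ (pointBlockGraph B).Adj (some (Sum.inl a)) (some (Sum.inl a')) := by
  unfold pointBlockGraph
  rw [SimpleGraph.fromRel_adj]
  rintro ⟨-, h | h⟩ <;> exact h

theorem adj_pb (a : α) (b : B) : (pointBlockGraph B).Adj (some (Sum.inl a)) (some (Sum.inr b)) ↔ a ∈ (b : Finset α) := by
  unfold pointBlockGraph
  rw [SimpleGraph.fromRel_adj]
  constructor
  · rintro ⟨-, h | h⟩
    · exact h
    · exact h.elim
  · intro h
    exact ⟨by simp, Or.inl h⟩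

theorem adj_bb (hB : IsSteinerSystem 3 6 B) (b c : B) :
    (pointBlockGraph B).Adj (some (Sum.inr b)) (some (Sum.inr c)) ↔ ((b : Finset α) ∩ c).card = 0 := by
  unfold pointBlockGraph
  rw [SimpleGraph.fromRel_adj, Finset.card_eq_zero, ← Finset.disjoint_iff_inter_eq_empty]
  constructor
  · rintro ⟨-, h | h⟩
    · exact h
    · exact (show Disjoint (c : Finset α) b from h).symm
  · intro h
    refine ⟨?_, Or.inl h⟩
    intro hbc
    rw [Option.some_inj, Sum.inr.injEq] at hbc
    rw [hbc, Finset.disjoint_self_iff_empty] at h
    have := hB.1 _ c.2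
    rw [h] at this
    simp at this

theorem adj_pn (a : α) : (pointBlockGraph B).Adj (some (Sum.inl a)) none := (adj_np a).symm
theorem adj_bn (b : B) : ¬ (pointBlockGraph B).Adj (some (Sum.inr b)) none := fun h => adj_nb b h.symm
theorem adj_bp (a : α) (b : B) : (pointBlockGraph B).Adj (some (Sum.inr b)) (some (Sum.inl a)) ↔ a ∈ (b : Finset α) := by
  rw [SimpleGraph.adj_comm, adj_pb]

open Classical in
theorem card_split (S : Set (Option (α ⊕ B))) : Nat.card S = (if none ∈ S then 1 else 0) +
    (((univ : Finset α).filter (fun a => some (Sum.inl a) ∈ S)).card +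
    ((bl B).filter (fun c => ∃ h : c ∈ B, some (Sum.inr (⟨c, h⟩ : B)) ∈ S)).card) := by
  have hfin : Fintype B := Fintype.ofFinite B
  have h1 : Nat.card S = ∑ x : Option (α ⊕ B), if x ∈ S then 1 else 0 := by
    rw [← Finset.card_filter, ← Set.ncard_coe_finset, Nat.card_coe_set_eq]
    congr 1
    ext x
    simp
  rw [h1, Fintype.sum_option, Fintype.sum_sum_type, ← Finset.card_filter]
  congr 2
  refine Eq.trans ?_ (card_sub (B := B) {c : B | some (Sum.inr c) ∈ S})
  rw [← Finset.card_filter, ← Set.ncard_coe_finset, Nat.card_coe_set_eq]
  congr 1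
  ext x
  simp

include hα hB in
theorem deg_b {b : Finset α} (hb : b ∈ B) : ((bl B).filter (fun c => (b ∩ c).card = 0)).card = 16 := (xi22 hα hB hb).1

include hα hB in
theorem lam_pt (a : α) : ((bl B).filter (fun c => a ∈ c)).card = 21 := by
  have := lam22_1 hα hB {a} (Finset.card_singleton a)
  simpa [Finset.singleton_subset_iff] using this

include hα hB in
theorem srg100 [Fintype B] [DecidableRel (pointBlockGraph B).Adj] : (pointBlockGraph B).IsSRGWith 100 22 0 6 := by
  classical
  have h77 : Fintype.card B = 77 := by
    rw [← Nat.card_eq_fintype_card, Nat.card_coe_set_eq]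
    have := count hB
    rw [hα] at this
    norm_num [Nat.choose] at this
    omega
  have univ22 : (univ : Finset α).card = 22 := by rw [Finset.card_univ, hα]
  have hz : ∀ (v w : Option (α ⊕ B)), Nat.card ((pointBlockGraph B).commonNeighbors v w) =
      (if (pointBlockGraph B).Adj v none ∧ (pointBlockGraph B).Adj w none then 1 else 0) +
      (((univ : Finset α).filter (fun a => (pointBlockGraph B).Adj v (some (Sum.inl a)) ∧
        (pointBlockGraph B).Adj w (some (Sum.inl a)))).card +
      ((bl B).filter (fun c => ∃ h : c ∈ B, (pointBlockGraph B).Adj v (some (Sum.inr (⟨c, h⟩ : B))) ∧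
        (pointBlockGraph B).Adj w (some (Sum.inr (⟨c, h⟩ : B))))).card) := by
    intro v w
    rw [card_split]
    simp only [SimpleGraph.mem_commonNeighbors]
  constructor
  · rw [Fintype.card_option, Fintype.card_sum, hα, h77]
  · intro v
    rw [← SimpleGraph.card_neighborSet_eq_degree, ← Nat.card_eq_fintype_card, card_split]
    simp only [SimpleGraph.mem_neighborSet]
    rcases v with _ | a | b
    · simp only [adj_nn, adj_np, adj_nb, if_false, filter_true, exists_false, filter_false, card_empty, univ22,
        exists_prop, and_false]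
      try rfl
    · simp only [adj_pn, adj_pp, adj_pb, if_true, filter_false, card_empty, exists_prop]
      have : ((bl B).filter (fun c => c ∈ B ∧ a ∈ c)).card = 21 := by
        rw [← lam_pt hα hB a]
        congr 1
        ext c
        simp only [mem_filter, mem_bl]
        tauto
      rw [this]
    · simp only [adj_bn, adj_bp, adj_bb hB, if_false, exists_prop]
      have e1 : ((univ : Finset α).filter (fun a => a ∈ (b : Finset α))).card = 6 := by
        rw [← hB.1 _ b.2]
        congr 1
        ext x
        simp
      have e2 : ((bl B).filter (fun c => c ∈ B ∧ ((b : Finset α) ∩ c).card = 0)).card = 16 := by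
        rw [← deg_b hα hB b.2]
        congr 1
        ext c
        simp only [mem_filter, mem_bl]
        tauto
      rw [e1, e2]
  · intro v w h
    rw [← Nat.card_eq_fintype_card, hz]
    rcases v with _ | a | b <;> rcases w with _ | a' | b'
    · exact absurd h adj_nn
    · simp [adj_nn, adj_np, adj_nb, adj_pp, adj_pn]
    · exact absurd h (adj_nb _)
    · simp [adj_nn, adj_np, adj_nb, adj_pp, adj_pn]
    · exact absurd h (adj_pp _ _)
    · rw [adj_pb] at h
      simp only [adj_bn, adj_pp, adj_pb, adj_bb hB, exists_prop, false_and, and_false, if_false, filter_false, card_empty, zero_add]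
      rw [Finset.card_eq_zero, Finset.filter_eq_empty_iff]
      rintro c - ⟨-, h1, h2⟩
      rw [Finset.card_eq_zero] at h2
      have : a ∈ (b' : Finset α) ∩ c := Finset.mem_inter.2 ⟨h, h1⟩
      rw [h2] at this
      exact absurd this (Finset.notMem_empty _)
    · exact absurd h (adj_bn _)
    · rw [adj_bp] at h
      simp only [adj_bn, adj_pp, adj_pb, adj_bb hB, exists_prop, false_and, and_false, if_false, filter_false, card_empty, zero_add]
      rw [Finset.card_eq_zero, Finset.filter_eq_empty_iff]
      rintro c - ⟨-, h2, h1⟩
      rw [Finset.card_eq_zero] at h2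
      have : a' ∈ (b : Finset α) ∩ c := Finset.mem_inter.2 ⟨h, h1⟩
      rw [h2] at this
      exact absurd this (Finset.notMem_empty _)
    · rw [adj_bb hB] at h
      simp only [adj_bn, adj_bp, adj_bb hB, exists_prop, false_and, and_false, if_false, zero_add]
      rw [show ((univ : Finset α).filter (fun a => a ∈ (b : Finset α) ∧ a ∈ (b' : Finset α))).card = 0 by
        rw [← h]; congr 1; ext x; simp, zero_add]
      refine Eq.trans ?_ (disj_both_0 hα hB b.2 b'.2 h)
      unfold xi
      congr 1
      ext c
      simp only [mem_filter, mem_bl]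
      have := inter_union (b : Finset α) b' c
      constructor
      · rintro ⟨h1, -, h2, h3⟩
        exact ⟨h1, by omega⟩
      · rintro ⟨h1, h2⟩
        have l1 := Finset.card_le_card (Finset.inter_subset_inter_right (s := (b : Finset α)) (t := (b : Finset α) ∪ b') (u := c) Finset.subset_union_left)
        have l2 := Finset.card_le_card (Finset.inter_subset_inter_right (s := (b' : Finset α)) (t := (b : Finset α) ∪ b') (u := c) Finset.subset_union_right)
        exact ⟨h1, h1, by omega, by omega⟩
  · intro v w hne h
    rw [← Nat.card_eq_fintype_card, hz]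
    have six : ∀ b : B, ((univ : Finset α).filter (fun a => a ∈ (b : Finset α))).card = 6 := by
      intro b
      rw [← hB.1 _ b.2]
      congr 1
      ext x
      simp
    have six' : ∀ (a : α) (b : B), a ∉ (b : Finset α) →
        ((bl B).filter (fun c => c ∈ B ∧ a ∈ c ∧ ((b : Finset α) ∩ c).card = 0)).card = 6 := by
      intro a b hab
      rw [← pt_disj hα hB b.2 hab]
      congr 1
      ext c
      simp only [mem_filter, mem_bl]
      tauto
    rcases v with _ | a | b <;> rcases w with _ | a' | b'
    · exact absurd rfl hne
    · exact absurd (adj_np _) h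
    · simp only [adj_nn, adj_np, adj_nb, adj_bn, adj_bp, if_false, exists_prop, false_and, and_false, filter_false, card_empty,
        true_and, zero_add, add_zero]
      exact six b'
    · exact absurd (adj_pn _) h
    · have haa : a ≠ a' := fun hh => hne (by rw [hh])
      simp only [adj_pn, adj_pp, adj_pb, and_self, if_true, filter_false, card_empty, exists_prop, zero_add]
      have := lam22_2 hα hB {a, a'} (Finset.card_pair haa)
      rw [show ((bl B).filter (fun c => c ∈ B ∧ a ∈ c ∧ a' ∈ c)).card = 5 by
        rw [← this]; congr 1; ext c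
        simp only [mem_filter, mem_bl, Finset.insert_subset_iff, Finset.singleton_subset_iff]
        tauto]
    · rw [adj_pb] at h
      simp only [adj_bn, adj_pp, adj_pb, adj_bb hB, exists_prop, false_and, and_false, if_false, filter_false, card_empty, zero_add]
      exact six' a b' h
    · simp only [adj_nn, adj_np, adj_nb, adj_bn, adj_bp, if_false, exists_prop, false_and, and_false, and_true, filter_false, card_empty,
        true_and, zero_add, add_zero]
      exact six b
    · rw [adj_bp] at h
      simp only [adj_bn, adj_pp, adj_pb, adj_bb hB, exists_prop, false_and, and_false, if_false, filter_false, card_empty, zero_add]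
      rw [← six' a' b h]
      congr 1
      ext c
      simp only [mem_filter]
      tauto
    · rw [adj_bb hB] at h
      have hbb : (b : Finset α) ≠ b' := fun hh => hne (by rw [Subtype.ext hh])
      have h2 : ((b : Finset α) ∩ b').card = 2 := by
        have := inter22 hα hB b.2 b'.2 hbb
        tauto
      simp only [adj_bn, adj_bp, adj_bb hB, exists_prop, false_and, and_false, if_false, zero_add]
      rw [show ((univ : Finset α).filter (fun a => a ∈ (b : Finset α) ∧ a ∈ (b' : Finset α))).card = 2 by
        rw [← h2]; congr 1; ext x; simp]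
      have h4 := disj_both_2 hα hB b.2 b'.2 h2
      rw [show ((bl B).filter (fun c => c ∈ B ∧ ((b : Finset α) ∩ c).card = 0 ∧ ((b' : Finset α) ∩ c).card = 0)).card = 4 by
        rw [← h4]
        unfold xi
        congr 1
        ext c
        simp only [mem_filter, mem_bl]
        have := inter_union (b : Finset α) b' c
        constructor
        · rintro ⟨h1, -, h2, h3⟩
          exact ⟨h1, by omega⟩
        · rintro ⟨h1, h2⟩
          have l1 := Finset.card_le_card (Finset.inter_subset_inter_right (s := (b : Finset α)) (t := (b : Finset α) ∪ b') (u := c) Finset.subset_union_left)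
          have l2 := Finset.card_le_card (Finset.inter_subset_inter_right (s := (b' : Finset α)) (t := (b : Finset α) ∪ b') (u := c) Finset.subset_union_right)
          exact ⟨h1, h1, by omega, by omega⟩]

end SRG

end Cfsg.Agent.H7.St
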