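import Mathlib
import Cfsg.Agent.H7_St3

set_option autoImplicit false
set_option linter.all false

open Finset

/-! A strongly regular graph (100,22,0,6) is the point-block graph of an S(3,6,22). -/

namespace Cfsg.Agent.H7.St

section
variable {V : Type*} [Fintype V] [DecidableEq V] {G : SimpleGraph V} [DecidableRel G.Adj]

/-- common neighbours -/
def Fc (G : SimpleGraph V) [DecidableRel G.Adj] (v w : V) : Finset V := univ.filter (fun u => G.Adj v u ∧ G.Adj w u)

theorem card_Fc (v w : V) : (Fc G v w).card = Fintype.card (G.commonNeighbors v w) := by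
  rw [← Nat.card_eq_fintype_card, Nat.card_coe_set_eq, ← Set.ncard_coe_finset]
  congr 1
  ext u
  simp [Fc, SimpleGraph.mem_commonNeighbors]

variable (hG : G.IsSRGWith 100 22 0 6) (x : V)

theorem card_nb (hG : G.IsSRGWith 100 22 0 6) (v : V) : (univ.filter (fun u => G.Adj v u)).card = 22 := by
  have := hG.regular v
  rw [← SimpleGraph.card_neighborFinset_eq_degree] at this
  rw [← this]
  congr 1
  ext u
  simp

theorem Fc_adj (hG : G.IsSRGWith 100 22 0 6) {v w : V} (h : G.Adj v w) : (Fc G v w).card = 0 := by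
  rw [card_Fc]
  exact hG.of_adj v w h

theorem Fc_nadj (hG : G.IsSRGWith 100 22 0 6) {v w : V} (hne : v ≠ w) (h : ¬ G.Adj v w) : (Fc G v w).card = 6 := by
  rw [card_Fc]
  exact hG.of_not_adj hne h

theorem no_tri (hG : G.IsSRGWith 100 22 0 6) {u v w : V} (h1 : G.Adj u v) (h2 : G.Adj v w) (h3 : G.Adj u w) : False := by
  have := Fc_adj hG h3
  rw [card_eq_zero] at this
  have h : v ∈ Fc G u w := by
    simp only [Fc, mem_filter, mem_univ, true_and]
    exact ⟨h1, h2.symm⟩
  rw [this] at h
  exact absurd h (notMem_empty _)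

/-- non-neighbours -/
def NB (G : SimpleGraph V) [DecidableRel G.Adj] (x : V) : Finset V := univ.filter (fun y => y ≠ x ∧ ¬ G.Adj x y)

theorem mem_NB {y : V} : y ∈ NB G x ↔ y ≠ x ∧ ¬ G.Adj x y := by simp [NB]

theorem card_NB (hG : G.IsSRGWith 100 22 0 6) : (NB G x).card = 77 := by
  have h1 := Finset.card_filter_add_card_filter_not (s := (univ : Finset V)) (fun u => G.Adj x u)
  rw [card_nb hG x, card_univ, hG.card] at h1
  have h2 : NB G x = (univ.filter (fun u => ¬ G.Adj x u)).erase x := by
    ext y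
    simp [NB]
  rw [h2, card_erase_of_mem (by simp)]
  omega

theorem mem_Fc {v w u : V} : u ∈ Fc G v w ↔ G.Adj v u ∧ G.Adj w u := by simp [Fc]

include hG

theorem key_inter {y z : V} (hy : y ∈ NB G x) (hz : z ∈ NB G x) (hyz : y ≠ z) :
    (Fc G x y ∩ Fc G x z).card = if G.Adj y z then 0 else 2 := by
  rw [mem_NB] at hy hz
  have hadj0 : ∀ z, G.Adj y z → (Fc G x y ∩ Fc G x z).card = 0 := by
    intro z h
    rw [card_eq_zero, eq_empty_iff_forall_notMem]
    intro p hp
    rw [mem_inter, mem_Fc, mem_Fc] at hp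
    exact no_tri hG hp.1.2 hp.2.2.symm h
  split_ifs with hadj
  · exact hadj0 z hadj
  -- counting
  set S := ((NB G x).erase y).filter (fun z => ¬ G.Adj y z) with hS
  have hty : (Fc G x y).card = 6 := Fc_nadj hG hy.1.symm hy.2
  -- number of adjacent ones
  have h16 : (((NB G x).erase y).filter (fun z => G.Adj y z)).card = 16 := by
    have e1 : univ.filter (fun u => G.Adj y u) = (Fc G x y) ∪ (((NB G x).erase y).filter (fun z => G.Adj y z)) := by
      ext u
      simp only [mem_filter, mem_univ, true_and, mem_union, mem_Fc, mem_erase, mem_NB]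
      constructor
      · intro h
        by_cases hxu : G.Adj x u
        · exact Or.inl ⟨hxu, h⟩
        · right
          refine ⟨⟨h.ne', ?_, hxu⟩, h⟩
          rintro rfl
          exact hy.2 h.symm
      · rintro (h | h)
        · exact h.2
        · exact h.2
    have e2 : Disjoint (Fc G x y) (((NB G x).erase y).filter (fun z => G.Adj y z)) := by
      rw [disjoint_left]
      intro u h1 h2
      rw [mem_Fc] at h1
      rw [mem_filter, mem_erase, mem_NB] at h2
      exact h2.1.2.2 h1.1
    have e3 := card_nb hG y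
    rw [e1, card_union_of_disjoint e2, hty] at e3
    omega
  have h60 : S.card = 60 := by
    have h1 := Finset.card_filter_add_card_filter_not (s := (NB G x).erase y) (fun z => G.Adj y z)
    rw [h16, card_erase_of_mem (mem_NB x |>.2 hy), card_NB x hG] at h1
    have h2 : S.card = (((NB G x).erase y).filter (fun z => ¬ G.Adj y z)).card := by rw [hS]
    rw [h2]
    have h3 : 16 + (((NB G x).erase y).filter (fun z => ¬ G.Adj y z)).card = 76 := h1
    omega
  -- first moment
  have hA : ∑ z ∈ (NB G x).erase y, (Fc G x y ∩ Fc G x z).card = 120 := by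
    have h := Finset.sum_card_bipartiteAbove_eq_sum_card_bipartiteBelow (s := (NB G x).erase y)
      (t := Fc G x y) (fun z p => p ∈ Fc G x z)
    have h1 : ∀ z ∈ (NB G x).erase y, ((Fc G x y).bipartiteAbove (fun z p => p ∈ Fc G x z) z).card = (Fc G x y ∩ Fc G x z).card := by
      intro z _
      apply congrArg Finset.card
      ext p
      simp only [Finset.mem_bipartiteAbove, mem_inter]
    have h2 : ∀ p ∈ Fc G x y, (((NB G x).erase y).bipartiteBelow (fun z p => p ∈ Fc G x z) p).card = 20 := by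
      intro p hp
      rw [mem_Fc] at hp
      have e1 : ((NB G x).erase y).bipartiteBelow (fun z p => p ∈ Fc G x z) p = ((univ.filter (fun u => G.Adj p u)).erase x).erase y := by
        ext u
        simp only [Finset.mem_bipartiteBelow, mem_erase, mem_NB, mem_Fc, mem_filter, mem_univ, true_and]
        constructor
        · rintro ⟨⟨h1, h2, h3⟩, h4, h5⟩
          exact ⟨h1, h2, h5.symm⟩
        · rintro ⟨h1, h2, h3⟩
          exact ⟨⟨h1, h2, fun h => no_tri hG h h3.symm hp.1⟩, hp.1, h3.symm⟩
      rw [e1, card_erase_of_mem, card_erase_of_mem, card_nb hG p]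
      · rw [mem_filter]
        exact ⟨mem_univ _, hp.1.symm⟩
      · rw [mem_erase, mem_filter]
        exact ⟨hy.1, mem_univ _, hp.2.symm⟩
    rw [Finset.sum_congr rfl h1, Finset.sum_congr rfl h2, sum_const, hty] at h
    rw [h]
    rfl
  -- second moment
  have hB : ∑ z ∈ (NB G x).erase y, (Fc G x y ∩ Fc G x z).offDiag.card = 120 := by
    have h := Finset.sum_card_bipartiteAbove_eq_sum_card_bipartiteBelow (s := (NB G x).erase y)
      (t := (Fc G x y).offDiag) (fun z p => p.1 ∈ Fc G x z ∧ p.2 ∈ Fc G x z)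
    have h1 : ∀ z ∈ (NB G x).erase y, ((Fc G x y).offDiag.bipartiteAbove (fun z p => p.1 ∈ Fc G x z ∧ p.2 ∈ Fc G x z) z).card =
        (Fc G x y ∩ Fc G x z).offDiag.card := by
      intro z _
      congr 1
      ext p
      simp only [Finset.mem_bipartiteAbove, mem_offDiag, mem_inter]
      tauto
    have h2 : ∀ p ∈ (Fc G x y).offDiag, (((NB G x).erase y).bipartiteBelow (fun z p => p.1 ∈ Fc G x z ∧ p.2 ∈ Fc G x z) p).card = 4 := by
      rintro ⟨p, q⟩ hpq
      rw [mem_offDiag, mem_Fc, mem_Fc] at hpq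
      obtain ⟨hp, hq, hne⟩ := hpq
      dsimp only at hp hq hne
      have hnadj : ¬ G.Adj p q := fun h => no_tri hG hp.1 h hq.1
      have e1 : ((NB G x).erase y).bipartiteBelow (fun z p => p.1 ∈ Fc G x z ∧ p.2 ∈ Fc G x z) (p, q) = ((Fc G p q).erase x).erase y := by
        ext u
        simp only [Finset.mem_bipartiteBelow, mem_erase, mem_NB, mem_Fc]
        constructor
        · rintro ⟨⟨h1, h2, h3⟩, ⟨h4, h5⟩, h6, h7⟩
          exact ⟨h1, h2, h5.symm, h7.symm⟩
        · rintro ⟨h1, h2, h3, h4⟩
          exact ⟨⟨h1, h2, fun h => no_tri hG h h3.symm hp.1⟩, ⟨hp.1, h3.symm⟩, hq.1, h4.symm⟩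
      rw [e1, card_erase_of_mem, card_erase_of_mem, Fc_nadj hG hne hnadj]
      · rw [mem_Fc]
        exact ⟨hp.1.symm, hq.1.symm⟩
      · rw [mem_erase, mem_Fc]
        exact ⟨hy.1, hp.2.symm, hq.2.symm⟩
    rw [Finset.sum_congr rfl h1, Finset.sum_congr rfl h2, sum_const, offDiag_card, hty] at h
    rw [h]
    rfl
  -- restrict to the non-adjacent ones
  have hzero : ∀ z ∈ ((NB G x).erase y).filter (fun z => G.Adj y z), (Fc G x y ∩ Fc G x z).card = 0 := by
    intro z hz
    rw [mem_filter] at hz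
    exact hadj0 z hz.2
  have hA' : ∑ z ∈ S, (Fc G x y ∩ Fc G x z).card = 120 := by
    rw [← hA, ← Finset.sum_filter_add_sum_filter_not ((NB G x).erase y) (fun z => G.Adj y z), Finset.sum_eq_zero hzero, zero_add]
  have hB' : ∑ z ∈ S, (Fc G x y ∩ Fc G x z).offDiag.card = 120 := by
    rw [← hB, ← Finset.sum_filter_add_sum_filter_not ((NB G x).erase y) (fun z => G.Adj y z), Finset.sum_eq_zero (s := ((NB G x).erase y).filter (fun z => G.Adj y z)), zero_add]
    intro z hz
    rw [offDiag_card, hzero z hz, Nat.zero_mul, Nat.sub_self]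
  have hsum : ∑ z ∈ S, (((Fc G x y ∩ Fc G x z).card : ℤ) - 2) ^ 2 = 0 := by
    have e : ∀ z ∈ S, (((Fc G x y ∩ Fc G x z).card : ℤ) - 2) ^ 2 =
        ((Fc G x y ∩ Fc G x z).offDiag.card : ℤ) - 3 * ((Fc G x y ∩ Fc G x z).card : ℤ) + 4 := by
      intro z _
      rw [offDiag_card]
      have hle : (Fc G x y ∩ Fc G x z).card ≤ (Fc G x y ∩ Fc G x z).card * (Fc G x y ∩ Fc G x z).card := Nat.le_mul_self _
      rw [Nat.cast_sub hle]
      push_cast
      ring
    rw [Finset.sum_congr rfl e, Finset.sum_add_distrib, Finset.sum_sub_distrib, ← Finset.mul_sum, ← Nat.cast_sum, ← Nat.cast_sum,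
      hA', hB', sum_const, h60]
    norm_num
  have hall := (Finset.sum_eq_zero_iff_of_nonneg (fun z _ => sq_nonneg _)).1 hsum
  have hzS : z ∈ S := by
    rw [hS, mem_filter, mem_erase, mem_NB]
    exact ⟨⟨hyz.symm, hz⟩, hadj⟩
  have := hall z hzS
  have h2 : (((Fc G x y ∩ Fc G x z).card : ℤ) - 2) = 0 := by
    simpa using this
  omega

end

end Cfsg.Agent.H7.St
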