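import Mathlib
import Cfsg.Agent.H7_St14
import Cfsg.Agent.H7_St12

set_option autoImplicit false
set_option linter.all false

open Finset

/-! A strongly regular graph (100,22,0,6) is the point-block graph of an S(3,6,22). -/

namespace Cfsg.Agent.H7.St

open Cfsg

section
variable {V : Type*} [Fintype V] [DecidableEq V] {G : SimpleGraph V} [DecidableRel G.Adj]
  (x : V) (φ : {u : V // G.Adj x u} ≃ Fin 22)

/-- the block attached to a vertex -/
def blk (y : V) : Finset (Fin 22) := univ.filter (fun i => G.Adj y (φ.symm i))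

def BB : Set (Finset (Fin 22)) := {b | ∃ y, y ≠ x ∧ ¬ G.Adj x y ∧ b = blk x φ y}

theorem blk_inter (y z : V) : (blk x φ y ∩ blk x φ z).card = (Fc G x y ∩ Fc G x z).card := by
  apply Finset.card_bij (fun i _ => ((φ.symm i : {u : V // G.Adj x u}) : V))
  · intro i hi
    simp only [blk, mem_inter, mem_filter, mem_univ, true_and] at hi
    rw [mem_inter, mem_Fc, mem_Fc]
    exact ⟨⟨(φ.symm i).2, hi.1⟩, (φ.symm i).2, hi.2⟩
  · intro i _ j _ h
    exact φ.symm.injective (Subtype.ext h)
  · intro p hp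
    rw [mem_inter, mem_Fc, mem_Fc] at hp
    refine ⟨φ ⟨p, hp.1.1⟩, ?_, ?_⟩
    · simp only [blk, mem_inter, mem_filter, mem_univ, true_and, Equiv.symm_apply_apply]
      exact ⟨hp.1.2, hp.2.2⟩
    · simp

variable (hG : G.IsSRGWith 100 22 0 6)
include hG

theorem blk_card {y : V} (hy : y ≠ x ∧ ¬ G.Adj x y) : (blk x φ y).card = 6 := by
  have := blk_inter x φ y y
  rw [inter_self, inter_self, Fc_nadj hG hy.1.symm hy.2] at this
  exact this

theorem blk_inj {y z : V} (hy : y ≠ x ∧ ¬ G.Adj x y) (hz : z ≠ x ∧ ¬ G.Adj x z) (h : blk x φ y = blk x φ z) : y = z := by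
  by_contra hne
  have h1 := key_inter hG x ((mem_NB x).2 hy) ((mem_NB x).2 hz) hne
  rw [← blk_inter x φ, h, inter_self, blk_card x φ hG hz] at h1
  split_ifs at h1 <;> omega

theorem BB_steiner : IsSteinerSystem 3 6 (BB (G := G) x φ) := by
  have hcard : (bl (BB (G := G) x φ)).card = 77 := by
    rw [← card_NB x hG]
    symm
    apply Finset.card_bij (fun y _ => blk x φ y)
    · intro y hy
      rw [mem_NB] at hy
      rw [mem_bl]
      exact ⟨y, hy.1, hy.2, rfl⟩
    · intro y hy z hz h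
      rw [mem_NB] at hy hz
      exact blk_inj x φ hG hy hz h
    · intro b hb
      rw [mem_bl] at hb
      obtain ⟨y, h1, h2, rfl⟩ := hb
      exact ⟨y, (mem_NB x).2 ⟨h1, h2⟩, rfl⟩
  have h6 : ∀ b ∈ BB (G := G) x φ, b.card = 6 := by
    rintro _ ⟨y, h1, h2, rfl⟩
    exact blk_card x φ hG ⟨h1, h2⟩
  have huniq : ∀ b ∈ BB (G := G) x φ, ∀ c ∈ BB (G := G) x φ, 3 ≤ (b ∩ c).card → b = c := by
    rintro _ ⟨y, h1, h2, rfl⟩ _ ⟨z, h3, h4, rfl⟩ h
    by_contra hne
    have hyz : y ≠ z := fun hh => hne (by rw [hh])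
    rw [blk_inter, key_inter hG x ((mem_NB x).2 ⟨h1, h2⟩) ((mem_NB x).2 ⟨h3, h4⟩) hyz] at h
    split_ifs at h <;> omega
  refine ⟨h6, ?_⟩
  -- counting triples
  have hle : ∀ u ∈ (univ : Finset (Fin 22)).powersetCard 3, ((bl (BB (G := G) x φ)).filter (fun b => u ⊆ b)).card ≤ 1 := by
    intro u hu
    rw [mem_powersetCard] at hu
    rw [Finset.card_le_one]
    intro b hb c hc
    rw [mem_filter, mem_bl] at hb hc
    apply huniq b hb.1 c hc.1
    rw [← hu.2]
    exact card_le_card (subset_inter hb.2 hc.2)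
  have hsum : ∑ u ∈ (univ : Finset (Fin 22)).powersetCard 3, ((bl (BB (G := G) x φ)).filter (fun b => u ⊆ b)).card =
      ∑ u ∈ (univ : Finset (Fin 22)).powersetCard 3, 1 := by
    have h := Finset.sum_card_bipartiteAbove_eq_sum_card_bipartiteBelow (s := bl (BB (G := G) x φ))
      (t := (univ : Finset (Fin 22)).powersetCard 3) (fun b u => u ⊆ b)
    have h1 : ∀ b ∈ bl (BB (G := G) x φ), (((univ : Finset (Fin 22)).powersetCard 3).bipartiteAbove (fun b u => u ⊆ b) b).card = 20 := by
      intro b hb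
      have : ((univ : Finset (Fin 22)).powersetCard 3).bipartiteAbove (fun b u => u ⊆ b) b = b.powersetCard 3 := by
        ext u
        simp only [Finset.mem_bipartiteAbove, mem_powersetCard, subset_univ, true_and]
        tauto
      rw [this, card_powersetCard, h6 b (mem_bl.1 hb)]
      rfl
    rw [Finset.sum_congr rfl h1, sum_const, hcard] at h
    rw [sum_const, card_powersetCard, card_univ, Fintype.card_fin]
    have h2 : ∑ u ∈ (univ : Finset (Fin 22)).powersetCard 3, ((bl (BB (G := G) x φ)).filter (fun b => u ⊆ b)).card =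
      ∑ u ∈ (univ : Finset (Fin 22)).powersetCard 3, ((bl (BB (G := G) x φ)).bipartiteBelow (fun b u => u ⊆ b) u).card := rfl
    rw [h2, ← h]
    rfl
  have hall := (Finset.sum_eq_sum_iff_of_le hle).1 hsum
  intro s hs
  have h1 := hall s (by rw [mem_powersetCard]; exact ⟨subset_univ _, hs⟩)
  rw [Finset.card_eq_one] at h1
  obtain ⟨b, hb⟩ := h1
  refine ⟨b, ?_, ?_⟩
  · have : b ∈ (bl (BB (G := G) x φ)).filter (fun b => s ⊆ b) := by rw [hb]; exact mem_singleton_self _
    rw [mem_filter, mem_bl] at this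
    exact this
  · rintro c ⟨hc1, hc2⟩
    have : c ∈ (bl (BB (G := G) x φ)).filter (fun b => s ⊆ b) := by
      rw [mem_filter, mem_bl]
      exact ⟨hc1, hc2⟩
    rw [hb, mem_singleton] at this
    exact this

omit hG in
open Classical in
/-- the map to the point-block graph -/
noncomputable def toPB (v : V) : Option (Fin 22 ⊕ (BB (G := G) x φ)) :=
  if h : v = x then none else if h' : G.Adj x v then some (Sum.inl (φ ⟨v, h'⟩))
  else some (Sum.inr ⟨blk x φ v, v, h, h', rfl⟩)

omit hG in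
theorem toPB_x : toPB (G := G) x φ x = none := by simp [toPB]

omit hG in
theorem toPB_p {v : V} (h : G.Adj x v) : toPB (G := G) x φ v = some (Sum.inl (φ ⟨v, h⟩)) := by
  have : v ≠ x := h.ne'
  simp [toPB, this, h]

omit hG in
theorem toPB_b {v : V} (h : v ≠ x) (h' : ¬ G.Adj x v) : toPB (G := G) x φ v = some (Sum.inr ⟨blk x φ v, v, h, h', rfl⟩) := by
  simp [toPB, h, h']

omit hG in
theorem cases_v (v : V) : x = v ∨ G.Adj x v ∨ (v ≠ x ∧ ¬ G.Adj x v) := by
  by_cases h : x = v
  · exact Or.inl h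
  · have : v ≠ x := fun hh => h hh.symm
    tauto

theorem toPB_bij : Function.Bijective (toPB (G := G) x φ) := by
  constructor
  · intro v w h
    rcases cases_v (G := G) x v with rfl | hv | ⟨hv, hv'⟩ <;> rcases cases_v (G := G) x w with hw | hw | ⟨hw, hw'⟩
    · exact hw
    · rw [toPB_x, toPB_p x φ hw] at h
      exact absurd h (by simp)
    · rw [toPB_b x φ hw hw'] at h
      rw [toPB_x] at h
      exact absurd h (by simp)
    · rw [← hw, toPB_x, toPB_p x φ hv] at h
      exact absurd h (by simp)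
    · rw [toPB_p x φ hv, toPB_p x φ hw] at h
      have := φ.injective (Sum.inl.inj (Option.some.inj h))
      exact congrArg Subtype.val this
    · rw [toPB_p x φ hv, toPB_b x φ hw hw'] at h
      exact absurd h (by simp)
    · rw [← hw, toPB_x, toPB_b x φ hv hv'] at h
      exact absurd h (by simp)
    · rw [toPB_b x φ hv hv', toPB_p x φ hw] at h
      exact absurd h (by simp)
    · rw [toPB_b x φ hv hv', toPB_b x φ hw hw'] at h
      exact blk_inj x φ hG ⟨hv, hv'⟩ ⟨hw, hw'⟩ (congrArg Subtype.val (Sum.inr.inj (Option.some.inj h)))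
  · rintro (_ | i | ⟨_, y, h1, h2, rfl⟩)
    · exact ⟨x, toPB_x x φ⟩
    · refine ⟨φ.symm i, ?_⟩
      rw [toPB_p x φ (φ.symm i).2]
      simp
    · exact ⟨y, toPB_b x φ h1 h2⟩

theorem toPB_adj (v w : V) : (pointBlockGraph (BB (G := G) x φ)).Adj (toPB x φ v) (toPB x φ w) ↔ G.Adj v w := by
  have hS := BB_steiner x φ hG
  rcases cases_v (G := G) x v with rfl | hv | ⟨hv, hv'⟩ <;> rcases cases_v (G := G) x w with hw | hw | ⟨hw, hw'⟩
  · rw [← hw]
    simp
  · rw [toPB_x, toPB_p _ φ hw]
    exact ⟨fun _ => hw, fun _ => adj_np _⟩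
  · rw [toPB_b _ φ hw hw', toPB_x]
    exact ⟨fun h => absurd h (adj_nb _), fun h => absurd h hw'⟩
  · rw [← hw, toPB_x, toPB_p _ φ hv]
    exact ⟨fun _ => hv.symm, fun _ => adj_pn _⟩
  · rw [toPB_p _ φ hv, toPB_p _ φ hw]
    exact ⟨fun h => absurd h (adj_pp _ _), fun h => (no_tri hG hv h hw).elim⟩
  · rw [toPB_p _ φ hv, toPB_b _ φ hw hw', adj_pb]
    simp only [blk, mem_filter, mem_univ, true_and, Equiv.symm_apply_apply]
    exact G.adj_comm _ _
  · rw [← hw, toPB_x, toPB_b _ φ hv hv']
    exact ⟨fun h => absurd h (adj_bn _), fun h => absurd h.symm hv'⟩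
  · rw [toPB_p _ φ hw, toPB_b _ φ hv hv', adj_bp]
    simp only [blk, mem_filter, mem_univ, true_and, Equiv.symm_apply_apply]
  · rw [toPB_b _ φ hv hv', toPB_b _ φ hw hw', adj_bb hS]
    show (blk x φ v ∩ blk x φ w).card = 0 ↔ _
    by_cases hvw : v = w
    · subst hvw
      rw [inter_self, blk_card x φ hG ⟨hv, hv'⟩]
      simp
    · rw [blk_inter, key_inter hG x ((mem_NB x).2 ⟨hv, hv'⟩) ((mem_NB x).2 ⟨hw, hw'⟩) hvw]
      by_cases h : G.Adj v w
      · simp [h]
      · simp [h]

/-- every such graph, with a base vertex, is a point-block graph -/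
theorem exists_pb : ∃ (B : Set (Finset (Fin 22))) (hB : IsSteinerSystem 3 6 B) (f : G ≃g pointBlockGraph B), f x = none := by
  have hc : Nonempty ({u : V // G.Adj x u} ≃ Fin 22) := by
    rw [← Fintype.card_eq, Fintype.card_fin, Fintype.card_subtype]
    exact card_nb hG x
  obtain ⟨φ⟩ := hc
  exact ⟨BB x φ, BB_steiner x φ hG, ⟨Equiv.ofBijective _ (toPB_bij x φ hG), fun {a b} => toPB_adj x φ hG a b⟩, toPB_x x φ⟩

end

/-- isomorphic systems have isomorphic point-block graphs -/
theorem pb_iso {α β : Type*} [Fintype α] [DecidableEq α] [Fintype β] [DecidableEq β] {B : Set (Finset α)}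
    {C : Set (Finset β)} (hB : IsSteinerSystem 3 6 B)
    (hC : IsSteinerSystem 3 6 C) {e : α ≃ β} (he : Iso B C e) :
    ∃ f : pointBlockGraph B ≃g pointBlockGraph C, f none = none ∧ (∀ a, f (some (Sum.inl a)) = some (Sum.inl (e a))) ∧
      ∀ b : B, ∀ hb : (b : Finset α).map e.toEmbedding ∈ C, f (some (Sum.inr b)) = some (Sum.inr ⟨(b : Finset α).map e.toEmbedding, hb⟩) := by
  let g : B ≃ C :=
    { toFun := fun b => ⟨(b : Finset α).map e.toEmbedding, (he _).2 b.2⟩
      invFun := fun c => ⟨(c : Finset β).map e.symm.toEmbedding, (he.symm _).2 c.2⟩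
      left_inv := fun b => by
        apply Subtype.ext
        show ((b : Finset α).map e.toEmbedding).map e.symm.toEmbedding = b
        rw [Finset.map_map]
        have : (e.toEmbedding.trans e.symm.toEmbedding) = Function.Embedding.refl α := by
          ext x; simp
        rw [this, Finset.map_refl]
      right_inv := fun c => by
        apply Subtype.ext
        show ((c : Finset β).map e.symm.toEmbedding).map e.toEmbedding = c
        rw [Finset.map_map]
        have : (e.symm.toEmbedding.trans e.toEmbedding) = Function.Embedding.refl β := by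
          ext x; simp
        rw [this, Finset.map_refl] }
  refine ⟨⟨Equiv.optionCongr (Equiv.sumCongr e g), ?_⟩, rfl, fun a => rfl, fun b hb => rfl⟩
  intro v w
  rcases v with _ | a | b <;> rcases w with _ | a' | b'
  · simp
  · exact ⟨fun _ => adj_np _, fun _ => adj_np _⟩
  · exact ⟨fun h => absurd h (adj_nb _), fun h => absurd h (adj_nb _)⟩
  · exact ⟨fun _ => adj_pn _, fun _ => adj_pn _⟩
  · exact ⟨fun h => absurd h (adj_pp _ _), fun h => absurd h (adj_pp _ _)⟩
  · show (pointBlockGraph C).Adj (some (Sum.inl (e a))) (some (Sum.inr (g b'))) ↔ _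
    rw [adj_pb, adj_pb]
    show e a ∈ (b' : Finset α).map e.toEmbedding ↔ _
    simp
  · exact ⟨fun h => absurd h (adj_bn _), fun h => absurd h (adj_bn _)⟩
  · show (pointBlockGraph C).Adj (some (Sum.inr (g b))) (some (Sum.inl (e a'))) ↔ _
    rw [adj_bp, adj_bp]
    show e a' ∈ (b : Finset α).map e.toEmbedding ↔ _
    simp
  · show (pointBlockGraph C).Adj (some (Sum.inr (g b))) (some (Sum.inr (g b'))) ↔ _
    rw [adj_bb hC, adj_bb hB]
    show ((b : Finset α).map e.toEmbedding ∩ (b' : Finset α).map e.toEmbedding).card = 0 ↔ _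
    rw [← Finset.map_inter, card_map]

theorem srg_unique {V W : Type*} [Fintype V] [Fintype W] [DecidableEq V] [DecidableEq W] {G : SimpleGraph V} {H : SimpleGraph W} [DecidableRel G.Adj]
    [DecidableRel H.Adj] (hG : G.IsSRGWith 100 22 0 6) (hH : H.IsSRGWith 100 22 0 6) (x : V) (y : W) :
    ∃ f : G ≃g H, f x = y := by
  obtain ⟨B, hB, f, hf⟩ := exists_pb x hG
  obtain ⟨C, hC, g, hg⟩ := exists_pb y hH
  obtain ⟨e, he⟩ := iso22 (by rfl) (by rfl) hB hC
  obtain ⟨k, hk, -, -⟩ := pb_iso hB hC he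
  refine ⟨(f.trans k).trans g.symm, ?_⟩
  show g.symm (k (f x)) = y
  rw [hf, hk, ← hg]
  exact g.symm_apply_apply y

end Cfsg.Agent.H7.St
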