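import Mathlib
import Cfsg.Agent.H7_St15
import Cfsg.Agent.H7_St13

set_option autoImplicit false
set_option linter.all false

open Finset

/-! The order of the automorphism group of the point-block graph. -/

namespace Cfsg.Agent.H7.St

open Cfsg

section
variable {α : Type*} [Fintype α] [DecidableEq α] {B : Set (Finset α)} (hα : Fintype.card α = 22)
  (hB : IsSteinerSystem 3 6 B)
include hα hB

open Classical in
theorem pb_srg : ∃ (_ : Fintype B) , (pointBlockGraph B).IsSRGWith 100 22 0 6 := by
  letI : Fintype B := Fintype.ofFinite B
  exact ⟨inferInstance, srg100 hα hB⟩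

/-- transitivity on vertices -/
theorem pb_trans (y : Option (α ⊕ B)) : ∃ f : pointBlockGraph B ≃g pointBlockGraph B, f none = y := by
  classical
  letI : Fintype B := Fintype.ofFinite B
  have h := srg100 hα hB
  exact srg_unique h h none y

/-- the automorphism of the graph induced by an automorphism of the system -/
theorem pb_lift (σ : setSystemAut B) : ∃ f : pointBlockGraph B ≃g pointBlockGraph B, f none = none ∧
    ∀ a, f (some (Sum.inl a)) = some (Sum.inl ((σ : Equiv.Perm α) a)) := by
  have hI : Iso B B (σ : Equiv.Perm α) := by
    have h1 := mem_aut.1 σ.2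
    have h2 := mem_aut.1 (σ⁻¹).2
    intro s
    constructor
    · intro hs
      have := h2 _ hs
      rw [Finset.map_map] at this
      have e : (Equiv.toEmbedding (σ : Equiv.Perm α)).trans (((σ⁻¹ : setSystemAut B) : Equiv.Perm α)).toEmbedding = Function.Embedding.refl α := by
        ext x
        show ((σ⁻¹ : setSystemAut B) : Equiv.Perm α) ((σ : Equiv.Perm α) x) = x
        rw [InvMemClass.coe_inv]
        exact Equiv.symm_apply_apply _ _
      rwa [e, Finset.map_refl] at this
    · exact h1 s
  obtain ⟨f, h1, h2, -⟩ := pb_iso hB hB hI
  exact ⟨f, h1, h2⟩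

/-- two automorphisms agreeing on points and fixing `none` are equal -/
theorem pb_eq {f g : pointBlockGraph B ≃g pointBlockGraph B} (hf : f none = none) (hg : g none = none)
    (h : ∀ a, f (some (Sum.inl a)) = g (some (Sum.inl a))) : f = g := by
  -- reduce to k = g⁻¹ f fixing all points
  have key : ∀ k : pointBlockGraph B ≃g pointBlockGraph B, k none = none →
      (∀ a, k (some (Sum.inl a)) = some (Sum.inl a)) → ∀ x, k x = x := by
    intro k h0 hk x
    rcases x with _ | a | b
    · exact h0
    · exact hk a
    · rcases hx : k (some (Sum.inr b)) with _ | a | c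
      · rw [← h0] at hx
        exact absurd (k.injective hx) (by simp)
      · rw [← hk a] at hx
        exact absurd (k.injective hx) (by simp)
      · have hbc : ∀ a, a ∈ (b : Finset α) ↔ a ∈ (c : Finset α) := by
          intro a
          rw [← adj_pb a b, ← adj_pb a c, ← hx]
          conv_rhs => rw [← hk a]
          exact k.map_adj_iff.symm
        have : b = c := Subtype.ext (Finset.ext hbc)
        rw [this]
  apply RelIso.ext
  intro x
  have h1 := key (f.trans g.symm) (by
    show g.symm (f none) = none
    rw [hf]
    conv_lhs => rw [← hg]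
    exact g.symm_apply_apply _) (by
    intro a
    show g.symm (f (some (Sum.inl a))) = _
    rw [h a]
    exact g.symm_apply_apply _) x
  have h2 : g.symm (f x) = x := h1
  have h3 := congrArg g h2
  rwa [show g (g.symm (f x)) = f x from g.apply_symm_apply _] at h3

/-- restriction to the points of an automorphism fixing `none` -/
theorem pb_restrict (f : pointBlockGraph B ≃g pointBlockGraph B) (h0 : f none = none) :
    ∃ σ : setSystemAut B, ∀ a, f (some (Sum.inl a)) = some (Sum.inl ((σ : Equiv.Perm α) a)) := by
  have hp : ∀ a : α, ∃ a' : α, f (some (Sum.inl a)) = some (Sum.inl a') := by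
    intro a
    have hadj : (pointBlockGraph B).Adj (f none) (f (some (Sum.inl a))) := f.map_adj_iff.2 (adj_np a)
    rw [h0] at hadj
    rcases hx : f (some (Sum.inl a)) with _ | a' | c
    · rw [hx] at hadj
      exact absurd hadj adj_nn
    · exact ⟨a', rfl⟩
    · rw [hx] at hadj
      exact absurd hadj (adj_nb _)
  choose s hs using hp
  have hinj : Function.Injective s := by
    intro a a' h
    have : f (some (Sum.inl a)) = f (some (Sum.inl a')) := by rw [hs, hs, h]
    exact Sum.inl.inj (Option.some.inj (f.injective this))
  let σ : Equiv.Perm α := Equiv.ofBijective s (Finite.injective_iff_bijective.1 hinj)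
  have hσ : ∀ a, σ a = s a := fun a => rfl
  have hmem : σ ∈ setSystemAut B := by
    rw [mem_aut]
    intro b hb
    rcases hx : f (some (Sum.inr ⟨b, hb⟩)) with _ | a' | c
    · rw [← h0] at hx
      exact absurd (f.injective hx) (by simp)
    · obtain ⟨a, rfl⟩ : ∃ a, s a = a' := (Finite.injective_iff_surjective.1 hinj) a'
      rw [← hs a] at hx
      exact absurd (f.injective hx) (by simp)
    · have : b.map σ.toEmbedding = c := by
        ext a'
        obtain ⟨a, rfl⟩ : ∃ a, s a = a' := (Finite.injective_iff_surjective.1 hinj) a'
        have h1 : s a ∈ b.map σ.toEmbedding ↔ a ∈ b := by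
          rw [← hσ a]
          simp
        rw [h1, ← adj_pb (s a) c, ← hx, ← hs a, f.map_adj_iff, adj_pb]
      rw [this]
      exact c.2
  exact ⟨⟨σ, hmem⟩, fun a => hs a⟩

theorem card_pb_aut : Nat.card (pointBlockGraph B ≃g pointBlockGraph B) = 88704000 := by
  classical
  letI : Fintype B := Fintype.ofFinite B
  have hV : Nat.card (Option (α ⊕ B)) = 100 := by
    rw [Nat.card_eq_fintype_card]
    exact (srg100 hα hB).card
  choose t ht using pb_trans hα hB
  choose l hl0 hl1 using pb_lift hα hB
  have e : Nat.card (pointBlockGraph B ≃g pointBlockGraph B) = Nat.card (Option (α ⊕ B) × setSystemAut B) := by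
    symm
    refine Nat.card_congr (Equiv.ofBijective (fun p => (l p.2).trans (t p.1)) ⟨?_, ?_⟩)
    · rintro ⟨y, σ⟩ ⟨z, τ⟩ h
      have h1 : t y (l σ none) = t z (l τ none) := DFunLike.congr_fun h none
      rw [hl0, hl0, ht, ht] at h1
      subst h1
      have h2 : ∀ a, σ.1 a = τ.1 a := by
        intro a
        have h3 : t y (l σ (some (Sum.inl a))) = t y (l τ (some (Sum.inl a))) := DFunLike.congr_fun h _
        have h4 := (t y).injective h3
        rw [hl1, hl1] at h4
        exact Sum.inl.inj (Option.some.inj h4)
      have : σ = τ := Subtype.ext (Equiv.ext h2)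
      rw [this]
    · intro f
      have h0 : (f.trans (t (f none)).symm) none = none := by
        exact ((t (f none)).toEquiv.symm_apply_eq).2 (ht _).symm
      obtain ⟨σ, hσ⟩ := pb_restrict hα hB _ h0
      refine ⟨(f none, σ), ?_⟩
      have : l σ = f.trans (t (f none)).symm := pb_eq hα hB (hl0 σ) h0 (fun a => by rw [hl1, hσ])
      show (l σ).trans (t (f none)) = f
      rw [this]
      apply RelIso.ext
      intro x
      show t (f none) ((t (f none)).symm (f x)) = f x
      exact (t (f none)).apply_symm_apply _
  rw [e, Nat.card_prod, hV, (aut22 hα hB).1]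

end

end Cfsg.Agent.H7.St
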