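import Mathlib
import Cfsg.Agent.H7_St16
import Cfsg.Agent.H7_CoF

set_option autoImplicit false
set_option linter.all false

/-! The Higman–Sims graph from the Leech lattice. -/

namespace Cfsg.Agent.H7.St

open Cfsg
open Cfsg.Agent.H7
open Cfsg.Agent.H7.Co Cfsg.Agent.H7.Co2 Cfsg.Agent.H7.CoM Cfsg.Agent.H7.CoS3 Cfsg.Agent.H7.L1 Cfsg.Agent.H7.L2 Cfsg.Agent.H7.L3 Cfsg.Agent.H7.L4 Cfsg.Agent.H7.L5
  Cfsg.Agent.H7.L6 Cfsg.Agent.H7.L7 Cfsg.Agent.H7.L8 Cfsg.Agent.H7.L9 Cfsg.Agent.H7.L10 Cfsg.Agent.H7.L11 Cfsg.Agent.H7.LV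
  Cfsg.Agent.H7.LV8 Cfsg.Agent.H7.Co3 Cfsg.Agent.H7.Co4 Cfsg.Agent.H7.Co5 Cfsg.Agent.H7.Co6
  Cfsg.Agent.H7.Co7 Cfsg.Agent.H7.CoT Cfsg.Agent.H7.CoS

/-- the graph on the 100 vectors -/
def HG : SimpleGraph O100 where
  Adj x y := Dt (x : leechLattice) y = 8
  symm := ⟨fun x y h => by
    show Dt (y : leechLattice) x = 8
    rw [dt_comm]; exact h⟩
  loopless := ⟨fun x h => by
    have h1 : Dt (x : leechLattice) x = 8 := h
    rw [dt_self, x.2.1] at h1
    norm_num at h1⟩

theorem hg_adj (x y : O100) : HG.Adj x y ↔ Dt (x : leechLattice) y = 8 := Iff.rfl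

instance finO : Finite O100 := ((finite_nm 32).subset fun y hy => hy.1).to_subtype

theorem card_O : Nat.card O100 = 100 := by
  rw [Nat.card_coe_set_eq]
  exact hs_count vE vZ nm_vE vZ_norm dt_vE_vZ

theorem mem_gh (g : GH) (x : O100) : (g : Co0) • (x : leechLattice) ∈ O100 := by
  refine ⟨(nm_smul _ _).trans x.2.1, ?_, ?_⟩
  · have h := dt_smul (g : Co0) x vE
    rw [gh_E] at h
    exact h.trans x.2.2.1
  · have h := dt_smul (g : Co0) x vZ
    rw [gh_Z] at h
    exact h.trans x.2.2.2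

/-- action of an element on the graph -/
def act1 (g : GH) : HG ≃g HG where
  toFun x := ⟨(g : Co0) • (x : leechLattice), mem_gh g x⟩
  invFun x := ⟨((g⁻¹ : GH) : Co0) • (x : leechLattice), mem_gh g⁻¹ x⟩
  left_inv x := Subtype.ext (by
    show ((g⁻¹ : GH) : Co0) • (g : Co0) • (x : leechLattice) = x
    rw [InvMemClass.coe_inv, inv_smul_smul])
  right_inv x := Subtype.ext (by
    show (g : Co0) • ((g⁻¹ : GH) : Co0) • (x : leechLattice) = x
    rw [InvMemClass.coe_inv, smul_inv_smul])
  map_rel_iff' := by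
    intro x y
    show Dt ((g : Co0) • (x : leechLattice)) ((g : Co0) • (y : leechLattice)) = 8 ↔ Dt (x : leechLattice) y = 8
    rw [dt_smul]

def rho : GH →* (HG ≃g HG) where
  toFun := act1
  map_one' := by
    apply RelIso.ext
    intro x
    exact Subtype.ext (one_smul Co0 (x : leechLattice))
  map_mul' g h := by
    apply RelIso.ext
    intro x
    exact Subtype.ext (mul_smul (g : Co0) (h : Co0) (x : leechLattice))

theorem vU_mem : vU ∈ O100 := dt_vU

/-- transitivity of GH on non-adjacent pairs -/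
theorem hg_trans {x y x' y' : O100} (hxy : x ≠ y) (h : ¬ HG.Adj x y) (hxy' : x' ≠ y') (h' : ¬ HG.Adj x' y') :
    ∃ g : GH, act1 g x = x' ∧ act1 g y = y' := by
  have d : Dt (y : leechLattice) x = 16 := by
    rcases dots100 x.2 y.2 with h1 | h1 | h1
    · exact absurd (Subtype.ext h1.symm) hxy
    · exact absurd (by rw [hg_adj, dt_comm]; exact h1) h
    · exact h1
  have d' : Dt (y' : leechLattice) x' = 16 := by
    rcases dots100 x'.2 y'.2 with h1 | h1 | h1
    · exact absurd (Subtype.ext h1.symm) hxy'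
    · exact absurd (by rw [hg_adj, dt_comm]; exact h1) h'
    · exact h1
  obtain ⟨g, g1, g2, g3⟩ := hs_trans vE vZ x x' nm_vE vZ_norm dt_vE_vZ x.2.1 x.2.2.1 x.2.2.2 x'.2.1 x'.2.2.1 x'.2.2.2
  have hgy : g • (y : leechLattice) ∈ O100 := mem_gh ⟨g, g1, g2⟩ y
  obtain ⟨k, k1, k2, k3, k4⟩ := hs_trans3 vE vZ x' (g • (y : leechLattice)) y' 16 (Or.inr rfl) nm_vE vZ_norm dt_vE_vZ
    x'.2.1 x'.2.2.1 x'.2.2.2 hgy.1 hgy.2.1 hgy.2.2 (by rw [← g3, dt_smul]; exact d) y'.2.1 y'.2.2.1 y'.2.2.2 d'
  refine ⟨⟨k * g, ?_, ?_⟩, ?_, ?_⟩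
  · show (k * g) • vE = vE
    rw [mul_smul, g1, k1]
  · show (k * g) • vZ = vZ
    rw [mul_smul, g2, k2]
  · apply Subtype.ext
    show (k * g) • (x : leechLattice) = x'
    rw [mul_smul, g3, k3]
  · apply Subtype.ext
    show (k * g) • (y : leechLattice) = y'
    rw [mul_smul, k4]

/-- no triangles -/
theorem hg_tri {x y z : O100} (h1 : HG.Adj x y) (h2 : HG.Adj x z) (h3 : HG.Adj y z) : False := by
  have h1 : Dt (x : leechLattice) y = 8 := h1
  have h2 : Dt (x : leechLattice) z = 8 := h2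
  have h3 : Dt (y : leechLattice) z = 8 := h3
  have hx := x.2
  have hy := y.2
  have hz := z.2
  have key : Nm ((x : leechLattice) + y + z - (vE + vE) + vZ) = 16 := by
    have e := dt_vE_vZ
    have eE := nm_vE
    have eZ := vZ_norm
    have a1 : Dt vE vE = 48 := by rw [dt_self]; exact nm_vE
    have a2 : Dt vZ vE = 16 := e
    have a3 : Dt vE vZ = 16 := by rw [dt_comm]; exact e
    have a4 : Dt vE x = 24 := by rw [dt_comm]; exact hx.2.1
    have a5 : Dt vE y = 24 := by rw [dt_comm]; exact hy.2.1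
    have a6 : Dt vE z = 24 := by rw [dt_comm]; exact hz.2.1
    have n1 : Nm ((x : leechLattice) + y + z) = 144 := by
      rw [nm_add, nm_add, dt_add, h1, h2, h3, hx.1, hy.1, hz.1]
      norm_num
    have n2 : Nm (vE + vE) = 192 := by
      rw [nm_add, a1, eE]
      norm_num
    have n3 : Dt ((x : leechLattice) + y + z) (vE + vE) = 144 := by
      rw [dt_add', dt_add, dt_add, hx.2.1, hy.2.1, hz.2.1]
      norm_num
    have n4 : Dt ((x : leechLattice) + y + z - (vE + vE)) vZ = -32 := by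
      rw [dt_sub, dt_add, dt_add, dt_add, hx.2.2, hy.2.2, hz.2.2, a3]
      norm_num
    rw [nm_add, nm_sub, n1, n2, n3, n4, show Nm vZ = 32 from vZ_norm]
    norm_num
  by_cases h0 : (x : leechLattice) + y + z - (vE + vE) + vZ = 0
  · rw [nm_zero_iff.2 h0] at key
    norm_num at key
  · have := nm_min h0
    omega

open Classical in
theorem hg_srg [Fintype O100] : HG.IsSRGWith 100 22 0 6 := by
  have hcard : Fintype.card O100 = 100 := by rw [← Nat.card_eq_fintype_card, card_O]
  have hreg : HG.IsRegularOfDegree 22 := by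
    intro x
    rw [← SimpleGraph.card_neighborSet_eq_degree, ← Nat.card_eq_fintype_card, Nat.card_coe_set_eq]
    have h := (hs_count3 vE vZ x nm_vE vZ_norm dt_vE_vZ x.2.1 x.2.2.1 x.2.2.2).1
    rw [← Set.ncard_image_of_injective _ Subtype.val_injective]
    refine Eq.trans ?_ h
    congr 1
    ext y
    simp only [Set.mem_image, SimpleGraph.mem_neighborSet, hg_adj, Set.mem_ofPred_eq]
    constructor
    · rintro ⟨z, hz, rfl⟩
      exact ⟨z.2.1, z.2.2.1, z.2.2.2, by rw [dt_comm]; exact hz⟩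
    · rintro ⟨h1, h2, h3, h4⟩
      exact ⟨⟨y, h1, h2, h3⟩, by rw [dt_comm]; exact h4, rfl⟩
  have hadj : ∀ v w, HG.Adj v w → Fintype.card (HG.commonNeighbors v w) = 0 := by
    intro v w h
    rw [Fintype.card_eq_zero_iff]
    refine ⟨fun u => ?_⟩
    have hu := u.2
    rw [SimpleGraph.mem_commonNeighbors] at hu
    exact hg_tri h hu.1 hu.2
  -- some non-adjacent pair
  have hne : ∃ x y : O100, x ≠ y ∧ ¬ HG.Adj x y := by
    by_contra hcon
    push Not at hcon
    have h1 := hreg ⟨vU, vU_mem⟩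
    rw [← SimpleGraph.card_neighborSet_eq_degree, ← Nat.card_eq_fintype_card, Nat.card_coe_set_eq] at h1
    have h2 : HG.neighborSet ⟨vU, vU_mem⟩ = {(⟨vU, vU_mem⟩ : O100)}ᶜ := by
      ext y
      rw [SimpleGraph.mem_neighborSet, Set.mem_compl_iff, Set.mem_singleton_iff]
      exact ⟨fun h hh => by rw [hh] at h; exact SimpleGraph.irrefl _ h, fun h => hcon _ _ (Ne.symm h)⟩
    rw [h2, Set.ncard_compl, Set.ncard_singleton, card_O] at h1
    norm_num at h1
  obtain ⟨x0, y0, hne0, hn0⟩ := hne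
  have hconst : Pairwise fun v w => ¬ HG.Adj v w → Fintype.card (HG.commonNeighbors v w) = Fintype.card (HG.commonNeighbors x0 y0) := by
    intro v w hvw h
    obtain ⟨g, g1, g2⟩ := hg_trans hne0 hn0 hvw h
    rw [← Nat.card_eq_fintype_card, ← Nat.card_eq_fintype_card, Nat.card_coe_set_eq, Nat.card_coe_set_eq]
    rw [← Set.ncard_image_of_injective (HG.commonNeighbors x0 y0) (act1 g).injective]
    congr 1
    ext u
    rw [Set.mem_image, SimpleGraph.mem_commonNeighbors]
    constructor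
    · rintro ⟨h1, h2⟩
      refine ⟨(act1 g).symm u, ?_, (act1 g).apply_symm_apply u⟩
      rw [SimpleGraph.mem_commonNeighbors, ← (act1 g).map_adj_iff (v := x0), ← (act1 g).map_adj_iff (v := y0), g1, g2,
        RelIso.apply_symm_apply]
      exact ⟨h1, h2⟩
    · rintro ⟨z, hz, rfl⟩
      rw [SimpleGraph.mem_commonNeighbors] at hz
      rw [← g1, ← g2, (act1 g).map_adj_iff, (act1 g).map_adj_iff]
      exact hz
  have hS : HG.IsSRGWith 100 22 0 (Fintype.card (HG.commonNeighbors x0 y0)) := ⟨hcard, hreg, hadj, hconst⟩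
  have hp := SimpleGraph.IsSRGWith.param_eq (G := HG) hS (by norm_num)
  have : Fintype.card (HG.commonNeighbors x0 y0) = 6 := by omega
  rw [this] at hS
  exact hS

theorem rho_inj : Function.Injective rho := by
  have hs := hs_simple
  rcases hs.eq_bot_or_eq_top_of_normal rho.ker inferInstance with h | h
  · exact (MonoidHom.ker_eq_bot_iff rho).1 h
  · exfalso
    -- GH is transitive on 100 points
    have htr : ∀ g : GH, (g : Co0) • vU = vU := by
      intro g
      have : g ∈ rho.ker := by rw [h]; exact Subgroup.mem_top g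
      rw [MonoidHom.mem_ker] at this
      have h1 := DFunLike.congr_fun this (⟨vU, vU_mem⟩ : O100)
      exact congrArg Subtype.val h1
    have horb := card_orbit_gh
    have : MulAction.orbit GH vU = {vU} := by
      ext y
      rw [Set.mem_singleton_iff]
      constructor
      · rintro ⟨g, rfl⟩
        exact htr g
      · rintro rfl
        exact MulAction.mem_orbit_self _
    rw [this, Set.ncard_singleton] at horb
    norm_num at horb

theorem conjHom {V W : Type*} {K : SimpleGraph V} {L : SimpleGraph W} (f : K ≃g L) {G : Type*} [Group G] (r : G →* (K ≃g K))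
    (hr : Function.Injective r) : ∃ r' : G →* (L ≃g L), Function.Injective r' := by
  refine ⟨{ toFun := fun g => (f.symm.trans (r g)).trans f, map_one' := ?_, map_mul' := ?_ }, ?_⟩
  · apply RelIso.ext
    intro x
    show f ((r 1) (f.symm x)) = x
    rw [map_one]
    exact f.apply_symm_apply x
  · intro g h
    apply RelIso.ext
    intro x
    show f ((r (g * h)) (f.symm x)) = f ((r g) (f.symm (f ((r h) (f.symm x)))))
    rw [map_mul, show f.symm (f ((r h) (f.symm x))) = (r h) (f.symm x) from f.symm_apply_apply _]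
    rfl
  · intro g h hgh
    apply hr
    apply RelIso.ext
    intro x
    have h1 := DFunLike.congr_fun hgh (f x)
    have h2 : f ((r g) (f.symm (f x))) = f ((r h) (f.symm (f x))) := h1
    rw [show f.symm (f x) = x from f.symm_apply_apply _] at h2
    exact f.injective h2

theorem pb_hs {α : Type*} [Fintype α] [DecidableEq α] {B : Set (Finset α)} (hα : Fintype.card α = 22)
    (hB : IsSteinerSystem 3 6 B) : ∃ H : Subgroup (pointBlockGraph B ≃g pointBlockGraph B),
      IsSimpleGroup H ∧ Nat.card H = 44352000 := by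
  classical
  letI : Fintype B := Fintype.ofFinite B
  letI : Fintype O100 := Fintype.ofFinite O100
  have h1 := srg100 hα hB
  obtain ⟨f, -⟩ := srg_unique hg_srg h1 ⟨vU, vU_mem⟩ none
  obtain ⟨r, hr⟩ := conjHom f rho rho_inj
  exact ⟨r.range, simple_card (MonoidHom.ofInjective hr) ⟨hs_simple, card_GH⟩⟩

end Cfsg.Agent.H7.St
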