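import Mathlib
import Cfsg.Prelude.Def_SporadicCombinatorics
import Cfsg.Agent.H28_Sxt
import Cfsg.Agent.H28_OrbStd
import Cfsg.Agent.H7_M24c
import Cfsg.Agent.H7_Ix9

set_option autoImplicit false
set_option linter.all false

/-!
The structure of a sextet stabilizer.
-/

namespace Cfsg.Agent.H7.Sx

open Cfsg Cfsg.Agent.H7.Golay Cfsg.Agent.H7.Oct Cfsg.Agent.H7.M24 Cfsg.Agent.H28.Sxt
open scoped Pointwise

abbrev PG := Equiv.Perm GolayPt

/-! ### the standard sextet -/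

def tm : List ℕ := [15, 5264, 8536096, 4196928, 622848, 3416064]

def S0 : Finset (Finset GolayPt) := sx (syn 15)

theorem S0_mem : S0 ∈ sextets := by
  have h := sx_mem (t := ofMask 15) (by rw [card_ofMask]; decide)
  rwa [mask_ofMask (by norm_num)] at h

theorem tm_lt : ∀ m ∈ tm, m < 16777216 := by decide
theorem tm_ok : ∀ m ∈ tm, pc m = 4 ∧ syn m = syn 15 := by decide +kernel

theorem S0_eq : S0 = (tm.map ofMask).toFinset := by
  symm
  apply Finset.eq_of_subset_of_card_le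
  · intro t ht
    rw [List.mem_toFinset, List.mem_map] at ht
    obtain ⟨m, hm, rfl⟩ := ht
    rw [S0, mem_sx, card_ofMask, mask_ofMask (tm_lt m hm)]
    exact tm_ok m hm
  · rw [S0_mem.1, List.toFinset_card_of_nodup]
    · rw [List.length_map]; decide
    · refine List.Nodup.map_on ?_ (by decide)
      intro a ha b hb hab
      exact (ofMask_inj (tm_lt a ha) (tm_lt b hb)).mp hab

theorem mem_S0 {t : Finset GolayPt} : t ∈ S0 ↔ ∃ m ∈ tm, ofMask m = t := by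
  rw [S0_eq, List.mem_toFinset, List.mem_map]

/-! ### transpositions of tetrads -/

def swT : List (ℕ × ℕ × List ℕ) := [
  (15, 5264, [4,7,10,12,2,5,11,3,16,9,0,6,1,21,17,19,15,14,20,8,13,18,22,23]),
  (15, 8536096, [5,14,17,23,4,3,11,10,19,22,7,9,12,18,2,8,15,1,13,16,20,21,6,0]),
  (15, 4196928, [6,9,22,11,7,23,0,12,19,1,4,3,10,21,17,16,8,5,13,15,18,20,2,14]),
  (15, 622848, [8,15,19,16,12,23,9,10,3,6,4,11,7,18,14,2,0,17,20,1,21,13,22,5]),
  (15, 3416064, [13,18,21,20,4,14,22,7,15,6,12,9,10,2,5,16,19,17,3,8,1,0,11,23]),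
  (5264, 8536096, [0,1,3,2,17,7,9,14,19,6,5,11,23,18,10,16,8,12,20,15,21,13,22,4]),
  (5264, 4196928, [0,1,3,2,6,5,12,11,19,4,22,10,9,20,14,8,15,23,21,16,18,13,7,17]),
  (5264, 622848, [0,1,3,2,19,14,11,16,4,6,15,22,8,21,23,7,10,5,18,12,20,13,9,17]),
  (5264, 3416064, [0,1,3,2,13,23,22,18,19,6,20,9,21,12,5,15,16,14,10,8,7,4,11,17]),
  (8536096, 4196928, [0,1,3,2,7,6,23,12,16,17,4,14,10,13,9,8,19,11,20,15,18,21,5,22]),
  (8536096, 622848, [0,1,3,2,7,8,9,4,23,11,10,22,12,20,16,5,17,19,21,14,18,13,6,15]),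
  (8536096, 3416064, [0,1,3,2,7,18,22,10,19,9,12,11,4,17,13,8,15,21,23,16,5,14,6,20]),
  (4196928, 622848, [0,1,3,2,7,23,19,10,22,16,12,8,4,20,5,11,6,14,18,9,13,21,15,17]),
  (4196928, 3416064, [0,1,3,2,7,23,21,4,8,18,10,20,12,22,14,15,19,17,9,16,11,6,13,5]),
  (622848, 3416064, [0,1,3,2,7,23,6,12,20,9,4,22,10,8,17,13,21,5,16,18,15,19,11,14])]

theorem swT_ok : (swT.all fun e => isM24 e.2.2 && Nat.beq (act e.2.2 e.1) e.2.1 && Nat.beq (act e.2.2 e.2.1) e.1 &&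
    tm.all (fun m => Nat.beq m e.1 || Nat.beq m e.2.1 || Nat.beq (act e.2.2 m) m)) = true := by decide +kernel

theorem swT_cover : (tm.all fun a => tm.all fun b => Nat.beq a b || swT.any fun e =>
    (Nat.beq e.1 a && Nat.beq e.2.1 b) || (Nat.beq e.1 b && Nat.beq e.2.1 a)) = true := by decide +kernel

theorem swap0 {t u : Finset GolayPt} (ht : t ∈ S0) (hu : u ∈ S0) (hne : t ≠ u) :
    ∃ g ∈ M24, g • t = u ∧ g • u = t ∧ ∀ v ∈ S0, v ≠ t → v ≠ u → g • v = v := by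
  obtain ⟨a, ha, rfl⟩ := mem_S0.mp ht
  obtain ⟨b, hb, rfl⟩ := mem_S0.mp hu
  have hab : a ≠ b := by rintro rfl; exact hne rfl
  have h1 := swT_cover
  rw [List.all_eq_true] at h1
  have h2 := h1 a ha
  rw [List.all_eq_true] at h2
  have h3 := h2 b hb
  have hab' : Nat.beq a b = false := by
    cases h : Nat.beq a b
    · rfl
    · exact absurd (Nat.eq_of_beq_eq_true h) hab
  rw [hab', Bool.false_or, List.any_eq_true] at h3
  obtain ⟨e, he, h4⟩ := h3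
  have h5 := swT_ok
  rw [List.all_eq_true] at h5
  have h6 := h5 e he
  rw [Bool.and_eq_true, Bool.and_eq_true, Bool.and_eq_true] at h6
  obtain ⟨⟨⟨h7, h8⟩, h9⟩, h10⟩ := h6
  obtain ⟨g, hg, hr⟩ := exists_M24 h7
  have h8 := Nat.eq_of_beq_eq_true h8
  have h9 := Nat.eq_of_beq_eq_true h9
  have ha1 : g • ofMask e.1 = ofMask e.2.1 := by rw [hr.smul_ofMask, h8]
  have ha2 : g • ofMask e.2.1 = ofMask e.1 := by rw [hr.smul_ofMask, h9]
  have h11 : ∀ v ∈ S0, v ≠ ofMask e.1 → v ≠ ofMask e.2.1 → g • v = v := by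
    intro v hv hv1 hv2
    obtain ⟨m, hm, rfl⟩ := mem_S0.mp hv
    rw [List.all_eq_true] at h10
    have h12 := h10 m hm
    rw [Bool.or_eq_true, Bool.or_eq_true] at h12
    rcases h12 with (h12 | h12) | h12
    · exact absurd (congrArg ofMask (Nat.eq_of_beq_eq_true h12)) hv1
    · exact absurd (congrArg ofMask (Nat.eq_of_beq_eq_true h12)) hv2
    · rw [hr.smul_ofMask, Nat.eq_of_beq_eq_true h12]
  rw [Bool.or_eq_true, Bool.and_eq_true, Bool.and_eq_true] at h4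
  rcases h4 with ⟨h13, h14⟩ | ⟨h13, h14⟩
  · have h13 := Nat.eq_of_beq_eq_true h13
    have h14 := Nat.eq_of_beq_eq_true h14
    subst h13; subst h14
    exact ⟨g, hg, ha1, ha2, h11⟩
  · have h13 := Nat.eq_of_beq_eq_true h13
    have h14 := Nat.eq_of_beq_eq_true h14
    subst h13; subst h14
    exact ⟨g, hg, ha2, ha1, fun v hv h1 h2 => h11 v hv h2 h1⟩

theorem std {S : Finset (Finset GolayPt)} (hS : S ∈ sextets) : ∃ h ∈ M24, h • S = S0 :=
  H28.OrbStd.sextet_trans hS S0_mem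

theorem swapS {S : Finset (Finset GolayPt)} (hS : S ∈ sextets) {t u : Finset GolayPt} (ht : t ∈ S) (hu : u ∈ S) (hne : t ≠ u) :
    ∃ g ∈ M24, g • t = u ∧ g • u = t ∧ ∀ v ∈ S, v ≠ t → v ≠ u → g • v = v := by
  obtain ⟨h, hh, hs⟩ := std hS
  have hm : ∀ v ∈ S, h • v ∈ S0 := fun v hv => by rw [← hs]; exact Finset.smul_mem_smul_finset hv
  obtain ⟨g, hg, h1, h2, h3⟩ := swap0 (hm t ht) (hm u hu) (fun hc => hne (smul_left_cancel h hc))
  refine ⟨h⁻¹ * g * h, M24.mul_mem (M24.mul_mem (M24.inv_mem hh) hg) hh, ?_, ?_, ?_⟩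
  · rw [mul_smul, mul_smul, h1, inv_smul_smul]
  · rw [mul_smul, mul_smul, h2, inv_smul_smul]
  · intro v hv hvt hvu
    rw [mul_smul, mul_smul, h3 _ (hm v hv) (fun hc => hvt (smul_left_cancel h hc)) (fun hc => hvu (smul_left_cancel h hc)), inv_smul_smul]

theorem stab_of_maps {S : Finset (Finset GolayPt)} {g : PG} (h : ∀ t ∈ S, g • t ∈ S) : g • S = S := by
  apply Finset.eq_of_subset_of_card_le
  · intro u hu
    obtain ⟨t, ht, rfl⟩ := Finset.mem_smul_finset.mp hu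
    exact h t ht
  · rw [Finset.card_smul_finset]

theorem realize {S : Finset (Finset GolayPt)} (hS : S ∈ sextets) (e : Equiv.Perm ↥S) :
    ∃ g ∈ M24, ∀ t : ↥S, g • (t : Finset GolayPt) = ((e t : ↥S) : Finset GolayPt) := by
  induction e using Equiv.Perm.swap_induction_on with
  | one => exact ⟨1, M24.one_mem, fun t => by rw [one_smul]; rfl⟩
  | swap_mul f x y hxy ih =>
    obtain ⟨g, hg, h1⟩ := ih
    obtain ⟨k, hk, h2, h3, h4⟩ := swapS hS x.2 y.2 (fun hc => hxy (Subtype.ext hc))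
    refine ⟨k * g, M24.mul_mem hk hg, fun t => ?_⟩
    rw [mul_smul, h1, Equiv.Perm.mul_apply]
    by_cases hx : f t = x
    · rw [hx, h2, Equiv.swap_apply_left]
    · by_cases hy : f t = y
      · rw [hy, h3, Equiv.swap_apply_right]
      · rw [Equiv.swap_apply_of_ne_of_ne hx hy]
        exact h4 _ (f t).2 (fun hc => hx (Subtype.ext hc)) (fun hc => hy (Subtype.ext hc))

theorem realize' {S : Finset (Finset GolayPt)} (hS : S ∈ sextets) (e : Equiv.Perm ↥S) :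
    ∃ g ∈ MulAction.stabilizer M24 S, ∀ t : ↥S, (g : PG) • (t : Finset GolayPt) = ((e t : ↥S) : Finset GolayPt) := by
  obtain ⟨g, hg, h⟩ := realize hS e
  refine ⟨⟨g, hg⟩, ?_, h⟩
  rw [MulAction.mem_stabilizer_iff]
  exact stab_of_maps (fun t ht => by rw [h ⟨t, ht⟩]; exact (e _).2)

/-! ### the kernel -/

def actS (S : Finset (Finset GolayPt)) : MulAction ↥(MulAction.stabilizer M24 S) ↥S where
  smul g t := ⟨(g.1.1 : PG) • t.1, by
    have h : g.1.1 • S = S := g.2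
    have := Finset.smul_mem_smul_finset (a := g.1.1) t.2
    rwa [h] at this⟩
  one_smul t := Subtype.ext (one_smul PG t.1)
  mul_smul g h t := Subtype.ext (mul_smul g.1.1 h.1.1 t.1)

theorem card_kernel {S : Finset (Finset GolayPt)} (hS : S ∈ sextets) :
    Nat.card {g : ↥(MulAction.stabilizer M24 S) // ∀ t ∈ S, ((g : M24) : PG) • t = t} = 192 := by
  letI := actS S
  set φ := MulAction.toPermHom ↥(MulAction.stabilizer M24 S) ↥S with hφ
  have hsurj : φ.range = ⊤ := by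
    rw [MonoidHom.range_eq_top]
    intro e
    obtain ⟨g, hg, h⟩ := realize' hS e
    refine ⟨⟨g, hg⟩, ?_⟩
    ext t : 2
    exact h t
  have h1 := Subgroup.card_mul_index φ.ker
  rw [Subgroup.index_ker, hsurj, Ix.card_stab_sextet hS] at h1
  have h2 : Nat.card (⊤ : Subgroup (Equiv.Perm ↥S)) = 720 := by
    rw [Subgroup.card_top, Nat.card_eq_fintype_card, Fintype.card_perm, Fintype.card_coe, hS.1]
    rfl
  rw [h2] at h1
  have h3 : Nat.card {g : ↥(MulAction.stabilizer M24 S) // ∀ t ∈ S, ((g : M24) : PG) • t = t} = Nat.card φ.ker := by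
    apply Nat.card_congr
    refine Equiv.subtypeEquivRight fun g => ?_
    rw [MonoidHom.mem_ker]
    constructor
    · intro h
      ext t : 2
      exact h t.1 t.2
    · intro h t ht
      have := Equiv.congr_fun h ⟨t, ht⟩
      exact congrArg Subtype.val this
  rw [h3]; omega

/-! ### the normal subgroup of order 64 -/

def NN (S : Finset (Finset GolayPt)) : Subgroup PG where
  carrier := {g | g ∈ M24 ∧ ∀ t ∈ S, g • t = t ∧ ∀ p ⊆ t, p.card = 2 → (g • p = p ∨ g • p = t \ p)}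
  one_mem' := ⟨M24.one_mem, fun t _ => ⟨one_smul _ _, fun p _ _ => Or.inl (one_smul _ _)⟩⟩
  mul_mem' := by
    rintro g h ⟨hg, hg'⟩ ⟨hh, hh'⟩
    refine ⟨M24.mul_mem hg hh, fun t ht => ⟨by rw [mul_smul, (hh' t ht).1, (hg' t ht).1], fun p hp hc => ?_⟩⟩
    have key : g • (t \ p) = t \ (g • p) := by
      rw [Finset.smul_finset_sdiff, (hg' t ht).1]
    rcases (hh' t ht).2 p hp hc with h1 | h1
    · rw [mul_smul, h1]; exact (hg' t ht).2 p hp hc
    · rw [mul_smul, h1, key]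
      rcases (hg' t ht).2 p hp hc with h2 | h2
      · right; rw [h2]
      · left; rw [h2, Finset.sdiff_sdiff_eq_self hp]
  inv_mem' := by
    rintro g ⟨hg, hg'⟩
    refine ⟨M24.inv_mem hg, fun t ht => ⟨by rw [inv_smul_eq_iff, (hg' t ht).1], fun p hp hc => ?_⟩⟩
    have key : g • (t \ p) = t \ (g • p) := by
      rw [Finset.smul_finset_sdiff, (hg' t ht).1]
    rcases (hg' t ht).2 p hp hc with h1 | h1
    · left; rw [inv_smul_eq_iff, h1]
    · right; rw [inv_smul_eq_iff, key, h1, Finset.sdiff_sdiff_eq_self hp]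

theorem NN_conj {S : Finset (Finset GolayPt)} {g h : PG} (hh : h ∈ M24) (hg : g ∈ NN S) : h * g * h⁻¹ ∈ NN (h • S) := by
  refine ⟨M24.mul_mem (M24.mul_mem hh hg.1) (M24.inv_mem hh), fun t ht => ?_⟩
  obtain ⟨u, hu, rfl⟩ := Finset.mem_smul_finset.mp ht
  obtain ⟨h1, h2⟩ := hg.2 u hu
  refine ⟨?_, fun p hp hc => ?_⟩
  · rw [mul_smul, mul_smul, inv_smul_smul, h1]
  · have hp' : h⁻¹ • p ⊆ u := by
      rw [← Finset.smul_finset_subset_smul_finset_iff (a := h), smul_inv_smul]; exact hp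
    rcases h2 (h⁻¹ • p) hp' (by rw [Finset.card_smul_finset]; exact hc) with h3 | h3
    · left; rw [mul_smul, mul_smul, h3, smul_inv_smul]
    · right; rw [mul_smul, mul_smul, h3, Finset.smul_finset_sdiff, smul_inv_smul]

theorem NN_fix {S : Finset (Finset GolayPt)} (hS : S ∈ sextets) {g : PG} (hg : g ∈ NN S) {t : Finset GolayPt} (ht : t ∈ S)
    {a b : GolayPt} (ha : a ∈ t) (hb : b ∈ t) (h : g a = a) : g b = b := by
  by_cases hab : a = b
  · rw [← hab]; exact h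
  obtain ⟨h1, h2⟩ := hg.2 t ht
  have hga : g a ∈ g • ({a, b} : Finset GolayPt) := Finset.smul_mem_smul_finset (a := g) (by simp)
  have hgb : g b ∈ g • ({a, b} : Finset GolayPt) := Finset.smul_mem_smul_finset (a := g) (by simp)
  rcases h2 {a, b} (by intro x hx; simp only [Finset.mem_insert, Finset.mem_singleton] at hx; rcases hx with rfl | rfl <;> assumption)
    (Finset.card_pair hab) with h3 | h3
  · rw [h3] at hgb
    simp only [Finset.mem_insert, Finset.mem_singleton] at hgb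
    rcases hgb with h4 | h4
    · exact absurd (g.injective (h4.trans h.symm)) (Ne.symm hab)
    · exact h4
  · rw [h3, h] at hga
    simp at hga

theorem NN_sq {S : Finset (Finset GolayPt)} (hS : S ∈ sextets) {g : PG} (hg : g ∈ NN S) : g * g = 1 := by
  ext a : 1
  rw [Equiv.Perm.mul_apply, Equiv.Perm.one_apply]
  obtain ⟨t, ht, hat⟩ := sextet_cover hS a
  obtain ⟨h1, h2⟩ := hg.2 t ht
  by_cases hab : g a = a
  · rw [hab, hab]
  have hbt : g a ∈ t := by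
    have : g a ∈ g • t := Finset.smul_mem_smul_finset (a := g) hat
    rwa [h1] at this
  have hga : g a ∈ g • ({a, g a} : Finset GolayPt) := Finset.smul_mem_smul_finset (a := g) (by simp)
  have hgb : g (g a) ∈ g • ({a, g a} : Finset GolayPt) := Finset.smul_mem_smul_finset (a := g) (by simp)
  rcases h2 {a, g a} (by intro x hx; simp only [Finset.mem_insert, Finset.mem_singleton] at hx; rcases hx with rfl | rfl <;> assumption)
    (Finset.card_pair (Ne.symm hab)) with h3 | h3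
  · rw [h3] at hgb
    simp only [Finset.mem_insert, Finset.mem_singleton] at hgb
    rcases hgb with h4 | h4
    · exact h4
    · exact absurd (g.injective h4) hab
  · rw [h3] at hga
    simp at hga

def nT : List (List ℕ) := [
  [0,1,2,3,4,5,6,7,8,9,10,11,12,13,14,15,16,17,18,19,20,21,22,23],
  [0,1,2,3,4,14,9,7,19,6,10,22,12,21,5,16,15,23,20,8,18,13,11,17],
  [0,1,2,3,4,23,11,7,15,22,10,6,12,18,17,8,19,14,13,16,21,20,9,5],
  [0,1,2,3,4,17,22,7,16,11,10,9,12,20,23,19,8,5,21,15,13,18,6,14],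
  [0,1,2,3,10,5,11,12,19,22,4,6,7,20,14,16,15,17,21,8,13,18,9,23],
  [0,1,2,3,10,14,22,12,8,11,4,9,7,18,5,15,16,23,13,19,21,20,6,17],
  [0,1,2,3,10,23,6,12,16,9,4,11,7,21,17,19,8,14,20,15,18,13,22,5],
  [0,1,2,3,10,17,9,12,15,6,4,22,7,13,23,8,19,5,18,16,20,21,11,14],
  [0,1,2,3,7,5,22,4,15,11,12,9,10,21,14,8,19,17,20,16,18,13,6,23],
  [0,1,2,3,7,14,11,4,16,22,12,6,10,13,5,19,8,23,18,15,20,21,9,17],
  [0,1,2,3,7,23,9,4,8,6,12,22,10,20,17,15,16,14,21,19,13,18,11,5],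
  [0,1,2,3,7,17,6,4,19,9,12,11,10,18,23,16,15,5,13,8,21,20,22,14],
  [0,1,2,3,12,14,6,10,15,9,7,11,4,20,5,8,19,23,21,16,13,18,22,17],
  [0,1,2,3,12,5,9,10,16,6,7,22,4,18,14,19,8,17,13,15,21,20,11,23],
  [0,1,2,3,12,17,11,10,8,22,7,6,4,21,23,15,16,5,20,19,18,13,9,14],
  [0,1,2,3,12,23,22,10,19,11,7,9,4,13,17,16,15,14,18,8,20,21,6,5],
  [1,0,3,2,10,17,6,12,8,9,4,11,7,20,23,15,16,5,21,19,13,18,22,14],
  [1,0,3,2,10,23,9,12,19,6,4,22,7,18,17,16,15,14,13,8,21,20,11,5],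
  [1,0,3,2,10,14,11,12,15,22,4,6,7,21,5,8,19,23,20,16,18,13,9,17],
  [1,0,3,2,10,5,22,12,16,11,4,9,7,13,14,19,8,17,18,15,20,21,6,23],
  [1,0,3,2,4,23,22,7,8,11,10,9,12,21,17,15,16,14,20,19,18,13,6,5],
  [1,0,3,2,4,17,11,7,19,22,10,6,12,13,23,16,15,5,18,8,20,21,9,14],
  [1,0,3,2,4,5,9,7,15,6,10,22,12,20,14,8,19,17,21,16,13,18,11,23],
  [1,0,3,2,4,14,6,7,16,9,10,11,12,18,5,19,8,23,13,15,21,20,22,17],
  [1,0,3,2,12,14,9,10,8,6,7,22,4,13,5,15,16,23,18,19,20,21,11,17],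
  [1,0,3,2,12,5,6,10,19,9,7,11,4,21,14,16,15,17,20,8,18,13,22,23],
  [1,0,3,2,12,17,22,10,15,11,7,9,4,18,23,8,19,5,13,16,21,20,6,14],
  [1,0,3,2,12,23,11,10,16,22,7,6,4,20,17,19,8,14,21,15,13,18,9,5],
  [1,0,3,2,7,14,22,4,19,11,12,9,10,20,5,16,15,23,21,8,13,18,6,17],
  [1,0,3,2,7,5,11,4,8,22,12,6,10,18,14,15,16,17,13,19,21,20,9,23],
  [1,0,3,2,7,17,9,4,16,6,12,22,10,21,23,19,8,5,20,15,18,13,11,14],
  [1,0,3,2,7,23,6,4,15,9,12,11,10,13,17,8,19,14,18,16,20,21,22,5],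
  [2,3,0,1,10,23,11,12,8,22,4,6,7,13,17,15,16,14,18,19,20,21,9,5],
  [2,3,0,1,10,17,22,12,19,11,4,9,7,21,23,16,15,5,20,8,18,13,6,14],
  [2,3,0,1,10,5,6,12,15,9,4,11,7,18,14,8,19,17,13,16,21,20,22,23],
  [2,3,0,1,10,14,9,12,16,6,4,22,7,20,5,19,8,23,21,15,13,18,11,17],
  [2,3,0,1,4,17,9,7,8,6,10,22,12,18,23,15,16,5,13,19,21,20,11,14],
  [2,3,0,1,4,23,6,7,19,9,10,11,12,20,17,16,15,14,21,8,13,18,22,5],
  [2,3,0,1,4,14,22,7,15,11,10,9,12,13,5,8,19,23,18,16,20,21,6,17],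
  [2,3,0,1,4,5,11,7,16,22,10,6,12,21,14,19,8,17,20,15,18,13,9,23],
  [2,3,0,1,7,5,9,4,19,6,12,22,10,13,14,16,15,17,18,8,20,21,11,23],
  [2,3,0,1,7,14,6,4,8,9,12,11,10,21,5,15,16,23,20,19,18,13,22,17],
  [2,3,0,1,7,23,22,4,16,11,12,9,10,18,17,19,8,14,13,15,21,20,6,5],
  [2,3,0,1,7,17,11,4,15,22,12,6,10,20,23,8,19,5,21,16,13,18,9,14],
  [2,3,0,1,12,14,11,10,19,22,7,6,4,18,5,16,15,23,13,8,21,20,9,17],
  [2,3,0,1,12,5,22,10,8,11,7,9,4,20,14,15,16,17,21,19,13,18,6,23],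
  [2,3,0,1,12,17,6,10,16,9,7,11,4,13,23,19,8,5,18,15,20,21,22,14],
  [2,3,0,1,12,23,9,10,15,6,7,22,4,21,17,8,19,14,20,16,18,13,11,5],
  [3,2,1,0,10,17,11,12,16,22,4,6,7,18,23,19,8,5,13,15,21,20,9,14],
  [3,2,1,0,10,23,22,12,15,11,4,9,7,20,17,8,19,14,21,16,13,18,6,5],
  [3,2,1,0,10,14,6,12,19,9,4,11,7,13,5,16,15,23,18,8,20,21,22,17],
  [3,2,1,0,10,5,9,12,8,6,4,22,7,21,14,15,16,17,20,19,18,13,11,23],
  [3,2,1,0,7,23,11,4,19,22,12,6,10,21,17,16,15,14,20,8,18,13,9,5],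
  [3,2,1,0,7,17,22,4,8,11,12,9,10,13,23,15,16,5,18,19,20,21,6,14],
  [3,2,1,0,7,5,6,4,16,9,12,11,10,20,14,19,8,17,21,15,13,18,22,23],
  [3,2,1,0,7,14,9,4,15,6,12,22,10,18,5,8,19,23,13,16,21,20,11,17],
  [3,2,1,0,12,17,9,10,19,6,7,22,4,20,23,16,15,5,21,8,13,18,11,14],
  [3,2,1,0,12,23,6,10,8,9,7,11,4,18,17,15,16,14,13,19,21,20,22,5],
  [3,2,1,0,12,14,22,10,16,11,7,9,4,21,5,19,8,23,20,15,18,13,6,17],
  [3,2,1,0,12,5,11,10,15,22,7,6,4,13,14,8,19,17,18,16,20,21,9,23],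
  [3,2,1,0,4,5,22,7,19,11,10,9,12,18,14,16,15,17,13,8,21,20,6,23],
  [3,2,1,0,4,14,11,7,8,22,10,6,12,20,5,15,16,23,21,19,13,18,9,17],
  [3,2,1,0,4,23,9,7,16,6,10,22,12,13,17,19,8,14,18,15,20,21,11,5],
  [3,2,1,0,4,17,6,7,15,9,10,11,12,21,23,8,19,5,20,16,18,13,22,14]]

def pairs2 (m : ℕ) : List ℕ := ((List.range 24).flatMap fun i => (List.range i).filterMap fun j =>
  if m.testBit i && m.testBit j then some (2 ^ i + 2 ^ j) else none)

theorem nT_ok : (nT.all fun l => isM24 l && tm.all (fun m => Nat.beq (act l m) m && (pairs2 m).all fun p =>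
    Nat.beq (act l p) p || Nat.beq (act l p) (Nat.xor m p))) = true := by decide +kernel

theorem nT_cover : ([0,1,2,3].all fun x => [4,7,10,12].all fun y => [5,14,17,23].all fun z => nT.any fun l =>
    Nat.beq (l.getD 0 0) x && Nat.beq (l.getD 4 0) y && Nat.beq (l.getD 5 0) z) = true := by decide +kernel

end Cfsg.Agent.H7.Sx
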