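import Mathlib
import Cfsg.Agent.H7_Sx1

set_option autoImplicit false
set_option linter.all false

/-!
The structure of a sextet stabilizer, 2.
-/

namespace Cfsg.Agent.H7.Sx

open Cfsg Cfsg.Agent.H7.Golay Cfsg.Agent.H7.Oct Cfsg.Agent.H7.M24 Cfsg.Agent.H28.Sxt
open scoped Pointwise

theorem pair_mem : ∀ m ∈ tm, ∀ a b : GolayPt, m.testBit (ix a) = true → m.testBit (ix b) = true → a ≠ b →
    mask {a, b} ∈ pairs2 m := by decide +kernel

theorem nT_NN {l : List ℕ} (hl : l ∈ nT) : ∃ g ∈ NN S0, Rep g l := by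
  have h1 := nT_ok
  rw [List.all_eq_true] at h1
  have h2 := h1 l hl
  rw [Bool.and_eq_true] at h2
  obtain ⟨h3, h4⟩ := h2
  obtain ⟨g, hg, hr⟩ := exists_M24 h3
  refine ⟨g, ⟨hg, fun t ht => ?_⟩, hr⟩
  obtain ⟨m, hm, rfl⟩ := mem_S0.mp ht
  rw [List.all_eq_true] at h4
  have h5 := h4 m hm
  rw [Bool.and_eq_true] at h5
  obtain ⟨h6, h7⟩ := h5
  refine ⟨by rw [hr.smul_ofMask, Nat.eq_of_beq_eq_true h6], fun p hp hc => ?_⟩
  obtain ⟨a, b, hab, rfl⟩ := Finset.card_eq_two.mp hc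
  have ha := hp (show a ∈ ({a, b} : Finset GolayPt) by simp)
  have hb := hp (show b ∈ ({a, b} : Finset GolayPt) by simp)
  rw [mem_ofMask] at ha hb
  have h8 := pair_mem m hm a b ha hb hab
  rw [List.all_eq_true] at h7
  have h9 := h7 _ h8
  rw [Bool.or_eq_true] at h9
  rcases h9 with h9 | h9
  · left
    conv_lhs => rw [← ofMask_mask {a, b}]
    rw [hr.smul_ofMask, Nat.eq_of_beq_eq_true h9, ofMask_mask]
  · right
    conv_lhs => rw [← ofMask_mask {a, b}]
    rw [hr.smul_ofMask, Nat.eq_of_beq_eq_true h9]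
    have : ofMask (Nat.xor m (mask {a, b})) = symmDiff (ofMask m) (ofMask (mask {a, b})) := ofMask_xor _ _
    rw [this, ofMask_mask, symmDiff_of_ge hp]

theorem T0_mem : ofMask 15 ∈ S0 := mem_S0.mpr ⟨15, by decide, rfl⟩
theorem T1_mem : ofMask 5264 ∈ S0 := mem_S0.mpr ⟨5264, by decide, rfl⟩
theorem T2_mem : ofMask 8536096 ∈ S0 := mem_S0.mpr ⟨8536096, by decide, rfl⟩

theorem NN_maps {S : Finset (Finset GolayPt)} {g : PG} (hg : g ∈ NN S) {t : Finset GolayPt} (ht : t ∈ S) {a : GolayPt} (ha : a ∈ t) :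
    g a ∈ t := by
  have : g a ∈ g • t := Finset.smul_mem_smul_finset (a := g) ha
  rwa [(hg.2 t ht).1] at this

theorem card_NN0 : Nat.card (NN S0) = 64 := by
  have e0 : pt 0 ∈ ofMask 15 := by rw [mem_ofMask]; decide
  have e1 : pt 4 ∈ ofMask 5264 := by rw [mem_ofMask]; decide
  have e2 : pt 5 ∈ ofMask 8536096 := by rw [mem_ofMask]; decide
  set Ψ : ↥(NN S0) → ↥(ofMask 15) × ↥(ofMask 5264) × ↥(ofMask 8536096) := fun g =>
    (⟨g.1 (pt 0), NN_maps g.2 T0_mem e0⟩, ⟨g.1 (pt 4), NN_maps g.2 T1_mem e1⟩, ⟨g.1 (pt 5), NN_maps g.2 T2_mem e2⟩) with hΨ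
  have hinj : Function.Injective Ψ := by
    rintro ⟨g, hg⟩ ⟨h, hh⟩ hgh
    simp only [hΨ, Prod.mk.injEq, Subtype.mk.injEq] at hgh
    obtain ⟨h0, h1, h2⟩ := hgh
    have hk : h⁻¹ * g ∈ NN S0 := (NN S0).mul_mem ((NN S0).inv_mem hh) hg
    have f0 : (h⁻¹ * g) (pt 0) = pt 0 := by rw [Equiv.Perm.mul_apply, h0]; exact h.symm_apply_apply _
    have f1 : (h⁻¹ * g) (pt 4) = pt 4 := by rw [Equiv.Perm.mul_apply, h1]; exact h.symm_apply_apply _
    have f2 : (h⁻¹ * g) (pt 5) = pt 5 := by rw [Equiv.Perm.mul_apply, h2]; exact h.symm_apply_apply _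
    have := M24c.fix_nine hk.1 (ofMask (15 ||| (5264 ||| 8536096))) (by rw [card_ofMask]; decide) (by
      intro p hp
      rw [ofMask_or, ofMask_or, Finset.mem_union, Finset.mem_union] at hp
      rcases hp with hp | hp | hp
      · exact NN_fix S0_mem hk T0_mem e0 hp f0
      · exact NN_fix S0_mem hk T1_mem e1 hp f1
      · exact NN_fix S0_mem hk T2_mem e2 hp f2)
    apply Subtype.ext
    rw [inv_mul_eq_one] at this
    exact this.symm
  have hsurj : Function.Surjective Ψ := by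
    rintro ⟨⟨x, hx⟩, ⟨y, hy⟩, ⟨z, hz⟩⟩
    have h1 := nT_cover
    rw [List.all_eq_true] at h1
    have hx' : ix x ∈ [0,1,2,3] := by revert x; decide +kernel
    have hy' : ix y ∈ [4,7,10,12] := by revert y; decide +kernel
    have hz' : ix z ∈ [5,14,17,23] := by revert z; decide +kernel
    have h2 := h1 _ hx'
    rw [List.all_eq_true] at h2
    have h3 := h2 _ hy'
    rw [List.all_eq_true] at h3
    have h4 := h3 _ hz'
    rw [List.any_eq_true] at h4
    obtain ⟨l, hl, h5⟩ := h4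
    rw [Bool.and_eq_true, Bool.and_eq_true] at h5
    obtain ⟨⟨h6, h7⟩, h8⟩ := h5
    obtain ⟨g, hg, hr⟩ := nT_NN hl
    refine ⟨⟨g, hg⟩, ?_⟩
    simp only [hΨ, Prod.mk.injEq, Subtype.mk.injEq]
    refine ⟨?_, ?_, ?_⟩
    · rw [hr.apply_pt (by norm_num), Nat.eq_of_beq_eq_true h6, pt_ix]
    · rw [hr.apply_pt (by norm_num), Nat.eq_of_beq_eq_true h7, pt_ix]
    · rw [hr.apply_pt (by norm_num), Nat.eq_of_beq_eq_true h8, pt_ix]
  rw [Nat.card_congr (Equiv.ofBijective Ψ ⟨hinj, hsurj⟩), Nat.card_prod, Nat.card_prod]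
  simp only [Nat.card_eq_fintype_card, Fintype.card_coe, card_ofMask]
  decide

theorem card_NN {S : Finset (Finset GolayPt)} (hS : S ∈ sextets) : Nat.card (NN S) = 64 := by
  obtain ⟨h, hh, hs⟩ := std hS
  rw [← card_NN0]
  apply Nat.card_congr
  refine ⟨fun g => ⟨h * g.1 * h⁻¹, by rw [← hs]; exact NN_conj hh g.2⟩,
    fun g => ⟨h⁻¹ * g.1 * h⁻¹⁻¹, ?_⟩, ?_, ?_⟩
  · have := NN_conj (M24.inv_mem hh) g.2
    have e : h⁻¹ • S0 = S := by rw [← hs, inv_smul_smul]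
    rw [e] at this
    exact this
  · intro g; apply Subtype.ext; simp only; group
  · intro g; apply Subtype.ext; simp only; group

theorem NN_le {S : Finset (Finset GolayPt)} {g : PG} (hg : g ∈ NN S) : g • S = S :=
  stab_of_maps (fun t ht => by rw [(hg.2 t ht).1]; exact ht)

theorem card_comap_of_range {G H : Type*} [Group G] [Group H] (f : H →* G) (hf : Function.Injective f) (K : Subgroup G)
    (hK : ∀ g ∈ K, ∃ h, f h = g) : Nat.card (K.comap f) = Nat.card K := by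
  apply Nat.card_congr
  refine Equiv.ofBijective (fun h => (⟨f h.1, h.2⟩ : K)) ⟨?_, ?_⟩
  · intro a b hab; exact Subtype.ext (hf (congrArg Subtype.val hab))
  · rintro ⟨g, hg⟩
    obtain ⟨h, hh⟩ := hK g hg
    exact ⟨⟨h, by rw [Subgroup.mem_comap, hh]; exact hg⟩, Subtype.ext hh⟩

theorem s1551 (S : Finset (Finset GolayPt)) (hS : S ∈ sextets) :
    ∃ N : Subgroup ↥(MulAction.stabilizer M24 S), N.Normal ∧ Nat.card N = 64 ∧ ∀ x ∈ N, x * x = 1 := by
  set f : ↥(MulAction.stabilizer M24 S) →* PG := M24.subtype.comp (MulAction.stabilizer M24 S).subtype with hf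
  refine ⟨(NN S).comap f, ⟨fun n hn g => ?_⟩, ?_, ?_⟩
  · rw [Subgroup.mem_comap] at hn ⊢
    have h1 := NN_conj (h := g.1.1) g.1.2 hn
    have h2 : g.1.1 • S = S := g.2
    rw [h2] at h1
    exact h1
  · rw [card_comap_of_range f (fun a b h => Subtype.ext (Subtype.ext h)) (NN S)
      (fun g hg => ⟨⟨⟨g, hg.1⟩, NN_le hg⟩, rfl⟩)]
    exact card_NN hS
  · intro x hx
    exact Subtype.ext (Subtype.ext (NN_sq hS hx))

end Cfsg.Agent.H7.Sx
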