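import Mathlib

set_option autoImplicit false
set_option linter.all false

/-!
The quadratic form `|x| choose 2` on binary vectors.
-/

namespace Cfsg.Agent.H7.SymQ

open QuadraticMap Module

variable {n : ℕ}

def wt (x : Fin n → ZMod 2) : ℕ := ∑ i, (x i).val

theorem wt_add (x y : Fin n → ZMod 2) : wt (x + y) + 2 * wt (x * y) = wt x + wt y := by
  have h : ∀ a b : ZMod 2, (a + b).val + 2 * (a * b).val = a.val + b.val := by decide
  simp only [wt, Finset.mul_sum, ← Finset.sum_add_distrib]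
  exact Finset.sum_congr rfl fun i _ => h _ _

theorem wt_cast (x : Fin n → ZMod 2) : ((wt x : ℕ) : ZMod 2) = ∑ i, x i := by
  simp [wt]

def F4 : ZMod 4 → ZMod 2 := ![0, 0, 1, 1]
def G4 : ZMod 4 → ZMod 2 := ![0, 1, 0, 1]

theorem F4_succ : ∀ a : ZMod 4, F4 (a + 1) = F4 a + G4 a := by decide
theorem G4_succ : ∀ a : ZMod 4, G4 (a + 1) = G4 a + 1 := by decide

theorem cast_G (m : ℕ) : ((m : ℕ) : ZMod 2) = G4 (m : ZMod 4) := by
  induction m with
  | zero => rfl
  | succ m ih => rw [Nat.cast_succ, Nat.cast_succ, G4_succ, ih]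

theorem cast_F (m : ℕ) : ((m.choose 2 : ℕ) : ZMod 2) = F4 (m : ZMod 4) := by
  induction m with
  | zero => rfl
  | succ m ih =>
    rw [Nat.choose_succ_succ' m 1, Nat.choose_one_right, Nat.cast_add, Nat.cast_succ, F4_succ, ih, cast_G, add_comm]

theorem ch2 (a b c z : ℕ) (h : z + 2 * c = a + b) :
    ((z.choose 2 : ℕ) : ZMod 2) = ((a.choose 2 : ℕ) : ZMod 2) + ((b.choose 2 : ℕ) : ZMod 2) +
      (a : ZMod 2) * (b : ZMod 2) + (c : ZMod 2) := by
  rw [cast_F, cast_F, cast_F, cast_G a, cast_G b, cast_G c]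
  have h1 : (z : ZMod 4) = (a : ZMod 4) + (b : ZMod 4) - 2 * (c : ZMod 4) := by
    have := congrArg (Nat.cast : ℕ → ZMod 4) h
    push_cast at this
    rw [← this]; ring
  rw [h1]
  have h2 : ∀ a b c : ZMod 4, F4 (a + b - 2 * c) = F4 a + F4 b + G4 a * G4 b + G4 c := by decide
  exact h2 _ _ _

def qf (x : Fin n → ZMod 2) : ZMod 2 := ((wt x).choose 2 : ℕ)

theorem qf_add (x y : Fin n → ZMod 2) : qf (x + y) = qf x + qf y + ((∑ i, x i) * (∑ i, y i) + ∑ i, x i * y i) := by
  unfold qf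
  rw [ch2 _ _ _ _ (wt_add x y), wt_cast, wt_cast, wt_cast]
  simp only [Pi.mul_apply]
  ring

theorem polar_qf (x y : Fin n → ZMod 2) : QuadraticMap.polar qf x y = (∑ i, x i) * (∑ i, y i) + ∑ i, x i * y i := by
  unfold QuadraticMap.polar
  rw [qf_add]; ring

noncomputable def q (n : ℕ) : QuadraticForm (ZMod 2) (Fin n → ZMod 2) :=
  QuadraticMap.ofPolar qf
    (by
      intro a x
      have ha : a = 0 ∨ a = 1 := by revert a; decide
      rcases ha with rfl | rfl
      · simp [qf, wt]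
      · simp)
    (by
      intro x x' y
      rw [polar_qf, polar_qf, polar_qf]
      simp only [Pi.add_apply, Finset.sum_add_distrib, add_mul]
      ring)
    (by
      intro a x y
      rw [polar_qf, polar_qf]
      simp only [Pi.smul_apply, smul_eq_mul, ← Finset.mul_sum, mul_assoc]
      ring)

theorem q_apply (x : Fin n → ZMod 2) : q n x = qf x := rfl

theorem polar_q (x y : Fin n → ZMod 2) : QuadraticMap.polar (q n) x y = (∑ i, x i) * (∑ i, y i) + ∑ i, x i * y i :=
  polar_qf x y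

theorem qf_perm (σ : Equiv.Perm (Fin n)) (x : Fin n → ZMod 2) : qf (fun i => x (σ i)) = qf x := by
  unfold qf wt
  rw [Equiv.sum_comp σ (fun i => (x i).val)]

end Cfsg.Agent.H7.SymQ
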