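import Mathlib
import Cfsg.Agent.H7_SymQ1

set_option autoImplicit false
set_option linter.all false

namespace Cfsg.Agent.H7.SymQ

open QuadraticMap Module

variable {n : ℕ}

def sg (a : ZMod 2) : ℤ := if a = 0 then 1 else -1

def rr (w : ℕ) : ℤ := if w % 4 = 0 then 1 else if w % 4 = 2 then -1 else 0

theorem I_pow_re (w : ℕ) : (Complex.I ^ w).re = (rr w : ℝ) := by
  rw [Complex.I_pow_eq_pow_mod]
  have h : w % 4 < 4 := Nat.mod_lt _ (by norm_num)
  unfold rr
  generalize w % 4 = r at h ⊢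
  interval_cases r
  · simp
  · simp
  · simp [Complex.I_sq]
  · simp [pow_succ]

theorem sum_I (n : ℕ) : ∑ x : Fin n → ZMod 2, Complex.I ^ (wt x) = (1 + Complex.I) ^ n := by
  have h : (1 + Complex.I) ^ n = ∏ i : Fin n, ∑ a : ZMod 2, Complex.I ^ a.val := by
    rw [Finset.prod_const, Finset.card_univ, Fintype.card_fin]
    congr 1
    have : (Finset.univ : Finset (ZMod 2)) = {0, 1} := by decide
    rw [this, Finset.sum_pair (by decide)]
    simp [ZMod.val_one]
  rw [h, Finset.prod_univ_sum, Fintype.piFinset_univ]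
  apply Finset.sum_congr rfl
  intro x _
  rw [Finset.prod_pow_eq_pow_sum]
  rfl

theorem sum_rr (k : ℕ) : ∑ x : Fin (4 * k + 4) → ZMod 2, rr (wt x) = (-4) ^ (k + 1) := by
  have h := congrArg Complex.re (sum_I (4 * k + 4))
  rw [Complex.re_sum] at h
  simp only [I_pow_re] at h
  have h4 : (1 + Complex.I) ^ (4 * k + 4) = ((((-4 : ℤ)) ^ (k + 1) : ℤ) : ℂ) := by
    have e : 4 * k + 4 = 4 * (k + 1) := by ring
    rw [e, pow_mul]
    have : (1 + Complex.I) ^ 4 = -4 := by
      have h2 : Complex.I ^ 2 = -1 := Complex.I_sq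
      linear_combination (6 + 4 * Complex.I + Complex.I ^ 2 - 1) * h2
    rw [this]; push_cast; ring
  rw [h4, Complex.intCast_re] at h
  exact_mod_cast h

theorem rr_even {x : Fin n → ZMod 2} (h : ∑ i, x i = 0) : rr (wt x) = sg (qf x) := by
  rw [← wt_cast, cast_G] at h
  unfold qf
  rw [cast_F]
  unfold rr
  rw [← ZMod.val_natCast (n := 4)]
  revert h
  generalize ((wt x : ℕ) : ZMod 4) = c
  revert c
  decide

theorem rr_odd {x : Fin n → ZMod 2} (h : ∑ i, x i ≠ 0) : rr (wt x) = 0 := by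
  rw [← wt_cast, cast_G] at h
  unfold rr
  rw [← ZMod.val_natCast (n := 4)]
  revert h
  generalize ((wt x : ℕ) : ZMod 4) = c
  revert c
  decide

/-- even vectors vanishing at the first coordinate -/
def Wt (k : ℕ) (x : Fin (4 * k + 4) → ZMod 2) : Prop := ∑ i, x i = 0 ∧ x 0 = 0

instance (k : ℕ) : DecidablePred (Wt k) := fun x => inferInstanceAs (Decidable (_ ∧ _))

theorem sum_one (k : ℕ) : ∑ i : Fin (4 * k + 4), (1 : ZMod 2) = 0 := by
  rw [Finset.sum_const, Finset.card_univ, Fintype.card_fin, nsmul_eq_mul, mul_one]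
  have : 4 * k + 4 = 2 * (2 * k + 2) := by ring
  rw [this, Nat.cast_mul]
  have h2 : ((2 : ℕ) : ZMod 2) = 0 := rfl
  rw [h2, zero_mul]

theorem qf_one (k : ℕ) : qf (fun _ : Fin (4 * k + 4) => (1 : ZMod 2)) = 0 := by
  unfold qf
  rw [cast_F]
  have : wt (fun _ : Fin (4 * k + 4) => (1 : ZMod 2)) = 4 * (k + 1) := by
    simp [wt, ZMod.val_one]; ring
  rw [this, Nat.cast_mul]
  have h4 : ((4 : ℕ) : ZMod 4) = 0 := rfl
  rw [h4, zero_mul]; rfl

theorem qf_add_one (k : ℕ) {x : Fin (4 * k + 4) → ZMod 2} (h : ∑ i, x i = 0) (c : ZMod 2) :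
    qf (x + fun _ => c) = qf x := by
  have hc : c = 0 ∨ c = 1 := by revert c; decide
  rcases hc with rfl | rfl
  · congr 1; funext i; simp
  · rw [qf_add, qf_one, h]
    simp [h]

theorem sum_W (k : ℕ) : 2 * ∑ x ∈ Finset.univ.filter (Wt k), sg (qf x) = (-4) ^ (k + 1) := by
  rw [← sum_rr k]
  have h1 : ∑ x : Fin (4 * k + 4) → ZMod 2, rr (wt x) =
      ∑ x ∈ Finset.univ.filter (fun x : Fin (4 * k + 4) → ZMod 2 => ∑ i, x i = 0), sg (qf x) := by
    rw [Finset.sum_filter]
    apply Finset.sum_congr rfl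
    intro x _
    split_ifs with h
    · exact rr_even h
    · exact rr_odd h
  have h5 := Finset.sum_filter_add_sum_filter_not
    (Finset.univ.filter (fun x : Fin (4 * k + 4) → ZMod 2 => ∑ i, x i = 0)) (fun x => x 0 = 0) (fun x => sg (qf x))
  rw [Finset.filter_filter, Finset.filter_filter] at h5
  rw [h1, ← h5]
  have h2 : ∑ x ∈ Finset.univ.filter (fun x : Fin (4 * k + 4) → ZMod 2 => ∑ i, x i = 0 ∧ ¬ x 0 = 0), sg (qf x) =
      ∑ x ∈ Finset.univ.filter (Wt k), sg (qf x) := by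
    refine Finset.sum_bij' (fun x _ => x + fun _ => 1) (fun x _ => x + fun _ => 1) ?_ ?_ ?_ ?_ ?_
    · intro x hx
      rw [Finset.mem_filter] at hx ⊢
      refine ⟨Finset.mem_univ _, ?_, ?_⟩
      · simp only [Pi.add_apply, Finset.sum_add_distrib, hx.2.1, sum_one, add_zero]
      · have : ∀ a : ZMod 2, ¬ a = 0 → a + 1 = 0 := by decide
        exact this _ hx.2.2
    · intro x hx
      rw [Finset.mem_filter] at hx ⊢
      refine ⟨Finset.mem_univ _, ?_, ?_⟩
      · simp only [Pi.add_apply, Finset.sum_add_distrib, hx.2.1, sum_one, add_zero]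
      · have : ∀ a : ZMod 2, a = 0 → ¬ a + 1 = 0 := by decide
        exact this _ hx.2.2
    · intro x _
      funext i
      have : ∀ a : ZMod 2, a + 1 + 1 = a := by decide
      exact this _
    · intro x _
      funext i
      have : ∀ a : ZMod 2, a + 1 + 1 = a := by decide
      exact this _
    · intro x hx
      rw [Finset.mem_filter] at hx
      rw [qf_add_one k hx.2.1]
  rw [h2]
  have h3 : Finset.univ.filter (fun x : Fin (4 * k + 4) → ZMod 2 => ∑ i, x i = 0 ∧ x 0 = 0) = Finset.univ.filter (Wt k) := by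
    apply Finset.filter_congr
    intro x _
    exact Iff.rfl
  rw [h3]
  ring

end Cfsg.Agent.H7.SymQ
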