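import Mathlib
import Cfsg.Agent.H7_SymQ2
import Cfsg.Agent.H16_Quad6
import Cfsg.Agent.H16_F2
import Cfsg.Agent.H16_Mat
import Cfsg.Agent.H16_Std

set_option autoImplicit false
set_option linter.all false

namespace Cfsg.Agent.H7.SymQ

open QuadraticMap Module Cfsg.Agent.H16.Quad

variable (k : ℕ)

/-- the space -/
def L : (Fin (4 * k + 4) → ZMod 2) →ₗ[ZMod 2] ZMod 2 × ZMod 2 where
  toFun x := (∑ i, x i, x 0)
  map_add' x y := by simp [Finset.sum_add_distrib]
  map_smul' a x := by simp [Finset.mul_sum]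

def W : Submodule (ZMod 2) (Fin (4 * k + 4) → ZMod 2) := LinearMap.ker (L k)

theorem mem_W {x : Fin (4 * k + 4) → ZMod 2} : x ∈ W k ↔ Wt k x := by
  show L k x = 0 ↔ _
  rw [Prod.ext_iff]
  exact Iff.rfl

theorem finrank_W : finrank (ZMod 2) (W k) = 4 * k + 2 := by
  have h := LinearMap.finrank_range_add_finrank_ker (L k)
  have hs : Function.Surjective (L k) := by
    rintro ⟨a, b⟩
    refine ⟨Pi.single 0 b + Pi.single 1 (a - b), ?_⟩
    have h1 : (1 : Fin (4 * k + 4)) ≠ 0 := by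
      intro h
      have := congrArg Fin.val h
      simp at this
    apply Prod.ext
    · show ∑ i, ((Pi.single 0 b + Pi.single 1 (a - b) : Fin (4 * k + 4) → ZMod 2)) i = a
      simp [Finset.sum_add_distrib]
    · show ((Pi.single 0 b + Pi.single 1 (a - b) : Fin (4 * k + 4) → ZMod 2)) 0 = b
      simp [Pi.single_apply, h1.symm]
  rw [LinearMap.range_eq_top.2 hs, finrank_top, Module.finrank_prod, Module.finrank_self,
    Module.finrank_fintype_fun_eq_card, Fintype.card_fin] at h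
  show finrank (ZMod 2) (LinearMap.ker (L k)) = _
  omega

noncomputable def Q : QuadraticForm (ZMod 2) (W k) := (q (4 * k + 4)).comp (W k).subtype

theorem Q_apply (x : W k) : Q k x = qf x.1 := rfl

theorem polar_Q (x y : W k) : QuadraticMap.polar (Q k) x y = ∑ i, x.1 i * y.1 i := by
  have h : QuadraticMap.polar (Q k) x y = QuadraticMap.polar (q (4 * k + 4)) x.1 y.1 := rfl
  rw [h, polar_q, ((mem_W k).1 x.2).1, zero_mul, zero_add]

theorem Q_nd : (QuadraticMap.polarBilin (Q k)).Nondegenerate := by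
  apply nd_of
  intro x hx
  obtain ⟨hs, h0⟩ := (mem_W k).1 x.2
  have h2 : ∀ a : ZMod 2, a + a = 0 := by decide
  have key : ∀ i j : Fin (4 * k + 4), i ≠ 0 → j ≠ 0 → x.1 i = x.1 j := by
    intro i j hi hj
    have hy : (Pi.single i 1 + Pi.single j 1 : Fin (4 * k + 4) → ZMod 2) ∈ W k := by
      rw [mem_W]
      refine ⟨?_, ?_⟩
      · simp only [Pi.add_apply, Finset.sum_add_distrib, Finset.sum_pi_single', Finset.mem_univ, if_true]
        exact h2 1
      · simp [Pi.single_apply, hi.symm, hj.symm]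
    have h3 := hx ⟨_, hy⟩
    rw [polar_Q] at h3
    simp only [Pi.add_apply, mul_add, Finset.sum_add_distrib] at h3
    simp [Pi.single_apply] at h3
    have h4 : ∀ a b : ZMod 2, a + b = 0 → a = b := by decide
    exact h4 _ _ h3
  have h1 : (1 : Fin (4 * k + 4)) ≠ 0 := by
    intro h
    have := congrArg Fin.val h
    simp at this
  have hc : ∀ i, x.1 i = if i = 0 then 0 else x.1 1 := by
    intro i
    split_ifs with hi
    · rw [hi]; exact h0
    · exact key i 1 hi h1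
  have hx1 : x.1 1 = 0 := by
    rw [Finset.sum_congr rfl (fun i _ => hc i)] at hs
    have e : ∑ i : Fin (4 * k + 4), (if i = 0 then (0 : ZMod 2) else x.1 1) =
        ∑ i : Fin (4 * k + 4), (x.1 1 + if i = 0 then x.1 1 else 0) := by
      apply Finset.sum_congr rfl
      intro i _
      split_ifs
      · exact (h2 _).symm
      · rw [add_zero]
    rw [e, Finset.sum_add_distrib, Finset.sum_ite_eq' Finset.univ, if_pos (Finset.mem_univ _)] at hs
    have e2 : ∑ i : Fin (4 * k + 4), x.1 1 = x.1 1 * ∑ i : Fin (4 * k + 4), (1 : ZMod 2) := by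
      rw [Finset.mul_sum]; simp
    rw [e2, sum_one, mul_zero, zero_add] at hs
    exact hs
  apply Subtype.ext
  funext i
  rw [hc i, hx1]
  simp

/-! ### the action -/

noncomputable def act (σ : Equiv.Perm (Fin (4 * k + 4))) (x : Fin (4 * k + 4) → ZMod 2) (i : Fin (4 * k + 4)) : ZMod 2 :=
  x (σ⁻¹ i) + x (σ⁻¹ 0)

theorem act_mem (σ : Equiv.Perm (Fin (4 * k + 4))) {x : Fin (4 * k + 4) → ZMod 2} (hx : x ∈ W k) : act k σ x ∈ W k := by
  rw [mem_W] at hx ⊢
  obtain ⟨hs, h0⟩ := hx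
  refine ⟨?_, ?_⟩
  · unfold act
    rw [Finset.sum_add_distrib, Equiv.sum_comp σ⁻¹ x, hs, zero_add]
    have e2 : ∑ i : Fin (4 * k + 4), x (σ⁻¹ 0) = x (σ⁻¹ 0) * ∑ i : Fin (4 * k + 4), (1 : ZMod 2) := by
      rw [Finset.mul_sum]; simp
    rw [e2, sum_one, mul_zero]
  · have h2 : ∀ a : ZMod 2, a + a = 0 := by decide
    exact h2 _

theorem act_mul (σ τ : Equiv.Perm (Fin (4 * k + 4))) (x : Fin (4 * k + 4) → ZMod 2) :
    act k (σ * τ) x = act k σ (act k τ x) := by
  funext i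
  have h : ∀ a b c : ZMod 2, a + b = a + c + (b + c) := by decide
  exact h _ _ _

theorem act_one {x : Fin (4 * k + 4) → ZMod 2} (hx : x ∈ W k) : act k 1 x = x := by
  rw [mem_W] at hx
  funext i
  show x i + x 0 = x i
  rw [hx.2, add_zero]

theorem act_q (σ : Equiv.Perm (Fin (4 * k + 4))) {x : Fin (4 * k + 4) → ZMod 2} (hx : x ∈ W k) :
    qf (act k σ x) = qf x := by
  have hx := (mem_W k).1 hx
  have e : act k σ x = (fun i => x (σ⁻¹ i)) + fun _ => x (σ⁻¹ 0) := rfl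
  rw [e, qf_add_one k (by rw [Equiv.sum_comp σ⁻¹ x, hx.1]), qf_perm]

noncomputable def A (σ : Equiv.Perm (Fin (4 * k + 4))) : W k ≃ₗ[ZMod 2] W k where
  toFun x := ⟨act k σ x.1, act_mem k σ x.2⟩
  invFun x := ⟨act k σ⁻¹ x.1, act_mem k σ⁻¹ x.2⟩
  left_inv x := Subtype.ext (by
    show act k σ⁻¹ (act k σ x.1) = x.1
    rw [← act_mul, inv_mul_cancel, act_one k x.2])
  right_inv x := Subtype.ext (by
    show act k σ (act k σ⁻¹ x.1) = x.1
    rw [← act_mul, mul_inv_cancel, act_one k x.2])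
  map_add' x y := Subtype.ext (by
    funext i
    show x.1 (σ⁻¹ i) + y.1 (σ⁻¹ i) + (x.1 (σ⁻¹ 0) + y.1 (σ⁻¹ 0)) = x.1 (σ⁻¹ i) + x.1 (σ⁻¹ 0) + (y.1 (σ⁻¹ i) + y.1 (σ⁻¹ 0))
    ring)
  map_smul' a x := Subtype.ext (by
    funext i
    show a * x.1 (σ⁻¹ i) + a * x.1 (σ⁻¹ 0) = a * (x.1 (σ⁻¹ i) + x.1 (σ⁻¹ 0))
    ring)

noncomputable def φW : Equiv.Perm (Fin (4 * k + 4)) →* OG (Q k) where
  toFun σ := ⟨A k σ, fun x => act_q k σ x.2⟩
  map_one' := Subtype.ext (LinearEquiv.ext fun x => Subtype.ext (act_one k x.2))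
  map_mul' σ τ := Subtype.ext (LinearEquiv.ext fun x => Subtype.ext (act_mul k σ τ x.1))

theorem pair_mem {a b : Fin (4 * k + 4)} (ha : a ≠ 0) (hb : b ≠ 0) :
    (Pi.single a 1 + Pi.single b 1 : Fin (4 * k + 4) → ZMod 2) ∈ W k := by
  rw [mem_W]
  refine ⟨?_, ?_⟩
  · simp only [Pi.add_apply, Finset.sum_add_distrib, Finset.sum_pi_single', Finset.mem_univ, if_true]
    decide
  · simp [Pi.single_apply, ha.symm, hb.symm]

theorem exists_avoid (hk : 1 ≤ k) (s : Finset (Fin (4 * k + 4))) (hs : s.card ≤ 4) : ∃ i, i ∉ s := by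
  by_contra hc
  push Not at hc
  have : Finset.univ ⊆ s := fun i _ => hc i
  have h2 := Finset.card_le_card this
  rw [Finset.card_univ, Fintype.card_fin] at h2
  omega

theorem φW_inj (hk : 1 ≤ k) : Function.Injective (φW k) := by
  rw [injective_iff_map_eq_one]
  intro σ hσ
  have h : ∀ x ∈ W k, ∀ i, x (σ⁻¹ i) + x (σ⁻¹ 0) = x i := by
    intro x hx i
    have := congrArg (fun g : OG (Q k) => (g.1 ⟨x, hx⟩).1 i) hσ
    exact this
  have c4 : ∀ a b c d : Fin (4 * k + 4), ({a, b, c, d} : Finset (Fin (4 * k + 4))).card ≤ 4 := fun a b c d => Finset.card_le_four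
  have h0 : σ⁻¹ 0 = 0 := by
    by_contra hc
    obtain ⟨b, hb⟩ := exists_avoid k hk {0, σ⁻¹ 0, 0, 0} (c4 _ _ _ _)
    have hb0 : b ≠ 0 := by rintro rfl; simp at hb
    have hbc : b ≠ σ⁻¹ 0 := by rintro rfl; simp at hb
    have hx := h _ (pair_mem k hc hb0)
    obtain ⟨i, hi⟩ := exists_avoid k hk {σ⁻¹ 0, b, σ (σ⁻¹ 0), σ b} (c4 _ _ _ _)
    have e := hx i
    have i1 : i ≠ σ⁻¹ 0 := by rintro rfl; simp at hi
    have i2 : i ≠ b := by rintro rfl; simp at hi
    have i3 : σ⁻¹ i ≠ σ⁻¹ 0 := by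
      intro h3
      apply hi
      have : i = σ (σ⁻¹ 0) := by rw [← h3, ← Equiv.Perm.mul_apply, mul_inv_cancel]; rfl
      rw [← this]; simp
    have i4 : σ⁻¹ i ≠ b := by
      intro h3
      apply hi
      have : i = σ b := by rw [← h3, ← Equiv.Perm.mul_apply, mul_inv_cancel]; rfl
      rw [← this]; simp
    simp only [Pi.add_apply, Pi.single_apply, if_neg i1, if_neg i2, if_neg i3, if_neg i4, if_neg hbc.symm, if_true] at e
    revert e; decide
  have h1 : ∀ i, σ⁻¹ i = i := by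
    intro i
    by_contra hc
    have hi0 : i ≠ 0 := by rintro rfl; exact hc h0
    obtain ⟨b, hb⟩ := exists_avoid k hk {0, i, σ⁻¹ i, 0} (c4 _ _ _ _)
    have hb0 : b ≠ 0 := by rintro rfl; simp at hb
    have hbi : b ≠ i := by rintro rfl; simp at hb
    have hbs : b ≠ σ⁻¹ i := by rintro rfl; simp at hb
    have hx := h _ (pair_mem k hi0 hb0) i
    rw [h0] at hx
    simp only [Pi.add_apply, Pi.single_apply, if_neg hc, if_neg hbs.symm, if_neg hi0.symm, if_neg hb0.symm, if_neg hbi.symm,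
      if_true] at hx
    revert hx; decide
  have h2 : σ⁻¹ = 1 := Equiv.ext h1
  exact inv_eq_one.1 h2

/-! ### type -/

noncomputable instance : Fintype (W k) := Fintype.ofFinite _

theorem sum_Q : 2 * ∑ x : W k, sg (Q k x) = (-4) ^ (k + 1) := by
  rw [← sum_W k]
  congr 1
  exact (Finset.sum_subtype (Finset.univ.filter (Wt k)) (p := fun x => x ∈ W k)
    (fun x => by rw [Finset.mem_filter, mem_W]; simp) (fun x => sg (qf x))).symm

theorem sum_isom {V V' : Type} [Fintype V] [Fintype V'] (q : V → ZMod 2) (q' : V' → ZMod 2) (e : V ≃ V')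
    (h : ∀ v, q' (e v) = q v) : ∑ v, sg (q v) = ∑ v, sg (q' v) :=
  Fintype.sum_equiv e _ _ fun v => by rw [h]

theorem sum_sg {V : Type} [Fintype V] (q : V → ZMod 2) : ∑ v, sg (q v) = 2 * (Nat.card {v // q v = 0} : ℤ) - Fintype.card V := by
  classical
  unfold sg
  rw [Finset.sum_ite, Finset.sum_const, Finset.sum_const, Nat.card_eq_fintype_card, Fintype.card_subtype]
  have h := Finset.card_filter_add_card_filter_not (s := (Finset.univ : Finset V)) (fun v => q v = 0)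
  rw [Finset.card_univ] at h
  simp only [nsmul_eq_mul, mul_one]
  have h' : (((Finset.univ : Finset V).filter fun v => q v = 0).card : ℤ) + (((Finset.univ : Finset V).filter fun v => ¬ q v = 0).card : ℤ) = Fintype.card V := by
    exact_mod_cast h
  linarith

theorem sum_plus (m : ℕ) : ∑ v : Fin m ⊕ Fin m → ZMod 2, sg (Cfsg.quadFormPlus m (ZMod 2) v) = 2 ^ m := by
  rw [sum_sg]
  have h := card_zeros_plus m
  have hc : Fintype.card (Fin m ⊕ Fin m → ZMod 2) = 4 ^ m := by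
    rw [Fintype.card_fun, ZMod.card, Fintype.card_sum, Fintype.card_fin, ← two_mul, pow_mul]; norm_num
  rw [hc]
  have h' : (2 : ℤ) * (Nat.card {v : Fin m ⊕ Fin m → ZMod 2 // Cfsg.quadFormPlus m (ZMod 2) v = 0} : ℤ) = 4 ^ m + 2 ^ m := by
    exact_mod_cast h
  rw [h']; push_cast; ring

theorem sg_add (a b : ZMod 2) : sg (a + b) = sg a * sg b := by revert a b; decide

theorem sum_minus (m : ℕ) : ∑ v : (Fin m ⊕ Fin m) ⊕ Fin 2 → ZMod 2, sg (Cfsg.quadFormMinus m (ZMod 2) 1 1 v) = - 2 ^ (m + 1) := by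
  have h : ∑ v : (Fin m ⊕ Fin m) ⊕ Fin 2 → ZMod 2, sg (Cfsg.quadFormMinus m (ZMod 2) 1 1 v) =
      ∑ p : (Fin m ⊕ Fin m → ZMod 2) × (Fin 2 → ZMod 2), sg (Cfsg.quadFormPlus m (ZMod 2) p.1) *
        sg (p.2 0 ^ 2 + 1 * p.2 0 * p.2 1 + 1 * p.2 1 ^ 2) := by
    refine Fintype.sum_equiv (Equiv.sumArrowEquivProdArrow _ _ _) _ _ ?_
    intro v
    rw [← sg_add]
    rfl
  rw [h, Fintype.sum_prod_type]
  simp only [← Finset.mul_sum]
  have h2 : ∑ z : Fin 2 → ZMod 2, sg (z 0 ^ 2 + 1 * z 0 * z 1 + 1 * z 1 ^ 2) = -2 := by decide +kernel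
  rw [← Finset.sum_mul, sum_plus]
  rw [h2]; ring

end Cfsg.Agent.H7.SymQ
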