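import Mathlib
import Cfsg.Agent.H7_SymQ3

set_option autoImplicit false
set_option linter.all false

namespace Cfsg.Agent.H7.SymQ

open QuadraticMap Module Cfsg.Agent.H16.Quad

section

variable {V V' : Type} [AddCommGroup V] [Module (ZMod 2) V] [AddCommGroup V'] [Module (ZMod 2) V']
  {Q : QuadraticForm (ZMod 2) V} {Q' : QuadraticForm (ZMod 2) V'}

/-- transport along an isometry -/
noncomputable def mapOG (φ : V ≃ₗ[ZMod 2] V') (h : ∀ v, Q' (φ v) = Q v) : OG Q →* OG Q' where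
  toFun g := ⟨(φ.symm.trans g.1).trans φ, fun x => by
    show Q' (φ (g.1 (φ.symm x))) = Q' x
    rw [h, mem_OG.1 g.2, ← h, LinearEquiv.apply_symm_apply]⟩
  map_one' := Subtype.ext (LinearEquiv.ext fun x => by
    show φ (φ.symm x) = x
    rw [LinearEquiv.apply_symm_apply])
  map_mul' a b := Subtype.ext (LinearEquiv.ext fun x => by
    show φ (a.1 (b.1 (φ.symm x))) = φ (a.1 (φ.symm (φ (b.1 (φ.symm x)))))
    rw [LinearEquiv.symm_apply_apply])

theorem mapOG_inj (φ : V ≃ₗ[ZMod 2] V') (h : ∀ v, Q' (φ v) = Q v) : Function.Injective (mapOG φ h) := by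
  intro a b hab
  apply Subtype.ext
  apply LinearEquiv.ext
  intro x
  have := congrArg (fun g : OG Q' => g.1 (φ x)) hab
  have h2 : φ (a.1 (φ.symm (φ x))) = φ (b.1 (φ.symm (φ x))) := this
  rw [LinearEquiv.symm_apply_apply] at h2
  exact φ.injective h2

end

theorem sum_neg4 (k : ℕ) : ((-4 : ℤ)) ^ (k + 1) = (-1) ^ (k + 1) * 2 ^ (2 * k + 2) := by
  have : (2 : ℤ) ^ (2 * k + 2) = 4 ^ (k + 1) := by
    rw [show 2 * k + 2 = 2 * (k + 1) by ring, pow_mul]; norm_num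
  rw [this, ← mul_pow]; norm_num

theorem plus_case (k : ℕ) (h : IsPlus (Q k) (2 * k + 1)) :
    Odd k ∧ ∃ φ : OG (Q k) →* ↥(Cfsg.isometryGroup (ZMod 2) (Cfsg.quadFormPlus (2 * k + 1) (ZMod 2))), Function.Injective φ := by
  obtain ⟨φ, hφ⟩ := h.isom (plusQ_isPlus (F := ZMod 2) (2 * k + 1))
  have hφ' : ∀ v, Cfsg.quadFormPlus (2 * k + 1) (ZMod 2) (φ v) = Q k v := fun v => by rw [← hφ, plusQ_apply]
  constructor
  · have h1 := sum_isom (Q k) (Cfsg.quadFormPlus (2 * k + 1) (ZMod 2)) φ.toEquiv hφ'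
    have h2 := sum_Q k
    rw [h1, sum_plus, sum_neg4] at h2
    rcases Nat.even_or_odd k with he | ho
    · exfalso
      have h3 : Odd (k + 1) := he.add_one
      rw [h3.neg_one_pow] at h2
      have h4 : (0 : ℤ) < 2 ^ (2 * k + 2) := by positivity
      have h5 : (0 : ℤ) < 2 ^ (2 * k + 1) := by positivity
      linarith
    · exact ho
  · have e := coe_plusQ (F := ZMod 2) (2 * k + 1)
    rw [← e]
    exact ⟨(toOG (plusQ (ZMod 2) (2 * k + 1))).symm.toMonoidHom.comp (mapOG φ hφ),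
      (toOG (plusQ (ZMod 2) (2 * k + 1))).symm.injective.comp (mapOG_inj φ hφ)⟩

theorem hab : ∀ z₁ z₂ : ZMod 2, z₁ ^ 2 + 1 * z₁ * z₂ + 1 * z₂ ^ 2 = 0 → z₁ = 0 ∧ z₂ = 0 := by decide

theorem minus_case (k : ℕ) (h : IsMinus (Q k) (2 * k)) :
    Even k ∧ ∃ φ : OG (Q k) →* ↥(Cfsg.isometryGroup (ZMod 2) (Cfsg.quadFormMinus (2 * k) (ZMod 2) 1 1)), Function.Injective φ := by
  obtain ⟨φ, hφ⟩ := h.isom (Q_nd k) (nd_minusQ (2 * k) hab) (minusQ_isMinus (F := ZMod 2) (2 * k) hab)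
  have hφ' : ∀ v, Cfsg.quadFormMinus (2 * k) (ZMod 2) 1 1 (φ v) = Q k v := fun v => by rw [← hφ, minusQ_apply]
  constructor
  · have h1 := sum_isom (Q k) (Cfsg.quadFormMinus (2 * k) (ZMod 2) 1 1) φ.toEquiv hφ'
    have h2 := sum_Q k
    rw [h1, sum_minus, sum_neg4] at h2
    rcases Nat.even_or_odd k with he | ho
    · exact he
    · exfalso
      have h3 : Even (k + 1) := ho.add_one
      rw [h3.neg_one_pow] at h2
      have h4 : (0 : ℤ) < 2 ^ (2 * k + 2) := by positivity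
      have h5 : (0 : ℤ) < 2 ^ (2 * k + 1) := by positivity
      linarith
  · have e := coe_minusQ (F := ZMod 2) (2 * k) 1 1
    rw [← e]
    exact ⟨(toOG (minusQ (ZMod 2) (2 * k) 1 1)).symm.toMonoidHom.comp (mapOG φ hφ),
      (toOG (minusQ (ZMod 2) (2 * k) 1 1)).symm.injective.comp (mapOG_inj φ hφ)⟩

theorem s2563 (k : ℕ) (hk : 1 ≤ k) :
    (Odd k → ∃ φ : Equiv.Perm (Fin (4 * k + 4)) →* ↥(Cfsg.isometryGroup (ZMod 2) (Cfsg.quadFormPlus (2 * k + 1) (ZMod 2))), Function.Injective φ) ∧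
    (Even k → ∃ φ : Equiv.Perm (Fin (4 * k + 4)) →* ↥(Cfsg.isometryGroup (ZMod 2) (Cfsg.quadFormMinus (2 * k) (ZMod 2) 1 1)), Function.Injective φ) := by
  have hV : finrank (ZMod 2) (W k) = 2 * (2 * k) + 2 := by rw [finrank_W]; ring
  rcases plus_or_minus (Q_nd k) hV with h | h
  · obtain ⟨ho, φ, hφ⟩ := plus_case k h
    exact ⟨fun _ => ⟨φ.comp (φW k), hφ.comp (φW_inj k hk)⟩, fun he => absurd he (Nat.not_even_iff_odd.2 ho)⟩
  · obtain ⟨he, φ, hφ⟩ := minus_case k h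
    exact ⟨fun ho => absurd he (Nat.not_even_iff_odd.2 ho), fun _ => ⟨φ.comp (φW k), hφ.comp (φW_inj k hk)⟩⟩

end Cfsg.Agent.H7.SymQ
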