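import Mathlib
import Cfsg.Agent.H7_SymQ4
import Cfsg.Agent.H5_QuadC

set_option autoImplicit false
set_option linter.all false

namespace Cfsg.Agent.H7.SymQ

open QuadraticMap Module Cfsg

abbrev O6 := ↥(Cfsg.isometryGroup (ZMod 2) (Cfsg.quadFormPlus 3 (ZMod 2)))

theorem card_O6 : Nat.card O6 = 40320 := by
  have h := Nat.card_congr (Cfsg.Agent.H5.Conc.orthEquiv (Cfsg.Agent.H5.QuadC.qPlus 3 (ZMod 2)) _
    (Cfsg.Agent.H5.QuadC.qPlus_apply 3 (ZMod 2))).toEquiv
  rw [show Nat.card O6 = _ from h]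
  rw [Cfsg.Agent.H5.QuadC.card_isom_plus (q := 2) (by simp) 2 _ Cfsg.Agent.H5.QuadC.nondeg_plus
    Cfsg.Agent.H5.QuadC.wittDec_plus]
  simp [Finset.prod_range_succ]

theorem exists_equiv : Nonempty (Equiv.Perm (Fin 8) ≃* O6) := by
  obtain ⟨φ, hφ⟩ := (s2563 1 le_rfl).1 (by decide)
  have hb : Function.Bijective φ := by
    rw [Nat.bijective_iff_injective_and_card]
    refine ⟨hφ, ?_⟩
    rw [show Nat.card ↥(Cfsg.isometryGroup (ZMod 2) (Cfsg.quadFormPlus (2 * 1 + 1) (ZMod 2))) = 40320 from card_O6,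
      Nat.card_eq_fintype_card, Fintype.card_perm, Fintype.card_fin]
    rfl
  exact ⟨MulEquiv.ofBijective φ hb⟩

theorem s2565 : (Omega (ZMod 2) (quadFormPlus 3 (ZMod 2))).index = 2 ∧
    Nonempty (↥(Omega (ZMod 2) (quadFormPlus 3 (ZMod 2))) ≃* alternatingGroup (Fin 8)) := by
  obtain ⟨e⟩ := exists_equiv
  have hc : commutator (Equiv.Perm (Fin 8)) = alternatingGroup (Fin 8) := by
    rw [commutator_def]
    exact alternatingGroup.commutator_perm_eq (by simp)
  have hm : (alternatingGroup (Fin 8)).map e.toMonoidHom = Omega (ZMod 2) (quadFormPlus 3 (ZMod 2)) := by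
    rw [← hc]
    show Subgroup.map e.toMonoidHom ⁅(⊤ : Subgroup (Equiv.Perm (Fin 8))), ⊤⁆ = ⁅(⊤ : Subgroup O6), ⊤⁆
    rw [Subgroup.map_commutator, Subgroup.map_top_of_surjective e.toMonoidHom e.surjective]
  have e2 : alternatingGroup (Fin 8) ≃* Omega (ZMod 2) (quadFormPlus 3 (ZMod 2)) :=
    ((alternatingGroup (Fin 8)).equivMapOfInjective e.toMonoidHom e.injective).trans (MulEquiv.subgroupCongr hm)
  refine ⟨?_, ⟨e2.symm⟩⟩
  have h1 := (Omega (ZMod 2) (quadFormPlus 3 (ZMod 2))).card_mul_index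
  have h2 := (alternatingGroup (Fin 8)).card_mul_index
  rw [alternatingGroup.index_eq_two] at h2
  rw [← Nat.card_congr e2.toEquiv] at h1
  have h3 : Nat.card O6 = Nat.card (Equiv.Perm (Fin 8)) := Nat.card_congr e.symm.toEquiv
  rw [show Nat.card ↥(Cfsg.isometryGroup (ZMod 2) (Cfsg.quadFormPlus 3 (ZMod 2))) = _ from h3, ← h2] at h1
  exact Nat.eq_of_mul_eq_mul_left Nat.card_pos h1

end Cfsg.Agent.H7.SymQ
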