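import Cfsg.Agent.H26_Defect2
import Cfsg.Agent.H10_BlockMain

set_option autoImplicit false
set_option linter.unusedSectionVars false
set_option linter.unusedVariables false
set_option linter.style.haveILetI false

/-!
H7_TMc: groups with Sylow p-subgroup of order p: characters of degree prime to p and blocks.
-/

namespace Cfsg.Agent.H7.TMc

open Cfsg Cfsg.Agent.H3.CharIrr Cfsg.Agent.H3.CharComplete Cfsg.Agent.H10.BlockIdem
  Cfsg.Agent.H10.BlockDefect Cfsg.Agent.H10.BlockMain Cfsg.Agent.H10.BlockLoc Cfsg.Agent.H10.BlockAlg Cfsg.Agent.H10.BlockOrth Cfsg.Agent.H10.Char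

variable {G : Type*} [Group G] [Finite G] {p : ℕ} [hp : Fact p.Prime] {M : Ideal AlgInt}

/-- the exponent of p in the group order is 1 -/
theorem fact_one (hdiv : p ∣ Nat.card G) (hsq : ¬ p ^ 2 ∣ Nat.card G) :
    (Nat.card G).factorization p = 1 := by
  have h1 : 1 ≤ (Nat.card G).factorization p :=
    hp.out.factorization_pos_of_dvd Nat.card_pos.ne' hdiv
  have h2 : (Nat.card G).factorization p < 2 := by
    by_contra h
    push Not at h
    exact hsq ((hp.out.pow_dvd_iff_le_factorization Nat.card_pos.ne').2 h)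
  omega

/-- degree prime to p and the order of the defect group -/
theorem degree_iff (hM : IsPModular p M) (h1 : (Nat.card G).factorization p = 1)
    {B : Set (IrrCharacter G)} (hB : IsPBlock M B) {D : Subgroup G}
    (hD : IsDefectGroup p M B D) {χ : IrrCharacter G} (hχ : χ ∈ B) :
    ¬ p ∣ charDegree (χ : G → ℂ) ↔ Nat.card D = p := by
  haveI := Fintype.ofFinite G
  have := hM.2.1
  have hc := card_defectGroup hM hB hD
  rw [blockDefect, h1] at hc
  have hpos := charDegree_pos χ.2
  constructor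
  · intro h
    have h0 : (charDegree (χ : G → ℂ)).factorization p = 0 := Nat.factorization_eq_zero_of_not_dvd h
    have h2 : sInf ((fun χ : IrrCharacter G => (charDegree (χ : G → ℂ)).factorization p) '' B) = 0 := by
      apply Nat.le_zero.1
      rw [← h0]
      exact Nat.sInf_le ⟨χ, hχ, rfl⟩
    rw [h2] at hc
    simpa using hc
  · intro h hdvd
    have h3 : 1 ≤ (charDegree (χ : G → ℂ)).factorization p :=
      hp.out.factorization_pos_of_dvd hpos.ne' hdvd
    have h4 : ∀ ψ ∈ B, ψ = χ := fun ψ hψ =>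
      Cfsg.Agent.H26.Defect2.eq_of_sameBlock_of_defect_zero hM (by rw [h1]; exact h3)
        (block_sameBlock hB hχ hψ)
    have h5 : 1 ≤ sInf ((fun χ : IrrCharacter G => (charDegree (χ : G → ℂ)).factorization p) '' B) := by
      apply le_csInf (Set.Nonempty.image _ ⟨χ, hχ⟩)
      rintro _ ⟨ψ, hψ, rfl⟩
      rw [h4 ψ hψ]; exact h3
    have h6 : 1 - sInf ((fun χ : IrrCharacter G => (charDegree (χ : G → ℂ)).factorization p) '' B) = 0 := by
      omega
    rw [h6, pow_zero, h] at hc
    exact hp.out.one_lt.ne' hc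

theorem card_sylow (h1 : (Nat.card G).factorization p = 1) (P : Sylow p G) :
    Nat.card (P : Subgroup G) = p := by
  have h := P.card_eq_multiplicity
  rw [h1, pow_one] at h
  exact h

theorem conj_sylow (h1 : (Nat.card G).factorization p = 1) (P : Sylow p G) {D : Subgroup G}
    (hD : Nat.card D = p) : ∃ x : G, D.map (MulAut.conj x).toMonoidHom = (P : Subgroup G) := by
  have hD' : Nat.card D = p ^ (Nat.card G).factorization p := by rw [h1, pow_one, hD]
  obtain ⟨x, hx⟩ := MulAction.exists_smul_eq G (Sylow.ofCard D hD') P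
  refine ⟨x, ?_⟩
  rw [← hx, Sylow.coe_subgroup_smul, Subgroup.pointwise_smul_def]
  rfl

theorem degree_iff_sylow (hM : IsPModular p M) (h1 : (Nat.card G).factorization p = 1)
    (P : Sylow p G) {B : Set (IrrCharacter G)} (hB : IsPBlock M B) {χ : IrrCharacter G} (hχ : χ ∈ B) :
    ¬ p ∣ charDegree (χ : G → ℂ) ↔ IsDefectGroup p M B (P : Subgroup G) := by
  haveI := Fintype.ofFinite G
  have := hM.2.1
  constructor
  · intro h
    obtain ⟨D, hD⟩ := exists_defectGroup (p := p) (M := M) hB
    have hDc := (degree_iff hM h1 hB hD hχ).1 h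
    obtain ⟨x, hx⟩ := conj_sylow h1 P hDc
    rw [← hx]
    exact isDefectGroup_conj hD x
  · intro h
    exact (degree_iff hM h1 hB h hχ).2 (card_sylow h1 P)

/-- counting characters of degree prime to p by blocks -/
theorem card_eq_sum (hM : IsPModular p M) (h1 : (Nat.card G).factorization p = 1)
    (P : Sylow p G) [Fintype {B : Set (IrrCharacter G) // IsPBlock M B ∧ IsDefectGroup p M B (P : Subgroup G)}] :
    Nat.card {χ : IrrCharacter G // ¬ p ∣ charDegree (χ : G → ℂ)} =
      ∑ B : {B : Set (IrrCharacter G) // IsPBlock M B ∧ IsDefectGroup p M B (P : Subgroup G)},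
        Nat.card B.1 := by
  haveI := Fintype.ofFinite G
  have := hM.2.1
  rw [← Nat.card_sigma]
  let f : (Σ B : {B : Set (IrrCharacter G) // IsPBlock M B ∧ IsDefectGroup p M B (P : Subgroup G)},
      B.1) → {χ : IrrCharacter G // ¬ p ∣ charDegree (χ : G → ℂ)} := fun z =>
    ⟨z.2.1, (degree_iff_sylow hM h1 P z.1.2.1 z.2.2).2 z.1.2.2⟩
  symm
  apply Nat.card_congr
  apply Equiv.ofBijective f
  constructor
  · rintro ⟨⟨B, hB⟩, ⟨χ, hχ⟩⟩ ⟨⟨B', hB'⟩, ⟨χ', hχ'⟩⟩ h
    have h2 : χ = χ' := congrArg Subtype.val h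
    subst h2
    have h3 : B = B' := block_eq_of_mem hB.1 hB'.1 hχ hχ'
    subst h3
    rfl
  · rintro ⟨χ, hχ⟩
    have hB : IsPBlock M (blockOf M (χ : G → ℂ)) := isPBlock_blockOf χ
    have hm : χ ∈ blockOf M (χ : G → ℂ) := mem_blockOf_self χ
    exact ⟨⟨⟨_, hB, (degree_iff_sylow hM h1 P hB hm).1 hχ⟩, ⟨χ, hm⟩⟩, rfl⟩

/-- if the Sylow p-subgroup is normal, every degree is prime to p -/
theorem degree_of_normal (hM : IsPModular p M) (h1 : (Nat.card G).factorization p = 1)
    (P : Sylow p G) (hN : (P : Subgroup G).Normal) (χ : IrrCharacter G) :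
    ¬ p ∣ charDegree (χ : G → ℂ) := by
  haveI := Fintype.ofFinite G
  have := hM.2.1
  have hB : IsPBlock M (blockOf M (χ : G → ℂ)) := isPBlock_blockOf χ
  have hm : χ ∈ blockOf M (χ : G → ℂ) := mem_blockOf_self χ
  obtain ⟨D, hD⟩ := exists_defectGroup (p := p) (M := M) hB
  have hle := normal_le_defectGroup hM hB hD (P : Subgroup G) P.isPGroup'
  have hDP : D = (P : Subgroup G) := P.is_maximal' (IsDefectGroup.isPGroup' hD) hle
  refine (degree_iff hM h1 hB hD hm).2 ?_
  rw [hDP]
  exact card_sylow h1 P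

/-- the induced block is unique -/
theorem induced_unique (hM : IsPModular p M) {H : Subgroup G} {b : Set (IrrCharacter H)}
    {B B' : Set (IrrCharacter G)}
    (h : IsInducedBlock M H b B) (h' : IsInducedBlock M H b B') : B = B' := by
  haveI := Fintype.ofFinite G
  haveI := Fintype.ofFinite H
  have := hM.2.1
  obtain ⟨ξ, hξ⟩ := block_nonempty h.1
  obtain ⟨χ, hχ⟩ := block_nonempty h.2.1
  obtain ⟨χ', hχ'⟩ := block_nonempty h'.2.1
  have hs : SameBlock M (χ : G → ℂ) (χ' : G → ℂ) := by
    intro g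
    have := ideal_sub (h'.2.2 ξ hξ χ' hχ' g) (h.2.2 ξ hξ χ hχ g)
    convert this using 1
    ring
  exact block_eq_of_mem h.2.1 h'.2.1 (block_mem_of_sameBlock h.2.1 hχ hs) hχ'

end Cfsg.Agent.H7.TMc
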