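import Mathlib
import Cfsg.Prelude.Def_SporadicCombinatorics

set_option autoImplicit false
set_option linter.all false

open Finset

/-!
The ternary code of length 12: linear equations.
-/

namespace Cfsg.Agent.H7.Tern

open Cfsg

def T (a b : ZMod 3) : Fin 4 → ZMod 3 := a • ![0, 1, 1, 1] + b • ![1, 0, 1, 2]

theorem mem_tet {t : Fin 4 → ZMod 3} : t ∈ tetracode ↔ ∃ a b : ZMod 3, t = T a b := by
  rw [tetracode, Submodule.mem_span_pair]
  constructor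
  · rintro ⟨a, b, h⟩; exact ⟨a, b, h.symm⟩
  · rintro ⟨a, b, h⟩; exact ⟨a, b, h.symm⟩

theorem h3 : (3 : ZMod 3) = 0 := by decide

/-- the six equations -/
def Eqs (x : ArrayPt → ZMod 3) : Prop :=
  x (1, 2) = 1 * x (0, 0) + 1 * x (0, 1) + 1 * x (0, 2) + 2 * x (1, 0) + 2 * x (1, 1) ∧
  x (2, 1) = 2 * x (0, 1) + 1 * x (0, 2) + 2 * x (1, 0) + 1 * x (1, 1) + 1 * x (2, 0) ∧
  x (2, 2) = 1 * x (0, 0) + 2 * x (0, 1) + 1 * x (1, 0) + 2 * x (1, 1) + 1 * x (2, 0) ∧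
  x (3, 0) = 1 * x (0, 0) + 2 * x (0, 1) + 2 * x (0, 2) + 2 * x (1, 0) + 2 * x (2, 0) ∧
  x (3, 1) = 1 * x (0, 0) + 1 * x (0, 2) + 1 * x (1, 0) + 1 * x (1, 1) + 2 * x (2, 0) ∧
  x (3, 2) = 2 * x (0, 0) + 2 * x (0, 1) + 1 * x (0, 2) + 2 * x (1, 1) + 2 * x (2, 0)

theorem mem_code {x : ArrayPt → ZMod 3} : x ∈ ternaryGolayCode ↔ Eqs x := by
  constructor
  · rintro ⟨s, hs, ht⟩
    have c0 : x (0, 0) + x (0, 1) + x (0, 2) = -s := by rw [← hs 0]; exact (Fin.sum_univ_three (fun r : Fin 3 => x (0, r))).symm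
    have c1 : x (1, 0) + x (1, 1) + x (1, 2) = -s := by rw [← hs 1]; exact (Fin.sum_univ_three (fun r : Fin 3 => x (1, r))).symm
    have c2 : x (2, 0) + x (2, 1) + x (2, 2) = -s := by rw [← hs 2]; exact (Fin.sum_univ_three (fun r : Fin 3 => x (2, r))).symm
    have c3 : x (3, 0) + x (3, 1) + x (3, 2) = -s := by rw [← hs 3]; exact (Fin.sum_univ_three (fun r : Fin 3 => x (3, r))).symm
    have t00 : x (0, 0) + x (1, 0) + x (2, 0) + x (3, 0) = s := by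
      have h := ht (T 0 0) (mem_tet.2 ⟨_, _, rfl⟩)
      rw [Fin.sum_univ_four] at h
      rw [show T 0 0 0 = 0 by decide, show T 0 0 1 = 0 by decide, show T 0 0 2 = 0 by decide, show T 0 0 3 = 0 by decide] at h
      exact h
    have t01 : x (0, 1) + x (1, 0) + x (2, 1) + x (3, 2) = s := by
      have h := ht (T 0 1) (mem_tet.2 ⟨_, _, rfl⟩)
      rw [Fin.sum_univ_four] at h
      rw [show T 0 1 0 = 1 by decide, show T 0 1 1 = 0 by decide, show T 0 1 2 = 1 by decide, show T 0 1 3 = 2 by decide] at h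
      exact h
    have t02 : x (0, 2) + x (1, 0) + x (2, 2) + x (3, 1) = s := by
      have h := ht (T 0 2) (mem_tet.2 ⟨_, _, rfl⟩)
      rw [Fin.sum_univ_four] at h
      rw [show T 0 2 0 = 2 by decide, show T 0 2 1 = 0 by decide, show T 0 2 2 = 2 by decide, show T 0 2 3 = 1 by decide] at h
      exact h
    have t10 : x (0, 0) + x (1, 1) + x (2, 1) + x (3, 1) = s := by
      have h := ht (T 1 0) (mem_tet.2 ⟨_, _, rfl⟩)
      rw [Fin.sum_univ_four] at h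
      rw [show T 1 0 0 = 0 by decide, show T 1 0 1 = 1 by decide, show T 1 0 2 = 1 by decide, show T 1 0 3 = 1 by decide] at h
      exact h
    have t11 : x (0, 1) + x (1, 1) + x (2, 2) + x (3, 0) = s := by
      have h := ht (T 1 1) (mem_tet.2 ⟨_, _, rfl⟩)
      rw [Fin.sum_univ_four] at h
      rw [show T 1 1 0 = 1 by decide, show T 1 1 1 = 1 by decide, show T 1 1 2 = 2 by decide, show T 1 1 3 = 0 by decide] at h
      exact h
    have t12 : x (0, 2) + x (1, 1) + x (2, 0) + x (3, 2) = s := by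
      have h := ht (T 1 2) (mem_tet.2 ⟨_, _, rfl⟩)
      rw [Fin.sum_univ_four] at h
      rw [show T 1 2 0 = 2 by decide, show T 1 2 1 = 1 by decide, show T 1 2 2 = 0 by decide, show T 1 2 3 = 2 by decide] at h
      exact h
    have t20 : x (0, 0) + x (1, 2) + x (2, 2) + x (3, 2) = s := by
      have h := ht (T 2 0) (mem_tet.2 ⟨_, _, rfl⟩)
      rw [Fin.sum_univ_four] at h
      rw [show T 2 0 0 = 0 by decide, show T 2 0 1 = 2 by decide, show T 2 0 2 = 2 by decide, show T 2 0 3 = 2 by decide] at h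
      exact h
    have t21 : x (0, 1) + x (1, 2) + x (2, 0) + x (3, 1) = s := by
      have h := ht (T 2 1) (mem_tet.2 ⟨_, _, rfl⟩)
      rw [Fin.sum_univ_four] at h
      rw [show T 2 1 0 = 1 by decide, show T 2 1 1 = 2 by decide, show T 2 1 2 = 0 by decide, show T 2 1 3 = 1 by decide] at h
      exact h
    have t22 : x (0, 2) + x (1, 2) + x (2, 1) + x (3, 0) = s := by
      have h := ht (T 2 2) (mem_tet.2 ⟨_, _, rfl⟩)
      rw [Fin.sum_univ_four] at h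
      rw [show T 2 2 0 = 2 by decide, show T 2 2 1 = 2 by decide, show T 2 2 2 = 1 by decide, show T 2 2 3 = 0 by decide] at h
      exact h
    refine ⟨?_, ?_, ?_, ?_, ?_, ?_⟩
    · linear_combination 2 * c0 + 1 * c1 + ((-1) * x (0, 0) + (-1) * x (0, 1) + (-1) * x (0, 2) + (-1) * x (1, 0) + (-1) * x (1, 1) + (-1) * s) * h3
    · linear_combination 2 * c0 + 1 * c3 + 2 * t00 + 2 * t01 + 2 * t10 + ((-2) * x (0, 0) + (-2) * x (0, 1) + (-1) * x (0, 2) + (-2) * x (1, 0) + (-1) * x (1, 1) + (-1) * x (2, 0) + (-1) * x (2, 1) + (-1) * x (3, 0) + (-1) * x (3, 1) + (-1) * x (3, 2) + (1) * s) * h3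
    · linear_combination 1 * c2 + 2 * c3 + 1 * t00 + 1 * t01 + 1 * t10 + ((-1) * x (0, 0) + (-1) * x (0, 1) + (-1) * x (1, 0) + (-1) * x (1, 1) + (-1) * x (2, 0) + (-1) * x (2, 1) + (-1) * x (3, 0) + (-1) * x (3, 1) + (-1) * x (3, 2)) * h3
    · linear_combination 1 * c0 + 1 * t00 + ((-1) * x (0, 0) + (-1) * x (0, 1) + (-1) * x (0, 2) + (-1) * x (1, 0) + (-1) * x (2, 0)) * h3
    · linear_combination 2 * c0 + 2 * c3 + 1 * t00 + 1 * t01 + 2 * t10 + ((-2) * x (0, 0) + (-1) * x (0, 1) + (-1) * x (0, 2) + (-1) * x (1, 0) + (-1) * x (1, 1) + (-1) * x (2, 0) + (-1) * x (2, 1) + (-1) * x (3, 0) + (-1) * x (3, 1) + (-1) * x (3, 2)) * h3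
    · linear_combination 2 * c0 + 2 * c3 + 1 * t00 + 2 * t01 + 1 * t10 + ((-2) * x (0, 0) + (-2) * x (0, 1) + (-1) * x (0, 2) + (-1) * x (1, 0) + (-1) * x (1, 1) + (-1) * x (2, 0) + (-1) * x (2, 1) + (-1) * x (3, 0) + (-1) * x (3, 1) + (-1) * x (3, 2)) * h3
  · rintro ⟨e5, e7, e8, e9, e10, e11⟩
    obtain ⟨s, hs⟩ : ∃ s : ZMod 3, s = -(x (0, 0) + x (0, 1) + x (0, 2)) := ⟨_, rfl⟩
    refine ⟨s, ?_, ?_⟩
    · intro i
      have hh : ∑ r : ZMod 3, x (i, r) = x (i, 0) + x (i, 1) + x (i, 2) := Fin.sum_univ_three (fun r : Fin 3 => x (i, r))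
      rw [hh]
      fin_cases i
      · show x (0, 0) + x (0, 1) + x (0, 2) = -s
        linear_combination 1 * hs
      · show x (1, 0) + x (1, 1) + x (1, 2) = -s
        linear_combination 1 * e5 + 1 * hs + ((1) * x (1, 0) + (1) * x (1, 1)) * h3
      · show x (2, 0) + x (2, 1) + x (2, 2) = -s
        linear_combination 1 * e7 + 1 * e8 + 1 * hs + ((1) * x (0, 1) + (1) * x (1, 0) + (1) * x (1, 1) + (1) * x (2, 0)) * h3
      · show x (3, 0) + x (3, 1) + x (3, 2) = -s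
        linear_combination 1 * e9 + 1 * e10 + 1 * e11 + 1 * hs + ((1) * x (0, 0) + (1) * x (0, 1) + (1) * x (0, 2) + (1) * x (1, 0) + (1) * x (1, 1) + (2) * x (2, 0)) * h3
    · intro t ht
      obtain ⟨a, b, rfl⟩ := mem_tet.1 ht
      rw [Fin.sum_univ_four]
      fin_cases a <;> fin_cases b
      · show x (0, 0) + x (1, 0) + x (2, 0) + x (3, 0) = s
        linear_combination 1 * e9 + 2 * hs + ((1) * x (1, 0) + (1) * x (2, 0) + (-1) * s) * h3
      · show x (0, 1) + x (1, 0) + x (2, 1) + x (3, 2) = s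
        linear_combination 1 * e7 + 1 * e11 + 2 * hs + ((1) * x (0, 1) + (1) * x (1, 0) + (1) * x (1, 1) + (1) * x (2, 0) + (-1) * s) * h3
      · show x (0, 2) + x (1, 0) + x (2, 2) + x (3, 1) = s
        linear_combination 1 * e8 + 1 * e10 + 2 * hs + ((1) * x (1, 0) + (1) * x (1, 1) + (1) * x (2, 0) + (-1) * s) * h3
      · show x (0, 0) + x (1, 1) + x (2, 1) + x (3, 1) = s
        linear_combination 1 * e7 + 1 * e10 + 2 * hs + ((1) * x (1, 0) + (1) * x (1, 1) + (1) * x (2, 0) + (-1) * s) * h3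
      · show x (0, 1) + x (1, 1) + x (2, 2) + x (3, 0) = s
        linear_combination 1 * e8 + 1 * e9 + 2 * hs + ((1) * x (0, 1) + (1) * x (1, 0) + (1) * x (1, 1) + (1) * x (2, 0) + (-1) * s) * h3
      · show x (0, 2) + x (1, 1) + x (2, 0) + x (3, 2) = s
        linear_combination 1 * e11 + 2 * hs + ((1) * x (1, 1) + (1) * x (2, 0) + (-1) * s) * h3
      · show x (0, 0) + x (1, 2) + x (2, 2) + x (3, 2) = s
        linear_combination 1 * e5 + 1 * e8 + 1 * e11 + 2 * hs + ((1) * x (0, 0) + (1) * x (0, 1) + (1) * x (1, 0) + (2) * x (1, 1) + (1) * x (2, 0) + (-1) * s) * h3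
      · show x (0, 1) + x (1, 2) + x (2, 0) + x (3, 1) = s
        linear_combination 1 * e5 + 1 * e10 + 2 * hs + ((1) * x (1, 0) + (1) * x (1, 1) + (1) * x (2, 0) + (-1) * s) * h3
      · show x (0, 2) + x (1, 2) + x (2, 1) + x (3, 0) = s
        linear_combination 1 * e5 + 1 * e7 + 1 * e9 + 2 * hs + ((1) * x (0, 1) + (1) * x (0, 2) + (2) * x (1, 0) + (1) * x (1, 1) + (1) * x (2, 0) + (-1) * s) * h3

theorem self_orth {x y : ArrayPt → ZMod 3} (hx : Eqs x) (hy : Eqs y) : ∑ p, x p * y p = 0 := by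
  obtain ⟨e5, e7, e8, e9, e10, e11⟩ := hx
  obtain ⟨f5, f7, f8, f9, f10, f11⟩ := hy
  have hh : ∑ p, x p * y p = x (0, 0) * y (0, 0) + x (0, 1) * y (0, 1) + x (0, 2) * y (0, 2) + x (1, 0) * y (1, 0) + x (1, 1) * y (1, 1) + x (1, 2) * y (1, 2) + x (2, 0) * y (2, 0) + x (2, 1) * y (2, 1) + x (2, 2) * y (2, 2) + x (3, 0) * y (3, 0) + x (3, 1) * y (3, 1) + x (3, 2) * y (3, 2) := by
    rw [Fintype.sum_prod_type]
    have hh : ∀ i : Fin 4, ∑ r : ZMod 3, x (i, r) * y (i, r) = x (i, 0) * y (i, 0) + x (i, 1) * y (i, 1) + x (i, 2) * y (i, 2) := fun i => Fin.sum_univ_three (fun r : Fin 3 => x (i, r) * y (i, r))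
    rw [Fin.sum_univ_four, hh, hh, hh, hh]
    ring
  rw [hh, e5, e7, e8, e9, e10, e11, f5, f7, f8, f9, f10, f11]
  linear_combination (3 * x (0, 0) * y (0, 0) + 3 * x (0, 0) * y (0, 1) + 2 * x (0, 0) * y (0, 2) + 2 * x (0, 0) * y (1, 0) + 3 * x (0, 0) * y (1, 1) + 3 * x (0, 0) * y (2, 0) + 3 * x (0, 1) * y (0, 0) + 6 * x (0, 1) * y (0, 1) + 3 * x (0, 1) * y (0, 2) + 4 * x (0, 1) * y (1, 0) + 4 * x (0, 1) * y (1, 1) + 4 * x (0, 1) * y (2, 0) + 2 * x (0, 2) * y (0, 0) + 3 * x (0, 2) * y (0, 1) + 3 * x (0, 2) * y (0, 2) + 3 * x (0, 2) * y (1, 0) + 2 * x (0, 2) * y (1, 1) + 3 * x (0, 2) * y (2, 0) + 2 * x (1, 0) * y (0, 0) + 4 * x (1, 0) * y (0, 1) + 3 * x (1, 0) * y (0, 2) + 5 * x (1, 0) * y (1, 0) + 3 * x (1, 0) * y (1, 1) + 3 * x (1, 0) * y (2, 0) + 3 * x (1, 1) * y (0, 0) + 4 * x (1, 1) * y (0, 1) + 2 * x (1, 1) * y (0, 2) + 3 * x (1, 1) * y (1, 0) + 5 * x (1, 1) * y (1, 1) + 3 * x (1, 1) * y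 (2, 0) + 3 * x (2, 0) * y (0, 0) + 4 * x (2, 0) * y (0, 1) + 3 * x (2, 0) * y (0, 2) + 3 * x (2, 0) * y (1, 0) + 3 * x (2, 0) * y (1, 1) + 5 * x (2, 0) * y (2, 0)) * h3

end Cfsg.Agent.H7.Tern
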