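import Mathlib
import Cfsg.Agent.H7_Tern

set_option autoImplicit false
set_option linter.all false

open Finset

/-!
The ternary code of length 12: enumeration, weights, hexads.
-/

namespace Cfsg.Agent.H7.Tern

open Cfsg

def dg (n i : ℕ) : ℕ := n / 3 ^ i % 3

def cL (n : ℕ) : List ℕ :=
  [dg n 0, dg n 1, dg n 2, dg n 3, dg n 4, (2 * dg n 4 + 2 * dg n 3 + dg n 2 + dg n 1 + dg n 0) % 3, dg n 5,
   (dg n 5 + dg n 4 + 2 * dg n 3 + dg n 2 + 2 * dg n 1) % 3,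
   (dg n 5 + 2 * dg n 4 + dg n 3 + 2 * dg n 1 + dg n 0) % 3,
   (2 * dg n 5 + 2 * dg n 3 + 2 * dg n 2 + 2 * dg n 1 + dg n 0) % 3,
   (2 * dg n 5 + dg n 4 + dg n 3 + dg n 2 + dg n 0) % 3,
   (2 * dg n 5 + 2 * dg n 4 + dg n 2 + 2 * dg n 1 + 2 * dg n 0) % 3]

def word (n : ℕ) : ArrayPt → ZMod 3 := fun p => (((cL n).getD (3 * p.1.val + p.2.val) 0 : ℕ) : ZMod 3)

theorem cast_mod (a : ℕ) : ((a % 3 : ℕ) : ZMod 3) = (a : ZMod 3) := by
  rw [ZMod.natCast_mod]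

theorem word_eqs (n : ℕ) : Eqs (word n) := by
  have w : ∀ (i : Fin 4) (r : ZMod 3), word n (i, r) = (((cL n).getD (3 * i.val + r.val) 0 : ℕ) : ZMod 3) := fun _ _ => rfl
  refine ⟨?_, ?_, ?_, ?_, ?_, ?_⟩
  · show (((2 * dg n 4 + 2 * dg n 3 + dg n 2 + dg n 1 + dg n 0) % 3 : ℕ) : ZMod 3) = 1 * ((dg n 0 : ℕ) : ZMod 3) + 1 * ((dg n 1 : ℕ) : ZMod 3) + 1 * ((dg n 2 : ℕ) : ZMod 3) + 2 * ((dg n 3 : ℕ) : ZMod 3) + 2 * ((dg n 4 : ℕ) : ZMod 3)
    rw [cast_mod]; push_cast; ring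
  · show (((dg n 5 + dg n 4 + 2 * dg n 3 + dg n 2 + 2 * dg n 1) % 3 : ℕ) : ZMod 3) = 2 * ((dg n 1 : ℕ) : ZMod 3) + 1 * ((dg n 2 : ℕ) : ZMod 3) + 2 * ((dg n 3 : ℕ) : ZMod 3) + 1 * ((dg n 4 : ℕ) : ZMod 3) + 1 * ((dg n 5 : ℕ) : ZMod 3)
    rw [cast_mod]; push_cast; ring
  · show (((dg n 5 + 2 * dg n 4 + dg n 3 + 2 * dg n 1 + dg n 0) % 3 : ℕ) : ZMod 3) = 1 * ((dg n 0 : ℕ) : ZMod 3) + 2 * ((dg n 1 : ℕ) : ZMod 3) + 1 * ((dg n 3 : ℕ) : ZMod 3) + 2 * ((dg n 4 : ℕ) : ZMod 3) + 1 * ((dg n 5 : ℕ) : ZMod 3)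
    rw [cast_mod]; push_cast; ring
  · show (((2 * dg n 5 + 2 * dg n 3 + 2 * dg n 2 + 2 * dg n 1 + dg n 0) % 3 : ℕ) : ZMod 3) = 1 * ((dg n 0 : ℕ) : ZMod 3) + 2 * ((dg n 1 : ℕ) : ZMod 3) + 2 * ((dg n 2 : ℕ) : ZMod 3) + 2 * ((dg n 3 : ℕ) : ZMod 3) + 2 * ((dg n 5 : ℕ) : ZMod 3)
    rw [cast_mod]; push_cast; ring
  · show (((2 * dg n 5 + dg n 4 + dg n 3 + dg n 2 + dg n 0) % 3 : ℕ) : ZMod 3) = 1 * ((dg n 0 : ℕ) : ZMod 3) + 1 * ((dg n 2 : ℕ) : ZMod 3) + 1 * ((dg n 3 : ℕ) : ZMod 3) + 1 * ((dg n 4 : ℕ) : ZMod 3) + 2 * ((dg n 5 : ℕ) : ZMod 3)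
    rw [cast_mod]; push_cast; ring
  · show (((2 * dg n 5 + 2 * dg n 4 + dg n 2 + 2 * dg n 1 + 2 * dg n 0) % 3 : ℕ) : ZMod 3) = 2 * ((dg n 0 : ℕ) : ZMod 3) + 2 * ((dg n 1 : ℕ) : ZMod 3) + 1 * ((dg n 2 : ℕ) : ZMod 3) + 2 * ((dg n 4 : ℕ) : ZMod 3) + 2 * ((dg n 5 : ℕ) : ZMod 3)
    rw [cast_mod]; push_cast; ring

theorem eqs_ext {x y : ArrayPt → ZMod 3} (hx : Eqs x) (hy : Eqs y) (h0 : x (0, 0) = y (0, 0)) (h1 : x (0, 1) = y (0, 1))
    (h2 : x (0, 2) = y (0, 2)) (h3 : x (1, 0) = y (1, 0)) (h4 : x (1, 1) = y (1, 1)) (h6 : x (2, 0) = y (2, 0)) : x = y := by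
  obtain ⟨e5, e7, e8, e9, e10, e11⟩ := hx
  obtain ⟨f5, f7, f8, f9, f10, f11⟩ := hy
  rw [h0, h1, h2, h3, h4] at e5
  rw [h1, h2, h3, h4, h6] at e7
  rw [h0, h1, h3, h4, h6] at e8
  rw [h0, h1, h2, h3, h6] at e9
  rw [h0, h2, h3, h4, h6] at e10
  rw [h0, h1, h2, h4, h6] at e11
  have hall : ∀ (i : Fin 4) (r : Fin 3), x (i, r) = y (i, r) := by
    intro i r
    fin_cases i <;> fin_cases r
    · exact h0
    · exact h1
    · exact h2
    · exact h3
    · exact h4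
    · exact e5.trans f5.symm
    · exact h6
    · exact e7.trans f7.symm
    · exact e8.trans f8.symm
    · exact e9.trans f9.symm
    · exact e10.trans f10.symm
    · exact e11.trans f11.symm
  funext ⟨i, r⟩
  exact hall i r

def num (x : ArrayPt → ZMod 3) : ℕ := (x (0, 0)).val + 3 * (x (0, 1)).val + 9 * (x (0, 2)).val + 27 * (x (1, 0)).val +
  81 * (x (1, 1)).val + 243 * (x (2, 0)).val

theorem num_lt (x : ArrayPt → ZMod 3) : num x < 729 := by
  have h : ∀ a : ZMod 3, a.val < 3 := fun a => ZMod.val_lt a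
  have := h (x (0, 0)); have := h (x (0, 1)); have := h (x (0, 2)); have := h (x (1, 0)); have := h (x (1, 1)); have := h (x (2, 0))
  unfold num
  omega

theorem dg_num (x : ArrayPt → ZMod 3) : dg (num x) 0 = (x (0, 0)).val ∧ dg (num x) 1 = (x (0, 1)).val ∧
    dg (num x) 2 = (x (0, 2)).val ∧ dg (num x) 3 = (x (1, 0)).val ∧ dg (num x) 4 = (x (1, 1)).val ∧ dg (num x) 5 = (x (2, 0)).val := by
  have h : ∀ a : ZMod 3, a.val < 3 := fun a => ZMod.val_lt a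
  have := h (x (0, 0)); have := h (x (0, 1)); have := h (x (0, 2)); have := h (x (1, 0)); have := h (x (1, 1)); have := h (x (2, 0))
  unfold num dg
  norm_num
  omega

theorem word_num {x : ArrayPt → ZMod 3} (hx : Eqs x) : word (num x) = x := by
  obtain ⟨h0, h1, h2, h3, h4, h5⟩ := dg_num x
  apply eqs_ext (word_eqs _) hx
  · show ((dg (num x) 0 : ℕ) : ZMod 3) = _
    rw [h0, ZMod.natCast_zmod_val]
  · show ((dg (num x) 1 : ℕ) : ZMod 3) = _
    rw [h1, ZMod.natCast_zmod_val]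
  · show ((dg (num x) 2 : ℕ) : ZMod 3) = _
    rw [h2, ZMod.natCast_zmod_val]
  · show ((dg (num x) 3 : ℕ) : ZMod 3) = _
    rw [h3, ZMod.natCast_zmod_val]
  · show ((dg (num x) 4 : ℕ) : ZMod 3) = _
    rw [h4, ZMod.natCast_zmod_val]
  · show ((dg (num x) 5 : ℕ) : ZMod 3) = _
    rw [h5, ZMod.natCast_zmod_val]

theorem dg_lt (n i : ℕ) : dg n i < 3 := Nat.mod_lt _ (by norm_num)

theorem num_word {n : ℕ} (hn : n < 729) : num (word n) = n := by
  have h : ∀ a : ℕ, a < 3 → ((a : ℕ) : ZMod 3).val = a := fun a ha => ZMod.val_cast_of_lt ha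
  have e : num (word n) = (((dg n 0 : ℕ) : ZMod 3)).val + 3 * (((dg n 1 : ℕ) : ZMod 3)).val + 9 * (((dg n 2 : ℕ) : ZMod 3)).val +
    27 * (((dg n 3 : ℕ) : ZMod 3)).val + 81 * (((dg n 4 : ℕ) : ZMod 3)).val + 243 * (((dg n 5 : ℕ) : ZMod 3)).val := rfl
  rw [e, h _ (dg_lt _ _), h _ (dg_lt _ _), h _ (dg_lt _ _), h _ (dg_lt _ _), h _ (dg_lt _ _), h _ (dg_lt _ _)]
  unfold dg
  norm_num
  omega

theorem mem_iff {x : ArrayPt → ZMod 3} : x ∈ ternaryGolayCode ↔ ∃ n < 729, word n = x := by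
  rw [mem_code]
  constructor
  · intro h
    exact ⟨num x, num_lt x, word_num h⟩
  · rintro ⟨n, -, rfl⟩
    exact word_eqs n

def nz (c : ℕ) : ℕ := match c with
  | 0 => 0
  | _ + 1 => 1

def wt (n : ℕ) : ℕ := nz ((cL n).getD 0 0) + nz ((cL n).getD 1 0) + nz ((cL n).getD 2 0) + (nz ((cL n).getD 3 0) + nz ((cL n).getD 4 0) +
  nz ((cL n).getD 5 0)) + (nz ((cL n).getD 6 0) + nz ((cL n).getD 7 0) + nz ((cL n).getD 8 0)) + (nz ((cL n).getD 9 0) +
  nz ((cL n).getD 10 0) + nz ((cL n).getD 11 0))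

theorem nz_cast {c : ℕ} (hc : c < 3) : (if ((c : ℕ) : ZMod 3) ≠ 0 then 1 else 0) = nz c := by
  interval_cases c <;> decide

theorem cL_lt (n i : ℕ) : (cL n).getD i 0 < 3 := by
  by_cases h : i < 12
  · interval_cases i <;> exact Nat.mod_lt _ (by norm_num)
  · rw [List.getD_eq_default _ _ (by show 12 ≤ i; omega)]
    norm_num

theorem card_supp (n : ℕ) : (ternarySupport (word n)).card = wt n := by
  rw [ternarySupport, Finset.card_filter, Fintype.sum_prod_type, Fin.sum_univ_four]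
  have hh : ∀ i : Fin 4, ∑ r : ZMod 3, (if word n (i, r) ≠ 0 then 1 else 0) = (if word n (i, 0) ≠ 0 then 1 else 0) +
      (if word n (i, 1) ≠ 0 then 1 else 0) + (if word n (i, 2) ≠ 0 then 1 else 0) :=
    fun i => Fin.sum_univ_three (fun r : Fin 3 => (if word n (i, r) ≠ 0 then 1 else 0))
  rw [hh, hh, hh, hh]
  have w : ∀ (i : Fin 4) (r : ZMod 3), (if word n (i, r) ≠ 0 then 1 else 0) = nz ((cL n).getD (3 * i.val + r.val) 0) :=
    fun i r => nz_cast (cL_lt _ _)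
  simp only [w]
  rfl

def allL : List ℕ := List.range 729

theorem allL_nodup : allL.Nodup := List.nodup_range
theorem mem_allL {n : ℕ} : n ∈ allL ↔ n < 729 := List.mem_range

theorem count (p : ℕ → Bool) : {x : ArrayPt → ZMod 3 | x ∈ ternaryGolayCode ∧ p (num x) = true}.ncard = (allL.filter p).length := by
  classical
  have h : {x : ArrayPt → ZMod 3 | x ∈ ternaryGolayCode ∧ p (num x) = true} = word '' (((allL.filter p).toFinset : Finset ℕ) : Set ℕ) := by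
    ext u
    rw [Set.mem_ofPred_eq, Set.mem_image]
    constructor
    · rintro ⟨hu, h2⟩
      obtain ⟨n, hn, rfl⟩ := mem_iff.1 hu
      rw [num_word hn] at h2
      refine ⟨n, ?_, rfl⟩
      rw [List.coe_toFinset, Set.mem_ofPred_eq, List.mem_filter]
      exact ⟨mem_allL.2 hn, h2⟩
    · rintro ⟨m, hm, rfl⟩
      rw [List.coe_toFinset, Set.mem_ofPred_eq, List.mem_filter] at hm
      have := mem_allL.1 hm.1
      refine ⟨mem_iff.2 ⟨m, this, rfl⟩, ?_⟩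
      rw [num_word this]
      exact hm.2
  rw [h, Set.ncard_image_of_injOn, Set.ncard_coe_finset, List.toFinset_card_of_nodup (allL_nodup.filter _)]
  intro a ha b hb hab
  rw [List.coe_toFinset, Set.mem_ofPred_eq, List.mem_filter] at ha hb
  rw [← num_word (mem_allL.1 ha.1), hab, num_word (mem_allL.1 hb.1)]

theorem w6 : (allL.filter fun n => Nat.beq (wt n) 6).length = 264 := by decide +kernel
theorem w9 : (allL.filter fun n => Nat.beq (wt n) 9).length = 440 := by decide +kernel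
theorem w12 : (allL.filter fun n => Nat.beq (wt n) 12).length = 24 := by decide +kernel
theorem wall : (allL.all fun n => Nat.beq n 0 || Nat.beq (wt n) 6 || Nat.beq (wt n) 9 || Nat.beq (wt n) 12) = true := by decide +kernel

theorem count_wt (k c : ℕ) (h : (allL.filter fun n => Nat.beq (wt n) k).length = c) :
    {x : ArrayPt → ZMod 3 | x ∈ ternaryGolayCode ∧ (ternarySupport x).card = k}.ncard = c := by
  have h2 := count (fun n => Nat.beq (wt n) k)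
  rw [h] at h2
  refine Eq.trans (congrArg Set.ncard ?_) h2
  ext x
  rw [Set.mem_ofPred_eq, Set.mem_ofPred_eq]
  apply and_congr_right
  intro hx
  have e : wt (num x) = (ternarySupport x).card := by rw [← card_supp, word_num (mem_code.1 hx)]
  show _ ↔ Nat.beq (wt (num x)) k = true
  rw [e, Nat.beq_eq]

theorem card_code : Nat.card ↥ternaryGolayCode = 729 := by
  have h := count (fun _ => true)
  rw [List.filter_true] at h
  have h2 : allL.length = 729 := by decide +kernel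
  rw [h2] at h
  rw [← h, ← Nat.card_coe_set_eq]
  apply Nat.card_congr
  exact Equiv.setCongr (by ext x; simp)

theorem weights {x : ArrayPt → ZMod 3} (hx : x ∈ ternaryGolayCode) (h0 : x ≠ 0) :
    (ternarySupport x).card = 6 ∨ (ternarySupport x).card = 9 ∨ (ternarySupport x).card = 12 := by
  obtain ⟨n, hn, rfl⟩ := mem_iff.1 hx
  have h := List.all_eq_true.1 wall n (mem_allL.2 hn)
  simp only [Bool.or_eq_true, Nat.beq_eq] at h
  rw [card_supp]
  rcases h with ((h | h) | h) | h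
  · exfalso
    apply h0
    rw [h]
    funext p
    revert p
    decide
  · exact Or.inl h
  · exact Or.inr (Or.inl h)
  · exact Or.inr (Or.inr h)

end Cfsg.Agent.H7.Tern
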