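import Mathlib
import Cfsg.Agent.H7_Tern2

set_option autoImplicit false
set_option linter.all false

open Finset

/-!
The ternary code of length 12: hexads.
-/

namespace Cfsg.Agent.H7.Tern

open Cfsg

def Hx : Set (Finset ArrayPt) := {h : Finset ArrayPt | ∃ x ∈ ternaryGolayCode, ternarySupport x = h ∧ h.card = 6}

theorem mem_supp {x : ArrayPt → ZMod 3} {p : ArrayPt} : p ∈ ternarySupport x ↔ x p ≠ 0 := by
  simp [ternarySupport]

theorem supp_neg (x : ArrayPt → ZMod 3) : ternarySupport (-x) = ternarySupport x := by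
  ext p
  rw [mem_supp, mem_supp, Pi.neg_apply, neg_ne_zero]

theorem zm (a b : ZMod 3) (ha : a ≠ 0) (hb : b ≠ 0) : a = b ∨ a = -b := by
  revert a b; decide

theorem neg_ne {x : ArrayPt → ZMod 3} (h0 : x ≠ 0) : x ≠ -x := by
  intro h
  apply h0
  funext p
  have := congrFun h p
  rw [Pi.neg_apply] at this
  revert this
  generalize x p = a
  rw [Pi.zero_apply]
  revert a
  decide

theorem pm {x y : ArrayPt → ZMod 3} (hx : x ∈ ternaryGolayCode) (hy : y ∈ ternaryGolayCode)
    (hx6 : (ternarySupport x).card = 6) (hy6 : (ternarySupport y).card = 6)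
    (h5 : 5 ≤ (ternarySupport x ∩ ternarySupport y).card) : x = y ∨ x = -y := by
  classical
  have key : ∀ z : ArrayPt → ZMod 3, z ∈ ternaryGolayCode → ternarySupport z = ternarySupport y →
      3 ≤ ((ternarySupport x ∩ ternarySupport y).filter (fun p => x p = z p)).card → x = z := by
    intro z hz hzy h3
    by_contra hne
    have hw := weights (ternaryGolayCode.sub_mem hx hz) (sub_ne_zero.2 hne)
    have hsub : ternarySupport (x - z) ⊆ (ternarySupport x ∪ ternarySupport y) \ ((ternarySupport x ∩ ternarySupport y).filter (fun p => x p = z p)) := by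
      intro p hp
      rw [mem_supp, Pi.sub_apply, sub_ne_zero] at hp
      rw [Finset.mem_sdiff, Finset.mem_filter]
      refine ⟨?_, fun h => hp h.2⟩
      rw [← hzy, Finset.mem_union, mem_supp, mem_supp]
      by_contra hcon
      push Not at hcon
      exact hp (hcon.1.trans hcon.2.symm)
    have h1 := Finset.card_le_card hsub
    rw [Finset.card_sdiff_of_subset ((Finset.filter_subset _ _).trans (Finset.inter_subset_left.trans Finset.subset_union_left))] at h1
    have h2 := Finset.card_union_add_card_inter (ternarySupport x) (ternarySupport y)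
    omega
  by_cases hc : 3 ≤ ((ternarySupport x ∩ ternarySupport y).filter (fun p => x p = y p)).card
  · exact Or.inl (key y hy rfl hc)
  · right
    apply key (-y) (ternaryGolayCode.neg_mem hy) (supp_neg y)
    have hsplit := Finset.card_filter_add_card_filter_not (s := ternarySupport x ∩ ternarySupport y) (fun p => x p = y p)
    have hle : ((ternarySupport x ∩ ternarySupport y).filter (fun p => ¬ x p = y p)).card ≤
        ((ternarySupport x ∩ ternarySupport y).filter (fun p => x p = (-y) p)).card := by
      apply Finset.card_le_card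
      intro p hp
      rw [Finset.mem_filter, Finset.mem_inter, mem_supp, mem_supp] at hp
      rw [Finset.mem_filter, Finset.mem_inter, mem_supp, mem_supp]
      refine ⟨hp.1, ?_⟩
      rcases zm _ _ hp.1.1 hp.1.2 with h | h
      · exact absurd h hp.2
      · exact h
    omega

theorem hx_card : Hx.ncard = 132 := by
  classical
  let W : Set (ArrayPt → ZMod 3) := {x | x ∈ ternaryGolayCode ∧ (ternarySupport x).card = 6}
  have hWf : W.Finite := Set.toFinite _
  have hW : hWf.toFinset.card = 264 := by
    rw [← Set.ncard_eq_toFinset_card W hWf]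
    exact count_wt 6 264 w6
  have himg : ((hWf.toFinset.image ternarySupport : Finset (Finset ArrayPt)) : Set (Finset ArrayPt)) = Hx := by
    ext h
    rw [Finset.mem_coe, Finset.mem_image]
    constructor
    · rintro ⟨x, hx, rfl⟩
      rw [Set.Finite.mem_toFinset] at hx
      exact ⟨x, hx.1, rfl, hx.2⟩
    · rintro ⟨x, hx, rfl, h6⟩
      exact ⟨x, (Set.Finite.mem_toFinset _).2 ⟨hx, h6⟩, rfl⟩
  rw [← himg, Set.ncard_coe_finset]
  have h1 := Finset.card_eq_sum_card_image ternarySupport hWf.toFinset
  have h2 : ∀ b ∈ hWf.toFinset.image ternarySupport, (hWf.toFinset.filter (fun a => ternarySupport a = b)).card = 2 := by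
    intro b hb
    rw [Finset.mem_image] at hb
    obtain ⟨x, hx, rfl⟩ := hb
    rw [Set.Finite.mem_toFinset] at hx
    rw [Finset.card_eq_two]
    have hx0 : x ≠ 0 := by
      rintro rfl
      have := hx.2
      rw [show ternarySupport (0 : ArrayPt → ZMod 3) = ∅ by ext p; rw [mem_supp]; simp] at this
      simp at this
    refine ⟨x, -x, neg_ne hx0, ?_⟩
    ext y
    rw [Finset.mem_filter, Set.Finite.mem_toFinset, Finset.mem_insert, Finset.mem_singleton]
    constructor
    · rintro ⟨hy, hs⟩
      have := pm hy.1 hx.1 hy.2 hx.2 (by rw [hs, Finset.inter_self, hx.2]; norm_num)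
      exact this
    · rintro (rfl | rfl)
      · exact ⟨hx, rfl⟩
      · exact ⟨⟨ternaryGolayCode.neg_mem hx.1, by rw [supp_neg]; exact hx.2⟩, supp_neg x⟩
  rw [Finset.sum_congr rfl h2, Finset.sum_const, hW, smul_eq_mul] at h1
  omega

theorem hx_steiner : IsSteinerSystem 5 6 Hx := by
  classical
  refine ⟨fun b hb => by obtain ⟨x, -, rfl, h⟩ := hb; exact h, ?_⟩
  have huniq : ∀ s : Finset ArrayPt, s.card = 5 → ∀ b b', b ∈ Hx → b' ∈ Hx → s ⊆ b → s ⊆ b' → b = b' := by
    rintro s hs b b' ⟨x, hx, rfl, hx6⟩ ⟨y, hy, rfl, hy6⟩ h1 h2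
    have h5 : 5 ≤ (ternarySupport x ∩ ternarySupport y).card := by
      rw [← hs]
      exact Finset.card_le_card (Finset.subset_inter h1 h2)
    rcases pm hx hy hx6 hy6 h5 with rfl | rfl
    · rfl
    · exact supp_neg _
  let O : Finset (Finset ArrayPt) := (Set.toFinite Hx).toFinset
  have hO : O.card = 132 := by
    rw [← hx_card, Set.ncard_eq_toFinset_card Hx (Set.toFinite Hx)]
  have hOm : ∀ b, b ∈ O ↔ b ∈ Hx := fun b => Set.Finite.mem_toFinset _
  have hcard : (O.biUnion fun b => Finset.powersetCard 5 b).card = 792 := by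
    rw [Finset.card_biUnion]
    · have : ∀ b ∈ O, (Finset.powersetCard 5 b).card = 6 := by
        intro b hb
        obtain ⟨x, -, rfl, h6⟩ := (hOm b).1 hb
        rw [Finset.card_powersetCard, h6]
        rfl
      rw [Finset.sum_congr rfl this, Finset.sum_const, hO]
      rfl
    · intro b hb b' hb' hne
      show Disjoint _ _
      rw [Finset.disjoint_left]
      intro s hs hs'
      rw [Finset.mem_powersetCard] at hs hs'
      exact hne (huniq s hs.2 b b' ((hOm b).1 hb) ((hOm b').1 hb') hs.1 hs'.1)
  have hsub : (O.biUnion fun b => Finset.powersetCard 5 b) ⊆ Finset.powersetCard 5 (Finset.univ : Finset ArrayPt) := by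
    intro s hs
    rw [Finset.mem_biUnion] at hs
    obtain ⟨b, _, hb⟩ := hs
    rw [Finset.mem_powersetCard] at hb ⊢
    exact ⟨Finset.subset_univ _, hb.2⟩
  have hall : (O.biUnion fun b => Finset.powersetCard 5 b) = Finset.powersetCard 5 (Finset.univ : Finset ArrayPt) := by
    apply Finset.eq_of_subset_of_card_le hsub
    rw [hcard, Finset.card_powersetCard, Finset.card_univ]
    have : Fintype.card ArrayPt = 12 := rfl
    rw [this]
    decide
  intro s hs
  have hmem : s ∈ (O.biUnion fun b => Finset.powersetCard 5 b) := by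
    rw [hall, Finset.mem_powersetCard]
    exact ⟨Finset.subset_univ _, hs⟩
  rw [Finset.mem_biUnion] at hmem
  obtain ⟨b, hb, hsb⟩ := hmem
  rw [Finset.mem_powersetCard] at hsb
  exact ⟨b, ⟨(hOm b).1 hb, hsb.1⟩, fun b' hb' => huniq s hs b' b hb'.1 ((hOm b).1 hb) hb'.2 hsb.1⟩

end Cfsg.Agent.H7.Tern
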