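import Mathlib
import Cfsg.Agent.H7_Tern3
import Cfsg.Agent.H7_S12b

set_option autoImplicit false
set_option linter.all false

open Finset

/-!
The ternary code of length 12: monomial automorphisms.
-/

namespace Cfsg.Agent.H7.Tern

open Cfsg Cfsg.Agent.H7.St

abbrev Pres (σ : Equiv.Perm ArrayPt) (c : ArrayPt → (ZMod 3)ˣ) : Prop :=
  ∀ x ∈ ternaryGolayCode, monomialMap σ c x ∈ ternaryGolayCode

theorem mono_mul (σ τ : Equiv.Perm ArrayPt) (c d : ArrayPt → (ZMod 3)ˣ) (x : ArrayPt → ZMod 3) :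
    monomialMap (σ * τ) (fun p => c p * d (σ.symm p)) x = monomialMap σ c (monomialMap τ d x) := by
  funext p
  show ((c p * d (σ.symm p) : (ZMod 3)ˣ) : ZMod 3) * x (τ.symm (σ.symm p)) = (c p : ZMod 3) * ((d (σ.symm p) : ZMod 3) * x (τ.symm (σ.symm p)))
  rw [Units.val_mul, mul_assoc]

def Lift (σ : Equiv.Perm ArrayPt) : Prop := ∃ c : ArrayPt → (ZMod 3)ˣ, Pres σ c

theorem Lift.mul {σ τ : Equiv.Perm ArrayPt} (h : Lift σ) (h' : Lift τ) : Lift (σ * τ) := by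
  obtain ⟨c, hc⟩ := h
  obtain ⟨d, hd⟩ := h'
  refine ⟨fun p => c p * d (σ.symm p), fun x hx => ?_⟩
  rw [mono_mul]
  exact hc _ (hd _ hx)

theorem supp_mono (σ : Equiv.Perm ArrayPt) (c : ArrayPt → (ZMod 3)ˣ) (x : ArrayPt → ZMod 3) :
    ternarySupport (monomialMap σ c x) = (ternarySupport x).map σ.toEmbedding := by
  ext p
  rw [mem_supp, Finset.mem_map_equiv, mem_supp]
  show (c p : ZMod 3) * x (σ.symm p) ≠ 0 ↔ _
  rw [ne_eq, Units.mul_right_eq_zero]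

theorem Lift.mem {σ : Equiv.Perm ArrayPt} (h : Lift σ) : σ ∈ setSystemAut Hx := by
  obtain ⟨c, hc⟩ := h
  rw [mem_aut]
  rintro s ⟨x, hx, rfl, h6⟩
  exact ⟨monomialMap σ c x, hc x hx, supp_mono σ c x, by rw [Finset.card_map]; exact h6⟩

theorem two_pts (p q : ArrayPt) : ∃ x ∈ ternaryGolayCode, (ternarySupport x).card = 6 ∧ p ∈ ternarySupport x ∧ q ∈ ternarySupport x := by
  classical
  obtain ⟨s, hs1, hs2⟩ := Finset.exists_superset_card_eq (s := ({p, q} : Finset ArrayPt)) (n := 5)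
    (Finset.card_le_two.trans (by norm_num)) (by show 5 ≤ 12; norm_num)
  obtain ⟨b, ⟨⟨x, hx, rfl, h6⟩, hsb⟩, -⟩ := hx_steiner.2 s hs2
  exact ⟨x, hx, h6, hsb (hs1 (by simp)), hsb (hs1 (by simp))⟩

theorem diag_eq {c : ArrayPt → (ZMod 3)ˣ} (h : Pres 1 c) (p q : ArrayPt) : c p = c q := by
  obtain ⟨x, hx, h6, hp, hq⟩ := two_pts p q
  have hs := supp_mono 1 c x
  have e1 : (ternarySupport x).map (1 : Equiv.Perm ArrayPt).toEmbedding = ternarySupport x := Finset.map_refl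
  rw [e1] at hs
  have := pm (h x hx) hx (by rw [hs]; exact h6) h6 (by rw [hs, Finset.inter_self, h6]; norm_num)
  rw [mem_supp] at hp hq
  have key : ∀ (u v : (ZMod 3)ˣ) (a b : ZMod 3), a ≠ 0 → b ≠ 0 → (((u : ZMod 3) * a = a ∧ (v : ZMod 3) * b = b) ∨
    ((u : ZMod 3) * a = -a ∧ (v : ZMod 3) * b = -b)) → u = v := by decide
  apply key _ _ _ _ hp hq
  rcases this with h | h
  · exact Or.inl ⟨congrFun h p, congrFun h q⟩
  · exact Or.inr ⟨congrFun h p, congrFun h q⟩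

theorem diag {c : ArrayPt → (ZMod 3)ˣ} (h : Pres 1 c) : (∀ p, c p = 1) ∨ (∀ p, c p = -1) := by
  have key : ∀ u : (ZMod 3)ˣ, u = 1 ∨ u = -1 := by decide
  rcases key (c (0, 0)) with h1 | h1
  · exact Or.inl fun p => by rw [diag_eq h p (0, 0), h1]
  · exact Or.inr fun p => by rw [diag_eq h p (0, 0), h1]

theorem mono_inj (σ : Equiv.Perm ArrayPt) (c : ArrayPt → (ZMod 3)ˣ) : Function.Injective (fun x : ArrayPt → ZMod 3 => monomialMap σ c x) := by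
  intro x y h
  funext p
  have := congrFun h (σ p)
  show x p = y p
  have e : (c (σ p) : ZMod 3) * x (σ.symm (σ p)) = (c (σ p) : ZMod 3) * y (σ.symm (σ p)) := this
  rw [Equiv.symm_apply_apply] at e
  exact (Units.mul_right_inj _).1 e

theorem mono_surj {σ : Equiv.Perm ArrayPt} {c : ArrayPt → (ZMod 3)ˣ} (h : Pres σ c) {y : ArrayPt → ZMod 3} (hy : y ∈ ternaryGolayCode) :
    ∃ x ∈ ternaryGolayCode, monomialMap σ c x = y := by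
  let f : ternaryGolayCode → ternaryGolayCode := fun x => ⟨monomialMap σ c x, h x x.2⟩
  have hf : Function.Injective f := fun x y h => Subtype.ext (mono_inj σ c (congrArg Subtype.val h))
  have := Finite.surjective_of_injective hf
  obtain ⟨x, hx⟩ := this ⟨y, hy⟩
  exact ⟨x, x.2, congrArg Subtype.val hx⟩

theorem signs_eq {σ : Equiv.Perm ArrayPt} {c c' : ArrayPt → (ZMod 3)ˣ} (h : Pres σ c) (h' : Pres σ c') : c' = c ∨ c' = -c := by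
  have h1 : Pres 1 (fun p => c' p * (c p)⁻¹) := by
    intro y hy
    obtain ⟨x, hx, rfl⟩ := mono_surj h hy
    have : monomialMap 1 (fun p => c' p * (c p)⁻¹) (monomialMap σ c x) = monomialMap σ c' x := by
      funext p
      show ((c' p * (c p)⁻¹ : (ZMod 3)ˣ) : ZMod 3) * ((c p : ZMod 3) * x (σ.symm p)) = (c' p : ZMod 3) * x (σ.symm p)
      rw [← mul_assoc, ← Units.val_mul, inv_mul_cancel_right]
    rw [this]
    exact h' x hx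
  rcases diag h1 with h2 | h2
  · left
    funext p
    have := h2 p
    exact mul_inv_eq_one.1 this
  · right
    funext p
    have := h2 p
    rw [mul_inv_eq_iff_eq_mul] at this
    rw [this, Pi.neg_apply, neg_one_mul]

/-! explicit elements -/

def ia (p : ArrayPt) : ℕ := 3 * p.1.val + p.2.val
def pa (n : ℕ) : ArrayPt := (Fin.ofNat 4 (n / 3), ((n % 3 : ℕ) : ZMod 3))

theorem pa_ia (p : ArrayPt) : pa (ia p) = p := by revert p; decide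
theorem ia_lt (p : ArrayPt) : ia p < 12 := by revert p; decide
theorem ia_pa : ∀ n < 12, ia (pa n) = n := by decide
theorem word_eq (n : ℕ) (p : ArrayPt) : word n p = (((cL n).getD (ia p) 0 : ℕ) : ZMod 3) := rfl

def ok (e : List ℕ × List ℕ × ℕ) : Bool := (List.range 12).all fun i => Nat.blt (e.1.getD i 0) 12 &&
  (Nat.beq (e.2.1.getD (e.1.getD i 0) 0) i && (Nat.blt (e.2.1.getD i 0) 12 && Nat.beq (e.1.getD (e.2.1.getD i 0) 0) i))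

def toPerm (e : List ℕ × List ℕ × ℕ) (h : ok e = true) : Equiv.Perm ArrayPt where
  toFun p := pa (e.1.getD (ia p) 0)
  invFun p := pa (e.2.1.getD (ia p) 0)
  left_inv p := by
    have h1 := List.all_eq_true.1 h (ia p) (List.mem_range.2 (ia_lt p))
    simp only [Bool.and_eq_true, Nat.beq_eq, Nat.blt_eq] at h1
    show pa (e.2.1.getD (ia (pa (e.1.getD (ia p) 0))) 0) = p
    rw [ia_pa _ h1.1, h1.2.1, pa_ia]
  right_inv p := by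
    have h1 := List.all_eq_true.1 h (ia p) (List.mem_range.2 (ia_lt p))
    simp only [Bool.and_eq_true, Nat.beq_eq, Nat.blt_eq] at h1
    show pa (e.1.getD (ia (pa (e.2.1.getD (ia p) 0))) 0) = p
    rw [ia_pa _ h1.2.2.1, h1.2.2.2, pa_ia]

def sgn (m : ℕ) (p : ArrayPt) : (ZMod 3)ˣ := if m.testBit (ia p) = true then -1 else 1

def img (e : List ℕ × List ℕ × ℕ) (j : ℕ) : ArrayPt → ZMod 3 := fun p => (sgn e.2.2 p : ZMod 3) * word j (pa (e.2.1.getD (ia p) 0))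

instance (x : ArrayPt → ZMod 3) : Decidable (Eqs x) := by unfold Eqs; infer_instance

def good (e : List ℕ × List ℕ × ℕ) : Bool := [1, 3, 9, 27, 81, 243].all fun j => decide (Eqs (img e j))

theorem mono_gen (x : ArrayPt → ZMod 3) (hx : Eqs x) : x = x (0, 0) • word 1 + x (0, 1) • word 3 + x (0, 2) • word 9 +
    x (1, 0) • word 27 + x (1, 1) • word 81 + x (2, 0) • word 243 := by
  have hm : ∀ (a : ZMod 3) (n : ℕ), a • word n ∈ ternaryGolayCode := fun a n => ternaryGolayCode.smul_mem a (mem_code.2 (word_eqs n))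
  apply eqs_ext hx
  · exact mem_code.1 (add_mem (add_mem (add_mem (add_mem (add_mem (hm _ _) (hm _ _)) (hm _ _)) (hm _ _)) (hm _ _)) (hm _ _))
  · have a : word 1 (0, 0) = 1 ∧ word 3 (0, 0) = 0 ∧ word 9 (0, 0) = 0 ∧ word 27 (0, 0) = 0 ∧ word 81 (0, 0) = 0 ∧ word 243 (0, 0) = 0 := by decide +kernel
    simp only [Pi.add_apply, Pi.smul_apply, smul_eq_mul, a.1, a.2.1, a.2.2.1, a.2.2.2.1, a.2.2.2.2.1, a.2.2.2.2.2]; ring
  · have a : word 1 (0, 1) = 0 ∧ word 3 (0, 1) = 1 ∧ word 9 (0, 1) = 0 ∧ word 27 (0, 1) = 0 ∧ word 81 (0, 1) = 0 ∧ word 243 (0, 1) = 0 := by decide +kernel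
    simp only [Pi.add_apply, Pi.smul_apply, smul_eq_mul, a.1, a.2.1, a.2.2.1, a.2.2.2.1, a.2.2.2.2.1, a.2.2.2.2.2]; ring
  · have a : word 1 (0, 2) = 0 ∧ word 3 (0, 2) = 0 ∧ word 9 (0, 2) = 1 ∧ word 27 (0, 2) = 0 ∧ word 81 (0, 2) = 0 ∧ word 243 (0, 2) = 0 := by decide +kernel
    simp only [Pi.add_apply, Pi.smul_apply, smul_eq_mul, a.1, a.2.1, a.2.2.1, a.2.2.2.1, a.2.2.2.2.1, a.2.2.2.2.2]; ring
  · have a : word 1 (1, 0) = 0 ∧ word 3 (1, 0) = 0 ∧ word 9 (1, 0) = 0 ∧ word 27 (1, 0) = 1 ∧ word 81 (1, 0) = 0 ∧ word 243 (1, 0) = 0 := by decide +kernel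
    simp only [Pi.add_apply, Pi.smul_apply, smul_eq_mul, a.1, a.2.1, a.2.2.1, a.2.2.2.1, a.2.2.2.2.1, a.2.2.2.2.2]; ring
  · have a : word 1 (1, 1) = 0 ∧ word 3 (1, 1) = 0 ∧ word 9 (1, 1) = 0 ∧ word 27 (1, 1) = 0 ∧ word 81 (1, 1) = 1 ∧ word 243 (1, 1) = 0 := by decide +kernel
    simp only [Pi.add_apply, Pi.smul_apply, smul_eq_mul, a.1, a.2.1, a.2.2.1, a.2.2.2.1, a.2.2.2.2.1, a.2.2.2.2.2]; ring
  · have a : word 1 (2, 0) = 0 ∧ word 3 (2, 0) = 0 ∧ word 9 (2, 0) = 0 ∧ word 27 (2, 0) = 0 ∧ word 81 (2, 0) = 0 ∧ word 243 (2, 0) = 1 := by decide +kernel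
    simp only [Pi.add_apply, Pi.smul_apply, smul_eq_mul, a.1, a.2.1, a.2.2.1, a.2.2.2.1, a.2.2.2.2.1, a.2.2.2.2.2]; ring

theorem mono_add (σ : Equiv.Perm ArrayPt) (c : ArrayPt → (ZMod 3)ˣ) (x y : ArrayPt → ZMod 3) :
    monomialMap σ c (x + y) = monomialMap σ c x + monomialMap σ c y := by
  funext p; show (c p : ZMod 3) * (x _ + y _) = _ * _ + _ * _; ring

theorem mono_smul (σ : Equiv.Perm ArrayPt) (c : ArrayPt → (ZMod 3)ˣ) (a : ZMod 3) (x : ArrayPt → ZMod 3) :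
    monomialMap σ c (a • x) = a • monomialMap σ c x := by
  funext p; show (c p : ZMod 3) * (a * x _) = a * (_ * _); ring

theorem lift_of (e : List ℕ × List ℕ × ℕ) (h : ok e = true) (h2 : good e = true) : Lift (toPerm e h) := by
  refine ⟨sgn e.2.2, fun x hx => ?_⟩
  have h1 := List.all_eq_true.1 h2
  have hg : ∀ j ∈ ([1, 3, 9, 27, 81, 243] : List ℕ), monomialMap (toPerm e h) (sgn e.2.2) (word j) ∈ ternaryGolayCode := by
    intro j hj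
    have := of_decide_eq_true (h1 j hj)
    exact mem_code.2 this
  rw [mono_gen x (mem_code.1 hx)]
  simp only [mono_add, mono_smul]
  have hm : ∀ (a : ZMod 3) (n : ℕ), n ∈ ([1, 3, 9, 27, 81, 243] : List ℕ) → a • monomialMap (toPerm e h) (sgn e.2.2) (word n) ∈ ternaryGolayCode :=
    fun a n hn => ternaryGolayCode.smul_mem a (hg n hn)
  exact (add_mem (add_mem (add_mem (add_mem (add_mem (hm _ _ (by simp)) (hm _ _ (by simp))) (hm _ _ (by simp))) (hm _ _ (by simp)))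
    (hm _ _ (by simp))) (hm _ _ (by simp)))

def EL : ℕ → List (List ℕ × List ℕ × ℕ)
  | 0 => [
    ([0, 1, 2, 3, 4, 5, 6, 7, 8, 9, 10, 11], [0, 1, 2, 3, 4, 5, 6, 7, 8, 9, 10, 11], 0),
    ([1, 0, 2, 3, 4, 5, 11, 9, 10, 7, 8, 6], [1, 0, 2, 3, 4, 5, 11, 9, 10, 7, 8, 6], 0),
    ([2, 0, 1, 3, 4, 5, 8, 6, 7, 10, 11, 9], [1, 2, 0, 3, 4, 5, 7, 8, 6, 11, 9, 10], 0),
    ([3, 0, 1, 2, 4, 5, 10, 7, 6, 8, 9, 11], [1, 2, 3, 0, 4, 5, 8, 7, 9, 10, 6, 11], 2764),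
    ([4, 0, 1, 2, 3, 5, 6, 9, 10, 11, 7, 8], [1, 2, 3, 4, 0, 5, 6, 10, 11, 7, 8, 9], 1940),
    ([5, 0, 1, 2, 3, 4, 9, 6, 8, 7, 11, 10], [1, 2, 3, 4, 5, 0, 7, 9, 8, 6, 11, 10], 3428),
    ([6, 0, 1, 2, 3, 9, 5, 4, 7, 10, 8, 11], [1, 2, 3, 4, 7, 6, 0, 8, 10, 5, 9, 11], 2514),
    ([7, 0, 1, 2, 3, 11, 10, 8, 9, 4, 5, 6], [1, 2, 3, 4, 9, 10, 11, 0, 7, 8, 6, 5], 3102),
    ([8, 0, 1, 2, 3, 10, 7, 11, 4, 6, 9, 5], [1, 2, 3, 4, 8, 11, 9, 6, 0, 10, 5, 7], 1224),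
    ([9, 0, 1, 2, 3, 6, 4, 5, 11, 8, 10, 7], [1, 2, 3, 4, 6, 7, 5, 11, 9, 0, 10, 8], 3746),
    ([10, 0, 1, 2, 3, 8, 11, 7, 5, 9, 6, 4], [1, 2, 3, 4, 11, 8, 10, 7, 5, 9, 0, 6], 2824),
    ([11, 0, 1, 2, 3, 7, 8, 10, 6, 5, 4, 9], [1, 2, 3, 4, 10, 9, 8, 5, 6, 11, 7, 0], 430)]
  | 1 => [
    ([0, 1, 2, 3, 4, 5, 6, 7, 8, 9, 10, 11], [0, 1, 2, 3, 4, 5, 6, 7, 8, 9, 10, 11], 0),
    ([0, 2, 1, 3, 4, 5, 9, 10, 11, 6, 7, 8], [0, 2, 1, 3, 4, 5, 9, 10, 11, 6, 7, 8], 0),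
    ([0, 3, 1, 2, 4, 5, 11, 8, 9, 7, 6, 10], [0, 2, 3, 1, 4, 5, 10, 9, 7, 8, 11, 6], 2764),
    ([0, 4, 1, 2, 3, 5, 8, 11, 7, 9, 10, 6], [0, 2, 3, 4, 1, 5, 11, 8, 6, 9, 10, 7], 1940),
    ([0, 5, 1, 2, 3, 4, 10, 7, 11, 6, 8, 9], [0, 2, 3, 4, 5, 1, 9, 7, 10, 11, 6, 8], 3428),
    ([0, 6, 1, 2, 3, 9, 11, 10, 8, 4, 7, 5], [0, 2, 3, 4, 9, 11, 1, 10, 8, 5, 7, 6], 2514),
    ([0, 7, 1, 2, 3, 11, 6, 4, 5, 8, 9, 10], [0, 2, 3, 4, 7, 8, 6, 1, 9, 10, 11, 5], 3102),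
    ([0, 8, 1, 2, 3, 10, 5, 6, 9, 11, 4, 7], [0, 2, 3, 4, 10, 6, 7, 11, 1, 8, 5, 9], 1224),
    ([0, 9, 1, 2, 3, 6, 7, 8, 10, 5, 11, 4], [0, 2, 3, 4, 11, 9, 5, 6, 7, 1, 8, 10], 3746),
    ([0, 10, 1, 2, 3, 8, 4, 9, 6, 7, 5, 11], [0, 2, 3, 4, 6, 10, 8, 9, 5, 7, 1, 11], 2824),
    ([0, 11, 1, 2, 3, 7, 9, 5, 4, 10, 6, 8], [0, 2, 3, 4, 8, 7, 10, 5, 11, 6, 9, 1], 430)]
  | 2 => [
    ([0, 1, 2, 3, 4, 5, 6, 7, 8, 9, 10, 11], [0, 1, 2, 3, 4, 5, 6, 7, 8, 9, 10, 11], 0),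
    ([0, 1, 3, 2, 4, 5, 7, 6, 10, 11, 8, 9], [0, 1, 3, 2, 4, 5, 7, 6, 10, 11, 8, 9], 2764),
    ([0, 1, 4, 2, 3, 5, 9, 10, 6, 8, 11, 7], [0, 1, 3, 4, 2, 5, 8, 11, 9, 6, 7, 10], 1940),
    ([0, 1, 5, 2, 3, 4, 6, 8, 9, 10, 7, 11], [0, 1, 3, 4, 5, 2, 6, 10, 7, 8, 9, 11], 3428),
    ([0, 1, 6, 2, 3, 9, 4, 7, 5, 11, 10, 8], [0, 1, 3, 4, 6, 8, 2, 7, 11, 5, 10, 9], 2514),
    ([0, 1, 7, 2, 3, 11, 8, 9, 10, 6, 4, 5], [0, 1, 3, 4, 10, 11, 9, 2, 6, 7, 8, 5], 3102),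
    ([0, 1, 8, 2, 3, 10, 11, 4, 7, 5, 6, 9], [0, 1, 3, 4, 7, 9, 10, 8, 2, 11, 5, 6], 1224),
    ([0, 1, 9, 2, 3, 6, 5, 11, 4, 7, 8, 10], [0, 1, 3, 4, 8, 6, 5, 9, 10, 2, 11, 7], 3746),
    ([0, 1, 10, 2, 3, 8, 7, 5, 11, 4, 9, 6], [0, 1, 3, 4, 9, 7, 11, 6, 5, 10, 2, 8], 2824),
    ([0, 1, 11, 2, 3, 7, 10, 6, 8, 9, 5, 4], [0, 1, 3, 4, 11, 10, 7, 5, 8, 9, 6, 2], 430)]
  | 3 => [
    ([0, 1, 2, 3, 4, 5, 6, 7, 8, 9, 10, 11], [0, 1, 2, 3, 4, 5, 6, 7, 8, 9, 10, 11], 0),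
    ([0, 1, 2, 4, 3, 5, 10, 9, 11, 7, 6, 8], [0, 1, 2, 4, 3, 5, 10, 9, 11, 7, 6, 8], 0),
    ([0, 1, 2, 5, 3, 4, 8, 6, 7, 11, 9, 10], [0, 1, 2, 4, 5, 3, 7, 8, 6, 10, 11, 9], 0),
    ([0, 1, 2, 6, 3, 9, 7, 4, 10, 8, 5, 11], [0, 1, 2, 4, 7, 10, 3, 6, 9, 5, 8, 11], 6),
    ([0, 1, 2, 7, 3, 11, 9, 8, 4, 5, 10, 6], [0, 1, 2, 4, 8, 9, 11, 3, 7, 6, 10, 5], 4090),
    ([0, 1, 2, 8, 3, 10, 4, 11, 6, 9, 7, 5], [0, 1, 2, 4, 6, 11, 8, 10, 3, 9, 5, 7], 4092),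
    ([0, 1, 2, 9, 3, 6, 11, 5, 8, 10, 4, 7], [0, 1, 2, 4, 10, 7, 5, 11, 8, 3, 9, 6], 6),
    ([0, 1, 2, 10, 3, 8, 5, 7, 9, 6, 11, 4], [0, 1, 2, 4, 11, 6, 9, 7, 5, 8, 3, 10], 4092),
    ([0, 1, 2, 11, 3, 7, 6, 10, 5, 4, 8, 9], [0, 1, 2, 4, 9, 8, 6, 5, 10, 11, 7, 3], 4090)]
  | 4 => [
    ([0, 1, 2, 3, 4, 5, 6, 7, 8, 9, 10, 11], [0, 1, 2, 3, 4, 5, 6, 7, 8, 9, 10, 11], 0),
    ([0, 1, 2, 3, 5, 4, 9, 11, 10, 6, 8, 7], [0, 1, 2, 3, 5, 4, 9, 11, 10, 6, 8, 7], 0),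
    ([0, 1, 2, 3, 6, 9, 5, 8, 11, 4, 7, 10], [0, 1, 2, 3, 9, 6, 4, 10, 7, 5, 11, 8], 6),
    ([0, 1, 2, 3, 7, 11, 10, 5, 6, 8, 9, 4], [0, 1, 2, 3, 11, 7, 8, 4, 9, 10, 6, 5], 4090),
    ([0, 1, 2, 3, 8, 10, 7, 9, 5, 11, 4, 6], [0, 1, 2, 3, 10, 8, 11, 6, 4, 7, 5, 9], 4092),
    ([0, 1, 2, 3, 9, 6, 4, 10, 7, 5, 11, 8], [0, 1, 2, 3, 6, 9, 5, 8, 11, 4, 7, 10], 6),
    ([0, 1, 2, 3, 10, 8, 11, 6, 4, 7, 5, 9], [0, 1, 2, 3, 8, 10, 7, 9, 5, 11, 4, 6], 4092),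
    ([0, 1, 2, 3, 11, 7, 8, 4, 9, 10, 6, 5], [0, 1, 2, 3, 7, 11, 10, 5, 6, 8, 9, 4], 4090)]
  | _ => []

def chk (k : ℕ) : Bool := (List.range 12).all fun y => Nat.blt y k || (EL k).any fun e =>
  Nat.beq (e.1.getD k 0) y && ((List.range k).all (fun i => Nat.beq (e.1.getD i 0) i) && (ok e && good e))

theorem chk_all : ((List.range 5).all chk) = true := by decide +kernel

theorem step (k : ℕ) (hk : k < 5) (y : ArrayPt) (hy : k ≤ ia y) : ∃ σ : Equiv.Perm ArrayPt, Lift σ ∧ (∀ i < k, σ (pa i) = pa i) ∧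
    σ (pa k) = y := by
  have h1 := List.all_eq_true.1 chk_all k (List.mem_range.2 hk)
  have h2 := List.all_eq_true.1 h1 (ia y) (List.mem_range.2 (ia_lt y))
  rw [Bool.or_eq_true, Nat.blt_eq] at h2
  rcases h2 with h2 | h2
  · omega
  rw [List.any_eq_true] at h2
  obtain ⟨e, -, he⟩ := h2
  simp only [Bool.and_eq_true, Nat.beq_eq] at he
  obtain ⟨e1, e2, e3, e4⟩ := he
  refine ⟨toPerm e e3, lift_of e e3 e4, ?_, ?_⟩
  · intro i hi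
    have := List.all_eq_true.1 e2 i (List.mem_range.2 hi)
    rw [Nat.beq_eq] at this
    show pa (e.1.getD (ia (pa i)) 0) = pa i
    rw [ia_pa i (by omega), this]
  · show pa (e.1.getD (ia (pa k)) 0) = y
    rw [ia_pa k (by omega), e1, pa_ia]

theorem chain (x : ℕ → ArrayPt) (hx : ∀ i < 5, ∀ j < 5, x i = x j → i = j) : ∀ k ≤ 5, ∃ σ : Equiv.Perm ArrayPt, Lift σ ∧
    ∀ i < k, σ (pa i) = x i := by
  intro k
  induction k with
  | zero =>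
    intro _
    refine ⟨1, ⟨1, fun x hx => ?_⟩, fun i hi => absurd hi (by omega)⟩
    have : monomialMap (1 : Equiv.Perm ArrayPt) (1 : ArrayPt → (ZMod 3)ˣ) x = x := by
      funext p; show ((1 : (ZMod 3)ˣ) : ZMod 3) * x p = x p; rw [Units.val_one, one_mul]
    rw [this]; exact hx
  | succ k ih =>
    intro hk
    obtain ⟨σ, hσ, h⟩ := ih (by omega)
    have hy : k ≤ ia (σ.symm (x k)) := by
      by_contra hcon
      push Not at hcon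
      have h1 := h _ hcon
      rw [pa_ia, Equiv.apply_symm_apply] at h1
      have := hx k (by omega) _ (by omega) h1
      omega
    obtain ⟨τ, hτ, h1, h2⟩ := step k (by omega) _ hy
    refine ⟨σ * τ, hσ.mul hτ, ?_⟩
    intro i hi
    rw [Equiv.Perm.mul_apply]
    rcases Nat.lt_succ_iff_lt_or_eq.1 hi with h3 | h3
    · rw [h1 i h3, h i h3]
    · rw [h3, h2, Equiv.apply_symm_apply]

theorem lift_iff {σ : Equiv.Perm ArrayPt} : Lift σ ↔ σ ∈ setSystemAut Hx := by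
  refine ⟨Lift.mem, fun h => ?_⟩
  obtain ⟨τ, hτ, h1⟩ := chain (fun i => σ (pa i)) (by
    intro i hi j hj h
    have := σ.injective h
    rw [← ia_pa i (by omega), this, ia_pa j (by omega)]) 5 le_rfl
  have hsh := S12.sh12 (B := Hx) (by rfl : Fintype.card ArrayPt = 12) hx_steiner
  have hb := hsh.2 (⟨fun i : Fin 5 => pa i, by
      intro i j hij
      have h2 : pa (i : ℕ) = pa (j : ℕ) := hij
      apply Fin.ext
      rw [← ia_pa i (by omega), h2, ia_pa j (by omega)]⟩ : Fin 5 ↪ ArrayPt)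
  have : (⟨τ, hτ.mem⟩ : setSystemAut Hx)⁻¹ * ⟨σ, h⟩ ∈ (⊥ : Subgroup (setSystemAut Hx)) := by
    rw [← hb, MulAction.mem_stabilizer_iff]
    apply DFunLike.ext
    intro i
    show τ⁻¹ (σ (pa i)) = pa i
    rw [Equiv.Perm.inv_eq_iff_eq]
    exact (h1 i i.2).symm
  rw [Subgroup.mem_bot, inv_mul_eq_one] at this
  have e : τ = σ := congrArg Subtype.val this
  rw [← e]
  exact hτ

theorem card_aut : Nat.card (setSystemAut Hx) = 95040 :=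
  (Sharp.m12 (S12.sh12 (B := Hx) (by rfl : Fintype.card ArrayPt = 12) hx_steiner) (by rw [Nat.card_eq_fintype_card]; rfl)).2

noncomputable def cc (σ : setSystemAut Hx) : ArrayPt → (ZMod 3)ˣ := (lift_iff.2 σ.2).choose

theorem cc_pres (σ : setSystemAut Hx) : Pres σ (cc σ) := (lift_iff.2 σ.2).choose_spec

theorem pres_neg {σ : Equiv.Perm ArrayPt} {c : ArrayPt → (ZMod 3)ˣ} (h : Pres σ c) : Pres σ (-c) := by
  intro x hx
  have : monomialMap σ (-c) x = -monomialMap σ c x := by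
    funext p
    show ((-(c p) : (ZMod 3)ˣ) : ZMod 3) * x _ = -((c p : ZMod 3) * x _)
    rw [Units.val_neg, neg_mul]
  rw [this]
  exact ternaryGolayCode.neg_mem (h x hx)

theorem card_mono : Nat.card {f : Equiv.Perm ArrayPt × (ArrayPt → (ZMod 3)ˣ) // Pres f.1 f.2} = 190080 := by
  have e : (setSystemAut Hx) × Bool ≃ {f : Equiv.Perm ArrayPt × (ArrayPt → (ZMod 3)ˣ) // Pres f.1 f.2} := by
    refine Equiv.ofBijective (fun z => match z with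
      | (σ, true) => ⟨(σ, cc σ), cc_pres σ⟩
      | (σ, false) => ⟨(σ, -cc σ), pres_neg (cc_pres σ)⟩) ⟨?_, ?_⟩
    · have hne : ∀ σ, cc σ ≠ -cc σ := by
        intro σ h
        have h1 := congrFun h (0, 0)
        rw [Pi.neg_apply] at h1
        revert h1
        generalize cc σ (0, 0) = u
        revert u
        decide
      rintro ⟨σ, b⟩ ⟨τ, b'⟩ h
      have h1 : σ = τ := by
        apply Subtype.ext
        have := congrArg (fun z : {f : Equiv.Perm ArrayPt × (ArrayPt → (ZMod 3)ˣ) // Pres f.1 f.2} => z.1.1) h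
        cases b <;> cases b' <;> exact this
      subst h1
      have h2 := congrArg (fun z : {f : Equiv.Perm ArrayPt × (ArrayPt → (ZMod 3)ˣ) // Pres f.1 f.2} => z.1.2) h
      cases b <;> cases b'
      · rfl
      · exact absurd h2.symm (hne σ)
      · exact absurd h2 (hne σ)
      · rfl
    · rintro ⟨⟨σ, c⟩, h⟩
      have hσ : σ ∈ setSystemAut Hx := lift_iff.1 ⟨c, h⟩
      rcases signs_eq (cc_pres ⟨σ, hσ⟩) h with h1 | h1
      · exact ⟨(⟨σ, hσ⟩, true), Subtype.ext (Prod.ext rfl h1.symm)⟩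
      · exact ⟨(⟨σ, hσ⟩, false), Subtype.ext (Prod.ext rfl h1.symm)⟩
  rw [← Nat.card_congr e, Nat.card_prod, card_aut]
  simp

end Cfsg.Agent.H7.Tern
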