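import Mathlib
import Cfsg.Prelude.Def_Classical
import Cfsg.Prelude.Def_SporadicB
import Cfsg.Agent.H16_Gen
import Cfsg.Agent.H16_Mat
import Cfsg.Agent.H16_Std

set_option autoImplicit false
set_option linter.all false

/-!
Orthogonal transvections over the field of two elements form a class of 3-transpositions.
-/

namespace Cfsg.Agent.H7.Tp

open Cfsg Cfsg.Agent.H16.Quad Module
open QuadraticMap (polar)
open scoped MatrixGroups

section

variable {ι : Type} [Fintype ι] [DecidableEq ι] {Q : QuadraticForm (ZMod 2) (ι → ZMod 2)}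

theorem z2 : ∀ a : ZMod 2, a = 0 ∨ a = 1 := by decide
theorem z2a : ∀ a b : ZMod 2, a + b = 0 → b = a := by decide

theorem range_of_rank_one {M : Matrix ι ι (ZMod 2)} (h : M.rank = 1) : ∃ v x0, v ≠ 0 ∧ M.mulVec x0 = v ∧ ∀ x, M.mulVec x = 0 ∨ M.mulVec x = v := by
  have h1 : finrank (ZMod 2) (LinearMap.range M.mulVecLin) = 1 := h
  obtain ⟨⟨v, hv⟩, hv0, hall⟩ := finrank_eq_one_iff'.mp h1
  obtain ⟨x0, hx0⟩ := hv
  refine ⟨v, x0, fun h => hv0 (Subtype.ext h), hx0, fun x => ?_⟩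
  obtain ⟨c, hc⟩ := hall ⟨M.mulVecLin x, ⟨x, rfl⟩⟩
  have hc' : c • v = M.mulVec x := congrArg Subtype.val hc
  rcases z2 c with rfl | rfl
  · left; rw [← hc', zero_smul]
  · right; rw [← hc', one_smul]

theorem eq_refl_of_rank (hQ : (QuadraticMap.polarBilin Q).Nondegenerate) {g : ↥(isometryGroup (ZMod 2) ⇑Q)}
    (h : (((g : GL ι (ZMod 2)) : Matrix ι ι (ZMod 2)) - 1).rank = 1) : ∃ v, Q v = 1 ∧ (toOG Q g).1 = refl Q v := by
  obtain ⟨v, x0, hv, hx0, hall⟩ := range_of_rank_one h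
  have hg : ∀ x, (((g : GL ι (ZMod 2)) : Matrix ι ι (ZMod 2)) - 1).mulVec x = (toOG Q g).1 x - x := by
    intro x; rw [Matrix.sub_mulVec, Matrix.one_mulVec]; rfl
  have hOG : ∀ x, Q ((toOG Q g).1 x) = Q x := mem_OG.1 (toOG Q g).2
  have key1 : ∀ x, (toOG Q g).1 x - x = v → polar Q x v = Q v := by
    intro x hx
    have h1 : (toOG Q g).1 x = x + v := by rw [← hx]; abel
    have h2 := hOG x
    rw [h1, H16.Quad.map_add Q] at h2
    have h3 : Q v + polar Q x v = 0 := by linear_combination h2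
    exact z2a _ _ h3
  have hx0' : polar Q x0 v = Q v := key1 x0 (by rw [← hg]; exact hx0)
  have key2 : ∀ x, (toOG Q g).1 x - x = 0 → polar Q x v = 0 := by
    intro x hx
    have h1 : (toOG Q g).1 (x + x0) - (x + x0) = v := by
      rw [_root_.map_add, ← hx0, hg]
      have : (toOG Q g).1 x = x := sub_eq_zero.mp hx
      rw [this]; abel
    have h2 := key1 _ h1
    rw [QuadraticMap.polar_add_left, hx0'] at h2
    linear_combination h2
  have hv1 : Q v = 1 := by
    rcases z2 (Q v) with h0 | h0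
    · exfalso
      apply hv
      apply nd_eq_zero hQ
      intro y
      rw [QuadraticMap.polar_comm]
      rcases hall y with h1 | h1
      · rw [hg] at h1; exact key2 y h1
      · rw [hg] at h1; rw [key1 y h1, h0]
    · exact h0
  refine ⟨v, hv1, LinearEquiv.ext fun x => ?_⟩
  rw [refl_apply, hv1]
  rcases hall x with h1 | h1
  · rw [hg] at h1
    rw [key2 x h1]
    simp
    exact sub_eq_zero.mp h1
  · rw [hg] at h1
    rw [key1 x h1, hv1]
    have h2 : (toOG Q g).1 x = x + v := by rw [← h1]; abel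
    have h3 : -v = v := by
      have : (2 : ZMod 2) = 0 := by decide
      funext i; simp only [Pi.neg_apply]; exact CharTwo.neg_eq _
    rw [h2, inv_one, one_mul, one_smul, sub_eq_add_neg, h3]

theorem rank_of_refl (hQ : (QuadraticMap.polarBilin Q).Nondegenerate) {g : ↥(isometryGroup (ZMod 2) ⇑Q)} {v : ι → ZMod 2}
    (hv : Q v = 1) (h : (toOG Q g).1 = refl Q v) : (((g : GL ι (ZMod 2)) : Matrix ι ι (ZMod 2)) - 1).rank = 1 := by
  have hv0 : v ≠ 0 := by rintro rfl; rw [QuadraticMap.map_zero] at hv; exact zero_ne_one hv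
  have hg : ∀ x, (((g : GL ι (ZMod 2)) : Matrix ι ι (ZMod 2)) - 1).mulVec x = -(polar Q x v) • v := by
    intro x; rw [Matrix.sub_mulVec, Matrix.one_mulVec]
    have : ((g : GL ι (ZMod 2)) : Matrix ι ι (ZMod 2)).mulVec x = (toOG Q g).1 x := rfl
    rw [this, h, refl_apply, hv, inv_one, one_mul, sub_sub_cancel_left, neg_smul]
  have hr : LinearMap.range (((g : GL ι (ZMod 2)) : Matrix ι ι (ZMod 2)) - 1).mulVecLin = Submodule.span (ZMod 2) {v} := by
    apply le_antisymm
    · rintro y ⟨x, rfl⟩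
      rw [Matrix.mulVecLin_apply, hg]
      exact Submodule.smul_mem _ _ (Submodule.mem_span_singleton_self v)
    · rw [Submodule.span_singleton_le_iff_mem]
      obtain ⟨y, hy⟩ := nd_exists_one hQ hv0
      refine ⟨-y, ?_⟩
      rw [Matrix.mulVecLin_apply, hg, QuadraticMap.polar_neg_left, QuadraticMap.polar_comm, hy, neg_neg, one_smul]
  have : (((g : GL ι (ZMod 2)) : Matrix ι ι (ZMod 2)) - 1).rank = finrank (ZMod 2) (LinearMap.range (((g : GL ι (ZMod 2)) : Matrix ι ι (ZMod 2)) - 1).mulVecLin) := rfl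
  rw [this, hr, finrank_span_singleton hv0]

/-- the reflection as an element of the matrix group -/
noncomputable def rr (Q : QuadraticForm (ZMod 2) (ι → ZMod 2)) (v : ι → ZMod 2) : ↥(isometryGroup (ZMod 2) ⇑Q) :=
  (toOG Q).symm ⟨refl Q v, refl_mem Q v⟩

theorem to_rr (v : ι → ZMod 2) : (toOG Q (rr Q v)).1 = refl Q v := by
  rw [rr, MulEquiv.apply_symm_apply]

theorem mem_D_iff (hQ : (QuadraticMap.polarBilin Q).Nondegenerate) (g : ↥(isometryGroup (ZMod 2) ⇑Q)) :
    (((g : GL ι (ZMod 2)) : Matrix ι ι (ZMod 2)) - 1).rank = 1 ↔ ∃ v, Q v = 1 ∧ g = rr Q v := by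
  constructor
  · intro h
    obtain ⟨v, hv, hg⟩ := eq_refl_of_rank hQ h
    exact ⟨v, hv, (toOG Q).injective (Subtype.ext (by rw [hg, to_rr]))⟩
  · rintro ⟨v, hv, rfl⟩
    exact rank_of_refl hQ hv (to_rr v)

theorem rr_sq (v : ι → ZMod 2) : rr Q v * rr Q v = 1 := by
  apply (toOG Q).injective
  rw [map_mul, map_one]
  apply Subtype.ext
  show (toOG Q (rr Q v)).1 * (toOG Q (rr Q v)).1 = 1
  rw [to_rr, refl_mul_self]

theorem rr_conj (g : ↥(isometryGroup (ZMod 2) ⇑Q)) (v : ι → ZMod 2) : g * rr Q v * g⁻¹ = rr Q ((toOG Q g).1 v) := by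
  apply (toOG Q).injective
  rw [map_mul, map_mul, map_inv]
  apply Subtype.ext
  show (toOG Q g).1 * (toOG Q (rr Q v)).1 * (toOG Q g).1⁻¹ = (toOG Q (rr Q ((toOG Q g).1 v))).1
  rw [to_rr, to_rr, conj_refl (toOG Q g).2]

theorem rr_inv (v : ι → ZMod 2) : (rr Q v)⁻¹ = rr Q v := inv_eq_of_mul_eq_one_left (rr_sq v)

theorem main (hQ : (QuadraticMap.polarBilin Q).Nondegenerate) (h4 : Fintype.card ι ≠ 4) (hex : ∃ v, Q v = 1) :
    IsThreeTranspositionClass {g : ↥(isometryGroup (ZMod 2) ⇑Q) | (((g : GL ι (ZMod 2)) : Matrix ι ι (ZMod 2)) - 1).rank = 1} := by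
  have hD : {g : ↥(isometryGroup (ZMod 2) ⇑Q) | (((g : GL ι (ZMod 2)) : Matrix ι ι (ZMod 2)) - 1).rank = 1} =
      {g | ∃ v, Q v = 1 ∧ g = rr Q v} := Set.ext fun g => mem_D_iff hQ g
  have hne : ∀ v, Q v = 1 → rr Q v ≠ 1 := by
    intro v hv h1
    have := (mem_D_iff hQ (rr Q v)).mpr ⟨v, hv, rfl⟩
    rw [h1] at this
    simp at this
  rw [hD]
  refine ⟨⟨?_, ?_⟩, ?_, ?_⟩
  · rintro d ⟨v, hv, rfl⟩
    exact orderOf_eq_prime (by rw [pow_two, rr_sq]) (hne v hv)
  · rintro d ⟨u, hu, rfl⟩ e ⟨v, hv, rfl⟩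
    have c1 : rr Q u * rr Q v * rr Q u = rr Q (refl Q u v) := by
      have := rr_conj (rr Q u) v
      rw [rr_inv, to_rr] at this; exact this
    have c2 : rr Q v * rr Q u * rr Q v = rr Q (refl Q v u) := by
      have := rr_conj (rr Q v) u
      rw [rr_inv, to_rr] at this; exact this
    rcases z2 (polar Q u v) with h | h
    · left
      rw [refl_fix (by rw [QuadraticMap.polar_comm]; exact h)] at c1
      rw [pow_two, ← mul_assoc, c1, rr_sq]
    · right
      have e1 : refl Q u v = refl Q v u := by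
        rw [refl_apply, refl_apply, hu, hv, h, QuadraticMap.polar_comm, h]
        simp only [inv_one, one_mul, one_smul]
        funext i
        simp only [Pi.sub_apply]
        rw [CharTwo.sub_eq_add, CharTwo.sub_eq_add, add_comm]
      have e2 : rr Q u * rr Q v * rr Q u = rr Q v * rr Q u * rr Q v := by rw [c1, c2, e1]
      have e3 : (rr Q u * rr Q v) ^ 3 = (rr Q u * rr Q v * rr Q u) * (rr Q v * rr Q u * rr Q v) := by
        simp only [pow_succ, pow_zero, one_mul, mul_assoc]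
      rw [e3, c2, ← e1, c1, rr_sq]
  · obtain ⟨u, hu⟩ := hex
    refine ⟨rr Q u, ⟨u, hu, rfl⟩, ?_⟩
    ext g
    rw [Set.mem_setOf_eq, conjugatesOf, Set.mem_setOf_eq, isConj_iff]
    constructor
    · rintro ⟨w, hw, rfl⟩
      have hu0 : u ≠ 0 := by rintro rfl; rw [QuadraticMap.map_zero] at hu; exact zero_ne_one hu
      have hw0 : w ≠ 0 := by rintro rfl; rw [QuadraticMap.map_zero] at hw; exact zero_ne_one hw
      obtain ⟨g, hg, h1⟩ := witt_family hQ 1 (fun _ => u) (fun _ => w) (linearIndependent_unique_iff.mpr hu0)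
        (linearIndependent_unique_iff.mpr hw0) (fun _ => by rw [hu, hw]) (fun _ _ => by rw [polar_self, polar_self, hu, hw])
      refine ⟨(toOG Q).symm ⟨g, hg⟩, ?_⟩
      rw [rr_conj, MulEquiv.apply_symm_apply]
      exact congrArg _ (h1 0)
    · rintro ⟨c, rfl⟩
      exact ⟨(toOG Q c).1 u, by rw [mem_OG.1 (toOG Q c).2, hu], rr_conj c u⟩
  · rw [eq_top_iff]
    intro g _
    obtain ⟨vs, h1, h2⟩ := isProd_of_mem hQ (Or.inr (by rw [finrank_fintype_fun_eq_card]; exact h4)) (toOG Q g).2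
    have key : ∀ vs : List (ι → ZMod 2), (∀ v ∈ vs, Q v ≠ 0) → ∀ g : ↥(isometryGroup (ZMod 2) ⇑Q), (toOG Q g).1 = rprod Q vs →
        g ∈ Subgroup.closure {g | ∃ v, Q v = 1 ∧ g = rr Q v} := by
      intro vs
      induction vs with
      | nil =>
        intro _ g hg
        have : g = 1 := by
          apply (toOG Q).injective
          rw [map_one]
          exact Subtype.ext hg
        rw [this]; exact Subgroup.one_mem _
      | cons v vs ih =>
        intro hvs g hg
        have hv : Q v = 1 := by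
          rcases z2 (Q v) with h | h
          · exact absurd h (hvs v List.mem_cons_self)
          · exact h
        have h3 : rr Q v * g ∈ Subgroup.closure {g | ∃ v, Q v = 1 ∧ g = rr Q v} := by
          apply ih (fun w hw => hvs w (List.mem_cons_of_mem _ hw))
          rw [map_mul]
          show (toOG Q (rr Q v)).1 * (toOG Q g).1 = rprod Q vs
          rw [to_rr, hg, rprod_cons, ← mul_assoc, refl_mul_self, one_mul]
        have h4 : rr Q v ∈ Subgroup.closure {g | ∃ v, Q v = 1 ∧ g = rr Q v} := Subgroup.subset_closure ⟨v, hv, rfl⟩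
        have := Subgroup.mul_mem _ h4 h3
        rwa [← mul_assoc, rr_sq, one_mul] at this
    exact key vs h1 g h2

theorem hyp_one {κ : Type*} [DecidableEq κ] {e f : κ → (ι → ZMod 2)} (h : HypFam Q e f) (i : κ) : Q (e i + f i) = 1 := by
  rw [H16.Quad.map_add Q, h.qe, h.qf, h.ef, if_pos rfl]
  simp

end

end Cfsg.Agent.H7.Tp
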