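import Mathlib
import Cfsg.Prelude.Def_Classical
import Cfsg.Prelude.Def_SporadicB
import Cfsg.Agent.H15_WtSU

set_option autoImplicit false
set_option linter.all false

/-!
Unitary transvections over the field of four elements form a class of 3-transpositions.
-/

namespace Cfsg.Agent.H7.Tp

open Cfsg Cfsg.Agent.H15.UGen Cfsg.Agent.H5 Cfsg.Agent.H5.Unit Matrix Cfsg.Agent.H5.Conc Cfsg.Agent.H5.Frm Cfsg.Agent.H5.Herm Module
open scoped MatrixGroups

section

variable {F : Type*} [Field F] [Fintype F]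

theorem ch2 (hF : Fintype.card F = 2 ^ 2) : (2 : F) = 0 := by
  have h := FiniteField.cast_card_eq_zero F
  rw [hF] at h
  have h2 : (2 : F) * 2 = 0 := by push_cast at h; linear_combination h
  rcases mul_eq_zero.mp h2 with h3 | h3 <;> exact h3

theorem c_one (hF : Fintype.card F = 2 ^ 2) {c : F} (hc0 : c ≠ 0) (hc : c + c ^ 2 = 0) : c = 1 := by
  have h2 := ch2 hF
  have h3 : c * (1 + c) = 0 := by linear_combination hc
  rcases mul_eq_zero.mp h3 with h | h
  · exact absurd h hc0
  · linear_combination h - h2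

theorem cube (hF : Fintype.card F = 2 ^ 2) {c : F} (hc0 : c ≠ 0) : c ^ 3 = 1 := by
  have := FiniteField.pow_card_sub_one_eq_one c hc0
  rw [hF] at this
  exact this

variable {n : ℕ}

theorem one_ok (hF : Fintype.card F = 2 ^ 2) : (1 : F) + 1 ^ 2 = 0 := by
  have := ch2 hF; linear_combination this

/-- the transvection of an isotropic vector -/
noncomputable def tt (hF : Fintype.card F = 2 ^ 2) (v : Fin n → F) (hv : hermForm n F 2 v v = 0) : SU n F 2 :=
  Unit.T hF v hv 1 (one_ok hF)

theorem tt_apply (hF : Fintype.card F = 2 ^ 2) (v : Fin n → F) (hv : hermForm n F 2 v v = 0) (x : Fin n → F) :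
    mat (tt hF v hv) *ᵥ x = x + hermForm n F 2 x v • v := by
  rw [tt, T_apply, one_mul]

theorem tt_conj (hF : Fintype.card F = 2 ^ 2) (g : SU n F 2) (v : Fin n → F) (hv : hermForm n F 2 v v = 0) :
    g * tt hF v hv * g⁻¹ = tt hF (mat g *ᵥ v) (by rw [SU_herm, hv]) := conj_T hF g v hv 1 (one_ok hF)

theorem tt_smul (hF : Fintype.card F = 2 ^ 2) {v w : Fin n → F} (hv : hermForm n F 2 v v = 0) (hw : hermForm n F 2 w w = 0) {l : F}
    (hl : l ≠ 0) (h : w = l • v) : tt hF w hw = tt hF v hv := by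
  apply SU_ext
  intro x
  rw [tt_apply, tt_apply, h, herm_smul_right, smul_smul]
  congr 2
  have := cube hF hl
  linear_combination (hermForm n F 2 x v) * this

theorem tt_sq (hF : Fintype.card F = 2 ^ 2) (v : Fin n → F) (hv : hermForm n F 2 v v = 0) : tt hF v hv * tt hF v hv = 1 := by
  apply SU_ext
  intro x
  rw [mat_mul, ← Matrix.mulVec_mulVec, tt_apply, tt_apply, herm_add_left, herm_smul_left, hv, mul_zero, add_zero]
  have h1 : mat (1 : SU n F 2) *ᵥ x = x := Matrix.one_mulVec x
  rw [h1, add_assoc, ← add_smul]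
  have : hermForm n F 2 x v + hermForm n F 2 x v = 0 := by
    have := ch2 hF; linear_combination (hermForm n F 2 x v) * this
  rw [this, zero_smul, add_zero]

theorem tt_inv (hF : Fintype.card F = 2 ^ 2) (v : Fin n → F) (hv : hermForm n F 2 v v = 0) : (tt hF v hv)⁻¹ = tt hF v hv :=
  inv_eq_of_mul_eq_one_left (tt_sq hF v hv)

theorem nd_ex (hF : Fintype.card F = 2 ^ 2) {v : Fin n → F} (hv : v ≠ 0) : ∃ x, hermForm n F 2 x v ≠ 0 := by
  by_contra hcon
  push Not at hcon
  exact hv (hermFrm_nondeg hF n v (fun y => hcon y))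

theorem mem_T_iff (hF : Fintype.card F = 2 ^ 2) (g : SU n F 2) :
    (((g : Matrix.SpecialLinearGroup (Fin n) F) : Matrix (Fin n) (Fin n) F) - 1).rank = 1 ↔
      ∃ v, ∃ hv : hermForm n F 2 v v = 0, v ≠ 0 ∧ g = tt hF v hv := by
  constructor
  · intro h
    have h1 : finrank F (LinearMap.range (mat g - 1).mulVecLin) = 1 := h
    obtain ⟨⟨v, hv⟩, hv0, hall⟩ := finrank_eq_one_iff'.mp h1
    obtain ⟨y0, hy0⟩ := hv
    have hv0 : v ≠ 0 := fun h => hv0 (Subtype.ext h)
    have hM : ∀ x, (mat g - 1).mulVecLin x = mat g *ᵥ x - x := by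
      intro x; rw [Matrix.mulVecLin_apply, Matrix.sub_mulVec, Matrix.one_mulVec]
    have hall' : ∀ x, ∃ c : F, mat g *ᵥ x = x + c • v := by
      intro x
      obtain ⟨c, hc⟩ := hall ⟨(mat g - 1).mulVecLin x, ⟨x, rfl⟩⟩
      have hc' : c • v = (mat g - 1).mulVecLin x := congrArg Subtype.val hc
      rw [hM] at hc'
      exact ⟨c, by rw [hc']; abel⟩
    have hy : mat g *ᵥ y0 = y0 + v := by
      rw [hM] at hy0; rw [← hy0]; abel
    set κ := -(hermForm n F 2 v y0 + hermForm n F 2 v v) with hκ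
    have key : ∀ x c, mat g *ᵥ x = x + c • v → hermForm n F 2 x v = κ * c := by
      intro x c hx
      have h2 := SU_herm g x y0
      rw [hx, hy, herm_add_left, herm_add_right hF, herm_add_right hF, herm_smul_left, herm_smul_left] at h2
      rw [hκ]; linear_combination h2
    have hκ0 : κ ≠ 0 := by
      intro h0
      obtain ⟨x, hx⟩ := nd_ex hF hv0
      obtain ⟨c, hc⟩ := hall' x
      apply hx
      rw [key x c hc, h0, zero_mul]
    have hmat : mat g = unitaryTransvection n 2 v κ⁻¹ := by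
      apply ext_mulVec
      intro x
      obtain ⟨c, hc⟩ := hall' x
      rw [T_mulVec, hc, key x c hc, inv_mul_cancel_left₀ hκ0]
    have hdet : (mat g).det = 1 := (g : Matrix.SpecialLinearGroup (Fin n) F).2
    rw [hmat, det_R] at hdet
    have hvv : hermForm n F 2 v v = 0 := by
      have : κ⁻¹ * hermForm n F 2 v v = 0 := by linear_combination hdet
      exact (mul_eq_zero.mp this).resolve_left (inv_ne_zero hκ0)
    have hc : κ⁻¹ + (κ⁻¹) ^ 2 = 0 := by
      rw [← T_isometry_iff hF v hv0 hvv κ⁻¹]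
      intro x y
      rw [← hmat]
      exact SU_herm g x y
    refine ⟨v, hvv, hv0, ?_⟩
    apply SU_ext
    intro x
    rw [tt_apply, hmat, T_mulVec, c_one hF (inv_ne_zero hκ0) hc, one_mul]
  · rintro ⟨v, hv, hv0, rfl⟩
    have hM : ∀ x, (mat (tt hF v hv) - 1).mulVecLin x = hermForm n F 2 x v • v := by
      intro x; rw [Matrix.mulVecLin_apply, Matrix.sub_mulVec, Matrix.one_mulVec, tt_apply, add_sub_cancel_left]
    have hr : LinearMap.range (mat (tt hF v hv) - 1).mulVecLin = Submodule.span F {v} := by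
      apply le_antisymm
      · rintro y ⟨x, rfl⟩
        rw [hM]
        exact Submodule.smul_mem _ _ (Submodule.mem_span_singleton_self v)
      · rw [Submodule.span_singleton_le_iff_mem]
        obtain ⟨x, hx⟩ := nd_ex hF hv0
        refine ⟨(hermForm n F 2 x v)⁻¹ • x, ?_⟩
        rw [hM, herm_smul_left, inv_mul_cancel₀ hx, one_smul]
    have : (mat (tt hF v hv) - 1).rank = finrank F (LinearMap.range (mat (tt hF v hv) - 1).mulVecLin) := rfl
    rw [this, hr, finrank_span_singleton hv0]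

theorem mainU (hF : Fintype.card F = 2 ^ 2) (hn : 4 ≤ n) :
    IsThreeTranspositionClass {g : ↥(SU n F 2) | (((g : Matrix.SpecialLinearGroup (Fin n) F) : Matrix (Fin n) (Fin n) F) - 1).rank = 1} := by
  have hD : {g : ↥(SU n F 2) | (((g : Matrix.SpecialLinearGroup (Fin n) F) : Matrix (Fin n) (Fin n) F) - 1).rank = 1} =
      {g | ∃ v, ∃ hv : hermForm n F 2 v v = 0, v ≠ 0 ∧ g = tt hF v hv} := Set.ext fun g => mem_T_iff hF g
  have hne : ∀ v (hv : hermForm n F 2 v v = 0), v ≠ 0 → tt hF v hv ≠ 1 := by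
    intro v hv hv0 h1
    have := (mem_T_iff hF (tt hF v hv)).mpr ⟨v, hv, hv0, rfl⟩
    rw [h1] at this
    simp at this
  have h2 := ch2 hF
  rw [hD]
  refine ⟨⟨?_, ?_⟩, ?_, ?_⟩
  · rintro d ⟨v, hv, hv0, rfl⟩
    exact orderOf_eq_prime (by rw [pow_two, tt_sq]) (hne v hv hv0)
  · rintro d ⟨u, hu, hu0, rfl⟩ e ⟨v, hv, hv0, rfl⟩
    have c1 := tt_conj hF (tt hF u hu) v hv
    have c2 := tt_conj hF (tt hF v hv) u hu
    rw [tt_inv] at c1 c2
    have hsw : ∀ x y : Fin n → F, hermForm n F 2 x y ^ 2 = hermForm n F 2 y x := fun x y => herm_swap hF x y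
    by_cases h : hermForm n F 2 v u = 0
    · left
      have e1 : mat (tt hF u hu) *ᵥ v = v := by rw [tt_apply, h, zero_smul, add_zero]
      have e2 : tt hF u hu * tt hF v hv * tt hF u hu = tt hF v hv := by
        rw [c1]; exact tt_smul hF _ _ one_ne_zero (by rw [e1, one_smul])
      rw [pow_two, ← mul_assoc, e2, tt_sq]
    · right
      set a := hermForm n F 2 v u with ha
      have ha3 := cube hF h
      have e3 : mat (tt hF v hv) *ᵥ u = (a ^ 2) • (mat (tt hF u hu) *ᵥ v) := by
        rw [tt_apply, tt_apply, ← hsw v u, ← ha, smul_add, smul_smul]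
        have : a ^ 2 * a = 1 := by rw [← ha3]; ring
        rw [this, one_smul, add_comm]
      have e2 : tt hF v hv * tt hF u hu * tt hF v hv = tt hF u hu * tt hF v hv * tt hF u hu := by
        rw [c1, c2]
        exact tt_smul hF _ _ (pow_ne_zero 2 h) e3
      have e4 : (tt hF u hu * tt hF v hv) ^ 3 = (tt hF u hu * tt hF v hv * tt hF u hu) * (tt hF v hv * tt hF u hu * tt hF v hv) := by
        simp only [pow_succ, pow_zero, one_mul, mul_assoc]
      rw [e4, e2, c1, tt_sq]
  · -- an isotropic vector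
    obtain ⟨u, hu, hu0⟩ : ∃ u : Fin n → F, hermForm n F 2 u u = 0 ∧ u ≠ 0 := by
      refine ⟨fun i => if i = ⟨0, by omega⟩ ∨ i = ⟨1, by omega⟩ then 1 else 0, ?_, ?_⟩
      · unfold hermForm
        have : ∀ i : Fin n, (if i = ⟨0, by omega⟩ ∨ i = ⟨1, by omega⟩ then (1 : F) else 0) *
            (if i = ⟨0, by omega⟩ ∨ i = ⟨1, by omega⟩ then (1 : F) else 0) ^ 2 =
            (if i ∈ ({⟨0, by omega⟩, ⟨1, by omega⟩} : Finset (Fin n)) then (1 : F) else 0) := by
          intro i
          simp only [Finset.mem_insert, Finset.mem_singleton]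
          split_ifs <;> simp
        rw [Finset.sum_congr rfl (fun i _ => this i), Finset.sum_ite_mem, Finset.univ_inter, Finset.sum_const,
          Finset.card_pair (by simp [Fin.ext_iff]), nsmul_eq_mul, mul_one]
        exact_mod_cast h2
      · intro h0
        have := congrFun h0 ⟨0, by omega⟩
        simp at this
    refine ⟨tt hF u hu, ⟨u, hu, hu0, rfl⟩, ?_⟩
    ext g
    rw [Set.mem_setOf_eq, conjugatesOf, Set.mem_setOf_eq, isConj_iff]
    constructor
    · rintro ⟨w, hw, hw0, rfl⟩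
      have hK : ∃ c : F, c ≠ 0 ∧ c + Fld.frob hF c = 0 := by
        obtain ⟨c, hc, hc2⟩ := Unit.exists_ker_ne hF
        exact ⟨c, hc, by rw [Fld.frob_apply]; exact hc2⟩
      obtain ⟨n', hn', l, hl, hl2⟩ := H15.WtSU.rel_iso (hs hF n) hK (exists_trace hF) hu hw hu0 hw0
      have hNle : N (Fld.frob hF) (Cfsg.hermForm n F 2) ≤ (⊤ : Subgroup (Cfsg.SU n F 2)).map (act n F 2) := by
        rw [N, Subgroup.closure_le]
        rintro g ⟨v, c, hv, hc, hg⟩
        refine ⟨Unit.T hF v hv c (by rw [← Fld.frob_apply hF]; exact hc), trivial, ?_⟩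
        apply LinearEquiv.ext
        intro x
        rw [act_apply, Unit.T_apply, hg]
      obtain ⟨B, _, hB⟩ := hNle hn'
      have hBe : Unit.mat B *ᵥ u = l • w := by rw [← act_apply, hB, hl2]
      refine ⟨B, ?_⟩
      rw [tt_conj]
      exact tt_smul hF _ _ hl hBe
    · rintro ⟨c, rfl⟩
      refine ⟨mat c *ᵥ u, by rw [SU_herm, hu], ?_, tt_conj hF c u hu⟩
      intro h0
      apply hu0
      have h1 : mat (c⁻¹ * c) *ᵥ u = 0 := by rw [mat_mul, ← Matrix.mulVec_mulVec, h0, Matrix.mulVec_zero]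
      rw [inv_mul_cancel] at h1
      have h3 : mat (1 : SU n F 2) *ᵥ u = u := Matrix.one_mulVec u
      rwa [h3] at h1
  · rw [eq_top_iff, ← su_gen hF n (by omega) (by omega), Subgroup.closure_le]
    rintro A ⟨v, c, hv, hA⟩
    by_cases hv0 : v = 0
    · have h1 : A = 1 := by
        apply SU_ext
        intro x
        show ((A : Matrix.SpecialLinearGroup (Fin n) F) : Matrix (Fin n) (Fin n) F) *ᵥ x = (1 : Matrix (Fin n) (Fin n) F) *ᵥ x
        rw [hA, Unit.T_mulVec, hv0, smul_zero, add_zero, Matrix.one_mulVec]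
      rw [h1]
      exact one_mem _
    · have hc : c + c ^ 2 = 0 := by
        rw [← Unit.T_isometry_iff hF v hv0 hv c]
        intro x y
        rw [← hA]
        exact Unit.SU_herm A x y
      by_cases hc0 : c = 0
      · have h1 : A = 1 := by
          apply SU_ext
          intro x
          show ((A : Matrix.SpecialLinearGroup (Fin n) F) : Matrix (Fin n) (Fin n) F) *ᵥ x = (1 : Matrix (Fin n) (Fin n) F) *ᵥ x
          rw [hA, Unit.T_mulVec, hc0, zero_mul, zero_smul, add_zero, Matrix.one_mulVec]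
        rw [h1]
        exact one_mem _
      · apply Subgroup.subset_closure
        refine ⟨v, hv, hv0, ?_⟩
        apply SU_ext
        intro x
        rw [tt_apply]
        show ((A : Matrix.SpecialLinearGroup (Fin n) F) : Matrix (Fin n) (Fin n) F) *ᵥ x = _
        rw [hA, Unit.T_mulVec, c_one hF hc0 hc, one_mul]

end

end Cfsg.Agent.H7.Tp
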