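import Mathlib
import Cfsg.Prelude.Def_SporadicCombinatorics
import Cfsg.Agent.H28_Sxt
import Cfsg.Agent.H28_OrbStd
import Cfsg.Agent.H7_M24c
import Cfsg.Agent.H7_Ix9

set_option autoImplicit false
set_option linter.all false

/-!
The structure of a trio stabilizer.
-/

namespace Cfsg.Agent.H7.Tr

open Cfsg Cfsg.Agent.H7.Golay Cfsg.Agent.H7.Oct Cfsg.Agent.H7.M24 Cfsg.Agent.H28.Sxt
open scoped Pointwise

abbrev PG := Equiv.Perm GolayPt

theorem card_stab_trio {S : Finset (Finset GolayPt)} (hS : S ∈ trios) : Nat.card ↥(MulAction.stabilizer M24 S) = 64512 := by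
  have h1 := card_eq_orbit_mul M24 S
  have h2 : MulAction.orbit ↥M24 S = trios := Set.ext fun y => H7.SSTT.orbit_T hS y
  rw [card_M24, h2, H7.SSTT.trios_card] at h1
  rw [M24b.card_stab]
  omega

/-! ### the standard trio -/

def om : Fin 3 → ℕ := ![5279, 1009728, 15762208]
def oc (i : Fin 3) : Finset GolayPt := ofMask (om i)

def T0 : Finset (Finset GolayPt) := {oc 0, oc 1, oc 2}

theorem om_lt : ∀ i, om i < 16777216 := by decide
theorem om_oct : ∀ i, om i ∈ octL := by decide +kernel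
theorem oc_oct (i : Fin 3) : oc i ∈ octads := (ofMask_mem_octads (om_lt i)).2 (om_oct i)
theorem oc_inj : Function.Injective oc := by
  intro i j h
  have h1 := (ofMask_inj (om_lt i) (om_lt j)).mp h
  revert i j; decide
theorem oc_disj : ∀ i j, i ≠ j → Disjoint (oc i) (oc j) := by
  intro i j h
  exact (ofMask_disjoint (om_lt i)).2 (by revert i j; decide)
theorem mem_T0 {o : Finset GolayPt} : o ∈ T0 ↔ ∃ i, oc i = o := by
  simp only [T0, Finset.mem_insert, Finset.mem_singleton]
  constructor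
  · rintro (h | h | h)
    · exact ⟨0, h.symm⟩
    · exact ⟨1, h.symm⟩
    · exact ⟨2, h.symm⟩
  · rintro ⟨i, rfl⟩
    fin_cases i <;> simp
theorem T0_mem : T0 ∈ trios := by
  refine ⟨?_, ?_, ?_⟩
  · rw [T0, Finset.card_eq_three]
    exact ⟨_, _, _, fun h => absurd (oc_inj h) (by decide), fun h => absurd (oc_inj h) (by decide),
      fun h => absurd (oc_inj h) (by decide), rfl⟩
  · intro o ho
    obtain ⟨i, rfl⟩ := mem_T0.mp ho
    exact oc_oct i
  · intro o ho o' ho' hne
    obtain ⟨i, rfl⟩ := mem_T0.mp ho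
    obtain ⟨j, rfl⟩ := mem_T0.mp ho'
    exact oc_disj i j (fun h => hne (by rw [h]))

/-! ### the seven sextets -/

abbrev V := Fin 3 → ZMod 2

def cd (v : V) : ℕ := (v 0).val + 2 * (v 1).val + 4 * (v 2).val
def svL : List ℕ := [0, 15450112, 14712832, 737280, 15130624, 860160, 417792, 15572992]
def tAL : List ℕ := [0, 1031, 4107, 147, 29, 4229, 1161, 5137]
def sv (v : V) : ℕ := svL.getD (cd v) 0
def tA (v : V) : ℕ := tAL.getD (cd v) 0

def lab (v : V) : Finset (Finset GolayPt) := sx (sv v)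

theorem sv_inj : ∀ v w : V, sv v = sv w → v = w := by decide +kernel
theorem sv_add : ∀ v w : V, sv (v + w) = Nat.xor (sv v) (sv w) := by decide +kernel
theorem tA_ok : ∀ v : V, v ≠ 0 → pc (tA v) = 4 ∧ syn (tA v) = sv v ∧ tA v < 16777216 := by decide +kernel
theorem tA_two : ∀ v w : V, v ≠ 0 → w ≠ 0 → v ≠ w → pc (Nat.xor (tA v) (tA w)) = 4 := by decide +kernel

theorem syn_xor (a b : ℕ) : syn (a ^^^ b) = syn a ^^^ syn b := by
  unfold syn
  rw [enc_xor]
  change (a ^^^ b) ^^^ (enc a ^^^ enc b) = (a ^^^ enc a) ^^^ (b ^^^ enc b)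
  ac_rfl

theorem lab_zero : lab 0 = ∅ := by
  rw [Finset.eq_empty_iff_forall_notMem]
  intro t ht
  rw [lab, mem_sx] at ht
  obtain ⟨h1, h2⟩ := ht
  have h3 : sv 0 = 0 := by decide
  rw [h3] at h2
  have h4 : syn (mask t) = syn (mask ∅) := by
    rw [h2]; decide +kernel
  rw [syn_iff] at h4
  have h5 := supports_weight h4
  have h6 : symmDiff t ∅ = t := symmDiff_bot t
  rw [h6] at h5
  omega

theorem tA_mem {v : V} (hv : v ≠ 0) : ofMask (tA v) ∈ lab v := by
  obtain ⟨h1, h2, h3⟩ := tA_ok v hv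
  rw [lab, mem_sx, card_ofMask, mask_ofMask h3]
  exact ⟨h1, h2⟩

theorem lab_sextet {v : V} (hv : v ≠ 0) : lab v ∈ sextets := by
  obtain ⟨h1, h2, h3⟩ := tA_ok v hv
  have := sx_mem (t := ofMask (tA v)) (by rw [card_ofMask]; exact h1)
  rwa [mask_ofMask h3, h2] at this

theorem lab_inj {v w : V} (h : lab v = lab w) : v = w := by
  by_cases hv : v = 0
  · by_cases hw : w = 0
    · rw [hv, hw]
    · exfalso
      have := tA_mem hw
      rw [← h, hv, lab_zero] at this
      simp at this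
  · have h1 := tA_mem hv
    have h2 := h1
    rw [h] at h2
    rw [lab, mem_sx] at h1 h2
    exact sv_inj v w (by rw [← h1.2, ← h2.2])

/-! ### sextets refining the trio -/

def badL : List (ℕ × ℕ) := [(15, 8536096), (23, 786976), (27, 2162784), (135, 1116192), (139, 4726816), (141, 262496), (149, 2121760), (153, 133664), (1035, 296992), (1037, 74272), (1043, 1187872), (1045, 8390752), (1049, 540960), (1155, 16992), (1157, 688160), (1169, 4522016), (4103, 41056), (4109, 2623520), (4115, 4212768), (4117, 196896), (4121, 8658976), (4227, 2490400), (4233, 114720), (4241, 1572960), (5123, 8978464), (5125, 1327136), (5129, 4325472), (5249, 10528)]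

theorem ref_chk : ((List.range 24).all fun x => !(Nat.testBit 5279 x) || (List.range 24).all fun y => !(Nat.testBit 5279 y) ||
    (List.range 24).all fun z => !(Nat.testBit 5279 z) ||
      (Nat.beq x 0 || Nat.beq y 0 || Nat.beq z 0 || Nat.beq x y || Nat.beq x z || Nat.beq y z) ||
      (svL.tail.contains (syn (1 + 2 ^ x + 2 ^ y + 2 ^ z)) || badL.any fun e => Nat.beq e.1 (1 + 2 ^ x + 2 ^ y + 2 ^ z) &&
        (Nat.beq (pc e.2) 4 && (Nat.beq (syn e.2) (syn e.1) && (!(Nat.beq (Nat.land e.2 1009728) 0) &&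
          (!(Nat.beq (Nat.land e.2 15762208) 0) && Nat.blt e.2 16777216)))))) = true := by decide +kernel

theorem svL_tail : ∀ s ∈ svL.tail, ∃ v : V, v ≠ 0 ∧ sv v = s := by decide +kernel

theorem mask4 : ((List.range 24).all fun x => (List.range 24).all fun y => (List.range 24).all fun z => 
   (Nat.beq x 0 || Nat.beq y 0 || Nat.beq z 0 || Nat.beq x y || Nat.beq x z || Nat.beq y z) ||
    Nat.beq (1 + 2 ^ x + 2 ^ y + 2 ^ z) (Nat.lor 1 (Nat.lor (Nat.shiftLeft 1 x) (Nat.lor (Nat.shiftLeft 1 y) (Nat.shiftLeft 1 z))))) = true := by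
  decide +kernel

theorem ofMask_single (x : ℕ) (hx : x < 24) : ofMask (Nat.shiftLeft 1 x) = {pt x} := by
  ext p
  rw [mem_ofMask, Finset.mem_singleton]
  change (1 <<< x).testBit (ix p) = true ↔ _
  rw [Nat.one_shiftLeft, Nat.testBit_two_pow, decide_eq_true_eq]
  constructor
  · intro h; rw [h, pt_ix]
  · rintro rfl; exact (ix_pt x hx).symm

/-- four points -/
theorem mask_four {x y z : ℕ} (hx : x < 24) (hy : y < 24) (hz : z < 24) (h1 : x ≠ 0) (h2 : y ≠ 0) (h3 : z ≠ 0) (h4 : x ≠ y)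
    (h5 : x ≠ z) (h6 : y ≠ z) : ({pt 0, pt x, pt y, pt z} : Finset GolayPt) = ofMask (1 + 2 ^ x + 2 ^ y + 2 ^ z) ∧
      1 + 2 ^ x + 2 ^ y + 2 ^ z < 16777216 := by
  have h := mask4
  rw [List.all_eq_true] at h
  have h := h x (List.mem_range.mpr hx)
  rw [List.all_eq_true] at h
  have h := h y (List.mem_range.mpr hy)
  rw [List.all_eq_true] at h
  have h := h z (List.mem_range.mpr hz)
  have b : ∀ {a b : ℕ}, a ≠ b → Nat.beq a b = false := by
    intro a b hab
    cases h : Nat.beq a b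
    · rfl
    · exact absurd (Nat.eq_of_beq_eq_true h) hab
  rw [b h1, b h2, b h3, b h4, b h5, b h6] at h
  simp only [Bool.or_false, Bool.false_or] at h
  have h := Nat.eq_of_beq_eq_true h
  have e1 : ofMask 1 = {pt 0} := ofMask_single 0 (by norm_num)
  constructor
  · rw [h]
    have e : ∀ a b, ofMask (Nat.lor a b) = ofMask a ∪ ofMask b := fun a b => ofMask_or a b
    rw [e, e, e, ofMask_single x hx, ofMask_single y hy, ofMask_single z hz, e1]
    rfl
  · have : ∀ {a}, a < 24 → 2 ^ a ≤ 2 ^ 23 := fun ha => Nat.pow_le_pow_right (by norm_num) (by omega)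
    rw [h]
    have hb : ∀ a b, a < 16777216 → b < 16777216 → Nat.lor a b < 16777216 := fun a b ha hb => Nat.or_lt_two_pow (n := 24) ha hb
    have hs : ∀ a, a < 24 → Nat.shiftLeft 1 a < 16777216 := by
      intro a ha
      change 1 <<< a < _
      rw [Nat.one_shiftLeft]
      have := this ha
      norm_num at this ⊢
      omega
    exact hb _ _ (by norm_num) (hb _ _ (hs _ hx) (hb _ _ (hs _ hy) (hs _ hz)))

end Cfsg.Agent.H7.Tr
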