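import Mathlib
import Cfsg.Agent.H7_Tr1

set_option autoImplicit false
set_option linter.all false

/-!
The structure of a trio stabilizer, 2.
-/

namespace Cfsg.Agent.H7.Tr

open Cfsg Cfsg.Agent.H7.Golay Cfsg.Agent.H7.Oct Cfsg.Agent.H7.M24 Cfsg.Agent.H28.Sxt
open scoped Pointwise

theorem beq_false {a b : ℕ} (hab : a ≠ b) : Nat.beq a b = false := by
  cases h : Nat.beq a b
  · rfl
  · exact absurd (Nat.eq_of_beq_eq_true h) hab

theorem beq_true {a b : ℕ} (hab : Nat.beq a b = true) : a = b := Nat.eq_of_beq_eq_true hab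

def tlL : List (List ℕ) := [[], [1031, 4248, 6291744, 458816, 9470464, 550912], [4107, 1172, 1049376, 802880, 206848, 14712832], [147, 5132, 8421664, 272448, 7340544, 737280], [29, 5250, 5275680, 663616, 10486528, 346112], [4229, 1050, 12583456, 149568, 3178752, 860160], [1161, 4118, 11534368, 591936, 4227840, 417792], [5137, 142, 2130464, 90176, 13631744, 919552]]
def tl (v : V) : List ℕ := tlL.getD (cd v) []

theorem tl_ok : ∀ v : V, v ≠ 0 → (tl v).Nodup ∧ (tl v).length = 6 ∧ ∀ m ∈ tl v, (pc m = 4 ∧ syn m = sv v) ∧ m < 16777216 ∧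
    ∃ i, Nat.land m (om i) = m := by decide +kernel

theorem lab_eq {v : V} (hv : v ≠ 0) : lab v = ((tl v).map ofMask).toFinset := by
  obtain ⟨h1, h2, h3⟩ := tl_ok v hv
  symm
  apply Finset.eq_of_subset_of_card_le
  · intro t ht
    rw [List.mem_toFinset, List.mem_map] at ht
    obtain ⟨m, hm, rfl⟩ := ht
    rw [lab, mem_sx, card_ofMask, mask_ofMask (h3 m hm).2.1]
    exact (h3 m hm).1
  · rw [(lab_sextet hv).1, List.toFinset_card_of_nodup]
    · rw [List.length_map, h2]
    · refine List.Nodup.map_on ?_ h1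
      intro a ha b hb hab
      exact (ofMask_inj (h3 a ha).2.1 (h3 b hb).2.1).mp hab

theorem mem_lab {v : V} (hv : v ≠ 0) {t : Finset GolayPt} : t ∈ lab v ↔ ∃ m ∈ tl v, ofMask m = t := by
  rw [lab_eq hv, List.mem_toFinset, List.mem_map]

theorem lab_ref {v : V} {t : Finset GolayPt} (ht : t ∈ lab v) : ∃ o ∈ T0, t ⊆ o := by
  have hv : v ≠ 0 := by rintro rfl; rw [lab_zero] at ht; simp at ht
  obtain ⟨m, hm, rfl⟩ := (mem_lab hv).mp ht
  obtain ⟨i, hi⟩ := ((tl_ok v hv).2.2 m hm).2.2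
  refine ⟨oc i, mem_T0.mpr ⟨i, rfl⟩, ?_⟩
  have hi' : m &&& om i = m := hi
  rw [← hi', ofMask_and]
  exact Finset.inter_subset_right

theorem oc_zero : ∀ i, (om i).testBit 0 = true → i = 0 := by decide

theorem refine_lab {S : Finset (Finset GolayPt)} (hS : S ∈ sextets) (hr : ∀ t ∈ S, ∃ o ∈ T0, t ⊆ o) : ∃ v, v ≠ 0 ∧ S = lab v := by
  obtain ⟨t, ht, hpt⟩ := sextet_cover hS (pt 0)
  obtain ⟨o, ho, hto⟩ := hr t ht
  obtain ⟨i, rfl⟩ := mem_T0.mp ho
  have hi : i = 0 := by
    apply oc_zero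
    have := hto hpt
    rw [oc, mem_ofMask] at this
    exact this
  subst hi
  have htc := hS.2.1 t ht
  have hec : (t.erase (pt 0)).card = 3 := by rw [Finset.card_erase_of_mem hpt, htc]
  obtain ⟨a, b, c, hab, hac, hbc, habc⟩ := Finset.card_eq_three.mp hec
  have ht4 : t = {pt 0, a, b, c} := by rw [← Finset.insert_erase hpt, habc]
  have ha : a ∈ t.erase (pt 0) := by rw [habc]; simp
  have hb : b ∈ t.erase (pt 0) := by rw [habc]; simp
  have hc : c ∈ t.erase (pt 0) := by rw [habc]; simp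
  have hA : ∀ x ∈ t.erase (pt 0), ix x ≠ 0 ∧ Nat.testBit (om 0) (ix x) = true := by
    intro x hx
    rw [Finset.mem_erase] at hx
    refine ⟨fun h => hx.1 ?_, ?_⟩
    · rw [← pt_ix x, h]
    · have := hto hx.2
      rwa [oc, mem_ofMask] at this
  obtain ⟨ha0, haA⟩ := hA a ha
  obtain ⟨hb0, hbA⟩ := hA b hb
  obtain ⟨hc0, hcA⟩ := hA c hc
  have hab' : ix a ≠ ix b := fun h => hab (ix_injective h)
  have hac' : ix a ≠ ix c := fun h => hac (ix_injective h)
  have hbc' : ix b ≠ ix c := fun h => hbc (ix_injective h)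
  obtain ⟨hm1, hm2⟩ := mask_four (ix_lt a) (ix_lt b) (ix_lt c) ha0 hb0 hc0 hab' hac' hbc'
  rw [pt_ix, pt_ix, pt_ix, ← ht4] at hm1
  have h := ref_chk
  rw [List.all_eq_true] at h
  have h := h (ix a) (List.mem_range.mpr (ix_lt a))
  have haA' : Nat.testBit 5279 (ix a) = true := haA
  have hbA' : Nat.testBit 5279 (ix b) = true := hbA
  have hcA' : Nat.testBit 5279 (ix c) = true := hcA
  rw [haA', Bool.not_true, Bool.false_or, List.all_eq_true] at h
  have h := h (ix b) (List.mem_range.mpr (ix_lt b))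
  rw [hbA', Bool.not_true, Bool.false_or, List.all_eq_true] at h
  have h := h (ix c) (List.mem_range.mpr (ix_lt c))
  rw [hcA', beq_false ha0, beq_false hb0, beq_false hc0, beq_false hab', beq_false hac', beq_false hbc'] at h
  simp only [Bool.not_true, Bool.false_or] at h
  set m := 1 + 2 ^ ix a + 2 ^ ix b + 2 ^ ix c with hm
  have hS' : S = sx (syn m) := by
    have := sextet_eq hS ht
    rw [hm1, mask_ofMask hm2] at this
    exact this
  rw [Bool.or_eq_true] at h
  rcases h with h | h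
  · have h' : syn m ∈ svL.tail := by simpa using h
    obtain ⟨v, hv, hsv⟩ := svL_tail _ h'
    exact ⟨v, hv, by rw [hS', lab, hsv]⟩
  · exfalso
    rw [List.any_eq_true] at h
    obtain ⟨e, he, h⟩ := h
    simp only [Bool.and_eq_true] at h
    obtain ⟨h1, h2, h3, h4, h5, h6⟩ := h
    have h1 := beq_true h1
    have h2 := beq_true h2
    have h3 := beq_true h3
    have h6 : e.2 < 16777216 := blt_lt h6
    have hu : ofMask e.2 ∈ S := by
      rw [hS', mem_sx, card_ofMask, mask_ofMask h6, ← h1]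
      exact ⟨h2, h3⟩
    obtain ⟨o, ho, huo⟩ := hr _ hu
    obtain ⟨j, rfl⟩ := mem_T0.mp ho
    have hx : ∀ k, Nat.beq (Nat.land e.2 (om k)) 0 = false → j = k := by
      intro k hk
      by_contra hjk
      have hd := (oc_disj j k hjk).mono_left huo
      rw [oc] at hd
      have hd := (ofMask_disjoint h6).1 hd
      have hd' : Nat.land e.2 (om k) = 0 := hd
      rw [hd'] at hk
      exact absurd hk (by decide)
    have hj1 := hx 1 (by simpa [om] using h4)
    have hj2 := hx 2 (by simpa [om] using h5)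
    rw [hj1] at hj2
    exact absurd hj2 (by decide)

/-! ### separation by tetrads -/

theorem sep_chk : ((List.range 24).all fun a => (List.range 24).all fun b => Nat.beq a b || (!([5279,1009728,15762208].any fun o => Nat.testBit o a && Nat.testBit o b) ||
    (List.range 24).all fun c => Nat.beq c a || (Nat.beq c b || (tlL.any fun l => l.any fun m => Nat.testBit m a && (Nat.testBit m b && !(Nat.testBit m c)))))) = true := by
  decide +kernel

theorem tlL_mem : ∀ l ∈ tlL, l ≠ [] → ∃ v : V, v ≠ 0 ∧ tl v = l := by decide +kernel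

theorem sep {a b c : GolayPt} {i : Fin 3} (ha : a ∈ oc i) (hb : b ∈ oc i) (hab : a ≠ b) (hca : c ≠ a) (hcb : c ≠ b) :
    ∃ v, v ≠ 0 ∧ ∃ t ∈ lab v, a ∈ t ∧ b ∈ t ∧ c ∉ t := by
  have h := sep_chk
  rw [List.all_eq_true] at h
  have h := h (ix a) (List.mem_range.mpr (ix_lt a))
  rw [List.all_eq_true] at h
  have h := h (ix b) (List.mem_range.mpr (ix_lt b))
  rw [beq_false (fun h => hab (ix_injective h)), Bool.false_or] at h
  have ho : ([5279,1009728,15762208].any fun o => Nat.testBit o (ix a) && Nat.testBit o (ix b)) = true := by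
    rw [List.any_eq_true]
    rw [oc, mem_ofMask] at ha hb
    have hom : ∀ i, om i ∈ [5279, 1009728, 15762208] := by decide
    exact ⟨om i, hom i, by rw [ha, hb]; rfl⟩
  rw [ho, Bool.not_true, Bool.false_or, List.all_eq_true] at h
  have h := h (ix c) (List.mem_range.mpr (ix_lt c))
  rw [beq_false (fun h => hca (ix_injective h)), beq_false (fun h => hcb (ix_injective h)), Bool.false_or, Bool.false_or,
    List.any_eq_true] at h
  obtain ⟨l, hl, h⟩ := h
  rw [List.any_eq_true] at h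
  obtain ⟨m, hm, h⟩ := h
  rw [Bool.and_eq_true, Bool.and_eq_true] at h
  obtain ⟨h1, h2, h3⟩ := h
  obtain ⟨v, hv, hvl⟩ := tlL_mem l hl (List.ne_nil_of_mem hm)
  refine ⟨v, hv, ofMask m, (mem_lab hv).mpr ⟨m, by rw [hvl]; exact hm, rfl⟩, mem_ofMask.mpr h1, mem_ofMask.mpr h2, ?_⟩
  rw [mem_ofMask]
  intro h4
  rw [h4] at h3
  exact absurd h3 (by decide)

theorem oc_cover (p : GolayPt) : ∃ i, p ∈ oc i := by
  simp only [oc, mem_ofMask]
  revert p; decide +kernel

/-! ### the kernel -/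

def InN (x : PG) : Prop := x ∈ M24 ∧ (∀ i, x • oc i = oc i) ∧ ∀ v, x • lab v = lab v

theorem InN.maps {x : PG} (hx : InN x) {i : Fin 3} {a : GolayPt} (ha : a ∈ oc i) : x a ∈ oc i := by
  have : x a ∈ x • oc i := Finset.smul_mem_smul_finset (a := x) ha
  rwa [hx.2.1] at this

theorem InN.tet {x : PG} (hx : InN x) {v : V} {t : Finset GolayPt} (ht : t ∈ lab v) {a : GolayPt} (ha : a ∈ t) (hxa : x a ∈ t) :
    x • t = t := by
  by_contra hne
  have h1 : x • t ∈ lab v := by
    have : x • t ∈ x • lab v := Finset.smul_mem_smul_finset ht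
    rwa [hx.2.2] at this
  have h2 := sx_disj h1 ht hne
  have h3 : x a ∈ x • t := Finset.smul_mem_smul_finset (a := x) ha
  exact Finset.disjoint_left.mp h2 h3 hxa

theorem InN.fix {x : PG} (hx : InN x) {i : Fin 3} {a b : GolayPt} (ha : a ∈ oc i) (hb : b ∈ oc i) (h : x a = a) : x b = b := by
  by_contra hc
  have hab : a ≠ b := by rintro rfl; exact hc h
  have hca : x b ≠ a := fun h1 => hab (x.injective (h.trans h1.symm))
  obtain ⟨v, hv, t, ht, hat, hbt, hct⟩ := sep ha hb hab hca hc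
  have h2 := hx.tet ht hat (by rw [h]; exact hat)
  apply hct
  have : x b ∈ x • t := Finset.smul_mem_smul_finset (a := x) hbt
  rwa [h2] at this

theorem InN.sq {x : PG} (hx : InN x) : x * x = 1 := by
  ext a : 1
  rw [Equiv.Perm.mul_apply, Equiv.Perm.one_apply]
  by_cases hab : x a = a
  · rw [hab, hab]
  obtain ⟨i, hi⟩ := oc_cover a
  by_contra hc
  have hcb : x (x a) ≠ x a := fun h => hab (x.injective h)
  obtain ⟨v, hv, t, ht, hat, hbt, hct⟩ := sep hi (hx.maps hi) (Ne.symm hab) hc hcb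
  have h2 := hx.tet ht hat hbt
  apply hct
  have : x (x a) ∈ x • t := Finset.smul_mem_smul_finset (a := x) hbt
  rwa [h2] at this

theorem InN.inv {x : PG} (hx : InN x) : InN x⁻¹ :=
  ⟨M24.inv_mem hx.1, fun i => by rw [inv_smul_eq_iff, hx.2.1], fun v => by rw [inv_smul_eq_iff, hx.2.2]⟩
theorem InN.mul {x y : PG} (hx : InN x) (hy : InN y) : InN (x * y) :=
  ⟨M24.mul_mem hx.1 hy.1, fun i => by rw [mul_smul, hy.2.1, hx.2.1], fun v => by rw [mul_smul, hy.2.2, hx.2.2]⟩

theorem InN.card_le : Nat.card {x : PG // InN x} ≤ 64 := by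
  have e0 : pt 0 ∈ oc 0 := by rw [oc, mem_ofMask]; decide
  obtain ⟨q, hq⟩ : (oc 1).Nonempty := by rw [← Finset.card_pos, (oc_oct 1).2]; norm_num
  set Ψ : {x : PG // InN x} → ↥(oc 0) × ↥(oc 1) := fun g => (⟨g.1 (pt 0), g.2.maps e0⟩, ⟨g.1 q, g.2.maps hq⟩) with hΨ
  have hinj : Function.Injective Ψ := by
    rintro ⟨g, hg⟩ ⟨h, hh⟩ hgh
    simp only [hΨ, Prod.mk.injEq, Subtype.mk.injEq] at hgh
    obtain ⟨h0, h1⟩ := hgh
    have hk : InN (h⁻¹ * g) := hh.inv.mul hg
    have f0 : (h⁻¹ * g) (pt 0) = pt 0 := by rw [Equiv.Perm.mul_apply, h0]; exact h.symm_apply_apply _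
    have f1 : (h⁻¹ * g) q = q := by rw [Equiv.Perm.mul_apply, h1]; exact h.symm_apply_apply _
    have := M24c.fix_nine hk.1 (oc 0 ∪ oc 1) (by
        rw [Finset.card_union_of_disjoint (oc_disj 0 1 (by decide)), (oc_oct 0).2, (oc_oct 1).2]; norm_num) (by
      intro p hp
      rw [Finset.mem_union] at hp
      rcases hp with hp | hp
      · exact hk.fix e0 hp f0
      · exact hk.fix hq hp f1)
    apply Subtype.ext
    rw [inv_mul_eq_one] at this
    exact this.symm
  have := Nat.card_le_card_of_injective Ψ hinj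
  have h8 : ∀ i, Nat.card ↥(oc i) = 8 := fun i => by rw [Nat.card_eq_fintype_card, Fintype.card_coe, (oc_oct i).2]
  rw [Nat.card_prod, h8, h8] at this
  exact this

end Cfsg.Agent.H7.Tr
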