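import Mathlib
import Cfsg.Agent.H7_Tr2

set_option autoImplicit false
set_option linter.all false

/-!
The structure of a trio stabilizer, 3.
-/

namespace Cfsg.Agent.H7.Tr

open Cfsg Cfsg.Agent.H7.Golay Cfsg.Agent.H7.Oct Cfsg.Agent.H7.M24 Cfsg.Agent.H28.Sxt
open scoped Pointwise

abbrev St0 := ↥(MulAction.stabilizer M24 T0)

theorem st_oc (g : St0) (i : Fin 3) : ∃ j, (g.1.1 : PG) • oc i = oc j := by
  have h : g.1.1 • T0 = T0 := g.2
  have h1 : g.1.1 • oc i ∈ g.1.1 • T0 := Finset.smul_mem_smul_finset (mem_T0.mpr ⟨i, rfl⟩)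
  rw [h] at h1
  obtain ⟨j, hj⟩ := mem_T0.mp h1
  exact ⟨j, hj.symm⟩

theorem st_lab (g : St0) (v : V) : ∃ w, (g.1.1 : PG) • lab v = lab w := by
  by_cases hv : v = 0
  · exact ⟨0, by rw [hv, lab_zero]; rfl⟩
  obtain ⟨w, hw, h⟩ := refine_lab (S := g.1.1 • lab v) ((smul_mem_sextets_iff g.1.2).2 (lab_sextet hv)) (by
    intro t ht
    obtain ⟨u, hu, rfl⟩ := Finset.mem_smul_finset.mp ht
    obtain ⟨o, ho, huo⟩ := lab_ref hu
    refine ⟨g.1.1 • o, ?_, Finset.smul_finset_subset_smul_finset huo⟩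
    have h : g.1.1 • T0 = T0 := g.2
    have := Finset.smul_mem_smul_finset (a := g.1.1) ho
    rwa [h] at this)
  exact ⟨w, h⟩

noncomputable def po (g : St0) (i : Fin 3) : Fin 3 := Classical.choose (st_oc g i)
theorem po_spec (g : St0) (i : Fin 3) : (g.1.1 : PG) • oc i = oc (po g i) := Classical.choose_spec (st_oc g i)
noncomputable def pv (g : St0) (v : V) : V := Classical.choose (st_lab g v)
theorem pv_spec (g : St0) (v : V) : (g.1.1 : PG) • lab v = lab (pv g v) := Classical.choose_spec (st_lab g v)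

theorem po_mul (g h : St0) (i : Fin 3) : po (g * h) i = po g (po h i) := by
  apply oc_inj
  rw [← po_spec, ← po_spec, ← po_spec, ← mul_smul]; rfl
theorem po_one (i : Fin 3) : po 1 i = i := by
  apply oc_inj
  rw [← po_spec]; exact one_smul _ _
theorem pv_mul (g h : St0) (i : V) : pv (g * h) i = pv g (pv h i) := by
  apply lab_inj
  rw [← pv_spec, ← pv_spec, ← pv_spec, ← mul_smul]; rfl
theorem pv_one (i : V) : pv 1 i = i := by
  apply lab_inj
  rw [← pv_spec]; exact one_smul _ _
theorem pv_zero (g : St0) : pv g 0 = 0 := by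
  apply lab_inj
  rw [← pv_spec, lab_zero]; rfl

theorem syn_mem {v : V} {t : Finset GolayPt} (h : t ∈ lab v) : syn (mask t) = sv v := (mem_sx.1 h).2

theorem pv_add (g : St0) (v w : V) : pv g (v + w) = pv g v + pv g w := by
  by_cases hv : v = 0
  · rw [hv, zero_add, pv_zero, zero_add]
  by_cases hw : w = 0
  · rw [hw, add_zero, pv_zero, add_zero]
  by_cases hvw : v = w
  · have h2 : ∀ x : V, x + x = 0 := by decide
    rw [hvw, h2, h2, pv_zero]
  have h1 := tA_mem hv
  have h2 := tA_mem hw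
  have h3 : symmDiff (ofMask (tA v)) (ofMask (tA w)) ∈ lab (v + w) := by
    rw [lab, mem_sx]
    have e : symmDiff (ofMask (tA v)) (ofMask (tA w)) = ofMask (Nat.xor (tA v) (tA w)) := (ofMask_xor _ _).symm
    refine ⟨by rw [e, card_ofMask]; exact tA_two v w hv hw hvw, ?_⟩
    rw [mask_symmDiff, syn_xor, syn_mem h1, syn_mem h2, sv_add]; rfl
  apply sv_inj
  rw [sv_add]
  have k1 : g.1.1 • ofMask (tA v) ∈ lab (pv g v) := by rw [← pv_spec]; exact Finset.smul_mem_smul_finset h1
  have k2 : g.1.1 • ofMask (tA w) ∈ lab (pv g w) := by rw [← pv_spec]; exact Finset.smul_mem_smul_finset h2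
  have k3 : g.1.1 • symmDiff (ofMask (tA v)) (ofMask (tA w)) ∈ lab (pv g (v + w)) := by
    rw [← pv_spec]; exact Finset.smul_mem_smul_finset h3
  rw [← syn_mem k1, ← syn_mem k2, ← syn_mem k3, Finset.smul_finset_symmDiff, mask_symmDiff, syn_xor]; rfl

noncomputable def LL : St0 →* Module.End (ZMod 2) V where
  toFun g := AddMonoidHom.toZModLinearMap 2 ⟨⟨pv g, pv_zero g⟩, pv_add g⟩
  map_one' := LinearMap.ext fun x => pv_one x
  map_mul' g h := LinearMap.ext fun x => pv_mul g h x

theorem LL_apply (g : St0) (v : V) : LL g v = pv g v := rfl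

noncomputable def LG : St0 →* GL (Fin 3) (ZMod 2) :=
  (Matrix.GeneralLinearGroup.toLin (n := Fin 3) (R := ZMod 2)).symm.toMonoidHom.comp (LL.toHomUnits)

noncomputable def PO : St0 →* Equiv.Perm (Fin 3) where
  toFun g := ⟨po g, po g⁻¹, fun i => by rw [← po_mul, inv_mul_cancel, po_one], fun i => by rw [← po_mul, mul_inv_cancel, po_one]⟩
  map_one' := by ext1 i; exact po_one i
  map_mul' g h := by ext1 i; exact po_mul g h i

noncomputable def Phi : St0 →* GL (Fin 3) (ZMod 2) × Equiv.Perm (Fin 3) := LG.prod PO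

theorem mem_ker {g : St0} : g ∈ Phi.ker ↔ InN g.1.1 := by
  rw [MonoidHom.mem_ker, Phi, MonoidHom.prod_apply, Prod.mk_eq_one]
  constructor
  · rintro ⟨h1, h2⟩
    refine ⟨g.1.2, fun i => ?_, fun v => ?_⟩
    · rw [po_spec]
      have := Equiv.congr_fun h2 i
      exact congrArg oc this
    · rw [pv_spec]
      have h3 : LL.toHomUnits g = 1 := by
        have h4 : (Matrix.GeneralLinearGroup.toLin (n := Fin 3) (R := ZMod 2)).symm (LL.toHomUnits g) = 1 := h1
        rw [← (Matrix.GeneralLinearGroup.toLin (n := Fin 3) (R := ZMod 2)).symm.map_one] at h4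
        exact (Matrix.GeneralLinearGroup.toLin (n := Fin 3) (R := ZMod 2)).symm.injective h4
      have h5 : LL g = 1 := congrArg Units.val h3
      have h6 := LinearMap.congr_fun h5 v
      rw [LL_apply] at h6
      exact congrArg lab h6
  · intro h
    constructor
    · have h5 : LL.toHomUnits g = 1 := by
        apply Units.ext
        apply LinearMap.ext
        intro v
        apply lab_inj
        have := pv_spec g v
        rw [h.2.2] at this
        exact this.symm
      show (Matrix.GeneralLinearGroup.toLin (n := Fin 3) (R := ZMod 2)).symm (LL.toHomUnits g) = 1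
      rw [h5, map_one]
    · ext1 i
      apply oc_inj
      have := po_spec g i
      rw [h.2.1] at this
      exact this.symm

theorem card_ker_le : Nat.card Phi.ker ≤ 64 := by
  refine le_trans ?_ InN.card_le
  refine Nat.card_le_card_of_injective (fun g : Phi.ker => (⟨g.1.1.1, mem_ker.mp g.2⟩ : {x : PG // InN x})) ?_
  intro a b hab
  have h1 : a.1.1.1 = b.1.1.1 := congrArg (fun x : {x : PG // InN x} => x.1) hab
  exact Subtype.ext (Subtype.ext (Subtype.ext h1))

theorem card_target : Nat.card (GL (Fin 3) (ZMod 2) × Equiv.Perm (Fin 3)) = 1008 := by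
  rw [Nat.card_prod, Matrix.card_GL_field, Nat.card_eq_fintype_card (α := Equiv.Perm (Fin 3)), Fintype.card_perm]
  simp [Fin.prod_univ_succ, ZMod.card, Nat.factorial]

theorem main : Nat.card Phi.ker = 64 ∧ Function.Surjective Phi := by
  have h1 := Subgroup.card_mul_index Phi.ker
  rw [Subgroup.index_ker, card_stab_trio T0_mem] at h1
  have h2 : Nat.card Phi.range ≤ 1008 := by
    rw [← card_target]; exact Subgroup.card_le_card_group _
  have h3 := card_ker_le
  have h4 : Nat.card Phi.ker = 64 := by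
    by_contra hne
    have : Nat.card Phi.ker ≤ 63 := by omega
    have := Nat.mul_le_mul this h2
    omega
  refine ⟨h4, ?_⟩
  rw [← MonoidHom.range_eq_top]
  apply Subgroup.eq_top_of_card_eq
  rw [card_target]
  rw [h4] at h1
  omega

theorem realize0 (e : Equiv.Perm ↥T0) : ∃ g ∈ M24, ∀ o : ↥T0, g • (o : Finset GolayPt) = ((e o : ↥T0) : Finset GolayPt) := by
  have hb : Function.Bijective (fun i : Fin 3 => (⟨oc i, mem_T0.mpr ⟨i, rfl⟩⟩ : ↥T0)) := by
    constructor
    · intro i j h; exact oc_inj (congrArg Subtype.val h)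
    · rintro ⟨o, ho⟩
      obtain ⟨i, rfl⟩ := mem_T0.mp ho
      exact ⟨i, rfl⟩
  set β := Equiv.ofBijective _ hb with hβ
  obtain ⟨g, hg⟩ := main.2 (1, (β.trans e).trans β.symm)
  refine ⟨g.1.1, g.1.2, fun o => ?_⟩
  obtain ⟨i, rfl⟩ := β.surjective o
  have h1 := po_spec g i
  have h2 : po g i = β.symm (e (β i)) := by
    have := congrArg Prod.snd hg
    exact Equiv.congr_fun this i
  have h3 : oc (po g i) = ((e (β i) : ↥T0) : Finset GolayPt) := by
    rw [h2]
    have : β (β.symm (e (β i))) = e (β i) := β.apply_symm_apply _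
    exact congrArg Subtype.val this
  rw [← h3, ← h1]; rfl

theorem conj_mem {h : PG} (hh : h ∈ M24) {T : Finset (Finset GolayPt)} (hT : h • T = T0) (g : ↥(MulAction.stabilizer M24 T)) :
    (h * g.1.1 * h⁻¹) • T0 = T0 := by
  have h2 : g.1.1 • T = T := g.2
  rw [← hT, mul_smul, mul_smul, inv_smul_smul, h2]

theorem s1558 (T : Finset (Finset GolayPt)) (hT : T ∈ trios) : (∀ e : Equiv.Perm ↥T, ∃ g ∈ MulAction.stabilizer M24 T, ∀ o : ↥T, (g : Equiv.Perm GolayPt) • (o : Finset GolayPt) = ((e o : ↥T) : Finset GolayPt)) ∧ ∃ (N : Subgroup ↥(MulAction.stabilizer M24 T)) (_ : N.Normal), Nat.card N = 64 ∧ (∀ x ∈ N, x * x = 1) ∧ Nonempty (↥(MulAction.stabilizer M24 T) ⧸ N ≃* GL (Fin 3) (ZMod 2) × Equiv.Perm (Fin 3)) := by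
  obtain ⟨h, hh, hs⟩ := H28.OrbStd.trio_trans hT T0_mem
  constructor
  · intro e
    have hm : ∀ o ∈ T, h • o ∈ T0 := fun o ho => by rw [← hs]; exact Finset.smul_mem_smul_finset ho
    have hb : Function.Bijective (fun o : ↥T => (⟨h • o.1, hm o.1 o.2⟩ : ↥T0)) := by
      constructor
      · intro a b hab
        exact Subtype.ext (smul_left_cancel h (congrArg Subtype.val hab))
      · rintro ⟨o, ho⟩
        rw [← hs] at ho
        obtain ⟨u, hu, rfl⟩ := Finset.mem_smul_finset.mp ho
        exact ⟨⟨u, hu⟩, rfl⟩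
    set β := Equiv.ofBijective _ hb with hβ
    obtain ⟨g, hg, hgo⟩ := realize0 ((β.symm.trans e).trans β)
    have key : ∀ o : ↥T, (h⁻¹ * g * h) • (o : Finset GolayPt) = ((e o : ↥T) : Finset GolayPt) := by
      intro o
      have h1 := hgo (β o)
      have h2 : ((β.symm.trans e).trans β) (β o) = β (e o) := by simp
      rw [h2] at h1
      have h3 : ((β o : ↥T0) : Finset GolayPt) = h • (o : Finset GolayPt) := rfl
      have h4 : ((β (e o) : ↥T0) : Finset GolayPt) = h • ((e o : ↥T) : Finset GolayPt) := rfl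
      rw [h3, h4] at h1
      rw [mul_smul, mul_smul, h1, inv_smul_smul]
    refine ⟨⟨h⁻¹ * g * h, M24.mul_mem (M24.mul_mem (M24.inv_mem hh) hg) hh⟩, ?_, key⟩
    rw [MulAction.mem_stabilizer_iff]
    show (h⁻¹ * g * h) • T = T
    apply Finset.eq_of_subset_of_card_le
    · intro u hu
      obtain ⟨t, ht, rfl⟩ := Finset.mem_smul_finset.mp hu
      have := key ⟨t, ht⟩
      rw [this]; exact (e _).2
    · rw [Finset.card_smul_finset]
  · set c : ↥(MulAction.stabilizer M24 T) →* St0 :=
      { toFun := fun g => ⟨⟨h * g.1.1 * h⁻¹, M24.mul_mem (M24.mul_mem hh g.1.2) (M24.inv_mem hh)⟩, conj_mem hh hs g⟩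
        map_one' := by apply Subtype.ext; apply Subtype.ext; simp
        map_mul' := fun a b => by apply Subtype.ext; apply Subtype.ext; simp [mul_assoc] } with hc
    have hcb : Function.Bijective c := by
      constructor
      · intro a b hab
        apply Subtype.ext; apply Subtype.ext
        have h1 : h * a.1.1 * h⁻¹ = h * b.1.1 * h⁻¹ := congrArg (fun x : St0 => x.1.1) hab
        have h2 := mul_right_cancel h1
        exact mul_left_cancel h2
      · intro b
        refine ⟨⟨⟨h⁻¹ * b.1.1 * h, M24.mul_mem (M24.mul_mem (M24.inv_mem hh) b.1.2) hh⟩, ?_⟩, ?_⟩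
        · rw [MulAction.mem_stabilizer_iff]
          show (h⁻¹ * b.1.1 * h) • T = T
          have h2 : b.1.1 • T0 = T0 := b.2
          rw [mul_smul, mul_smul, hs, h2, ← hs, inv_smul_smul]
        · apply Subtype.ext; apply Subtype.ext
          show h * (h⁻¹ * b.1.1 * h) * h⁻¹ = b.1.1
          group
    set F := Phi.comp c with hF
    have hsurj : Function.Surjective F := main.2.comp hcb.2
    refine ⟨F.ker, inferInstance, ?_, ?_, ⟨QuotientGroup.quotientKerEquivOfSurjective F hsurj⟩⟩
    · rw [← main.1]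
      apply Nat.card_congr
      refine Equiv.ofBijective (fun x : F.ker => (⟨c x.1, x.2⟩ : Phi.ker)) ⟨?_, ?_⟩
      · intro a b hab; exact Subtype.ext (hcb.1 (congrArg Subtype.val hab))
      · rintro ⟨y, hy⟩
        obtain ⟨x, rfl⟩ := hcb.2 y
        exact ⟨⟨x, hy⟩, rfl⟩
    · intro x hx
      have h1 : InN (c x).1.1 := mem_ker.mp hx
      have h2 := h1.sq
      apply hcb.1
      rw [map_mul, map_one]
      exact Subtype.ext (Subtype.ext h2)

end Cfsg.Agent.H7.Tr
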