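import Mathlib
import Cfsg.Agent.H7_Shape
import Cfsg.Agent.H7_St10

set_option autoImplicit false
set_option linter.all false

/-!
Lattices with a frame: the code has dimension 12.
-/

namespace Cfsg.Agent.H7.Un

open Cfsg

abbrev I := Fin 24
abbrev Z := Fin 24 → ℤ

/-- a lattice in frame coordinates -/
structure HL (Λ : AddSubgroup Z) : Prop where
  par : ∀ x ∈ Λ, ∀ i j, x i % 2 = x j % 2
  dot : ∀ x ∈ Λ, ∀ y ∈ Λ, (8 : ℤ) ∣ ∑ i, x i * y i
  nrm : ∀ x ∈ Λ, (16 : ℤ) ∣ ∑ i, x i ^ 2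
  n16 : ∀ x ∈ Λ, ∑ i, x i ^ 2 ≠ 16
  frm : ∀ i, (Pi.single i 8 : Z) ∈ Λ
  frm2 : ∀ i j, (Pi.single i 4 - Pi.single j 4 : Z) ∈ Λ
  cnt : {x : Z | x ∈ Λ ∧ ∑ i, x i ^ 2 = 32}.ncard = 196560

variable {Λ : AddSubgroup Z}

theorem HL.d24 (h : HL Λ) (u : Z) (hu : (2 : ℤ) ∣ ∑ i, u i) : (fun i => 4 * u i) ∈ Λ := by
  obtain ⟨s, hs⟩ := hu
  have key : (fun i => 4 * u i) = (∑ i, u i • (Pi.single i 4 - Pi.single 0 4 : Z)) + s • (Pi.single 0 8 : Z) := by
    funext k
    simp only [Pi.add_apply, Finset.sum_apply, Pi.smul_apply, Pi.sub_apply, smul_eq_mul, mul_sub, Finset.sum_sub_distrib]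
    have h1 : ∑ i, u i * (Pi.single i 4 : Z) k = 4 * u k := by
      rw [Finset.sum_eq_single k]
      · rw [Pi.single_eq_same]; ring
      · intro i _ hik; rw [Pi.single_eq_of_ne hik.symm]; ring
      · intro hk; exact absurd (Finset.mem_univ k) hk
    rw [h1, ← Finset.sum_mul, hs]
    by_cases hk : k = 0
    · subst hk; rw [Pi.single_eq_same, Pi.single_eq_same]; ring
    · rw [Pi.single_eq_of_ne hk, Pi.single_eq_of_ne hk]; ring
  rw [key]
  refine Λ.add_mem (Λ.sum_mem fun i _ => Λ.zsmul_mem (h.frm2 i 0) _) (Λ.zsmul_mem (h.frm 0) _)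

theorem HL.no4 (h : HL Λ) (i : I) (hi : (Pi.single i 4 : Z) ∈ Λ) : False := by
  apply h.n16 _ hi
  rw [Finset.sum_eq_single i]
  · rw [Pi.single_eq_same]; norm_num
  · intro j _ hj; rw [Pi.single_eq_of_ne hj]; norm_num
  · intro hk; exact absurd (Finset.mem_univ i) hk

/-- parity of difference vectors -/
theorem HL.d24' (h : HL Λ) (u : Z) (hu : (fun i => 4 * u i) ∈ Λ) : (2 : ℤ) ∣ ∑ i, u i := by
  by_contra hc
  have h1 : (2 : ℤ) ∣ ∑ i, (u i - (Pi.single 0 1 : Z) i) := by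
    rw [Finset.sum_sub_distrib]
    have : ∑ i, (Pi.single 0 1 : Z) i = 1 := by simp
    rw [this]; omega
  have h2 := h.d24 _ h1
  apply h.no4 0
  have h3 := Λ.sub_mem hu h2
  convert h3 using 1
  funext k
  simp only [Pi.sub_apply]
  by_cases hk : k = 0
  · subst hk; rw [Pi.single_eq_same, Pi.single_eq_same]; ring
  · rw [Pi.single_eq_of_ne hk, Pi.single_eq_of_ne hk]; ring

/-- the odd positions -/
def od (y : Z) : Finset I := Finset.univ.filter fun i => y i % 2 = 1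

theorem mem_od {y : Z} {i : I} : i ∈ od y ↔ y i % 2 = 1 := by simp [od]

theorem card_od (y : Z) : ((od y).card : ℤ) = ∑ i, y i % 2 := by
  rw [od, Finset.card_filter]
  push_cast
  apply Finset.sum_congr rfl
  intro i _
  split_ifs with h <;> omega

theorem HL.red (h : HL Λ) (y : Z) (hy : (fun i => 2 * y i) ∈ Λ) : ∃ z ∈ Λ, ∑ i, z i ^ 2 = 4 * (od y).card := by
  by_cases hu : (2 : ℤ) ∣ ∑ i, (y i / 2)
  · refine ⟨_, Λ.sub_mem hy (h.d24 _ hu), ?_⟩
    rw [card_od, Finset.mul_sum]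
    apply Finset.sum_congr rfl
    intro i _
    simp only [Pi.sub_apply]
    have h1 : 2 * y i - 4 * (y i / 2) = 2 * (y i % 2) := by omega
    rw [h1]
    rcases Int.emod_two_eq_zero_or_one (y i) with h2 | h2 <;> rw [h2] <;> norm_num
  · by_cases hod : (od y).Nonempty
    · obtain ⟨i0, hi0⟩ := hod
      rw [mem_od] at hi0
      have h1 : (2 : ℤ) ∣ ∑ i, (y i / 2 + (Pi.single i0 1 : Z) i) := by
        rw [Finset.sum_add_distrib]
        have : ∑ i, (Pi.single i0 1 : Z) i = 1 := by simp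
        rw [this]; omega
      refine ⟨_, Λ.sub_mem hy (h.d24 _ h1), ?_⟩
      rw [card_od, Finset.mul_sum]
      apply Finset.sum_congr rfl
      intro i _
      simp only [Pi.sub_apply]
      have h1 : 2 * y i - 4 * (y i / 2 + (Pi.single i0 1 : Z) i) = 2 * (y i % 2) - 4 * (Pi.single i0 1 : Z) i := by omega
      rw [h1]
      by_cases hii : i = i0
      · subst hii; rw [hi0, Pi.single_eq_same]; norm_num
      · rw [Pi.single_eq_of_ne hii]
        rcases Int.emod_two_eq_zero_or_one (y i) with h2 | h2 <;> rw [h2] <;> norm_num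
    · exact ⟨0, Λ.zero_mem, by rw [Finset.not_nonempty_iff_eq_empty.mp hod]; simp⟩

theorem HL.wt (h : HL Λ) (y : Z) (hy : (fun i => 2 * y i) ∈ Λ) : 4 ∣ (od y).card ∧ (od y).card ≠ 4 := by
  obtain ⟨z, hz, hz2⟩ := h.red y hy
  have h1 := h.nrm z hz
  have h2 := h.n16 z hz
  rw [hz2] at h1 h2
  constructor <;> omega

/-- the code -/
def CC (Λ : AddSubgroup Z) : Submodule (ZMod 2) (I → ZMod 2) where
  carrier := {w | ∃ y : Z, (fun i => 2 * y i) ∈ Λ ∧ ∀ i, ((y i : ℤ) : ZMod 2) = w i}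
  add_mem' := by
    rintro a b ⟨y, hy, hy'⟩ ⟨z, hz, hz'⟩
    refine ⟨fun i => y i + z i, ?_, fun i => by rw [Int.cast_add, hy', hz']; rfl⟩
    have := Λ.add_mem hy hz
    convert this using 1
    funext i; simp only [Pi.add_apply]; ring
  zero_mem' := ⟨0, by convert Λ.zero_mem using 1; funext i; simp, fun i => by simp⟩
  smul_mem' := by
    rintro c a ⟨y, hy, hy'⟩
    rcases (by revert c; decide : ∀ c : ZMod 2, c = 0 ∨ c = 1) c with rfl | rfl
    · rw [zero_smul]; exact ⟨0, by convert Λ.zero_mem using 1; funext i; simp, fun i => by simp⟩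
    · rw [one_smul]; exact ⟨y, hy, hy'⟩

theorem mem_CC {w : I → ZMod 2} : w ∈ CC Λ ↔ ∃ y : Z, (fun i => 2 * y i) ∈ Λ ∧ ∀ i, ((y i : ℤ) : ZMod 2) = w i := Iff.rfl

theorem cast_ne_zero_iff (a : ℤ) : ((a : ℤ) : ZMod 2) ≠ 0 ↔ a % 2 = 1 := by
  rw [Ne, ZMod.intCast_zmod_eq_zero_iff_dvd]; push_cast; omega

theorem cast_eq_iff (a b : ℤ) : ((a : ℤ) : ZMod 2) = (b : ZMod 2) ↔ a % 2 = b % 2 := by
  rw [ZMod.intCast_eq_intCast_iff]; exact Iff.rfl

theorem norm_eq_od {w : I → ZMod 2} {y : Z} (h : ∀ i, ((y i : ℤ) : ZMod 2) = w i) : hammingNorm w = (od y).card := by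
  unfold hammingNorm od
  congr 1
  ext i
  simp only [Finset.mem_filter, Finset.mem_univ, true_and]
  rw [← h, cast_ne_zero_iff]

theorem HL.h4 (h : HL Λ) : ∀ w ∈ CC Λ, 4 ∣ hammingNorm w := by
  rintro w ⟨y, hy, hy'⟩
  rw [norm_eq_od hy']; exact (h.wt y hy).1

theorem HL.hno4 (h : HL Λ) : ∀ w ∈ CC Λ, hammingNorm w ≠ 4 := by
  rintro w ⟨y, hy, hy'⟩
  rw [norm_eq_od hy']; exact (h.wt y hy).2

theorem HL.horth (h : HL Λ) : ∀ v ∈ CC Λ, ∀ w ∈ CC Λ, ∑ i, v i * w i = 0 := by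
  rintro v ⟨y, hy, hy'⟩ w ⟨z, hz, hz'⟩
  have h1 := h.dot _ hy _ hz
  have h2 : ∑ i, 2 * y i * (2 * z i) = 4 * ∑ i, y i * z i := by
    rw [Finset.mul_sum]; apply Finset.sum_congr rfl; intro i _; ring
  rw [h2] at h1
  have h3 : (2 : ℤ) ∣ ∑ i, y i * z i := by omega
  have h4 : ∑ i, v i * w i = ((∑ i, y i * z i : ℤ) : ZMod 2) := by
    push_cast
    apply Finset.sum_congr rfl
    intro i _
    rw [hy', hz']
  rw [h4, ZMod.intCast_zmod_eq_zero_iff_dvd]
  exact_mod_cast h3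

theorem finrank_le (C : Submodule (ZMod 2) (I → ZMod 2)) (h : ∀ v ∈ C, ∀ w ∈ C, ∑ i, v i * w i = 0) :
    Module.finrank (ZMod 2) C ≤ 12 := by
  have hp : Fact (Nat.Prime 2) := ⟨Nat.prime_two⟩
  let Bf : LinearMap.BilinForm (ZMod 2) (I → ZMod 2) := (1 : Matrix I I (ZMod 2)).toBilin'
  have hBf : ∀ v w, Bf v w = ∑ i, v i * w i := by
    intro v w
    show (1 : Matrix I I (ZMod 2)).toBilin' v w = _
    rw [Matrix.toBilin'_apply', Matrix.one_mulVec]
    rfl
  have hnd : Bf.Nondegenerate := LinearMap.BilinForm.nondegenerate_toBilin'_of_det_ne_zero' _ (by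
    rw [Matrix.det_one]
    exact one_ne_zero)
  have horth : C ≤ Bf.orthogonal C := by
    intro w hw
    rw [LinearMap.BilinForm.mem_orthogonal_iff]
    intro v hv
    show Bf v w = 0
    rw [hBf, h v hv w hw]
  have h1 := LinearMap.BilinForm.finrank_orthogonal hnd C
  have h2 := Submodule.finrank_mono horth
  rw [Module.finrank_fintype_fun_eq_card, Fintype.card_fin] at h1
  have h3 := Submodule.finrank_le C
  rw [Module.finrank_fintype_fun_eq_card, Fintype.card_fin] at h3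
  omega

end Cfsg.Agent.H7.Un
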