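import Mathlib
import Cfsg.Agent.H7_Un1

set_option autoImplicit false
set_option linter.all false

/-!
Lattices with a frame: counting the minimal vectors.
-/

namespace Cfsg.Agent.H7.Un

open Cfsg

variable {Λ : AddSubgroup Z}

open Classical in
/-- supports of the codewords -/
noncomputable def SC (Λ : AddSubgroup Z) : Finset (Finset I) :=
  Finset.univ.filter fun s => ∃ y : Z, (fun i => 2 * y i) ∈ Λ ∧ od y = s

theorem mem_SC {s : Finset I} : s ∈ SC Λ ↔ ∃ y : Z, (fun i => 2 * y i) ∈ Λ ∧ od y = s := by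
  unfold SC; simp

def indv (s : Finset I) (i : I) : ZMod 2 := if i ∈ s then 1 else 0

theorem indv_inj : Function.Injective indv := by
  intro s t h
  ext i
  have := congrFun h i
  unfold indv at this
  by_cases h1 : i ∈ s <;> by_cases h2 : i ∈ t <;> simp [h1, h2] at this ⊢

theorem indv_od (y : Z) (i : I) : indv (od y) i = ((y i : ℤ) : ZMod 2) := by
  unfold indv
  split_ifs with h
  · rw [mem_od] at h
    have : (1 : ZMod 2) = ((1 : ℤ) : ZMod 2) := by simp
    rw [this, cast_eq_iff, h]; rfl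
  · rw [mem_od, ← cast_ne_zero_iff, not_not] at h
    exact h.symm

theorem card_SC : (SC Λ).card = Nat.card (CC Λ) := by
  have h1 : Nat.card (CC Λ) = ((CC Λ : Submodule _ _) : Set (I → ZMod 2)).ncard := rfl
  have h2 : ((CC Λ : Submodule _ _) : Set (I → ZMod 2)) = indv '' (SC Λ : Set (Finset I)) := by
    ext w
    constructor
    · rintro ⟨y, hy, hy'⟩
      exact ⟨od y, mem_SC.mpr ⟨y, hy, rfl⟩, funext fun i => by rw [indv_od, hy']⟩
    · rintro ⟨s, hs, rfl⟩
      obtain ⟨y, hy, rfl⟩ := mem_SC.mp hs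
      exact ⟨y, hy, fun i => (indv_od y i).symm⟩
  rw [h1, h2, Set.ncard_image_of_injective _ indv_inj, Set.ncard_coe_finset]

theorem HL.card_SC_le (h : HL Λ) : (SC Λ).card = 2 ^ Module.finrank (ZMod 2) (CC Λ) ∧ Module.finrank (ZMod 2) (CC Λ) ≤ 12 := by
  have hp : Fact (Nat.Prime 2) := ⟨Nat.prime_two⟩
  refine ⟨?_, finrank_le _ h.horth⟩
  rw [card_SC, Module.natCard_eq_pow_finrank (K := ZMod 2)]
  simp

/-- the weight 8 supports -/
noncomputable def S8 (Λ : AddSubgroup Z) : Finset (Finset I) := (SC Λ).filter fun s => s.card = 8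

theorem SC_symm {s t : Finset I} (hs : s ∈ SC Λ) (ht : t ∈ SC Λ) : symmDiff s t ∈ SC Λ := by
  obtain ⟨y, hy, rfl⟩ := mem_SC.mp hs
  obtain ⟨z, hz, rfl⟩ := mem_SC.mp ht
  refine mem_SC.mpr ⟨fun i => y i + z i, ?_, ?_⟩
  · have := Λ.add_mem hy hz
    convert this using 1
    funext i; simp only [Pi.add_apply]; ring
  · ext i
    rw [Finset.mem_symmDiff, mem_od, mem_od, mem_od]
    omega

theorem HL.card_S8 (h : HL Λ) : (S8 Λ).card ≤ 759 := by
  have h1 : ∀ s ∈ S8 Λ, ∀ t ∈ S8 Λ, s ≠ t → Disjoint (Finset.powersetCard 5 s) (Finset.powersetCard 5 t) := by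
    intro s hs t ht hne
    unfold S8 at hs ht
    rw [Finset.mem_filter] at hs ht
    rw [Finset.disjoint_left]
    intro u hu hu'
    rw [Finset.mem_powersetCard] at hu hu'
    obtain ⟨y, hy, hy'⟩ := mem_SC.mp (SC_symm hs.1 ht.1)
    have h2 := h.wt y hy
    rw [hy'] at h2
    have h3 : 5 ≤ (s ∩ t).card := by
      rw [← hu.2]; exact Finset.card_le_card (Finset.subset_inter hu.1 hu'.1)
    have h4 : (symmDiff s t).card + 2 * (s ∩ t).card = s.card + t.card := by
      have e1 : symmDiff s t = (s \ t) ∪ (t \ s) := rfl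
      have e2 : Disjoint (s \ t) (t \ s) := disjoint_sdiff_sdiff
      rw [e1, Finset.card_union_of_disjoint e2]
      have e3 := Finset.card_sdiff_add_card_inter s t
      have e4 := Finset.card_sdiff_add_card_inter t s
      rw [Finset.inter_comm t s] at e4
      omega
    have h5 : (symmDiff s t).card ≠ 0 := by
      rw [Ne, Finset.card_eq_zero, ← Finset.bot_eq_empty, symmDiff_eq_bot]; exact hne
    omega
  have h2 := Finset.card_biUnion (s := S8 Λ) (t := fun s => Finset.powersetCard 5 s) h1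
  have h3 : ∑ s ∈ S8 Λ, (Finset.powersetCard 5 s).card = ∑ s ∈ S8 Λ, 56 := by
    apply Finset.sum_congr rfl
    intro s hs
    unfold S8 at hs
    rw [Finset.mem_filter] at hs
    rw [Finset.card_powersetCard, hs.2]; rfl
  rw [h3, Finset.sum_const, smul_eq_mul] at h2
  have h4 : ((S8 Λ).biUnion fun s => Finset.powersetCard 5 s) ⊆ Finset.powersetCard 5 (Finset.univ : Finset I) := by
    intro u hu
    rw [Finset.mem_biUnion] at hu
    obtain ⟨s, hs, hu⟩ := hu
    rw [Finset.mem_powersetCard] at hu ⊢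
    exact ⟨Finset.subset_univ _, hu.2⟩
  have h5 := Finset.card_le_card h4
  rw [h2, Finset.card_powersetCard, Finset.card_univ, Fintype.card_fin] at h5
  have h6 : Nat.choose 24 5 = 42504 := by decide
  omega

/-! ### even vectors -/

def am (s : Finset I) : ℤ := if s.card = 2 then 4 else 2
def dec (s t : Finset I) : Z := fun i => if i ∈ s then (if i ∈ t then -(am s) else am s) else 0

theorem HL.even_dec (h : HL Λ) {x : Z} (hx : x ∈ Λ) (hn : ∑ i, x i ^ 2 = 32) (hev : ∀ i, x i % 2 = 0) :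
    ∃ s t, t ⊆ s ∧ x = dec s t ∧ (s.card = 2 ∨ s ∈ S8 Λ) := by
  obtain ⟨y, hy⟩ : ∃ y : Z, ∀ i, x i = 2 * y i := ⟨fun i => x i / 2, fun i => by have := hev i; show x i = 2 * (x i / 2); omega⟩
  have hxy : x = fun i => 2 * y i := funext hy
  have hy8 : ∑ i, y i ^ 2 = 8 := by
    have : ∑ i, x i ^ 2 = 4 * ∑ i, y i ^ 2 := by
      rw [Finset.mul_sum]; apply Finset.sum_congr rfl; intro i _; rw [hy]; ring
    omega
  have hm : (fun i => 2 * y i) ∈ Λ := by rw [← hxy]; exact hx
  obtain ⟨w1, w2⟩ := h.wt y hm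
  have hle : ∀ i, y i % 2 ≤ y i ^ 2 := by
    intro i
    rcases Int.emod_two_eq_zero_or_one (y i) with h2 | h2
    · rw [h2]; positivity
    · rw [h2]
      have : y i ≠ 0 := by rintro h0; rw [h0] at h2; norm_num at h2
      have := Int.one_le_abs this
      nlinarith [sq_abs (y i), abs_nonneg (y i)]
  have hk := card_od y
  have hk8 : ∑ i, y i % 2 ≤ ∑ i, y i ^ 2 := Finset.sum_le_sum fun i _ => hle i
  have hkk : (od y).card = 0 ∨ (od y).card = 8 := by
    have : ((od y).card : ℤ) ≤ 8 := by rw [hk]; omega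
    omega
  rcases hkk with hk0 | hk0
  · -- all even
    have hye : ∀ i, y i % 2 = 0 := by
      intro i
      rw [Finset.card_eq_zero] at hk0
      have : i ∉ od y := by rw [hk0]; simp
      rw [mem_od] at this; omega
    obtain ⟨z, hz⟩ : ∃ z : Z, ∀ i, y i = 2 * z i := ⟨fun i => y i / 2, fun i => by have := hye i; show y i = 2 * (y i / 2); omega⟩
    have hz2 : ∑ i, z i ^ 2 = 2 := by
      have : ∑ i, y i ^ 2 = 4 * ∑ i, z i ^ 2 := by
        rw [Finset.mul_sum]; apply Finset.sum_congr rfl; intro i _; rw [hz]; ring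
      omega
    have hz1 : ∀ i, z i = 0 ∨ z i = 1 ∨ z i = -1 := by
      intro i
      have h1 : z i ^ 2 ≤ 2 := by
        rw [← hz2]; exact Finset.single_le_sum (f := fun i => z i ^ 2) (fun i _ => sq_nonneg _) (Finset.mem_univ i)
      have h2 : z i ≤ 1 := by nlinarith
      have h3 : -1 ≤ z i := by nlinarith
      omega
    have hc : (Finset.univ.filter fun i => z i ≠ 0).card = 2 := by
      have : ((Finset.univ.filter fun i => z i ≠ 0).card : ℤ) = ∑ i, z i ^ 2 := by
        rw [Finset.card_filter]; push_cast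
        apply Finset.sum_congr rfl; intro i _
        rcases hz1 i with h1 | h1 | h1 <;> rw [h1] <;> norm_num
      omega
    refine ⟨Finset.univ.filter fun i => z i ≠ 0, Finset.univ.filter fun i => z i = -1, ?_, ?_, Or.inl hc⟩
    · intro i hi
      simp only [Finset.mem_filter, Finset.mem_univ, true_and] at hi ⊢
      rw [hi]; norm_num
    · funext i
      unfold dec am
      rw [hc, hy, hz]
      simp only [Finset.mem_filter, Finset.mem_univ, true_and]
      rcases hz1 i with h1 | h1 | h1 <;> rw [h1] <;> norm_num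
  · have heq : ∀ i, y i ^ 2 = y i % 2 := by
      have h1 : ∑ i, (y i ^ 2 - y i % 2) = 0 := by
        rw [Finset.sum_sub_distrib, hy8, ← hk, hk0]; norm_num
      intro i
      have h2 := (Finset.sum_eq_zero_iff_of_nonneg (fun i _ => by have := hle i; omega)).mp h1 i (Finset.mem_univ i)
      omega
    have hy1 : ∀ i, (y i % 2 = 1 ∧ (y i = 1 ∨ y i = -1)) ∨ (y i % 2 = 0 ∧ y i = 0) := by
      intro i
      have h1 := heq i
      rcases Int.emod_two_eq_zero_or_one (y i) with h2 | h2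
      · right
        rw [h2] at h1
        exact ⟨h2, pow_eq_zero_iff (two_ne_zero) |>.mp h1⟩
      · left
        rw [h2] at h1
        refine ⟨h2, ?_⟩
        have h3 : (y i - 1) * (y i + 1) = 0 := by linear_combination h1
        rcases mul_eq_zero.mp h3 with h4 | h4
        · left; linarith
        · right; linarith
    refine ⟨od y, Finset.univ.filter fun i => y i = -1, ?_, ?_, ?_⟩
    · intro i hi
      simp only [Finset.mem_filter, Finset.mem_univ, true_and] at hi
      rw [mem_od, hi]; norm_num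
    · funext i
      unfold dec am
      rw [hk0, hy]
      simp only [Finset.mem_filter, Finset.mem_univ, true_and, mem_od]
      rcases hy1 i with ⟨h1, h2 | h2⟩ | ⟨h1, h2⟩ <;> rw [h2] <;> norm_num
    · right
      unfold S8
      rw [Finset.mem_filter]
      exact ⟨mem_SC.mpr ⟨y, hm, rfl⟩, hk0⟩

open Classical in
theorem HL.fibre (h : HL Λ) {s : Finset I} (hs : s.card = 8) :
    (s.powerset.filter fun t => dec s t ∈ Λ).card ≤ 128 := by
  by_cases hne : (s.powerset.filter fun t => dec s t ∈ Λ).Nonempty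
  · obtain ⟨t0, ht0⟩ := hne
    rw [Finset.mem_filter, Finset.mem_powerset] at ht0
    have hsub : (s.powerset.filter fun t => dec s t ∈ Λ) ⊆ s.powerset.filter fun t => t.card % 2 = t0.card % 2 := by
      intro t ht
      rw [Finset.mem_filter, Finset.mem_powerset] at ht ⊢
      refine ⟨ht.1, ?_⟩
      have h1 := Λ.sub_mem ht0.2 ht.2
      have h2 : dec s t0 - dec s t = fun i => 4 * ((if i ∈ t then (1 : ℤ) else 0) - (if i ∈ t0 then 1 else 0)) := by
        funext i
        simp only [Pi.sub_apply, dec, am, hs]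
        have e1 : i ∈ t → i ∈ s := fun hi => ht.1 hi
        have e2 : i ∈ t0 → i ∈ s := fun hi => ht0.1 hi
        by_cases hi : i ∈ s
        · by_cases h3 : i ∈ t <;> by_cases h4 : i ∈ t0 <;> simp [hi, h3, h4]
        · have h3 : i ∉ t := fun h => hi (e1 h)
          have h4 : i ∉ t0 := fun h => hi (e2 h)
          simp [hi, h3, h4]
      rw [h2] at h1
      have h3 := h.d24' _ h1
      rw [Finset.sum_sub_distrib] at h3
      have h4 : ∀ u : Finset I, ∑ i, (if i ∈ u then (1 : ℤ) else 0) = u.card := by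
        intro u; rw [Finset.sum_ite_mem, Finset.univ_inter]; simp
      rw [h4, h4] at h3
      omega
    refine (Finset.card_le_card hsub).trans ?_
    rw [Shape.card_parity s (by rw [← Finset.card_pos]; omega) _ (Nat.mod_lt _ (by norm_num)), hs]
    norm_num
  · rw [Finset.not_nonempty_iff_eq_empty.mp hne]; simp

/-! ### odd vectors -/

def decO (x0 : Z) (w : Finset I) (j : I) : Z := fun i =>
  if i = j then (if (if i ∈ w then (x0 i + 2) % 4 else x0 i % 4) = 1 then -3 else 3)
  else (if (if i ∈ w then (x0 i + 2) % 4 else x0 i % 4) = 1 then 1 else -1)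

theorem sum_one {e : I → ℤ} (h0 : ∀ i, 0 ≤ e i) (h1 : ∑ i, e i = 1) : ∃ j, e j = 1 ∧ ∀ i, i ≠ j → e i = 0 := by
  obtain ⟨j, hj⟩ : ∃ j, e j ≠ 0 := by
    by_contra hc
    push Not at hc
    rw [Finset.sum_eq_zero fun i _ => hc i] at h1
    exact zero_ne_one h1
  have h2 := Finset.add_sum_erase Finset.univ e (Finset.mem_univ j)
  have h3 : 0 ≤ ∑ i ∈ Finset.univ.erase j, e i := Finset.sum_nonneg fun i _ => h0 i
  have h4 := h0 j
  have h5 : e j = 1 := by omega
  have h6 : ∑ i ∈ Finset.univ.erase j, e i = 0 := by omega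
  refine ⟨j, h5, fun i hi => ?_⟩
  exact (Finset.sum_eq_zero_iff_of_nonneg (fun i _ => h0 i)).mp h6 i (Finset.mem_erase.mpr ⟨hi, Finset.mem_univ i⟩)

theorem odd_sq {a : ℤ} (h : a % 2 = 1) : ∃ e, 0 ≤ e ∧ a ^ 2 = 1 + 8 * e := by
  obtain ⟨b, hb⟩ : ∃ b, a = 2 * b + 1 := ⟨a / 2, by omega⟩
  have h1 : ∃ e, b * (b + 1) = 2 * e := by
    rcases Int.emod_two_eq_zero_or_one b with h | h
    · exact ⟨(b / 2) * (b + 1), by obtain ⟨c, hc⟩ : ∃ c, b = 2 * c := ⟨b / 2, by omega⟩; rw [hc]; rw [Int.mul_ediv_cancel_left _ (by norm_num)]; ring⟩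
    · obtain ⟨c, hc⟩ : ∃ c, b = 2 * c + 1 := ⟨b / 2, by omega⟩
      exact ⟨(2 * c + 1) * (c + 1), by rw [hc]; ring⟩
  obtain ⟨e, he⟩ := h1
  refine ⟨e, ?_, by rw [hb]; linear_combination 4 * he⟩
  by_contra hc
  have : b * (b + 1) < 0 := by omega
  have h2 : 0 ≤ b * (b + 1) := by
    rcases le_or_gt 0 b with h | h
    · positivity
    · nlinarith
  omega

theorem odd_shape {x : Z} (hn : ∑ i, x i ^ 2 = 32) (hodd : ∀ i, x i % 2 = 1) :
    ∃ j, (x j = 3 ∨ x j = -3) ∧ ∀ i, i ≠ j → x i = 1 ∨ x i = -1 := by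
  choose e he0 he using fun i => odd_sq (hodd i)
  have h1 : ∑ i, e i = 1 := by
    have : ∑ i, x i ^ 2 = 24 + 8 * ∑ i, e i := by
      rw [Finset.sum_congr rfl fun i _ => he i, Finset.sum_add_distrib, ← Finset.mul_sum]
      simp
    omega
  obtain ⟨j, hj, hj'⟩ := sum_one he0 h1
  refine ⟨j, ?_, fun i hi => ?_⟩
  · have := he j
    rw [hj] at this
    have h2 : (x j - 3) * (x j + 3) = 0 := by linear_combination this
    rcases mul_eq_zero.mp h2 with h3 | h3
    · left; linarith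
    · right; linarith
  · have := he i
    rw [hj' i hi] at this
    have h2 : (x i - 1) * (x i + 1) = 0 := by linear_combination this
    rcases mul_eq_zero.mp h2 with h3 | h3
    · left; linarith
    · right; linarith

theorem HL.odd_dec (h : HL Λ) {x x0 : Z} (hx : x ∈ Λ) (hx0 : x0 ∈ Λ) (hn : ∑ i, x i ^ 2 = 32) (hodd : ∀ i, x i % 2 = 1)
    (hodd0 : ∀ i, x0 i % 2 = 1) : ∃ w ∈ SC Λ, ∃ j, x = decO x0 w j := by
  obtain ⟨j, hj, hj'⟩ := odd_shape hn hodd
  obtain ⟨y, hy⟩ : ∃ y : Z, ∀ i, x i - x0 i = 2 * y i :=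
    ⟨fun i => (x i - x0 i) / 2, fun i => by have := hodd i; have := hodd0 i; show x i - x0 i = 2 * ((x i - x0 i) / 2); omega⟩
  have hm : (fun i => 2 * y i) ∈ Λ := by
    have := Λ.sub_mem hx hx0
    convert this using 1
    funext i; rw [Pi.sub_apply, hy]
  refine ⟨od y, mem_SC.mpr ⟨y, hm, rfl⟩, j, ?_⟩
  funext i
  unfold decO
  simp only [mem_od]
  have h1 := hy i
  have h2 := hodd0 i
  by_cases hi : i = j
  · subst hi
    rcases hj with h3 | h3 <;> rw [h3] at h1 ⊢ <;> split_ifs <;> omega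
  · rcases hj' i hi with h3 | h3 <;> rw [h3] at h1 ⊢ <;> split_ifs <;> omega

/-! ### the count -/

open Classical in
theorem HL.count (h : HL Λ) : Module.finrank (ZMod 2) (CC Λ) = 12 ∧
    ∃ x0 ∈ Λ, ∑ i, x0 i ^ 2 = 32 ∧ ∀ i, x0 i % 2 = 1 := by
  have hfin : {x : Z | x ∈ Λ ∧ ∑ i, x i ^ 2 = 32}.Finite := Set.finite_of_ncard_ne_zero (by rw [h.cnt]; norm_num)
  obtain ⟨X, hXc, hXm⟩ : ∃ X : Finset Z, X.card = 196560 ∧ ∀ x, x ∈ X ↔ x ∈ Λ ∧ ∑ i, x i ^ 2 = 32 :=
    ⟨hfin.toFinset, by rw [← Set.ncard_eq_toFinset_card _ hfin, h.cnt], fun x => by rw [Set.Finite.mem_toFinset]; exact Iff.rfl⟩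
  obtain ⟨U2, hU2⟩ : ∃ U2 : Finset Z, U2 = (Finset.powersetCard 2 (Finset.univ : Finset I)).biUnion fun s => s.powerset.image (dec s) := ⟨_, rfl⟩
  obtain ⟨U8, hU8⟩ : ∃ U8 : Finset Z, U8 = (S8 Λ).biUnion fun s => (s.powerset.filter fun t => dec s t ∈ Λ).image (dec s) := ⟨_, rfl⟩
  have c2 : U2.card ≤ 1104 := by
    rw [hU2]
    refine Finset.card_biUnion_le.trans ?_
    have : ∑ s ∈ Finset.powersetCard 2 (Finset.univ : Finset I), (s.powerset.image (dec s)).card ≤
        ∑ s ∈ Finset.powersetCard 2 (Finset.univ : Finset I), 4 := by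
      apply Finset.sum_le_sum
      intro s hs
      rw [Finset.mem_powersetCard] at hs
      refine Finset.card_image_le.trans ?_
      rw [Finset.card_powerset, hs.2]
      norm_num
    refine this.trans ?_
    rw [Finset.sum_const, Finset.card_powersetCard, Finset.card_univ, Fintype.card_fin, smul_eq_mul]
    decide
  have c8 : U8.card ≤ 97152 := by
    rw [hU8]
    refine Finset.card_biUnion_le.trans ?_
    have : ∑ s ∈ S8 Λ, ((s.powerset.filter fun t => dec s t ∈ Λ).image (dec s)).card ≤ ∑ s ∈ S8 Λ, 128 := by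
      apply Finset.sum_le_sum
      intro s hs
      unfold S8 at hs
      rw [Finset.mem_filter] at hs
      exact Finset.card_image_le.trans (h.fibre hs.2)
    refine this.trans ?_
    rw [Finset.sum_const, smul_eq_mul]
    have := h.card_S8
    omega
  have hev : ∀ x ∈ X, (∀ i, x i % 2 = 0) → x ∈ U2 ∪ U8 := by
    intro x hx hxe
    obtain ⟨h1, h2⟩ := (hXm x).mp hx
    obtain ⟨s, t, hts, rfl, hs⟩ := h.even_dec h1 h2 hxe
    rw [Finset.mem_union]
    rcases hs with hs | hs
    · left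
      rw [hU2, Finset.mem_biUnion]
      exact ⟨s, Finset.mem_powersetCard.mpr ⟨Finset.subset_univ _, hs⟩, Finset.mem_image.mpr ⟨t, Finset.mem_powerset.mpr hts, rfl⟩⟩
    · right
      rw [hU8, Finset.mem_biUnion]
      exact ⟨s, hs, Finset.mem_image.mpr ⟨t, Finset.mem_filter.mpr ⟨Finset.mem_powerset.mpr hts, h1⟩, rfl⟩⟩
  have hU : (U2 ∪ U8).card ≤ 98256 := (Finset.card_union_le _ _).trans (by omega)
  obtain ⟨x0, hx0, hx0o⟩ : ∃ x0 ∈ X, ∀ i, x0 i % 2 = 1 := by
    by_contra hc
    push Not at hc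
    have : X ⊆ U2 ∪ U8 := by
      intro x hx
      apply hev x hx
      obtain ⟨i, hi⟩ := hc x hx
      intro j
      have := h.par x ((hXm x).mp hx).1 i j
      omega
    have := Finset.card_le_card this
    omega
  obtain ⟨g1, g2⟩ := (hXm x0).mp hx0
  refine ⟨?_, x0, g1, g2, hx0o⟩
  obtain ⟨U1, hU1⟩ : ∃ U1 : Finset Z, U1 = ((SC Λ) ×ˢ (Finset.univ : Finset I)).image fun p => decO x0 p.1 p.2 := ⟨_, rfl⟩
  have c1 : U1.card ≤ (SC Λ).card * 24 := by
    rw [hU1]
    refine Finset.card_image_le.trans ?_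
    rw [Finset.card_product, Finset.card_univ, Fintype.card_fin]
  have hsub : X ⊆ (U2 ∪ U8) ∪ U1 := by
    intro x hx
    rw [Finset.mem_union]
    obtain ⟨h1, h2⟩ := (hXm x).mp hx
    rcases Int.emod_two_eq_zero_or_one (x 0) with h3 | h3
    · left
      exact hev x hx fun i => by rw [h.par x h1 i 0, h3]
    · right
      obtain ⟨w, hw, j, hj⟩ := h.odd_dec h1 g1 h2 (fun i => by rw [h.par x h1 i 0, h3]) hx0o
      rw [hU1, Finset.mem_image]
      exact ⟨(w, j), Finset.mem_product.mpr ⟨hw, Finset.mem_univ _⟩, hj.symm⟩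
  have h1 := Finset.card_le_card hsub
  have h2 := Finset.card_union_le (U2 ∪ U8) U1
  obtain ⟨h3, h4⟩ := h.card_SC_le
  have h5 : 4096 ≤ (SC Λ).card := by omega
  rw [h3] at h5
  by_contra hne
  have h6 : Module.finrank (ZMod 2) (CC Λ) ≤ 11 := by omega
  have h7 : 2 ^ Module.finrank (ZMod 2) (CC Λ) ≤ 2 ^ 11 := Nat.pow_le_pow_right (by norm_num) h6
  omega

end Cfsg.Agent.H7.Un
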