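import Cfsg.Statements.S0375
import Cfsg.Agent.H7_St8
import Cfsg.Agent.S0358

set_option autoImplicit false
open Cfsg

open Cfsg.Agent

namespace Cfsg.Agent.S0375

/-- A doubly even self-dual binary code of length 24 with no words of weight 4 is equivalent to the length-24 code built from the squares modulo 23. -/
theorem result (C : Submodule (ZMod 2) (Fin 24 → ZMod 2)) (hdim : Module.finrank (ZMod 2) C = 12) (horth : ∀ v ∈ C, ∀ w ∈ C, ∑ i, v i * w i = 0) (h4 : ∀ w ∈ C, 4 ∣ hammingNorm w) (hno4 : ∀ w ∈ C, hammingNorm w ≠ 4) : ∃ e : Fin 24 ≃ Cfsg.GolayPt, ∀ w : Cfsg.GolayPt → ZMod 2, w ∈ Cfsg.golayCode ↔ (fun i => w (e i)) ∈ C := by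
  have hcard : Fintype.card (Fin 24) = 24 := rfl
  have hS := Cfsg.Agent.H7.St.steiner_of_code hcard C hdim
    (fun s hs => by have := h4 _ hs; rwa [Cfsg.Agent.H7.St.norm_ind] at this)
    (fun s hs => by have := hno4 _ hs; rwa [Cfsg.Agent.H7.St.norm_ind] at this)
  obtain ⟨e, he⟩ := Cfsg.Agent.H7.St.iso24 hcard hS
  let L : (GolayPt → ZMod 2) ≃ₗ[ZMod 2] (Fin 24 → ZMod 2) := LinearEquiv.funCongrLeft (ZMod 2) (ZMod 2) e.symm
  have hL : ∀ w i, L w i = w (e.symm i) := fun w i => rfl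
  have hle : golayCode.map (L : (GolayPt → ZMod 2) →ₗ[ZMod 2] (Fin 24 → ZMod 2)) ≤ C := by
    rintro _ ⟨w, hw, rfl⟩
    obtain ⟨m, hm, rfl⟩ := H7.Golay.mem_golayCode_iff.1 hw
    refine H7.Golay.spanL_induction (l := H7.Golay.gens) (P := fun m => L (H7.Golay.word m) ∈ C) ?_ ?_ ?_ m hm
    · rw [H7.Golay.word_zero, map_zero]
      exact C.zero_mem
    · intro a b ha hb
      have : H7.Golay.word (a ^^^ b) = H7.Golay.word a + H7.Golay.word b := H7.Golay.word_xor a b
      rw [this, map_add]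
      exact C.add_mem ha hb
    · intro g hg
      have hg8 : H7.Golay.pc g = 8 := by
        revert g
        decide
      have hgo : H7.Golay.ofMask g ∈ octads := by
        rw [H7.Oct.mem_octads_iff']
        exact ⟨g, H7.Oct.mem_octL.2 ⟨H7.Golay.gen_mem_spanL hg, hg8⟩, rfl⟩
      have h1 := (Cfsg.Agent.H7.St.mem_words.1 ((he _).2 hgo)).1
      have h2 : Cfsg.Agent.H7.St.ind ((H7.Golay.ofMask g).map e.toEmbedding) = L (H7.Golay.word g) := by
        funext i
        rw [hL]
        unfold Cfsg.Agent.H7.St.ind H7.Golay.word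
        congr 1
        rw [Finset.mem_map_equiv, H7.Golay.mem_ofMask]
      rwa [h2] at h1
  have hfin : Module.finrank (ZMod 2) (golayCode.map (L : (GolayPt → ZMod 2) →ₗ[ZMod 2] (Fin 24 → ZMod 2))) = 12 := by
    rw [LinearEquiv.finrank_map_eq]
    exact Cfsg.Agent.S0358.result
  have heq := Submodule.eq_of_le_of_finrank_eq hle (by rw [hfin, hdim])
  refine ⟨e.symm, fun w => ?_⟩
  constructor
  · intro hw
    exact hle ⟨w, hw, rfl⟩
  · intro hw
    have h1 : L w ∈ C := hw
    rw [← heq] at h1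
    obtain ⟨w', hw', hww⟩ := h1
    have : w' = w := L.injective hww
    rwa [← this]

end Cfsg.Agent.S0375
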