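import Mathlib
import Cfsg.Agent.H7_Un2
import Cfsg.Agent.H7_L1
import Cfsg.Agent.S0375

set_option autoImplicit false
set_option linter.all false

/-!
Lattices with a frame: identification with the Leech lattice.
-/

namespace Cfsg.Agent.H7.Un

open Cfsg Cfsg.Agent.H7.L1

variable {Λ : AddSubgroup Z}

theorem cw_of {w : GolayPt → ZMod 2} (hw : w ∈ golayCode) {s : Finset GolayPt} (h : ∀ p, p ∈ s ↔ w p ≠ 0) : s ∈ Cw := by
  refine ⟨w, hw, ?_⟩
  ext p
  rw [h]; unfold support₂; simp

theorem of_cw {s : Finset GolayPt} (hs : s ∈ Cw) : (fun p => if p ∈ s then (1 : ZMod 2) else 0) ∈ golayCode := by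
  obtain ⟨w, hw, rfl⟩ := hs
  have hw' : w ∈ golayCode := hw
  convert hw' using 1
  funext p
  unfold support₂
  simp only [Finset.mem_filter, Finset.mem_univ, true_and]
  have : ∀ a : ZMod 2, (if a ≠ 0 then (1 : ZMod 2) else 0) = a := by decide
  exact this _

theorem HL.ident (h : HL Λ) : ∃ (e : Fin 24 ≃ GolayPt) (ε : Fin 24 → ℤ), (∀ i, ε i = 1 ∨ ε i = -1) ∧
    ∀ z : GolayPt → ℤ, z ∈ leechLattice ↔ (fun i => ε i * z (e i)) ∈ Λ := by
  obtain ⟨hdim, x0, hx0, hn0, hodd0⟩ := h.count
  obtain ⟨e, he⟩ := Cfsg.Agent.S0375.result (CC Λ) hdim h.horth h.h4 h.hno4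
  obtain ⟨ε, hε, ha⟩ : ∃ ε : Fin 24 → ℤ, (∀ i, ε i = 1 ∨ ε i = -1) ∧ ∀ i, (ε i * x0 i) % 4 = 1 := by
    refine ⟨fun i => if x0 i % 4 = 1 then 1 else -1, fun i => ?_, fun i => ?_⟩
    · show (if x0 i % 4 = 1 then (1 : ℤ) else -1) = 1 ∨ (if x0 i % 4 = 1 then (1 : ℤ) else -1) = -1
      split_ifs
      · left; rfl
      · right; rfl
    · show ((if x0 i % 4 = 1 then (1 : ℤ) else -1) * x0 i) % 4 = 1
      have := hodd0 i
      split_ifs <;> omega
  have hε2 : ∀ i, ε i * ε i = 1 := fun i => by rcases hε i with h | h <;> rw [h] <;> norm_num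
  refine ⟨e, ε, hε, ?_⟩
  have hB : ∀ x ∈ Λ, (∀ i, x i % 2 = 0) → (∑ i, ε i * x i) % 8 = 0 := by
    intro x hx hev
    have h1 := h.dot x hx x0 hx0
    have h2 : (8 : ℤ) ∣ ∑ i, (ε i * x i - x i * x0 i) := by
      apply Finset.dvd_sum
      intro i _
      have h3 : ε i * x i - x i * x0 i = (ε i * x i) * (1 - ε i * x0 i) := by
        linear_combination (x i * x0 i) * hε2 i
      rw [h3]
      have h4 : (2 : ℤ) ∣ ε i * x i := Dvd.dvd.mul_left (Int.dvd_of_emod_eq_zero (hev i)) _
      have h5 : (4 : ℤ) ∣ 1 - ε i * x0 i := by have := ha i; omega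
      have := mul_dvd_mul h4 h5
      norm_num at this; exact this
    rw [Finset.sum_sub_distrib] at h2
    omega
  have hsum : ∀ z : GolayPt → ℤ, ∑ p, z p = ∑ i, ε i * (ε i * z (e i)) := by
    intro z
    rw [← Equiv.sum_comp e]
    apply Finset.sum_congr rfl
    intro i _
    linear_combination (-z (e i)) * hε2 i
  have hpar : ∀ (z : GolayPt → ℤ) i, (ε i * z (e i)) % 2 = z (e i) % 2 := by
    intro z i
    rcases hε i with h | h <;> rw [h] <;> omega
  -- even vectors
  have hE1 : ∀ z : GolayPt → ℤ, (∀ p, z p % 2 = 0) → (fun i => ε i * z (e i)) ∈ Λ → EvenT z := by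
    intro z hz hzm
    refine ⟨hz, ?_, ?_⟩
    · rw [hsum z]
      exact hB _ hzm fun i => by rw [hpar, hz]
    · have hw : (fun p => ((z p / 2 : ℤ) : ZMod 2)) ∈ golayCode := by
        rw [he]
        refine ⟨fun i => ε i * (z (e i) / 2), ?_, fun i => ?_⟩
        · convert hzm using 1
          funext i
          have := hz (e i)
          have h2 : z (e i) = 2 * (z (e i) / 2) := by omega
          conv_rhs => rw [h2]
          ring
        · show ((ε i * (z (e i) / 2) : ℤ) : ZMod 2) = ((z (e i) / 2 : ℤ) : ZMod 2)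
          rw [cast_eq_iff]
          rcases hε i with h | h <;> rw [h] <;> omega
      apply cw_of hw
      intro p
      rw [mem_cls, cast_ne_zero_iff]
      have := hz p
      omega
  have hE2 : ∀ z : GolayPt → ℤ, EvenT z → (fun i => ε i * z (e i)) ∈ Λ := by
    rintro z ⟨hz, hzs, hzc⟩
    have h1 := of_cw hzc
    rw [he] at h1
    obtain ⟨y, hy, hy'⟩ := h1
    have hyp : ∀ i, y i % 2 = (z (e i) / 2) % 2 := by
      intro i
      have h2 := hy' i
      simp only [mem_cls] at h2
      have h3 := hz (e i)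
      split_ifs at h2 with h4
      · have : (1 : ZMod 2) = ((1 : ℤ) : ZMod 2) := by simp
        rw [this, cast_eq_iff] at h2
        omega
      · have : (0 : ZMod 2) = ((0 : ℤ) : ZMod 2) := by simp
        rw [this, cast_eq_iff] at h2
        omega
    obtain ⟨u, hu⟩ : ∃ u : Z, ∀ i, ε i * z (e i) - 2 * y i = 4 * u i := by
      refine ⟨fun i => (ε i * z (e i) - 2 * y i) / 4, fun i => ?_⟩
      show ε i * z (e i) - 2 * y i = 4 * ((ε i * z (e i) - 2 * y i) / 4)
      have h2 := hyp i
      have h3 := hz (e i)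
      rcases hε i with h | h <;> rw [h] <;> omega
    have hus : (2 : ℤ) ∣ ∑ i, u i := by
      have h2 := hB _ hy (fun i => by show 2 * y i % 2 = 0; omega)
      have h3 : ∑ p, z p = ∑ i, ε i * (2 * y i) + 4 * ∑ i, ε i * u i := by
        rw [hsum z, Finset.mul_sum, ← Finset.sum_add_distrib]
        apply Finset.sum_congr rfl
        intro i _
        linear_combination (ε i) * hu i
      have h4 : (2 : ℤ) ∣ ∑ i, ε i * u i := by omega
      have h5 : (2 : ℤ) ∣ ∑ i, (u i - ε i * u i) := by
        apply Finset.dvd_sum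
        intro i _
        rcases hε i with h | h <;> rw [h] <;> omega
      rw [Finset.sum_sub_distrib] at h5
      omega
    have h6 := Λ.add_mem hy (h.d24 u hus)
    convert h6 using 1
    funext i
    simp only [Pi.add_apply]
    linear_combination hu i
  -- the odd vector
  obtain ⟨z0, hz0⟩ : ∃ z0 : GolayPt → ℤ, ∀ i, ε i * z0 (e i) = x0 i := by
    refine ⟨fun p => ε (e.symm p) * x0 (e.symm p), fun i => ?_⟩
    show ε i * (ε (e.symm (e i)) * x0 (e.symm (e i))) = x0 i
    rw [Equiv.symm_apply_apply]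
    linear_combination (x0 i) * hε2 i
  have hz0' : ∀ i, z0 (e i) = ε i * x0 i := by
    intro i; rw [← hz0 i]; linear_combination (-z0 (e i)) * hε2 i
  have hO0 : OddT z0 := by
    refine ⟨fun p => ?_, ?_, ?_⟩
    · obtain ⟨i, rfl⟩ := e.surjective p
      have := ha i
      rw [hz0']; omega
    · rw [← Equiv.sum_comp e]
      obtain ⟨j, hj, hj'⟩ := odd_shape hn0 hodd0
      rw [Finset.sum_congr rfl fun i _ => hz0' i, ← Finset.add_sum_erase Finset.univ _ (Finset.mem_univ j)]
      have h1 : ∑ i ∈ Finset.univ.erase j, ε i * x0 i = ∑ i ∈ Finset.univ.erase j, (1 : ℤ) := by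
        apply Finset.sum_congr rfl
        intro i hi
        have h2 := ha i
        have h3 := hj' i (Finset.ne_of_mem_erase hi)
        rcases hε i with h4 | h4 <;> rcases h3 with h3 | h3 <;> rw [h4, h3] at h2 ⊢ <;> first | (exfalso; norm_num at h2; done) | norm_num
      rw [h1, Finset.sum_const, Finset.card_erase_of_mem (Finset.mem_univ j), Finset.card_univ, Fintype.card_fin]
      have h2 := ha j
      rcases hε j with h4 | h4 <;> rcases hj with h3 | h3 <;> rw [h4, h3] at h2 ⊢ <;> first | (exfalso; norm_num at h2; done) | norm_num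
    · have h1 : cls z0 1 = Finset.univ := by
        ext p
        obtain ⟨i, rfl⟩ := e.surjective p
        simp only [mem_cls, Finset.mem_univ, iff_true]
        rw [hz0']; exact ha i
      rw [h1]
      have h2 := Oct.compl_mem_supports (s := (∅ : Finset GolayPt)) (by
        refine ⟨0, golayCode.zero_mem, ?_⟩
        unfold support₂; simp)
      rwa [Finset.compl_empty] at h2
  intro z
  rw [mem_leech_iff]
  constructor
  · rintro (hz | hz)
    · exact hE2 z hz
    · have h1 := hE2 _ (hz.add hO0.neg)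
      have h2 := Λ.add_mem h1 hx0
      convert h2 using 1
      funext i
      simp only [Pi.add_apply, Pi.neg_apply]
      linear_combination hz0 i
  · intro hz
    rcases Int.emod_two_eq_zero_or_one (ε 0 * z (e 0)) with h0 | h0
    · left
      refine hE1 z (fun p => ?_) hz
      obtain ⟨i, rfl⟩ := e.surjective p
      have h1 := h.par _ hz i 0
      rw [hpar] at h1
      rw [h1]; exact h0
    · right
      have h1 : (fun i => ε i * (z - z0) (e i)) ∈ Λ := by
        have := Λ.sub_mem hz hx0
        convert this using 1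
        funext i
        simp only [Pi.sub_apply]
        linear_combination (-1 : ℤ) * hz0 i
      have h2 : EvenT (z - z0) := by
        refine hE1 _ (fun p => ?_) h1
        obtain ⟨i, rfl⟩ := e.surjective p
        have h3 := h.par _ hz i 0
        rw [hpar] at h3
        have h4 := hO0.1 (e i)
        simp only [Pi.sub_apply]
        have h5 : (ε 0 * z (e 0)) % 2 = 1 := h0
        omega
      have h3 := h2.add_odd hO0
      rwa [sub_add_cancel] at h3

end Cfsg.Agent.H7.Un
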