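import Mathlib
import Cfsg.Agent.H7_Un3

set_option autoImplicit false
set_option linter.all false

/-!
Uniqueness of the Leech lattice: the frame.
-/

namespace Cfsg.Agent.H7.Un

open Cfsg Matrix

section

variable (B : Matrix (Fin 24) (Fin 24) ℤ)

def bb (x y : Z) : ℤ := x ⬝ᵥ (B *ᵥ y)

theorem bb_add_left (x y z : Z) : bb B (x + y) z = bb B x z + bb B y z := by unfold bb; rw [add_dotProduct]
theorem bb_add_right (x y z : Z) : bb B x (y + z) = bb B x y + bb B x z := by unfold bb; rw [mulVec_add, dotProduct_add]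
theorem bb_neg_left (x z : Z) : bb B (-x) z = - bb B x z := by unfold bb; rw [neg_dotProduct]
theorem bb_neg_right (x z : Z) : bb B x (-z) = - bb B x z := by unfold bb; rw [mulVec_neg, dotProduct_neg]
theorem bb_sub_left (x y z : Z) : bb B (x - y) z = bb B x z - bb B y z := by rw [sub_eq_add_neg, bb_add_left, bb_neg_left, sub_eq_add_neg]
theorem bb_sub_right (x y z : Z) : bb B x (y - z) = bb B x y - bb B x z := by rw [sub_eq_add_neg, bb_add_right, bb_neg_right, sub_eq_add_neg]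
theorem bb_smul_left (c : ℤ) (x z : Z) : bb B (c • x) z = c * bb B x z := by unfold bb; rw [smul_dotProduct, smul_eq_mul]
theorem bb_smul_right (c : ℤ) (x z : Z) : bb B x (c • z) = c * bb B x z := by unfold bb; rw [mulVec_smul, dotProduct_smul, smul_eq_mul]

variable {B}

theorem bb_symm (hs : B.IsSymm) (x y : Z) : bb B x y = bb B y x := by
  unfold bb
  rw [dotProduct_mulVec, ← mulVec_transpose, hs.eq, dotProduct_comm]

structure LH (B : Matrix (Fin 24) (Fin 24) ℤ) : Prop where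
  symm : B.IsSymm
  pos : ∀ x : Z, x ≠ 0 → 0 < bb B x x
  even : ∀ x : Z, (2 : ℤ) ∣ bb B x x
  h2 : ∀ x : Z, bb B x x ≠ 2

variable (h : LH B)
include h

theorem LH.min4 {x : Z} (hx : x ≠ 0) : 4 ≤ bb B x x := by
  have h1 := h.pos x hx
  have h2 := h.even x
  have h3 := h.h2 x
  omega

theorem LH.short {x y z : Z} (hz : x - y = (2 : ℤ) • z) (h1 : x ≠ y) (h2 : x ≠ -y) (hx : bb B x x ≤ 8) (hy : bb B y y ≤ 8) :
    bb B x x = 8 ∧ bb B y y = 8 ∧ bb B x y = 0 := by
  have hz0 : z ≠ 0 := by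
    rintro rfl
    rw [smul_zero, sub_eq_zero] at hz; exact h1 hz
  have hw : x + y = (2 : ℤ) • (z + y) := by rw [smul_add, ← hz]; module
  have hw0 : z + y ≠ 0 := by
    intro h0
    rw [h0, smul_zero] at hw
    exact h2 (eq_neg_of_add_eq_zero_left hw)
  have m1 := h.min4 hz0
  have m2 := h.min4 hw0
  have e1 : bb B (x - y) (x - y) = 4 * bb B z z := by rw [hz, bb_smul_left, bb_smul_right]; ring
  have e2 : bb B (x + y) (x + y) = 4 * bb B (z + y) (z + y) := by rw [hw, bb_smul_left, bb_smul_right]; ring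
  have s := bb_symm h.symm y x
  rw [bb_sub_left, bb_sub_right, bb_sub_right, s] at e1
  rw [bb_add_left B x y, bb_add_right, bb_add_right, s] at e2
  omega

omit h in
/-- reduction modulo 2 -/
def rd (x : Z) (i : Fin 24) : ZMod 2 := ((x i : ℤ) : ZMod 2)

omit h in
theorem rd_eq {x y : Z} (h : rd x = rd y) : ∃ z : Z, x - y = (2 : ℤ) • z := by
  refine ⟨fun i => (x i - y i) / 2, funext fun i => ?_⟩
  have h1 := congrFun h i
  unfold rd at h1
  rw [cast_eq_iff] at h1
  show x i - y i = 2 * ((x i - y i) / 2)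
  omega

/-- existence of a frame -/
theorem LH.frame (h4 : {x : Z | bb B x x = 4}.ncard = 196560)
    (h6 : {x : Z | bb B x x = 6}.ncard = 16773120)
    (h8 : {x : Z | bb B x x = 8}.ncard = 398034000) :
    ∃ v : Fin 24 → Z, (∀ i, bb B (v i) (v i) = 8) ∧ (∀ i j, i ≠ j → bb B (v i) (v j) = 0) ∧
      ∀ i j, ∃ z : Z, v i - v j = (2 : ℤ) • z := by
  classical
  have mk : ∀ (n : ℤ) (k : ℕ), k ≠ 0 → {x : Z | bb B x x = n}.ncard = k → ∃ N : Finset Z, N.card = k ∧ ∀ x, x ∈ N ↔ bb B x x = n := by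
    intro n k hk hn
    have hfin : {x : Z | bb B x x = n}.Finite := Set.finite_of_ncard_ne_zero (by rw [hn]; exact hk)
    exact ⟨hfin.toFinset, by rw [← Set.ncard_eq_toFinset_card _ hfin, hn], fun x => by rw [Set.Finite.mem_toFinset]; exact Iff.rfl⟩
  obtain ⟨N4, c4, m4⟩ := mk 4 _ (by norm_num) h4
  obtain ⟨N6, c6, m6⟩ := mk 6 _ (by norm_num) h6
  obtain ⟨N8, c8, m8⟩ := mk 8 _ (by norm_num) h8
  have neg_ne : ∀ {x y : Z}, bb B x x ≠ bb B y y → x ≠ y ∧ x ≠ -y := by
    intro x y hxy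
    constructor
    · rintro rfl; exact hxy rfl
    · rintro rfl; apply hxy; rw [bb_neg_left, bb_neg_right, neg_neg]
  -- fibres
  have fib : ∀ (n : ℤ) (N : Finset Z), (∀ x, x ∈ N ↔ bb B x x = n) → n < 8 → ∀ a ∈ N.image rd, (N.filter fun x => rd x = a).card ≤ 2 := by
    intro n N hN hn a ha
    obtain ⟨x1, hx1, rfl⟩ := Finset.mem_image.mp ha
    have : (N.filter fun x => rd x = rd x1) ⊆ {x1, -x1} := by
      intro x hx
      rw [Finset.mem_filter] at hx
      obtain ⟨z, hz⟩ := rd_eq hx.2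
      by_contra hc
      simp only [Finset.mem_insert, Finset.mem_singleton, not_or] at hc
      have q1 := (hN x).mp hx.1
      have q2 := (hN x1).mp hx1
      have := h.short hz hc.1 hc.2 (by omega) (by omega)
      omega
    exact (Finset.card_le_card this).trans Finset.card_le_two
  have b4 := Finset.card_le_mul_card_image N4 2 (fib 4 N4 m4 (by norm_num))
  have b6 := Finset.card_le_mul_card_image N6 2 (fib 6 N6 m6 (by norm_num))
  -- disjointness
  have disj : ∀ (n k : ℤ) (N K : Finset Z), (∀ x, x ∈ N ↔ bb B x x = n) → (∀ x, x ∈ K ↔ bb B x x = k) → n < 8 → n ≠ k → k ≤ 8 →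
      Disjoint (N.image rd) (K.image rd) := by
    intro n k N K hN hK hn hnk hk
    rw [Finset.disjoint_left]
    intro a ha hb
    obtain ⟨x, hx, rfl⟩ := Finset.mem_image.mp ha
    obtain ⟨y, hy, hxy⟩ := Finset.mem_image.mp hb
    have q1 := (hN x).mp hx
    have q2 := (hK y).mp hy
    obtain ⟨z, hz⟩ := rd_eq hxy.symm
    obtain ⟨n1, n2⟩ := neg_ne (x := x) (y := y) (by omega)
    have := h.short hz n1 n2 (by omega) (by omega)
    omega
  have z0 : ∀ x : Z, x ∈ ({0} : Finset Z) ↔ bb B x x = 0 := by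
    intro x
    rw [Finset.mem_singleton]
    constructor
    · rintro rfl; unfold bb; simp
    · intro hx; by_contra hne; have := h.pos x hne; omega
  have hU : (({0} : Finset Z).image rd ∪ (N4.image rd ∪ (N6.image rd ∪ N8.image rd))).card ≤ 16777216 := by
    refine (Finset.card_le_univ _).trans ?_
    rw [Fintype.card_fun, ZMod.card, Fintype.card_fin]; norm_num
  rw [Finset.card_union_of_disjoint, Finset.card_union_of_disjoint, Finset.card_union_of_disjoint (disj 6 8 N6 N8 m6 m8 (by norm_num) (by norm_num) (by norm_num)),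
    Finset.image_singleton, Finset.card_singleton] at hU
  rotate_left
  · rw [Finset.disjoint_union_right]
    exact ⟨disj 4 6 N4 N6 m4 m6 (by norm_num) (by norm_num) (by norm_num), disj 4 8 N4 N8 m4 m8 (by norm_num) (by norm_num) (by norm_num)⟩
  · rw [Finset.disjoint_union_right, Finset.disjoint_union_right]
    exact ⟨disj 0 4 {0} N4 z0 m4 (by norm_num) (by norm_num) (by norm_num), disj 0 6 {0} N6 z0 m6 (by norm_num) (by norm_num) (by norm_num),
      disj 0 8 {0} N8 z0 m8 (by norm_num) (by norm_num) (by norm_num)⟩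
  obtain ⟨a, ha, hF⟩ : ∃ a ∈ N8.image rd, 48 ≤ (N8.filter fun x => rd x = a).card := by
    by_contra hc
    push Not at hc
    have := Finset.card_le_mul_card_image N8 47 (fun a ha => by have := hc a ha; omega)
    omega
  obtain ⟨F, hFd⟩ : ∃ F, F = N8.filter fun x => rd x = a := ⟨_, rfl⟩
  rw [← hFd] at hF
  have mF : ∀ x, x ∈ F ↔ bb B x x = 8 ∧ rd x = a := by intro x; rw [hFd, Finset.mem_filter, m8]
  have bP := Finset.card_le_mul_card_image (f := fun x => ({x, -x} : Finset Z)) F 2 (by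
    intro p hp
    obtain ⟨x1, hx1, rfl⟩ := Finset.mem_image.mp hp
    have : (F.filter fun x => ({x, -x} : Finset Z) = {x1, -x1}) ⊆ {x1, -x1} := by
      intro x hx
      rw [Finset.mem_filter] at hx
      rw [← hx.2]; simp
    exact (Finset.card_le_card this).trans Finset.card_le_two)
  obtain ⟨P', hP', hP'c⟩ := Finset.exists_subset_card_eq (s := F.image fun x => ({x, -x} : Finset Z)) (n := 24) (by omega)
  have hch : ∀ i : Fin 24, ∃ x ∈ F, ({x, -x} : Finset Z) = ((P'.equivFinOfCardEq hP'c).symm i : Finset Z) := by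
    intro i
    have := hP' ((P'.equivFinOfCardEq hP'c).symm i).2
    exact Finset.mem_image.mp this
  choose v hvF hv using hch
  have hne : ∀ i j, i ≠ j → v i ≠ v j ∧ v i ≠ -v j := by
    intro i j hij
    have h1 : ({v i, -v i} : Finset Z) ≠ {v j, -v j} := by
      rw [hv, hv]
      intro h2
      exact hij ((P'.equivFinOfCardEq hP'c).symm.injective (Subtype.ext h2))
    constructor
    · intro h2; apply h1; rw [h2]
    · intro h2; apply h1; rw [h2, neg_neg, Finset.pair_comm]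
  have hz : ∀ i j, ∃ z : Z, v i - v j = (2 : ℤ) • z := by
    intro i j
    apply rd_eq
    rw [((mF _).mp (hvF i)).2, ((mF _).mp (hvF j)).2]
  refine ⟨v, fun i => ((mF _).mp (hvF i)).1, fun i j hij => ?_, hz⟩
  obtain ⟨z, hzz⟩ := hz i j
  exact (h.short hzz (hne i j hij).1 (hne i j hij).2 (le_of_eq ((mF _).mp (hvF i)).1) (le_of_eq ((mF _).mp (hvF j)).1)).2.2

omit h in
theorem comm8 {A C : Matrix (Fin 24) (Fin 24) ℤ} (hAC : A * C = (8 : ℤ) • (1 : Matrix (Fin 24) (Fin 24) ℤ)) :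
    C * A = (8 : ℤ) • (1 : Matrix (Fin 24) (Fin 24) ℤ) := by
  have hinj : Function.Injective (Int.castRingHom ℚ) := Int.cast_injective
  have h1 := congrArg (fun M : Matrix (Fin 24) (Fin 24) ℤ => M.map (Int.castRingHom ℚ)) hAC
  simp only [Matrix.map_mul] at h1
  have e8 : ((8 : ℤ) • (1 : Matrix (Fin 24) (Fin 24) ℤ)).map (Int.castRingHom ℚ) = (8 : ℚ) • (1 : Matrix (Fin 24) (Fin 24) ℚ) := by
    ext i j
    rw [Matrix.map_apply, Matrix.smul_apply, Matrix.smul_apply, Matrix.one_apply, Matrix.one_apply]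
    split_ifs <;> simp
  rw [e8] at h1
  have h2 : ((1 / 8 : ℚ) • A.map (Int.castRingHom ℚ)) * C.map (Int.castRingHom ℚ) = 1 := by
    rw [Matrix.smul_mul, h1, smul_smul]; norm_num
  rw [mul_eq_one_comm] at h2
  rw [Matrix.mul_smul] at h2
  have h3 : C.map (Int.castRingHom ℚ) * A.map (Int.castRingHom ℚ) = (8 : ℚ) • (1 : Matrix (Fin 24) (Fin 24) ℚ) := by
    rw [← h2, smul_smul]; norm_num
  rw [← Matrix.map_mul, ← e8] at h3
  exact Matrix.map_injective hinj h3

end

theorem s0406 (B : Matrix (Fin 24) (Fin 24) ℤ) (hsymm : B.IsSymm) (hpos : ∀ x : Fin 24 → ℤ, x ≠ 0 → 0 < x ⬝ᵥ (B *ᵥ x)) (heven : ∀ x : Fin 24 → ℤ, (2 : ℤ) ∣ x ⬝ᵥ (B *ᵥ x)) (h2 : ∀ x : Fin 24 → ℤ, x ⬝ᵥ (B *ᵥ x) ≠ 2) (h4 : {x : Fin 24 → ℤ | x ⬝ᵥ (B *ᵥ x) = 4}.ncard = 196560) (h6 : {x : Fin 24 → ℤ | x ⬝ᵥ (B *ᵥ x) = 6}.ncard = 16773120) (h8 : {x : Fin 24 → ℤ | x ⬝ᵥ (B *ᵥ x) = 8}.ncard = 398034000) : ∃ f : (Fin 24 → ℤ) ≃+ leechLattice, ∀ x : Fin 24 → ℤ, sqNorm ((f x : leechLattice)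 : GolayPt → ℤ) = 8 * (x ⬝ᵥ (B *ᵥ x)) := by
  have h : LH B := ⟨hsymm, hpos, heven, h2⟩
  obtain ⟨v, hv8, hv0, hvz⟩ := h.frame h4 h6 h8
  obtain ⟨A, hA⟩ : ∃ A : Matrix (Fin 24) (Fin 24) ℤ, A = Matrix.of v * B := ⟨_, rfl⟩
  have hc : ∀ x i, (A *ᵥ x) i = bb B (v i) x := by
    intro x i
    rw [hA, ← Matrix.mulVec_mulVec]; rfl
  have hAC : A * (Matrix.of v)ᵀ = (8 : ℤ) • (1 : Matrix (Fin 24) (Fin 24) ℤ) := by
    ext i j
    have h1 : (A * (Matrix.of v)ᵀ) i j = (A *ᵥ (v j)) i := rfl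
    rw [h1, hc, Matrix.smul_apply, Matrix.one_apply]
    split_ifs with hij
    · rw [hij, hv8]; norm_num
    · rw [hv0 i j hij]; norm_num
  have hCA := comm8 hAC
  have hpars : ∀ x y, (A *ᵥ x) ⬝ᵥ (A *ᵥ y) = 8 * bb B x y := by
    intro x y
    rw [Matrix.dotProduct_mulVec, ← Matrix.mulVec_transpose, Matrix.mulVec_mulVec, dotProduct_comm]
    have h1 : Aᵀ * A = (8 : ℤ) • B := by
      rw [hA, Matrix.transpose_mul, hsymm.eq, Matrix.mul_assoc, ← hA, hCA, Matrix.mul_smul, Matrix.mul_one]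
    rw [h1, Matrix.smul_mulVec, dotProduct_smul, smul_eq_mul]
    have := bb_symm hsymm y x
    unfold bb at this ⊢
    rw [this]
  have hsq : ∀ x, ∑ i, (A *ᵥ x) i ^ 2 = 8 * bb B x x := by
    intro x
    rw [← hpars]
    unfold dotProduct
    apply Finset.sum_congr rfl
    intro i _; ring
  have hinj : Function.Injective fun x : Z => A *ᵥ x := by
    intro x y hxy
    by_contra hne
    have h1 : A *ᵥ (x - y) = 0 := by
      rw [Matrix.mulVec_sub]; exact sub_eq_zero.mpr hxy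
    have h2 := hsq (x - y)
    rw [h1] at h2
    have h3 := h.pos (x - y) (sub_ne_zero.mpr hne)
    simp at h2
    omega
  obtain ⟨Λ, hΛ⟩ : ∃ Λ : AddSubgroup Z, ∀ x, x ∈ Λ ↔ ∃ y, A *ᵥ y = x :=
    ⟨(A.mulVecLin).toAddMonoidHom.range, fun x => by rw [AddMonoidHom.mem_range]; rfl⟩
  have hHL : HL Λ := by
    refine ⟨?_, ?_, ?_, ?_, ?_, ?_, ?_⟩
    · intro x hx i j
      obtain ⟨y, rfl⟩ := (hΛ x).mp hx
      obtain ⟨z, hz⟩ := hvz i j
      have h1 : bb B (v i) y - bb B (v j) y = 2 * bb B z y := by rw [← bb_sub_left, hz, bb_smul_left]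
      rw [hc, hc]; omega
    · intro x hx y hy
      obtain ⟨x, rfl⟩ := (hΛ x).mp hx
      obtain ⟨y, rfl⟩ := (hΛ y).mp hy
      exact ⟨bb B x y, hpars x y⟩
    · intro x hx
      obtain ⟨x, rfl⟩ := (hΛ x).mp hx
      rw [hsq]
      have := h.even x
      omega
    · intro x hx
      obtain ⟨x, rfl⟩ := (hΛ x).mp hx
      rw [hsq]
      have := h.h2 x
      omega
    · intro i
      rw [hΛ]
      refine ⟨v i, funext fun j => ?_⟩
      rw [hc]
      by_cases hij : j = i
      · subst hij; rw [hv8, Pi.single_eq_same]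
      · rw [hv0 j i hij, Pi.single_eq_of_ne hij]
    · intro i j
      rw [hΛ]
      obtain ⟨z, hz⟩ := hvz i j
      refine ⟨z, funext fun k => ?_⟩
      rw [hc]
      have h1 : bb B (v k) (v i) - bb B (v k) (v j) = 2 * bb B (v k) z := by rw [← bb_sub_right, hz, bb_smul_right]
      have h3 : ∀ i, bb B (v k) (v i) = 2 * (Pi.single i 4 : Z) k := by
        intro i
        by_cases hki : k = i
        · subst hki; rw [hv8, Pi.single_eq_same]; norm_num
        · rw [hv0 k i hki, Pi.single_eq_of_ne hki]; norm_num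
      rw [h3, h3] at h1
      rw [Pi.sub_apply]
      omega
    · have h1 : {x : Z | x ∈ Λ ∧ ∑ i, x i ^ 2 = 32} = (fun x : Z => A *ᵥ x) '' {x : Z | x ⬝ᵥ (B *ᵥ x) = 4} := by
        ext x
        simp only [Set.mem_setOf_eq, Set.mem_image]
        constructor
        · rintro ⟨hx, hn⟩
          obtain ⟨y, rfl⟩ := (hΛ x).mp hx
          rw [hsq] at hn
          refine ⟨y, ?_, rfl⟩
          have : bb B y y = y ⬝ᵥ (B *ᵥ y) := rfl
          omega
        · rintro ⟨y, hy, rfl⟩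
          refine ⟨(hΛ _).mpr ⟨y, rfl⟩, ?_⟩
          rw [hsq]
          have : bb B y y = y ⬝ᵥ (B *ᵥ y) := rfl
          omega
      rw [h1, Set.ncard_image_of_injective _ hinj, h4]
  obtain ⟨e, ε, hε, hid⟩ := hHL.ident
  have hε2 : ∀ i, ε i * ε i = 1 := fun i => by rcases hε i with h | h <;> rw [h] <;> norm_num
  have hmem : ∀ x : Z, (fun p => ε (e.symm p) * (A *ᵥ x) (e.symm p)) ∈ leechLattice := by
    intro x
    rw [hid, hΛ]
    refine ⟨x, funext fun i => ?_⟩
    rw [Equiv.symm_apply_apply]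
    linear_combination (-(A *ᵥ x) i) * hε2 i
  set f : Z →+ leechLattice :=
    { toFun := fun x => ⟨_, hmem x⟩
      map_zero' := by apply Subtype.ext; funext p; simp
      map_add' := fun x y => by
        apply Subtype.ext; funext p
        simp only [Matrix.mulVec_add, Pi.add_apply, AddSubgroup.coe_add]
        ring } with hf
  have hfb : Function.Bijective f := by
    constructor
    · intro x y hxy
      apply hinj
      funext i
      have h1 := congrFun (congrArg Subtype.val hxy) (e i)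
      have h3 : ε (e.symm (e i)) * (A *ᵥ x) (e.symm (e i)) = ε (e.symm (e i)) * (A *ᵥ y) (e.symm (e i)) := h1
      rw [Equiv.symm_apply_apply] at h3
      show (A *ᵥ x) i = (A *ᵥ y) i
      linear_combination (ε i) * h3 + ((A *ᵥ y) i - (A *ᵥ x) i) * hε2 i
    · rintro ⟨z, hz⟩
      obtain ⟨y, hy⟩ := (hΛ _).mp ((hid z).mp hz)
      refine ⟨y, ?_⟩
      apply Subtype.ext
      funext p
      show ε (e.symm p) * (A *ᵥ y) (e.symm p) = z p
      rw [hy]
      simp only [Equiv.apply_symm_apply]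
      linear_combination (z p) * hε2 (e.symm p)
  refine ⟨AddEquiv.ofBijective f hfb, fun x => ?_⟩
  have h1 : sqNorm ((AddEquiv.ofBijective f hfb x : leechLattice) : GolayPt → ℤ) = ∑ p, (ε (e.symm p) * (A *ᵥ x) (e.symm p)) ^ 2 := rfl
  rw [h1, ← Equiv.sum_comp e]
  have h3 : ∀ i, (ε (e.symm (e i)) * (A *ᵥ x) (e.symm (e i))) ^ 2 = (A *ᵥ x) i ^ 2 := by
    intro i
    rw [Equiv.symm_apply_apply]
    linear_combination ((A *ᵥ x) i ^ 2) * hε2 i
  rw [Finset.sum_congr rfl fun i _ => h3 i, hsq]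
  rfl

end Cfsg.Agent.H7.Un
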