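import Cfsg.Agent.H8_HeM
import Cfsg.Agent.H8_He1T

set_option autoImplicit false
set_option maxRecDepth 100000
set_option linter.constructorNameAsVariable false

namespace Cfsg.Agent.H8.HeM

open CE Net Act Cox CS HeR Act2 Act3 Cfsg.Spor

theorem map_H : (Subgroup.closure ({He.a, He.c, He.d, He.e, He.f, (He.a * He.b) ^ 2,
    (He.b * He.c * He.d * He.e) ^ 7} : Set (FreeGroup He.Gen))).map
    (PresentedGroup.mk RR) = Hl [1, 3, 4, 5, 6, 8, 10] := by
  apply map_closure_gens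
  · intro s hs
    simp only [Set.mem_insert_iff, Set.mem_singleton_iff] at hs
    rcases hs with rfl | rfl | rfl | rfl | rfl | rfl | rfl
    exacts [⟨1, by decide, rfl⟩, ⟨3, by decide, rfl⟩, ⟨4, by decide, rfl⟩, ⟨5, by decide, rfl⟩,
      ⟨6, by decide, rfl⟩, ⟨8, by decide, rfl⟩, ⟨10, by decide, rfl⟩]
  · intro y hy
    simp only [List.mem_cons, List.not_mem_nil, or_false] at hy
    rcases hy with rfl | rfl | rfl | rfl | rfl | rfl | rfl <;> simp [lm]

/-- letters fixing the point `0` -/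
abbrev l9 : List ℕ := [1, 3, 4, 5, 6, 8, 9, 10, 11]

theorem Hl_eq : Hl [1, 3, 4, 5, 6, 8, 10] = Hl l9 :=
  closure_invLet hic (by decide) (by decide +kernel)

theorem hn0 : 0 < 2058 := by decide

theorem htr : ∀ i : Fin 2058, ∃ g, phi g ⟨0, hn0⟩ = i :=
  trans_of HeA.sys compat (by decide) hn0 HeA.trans

theorem b1 : (Hl l9).relIndex (Hl [1, 2, 3, 4, 5, 6, 7]) ≤ 2058 ∧
    (Hl l9).relIndex (Hl [1, 2, 3, 4, 5, 6, 7]) ≠ 0 := by
  have h := He1T.bound (x := x) (H := Hl l9)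
    hic h0 (sub_rels (by decide +kernel)) (by
      intro s hs
      simp only [He1T.L, List.mem_cons, List.not_mem_nil, or_false] at hs
      rcases hs with rfl | rfl | rfl | rfl | rfl | rfl | rfl | rfl | rfl <;> exact mem_Hl (by decide))
  have e : (x '' {y | 1 ≤ y ∧ y ≤ 7}) = x '' {y | y ∈ [1, 2, 3, 4, 5, 6, 7]} := by
    congr 1
    ext y
    simp only [Set.mem_ofPred_eq, List.mem_cons, List.not_mem_nil, or_false]
    omega
  rw [e] at h
  exact h

theorem H_index : (Hl l9).index = 2058 ∧ ∀ g, g ∈ Hl l9 ↔ phi g ⟨0, hn0⟩ = ⟨0, hn0⟩ := by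
  have h := b1
  rw [Hl_top, Subgroup.relIndex_top_right] at h
  exact index_of_fix hn0 htr (fix_closure HeA.sys compat (by decide) hn0 HeA.hfix) h.1 h.2

theorem S1683 : (Hl [1, 3, 4, 5, 6, 8, 10]).index = 2058 ∧ ∃ q₁ q₂ q₃ q₄ : He ⧸ Hl [1, 3, 4, 5, 6, 8, 10],
    MulAction.orbit (Hl [1, 3, 4, 5, 6, 8, 10]) q₁ ≠ MulAction.orbit (Hl [1, 3, 4, 5, 6, 8, 10]) q₂ ∧
    (MulAction.orbit (Hl [1, 3, 4, 5, 6, 8, 10]) q₁).ncard = 136 ∧
    (MulAction.orbit (Hl [1, 3, 4, 5, 6, 8, 10]) q₂).ncard = 136 ∧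
    (MulAction.orbit (Hl [1, 3, 4, 5, 6, 8, 10]) q₃).ncard = 425 ∧
    (MulAction.orbit (Hl [1, 3, 4, 5, 6, 8, 10]) q₄).ncard = 1360 := by
  rw [Hl_eq]
  obtain ⟨q₁, h₁, h₁'⟩ := orbit_iv HeA.sys compat (l := l9) (by decide) hn0 htr HeA.hfix rfl H_index.2
    (r := 4) (c := 1) (a := 1) (b := 137) (by decide) (by decide) (by decide) (by decide +kernel) (by decide +kernel)
  obtain ⟨q₂, h₂, h₂'⟩ := orbit_iv HeA.sys compat (l := l9) (by decide) hn0 htr HeA.hfix rfl H_index.2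
    (r := 3) (c := 137) (a := 137) (b := 273) (by decide) (by decide) (by decide) (by decide +kernel) (by decide +kernel)
  obtain ⟨q₃, h₃, h₃'⟩ := orbit_iv HeA.sys compat (l := l9) (by decide) hn0 htr HeA.hfix rfl H_index.2
    (r := 5) (c := 273) (a := 273) (b := 698) (by decide) (by decide) (by decide) (by decide +kernel) (by decide +kernel)
  obtain ⟨q₄, h₄, h₄'⟩ := orbit_iv HeA.sys compat (l := l9) (by decide) hn0 htr HeA.hfix rfl H_index.2
    (r := 5) (c := 698) (a := 698) (b := 2058) (by decide) (by decide) (by decide) (by decide +kernel) (by decide +kernel)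
  exact ⟨H_index.1, q₁, q₂, q₃, q₄, orbit_ne hn0 htr h₁ h₂ (by decide) (by decide) (by decide), h₁', h₂', h₃', h₄'⟩

end Cfsg.Agent.H8.HeM
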