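import Cfsg.Agent.H26_Pres

set_option autoImplicit false
set_option maxRecDepth 100000

namespace Cfsg.Agent.H8.M11pR

open CE Net Act

/-- inverse letters -/
def ic : ℕ := 4530960

/-- definitions of the auxiliary letters -/
def ds : List (List ℕ) := [[2, 1, 2, 1, 2, 1, 3, 1],
  [1, 2, 1, 3, 1, 3, 1, 3]]

/-- relators -/
def rels : List (List ℕ) := [[1, 1],
  [2, 3],
  [3, 2],
  [4, 5],
  [5, 4],
  [],
  [2, 2, 2, 2],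
  [1, 2, 1, 2, 1, 2, 1, 2, 1, 2, 1, 2, 1, 2, 1, 2, 1, 2, 1, 2, 1, 2],
  [1, 2, 2, 1, 2, 2, 1, 2, 2, 1, 2, 2, 1, 2, 2, 1, 2, 2],
  [1, 2, 1, 2, 1, 3, 1, 2, 1, 2, 2, 1, 3, 1, 2, 1, 3, 1, 3],
  [2, 1, 2, 1, 2, 1, 3, 1, 5]]

end Cfsg.Agent.H8.M11pR
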