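import Cfsg.Agent.H8_ONA_C

set_option autoImplicit false
set_option maxRecDepth 1000000

namespace Cfsg.Agent.H8.ONA

open CE Net Act Act4 Act5

theorem e9_0 : eqR L (nat_lit 122760) (nat_lit 17) c9 (nat_lit 0) (nat_lit 9) = true := by decide +kernel

theorem e9_9 : eqR L (nat_lit 122760) (nat_lit 17) c9 (nat_lit 9) (nat_lit 8) = true := by decide +kernel


end Cfsg.Agent.H8.ONA
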