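import Cfsg.Agent.H8_ONA_L

set_option autoImplicit false
set_option maxRecDepth 1000000

namespace Cfsg.Agent.H8.ONA

open CE Net Act Act4 Act5

def levs : List Lev := [⟨[1, 2, 3, 4, 5, 6, 7, 8], 5, 0, 122760⟩,
  ⟨[3, 4, 5, 6, 7, 8], 11, 5586, 5586⟩,
  ⟨[3, 4, 5, 6, 8], 4, 111, 672⟩]

theorem chain : chainB L (nat_lit 122760) (nat_lit 17) levs [] = true := by decide +kernel

theorem prodM_levs : prodM levs = 460815505920 := by decide +kernel

theorem trans : reachIv L [1, 2, 3, 4, 5, 6, 7, 8] 5 (nat_lit 0) (nat_lit 0) (nat_lit 122760) = true := by decide +kernel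

theorem hfix : fixP L [3, 4, 5, 6, 7, 8] [nat_lit 0] = true := by decide +kernel

def ods : List (ℕ × ℕ × ℕ) := [(58653, 8, 64107), (52136, 9, 11971), (6384, 7, 5587), (5586, 8, 1)]

theorem orbs : orbB L (nat_lit 122760) [3, 4, 5, 6, 7, 8] ods = true := by decide +kernel

end Cfsg.Agent.H8.ONA
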