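import Cfsg.Agent.H8_ONA_N0
import Cfsg.Agent.H8_ONA_N1

set_option autoImplicit false
set_option maxRecDepth 1000000

namespace Cfsg.Agent.H8.ONA

open CE Net Act Act4 Act5

def L : List Nt := [.nil, n1, n2, n3, n4, n5, n6, n7, n8, .nil, .nil, .nil, .nil, .nil, .nil, .nil, n16, n17, n18, n19, n20, n21]

theorem sys : sysOk L (nat_lit 122760) = true := by decide +kernel

end Cfsg.Agent.H8.ONA
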