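import Cfsg.Agent.H8_Cox
import Cfsg.Prelude.Def_Spor_ON

set_option autoImplicit false
set_option maxRecDepth 100000
set_option linter.unusedSimpArgs false
set_option linter.unusedVariables false

namespace Cfsg.Agent.H8.ONR

open CE Net Act Cox Cfsg.Spor

theorem inv_of {K : Type} [Group K] {a : K} (ha : a * a = 1) : a⁻¹ = a :=
  (eq_inv_of_mul_eq_one_left ha).symm

/-- inverse letters -/
def ic : ℕ := 36344967456

/-- letters -/
def lm : List (FreeGroup ON.Gen) := [1, ON.g, ON.g⁻¹, ON.a, ON.b, ON.c, ON.d, ON.e, ON.f]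

/-- relators -/
def rels : List (List ℕ) := [
  coxW 3 4 3,
  coxW 3 5 2,
  coxW 3 6 2,
  coxW 3 7 2,
  coxW 3 8 2,
  coxW 4 5 3,
  coxW 4 6 2,
  coxW 4 7 2,
  coxW 4 8 2,
  coxW 5 6 8,
  coxW 5 7 2,
  coxW 5 8 2,
  coxW 6 7 3,
  coxW 6 8 2,
  coxW 7 8 3,
  [3, 8, 2, 2],
  [3, 8] ++ powW [6, 5] 4,
  [5, 2, 6, 2, 6, 5, 6, 1, 6, 1],
  [6, 2, 5, 2, 5, 6, 5, 1, 5, 1],
  powW [4, 5, 6, 1] 5,
  [1, 4, 5, 1, 5, 4, 1, 4, 5, 1, 5],
  [1, 7, 6, 1, 6, 7, 1, 7, 6, 1, 6]]

section
variable {K : Type} [Group K] (f : ON.Gen → K)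

theorem x1 : xF f lm 1 = f .g := by simp [xF, lm]
theorem x2 : xF f lm 2 = (f .g)⁻¹ := by simp [xF, lm]
theorem x3 : xF f lm 3 = f .a := by simp [xF, lm]
theorem x4 : xF f lm 4 = f .b := by simp [xF, lm]
theorem x5 : xF f lm 5 = f .c := by simp [xF, lm]
theorem x6 : xF f lm 6 = f .d := by simp [xF, lm]
theorem x7 : xF f lm 7 = f .e := by simp [xF, lm]
theorem x8 : xF f lm 8 = f .f := by simp [xF, lm]

theorem words (h : ∀ r ∈ coxRelators ON.edges ∪ {r | r ∈ ON.extra}, FreeGroup.lift f r = 1) :
    (∀ y, y < 16 → xF f lm (il ic y) = (xF f lm y)⁻¹) ∧ ∀ w ∈ rels, ev (xF f lm) w = 1 := by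
  have hcox := (cox_iff ON.edges f).1 (fun r hr => h r (Or.inl hr))
  have sq_a : f .a * f .a = 1 := by simpa [coxLabel] using hcox .a (by decide) .a (by decide)
  have sq_b : f .b * f .b = 1 := by simpa [coxLabel] using hcox .b (by decide) .b (by decide)
  have sq_c : f .c * f .c = 1 := by simpa [coxLabel] using hcox .c (by decide) .c (by decide)
  have sq_d : f .d * f .d = 1 := by simpa [coxLabel] using hcox .d (by decide) .d (by decide)
  have sq_e : f .e * f .e = 1 := by simpa [coxLabel] using hcox .e (by decide) .e (by decide)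
  have sq_f : f .f * f .f = 1 := by simpa [coxLabel] using hcox .f (by decide) .f (by decide)
  have pr_a_b : (f .a * f .b) ^ 3 = 1 := hcox .a (by decide) .b (by decide)
  have pr_a_c : (f .a * f .c) ^ 2 = 1 := hcox .a (by decide) .c (by decide)
  have pr_a_d : (f .a * f .d) ^ 2 = 1 := hcox .a (by decide) .d (by decide)
  have pr_a_e : (f .a * f .e) ^ 2 = 1 := hcox .a (by decide) .e (by decide)
  have pr_a_f : (f .a * f .f) ^ 2 = 1 := hcox .a (by decide) .f (by decide)
  have pr_b_c : (f .b * f .c) ^ 3 = 1 := hcox .b (by decide) .c (by decide)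
  have pr_b_d : (f .b * f .d) ^ 2 = 1 := hcox .b (by decide) .d (by decide)
  have pr_b_e : (f .b * f .e) ^ 2 = 1 := hcox .b (by decide) .e (by decide)
  have pr_b_f : (f .b * f .f) ^ 2 = 1 := hcox .b (by decide) .f (by decide)
  have pr_c_d : (f .c * f .d) ^ 8 = 1 := hcox .c (by decide) .d (by decide)
  have pr_c_e : (f .c * f .e) ^ 2 = 1 := hcox .c (by decide) .e (by decide)
  have pr_c_f : (f .c * f .f) ^ 2 = 1 := hcox .c (by decide) .f (by decide)
  have pr_d_e : (f .d * f .e) ^ 3 = 1 := hcox .d (by decide) .e (by decide)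
  have pr_d_f : (f .d * f .f) ^ 2 = 1 := hcox .d (by decide) .f (by decide)
  have pr_e_f : (f .e * f .f) ^ 3 = 1 := hcox .e (by decide) .f (by decide)
  have e0 := h ((ON.a * ON.f) * ((ON.g ^ 2)⁻¹)) (Or.inr (by simp [ON.extra]))
  have e1 := h ((ON.a * ON.f) * (((ON.c * ON.d) ^ 4)⁻¹)) (Or.inr (by simp [ON.extra]))
  have e2 := h (ON.c * ((ON.d * ON.g * ON.d * ON.g)⁻¹ * ON.c * (ON.d * ON.g * ON.d * ON.g))) (Or.inr (by simp [ON.extra]))
  have e3 := h (ON.d * ((ON.c * ON.g * ON.c * ON.g)⁻¹ * ON.d * (ON.c * ON.g * ON.c * ON.g))) (Or.inr (by simp [ON.extra]))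
  have e4 := h ((ON.b * ON.c * ON.d * ON.g) ^ 5) (Or.inr (by simp [ON.extra]))
  have e5 := h (ON.g * ON.b * (ON.c⁻¹ * ON.g * ON.c) * (ON.b⁻¹ * ON.g * ON.b) * (ON.c⁻¹ * ON.g * ON.c)) (Or.inr (by simp [ON.extra]))
  have e6 := h (ON.g * ON.e * (ON.d⁻¹ * ON.g * ON.d) * (ON.e⁻¹ * ON.g * ON.e) * (ON.d⁻¹ * ON.g * ON.d)) (Or.inr (by simp [ON.extra]))
  simp only [map_mul, map_pow, map_inv, FreeGroup.lift_apply_of] at e0 e1 e2 e3 e4 e5 e6
  constructor
  · intro y hy
    interval_cases y
    · rw [show il ic 0 = 0 by decide]; simp [xF, lm]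
    · rw [show il ic 1 = 2 by decide, x2, x1]
    · rw [show il ic 2 = 1 by decide, x1, x2]; simp
    · rw [show il ic 3 = 3 by decide, x3]; exact eq_inv_of_mul_eq_one_left sq_a
    · rw [show il ic 4 = 4 by decide, x4]; exact eq_inv_of_mul_eq_one_left sq_b
    · rw [show il ic 5 = 5 by decide, x5]; exact eq_inv_of_mul_eq_one_left sq_c
    · rw [show il ic 6 = 6 by decide, x6]; exact eq_inv_of_mul_eq_one_left sq_d
    · rw [show il ic 7 = 7 by decide, x7]; exact eq_inv_of_mul_eq_one_left sq_e
    · rw [show il ic 8 = 8 by decide, x8]; exact eq_inv_of_mul_eq_one_left sq_f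
    · rw [show il ic 9 = 0 by decide]; simp [xF, lm]
    · rw [show il ic 10 = 0 by decide]; simp [xF, lm]
    · rw [show il ic 11 = 0 by decide]; simp [xF, lm]
    · rw [show il ic 12 = 0 by decide]; simp [xF, lm]
    · rw [show il ic 13 = 0 by decide]; simp [xF, lm]
    · rw [show il ic 14 = 0 by decide]; simp [xF, lm]
    · rw [show il ic 15 = 0 by decide]; simp [xF, lm]
  · intro w hw
    simp only [rels, List.mem_cons, List.not_mem_nil, or_false] at hw
    rcases hw with rfl | rfl | rfl | rfl | rfl | rfl | rfl | rfl | rfl | rfl | rfl | rfl | rfl | rfl | rfl | rfl | rfl | rfl | rfl | rfl | rfl | rfl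
    · rw [ev_coxW, x3, x4]; exact pr_a_b
    · rw [ev_coxW, x3, x5]; exact pr_a_c
    · rw [ev_coxW, x3, x6]; exact pr_a_d
    · rw [ev_coxW, x3, x7]; exact pr_a_e
    · rw [ev_coxW, x3, x8]; exact pr_a_f
    · rw [ev_coxW, x4, x5]; exact pr_b_c
    · rw [ev_coxW, x4, x6]; exact pr_b_d
    · rw [ev_coxW, x4, x7]; exact pr_b_e
    · rw [ev_coxW, x4, x8]; exact pr_b_f
    · rw [ev_coxW, x5, x6]; exact pr_c_d
    · rw [ev_coxW, x5, x7]; exact pr_c_e
    · rw [ev_coxW, x5, x8]; exact pr_c_f
    · rw [ev_coxW, x6, x7]; exact pr_d_e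
    · rw [ev_coxW, x6, x8]; exact pr_d_f
    · rw [ev_coxW, x7, x8]; exact pr_e_f
    · simp only [ev_powW, ev_append, ev_cons, ev_nil, mul_one, x1, x2, x3, x4, x5, x6, x7, x8]
      simpa only [mul_assoc, pow_two, mul_inv_rev] using e0
    · simp only [ev_powW, ev_append, ev_cons, ev_nil, mul_one, x1, x2, x3, x4, x5, x6, x7, x8]
      rw [← inv_pow, mul_inv_rev, inv_of sq_c, inv_of sq_d] at e1; simpa only [mul_assoc] using e1
    · simp only [ev_powW, ev_append, ev_cons, ev_nil, mul_one, x1, x2, x3, x4, x5, x6, x7, x8]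
      simpa only [mul_assoc, mul_inv_rev, inv_of sq_c, inv_of sq_d] using e2
    · simp only [ev_powW, ev_append, ev_cons, ev_nil, mul_one, x1, x2, x3, x4, x5, x6, x7, x8]
      simpa only [mul_assoc, mul_inv_rev, inv_of sq_c, inv_of sq_d] using e3
    · simp only [ev_powW, ev_append, ev_cons, ev_nil, mul_one, x1, x2, x3, x4, x5, x6, x7, x8]
      simpa only [mul_assoc] using e4
    · simp only [ev_powW, ev_append, ev_cons, ev_nil, mul_one, x1, x2, x3, x4, x5, x6, x7, x8]
      simpa only [mul_assoc, inv_of sq_c, inv_of sq_b] using e5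
    · simp only [ev_powW, ev_append, ev_cons, ev_nil, mul_one, x1, x2, x3, x4, x5, x6, x7, x8]
      simpa only [mul_assoc, inv_of sq_d, inv_of sq_e] using e6

theorem lifts (hic : ∀ y, y < 16 → xF f lm (il ic y) = (xF f lm y)⁻¹)
    (hrels : ∀ w ∈ rels, ev (xF f lm) w = 1) :
    ∀ r ∈ coxRelators ON.edges ∪ {r | r ∈ ON.extra}, FreeGroup.lift f r = 1 := by
  have sq_a : f .a * f .a = 1 := by
    have := hic 3 (by decide)
    rw [show il ic 3 = 3 by decide, x3] at this
    exact mul_eq_one_iff_eq_inv.2 this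
  have sq_b : f .b * f .b = 1 := by
    have := hic 4 (by decide)
    rw [show il ic 4 = 4 by decide, x4] at this
    exact mul_eq_one_iff_eq_inv.2 this
  have sq_c : f .c * f .c = 1 := by
    have := hic 5 (by decide)
    rw [show il ic 5 = 5 by decide, x5] at this
    exact mul_eq_one_iff_eq_inv.2 this
  have sq_d : f .d * f .d = 1 := by
    have := hic 6 (by decide)
    rw [show il ic 6 = 6 by decide, x6] at this
    exact mul_eq_one_iff_eq_inv.2 this
  have sq_e : f .e * f .e = 1 := by
    have := hic 7 (by decide)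
    rw [show il ic 7 = 7 by decide, x7] at this
    exact mul_eq_one_iff_eq_inv.2 this
  have sq_f : f .f * f .f = 1 := by
    have := hic 8 (by decide)
    rw [show il ic 8 = 8 by decide, x8] at this
    exact mul_eq_one_iff_eq_inv.2 this
  rintro r (hr | hr)
  · refine (cox_iff ON.edges f).2 ?_ r hr
    intro p hp q hq
    have y1 := x1 f
    have y3 := x3 f
    have y4 := x4 f
    have y5 := x5 f
    have y6 := x6 f
    have y7 := x7 f
    have y8 := x8 f
    cases p <;> cases q
    · exact absurd hp (by decide)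
    · exact absurd hp (by decide)
    · exact absurd hp (by decide)
    · exact absurd hp (by decide)
    · exact absurd hp (by decide)
    · exact absurd hp (by decide)
    · exact absurd hp (by decide)
    · exact absurd hq (by decide)
    · rw [← y3]; exact pairOk_sound hrels (by rw [y3]; exact sq_a) (by decide +kernel)
    · rw [← y3, ← y4]; exact pairOk_sound hrels (by rw [y3]; exact sq_a) (by decide +kernel)
    · rw [← y3, ← y5]; exact pairOk_sound hrels (by rw [y3]; exact sq_a) (by decide +kernel)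
    · rw [← y3, ← y6]; exact pairOk_sound hrels (by rw [y3]; exact sq_a) (by decide +kernel)
    · rw [← y3, ← y7]; exact pairOk_sound hrels (by rw [y3]; exact sq_a) (by decide +kernel)
    · rw [← y3, ← y8]; exact pairOk_sound hrels (by rw [y3]; exact sq_a) (by decide +kernel)
    · exact absurd hq (by decide)
    · rw [← y4, ← y3]; exact pairOk_sound hrels (by rw [y4]; exact sq_b) (by decide +kernel)
    · rw [← y4]; exact pairOk_sound hrels (by rw [y4]; exact sq_b) (by decide +kernel)
    · rw [← y4, ← y5]; exact pairOk_sound hrels (by rw [y4]; exact sq_b) (by decide +kernel)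
    · rw [← y4, ← y6]; exact pairOk_sound hrels (by rw [y4]; exact sq_b) (by decide +kernel)
    · rw [← y4, ← y7]; exact pairOk_sound hrels (by rw [y4]; exact sq_b) (by decide +kernel)
    · rw [← y4, ← y8]; exact pairOk_sound hrels (by rw [y4]; exact sq_b) (by decide +kernel)
    · exact absurd hq (by decide)
    · rw [← y5, ← y3]; exact pairOk_sound hrels (by rw [y5]; exact sq_c) (by decide +kernel)
    · rw [← y5, ← y4]; exact pairOk_sound hrels (by rw [y5]; exact sq_c) (by decide +kernel)
    · rw [← y5]; exact pairOk_sound hrels (by rw [y5]; exact sq_c) (by decide +kernel)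
    · rw [← y5, ← y6]; exact pairOk_sound hrels (by rw [y5]; exact sq_c) (by decide +kernel)
    · rw [← y5, ← y7]; exact pairOk_sound hrels (by rw [y5]; exact sq_c) (by decide +kernel)
    · rw [← y5, ← y8]; exact pairOk_sound hrels (by rw [y5]; exact sq_c) (by decide +kernel)
    · exact absurd hq (by decide)
    · rw [← y6, ← y3]; exact pairOk_sound hrels (by rw [y6]; exact sq_d) (by decide +kernel)
    · rw [← y6, ← y4]; exact pairOk_sound hrels (by rw [y6]; exact sq_d) (by decide +kernel)
    · rw [← y6, ← y5]; exact pairOk_sound hrels (by rw [y6]; exact sq_d) (by decide +kernel)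
    · rw [← y6]; exact pairOk_sound hrels (by rw [y6]; exact sq_d) (by decide +kernel)
    · rw [← y6, ← y7]; exact pairOk_sound hrels (by rw [y6]; exact sq_d) (by decide +kernel)
    · rw [← y6, ← y8]; exact pairOk_sound hrels (by rw [y6]; exact sq_d) (by decide +kernel)
    · exact absurd hq (by decide)
    · rw [← y7, ← y3]; exact pairOk_sound hrels (by rw [y7]; exact sq_e) (by decide +kernel)
    · rw [← y7, ← y4]; exact pairOk_sound hrels (by rw [y7]; exact sq_e) (by decide +kernel)
    · rw [← y7, ← y5]; exact pairOk_sound hrels (by rw [y7]; exact sq_e) (by decide +kernel)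
    · rw [← y7, ← y6]; exact pairOk_sound hrels (by rw [y7]; exact sq_e) (by decide +kernel)
    · rw [← y7]; exact pairOk_sound hrels (by rw [y7]; exact sq_e) (by decide +kernel)
    · rw [← y7, ← y8]; exact pairOk_sound hrels (by rw [y7]; exact sq_e) (by decide +kernel)
    · exact absurd hq (by decide)
    · rw [← y8, ← y3]; exact pairOk_sound hrels (by rw [y8]; exact sq_f) (by decide +kernel)
    · rw [← y8, ← y4]; exact pairOk_sound hrels (by rw [y8]; exact sq_f) (by decide +kernel)
    · rw [← y8, ← y5]; exact pairOk_sound hrels (by rw [y8]; exact sq_f) (by decide +kernel)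
    · rw [← y8, ← y6]; exact pairOk_sound hrels (by rw [y8]; exact sq_f) (by decide +kernel)
    · rw [← y8, ← y7]; exact pairOk_sound hrels (by rw [y8]; exact sq_f) (by decide +kernel)
    · rw [← y8]; exact pairOk_sound hrels (by rw [y8]; exact sq_f) (by decide +kernel)







  · simp only [Set.mem_ofPred_eq, ON.extra, List.mem_cons, List.not_mem_nil, or_false] at hr
    rcases hr with rfl | rfl | rfl | rfl | rfl | rfl | rfl
    · have e := hrels ([3, 8, 2, 2]) (by decide +kernel)
      simp only [ev_powW, ev_append, ev_cons, ev_nil, mul_one, x1, x2, x3, x4, x5, x6, x7, x8] at e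
      simp only [map_mul, map_pow, map_inv, FreeGroup.lift_apply_of]
      simpa only [mul_assoc, pow_two, mul_inv_rev] using e
    · have e := hrels ([3, 8] ++ powW [6, 5] 4) (by decide +kernel)
      simp only [ev_powW, ev_append, ev_cons, ev_nil, mul_one, x1, x2, x3, x4, x5, x6, x7, x8] at e
      simp only [map_mul, map_pow, map_inv, FreeGroup.lift_apply_of]
      rw [← inv_pow, mul_inv_rev, inv_of sq_c, inv_of sq_d]; simpa only [mul_assoc] using e
    · have e := hrels ([5, 2, 6, 2, 6, 5, 6, 1, 6, 1]) (by decide +kernel)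
      simp only [ev_powW, ev_append, ev_cons, ev_nil, mul_one, x1, x2, x3, x4, x5, x6, x7, x8] at e
      simp only [map_mul, map_pow, map_inv, FreeGroup.lift_apply_of]
      simpa only [mul_assoc, mul_inv_rev, inv_of sq_c, inv_of sq_d] using e
    · have e := hrels ([6, 2, 5, 2, 5, 6, 5, 1, 5, 1]) (by decide +kernel)
      simp only [ev_powW, ev_append, ev_cons, ev_nil, mul_one, x1, x2, x3, x4, x5, x6, x7, x8] at e
      simp only [map_mul, map_pow, map_inv, FreeGroup.lift_apply_of]
      simpa only [mul_assoc, mul_inv_rev, inv_of sq_c, inv_of sq_d] using e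
    · have e := hrels (powW [4, 5, 6, 1] 5) (by decide +kernel)
      simp only [ev_powW, ev_append, ev_cons, ev_nil, mul_one, x1, x2, x3, x4, x5, x6, x7, x8] at e
      simp only [map_mul, map_pow, map_inv, FreeGroup.lift_apply_of]
      simpa only [mul_assoc] using e
    · have e := hrels ([1, 4, 5, 1, 5, 4, 1, 4, 5, 1, 5]) (by decide +kernel)
      simp only [ev_powW, ev_append, ev_cons, ev_nil, mul_one, x1, x2, x3, x4, x5, x6, x7, x8] at e
      simp only [map_mul, map_pow, map_inv, FreeGroup.lift_apply_of]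
      simpa only [mul_assoc, inv_of sq_c, inv_of sq_b] using e
    · have e := hrels ([1, 7, 6, 1, 6, 7, 1, 7, 6, 1, 6]) (by decide +kernel)
      simp only [ev_powW, ev_append, ev_cons, ev_nil, mul_one, x1, x2, x3, x4, x5, x6, x7, x8] at e
      simp only [map_mul, map_pow, map_inv, FreeGroup.lift_apply_of]
      simpa only [mul_assoc, inv_of sq_d, inv_of sq_e] using e

end

end Cfsg.Agent.H8.ONR
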