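import Cfsg.Agent.H8_SuzA
import Cfsg.Agent.H8_Suz1T
import Cfsg.Agent.H8_Suz2T
import Cfsg.Agent.H8_Suz3T
import Cfsg.Agent.H8_Suz4T
import Cfsg.Prelude.Def_Sporadic

set_option autoImplicit false
set_option maxRecDepth 100000

namespace Cfsg.Agent.H8.SuzM

open CE Net Act Cox CS SuzR Cfsg.Spor

abbrev RR : Set (FreeGroup Suz.Gen) := coxRelators Suz.edges ∪ {r | r ∈ Suz.extra}

/-- the letters in the presented group -/
noncomputable abbrev x : ℕ → Suz := xG RR lm

theorem hic : ∀ y, y < 16 → x (il ic y) = (x y)⁻¹ := by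
  have h := (words _ (lift_of_rel RR)).1
  rw [← xG_eq] at h
  exact h

theorem hrels : ∀ w ∈ rels, ev x w = 1 := by
  have h := (words _ (lift_of_rel RR)).2
  rw [← xG_eq] at h
  exact h

theorem h0 : x 0 = 1 := by
  unfold x xG
  simp [lm]

theorem sub_rels {rs : List (List ℕ)} (h : (rs.all fun w => rels.contains w) = true) : ∀ w ∈ rs, ev x w = 1 := by
  intro w hw
  rw [List.all_eq_true] at h
  have := h w hw
  rw [List.contains_iff_mem] at this
  exact hrels w this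

/-- subgroups generated by the first letters -/
noncomputable def Hk (k : ℕ) : Subgroup Suz := Subgroup.closure (x '' {y | 1 ≤ y ∧ y ≤ k})

theorem Hk_mono {i j : ℕ} (h : i ≤ j) : Hk i ≤ Hk j := by
  apply Subgroup.closure_mono
  apply Set.image_mono
  rintro y ⟨h1, h2⟩
  exact ⟨h1, h2.trans h⟩

theorem mem_Hk {k y : ℕ} (h1 : 1 ≤ y) (h2 : y ≤ k) : x y ∈ Hk k := Subgroup.subset_closure ⟨y, ⟨h1, h2⟩, rfl⟩

theorem Hk7 : Hk 7 = ⊤ := by
  apply closure_top
  intro a
  cases a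
  exacts [⟨1, by decide, rfl⟩, ⟨2, by decide, rfl⟩, ⟨3, by decide, rfl⟩, ⟨4, by decide, rfl⟩,
    ⟨5, by decide, rfl⟩, ⟨6, by decide, rfl⟩, ⟨7, by decide, rfl⟩]

theorem b1 : (Hk 6).relIndex (Hk 7) ≤ 1782 ∧ (Hk 6).relIndex (Hk 7) ≠ 0 :=
  Suz1T.bound hic h0 (sub_rels (by decide +kernel)) (by
    intro s hs
    simp only [Suz1T.L, List.mem_cons, List.not_mem_nil, or_false] at hs
    rcases hs with rfl | rfl | rfl | rfl | rfl | rfl <;> exact mem_Hk (by decide) (by decide))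

theorem b2 : (Hk 5).relIndex (Hk 6) ≤ 416 ∧ (Hk 5).relIndex (Hk 6) ≠ 0 :=
  Suz2T.bound hic h0 (sub_rels (by decide +kernel)) (by
    intro s hs
    simp only [Suz2T.L, List.mem_cons, List.not_mem_nil, or_false] at hs
    rcases hs with rfl | rfl | rfl | rfl | rfl <;> exact mem_Hk (by decide) (by decide))

theorem b3 : (Hk 4).relIndex (Hk 5) ≤ 280 ∧ (Hk 4).relIndex (Hk 5) ≠ 0 :=
  Suz3T.bound hic h0 (sub_rels (by decide +kernel)) (by
    intro s hs
    simp only [Suz3T.L, List.mem_cons, List.not_mem_nil, or_false] at hs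
    rcases hs with rfl | rfl | rfl | rfl <;> exact mem_Hk (by decide) (by decide))

theorem b4 : (⊥ : Subgroup Suz).relIndex (Hk 4) ≤ 2160 ∧ (⊥ : Subgroup Suz).relIndex (Hk 4) ≠ 0 :=
  Suz4T.bound hic h0 (sub_rels (by decide +kernel)) (by
    intro s hs
    simp [Suz4T.L] at hs)

theorem c4 : Nat.card (Hk 4) ≤ 2160 ∧ Nat.card (Hk 4) ≠ 0 := by
  have h := b4
  rwa [Subgroup.relIndex_bot_left] at h

theorem c5 : Nat.card (Hk 5) ≤ 280 * 2160 ∧ Nat.card (Hk 5) ≠ 0 :=
  card_le_of_relIndex (Hk_mono (by decide)) b3 c4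

theorem c6 : Nat.card (Hk 6) ≤ 416 * (280 * 2160) ∧ Nat.card (Hk 6) ≠ 0 :=
  card_le_of_relIndex (Hk_mono (by decide)) b2 c5

theorem c7 : Nat.card (Hk 7) ≤ 1782 * (416 * (280 * 2160)) ∧ Nat.card (Hk 7) ≠ 0 :=
  card_le_of_relIndex (Hk_mono (by decide)) b1 c6

theorem card_le : Nat.card Suz ≤ 448345497600 := by
  have h := c7.1
  rw [Hk7, Subgroup.card_top] at h
  exact h

instance instFiniteSuz : Finite Suz := by
  have h := c7.2
  rw [Hk7, Subgroup.card_top] at h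
  exact Nat.finite_of_card_ne_zero h

/-! ### The action on 1782 points -/

theorem hn : 1782 ≤ 2 ^ 11 := by decide

/-- images of the generators -/
noncomputable def fP : Suz.Gen → Equiv.Perm (Fin 1782)
  | .a => xP SuzA.sys hn SuzA.inv_ok 1
  | .b => xP SuzA.sys hn SuzA.inv_ok 2
  | .c => xP SuzA.sys hn SuzA.inv_ok 3
  | .d => xP SuzA.sys hn SuzA.inv_ok 4
  | .e => xP SuzA.sys hn SuzA.inv_ok 5
  | .f => xP SuzA.sys hn SuzA.inv_ok 6
  | .g => xP SuzA.sys hn SuzA.inv_ok 7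

theorem fP_x (y : ℕ) (hy : y < 16) : xF fP lm y = xP SuzA.sys hn SuzA.inv_ok y := by
  interval_cases y
  · rw [xP_eq_one _ _ _ _ rfl]; simp [xF, lm]
  · rw [x1]; rfl
  · rw [x2]; rfl
  · rw [x3]; rfl
  · rw [x4]; rfl
  · rw [x5]; rfl
  · rw [x6]; rfl
  · rw [x7]; rfl
  all_goals rw [xP_eq_one _ _ _ _ rfl]; simp [xF, lm]

theorem exists_phi : ∃ φ : Suz →* Equiv.Perm (Fin 1782), Compat φ x SuzA.L :=
  exists_action RR lm SuzA.sys hn SuzA.inv_ok SuzA.rel_ok (by decide +kernel) fP fP_x (lifts fP)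

/-- the action -/
noncomputable def phi : Suz →* Equiv.Perm (Fin 1782) := exists_phi.choose

theorem compat : Compat phi x SuzA.L := exists_phi.choose_spec

theorem main : Nat.card Suz = 448345497600 ∧ Function.Injective phi := by
  have h := order_eq (φ := phi) SuzA.sys
    (exists_g SuzA.sys hn compat SuzA.sg_ok (by decide +kernel)) SuzA.levs SuzA.chain
    (by rw [SuzA.prodM_levs]; exact card_le)
  rwa [SuzA.prodM_levs] at h

theorem simple : IsSimpleGroup Suz := by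
  refine simple_of_data (p := 11) (e := 1) SuzA.sys hn compat main.2 hic (by decide) (by decide) (by decide) SuzA.trans
    SuzA.hfix SuzA.orbs (by decide) (by decide) (by decide) (by decide) ?_ SuzA.pw_ok ?_
  · rw [main.1]; decide
  · apply closure_top
    intro a
    cases a
    exacts [⟨1, by decide, rfl⟩, ⟨2, by decide, rfl⟩, ⟨3, by decide, rfl⟩, ⟨4, by decide, rfl⟩,
      ⟨5, by decide, rfl⟩, ⟨6, by decide, rfl⟩, ⟨7, by decide, rfl⟩]

theorem isSuz : Cfsg.IsSuz Suz := ⟨simple, main.1⟩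

end Cfsg.Agent.H8.SuzM
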