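import Cfsg.Agent.H8_SuzM
import Cfsg.Agent.H8_SuzKT
import Cfsg.Agent.H8_SuzA_S0
import Cfsg.Agent.H8_Act2

set_option autoImplicit false
set_option maxRecDepth 100000
set_option linter.constructorNameAsVariable false

namespace Cfsg.Agent.H8.SuzM

open CE Net Act Cox CS SuzR Act2 Cfsg.Spor

/-- subgroups generated by lists of letters -/
noncomputable def Hl (l : List ℕ) : Subgroup Suz := Subgroup.closure (x '' {y | y ∈ l})

theorem Hl6 : Hl [1, 2, 3, 4, 5, 6] = Hk 6 := by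
  unfold Hl Hk
  congr 2
  ext y
  simp only [Set.mem_ofPred_eq, List.mem_cons, List.not_mem_nil, or_false]
  omega

theorem map_H6 : (Subgroup.closure ({Suz.a, Suz.b, Suz.c, Suz.d, Suz.e, Suz.f} : Set (FreeGroup Suz.Gen))).map
    (PresentedGroup.mk RR) = Hl [1, 2, 3, 4, 5, 6] := by
  apply map_closure_gens
  · intro s hs
    simp only [Set.mem_insert_iff, Set.mem_singleton_iff] at hs
    rcases hs with rfl | rfl | rfl | rfl | rfl | rfl
    exacts [⟨1, by decide, rfl⟩, ⟨2, by decide, rfl⟩, ⟨3, by decide, rfl⟩, ⟨4, by decide, rfl⟩,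
      ⟨5, by decide, rfl⟩, ⟨6, by decide, rfl⟩]
  · intro y hy
    simp only [List.mem_cons, List.not_mem_nil, or_false] at hy
    rcases hy with rfl | rfl | rfl | rfl | rfl | rfl <;> simp [lm]

theorem map_K : (Subgroup.closure ({Suz.a, Suz.b, Suz.c, Suz.d, Suz.f, Suz.g} : Set (FreeGroup Suz.Gen))).map
    (PresentedGroup.mk RR) = Hl [1, 2, 3, 4, 6, 7] := by
  apply map_closure_gens
  · intro s hs
    simp only [Set.mem_insert_iff, Set.mem_singleton_iff] at hs
    rcases hs with rfl | rfl | rfl | rfl | rfl | rfl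
    exacts [⟨1, by decide, rfl⟩, ⟨2, by decide, rfl⟩, ⟨3, by decide, rfl⟩, ⟨4, by decide, rfl⟩,
      ⟨6, by decide, rfl⟩, ⟨7, by decide, rfl⟩]
  · intro y hy
    simp only [List.mem_cons, List.not_mem_nil, or_false] at hy
    rcases hy with rfl | rfl | rfl | rfl | rfl | rfl <;> simp [lm]

theorem hn0 : 0 < 1782 := by decide

theorem htr : ∀ i : Fin 1782, ∃ g, phi g ⟨0, hn0⟩ = i :=
  trans_of SuzA.sys compat (by decide) hn0 SuzA.trans

theorem H6_index : (Hl [1, 2, 3, 4, 5, 6]).index = 1782 ∧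
    ∀ g, g ∈ Hl [1, 2, 3, 4, 5, 6] ↔ phi g ⟨0, hn0⟩ = ⟨0, hn0⟩ := by
  have h := b1
  rw [Hk7, Subgroup.relIndex_top_right] at h
  refine index_of_fix hn0 htr (fix_closure SuzA.sys compat (by decide) hn0 SuzA.hfix) ?_ ?_
  · exact Hl6 ▸ h.1
  · exact Hl6 ▸ h.2

theorem orb416 : ∃ q : Suz ⧸ Hl [1, 2, 3, 4, 5, 6], (MulAction.orbit (Hl [1, 2, 3, 4, 5, 6]) q).ncard = 416 :=
  orbit_ncard SuzA.sys compat (by decide) hn0 htr SuzA.hfix H6_index.2 (r := 30) (c := 1) (a := 1) (b := 417)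
    (by decide) (by decide) (by decide) (by decide +kernel) (by decide +kernel)

theorem orb1365 : ∃ q : Suz ⧸ Hl [1, 2, 3, 4, 5, 6], (MulAction.orbit (Hl [1, 2, 3, 4, 5, 6]) q).ncard = 1365 :=
  orbit_ncard SuzA.sys compat (by decide) hn0 htr SuzA.hfix H6_index.2 (r := 30) (c := 417) (a := 417) (b := 1782)
    (by decide) (by decide) (by decide) (by decide +kernel) (by decide +kernel)

/-! ### The subgroup `⟨a, b, c, d, f, g⟩` -/

theorem K_le : (Hk 4).relIndex (Hl [1, 2, 3, 4, 6, 7]) ≤ 9072 ∧ (Hk 4).relIndex (Hl [1, 2, 3, 4, 6, 7]) ≠ 0 := by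
  have h := SuzKT.bound (x := ren x [0, 1, 2, 3, 4, 6, 7]) (H := Hk 4)
    (ren_hic hic (by decide +kernel)) h0 (ren_rels hrels (by decide +kernel)) (by
      intro s hs
      simp only [SuzKT.L, List.mem_cons, List.not_mem_nil, or_false] at hs
      rcases hs with rfl | rfl | rfl | rfl <;> exact mem_Hk (by decide) (by decide))
  rw [ren_image [0, 1, 2, 3, 4, 6, 7] 6 [1, 2, 3, 4, 6, 7] (by decide) (by decide)] at h
  exact h

theorem K_card_le : Nat.card (Hl [1, 2, 3, 4, 6, 7]) ≤ 9072 * 2160 := by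
  refine (card_le_of_relIndex ?_ K_le c4).1
  unfold Hk Hl
  apply Subgroup.closure_mono
  apply Set.image_mono
  rintro y ⟨h1, h2⟩
  show y ∈ [1, 2, 3, 4, 6, 7]
  simp only [List.mem_cons, List.not_mem_nil, or_false]
  omega

theorem K_card_ge : 19595520 ≤ Nat.card (Hl [1, 2, 3, 4, 6, 7]) := by
  have h := sub_lower (L' := SuzA_S0.L) compat [1, 2, 3, 4, 6, 7] SuzA_S0.sub_ok SuzA_S0.sys hn SuzA_S0.sg_ok (by decide +kernel)
    SuzA_S0.chain
  rwa [SuzA_S0.prodM_levs] at h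

theorem K_index : (Hl [1, 2, 3, 4, 6, 7]).index = 22880 := by
  have h1 := (Hl [1, 2, 3, 4, 6, 7]).card_mul_index
  have h2 : Nat.card (Hl [1, 2, 3, 4, 6, 7]) = 19595520 := le_antisymm K_card_le K_card_ge
  rw [h2, main.1] at h1
  omega

end Cfsg.Agent.H8.SuzM
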