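import Cfsg.Agent.H8_Cox
import Cfsg.Prelude.Def_Spor_Suz

set_option autoImplicit false
set_option maxRecDepth 100000
set_option linter.unusedSimpArgs false
set_option linter.unusedVariables false

namespace Cfsg.Agent.H8.SuzR

open CE Net Act Cox Cfsg.Spor

theorem aux1 {K : Type} [Group K] {a z : K} (ha : a * a = 1) (e : a * z = 1) : a * z⁻¹ = 1 := by
  rw [eq_inv_of_mul_eq_one_right e, inv_inv]; exact ha

theorem aux2 {K : Type} [Group K] {a z : K} (ha : a * a = 1) (e : a * z⁻¹ = 1) : a * z = 1 := by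
  rw [← mul_inv_eq_one.1 e]; exact ha

/-- inverse letters -/
def ic : ℕ := 1985229328

/-- letters -/
def lm : List (FreeGroup Suz.Gen) := [1, Suz.a, Suz.b, Suz.c, Suz.d, Suz.e, Suz.f, Suz.g]

/-- relators -/
def rels : List (List ℕ) := [
  coxW 1 2 5,
  coxW 1 3 2,
  coxW 1 4 2,
  coxW 1 5 2,
  coxW 1 6 2,
  coxW 1 7 2,
  coxW 2 3 3,
  coxW 2 4 2,
  coxW 2 5 2,
  coxW 2 6 3,
  coxW 2 7 3,
  coxW 3 4 8,
  coxW 3 5 2,
  coxW 3 6 2,
  coxW 3 7 2,
  coxW 4 5 3,
  coxW 4 6 2,
  coxW 4 7 2,
  coxW 5 6 2,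
  coxW 5 7 2,
  coxW 6 7 4,
  [1] ++ powW [3, 4] 4,
  [1] ++ powW [6, 7] 2,
  powW [1, 2, 3, 6] 5,
  powW [2, 6, 7] 5,
  powW (powW [2, 3, 4, 3, 4] 5 ++ [5]) 3]

section
variable {K : Type} [Group K] (f : Suz.Gen → K)

theorem x1 : xF f lm 1 = f .a := by simp [xF, lm]
theorem x2 : xF f lm 2 = f .b := by simp [xF, lm]
theorem x3 : xF f lm 3 = f .c := by simp [xF, lm]
theorem x4 : xF f lm 4 = f .d := by simp [xF, lm]
theorem x5 : xF f lm 5 = f .e := by simp [xF, lm]
theorem x6 : xF f lm 6 = f .f := by simp [xF, lm]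
theorem x7 : xF f lm 7 = f .g := by simp [xF, lm]

theorem words (h : ∀ r ∈ coxRelators Suz.edges ∪ {r | r ∈ Suz.extra}, FreeGroup.lift f r = 1) :
    (∀ y, y < 16 → xF f lm (il ic y) = (xF f lm y)⁻¹) ∧ ∀ w ∈ rels, ev (xF f lm) w = 1 := by
  have hcox := (cox_iff Suz.edges f).1 (fun r hr => h r (Or.inl hr))
  have sq_a : f .a * f .a = 1 := by simpa [coxLabel] using hcox .a (by decide) .a (by decide)
  have sq_b : f .b * f .b = 1 := by simpa [coxLabel] using hcox .b (by decide) .b (by decide)
  have sq_c : f .c * f .c = 1 := by simpa [coxLabel] using hcox .c (by decide) .c (by decide)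
  have sq_d : f .d * f .d = 1 := by simpa [coxLabel] using hcox .d (by decide) .d (by decide)
  have sq_e : f .e * f .e = 1 := by simpa [coxLabel] using hcox .e (by decide) .e (by decide)
  have sq_f : f .f * f .f = 1 := by simpa [coxLabel] using hcox .f (by decide) .f (by decide)
  have sq_g : f .g * f .g = 1 := by simpa [coxLabel] using hcox .g (by decide) .g (by decide)
  have pr_a_b : (f .a * f .b) ^ 5 = 1 := hcox .a (by decide) .b (by decide)
  have pr_a_c : (f .a * f .c) ^ 2 = 1 := hcox .a (by decide) .c (by decide)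
  have pr_a_d : (f .a * f .d) ^ 2 = 1 := hcox .a (by decide) .d (by decide)
  have pr_a_e : (f .a * f .e) ^ 2 = 1 := hcox .a (by decide) .e (by decide)
  have pr_a_f : (f .a * f .f) ^ 2 = 1 := hcox .a (by decide) .f (by decide)
  have pr_a_g : (f .a * f .g) ^ 2 = 1 := hcox .a (by decide) .g (by decide)
  have pr_b_c : (f .b * f .c) ^ 3 = 1 := hcox .b (by decide) .c (by decide)
  have pr_b_d : (f .b * f .d) ^ 2 = 1 := hcox .b (by decide) .d (by decide)
  have pr_b_e : (f .b * f .e) ^ 2 = 1 := hcox .b (by decide) .e (by decide)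
  have pr_b_f : (f .b * f .f) ^ 3 = 1 := hcox .b (by decide) .f (by decide)
  have pr_b_g : (f .b * f .g) ^ 3 = 1 := hcox .b (by decide) .g (by decide)
  have pr_c_d : (f .c * f .d) ^ 8 = 1 := hcox .c (by decide) .d (by decide)
  have pr_c_e : (f .c * f .e) ^ 2 = 1 := hcox .c (by decide) .e (by decide)
  have pr_c_f : (f .c * f .f) ^ 2 = 1 := hcox .c (by decide) .f (by decide)
  have pr_c_g : (f .c * f .g) ^ 2 = 1 := hcox .c (by decide) .g (by decide)
  have pr_d_e : (f .d * f .e) ^ 3 = 1 := hcox .d (by decide) .e (by decide)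
  have pr_d_f : (f .d * f .f) ^ 2 = 1 := hcox .d (by decide) .f (by decide)
  have pr_d_g : (f .d * f .g) ^ 2 = 1 := hcox .d (by decide) .g (by decide)
  have pr_e_f : (f .e * f .f) ^ 2 = 1 := hcox .e (by decide) .f (by decide)
  have pr_e_g : (f .e * f .g) ^ 2 = 1 := hcox .e (by decide) .g (by decide)
  have pr_f_g : (f .f * f .g) ^ 4 = 1 := hcox .f (by decide) .g (by decide)
  have e0 := h (Suz.a * ((Suz.c * Suz.d) ^ 4)⁻¹) (Or.inr (by simp [Suz.extra]))
  have e1 := h (Suz.a * ((Suz.f * Suz.g) ^ 2)⁻¹) (Or.inr (by simp [Suz.extra]))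
  have e2 := h ((Suz.a * Suz.b * Suz.c * Suz.f) ^ 5) (Or.inr (by simp [Suz.extra]))
  have e3 := h ((Suz.b * Suz.f * Suz.g) ^ 5) (Or.inr (by simp [Suz.extra]))
  have e4 := h (((Suz.b * Suz.c * Suz.d * Suz.c * Suz.d) ^ 5 * Suz.e) ^ 3) (Or.inr (by simp [Suz.extra]))
  simp only [map_mul, map_pow, map_inv, FreeGroup.lift_apply_of] at e0 e1 e2 e3 e4
  constructor
  · intro y hy
    interval_cases y
    · rw [show il ic 0 = 0 by decide]; simp [xF, lm]
    · rw [show il ic 1 = 1 by decide, x1]; exact eq_inv_of_mul_eq_one_left sq_a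
    · rw [show il ic 2 = 2 by decide, x2]; exact eq_inv_of_mul_eq_one_left sq_b
    · rw [show il ic 3 = 3 by decide, x3]; exact eq_inv_of_mul_eq_one_left sq_c
    · rw [show il ic 4 = 4 by decide, x4]; exact eq_inv_of_mul_eq_one_left sq_d
    · rw [show il ic 5 = 5 by decide, x5]; exact eq_inv_of_mul_eq_one_left sq_e
    · rw [show il ic 6 = 6 by decide, x6]; exact eq_inv_of_mul_eq_one_left sq_f
    · rw [show il ic 7 = 7 by decide, x7]; exact eq_inv_of_mul_eq_one_left sq_g
    · rw [show il ic 8 = 0 by decide]; simp [xF, lm]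
    · rw [show il ic 9 = 0 by decide]; simp [xF, lm]
    · rw [show il ic 10 = 0 by decide]; simp [xF, lm]
    · rw [show il ic 11 = 0 by decide]; simp [xF, lm]
    · rw [show il ic 12 = 0 by decide]; simp [xF, lm]
    · rw [show il ic 13 = 0 by decide]; simp [xF, lm]
    · rw [show il ic 14 = 0 by decide]; simp [xF, lm]
    · rw [show il ic 15 = 0 by decide]; simp [xF, lm]
  · intro w hw
    simp only [rels, List.mem_cons, List.not_mem_nil, or_false] at hw
    rcases hw with rfl | rfl | rfl | rfl | rfl | rfl | rfl | rfl | rfl | rfl | rfl | rfl | rfl | rfl | rfl | rfl | rfl | rfl | rfl | rfl | rfl | rfl | rfl | rfl | rfl | rfl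
    · rw [ev_coxW, x1, x2]; exact pr_a_b
    · rw [ev_coxW, x1, x3]; exact pr_a_c
    · rw [ev_coxW, x1, x4]; exact pr_a_d
    · rw [ev_coxW, x1, x5]; exact pr_a_e
    · rw [ev_coxW, x1, x6]; exact pr_a_f
    · rw [ev_coxW, x1, x7]; exact pr_a_g
    · rw [ev_coxW, x2, x3]; exact pr_b_c
    · rw [ev_coxW, x2, x4]; exact pr_b_d
    · rw [ev_coxW, x2, x5]; exact pr_b_e
    · rw [ev_coxW, x2, x6]; exact pr_b_f
    · rw [ev_coxW, x2, x7]; exact pr_b_g
    · rw [ev_coxW, x3, x4]; exact pr_c_d
    · rw [ev_coxW, x3, x5]; exact pr_c_e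
    · rw [ev_coxW, x3, x6]; exact pr_c_f
    · rw [ev_coxW, x3, x7]; exact pr_c_g
    · rw [ev_coxW, x4, x5]; exact pr_d_e
    · rw [ev_coxW, x4, x6]; exact pr_d_f
    · rw [ev_coxW, x4, x7]; exact pr_d_g
    · rw [ev_coxW, x5, x6]; exact pr_e_f
    · rw [ev_coxW, x5, x7]; exact pr_e_g
    · rw [ev_coxW, x6, x7]; exact pr_f_g
    · simp only [ev_powW, ev_append, ev_cons, ev_nil, mul_one, x1, x2, x3, x4, x5, x6, x7]
      exact aux2 sq_a e0
    · simp only [ev_powW, ev_append, ev_cons, ev_nil, mul_one, x1, x2, x3, x4, x5, x6, x7]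
      exact aux2 sq_a e1
    · simp only [ev_powW, ev_append, ev_cons, ev_nil, mul_one, x1, x2, x3, x4, x5, x6, x7]
      simpa only [mul_assoc] using e2
    · simp only [ev_powW, ev_append, ev_cons, ev_nil, mul_one, x1, x2, x3, x4, x5, x6, x7]
      simpa only [mul_assoc] using e3
    · simp only [ev_powW, ev_append, ev_cons, ev_nil, mul_one, x1, x2, x3, x4, x5, x6, x7]
      simpa only [mul_assoc] using e4

theorem lifts (hic : ∀ y, y < 16 → xF f lm (il ic y) = (xF f lm y)⁻¹)
    (hrels : ∀ w ∈ rels, ev (xF f lm) w = 1) :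
    ∀ r ∈ coxRelators Suz.edges ∪ {r | r ∈ Suz.extra}, FreeGroup.lift f r = 1 := by
  have sq_a : f .a * f .a = 1 := by
    have := hic 1 (by decide)
    rw [show il ic 1 = 1 by decide, x1] at this
    exact mul_eq_one_iff_eq_inv.2 this
  have sq_b : f .b * f .b = 1 := by
    have := hic 2 (by decide)
    rw [show il ic 2 = 2 by decide, x2] at this
    exact mul_eq_one_iff_eq_inv.2 this
  have sq_c : f .c * f .c = 1 := by
    have := hic 3 (by decide)
    rw [show il ic 3 = 3 by decide, x3] at this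
    exact mul_eq_one_iff_eq_inv.2 this
  have sq_d : f .d * f .d = 1 := by
    have := hic 4 (by decide)
    rw [show il ic 4 = 4 by decide, x4] at this
    exact mul_eq_one_iff_eq_inv.2 this
  have sq_e : f .e * f .e = 1 := by
    have := hic 5 (by decide)
    rw [show il ic 5 = 5 by decide, x5] at this
    exact mul_eq_one_iff_eq_inv.2 this
  have sq_f : f .f * f .f = 1 := by
    have := hic 6 (by decide)
    rw [show il ic 6 = 6 by decide, x6] at this
    exact mul_eq_one_iff_eq_inv.2 this
  have sq_g : f .g * f .g = 1 := by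
    have := hic 7 (by decide)
    rw [show il ic 7 = 7 by decide, x7] at this
    exact mul_eq_one_iff_eq_inv.2 this
  rintro r (hr | hr)
  · refine (cox_iff Suz.edges f).2 ?_ r hr
    intro p hp q hq
    have y1 := x1 f
    have y2 := x2 f
    have y3 := x3 f
    have y4 := x4 f
    have y5 := x5 f
    have y6 := x6 f
    have y7 := x7 f
    cases p <;> cases q
    · rw [← y1]; exact pairOk_sound hrels (by rw [y1]; exact sq_a) (by decide +kernel)
    · rw [← y1, ← y2]; exact pairOk_sound hrels (by rw [y1]; exact sq_a) (by decide +kernel)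
    · rw [← y1, ← y3]; exact pairOk_sound hrels (by rw [y1]; exact sq_a) (by decide +kernel)
    · rw [← y1, ← y4]; exact pairOk_sound hrels (by rw [y1]; exact sq_a) (by decide +kernel)
    · rw [← y1, ← y5]; exact pairOk_sound hrels (by rw [y1]; exact sq_a) (by decide +kernel)
    · rw [← y1, ← y6]; exact pairOk_sound hrels (by rw [y1]; exact sq_a) (by decide +kernel)
    · rw [← y1, ← y7]; exact pairOk_sound hrels (by rw [y1]; exact sq_a) (by decide +kernel)
    · rw [← y2, ← y1]; exact pairOk_sound hrels (by rw [y2]; exact sq_b) (by decide +kernel)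
    · rw [← y2]; exact pairOk_sound hrels (by rw [y2]; exact sq_b) (by decide +kernel)
    · rw [← y2, ← y3]; exact pairOk_sound hrels (by rw [y2]; exact sq_b) (by decide +kernel)
    · rw [← y2, ← y4]; exact pairOk_sound hrels (by rw [y2]; exact sq_b) (by decide +kernel)
    · rw [← y2, ← y5]; exact pairOk_sound hrels (by rw [y2]; exact sq_b) (by decide +kernel)
    · rw [← y2, ← y6]; exact pairOk_sound hrels (by rw [y2]; exact sq_b) (by decide +kernel)
    · rw [← y2, ← y7]; exact pairOk_sound hrels (by rw [y2]; exact sq_b) (by decide +kernel)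
    · rw [← y3, ← y1]; exact pairOk_sound hrels (by rw [y3]; exact sq_c) (by decide +kernel)
    · rw [← y3, ← y2]; exact pairOk_sound hrels (by rw [y3]; exact sq_c) (by decide +kernel)
    · rw [← y3]; exact pairOk_sound hrels (by rw [y3]; exact sq_c) (by decide +kernel)
    · rw [← y3, ← y4]; exact pairOk_sound hrels (by rw [y3]; exact sq_c) (by decide +kernel)
    · rw [← y3, ← y5]; exact pairOk_sound hrels (by rw [y3]; exact sq_c) (by decide +kernel)
    · rw [← y3, ← y6]; exact pairOk_sound hrels (by rw [y3]; exact sq_c) (by decide +kernel)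
    · rw [← y3, ← y7]; exact pairOk_sound hrels (by rw [y3]; exact sq_c) (by decide +kernel)
    · rw [← y4, ← y1]; exact pairOk_sound hrels (by rw [y4]; exact sq_d) (by decide +kernel)
    · rw [← y4, ← y2]; exact pairOk_sound hrels (by rw [y4]; exact sq_d) (by decide +kernel)
    · rw [← y4, ← y3]; exact pairOk_sound hrels (by rw [y4]; exact sq_d) (by decide +kernel)
    · rw [← y4]; exact pairOk_sound hrels (by rw [y4]; exact sq_d) (by decide +kernel)
    · rw [← y4, ← y5]; exact pairOk_sound hrels (by rw [y4]; exact sq_d) (by decide +kernel)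
    · rw [← y4, ← y6]; exact pairOk_sound hrels (by rw [y4]; exact sq_d) (by decide +kernel)
    · rw [← y4, ← y7]; exact pairOk_sound hrels (by rw [y4]; exact sq_d) (by decide +kernel)
    · rw [← y5, ← y1]; exact pairOk_sound hrels (by rw [y5]; exact sq_e) (by decide +kernel)
    · rw [← y5, ← y2]; exact pairOk_sound hrels (by rw [y5]; exact sq_e) (by decide +kernel)
    · rw [← y5, ← y3]; exact pairOk_sound hrels (by rw [y5]; exact sq_e) (by decide +kernel)
    · rw [← y5, ← y4]; exact pairOk_sound hrels (by rw [y5]; exact sq_e) (by decide +kernel)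
    · rw [← y5]; exact pairOk_sound hrels (by rw [y5]; exact sq_e) (by decide +kernel)
    · rw [← y5, ← y6]; exact pairOk_sound hrels (by rw [y5]; exact sq_e) (by decide +kernel)
    · rw [← y5, ← y7]; exact pairOk_sound hrels (by rw [y5]; exact sq_e) (by decide +kernel)
    · rw [← y6, ← y1]; exact pairOk_sound hrels (by rw [y6]; exact sq_f) (by decide +kernel)
    · rw [← y6, ← y2]; exact pairOk_sound hrels (by rw [y6]; exact sq_f) (by decide +kernel)
    · rw [← y6, ← y3]; exact pairOk_sound hrels (by rw [y6]; exact sq_f) (by decide +kernel)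
    · rw [← y6, ← y4]; exact pairOk_sound hrels (by rw [y6]; exact sq_f) (by decide +kernel)
    · rw [← y6, ← y5]; exact pairOk_sound hrels (by rw [y6]; exact sq_f) (by decide +kernel)
    · rw [← y6]; exact pairOk_sound hrels (by rw [y6]; exact sq_f) (by decide +kernel)
    · rw [← y6, ← y7]; exact pairOk_sound hrels (by rw [y6]; exact sq_f) (by decide +kernel)
    · rw [← y7, ← y1]; exact pairOk_sound hrels (by rw [y7]; exact sq_g) (by decide +kernel)
    · rw [← y7, ← y2]; exact pairOk_sound hrels (by rw [y7]; exact sq_g) (by decide +kernel)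
    · rw [← y7, ← y3]; exact pairOk_sound hrels (by rw [y7]; exact sq_g) (by decide +kernel)
    · rw [← y7, ← y4]; exact pairOk_sound hrels (by rw [y7]; exact sq_g) (by decide +kernel)
    · rw [← y7, ← y5]; exact pairOk_sound hrels (by rw [y7]; exact sq_g) (by decide +kernel)
    · rw [← y7, ← y6]; exact pairOk_sound hrels (by rw [y7]; exact sq_g) (by decide +kernel)
    · rw [← y7]; exact pairOk_sound hrels (by rw [y7]; exact sq_g) (by decide +kernel)





  · simp only [Set.mem_ofPred_eq, Suz.extra, List.mem_cons, List.not_mem_nil, or_false] at hr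
    rcases hr with rfl | rfl | rfl | rfl | rfl
    · have e := hrels ([1] ++ powW [3, 4] 4) (by decide +kernel)
      simp only [ev_powW, ev_append, ev_cons, ev_nil, mul_one, x1, x2, x3, x4, x5, x6, x7] at e
      simp only [map_mul, map_pow, map_inv, FreeGroup.lift_apply_of]
      exact aux1 sq_a e
    · have e := hrels ([1] ++ powW [6, 7] 2) (by decide +kernel)
      simp only [ev_powW, ev_append, ev_cons, ev_nil, mul_one, x1, x2, x3, x4, x5, x6, x7] at e
      simp only [map_mul, map_pow, map_inv, FreeGroup.lift_apply_of]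
      exact aux1 sq_a e
    · have e := hrels (powW [1, 2, 3, 6] 5) (by decide +kernel)
      simp only [ev_powW, ev_append, ev_cons, ev_nil, mul_one, x1, x2, x3, x4, x5, x6, x7] at e
      simp only [map_mul, map_pow, map_inv, FreeGroup.lift_apply_of]
      simpa only [mul_assoc] using e
    · have e := hrels (powW [2, 6, 7] 5) (by decide +kernel)
      simp only [ev_powW, ev_append, ev_cons, ev_nil, mul_one, x1, x2, x3, x4, x5, x6, x7] at e
      simp only [map_mul, map_pow, map_inv, FreeGroup.lift_apply_of]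
      simpa only [mul_assoc] using e
    · have e := hrels (powW (powW [2, 3, 4, 3, 4] 5 ++ [5]) 3) (by decide +kernel)
      simp only [ev_powW, ev_append, ev_cons, ev_nil, mul_one, x1, x2, x3, x4, x5, x6, x7] at e
      simp only [map_mul, map_pow, map_inv, FreeGroup.lift_apply_of]
      simpa only [mul_assoc] using e

end

end Cfsg.Agent.H8.SuzR
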