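import Mathlib
import Cfsg.Agent.H9_BrSC
import Cfsg.Agent.H3_CharMult

/-!
# Exceptional characters of small degree
-/

set_option autoImplicit false

open scoped ComplexConjugate

namespace Cfsg.Agent.H9.BrSC

open Cfsg Cfsg.Agent.H3.CharIrr Cfsg.Agent.H3.CharComplete Cfsg.Agent.H3.CharMult Cfsg.Agent.H10.Char Cfsg.Agent.H10.BlockKer
  Cfsg.Agent.H9.BrVec Cfsg.Agent.H9.BrMain Cfsg.Agent.H9.BrThm Cfsg.Agent.H9.BrCor

variable {G : Type*} [Group G] [Fintype G] {p : ℕ} [hp : Fact p.Prime] {M : Ideal AlgInt} {z : G}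

/-- Parseval on the cyclic subgroup -/
theorem parseval (hzp : z ^ p = 1) (χ : IrrCharacter G) :
    (p : ℂ)⁻¹ * ∑ i : ZMod p, (χ : G → ℂ) (zp p z i) * conj ((χ : G → ℂ) (zp p z i)) = ∑ a : ZMod p, (mu hzp χ a : ℂ) ^ 2 := by
  have h1 : ∀ i : ZMod p, (χ : G → ℂ) (zp p z i) * conj ((χ : G → ℂ) (zp p z i)) =
      ∑ a : ZMod p, (mu hzp χ a : ℂ) * ((χ : G → ℂ) (zp p z i) * ee p (-(a * i))) := by
    intro i
    conv_lhs => rw [char_eq hzp χ i]
    rw [map_sum, Finset.mul_sum]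
    apply Finset.sum_congr rfl
    intro a _
    rw [map_mul, ee_conj, Complex.conj_natCast, ← char_eq hzp χ i]
    ring
  rw [Finset.sum_congr rfl fun i _ => h1 i, Finset.sum_comm, Finset.mul_sum]
  apply Finset.sum_congr rfl
  intro a _
  rw [← Finset.mul_sum, sq]
  conv_rhs => rw [mu_eq hzp χ a]
  rw [mu_eq hzp χ a]
  ring

/-- the tensor square estimate -/
theorem tensor_bound [Fintype (IrrCharacter G)] (hz : orderOf z = p) (hzp : z ^ p = 1) (Ty : Types hz hzp)
    (hperf : ∀ χ : IrrCharacter G, charDegree (χ : G → ℂ) = 1 → χ = triv G) (hε : Ty.ε = 1)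
    (j0 : (ZMod p)ˣ ⧸ (BrMain.om hz).range) (hL0 : mu hzp (Ty.L j0) 0 = 0)
    (he : Nat.card (BrMain.om hz).range ≠ 1) : p ≤ 2 * (Nat.card (BrMain.om hz).range + 1) := by
  classical
  set e := Nat.card (BrMain.om hz).range with hedef
  have hdegL : ∀ j, charDegree (Ty.L j : G → ℂ) = e := by
    intro j
    rw [Ty.deg j j0]
    have e1 := exc_degree hzp (BrMain.om hz).range j0 (Ty.on j0) (Ty.off j0)
    rw [hL0, hε, ← hedef, Nat.cast_zero, mul_zero, zero_add, one_mul] at e1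
    exact_mod_cast e1
  have hmuL : ∀ j, mu hzp (Ty.L j) 0 = 0 := by
    intro j
    have e1 := exc_degree hzp (BrMain.om hz).range j (Ty.on j) (Ty.off j)
    rw [hdegL j, hε, ← hedef] at e1
    have h1 : (p : ℤ) * mu hzp (Ty.L j) 0 = 0 := by linarith
    rcases mul_eq_zero.1 h1 with h | h
    · exact absurd (by exact_mod_cast h) hp.out.ne_zero
    · exact_mod_cast h
  -- the square
  let φ : G → ℂ := fun g => (Ty.L j0 : G → ℂ) g * conj ((Ty.L j0 : G → ℂ) g)
  have hφ : IsCharacter G φ := IsChar.mul (IsIrr.isCharacter (Ty.L j0).2) (IsChar.conj (IsIrr.isCharacter (Ty.L j0).2))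
  obtain ⟨n, hn, hsum⟩ := IsChar.eq_sum_nat hφ
  have hφg : ∀ g, φ g = ∑ ψ : IrrCharacter G, (n ψ : ℂ) * (ψ : G → ℂ) g := by
    intro g
    conv_lhs => rw [hsum]
    simp [Finset.sum_apply]
  have hn1 : n (triv G) = 1 := by
    have h1 : (n (triv G) : ℂ) = 1 := by
      rw [← hn, ← ci_irr_self (Ty.L j0).2]
      unfold classInner
      congr 1
      apply Finset.sum_congr rfl
      intro g _
      rw [triv_coe, map_one, mul_one]
    exact_mod_cast h1
  -- degrees
  have hdeg : ∑ ψ : IrrCharacter G, n ψ * charDegree (ψ : G → ℂ) = e ^ 2 := by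
    have h1 := hφg 1
    have h2 : φ 1 = (e : ℂ) ^ 2 := by
      change (Ty.L j0 : G → ℂ) 1 * conj ((Ty.L j0 : G → ℂ) 1) = _
      rw [← charDegree_eq (Ty.L j0).2, hdegL, Complex.conj_natCast, sq]
    rw [h2] at h1
    have h3 : ((e ^ 2 : ℕ) : ℂ) = ((∑ ψ : IrrCharacter G, n ψ * charDegree (ψ : G → ℂ) : ℕ) : ℂ) := by
      push_cast
      rw [h1]
      exact Finset.sum_congr rfl fun ψ _ => by rw [charDegree_eq ψ.2]
    exact_mod_cast h3.symm
  -- fixed points
  have hfix : ∑ ψ : IrrCharacter G, n ψ * mu hzp ψ 0 = e := by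
    have h1 := sum_mult hzp (fun ψ => (n ψ : ℂ)) φ hφg 0
    have h2 : (p : ℂ)⁻¹ * ∑ i : ZMod p, φ (zp p z i) * ee p (-(0 * i)) = ∑ a : ZMod p, (mu hzp (Ty.L j0) a : ℂ) ^ 2 := by
      rw [← parseval hzp]
      congr 1
      apply Finset.sum_congr rfl
      intro i _
      rw [zero_mul, neg_zero, ee_zero, mul_one]
    rw [h2] at h1
    have h3 : ∀ a : ZMod p, (mu hzp (Ty.L j0) a) ^ 2 = mu hzp (Ty.L j0) a := by
      intro a
      by_cases ha : a = 0
      · rw [ha, hL0]; rfl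
      · by_cases hj : ((Units.mk0 a ha : (ZMod p)ˣ) : (ZMod p)ˣ ⧸ (BrMain.om hz).range) = j0
        · have h4 := Ty.on j0 _ hj
          unfold vv at h4
          rw [hL0, hε] at h4
          have h5 : ((Units.mk0 a ha : (ZMod p)ˣ) : ZMod p) = a := rfl
          rw [h5] at h4
          have h6 : mu hzp (Ty.L j0) a = 1 := by omega
          rw [h6]; rfl
        · have h4 := Ty.off j0 _ hj
          unfold vv at h4
          rw [hL0] at h4
          have h5 : ((Units.mk0 a ha : (ZMod p)ˣ) : ZMod p) = a := rfl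
          rw [h5] at h4
          have h6 : mu hzp (Ty.L j0) a = 0 := by omega
          rw [h6]; rfl
    have h4 : ((∑ ψ : IrrCharacter G, n ψ * mu hzp ψ 0 : ℕ) : ℂ) = ((e : ℕ) : ℂ) := by
      push_cast
      rw [h1, ← hdegL j0, deg_eq hzp]
      push_cast
      apply Finset.sum_congr rfl
      intro a _
      exact_mod_cast h3 a
    exact_mod_cast h4
  -- the estimate for every nontrivial constituent
  have hest : ∀ ψ : IrrCharacter G, ψ ≠ triv G → p * mu hzp ψ 0 ≤ 2 * charDegree (ψ : G → ℂ) := by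
    intro ψ hψ
    have hp1 := hp.out.one_lt
    rcases Ty.all ψ with ⟨d, hd, h⟩ | ⟨j, h⟩ | h
    · have h1 := nonexc_degree hzp h
      rcases hd with rfl | rfl
      · have h2 : mu hzp ψ 0 ≠ 1 := by
          intro h3
          apply hψ
          apply hperf
          rw [h3] at h1
          push_cast at h1
          omega
        rcases Nat.eq_zero_or_pos (mu hzp ψ 0) with h3 | h3
        · rw [h3, mul_zero]; omega
        · have h4 : (2 : ℤ) ≤ mu hzp ψ 0 := by omega
          have h5 : (p : ℤ) * mu hzp ψ 0 ≤ 2 * charDegree (ψ : G → ℂ) := by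
            rw [h1]
            nlinarith
          exact_mod_cast h5
      · have h5 : (p : ℤ) * mu hzp ψ 0 ≤ 2 * charDegree (ψ : G → ℂ) := by
          rw [h1]
          have : (0 : ℤ) ≤ mu hzp ψ 0 := by positivity
          nlinarith
        exact_mod_cast h5
    · rw [← h, hmuL, mul_zero]; omega
    · have h1 := nonexc_degree hzp h
      have h5 : (p : ℤ) * mu hzp ψ 0 ≤ 2 * charDegree (ψ : G → ℂ) := by
        rw [h1]
        have : (0 : ℤ) ≤ mu hzp ψ 0 := by positivity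
        nlinarith
      exact_mod_cast h5
  -- summing up
  have hdt : charDegree ((triv G : IrrCharacter G) : G → ℂ) = 1 := by
    have h1 := charDegree_eq (triv G).2
    rw [triv_coe] at h1
    exact_mod_cast h1
  rw [← Finset.add_sum_erase _ _ (Finset.mem_univ (triv G)), hn1, one_mul] at hdeg hfix
  rw [hdt] at hdeg
  rw [mu_triv_zero] at hfix
  have hle : ∑ ψ ∈ Finset.univ.erase (triv G), p * (n ψ * mu hzp ψ 0) ≤
      ∑ ψ ∈ Finset.univ.erase (triv G), 2 * (n ψ * charDegree (ψ : G → ℂ)) := by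
    apply Finset.sum_le_sum
    intro ψ hψ
    have h1 := hest ψ (Finset.ne_of_mem_erase hψ)
    calc p * (n ψ * mu hzp ψ 0) = n ψ * (p * mu hzp ψ 0) := by ring
      _ ≤ n ψ * (2 * charDegree (ψ : G → ℂ)) := Nat.mul_le_mul_left _ h1
      _ = _ := by ring
  rw [← Finset.mul_sum, ← Finset.mul_sum] at hle
  have he0 : 0 < e := Nat.card_pos
  obtain ⟨f, hf⟩ : ∃ f, e = f + 2 := ⟨e - 2, by omega⟩
  rw [hf] at hdeg hfix ⊢
  have h1 : ∑ ψ ∈ Finset.univ.erase (triv G), n ψ * mu hzp ψ 0 = f + 1 := by omega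
  have h2 : ∑ ψ ∈ Finset.univ.erase (triv G), n ψ * charDegree (ψ : G → ℂ) = (f + 1) * (f + 3) := by
    have : (f + 2) ^ 2 = 1 + (f + 1) * (f + 3) := by ring
    omega
  rw [h1, h2] at hle
  have h3 : (f + 1) * p ≤ (f + 1) * (2 * (f + 2 + 1)) := by
    calc (f + 1) * p = p * (f + 1) := by ring
      _ ≤ 2 * ((f + 1) * (f + 3)) := hle
      _ = _ := by ring
  exact Nat.le_of_mul_le_mul_left h3 (Nat.succ_pos f)

end Cfsg.Agent.H9.BrSC
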