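import Mathlib
import Cfsg.Agent.H9_BrSC2
import Cfsg.Agent.H26_Kernel
import Cfsg.Agent.H3_CharGal
import Cfsg.Agent.H3_GalProd

/-!
H9_BT1: Brauer-Tuan theorem, part 1: p-regular elements of C(P) lie in the kernel.
-/

set_option autoImplicit false

open scoped ComplexConjugate

namespace Cfsg.Agent.H9.BT

open Cfsg Cfsg.Agent.H3.CharIrr Cfsg.Agent.H3.CharComplete Cfsg.Agent.H10.Char Cfsg.Agent.H10.BlockKer
  Cfsg.Agent.H9.BrVec Cfsg.Agent.H9.BrMain Cfsg.Agent.H9.BrThm Cfsg.Agent.H9.BrCor Cfsg.Agent.H9.BrSC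

variable {G : Type*} [Group G] [Fintype G] {p : ℕ} [hp : Fact p.Prime] {M : Ideal AlgInt} {z : G}

theorem fix_of_mu_zero (hM : IsPModular p M) (hz : orderOf z = p) (hzp : z ^ p = 1)
    (hsyl : ¬ p ∣ (Subgroup.zpowers z).index) {χ : IrrCharacter G} (hχ : χ ∈ principalBlock M G) {a : ZMod p}
    (ha : mu hzp χ a = 0) {y : G} (hy : y * z = z * y) (hyp : ¬ p ∣ orderOf y) :
    (χ : G → ℂ) y = (χ : G → ℂ) 1 := by
  classical
  obtain ⟨n, ρ, hρ, hχρ⟩ := χ.2
  have hχv : ∀ g, (χ : G → ℂ) g = LinearMap.trace ℂ _ (ρ g) := by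
    intro g; rw [← hχρ]; rfl
  set E : Module.End ℂ (Fin n → ℂ) := ∑ i : ZMod p, ee p (-(a * i)) • ρ (zp p z i) with hE
  have hp0 : (p : ℂ) ≠ 0 := p_ne
  have hρE : ∀ i : ZMod p, ρ (zp p z i) * E = ee p (a * i) • E := by
    intro i
    rw [hE, Finset.mul_sum, Finset.smul_sum]
    rw [← Equiv.sum_comp (Equiv.addLeft i) (fun j => ee p (a * i) • ee p (-(a * j)) • ρ (zp p z j))]
    apply Finset.sum_congr rfl
    intro j _
    rw [Equiv.coe_addLeft, mul_smul_comm, ← map_mul, ← zp_add hzp, smul_smul, ← ee_add]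
    congr 2
    ring
  have hEE : E * E = (p : ℂ) • E := by
    conv_lhs => rw [hE, Finset.sum_mul]
    have : ∀ i : ZMod p, ee p (-(a * i)) • ρ (zp p z i) * E = E := by
      intro i
      rw [smul_mul_assoc, hρE, smul_smul, ← ee_add, neg_add_cancel, ee_zero, one_smul]
    rw [Finset.sum_congr rfl fun i _ => this i, Finset.sum_const, Finset.card_univ, ZMod.card,
      ← Nat.cast_smul_eq_nsmul ℂ]
  have htr : LinearMap.trace ℂ _ E = 0 := by
    rw [hE, map_sum]
    have h1 := mu_eq hzp χ a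
    rw [ha, Nat.cast_zero, eq_comm, mul_eq_zero, or_iff_right (inv_ne_zero hp0)] at h1
    rw [← h1]
    apply Finset.sum_congr rfl
    intro i _
    rw [map_smul, smul_eq_mul, hχv, mul_comm]
  have hE0 : E = 0 := by
    have hid : IsIdempotentElem ((p : ℂ)⁻¹ • E) := by
      unfold IsIdempotentElem
      rw [smul_mul_smul_comm, hEE, smul_smul, mul_assoc, inv_mul_cancel₀ hp0, mul_one]
    have h1 : LinearMap.trace ℂ _ ((p : ℂ)⁻¹ • E) = 0 := by rw [map_smul, htr, smul_zero]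
    have h2 := LinearMap.IsIdempotentElem.eq_zero_of_trace_eq_zero hid h1
    rcases smul_eq_zero.1 h2 with h | h
    · exact absurd h (inv_ne_zero hp0)
    · exact h
  have hsum : ∑ i : ZMod p, ee p (-(a * i)) * (χ : G → ℂ) (zp p z i * y) = 0 := by
    have h1 : LinearMap.trace ℂ _ (E * ρ y) = 0 := by rw [hE0, zero_mul, map_zero]
    rw [hE, Finset.sum_mul, map_sum] at h1
    rw [← h1]
    apply Finset.sum_congr rfl
    intro i _
    rw [smul_mul_assoc, map_smul, smul_eq_mul, ← map_mul, ← hχv]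
  have hsum0 : ∑ i : ZMod p, ee p (-(a * i)) * (χ : G → ℂ) (zp p z i) = 0 := by
    have h1 : LinearMap.trace ℂ _ E = 0 := by rw [hE0, map_zero]
    rw [hE, map_sum] at h1
    rw [← h1]
    apply Finset.sum_congr rfl
    intro i _
    rw [map_smul, smul_eq_mul, ← hχv]
  have hcomm : ∀ i : ZMod p, i ≠ 0 → (χ : G → ℂ) (zp p z i * y) = (χ : G → ℂ) (zp p z i) := by
    intro i hi
    refine section_const hM hz hsyl hχ hi ?_ hyp
    rw [Subgroup.mem_centralizer_singleton_iff]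
    have : Commute y z := hy
    exact (this.pow_right i.val)
  rw [← Finset.add_sum_erase _ _ (Finset.mem_univ (0 : ZMod p))] at hsum hsum0
  have h3 : ∑ i ∈ Finset.univ.erase (0 : ZMod p), ee p (-(a * i)) * (χ : G → ℂ) (zp p z i * y) =
      ∑ i ∈ Finset.univ.erase (0 : ZMod p), ee p (-(a * i)) * (χ : G → ℂ) (zp p z i) := by
    apply Finset.sum_congr rfl
    intro i hi
    rw [hcomm i (Finset.ne_of_mem_erase hi)]
  rw [h3] at hsum
  rw [mul_zero, neg_zero, ee_zero, one_mul, zp_zero] at hsum hsum0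
  rw [one_mul] at hsum
  have h4 := hsum.trans hsum0.symm
  exact add_right_cancel h4

end Cfsg.Agent.H9.BT
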