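import Mathlib
import Cfsg.Agent.H9_BT1
import Cfsg.Agent.H3_CharInd

/-!
H9_BT2: Brauer-Tuan theorem, part 2: the principal block data for a simple group of order `p q^B g₁`, `g₁ < p - 1`.
-/

set_option autoImplicit false

open scoped ComplexConjugate

namespace Cfsg.Agent.H9.BT

open Cfsg Cfsg.Agent.H3.CharIrr Cfsg.Agent.H3.CharComplete Cfsg.Agent.H10.Char Cfsg.Agent.H10.BlockKer
  Cfsg.Agent.H9.BrVec Cfsg.Agent.H9.BrMain Cfsg.Agent.H9.BrThm Cfsg.Agent.H9.BrCor Cfsg.Agent.H9.BrSC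

section simple

variable {G : Type*} [Group G] [Fintype G] [IsSimpleGroup G]

theorem triv_coe' (g : G) : ((triv G : IrrCharacter G) : G → ℂ) g = 1 := by
  rw [triv_coe]

theorem simple_ker {χ : IrrCharacter G} (hχ : χ ≠ triv G) (g : G) (hg : (χ : G → ℂ) g = (χ : G → ℂ) 1) : g = 1 := by
  have hn := Cfsg.Agent.H3.CharQuot.chKer_normal (IsIrr.isCharacter χ.2)
  rcases hn.eq_bot_or_eq_top with h1 | h1
  · have h2 : g ∈ Cfsg.Agent.H3.CharQuot.chKer (χ : G → ℂ) (IsIrr.isCharacter χ.2) := hg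
    rw [h1, Subgroup.mem_bot] at h2
    exact h2
  · exfalso
    have h2 : ∀ x, (χ : G → ℂ) x = (χ : G → ℂ) 1 := fun x => by
      have : x ∈ Cfsg.Agent.H3.CharQuot.chKer (χ : G → ℂ) (IsIrr.isCharacter χ.2) := by rw [h1]; trivial
      exact this
    have hne : (χ : G → ℂ) ≠ ((triv G : IrrCharacter G) : G → ℂ) := fun h => hχ (Subtype.ext h)
    have h3 := ci_irr_ne χ.2 (triv G).2 hne
    rw [classInner] at h3
    have h4 := (mul_eq_zero.mp h3).resolve_left (inv_ne_zero (by exact_mod_cast Nat.card_pos.ne'))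
    simp only [triv_coe', map_one, mul_one] at h4
    rw [Finset.sum_congr rfl (fun x _ => h2 x), Finset.sum_const, nsmul_eq_mul, mul_eq_zero] at h4
    rcases h4 with h5 | h5
    · have : (Finset.univ : Finset G).card ≠ 0 := by rw [Finset.card_univ]; exact Fintype.card_ne_zero
      exact this (by exact_mod_cast h5)
    · exact IsIrr.one_ne_zero χ.2 h5

theorem center_bot (hG : ¬ IsMulCommutative G) : Subgroup.center G = ⊥ := by
  rcases (inferInstance : (Subgroup.center G).Normal).eq_bot_or_eq_top with h2 | h2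
  · exact h2
  · exfalso
    apply hG
    rw [isMulCommutative_iff]
    intro a b
    have : b ∈ Subgroup.center G := by rw [h2]; trivial
    exact Subgroup.mem_center_iff.1 this a

theorem norm_ne (hG : ¬ IsMulCommutative G) {χ : IrrCharacter G} (hχ : χ ≠ triv G) {g : G} (hg : g ≠ 1) :
    ‖(χ : G → ℂ) g‖ ≠ charDegree (χ : G → ℂ) := by
  intro h
  have h0 : ‖(χ : G → ℂ) g‖ = ‖(χ : G → ℂ) 1‖ := by
    rw [h, ← charDegree_eq χ.2]; simp
  have h1 : g ∈ Subgroup.center G := by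
    rw [Subgroup.mem_center_iff]
    intro x
    have h2 := Cfsg.Agent.H3.CharQuot.IsChar.comm_of_norm (IsIrr.isCharacter χ.2) h0 x
    have h3 := simple_ker hχ _ h2
    rw [mul_inv_eq_one, mul_inv_eq_iff_eq_mul] at h3
    exact h3.symm
  rw [center_bot hG, Subgroup.mem_bot] at h1
  exact hg h1

theorem norm_le' (χ : IrrCharacter G) (g : G) : ‖(χ : G → ℂ) g‖ ≤ charDegree (χ : G → ℂ) := by
  have h := IsChar.norm_le (IsIrr.isCharacter χ.2) g
  rw [← charDegree_eq χ.2] at h
  simpa using h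

theorem perfect (hG : ¬ IsMulCommutative G) : commutator G = ⊤ := by
  rcases (inferInstance : (commutator G).Normal).eq_bot_or_eq_top with h | h
  · exfalso
    apply hG
    rw [isMulCommutative_iff]
    intro a b
    have h1 : a * b * a⁻¹ * b⁻¹ ∈ commutator G := Subgroup.commutator_mem_commutator (Subgroup.mem_top a) (Subgroup.mem_top b)
    rw [h, Subgroup.mem_bot, mul_inv_eq_one, mul_inv_eq_iff_eq_mul] at h1
    exact h1
  · exact h

theorem hom_trivial' {A : Type*} [CommGroup A] (hperf : commutator G = ⊤) (f : G →* A) (g : G) : f g = 1 := by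
  have h1 : commutator G ≤ f.ker := Abelianization.commutator_subset_ker f
  rw [hperf] at h1
  exact h1 (Subgroup.mem_top g)

theorem lin_triv (hG : ¬ IsMulCommutative G) {χ : IrrCharacter G} (hχ : charDegree (χ : G → ℂ) = 1) : χ = triv G := by
  have h1 := charDegree_eq χ.2
  rw [hχ, Nat.cast_one] at h1
  obtain ⟨f, hf⟩ := Cfsg.Agent.H3.CharInd.IsChar.hom_units_of_one (IsIrr.isCharacter χ.2) h1.symm
  apply Subtype.ext
  funext g
  rw [hf, hom_trivial' (perfect hG) f g, triv_coe', Units.val_one]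

end simple

variable {G : Type*} [Group G] [Fintype G] {p : ℕ} [hp : Fact p.Prime] {z : G}

/-- data of the principal block with `C(z) = ⟨z⟩` -/
structure Dat (hz : orderOf z = p) (hzp : z ^ p = 1) where
  X : Finset (IrrCharacter G)
  δ : IrrCharacter G → ℤ
  ε : ℤ
  L : (ZMod p)ˣ ⧸ (BrMain.om hz).range → IrrCharacter G
  hC : ∀ y : G, y * z = z * y → y ∈ Subgroup.zpowers z
  trivX : triv G ∈ X
  cardX : X.card = Nat.card (BrMain.om hz).range
  hδ : ∀ χ ∈ X, δ χ = 1 ∨ δ χ = -1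
  hX : ∀ χ ∈ X, ∀ a : (ZMod p)ˣ, vv hzp χ a = δ χ
  hε : ε = 1 ∨ ε = -1
  inj : Function.Injective L
  on : ∀ j (a : (ZMod p)ˣ), (a : (ZMod p)ˣ ⧸ (BrMain.om hz).range) = j → vv hzp (L j) a = -ε
  off : ∀ j (a : (ZMod p)ˣ), (a : (ZMod p)ˣ ⧸ (BrMain.om hz).range) ≠ j → vv hzp (L j) a = 0
  LX : ∀ j, L j ∉ X
  all : ∀ χ : IrrCharacter G, χ ∈ X ∨ (∃ j, L j = χ) ∨ ∀ a : (ZMod p)ˣ, vv hzp χ a = 0
  rel : ∀ j g, ¬ p ∣ orderOf g → (ε : ℂ) * (L j : G → ℂ) g = ∑ χ ∈ X, (δ χ : ℂ) * (χ : G → ℂ) g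

theorem dvd_g1 {q B g₁ d : ℕ} (hq : q.Prime) (hcard : Nat.card G = p * q ^ B * g₁) (hd : d ∣ Nat.card G)
    (hdp : ¬ p ∣ d) (hdq : ¬ q ∣ d) : d ∣ g₁ := by
  rw [hcard] at hd
  have h1 : Nat.Coprime d p := ((Nat.Prime.coprime_iff_not_dvd hp.out).2 hdp).symm
  have h2 : Nat.Coprime d (q ^ B) := (((Nat.Prime.coprime_iff_not_dvd hq).2 hdq).symm).pow_right B
  exact (h1.mul_right h2).dvd_of_dvd_mul_left hd

theorem exists_dat [IsSimpleGroup G] (hG : ¬ IsMulCommutative G) (hz : orderOf z = p) (hzp : z ^ p = 1)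
    (hsyl : ¬ p ∣ (Subgroup.zpowers z).index) {q B g₁ : ℕ} (hq : q.Prime) (hqp : q ≠ p)
    (hcard : Nat.card G = p * q ^ B * g₁) (hlt : g₁ < p - 1) :
    ∃ D : Dat hz hzp, (∀ χ ∈ D.X, χ ≠ triv G → q ∣ charDegree (χ : G → ℂ)) ∧
      (∀ j, charDegree (D.L j : G → ℂ) ∣ g₁ ∧ charDegree (D.L j : G → ℂ) ≠ 1 ∧
        (q : ℤ) ∣ D.ε * charDegree (D.L j : G → ℂ) - 1) ∧
      (Nat.card (BrMain.om hz).range < p - 1) ∧
      ((D.ε = 1 ∧ ∀ j, mu hzp (D.L j) 0 = 0) ∨ (D.ε = -1 ∧ ∀ j, mu hzp (D.L j) 0 = 1)) := by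
  classical
  have hp1 := hp.out.one_lt
  have hg1 : 0 < g₁ := by
    rcases Nat.eq_zero_or_pos g₁ with h | h
    · rw [h, mul_zero] at hcard
      exact absurd hcard Nat.card_pos.ne'
    · exact h
  obtain ⟨M, hM⟩ := Cfsg.Agent.H26.Kernel.exists_isPModular p hp.out
  obtain ⟨X, Y, δ, ε, L, h1, h2, h3, h4, h5, h6, h7, h8, h9, h10, h11, h12⟩ := brauer hM hz hzp hsyl
  have hLY : ∀ j, L j ∈ Y := fun j => (h9 _).2 ⟨j, rfl⟩
  have hLX : ∀ j, L j ∉ X := fun j h => (Finset.disjoint_left.1 h2) h (hLY j)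
  have hLt : ∀ j, L j ≠ triv G := fun j h => hLX j (by rw [h]; exact h3)
  set e := Nat.card (BrMain.om hz).range with he
  have hez : 0 < e := Nat.card_pos
  have hep : e ≤ p - 1 := by
    have h := card_J hz
    have h' : 0 < Nat.card ((ZMod p)ˣ ⧸ (om hz).range) := Nat.card_pos
    rw [← he] at h
    rw [← h]; exact Nat.le_mul_of_pos_right e h'
  -- nonexceptional degrees
  have hXdeg : ∀ χ ∈ X, (charDegree (χ : G → ℂ) : ℤ) = p * (mu hzp χ 0 - δ χ) + δ χ := fun χ hχ =>
    nonexc_degree hzp (h6 χ hχ).2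
  have hXp : ∀ χ ∈ X, ¬ p ∣ charDegree (χ : G → ℂ) := by
    intro χ hχ h
    have e1 := hXdeg χ hχ
    have e2 : (p : ℤ) ∣ δ χ := by
      have : (p : ℤ) ∣ (charDegree (χ : G → ℂ) : ℤ) := by exact_mod_cast h
      rw [e1] at this
      exact (dvd_add_right (dvd_mul_right _ _)).1 this
    rcases (h6 χ hχ).1 with h' | h' <;> rw [h'] at e2
    · have := Int.le_of_dvd one_pos e2; omega
    · have := Int.le_of_dvd one_pos ((dvd_neg).1 e2); omega
  have hXq : ∀ χ ∈ X, χ ≠ triv G → q ∣ charDegree (χ : G → ℂ) := by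
    intro χ hχ hne
    by_contra hcon
    have e1 := dvd_g1 hq hcard (Cfsg.Agent.H10.BlockGreen.charDegree_dvd_card χ) (hXp χ hχ) hcon
    have e2 := Nat.le_of_dvd hg1 e1
    have e3 := hXdeg χ hχ
    have e4 : charDegree (χ : G → ℂ) ≠ 1 := fun h => hne (lin_triv hG h)
    have e5 : 0 < charDegree (χ : G → ℂ) := charDegree_pos χ.2
    rcases (h6 χ hχ).1 with h' | h' <;> rw [h'] at e3
    · have e6 : (mu hzp χ 0 : ℤ) - 1 = 0 := by
        have e7 : (p : ℤ) * (mu hzp χ 0 - 1) < p := by omega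
        have e8 : 0 ≤ (p : ℤ) * (mu hzp χ 0 - 1) := by omega
        have e9 : (mu hzp χ 0 : ℤ) - 1 < 1 := by
          by_contra hh
          push Not at hh
          have : (p : ℤ) * 1 ≤ p * (mu hzp χ 0 - 1) := mul_le_mul_of_nonneg_left hh (by positivity)
          omega
        have e10 : (0 : ℤ) ≤ mu hzp χ 0 - 1 := by
          by_contra hh
          push Not at hh
          have : (p : ℤ) * (mu hzp χ 0 - 1) ≤ p * (-1) := mul_le_mul_of_nonneg_left (by omega) (by positivity)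
          omega
        omega
      rw [e6, mul_zero, zero_add] at e3
      exact e4 (by exact_mod_cast e3)
    · have e7 : (p : ℤ) * 1 ≤ p * (mu hzp χ 0 - -1) := mul_le_mul_of_nonneg_left (by omega) (by positivity)
      omega
  -- exceptional degree
  have hLdeg : ∀ j, (charDegree (L j : G → ℂ) : ℤ) = p * mu hzp (L j) 0 + ε * e := fun j =>
    exc_degree hzp (BrMain.om hz).range j (h10 j) (h11 j)
  have h1p : ¬ p ∣ orderOf (1 : G) := by
    rw [orderOf_one]; intro h; exact hp1.ne' (Nat.dvd_one.1 h)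
  have hrel1 : ∀ j, (ε : ℤ) * charDegree (L j : G → ℂ) = ∑ χ ∈ X, δ χ * charDegree (χ : G → ℂ) := by
    intro j
    have e1 := h12 j 1 h1p
    have e2 : ((ε * charDegree (L j : G → ℂ) : ℤ) : ℂ) = ((∑ χ ∈ X, δ χ * charDegree (χ : G → ℂ) : ℤ) : ℂ) := by
      push_cast
      rw [charDegree_eq (L j).2, e1]
      exact Finset.sum_congr rfl fun χ _ => by rw [charDegree_eq χ.2]
    exact_mod_cast e2
  have hδt : δ (triv G) = 1 := by
    have e1 := (h6 _ h3).2 1
    rw [vv_triv hzp 1] at e1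
    exact e1.symm
  have hLq : ∀ j, (q : ℤ) ∣ ε * charDegree (L j : G → ℂ) - 1 := by
    intro j
    rw [hrel1 j, ← Finset.add_sum_erase _ _ h3, hδt, one_mul]
    have e1 : charDegree ((triv G : IrrCharacter G) : G → ℂ) = 1 := by
      have := charDegree_eq (triv G).2
      rw [triv_coe] at this
      exact_mod_cast this
    rw [e1, Nat.cast_one, add_sub_cancel_left]
    apply Finset.dvd_sum
    intro χ hχ
    have := hXq χ (Finset.mem_of_mem_erase hχ) (Finset.ne_of_mem_erase hχ)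
    exact dvd_mul_of_dvd_right (by exact_mod_cast this) _
  have hLnp : ∀ j, ¬ p ∣ charDegree (L j : G → ℂ) := by
    intro j h
    have e1 := hLdeg j
    have e2 : (p : ℤ) ∣ ε * e := by
      have : (p : ℤ) ∣ (charDegree (L j : G → ℂ) : ℤ) := by exact_mod_cast h
      rw [e1] at this
      exact (dvd_add_right (dvd_mul_right _ _)).1 this
    have e3 : (p : ℤ) ∣ e := by
      rcases h7 with h' | h' <;> rw [h'] at e2
      · rwa [one_mul] at e2
      · rw [neg_one_mul] at e2; exact (dvd_neg).1 e2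
    have e4 : p ∣ e := by exact_mod_cast e3
    have := Nat.le_of_dvd hez e4
    omega
  have hLnq : ∀ j, ¬ q ∣ charDegree (L j : G → ℂ) := by
    intro j h
    have e1 : (q : ℤ) ∣ 1 := by
      have e2 : (q : ℤ) ∣ ε * charDegree (L j : G → ℂ) := dvd_mul_of_dvd_right (by exact_mod_cast h) _
      have e3 := dvd_sub e2 (hLq j)
      simpa using e3
    have := Int.le_of_dvd one_pos e1
    have := hq.one_lt
    omega
  have hLg : ∀ j, charDegree (L j : G → ℂ) ∣ g₁ := fun j =>
    dvd_g1 hq hcard (Cfsg.Agent.H10.BlockGreen.charDegree_dvd_card _) (hLnp j) (hLnq j)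
  have hL1 : ∀ j, charDegree (L j : G → ℂ) ≠ 1 := fun j h => hLt j (lin_triv hG h)
  have hLle : ∀ j, charDegree (L j : G → ℂ) ≤ g₁ := fun j => Nat.le_of_dvd hg1 (hLg j)
  have hLpos : ∀ j, 0 < charDegree (L j : G → ℂ) := fun j => charDegree_pos (L j).2
  have hcase : (ε = 1 ∧ ∀ j, mu hzp (L j) 0 = 0) ∨ (ε = -1 ∧ ∀ j, mu hzp (L j) 0 = 1) := by
    rcases h7 with h' | h'
    · left
      refine ⟨h', fun j => ?_⟩
      by_contra hne
      have e1 := hLdeg j
      rw [h', one_mul] at e1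
      have e2 : (p : ℤ) * 1 ≤ p * mu hzp (L j) 0 := mul_le_mul_of_nonneg_left (by omega) (by positivity)
      have e3 := hLle j
      omega
    · right
      refine ⟨h', fun j => ?_⟩
      have e1 := hLdeg j
      rw [h'] at e1
      have e3 := hLle j
      have e4 := hLpos j
      have e5 : mu hzp (L j) 0 ≠ 0 := by
        intro h0
        rw [h0] at e1
        push_cast at e1
        omega
      have e6 : mu hzp (L j) 0 < 2 := by
        by_contra hge
        have e2 : (p : ℤ) * 2 ≤ p * mu hzp (L j) 0 := mul_le_mul_of_nonneg_left (by omega) (by positivity)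
        omega
      omega
  have hne : Nonempty ((ZMod p)ˣ ⧸ (BrMain.om hz).range) := inferInstance
  have helt : e < p - 1 := by
    rcases Nat.lt_or_ge e (p - 1) with h | h
    · exact h
    · exfalso
      have h' : e = p - 1 := le_antisymm hep h
      obtain ⟨j⟩ := hne
      have e1 := hLdeg j
      have e2 := hLle j
      have e3 := hL1 j
      rcases hcase with ⟨c1, c2⟩ | ⟨c1, c2⟩ <;> rw [c1, c2 j] at e1
      · push_cast at e1; omega
      · push_cast at e1; omega
  -- the centralizer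
  have hC : ∀ y : G, y * z = z * y → y ∈ Subgroup.zpowers z := by
    obtain ⟨j⟩ := hne
    have hB : L j ∈ principalBlock M G := (h1 _).2 (Or.inr (hLY j))
    obtain ⟨a, ha⟩ : ∃ a : ZMod p, mu hzp (L j) a = 0 := by
      rcases hcase with ⟨c1, c2⟩ | ⟨c1, c2⟩
      · exact ⟨0, c2 j⟩
      · obtain ⟨a, rfl⟩ := QuotientGroup.mk_surjective j
        refine ⟨(a : ZMod p), ?_⟩
        have e1 : vv hzp (L (a : (ZMod p)ˣ ⧸ (BrMain.om hz).range)) (a : ZMod p) = -ε := h10 _ a rfl
        have e2 : (mu hzp (L (a : (ZMod p)ˣ ⧸ (BrMain.om hz).range)) 0 : ℤ) -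
          mu hzp (L (a : (ZMod p)ˣ ⧸ (BrMain.om hz).range)) (a : ZMod p) = -ε := e1
        rw [c2 (a : (ZMod p)ˣ ⧸ (BrMain.om hz).range)] at e2
        rw [c1] at e2
        rw [neg_neg, Nat.cast_one, sub_eq_self] at e2
        exact Int.natCast_eq_zero.1 e2
    obtain ⟨K, hK, hKp, hKi⟩ := complement hz hsyl (one_ne_zero (α := ZMod p))
    have hKbot : K = ⊥ := by
      rw [eq_bot_iff]
      rintro ⟨y, hyc⟩ hy
      have hyp : ¬ p ∣ orderOf y := by
        intro h
        apply hKp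
        rw [← Subgroup.orderOf_mk y hyc] at h
        have e1 : orderOf (⟨⟨y, hyc⟩, hy⟩ : K) ∣ Nat.card K := orderOf_dvd_natCard _
        rw [← Subgroup.orderOf_coe] at e1
        exact h.trans e1
      have hyz : y * z = z * y := by
        have := Subgroup.mem_centralizer_singleton_iff.1 hyc
        rw [zp_one] at this
        exact this
      have e2 := fix_of_mu_zero hM hz hzp hsyl hB ha hyz hyp
      have e3 := simple_ker (hLt j) _ e2
      rw [Subgroup.mem_bot]
      exact Subtype.ext e3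
    rw [hKbot, Subgroup.index_bot, zp_one] at hKi
    intro y hy
    have hle : Subgroup.zpowers z ≤ Subgroup.centralizer ({z} : Set G) := by
      rw [Subgroup.zpowers_le, Subgroup.mem_centralizer_singleton_iff]
    have heq : Subgroup.zpowers z = Subgroup.centralizer ({z} : Set G) := by
      apply Subgroup.eq_of_le_of_card_ge hle
      rw [hKi, Nat.card_zpowers, hz]
    rw [heq, Subgroup.mem_centralizer_singleton_iff]
    exact hy
  refine ⟨⟨X, δ, ε, L, hC, h3, h4, fun χ hχ => (h6 χ hχ).1, fun χ hχ => (h6 χ hχ).2, h7, h8, h10, h11, hLX, ?_, h12⟩,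
    hXq, fun j => ⟨hLg j, hL1 j, hLq j⟩, helt, hcase⟩
  intro χ
  by_cases hχ : χ ∈ principalBlock M G
  · rcases (h1 χ).1 hχ with h | h
    · exact Or.inl h
    · exact Or.inr (Or.inl ((h9 χ).1 h))
  · right; right
    intro a
    exact vv_zero_of_not_mem hM hz hzp hsyl hC hχ a

end Cfsg.Agent.H9.BT
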