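import Mathlib
import Cfsg.Agent.H9_BT2

/-!
H9_BT3: Brauer-Tuan theorem, part 3: sums over p-singular elements, two exceptional characters.
-/

set_option autoImplicit false

open scoped ComplexConjugate

namespace Cfsg.Agent.H9.BT

open Cfsg Cfsg.Agent.H3.CharIrr Cfsg.Agent.H3.CharComplete Cfsg.Agent.H10.Char Cfsg.Agent.H10.BlockKer
  Cfsg.Agent.H9.BrVec Cfsg.Agent.H9.BrMain Cfsg.Agent.H9.BrThm Cfsg.Agent.H9.BrCor Cfsg.Agent.H9.BrSC

variable {G : Type*} [Group G] [Fintype G] {p : ℕ} [hp : Fact p.Prime] {z : G}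

theorem exists_conj_of_dvd (hz : orderOf z = p) (hsyl : ¬ p ∣ (Subgroup.zpowers z).index)
    (hC : ∀ y : G, y * z = z * y → y ∈ Subgroup.zpowers z) {g : G} (hg : p ∣ orderOf g) :
    ∃ i : ZMod p, i ≠ 0 ∧ IsConj (zp p z i) g := by
  classical
  have hzp : z ^ p = 1 := by rw [← hz]; exact pow_orderOf_eq_one z
  have hPg : IsPGroup p (Subgroup.zpowers z) := IsPGroup.of_card (n := 1) (by rw [Nat.card_zpowers, hz, pow_one])
  let P : Sylow p G := hPg.toSylow hsyl
  have hPz : (P : Subgroup G) = Subgroup.zpowers z := rfl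
  obtain ⟨m, hm⟩ := hg
  have hg0 : 0 < orderOf g := orderOf_pos g
  have hm0 : m ≠ 0 := by rintro rfl; rw [mul_zero] at hm; omega
  have hxo : orderOf (g ^ m) = p := by
    rw [orderOf_pow, hm, Nat.gcd_mul_left_left, Nat.mul_div_cancel _ (Nat.pos_of_ne_zero hm0)]
  have hxP : IsPGroup p (Subgroup.zpowers (g ^ m)) := IsPGroup.of_card (n := 1) (by rw [Nat.card_zpowers, hxo, pow_one])
  obtain ⟨Q, hQ⟩ := hxP.exists_le_sylow
  obtain ⟨h, hh⟩ := MulAction.exists_smul_eq G Q P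
  have hmem : h * g ^ m * h⁻¹ ∈ Subgroup.zpowers z := by
    rw [← hPz, ← hh]
    exact ⟨g ^ m, hQ (Subgroup.mem_zpowers _), rfl⟩
  obtain ⟨i, hi⟩ := (mem_zpowers_iff hz _).1 hmem
  have hi0 : i ≠ 0 := by
    rintro rfl
    rw [zp_zero, mul_inv_eq_one, mul_eq_left] at hi
    rw [hi, orderOf_one] at hxo
    exact hp.out.one_lt.ne hxo
  have hy1 : (h * g * h⁻¹) * zp p z i = zp p z i * (h * g * h⁻¹) := by
    rw [← hi]
    have : g * g ^ m = g ^ m * g := (Commute.refl g).pow_right m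
    calc h * g * h⁻¹ * (h * g ^ m * h⁻¹) = h * (g * g ^ m) * h⁻¹ := by group
      _ = h * g ^ m * h⁻¹ * (h * g * h⁻¹) := by rw [this]; group
  have hy2 : (h * g * h⁻¹) ∈ Subgroup.zpowers z := by
    apply hC
    have hzgen : z = (zp p z i) ^ (i⁻¹).val := by
      rw [← zp_mul hzp, mul_inv_cancel₀ hi0, zp_one]
    have hcm : Commute (h * g * h⁻¹) (zp p z i) := hy1
    have := hcm.pow_right (i⁻¹).val
    rw [← hzgen] at this
    exact this
  obtain ⟨j, hj⟩ := (mem_zpowers_iff hz _).1 hy2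
  refine ⟨j, ?_, ?_⟩
  · rintro rfl
    rw [zp_zero, mul_inv_eq_one, mul_eq_left] at hj
    rw [hj, orderOf_one] at hm
    have : p ∣ 1 := ⟨m, hm⟩
    exact hp.out.one_lt.ne' (Nat.dvd_one.1 this)
  · rw [← hj]
    exact (isConj_iff.2 ⟨h, rfl⟩).symm

theorem dvd_zp (hz : orderOf z = p) {i : ZMod p} (hi : i ≠ 0) {g : G} (h : IsConj (zp p z i) g) : p ∣ orderOf g := by
  obtain ⟨c, hc⟩ := isConj_iff.1 h
  have h1 : orderOf g = orderOf (zp p z i) := by
    rw [← hc]
    exact orderOf_injective (MulAut.conj c).toMonoidHom (MulAut.conj c).injective (zp p z i)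
  rw [h1, zp_order' hz hi]

open Classical in
theorem card_conj (hz : orderOf z = p) {i₀ : ZMod p} (hi₀ : i₀ ≠ 0) :
    ((Finset.univ.erase (0 : ZMod p)).filter (fun i => IsConj (zp p z i) (zp p z i₀))).card = Nat.card (om hz).range := by
  haveI : Fintype (om hz).range := Fintype.ofFinite _
  rw [Nat.card_eq_fintype_card, ← Finset.card_univ]
  symm
  refine Finset.card_bij (fun h _ => (((h : (ZMod p)ˣ)⁻¹ : (ZMod p)ˣ) : ZMod p) * i₀) ?_ ?_ ?_
  · intro h _
    rw [Finset.mem_filter, Finset.mem_erase]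
    have hne : (((h : (ZMod p)ˣ)⁻¹ : (ZMod p)ˣ) : ZMod p) * i₀ ≠ 0 := mul_ne_zero (Units.ne_zero _) hi₀
    refine ⟨⟨hne, Finset.mem_univ _⟩, ?_⟩
    rw [isConj_iff_om hz hne]
    exact ⟨h, h.2, by rw [← mul_assoc, Units.mul_inv, one_mul]⟩
  · intro a _ b _ hab
    have h1 := mul_right_cancel₀ hi₀ hab
    exact Subtype.ext (inv_injective (Units.ext h1))
  · intro i hi
    rw [Finset.mem_filter, Finset.mem_erase] at hi
    obtain ⟨h, hh, heq⟩ := (isConj_iff_om hz hi.1.1).1 hi.2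
    refine ⟨⟨h, hh⟩, Finset.mem_univ _, ?_⟩
    rw [heq, ← mul_assoc, Units.inv_mul, one_mul]

open Classical in
theorem sum_sing (hz : orderOf z = p) (hsyl : ¬ p ∣ (Subgroup.zpowers z).index)
    (hC : ∀ y : G, y * z = z * y → y ∈ Subgroup.zpowers z) {f : G → ℂ} (hf : IsClassFunction G f) :
    (p : ℂ) * Nat.card (om hz).range * ∑ g : G, (if p ∣ orderOf g then f g else 0) =
      (Nat.card G : ℂ) * ∑ i ∈ Finset.univ.erase (0 : ZMod p), f (zp p z i) := by
  haveI : Fintype (IrrCharacter G) := Fintype.ofFinite _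
  have hcard : (Nat.card G : ℂ) ≠ 0 := by exact_mod_cast Nat.card_pos.ne'
  have h1 : ∀ g : G, ∑ i ∈ Finset.univ.erase (0 : ZMod p), ∑ χ : IrrCharacter G, (χ : G → ℂ) (zp p z i) * conj ((χ : G → ℂ) g) =
      if p ∣ orderOf g then (p : ℂ) * Nat.card (om hz).range else 0 := by
    intro g
    have e1 : ∀ i ∈ Finset.univ.erase (0 : ZMod p), ∑ χ : IrrCharacter G, (χ : G → ℂ) (zp p z i) * conj ((χ : G → ℂ) g) =
        if IsConj (zp p z i) g then (p : ℂ) else 0 := by
      intro i hi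
      rw [orth2, centralizer_zp hz hC (Finset.ne_of_mem_erase hi), Nat.card_zpowers, hz]
    rw [Finset.sum_congr rfl e1]
    split_ifs with hg
    · obtain ⟨i₀, hi₀, hc⟩ := exists_conj_of_dvd hz hsyl hC hg
      have e2 : ∀ i ∈ Finset.univ.erase (0 : ZMod p), (if IsConj (zp p z i) g then (p : ℂ) else 0) =
          if IsConj (zp p z i) (zp p z i₀) then (p : ℂ) else 0 := by
        intro i _
        have : IsConj (zp p z i) g ↔ IsConj (zp p z i) (zp p z i₀) :=
          ⟨fun h => h.trans hc.symm, fun h => h.trans hc⟩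
        simp only [this]
      rw [Finset.sum_congr rfl e2, ← Finset.sum_filter, Finset.sum_const, card_conj hz hi₀, nsmul_eq_mul]
      ring
    · apply Finset.sum_eq_zero
      intro i hi
      rw [if_neg]
      intro h
      exact hg (dvd_zp hz (Finset.ne_of_mem_erase hi) h)
  have h2 : (p : ℂ) * Nat.card (om hz).range * ∑ g : G, (if p ∣ orderOf g then f g else 0) =
      ∑ g : G, f g * ∑ i ∈ Finset.univ.erase (0 : ZMod p), ∑ χ : IrrCharacter G, (χ : G → ℂ) (zp p z i) * conj ((χ : G → ℂ) g) := by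
    rw [Finset.mul_sum]
    apply Finset.sum_congr rfl
    intro g _
    rw [h1 g]
    split_ifs
    · ring
    · ring
  rw [h2]
  have h3 : ∀ i : ZMod p, (Nat.card G : ℂ) * f (zp p z i) =
      ∑ g : G, f g * ∑ χ : IrrCharacter G, (χ : G → ℂ) (zp p z i) * conj ((χ : G → ℂ) g) := by
    intro i
    rw [expand_apply f hf (zp p z i), Finset.mul_sum]
    simp only [Finset.mul_sum]
    rw [Finset.sum_comm]
    apply Finset.sum_congr rfl
    intro χ _
    rw [classInner, ← mul_assoc, ← mul_assoc, mul_inv_cancel₀ hcard, one_mul, Finset.sum_mul]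
    apply Finset.sum_congr rfl
    intro g _
    ring
  rw [Finset.mul_sum, Finset.sum_congr rfl fun i _ => h3 i, Finset.sum_comm]
  apply Finset.sum_congr rfl
  intro g _
  rw [Finset.mul_sum]

/-- two exceptional characters -/
structure Two {hz : orderOf z = p} {hzp : z ^ p = 1} (D : Dat hz hzp) where
  e : ℕ
  he : Nat.card (om hz).range = e
  hp2 : p = 2 * e + 1
  u : (ZMod p)ˣ
  hu : (u : (ZMod p)ˣ ⧸ (om hz).range) ≠ 1
  hall : ∀ j : (ZMod p)ˣ ⧸ (om hz).range, j = 1 ∨ j = u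

theorem exists_two {hz : orderOf z = p} {hzp : z ^ p = 1} (D : Dat hz hzp) {e : ℕ} (he : Nat.card (om hz).range = e)
    (hp2 : p = 2 * e + 1) : Nonempty (Two D) := by
  have h1 := card_J hz
  have hpe : p - 1 = e * 2 := by omega
  have he0 : 0 < e := by rw [← he]; exact Nat.card_pos
  rw [he, hpe] at h1
  have h2 : Nat.card ((ZMod p)ˣ ⧸ (om hz).range) = 2 := Nat.eq_of_mul_eq_mul_left he0 h1
  obtain ⟨c, hc, hall⟩ : ∃ c : (ZMod p)ˣ ⧸ (om hz).range, c ≠ 1 ∧ ∀ j, j = 1 ∨ j = c := by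
    rw [Nat.card_eq_two_iff' (1 : (ZMod p)ˣ ⧸ (om hz).range)] at h2
    obtain ⟨c, hc, huniq⟩ := h2
    refine ⟨c, hc, fun j => ?_⟩
    by_cases hj : j = 1
    · exact Or.inl hj
    · exact Or.inr (huniq j hj)
  obtain ⟨u, rfl⟩ := QuotientGroup.mk_surjective c
  exact ⟨⟨e, he, hp2, u, hc, hall⟩⟩

section two

variable {hz : orderOf z = p} {hzp : z ^ p = 1} {D : Dat hz hzp} (T : Two D)

/-- first and second exceptional character -/
noncomputable def Two.A (_ : Two D) : IrrCharacter G := D.L 1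
noncomputable def Two.B (T : Two D) : IrrCharacter G := D.L (T.u : (ZMod p)ˣ ⧸ (om hz).range)
/-- representative of the second class -/
def Two.z' (T : Two D) : G := zp p z (T.u : ZMod p)

include T in
theorem Two.AB : T.A ≠ T.B := fun h => T.hu (D.inj h).symm

theorem zp_conj1 {i : (ZMod p)ˣ} (hi : (i : (ZMod p)ˣ ⧸ (om hz).range) = 1) : IsConj (zp p z (i : ZMod p)) z := by
  have h1 : i ∈ (om hz).range := (QuotientGroup.eq_one_iff i).1 hi
  have h2 : IsConj (zp p z (i : ZMod p)) (zp p z 1) := by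
    rw [isConj_iff_om hz i.ne_zero]
    exact ⟨i⁻¹, inv_mem h1, by rw [Units.inv_mul]⟩
  rwa [zp_one] at h2

theorem zp_conj_of_eq {i j : (ZMod p)ˣ} (hi : (i : (ZMod p)ˣ ⧸ (om hz).range) = j) :
    IsConj (zp p z (i : ZMod p)) (zp p z (j : ZMod p)) := by
  rw [isConj_iff_om hz i.ne_zero]
  refine ⟨i⁻¹ * j, QuotientGroup.eq.1 hi, ?_⟩
  rw [← Units.val_mul, mul_comm (i⁻¹ * j) i, mul_inv_cancel_left]

theorem class_eq {f : G → ℂ} (hf : IsClassFunction G f) {a b : G} (h : IsConj a b) : f a = f b := by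
  obtain ⟨c, rfl⟩ := isConj_iff.1 h
  exact (hf _ _).symm

include T in
theorem Two.sum_ne {f : G → ℂ} (hf : IsClassFunction G f) :
    ∑ i ∈ Finset.univ.erase (0 : ZMod p), f (zp p z i) = T.e * (f z + f T.z') := by
  classical
  have h1 : ∑ i ∈ Finset.univ.erase (0 : ZMod p), f (zp p z i) = ∑ a : (ZMod p)ˣ, f (zp p z (a : ZMod p)) := by
    refine (Finset.sum_bij (fun (a : (ZMod p)ˣ) _ => (a : ZMod p)) ?_ ?_ ?_ ?_).symm
    · intro a _
      exact Finset.mem_erase.2 ⟨a.ne_zero, Finset.mem_univ _⟩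
    · intro a _ b _ h; exact Units.ext h
    · intro b hb
      exact ⟨Units.mk0 b (Finset.ne_of_mem_erase hb), Finset.mem_univ _, rfl⟩
    · intro a _; rfl
  rw [h1, ← Finset.sum_filter_add_sum_filter_not Finset.univ (fun a : (ZMod p)ˣ => (a : (ZMod p)ˣ ⧸ (om hz).range) = 1)]
  have h2 : ∑ a ∈ Finset.univ.filter (fun a : (ZMod p)ˣ => (a : (ZMod p)ˣ ⧸ (om hz).range) = 1), f (zp p z (a : ZMod p)) =
      T.e * f z := by
    rw [Finset.sum_congr rfl fun a ha => class_eq hf (zp_conj1 (Finset.mem_filter.1 ha).2), Finset.sum_const, nsmul_eq_mul]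
    congr 2
    rw [← T.he, ← card_coset (om hz).range 1]
    congr
  have h3 : ∑ a ∈ Finset.univ.filter (fun a : (ZMod p)ˣ => ¬ (a : (ZMod p)ˣ ⧸ (om hz).range) = 1), f (zp p z (a : ZMod p)) =
      T.e * f T.z' := by
    have e1 : Finset.univ.filter (fun a : (ZMod p)ˣ => ¬ (a : (ZMod p)ˣ ⧸ (om hz).range) = 1) =
        Finset.univ.filter (fun a : (ZMod p)ˣ => (a : (ZMod p)ˣ ⧸ (om hz).range) = T.u) := by
      ext a
      simp only [Finset.mem_filter, Finset.mem_univ, true_and]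
      constructor
      · intro h; exact (T.hall _).resolve_left h
      · intro h h'; rw [h] at h'; exact T.hu h'
    rw [e1, Finset.sum_congr rfl fun a ha => class_eq hf (zp_conj_of_eq (Finset.mem_filter.1 ha).2), Finset.sum_const,
      nsmul_eq_mul]
    change _ * f T.z' = _
    congr 2
    rw [← T.he, ← card_coset (om hz).range (T.u : (ZMod p)ˣ ⧸ (om hz).range)]
    congr
  rw [h2, h3]; ring

/-- the sum over the p-singular elements -/
theorem Two.sum_sing (T : Two D) (hsyl : ¬ p ∣ (Subgroup.zpowers z).index) {f : G → ℂ} (hf : IsClassFunction G f) :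
    (p : ℂ) * ∑ g : G, (if p ∣ orderOf g then f g else 0) = (Nat.card G : ℂ) * (f z + f T.z') := by
  classical
  have h1 := BT.sum_sing hz hsyl D.hC hf
  rw [T.sum_ne hf, T.he] at h1
  have he : (T.e : ℂ) ≠ 0 := by
    have : 0 < T.e := by rw [← T.he]; exact Nat.card_pos
    exact_mod_cast this.ne'
  have h2 : (T.e : ℂ) * ((p : ℂ) * ∑ g : G, (if p ∣ orderOf g then f g else 0)) = T.e * ((Nat.card G : ℂ) * (f z + f T.z')) := by
    rw [← mul_assoc, mul_comm (T.e : ℂ) p]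
    convert h1 using 1
    ring
  exact mul_left_cancel₀ he h2

/-- splitting sums over the irreducible characters -/
theorem Two.split [Fintype (IrrCharacter G)] (T : Two D) (F : IrrCharacter G → ℂ)
    (h0 : ∀ χ : IrrCharacter G, (∀ a : (ZMod p)ˣ, vv hzp χ a = 0) → F χ = 0) :
    ∑ χ : IrrCharacter G, F χ = ∑ χ ∈ D.X, F χ + F T.A + F T.B := by
  classical
  have hA : T.A ∉ D.X := D.LX _
  have hB : T.B ∉ D.X := D.LX _
  have h1 : ∑ χ ∈ D.X, F χ + F T.A + F T.B = ∑ χ ∈ insert T.A (insert T.B D.X), F χ := by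
    rw [Finset.sum_insert, Finset.sum_insert hB]
    · ring
    · rw [Finset.mem_insert, not_or]
      exact ⟨T.AB, hA⟩
  rw [h1]
  symm
  apply Finset.sum_subset (Finset.subset_univ _)
  intro χ _ hχ
  apply h0
  rw [Finset.mem_insert, Finset.mem_insert, not_or, not_or] at hχ
  rcases D.all χ with h | ⟨j, hj⟩ | h
  · exact absurd h hχ.2.2
  · rcases T.hall j with h' | h'
    · rw [h'] at hj; exact absurd hj.symm hχ.1
    · rw [h'] at hj; exact absurd hj.symm hχ.2.1
  · exact h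

theorem val_X {χ : IrrCharacter G} (hχ : χ ∈ D.X) {i : ZMod p} (hi : i ≠ 0) : (χ : G → ℂ) (zp p z i) = D.δ χ :=
  nonexc_value hzp (D.hX χ hχ) hi

theorem val_O {χ : IrrCharacter G} (h : ∀ a : (ZMod p)ˣ, vv hzp χ a = 0) {i : ZMod p} (hi : i ≠ 0) :
    (χ : G → ℂ) (zp p z i) = 0 := by
  rw [char_eq_vv hzp χ hi, sum_units _ (by rw [vv_zero]; simp), Finset.sum_eq_zero fun a _ => by rw [h a]; simp, neg_zero]

theorem val_L (D : Dat hz hzp) (j : (ZMod p)ˣ ⧸ (om hz).range) (i : (ZMod p)ˣ) [DecidableEq ((ZMod p)ˣ ⧸ (om hz).range)] :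
    (D.L j : G → ℂ) (zp p z i) = D.ε * ∑ b : (ZMod p)ˣ, if (b : (ZMod p)ˣ ⧸ (om hz).range) = j * i then ee p (b : ZMod p) else 0 := by
  rw [char_eq_vv hzp _ i.ne_zero, sum_units _ (by rw [vv_zero]; simp)]
  rw [← Equiv.sum_comp (Equiv.mulRight i) (fun b : (ZMod p)ˣ => if (b : (ZMod p)ˣ ⧸ (om hz).range) = j * i then ee p (b : ZMod p) else 0),
    Finset.mul_sum, ← Finset.sum_neg_distrib]
  apply Finset.sum_congr rfl
  intro a _
  rw [Equiv.coe_mulRight, Units.val_mul]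
  by_cases h : (a : (ZMod p)ˣ ⧸ (om hz).range) = j
  · rw [D.on j a h, if_pos (by rw [← h]; rfl)]
    push_cast
    ring
  · rw [D.off j a h, if_neg]
    · simp
    · intro h'
      apply h
      have h2 : (a : (ZMod p)ˣ ⧸ (om hz).range) * (i : (ZMod p)ˣ ⧸ (om hz).range) = j * i := h'
      exact mul_right_cancel h2

theorem Two.u_sq (T : Two D) : ((T.u : (ZMod p)ˣ ⧸ (om hz).range)) * T.u = 1 := by
  rcases T.hall ((T.u : (ZMod p)ˣ ⧸ (om hz).range) * T.u) with h | h
  · exact h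
  · exact absurd (mul_eq_left.1 h) T.hu

theorem zp_one' : zp p z ((1 : (ZMod p)ˣ) : ZMod p) = z := by rw [Units.val_one, zp_one]

theorem Two.A_z' (T : Two D) : (T.A : G → ℂ) T.z' = (T.B : G → ℂ) z := by
  classical
  have h1 := val_L D 1 T.u
  have h2 := val_L D (T.u : (ZMod p)ˣ ⧸ (om hz).range) 1
  rw [zp_one'] at h2
  unfold Two.A Two.B Two.z'
  rw [h1, h2, one_mul, QuotientGroup.mk_one, mul_one]

theorem Two.B_z' (T : Two D) : (T.B : G → ℂ) T.z' = (T.A : G → ℂ) z := by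
  classical
  have h1 := val_L D (T.u : (ZMod p)ˣ ⧸ (om hz).range) T.u
  have h2 := val_L D 1 1
  rw [zp_one'] at h2
  unfold Two.A Two.B Two.z'
  rw [h1, h2, T.u_sq, QuotientGroup.mk_one, mul_one]

end two

end Cfsg.Agent.H9.BT
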