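import Mathlib
import Cfsg.Agent.H9_BT3
import Cfsg.Agent.H3_CharMult

/-!
H9_BT4: Brauer-Tuan theorem, part 4: common facts for two exceptional characters.
-/

set_option autoImplicit false

open scoped ComplexConjugate

namespace Cfsg.Agent.H9.BT

open Cfsg Cfsg.Agent.H3.CharIrr Cfsg.Agent.H3.CharComplete Cfsg.Agent.H10.Char Cfsg.Agent.H10.BlockKer
  Cfsg.Agent.H9.BrVec Cfsg.Agent.H9.BrMain Cfsg.Agent.H9.BrThm Cfsg.Agent.H9.BrCor Cfsg.Agent.H9.BrSC

variable {G : Type*} [Group G] [Fintype G] {p : ℕ} [hp : Fact p.Prime] {z : G}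
  {hz : orderOf z = p} {hzp : z ^ p = 1} {D : Dat hz hzp} (T : Two D)

theorem isClass_mul' {f g : G → ℂ} (hf : IsClassFunction G f) (hg : IsClassFunction G g) : IsClassFunction G (fun x => f x * g x) := by
  intro a b
  simp only [hf a b, hg a b]

theorem isClass_conj' {f : G → ℂ} (hf : IsClassFunction G f) : IsClassFunction G (fun x => conj (f x)) := by
  intro a b
  simp only [hf a b]

/-- multiplicities of a character -/
theorem Two.mults [Fintype (IrrCharacter G)] (T : Two D) {Φ : G → ℂ} (hΦ : IsCharacter G Φ) :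
    ∃ m : IrrCharacter G → ℕ, (∀ χ : IrrCharacter G, classInner Φ (χ : G → ℂ) = m χ) ∧
      (∀ g, Φ g = ∑ χ : IrrCharacter G, (m χ : ℂ) * (χ : G → ℂ) g) ∧
      (∑ χ : IrrCharacter G, (m χ : ℂ) * (charDegree (χ : G → ℂ) : ℂ) = Φ 1) ∧
      ((p : ℂ) * ∑ χ : IrrCharacter G, (m χ : ℂ) * (mu hzp χ 0 : ℂ) = Φ 1 + T.e * (Φ z + Φ T.z')) := by
  obtain ⟨m, hm1, hm2⟩ := Cfsg.Agent.H3.CharMult.IsChar.eq_sum_nat hΦ
  have h3 : ∀ g, Φ g = ∑ χ : IrrCharacter G, (m χ : ℂ) * (χ : G → ℂ) g := by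
    intro g
    conv_lhs => rw [hm2]
    rw [Finset.sum_apply]
    rfl
  refine ⟨m, hm1, h3, ?_, ?_⟩
  · rw [h3 1]
    exact Finset.sum_congr rfl fun χ _ => by rw [charDegree_eq χ.2]
  · have h4 := sum_mult hzp (fun χ => (m χ : ℂ)) Φ h3 0
    have hp0 : (p : ℂ) ≠ 0 := p_ne
    rw [h4, ← mul_assoc, mul_inv_cancel₀ hp0, one_mul]
    rw [← T.sum_ne (IsChar.isClass hΦ), ← Finset.add_sum_erase _ _ (Finset.mem_univ (0 : ZMod p))]
    simp only [zero_mul, neg_zero, ee_zero, mul_one, zp_zero]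

theorem val_triv_mu : mu hzp (triv G) 0 = 1 := mu_triv_zero hzp

theorem deg_triv : charDegree ((triv G : IrrCharacter G) : G → ℂ) = 1 := by
  have := charDegree_eq (triv G : IrrCharacter G).2
  rw [triv_coe] at this
  exact_mod_cast this

theorem delta_triv (D : Dat hz hzp) : D.δ (triv G) = 1 := by
  have e1 := D.hX _ D.trivX 1
  rw [vv_triv hzp 1] at e1
  exact e1.symm

/-- degrees of the nonexceptional characters -/
theorem X_deg (D : Dat hz hzp) {χ : IrrCharacter G} (hχ : χ ∈ D.X) :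
    (charDegree (χ : G → ℂ) : ℤ) = p * (mu hzp χ 0 - D.δ χ) + D.δ χ :=
  nonexc_degree hzp (D.hX χ hχ)

theorem X_mu (D : Dat hz hzp) {χ : IrrCharacter G} (hχ : χ ∈ D.X) : D.δ χ ≤ mu hzp χ 0 := by
  have h1 := D.hX χ hχ 1
  unfold vv at h1
  have : (0 : ℤ) ≤ mu hzp χ ((1 : (ZMod p)ˣ) : ZMod p) := Int.natCast_nonneg _
  linarith

theorem O_deg {χ : IrrCharacter G} (h : ∀ a : (ZMod p)ˣ, vv hzp χ a = 0) :
    (charDegree (χ : G → ℂ) : ℤ) = p * mu hzp χ 0 := by
  have h1 := nonexc_degree hzp (d := 0) h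
  rw [h1]; ring

theorem L_deg (D : Dat hz hzp) (j : (ZMod p)ˣ ⧸ (om hz).range) :
    (charDegree (D.L j : G → ℂ) : ℤ) = p * mu hzp (D.L j) 0 + D.ε * Nat.card (om hz).range :=
  exc_degree hzp (BrMain.om hz).range j (D.on j) (D.off j)

/-- `α + β = -ε` -/
theorem Two.sum_AB (T : Two D) : (T.A : G → ℂ) z + (T.B : G → ℂ) z = -(D.ε : ℂ) := by
  classical
  have h1 := val_L D 1 1
  have h2 := val_L D (T.u : (ZMod p)ˣ ⧸ (om hz).range) 1
  rw [zp_one'] at h1 h2
  unfold Two.A Two.B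
  rw [h1, h2, QuotientGroup.mk_one, mul_one, mul_one, ← mul_add, ← Finset.sum_add_distrib]
  have h3 : ∑ b : (ZMod p)ˣ, ((if (b : (ZMod p)ˣ ⧸ (om hz).range) = 1 then ee p (b : ZMod p) else 0) +
      (if (b : (ZMod p)ˣ ⧸ (om hz).range) = T.u then ee p (b : ZMod p) else 0)) = -1 := by
    have h4 : ∀ b : (ZMod p)ˣ, ((if (b : (ZMod p)ˣ ⧸ (om hz).range) = 1 then ee p (b : ZMod p) else 0) +
      (if (b : (ZMod p)ˣ ⧸ (om hz).range) = T.u then ee p (b : ZMod p) else 0)) = ee p (b : ZMod p) := by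
      intro b
      rcases T.hall b with h | h
      · rw [if_pos h, if_neg (by rw [h]; exact T.hu.symm), add_zero]
      · rw [if_neg (by rw [h]; exact T.hu), if_pos h, zero_add]
    rw [Finset.sum_congr rfl fun b _ => h4 b]
    have h5 := sum_ee (p := p) (1 : ZMod p)
    rw [if_neg one_ne_zero] at h5
    simp only [one_mul] at h5
    rw [← Finset.add_sum_erase _ _ (Finset.mem_univ (0 : ZMod p)), ee_zero] at h5
    have h6 : ∑ x ∈ Finset.univ.erase (0 : ZMod p), ee p x = ∑ b : (ZMod p)ˣ, ee p (b : ZMod p) := by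
      refine (Finset.sum_bij (fun (a : (ZMod p)ˣ) _ => (a : ZMod p)) ?_ ?_ ?_ ?_).symm
      · intro a _
        exact Finset.mem_erase.2 ⟨a.ne_zero, Finset.mem_univ _⟩
      · intro a _ b _ h; exact Units.ext h
      · intro b hb
        exact ⟨Units.mk0 b (Finset.ne_of_mem_erase hb), Finset.mem_univ _, rfl⟩
      · intro a _; rfl
    rw [← h6]
    linear_combination h5
  rw [h3]; ring

theorem Two.not_conj (T : Two D) : ¬ IsConj z T.z' := by
  intro h
  have h1 : IsConj (zp p z 1) (zp p z (T.u : ZMod p)) := by rw [zp_one]; exact h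
  rw [isConj_iff_om hz one_ne_zero] at h1
  obtain ⟨k, hk, hku⟩ := h1
  rw [mul_one] at hku
  have h2 : T.u = k := Units.ext hku
  apply T.hu
  rw [QuotientGroup.eq_one_iff, h2]
  exact hk

/-- values on `z` -/
theorem X_z (D : Dat hz hzp) {χ : IrrCharacter G} (hχ : χ ∈ D.X) : (χ : G → ℂ) z = D.δ χ := by
  have := val_X hχ (one_ne_zero (α := ZMod p))
  rwa [zp_one] at this

theorem X_z' (T : Two D) {χ : IrrCharacter G} (hχ : χ ∈ D.X) : (χ : G → ℂ) T.z' = D.δ χ :=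
  val_X hχ T.u.ne_zero

theorem O_z {χ : IrrCharacter G} (h : ∀ a : (ZMod p)ˣ, vv hzp χ a = 0) : (χ : G → ℂ) z = 0 := by
  have := val_O h (one_ne_zero (α := ZMod p))
  rwa [zp_one] at this

theorem O_z' (T : Two D) {χ : IrrCharacter G} (h : ∀ a : (ZMod p)ˣ, vv hzp χ a = 0) : (χ : G → ℂ) T.z' = 0 :=
  val_O h T.u.ne_zero

theorem delta_sq (D : Dat hz hzp) {χ : IrrCharacter G} (hχ : χ ∈ D.X) : (D.δ χ : ℂ) * D.δ χ = 1 := by
  rcases D.hδ χ hχ with h | h <;> rw [h] <;> norm_num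

/-- `|α|² + |β|² = e + 1` -/
theorem Two.norms (T : Two D) : (T.A : G → ℂ) z * conj ((T.A : G → ℂ) z) + (T.B : G → ℂ) z * conj ((T.B : G → ℂ) z) = T.e + 1 := by
  classical
  haveI : Fintype (IrrCharacter G) := Fintype.ofFinite _
  have h1 := orth2 z z
  have hcz : Subgroup.centralizer ({z} : Set G) = Subgroup.zpowers z := by
    have := centralizer_zp hz D.hC (one_ne_zero (α := ZMod p))
    rwa [zp_one] at this
  rw [if_pos (IsConj.refl _), hcz, Nat.card_zpowers, hz, T.split _ (fun χ h => by rw [O_z h, zero_mul])] at h1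
  have h2 : ∑ χ ∈ D.X, (χ : G → ℂ) z * conj ((χ : G → ℂ) z) = T.e := by
    have : ∀ χ ∈ D.X, (χ : G → ℂ) z * conj ((χ : G → ℂ) z) = 1 := by
      intro χ hχ
      rw [X_z D hχ]
      simp only [map_intCast]
      exact delta_sq D hχ
    rw [Finset.sum_congr rfl this, Finset.sum_const, D.cardX, T.he, nsmul_eq_mul, mul_one]
  rw [h2] at h1
  have h3 : (p : ℂ) = 2 * T.e + 1 := by exact_mod_cast T.hp2
  rw [h3] at h1
  linear_combination h1

/-- `α β̄ + β ᾱ = -e` -/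
theorem Two.cross (T : Two D) : (T.A : G → ℂ) z * conj ((T.B : G → ℂ) z) + (T.B : G → ℂ) z * conj ((T.A : G → ℂ) z) = -T.e := by
  classical
  haveI : Fintype (IrrCharacter G) := Fintype.ofFinite _
  have h1 := orth2 z T.z'
  rw [if_neg T.not_conj, T.split _ (fun χ h => by rw [O_z h, zero_mul]), T.A_z', T.B_z'] at h1
  have h2 : ∑ χ ∈ D.X, (χ : G → ℂ) z * conj ((χ : G → ℂ) T.z') = T.e := by
    have : ∀ χ ∈ D.X, (χ : G → ℂ) z * conj ((χ : G → ℂ) T.z') = 1 := by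
      intro χ hχ
      rw [X_z D hχ, X_z' T hχ]
      simp only [map_intCast]
      exact delta_sq D hχ
    rw [Finset.sum_congr rfl this, Finset.sum_const, D.cardX, T.he, nsmul_eq_mul, mul_one]
  rw [h2] at h1
  linear_combination h1

/-- `A = B` on p-regular elements -/
theorem Two.AB_reg (T : Two D) {g : G} (hg : ¬ p ∣ orderOf g) : (T.A : G → ℂ) g = (T.B : G → ℂ) g := by
  have h1 := D.rel 1 g hg
  have h2 := D.rel (T.u : (ZMod p)ˣ ⧸ (om hz).range) g hg
  rw [← h2] at h1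
  have hε : (D.ε : ℂ) ≠ 0 := by
    rcases D.hε with h | h <;> rw [h] <;> norm_num
  exact mul_left_cancel₀ hε h1

/-- values of the nonexceptional characters on p-singular elements -/
theorem X_sing (D : Dat hz hzp) (hsyl : ¬ p ∣ (Subgroup.zpowers z).index) {χ : IrrCharacter G} (hχ : χ ∈ D.X) {g : G}
    (hg : p ∣ orderOf g) : (χ : G → ℂ) g = D.δ χ := by
  obtain ⟨i, hi, hc⟩ := exists_conj_of_dvd hz hsyl D.hC hg
  rw [← class_eq (IsIrr.isClass χ.2) hc]
  exact val_X hχ hi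

theorem O_sing (D : Dat hz hzp) (hsyl : ¬ p ∣ (Subgroup.zpowers z).index) {χ : IrrCharacter G}
    (h : ∀ a : (ZMod p)ˣ, vv hzp χ a = 0) {g : G} (hg : p ∣ orderOf g) : (χ : G → ℂ) g = 0 := by
  obtain ⟨i, hi, hc⟩ := exists_conj_of_dvd hz hsyl D.hC hg
  rw [← class_eq (IsIrr.isClass χ.2) hc]
  exact val_O h hi

/-- class functions vanishing on p-regular elements -/
theorem inner_X (D : Dat hz hzp) (hsyl : ¬ p ∣ (Subgroup.zpowers z).index) {F : G → ℂ}
    (hF : ∀ g, ¬ p ∣ orderOf g → F g = 0) {χ : IrrCharacter G} (hχ : χ ∈ D.X) :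
    classInner F (χ : G → ℂ) = D.δ χ * classInner F ((triv G : IrrCharacter G) : G → ℂ) := by
  rw [classInner, classInner, mul_left_comm]
  congr 1
  rw [Finset.mul_sum]
  apply Finset.sum_congr rfl
  intro g _
  by_cases hg : p ∣ orderOf g
  · rw [X_sing D hsyl hχ hg, triv_coe]
    simp only [map_intCast, map_one]
    ring
  · rw [hF g hg]; ring

end Cfsg.Agent.H9.BT
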