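import Mathlib
import Cfsg.Agent.H9_BT4

/-!
H9_BT5: Brauer-Tuan theorem, part 5: the case of exceptional degree (p-1)/2: characters.
-/

set_option autoImplicit false

open scoped ComplexConjugate

namespace Cfsg.Agent.H9.BT

open Cfsg Cfsg.Agent.H3.CharIrr Cfsg.Agent.H3.CharComplete Cfsg.Agent.H10.Char Cfsg.Agent.H10.BlockKer
  Cfsg.Agent.H9.BrVec Cfsg.Agent.H9.BrMain Cfsg.Agent.H9.BrThm Cfsg.Agent.H9.BrCor Cfsg.Agent.H9.BrSC

variable {G : Type*} [Group G] [Fintype G] {p : ℕ} [hp : Fact p.Prime] {z : G}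
  {hz : orderOf z = p} {hzp : z ^ p = 1} {D : Dat hz hzp}

theorem conj_A_z (T : Two D) (hodd : Odd T.e) : conj ((T.A : G → ℂ) z) = (T.B : G → ℂ) z := by
  have h1 : (T.A : G → ℂ) z⁻¹ = conj ((T.A : G → ℂ) z) := IsChar.inv_eq_conj (IsIrr.isCharacter T.A.2) z
  have hp3 : 2 < p := by
    have h := T.hp2
    obtain ⟨k, hk⟩ := hodd
    omega
  have hne : ((-1 : (ZMod p)ˣ) : (ZMod p)ˣ ⧸ (om hz).range) ≠ 1 := by
    intro h
    rw [QuotientGroup.eq_one_iff] at h
    have h3 : orderOf (-1 : (ZMod p)ˣ) = 2 := by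
      rw [orderOf_eq_prime_iff]
      refine ⟨by rw [neg_one_sq], ?_⟩
      intro h4
      have h5 := congrArg Units.val h4
      rw [Units.val_neg, Units.val_one] at h5
      haveI : Fact (2 < p) := ⟨hp3⟩
      exact ZMod.neg_one_ne_one h5
    have h4 : orderOf (⟨-1, h⟩ : (om hz).range) ∣ Nat.card (om hz).range := orderOf_dvd_natCard _
    rw [← Subgroup.orderOf_coe, h3, T.he] at h4
    obtain ⟨k, hk⟩ := hodd
    omega
  have h2 : ((-1 : (ZMod p)ˣ) : (ZMod p)ˣ ⧸ (om hz).range) = T.u := (T.hall _).resolve_left hne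
  have h3 := zp_conj_of_eq (hz := hz) h2
  have h4 : zp p z ((-1 : (ZMod p)ˣ) : ZMod p) = z⁻¹ := by
    rw [Units.val_neg, Units.val_one, zp_neg hzp, zp_one]
  rw [h4] at h3
  rw [← h1, ← T.A_z']
  exact class_eq (IsIrr.isClass T.A.2) h3

/-- irreducible conjugate -/
noncomputable def cj (χ : IrrCharacter G) : IrrCharacter G := ⟨fun g => conj ((χ : G → ℂ) g), Cfsg.Agent.H3.CharInd.IsIrr.conj χ.2⟩

theorem cj_apply (χ : IrrCharacter G) (g : G) : (cj χ : G → ℂ) g = conj ((χ : G → ℂ) g) := rfl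

/-- the data for the case of degree `(p-1)/2` -/
theorem caseA_data [IsSimpleGroup G] (hG : ¬ IsMulCommutative G) (T : Two D) (hsyl : ¬ p ∣ (Subgroup.zpowers z).index)
    (hε : D.ε = 1) (hmu : ∀ j, mu hzp (D.L j) 0 = 0) [DecidableEq (IrrCharacter G)] :
    Odd T.e ∧ (∀ χ ∈ D.X, D.δ χ = 1 → χ ≠ triv G → charDegree (χ : G → ℂ) = p + 1) ∧
    (∀ χ ∈ D.X, D.δ χ = -1 → (charDegree (χ : G → ℂ) : ℤ) = p - 1) ∧
    2 * (D.X.filter (fun χ => D.δ χ = 1)).card = T.e + 1 ∧
    (∀ g, (T.A : G → ℂ) g * conj ((T.A : G → ℂ) g) = ∑ χ ∈ D.X.filter (fun χ => D.δ χ = 1), (χ : G → ℂ) g) ∧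
    ∀ g, conj ((T.A : G → ℂ) g) = (T.B : G → ℂ) g := by
  classical
  haveI : Fintype (IrrCharacter G) := Fintype.ofFinite _
  have hp0 : (p : ℂ) ≠ 0 := p_ne
  have hp1 := hp.out.one_lt
  have he0 : 0 < T.e := by rw [← T.he]; exact Nat.card_pos
  have hpe : (p : ℂ) = 2 * T.e + 1 := by exact_mod_cast T.hp2
  have hpz : (p : ℤ) = 2 * T.e + 1 := by exact_mod_cast T.hp2
  have hdegA : ∀ j, charDegree (D.L j : G → ℂ) = T.e := by
    intro j
    have := L_deg D j
    rw [hmu j, hε, T.he] at this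
    push_cast at this
    have h2 : (charDegree (D.L j : G → ℂ) : ℤ) = T.e := by linarith
    exact_mod_cast h2
  have hA1 : (T.A : G → ℂ) 1 = T.e := by rw [← charDegree_eq T.A.2]; exact_mod_cast hdegA 1
  have hB1 : (T.B : G → ℂ) 1 = T.e := by rw [← charDegree_eq T.B.2]; exact_mod_cast hdegA _
  have hAt : T.A ≠ triv G := fun h => D.LX 1 (by
    have : D.L 1 = triv G := h
    rw [this]; exact D.trivX)
  have hBt : T.B ≠ triv G := fun h => D.LX (T.u : (ZMod p)ˣ ⧸ (om hz).range) (by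
    have : D.L (T.u : (ZMod p)ˣ ⧸ (om hz).range) = triv G := h
    rw [this]; exact D.trivX)
  -- the product A * conj A
  set Φ : G → ℂ := fun g => (T.A : G → ℂ) g * conj ((T.A : G → ℂ) g) with hΦ
  have hΦc : IsCharacter G Φ := IsChar.mul (IsIrr.isCharacter T.A.2) (IsChar.conj (IsIrr.isCharacter T.A.2))
  obtain ⟨m, hm1, hm2, hm3, hm4⟩ := T.mults hΦc
  have hΦ1 : Φ 1 = (T.e : ℂ) ^ 2 := by
    simp only [hΦ, hA1, map_natCast]; ring
  have hΦz : Φ z + Φ T.z' = T.e + 1 := by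
    simp only [hΦ, T.A_z']
    exact T.norms
  have hdeg : ∑ χ : IrrCharacter G, (m χ : ℤ) * (charDegree (χ : G → ℂ) : ℤ) = (T.e : ℤ) ^ 2 := by
    rw [hΦ1] at hm3
    exact_mod_cast hm3
  have hM : ∑ χ : IrrCharacter G, (m χ : ℤ) * (mu hzp χ 0 : ℤ) = T.e := by
    rw [hΦ1, hΦz] at hm4
    have h1 : (p : ℂ) * ∑ χ : IrrCharacter G, (m χ : ℂ) * (mu hzp χ 0 : ℂ) = p * T.e := by
      rw [hm4, hpe]; ring
    have h2 := mul_left_cancel₀ hp0 h1
    exact_mod_cast h2
  have hmt : m (triv G) = 1 := by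
    have h1 := hm1 (triv G)
    have h2 : classInner Φ ((triv G : IrrCharacter G) : G → ℂ) = classInner (T.A : G → ℂ) (T.A : G → ℂ) := by
      rw [classInner, classInner]
      congr 1
      apply Finset.sum_congr rfl
      intro g _
      simp only [hΦ, triv_coe, map_one, mul_one]
    rw [h2, ci_irr_self T.A.2] at h1
    exact_mod_cast h1.symm
  -- weights
  set k : IrrCharacter G → ℤ := fun χ => 2 * (charDegree (χ : G → ℂ) : ℤ) - (p + 1) * mu hzp χ 0 with hk
  have hksum : ∑ χ : IrrCharacter G, (m χ : ℤ) * k χ = -2 * T.e := by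
    have h1 : ∑ χ : IrrCharacter G, (m χ : ℤ) * k χ = 2 * ∑ χ : IrrCharacter G, (m χ : ℤ) * (charDegree (χ : G → ℂ) : ℤ) -
        (p + 1) * ∑ χ : IrrCharacter G, (m χ : ℤ) * (mu hzp χ 0 : ℤ) := by
      rw [Finset.mul_sum, Finset.mul_sum, ← Finset.sum_sub_distrib]
      apply Finset.sum_congr rfl
      intro χ _
      simp only [hk]; ring
    rw [h1, hdeg, hM, hpz]; ring
  have hkt : k (triv G) = -2 * T.e := by
    simp only [hk, deg_triv, mu_triv_zero hzp, hpz]; push_cast; ring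
  have hkXp : ∀ χ ∈ D.X, D.δ χ = 1 → k χ = 2 * T.e * (mu hzp χ 0 - 2) := by
    intro χ hχ hδ
    have h1 := X_deg D hχ
    simp only [hk]
    rw [h1, hδ, hpz]; ring
  have hkXm : ∀ χ ∈ D.X, D.δ χ = -1 → k χ = 2 * T.e * (mu hzp χ 0 + 2) := by
    intro χ hχ hδ
    have h1 := X_deg D hχ
    simp only [hk]
    rw [h1, hδ, hpz]; ring
  have hkL : ∀ j, k (D.L j) = 2 * T.e := by
    intro j
    simp only [hk, hdegA j, hmu j]; push_cast; ring
  have hkO : ∀ χ : IrrCharacter G, (∀ a : (ZMod p)ˣ, vv hzp χ a = 0) → k χ = 2 * T.e * mu hzp χ 0 := by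
    intro χ h
    have h1 := O_deg h
    simp only [hk]
    rw [h1, hpz]; ring
  have hXp2 : ∀ χ ∈ D.X, D.δ χ = 1 → χ ≠ triv G → 2 ≤ mu hzp χ 0 := by
    intro χ hχ hδ hne
    have h1 := X_mu D hχ
    have h2 := X_deg D hχ
    rw [hδ] at h1 h2
    by_contra hlt
    have h3 : mu hzp χ 0 = 1 := by omega
    rw [h3] at h2
    apply hne
    apply lin_triv hG
    have : (charDegree (χ : G → ℂ) : ℤ) = 1 := by rw [h2]; push_cast; ring
    exact_mod_cast this
  have hkn : ∀ χ : IrrCharacter G, χ ≠ triv G → 0 ≤ (m χ : ℤ) * k χ := by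
    intro χ hne
    apply mul_nonneg (Int.natCast_nonneg _)
    rcases D.all χ with h | ⟨j, rfl⟩ | h
    · rcases D.hδ χ h with h' | h'
      · rw [hkXp χ h h']
        have := hXp2 χ h h' hne
        have h3 : (0 : ℤ) ≤ (mu hzp χ 0 : ℤ) - 2 := by omega
        positivity
      · rw [hkXm χ h h']; positivity
    · rw [hkL j]; positivity
    · rw [hkO χ h]; positivity
  have hzero : ∀ χ : IrrCharacter G, χ ≠ triv G → (m χ : ℤ) * k χ = 0 := by
    have h1 : ∑ χ ∈ Finset.univ.erase (triv G), (m χ : ℤ) * k χ = 0 := by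
      have h2 := Finset.add_sum_erase Finset.univ (fun χ : IrrCharacter G => (m χ : ℤ) * k χ) (Finset.mem_univ (triv G))
      rw [hksum, hmt, hkt] at h2
      push_cast at h2
      linarith
    rw [Finset.sum_eq_zero_iff_of_nonneg (fun χ hχ => hkn χ (Finset.ne_of_mem_erase hχ))] at h1
    intro χ hne
    exact h1 χ (Finset.mem_erase.2 ⟨hne, Finset.mem_univ _⟩)
  have heZ : (0 : ℤ) < 2 * T.e := by positivity
  have hmXm : ∀ χ ∈ D.X, D.δ χ = -1 → m χ = 0 := by
    intro χ hχ hδ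
    have hne : χ ≠ triv G := by
      rintro rfl
      rw [delta_triv] at hδ
      norm_num at hδ
    have h1 := hzero χ hne
    rw [hkXm χ hχ hδ, mul_eq_zero] at h1
    rcases h1 with h | h
    · exact_mod_cast h
    · exfalso
      have : (0 : ℤ) < 2 * T.e * (mu hzp χ 0 + 2) := by positivity
      omega
  have hmL : ∀ j, m (D.L j) = 0 := by
    intro j
    have hne : D.L j ≠ triv G := fun h => D.LX j (by rw [h]; exact D.trivX)
    have h1 := hzero _ hne
    rw [hkL j, mul_eq_zero] at h1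
    rcases h1 with h | h
    · exact_mod_cast h
    · omega
  have hmO : ∀ χ : IrrCharacter G, (∀ a : (ZMod p)ˣ, vv hzp χ a = 0) → m χ = 0 := by
    intro χ h
    have hne : χ ≠ triv G := by
      rintro rfl
      have := h 1
      rw [vv_triv] at this
      norm_num at this
    have h1 := hzero χ hne
    rw [hkO χ h, mul_eq_zero] at h1
    rcases h1 with h' | h'
    · exact_mod_cast h'
    · exfalso
      have h2 : mu hzp χ 0 = 0 := by
        rcases mul_eq_zero.1 h' with h3 | h3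
        · omega
        · exact_mod_cast h3
      have h3 := O_deg h
      rw [h2] at h3
      have h4 : charDegree (χ : G → ℂ) = 0 := by
        have : (charDegree (χ : G → ℂ) : ℤ) = 0 := by rw [h3]; push_cast; ring
        exact_mod_cast this
      have := charDegree_pos χ.2
      omega
  -- e is odd
  have hsumX : 2 * ∑ χ ∈ D.X.filter (fun χ => D.δ χ = 1), (m χ : ℤ) = T.e + 1 := by
    have h1 : ∑ χ : IrrCharacter G, (m χ : ℤ) * (p * mu hzp χ 0 - (charDegree (χ : G → ℂ) : ℤ)) = T.e * (T.e + 1) := by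
      have h2 : ∑ χ : IrrCharacter G, (m χ : ℤ) * (p * mu hzp χ 0 - (charDegree (χ : G → ℂ) : ℤ)) =
          p * ∑ χ : IrrCharacter G, (m χ : ℤ) * (mu hzp χ 0 : ℤ) - ∑ χ : IrrCharacter G, (m χ : ℤ) * (charDegree (χ : G → ℂ) : ℤ) := by
        rw [Finset.mul_sum, ← Finset.sum_sub_distrib]
        apply Finset.sum_congr rfl
        intro χ _; ring
      rw [h2, hdeg, hM, hpz]; ring
    have h2 : ∑ χ : IrrCharacter G, (m χ : ℤ) * (p * mu hzp χ 0 - (charDegree (χ : G → ℂ) : ℤ)) =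
        ∑ χ ∈ D.X.filter (fun χ => D.δ χ = 1), (m χ : ℤ) * (2 * T.e) := by
      rw [← Finset.sum_subset (Finset.subset_univ (D.X.filter (fun χ => D.δ χ = 1)))]
      · apply Finset.sum_congr rfl
        intro χ hχ
        rw [Finset.mem_filter] at hχ
        rw [X_deg D hχ.1, hχ.2, hpz]; ring
      · intro χ _ hχ
        rw [Finset.mem_filter] at hχ
        have : m χ = 0 := by
          rcases D.all χ with h | ⟨j, rfl⟩ | h
          · rcases D.hδ χ h with h' | h'
            · exact absurd ⟨h, h'⟩ hχ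
            · exact hmXm χ h h'
          · exact hmL j
          · exact hmO χ h
        rw [this]; push_cast; ring
    rw [h2, ← Finset.sum_mul] at h1
    have h3 : (T.e : ℤ) ≠ 0 := by omega
    apply mul_left_cancel₀ h3
    linarith
  have hodd : Odd T.e := by
    rw [← Int.odd_coe_nat]
    exact ⟨∑ χ ∈ D.X.filter (fun χ => D.δ χ = 1), (m χ : ℤ) - 1, by linarith⟩
  have hconj := conj_A_z T hodd
  have hconj' : conj ((T.B : G → ℂ) z) = (T.A : G → ℂ) z := by rw [← hconj, Complex.conj_conj]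
  have hsum := T.sum_AB
  rw [hε] at hsum
  push_cast at hsum
  -- conj A = B
  have hcjz : (cj T.A : G → ℂ) z = (T.B : G → ℂ) z := by rw [cj_apply, hconj]
  have hcjz' : (cj T.A : G → ℂ) T.z' = (T.A : G → ℂ) z := by rw [cj_apply, T.A_z', hconj']
  have hcj : cj T.A = T.B := by
    rcases D.all (cj T.A) with h | ⟨j, hj⟩ | h
    · exfalso
      have h1 := X_z D h
      have h2 := X_z' T h
      rw [hcjz] at h1
      rw [hcjz'] at h2
      rw [h1, h2] at hsum
      have h3 : (D.δ (cj T.A) + D.δ (cj T.A) : ℤ) = -1 := by exact_mod_cast hsum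
      rcases D.hδ _ h with h' | h' <;> rw [h'] at h3 <;> norm_num at h3
    · rcases T.hall j with h' | h'
      · exfalso
        rw [h'] at hj
        have h1 : (cj T.A : G → ℂ) z = (T.A : G → ℂ) z := by rw [← hj]; rfl
        rw [hcjz] at h1
        have h2 := T.norms
        rw [hconj, hconj', h1] at h2
        rw [h1] at hsum
        have h3 : (T.A : G → ℂ) z = -1 / 2 := by linear_combination hsum / 2
        rw [h3] at h2
        have h4 : ((2 * T.e + 1 : ℕ) : ℂ) = ((0 : ℕ) : ℂ) := by push_cast; linear_combination -2 * h2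
        have h5 : 2 * T.e + 1 = 0 := by exact_mod_cast h4
        omega
      · rw [h'] at hj; exact hj.symm
    · exfalso
      have h1 := O_z h
      have h2 := O_z' T h
      rw [hcjz] at h1
      rw [hcjz'] at h2
      rw [h1, h2] at hsum
      norm_num at hsum
  have hAB : ∀ g, conj ((T.A : G → ℂ) g) = (T.B : G → ℂ) g := by
    intro g
    rw [← cj_apply, hcj]
  -- the product A * A
  set Ψ : G → ℂ := fun g => (T.A : G → ℂ) g * (T.A : G → ℂ) g with hΨ
  have hΨc : IsCharacter G Ψ := IsChar.mul (IsIrr.isCharacter T.A.2) (IsIrr.isCharacter T.A.2)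
  obtain ⟨n, hn1, hn2, hn3, hn4⟩ := T.mults hΨc
  have hcross := T.cross
  rw [hconj, hconj'] at hcross
  have hn0 : ∀ χ : IrrCharacter G, mu hzp χ 0 ≠ 0 → n χ = 0 := by
    have h1 : (p : ℂ) * ∑ χ : IrrCharacter G, (n χ : ℂ) * (mu hzp χ 0 : ℂ) = 0 := by
      rw [hn4]
      simp only [hΨ, hA1, T.A_z']
      linear_combination (T.e : ℂ) * hcross
    have h2 : ∑ χ : IrrCharacter G, (n χ : ℂ) * (mu hzp χ 0 : ℂ) = 0 := (mul_eq_zero.1 h1).resolve_left hp0
    have h3 : ∑ χ : IrrCharacter G, n χ * mu hzp χ 0 = 0 := by exact_mod_cast h2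
    rw [Finset.sum_eq_zero_iff] at h3
    intro χ hχ
    exact (mul_eq_zero.1 (h3 χ (Finset.mem_univ _))).resolve_right hχ
  have hnt : n (triv G) = 0 := hn0 _ (by rw [mu_triv_zero hzp]; norm_num)
  have hdiff : ∀ χ ∈ D.X, (m χ : ℤ) - n χ = D.δ χ := by
    have h1 : ∀ g, ¬ p ∣ orderOf g → (Φ - Ψ) g = 0 := by
      intro g hg
      simp only [Pi.sub_apply, hΦ, hΨ, hAB g]
      rw [← T.AB_reg hg]; ring
    intro χ hχ
    have h2 := inner_X D hsyl h1 hχ
    rw [ci_sub_left, ci_sub_left, hm1, hn1, hm1, hn1, hmt, hnt] at h2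
    push_cast at h2
    have h3 : (m χ : ℂ) - n χ = D.δ χ := by rw [h2]; ring
    exact_mod_cast h3
  have hmXp : ∀ χ ∈ D.X, D.δ χ = 1 → m χ = 1 := by
    intro χ hχ hδ
    by_cases hne : χ = triv G
    · rw [hne, hmt]
    · have h1 := hn0 χ (by have := hXp2 χ hχ hδ hne; omega)
      have h2 := hdiff χ hχ
      rw [h1, hδ] at h2
      push_cast at h2
      omega
  refine ⟨hodd, ?_, ?_, ?_, ?_, hAB⟩
  · intro χ hχ hδ hne
    have h1 := hzero χ hne
    rw [hmXp χ hχ hδ, hkXp χ hχ hδ] at h1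
    push_cast at h1
    rw [one_mul] at h1
    have h2 : (mu hzp χ 0 : ℤ) - 2 = 0 := by
      rcases mul_eq_zero.1 h1 with h3 | h3
      · omega
      · exact h3
    have h3 := X_deg D hχ
    have h4 : (mu hzp χ 0 : ℤ) = 2 := by linarith
    rw [hδ, h4] at h3
    have h5 : (charDegree (χ : G → ℂ) : ℤ) = ((p + 1 : ℕ) : ℤ) := by rw [h3]; push_cast; ring
    exact_mod_cast h5
  · intro χ hχ hδ
    have h1 := hdiff χ hχ
    rw [hmXm χ hχ hδ, hδ] at h1
    have h2 : mu hzp χ 0 = 0 := by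
      by_contra h3
      rw [hn0 χ h3] at h1
      norm_num at h1
    have h3 := X_deg D hχ
    rw [hδ, h2] at h3
    rw [h3]; push_cast; ring
  · have h1 : ∑ χ ∈ D.X.filter (fun χ => D.δ χ = 1), (m χ : ℤ) = (D.X.filter (fun χ => D.δ χ = 1)).card := by
      have h2 : ∀ χ ∈ D.X.filter (fun χ => D.δ χ = 1), (m χ : ℤ) = 1 := by
        intro χ hχ
        rw [Finset.mem_filter] at hχ
        rw [hmXp χ hχ.1 hχ.2, Nat.cast_one]
      rw [Finset.sum_congr rfl h2, Finset.sum_const, nsmul_eq_mul, mul_one]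
    rw [h1] at hsumX
    exact_mod_cast hsumX
  · intro g
    rw [show (T.A : G → ℂ) g * conj ((T.A : G → ℂ) g) = Φ g from rfl, hm2 g,
      ← Finset.sum_subset (Finset.subset_univ (D.X.filter (fun χ => D.δ χ = 1)))]
    · apply Finset.sum_congr rfl
      intro χ hχ
      rw [Finset.mem_filter] at hχ
      rw [hmXp χ hχ.1 hχ.2, Nat.cast_one, one_mul]
    · intro χ _ hχ
      rw [Finset.mem_filter] at hχ
      have : m χ = 0 := by
        rcases D.all χ with h | ⟨j, rfl⟩ | h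
        · rcases D.hδ χ h with h' | h'
          · exact absurd ⟨h, h'⟩ hχ
          · exact hmXm χ h h'
        · exact hmL j
        · exact hmO χ h
      rw [this, Nat.cast_zero, zero_mul]

end Cfsg.Agent.H9.BT
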