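import Mathlib
import Cfsg.Agent.H9_BT5
import Cfsg.Agent.H3_CharCalc

/-!
H9_BT6: Brauer-Tuan theorem, part 6: the case of exceptional degree (p-1)/2: the bound.
-/

set_option autoImplicit false

open scoped ComplexConjugate

namespace Cfsg.Agent.H9.BT

open Cfsg Cfsg.Agent.H3.CharIrr Cfsg.Agent.H3.CharComplete Cfsg.Agent.H10.Char Cfsg.Agent.H10.BlockKer
  Cfsg.Agent.H9.BrVec Cfsg.Agent.H9.BrMain Cfsg.Agent.H9.BrThm Cfsg.Agent.H9.BrCor Cfsg.Agent.H9.BrSC

variable {G : Type*} [Group G] [Fintype G] {p : ℕ} [hp : Fact p.Prime] {z : G}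
  {hz : orderOf z = p} {hzp : z ^ p = 1} {D : Dat hz hzp}

/-- structure constants of p-elements, as a real inequality -/
theorem struct (T : Two D) {y : ℂ} (hA1 : (T.A : G → ℂ) 1 = y) (hB1 : (T.B : G → ℂ) 1 = y) {g : G} (hg : ¬ p ∣ orderOf g)
    (b : G) (hb : b = z ∨ b = T.z') :
    ∃ N : ℕ, (N : ℂ) = (Nat.card G : ℂ) * (∑ χ ∈ D.X, conj ((χ : G → ℂ) g) / (χ : G → ℂ) 1 +
      ((T.A : G → ℂ) z * (T.A : G → ℂ) b + (T.B : G → ℂ) z * (T.B : G → ℂ) b) * conj ((T.A : G → ℂ) g) / y) := by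
  classical
  haveI : Fintype (IrrCharacter G) := Fintype.ofFinite _
  have h1 := Cfsg.Agent.H3.CharCalc.class_mult (G := G) z b g
  rw [T.split _ (fun χ h => by rw [O_z h]; simp)] at h1
  refine ⟨_, h1.trans ?_⟩
  congr 1
  have h2 : ∀ χ ∈ D.X, (χ : G → ℂ) z * (χ : G → ℂ) b * conj ((χ : G → ℂ) g) / (χ : G → ℂ) 1 =
      conj ((χ : G → ℂ) g) / (χ : G → ℂ) 1 := by
    intro χ hχ
    have h3 : (χ : G → ℂ) b = D.δ χ := by
      rcases hb with rfl | rfl
      · exact X_z D hχ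
      · exact X_z' T hχ
    rw [X_z D hχ, h3, delta_sq D hχ, one_mul]
  rw [Finset.sum_congr rfl h2, hA1, hB1, ← T.AB_reg hg]
  ring

/-- splitting of `X` by sign -/
theorem X_split (D : Dat hz hzp) (F : IrrCharacter G → ℂ) [DecidableEq (IrrCharacter G)] :
    ∑ χ ∈ D.X, F χ = F (triv G) + ∑ χ ∈ (D.X.filter (fun χ => D.δ χ = 1)).erase (triv G), F χ +
      ∑ χ ∈ D.X.filter (fun χ => D.δ χ = -1), F χ := by
  have h1 : D.X.filter (fun χ => ¬ D.δ χ = 1) = D.X.filter (fun χ => D.δ χ = -1) := by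
    ext χ
    simp only [Finset.mem_filter]
    constructor
    · rintro ⟨h, h'⟩; exact ⟨h, (D.hδ χ h).resolve_left h'⟩
    · rintro ⟨h, h'⟩; exact ⟨h, by rw [h']; norm_num⟩
  rw [← Finset.sum_filter_add_sum_filter_not D.X (fun χ => D.δ χ = 1), h1,
    Finset.add_sum_erase _ _ (Finset.mem_filter.2 ⟨D.trivX, delta_triv D⟩)]

theorem caseA_bound [IsSimpleGroup G] (hG : ¬ IsMulCommutative G) (T : Two D) (hsyl : ¬ p ∣ (Subgroup.zpowers z).index)
    (hε : D.ε = 1) (hmu : ∀ j, mu hzp (D.L j) 0 = 0) (he2 : 2 ≤ T.e) : Nat.card G ≤ 2 * p * T.e * (T.e + 1) := by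
  classical
  obtain ⟨hodd, hdp, hdm, hcX, hAA, hAB⟩ := caseA_data hG T hsyl hε hmu
  have hp0 : (p : ℂ) ≠ 0 := p_ne
  have hp1 := hp.out.one_lt
  have hpe : (p : ℂ) = 2 * T.e + 1 := by exact_mod_cast T.hp2
  have hpr : (p : ℝ) = 2 * T.e + 1 := by exact_mod_cast T.hp2
  have her : (2 : ℝ) ≤ T.e := by exact_mod_cast he2
  have hcG : (0 : ℝ) < Nat.card G := by exact_mod_cast Nat.card_pos
  have hdegA : ∀ j, charDegree (D.L j : G → ℂ) = T.e := by
    intro j
    have := L_deg D j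
    rw [hmu j, hε, T.he] at this
    push_cast at this
    have h2 : (charDegree (D.L j : G → ℂ) : ℤ) = T.e := by linarith
    exact_mod_cast h2
  have hA1 : (T.A : G → ℂ) 1 = T.e := by rw [← charDegree_eq T.A.2]; exact_mod_cast hdegA 1
  have hB1 : (T.B : G → ℂ) 1 = T.e := by rw [← charDegree_eq T.B.2]; exact_mod_cast hdegA _
  have hAt : T.A ≠ triv G := fun h => D.LX 1 (by
    have : D.L 1 = triv G := h
    rw [this]; exact D.trivX)
  have hconj := hAB z
  have hconj' : conj ((T.B : G → ℂ) z) = (T.A : G → ℂ) z := by rw [← hconj, Complex.conj_conj]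
  have hcross := T.cross
  rw [hconj, hconj'] at hcross
  have hnorms := T.norms
  rw [hconj, hconj'] at hnorms
  have hAB' : (T.A : G → ℂ) z * (T.B : G → ℂ) z = (T.e + 1) / 2 := by linear_combination hnorms / 2
  -- values on p-regular elements
  have hreg : ∀ g : G, ¬ p ∣ orderOf g → g ≠ 1 → ∃ r : ℝ, (T.A : G → ℂ) g = r ∧ r ^ 2 ≤ 1 := by
    intro g hg hg1
    have hreal : conj ((T.A : G → ℂ) g) = (T.A : G → ℂ) g := by rw [hAB, T.AB_reg hg]
    obtain ⟨r, hr⟩ := Complex.conj_eq_iff_real.1 hreal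
    refine ⟨r, hr, ?_⟩
    have hP : ∑ χ ∈ D.X.filter (fun χ => D.δ χ = 1), (χ : G → ℂ) g = (r : ℂ) ^ 2 := by
      rw [← hAA g, hreal, hr]; ring
    have hP' : ∑ χ ∈ (D.X.filter (fun χ => D.δ χ = 1)).erase (triv G), (χ : G → ℂ) g = (r : ℂ) ^ 2 - 1 := by
      have h1 := Finset.add_sum_erase (D.X.filter (fun χ => D.δ χ = 1)) (fun χ : IrrCharacter G => (χ : G → ℂ) g)
        (Finset.mem_filter.2 ⟨D.trivX, delta_triv D⟩)
      rw [hP] at h1
      rw [← h1, triv_coe]; ring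
    have hrel := D.rel 1 g hg
    rw [hε, X_split D] at hrel
    have hN : ∑ χ ∈ D.X.filter (fun χ => D.δ χ = -1), (χ : G → ℂ) g = (r : ℂ) ^ 2 - r := by
      have e1 : ∑ χ ∈ (D.X.filter (fun χ => D.δ χ = 1)).erase (triv G), (D.δ χ : ℂ) * (χ : G → ℂ) g = (r : ℂ) ^ 2 - 1 := by
        rw [← hP']
        apply Finset.sum_congr rfl
        intro χ hχ
        rw [(Finset.mem_filter.1 (Finset.mem_of_mem_erase hχ)).2]
        push_cast; ring
      have e2 : ∑ χ ∈ D.X.filter (fun χ => D.δ χ = -1), (D.δ χ : ℂ) * (χ : G → ℂ) g =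
          - ∑ χ ∈ D.X.filter (fun χ => D.δ χ = -1), (χ : G → ℂ) g := by
        rw [← Finset.sum_neg_distrib]
        apply Finset.sum_congr rfl
        intro χ hχ
        rw [(Finset.mem_filter.1 hχ).2]
        push_cast; ring
      rw [e1, e2, delta_triv, triv_coe] at hrel
      have e3 : (D.L 1 : G → ℂ) g = r := hr
      rw [e3] at hrel
      push_cast at hrel
      linear_combination hrel
    have hS : ∑ χ ∈ D.X, conj ((χ : G → ℂ) g) / (χ : G → ℂ) 1 =
        1 + ((r : ℂ) ^ 2 - 1) / (p + 1) + ((r : ℂ) ^ 2 - r) / (p - 1) := by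
      rw [X_split D]
      have e1 : ∑ χ ∈ (D.X.filter (fun χ => D.δ χ = 1)).erase (triv G), conj ((χ : G → ℂ) g) / (χ : G → ℂ) 1 =
          ((r : ℂ) ^ 2 - 1) / (p + 1) := by
        have : ((r : ℂ) ^ 2 - 1) = conj (∑ χ ∈ (D.X.filter (fun χ => D.δ χ = 1)).erase (triv G), (χ : G → ℂ) g) := by
          rw [hP']; simp
        rw [this, map_sum, Finset.sum_div]
        apply Finset.sum_congr rfl
        intro χ hχ
        have h2 := Finset.mem_filter.1 (Finset.mem_of_mem_erase hχ)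
        rw [← charDegree_eq χ.2, hdp χ h2.1 h2.2 (Finset.ne_of_mem_erase hχ)]
        push_cast; rfl
      have e2 : ∑ χ ∈ D.X.filter (fun χ => D.δ χ = -1), conj ((χ : G → ℂ) g) / (χ : G → ℂ) 1 =
          ((r : ℂ) ^ 2 - r) / (p - 1) := by
        have : ((r : ℂ) ^ 2 - r) = conj (∑ χ ∈ D.X.filter (fun χ => D.δ χ = -1), (χ : G → ℂ) g) := by
          rw [hN]; simp
        rw [this, map_sum, Finset.sum_div]
        apply Finset.sum_congr rfl
        intro χ hχ
        have h2 := Finset.mem_filter.1 hχ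
        have h3 : (charDegree (χ : G → ℂ) : ℂ) = p - 1 := by exact_mod_cast hdm χ h2.1 h2.2
        rw [← charDegree_eq χ.2, h3]
      rw [e1, e2, triv_coe, triv_coe, map_one, div_one]
    have hec : (T.e : ℂ) ≠ 0 := by
      have : T.e ≠ 0 := by omega
      exact_mod_cast this
    -- same class
    obtain ⟨N1, hN1⟩ := struct T hA1 hB1 hg z (Or.inl rfl)
    obtain ⟨N2, hN2⟩ := struct T hA1 hB1 hg T.z' (Or.inr rfl)
    rw [hS, hreal, hr] at hN1 hN2
    rw [T.A_z', T.B_z'] at hN2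
    have hc1 : ((T.A : G → ℂ) z * (T.A : G → ℂ) z + (T.B : G → ℂ) z * (T.B : G → ℂ) z) = -T.e := hcross
    have hc2 : ((T.A : G → ℂ) z * (T.B : G → ℂ) z + (T.B : G → ℂ) z * (T.A : G → ℂ) z) = T.e + 1 := hnorms
    rw [hc1] at hN1
    rw [hc2] at hN2
    have hr1 : (N1 : ℝ) = Nat.card G * (1 + (r ^ 2 - 1) / (p + 1) + (r ^ 2 - r) / (p - 1) + -T.e * r / T.e) := by
      exact_mod_cast hN1
    have hr2 : (N2 : ℝ) = Nat.card G * (1 + (r ^ 2 - 1) / (p + 1) + (r ^ 2 - r) / (p - 1) + (T.e + 1) * r / T.e) := by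
      exact_mod_cast hN2
    have hi1 : 0 ≤ 1 + (r ^ 2 - 1) / (p + 1) + (r ^ 2 - r) / (p - 1) + -T.e * r / (T.e : ℝ) := by
      by_contra hneg
      push Not at hneg
      have : (N1 : ℝ) < 0 := by rw [hr1]; exact mul_neg_of_pos_of_neg hcG hneg
      have h0 : (0 : ℝ) ≤ N1 := Nat.cast_nonneg _
      linarith
    have hi2 : 0 ≤ 1 + (r ^ 2 - 1) / (p + 1) + (r ^ 2 - r) / (p - 1) + (T.e + 1) * r / (T.e : ℝ) := by
      by_contra hneg
      push Not at hneg
      have : (N2 : ℝ) < 0 := by rw [hr2]; exact mul_neg_of_pos_of_neg hcG hneg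
      have h0 : (0 : ℝ) ≤ N2 := Nat.cast_nonneg _
      linarith
    set e : ℝ := (T.e : ℝ) with he
    have heq1 : 1 + (r ^ 2 - 1) / (p + 1) + (r ^ 2 - r) / (p - 1) + -e * r / e =
        (2 * e + 1) * ((r - 1) * (r - e)) / (2 * e * (e + 1)) := by
      rw [hpr]
      have h1 : (2 * e + 1 + 1 : ℝ) ≠ 0 := by linarith
      have h2 : (2 * e + 1 - 1 : ℝ) ≠ 0 := by linarith
      have h3 : e ≠ 0 := by linarith
      have h4 : e + 1 ≠ 0 := by linarith
      field_simp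
      ring
    have heq2 : 1 + (r ^ 2 - 1) / (p + 1) + (r ^ 2 - r) / (p - 1) + (e + 1) * r / e =
        (2 * e + 1) * ((r + 1) * (r + e)) / (2 * e * (e + 1)) := by
      rw [hpr]
      have h1 : (2 * e + 1 + 1 : ℝ) ≠ 0 := by linarith
      have h2 : (2 * e + 1 - 1 : ℝ) ≠ 0 := by linarith
      have h3 : e ≠ 0 := by linarith
      have h4 : e + 1 ≠ 0 := by linarith
      field_simp
      ring
    rw [heq1] at hi1
    rw [heq2] at hi2
    have hden : 0 < 2 * e * (e + 1) := by nlinarith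
    have hi1' : 0 ≤ (2 * e + 1) * ((r - 1) * (r - e)) := by
      by_contra hneg
      push Not at hneg
      have := div_neg_of_neg_of_pos hneg hden
      linarith
    have hi2' : 0 ≤ (2 * e + 1) * ((r + 1) * (r + e)) := by
      by_contra hneg
      push Not at hneg
      have := div_neg_of_neg_of_pos hneg hden
      linarith
    have hi1'' : 0 ≤ (r - 1) * (r - e) := nonneg_of_mul_nonneg_right hi1' (by linarith)
    have hi2'' : 0 ≤ (r + 1) * (r + e) := nonneg_of_mul_nonneg_right hi2' (by linarith)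
    have hnle := norm_le' T.A g
    have hnne := norm_ne hG hAt hg1
    have hdA : (charDegree (T.A : G → ℂ) : ℝ) = e := by
      have : charDegree (T.A : G → ℂ) = T.e := hdegA 1
      rw [this]
    rw [hr, hdA, Complex.norm_real] at hnle hnne
    have hlt : |r| < e := lt_of_le_of_ne hnle hnne
    rw [abs_lt] at hlt
    have hle1 : r ≤ 1 := by
      by_contra h
      push Not at h
      have : (r - 1) * (r - e) < 0 := mul_neg_of_pos_of_neg (by linarith) (by linarith)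
      linarith
    have hge1 : -1 ≤ r := by
      by_contra h
      push Not at h
      have : (r + 1) * (r + e) < 0 := mul_neg_of_neg_of_pos (by linarith) (by linarith)
      linarith
    nlinarith
  -- moments
  set Xp := D.X.filter (fun χ => D.δ χ = 1) with hXp
  set f : G → ℝ := fun g => (‖(T.A : G → ℂ) g‖ ^ 2) ^ 2 - ‖(T.A : G → ℂ) g‖ ^ 2 with hf
  have hnsq : ∀ g, ((‖(T.A : G → ℂ) g‖ ^ 2 : ℝ) : ℂ) = (T.A : G → ℂ) g * conj ((T.A : G → ℂ) g) := by
    intro g
    rw [Complex.mul_conj, Complex.normSq_eq_norm_sq]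
  have hm2 : ∑ g : G, ‖(T.A : G → ℂ) g‖ ^ 2 = Nat.card G := by
    have h1 := ci_irr_self T.A.2
    rw [classInner] at h1
    have h2 : (Nat.card G : ℂ) ≠ 0 := by exact_mod_cast Nat.card_pos.ne'
    have h3 : ∑ g : G, (T.A : G → ℂ) g * conj ((T.A : G → ℂ) g) = Nat.card G := by
      have := congrArg (fun x => (Nat.card G : ℂ) * x) h1
      simp only [mul_one] at this
      rw [← this, ← mul_assoc, mul_inv_cancel₀ h2, one_mul]
    have h4 : ((∑ g : G, ‖(T.A : G → ℂ) g‖ ^ 2 : ℝ) : ℂ) = ((Nat.card G : ℝ) : ℂ) := by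
      push_cast
      rw [← h3]
      apply Finset.sum_congr rfl
      intro g _
      rw [← hnsq]; push_cast; rfl
    exact_mod_cast h4
  have hm4 : ∑ g : G, (‖(T.A : G → ℂ) g‖ ^ 2) ^ 2 = Nat.card G * Xp.card := by
    have h2 : (Nat.card G : ℂ) ≠ 0 := by exact_mod_cast Nat.card_pos.ne'
    have h1 : classInner (∑ χ ∈ Xp, (χ : G → ℂ)) (∑ χ ∈ Xp, (χ : G → ℂ)) = Xp.card := by
      rw [ci_sum_left]
      have : ∀ χ ∈ Xp, classInner (χ : G → ℂ) (∑ ψ ∈ Xp, (ψ : G → ℂ)) = 1 := by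
        intro χ hχ
        rw [ci_sum_right, Finset.sum_eq_single χ]
        · exact ci_irr_self χ.2
        · intro ψ _ hne
          exact ci_irr_ne χ.2 ψ.2 (fun h => hne (Subtype.ext h.symm))
        · intro h; exact absurd hχ h
      rw [Finset.sum_congr rfl this, Finset.sum_const, nsmul_eq_mul, mul_one]
    rw [classInner] at h1
    have h3 : ∑ g : G, (∑ χ ∈ Xp, (χ : G → ℂ)) g * conj ((∑ χ ∈ Xp, (χ : G → ℂ)) g) = Nat.card G * Xp.card := by
      rw [← h1, ← mul_assoc, mul_inv_cancel₀ h2, one_mul]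
    have h4 : ((∑ g : G, (‖(T.A : G → ℂ) g‖ ^ 2) ^ 2 : ℝ) : ℂ) = ((Nat.card G * Xp.card : ℝ) : ℂ) := by
      push_cast
      rw [← h3]
      apply Finset.sum_congr rfl
      intro g _
      have h5 : (∑ χ ∈ Xp, (χ : G → ℂ)) g = ((‖(T.A : G → ℂ) g‖ ^ 2 : ℝ) : ℂ) := by
        rw [hnsq, hAA g, Finset.sum_apply]
      rw [h5, Complex.conj_ofReal]; push_cast; ring
    exact_mod_cast h4
  have hcls : IsClassFunction G (fun g => ((f g : ℝ) : ℂ)) := by
    intro a b
    simp only [hf]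
    rw [IsIrr.isClass T.A.2 a b]
  have hsing := T.sum_sing hsyl hcls
  have hfz : (f z : ℂ) + (f T.z' : ℂ) = (T.e + 1) * (T.e - 1) / 2 := by
    simp only [hf]
    have e1 : ((‖(T.A : G → ℂ) z‖ ^ 2 : ℝ) : ℂ) = (T.e + 1) / 2 := by rw [hnsq, hconj, hAB']
    have e2 : ((‖(T.A : G → ℂ) T.z'‖ ^ 2 : ℝ) : ℂ) = (T.e + 1) / 2 := by
      rw [hnsq, T.A_z', hconj', mul_comm, hAB']
    rw [Complex.ofReal_sub, Complex.ofReal_sub, Complex.ofReal_pow, Complex.ofReal_pow (_ : ℝ) 2]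
    rw [show (((‖(T.A : G → ℂ) z‖ : ℝ) : ℂ) ^ 2) = ((‖(T.A : G → ℂ) z‖ ^ 2 : ℝ) : ℂ) by push_cast; rfl] at *
    rw [e1]
    rw [Complex.ofReal_pow (‖(T.A : G → ℂ) T.z'‖ ^ 2) 2, e2]
    ring
  set S : ℝ := ∑ g : G, (if p ∣ orderOf g then f g else 0) with hS
  have hSr : (p : ℝ) * S = Nat.card G * ((T.e + 1) * (T.e - 1) / 2) := by
    rw [hfz] at hsing
    have h1 : ∑ g : G, (if p ∣ orderOf g then (f g : ℂ) else 0) = (S : ℂ) := by
      rw [hS, Complex.ofReal_sum]
      apply Finset.sum_congr rfl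
      intro g _
      split_ifs <;> simp
    rw [h1] at hsing
    exact_mod_cast hsing
  have hf1 : f 1 = (T.e : ℝ) ^ 4 - (T.e : ℝ) ^ 2 := by
    simp only [hf, hA1, Complex.norm_natCast]; ring
  have htot : ∑ g : G, f g = Nat.card G * Xp.card - Nat.card G := by
    simp only [hf]
    rw [Finset.sum_sub_distrib, hm2, hm4]
  have hle : ∑ g : G, f g ≤ S + f 1 := by
    have h1 : S + f 1 = ∑ g : G, ((if p ∣ orderOf g then f g else 0) + if g = 1 then f 1 else 0) := by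
      rw [Finset.sum_add_distrib, Finset.sum_ite_eq' Finset.univ (1 : G) (fun _ => f 1), if_pos (Finset.mem_univ _)]
    rw [h1]
    apply Finset.sum_le_sum
    intro g _
    by_cases hg : p ∣ orderOf g
    · have hg1 : g ≠ 1 := by
        rintro rfl
        rw [orderOf_one] at hg
        exact hp1.ne' (Nat.dvd_one.1 hg)
      rw [if_pos hg, if_neg hg1, add_zero]
    · rw [if_neg hg, zero_add]
      by_cases hg1 : g = 1
      · rw [if_pos hg1, hg1]
      · rw [if_neg hg1]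
        obtain ⟨r, hr, hr1⟩ := hreg g hg hg1
        simp only [hf]
        rw [hr, Complex.norm_real, Real.norm_eq_abs, sq_abs]
        nlinarith [sq_nonneg r]
  rw [htot, hf1] at hle
  have hXc : (2 : ℝ) * Xp.card = T.e + 1 := by exact_mod_cast hcX
  have hfin : (Nat.card G : ℝ) ≤ 2 * p * T.e * (T.e + 1) := by
    set e : ℝ := (T.e : ℝ) with he
    set c : ℝ := (Nat.card G : ℝ) with hc
    have h1 : (p : ℝ) * (c * Xp.card - c) ≤ p * S + p * (e ^ 4 - e ^ 2) := by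
      have hpp : (0 : ℝ) < p := by rw [hpr]; linarith
      have := mul_le_mul_of_nonneg_left hle hpp.le
      linarith
    rw [hSr] at h1
    have h2 : (Xp.card : ℝ) = (e + 1) / 2 := by linarith
    rw [h2, hpr] at h1
    have h3 : (e * (e - 1)) * c ≤ (e * (e - 1)) * (2 * (2 * e + 1) * e * (e + 1)) := by nlinarith
    rw [hpr]
    exact le_of_mul_le_mul_left h3 (by nlinarith)
  exact_mod_cast hfin

end Cfsg.Agent.H9.BT
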