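import Mathlib
import Cfsg.Agent.H9_BT5

/-!
H9_BT7: Brauer-Tuan theorem, part 7: the case of exceptional degree (p+1)/2: characters.
-/

set_option autoImplicit false

open scoped ComplexConjugate

namespace Cfsg.Agent.H9.BT

open Cfsg Cfsg.Agent.H3.CharIrr Cfsg.Agent.H3.CharComplete Cfsg.Agent.H10.Char Cfsg.Agent.H10.BlockKer
  Cfsg.Agent.H9.BrVec Cfsg.Agent.H9.BrMain Cfsg.Agent.H9.BrThm Cfsg.Agent.H9.BrCor Cfsg.Agent.H9.BrSC

variable {G : Type*} [Group G] [Fintype G] {p : ℕ} [hp : Fact p.Prime] {z : G}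
  {hz : orderOf z = p} {hzp : z ^ p = 1} {D : Dat hz hzp}

theorem zinv_conj (T : Two D) (heven : Even T.e) : IsConj z⁻¹ z := by
  have he0 : 0 < T.e := by rw [← T.he]; exact Nat.card_pos
  have h2 : 2 ∣ Nat.card (om hz).range := by rw [T.he]; exact even_iff_two_dvd.1 heven
  haveI : Fact (Nat.Prime 2) := ⟨Nat.prime_two⟩
  obtain ⟨h, hh⟩ := exists_prime_orderOf_dvd_card' 2 h2
  have h3 : (h : (ZMod p)ˣ) ^ 2 = 1 := by
    rw [← hh, ← Subgroup.orderOf_coe]; exact pow_orderOf_eq_one _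
  have h4 : (h : (ZMod p)ˣ) ≠ 1 := by
    intro h5
    rw [← Subgroup.orderOf_coe, h5, orderOf_one] at hh
    norm_num at hh
  have h5 : (h : (ZMod p)ˣ) = -1 := by
    have h6 : (((h : (ZMod p)ˣ) : ZMod p) - 1) * (((h : (ZMod p)ˣ) : ZMod p) + 1) = 0 := by
      have h7 := congrArg Units.val h3
      rw [Units.val_pow_eq_pow_val, Units.val_one] at h7
      linear_combination h7
    rcases mul_eq_zero.1 h6 with h7 | h7
    · exact absurd (Units.ext (by rw [Units.val_one]; exact sub_eq_zero.1 h7)) h4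
    · apply Units.ext
      rw [Units.val_neg, Units.val_one]
      exact eq_neg_of_add_eq_zero_left h7
  have h6 : ((-1 : (ZMod p)ˣ) : (ZMod p)ˣ ⧸ (om hz).range) = 1 := by
    rw [QuotientGroup.eq_one_iff, ← h5]
    exact h.2
  have h7 := zp_conj1 (hz := hz) h6
  have h8 : zp p z ((-1 : (ZMod p)ˣ) : ZMod p) = z⁻¹ := by
    rw [Units.val_neg, Units.val_one, zp_neg hzp, zp_one]
  rwa [h8] at h7

theorem conj_z (T : Two D) (heven : Even T.e) (χ : IrrCharacter G) : conj ((χ : G → ℂ) z) = (χ : G → ℂ) z := by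
  rw [← IsChar.inv_eq_conj (IsIrr.isCharacter χ.2)]
  exact class_eq (IsIrr.isClass χ.2) (zinv_conj T heven)

/-- identification of an irreducible character by its values on `z` and `z'` -/
theorem eq_A_of_vals (T : Two D) (hε : D.ε = -1) {χ : IrrCharacter G} (h1 : (χ : G → ℂ) z = (T.A : G → ℂ) z)
    (h2 : (χ : G → ℂ) T.z' = (T.B : G → ℂ) z) (hne : (T.A : G → ℂ) z ≠ (T.B : G → ℂ) z) : χ = T.A := by
  have hsum := T.sum_AB
  rw [hε] at hsum
  push_cast at hsum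
  rcases D.all χ with h | ⟨j, hj⟩ | h
  · exfalso
    rw [X_z D h] at h1
    rw [X_z' T h] at h2
    exact hne (h1.symm.trans h2)
  · rcases T.hall j with h' | h'
    · rw [h'] at hj; exact hj.symm
    · exfalso
      rw [h'] at hj
      have h3 : (χ : G → ℂ) z = (T.B : G → ℂ) z := by rw [← hj]; rfl
      exact hne (h1.symm.trans h3)
  · exfalso
    rw [O_z h] at h1
    rw [O_z' T h] at h2
    exact hne (h1.symm.trans h2)

theorem AB_ne (T : Two D) (hε : D.ε = -1) (heven : Even T.e) : (T.A : G → ℂ) z ≠ (T.B : G → ℂ) z := by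
  intro h
  have hsum := T.sum_AB
  rw [hε, ← h] at hsum
  push_cast at hsum
  have h3 : (T.A : G → ℂ) z = 1 / 2 := by linear_combination hsum / 2
  have h2 := T.norms
  rw [conj_z T heven, conj_z T heven, ← h, h3] at h2
  have h4 : ((2 * T.e + 1 : ℕ) : ℂ) = ((0 : ℕ) : ℂ) := by push_cast; linear_combination -2 * h2
  have h5 : 2 * T.e + 1 = 0 := by exact_mod_cast h4
  omega

theorem real_A (T : Two D) (hε : D.ε = -1) (heven : Even T.e) (g : G) : conj ((T.A : G → ℂ) g) = (T.A : G → ℂ) g := by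
  have h1 : cj T.A = T.A := by
    apply eq_A_of_vals T hε _ _ (AB_ne T hε heven)
    · rw [cj_apply, conj_z T heven]
    · rw [cj_apply, T.A_z', conj_z T heven]
  rw [← cj_apply, h1]

/-- the data for the case of degree `(p+1)/2` -/
theorem caseB_data [IsSimpleGroup G] (hG : ¬ IsMulCommutative G) (T : Two D) (hsyl : ¬ p ∣ (Subgroup.zpowers z).index)
    (hε : D.ε = -1) (hmu : ∀ j, mu hzp (D.L j) 0 = 1) (heven : Even T.e)
    (hX2 : ∀ χ ∈ D.X, χ ≠ triv G → 2 ∣ charDegree (χ : G → ℂ)) [DecidableEq (IrrCharacter G)] :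
    (∀ χ ∈ D.X, D.δ χ = 1 → χ ≠ triv G → charDegree (χ : G → ℂ) = p + 1) ∧
    (∀ χ ∈ D.X, D.δ χ = -1 → (charDegree (χ : G → ℂ) : ℤ) = p - 1) ∧
    2 * (D.X.filter (fun χ => D.δ χ = -1)).card = T.e ∧
    classInner (fun g => (T.A : G → ℂ) g * (T.B : G → ℂ) g) (T.A : G → ℂ) = 0 := by
  classical
  haveI : Fintype (IrrCharacter G) := Fintype.ofFinite _
  have hp0 : (p : ℂ) ≠ 0 := p_ne
  have hp1 := hp.out.one_lt
  have he0 : 0 < T.e := by rw [← T.he]; exact Nat.card_pos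
  have hpe : (p : ℂ) = 2 * T.e + 1 := by exact_mod_cast T.hp2
  have hpz : (p : ℤ) = 2 * T.e + 1 := by exact_mod_cast T.hp2
  have hdegA : ∀ j, charDegree (D.L j : G → ℂ) = T.e + 1 := by
    intro j
    have := L_deg D j
    rw [hmu j, hε, T.he, hpz] at this
    push_cast at this
    have h2 : (charDegree (D.L j : G → ℂ) : ℤ) = ((T.e + 1 : ℕ) : ℤ) := by push_cast; linarith
    exact_mod_cast h2
  have hA1 : (T.A : G → ℂ) 1 = T.e + 1 := by rw [← charDegree_eq T.A.2]; exact_mod_cast hdegA 1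
  have hB1 : (T.B : G → ℂ) 1 = T.e + 1 := by rw [← charDegree_eq T.B.2]; exact_mod_cast hdegA _
  have hrA := real_A T hε heven
  have hnorms := T.norms
  have hcross := T.cross
  rw [conj_z T heven, conj_z T heven] at hnorms hcross
  -- the product A * A
  set Φ : G → ℂ := fun g => (T.A : G → ℂ) g * (T.A : G → ℂ) g with hΦ
  have hΦc : IsCharacter G Φ := IsChar.mul (IsIrr.isCharacter T.A.2) (IsIrr.isCharacter T.A.2)
  obtain ⟨m, hm1, hm2, hm3, hm4⟩ := T.mults hΦc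
  have hΦ1 : Φ 1 = ((T.e : ℂ) + 1) ^ 2 := by
    simp only [hΦ, hA1]; ring
  have hΦz : Φ z + Φ T.z' = T.e + 1 := by
    simp only [hΦ, T.A_z']
    exact hnorms
  have hdeg : ∑ χ : IrrCharacter G, (m χ : ℤ) * (charDegree (χ : G → ℂ) : ℤ) = ((T.e : ℤ) + 1) ^ 2 := by
    rw [hΦ1] at hm3
    exact_mod_cast hm3
  have hM : ∑ χ : IrrCharacter G, (m χ : ℤ) * (mu hzp χ 0 : ℤ) = T.e + 1 := by
    rw [hΦ1, hΦz] at hm4
    have h1 : (p : ℂ) * ∑ χ : IrrCharacter G, (m χ : ℂ) * (mu hzp χ 0 : ℂ) = p * (T.e + 1) := by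
      rw [hm4, hpe]; ring
    have h2 := mul_left_cancel₀ hp0 h1
    exact_mod_cast h2
  have hmt : m (triv G) = 1 := by
    have h1 := hm1 (triv G)
    have h2 : classInner Φ ((triv G : IrrCharacter G) : G → ℂ) = classInner (T.A : G → ℂ) (T.A : G → ℂ) := by
      rw [classInner, classInner]
      congr 1
      apply Finset.sum_congr rfl
      intro g _
      simp only [hΦ, triv_coe, map_one, mul_one, hrA]
    rw [h2, ci_irr_self T.A.2] at h1
    exact_mod_cast h1.symm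
  -- weights
  set k : IrrCharacter G → ℤ := fun χ => 2 * (charDegree (χ : G → ℂ) : ℤ) - (p + 1) * mu hzp χ 0 with hk
  have hksum' : ∀ n : IrrCharacter G → ℕ, ∑ χ : IrrCharacter G, (n χ : ℤ) * k χ = 2 * ∑ χ : IrrCharacter G, (n χ : ℤ) * (charDegree (χ : G → ℂ) : ℤ) -
        (p + 1) * ∑ χ : IrrCharacter G, (n χ : ℤ) * (mu hzp χ 0 : ℤ) := by
    intro n
    rw [Finset.mul_sum, Finset.mul_sum, ← Finset.sum_sub_distrib]
    apply Finset.sum_congr rfl
    intro χ _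
    simp only [hk]; ring
  have hksum : ∑ χ : IrrCharacter G, (m χ : ℤ) * k χ = 0 := by
    rw [hksum', hdeg, hM, hpz]; ring
  have hkt : k (triv G) = -2 * T.e := by
    simp only [hk, deg_triv, mu_triv_zero hzp, hpz]; push_cast; ring
  have hkXp : ∀ χ ∈ D.X, D.δ χ = 1 → k χ = 2 * T.e * (mu hzp χ 0 - 2) := by
    intro χ hχ hδ
    have h1 := X_deg D hχ
    simp only [hk]
    rw [h1, hδ, hpz]; ring
  have hkXm : ∀ χ ∈ D.X, D.δ χ = -1 → k χ = 2 * T.e * (mu hzp χ 0 + 2) := by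
    intro χ hχ hδ
    have h1 := X_deg D hχ
    simp only [hk]
    rw [h1, hδ, hpz]; ring
  have hkL : ∀ j, k (D.L j) = 0 := by
    intro j
    simp only [hk, hdegA j, hmu j, hpz]; push_cast; ring
  have hkO : ∀ χ : IrrCharacter G, (∀ a : (ZMod p)ˣ, vv hzp χ a = 0) → k χ = 2 * T.e * mu hzp χ 0 := by
    intro χ h
    have h1 := O_deg h
    simp only [hk]
    rw [h1, hpz]; ring
  have hXp2 : ∀ χ ∈ D.X, D.δ χ = 1 → χ ≠ triv G → 2 ≤ mu hzp χ 0 := by
    intro χ hχ hδ hne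
    have h1 := X_mu D hχ
    have h2 := X_deg D hχ
    rw [hδ] at h1 h2
    by_contra hlt
    have h3 : mu hzp χ 0 = 1 := by omega
    rw [h3] at h2
    apply hne
    apply lin_triv hG
    have : (charDegree (χ : G → ℂ) : ℤ) = 1 := by rw [h2]; push_cast; ring
    exact_mod_cast this
  have hkn : ∀ (n : IrrCharacter G → ℕ) (χ : IrrCharacter G), χ ≠ triv G → 0 ≤ (n χ : ℤ) * k χ := by
    intro n χ hne
    apply mul_nonneg (Int.natCast_nonneg _)
    rcases D.all χ with h | ⟨j, rfl⟩ | h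
    · rcases D.hδ χ h with h' | h'
      · rw [hkXp χ h h']
        have := hXp2 χ h h' hne
        have h3 : (0 : ℤ) ≤ (mu hzp χ 0 : ℤ) - 2 := by omega
        positivity
      · rw [hkXm χ h h']; positivity
    · rw [hkL j]
    · rw [hkO χ h]; positivity
  have hle : ∀ χ : IrrCharacter G, χ ≠ triv G → (m χ : ℤ) * k χ ≤ 2 * T.e := by
    have h1 : ∑ χ ∈ Finset.univ.erase (triv G), (m χ : ℤ) * k χ = 2 * T.e := by
      have h2 := Finset.add_sum_erase Finset.univ (fun χ : IrrCharacter G => (m χ : ℤ) * k χ) (Finset.mem_univ (triv G))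
      rw [hksum, hmt, hkt] at h2
      push_cast at h2
      linarith
    intro χ hne
    rw [← h1]
    exact Finset.single_le_sum (f := fun χ : IrrCharacter G => (m χ : ℤ) * k χ)
      (fun ψ hψ => hkn m ψ (Finset.ne_of_mem_erase hψ)) (Finset.mem_erase.2 ⟨hne, Finset.mem_univ _⟩)
  have heZ : (0 : ℤ) < 2 * T.e := by positivity
  have hmXm : ∀ χ ∈ D.X, D.δ χ = -1 → m χ = 0 := by
    intro χ hχ hδ
    have hne : χ ≠ triv G := by
      rintro rfl
      rw [delta_triv] at hδ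
      norm_num at hδ
    have h1 := hle χ hne
    rw [hkXm χ hχ hδ] at h1
    by_contra h2
    have h3 : (1 : ℤ) ≤ m χ := by omega
    have h4 : (2 * T.e : ℤ) * 2 ≤ 2 * T.e * (mu hzp χ 0 + 2) := mul_le_mul_of_nonneg_left (by omega) heZ.le
    have h5 : (1 : ℤ) * (2 * T.e * (mu hzp χ 0 + 2)) ≤ m χ * (2 * T.e * (mu hzp χ 0 + 2)) :=
      mul_le_mul_of_nonneg_right h3 (by positivity)
    omega
  have hmXp : ∀ χ ∈ D.X, D.δ χ = 1 → χ ≠ triv G → m χ ≠ 0 → mu hzp χ 0 = 2 := by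
    intro χ hχ hδ hne hm0
    have h1 := hle χ hne
    have h2 := hXp2 χ hχ hδ hne
    rw [hkXp χ hχ hδ] at h1
    by_contra h3
    have h4 : (1 : ℤ) ≤ m χ := by omega
    have h5 : (0 : ℤ) ≤ 2 * T.e * (mu hzp χ 0 - 2) := mul_nonneg heZ.le (by omega)
    have h6 : (1 : ℤ) * (2 * T.e * (mu hzp χ 0 - 2)) ≤ m χ * (2 * T.e * (mu hzp χ 0 - 2)) :=
      mul_le_mul_of_nonneg_right h4 h5
    have h7 : 2 * T.e * ((mu hzp χ 0 : ℤ) - 2) ≤ 2 * T.e * 1 := by linarith
    have h8 : (mu hzp χ 0 : ℤ) - 2 ≤ 1 := le_of_mul_le_mul_left h7 heZ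
    have h9 : mu hzp χ 0 = 3 := by omega
    have h10 := X_deg D hχ
    rw [hδ, h9, hpz] at h10
    have h11 : ((2 : ℕ) : ℤ) ∣ (charDegree (χ : G → ℂ) : ℤ) := by exact_mod_cast hX2 χ hχ hne
    rw [h10] at h11
    obtain ⟨w, hw⟩ := h11
    push_cast at hw
    omega
  -- the product A * B
  set Ψ : G → ℂ := fun g => (T.A : G → ℂ) g * (T.B : G → ℂ) g with hΨ
  have hΨc : IsCharacter G Ψ := IsChar.mul (IsIrr.isCharacter T.A.2) (IsIrr.isCharacter T.B.2)
  obtain ⟨n, hn1, hn2, hn3, hn4⟩ := T.mults hΨc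
  have hΨ1 : Ψ 1 = ((T.e : ℂ) + 1) ^ 2 := by
    simp only [hΨ, hA1, hB1]; ring
  have hΨz : Ψ z + Ψ T.z' = -T.e := by
    simp only [hΨ, T.A_z', T.B_z']
    exact hcross
  have hndeg : ∑ χ : IrrCharacter G, (n χ : ℤ) * (charDegree (χ : G → ℂ) : ℤ) = ((T.e : ℤ) + 1) ^ 2 := by
    rw [hΨ1] at hn3
    exact_mod_cast hn3
  have hnM : ∑ χ : IrrCharacter G, n χ * mu hzp χ 0 = 1 := by
    rw [hΨ1, hΨz] at hn4
    have h1 : (p : ℂ) * ∑ χ : IrrCharacter G, (n χ : ℂ) * (mu hzp χ 0 : ℂ) = p * 1 := by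
      rw [hn4, hpe]; ring
    have h2 := mul_left_cancel₀ hp0 h1
    exact_mod_cast h2
  have hnt : n (triv G) = 0 := by
    have h1 := hn1 (triv G)
    have h2 : classInner Ψ ((triv G : IrrCharacter G) : G → ℂ) = classInner (T.B : G → ℂ) (T.A : G → ℂ) := by
      rw [classInner, classInner]
      congr 1
      apply Finset.sum_congr rfl
      intro g _
      simp only [hΨ, triv_coe, map_one, mul_one, hrA]
      ring
    rw [h2, ci_irr_ne T.B.2 T.A.2 (fun h => T.AB (Subtype.ext h.symm))] at h1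
    exact_mod_cast h1.symm
  have hnle : ∀ χ : IrrCharacter G, n χ * mu hzp χ 0 ≤ 1 := by
    intro χ
    rw [← hnM]
    exact Finset.single_le_sum (f := fun χ : IrrCharacter G => n χ * mu hzp χ 0) (fun ψ _ => Nat.zero_le _) (Finset.mem_univ χ)
  have hnXp : ∀ χ ∈ D.X, D.δ χ = 1 → n χ = 0 := by
    intro χ hχ hδ
    by_cases hne : χ = triv G
    · rw [hne, hnt]
    · have h1 := hXp2 χ hχ hδ hne
      have h2 := hnle χ
      by_contra h3
      have h4 : 1 * 2 ≤ n χ * mu hzp χ 0 := Nat.mul_le_mul (by omega) h1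
      omega
  have hnXm : ∀ χ ∈ D.X, D.δ χ = -1 → n χ ≠ 0 → mu hzp χ 0 = 0 := by
    intro χ hχ hδ hn0
    have hne : χ ≠ triv G := by
      rintro rfl
      rw [delta_triv] at hδ
      norm_num at hδ
    have h2 := hnle χ
    by_contra h3
    have h4 : mu hzp χ 0 = 1 := by
      have h5 : 1 * mu hzp χ 0 ≤ n χ * mu hzp χ 0 := Nat.mul_le_mul_right _ (by omega)
      omega
    have h10 := X_deg D hχ
    rw [hδ, h4, hpz] at h10
    have h11 : ((2 : ℕ) : ℤ) ∣ (charDegree (χ : G → ℂ) : ℤ) := by exact_mod_cast hX2 χ hχ hne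
    rw [h10] at h11
    obtain ⟨w, hw⟩ := h11
    push_cast at hw
    omega
  -- sum over the pieces
  set Xm := D.X.filter (fun χ => D.δ χ = -1) with hXm
  have hABne := T.AB
  have hAX : T.A ∉ D.X := D.LX _
  have hBX : T.B ∉ D.X := D.LX _
  have hAXm : T.A ∉ Xm := fun h => hAX (Finset.mem_of_mem_filter _ h)
  have hBXm : T.B ∉ Xm := fun h => hBX (Finset.mem_of_mem_filter _ h)
  set O : Finset (IrrCharacter G) := Finset.univ \ (insert T.A (insert T.B D.X)) with hO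
  have hOmem : ∀ χ ∈ O, ∀ a : (ZMod p)ˣ, vv hzp χ a = 0 := by
    intro χ hχ
    rw [hO, Finset.mem_sdiff, Finset.mem_insert, Finset.mem_insert, not_or, not_or] at hχ
    rcases D.all χ with h | ⟨j, hj⟩ | h
    · exact absurd h hχ.2.2.2
    · rcases T.hall j with h' | h'
      · rw [h'] at hj; exact absurd hj.symm hχ.2.1
      · rw [h'] at hj; exact absurd hj.symm hχ.2.2.1
    · exact h
  have hsplit : ∀ F : IrrCharacter G → ℤ, ∑ χ : IrrCharacter G, F χ = ∑ χ ∈ O, F χ + (F T.A + (F T.B + ∑ χ ∈ D.X, F χ)) := by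
    intro F
    rw [hO, ← Finset.sum_insert hBX, ← Finset.sum_insert (by rw [Finset.mem_insert, not_or]; exact ⟨hABne, hAX⟩),
      Finset.sum_sdiff (Finset.subset_univ _)]
  have hsum1 : ∑ χ ∈ O, (n χ : ℤ) * mu hzp χ 0 + (n T.A : ℤ) + (n T.B : ℤ) = 1 := by
    have h1 : ∑ χ : IrrCharacter G, (n χ : ℤ) * mu hzp χ 0 = 1 := by exact_mod_cast hnM
    rw [hsplit] at h1
    have h2 : ∑ χ ∈ D.X, (n χ : ℤ) * mu hzp χ 0 = 0 := by
      apply Finset.sum_eq_zero
      intro χ hχ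
      rcases D.hδ χ hχ with h' | h'
      · rw [hnXp χ hχ h']; push_cast; ring
      · by_cases h3 : n χ = 0
        · rw [h3]; push_cast; ring
        · rw [hnXm χ hχ h' h3]; push_cast; ring
    have h3 : mu hzp T.A 0 = 1 := hmu _
    have h4 : mu hzp T.B 0 = 1 := hmu _
    rw [h2, h3, h4] at h1
    push_cast at h1
    linarith
  have hsum2 : ∑ χ ∈ O, (n χ : ℤ) * mu hzp χ 0 + 2 * ∑ χ ∈ Xm, (n χ : ℤ) = T.e + 1 := by
    have h1 : ∑ χ : IrrCharacter G, (n χ : ℤ) * k χ = 2 * T.e * (T.e + 1) := by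
      have h2 : ∑ χ : IrrCharacter G, (n χ : ℤ) * (mu hzp χ 0 : ℤ) = 1 := by exact_mod_cast hnM
      rw [hksum', hndeg, h2, hpz]; ring
    rw [hsplit] at h1
    have h2 : ∑ χ ∈ D.X, (n χ : ℤ) * k χ = ∑ χ ∈ Xm, (n χ : ℤ) * (4 * T.e) := by
      rw [← Finset.sum_subset (Finset.filter_subset (fun χ => D.δ χ = -1) D.X)]
      · apply Finset.sum_congr rfl
        intro χ hχ
        rw [Finset.mem_filter] at hχ
        by_cases h3 : n χ = 0
        · rw [h3]; push_cast; ring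
        · rw [hkXm χ hχ.1 hχ.2, hnXm χ hχ.1 hχ.2 h3]; push_cast; ring
      · intro χ hχ hχ'
        rw [Finset.mem_filter, not_and] at hχ'
        rw [hnXp χ hχ ((D.hδ χ hχ).resolve_right (hχ' hχ))]; push_cast; ring
    have h3 : ∑ χ ∈ O, (n χ : ℤ) * k χ = 2 * T.e * ∑ χ ∈ O, (n χ : ℤ) * mu hzp χ 0 := by
      rw [Finset.mul_sum]
      apply Finset.sum_congr rfl
      intro χ hχ
      rw [hkO χ (hOmem χ hχ)]; ring
    have h4 : k T.A = 0 := hkL _
    have h5 : k T.B = 0 := hkL _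
    rw [h2, h3, h4, h5, ← Finset.sum_mul] at h1
    have h6 : (2 * T.e : ℤ) * (∑ χ ∈ O, (n χ : ℤ) * mu hzp χ 0 + 2 * ∑ χ ∈ Xm, (n χ : ℤ)) = 2 * T.e * (T.e + 1) := by linarith
    exact mul_left_cancel₀ heZ.ne' h6
  have hnA : n T.A = 0 := by
    obtain ⟨w, hw⟩ := heven
    have h1 : (0 : ℤ) ≤ ∑ χ ∈ O, (n χ : ℤ) * mu hzp χ 0 := Finset.sum_nonneg fun χ _ => by positivity
    have h2 : (0 : ℤ) ≤ n T.A := Int.natCast_nonneg _
    have h3 : (0 : ℤ) ≤ n T.B := Int.natCast_nonneg _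
    have h4 : ((T.e : ℕ) : ℤ) = w + w := by exact_mod_cast hw
    omega
  have hsum3 : 2 * ∑ χ ∈ Xm, (n χ : ℤ) = T.e := by
    obtain ⟨w, hw⟩ := heven
    have h1 : (0 : ℤ) ≤ ∑ χ ∈ O, (n χ : ℤ) * mu hzp χ 0 := Finset.sum_nonneg fun χ _ => by positivity
    have h2 : (0 : ℤ) ≤ n T.A := Int.natCast_nonneg _
    have h3 : (0 : ℤ) ≤ n T.B := Int.natCast_nonneg _
    have h4 : ((T.e : ℕ) : ℤ) = w + w := by exact_mod_cast hw
    omega
  have hdiff : ∀ χ ∈ D.X, (m χ : ℤ) - n χ = D.δ χ := by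
    have h1 : ∀ g, ¬ p ∣ orderOf g → (Φ - Ψ) g = 0 := by
      intro g hg
      simp only [Pi.sub_apply, hΦ, hΨ]
      rw [← T.AB_reg hg]; ring
    intro χ hχ
    have h2 := inner_X D hsyl h1 hχ
    rw [ci_sub_left, ci_sub_left, hm1, hn1, hm1, hn1, hmt, hnt] at h2
    push_cast at h2
    have h3 : (m χ : ℂ) - n χ = D.δ χ := by rw [h2]; ring
    exact_mod_cast h3
  have hnXm1 : ∀ χ ∈ D.X, D.δ χ = -1 → n χ = 1 := by
    intro χ hχ hδ
    have h1 := hdiff χ hχ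
    rw [hmXm χ hχ hδ, hδ] at h1
    push_cast at h1
    omega
  refine ⟨?_, ?_, ?_, ?_⟩
  · intro χ hχ hδ hne
    have h1 := hdiff χ hχ
    rw [hnXp χ hχ hδ, hδ] at h1
    have h2 : m χ ≠ 0 := by
      intro h3
      rw [h3] at h1
      norm_num at h1
    have h4 := hmXp χ hχ hδ hne h2
    have h3 := X_deg D hχ
    rw [hδ, h4] at h3
    have h5 : (charDegree (χ : G → ℂ) : ℤ) = ((p + 1 : ℕ) : ℤ) := by rw [h3]; push_cast; ring
    exact_mod_cast h5
  · intro χ hχ hδ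
    have h1 := hnXm1 χ hχ hδ
    have h2 := hnXm χ hχ hδ (by rw [h1]; norm_num)
    have h3 := X_deg D hχ
    rw [hδ, h2] at h3
    rw [h3]; push_cast; ring
  · have h1 : ∑ χ ∈ Xm, (n χ : ℤ) = Xm.card := by
      have h2 : ∀ χ ∈ Xm, (n χ : ℤ) = 1 := by
        intro χ hχ
        rw [hXm, Finset.mem_filter] at hχ
        rw [hnXm1 χ hχ.1 hχ.2, Nat.cast_one]
      rw [Finset.sum_congr rfl h2, Finset.sum_const, nsmul_eq_mul, mul_one]
    rw [h1] at hsum3
    exact_mod_cast hsum3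
  · have h1 := hn1 T.A
    rw [hnA, Nat.cast_zero] at h1
    exact h1

end Cfsg.Agent.H9.BT
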