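import Mathlib
import Cfsg.Agent.H9_BT7
import Cfsg.Agent.H9_BT6
import Cfsg.Agent.H10_BlockHZ
import Cfsg.Agent.H10_BlockQ8

/-!
H9_BT8: Brauer-Tuan theorem, part 8: values on 2-elements are odd integers.
-/

set_option autoImplicit false

open scoped ComplexConjugate

namespace Cfsg.Agent.H9.BT

open Cfsg Cfsg.Agent.H3.CharIrr Cfsg.Agent.H3.CharComplete Cfsg.Agent.H10.Char Cfsg.Agent.H10.BlockKer
  Cfsg.Agent.H9.BrVec Cfsg.Agent.H9.BrMain Cfsg.Agent.H9.BrThm Cfsg.Agent.H9.BrCor Cfsg.Agent.H9.BrSC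

variable {G : Type*} [Group G] [Fintype G] {p : ℕ} [hp : Fact p.Prime] {z : G}
  {hz : orderOf z = p} {hzp : z ^ p = 1} {D : Dat hz hzp}

theorem pow_inv (T : Two D) (hε : D.ε = -1) (heven : Even T.e) {m : ℕ} (hm : (Nat.card G).Coprime m)
    (hmp : m ≡ 1 [MOD p]) (g : G) : (T.A : G → ℂ) (g ^ m) = (T.A : G → ℂ) g := by
  have hz1 : ∀ y : G, orderOf y = p → y ^ m = y := by
    intro y hy
    have h1 : y ^ m = y ^ 1 := by
      rw [pow_eq_pow_iff_modEq, hy]; exact hmp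
    rw [h1, pow_one]
  have h1 : (⟨fun g => (T.A : G → ℂ) (g ^ m), Cfsg.Agent.H3.GalProd.isIrr_pow hm T.A.2⟩ : IrrCharacter G) = T.A := by
    apply eq_A_of_vals T hε _ _ (AB_ne T hε heven)
    · change (T.A : G → ℂ) (z ^ m) = _
      rw [hz1 z hz]
    · change (T.A : G → ℂ) (T.z' ^ m) = _
      rw [hz1 T.z' (zp_order' hz T.u.ne_zero), T.A_z']
  exact congrFun (congrArg Subtype.val h1) g

theorem odd_int (T : Two D) (hε : D.ε = -1) (heven : Even T.e) {B : ℕ} (hcard : Nat.card G = p * 2 ^ B * (T.e + 1))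
    (hA1 : (T.A : G → ℂ) 1 = T.e + 1) {k : ℕ} {g : G} (hg : orderOf g = 2 ^ k) :
    ∃ n : ℤ, (T.A : G → ℂ) g = n ∧ Odd n := by
  have hgn : g ^ (2 ^ k) = 1 := by rw [← hg]; exact pow_orderOf_eq_one g
  have hp2 := T.hp2
  have hco : (2 ^ (k + 1)).Coprime (p * (T.e + 1)) := by
    apply Nat.Coprime.pow_left
    rw [Nat.coprime_two_left]
    apply Odd.mul
    · rw [hp2]; exact ⟨T.e, rfl⟩
    · exact heven.add_one
  have hinv : ∀ j : ℕ, Odd j → (T.A : G → ℂ) (g ^ j) = (T.A : G → ℂ) g := by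
    intro j hj
    obtain ⟨m, hm1, hm2⟩ := Nat.chineseRemainder hco j 1
    have hmodd : Odd m := by
      have h1 : m ≡ j [MOD 2] := Nat.ModEq.of_dvd (dvd_pow_self 2 (Nat.succ_ne_zero k)) hm1
      rw [Nat.odd_iff] at hj ⊢
      unfold Nat.ModEq at h1
      omega
    have hmG : (Nat.card G).Coprime m := by
      have h1 : (p * (T.e + 1)).Coprime m := by
        have : Nat.gcd (p * (T.e + 1)) m = Nat.gcd (p * (T.e + 1)) 1 := by
          rw [Nat.gcd_comm, Nat.gcd_comm _ 1]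
          exact Nat.ModEq.gcd_eq hm2
        rw [Nat.coprime_iff_gcd_eq_one, this, Nat.gcd_one_right]
      have h2 : (2 ^ B).Coprime m := Nat.Coprime.pow_left _ (Nat.coprime_two_left.2 hmodd)
      rw [hcard, show p * 2 ^ B * (T.e + 1) = (p * (T.e + 1)) * 2 ^ B by ring]
      exact h1.mul_left h2
    have h3 := pow_inv T hε heven hmG (Nat.ModEq.of_dvd (dvd_mul_right p _) hm2) g
    have h4 : g ^ j = g ^ m := by
      rw [pow_eq_pow_iff_modEq, hg]
      exact (Nat.ModEq.of_dvd (pow_dvd_pow 2 (Nat.le_succ k)) hm1).symm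
    rw [h4, h3]
  have hint : ∃ n : ℤ, (T.A : G → ℂ) g = n := by
    by_cases hk : k = 0
    · rw [hk, pow_zero, orderOf_eq_one_iff] at hg
      exact ⟨T.e + 1, by rw [hg, hA1]; push_cast; rfl⟩
    · haveI : NeZero (2 ^ k) := ⟨by positivity⟩
      have hmem := Cfsg.Agent.H3.CharGal.IsChar.mem_cyc (IsIrr.isCharacter T.A.2) g hgn
      obtain ⟨q, hq⟩ := Cfsg.Agent.H3.CharGal.rat_of_fixed (n := 2 ^ k) ⟨_, hmem⟩ (by
        intro σ
        obtain ⟨m, hm, hσ⟩ := Cfsg.Agent.H3.CharGal.gal_actsAs (2 ^ k) σ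
        have h1 := Cfsg.Agent.H3.CharGal.IsChar.gal (IsIrr.isCharacter T.A.2) g hgn hσ ⟨_, hmem⟩ rfl
        apply Subtype.ext
        rw [h1]
        apply hinv
        rw [Nat.coprime_pow_right_iff (Nat.pos_of_ne_zero hk), Nat.coprime_two_right] at hm
        exact hm)
      have hI : IsIntegral ℤ ((q : ℚ) : ℂ) := by
        have h2 : ((q : ℚ) : ℂ) = (T.A : G → ℂ) g := hq.symm
        rw [h2]
        obtain ⟨d, ρ, hρ⟩ := IsIrr.isCharacter T.A.2
        rw [← hρ]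
        exact Cfsg.Agent.H3.CharBasic.isIntegral_char ρ g
      obtain ⟨n, hn⟩ := Cfsg.Agent.H3.CharInt.exists_int_of_isIntegral hI
      refine ⟨n, ?_⟩
      have h2 : (T.A : G → ℂ) g = ((q : ℚ) : ℂ) := hq
      rw [h2, hn]; push_cast; rfl
  obtain ⟨n, hn⟩ := hint
  refine ⟨n, hn, ?_⟩
  obtain ⟨M, hM⟩ := Cfsg.Agent.H26.Kernel.exists_isPModular 2 Nat.prime_two
  have h1 := Cfsg.Agent.H10.BlockHZ.char_sub_mem hM (IsIrr.isCharacter T.A.2) (x := g) (y := 1) (Commute.one_right g)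
    ⟨k, hg⟩ (by rw [orderOf_one]; norm_num)
  rw [mul_one, hn, hA1] at h1
  have h2 : ((n : ℂ) - (T.e + 1)) = ((n - (T.e + 1) : ℤ) : ℂ) := by push_cast; ring
  rw [h2] at h1
  have h3 := Cfsg.Agent.H10.BlockQ8.int_even_of_ideal hM h1
  obtain ⟨w, hw⟩ := heven
  obtain ⟨v, hv⟩ := h3
  refine ⟨v + w, ?_⟩
  have : (T.e : ℤ) = w + w := by exact_mod_cast hw
  omega

end Cfsg.Agent.H9.BT
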