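import Mathlib
import Cfsg.Agent.H9_BT8

/-!
H9_BT9: Brauer-Tuan theorem, part 9: the case of exceptional degree (p+1)/2: the order.
-/

set_option autoImplicit false

open scoped ComplexConjugate

namespace Cfsg.Agent.H9.BT

open Cfsg Cfsg.Agent.H3.CharIrr Cfsg.Agent.H3.CharComplete Cfsg.Agent.H10.Char Cfsg.Agent.H10.BlockKer
  Cfsg.Agent.H9.BrVec Cfsg.Agent.H9.BrMain Cfsg.Agent.H9.BrThm Cfsg.Agent.H9.BrCor Cfsg.Agent.H9.BrSC

variable {G : Type*} [Group G] [Fintype G] {p : ℕ} [hp : Fact p.Prime] {z : G}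
  {hz : orderOf z = p} {hzp : z ^ p = 1} {D : Dat hz hzp}

theorem sum_eq_zero_of_ne (χ : IrrCharacter G) (h : χ ≠ triv G) : ∑ g : G, (χ : G → ℂ) g = 0 := by
  have h1 := ci_irr_ne χ.2 (triv G).2 (fun h' => h (Subtype.ext h'))
  rw [classInner] at h1
  have h2 := (mul_eq_zero.mp h1).resolve_left (inv_ne_zero (by exact_mod_cast Nat.card_pos.ne'))
  simpa only [triv_coe, map_one, mul_one] using h2

theorem caseB_card [IsSimpleGroup G] (hG : ¬ IsMulCommutative G) (T : Two D) (hsyl : ¬ p ∣ (Subgroup.zpowers z).index)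
    (hε : D.ε = -1) (hmu : ∀ j, mu hzp (D.L j) 0 = 1) (heven : Even T.e)
    (hX2 : ∀ χ ∈ D.X, χ ≠ triv G → 2 ∣ charDegree (χ : G → ℂ)) {B : ℕ} (hcard : Nat.card G = p * 2 ^ B * (T.e + 1)) :
    Nat.card G = 2 * p * T.e * (T.e + 1) := by
  classical
  obtain ⟨hdp, hdm, hcX, hABA⟩ := caseB_data hG T hsyl hε hmu heven hX2
  have hp0 : (p : ℂ) ≠ 0 := p_ne
  have hp1 := hp.out.one_lt
  have he0 : 0 < T.e := by rw [← T.he]; exact Nat.card_pos
  have he2 : 2 ≤ T.e := by obtain ⟨w, hw⟩ := heven; omega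
  have hpe : (p : ℂ) = 2 * T.e + 1 := by exact_mod_cast T.hp2
  have hpr : (p : ℝ) = 2 * T.e + 1 := by exact_mod_cast T.hp2
  have hpz : (p : ℤ) = 2 * T.e + 1 := by exact_mod_cast T.hp2
  have her : (2 : ℝ) ≤ T.e := by exact_mod_cast he2
  have hcG : (0 : ℝ) < Nat.card G := by exact_mod_cast Nat.card_pos
  have hcGc : (Nat.card G : ℂ) ≠ 0 := by exact_mod_cast Nat.card_pos.ne'
  have hdegA : ∀ j, charDegree (D.L j : G → ℂ) = T.e + 1 := by
    intro j
    have := L_deg D j
    rw [hmu j, hε, T.he, hpz] at this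
    push_cast at this
    have h2 : (charDegree (D.L j : G → ℂ) : ℤ) = ((T.e + 1 : ℕ) : ℤ) := by push_cast; linarith
    exact_mod_cast h2
  have hA1 : (T.A : G → ℂ) 1 = T.e + 1 := by rw [← charDegree_eq T.A.2]; exact_mod_cast hdegA 1
  have hB1 : (T.B : G → ℂ) 1 = T.e + 1 := by rw [← charDegree_eq T.B.2]; exact_mod_cast hdegA _
  have hAt : T.A ≠ triv G := fun h => D.LX 1 (by
    have : D.L 1 = triv G := h
    rw [this]; exact D.trivX)
  have hrA := real_A T hε heven
  have hnorms := T.norms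
  have hcross := T.cross
  rw [conj_z T heven, conj_z T heven] at hnorms hcross
  have hsum := T.sum_AB
  rw [hε] at hsum
  push_cast at hsum
  set Xm := D.X.filter (fun χ => D.δ χ = -1) with hXm
  set Xp := (D.X.filter (fun χ => D.δ χ = 1)).erase (triv G) with hXp
  set Xv : G → ℂ := fun g => ∑ χ ∈ Xm, (χ : G → ℂ) g with hXv
  have hXmt : ∀ χ ∈ Xm, χ ≠ triv G := by
    intro χ hχ h
    rw [hXm, Finset.mem_filter, h, delta_triv] at hχ
    have := hχ.2
    norm_num at this
  have hcXc : (2 : ℂ) * Xm.card = T.e := by exact_mod_cast hcX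
  -- relation
  have hrel : ∀ g, ¬ p ∣ orderOf g → ∑ χ ∈ Xp, (χ : G → ℂ) g = Xv g - 1 - (T.A : G → ℂ) g := by
    intro g hg
    have h1 := D.rel 1 g hg
    rw [hε, X_split D] at h1
    have e1 : ∑ χ ∈ (D.X.filter (fun χ => D.δ χ = 1)).erase (triv G), (D.δ χ : ℂ) * (χ : G → ℂ) g = ∑ χ ∈ Xp, (χ : G → ℂ) g := by
      apply Finset.sum_congr rfl
      intro χ hχ
      rw [(Finset.mem_filter.1 (Finset.mem_of_mem_erase hχ)).2]
      push_cast; ring
    have e2 : ∑ χ ∈ D.X.filter (fun χ => D.δ χ = -1), (D.δ χ : ℂ) * (χ : G → ℂ) g = - Xv g := by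
      rw [hXv, ← Finset.sum_neg_distrib]
      apply Finset.sum_congr rfl
      intro χ hχ
      rw [(Finset.mem_filter.1 hχ).2]
      push_cast; ring
    rw [e1, e2, delta_triv, triv_coe] at h1
    have e3 : (D.L 1 : G → ℂ) g = (T.A : G → ℂ) g := rfl
    rw [e3] at h1
    push_cast at h1
    linear_combination -h1
  -- the class functions
  set F : G → ℂ := fun g => ((T.e : ℂ) + 2) / 2 * ((T.A : G → ℂ) g * (T.A : G → ℂ) g + Xv g - 1) -
    ((T.A : G → ℂ) g * (T.B : G → ℂ) g * (T.A : G → ℂ) g - (T.A : G → ℂ) g) with hF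
  set K : G → ℂ := fun g => (T.A : G → ℂ) g * (T.B : G → ℂ) g * (T.A : G → ℂ) g - (T.A : G → ℂ) g with hK
  have hXvc : ∀ a b : G, Xv (b * a * b⁻¹) = Xv a := by
    intro a b
    simp only [hXv]
    exact Finset.sum_congr rfl fun χ _ => IsIrr.isClass χ.2 a b
  have hclsF : IsClassFunction G F := by
    intro a b
    simp only [hF]
    rw [IsIrr.isClass T.A.2 a b, IsIrr.isClass T.B.2 a b, hXvc]
  have hclsK : IsClassFunction G K := by
    intro a b
    simp only [hK]
    rw [IsIrr.isClass T.A.2 a b, IsIrr.isClass T.B.2 a b]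
  -- sums
  have hs1 : ∑ g : G, (T.A : G → ℂ) g * (T.A : G → ℂ) g = Nat.card G := by
    have h1 := ci_irr_self T.A.2
    rw [classInner] at h1
    have h3 := congrArg (fun x => (Nat.card G : ℂ) * x) h1
    simp only [mul_one, ← mul_assoc, mul_inv_cancel₀ hcGc, one_mul] at h3
    rw [← h3]
    exact Finset.sum_congr rfl fun g _ => by rw [hrA]
  have hs2 : ∑ g : G, Xv g = 0 := by
    simp only [hXv]
    rw [Finset.sum_comm]
    exact Finset.sum_eq_zero fun χ hχ => sum_eq_zero_of_ne χ (hXmt χ hχ)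
  have hs3 : ∑ g : G, (T.A : G → ℂ) g = 0 := sum_eq_zero_of_ne _ hAt
  have hs4 : ∑ g : G, (T.A : G → ℂ) g * (T.B : G → ℂ) g * (T.A : G → ℂ) g = 0 := by
    rw [classInner] at hABA
    have h2 := (mul_eq_zero.mp hABA).resolve_left (inv_ne_zero hcGc)
    rw [← h2]
    exact Finset.sum_congr rfl fun g _ => by rw [hrA]
  have hs5 : ∑ g : G, (1 : ℂ) = Nat.card G := by
    rw [Finset.sum_const, Finset.card_univ, nsmul_eq_mul, mul_one, Nat.card_eq_fintype_card]
  have hsF : ∑ g : G, F g = 0 := by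
    simp only [hF]
    rw [Finset.sum_sub_distrib, ← Finset.mul_sum, Finset.sum_sub_distrib, Finset.sum_add_distrib, Finset.sum_sub_distrib,
      hs1, hs2, hs3, hs4, hs5]
    ring
  have hsK : ∑ g : G, K g = 0 := by
    simp only [hK]
    rw [Finset.sum_sub_distrib, hs3, hs4]; ring
  have hXz : Xv z = -(Xm.card : ℂ) := by
    simp only [hXv]
    rw [Finset.sum_congr rfl fun χ hχ => X_z D (Finset.mem_filter.1 hχ).1,
      Finset.sum_congr rfl fun χ hχ => by rw [(Finset.mem_filter.1 hχ).2], Finset.sum_const, nsmul_eq_mul]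
    push_cast; ring
  have hXz' : Xv T.z' = -(Xm.card : ℂ) := by
    simp only [hXv]
    rw [Finset.sum_congr rfl fun χ hχ => X_z' T (Finset.mem_filter.1 hχ).1,
      Finset.sum_congr rfl fun χ hχ => by rw [(Finset.mem_filter.1 hχ).2], Finset.sum_const, nsmul_eq_mul]
    push_cast; ring
  have hKz : K z + K T.z' = -(((T.e : ℂ) + 2) / 2) := by
    simp only [hK, T.A_z', T.B_z']
    linear_combination (1 / 2 : ℂ) * ((T.A : G → ℂ) z + (T.B : G → ℂ) z) * hcross + (-(T.e : ℂ) / 2 - 1) * hsum
  have hFz : F z + F T.z' = 0 := by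
    have h1 : F z + F T.z' = ((T.e : ℂ) + 2) / 2 * (((T.A : G → ℂ) z * (T.A : G → ℂ) z + (T.B : G → ℂ) z * (T.B : G → ℂ) z) +
      (Xv z + Xv T.z') - 2) - (K z + K T.z') := by
      simp only [hF, hK, T.A_z', T.B_z']; ring
    rw [h1, hnorms, hXz, hXz', hKz]
    linear_combination (-((T.e : ℂ) + 2) / 2) * hcXc
  have hsF' : ∑ g : G, (if p ∣ orderOf g then F g else 0) = 0 := by
    have h1 := T.sum_sing hsyl hclsF
    rw [hFz, mul_zero] at h1
    exact (mul_eq_zero.1 h1).resolve_left hp0
  have hsK' := T.sum_sing hsyl hclsK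
  rw [hKz] at hsK'
  have hcompl : ∀ f : G → ℂ, ∑ g : G, f g = ∑ g : G, (if p ∣ orderOf g then f g else 0) + ∑ g : G, (if p ∣ orderOf g then 0 else f g) := by
    intro f
    rw [← Finset.sum_add_distrib]
    apply Finset.sum_congr rfl
    intro g _
    split_ifs <;> ring
  have hFreg : ∑ g : G, (if p ∣ orderOf g then 0 else F g) = 0 := by
    have := hcompl F
    rw [hsF, hsF', zero_add] at this
    exact this.symm
  have hone : ¬ p ∣ orderOf (1 : G) := by
    rw [orderOf_one]; intro h; exact hp1.ne' (Nat.dvd_one.1 h)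
  have hXv1 : Xv 1 = (T.e : ℂ) ^ 2 := by
    simp only [hXv]
    have h1 : ∀ χ ∈ Xm, (χ : G → ℂ) 1 = p - 1 := by
      intro χ hχ
      have h2 := Finset.mem_filter.1 hχ
      rw [← charDegree_eq χ.2]
      exact_mod_cast hdm χ h2.1 h2.2
    rw [Finset.sum_congr rfl h1, Finset.sum_const, nsmul_eq_mul, hpe]
    linear_combination (T.e : ℂ) * hcXc
  have hF1 : F 1 = 0 := by
    simp only [hF, hA1, hB1, hXv1]; ring
  have hK1 : K 1 = T.e * (T.e + 1) * (T.e + 2) := by
    simp only [hK, hA1, hB1]; ring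
  -- pointwise
  have hpt : ∀ g : G, ¬ p ∣ orderOf g → g ≠ 1 → 0 ≤ (F g).re ∧ ((F g).re = 0 → K g = 0) := by
    intro g hg hg1
    obtain ⟨a, ha⟩ := Complex.conj_eq_iff_real.1 (hrA g)
    have hB : (T.B : G → ℂ) g = a := by rw [← T.AB_reg hg, ha]
    set x : ℝ := (Xv g).re with hx
    have hFg : (F g).re = ((T.e : ℝ) + 2) / 2 * (a ^ 2 + x - 1) - (a ^ 3 - a) := by
      have h1 : F g = (((T.e : ℝ) + 2) / 2 : ℝ) * Xv g + ((((T.e : ℝ) + 2) / 2 * (a ^ 2 - 1) - (a ^ 3 - a) : ℝ) : ℂ) := by
        simp only [hF, ha, hB]; push_cast; ring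
      rw [h1, Complex.add_re, Complex.re_ofReal_mul, Complex.ofReal_re, ← hx]; ring
    have hKg : K g = ((a ^ 3 - a : ℝ) : ℂ) := by
      simp only [hK, ha, hB]; push_cast; ring
    rw [hFg, hKg]
    rcases Nat.eq_two_pow_or_exists_odd_prime_and_dvd (orderOf g) with ⟨k, hk⟩ | ⟨r, hr, hrd, hrodd⟩
    · -- 2-elements
      obtain ⟨n, hn, hnodd⟩ := odd_int T hε heven hcard hA1 hk
      have han : a = n := by
        have : (a : ℂ) = n := by rw [← ha, hn]
        exact_mod_cast this
      have habs : 1 ≤ |a| := by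
        rw [han, ← Int.cast_abs]
        have : n ≠ 0 := by
          rintro rfl
          exact absurd hnodd (by decide)
        exact_mod_cast Int.one_le_abs this
      have hnle := norm_le' T.A g
      have hnne := norm_ne hG hAt hg1
      have hdA : (charDegree (T.A : G → ℂ) : ℝ) = T.e + 1 := by
        have : charDegree (T.A : G → ℂ) = T.e + 1 := hdegA 1
        rw [this]; push_cast; rfl
      rw [ha, hdA, Complex.norm_real, Real.norm_eq_abs] at hnle hnne
      have hlt : |a| < T.e + 1 := lt_of_le_of_ne hnle hnne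
      -- structure constants
      have hS : ∑ χ ∈ D.X, conj ((χ : G → ℂ) g) / (χ : G → ℂ) 1 =
          1 + (conj (Xv g) - 1 - a) / (p + 1) + conj (Xv g) / (p - 1) := by
        rw [X_split D]
        have e1 : ∑ χ ∈ (D.X.filter (fun χ => D.δ χ = 1)).erase (triv G), conj ((χ : G → ℂ) g) / (χ : G → ℂ) 1 =
            (conj (Xv g) - 1 - a) / (p + 1) := by
          have : (conj (Xv g) - 1 - a) = conj (∑ χ ∈ (D.X.filter (fun χ => D.δ χ = 1)).erase (triv G), (χ : G → ℂ) g) := by
            have h0 := hrel g hg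
            rw [hXp] at h0
            rw [h0, ha]; simp
          rw [this, map_sum, Finset.sum_div]
          apply Finset.sum_congr rfl
          intro χ hχ
          have h2 := Finset.mem_filter.1 (Finset.mem_of_mem_erase hχ)
          rw [← charDegree_eq χ.2, hdp χ h2.1 h2.2 (Finset.ne_of_mem_erase hχ)]
          push_cast; rfl
        have e2 : ∑ χ ∈ D.X.filter (fun χ => D.δ χ = -1), conj ((χ : G → ℂ) g) / (χ : G → ℂ) 1 =
            conj (Xv g) / (p - 1) := by
          rw [hXv, map_sum, Finset.sum_div]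
          apply Finset.sum_congr rfl
          intro χ hχ
          have h2 := Finset.mem_filter.1 hχ
          have h3 : (charDegree (χ : G → ℂ) : ℂ) = p - 1 := by exact_mod_cast hdm χ h2.1 h2.2
          rw [← charDegree_eq χ.2, h3]
        rw [e1, e2, triv_coe, triv_coe, map_one, div_one]
      obtain ⟨N1, hN1⟩ := struct T hA1 hB1 hg z (Or.inl rfl)
      obtain ⟨N2, hN2⟩ := struct T hA1 hB1 hg T.z' (Or.inr rfl)
      rw [hS, hrA, ha] at hN1 hN2
      rw [T.A_z', T.B_z'] at hN2
      rw [hnorms] at hN1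
      rw [hcross] at hN2
      have hec : ((T.e : ℂ) + 1) ≠ 0 := by
        have : ((T.e + 1 : ℕ) : ℂ) ≠ 0 := Nat.cast_ne_zero.2 (Nat.succ_ne_zero _)
        exact_mod_cast this
      have hec2 : ((T.e : ℂ)) ≠ 0 := by exact_mod_cast he0.ne'
      set e : ℝ := (T.e : ℝ) with hedef
      have hee : (T.e : ℂ) = ((e : ℝ) : ℂ) := by rw [hedef]; push_cast; rfl
      have hN1' : (N1 : ℂ) = ((Nat.card G * ((2 * e + 1) / (2 * e * (e + 1))) : ℝ) : ℂ) * conj (Xv g) +
          ((Nat.card G * ((2 * e + 1) / (2 * e * (e + 1)) * (e + e * a)) : ℝ) : ℂ) := by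
        rw [hN1, hpe, hee]
        rw [hee] at hec hec2
        have h2 : (2 * (e : ℂ) + 1 + 1) ≠ 0 := by
          have : (2 * (e : ℂ) + 1 + 1) = 2 * (e + 1) := by ring
          rw [this]; exact mul_ne_zero two_ne_zero hec
        have h3 : (2 * (e : ℂ) + 1 - 1) ≠ 0 := by
          have : (2 * (e : ℂ) + 1 - 1) = 2 * e := by ring
          rw [this]; exact mul_ne_zero two_ne_zero hec2
        push_cast
        field_simp
        ring
      have hN2' : (N2 : ℂ) = ((Nat.card G * ((2 * e + 1) / (2 * e * (e + 1))) : ℝ) : ℂ) * conj (Xv g) +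
          ((Nat.card G * ((2 * e + 1) / (2 * e * (e + 1)) * (e - e * a)) : ℝ) : ℂ) := by
        rw [hN2, hpe, hee]
        rw [hee] at hec hec2
        have h2 : (2 * (e : ℂ) + 1 + 1) ≠ 0 := by
          have : (2 * (e : ℂ) + 1 + 1) = 2 * (e + 1) := by ring
          rw [this]; exact mul_ne_zero two_ne_zero hec
        have h3 : (2 * (e : ℂ) + 1 - 1) ≠ 0 := by
          have : (2 * (e : ℂ) + 1 - 1) = 2 * e := by ring
          rw [this]; exact mul_ne_zero two_ne_zero hec2
        push_cast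
        field_simp
        ring
      have hc0 : 0 < (Nat.card G : ℝ) * ((2 * e + 1) / (2 * e * (e + 1))) := by
        apply mul_pos hcG
        apply div_pos (by linarith)
        nlinarith
      have hr1 : 0 ≤ (Nat.card G : ℝ) * ((2 * e + 1) / (2 * e * (e + 1))) * (x + (e + e * a)) := by
        have h1 := congrArg Complex.re hN1'
        rw [Complex.add_re, Complex.re_ofReal_mul, Complex.ofReal_re, Complex.conj_re, ← hx, Complex.natCast_re] at h1
        have h0 : (0 : ℝ) ≤ N1 := Nat.cast_nonneg _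
        calc (0 : ℝ) ≤ N1 := h0
          _ = _ := by rw [h1]; ring
      have hr2 : 0 ≤ (Nat.card G : ℝ) * ((2 * e + 1) / (2 * e * (e + 1))) * (x + (e - e * a)) := by
        have h1 := congrArg Complex.re hN2'
        rw [Complex.add_re, Complex.re_ofReal_mul, Complex.ofReal_re, Complex.conj_re, ← hx, Complex.natCast_re] at h1
        have h0 : (0 : ℝ) ≤ N2 := Nat.cast_nonneg _
        calc (0 : ℝ) ≤ N2 := h0
          _ = _ := by rw [h1]; ring
      have hx1 : 0 ≤ x + (e + e * a) := nonneg_of_mul_nonneg_right hr1 hc0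
      have hx2 : 0 ≤ x + (e - e * a) := nonneg_of_mul_nonneg_right hr2 hc0
      have hxs : e * (|a| - 1) ≤ x := by
        rcases le_or_gt 0 a with h | h
        · rw [abs_of_nonneg h]; linarith
        · rw [abs_of_neg h]; linarith
      set s : ℝ := |a| with hs
      have hsa : a ^ 2 = s ^ 2 := (sq_abs a).symm
      have hcube : a ^ 3 - a ≤ s ^ 3 - s := by
        have h1 : a ^ 3 - a = a * (a ^ 2 - 1) := by ring
        have h2 : s ^ 3 - s = s * (a ^ 2 - 1) := by rw [hsa]; ring
        rw [h1, h2]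
        apply mul_le_mul_of_nonneg_right (le_abs_self a)
        rw [hsa]; nlinarith
      have hlow : (s - 1) * ((e + 1 - s) * (s + (e + 2) / 2)) ≤ (e + 2) / 2 * (a ^ 2 + x - 1) - (a ^ 3 - a) := by
        have h1 : (e + 2) / 2 * (s ^ 2 + e * (s - 1) - 1) - (s ^ 3 - s) = (s - 1) * ((e + 1 - s) * (s + (e + 2) / 2)) := by ring
        rw [← h1, hsa]
        have h2 : (e + 2) / 2 * (s ^ 2 + e * (s - 1) - 1) ≤ (e + 2) / 2 * (s ^ 2 + x - 1) :=
          mul_le_mul_of_nonneg_left (by linarith) (by linarith)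
        linarith
      have hpos : 0 < (e + 1 - s) * (s + (e + 2) / 2) := mul_pos (by linarith) (by linarith)
      refine ⟨le_trans (mul_nonneg (by linarith) hpos.le) hlow, ?_⟩
      intro h0
      rw [h0] at hlow
      have hs1 : s = 1 := by
        by_contra hne
        have h1 : 0 < s - 1 := by
          rcases lt_or_eq_of_le habs with h | h
          · linarith
          · exact absurd h.symm hne
        have := mul_pos h1 hpos
        linarith
      have h1 : a ^ 3 - a = 0 := by
        have : a ^ 3 - a = a * (a ^ 2 - 1) := by ring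
        rw [this, hsa, hs1]; ring
      rw [h1]; simp
    · -- elements of order divisible by an odd prime
      have hrp : r ≠ p := by rintro rfl; exact hg hrd
      have hr2 : r ≠ 2 := by rintro rfl; exact absurd hrodd (by decide)
      haveI : Fact r.Prime := ⟨hr⟩
      have hfac : (Nat.card G).factorization r = (T.e + 1).factorization r := by
        rw [hcard, Nat.factorization_mul (by positivity) (by omega), Nat.factorization_mul hp.out.ne_zero (by positivity)]
        simp only [Finsupp.add_apply]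
        rw [Nat.factorization_eq_zero_of_not_dvd (n := p) (p := r) (fun h => hrp ((Nat.prime_dvd_prime_iff_eq hr hp.out).1 h)),
          Nat.factorization_eq_zero_of_not_dvd (n := 2 ^ B) (p := r) (fun h => hr2 ((Nat.prime_dvd_prime_iff_eq hr Nat.prime_two).1 (hr.dvd_of_dvd_pow h)))]
        ring
      have hAg : (T.A : G → ℂ) g = 0 := by
        apply Cfsg.Agent.H26.Kernel.vanish_of_defect_zero (p := r) T.A _ hrd
        have : charDegree (T.A : G → ℂ) = T.e + 1 := hdegA 1
        rw [hfac, this]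
      have hXpg : ∑ χ ∈ Xp, (χ : G → ℂ) g = 0 := by
        apply Finset.sum_eq_zero
        intro χ hχ
        apply Cfsg.Agent.H26.Kernel.vanish_of_defect_zero (p := r) χ _ hrd
        have h2 := Finset.mem_filter.1 (Finset.mem_of_mem_erase hχ)
        have h3 : charDegree (χ : G → ℂ) = 2 * (T.e + 1) := by
          have h4 := hdp χ h2.1 h2.2 (Finset.ne_of_mem_erase hχ)
          have h5 := T.hp2
          omega
        rw [hfac, h3, Nat.factorization_mul (by norm_num) (by omega)]
        simp only [Finsupp.add_apply]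
        omega
      have ha0 : a = 0 := by
        rw [hAg] at ha
        exact_mod_cast ha.symm
      have hx1 : x = 1 := by
        have h1 := hrel g hg
        rw [hXpg, hAg] at h1
        have h2 : Xv g = 1 := by linear_combination -h1
        rw [hx, h2, Complex.one_re]
      rw [ha0, hx1]
      refine ⟨by norm_num, fun _ => by norm_num⟩
  -- conclusion
  have hre : ∑ g : G, (if p ∣ orderOf g then 0 else (F g).re) = 0 := by
    have h1 := congrArg Complex.re hFreg
    rw [Complex.re_sum, Complex.zero_re] at h1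
    refine Eq.trans ?_ h1
    apply Finset.sum_congr rfl
    intro g _
    split_ifs <;> simp
  rw [Finset.sum_eq_zero_iff_of_nonneg] at hre
  · have hKreg : ∑ g : G, (if p ∣ orderOf g then 0 else K g) = K 1 := by
      rw [Finset.sum_eq_single (1 : G)]
      · rw [if_neg hone]
      · intro g _ hg1
        by_cases hg : p ∣ orderOf g
        · rw [if_pos hg]
        · rw [if_neg hg]
          apply (hpt g hg hg1).2
          have := hre g (Finset.mem_univ _)
          rwa [if_neg hg] at this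
      · intro h; exact absurd (Finset.mem_univ _) h
    have h1 := hcompl K
    rw [hsK, hKreg, hK1] at h1
    have h2 : ∑ g : G, (if p ∣ orderOf g then K g else 0) = -(T.e * (T.e + 1) * (T.e + 2) : ℂ) := by linear_combination -h1
    rw [h2] at hsK'
    have he2' : ((T.e : ℂ) + 2) ≠ 0 := by
      have : ((T.e + 2 : ℕ) : ℂ) ≠ 0 := Nat.cast_ne_zero.2 (Nat.succ_ne_zero _)
      exact_mod_cast this
    have h3 : ((T.e : ℂ) + 2) * (Nat.card G : ℂ) = (T.e + 2) * (2 * p * T.e * (T.e + 1)) := by
      linear_combination 2 * hsK'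
    have h4 := mul_left_cancel₀ he2' h3
    exact_mod_cast h4
  · intro g _
    by_cases hg : p ∣ orderOf g
    · rw [if_pos hg]
    · rw [if_neg hg]
      by_cases hg1 : g = 1
      · rw [hg1, hF1, Complex.zero_re]
      · exact (hpt g hg hg1).1

end Cfsg.Agent.H9.BT
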