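import Mathlib
import Cfsg.Agent.H9_BT9

/-!
H9_BT10: Brauer-Tuan theorem, part 10: dihedral normalizer.
-/

set_option autoImplicit false

open scoped ComplexConjugate

namespace Cfsg.Agent.H9.BT

open Cfsg Cfsg.Agent.H3.CharIrr Cfsg.Agent.H3.CharComplete Cfsg.Agent.H10.Char Cfsg.Agent.H10.BlockKer
  Cfsg.Agent.H9.BrVec Cfsg.Agent.H9.BrMain Cfsg.Agent.H9.BrThm Cfsg.Agent.H9.BrCor Cfsg.Agent.H9.BrSC

variable {G : Type*} [Group G] [Fintype G] {p : ℕ} [hp : Fact p.Prime] {z : G}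
  {hz : orderOf z = p} {hzp : z ^ p = 1} {D : Dat hz hzp}

/-- no fixed vectors -/
theorem sum_zero_of_mu (hzp : z ^ p = 1) {χ : IrrCharacter G} (ha : mu hzp χ 0 = 0) (y : G) :
    ∑ i : ZMod p, (χ : G → ℂ) (zp p z i * y) = 0 := by
  classical
  obtain ⟨n, ρ, hρ, hχρ⟩ := χ.2
  have hχv : ∀ g, (χ : G → ℂ) g = LinearMap.trace ℂ _ (ρ g) := by
    intro g; rw [← hχρ]; rfl
  set E : Module.End ℂ (Fin n → ℂ) := ∑ i : ZMod p, ρ (zp p z i) with hE
  have hp0 : (p : ℂ) ≠ 0 := p_ne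
  have hρE : ∀ i : ZMod p, ρ (zp p z i) * E = E := by
    intro i
    rw [hE, Finset.mul_sum]
    rw [← Equiv.sum_comp (Equiv.addLeft i) (fun j => ρ (zp p z j))]
    apply Finset.sum_congr rfl
    intro j _
    rw [Equiv.coe_addLeft, ← map_mul, ← zp_add hzp]
  have hEE : E * E = (p : ℂ) • E := by
    conv_lhs => rw [hE, Finset.sum_mul]
    rw [Finset.sum_congr rfl fun i _ => hρE i, Finset.sum_const, Finset.card_univ, ZMod.card,
      ← Nat.cast_smul_eq_nsmul ℂ]
  have htr : LinearMap.trace ℂ _ E = 0 := by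
    rw [hE, map_sum]
    have h1 := mu_eq hzp χ 0
    rw [ha, Nat.cast_zero, eq_comm, mul_eq_zero, or_iff_right (inv_ne_zero hp0)] at h1
    rw [← h1]
    apply Finset.sum_congr rfl
    intro i _
    rw [hχv, zero_mul, neg_zero, ee_zero, mul_one]
  have hE0 : E = 0 := by
    have hid : IsIdempotentElem ((p : ℂ)⁻¹ • E) := by
      unfold IsIdempotentElem
      rw [smul_mul_smul_comm, hEE, smul_smul, mul_assoc, inv_mul_cancel₀ hp0, mul_one]
    have h1 : LinearMap.trace ℂ _ ((p : ℂ)⁻¹ • E) = 0 := by rw [map_smul, htr, smul_zero]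
    have h2 := LinearMap.IsIdempotentElem.eq_zero_of_trace_eq_zero hid h1
    rcases smul_eq_zero.1 h2 with h | h
    · exact absurd h (inv_ne_zero hp0)
    · exact h
  have h1 : LinearMap.trace ℂ _ (E * ρ y) = 0 := by rw [hE0, zero_mul, map_zero]
  rw [hE, Finset.sum_mul, map_sum] at h1
  rw [← h1]
  apply Finset.sum_congr rfl
  intro i _
  rw [← map_mul, ← hχv]

/-- elements inverting `z` -/
theorem inv_zp {s : G} (hzp : z ^ p = 1) (hs : s * z * s⁻¹ = z⁻¹) (i : ZMod p) : s * zp p z i * s⁻¹ = zp p z (-i) := by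
  rw [zp_neg hzp]
  unfold zp
  rw [← conj_pow, hs, inv_pow]

theorem zp_mul_inv {s : G} (hzp : z ^ p = 1) (hs : s * z * s⁻¹ = z⁻¹) (i : ZMod p) :
    zp p z i * s * (zp p z i)⁻¹ = zp p z (i + i) * s := by
  have h1 := inv_zp hzp hs (-i)
  rw [neg_neg, zp_neg hzp] at h1
  have h2 : s * (zp p z i)⁻¹ = zp p z i * s := mul_inv_eq_iff_eq_mul.1 h1
  rw [mul_assoc, h2, ← mul_assoc, ← zp_add hzp]

theorem sum_L (D : Dat hz hzp) [Fintype ((ZMod p)ˣ ⧸ (om hz).range)] : ∑ j, (D.L j : G → ℂ) z = -(D.ε : ℂ) := by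
  classical
  have h1 : ∀ j, (D.L j : G → ℂ) z = D.ε * ∑ b : (ZMod p)ˣ, if (b : (ZMod p)ˣ ⧸ (om hz).range) = j then ee p (b : ZMod p) else 0 := by
    intro j
    have := val_L D j 1
    rw [zp_one', QuotientGroup.mk_one, mul_one] at this
    exact this
  simp only [h1]
  rw [← Finset.mul_sum, Finset.sum_comm]
  have h2 : ∀ b : (ZMod p)ˣ, ∑ j : (ZMod p)ˣ ⧸ (om hz).range, (if (b : (ZMod p)ˣ ⧸ (om hz).range) = j then ee p (b : ZMod p) else 0) =
      ee p (b : ZMod p) := by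
    intro b
    rw [Finset.sum_ite_eq Finset.univ (b : (ZMod p)ˣ ⧸ (om hz).range), if_pos (Finset.mem_univ _)]
  rw [Finset.sum_congr rfl fun b _ => h2 b]
  have h5 := sum_ee (p := p) (1 : ZMod p)
  rw [if_neg one_ne_zero] at h5
  simp only [one_mul] at h5
  rw [← Finset.add_sum_erase _ _ (Finset.mem_univ (0 : ZMod p)), ee_zero] at h5
  have h6 : ∑ x ∈ Finset.univ.erase (0 : ZMod p), ee p x = ∑ b : (ZMod p)ˣ, ee p (b : ZMod p) := by
    refine (Finset.sum_bij (fun (a : (ZMod p)ˣ) _ => (a : ZMod p)) ?_ ?_ ?_ ?_).symm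
    · intro a _
      exact Finset.mem_erase.2 ⟨a.ne_zero, Finset.mem_univ _⟩
    · intro a _ b _ h; exact Units.ext h
    · intro b hb
      exact ⟨Units.mk0 b (Finset.ne_of_mem_erase hb), Finset.mem_univ _, rfl⟩
    · intro a _; rfl
  rw [← h6]
  linear_combination (D.ε : ℂ) * h5

theorem split_all [Fintype (IrrCharacter G)] (D : Dat hz hzp) [Fintype ((ZMod p)ˣ ⧸ (om hz).range)] (F : IrrCharacter G → ℂ)
    (h0 : ∀ χ : IrrCharacter G, (∀ a : (ZMod p)ˣ, vv hzp χ a = 0) → F χ = 0) :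
    ∑ χ : IrrCharacter G, F χ = ∑ χ ∈ D.X, F χ + ∑ j, F (D.L j) := by
  classical
  have h1 : ∑ j, F (D.L j) = ∑ χ ∈ Finset.univ.image D.L, F χ := by
    rw [Finset.sum_image (fun a _ b _ h => D.inj h)]
  have hd : Disjoint D.X (Finset.univ.image D.L) := by
    rw [Finset.disjoint_right]
    intro χ hχ
    rw [Finset.mem_image] at hχ
    obtain ⟨j, -, rfl⟩ := hχ
    exact D.LX j
  rw [h1, ← Finset.sum_union hd]
  symm
  apply Finset.sum_subset (Finset.subset_univ _)
  intro χ _ hχ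
  apply h0
  rw [Finset.mem_union, not_or] at hχ
  rcases D.all χ with h | ⟨j, hj⟩ | h
  · exact absurd h hχ.1
  · exact absurd (Finset.mem_image.2 ⟨j, Finset.mem_univ _, hj⟩) hχ.2
  · exact h

/-- lower bound for the number of solutions -/
theorem count_ge (hz : orderOf z = p) (hzp : z ^ p = 1) (hp2 : p ≠ 2) {u s : G} (hsu : IsConj u s) (hs2 : s * s = 1) (hs : s * z * s⁻¹ = z⁻¹)
    [DecidableEq G] :
    p * Nat.card (Subgroup.centralizer ({u} : Set G)) ^ 2 ≤
      (Finset.univ.filter (fun q : G × G => q.1 * u * q.1⁻¹ * (q.2 * u * q.2⁻¹) = z)).card := by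
  classical
  have h2 : (2 : ZMod p) ≠ 0 := by
    intro h
    have : ((2 : ℕ) : ZMod p) = 0 := by exact_mod_cast h
    rw [ZMod.natCast_eq_zero_iff] at this
    exact hp2 ((Nat.prime_dvd_prime_iff_eq hp.out Nat.prime_two).1 this)
  obtain ⟨c, hc⟩ := isConj_iff.1 hsu
  have hhalf : ∀ i : ZMod p, i / 2 + i / 2 = i := fun i => by field_simp; ring
  -- conjugators
  set w : ZMod p → G := fun i => zp p z (i / 2) * c with hw
  have hwu : ∀ i, w i * u * (w i)⁻¹ = zp p z i * s := by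
    intro i
    rw [hw]
    calc zp p z (i / 2) * c * u * (zp p z (i / 2) * c)⁻¹ = zp p z (i / 2) * (c * u * c⁻¹) * (zp p z (i / 2))⁻¹ := by group
      _ = zp p z i * s := by rw [hc, zp_mul_inv hzp hs, hhalf]
  have hprod : ∀ i, (zp p z i * s) * (zp p z (i - 1) * s) = z := by
    intro i
    have h1 := inv_zp hzp hs (i - 1)
    have hsi : s⁻¹ = s := inv_eq_of_mul_eq_one_left hs2
    rw [hsi] at h1
    calc (zp p z i * s) * (zp p z (i - 1) * s) = zp p z i * (s * zp p z (i - 1) * s) := by group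
      _ = z := by
        rw [h1, ← zp_add hzp, neg_sub, add_sub_cancel, zp_one]
  set C := Subgroup.centralizer ({u} : Set G) with hC
  haveI : Fintype C := Fintype.ofFinite _
  have hCu : ∀ (x : C), (x : G) * u * (x : G)⁻¹ = u := by
    intro x
    have := Subgroup.mem_centralizer_singleton_iff.1 x.2
    rw [this, mul_inv_cancel_right]
  have hcard : (Finset.univ : Finset (ZMod p × (C × C))).card = p * Nat.card C ^ 2 := by
    rw [Finset.card_univ, Fintype.card_prod, Fintype.card_prod, ZMod.card, Nat.card_eq_fintype_card, sq]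
  rw [← hcard]
  apply Finset.card_le_card_of_injOn (fun t : ZMod p × (C × C) => (w t.1 * (t.2.1 : G), w (t.1 - 1) * (t.2.2 : G)))
  · rintro ⟨i, x, y⟩ _
    rw [Finset.mem_coe, Finset.mem_filter]
    refine ⟨Finset.mem_univ _, ?_⟩
    change w i * (x : G) * u * (w i * (x : G))⁻¹ * (w (i - 1) * (y : G) * u * (w (i - 1) * (y : G))⁻¹) = z
    have e1 : w i * (x : G) * u * (w i * (x : G))⁻¹ = zp p z i * s := by
      rw [← hwu i]
      rw [show w i * (x : G) * u * (w i * (x : G))⁻¹ = w i * ((x : G) * u * (x : G)⁻¹) * (w i)⁻¹ by group, hCu x]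
    have e2 : w (i - 1) * (y : G) * u * (w (i - 1) * (y : G))⁻¹ = zp p z (i - 1) * s := by
      rw [← hwu (i - 1)]
      rw [show w (i - 1) * (y : G) * u * (w (i - 1) * (y : G))⁻¹ = w (i - 1) * ((y : G) * u * (y : G)⁻¹) * (w (i - 1))⁻¹ by group, hCu y]
    rw [e1, e2]
    exact hprod i
  · rintro ⟨i, x, y⟩ _ ⟨i', x', y'⟩ _ h
    have h1 : w i * (x : G) = w i' * (x' : G) := congrArg Prod.fst h
    have h3 : w (i - 1) * (y : G) = w (i' - 1) * (y' : G) := congrArg Prod.snd h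
    have e1 : ∀ (i : ZMod p) (x : C), w i * (x : G) * u * (w i * (x : G))⁻¹ = zp p z i * s := by
      intro i x
      rw [show w i * (x : G) * u * (w i * (x : G))⁻¹ = w i * ((x : G) * u * (x : G)⁻¹) * (w i)⁻¹ by group, hCu x, hwu]
    have e2 : zp p z i * s = zp p z i' * s := by rw [← e1 i x, h1, e1 i' x']
    have e3 := zp_injective hz (mul_right_cancel e2)
    subst e3
    rw [mul_right_inj] at h1 h3
    rw [Subtype.ext h1, Subtype.ext h3]

theorem caseE2 [IsSimpleGroup G] (hG : ¬ IsMulCommutative G) (D : Dat hz hzp) (hsyl : ¬ p ∣ (Subgroup.zpowers z).index)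
    (hε : D.ε = -1) (hmu : ∀ j, mu hzp (D.L j) 0 = 1) (he : Nat.card (om hz).range = 2) (hp3 : 3 < p) {B : ℕ}
    (hcard : Nat.card G = p * 2 ^ B * (p - 2)) : Nat.card G ≤ p * (p - 1) * (p - 2) := by
  classical
  haveI : Fintype (IrrCharacter G) := Fintype.ofFinite _
  haveI : Fintype ((ZMod p)ˣ ⧸ (om hz).range) := Fintype.ofFinite _
  have hp0 : (p : ℂ) ≠ 0 := p_ne
  have hp1 := hp.out.one_lt
  have hpodd : Odd p := hp.out.odd_of_ne_two (by omega)
  have hcGc : (Nat.card G : ℂ) ≠ 0 := by exact_mod_cast Nat.card_pos.ne'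
  -- the second character
  obtain ⟨θ, hθX, hθ⟩ : ∃ θ ∈ D.X, θ ≠ triv G := by
    by_contra hcon
    push Not at hcon
    have h1 : D.X ⊆ {triv G} := fun χ hχ => Finset.mem_singleton.2 (hcon χ hχ)
    have h2 := Finset.card_le_card h1
    rw [D.cardX, he, Finset.card_singleton] at h2
    omega
  have hX : D.X = {triv G, θ} := by
    symm
    apply Finset.eq_of_subset_of_card_le
    · intro χ hχ
      rw [Finset.mem_insert, Finset.mem_singleton] at hχ
      rcases hχ with rfl | rfl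
      · exact D.trivX
      · exact hθX
    · rw [D.cardX, he, Finset.card_pair (Ne.symm hθ)]
  have hdegL : ∀ j, (charDegree (D.L j : G → ℂ) : ℤ) = p - 2 := by
    intro j
    have := L_deg D j
    rw [hmu j, hε, he] at this
    push_cast at this
    linarith
  have hrel : ∀ j g, ¬ p ∣ orderOf g → -((D.L j : G → ℂ) g) = 1 + D.δ θ * (θ : G → ℂ) g := by
    intro j g hg
    have h1 := D.rel j g hg
    rw [hε, hX, Finset.sum_pair (Ne.symm hθ), delta_triv, triv_coe] at h1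
    push_cast at h1
    linear_combination h1
  have hone : ¬ p ∣ orderOf (1 : G) := by
    rw [orderOf_one]; intro h; exact hp1.ne' (Nat.dvd_one.1 h)
  have hL1 : ∀ j, (D.L j : G → ℂ) 1 = p - 2 := by
    intro j; rw [← charDegree_eq (D.L j).2]; exact_mod_cast hdegL j
  have hδ : D.δ θ = -1 ∧ charDegree (θ : G → ℂ) = p - 1 := by
    have h1 := hrel 1 1 hone
    rw [hL1, ← charDegree_eq θ.2] at h1
    have h2 : (-((p : ℤ) - 2)) = 1 + D.δ θ * charDegree (θ : G → ℂ) := by exact_mod_cast h1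
    have h3 : 0 < charDegree (θ : G → ℂ) := charDegree_pos θ.2
    rcases D.hδ θ hθX with h | h
    · rw [h] at h2
      omega
    · rw [h] at h2
      refine ⟨h, ?_⟩
      omega
  obtain ⟨hδ1, hθdeg⟩ := hδ
  have hθ1 : (θ : G → ℂ) 1 = p - 1 := by
    rw [← charDegree_eq θ.2, hθdeg]
    push_cast [Nat.cast_sub hp1.le]; ring
  have hLθ : ∀ j g, ¬ p ∣ orderOf g → (D.L j : G → ℂ) g = (θ : G → ℂ) g - 1 := by
    intro j g hg
    have h1 := hrel j g hg
    rw [hδ1] at h1
    push_cast at h1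
    linear_combination -h1
  have hθmu : mu hzp θ 0 = 0 := by
    have h1 := X_deg D hθX
    rw [hδ1, hθdeg] at h1
    have h2 : (p : ℤ) * (mu hzp θ 0 : ℤ) = 0 := by
      have h3 : ((p - 1 : ℕ) : ℤ) = p - 1 := by omega
      rw [h3] at h1
      linarith
    have h3 : (p : ℤ) ≠ 0 := by omega
    exact_mod_cast (mul_eq_zero.1 h2).resolve_left h3
  -- structure constants
  have hstruct : ∀ u : G, orderOf u = 2 →
      ((Finset.univ.filter (fun q : G × G => q.1 * u * q.1⁻¹ * (q.2 * u * q.2⁻¹) = z)).card : ℂ) =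
        Nat.card G * ((p - 1 - (θ : G → ℂ) u) ^ 2 / ((p - 1) * (p - 2))) := by
    intro u hu
    have hup : ¬ p ∣ orderOf u := by
      rw [hu]; intro h
      have := Nat.le_of_dvd (by norm_num) h
      omega
    rw [Cfsg.Agent.H3.CharCalc.class_mult u u z, split_all D _ (fun χ h => by rw [O_z h]; simp)]
    congr 1
    rw [hX, Finset.sum_pair (Ne.symm hθ)]
    have h1 : ∑ j, (D.L j : G → ℂ) u * (D.L j : G → ℂ) u * conj ((D.L j : G → ℂ) z) / (D.L j : G → ℂ) 1 =
        ((θ : G → ℂ) u - 1) ^ 2 / (p - 2) := by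
      have h2 : ∀ j, (D.L j : G → ℂ) u * (D.L j : G → ℂ) u * conj ((D.L j : G → ℂ) z) / (D.L j : G → ℂ) 1 =
          ((θ : G → ℂ) u - 1) ^ 2 / (p - 2) * conj ((D.L j : G → ℂ) z) := by
        intro j
        rw [hLθ j u hup, hL1 j]; ring
      rw [Finset.sum_congr rfl fun j _ => h2 j, ← Finset.mul_sum, ← map_sum, sum_L D, hε]
      simp
    have hc1 : ((p : ℂ) - 1) ≠ 0 := by
      have : ((p - 1 : ℕ) : ℂ) ≠ 0 := Nat.cast_ne_zero.2 (by omega)
      rwa [Nat.cast_sub hp1.le, Nat.cast_one] at this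
    have hc2 : ((p : ℂ) - 2) ≠ 0 := by
      have : ((p - 2 : ℕ) : ℂ) ≠ 0 := Nat.cast_ne_zero.2 (by omega)
      rwa [Nat.cast_sub (by omega), Nat.cast_ofNat] at this
    rw [h1, X_z D hθX, hδ1, triv_coe, triv_coe, triv_coe, hθ1]
    simp only [map_one, Int.cast_neg, Int.cast_one, map_neg]
    field_simp
    ring
  -- a central involution of a Sylow 2-subgroup
  obtain ⟨S⟩ : Nonempty (Sylow 2 G) := inferInstance
  haveI : Fact (Nat.Prime 2) := ⟨Nat.prime_two⟩
  have h2G : 2 ∣ Nat.card G := by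
    have h1 : Nat.card (om hz).range ∣ Nat.card (Subgroup.normalizer (Subgroup.zpowers z : Set G)) :=
      Subgroup.card_range_dvd (om hz)
    rw [he] at h1
    exact h1.trans (Subgroup.card_subgroup_dvd_card _)
  have hSnt : Nontrivial (S : Subgroup G) := by
    rw [← Finite.one_lt_card_iff_nontrivial]
    have h1 : 2 ^ 1 ∣ Nat.card (S : Subgroup G) := S.pow_dvd_card_of_pow_dvd_card (by rwa [pow_one])
    have := Nat.le_of_dvd Nat.card_pos h1
    omega
  obtain ⟨u, huo, hSu⟩ : ∃ u : G, orderOf u = 2 ∧ (S : Subgroup G) ≤ Subgroup.centralizer ({u} : Set G) := by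
    haveI := S.isPGroup'.center_nontrivial
    have h1 : 2 ∣ Nat.card (Subgroup.center (S : Subgroup G)) := by
      obtain ⟨k, hk⟩ := IsPGroup.iff_card.1 (S.isPGroup'.to_subgroup (Subgroup.center (S : Subgroup G)))
      have h2 : 1 < Nat.card (Subgroup.center (S : Subgroup G)) := Finite.one_lt_card_iff_nontrivial.2 inferInstance
      rw [hk] at h2 ⊢
      apply dvd_pow_self
      rintro rfl
      rw [pow_zero] at h2
      omega
    obtain ⟨x, hx⟩ := exists_prime_orderOf_dvd_card' 2 h1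
    refine ⟨((x : (S : Subgroup G)) : G), ?_, ?_⟩
    · rw [Subgroup.orderOf_coe, Subgroup.orderOf_coe, hx]
    · intro y hy
      rw [Subgroup.mem_centralizer_singleton_iff]
      exact congrArg Subtype.val (Subgroup.mem_center_iff.1 x.2 ⟨y, hy⟩)
  have hu1 : u ≠ 1 := by
    rintro rfl
    rw [orderOf_one] at huo
    omega
  have hu2 : u * u = 1 := by rw [← sq, ← huo]; exact pow_orderOf_eq_one u
  have hcnt := hstruct u huo
  set N := (Finset.univ.filter (fun q : G × G => q.1 * u * q.1⁻¹ * (q.2 * u * q.2⁻¹) = z)).card with hN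
  have hc1 : ((p : ℂ) - 1) ≠ 0 := by
    have : ((p - 1 : ℕ) : ℂ) ≠ 0 := Nat.cast_ne_zero.2 (by omega)
    rwa [Nat.cast_sub hp1.le, Nat.cast_one] at this
  have hc2 : ((p : ℂ) - 2) ≠ 0 := by
    have : ((p - 2 : ℕ) : ℂ) ≠ 0 := Nat.cast_ne_zero.2 (by omega)
    rwa [Nat.cast_sub (by omega), Nat.cast_ofNat] at this
  have hN0 : N ≠ 0 := by
    intro h0
    rw [h0, Nat.cast_zero, eq_comm, mul_eq_zero, or_iff_right hcGc, div_eq_zero_iff, or_iff_left (mul_ne_zero hc1 hc2),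
      sq_eq_zero_iff] at hcnt
    apply hu1
    apply simple_ker hθ
    rw [hθ1]
    linear_combination -hcnt
  obtain ⟨⟨x, y⟩, hxy⟩ := Finset.card_pos.1 (Nat.pos_of_ne_zero hN0)
  rw [Finset.mem_filter] at hxy
  have hxy' : x * u * x⁻¹ * (y * u * y⁻¹) = z := hxy.2
  set s := x * u * x⁻¹ with hs
  set t := y * u * y⁻¹ with ht
  have hs2 : s * s = 1 := by
    rw [hs, show x * u * x⁻¹ * (x * u * x⁻¹) = x * (u * u) * x⁻¹ by group, hu2]; group
  have ht2 : t * t = 1 := by
    rw [ht, show y * u * y⁻¹ * (y * u * y⁻¹) = y * (u * u) * y⁻¹ by group, hu2]; group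
  have hsu : IsConj u s := isConj_iff.2 ⟨x, rfl⟩
  clear_value s t
  have hsz : s * z * s⁻¹ = z⁻¹ := by
    have hsi : s⁻¹ = s := inv_eq_of_mul_eq_one_left hs2
    have hti : t⁻¹ = t := inv_eq_of_mul_eq_one_left ht2
    have hinv : (s * t)⁻¹ = t * s := by rw [mul_inv_rev s t, hsi, hti]
    rw [← hxy', hinv, hsi, ← mul_assoc, hs2, one_mul]
  have hθs : (θ : G → ℂ) s = 0 := by
    have h1 := sum_zero_of_mu hzp hθmu s
    have h2 : ∀ i : ZMod p, (θ : G → ℂ) (zp p z i * s) = (θ : G → ℂ) s := by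
      intro i
      have h22 : (2 : ZMod p) ≠ 0 := by
        intro h
        have : ((2 : ℕ) : ZMod p) = 0 := by exact_mod_cast h
        rw [ZMod.natCast_eq_zero_iff] at this
        have := Nat.le_of_dvd (by norm_num) this
        omega
      have h3 : i / 2 + i / 2 = i := by field_simp; ring
      have h4 := zp_mul_inv hzp hsz (i / 2)
      rw [h3] at h4
      rw [← h4]
      exact IsIrr.isClass θ.2 _ _
    rw [Finset.sum_congr rfl fun i _ => h2 i, Finset.sum_const, Finset.card_univ, ZMod.card, nsmul_eq_mul] at h1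
    exact (mul_eq_zero.1 h1).resolve_left hp0
  have hθu : (θ : G → ℂ) u = 0 := by rw [class_eq (IsIrr.isClass θ.2) hsu, hθs]
  have hge := count_ge hz hzp (by omega) hsu hs2 hsz
  rw [hθu, sub_zero] at hcnt
  have hNeq : N * (p - 2) = Nat.card G * (p - 1) := by
    have h1 : (N : ℂ) * (p - 2) = Nat.card G * (p - 1) := by
      rw [hcnt]
      field_simp
    have h2 : ((N * (p - 2) : ℕ) : ℂ) = ((Nat.card G * (p - 1) : ℕ) : ℂ) := by
      push_cast [Nat.cast_sub hp1.le, Nat.cast_sub (show 2 ≤ p by omega)]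
      exact h1
    exact_mod_cast h2
  set c := Nat.card (Subgroup.centralizer ({u} : Set G)) with hc
  have h2B : 2 ^ B ≤ c := by
    have h1 : 2 ^ B ∣ Nat.card (S : Subgroup G) := S.pow_dvd_card_of_pow_dvd_card (by
      rw [hcard]
      exact dvd_mul_of_dvd_left (dvd_mul_left _ _) _)
    have h3 := Nat.le_of_dvd Nat.card_pos h1
    have h4 : Nat.card (S : Subgroup G) ≤ c := Subgroup.card_le_of_le hSu
    omega
  have h5 : p * c ^ 2 * (p - 2) ≤ p * 2 ^ B * (p - 2) * (p - 1) := by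
    rw [← hcard, ← hNeq]
    exact Nat.mul_le_mul_right _ hge
  have h6 : c ^ 2 ≤ 2 ^ B * (p - 1) := by
    have h7 : (p * (p - 2)) * c ^ 2 ≤ (p * (p - 2)) * (2 ^ B * (p - 1)) := by
      calc (p * (p - 2)) * c ^ 2 = p * c ^ 2 * (p - 2) := by ring
        _ ≤ p * 2 ^ B * (p - 2) * (p - 1) := h5
        _ = _ := by ring
    exact Nat.le_of_mul_le_mul_left h7 (Nat.mul_pos (by omega) (by omega))
  have h7 : 2 ^ B ≤ p - 1 := by
    have h8 : 2 ^ B * 2 ^ B ≤ 2 ^ B * (p - 1) := by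
      calc 2 ^ B * 2 ^ B ≤ c * c := Nat.mul_le_mul h2B h2B
        _ = c ^ 2 := by ring
        _ ≤ _ := h6
    exact Nat.le_of_mul_le_mul_left h8 (by positivity)
  rw [hcard]
  exact Nat.mul_le_mul_right _ (Nat.mul_le_mul_left _ h7)

end Cfsg.Agent.H9.BT
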