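import Mathlib
import Cfsg.Agent.H9_Frob

set_option autoImplicit false

namespace Cfsg.Agent.H9.BurnsideMin

open MulAction
open scoped Pointwise

/-- A transitive normal subgroup of a doubly transitive group is primitive, or its two-point
stabilisers are trivial. -/
theorem primitive_or_sharp {G α : Type*} [Group G] [Fintype α] [MulAction G α] [FaithfulSMul G α]
    (h2 : IsMultiplyPretransitive G α 2) (N : Subgroup G) [hNn : N.Normal] (hNt : IsPretransitive N α) :
    IsPreprimitive N α ∨ ∀ x ∈ N, ∀ a b : α, a ≠ b → x • a = a → x • b = b → x = 1 := by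
  classical
  rw [is_two_pretransitive_iff] at h2
  by_cases hprim : IsPreprimitive N α
  · exact Or.inl hprim
  right
  -- nontrivial blocks
  let S : Set (Set α) := {B | IsBlock N B ∧ B.Nontrivial ∧ B ≠ Set.univ}
  have hS : S.Nonempty := by
    by_contra hcon
    apply hprim
    refine ⟨fun {B} hB => ?_⟩
    by_contra htriv
    apply hcon
    rw [IsTrivialBlock] at htriv
    push Not at htriv
    exact ⟨B, hB, htriv.1, htriv.2⟩
  obtain ⟨B, hBS, hBmin⟩ := Set.exists_min_image S Set.ncard (Set.toFinite S) hS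
  obtain ⟨hBblock, ⟨p, hp, q, hq, hpq⟩, hBuniv⟩ := hBS
  -- translates of B are blocks
  have htrans : ∀ g : G, IsBlock N (g • B) := by
    intro g
    rw [isBlock_iff_smul_eq_smul_or_disjoint]
    intro n n'
    have h1 := (isBlock_iff_smul_eq_smul_or_disjoint.1 hBblock) (⟨g⁻¹ * n * g, by simpa using hNn.conj_mem _ n.2 g⁻¹⟩ : N)
      (⟨g⁻¹ * n' * g, by simpa using hNn.conj_mem _ n'.2 g⁻¹⟩ : N)
    have e : ∀ m : N, m • (g • B) = g • ((⟨g⁻¹ * m * g, by simpa using hNn.conj_mem _ m.2 g⁻¹⟩ : N) • B) := by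
      intro m
      change (m : G) • (g • B) = g • ((g⁻¹ * (m : G) * g) • B)
      rw [smul_smul, smul_smul]
      congr 1
      group
    rw [e n, e n']
    rcases h1 with h1 | h1
    · left; rw [h1]
    · right
      rw [Set.disjoint_smul_set]
      exact h1
  have hcardB : ∀ g : G, (g • B).ncard = B.ncard := fun g => Set.ncard_smul_set g B
  -- a line through two points
  have hline : ∀ x y : α, x ≠ y → ∃ g : G, x ∈ g • B ∧ y ∈ g • B := by
    intro x y hxy
    obtain ⟨g, rfl, rfl⟩ := h2 hpq hxy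
    exact ⟨g, Set.smul_mem_smul_set hp, Set.smul_mem_smul_set hq⟩
  have huniv : ∀ g : G, g • B ≠ Set.univ := by
    intro g h
    apply hBuniv
    have : B = g⁻¹ • Set.univ := by rw [← h, inv_smul_smul]
    rw [this, Set.smul_set_univ]
  have huniq : ∀ (g g' : G) (x y : α), x ≠ y → x ∈ g • B → y ∈ g • B → x ∈ g' • B → y ∈ g' • B → g • B = g' • B := by
    intro g g' x y hxy h1 h2 h3 h4
    have hI : IsBlock N (g • B ∩ g' • B) := (htrans g).inter (htrans g')
    have hle := hBmin (g • B ∩ g' • B) ⟨hI, ⟨x, ⟨h1, h3⟩, y, ⟨h2, h4⟩, hxy⟩, fun h => huniv g (by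
      rw [Set.eq_univ_iff_forall] at h ⊢
      intro z; exact (h z).1)⟩
    have e1 : g • B ∩ g' • B = g • B := Set.eq_of_subset_of_ncard_le Set.inter_subset_left (by rw [hcardB]; exact hle) (Set.toFinite _)
    have e2 : g • B ∩ g' • B = g' • B := Set.eq_of_subset_of_ncard_le Set.inter_subset_right (by rw [hcardB]; exact hle) (Set.toFinite _)
    rw [← e1, e2]
  -- key: if n fixes x,y, and z is not on the line xy then n fixes z
  have key : ∀ n ∈ N, ∀ x y z : α, x ≠ y → n • x = x → n • y = y →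
      (∀ g : G, x ∈ g • B → y ∈ g • B → z ∉ g • B) → n • z = z := by
    intro n hn x y z hxy hnx hny hz
    have hzx : x ≠ z := by
      rintro rfl
      obtain ⟨g, hg1, hg2⟩ := hline x y hxy
      exact hz g hg1 hg2 hg1
    have hzy : y ≠ z := by
      rintro rfl
      obtain ⟨g, hg1, hg2⟩ := hline x y hxy
      exact hz g hg1 hg2 hg2
    obtain ⟨g1, h11, h12⟩ := hline x z hzx
    obtain ⟨g2, h21, h22⟩ := hline y z hzy
    have f1 : n • z ∈ g1 • B := by
      have := (htrans g1).smul_eq_of_mem (g := (⟨n, hn⟩ : N)) h11 (by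
        change n • x ∈ g1 • B
        rw [hnx]; exact h11)
      rw [← this]
      exact Set.smul_mem_smul_set h12
    have f2 : n • z ∈ g2 • B := by
      have := (htrans g2).smul_eq_of_mem (g := (⟨n, hn⟩ : N)) h21 (by
        change n • y ∈ g2 • B
        rw [hny]; exact h21)
      rw [← this]
      exact Set.smul_mem_smul_set h22
    by_contra hne
    have heq := huniq g1 g2 (n • z) z hne f1 h12 f2 h22
    exact hz g1 h11 (by rw [heq]; exact h21) h12
  intro n hn x y hxy hnx hny
  apply FaithfulSMul.eq_of_smul_eq_smul (α := α)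
  intro w
  rw [one_smul]
  obtain ⟨g0, h01, h02⟩ := hline x y hxy
  by_cases hw : w ∈ g0 • B
  · -- choose z not on the line
    obtain ⟨z, hz⟩ := (Set.ne_univ_iff_exists_notMem _).1 (huniv g0)
    have hnz : n • z = z := key n hn x y z hxy hnx hny (fun g h1 h2 => by
      rw [huniq g g0 x y hxy h1 h2 h01 h02]; exact hz)
    by_cases hwx : w = x
    · rw [hwx, hnx]
    have hzx : x ≠ z := fun h => hz (h ▸ h01)
    refine key n hn x z w hzx hnx hnz (fun g h1 h2 h3 => ?_)
    apply hz
    rw [← huniq g g0 w x hwx h3 h1 hw h01]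
    exact h2
  · exact key n hn x y w hxy hnx hny (fun g h1 h2 => by
      rw [huniq g g0 x y hxy h1 h2 h01 h02]; exact hw)

theorem main {α : Type*} [Fintype α] [DecidableEq α] (G : Subgroup (Equiv.Perm α))
    (hG : MulAction.IsMultiplyPretransitive G α 2) (N : Subgroup G) [hNn : N.Normal] (hN : N ≠ ⊥)
    (hmin : ∀ M : Subgroup G, M.Normal → M ≤ N → M = ⊥ ∨ M = N) :
    (IsMulCommutative N ∧ (∃ p : ℕ, p.Prime ∧ ∀ n ∈ N, n ^ p = 1) ∧ ∀ a : α, MulAction.stabilizer N a = ⊥) ∨
    (IsSimpleGroup N ∧ MulAction.IsPreprimitive N α) := by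
  classical
  have hcard2 : 2 ≤ Fintype.card α := by
    by_contra hcon
    apply hN
    have : Subsingleton α := Fintype.card_le_one_iff_subsingleton.1 (by omega)
    exact Subsingleton.elim _ _
  have hGprim : IsPreprimitive G α := isPreprimitive_of_is_two_pretransitive hG
  have hNt : IsPretransitive N α := H9.NormalMT.transitive_of_primitive hGprim N hN
  by_cases hreg : ∀ a : α, stabilizer N a = ⊥
  · left
    obtain ⟨p, j, hp, -, -, -, hc, hpow⟩ := H9.Frob.regular_normal_elementary hG hcard2 N hNt hreg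
    exact ⟨hc, ⟨p, hp, hpow⟩, hreg⟩
  right
  have hNprim : IsPreprimitive N α := by
    rcases primitive_or_sharp hG N hNt with h | h
    · exact h
    · exfalso
      obtain ⟨K, hKn, hKN, hKmem, hKt, hKreg⟩ := H9.Frob.frob_kernel hG hcard2 N hNt h
      rcases hmin K hKn hKN with h1 | h1
      · obtain ⟨a, b, hab⟩ := Fintype.one_lt_card_iff.1 (show 1 < Fintype.card α by omega)
        obtain ⟨k, hk⟩ := hKt.exists_smul_eq a b
        have : k = 1 := by
          apply Subtype.ext
          have h3 : (k : G) ∈ (⊥ : Subgroup G) := h1.le k.2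
          exact Subgroup.mem_bot.1 h3
        rw [this, one_smul] at hk
        exact hab hk
      · apply hreg
        intro a
        subst h1
        exact hKreg a
  refine ⟨?_, hNprim⟩
  obtain ⟨a, b, hab⟩ := Fintype.one_lt_card_iff.1 (show 1 < Fintype.card α by omega)
  haveI : Nontrivial N := by rw [Subgroup.nontrivial_iff_ne_bot]; exact hN
  by_contra hns
  -- P : subgroups of N normalised by N
  let P : Subgroup G → Prop := fun M => M ≤ N ∧ M ≠ ⊥ ∧ ∀ n ∈ N, ∀ m ∈ M, n * m * n⁻¹ ∈ M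
  have hPt : ∀ M, P M → ∀ x y : α, ∃ m ∈ M, m • x = y := by
    rintro M ⟨hM1, hM2, hM3⟩ x y
    haveI : (M.subgroupOf N).Normal := ⟨fun m hm n => hM3 n n.2 m hm⟩
    have h1 : IsPretransitive (M.subgroupOf N) α := by
      apply H9.NormalMT.transitive_of_primitive hNprim
      intro h
      apply hM2
      rw [Subgroup.subgroupOf_eq_bot] at h
      rw [disjoint_iff] at h
      rwa [inf_eq_left.2 hM1] at h
    obtain ⟨m, hm⟩ := h1.exists_smul_eq x y
    exact ⟨((m : N) : G), m.2, hm⟩
  -- minimal such M, proper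
  obtain ⟨M, hPM, hMN, hMmin⟩ : ∃ M, P M ∧ M ≠ N ∧ ∀ L, P L → L ≤ M → L = M := by
    have hex : ∃ M, P M ∧ M ≠ N := by
      by_contra hcon
      push Not at hcon
      apply hns
      refine ⟨fun H hH => ?_⟩
      by_cases hb : H = ⊥
      · exact Or.inl hb
      right
      have h1 : P (H.map N.subtype) := by
        refine ⟨Subgroup.map_subtype_le H, ?_, ?_⟩
        · intro h
          apply hb
          rw [eq_bot_iff]
          intro x hx
          have : (x : G) ∈ H.map N.subtype := ⟨x, hx, rfl⟩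
          rw [h, Subgroup.mem_bot] at this
          exact Subtype.ext this
        · rintro n hn _ ⟨m, hm, rfl⟩
          exact ⟨⟨n, hn⟩ * m * ⟨n, hn⟩⁻¹, hH.conj_mem m hm _, rfl⟩
      have h2 := hcon _ h1
      rw [eq_top_iff]
      intro x _
      have : (x : G) ∈ H.map N.subtype := by rw [h2]; exact x.2
      obtain ⟨y, hy, hyx⟩ := this
      have : y = x := Subtype.ext hyx
      rwa [← this]
    obtain ⟨M, ⟨hM, hMN⟩, hmin'⟩ := WellFounded.has_min (wellFounded_lt (α := Subgroup G)) {M | P M ∧ M ≠ N} hex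
    refine ⟨M, hM, hMN, fun L hL hLM => ?_⟩
    by_contra hne
    have hlt : L < M := lt_of_le_of_ne hLM hne
    refine hmin' L ⟨hL, ?_⟩ hlt
    intro h
    apply hMN
    exact le_antisymm hM.1 (by rw [← h]; exact hLM)
  -- conjugates
  let cj : G → Subgroup G := fun g => M.map (MulAut.conj g).toMonoidHom
  have hcjmem : ∀ g m, m ∈ M → g * m * g⁻¹ ∈ cj g := fun g m hm => ⟨m, hm, rfl⟩
  have hcjP : ∀ g, P (cj g) := by
    intro g
    refine ⟨?_, ?_, ?_⟩
    · rintro _ ⟨m, hm, rfl⟩
      exact hNn.conj_mem m (hPM.1 hm) g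
    · intro h
      apply hPM.2.1
      rw [eq_bot_iff]
      intro m hm
      have : g * m * g⁻¹ ∈ cj g := hcjmem g m hm
      rw [h, Subgroup.mem_bot] at this
      rw [Subgroup.mem_bot]
      have h1 : m = g⁻¹ * (g * m * g⁻¹) * g := by group
      rw [h1, this]; simp
    · rintro n hn _ ⟨m, hm, rfl⟩
      refine ⟨(g⁻¹ * n * g) * m * (g⁻¹ * n * g)⁻¹, hPM.2.2 _ (by simpa using hNn.conj_mem n hn g⁻¹) m hm, ?_⟩
      change g * (g⁻¹ * n * g * m * (g⁻¹ * n * g)⁻¹) * g⁻¹ = n * (g * m * g⁻¹) * n⁻¹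
      group
  have hcjcard : ∀ g, Nat.card (cj g) = Nat.card M := fun g => Subgroup.card_map_of_injective (MulAut.conj g).injective
  -- M and a conjugate are equal or meet trivially (so commute)
  have hcomm : ∀ g, cj g = M ∨ (∀ m ∈ M, ∀ c ∈ cj g, m * c = c * m) := by
    intro g
    by_cases hb : M ⊓ cj g = ⊥
    · right
      intro m hm c hc
      have hmem : m * c * m⁻¹ * c⁻¹ ∈ M ⊓ cj g := by
        constructor
        · have : m * c * m⁻¹ * c⁻¹ = m * (c * m⁻¹ * c⁻¹) := by group
          rw [this]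
          exact M.mul_mem hm (hPM.2.2 c ((hcjP g).1 hc) _ (M.inv_mem hm))
        · exact (cj g).mul_mem ((hcjP g).2.2 m (hPM.1 hm) c hc) ((cj g).inv_mem hc)
      rw [hb, Subgroup.mem_bot] at hmem
      have h2 := mul_inv_eq_one.1 hmem
      rw [mul_inv_eq_iff_eq_mul] at h2
      exact h2
    · left
      have h1 : P (M ⊓ cj g) := ⟨inf_le_left.trans hPM.1, hb, fun n hn m hm => ⟨hPM.2.2 n hn m hm.1, (hcjP g).2.2 n hn m hm.2⟩⟩
      have h2 := hMmin _ h1 inf_le_left
      have h3 : M ≤ cj g := by rw [← h2]; exact inf_le_right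
      exact (Subgroup.eq_of_le_of_card_ge h3 (by rw [hcjcard])).symm
  -- some conjugate is different
  obtain ⟨g0, hg0⟩ : ∃ g, cj g ≠ M := by
    by_contra hcon
    push Not at hcon
    have hMnorm : M.Normal := ⟨fun m hm g => by rw [← hcon g]; exact hcjmem g m hm⟩
    rcases hmin M hMnorm hPM.1 with h | h
    · exact hPM.2.1 h
    · exact hMN h
  have hM'comm : ∀ m ∈ M, ∀ c ∈ cj g0, m * c = c * m := (hcomm g0).resolve_left hg0
  -- centralising a transitive group and fixing a point implies trivial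
  have hsemi : ∀ L, P L → ∀ c : G, (∀ l ∈ L, l * c = c * l) → ∀ x : α, c • x = x → c = 1 := by
    intro L hL c hc x hx
    apply FaithfulSMul.eq_of_smul_eq_smul (α := α)
    intro y
    obtain ⟨l, hl, rfl⟩ := hPt L hL x y
    rw [one_smul, ← mul_smul, ← hc l hl, mul_smul, hx]
  have hMfree : ∀ m ∈ M, ∀ x : α, m • x = x → m = 1 := fun m hm x hx =>
    hsemi (cj g0) (hcjP g0) m (fun l hl => (hM'comm m hm l hl).symm) x hx
  have hcjfree : ∀ g, ∀ c ∈ cj g, ∀ x : α, c • x = x → c = 1 := by
    rintro g _ ⟨m, hm, rfl⟩ x hx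
    have hx' : (g * m * g⁻¹) • x = x := hx
    rw [mul_smul, mul_smul, smul_eq_iff_eq_inv_smul] at hx'
    have := hMfree m hm _ hx'
    rw [this]; simp
  -- all nonidentity elements of M have the same order
  have hord : ∀ m ∈ M, ∀ m' ∈ M, m ≠ 1 → m' ≠ 1 → ∀ k : ℕ, m ^ k = 1 → m' ^ k = 1 := by
    intro m hm m' hm' hm1 hm1' k hk
    have h1 : a ≠ m • a := fun h => hm1 (hMfree m hm a h.symm)
    have h2 : a ≠ m' • a := fun h => hm1' (hMfree m' hm' a h.symm)
    obtain ⟨g, hga, hgm⟩ := (is_two_pretransitive_iff.1 hG) h1 h2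
    have hga' : g⁻¹ • a = a := by rw [inv_smul_eq_iff, hga]
    set c := g * m * g⁻¹ with hc
    have hca : c • a = m' • a := by
      rw [hc, mul_smul, mul_smul, hga', hgm]
    have hck : c ^ k = 1 := by rw [hc, conj_pow, hk]; simp
    have hcmem : c ∈ cj g := hcjmem g m hm
    rcases hcomm g with h | h
    · rw [h] at hcmem
      have : m'⁻¹ * c = 1 := hMfree _ (M.mul_mem (M.inv_mem hm') hcmem) a (by
        rw [mul_smul, hca, inv_smul_smul])
      rw [inv_mul_eq_one] at this
      rw [this]; exact hck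
    · have hcc : Commute m'⁻¹ c := (show Commute m' c from h m' hm' c hcmem).inv_left
      have h3 : (m'⁻¹ * c) • a = a := by rw [mul_smul, hca, inv_smul_smul]
      have h4 : (m'⁻¹ * c) ^ k • a = a := by
        clear hk hck
        induction k with
        | zero => simp
        | succ k ih => rw [pow_succ, mul_smul, h3, ih]
      rw [hcc.mul_pow, hck, mul_one] at h4
      have h5 := hMfree _ (M.pow_mem (M.inv_mem hm') k) a h4
      rw [inv_pow] at h5
      exact inv_eq_one.1 h5
  -- M is a p-group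
  haveI : Nontrivial M := by rw [Subgroup.nontrivial_iff_ne_bot]; exact hPM.2.1
  have hcard1 : Nat.card M ≠ 1 := Finite.one_lt_card.ne'
  obtain ⟨p, hp, hpd⟩ := Nat.exists_prime_and_dvd hcard1
  haveI : Fact p.Prime := ⟨hp⟩
  obtain ⟨x, hx⟩ := exists_prime_orderOf_dvd_card' (G := M) p hpd
  have hx1 : x ≠ 1 := by
    rintro rfl
    rw [orderOf_one] at hx
    exact hp.one_lt.ne hx
  have hpg : IsPGroup p M := by
    intro y
    refine ⟨1, ?_⟩
    rw [pow_one]
    by_cases hy : y = 1
    · rw [hy, one_pow]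
    · apply Subtype.ext
      refine hord x x.2 y y.2 (fun h => hx1 (Subtype.ext h)) (fun h => hy (Subtype.ext h)) p ?_
      have := pow_orderOf_eq_one x
      rw [hx] at this
      exact congrArg Subtype.val this
  haveI := hpg.center_nontrivial
  have hZ : P ((Subgroup.center M).map M.subtype) := by
    refine ⟨(Subgroup.map_subtype_le _).trans hPM.1, ?_, ?_⟩
    · intro h
      obtain ⟨⟨z, hz⟩, hz1⟩ := exists_ne (1 : Subgroup.center M)
      have : (z : G) ∈ (Subgroup.center M).map M.subtype := ⟨z, hz, rfl⟩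
      rw [h, Subgroup.mem_bot] at this
      exact hz1 (Subtype.ext (Subtype.ext this))
    · rintro n hn _ ⟨z, hz, rfl⟩
      refine ⟨⟨n * z * n⁻¹, hPM.2.2 n hn z z.2⟩, ?_, rfl⟩
      change (⟨n * z * n⁻¹, hPM.2.2 n hn z z.2⟩ : M) ∈ Subgroup.center M
      rw [Subgroup.mem_center_iff]
      intro m
      apply Subtype.ext
      change (m : G) * (n * z * n⁻¹) = n * z * n⁻¹ * m
      have h1 := hPM.2.2 n⁻¹ (N.inv_mem hn) m m.2
      rw [inv_inv] at h1
      have h2 := Subgroup.mem_center_iff.1 hz ⟨_, h1⟩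
      have h3 : (n⁻¹ * m * n) * (z : G) = z * (n⁻¹ * m * n) := congrArg Subtype.val h2
      have h4 : (m : G) * (n * z * n⁻¹) = n * ((n⁻¹ * m * n) * (z : G)) * n⁻¹ := by group
      rw [h4, h3]; group
  have hZM := hMmin _ hZ (Subgroup.map_subtype_le _)
  have hMab : ∀ m ∈ M, ∀ m' ∈ M, m * m' = m' * m := by
    intro m hm m' hm'
    have : m' ∈ (Subgroup.center M).map M.subtype := by rw [hZM]; exact hm'
    obtain ⟨z, hz, rfl⟩ := this
    exact congrArg Subtype.val (Subgroup.mem_center_iff.1 hz ⟨m, hm⟩)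
  -- contradiction
  apply (hcjP g0).2.1
  rw [eq_bot_iff]
  intro c hc
  obtain ⟨m, hm, hma⟩ := hPt M hPM a (c • a)
  have h1 : m⁻¹ * c = 1 := by
    apply hsemi M hPM _ _ a
    · rw [mul_smul, ← hma, inv_smul_smul]
    · intro l hl
      have e1 : Commute l m⁻¹ := (show Commute l m from hMab l hl m hm).inv_right
      have e2 : Commute l c := hM'comm l hl c hc
      exact (e1.mul_right e2)
  have h2 : m = c := inv_mul_eq_one.1 h1
  subst h2
  -- m ∈ M ⊓ cj g0
  rw [Subgroup.mem_bot]
  by_contra hm1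
  apply hg0
  have hb : M ⊓ cj g0 ≠ ⊥ := by
    intro h
    have : m ∈ M ⊓ cj g0 := ⟨hm, hc⟩
    rw [h, Subgroup.mem_bot] at this
    exact hm1 this
  have h1 : P (M ⊓ cj g0) := ⟨inf_le_left.trans hPM.1, hb, fun n hn m hm => ⟨hPM.2.2 n hn m hm.1, (hcjP g0).2.2 n hn m hm.2⟩⟩
  have h2 := hMmin _ h1 inf_le_left
  have h3 : M ≤ cj g0 := by rw [← h2]; exact inf_le_right
  exact (Subgroup.eq_of_le_of_card_ge h3 (by rw [hcjcard])).symm

end Cfsg.Agent.H9.BurnsideMin
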