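import Mathlib
import Cfsg.Prelude.Def_Perm
import Cfsg.Agent.H3_CharComplete
import Cfsg.Agent.H3_CharPerm

/-!
# The commutant of a representation: traces on multiplicity spaces
-/

set_option autoImplicit false

namespace Cfsg.Agent.H9.Comm

open Cfsg Cfsg.Agent.H3.CharIrr Cfsg.Agent.H3.CharComplete

section general

variable {V W : Type*} [AddCommGroup V] [Module ℂ V] [FiniteDimensional ℂ V]
  [AddCommGroup W] [Module ℂ W] [FiniteDimensional ℂ W]

/-- `φ ↦ X ∘ φ ∘ Y` -/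
noncomputable def sand (X : V →ₗ[ℂ] V) (Y : W →ₗ[ℂ] W) : (W →ₗ[ℂ] V) →ₗ[ℂ] (W →ₗ[ℂ] V) where
  toFun φ := X ∘ₗ φ ∘ₗ Y
  map_add' a b := by
    ext w; simp
  map_smul' c a := by
    ext w; simp

theorem sand_apply (X : V →ₗ[ℂ] V) (Y : W →ₗ[ℂ] W) (φ : W →ₗ[ℂ] V) : sand X Y φ = X ∘ₗ φ ∘ₗ Y := rfl

theorem trace_sand (X : V →ₗ[ℂ] V) (Y : W →ₗ[ℂ] W) :
    LinearMap.trace ℂ (W →ₗ[ℂ] V) (sand X Y) = LinearMap.trace ℂ V X * LinearMap.trace ℂ W Y := by
  have h1 : sand X Y = (dualTensorHomEquiv ℂ W V).conj (TensorProduct.map (Module.Dual.transpose (R := ℂ) Y) X) := by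
    apply LinearMap.ext
    intro φ
    obtain ⟨t, rfl⟩ := (dualTensorHomEquiv ℂ W V).surjective φ
    rw [LinearEquiv.conj_apply]
    simp only [LinearMap.comp_apply, LinearEquiv.coe_coe, LinearEquiv.symm_apply_apply]
    induction t using TensorProduct.induction_on with
    | zero => simp
    | tmul f v =>
      ext w
      simp [sand_apply, Module.Dual.transpose_apply]
    | add x y hx hy =>
      simp only [map_add, hx, hy]
  rw [h1, LinearMap.trace_conj', LinearMap.trace_tensorProduct', LinearMap.trace_transpose', mul_comm]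

theorem isIntegral_trace_end (T : V →ₗ[ℂ] V) (P : Polynomial ℤ) (hP : P.Monic)
    (hPT : Polynomial.aeval T P = 0) : IsIntegral ℤ (LinearMap.trace ℂ V T) := by
  classical
  let b := Module.finBasis ℂ V
  rw [LinearMap.trace_eq_matrix_trace ℂ b, Matrix.trace_eq_sum_roots_charpoly]
  apply IsIntegral.multiset_sum
  intro μ hμ
  rw [LinearMap.charpoly_toMatrix] at hμ
  have h1 : T.charpoly.IsRoot μ := (Polynomial.mem_roots'.1 hμ).2
  have h2 : Module.End.HasEigenvalue T μ := Module.End.hasEigenvalue_iff_isRoot_charpoly T μ |>.2 h1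
  obtain ⟨v, hv⟩ := h2.exists_hasEigenvector
  refine ⟨P, hP, ?_⟩
  have h3 : Polynomial.aeval T (P.map (Int.castRingHom ℂ)) v = (P.map (Int.castRingHom ℂ)).eval μ • v :=
    Module.End.aeval_apply_of_hasEigenvector hv
  have h4 : Polynomial.aeval T (P.map (Int.castRingHom ℂ)) = Polynomial.aeval T P := by
    rw [← algebraMap_int_eq, Polynomial.aeval_map_algebraMap]
  rw [h4, hPT, LinearMap.zero_apply] at h3
  have h5 := (smul_eq_zero.1 h3.symm).resolve_right hv.2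
  rw [Polynomial.eval_map] at h5
  rw [algebraMap_int_eq]
  exact h5

end general

section rep

variable {G : Type*} [Group G] {V W : Type*} [AddCommGroup V] [Module ℂ V] [FiniteDimensional ℂ V]
  [AddCommGroup W] [Module ℂ W] [FiniteDimensional ℂ W]

/-- equivariance -/
def Eqv (σ : Representation ℂ G V) (A : V →ₗ[ℂ] V) : Prop := ∀ g v, A (σ g v) = σ g (A v)

theorem Eqv.comp {σ : Representation ℂ G V} {A B : V →ₗ[ℂ] V} (hA : Eqv σ A) (hB : Eqv σ B) : Eqv σ (A ∘ₗ B) :=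
  fun g v => by rw [LinearMap.comp_apply, LinearMap.comp_apply, hB g v, hA g]

theorem Eqv.sub {σ : Representation ℂ G V} {A B : V →ₗ[ℂ] V} (hA : Eqv σ A) (hB : Eqv σ B) : Eqv σ (A - B) :=
  fun g v => by rw [LinearMap.sub_apply, LinearMap.sub_apply, hB g v, hA g, map_sub]

theorem Eqv.id (σ : Representation ℂ G V) : Eqv σ LinearMap.id := fun _ _ => rfl

/-- equivariant maps -/
def Hm (ρ : Representation ℂ G W) (σ : Representation ℂ G V) : Submodule ℂ (W →ₗ[ℂ] V) where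
  carrier := {φ | ∀ g w, φ (ρ g w) = σ g (φ w)}
  zero_mem' := by intro g w; simp
  add_mem' := by
    intro a b ha hb g w
    rw [LinearMap.add_apply, LinearMap.add_apply, ha, hb, map_add]
  smul_mem' := by
    intro c a ha g w
    rw [LinearMap.smul_apply, LinearMap.smul_apply, ha, map_smul]

theorem mem_Hm (ρ : Representation ℂ G W) (σ : Representation ℂ G V) (φ : W →ₗ[ℂ] V) :
    φ ∈ Hm ρ σ ↔ ∀ g w, φ (ρ g w) = σ g (φ w) := Iff.rfl

/-- the action of an equivariant operator on the multiplicity space -/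
noncomputable def T (ρ : Representation ℂ G W) (σ : Representation ℂ G V) {A : V →ₗ[ℂ] V} (hA : Eqv σ A) :
    Hm ρ σ →ₗ[ℂ] Hm ρ σ :=
  (sand A (LinearMap.id : W →ₗ[ℂ] W)).restrict (fun φ hφ g w => by
    rw [sand_apply, LinearMap.comp_apply, LinearMap.comp_apply, LinearMap.id_apply, LinearMap.comp_apply,
      LinearMap.comp_apply, LinearMap.id_apply, hφ g w, hA g])

theorem T_apply (ρ : Representation ℂ G W) (σ : Representation ℂ G V) {A : V →ₗ[ℂ] V} (hA : Eqv σ A) (φ : Hm ρ σ) (w : W) :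
    (T ρ σ hA φ : W →ₗ[ℂ] V) w = A ((φ : W →ₗ[ℂ] V) w) := rfl

theorem T_comp (ρ : Representation ℂ G W) (σ : Representation ℂ G V) {A B : V →ₗ[ℂ] V} (hA : Eqv σ A) (hB : Eqv σ B) :
    T ρ σ (hA.comp hB) = T ρ σ hA ∘ₗ T ρ σ hB := by
  ext φ w; rfl

theorem T_id (ρ : Representation ℂ G W) (σ : Representation ℂ G V) :
    T ρ σ (Eqv.id σ) = LinearMap.id := by
  ext φ w; rfl

variable [Fintype G]

theorem trace_T (ρ : Representation ℂ G W) (σ : Representation ℂ G V) {A : V →ₗ[ℂ] V} (hA : Eqv σ A) :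
    LinearMap.trace ℂ _ (T ρ σ hA) = classInner (fun g => LinearMap.trace ℂ V (A ∘ₗ σ g)) ρ.character := by
  classical
  have hN : (Nat.card G : ℂ) ≠ 0 := card_cast_ne_zero
  -- the operator `A` composed with averaging
  let F : (W →ₗ[ℂ] V) →ₗ[ℂ] (W →ₗ[ℂ] V) := (Nat.card G : ℂ)⁻¹ • ∑ g : G, sand (A ∘ₗ σ g) (ρ g⁻¹)
  have hFap : ∀ φ w, F φ w = (Nat.card G : ℂ)⁻¹ • ∑ g : G, A (σ g (φ (ρ g⁻¹ w))) := by
    intro φ w
    simp only [F, LinearMap.smul_apply, LinearMap.sum_apply, sand_apply, LinearMap.comp_apply]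
  have hF : ∀ φ, F φ ∈ Hm ρ σ := by
    intro φ h w
    rw [hFap, hFap, map_smul, map_sum]
    congr 1
    rw [← Equiv.sum_comp (Equiv.mulLeft h)]
    apply Finset.sum_congr rfl
    intro g _
    rw [Equiv.coe_mulLeft, map_mul, Module.End.mul_apply, hA h]
    congr 4
    rw [← Module.End.mul_apply, ← map_mul]
    congr 2
    group
  have h1 := LinearMap.trace_restrict_eq_of_forall_mem (Hm ρ σ) F hF
  have h2 : F.restrict (fun φ _ => hF φ) = T ρ σ hA := by
    apply LinearMap.ext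
    intro φ
    apply Subtype.ext
    apply LinearMap.ext
    intro w
    rw [T_apply]
    change F φ w = _
    rw [hFap]
    have h3 : ∀ g : G, A (σ g ((φ : W →ₗ[ℂ] V) (ρ g⁻¹ w))) = A ((φ : W →ₗ[ℂ] V) w) := by
      intro g
      have h5 : ∀ v, σ g (σ g⁻¹ v) = v := fun v => by
        rw [← Module.End.mul_apply, ← map_mul, mul_inv_cancel, map_one, Module.End.one_apply]
      rw [φ.2 g⁻¹ w, h5]
    simp only [h3]
    rw [Finset.sum_const, Finset.card_univ, ← Nat.card_eq_fintype_card, ← Nat.cast_smul_eq_nsmul ℂ, smul_smul,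
      inv_mul_cancel₀ hN, one_smul]
  rw [h2] at h1
  rw [h1, ci_eq_sum_inv _ (isCharacter_of_rep ρ)]
  simp only [F, map_smul, map_sum, trace_sand, smul_eq_mul]
  rfl

theorem finrank_Hm (ρ : Representation ℂ G W) (σ : Representation ℂ G V) :
    (Module.finrank ℂ (Hm ρ σ) : ℂ) = classInner σ.character ρ.character := by
  have h := trace_T ρ σ (Eqv.id σ)
  rw [T_id, LinearMap.trace_id] at h
  rw [h]
  rfl

/-- integrality -/
theorem isIntegral_inner (ρ : Representation ℂ G W) (σ : Representation ℂ G V) {A : V →ₗ[ℂ] V} (hA : Eqv σ A)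
    (P : Polynomial ℤ) (hP : P.Monic) (hPA : Polynomial.aeval A P = 0) :
    IsIntegral ℤ (classInner (fun g => LinearMap.trace ℂ V (A ∘ₗ σ g)) ρ.character) := by
  rw [← trace_T ρ σ hA]
  apply isIntegral_trace_end _ P hP
  have key : ∀ Q : Polynomial ℤ, ∀ (φ : Hm ρ σ) (w : W), ((Polynomial.aeval (T ρ σ hA) Q φ : Hm ρ σ) : W →ₗ[ℂ] V) w =
      Polynomial.aeval A Q ((φ : W →ₗ[ℂ] V) w) := by
    intro Q
    induction Q using Polynomial.induction_on' with
    | add p q hp hq =>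
      intro φ w
      rw [map_add, map_add, LinearMap.add_apply, LinearMap.add_apply, Submodule.coe_add, LinearMap.add_apply, hp, hq]
    | monomial n a =>
      intro φ w
      have hpow : ∀ (n : ℕ) (φ : Hm ρ σ) (w : W), (((T ρ σ hA ^ n) φ : Hm ρ σ) : W →ₗ[ℂ] V) w = (A ^ n) ((φ : W →ₗ[ℂ] V) w) := by
        intro n
        induction n with
        | zero => intro φ w; rfl
        | succ n ih =>
          intro φ w
          rw [pow_succ, pow_succ, Module.End.mul_apply, Module.End.mul_apply, ih, T_apply]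
      rw [Polynomial.aeval_monomial, Polynomial.aeval_monomial, Module.End.mul_apply, Module.End.mul_apply]
      rw [Module.algebraMap_end_apply, Module.algebraMap_end_apply]
      rw [← hpow]
      rfl
  apply LinearMap.ext
  intro φ
  apply Subtype.ext
  apply LinearMap.ext
  intro w
  rw [key, hPA]
  rfl

theorem exists_irr_sub (σ : Representation ℂ G V) : ∀ (n : ℕ) (U : Submodule ℂ V), Module.finrank ℂ U = n →
    (∀ g, ∀ v ∈ U, σ g v ∈ U) → U ≠ ⊥ →
    ∃ (U₀ : Submodule ℂ V) (hU₀ : ∀ g, ∀ v ∈ U₀, σ g v ∈ U₀), U₀ ≤ U ∧ U₀ ≠ ⊥ ∧ (subRep σ U₀ hU₀).IsIrreducible := by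
  intro n
  induction n using Nat.strong_induction_on with
  | _ n ih =>
    intro U hn hU hU0
    by_cases hirr : (subRep σ U hU).IsIrreducible
    · exact ⟨U, hU, le_rfl, hU0, hirr⟩
    · rw [irrep_iff] at hirr
      push Not at hirr
      haveI : Nontrivial U := Submodule.nontrivial_iff_ne_bot.2 hU0
      obtain ⟨X, hX, hX0, hX1⟩ := hirr inferInstance
      obtain ⟨U₀, hU₀, h1, h2, h3⟩ := ih (Module.finrank ℂ (X.map U.subtype)) (by
        rw [← hn]
        rw [Submodule.finrank_map_subtype_eq]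
        exact Submodule.finrank_lt hX1) (X.map U.subtype) rfl (by
        rintro g _ ⟨x, hx, rfl⟩
        exact ⟨subRep σ U hU g x, hX g x hx, rfl⟩) (by
        intro h
        apply hX0
        rw [eq_bot_iff]
        intro x hx
        have h1 : (x : V) ∈ X.map U.subtype := ⟨x, hx, rfl⟩
        rw [h, Submodule.mem_bot] at h1
        rw [Submodule.mem_bot]
        exact Subtype.ext h1)
      refine ⟨U₀, hU₀, h1.trans ?_, h2, h3⟩
      rintro _ ⟨x, -, rfl⟩
      exact x.2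

theorem eq_zero_of_T (σ : Representation ℂ G V) {D : V →ₗ[ℂ] V} (hD : Eqv σ D)
    (h : ∀ (n : ℕ) (ρ : Representation ℂ G (Fin n → ℂ)), ρ.IsIrreducible → T ρ σ hD = 0) : D = 0 := by
  by_contra hD0
  have hK : ∀ g, ∀ v ∈ LinearMap.ker D, σ g v ∈ LinearMap.ker D := by
    intro g v hv
    rw [LinearMap.mem_ker] at hv ⊢
    rw [hD, hv, map_zero]
  obtain ⟨C, hC, hCc⟩ := exists_compl σ (LinearMap.ker D) hK
  have hC0 : C ≠ ⊥ := by
    rintro rfl
    apply hD0
    rw [← LinearMap.ker_eq_top]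
    have := hCc.sup_eq_top
    rwa [sup_bot_eq] at this
  obtain ⟨U, hU, hUC, hU0, hirr⟩ := exists_irr_sub σ _ C rfl hC hC0
  obtain ⟨τ, ⟨e⟩⟩ := exists_coord (subRep σ U hU)
  have hτ := irreducible_of_equiv e hirr
  let φ : (Fin (Module.finrank ℂ U) → ℂ) →ₗ[ℂ] V := U.subtype ∘ₗ e.toLinearEquiv.symm.toLinearMap
  have hφ : φ ∈ Hm τ σ := by
    intro g w
    obtain ⟨u, rfl⟩ := e.toLinearEquiv.surjective w
    have h3 : e.toLinearEquiv (subRep σ U hU g u) = τ g (e.toLinearEquiv u) :=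
      Representation.IntertwiningMap.isIntertwining _ _ e.toIntertwiningMap g u
    rw [← h3]
    simp only [φ, LinearMap.comp_apply, LinearEquiv.coe_coe, LinearEquiv.symm_apply_apply]
    rfl
  have h1 := h _ τ hτ
  apply hU0
  rw [eq_bot_iff]
  intro u hu
  have h2 : D (φ (e.toLinearEquiv ⟨u, hu⟩)) = 0 := by
    have := congrArg (fun S : Hm τ σ →ₗ[ℂ] Hm τ σ => ((S ⟨φ, hφ⟩ : Hm τ σ) : _ →ₗ[ℂ] V) (e.toLinearEquiv ⟨u, hu⟩)) h1
    exact this
  have h3 : φ (e.toLinearEquiv ⟨u, hu⟩) = u := by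
    simp only [φ, LinearMap.comp_apply, LinearEquiv.coe_coe, LinearEquiv.symm_apply_apply]
    rfl
  rw [h3] at h2
  have h4 : u ∈ LinearMap.ker D ⊓ C := ⟨h2, hUC hu⟩
  rw [hCc.inf_eq_bot] at h4
  exact h4

/-- if all multiplicities are at most one, the commutant is commutative -/
theorem comm_of_mult (σ : Representation ℂ G V)
    (h : ∀ (n : ℕ) (ρ : Representation ℂ G (Fin n → ℂ)), ρ.IsIrreducible → Module.finrank ℂ (Hm ρ σ) ≤ 1)
    {A B : V →ₗ[ℂ] V} (hA : Eqv σ A) (hB : Eqv σ B) : A ∘ₗ B = B ∘ₗ A := by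
  have h1 : A ∘ₗ B - B ∘ₗ A = 0 := by
    apply eq_zero_of_T σ ((hA.comp hB).sub (hB.comp hA))
    intro n ρ hρ
    have h2 := h n ρ hρ
    have h3 : T ρ σ hA ∘ₗ T ρ σ hB = T ρ σ hB ∘ₗ T ρ σ hA := by
      obtain ⟨v, hv⟩ := finrank_le_one_iff.1 h2
      apply LinearMap.ext
      intro w
      obtain ⟨a, ha⟩ := hv (T ρ σ hA v)
      obtain ⟨b, hb⟩ := hv (T ρ σ hB v)
      obtain ⟨c, rfl⟩ := hv w
      have e1 : T ρ σ hA (T ρ σ hB (c • v)) = c • b • a • v := by
        rw [map_smul, map_smul, ← hb, map_smul, ← ha]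
      have e2 : T ρ σ hB (T ρ σ hA (c • v)) = c • a • b • v := by
        rw [map_smul, map_smul, ← ha, map_smul, ← hb]
      rw [LinearMap.comp_apply, LinearMap.comp_apply, e1, e2, smul_comm a b]
    apply LinearMap.ext
    intro φ
    apply Subtype.ext
    apply LinearMap.ext
    intro w
    have h4 := congrArg (fun S : Hm ρ σ →ₗ[ℂ] Hm ρ σ => ((S φ : Hm ρ σ) : _ →ₗ[ℂ] V) w) h3
    change A (B _) - B (A _) = 0
    rw [sub_eq_zero]
    exact h4
  exact sub_eq_zero.1 h1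

/-- equivariant left inverses of equivariant maps out of an irreducible representation -/
theorem exists_left_inverse (ρ : Representation ℂ G W) (σ : Representation ℂ G V) (hρ : ρ.IsIrreducible) (φ : W →ₗ[ℂ] V)
    (hφ : φ ∈ Hm ρ σ) (h0 : φ ≠ 0) : ∃ ψ : V →ₗ[ℂ] W, ψ ∈ Hm σ ρ ∧ ψ ∘ₗ φ = LinearMap.id := by
  classical
  have hN : (Nat.card G : ℂ) ≠ 0 := card_cast_ne_zero
  have hinj : LinearMap.ker φ = ⊥ := by
    rcases (irrep_iff ρ).1 hρ |>.2 (LinearMap.ker φ) (fun g v hv => by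
      rw [LinearMap.mem_ker] at hv ⊢
      rw [hφ, hv, map_zero]) with h | h
    · exact h
    · exact absurd (LinearMap.ker_eq_top.1 h) h0
  obtain ⟨L, hL⟩ := LinearMap.exists_leftInverse_of_injective φ hinj
  let ψ : V →ₗ[ℂ] W := (Nat.card G : ℂ)⁻¹ • ∑ g : G, (ρ g⁻¹) ∘ₗ L ∘ₗ (σ g)
  have hψ : ∀ v, ψ v = (Nat.card G : ℂ)⁻¹ • ∑ g : G, ρ g⁻¹ (L (σ g v)) := by
    intro v
    simp only [ψ, LinearMap.smul_apply, LinearMap.sum_apply, LinearMap.comp_apply]
  refine ⟨ψ, ?_, ?_⟩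
  · intro h v
    rw [hψ, hψ, map_smul, map_sum]
    congr 1
    rw [← Equiv.sum_comp (Equiv.mulRight h⁻¹)]
    apply Finset.sum_congr rfl
    intro g _
    rw [Equiv.coe_mulRight, mul_inv_rev, inv_inv, map_mul, Module.End.mul_apply]
    congr 3
    rw [← Module.End.mul_apply, ← map_mul]
    congr 2
    group
  · apply LinearMap.ext
    intro w
    rw [LinearMap.comp_apply, hψ, LinearMap.id_apply]
    have h3 : ∀ g : G, ρ g⁻¹ (L (σ g (φ w))) = w := by
      intro g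
      rw [← hφ g w]
      have h4 : L (φ (ρ g w)) = ρ g w := congrArg (fun S : W →ₗ[ℂ] W => S (ρ g w)) hL
      rw [h4, ← Module.End.mul_apply, ← map_mul, inv_mul_cancel, map_one, Module.End.one_apply]
    simp only [h3]
    rw [Finset.sum_const, Finset.card_univ, ← Nat.card_eq_fintype_card, ← Nat.cast_smul_eq_nsmul ℂ, smul_smul,
      inv_mul_cancel₀ hN, one_smul]

/-- if the commutant is commutative, all multiplicities are at most one -/
theorem mult_of_comm (σ : Representation ℂ G V) (h : ∀ A B : V →ₗ[ℂ] V, Eqv σ A → Eqv σ B → A ∘ₗ B = B ∘ₗ A)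
    (ρ : Representation ℂ G W) (hρ : ρ.IsIrreducible) : Module.finrank ℂ (Hm ρ σ) ≤ 1 := by
  by_contra hlt
  push Not at hlt
  obtain ⟨hnt, -⟩ := (irrep_iff ρ).1 hρ
  haveI : Nontrivial (Hm ρ σ) := Module.nontrivial_of_finrank_pos (R := ℂ) (by omega)
  obtain ⟨⟨φ, hφ⟩, hφ0⟩ := exists_ne (0 : Hm ρ σ)
  have hφ0' : φ ≠ 0 := fun h1 => hφ0 (Subtype.ext h1)
  obtain ⟨ψ, hψ, hψφ⟩ := exists_left_inverse ρ σ hρ φ hφ hφ0'
  obtain ⟨⟨φ', hφ'⟩, hne⟩ : ∃ φ' : Hm ρ σ, ∀ c : ℂ, c • (⟨φ, hφ⟩ : Hm ρ σ) ≠ φ' := by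
    by_contra hcon
    push Not at hcon
    have := finrank_le_one (⟨φ, hφ⟩ : Hm ρ σ) hcon
    omega
  obtain ⟨c, hc⟩ := schur ρ hρ (ψ ∘ₗ φ') (fun g v => by
    rw [LinearMap.comp_apply, LinearMap.comp_apply, hφ', hψ])
  have h1 : Eqv σ (φ ∘ₗ ψ) := fun g v => by rw [LinearMap.comp_apply, LinearMap.comp_apply, hψ, hφ]
  have h2 : Eqv σ ((φ' - c • φ) ∘ₗ ψ) := fun g v => by
    rw [LinearMap.comp_apply, LinearMap.comp_apply, hψ, LinearMap.sub_apply, LinearMap.sub_apply, LinearMap.smul_apply,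
      LinearMap.smul_apply, hφ, hφ', map_sub, map_smul]
  have h3 := h _ _ h1 h2
  apply hne c
  apply Subtype.ext
  apply LinearMap.ext
  intro w
  have h4 := congrArg (fun S : V →ₗ[ℂ] V => S (φ w)) h3
  have h5 : ∀ w, ψ (φ w) = w := fun w => congrArg (fun S : W →ₗ[ℂ] W => S w) hψφ
  have h6 : ∀ w, ψ (φ' w) = c • w := fun w => congrArg (fun S : W →ₗ[ℂ] W => S w) hc
  simp only [LinearMap.comp_apply, LinearMap.sub_apply, LinearMap.smul_apply, h5, h6, map_sub, map_smul, sub_self, map_zero] at h4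
  change c • φ w = φ' w
  exact (sub_eq_zero.1 h4.symm).symm

end rep

end Cfsg.Agent.H9.Comm
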