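import Mathlib
import Cfsg.Agent.H9_Comm

/-!
# Orbital matrices of transitive permutation groups
-/

set_option autoImplicit false

namespace Cfsg.Agent.H9.Comm

open Cfsg Cfsg.Agent.H3.CharIrr Cfsg.Agent.H3.CharComplete

variable {G : Type*} [Group G] {Ω : Type*} [Fintype Ω] [MulAction G Ω]

/-- the permutation character -/
noncomputable abbrev pch (G : Type*) [Group G] (Ω : Type*) [MulAction G Ω] : G → ℂ :=
  fun g : G => (Nat.card (MulAction.fixedBy Ω g) : ℂ)

theorem pch_eq : pch G Ω = (Cfsg.permRep ℂ G Ω).character := by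
  funext g
  exact (Cfsg.Agent.H3.CharPerm.permRep_character g).symm

/-- integral kernels -/
noncomputable def kop (a : Ω → Ω → ℤ) : (Ω → ℂ) →ₗ[ℂ] (Ω → ℂ) where
  toFun f x := ∑ y, (a x y : ℂ) * f y
  map_add' f g := by
    funext x
    simp [mul_add, Finset.sum_add_distrib]
  map_smul' c f := by
    funext x
    simp only [Pi.smul_apply, smul_eq_mul, RingHom.id_apply, Finset.mul_sum]
    exact Finset.sum_congr rfl fun y _ => by ring

theorem kop_apply (a : Ω → Ω → ℤ) (f : Ω → ℂ) (x : Ω) : kop a f x = ∑ y, (a x y : ℂ) * f y := rfl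

theorem kop_eqv {a : Ω → Ω → ℤ} (ha : ∀ (g : G) x y, a (g • x) (g • y) = a x y) : Eqv (Cfsg.permRep ℂ G Ω) (kop a) := by
  intro g f
  funext x
  change ∑ y, (a x y : ℂ) * f (g⁻¹ • y) = ∑ y, (a (g⁻¹ • x) y : ℂ) * f y
  rw [← Equiv.sum_comp (MulAction.toPerm g) (fun y => (a x y : ℂ) * f (g⁻¹ • y))]
  apply Finset.sum_congr rfl
  intro y _
  change (a x (g • y) : ℂ) * f (g⁻¹ • g • y) = _
  rw [inv_smul_smul, ← ha g (g⁻¹ • x) y, smul_inv_smul]

theorem kop_poly (a : Ω → Ω → ℤ) : ∃ P : Polynomial ℤ, P.Monic ∧ Polynomial.aeval (kop a) P = 0 := by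
  classical
  refine ⟨(Matrix.of a).charpoly, Matrix.charpoly_monic _, ?_⟩
  have h1 : kop a = Matrix.toLin' ((Matrix.of a).map (Int.castRingHom ℂ)) := by
    apply LinearMap.ext
    intro f
    funext x
    rw [kop_apply, Matrix.toLin'_apply]
    rfl
  have h2 : Polynomial.aeval (kop a) (Matrix.of a).charpoly =
      Polynomial.aeval (kop a) ((Matrix.of a).charpoly.map (Int.castRingHom ℂ)) := by
    rw [← algebraMap_int_eq, Polynomial.aeval_map_algebraMap]
  rw [h2, ← Matrix.charpoly_map, h1]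
  have h3 := Polynomial.aeval_algHom_apply (Matrix.toLinAlgEquiv' (R := ℂ) (n := Ω)).toAlgHom
    ((Matrix.of a).map (Int.castRingHom ℂ)) ((Matrix.of a).map (Int.castRingHom ℂ)).charpoly
  rw [Matrix.aeval_self_charpoly, map_zero] at h3
  exact h3

theorem trace_kop [DecidableEq Ω] (a : Ω → Ω → ℤ) (g : G) :
    LinearMap.trace ℂ (Ω → ℂ) (kop a ∘ₗ Cfsg.permRep ℂ G Ω g) = ∑ x, (a x (g • x) : ℂ) := by
  rw [LinearMap.trace_eq_matrix_trace ℂ (Pi.basisFun ℂ Ω), Matrix.trace]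
  apply Finset.sum_congr rfl
  intro x _
  rw [Matrix.diag, LinearMap.toMatrix_apply, Pi.basisFun_repr, Pi.basisFun_apply, LinearMap.comp_apply, kop_apply]
  rw [Finset.sum_eq_single (g • x)]
  · have : Cfsg.permRep ℂ G Ω g (Pi.single x 1) (g • x) = 1 := by
      change (Pi.single x (1 : ℂ) : Ω → ℂ) (g⁻¹ • g • x) = 1
      rw [inv_smul_smul, Pi.single_eq_same]
    rw [this, mul_one]
  · intro y _ hy
    have : Cfsg.permRep ℂ G Ω g (Pi.single x 1) y = 0 := by
      change (Pi.single x (1 : ℂ) : Ω → ℂ) (g⁻¹ • y) = 0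
      rw [Pi.single_eq_of_ne]
      intro h
      apply hy
      rw [← h, smul_inv_smul]
    rw [this, mul_zero]
  · intro h; exact absurd (Finset.mem_univ _) h

/-- the class function of a kernel -/
noncomputable def fk (G : Type*) [Group G] {Ω : Type*} [Fintype Ω] [MulAction G Ω] (a : Ω → Ω → ℤ) : G → ℂ :=
  fun g => ∑ x, (a x (g • x) : ℂ)

theorem fk_eq (a : Ω → Ω → ℤ) : fk G a = fun g => LinearMap.trace ℂ (Ω → ℂ) (kop a ∘ₗ Cfsg.permRep ℂ G Ω g) := by
  classical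
  funext g
  rw [trace_kop]
  rfl

theorem fk_class {a : Ω → Ω → ℤ} (ha : ∀ (g : G) x y, a (g • x) (g • y) = a x y) : IsClassFunction G (fk G a) := by
  intro g h
  unfold fk
  rw [← Equiv.sum_comp (MulAction.toPerm h)]
  apply Finset.sum_congr rfl
  intro x _
  change (a (h • x) ((h * g * h⁻¹) • h • x) : ℂ) = _
  rw [mul_smul, mul_smul, inv_smul_smul, ha]

variable [Fintype G]

theorem sum_smul [MulAction.IsPretransitive G Ω] (F : Ω → ℂ) (x : Ω) :
    (Fintype.card Ω : ℂ) * ∑ g : G, F (g • x) = (Nat.card G : ℂ) * ∑ y, F y := by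
  have h1 : ∀ x' : Ω, ∑ g : G, F (g • x') = ∑ g : G, F (g • x) := by
    intro x'
    obtain ⟨h, rfl⟩ := MulAction.exists_smul_eq G x x'
    rw [← Equiv.sum_comp (Equiv.mulRight h) (fun g => F (g • x))]
    apply Finset.sum_congr rfl
    intro g _
    rw [Equiv.coe_mulRight, mul_smul]
  calc (Fintype.card Ω : ℂ) * ∑ g : G, F (g • x) = ∑ x' : Ω, ∑ g : G, F (g • x') := by
        rw [Finset.sum_congr rfl fun x' _ => h1 x', Finset.sum_const, Finset.card_univ, nsmul_eq_mul]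
    _ = ∑ g : G, ∑ x' : Ω, F (g • x') := Finset.sum_comm
    _ = ∑ g : G, ∑ y : Ω, F y := by
        apply Finset.sum_congr rfl
        intro g _
        exact Equiv.sum_comp (MulAction.toPerm g) F
    _ = _ := by rw [Finset.sum_const, Finset.card_univ, nsmul_eq_mul, Nat.card_eq_fintype_card]

theorem inner_triv [MulAction.IsPretransitive G Ω] [Nonempty Ω] {a : Ω → Ω → ℤ} {k : ℕ} (hk : ∀ x, ∑ y, a x y = k) :
    classInner (fk G a) (fun _ => 1) = k := by
  have hN : (Nat.card G : ℂ) ≠ 0 := card_cast_ne_zero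
  have hn : (Fintype.card Ω : ℂ) ≠ 0 := by exact_mod_cast Fintype.card_ne_zero
  unfold classInner
  simp only [map_one, mul_one]
  unfold fk
  rw [Finset.sum_comm]
  have h1 : ∀ x : Ω, ∑ g : G, (a x (g • x) : ℂ) = (Fintype.card Ω : ℂ)⁻¹ * ((Nat.card G : ℂ) * k) := by
    intro x
    have h2 := sum_smul (G := G) (fun y => (a x y : ℂ)) x
    have h3 : ∑ y, (a x y : ℂ) = k := by exact_mod_cast hk x
    rw [h3] at h2
    rw [← h2, ← mul_assoc, inv_mul_cancel₀ hn, one_mul]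
  rw [Finset.sum_congr rfl fun x _ => h1 x, Finset.sum_const, Finset.card_univ, nsmul_eq_mul]
  field_simp

theorem pch_eq_fk [DecidableEq Ω] : pch G Ω = fk G (fun x y : Ω => if x = y then 1 else 0) := by
  funext g
  unfold fk
  simp only [Int.cast_ite, Int.cast_one, Int.cast_zero]
  rw [Finset.sum_ite, Finset.sum_const_zero, add_zero, Finset.sum_const, nsmul_eq_mul, mul_one]
  change (Nat.card (MulAction.fixedBy Ω g) : ℂ) = _
  congr 1
  rw [Nat.card_eq_fintype_card, Fintype.card_of_subtype]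
  intro x
  rw [Finset.mem_filter, MulAction.mem_fixedBy]
  exact ⟨fun h => h.2.symm, fun h => ⟨Finset.mem_univ _, h.symm⟩⟩

theorem pch_triv [MulAction.IsPretransitive G Ω] [Nonempty Ω] : classInner (pch G Ω) (fun _ => 1) = 1 := by
  classical
  rw [pch_eq_fk, inner_triv (k := 1), Nat.cast_one]
  intro x
  rw [Finset.sum_ite_eq]
  simp

theorem isIntegral_inner_fk {a : Ω → Ω → ℤ} (ha : ∀ (g : G) x y, a (g • x) (g • y) = a x y) {χ : G → ℂ}
    (hχ : IsIrrCharacter G χ) : IsIntegral ℤ (classInner (fk G a) χ) := by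
  obtain ⟨n, ρ, hρ, rfl⟩ := hχ
  obtain ⟨P, hP, hPa⟩ := kop_poly a
  rw [fk_eq]
  exact isIntegral_inner ρ _ (kop_eqv ha) P hP hPa

theorem inner_fk_zero {a : Ω → Ω → ℤ} (ha : ∀ (g : G) x y, a (g • x) (g • y) = a x y) {χ : G → ℂ}
    (hχ : IsIrrCharacter G χ) (h0 : classInner (pch G Ω) χ = 0) : classInner (fk G a) χ = 0 := by
  obtain ⟨n, ρ, hρ, rfl⟩ := hχ
  rw [pch_eq, ← finrank_Hm] at h0
  have h1 : Module.finrank ℂ (Hm ρ (Cfsg.permRep ℂ G Ω)) = 0 := by exact_mod_cast h0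
  rw [fk_eq, ← trace_T ρ _ (kop_eqv ha)]
  have h3 := Submodule.finrank_eq_zero.1 h1
  have h2 : T ρ (Cfsg.permRep ℂ G Ω) (kop_eqv ha) = 0 := by
    apply LinearMap.ext
    intro v
    have h4 : (T ρ (Cfsg.permRep ℂ G Ω) (kop_eqv ha) v : _ →ₗ[ℂ] (Ω → ℂ)) ∈ Hm ρ (Cfsg.permRep ℂ G Ω) :=
      (T ρ (Cfsg.permRep ℂ G Ω) (kop_eqv ha) v).2
    exact Subtype.ext ((Submodule.mem_bot ℂ).1 (h3.le h4))
  rw [h2, map_zero]

open Classical in
/-- the orbital kernel -/
noncomputable def orb (G : Type*) [Group G] {Ω : Type*} [MulAction G Ω] (u v : Ω) : Ω → Ω → ℤ :=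
  fun x y => if ∃ g : G, g • u = x ∧ g • v = y then 1 else 0

theorem orb_eqv (u v : Ω) (g : G) (x y : Ω) : orb G u v (g • x) (g • y) = orb G u v x y := by
  unfold orb
  congr 1
  apply propext
  constructor
  · rintro ⟨h, h1, h2⟩
    exact ⟨g⁻¹ * h, by rw [mul_smul, h1, inv_smul_smul], by rw [mul_smul, h2, inv_smul_smul]⟩
  · rintro ⟨h, h1, h2⟩
    exact ⟨g * h, by rw [mul_smul, h1], by rw [mul_smul, h2]⟩

theorem orb_row [MulAction.IsPretransitive G Ω] (u v x : Ω) :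
    ∑ y, orb G u v x y = (Nat.card (MulAction.orbit (MulAction.stabilizer G u) v) : ℤ) := by
  classical
  have key : ∀ (p : Ω → Prop) [DecidablePred p], ∑ y, (if p y then (1 : ℤ) else 0) = (Nat.card {y // p y} : ℤ) := by
    intro p _
    rw [Finset.sum_ite, Finset.sum_const_zero, add_zero, Finset.sum_const, nsmul_eq_mul, mul_one]
    rw [← Fintype.card_subtype, ← Nat.card_eq_fintype_card]
  unfold orb
  refine (@key (fun y => ∃ g : G, g • u = x ∧ g • v = y) (fun _ => Classical.propDecidable _)).trans ?_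
  congr 1
  obtain ⟨h, rfl⟩ := MulAction.exists_smul_eq G u x
  symm
  apply Nat.card_congr
  refine Equiv.subtypeEquiv (MulAction.toPerm h) ?_
  intro y
  change y ∈ MulAction.orbit (MulAction.stabilizer G u) v ↔ ∃ g : G, g • u = h • u ∧ g • v = h • y
  constructor
  · rintro ⟨⟨s, hs⟩, rfl⟩
    exact ⟨h * s, by rw [mul_smul]; congr 1, by rw [mul_smul]; rfl⟩
  · rintro ⟨g, h1, h2⟩
    refine ⟨⟨h⁻¹ * g, ?_⟩, ?_⟩
    · rw [MulAction.mem_stabilizer_iff, mul_smul, h1, inv_smul_smul]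
    · change (h⁻¹ * g) • v = y
      rw [mul_smul, h2, inv_smul_smul]

theorem fk_orb_one {u v : Ω} (huv : u ≠ v) : fk G (orb G u v) 1 = 0 := by
  unfold fk
  apply Finset.sum_eq_zero
  intro x _
  rw [one_smul]
  unfold orb
  rw [if_neg]
  · simp
  · rintro ⟨g, h1, h2⟩
    exact huv (MulAction.injective g (h1.trans h2.symm))

end Cfsg.Agent.H9.Comm
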