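import Cfsg.Statements.S0715
import Mathlib
import Cfsg.Agent.H9_Comm2
import Cfsg.Agent.H3_CharInt
import Cfsg.Agent.H10_BlockKer

set_option autoImplicit false
open Cfsg

namespace Cfsg.Agent.S0715

open Cfsg.Agent.H9.Comm Cfsg.Agent.H3.CharIrr Cfsg.Agent.H3.CharComplete Cfsg.Agent.H10.BlockKer

/-- If a natural number `f` divides the degree of every non-principal irreducible constituent of the permutation character of a transitive group, then `f` divides every non-trivial subdegree. -/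
theorem result {G : Type*} [Group G] [Fintype G] {Ω : Type*} [Fintype Ω] [MulAction G Ω] [MulAction.IsPretransitive G Ω] (f : ℕ) (hf : ∀ χ : G → ℂ, Cfsg.IsIrrCharacter G χ → χ ≠ (fun _ => 1) → Cfsg.classInner (fun g : G => (Nat.card (MulAction.fixedBy Ω g) : ℂ)) χ ≠ 0 → ∃ m : ℕ, χ 1 = (f : ℂ) * m) (a b : Ω) (hab : b ≠ a) : f ∣ Nat.card (MulAction.orbit (MulAction.stabilizer G a) b) := by
  classical
  haveI : Nonempty Ω := ⟨a⟩
  haveI : Fintype (IrrCharacter G) := Fintype.ofFinite _
  have h1 := expand_apply (fk G (orb G a b)) (fk_class (orb_eqv a b)) 1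
  rw [fk_orb_one hab.symm, ← Finset.add_sum_erase _ _ (Finset.mem_univ (triv G))] at h1
  have h2 : classInner (fk G (orb G a b)) ((triv G : IrrCharacter G) : G → ℂ) =
      (Nat.card (MulAction.orbit (MulAction.stabilizer G a) b) : ℂ) := inner_triv (orb_row a b)
  rw [h2, triv_coe, mul_one] at h1
  have h3 : ∀ χ : IrrCharacter G, χ ∈ Finset.univ.erase (triv G) → ∃ z : ℂ, IsIntegral ℤ z ∧
      classInner (fk G (orb G a b)) (χ : G → ℂ) * (χ : G → ℂ) 1 = f * z := by
    intro χ hχ
    by_cases h0 : classInner (pch G Ω) (χ : G → ℂ) = 0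
    · exact ⟨0, isIntegral_zero, by rw [inner_fk_zero (orb_eqv a b) χ.2 h0]; ring⟩
    · obtain ⟨m, hm⟩ := hf χ χ.2 (fun h => (Finset.ne_of_mem_erase hχ) (Subtype.ext h)) h0
      exact ⟨classInner (fk G (orb G a b)) (χ : G → ℂ) * m, (isIntegral_inner_fk (orb_eqv a b) χ.2).mul
        (isIntegral_algebraMap (x := (m : ℤ)) |> fun h => by simpa using h), by rw [hm]; ring⟩
  choose! z hz1 hz2 using h3
  rw [Finset.sum_congr rfl hz2, ← Finset.mul_sum] at h1
  set S := ∑ χ ∈ Finset.univ.erase (triv G), z χ with hS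
  have hSi : IsIntegral ℤ S := IsIntegral.sum _ hz1
  have h4 : (Nat.card (MulAction.orbit (MulAction.stabilizer G a) b) : ℂ) = f * (-S) := by linear_combination -h1
  by_cases hf0 : f = 0
  · rw [hf0] at h4 ⊢
    rw [Nat.cast_zero, zero_mul] at h4
    rw [zero_dvd_iff]
    exact_mod_cast h4
  · apply Cfsg.Agent.H3.CharInt.dvd_of_isIntegral_div hf0
    have hf0' : (f : ℂ) ≠ 0 := by exact_mod_cast hf0
    rw [h4, mul_div_cancel_left₀ _ hf0']
    exact hSi.neg

end Cfsg.Agent.S0715
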