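import Mathlib
import Cfsg.Agent.H9_Comm2
import Cfsg.Agent.H3_CharInt
import Cfsg.Agent.H3_CharPerm2
import Cfsg.Agent.H10_BlockKer
import Cfsg.Agent.S0715

/-!
# Rank and multiplicities
-/

set_option autoImplicit false

namespace Cfsg.Agent.H9.Comm

open Cfsg Cfsg.Agent.H3.CharIrr Cfsg.Agent.H3.CharComplete Cfsg.Agent.H10.BlockKer

variable {G : Type*} [Group G] {Ω : Type*} [Fintype Ω] [MulAction G Ω]

theorem rank_eq [MulAction.IsPretransitive G Ω] (a : Ω) :
    Nat.card (MulAction.orbitRel.Quotient (MulAction.stabilizer G a) Ω) = Nat.card (Quotient (MulAction.orbitRel G (Ω × Ω))) := by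
  let F : MulAction.orbitRel.Quotient (MulAction.stabilizer G a) Ω → Quotient (MulAction.orbitRel G (Ω × Ω)) :=
    Quotient.map' (s₁ := MulAction.orbitRel (MulAction.stabilizer G a) Ω) (s₂ := MulAction.orbitRel G (Ω × Ω))
      (fun b => ((a, b) : Ω × Ω)) (by
        intro b c h
        rw [MulAction.orbitRel_apply] at h
        obtain ⟨g, hg⟩ := h
        change MulAction.orbitRel G (Ω × Ω) (a, b) (a, c)
        rw [MulAction.orbitRel_apply]
        exact ⟨g, Prod.ext g.2 hg⟩)
  apply Nat.card_congr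
  refine Equiv.ofBijective F ⟨?_, ?_⟩
  · intro x y
    induction x using Quotient.inductionOn'
    induction y using Quotient.inductionOn'
    rename_i b c
    intro h
    have h1 : MulAction.orbitRel G (Ω × Ω) (a, b) (a, c) := Quotient.exact h
    rw [MulAction.orbitRel_apply] at h1
    obtain ⟨g, hg⟩ := h1
    apply Quotient.sound'
    rw [MulAction.orbitRel_apply]
    exact ⟨⟨g, congrArg Prod.fst hg⟩, congrArg Prod.snd hg⟩
  · intro y
    induction y using Quotient.inductionOn'
    rename_i b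
    obtain ⟨u, v⟩ := b
    obtain ⟨g, hg⟩ := MulAction.exists_smul_eq G u a
    refine ⟨Quotient.mk'' (g • v), ?_⟩
    apply Quotient.sound
    change MulAction.orbitRel G (Ω × Ω) (a, g • v) (u, v)
    rw [MulAction.orbitRel_apply]
    exact ⟨g, Prod.ext hg rfl⟩

variable [Fintype G]

/-- the multiplicity as a natural number -/
theorem exists_mult (χ : IrrCharacter G) : ∃ m : ℕ, classInner (pch G Ω) (χ : G → ℂ) = m := by
  obtain ⟨n, ρ, hρ, hχ⟩ := χ.2
  exact ⟨_, by rw [← hχ, pch_eq, ← finrank_Hm]⟩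

/-- the multiplicity as a natural number -/
noncomputable def ml (G : Type*) [Group G] [Fintype G] (Ω : Type*) [Fintype Ω] [MulAction G Ω] (χ : IrrCharacter G) : ℕ :=
  (exists_mult (Ω := Ω) χ).choose

theorem ml_spec (χ : IrrCharacter G) : classInner (pch G Ω) (χ : G → ℂ) = ml G Ω χ :=
  (exists_mult (Ω := Ω) χ).choose_spec

theorem rank_sum [Fintype (IrrCharacter G)] [MulAction.IsPretransitive G Ω] (a : Ω) :
    ∑ χ : IrrCharacter G, ml G Ω χ ^ 2 = Nat.card (MulAction.orbitRel.Quotient (MulAction.stabilizer G a) Ω) := by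
  have h1 := Cfsg.Agent.H3.CharPerm2.ci_perm_perm (G := G) Ω Ω
  rw [← rank_eq a] at h1
  have h2 := ci_eq_sum (pch G Ω) (pch G Ω) (by
    rw [pch_eq]
    exact IsChar.isClass (isCharacter_of_rep _))
  have h3 : classInner (pch G Ω) (pch G Ω) = (Nat.card (MulAction.orbitRel.Quotient (MulAction.stabilizer G a) Ω) : ℂ) := h1
  rw [h3] at h2
  simp only [ml_spec] at h2
  have h4 : ((∑ χ : IrrCharacter G, ml G Ω χ ^ 2 : ℕ) : ℂ) =
      (Nat.card (MulAction.orbitRel.Quotient (MulAction.stabilizer G a) Ω) : ℂ) := by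
    rw [h2]
    push_cast
    apply Finset.sum_congr rfl
    intro χ _
    simp [sq]
  exact_mod_cast h4

theorem degree_sum [Fintype (IrrCharacter G)] : ∑ χ : IrrCharacter G, (ml G Ω χ : ℂ) * (χ : G → ℂ) 1 = Fintype.card Ω := by
  have h1 := expand_apply (pch G Ω) (by
    rw [pch_eq]
    exact IsChar.isClass (isCharacter_of_rep _)) 1
  simp only [ml_spec] at h1
  rw [← h1, ← Nat.card_eq_fintype_card]
  change (Nat.card (MulAction.fixedBy Ω (1 : G)) : ℂ) = _
  congr 1
  apply Nat.card_congr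
  exact ⟨fun x => x.1, fun x => ⟨x, one_smul _ _⟩, fun x => rfl, fun x => rfl⟩

theorem ml_triv [MulAction.IsPretransitive G Ω] [Nonempty Ω] : ml G Ω (triv G) = 1 := by
  have h := ml_spec (Ω := Ω) (triv G)
  have h1 : classInner (pch G Ω) ((triv G : IrrCharacter G) : G → ℂ) = 1 := pch_triv
  rw [h1] at h
  exact_mod_cast h.symm

open Classical in
theorem sum_orbits (H : Subgroup G) [Fintype (MulAction.orbitRel.Quotient H Ω)] :
    ∑ ω : MulAction.orbitRel.Quotient H Ω, Nat.card ω.orbit = Fintype.card Ω := by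
  classical
  rw [← Nat.card_eq_fintype_card, Nat.card_congr (MulAction.selfEquivSigmaOrbits' H Ω), Nat.card_sigma]

theorem equal_degrees [MulAction.IsPretransitive G Ω] (a : Ω) (f : ℕ)
    (hf : ∀ χ : IrrCharacter G, χ ≠ triv G → ml G Ω χ ≠ 0 → (χ : G → ℂ) 1 = f) :
    (∀ χ : IrrCharacter G, ml G Ω χ = 0 ∨ ml G Ω χ = 1) ∧
      ∀ b : Ω, b ≠ a → Nat.card (MulAction.orbit (MulAction.stabilizer G a) b) = f := by
  classical
  haveI : Nonempty Ω := ⟨a⟩
  haveI : Fintype (IrrCharacter G) := Fintype.ofFinite _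
  haveI : Fintype (MulAction.orbitRel.Quotient (MulAction.stabilizer G a) Ω) := Fintype.ofFinite _
  have hr := rank_sum (G := G) a
  have hd := degree_sum (G := G) (Ω := Ω)
  have ho := sum_orbits (Ω := Ω) (MulAction.stabilizer G a)
  set q : MulAction.orbitRel.Quotient (MulAction.stabilizer G a) Ω := Quotient.mk'' a with hq
  have hqo : Nat.card q.orbit = 1 := by
    rw [hq, MulAction.orbitRel.Quotient.orbit_mk, Nat.card_coe_set_eq, Set.ncard_eq_one]
    refine ⟨a, ?_⟩
    ext y
    constructor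
    · rintro ⟨g, rfl⟩
      exact g.2
    · rintro rfl
      exact MulAction.mem_orbit_self _
  rw [← Finset.add_sum_erase _ _ (Finset.mem_univ (triv G)), ml_triv] at hr hd
  rw [triv_coe] at hd
  rw [← Finset.add_sum_erase _ _ (Finset.mem_univ q), hqo] at ho
  have hd' : ((1 + f * ∑ χ ∈ Finset.univ.erase (triv G), ml G Ω χ : ℕ) : ℂ) = (Fintype.card Ω : ℂ) := by
    rw [← hd]
    push_cast
    rw [Finset.mul_sum, mul_one]
    congr 1
    apply Finset.sum_congr rfl
    intro χ hχ
    by_cases h0 : ml G Ω χ = 0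
    · rw [h0]; simp
    · rw [hf χ (Finset.ne_of_mem_erase hχ) h0]; ring
  have hd2 : 1 + f * ∑ χ ∈ Finset.univ.erase (triv G), ml G Ω χ = Fintype.card Ω := by exact_mod_cast hd'
  have hsub : ∀ b : Ω, b ≠ a → f ∣ Nat.card (MulAction.orbit (MulAction.stabilizer G a) b) := by
    intro b hb
    apply Cfsg.Agent.S0715.result f _ a b hb
    intro χ hχ hχ1 hχ2
    refine ⟨1, ?_⟩
    rw [Nat.cast_one, mul_one]
    apply hf ⟨χ, hχ⟩ (fun h => hχ1 (congrArg Subtype.val h))
    intro h0
    apply hχ2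
    have := ml_spec (Ω := Ω) (⟨χ, hχ⟩ : IrrCharacter G)
    rw [h0, Nat.cast_zero] at this
    exact this
  have hpos : ∀ b : Ω, 0 < Nat.card (MulAction.orbit (MulAction.stabilizer G a) b) := by
    intro b
    haveI : Nonempty (MulAction.orbit (MulAction.stabilizer G a) b) := ⟨⟨b, MulAction.mem_orbit_self b⟩⟩
    exact Nat.card_pos
  have hle : ∀ ω ∈ Finset.univ.erase q, f ≤ Nat.card ω.orbit := by
    intro ω hω
    have hne := Finset.ne_of_mem_erase hω
    induction ω using Quotient.inductionOn'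
    rename_i b
    have hba : b ≠ a := by
      rintro rfl
      exact hne rfl
    have e : MulAction.orbitRel.Quotient.orbit (Quotient.mk'' b : MulAction.orbitRel.Quotient (MulAction.stabilizer G a) Ω) =
        MulAction.orbit (MulAction.stabilizer G a) b := MulAction.orbitRel.Quotient.orbit_mk b
    rw [e]
    exact Nat.le_of_dvd (hpos b) (hsub b hba)
  have hcard : (Finset.univ.erase q).card = ∑ χ ∈ Finset.univ.erase (triv G), ml G Ω χ ^ 2 := by
    rw [Finset.card_erase_of_mem (Finset.mem_univ _), Finset.card_univ, ← Nat.card_eq_fintype_card, ← hr]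
    simp
  have h1 : f * ∑ χ ∈ Finset.univ.erase (triv G), ml G Ω χ ^ 2 ≤ f * ∑ χ ∈ Finset.univ.erase (triv G), ml G Ω χ := by
    have h2 : ∑ ω ∈ Finset.univ.erase q, f ≤ ∑ ω ∈ Finset.univ.erase q, Nat.card ω.orbit := Finset.sum_le_sum hle
    rw [Finset.sum_const, smul_eq_mul, hcard] at h2
    rw [mul_comm]
    omega
  have h3 : ∑ χ ∈ Finset.univ.erase (triv G), ml G Ω χ ^ 2 = ∑ χ ∈ Finset.univ.erase (triv G), ml G Ω χ := by
    rcases Nat.eq_zero_or_pos f with hf0 | hf0
    · apply Finset.sum_congr rfl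
      intro χ hχ
      by_cases h0 : ml G Ω χ = 0
      · rw [h0]; rfl
      · exfalso
        have := hf χ (Finset.ne_of_mem_erase hχ) h0
        rw [hf0, Nat.cast_zero] at this
        exact IsIrr.one_ne_zero χ.2 this
    · apply le_antisymm (Nat.le_of_mul_le_mul_left h1 hf0)
      apply Finset.sum_le_sum
      intro χ _
      exact Nat.le_self_pow two_ne_zero _
  constructor
  · intro χ
    by_cases hχ : χ = triv G
    · right; rw [hχ]; exact ml_triv
    · have h4 := (Finset.sum_eq_sum_iff_of_le (fun χ _ => Nat.le_self_pow two_ne_zero (ml G Ω χ))).1 h3.symm χ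
        (Finset.mem_erase.2 ⟨hχ, Finset.mem_univ _⟩)
      rcases Nat.eq_zero_or_pos (ml G Ω χ) with h5 | h5
      · left; exact h5
      · right
        have h6 : ml G Ω χ * ml G Ω χ = ml G Ω χ * 1 := by rw [mul_one, ← sq]; exact h4.symm
        exact Nat.eq_of_mul_eq_mul_left h5 h6
  · intro b hb
    have h4 : ∑ ω ∈ Finset.univ.erase q, f = ∑ ω ∈ Finset.univ.erase q, Nat.card ω.orbit := by
      rw [Finset.sum_const, smul_eq_mul, hcard, h3, mul_comm]
      omega
    have hne : (Quotient.mk'' b : MulAction.orbitRel.Quotient (MulAction.stabilizer G a) Ω) ≠ q := by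
      intro h
      have h5 : MulAction.orbitRel (MulAction.stabilizer G a) Ω b a := Quotient.exact h
      rw [MulAction.orbitRel_apply] at h5
      obtain ⟨g, hg⟩ := h5
      exact hb (hg.symm.trans g.2)
    have h5 := (Finset.sum_eq_sum_iff_of_le hle).1 h4 _ (Finset.mem_erase.2 ⟨hne, Finset.mem_univ _⟩)
    have e : MulAction.orbitRel.Quotient.orbit (Quotient.mk'' b : MulAction.orbitRel.Quotient (MulAction.stabilizer G a) Ω) =
        MulAction.orbit (MulAction.stabilizer G a) b := MulAction.orbitRel.Quotient.orbit_mk b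
    rw [e] at h5
    exact h5.symm

end Cfsg.Agent.H9.Comm
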