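import Cfsg.Statements.S0717
import Mathlib
import Cfsg.Agent.H9_Comm3
import Cfsg.Agent.H3_FS

set_option autoImplicit false
open Cfsg

namespace Cfsg.Agent.S0717

open Cfsg.Agent.H9.Comm Cfsg.Agent.H3.CharIrr Cfsg.Agent.H3.CharComplete Cfsg.Agent.H10.BlockKer

section
variable {V : Type*} [AddCommGroup V] [Module ℂ V] [FiniteDimensional ℂ V]

theorem eq_of_trace (h : Module.finrank ℂ V ≤ 1) (S T : V →ₗ[ℂ] V)
    (hST : LinearMap.trace ℂ V S = LinearMap.trace ℂ V T) : S = T := by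
  obtain ⟨v, hv⟩ := finrank_le_one_iff.1 h
  obtain ⟨a, ha⟩ := hv (S v)
  obtain ⟨b, hb⟩ := hv (T v)
  have h1 : S = a • LinearMap.id := by
    apply LinearMap.ext
    intro w
    obtain ⟨c, rfl⟩ := hv w
    rw [map_smul, ← ha, LinearMap.smul_apply, LinearMap.id_apply, smul_comm]
  have h2 : T = b • LinearMap.id := by
    apply LinearMap.ext
    intro w
    obtain ⟨c, rfl⟩ := hv w
    rw [map_smul, ← hb, LinearMap.smul_apply, LinearMap.id_apply, smul_comm]
  rw [h1, h2, map_smul, map_smul, LinearMap.trace_id, smul_eq_mul, smul_eq_mul] at hST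
  rcases Nat.eq_zero_or_pos (Module.finrank ℂ V) with h0 | h0
  · haveI := Module.finrank_zero_iff.1 h0
    apply LinearMap.ext
    intro w
    exact Subsingleton.elim _ _
  · have h3 : Module.finrank ℂ V = 1 := by omega
    rw [h3, Nat.cast_one, mul_one, mul_one] at hST
    rw [h1, h2, hST]

end

variable {G : Type*} [Group G] [Fintype G] {Ω : Type*} [Fintype Ω] [MulAction G Ω] [MulAction.IsPretransitive G Ω]

theorem fk_transpose {a : Ω → Ω → ℤ} (g : G) : fk G (fun x y => a y x) g = fk G a g⁻¹ := by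
  unfold fk
  rw [← Equiv.sum_comp (MulAction.toPerm g⁻¹)]
  apply Finset.sum_congr rfl
  intro x _
  change ((a (g • g⁻¹ • x) (g⁻¹ • x) : ℤ) : ℂ) = _
  rw [smul_inv_smul]

theorem backward (h : ∀ χ : IrrCharacter G, ml G Ω χ ≠ 0 → ml G Ω χ = 1 ∧ ∀ g : G, (starRingEnd ℂ) ((χ : G → ℂ) g) = (χ : G → ℂ) g)
    (a b : Ω) : ∃ g : G, g • a = b ∧ g • b = a := by
  classical
  haveI : Nonempty Ω := ⟨a⟩
  have e1 : ∀ (g : G) x y, orb G a b (g • x) (g • y) = orb G a b x y := orb_eqv a b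
  have e2 : ∀ (g : G) x y, (fun x y => orb G a b y x) (g • x) (g • y) = (fun x y => orb G a b y x) x y := fun g x y => orb_eqv a b g y x
  have key : kop (orb G a b) - kop (fun x y => orb G a b y x) = 0 := by
    apply eq_zero_of_T (Cfsg.permRep ℂ G Ω) ((kop_eqv e1).sub (kop_eqv (a := fun x y => orb G a b y x) e2))
    intro n ρ hρ
    let χ : IrrCharacter G := ⟨ρ.character, isIrr_of_rep ρ hρ⟩
    have hm : (Module.finrank ℂ (Hm ρ (Cfsg.permRep ℂ G Ω)) : ℂ) = ml G Ω χ := by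
      rw [finrank_Hm, ← pch_eq]
      exact ml_spec χ
    have hm' : Module.finrank ℂ (Hm ρ (Cfsg.permRep ℂ G Ω)) = ml G Ω χ := by exact_mod_cast hm
    have hle : Module.finrank ℂ (Hm ρ (Cfsg.permRep ℂ G Ω)) ≤ 1 := by
      rw [hm']
      by_cases h0 : ml G Ω χ = 0
      · omega
      · rw [(h χ h0).1]
    have hT : T ρ (Cfsg.permRep ℂ G Ω) (kop_eqv e1) = T ρ (Cfsg.permRep ℂ G Ω) (kop_eqv (a := fun x y => orb G a b y x) e2) := by
      by_cases h0 : ml G Ω χ = 0
      · rw [h0] at hm'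
        apply eq_of_trace (V := Hm ρ (Cfsg.permRep ℂ G Ω)) hle
        have h4 := Submodule.finrank_eq_zero.1 hm'
        have hz : ∀ S : Hm ρ (Cfsg.permRep ℂ G Ω) →ₗ[ℂ] Hm ρ (Cfsg.permRep ℂ G Ω), S = 0 := by
          intro S
          apply LinearMap.ext
          intro v
          exact Subtype.ext ((Submodule.mem_bot ℂ).1 (h4.le (S v).2))
        rw [hz (T ρ (Cfsg.permRep ℂ G Ω) (kop_eqv e1)), hz (T ρ (Cfsg.permRep ℂ G Ω) (kop_eqv (a := fun x y => orb G a b y x) e2))]
      · apply eq_of_trace (V := Hm ρ (Cfsg.permRep ℂ G Ω)) hle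
        rw [trace_T, trace_T, ← fk_eq, ← fk_eq]
        have hreal := (h χ h0).2
        unfold classInner
        congr 1
        rw [← Equiv.sum_comp (Equiv.inv G)]
        apply Finset.sum_congr rfl
        intro g _
        have h6 : fk G (fun x y => orb G a b y x) g = fk G (orb G a b) g⁻¹ := fk_transpose g
        have h5 : (starRingEnd ℂ) ((χ : G → ℂ) g⁻¹) = (starRingEnd ℂ) ((χ : G → ℂ) g) := by
          have h7 := IsChar.inv_eq_conj (IsIrr.isCharacter χ.2) g
          rw [h7, hreal, hreal]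
        rw [Equiv.inv_apply, h6]
        exact congrArg (fun z => fk G (orb G a b) g⁻¹ * z) h5
    apply LinearMap.ext
    intro φ
    apply Subtype.ext
    apply LinearMap.ext
    intro w
    have h4 := congrArg (fun S : Hm ρ (Cfsg.permRep ℂ G Ω) →ₗ[ℂ] Hm ρ (Cfsg.permRep ℂ G Ω) =>
      ((S φ : Hm ρ (Cfsg.permRep ℂ G Ω)) : _ →ₗ[ℂ] (Ω → ℂ)) w) hT
    change kop (orb G a b) _ - kop (fun x y => orb G a b y x) _ = 0
    rw [sub_eq_zero]
    exact h4
  have h1 : kop (orb G a b) (Pi.single a 1) b = kop (fun x y => orb G a b y x) (Pi.single a 1) b :=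
    congrFun (congrArg (fun S : (Ω → ℂ) →ₗ[ℂ] (Ω → ℂ) => S (Pi.single a 1)) (sub_eq_zero.1 key)) b
  rw [kop_apply, kop_apply, Finset.sum_eq_single a, Finset.sum_eq_single a, Pi.single_eq_same, mul_one, mul_one] at h1
  · have h2 : orb G a b b a = orb G a b a b := by exact_mod_cast h1
    have h3 : orb G a b a b = 1 := by
      unfold orb
      rw [if_pos ⟨1, one_smul _ _, one_smul _ _⟩]
    rw [h3] at h2
    unfold orb at h2
    by_contra hcon
    rw [if_neg hcon] at h2
    exact zero_ne_one h2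
  all_goals first
    | (intro y _ hy; rw [Pi.single_eq_of_ne hy, mul_zero])
    | (intro h; exact absurd (Finset.mem_univ _) h)

omit [MulAction.IsPretransitive G Ω] in
theorem count_sq (h : ∀ a b : Ω, ∃ g : G, g • a = b ∧ g • b = a) :
    ∑ g : G, (pch G Ω (g * g)) = ∑ g : G, (pch G Ω g) * (pch G Ω g) := by
  classical
  have h1 : ∀ g : G, pch G Ω (g * g) = ∑ x : Ω, ∑ y : Ω, (if g • x = y ∧ g • y = x then (1 : ℂ) else 0) := by
    intro g
    have h2 : ∀ x : Ω, ∑ y : Ω, (if g • x = y ∧ g • y = x then (1 : ℂ) else 0) = if g • g • x = x then 1 else 0 := by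
      intro x
      rw [Finset.sum_eq_single (g • x)]
      · simp
      · intro y _ hy
        rw [if_neg (fun h3 => hy h3.1.symm)]
      · intro h3; exact absurd (Finset.mem_univ _) h3
    simp only [h2]
    rw [pch_eq_fk]
    unfold fk
    apply Finset.sum_congr rfl
    intro x _
    rw [mul_smul]
    beta_reduce
    by_cases h3 : x = g • g • x
    · rw [if_pos h3, if_pos h3.symm, Int.cast_one]
    · rw [if_neg h3, if_neg (fun h4 => h3 h4.symm), Int.cast_zero]
  have h2 : ∀ g : G, pch G Ω g = ∑ x : Ω, (if g • x = x then (1 : ℂ) else 0) := by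
    intro g
    rw [pch_eq_fk]
    unfold fk
    apply Finset.sum_congr rfl
    intro x _
    beta_reduce
    by_cases h3 : x = g • x
    · rw [if_pos h3, if_pos h3.symm, Int.cast_one]
    · rw [if_neg h3, if_neg (fun h4 => h3 h4.symm), Int.cast_zero]
  have h3 : ∀ g : G, pch G Ω g * pch G Ω g = ∑ x : Ω, ∑ y : Ω, (if g • x = x ∧ g • y = y then (1 : ℂ) else 0) := by
    intro g
    rw [h2, Finset.sum_mul_sum]
    apply Finset.sum_congr rfl
    intro x _
    apply Finset.sum_congr rfl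
    intro y _
    by_cases h4 : g • x = x <;> by_cases h5 : g • y = y <;> simp [h4, h5]
  simp only [h1, h3]
  rw [Finset.sum_comm, Finset.sum_comm (s := Finset.univ (α := G))]
  apply Finset.sum_congr rfl
  intro x _
  rw [Finset.sum_comm, Finset.sum_comm (s := Finset.univ (α := G))]
  apply Finset.sum_congr rfl
  intro y _
  obtain ⟨s, hs1, hs2⟩ := h x y
  rw [← Equiv.sum_comp (Equiv.mulLeft s)]
  apply Finset.sum_congr rfl
  intro g _
  rw [Equiv.coe_mulLeft, mul_smul, mul_smul]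
  congr 1
  apply propext
  constructor
  · rintro ⟨h4, h5⟩
    exact ⟨MulAction.injective s (h4.trans hs1.symm), MulAction.injective s (h5.trans hs2.symm)⟩
  · rintro ⟨h4, h5⟩
    rw [h4, h5]
    exact ⟨hs1, hs2⟩

theorem forward (h : ∀ a b : Ω, ∃ g : G, g • a = b ∧ g • b = a) (χ : IrrCharacter G) (h0 : ml G Ω χ ≠ 0) :
    ml G Ω χ = 1 ∧ ∀ g : G, (starRingEnd ℂ) ((χ : G → ℂ) g) = (χ : G → ℂ) g := by
  classical
  haveI : Fintype (IrrCharacter G) := Fintype.ofFinite _
  have hN : (Nat.card G : ℂ) ≠ 0 := card_cast_ne_zero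
  -- indicators
  have hind : ∀ ψ : IrrCharacter G, ∃ c : ℤ, (Nat.card G : ℂ)⁻¹ * ∑ g : G, (ψ : G → ℂ) (g * g) = c ∧ (c = 0 ∨ c = -1 ∨ c = 1) ∧
      (c ≠ 0 → ∀ g : G, (starRingEnd ℂ) ((ψ : G → ℂ) g) = (ψ : G → ℂ) g) := by
    intro ψ
    obtain ⟨n, ρ, hρ, hψ⟩ := ψ.2
    rcases Cfsg.Agent.H3.FS.indicator ρ (by rw [hψ]; exact ψ.2) with ⟨h1, -⟩ | ⟨h1, c, -, hc, -, -, -, h2⟩
    · exact ⟨0, by rw [← hψ, h1, Int.cast_zero], Or.inl rfl, fun h => absurd rfl h⟩
    · rcases hc with rfl | rfl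
      · refine ⟨1, by rw [← hψ, h2]; simp, Or.inr (Or.inr rfl), fun _ g => ?_⟩
        rw [← hψ]
        exact (congrFun h1 g).symm
      · refine ⟨-1, by rw [← hψ, h2]; simp, Or.inr (Or.inl rfl), fun _ g => ?_⟩
        rw [← hψ]
        exact (congrFun h1 g).symm
  choose ν hν1 hν2 hν3 using hind
  have hclass : IsClassFunction G (pch G Ω) := by
    rw [pch_eq]
    exact IsChar.isClass (isCharacter_of_rep _)
  have h1 := count_sq h
  have h2 : (Nat.card G : ℂ)⁻¹ * ∑ g : G, (pch G Ω (g * g)) = ∑ ψ : IrrCharacter G, (ml G Ω ψ : ℂ) * ν ψ := by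
    have h3 : ∀ g : G, pch G Ω (g * g) = ∑ ψ : IrrCharacter G, (ml G Ω ψ : ℂ) * (ψ : G → ℂ) (g * g) := by
      intro g
      rw [expand_apply (pch G Ω) hclass (g * g)]
      simp only [ml_spec]
    simp only [h3]
    rw [Finset.sum_comm, Finset.mul_sum]
    apply Finset.sum_congr rfl
    intro ψ _
    rw [← Finset.mul_sum, ← hν1]
    ring
  have h4 : (Nat.card G : ℂ)⁻¹ * ∑ g : G, pch G Ω g * pch G Ω g = ∑ ψ : IrrCharacter G, (ml G Ω ψ : ℂ) * (ml G Ω ψ : ℂ) := by
    have h5 := ci_eq_sum (pch G Ω) (pch G Ω) hclass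
    simp only [ml_spec, map_natCast] at h5
    rw [← h5]
    unfold classInner
    simp only [map_natCast]
  rw [h1, h4] at h2
  have h5 : ∑ ψ : IrrCharacter G, ((ml G Ω ψ : ℤ) * ml G Ω ψ - ml G Ω ψ * ν ψ) = 0 := by
    rw [Finset.sum_sub_distrib, sub_eq_zero]
    exact_mod_cast h2
  have h6 : ∀ ψ ∈ (Finset.univ : Finset (IrrCharacter G)), 0 ≤ ((ml G Ω ψ : ℤ) * ml G Ω ψ - ml G Ω ψ * ν ψ) := by
    intro ψ _
    rcases Nat.eq_zero_or_pos (ml G Ω ψ) with h7 | h7
    · rw [h7]; simp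
    · have h8 : ν ψ ≤ ml G Ω ψ := by
        rcases hν2 ψ with h | h | h <;> rw [h] <;> omega
      have h9 : (0 : ℤ) ≤ ml G Ω ψ := by positivity
      nlinarith
  have h7 := (Finset.sum_eq_zero_iff_of_nonneg h6).1 h5 χ (Finset.mem_univ _)
  have h8 : (ml G Ω χ : ℤ) * (ml G Ω χ - ν χ) = 0 := by linear_combination h7
  have h9 : (ml G Ω χ : ℤ) = ν χ := by
    rcases mul_eq_zero.1 h8 with h | h
    · exact absurd (by exact_mod_cast h) h0
    · linarith
  constructor
  · rcases hν2 χ with h | h | h <;> omega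
  · apply hν3
    omega

/-- All suborbits of a transitive group are self-paired (every pair of points is interchanged by some group element) if and only if the permutation character is multiplicity-free and each of its irreducible constituents is real-valued. -/
theorem result {G : Type*} [Group G] [Fintype G] {Ω : Type*} [Fintype Ω] [MulAction G Ω] [MulAction.IsPretransitive G Ω] : (∀ a b : Ω, ∃ g : G, g • a = b ∧ g • b = a) ↔ ∀ χ : G → ℂ, Cfsg.IsIrrCharacter G χ → Cfsg.classInner (fun g : G => (Nat.card (MulAction.fixedBy Ω g) : ℂ)) χ ≠ 0 → Cfsg.classInner (fun g : G => (Nat.card (MulAction.fixedBy Ω g) : ℂ)) χ = 1 ∧ ∀ g : G, (starRingEnd ℂ) (χ g) = χ g := by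
  classical
  constructor
  · intro h χ hχ hχ0
    have h3 := ml_spec (Ω := Ω) (⟨χ, hχ⟩ : IrrCharacter G)
    have h4 : ml G Ω (⟨χ, hχ⟩ : IrrCharacter G) ≠ 0 := by
      intro h5
      rw [h5, Nat.cast_zero] at h3
      exact hχ0 h3
    obtain ⟨h5, h6⟩ := forward h _ h4
    rw [h5, Nat.cast_one] at h3
    exact ⟨h3, h6⟩
  · intro h a b
    apply backward _ a b
    intro χ hχ
    have h1 := h χ χ.2 (by
      intro h2
      apply hχ
      have h3 := ml_spec (Ω := Ω) χ
      have h4 : classInner (pch G Ω) (χ : G → ℂ) = 0 := h2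
      rw [h4] at h3
      exact_mod_cast h3.symm)
    refine ⟨?_, h1.2⟩
    have h3 := ml_spec (Ω := Ω) χ
    have h4 : classInner (pch G Ω) (χ : G → ℂ) = 1 := h1.1
    rw [h4] at h3
    exact_mod_cast h3.symm

end Cfsg.Agent.S0717
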