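import Mathlib
import Cfsg.Agent.S0717

/-!
# Rank 3: traces of orbital matrices
-/

set_option autoImplicit false

namespace Cfsg.Agent.H9.Comm

open Cfsg Cfsg.Agent.H3.CharIrr Cfsg.Agent.H3.CharComplete Cfsg.Agent.H10.BlockKer

variable {G : Type*} [Group G] [Fintype G] {Ω : Type*} [Fintype Ω] [MulAction G Ω]

theorem pch_class : IsClassFunction G (pch G Ω) := by
  rw [pch_eq]
  exact IsChar.isClass (isCharacter_of_rep _)

theorem trace_comp_self {V : Type*} [AddCommGroup V] [Module ℂ V] [FiniteDimensional ℂ V]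
    (h : Module.finrank ℂ V ≤ 1) (S : V →ₗ[ℂ] V) :
    LinearMap.trace ℂ V (S ∘ₗ S) = LinearMap.trace ℂ V S ^ 2 := by
  obtain ⟨v, hv⟩ := finrank_le_one_iff.1 h
  obtain ⟨c, hc⟩ := hv (S v)
  have h2 : S = c • LinearMap.id := by
    apply LinearMap.ext
    intro w
    obtain ⟨d, rfl⟩ := hv w
    rw [map_smul, ← hc, LinearMap.smul_apply, LinearMap.id_apply, smul_comm]
  rw [h2, LinearMap.smul_comp, LinearMap.id_comp, smul_smul, map_smul, map_smul, LinearMap.trace_id]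
  have h3 : Module.finrank ℂ V = 0 ∨ Module.finrank ℂ V = 1 := by omega
  rcases h3 with h3 | h3 <;> rw [h3] <;> simp [sq]

/-- multiplicities one: squares -/
theorem inner_sq {a : Ω → Ω → ℤ} (ha : ∀ (g : G) x y, a (g • x) (g • y) = a x y) (χ : IrrCharacter G) (h1 : ml G Ω χ = 1) :
    classInner (fk G (fun x y => ∑ z, a x z * a z y)) (χ : G → ℂ) = classInner (fk G a) (χ : G → ℂ) ^ 2 := by
  classical
  have ha2 : ∀ (g : G) x y, (fun x y => ∑ z, a x z * a z y) (g • x) (g • y) = (fun x y => ∑ z, a x z * a z y) x y := by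
    intro g x y
    beta_reduce
    rw [← Equiv.sum_comp (MulAction.toPerm g)]
    apply Finset.sum_congr rfl
    intro z _
    change a (g • x) (g • z) * a (g • z) (g • y) = _
    rw [ha, ha]
  have hcomp : kop (fun x y => ∑ z, a x z * a z y) = kop a ∘ₗ kop a := by
    apply LinearMap.ext
    intro f
    funext x
    rw [LinearMap.comp_apply, kop_apply, kop_apply]
    simp only [kop_apply, Finset.mul_sum]
    rw [Finset.sum_comm]
    apply Finset.sum_congr rfl
    intro y _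
    push_cast
    rw [Finset.sum_mul]
    apply Finset.sum_congr rfl
    intro z _
    ring
  obtain ⟨n, ρ, hρ, hχ⟩ := χ.2
  have hm : (Module.finrank ℂ (Hm ρ (Cfsg.permRep ℂ G Ω)) : ℂ) = ml G Ω χ := by
    rw [finrank_Hm, ← pch_eq, hχ]
    exact ml_spec χ
  have hm' : Module.finrank ℂ (Hm ρ (Cfsg.permRep ℂ G Ω)) = 1 := by
    rw [h1] at hm; exact_mod_cast hm
  have e1 : classInner (fk G a) (χ : G → ℂ) = LinearMap.trace ℂ _ (T ρ (Cfsg.permRep ℂ G Ω) (kop_eqv ha)) := by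
    rw [trace_T, ← fk_eq, hχ]
  have e2 : classInner (fk G (fun x y => ∑ z, a x z * a z y)) (χ : G → ℂ) =
      LinearMap.trace ℂ _ (T ρ (Cfsg.permRep ℂ G Ω) ((kop_eqv ha).comp (kop_eqv ha))) := by
    rw [trace_T, ← hcomp, ← fk_eq, hχ]
  rw [e1, e2, T_comp]
  exact trace_comp_self (V := Hm ρ (Cfsg.permRep ℂ G Ω)) hm'.le _

/-- the expansion at the identity -/
theorem expand_one [MulAction.IsPretransitive G Ω] [Nonempty Ω] {a : Ω → Ω → ℤ} (ha : ∀ (g : G) x y, a (g • x) (g • y) = a x y)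
    {k : ℕ} (hk : ∀ x, ∑ y, a x y = k) {χ₁ χ₂ : IrrCharacter G} (h12 : χ₁ ≠ χ₂) (h1 : χ₁ ≠ triv G) (h2 : χ₂ ≠ triv G)
    (h0 : ∀ χ : IrrCharacter G, χ ≠ triv G → χ ≠ χ₁ → χ ≠ χ₂ → ml G Ω χ = 0) :
    fk G a 1 = k + classInner (fk G a) (χ₁ : G → ℂ) * (χ₁ : G → ℂ) 1 + classInner (fk G a) (χ₂ : G → ℂ) * (χ₂ : G → ℂ) 1 := by
  classical
  haveI : Fintype (IrrCharacter G) := Fintype.ofFinite _
  rw [expand_apply (fk G a) (fk_class ha) 1, ← Finset.add_sum_erase _ _ (Finset.mem_univ (triv G)),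
    ← Finset.add_sum_erase _ _ (Finset.mem_erase.2 ⟨h1, Finset.mem_univ χ₁⟩),
    ← Finset.add_sum_erase _ _ (Finset.mem_erase.2 ⟨h12.symm, Finset.mem_erase.2 ⟨h2, Finset.mem_univ χ₂⟩⟩)]
  rw [Finset.sum_eq_zero, add_zero, ← add_assoc]
  · have h3 : classInner (fk G a) ((triv G : IrrCharacter G) : G → ℂ) = k := inner_triv hk
    rw [h3, triv_coe, mul_one]
  · intro χ hχ
    have e1 := Finset.mem_erase.1 hχ
    have e2 := Finset.mem_erase.1 e1.2
    have e3 := Finset.mem_erase.1 e2.2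
    have h4 := h0 χ e3.1 e2.1 e1.1
    rw [inner_fk_zero ha χ.2, zero_mul]
    rw [ml_spec, h4, Nat.cast_zero]

theorem int_or_dvd {u : ℂ} (hu : IsIntegral ℤ u) {A B C : ℤ} (hA : A ≠ 0) (h : (A : ℂ) * u ^ 2 + B * u + C = 0) :
    (∃ n : ℤ, u = n) ∨ A ∣ B := by
  let P := minpoly ℤ u
  have hPm : P.Monic := minpoly.monic hu
  let Q : Polynomial ℤ := Polynomial.C A * Polynomial.X ^ 2 + Polynomial.C B * Polynomial.X + Polynomial.C C
  have hQ : Polynomial.aeval u Q = 0 := by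
    simp only [Q, map_add, map_mul, Polynomial.aeval_C, Polynomial.aeval_X, map_pow]
    exact h
  have hd : P ∣ Q := minpoly.isIntegrallyClosed_dvd hu hQ
  have hQd : Q.natDegree = 2 := Polynomial.natDegree_quadratic hA
  have hQ0 : Q ≠ 0 := by
    intro h0
    rw [h0, Polynomial.natDegree_zero] at hQd
    omega
  have hPd : P.natDegree ≤ 2 := by
    rw [← hQd]
    exact Polynomial.natDegree_le_of_dvd hd hQ0
  have hP1 : 0 < P.natDegree := minpoly.natDegree_pos hu
  obtain ⟨R, hR⟩ := hd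
  have hPu : Polynomial.aeval u P = 0 := minpoly.aeval ℤ u
  have h12 : P.natDegree = 1 ∨ P.natDegree = 2 := by omega
  rcases h12 with h1 | h1
  · left
    obtain ⟨c, hc⟩ : ∃ c, P = Polynomial.X + Polynomial.C c := ⟨P.coeff 0, by
      have := hPm.eq_X_add_C h1
      exact this⟩
    refine ⟨-c, ?_⟩
    rw [hc, map_add, Polynomial.aeval_X, Polynomial.aeval_C] at hPu
    push_cast
    have : u + (c : ℂ) = 0 := hPu
    linear_combination this
  · right
    have hR0 : R ≠ 0 := by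
      rintro rfl
      rw [mul_zero] at hR
      exact hQ0 hR
    have hRd : R.natDegree = 0 := by
      have h2 := Polynomial.natDegree_mul hPm.ne_zero hR0
      rw [← hR, hQd, h1] at h2
      omega
    obtain ⟨r, hr⟩ := Polynomial.natDegree_eq_zero.1 hRd
    have h3 : Q.coeff 2 = A := by
      simp only [Q, Polynomial.coeff_add, Polynomial.coeff_C_mul, Polynomial.coeff_X_pow, Polynomial.coeff_X, Polynomial.coeff_C]
      norm_num
    have h4 : Q.coeff 1 = B := by
      simp only [Q, Polynomial.coeff_add, Polynomial.coeff_C_mul, Polynomial.coeff_X_pow, Polynomial.coeff_X, Polynomial.coeff_C]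
      norm_num
    rw [hR, ← hr, Polynomial.coeff_mul_C] at h3 h4
    have h5 : P.coeff 2 = 1 := by
      rw [← h1]; exact hPm.coeff_natDegree
    rw [h5, one_mul] at h3
    rw [← h3, ← h4]
    exact dvd_mul_left _ _

theorem nonneg_aux {m k n : ℤ} (hm : 2 ≤ m) (hk : 0 < k)
    (h : (m - 1) * (2 * m - 1) * n ^ 2 - 4 * k * (m - 1) * n + 2 * k ^ 2 - 2 * k = 0) : 0 ≤ n := by
  by_contra hneg
  push Not at hneg
  have h7 : 0 ≤ -n - 1 := by omega
  nlinarith [mul_nonneg (mul_nonneg (by linarith : (0:ℤ) ≤ m - 1) hk.le) h7, mul_nonneg (mul_nonneg (by linarith : (0:ℤ) ≤ m - 1) (by linarith : (0:ℤ) ≤ 2 * m - 1)) h7,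
    mul_nonneg (mul_nonneg (by linarith : (0:ℤ) ≤ m - 1) (by linarith : (0:ℤ) ≤ 2 * m - 1)) (mul_nonneg h7 h7),
    mul_pos (by linarith : (0:ℤ) < m - 1) (by linarith : (0:ℤ) < 2 * m - 1), mul_pos (by linarith : (0:ℤ) < m - 1) hk, mul_pos hk hk]

theorem arith {m k : ℕ} (hm : 2 ≤ m) (hk : 0 < k) (hk2 : k < 2 * m - 1) {s t : ℂ} (hs : IsIntegral ℤ s) (ht : IsIntegral ℤ t)
    (h1 : (k : ℂ) + (m - 1) * s + m * t = 0) (h2 : (k : ℂ) ^ 2 + (m - 1) * s ^ 2 + m * t ^ 2 = 2 * m * k) :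
    k = 1 ∨ k = 2 * m - 2 ∨ ∃ a : ℕ, 0 < a ∧ m = 2 * a ^ 2 + 2 * a + 1 ∧ (k = a * (2 * a + 1) ∨ k = (a + 1) * (2 * a + 1)) := by
  have hm0 : (m : ℂ) ≠ 0 := by exact_mod_cast (by omega : m ≠ 0)
  set u : ℂ := -(s + t) with hu
  have hui : IsIntegral ℤ u := (hs.add ht).neg
  have e1 : s = k - m * u := by rw [hu]; linear_combination -h1
  have e2 : t = (m - 1) * u - k := by rw [hu]; linear_combination h1
  have e3 : ((((m : ℤ) - 1) * (2 * m - 1) : ℤ) : ℂ) * u ^ 2 + ((-(4 * k * ((m : ℤ) - 1)) : ℤ) : ℂ) * u + ((2 * k ^ 2 - 2 * k : ℤ) : ℂ) = 0 := by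
    have h3 : (m : ℂ) * (((((m : ℤ) - 1) * (2 * m - 1) : ℤ) : ℂ) * u ^ 2 + ((-(4 * k * ((m : ℤ) - 1)) : ℤ) : ℂ) * u + ((2 * k ^ 2 - 2 * k : ℤ) : ℂ)) = 0 := by
      rw [e1, e2] at h2
      push_cast
      linear_combination h2
    rcases mul_eq_zero.1 h3 with h | h
    · exact absurd h hm0
    · exact h
  have hA : ((m : ℤ) - 1) * (2 * m - 1) ≠ 0 := by
    apply mul_ne_zero <;> omega
  have hkz : (0 : ℤ) < k := by exact_mod_cast hk
  have hkz2 : (k : ℤ) < 2 * m - 1 := by omega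
  have hmz : (2 : ℤ) ≤ m := by exact_mod_cast hm
  rcases int_or_dvd hui hA e3 with ⟨n, hn⟩ | hdv
  · rw [hn] at e3
    have e4 : ((m : ℤ) - 1) * (2 * m - 1) * n ^ 2 - 4 * k * (m - 1) * n + 2 * k ^ 2 - 2 * k = 0 := by
      have h5 : (((((m : ℤ) - 1) * (2 * m - 1) * n ^ 2 - 4 * k * (m - 1) * n + 2 * k ^ 2 - 2 * k : ℤ)) : ℂ) = 0 := by
        push_cast
        push_cast at e3
        linear_combination e3
      exact_mod_cast h5
    -- n in {0,1,2}
    have hn0 : 0 ≤ n := nonneg_aux hmz hkz e4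
    have hn2 : 0 ≤ 2 - n := by
      apply nonneg_aux (m := m) (k := 2 * m - 1 - k) (n := 2 - n) hmz (by linarith)
      linear_combination e4
    have hn3 : n = 0 ∨ n = 1 ∨ n = 2 := by omega
    rcases hn3 with rfl | rfl | rfl
    · left
      have h6 : (k : ℤ) * (k - 1) = 0 := by linarith
      rcases mul_eq_zero.1 h6 with h | h <;> omega
    · right; right
      set e : ℤ := 2 * k - (2 * m - 1) with he
      have he2 : e ^ 2 = 2 * m - 1 := by rw [he]; linear_combination 2 * e4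
      rcases le_or_gt 0 e with h7 | h7
      · obtain ⟨a, ha⟩ : ∃ a : ℕ, e = 2 * a + 1 := ⟨((e - 1) / 2).toNat, by omega⟩
        have hma : (m : ℤ) = 2 * a ^ 2 + 2 * a + 1 := by rw [ha] at he2; linarith
        have hka : (k : ℤ) = (a + 1) * (2 * a + 1) := by
          have : 2 * (k : ℤ) = e + (2 * m - 1) := by rw [he]; ring
          rw [← he2, ha] at this
          linarith
        refine ⟨a, ?_, by exact_mod_cast hma, Or.inr (by exact_mod_cast hka)⟩
        rcases Nat.eq_zero_or_pos a with h8 | h8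
        · rw [h8] at hma; simp at hma; omega
        · exact h8
      · obtain ⟨a, ha⟩ : ∃ a : ℕ, e = -(2 * a + 1) := ⟨((-e - 1) / 2).toNat, by omega⟩
        have hma : (m : ℤ) = 2 * a ^ 2 + 2 * a + 1 := by rw [ha] at he2; linarith
        have hka : (k : ℤ) = a * (2 * a + 1) := by
          have : 2 * (k : ℤ) = e + (2 * m - 1) := by rw [he]; ring
          rw [← he2, ha] at this
          linarith
        refine ⟨a, ?_, by exact_mod_cast hma, Or.inl (by exact_mod_cast hka)⟩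
        rcases Nat.eq_zero_or_pos a with h8 | h8
        · rw [h8] at hma; simp at hma; omega
        · exact h8
    · right; left
      have h6' : 2 * (((k : ℤ) - (2 * m - 2)) * (k - (2 * m - 1))) = 0 := by linear_combination e4
      have h6 : ((k : ℤ) - (2 * m - 2)) * (k - (2 * m - 1)) = 0 := by omega
      rcases mul_eq_zero.1 h6 with h | h <;> omega
  · exfalso
    have h3 : ((m : ℤ) - 1) * (2 * m - 1) ∣ (m - 1) * (4 * k) := by
      have h4 := (dvd_neg (α := ℤ)).2 hdv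
      have h5 : -(-(4 * (k : ℤ) * ((m : ℤ) - 1))) = (m - 1) * (4 * k) := by ring
      rwa [h5] at h4
    have h4 : (2 * (m : ℤ) - 1) ∣ 4 * k := (mul_dvd_mul_iff_left (by omega)).1 h3
    have h5 : IsCoprime (2 * (m : ℤ) - 1) 4 := by
      refine ⟨(2 * m - 1), -(m ^ 2 - m), by ring⟩
    have h6 := h5.dvd_of_dvd_mul_left h4
    have h7 := Int.le_of_dvd hkz h6
    omega

end Cfsg.Agent.H9.Comm
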