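import Mathlib
import Cfsg.Agent.H9_BrSC2
import Cfsg.Agent.H9_Comm4

/-!
# Degree 2p: orbitals
-/

set_option autoImplicit false

open scoped ComplexConjugate

namespace Cfsg.Agent.H9.Deg2p

open Cfsg Cfsg.Agent.H3.CharIrr Cfsg.Agent.H3.CharComplete Cfsg.Agent.H3.CharMult Cfsg.Agent.H10.Char Cfsg.Agent.H10.BlockKer
  Cfsg.Agent.H9.BrVec Cfsg.Agent.H9.BrMain Cfsg.Agent.H9.BrThm Cfsg.Agent.H9.BrCor Cfsg.Agent.H9.BrSC Cfsg.Agent.H9.Comm

section general

variable {G : Type*} [Group G] [Fintype G] {Ω : Type*} [Fintype Ω] [MulAction G Ω]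

/-- multiplicities one: products -/
theorem inner_mul {a b : Ω → Ω → ℤ} (ha : ∀ (g : G) x y, a (g • x) (g • y) = a x y)
    (hb : ∀ (g : G) x y, b (g • x) (g • y) = b x y) (χ : IrrCharacter G) (h1 : ml G Ω χ = 1) :
    classInner (fk G (fun x y => ∑ z, a x z * b z y)) (χ : G → ℂ) =
      classInner (fk G a) (χ : G → ℂ) * classInner (fk G b) (χ : G → ℂ) := by
  classical
  have hcomp : kop (fun x y => ∑ z, a x z * b z y) = kop a ∘ₗ kop b := by
    apply LinearMap.ext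
    intro f
    funext x
    rw [LinearMap.comp_apply, kop_apply, kop_apply]
    simp only [kop_apply, Finset.mul_sum]
    rw [Finset.sum_comm]
    apply Finset.sum_congr rfl
    intro y _
    push_cast
    rw [Finset.sum_mul]
    apply Finset.sum_congr rfl
    intro z _
    ring
  obtain ⟨n, ρ, hρ, hχ⟩ := χ.2
  have hm : (Module.finrank ℂ (Hm ρ (Cfsg.permRep ℂ G Ω)) : ℂ) = ml G Ω χ := by
    rw [finrank_Hm, ← pch_eq, hχ]
    exact ml_spec χ
  have hm' : Module.finrank ℂ (Hm ρ (Cfsg.permRep ℂ G Ω)) = 1 := by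
    rw [h1] at hm; exact_mod_cast hm
  have e1 : ∀ {a : Ω → Ω → ℤ} (ha : ∀ (g : G) x y, a (g • x) (g • y) = a x y),
      classInner (fk G a) (χ : G → ℂ) = LinearMap.trace ℂ _ (T ρ (Cfsg.permRep ℂ G Ω) (kop_eqv ha)) := by
    intro a ha
    rw [trace_T, ← fk_eq, hχ]
  have e2 : classInner (fk G (fun x y => ∑ z, a x z * b z y)) (χ : G → ℂ) =
      LinearMap.trace ℂ _ (T ρ (Cfsg.permRep ℂ G Ω) ((kop_eqv ha).comp (kop_eqv hb))) := by
    rw [trace_T, ← hcomp, ← fk_eq, hχ]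
  rw [e1 ha, e1 hb, e2, T_comp]
  have key : ∀ {V : Type _} [AddCommGroup V] [Module ℂ V] [FiniteDimensional ℂ V]
      (h : Module.finrank ℂ V = 1) (S R : V →ₗ[ℂ] V),
      LinearMap.trace ℂ V (S ∘ₗ R) = LinearMap.trace ℂ V S * LinearMap.trace ℂ V R := by
    intro V _ _ _ h S R
    obtain ⟨v, hv⟩ := finrank_le_one_iff.1 h.le
    have hsc : ∀ S : V →ₗ[ℂ] V, ∃ c : ℂ, S = c • LinearMap.id := by
      intro S
      obtain ⟨c, hc⟩ := hv (S v)
      refine ⟨c, ?_⟩
      apply LinearMap.ext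
      intro w
      obtain ⟨d, rfl⟩ := hv w
      rw [map_smul, ← hc, LinearMap.smul_apply, LinearMap.id_apply, smul_comm]
    obtain ⟨c, rfl⟩ := hsc S
    obtain ⟨d, rfl⟩ := hsc R
    rw [LinearMap.smul_comp, LinearMap.id_comp, smul_smul, map_smul, map_smul, map_smul, LinearMap.trace_id, h]
    simp
  exact key (V := Hm ρ (Cfsg.permRep ℂ G Ω)) hm' _ _

theorem inner_transpose {a : Ω → Ω → ℤ} (χ : IrrCharacter G) :
    classInner (fk G (fun x y => a y x)) (χ : G → ℂ) = conj (classInner (fk G a) (χ : G → ℂ)) := by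
  have h1 : ∀ g : G, fk G (fun x y => a y x) g = fk G a g⁻¹ := by
    intro g
    unfold fk
    rw [← Equiv.sum_comp (MulAction.toPerm g⁻¹)]
    apply Finset.sum_congr rfl
    intro x _
    change ((a (g • g⁻¹ • x) (g⁻¹ • x) : ℤ) : ℂ) = _
    rw [smul_inv_smul]
  have h2 : ∀ g : G, conj (fk G a g) = fk G a g := by
    intro g
    unfold fk
    rw [map_sum]
    exact Finset.sum_congr rfl fun x _ => by rw [map_intCast]
  unfold classInner
  rw [map_mul, map_sum, map_inv₀, map_natCast]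
  congr 1
  rw [← Equiv.sum_comp (Equiv.inv G)]
  apply Finset.sum_congr rfl
  intro g _
  rw [Equiv.inv_apply, h1, inv_inv, map_mul, h2, IsChar.inv_eq_conj (IsIrr.isCharacter χ.2)]

end general

section arith

/-- the final arithmetic -/
theorem arith2 {p e k d1 d2 : ℕ} (hp : p.Prime) (hpe : p = 2 * e + 1) (hk : 2 ≤ k) (hd1 : d1 ≤ 2) (hd2 : d2 ≤ 2)
    {s η1 η2 θ1 θ2 : ℂ} (E1 : 0 = (k : ℂ) + p * s + e * (η1 + η2)) (E2 : (p : ℂ) * d1 = k + η1 * θ1 + η2 * θ2)
    (E2' : (p : ℂ) * d2 = k + η1 * θ2 + η2 * θ1) (E3 : 2 * (p : ℂ) * k = k ^ 2 + p * (s * conj s) + e * (η1 * conj η1 + η2 * conj η2))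
    (hθ : θ1 + θ2 = -1) (hθ' : (θ1 - θ2) * conj (θ1 - θ2) = p) : 2 ≤ d1 + d2 := by
  have hp0 : (p : ℂ) ≠ 0 := by exact_mod_cast hp.ne_zero
  have hpeC : (p : ℂ) = 2 * e + 1 := by exact_mod_cast hpe
  have h1 : η1 + η2 = 2 * k - p * (d1 + d2) := by linear_combination E2 + E2' + (η1 + η2) * hθ
  have h2 : s = e * (d1 + d2) - k := by
    have h3 : (p : ℂ) * s = p * (e * (d1 + d2) - k) := by
      rw [h1] at E1
      rw [hpeC] at E1 ⊢
      linear_combination -E1
    exact mul_left_cancel₀ hp0 h3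
  have h3 : (η1 - η2) * (θ1 - θ2) = p * (d1 - d2) := by linear_combination E2' - E2
  have h4 : (η1 - η2) * conj (η1 - η2) = p * (d1 - d2) ^ 2 := by
    have h5 : ((η1 - η2) * conj (η1 - η2)) * p = (p * (d1 - d2) ^ 2) * p := by
      rw [← hθ']
      have h6 : conj ((η1 - η2) * (θ1 - θ2)) = p * (d1 - d2) := by
        rw [h3]; simp
      rw [map_mul] at h6
      rw [hθ']
      calc (η1 - η2) * conj (η1 - η2) * p = (η1 - η2) * conj (η1 - η2) * ((θ1 - θ2) * conj (θ1 - θ2)) := by rw [hθ']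
        _ = ((η1 - η2) * (θ1 - θ2)) * (conj (η1 - η2) * conj (θ1 - θ2)) := by ring
        _ = _ := by rw [h3, h6]; ring
    exact mul_right_cancel₀ hp0 h5
  have h5 : (η1 + η2) * conj (η1 + η2) = (2 * k - p * (d1 + d2)) ^ 2 := by
    have h6 : conj (η1 + η2) = 2 * k - p * (d1 + d2) := by
      rw [h1, map_sub, map_mul, map_mul, map_add, map_natCast, map_natCast, map_natCast, map_natCast, map_ofNat]
    rw [h6, h1]; ring
  have h6 : 2 * (η1 * conj η1 + η2 * conj η2) = (2 * k - p * (d1 + d2)) ^ 2 + p * (d1 - d2) ^ 2 := by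
    rw [← h5, ← h4, map_add, map_sub]; ring
  have h7 : s * conj s = (e * (d1 + d2) - k) ^ 2 := by
    have h8 : conj s = e * (d1 + d2) - k := by rw [h2]; simp
    rw [h8, h2]; ring
  have h8 : (p : ℂ) * (4 * k) = p * (4 * (k - e * (d1 + d2)) ^ 2 + e * (d1 + d2) ^ 2 + e * (d1 - d2) ^ 2) := by
    rw [h7] at E3
    have h9 : (p : ℂ) * (4 * k) = 2 * k ^ 2 + 2 * p * (e * (d1 + d2) - k) ^ 2 + e * (2 * (η1 * conj η1 + η2 * conj η2)) := by
      linear_combination 2 * E3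
    rw [h6] at h9
    rw [h9, hpeC]
    ring
  have h9 := mul_left_cancel₀ hp0 h8
  have h10 : (4 * k : ℤ) = 4 * (k - e * (d1 + d2)) ^ 2 + e * (d1 + d2) ^ 2 + e * (d1 - d2) ^ 2 := by
    exact_mod_cast h9
  by_contra hlt
  have hcase : (d1 = 0 ∧ d2 = 0) ∨ (d1 = 1 ∧ d2 = 0) ∨ (d1 = 0 ∧ d2 = 1) := by omega
  have hk2 : (2 : ℤ) ≤ k := by exact_mod_cast hk
  have hsq : ∀ t : ℤ, (e : ℤ) = 2 * t * (t + 1) → False := by
    intro t ht
    have h11 : (p : ℤ) = (2 * t + 1) ^ 2 := by rw [hpe]; push_cast; rw [ht]; ring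
    have h12 : IsSquare (p : ℤ) := ⟨2 * t + 1, by rw [h11]; ring⟩
    have h13 : ¬ IsSquare (p : ℤ) := (Nat.prime_iff_prime_int.1 hp).not_isSquare
    exact h13 h12
  rcases hcase with ⟨rfl, rfl⟩ | ⟨rfl, rfl⟩ | ⟨rfl, rfl⟩
  · push_cast at h10
    nlinarith
  · push_cast at h10
    apply hsq (e - k)
    nlinarith
  · push_cast at h10
    apply hsq (e - k)
    nlinarith

end arith

section count

variable {G : Type*} [Group G] {Ω : Type*} [Fintype Ω] [MulAction G Ω] {p : ℕ} [hp : Fact p.Prime]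

/-- invariant 0/1 functions have sums divisible by p -/
theorem exists_count {z : G} (hz : orderOf z = p) (hfree : ∀ x : Ω, z • x ≠ x) {F : Ω → ℤ} (hF : ∀ x, F x = 0 ∨ F x = 1)
    (hinv : ∀ x, F (z • x) = F x) : ∃ d : ℕ, ∑ x, F x = (p : ℤ) * d := by
  classical
  let K : Subgroup G :=
    { carrier := {g | ∀ x : Ω, F (g • x) = F x}
      mul_mem' := by
        intro a b ha hb x
        rw [mul_smul, ha, hb]
      one_mem' := fun x => by rw [one_smul]
      inv_mem' := by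
        intro a ha x
        have h := ha (a⁻¹ • x)
        rw [smul_inv_smul] at h
        exact h.symm }
  have hK : Subgroup.zpowers z ≤ K := by
    rw [Subgroup.zpowers_le]; exact hinv
  let S : SubMulAction (Subgroup.zpowers z) Ω :=
    { carrier := {x | F x = 1}
      smul_mem' := by
        intro g x hx
        have h := hK g.2 x
        change F ((g : G) • x) = 1
        rw [h]; exact hx }
  have hP : IsPGroup p (Subgroup.zpowers z) := IsPGroup.of_card (n := 1) (by rw [Nat.card_zpowers, hz, pow_one])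
  have h1 := hP.card_modEq_card_fixedPoints S
  have h2 : Nat.card (MulAction.fixedPoints (Subgroup.zpowers z) S) = 0 := by
    rw [Nat.card_eq_zero]
    left
    refine ⟨fun x => ?_⟩
    have h3 := x.2 ⟨z, Subgroup.mem_zpowers z⟩
    exact hfree _ (congrArg Subtype.val h3)
  rw [h2] at h1
  obtain ⟨d, hd⟩ := (Nat.modEq_zero_iff_dvd.1 h1)
  refine ⟨d, ?_⟩
  have h3 : ∑ x, F x = (Nat.card S : ℤ) := by
    have h4 : ∀ x, F x = if F x = 1 then 1 else 0 := by
      intro x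
      rcases hF x with h | h <;> rw [h] <;> simp
    rw [Finset.sum_congr rfl fun x _ => h4 x, Finset.sum_ite, Finset.sum_const_zero, add_zero, Finset.sum_const,
      nsmul_eq_mul, mul_one]
    congr 1
    rw [← Fintype.card_subtype, ← Nat.card_eq_fintype_card]
    rfl
  rw [h3, hd]
  push_cast
  ring

end count

section exc

variable {G : Type*} [Group G] [Fintype G] {p : ℕ} [hp : Fact p.Prime] {z : G}

theorem L_shift (hz : orderOf z = p) (hzp : z ^ p = 1) (Ty : Types hz hzp) (j : (ZMod p)ˣ ⧸ (BrMain.om hz).range) (c : (ZMod p)ˣ)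
    {i : ZMod p} (hi : i ≠ 0) :
    (Ty.L j : G → ℂ) (zp p z (c * i)) = (Ty.L ((c : (ZMod p)ˣ ⧸ (BrMain.om hz).range) * j) : G → ℂ) (zp p z i) := by
  classical
  have hci : (c : ZMod p) * i ≠ 0 := mul_ne_zero c.ne_zero hi
  rw [char_eq_vv hzp _ hci, char_eq_vv hzp _ hi]
  congr 1
  rw [← Equiv.sum_comp (Units.mulLeft c⁻¹)]
  apply Finset.sum_congr rfl
  intro a _
  simp only [Units.mulLeft_apply]
  have h1 : ((c⁻¹ : (ZMod p)ˣ) : ZMod p) * a * (c * i) = a * i := by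
    have : ((c⁻¹ : (ZMod p)ˣ) : ZMod p) * c = 1 := by rw [← Units.val_mul, inv_mul_cancel, Units.val_one]
    linear_combination (a * i) * this
  rw [h1]
  congr 2
  by_cases ha : a = 0
  · rw [ha, mul_zero, vv_zero, vv_zero]
  · have h2 : ((c⁻¹ : (ZMod p)ˣ) : ZMod p) * a = ((c⁻¹ * Units.mk0 a ha : (ZMod p)ˣ) : ZMod p) := by
      rw [Units.val_mul]; rfl
    have h3 : a = ((Units.mk0 a ha : (ZMod p)ˣ) : ZMod p) := rfl
    rw [h2]
    conv_rhs => rw [h3]
    by_cases hj : ((c⁻¹ * Units.mk0 a ha : (ZMod p)ˣ) : (ZMod p)ˣ ⧸ (BrMain.om hz).range) = j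
    · rw [Ty.on j _ hj, Ty.on]
      rw [← hj, QuotientGroup.mk_mul, QuotientGroup.mk_inv, mul_inv_cancel_left]
    · rw [Ty.off j _ hj, Ty.off]
      intro h
      apply hj
      rw [QuotientGroup.mk_mul, QuotientGroup.mk_inv, h, inv_mul_cancel_left]

theorem theta_sum (hz : orderOf z = p) (hzp : z ^ p = 1) (Ty : Types hz hzp) (hε : Ty.ε = 1)
    {j1 j2 : (ZMod p)ˣ ⧸ (BrMain.om hz).range} (h12 : j1 ≠ j2) (hall : ∀ j, j = j1 ∨ j = j2) :
    (Ty.L j1 : G → ℂ) z + (Ty.L j2 : G → ℂ) z = -1 := by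
  classical
  have hz1 : zp p z (1 : ZMod p) = z := zp_one
  have e1 := char_eq_vv hzp (Ty.L j1) (j := (1 : ZMod p)) one_ne_zero
  have e2 := char_eq_vv hzp (Ty.L j2) (j := (1 : ZMod p)) one_ne_zero
  rw [hz1] at e1 e2
  rw [e1, e2]
  have h3 : ∀ a : ZMod p, (vv hzp (Ty.L j1) a : ℂ) * ee p (a * 1) + (vv hzp (Ty.L j2) a : ℂ) * ee p (a * 1) =
      (if a = 0 then 1 else 0) - ee p (1 * a) := by
    intro a
    rw [mul_one, one_mul]
    by_cases ha : a = 0
    · rw [ha, vv_zero, vv_zero, if_pos rfl, ee_zero]; simp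
    · rw [if_neg ha]
      have h3 : a = ((Units.mk0 a ha : (ZMod p)ˣ) : ZMod p) := rfl
      have h4 : vv hzp (Ty.L j1) a + vv hzp (Ty.L j2) a = -1 := by
        rw [h3]
        rcases hall ((Units.mk0 a ha : (ZMod p)ˣ) : (ZMod p)ˣ ⧸ (BrMain.om hz).range) with h | h
        · rw [Ty.on j1 _ h, Ty.off j2 _ (by rw [h]; exact h12), hε]; norm_num
        · rw [Ty.on j2 _ h, Ty.off j1 _ (by rw [h]; exact h12.symm), hε]; norm_num
      have h5 : ((vv hzp (Ty.L j1) a : ℂ)) + (vv hzp (Ty.L j2) a : ℂ) = -1 := by exact_mod_cast h4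
      linear_combination (ee p a) * h5
  have h4 : ∑ a : ZMod p, (vv hzp (Ty.L j1) a : ℂ) * ee p (a * 1) + ∑ a : ZMod p, (vv hzp (Ty.L j2) a : ℂ) * ee p (a * 1) = 1 := by
    rw [← Finset.sum_add_distrib, Finset.sum_congr rfl fun a _ => h3 a, Finset.sum_sub_distrib, sum_ee,
      if_neg one_ne_zero, Finset.sum_ite_eq' Finset.univ (0 : ZMod p), if_pos (Finset.mem_univ _), sub_zero]
  linear_combination -h4

theorem theta_norm (hz : orderOf z = p) (hzp : z ^ p = 1) (Ty : Types hz hzp)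
    (hC : ∀ y : G, y * z = z * y → y ∈ Subgroup.zpowers z) {c : (ZMod p)ˣ} (hc : c ∉ (BrMain.om hz).range)
    (hall : ∀ j : (ZMod p)ˣ ⧸ (BrMain.om hz).range, j = 1 ∨ j = c) :
    ((Ty.L 1 : G → ℂ) z - (Ty.L (c : (ZMod p)ˣ ⧸ (BrMain.om hz).range) : G → ℂ) z) *
      conj ((Ty.L 1 : G → ℂ) z - (Ty.L (c : (ZMod p)ˣ ⧸ (BrMain.om hz).range) : G → ℂ) z) = p := by
  classical
  haveI : Fintype (IrrCharacter G) := Fintype.ofFinite _
  have hz1 : zp p z (1 : ZMod p) = z := zp_one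
  have hc1 : (c : (ZMod p)ˣ ⧸ (BrMain.om hz).range) ≠ 1 := by
    intro h
    exact hc ((QuotientGroup.eq_one_iff c).1 h)
  have hcc : (c : (ZMod p)ˣ ⧸ (BrMain.om hz).range) * c = 1 := by
    rcases hall ((c : (ZMod p)ˣ ⧸ (BrMain.om hz).range) * c) with h | h
    · exact h
    · exact absurd (mul_eq_left.1 h) hc1
  have h1 := orth2 z z
  rw [if_pos (IsConj.refl _)] at h1
  have h2 := centralizer_zp hz hC (i := (1 : ZMod p)) one_ne_zero
  rw [hz1] at h2
  rw [h2, Nat.card_zpowers, hz] at h1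
  have h3 := orth2 z (zp p z (c : ZMod p))
  rw [if_neg] at h3
  · have h4 : ∑ χ : IrrCharacter G, ((χ : G → ℂ) z * conj ((χ : G → ℂ) z) - (χ : G → ℂ) z * conj ((χ : G → ℂ) (zp p z c))) = p := by
      rw [Finset.sum_sub_distrib, h1, h3, sub_zero]
    have hL1c : (Ty.L 1 : G → ℂ) (zp p z (c : ZMod p)) = (Ty.L (c : (ZMod p)ˣ ⧸ (BrMain.om hz).range) : G → ℂ) z := by
      have h5 := L_shift hz hzp Ty 1 c (i := 1) one_ne_zero
      rw [mul_one, mul_one, hz1] at h5
      exact h5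
    have hLcc : (Ty.L (c : (ZMod p)ˣ ⧸ (BrMain.om hz).range) : G → ℂ) (zp p z (c : ZMod p)) = (Ty.L 1 : G → ℂ) z := by
      have h5 := L_shift hz hzp Ty c c (i := 1) one_ne_zero
      rw [mul_one, hz1, hcc] at h5
      exact h5
    have hne : Ty.L (c : (ZMod p)ˣ ⧸ (BrMain.om hz).range) ≠ Ty.L 1 := fun h => hc1 (Ty.inj h)
    rw [← Finset.add_sum_erase _ _ (Finset.mem_univ (Ty.L 1)),
      ← Finset.add_sum_erase _ _ (Finset.mem_erase.2 ⟨hne, Finset.mem_univ _⟩), Finset.sum_eq_zero, add_zero, hL1c, hLcc] at h4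
    · rw [map_sub]
      linear_combination h4
    · intro χ hχ
      have hχ1 := (Finset.mem_erase.1 hχ).1
      have hχ2 := (Finset.mem_erase.1 (Finset.mem_erase.1 hχ).2).1
      rcases Ty.all χ with ⟨d, -, h⟩ | ⟨j, h⟩ | h
      · have e1 := nonexc_value hzp h (i := (1 : ZMod p)) one_ne_zero
        have e2 := nonexc_value hzp h (i := (c : ZMod p)) c.ne_zero
        rw [hz1] at e1
        rw [e1, e2, sub_self]
      · exfalso
        rcases hall j with h' | h'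
        · rw [h'] at h; exact hχ2 h.symm
        · rw [h'] at h; exact hχ1 h.symm
      · have e1 := nonexc_value hzp (d := 0) h (i := (1 : ZMod p)) one_ne_zero
        rw [hz1] at e1
        rw [e1]; simp
  · intro h4
    have h5 : IsConj (zp p z 1) (zp p z (c : ZMod p)) := by rw [hz1]; exact h4
    obtain ⟨h, hh, h6⟩ := (isConj_iff_om hz one_ne_zero).1 h5
    rw [mul_one] at h6
    apply hc
    have : c = h := Units.ext h6
    rw [this]; exact hh

end exc

end Cfsg.Agent.H9.Deg2p
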