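import Mathlib
import Cfsg.Agent.H9_Deg2p

/-!
# Degree 2p: the exceptional case does not occur
-/

set_option autoImplicit false

open scoped ComplexConjugate

namespace Cfsg.Agent.H9.Deg2p

open Cfsg Cfsg.Agent.H3.CharIrr Cfsg.Agent.H3.CharComplete Cfsg.Agent.H3.CharMult Cfsg.Agent.H10.Char Cfsg.Agent.H10.BlockKer
  Cfsg.Agent.H9.BrVec Cfsg.Agent.H9.BrMain Cfsg.Agent.H9.BrThm Cfsg.Agent.H9.BrCor Cfsg.Agent.H9.BrSC Cfsg.Agent.H9.Comm

variable {G : Type*} [Group G] [Fintype G] {Ω : Type*} [Fintype Ω] [MulAction G Ω]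

theorem expand4 [MulAction.IsPretransitive G Ω] [Nonempty Ω] {a : Ω → Ω → ℤ} (ha : ∀ (g : G) x y, a (g • x) (g • y) = a x y)
    {k : ℕ} (hk : ∀ x, ∑ y, a x y = k) {χ₁ χ₂ χ₃ : IrrCharacter G} (h12 : χ₁ ≠ χ₂) (h13 : χ₁ ≠ χ₃) (h23 : χ₂ ≠ χ₃)
    (h1 : χ₁ ≠ triv G) (h2 : χ₂ ≠ triv G) (h3 : χ₃ ≠ triv G)
    (h0 : ∀ χ : IrrCharacter G, χ ≠ triv G → χ ≠ χ₁ → χ ≠ χ₂ → χ ≠ χ₃ → ml G Ω χ = 0) (g : G) :
    fk G a g = k + classInner (fk G a) (χ₁ : G → ℂ) * (χ₁ : G → ℂ) g + classInner (fk G a) (χ₂ : G → ℂ) * (χ₂ : G → ℂ) g +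
      classInner (fk G a) (χ₃ : G → ℂ) * (χ₃ : G → ℂ) g := by
  classical
  haveI : Fintype (IrrCharacter G) := Fintype.ofFinite _
  rw [expand_apply (fk G a) (fk_class ha) g, ← Finset.add_sum_erase _ _ (Finset.mem_univ (triv G)),
    ← Finset.add_sum_erase _ _ (Finset.mem_erase.2 ⟨h1, Finset.mem_univ χ₁⟩),
    ← Finset.add_sum_erase _ _ (Finset.mem_erase.2 ⟨h12.symm, Finset.mem_erase.2 ⟨h2, Finset.mem_univ χ₂⟩⟩),
    ← Finset.add_sum_erase _ _ (Finset.mem_erase.2 ⟨h23.symm, Finset.mem_erase.2 ⟨h13.symm, Finset.mem_erase.2 ⟨h3, Finset.mem_univ χ₃⟩⟩⟩)]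
  rw [Finset.sum_eq_zero, add_zero]
  · have h3 : classInner (fk G a) ((triv G : IrrCharacter G) : G → ℂ) = k := inner_triv hk
    rw [h3, triv_coe, mul_one]
    ring
  · intro χ hχ
    have e1 := Finset.mem_erase.1 hχ
    have e2 := Finset.mem_erase.1 e1.2
    have e3 := Finset.mem_erase.1 e2.2
    have e4 := Finset.mem_erase.1 e3.2
    have h4 := h0 χ e4.1 e3.1 e2.1 e1.1
    rw [inner_fk_zero ha χ.2, zero_mul]
    rw [ml_spec, h4, Nat.cast_zero]

theorem orb_01 (u v x y : Ω) : orb G u v x y = 0 ∨ orb G u v x y = 1 := by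
  unfold orb
  split_ifs
  · right; rfl
  · left; rfl

/-- the orbital attached to a pair and the transposed one -/
theorem orb_row' [MulAction.IsPretransitive G Ω] (u v y : Ω) :
    ∑ x, orb G u v x y = (Nat.card (MulAction.orbit (MulAction.stabilizer G v) u) : ℤ) := by
  rw [← orb_row v u y]
  apply Finset.sum_congr rfl
  intro x _
  unfold orb
  congr 1
  apply propext
  constructor
  · rintro ⟨g, h1, h2⟩; exact ⟨g, h2, h1⟩
  · rintro ⟨g, h1, h2⟩; exact ⟨g, h2, h1⟩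

variable {p : ℕ} [hp : Fact p.Prime] {z : G}

/-- the sum over the two classes of elements of order p -/
theorem orbital_S [MulAction.IsPretransitive G Ω] (hΩ : Fintype.card Ω = 2 * p) (hz : orderOf z = p) (hzp : z ^ p = 1)
    (hC : ∀ y : G, y * z = z * y → y ∈ Subgroup.zpowers z) (hfree : ∀ x : Ω, z • x ≠ x) (Ty : Types hz hzp) (hε : Ty.ε = 1)
    {e : ℕ} (he : p = 2 * e + 1) (heH : Nat.card (BrMain.om hz).range = e) {c : (ZMod p)ˣ} (hc : c ∉ (BrMain.om hz).range)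
    (hall : ∀ j : (ZMod p)ˣ ⧸ (BrMain.om hz).range, j = 1 ∨ j = c)
    (χ : IrrCharacter G) (hχt : χ ≠ triv G) (hχm : ml G Ω χ = 1) (hχd : charDegree (χ : G → ℂ) = p)
    (hχv : ∀ a : (ZMod p)ˣ, vv hzp χ a = 0)
    (hL : ∀ j, Ty.L j ≠ triv G ∧ Ty.L j ≠ χ ∧ ml G Ω (Ty.L j) = 1 ∧ mu hzp (Ty.L j) 0 = 0)
    (h0 : ∀ φ : IrrCharacter G, φ ≠ triv G → φ ≠ χ → (∀ j, Ty.L j ≠ φ) → ml G Ω φ = 0)
    (hk : ∀ a b : Ω, b ≠ a → 2 ≤ Nat.card (MulAction.orbit (MulAction.stabilizer G a) b)) (a₀ b : Ω) (hb : b ≠ a₀) :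
    ∃ d1 d2 : ℕ, ∑ x, orb G a₀ b x (z • x) = (p : ℤ) * d1 ∧ ∑ x, orb G a₀ b x (zp p z (c : ZMod p) • x) = (p : ℤ) * d2 ∧ 2 ≤ d1 + d2 := by
  classical
  haveI : Nonempty Ω := ⟨a₀⟩
  have hp0 := hp.out.pos
  have hz1 : zp p z (1 : ZMod p) = z := zp_one
  have hc1 : (c : (ZMod p)ˣ ⧸ (BrMain.om hz).range) ≠ 1 := fun h => hc ((QuotientGroup.eq_one_iff c).1 h)
  have hcc : (c : (ZMod p)ˣ ⧸ (BrMain.om hz).range) * c = 1 := by
    rcases hall ((c : (ZMod p)ˣ ⧸ (BrMain.om hz).range) * c) with h | h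
    · exact h
    · exact absurd (mul_eq_left.1 h) hc1
  have hL1c : (Ty.L 1 : G → ℂ) (zp p z (c : ZMod p)) = (Ty.L (c : (ZMod p)ˣ ⧸ (BrMain.om hz).range) : G → ℂ) z := by
    have h5 := L_shift hz hzp Ty 1 c (i := 1) one_ne_zero
    rw [mul_one, mul_one, hz1] at h5
    exact h5
  have hLcc : (Ty.L (c : (ZMod p)ˣ ⧸ (BrMain.om hz).range) : G → ℂ) (zp p z (c : ZMod p)) = (Ty.L 1 : G → ℂ) z := by
    have h5 := L_shift hz hzp Ty c c (i := 1) one_ne_zero
    rw [mul_one, hz1, hcc] at h5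
    exact h5
  have hdegL : ∀ j, (Ty.L j : G → ℂ) 1 = e := by
    intro j
    have e1 := exc_degree hzp (BrMain.om hz).range j (Ty.on j) (Ty.off j)
    rw [(hL j).2.2.2, hε, heH, Nat.cast_zero, mul_zero, zero_add, one_mul] at e1
    rw [← charDegree_eq (Ty.L j).2]
    exact_mod_cast e1
  have hχz : (χ : G → ℂ) z = 0 := by
    have e1 := nonexc_value hzp (d := 0) hχv (i := (1 : ZMod p)) one_ne_zero
    rw [hz1] at e1
    rw [e1, Int.cast_zero]
  have hχc : (χ : G → ℂ) (zp p z (c : ZMod p)) = 0 := by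
    rw [nonexc_value hzp (d := 0) hχv (i := (c : ZMod p)) c.ne_zero, Int.cast_zero]
  set A := orb G a₀ b with hA
  set k := Nat.card (MulAction.orbit (MulAction.stabilizer G a₀) b) with hkdef
  have ha : ∀ (g : G) x y, A (g • x) (g • y) = A x y := orb_eqv a₀ b
  have haT : ∀ (g : G) x y, (fun x y => A y x) (g • x) (g • y) = (fun x y => A y x) x y := fun g x y => orb_eqv a₀ b g y x
  have hrow : ∀ x, ∑ y, A x y = k := fun x => orb_row a₀ b x
  have hcol : ∀ y, ∑ x, A x y = k := by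
    intro y
    have h1 : ∀ y, ∑ x, A x y = (Nat.card (MulAction.orbit (MulAction.stabilizer G b) a₀) : ℤ) := fun y => orb_row' a₀ b y
    have h2 : ∑ y : Ω, ∑ x : Ω, A x y = ∑ x : Ω, ∑ y : Ω, A x y := Finset.sum_comm
    rw [Finset.sum_congr rfl fun y _ => h1 y, Finset.sum_congr rfl fun x _ => hrow x, Finset.sum_const, Finset.sum_const,
      Finset.card_univ, hΩ, nsmul_eq_mul, nsmul_eq_mul] at h2
    rw [h1]
    have h3 : (((2 * p : ℕ)) : ℤ) ≠ 0 := by
      have := hp.out.pos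
      omega
    exact mul_left_cancel₀ h3 h2
  have haP : ∀ (g : G) x y, (fun x y => ∑ w, A x w * (fun x y => A y x) w y) (g • x) (g • y) =
      (fun x y => ∑ w, A x w * (fun x y => A y x) w y) x y := by
    intro g x y
    beta_reduce
    rw [← Equiv.sum_comp (MulAction.toPerm g)]
    apply Finset.sum_congr rfl
    intro w _
    change A (g • x) (g • w) * A (g • y) (g • w) = _
    rw [ha, ha]
  have hrowP : ∀ x, ∑ y, (fun x y => ∑ w, A x w * (fun x y => A y x) w y) x y = ((k ^ 2 : ℕ) : ℤ) := by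
    intro x
    beta_reduce
    rw [Finset.sum_comm]
    simp only [← Finset.mul_sum, hcol]
    rw [← Finset.sum_mul, hrow]
    push_cast
    ring
  have hidem : ∀ x w, A x w * A x w = A x w := by
    intro x w
    rcases orb_01 (G := G) a₀ b x w with h | h
    · change A x w = 0 at h; rw [h]; rfl
    · change A x w = 1 at h; rw [h]; rfl
  have hLne : Ty.L 1 ≠ Ty.L (c : (ZMod p)ˣ ⧸ (BrMain.om hz).range) := fun h => hc1 (Ty.inj h).symm
  have h0' : ∀ φ : IrrCharacter G, φ ≠ triv G → φ ≠ χ → φ ≠ Ty.L 1 → φ ≠ Ty.L (c : (ZMod p)ˣ ⧸ (BrMain.om hz).range) → ml G Ω φ = 0 := by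
    intro φ h1 h2 h3 h4
    apply h0 φ h1 h2
    intro j h5
    rcases hall j with h6 | h6
    · rw [h6] at h5; exact h3 h5.symm
    · rw [h6] at h5; exact h4 h5.symm
  have EX := fun g => expand4 ha hrow (hL 1).2.1.symm (hL c).2.1.symm hLne hχt (hL 1).1 (hL c).1 h0' g
  have EXP := expand4 haP hrowP (hL 1).2.1.symm (hL c).2.1.symm hLne hχt (hL 1).1 (hL c).1 h0' 1
  rw [inner_mul ha haT χ hχm, inner_mul ha haT (Ty.L 1) (hL 1).2.2.1, inner_mul ha haT (Ty.L c) (hL c).2.2.1,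
    inner_transpose (a := A) χ, inner_transpose (a := A) (Ty.L 1), inner_transpose (a := A) (Ty.L c)] at EXP
  set s := classInner (fk G A) (χ : G → ℂ) with hs
  set η1 := classInner (fk G A) (Ty.L 1 : G → ℂ) with hη1
  set η2 := classInner (fk G A) (Ty.L (c : (ZMod p)ˣ ⧸ (BrMain.om hz).range) : G → ℂ) with hη2
  have hχ1 : (χ : G → ℂ) 1 = p := by rw [← charDegree_eq χ.2, hχd]
  obtain ⟨d1, hd1⟩ := exists_count (Ω := Ω) hz hfree (F := fun x => A x (z • x)) (fun x => orb_01 a₀ b _ _)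
    (fun x => ha z x (z • x))
  have hcomm : z * zp p z (c : ZMod p) = zp p z (c : ZMod p) * z := by
    have := zp_add hzp (1 : ZMod p) (c : ZMod p)
    rw [hz1] at this
    rw [← this, add_comm, zp_add hzp, hz1]
  obtain ⟨d2, hd2⟩ := exists_count (Ω := Ω) hz hfree (F := fun x => A x (zp p z (c : ZMod p) • x)) (fun x => orb_01 a₀ b _ _)
    (fun x => by
      have h1 : zp p z (c : ZMod p) • z • x = z • zp p z (c : ZMod p) • x := by
        rw [← mul_smul, ← mul_smul, hcomm]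
      rw [h1]
      exact ha z x _)
  have hle : ∀ (F : Ω → ℤ) (d : ℕ), (∀ x, F x = 0 ∨ F x = 1) → ∑ x, F x = (p : ℤ) * d → d ≤ 2 := by
    intro F d hF hd
    have h1 : ∑ x, F x ≤ ∑ x : Ω, (1 : ℤ) := Finset.sum_le_sum fun x _ => by rcases hF x with h | h <;> omega
    rw [hd, Finset.sum_const, Finset.card_univ, hΩ, nsmul_eq_mul, mul_one] at h1
    have h2 : p * d ≤ p * 2 := by
      have : (p : ℤ) * d ≤ p * 2 := by push_cast at h1; linarith
      exact_mod_cast this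
    exact Nat.le_of_mul_le_mul_left h2 hp0
  refine ⟨d1, d2, hd1, hd2, ?_⟩
  have E1 := EX 1
  have E2 := EX z
  have E2' := EX (zp p z (c : ZMod p))
  rw [hdegL, hdegL, hχ1] at E1
  have hf1 : fk G A 1 = 0 := fk_orb_one hb.symm
  rw [hf1] at E1
  have hf2 : fk G A z = (p : ℂ) * d1 := by
    unfold fk
    exact_mod_cast hd1
  have hf2' : fk G A (zp p z (c : ZMod p)) = (p : ℂ) * d2 := by
    unfold fk
    exact_mod_cast hd2
  rw [hf2, hχz] at E2
  rw [hf2', hχc, hL1c, hLcc] at E2'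
  have E3 : fk G (fun x y => ∑ w, A x w * (fun x y => A y x) w y) 1 = 2 * p * k := by
    unfold fk
    have h3 : ∀ x : Ω, (((fun x y => ∑ w, A x w * (fun x y => A y x) w y) x ((1 : G) • x) : ℤ) : ℂ) = k := by
      intro x
      rw [one_smul]
      beta_reduce
      have h4 : ∑ w, A x w * A x w = k := by
        rw [← hrow x]
        exact Finset.sum_congr rfl fun w _ => hidem x w
      rw [h4]
      simp
    rw [Finset.sum_congr rfl fun x _ => h3 x, Finset.sum_const, Finset.card_univ, hΩ, nsmul_eq_mul]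
    push_cast
    ring
  rw [E3, hdegL, hdegL, hχ1] at EXP
  have hθ : (Ty.L 1 : G → ℂ) z + (Ty.L (c : (ZMod p)ˣ ⧸ (BrMain.om hz).range) : G → ℂ) z = -1 :=
    theta_sum hz hzp Ty hε hc1.symm hall
  have hθ' := theta_norm hz hzp Ty hC hc hall
  refine arith2 (p := p) (e := e) (k := k) (s := s) (η1 := η1) (η2 := η2) hp.out he (hk a₀ b hb) (hle _ d1 (fun x => orb_01 a₀ b _ _) hd1)
    (hle _ d2 (fun x => orb_01 a₀ b _ _) hd2) ?_ ?_ ?_ ?_ hθ hθ'
  · linear_combination E1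
  · linear_combination E2
  · linear_combination E2'
  · push_cast at EXP
    linear_combination EXP

/-- three different nontrivial suborbits in a group of rank 4 -/
theorem exists_three [MulAction.IsPretransitive G Ω] (a₀ : Ω)
    (hrank : Nat.card (MulAction.orbitRel.Quotient (MulAction.stabilizer G a₀) Ω) = 4) :
    ∃ b : Fin 3 → Ω, (∀ i, b i ≠ a₀) ∧ ∀ i j, i ≠ j → ∀ g : G, g • a₀ = a₀ → g • b i ≠ b j := by
  classical
  haveI : Fintype (MulAction.orbitRel.Quotient (MulAction.stabilizer G a₀) Ω) := Fintype.ofFinite _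
  set q : MulAction.orbitRel.Quotient (MulAction.stabilizer G a₀) Ω := Quotient.mk'' a₀ with hq
  have hc : Fintype.card {x : MulAction.orbitRel.Quotient (MulAction.stabilizer G a₀) Ω // x ≠ q} = 3 := by
    rw [Fintype.card_subtype_compl, Fintype.card_subtype_eq, ← Nat.card_eq_fintype_card, hrank]
  have e : Fin 3 ≃ {x : MulAction.orbitRel.Quotient (MulAction.stabilizer G a₀) Ω // x ≠ q} :=
    (Fintype.equivFinOfCardEq hc).symm
  refine ⟨fun i => Quotient.out (e i).1, ?_, ?_⟩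
  · intro i h
    apply (e i).2
    have h' : Quotient.out (e i).1 = a₀ := h
    have h1 : (e i).1 = Quotient.mk'' a₀ := (Quotient.out_eq' (e i).1).symm.trans (congrArg Quotient.mk'' h')
    exact h1.trans hq.symm
  · intro i j hij g hg h
    apply hij
    apply e.injective
    apply Subtype.ext
    rw [← Quotient.out_eq' (e i).1, ← Quotient.out_eq' (e j).1]
    apply Quotient.sound'
    rw [MulAction.orbitRel_apply]
    refine ⟨⟨g⁻¹, ?_⟩, ?_⟩
    · rw [MulAction.mem_stabilizer_iff, inv_smul_eq_iff, hg]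
    · change g⁻¹ • Quotient.out (e j).1 = Quotient.out (e i).1
      have h' : g • Quotient.out (e i).1 = Quotient.out (e j).1 := h
      rw [← h', inv_smul_smul]

theorem contra [MulAction.IsPretransitive G Ω] [Nonempty Ω] (hΩ : Fintype.card Ω = 2 * p) (hz : orderOf z = p) (hzp : z ^ p = 1)
    (hC : ∀ y : G, y * z = z * y → y ∈ Subgroup.zpowers z) (hfree : ∀ x : Ω, z • x ≠ x) (Ty : Types hz hzp) (hε : Ty.ε = 1)
    {e : ℕ} (he : p = 2 * e + 1) (heH : Nat.card (BrMain.om hz).range = e)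
    (hQ : Nat.card ((ZMod p)ˣ ⧸ (BrMain.om hz).range) = 2)
    (χ : IrrCharacter G) (hχt : χ ≠ triv G) (hχm : ml G Ω χ = 1) (hχd : charDegree (χ : G → ℂ) = p)
    (hχv : ∀ a : (ZMod p)ˣ, vv hzp χ a = 0)
    (hL : ∀ j, Ty.L j ≠ triv G ∧ Ty.L j ≠ χ ∧ ml G Ω (Ty.L j) = 1 ∧ mu hzp (Ty.L j) 0 = 0)
    (h0 : ∀ φ : IrrCharacter G, φ ≠ triv G → φ ≠ χ → (∀ j, Ty.L j ≠ φ) → ml G Ω φ = 0)
    (hk : ∀ a b : Ω, b ≠ a → 2 ≤ Nat.card (MulAction.orbit (MulAction.stabilizer G a) b)) : False := by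
  classical
  haveI : Fintype (IrrCharacter G) := Fintype.ofFinite _
  obtain ⟨a₀⟩ := ‹Nonempty Ω›
  haveI : Nonempty Ω := ⟨a₀⟩
  -- the nontrivial coset
  obtain ⟨u, v, huv, hall⟩ := Nat.card_eq_two_iff.1 hQ
  obtain ⟨j, hj1, hj⟩ : ∃ j : (ZMod p)ˣ ⧸ (BrMain.om hz).range, j ≠ 1 ∧ ∀ i, i = 1 ∨ i = j := by
    have h1 : (1 : (ZMod p)ˣ ⧸ (BrMain.om hz).range) ∈ ({u, v} : Set ((ZMod p)ˣ ⧸ (BrMain.om hz).range)) := by rw [hall]; trivial
    have h2 : ∀ i, i = u ∨ i = v := by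
      intro i
      have h3 : i ∈ ({u, v} : Set ((ZMod p)ˣ ⧸ (BrMain.om hz).range)) := by rw [hall]; trivial
      exact h3
    rcases h1 with h1 | h1
    · exact ⟨v, by rw [h1]; exact huv.symm, fun i => by rw [h1]; exact h2 i⟩
    · have h1' : (1 : (ZMod p)ˣ ⧸ (BrMain.om hz).range) = v := h1
      exact ⟨u, by rw [h1']; exact huv, fun i => by rw [h1']; exact (h2 i).symm⟩
  obtain ⟨c, rfl⟩ := QuotientGroup.mk_surjective j
  have hc : c ∉ (BrMain.om hz).range := fun h => hj1 ((QuotientGroup.eq_one_iff c).2 h)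
  -- the rank
  have hc1 : (c : (ZMod p)ˣ ⧸ (BrMain.om hz).range) ≠ 1 := hj1
  have hLne : Ty.L 1 ≠ Ty.L (c : (ZMod p)ˣ ⧸ (BrMain.om hz).range) := fun h => hc1 (Ty.inj h).symm
  have hrank : Nat.card (MulAction.orbitRel.Quotient (MulAction.stabilizer G a₀) Ω) = 4 := by
    rw [← rank_sum a₀, ← Finset.add_sum_erase _ _ (Finset.mem_univ (triv G)),
      ← Finset.add_sum_erase _ _ (Finset.mem_erase.2 ⟨hχt, Finset.mem_univ χ⟩),
      ← Finset.add_sum_erase _ _ (Finset.mem_erase.2 ⟨(hL 1).2.1, Finset.mem_erase.2 ⟨(hL 1).1, Finset.mem_univ (Ty.L 1)⟩⟩),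
      ← Finset.add_sum_erase _ _ (Finset.mem_erase.2 ⟨hLne.symm, Finset.mem_erase.2 ⟨(hL c).2.1, Finset.mem_erase.2 ⟨(hL c).1, Finset.mem_univ (Ty.L c)⟩⟩⟩),
      Finset.sum_eq_zero, ml_triv, hχm, (hL 1).2.2.1, (hL c).2.2.1]
    · norm_num
    · intro φ hφ
      have e1 := Finset.mem_erase.1 hφ
      have e2 := Finset.mem_erase.1 e1.2
      have e3 := Finset.mem_erase.1 e2.2
      have e4 := Finset.mem_erase.1 e3.2
      rw [h0 φ e4.1 e3.1, zero_pow two_ne_zero]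
      intro i h5
      rcases hj i with h6 | h6
      · rw [h6] at h5; exact e2.1 h5.symm
      · rw [h6] at h5; exact e1.1 h5.symm
  obtain ⟨b, hb, hbd⟩ := exists_three a₀ hrank
  have key := fun i => orbital_S hΩ hz hzp hC hfree Ty hε he heH hc hj χ hχt hχm hχd hχv hL h0 hk a₀ (b i) (hb i)
  choose d1 d2 hd1 hd2 hd using key
  -- disjointness
  have hdis : ∀ x y, ∑ i, orb G a₀ (b i) x y ≤ 1 := by
    intro x y
    by_cases hex : ∃ i, orb G a₀ (b i) x y = 1
    · obtain ⟨i, hi⟩ := hex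
      rw [← Finset.add_sum_erase _ _ (Finset.mem_univ i), hi, Finset.sum_eq_zero, add_zero]
      intro i' hi'
      rcases orb_01 (G := G) a₀ (b i') x y with h | h
      · exact h
      · exfalso
        have hii := Finset.ne_of_mem_erase hi'
        unfold orb at hi h
        have h1 : ∃ g : G, g • a₀ = x ∧ g • b i = y := by
          by_contra hcon
          rw [if_neg hcon] at hi
          exact zero_ne_one hi
        have h2 : ∃ g : G, g • a₀ = x ∧ g • b i' = y := by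
          by_contra hcon
          rw [if_neg hcon] at h
          exact zero_ne_one h
        obtain ⟨g, hg1, hg2⟩ := h1
        obtain ⟨g', hg1', hg2'⟩ := h2
        apply hbd i' i hii (g⁻¹ * g')
        · rw [mul_smul, hg1', ← hg1, inv_smul_smul]
        · rw [mul_smul, hg2', ← hg2, inv_smul_smul]
    · push Not at hex
      rw [Finset.sum_eq_zero]
      · norm_num
      · intro i _
        rcases orb_01 (G := G) a₀ (b i) x y with h | h
        · exact h
        · exact absurd h (hex i)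
  have hsum : ∀ (g : G) (d : Fin 3 → ℕ), (∀ i, ∑ x, orb G a₀ (b i) x (g • x) = (p : ℤ) * d i) → ∑ i, d i ≤ 2 := by
    intro g d hgd
    have h1 : ∑ i, ∑ x, orb G a₀ (b i) x (g • x) ≤ 2 * p := by
      rw [Finset.sum_comm]
      calc ∑ x : Ω, ∑ i, orb G a₀ (b i) x (g • x) ≤ ∑ x : Ω, (1 : ℤ) := Finset.sum_le_sum fun x _ => hdis x _
        _ = 2 * p := by rw [Finset.sum_const, Finset.card_univ, hΩ, nsmul_eq_mul, mul_one]; push_cast; ring
    rw [Finset.sum_congr rfl fun i _ => hgd i, ← Finset.mul_sum] at h1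
    have h2 : p * ∑ i, d i ≤ p * 2 := by
      have h3 : (p : ℤ) * ∑ i, (d i : ℤ) ≤ p * 2 := by linarith
      exact_mod_cast h3
    exact Nat.le_of_mul_le_mul_left h2 hp.out.pos
  have s1 := hsum z d1 hd1
  have s2 := hsum (zp p z (c : ZMod p)) d2 hd2
  rw [Fin.sum_univ_three] at s1 s2
  have h1 := hd 0
  have h2 := hd 1
  have h3 := hd 2
  omega

end Cfsg.Agent.H9.Deg2p
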