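import Mathlib
import Cfsg.Agent.H9_Comm4

/-!
# Rank 3 groups of degree 2m
-/

set_option autoImplicit false

namespace Cfsg.Agent.H9.Rank3

open Cfsg Cfsg.Agent.H9.Comm Cfsg.Agent.H3.CharIrr Cfsg.Agent.H3.CharComplete Cfsg.Agent.H10.BlockKer

theorem bound {G : Type*} [Group G] [Fintype G] {Ω : Type*} [Fintype Ω] [MulAction G Ω] {m : ℕ} (hm : Fintype.card Ω = 2 * m) (a : Ω)
    (hrank : Nat.card (MulAction.orbitRel.Quotient (MulAction.stabilizer G a) Ω) = 3)
    (h2 : ∀ b : Ω, b ≠ a → 2 ≤ Nat.card (MulAction.orbit (MulAction.stabilizer G a) b)) (b : Ω) (hba : b ≠ a) :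
    2 ≤ Nat.card (MulAction.orbit (MulAction.stabilizer G a) b) ∧ Nat.card (MulAction.orbit (MulAction.stabilizer G a) b) + 3 ≤ 2 * m := by
  classical
  haveI : Fintype (MulAction.orbitRel.Quotient (MulAction.stabilizer G a) Ω) := Fintype.ofFinite _
  have ho := sum_orbits (Ω := Ω) (MulAction.stabilizer G a)
  refine ⟨h2 b hba, ?_⟩
  set q : MulAction.orbitRel.Quotient (MulAction.stabilizer G a) Ω := Quotient.mk'' a with hq
  set q1 : MulAction.orbitRel.Quotient (MulAction.stabilizer G a) Ω := Quotient.mk'' b with hq1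
  have hne : q1 ≠ q := by
    intro h
    have h5 : MulAction.orbitRel (MulAction.stabilizer G a) Ω b a := Quotient.exact h
    rw [MulAction.orbitRel_apply] at h5
    obtain ⟨g, hg⟩ := h5
    exact hba (hg.symm.trans g.2)
  have hq1m : q1 ∈ Finset.univ.erase q := Finset.mem_erase.2 ⟨hne, Finset.mem_univ _⟩
  have hc1 : ((Finset.univ.erase q).erase q1).card = 1 := by
    rw [Finset.card_erase_of_mem hq1m, Finset.card_erase_of_mem (Finset.mem_univ _), Finset.card_univ, ← Nat.card_eq_fintype_card, hrank]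
  obtain ⟨q2, hq2⟩ := Finset.card_eq_one.1 hc1
  rw [← Finset.add_sum_erase _ _ (Finset.mem_univ q), ← Finset.add_sum_erase _ _ hq1m, hq2, Finset.sum_singleton, hm] at ho
  have hqo : Nat.card q.orbit = 1 := by
    rw [hq, MulAction.orbitRel.Quotient.orbit_mk, Nat.card_coe_set_eq, Set.ncard_eq_one]
    refine ⟨a, ?_⟩
    ext y
    constructor
    · rintro ⟨g, rfl⟩
      exact g.2
    · rintro rfl
      exact MulAction.mem_orbit_self _
  have e : q1.orbit = MulAction.orbit (MulAction.stabilizer G a) b := MulAction.orbitRel.Quotient.orbit_mk b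
  have hq2' : q2 ∈ (Finset.univ.erase q).erase q1 := by rw [hq2]; exact Finset.mem_singleton_self _
  have hq2a : q2 ≠ q := (Finset.mem_erase.1 (Finset.mem_erase.1 hq2').2).1
  have h3 : 2 ≤ Nat.card q2.orbit := by
    clear_value q
    revert hq2a
    induction q2 using Quotient.inductionOn'
    rename_i c
    intro hca
    have e2 : MulAction.orbitRel.Quotient.orbit (Quotient.mk'' c : MulAction.orbitRel.Quotient (MulAction.stabilizer G a) Ω) =
        MulAction.orbit (MulAction.stabilizer G a) c := MulAction.orbitRel.Quotient.orbit_mk c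
    rw [e2]
    apply h2
    rintro rfl
    exact hca hq.symm
  rw [hqo, e] at ho
  omega



theorem main {G : Type*} [Group G] [Fintype G] {Ω : Type*} [Fintype Ω] [MulAction G Ω] [MulAction.IsPretransitive G Ω] {m : ℕ}
    (hm : Fintype.card Ω = 2 * m) (a₀ : Ω)
    (hrank : Nat.card (MulAction.orbitRel.Quotient (MulAction.stabilizer G a₀) Ω) = 3)
    (hbound : ∀ b : Ω, b ≠ a₀ → 2 ≤ Nat.card (MulAction.orbit (MulAction.stabilizer G a₀) b) ∧ Nat.card (MulAction.orbit (MulAction.stabilizer G a₀) b) + 3 ≤ 2 * m)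
    (χ₁ χ₂ : G → ℂ) (h₁ : Cfsg.IsIrrCharacter G χ₁) (h₂ : Cfsg.IsIrrCharacter G χ₂)
    (hπ : (fun g : G => (Nat.card (MulAction.fixedBy Ω g) : ℂ)) = fun g => 1 + χ₁ g + χ₂ g)
    (hd₁ : χ₁ 1 = (m : ℂ) - 1) (hd₂ : χ₂ 1 = m) :
    ∃ a : ℕ, 0 < a ∧ m = 2 * a ^ 2 + 2 * a + 1 ∧ ∀ b : Ω, b ≠ a₀ →
      Nat.card (MulAction.orbit (MulAction.stabilizer G a₀) b) = a * (2 * a + 1) ∨
      Nat.card (MulAction.orbit (MulAction.stabilizer G a₀) b) = (a + 1) * (2 * a + 1) := by
  classical
  haveI : Nonempty Ω := ⟨a₀⟩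
  haveI : Fintype (IrrCharacter G) := Fintype.ofFinite _
  set X₁ : IrrCharacter G := ⟨χ₁, h₁⟩ with hX₁
  set X₂ : IrrCharacter G := ⟨χ₂, h₂⟩ with hX₂
  have h12 : X₁ ≠ X₂ := by
    intro h
    have h3 : χ₁ = χ₂ := congrArg Subtype.val h
    rw [h3, hd₂] at hd₁
    have : (1 : ℂ) = 0 := by linear_combination hd₁
    exact one_ne_zero this
  have hπ' : pch G Ω = (fun _ => (1 : ℂ)) + χ₁ + χ₂ := hπ
  have hml : ∀ χ : IrrCharacter G, (ml G Ω χ : ℂ) = (if triv G = χ then 1 else 0) + (if X₁ = χ then 1 else 0) + (if X₂ = χ then 1 else 0) := by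
    intro χ
    rw [← ml_spec, hπ', ci_add_left, ci_add_left]
    have e1 : classInner (fun _ => (1 : ℂ)) (χ : G → ℂ) = if triv G = χ then 1 else 0 := by
      by_cases h : triv G = χ
      · rw [if_pos h, ← h]; exact ci_irr_self (triv G).2
      · rw [if_neg h]; exact ci_irr_ne (triv G).2 χ.2 (fun h' => h (Subtype.ext h'))
    have e2 : classInner χ₁ (χ : G → ℂ) = if X₁ = χ then 1 else 0 := by
      by_cases h : X₁ = χ
      · rw [if_pos h, ← h]; exact ci_irr_self h₁
      · rw [if_neg h]; exact ci_irr_ne h₁ χ.2 (fun h' => h (Subtype.ext h'))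
    have e3 : classInner χ₂ (χ : G → ℂ) = if X₂ = χ then 1 else 0 := by
      by_cases h : X₂ = χ
      · rw [if_pos h, ← h]; exact ci_irr_self h₂
      · rw [if_neg h]; exact ci_irr_ne h₂ χ.2 (fun h' => h (Subtype.ext h'))
    rw [e1, e2, e3]
  have h1t : X₁ ≠ triv G := by
    intro h
    have h3 := hml (triv G)
    rw [ml_triv, if_pos rfl, if_pos h, if_neg (fun h' => h12 (h.trans h'.symm))] at h3
    norm_num at h3
  have h2t : X₂ ≠ triv G := by
    intro h
    have h3 := hml (triv G)
    rw [ml_triv, if_pos rfl, if_pos h, if_neg (fun h' => h12 (h'.trans h.symm))] at h3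
    norm_num at h3
  have hml1 : ml G Ω X₁ = 1 := by
    have h3 := hml X₁
    rw [if_neg h1t.symm, if_pos rfl, if_neg h12.symm] at h3
    norm_num at h3
    exact h3
  have hml2 : ml G Ω X₂ = 1 := by
    have h3 := hml X₂
    rw [if_neg h2t.symm, if_neg h12, if_pos rfl] at h3
    norm_num at h3
    exact h3
  have hml0 : ∀ χ : IrrCharacter G, χ ≠ triv G → χ ≠ X₁ → χ ≠ X₂ → ml G Ω χ = 0 := by
    intro χ h3 h4 h5
    have h6 := hml χ
    rw [if_neg h3.symm, if_neg h4.symm, if_neg h5.symm] at h6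
    norm_num at h6
    exact h6
  -- reality
  have hconj : ∀ χ : IrrCharacter G, ml G Ω ⟨_, Cfsg.Agent.H3.CharInd.IsIrr.conj χ.2⟩ = ml G Ω χ := by
    intro χ
    have h3 := ml_spec (Ω := Ω) (⟨_, Cfsg.Agent.H3.CharInd.IsIrr.conj χ.2⟩ : IrrCharacter G)
    have h4 := ml_spec (Ω := Ω) χ
    have h5 : classInner (pch G Ω) (fun g => (starRingEnd ℂ) ((χ : G → ℂ) g)) = (starRingEnd ℂ) (classInner (pch G Ω) (χ : G → ℂ)) := by
      unfold classInner
      rw [map_mul, map_sum, map_inv₀, map_natCast]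
      congr 1
      apply Finset.sum_congr rfl
      intro g _
      rw [map_mul]
      congr 1
      exact (map_natCast (starRingEnd ℂ) _).symm
    rw [h4, map_natCast] at h5
    rw [h5] at h3
    exact_mod_cast h3.symm
  have hreal : ∀ χ : IrrCharacter G, ml G Ω χ ≠ 0 → ∀ g : G, (starRingEnd ℂ) ((χ : G → ℂ) g) = (χ : G → ℂ) g := by
    intro χ hχ g
    set ψ : IrrCharacter G := ⟨_, Cfsg.Agent.H3.CharInd.IsIrr.conj χ.2⟩ with hψ
    have h3 : ml G Ω ψ ≠ 0 := by rw [hconj]; exact hχ
    have hψ1 : (ψ : G → ℂ) 1 = (χ : G → ℂ) 1 := by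
      obtain ⟨n, -, hn⟩ := IsIrr.one_eq_nat χ.2
      change (starRingEnd ℂ) ((χ : G → ℂ) 1) = _
      rw [hn, map_natCast]
    have key : ψ = χ := by
      have hcases : ∀ φ : IrrCharacter G, ml G Ω φ ≠ 0 → φ = triv G ∨ φ = X₁ ∨ φ = X₂ := by
        intro φ hφ
        by_contra hcon
        push Not at hcon
        exact hφ (hml0 φ hcon.1 hcon.2.1 hcon.2.2)
      have htψ : ψ = triv G → χ = triv G := by
        intro h
        apply Subtype.ext
        funext g
        have h4 : (starRingEnd ℂ) ((χ : G → ℂ) g) = 1 := congrFun (congrArg Subtype.val h) g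
        rw [triv_coe, ← Complex.conj_conj ((χ : G → ℂ) g), h4, map_one]
      have htχ : χ = triv G → ψ = triv G := by
        intro h
        apply Subtype.ext
        funext g
        change (starRingEnd ℂ) ((χ : G → ℂ) g) = _
        rw [h, triv_coe, map_one]
      rcases hcases χ hχ with h4 | h4 | h4
      · rw [htχ h4, h4]
      · rcases hcases ψ h3 with h5 | h5 | h5
        · exact absurd (h4.symm.trans (htψ h5)) h1t
        · rw [h5, h4]
        · exfalso
          rw [h5, h4] at hψ1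
          have h6 : χ₂ 1 = χ₁ 1 := hψ1
          rw [hd₁, hd₂] at h6
          have : (1 : ℂ) = 0 := by linear_combination h6
          exact one_ne_zero this
      · rcases hcases ψ h3 with h5 | h5 | h5
        · exact absurd (h4.symm.trans (htψ h5)) h2t
        · exfalso
          rw [h5, h4] at hψ1
          have h6 : χ₁ 1 = χ₂ 1 := hψ1
          rw [hd₁, hd₂] at h6
          have : (1 : ℂ) = 0 := by linear_combination -h6
          exact one_ne_zero this
        · rw [h5, h4]
    exact congrFun (congrArg Subtype.val key) g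
  have hswap : ∀ a b : Ω, ∃ g : G, g • a = b ∧ g • b = a := by
    intro a b
    apply Cfsg.Agent.S0717.backward _ a b
    intro χ hχ
    refine ⟨?_, hreal χ hχ⟩
    by_contra hne1
    by_cases h3 : χ = triv G
    · rw [h3] at hne1; exact hne1 ml_triv
    · by_cases h4 : χ = X₁
      · rw [h4] at hne1; exact hne1 hml1
      · by_cases h5 : χ = X₂
        · rw [h5] at hne1; exact hne1 hml2
        · exact hχ (hml0 χ h3 h4 h5)
  -- the arithmetic for one suborbit
  have key : ∀ b : Ω, b ≠ a₀ → ∃ a : ℕ, 0 < a ∧ m = 2 * a ^ 2 + 2 * a + 1 ∧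
      (Nat.card (MulAction.orbit (MulAction.stabilizer G a₀) b) = a * (2 * a + 1) ∨
        Nat.card (MulAction.orbit (MulAction.stabilizer G a₀) b) = (a + 1) * (2 * a + 1)) := by
    intro b hb
    obtain ⟨hb1, hb2⟩ := hbound b hb
    set k := Nat.card (MulAction.orbit (MulAction.stabilizer G a₀) b) with hk
    have ha : ∀ (g : G) x y, orb G a₀ b (g • x) (g • y) = orb G a₀ b x y := orb_eqv a₀ b
    have ha2 : ∀ (g : G) x y, (fun x y => ∑ z, orb G a₀ b x z * orb G a₀ b z y) (g • x) (g • y) =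
        (fun x y => ∑ z, orb G a₀ b x z * orb G a₀ b z y) x y := by
      intro g x y
      beta_reduce
      rw [← Equiv.sum_comp (MulAction.toPerm g)]
      apply Finset.sum_congr rfl
      intro z _
      change orb G a₀ b (g • x) (g • z) * orb G a₀ b (g • z) (g • y) = _
      rw [ha, ha]
    have hrow : ∀ x, ∑ y, orb G a₀ b x y = k := fun x => orb_row a₀ b x
    have hrow2 : ∀ x, ∑ y, (fun x y => ∑ z, orb G a₀ b x z * orb G a₀ b z y) x y = ((k ^ 2 : ℕ) : ℤ) := by
      intro x
      beta_reduce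
      rw [Finset.sum_comm]
      simp only [← Finset.mul_sum, hrow]
      rw [← Finset.sum_mul, hrow]
      push_cast
      ring
    have hsymm : ∀ x z, orb G a₀ b z x = orb G a₀ b x z := by
      intro x z
      obtain ⟨g, hg1, hg2⟩ := hswap x z
      rw [← ha g x z, hg1, hg2]
    have hidem : ∀ x z, orb G a₀ b x z * orb G a₀ b x z = orb G a₀ b x z := by
      intro x z
      unfold orb
      split_ifs <;> rfl
    have E1 := expand_one ha hrow h12 h1t h2t hml0
    rw [fk_orb_one hb.symm] at E1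
    have E2 := expand_one ha2 hrow2 h12 h1t h2t hml0
    rw [inner_sq ha X₁ hml1, inner_sq ha X₂ hml2] at E2
    have E3 : fk G (fun x y => ∑ z, orb G a₀ b x z * orb G a₀ b z y) 1 = 2 * m * k := by
      unfold fk
      have h3 : ∀ x : Ω, (((fun x y => ∑ z, orb G a₀ b x z * orb G a₀ b z y) x ((1 : G) • x) : ℤ) : ℂ) = k := by
        intro x
        rw [one_smul]
        beta_reduce
        have h4 : ∑ z, orb G a₀ b x z * orb G a₀ b z x = k := by
          rw [← hrow x]
          apply Finset.sum_congr rfl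
          intro z _
          rw [hsymm x z, hidem]
        rw [h4]
        simp
      rw [Finset.sum_congr rfl fun x _ => h3 x, Finset.sum_const, Finset.card_univ, hm, nsmul_eq_mul]
      push_cast
      ring
    rw [E3] at E2
    have hx1 : (X₁ : G → ℂ) 1 = (m : ℂ) - 1 := hd₁
    have hx2 : (X₂ : G → ℂ) 1 = m := hd₂
    rw [hx1, hx2] at E1 E2
    have h3 := arith (m := m) (k := k) (by omega) (by omega) (by omega)
      (isIntegral_inner_fk ha X₁.2) (isIntegral_inner_fk ha X₂.2) (by linear_combination -E1) (by push_cast at E2; linear_combination -E2)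
    rcases h3 with h3 | h3 | h3
    · omega
    · omega
    · exact h3
  have hnt : ∃ b : Ω, b ≠ a₀ := by
    by_contra hcon
    push Not at hcon
    haveI : Subsingleton Ω := ⟨fun x y => (hcon x).trans (hcon y).symm⟩
    haveI : Subsingleton (MulAction.orbitRel.Quotient (MulAction.stabilizer G a₀) Ω) :=
      (Quotient.mk''_surjective (s₁ := MulAction.orbitRel (MulAction.stabilizer G a₀) Ω)).subsingleton
    have h3 : Nat.card (MulAction.orbitRel.Quotient (MulAction.stabilizer G a₀) Ω) ≤ 1 := Finite.card_le_one_iff_subsingleton.2 inferInstance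
    omega
  obtain ⟨b₀, hb₀⟩ := hnt
  obtain ⟨a, ha0, hma, -⟩ := key b₀ hb₀
  refine ⟨a, ha0, hma, fun b hb => ?_⟩
  obtain ⟨a', ha'0, hma', h3⟩ := key b hb
  have : a' = a := by
    rcases lt_trichotomy a' a with h4 | h4 | h4
    · nlinarith
    · exact h4
    · nlinarith
  rw [← this]
  exact h3



end Cfsg.Agent.H9.Rank3
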