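import Mathlib
import Cfsg.Agent.H9_Deg2pB
import Cfsg.Agent.H9_Rank3
import Cfsg.Agent.H10_BlockKn

/-!
# Degree 2p: the possible ranks
-/

set_option autoImplicit false

open scoped ComplexConjugate

namespace Cfsg.Agent.H9.Deg2p

open Cfsg Cfsg.Agent.H3.CharIrr Cfsg.Agent.H3.CharComplete Cfsg.Agent.H3.CharMult Cfsg.Agent.H10.Char Cfsg.Agent.H10.BlockKer
  Cfsg.Agent.H9.BrVec Cfsg.Agent.H9.BrMain Cfsg.Agent.H9.BrThm Cfsg.Agent.H9.BrCor Cfsg.Agent.H9.BrSC Cfsg.Agent.H9.Comm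

variable {G : Type*} [Group G] [Fintype G] {Ω : Type*} [Fintype Ω] [MulAction G Ω] {p : ℕ} [hp : Fact p.Prime] {z : G}

theorem sum_two [Fintype (IrrCharacter G)] (hΩ : Fintype.card Ω = 2 * p) (hzp : z ^ p = 1) (hz : orderOf z = p)
    (hfree : ∀ x : Ω, z • x ≠ x) (a : ZMod p) : ∑ χ, ml G Ω χ * mu hzp χ a = 2 := by
  classical
  have hclass : IsClassFunction G (pch G Ω) := pch_class
  have h1 := sum_mult hzp (fun χ => (ml G Ω χ : ℂ)) (pch G Ω) (fun g => by
    rw [expand_apply (pch G Ω) hclass g]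
    exact Finset.sum_congr rfl fun χ _ => by rw [ml_spec]) a
  have h2 : ∑ i : ZMod p, pch G Ω (zp p z i) * ee p (-(a * i)) = 2 * p := by
    rw [Finset.sum_eq_single (0 : ZMod p)]
    · rw [mul_zero, neg_zero, ee_zero, mul_one, zp_zero]
      have : (Nat.card (MulAction.fixedBy Ω (1 : G)) : ℂ) = 2 * p := by
        have h3 : Nat.card (MulAction.fixedBy Ω (1 : G)) = Nat.card Ω :=
          Nat.card_congr ⟨fun x => x.1, fun x => ⟨x, one_smul _ _⟩, fun x => rfl, fun x => rfl⟩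
        rw [h3, Nat.card_eq_fintype_card, hΩ]
        push_cast; ring
      exact this
    · intro i _ hi
      have h3 : Nat.card (MulAction.fixedBy Ω (zp p z i)) = 0 := by
        rw [Nat.card_eq_zero]
        left
        refine ⟨fun x => ?_⟩
        have h4 : z = (zp p z i) ^ (i⁻¹).val := by
          rw [← zp_mul hzp, mul_inv_cancel₀ hi, zp_one]
        apply hfree x.1
        have h5 : ∀ n : ℕ, (zp p z i) ^ n • x.1 = x.1 := by
          intro n
          induction n with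
          | zero => rw [pow_zero, one_smul]
          | succ n ih => rw [pow_succ, mul_smul, x.2, ih]
        have h6 := h5 (i⁻¹).val
        rwa [← h4] at h6
      have h4 : pch G Ω (zp p z i) = 0 := by
        change (Nat.card (MulAction.fixedBy Ω (zp p z i)) : ℂ) = 0
        rw [h3, Nat.cast_zero]
      rw [h4, zero_mul]
    · intro h; exact absurd (Finset.mem_univ _) h
  rw [h2] at h1
  have h3 : ((∑ χ, ml G Ω χ * mu hzp χ a : ℕ) : ℂ) = ((2 : ℕ) : ℂ) := by
    push_cast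
    rw [h1, mul_comm (2 : ℂ), ← mul_assoc, inv_mul_cancel₀ (p_ne (p := p)), one_mul]
  exact_mod_cast h3

theorem main [MulAction.IsPretransitive G Ω] (a₀ : Ω) (hp2 : 2 < p) (hΩ : Fintype.card Ω = 2 * p) (hz : orderOf z = p)
    (hsyl : ¬ p ∣ (Subgroup.zpowers z).index)
    (hC : ∀ y : G, y * z = z * y → y ∈ Subgroup.zpowers z) (hfree : ∀ x : Ω, z • x ≠ x)
    (hperf : ∀ χ : IrrCharacter G, charDegree (χ : G → ℂ) = 1 → χ = triv G)
    (he1 : Nat.card (BrMain.om hz).range ≠ 1)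
    (hk : ∀ a b : Ω, b ≠ a → 2 ≤ Nat.card (MulAction.orbit (MulAction.stabilizer G a) b)) :
    Nat.card (MulAction.orbitRel.Quotient (MulAction.stabilizer G a₀) Ω) = 2 ∨
    (Nat.card (MulAction.orbitRel.Quotient (MulAction.stabilizer G a₀) Ω) = 3 ∧
      ∃ a : ℕ, 0 < a ∧ p = 2 * a ^ 2 + 2 * a + 1 ∧ ∀ b : Ω, b ≠ a₀ →
      Nat.card (MulAction.orbit (MulAction.stabilizer G a₀) b) = a * (2 * a + 1) ∨
      Nat.card (MulAction.orbit (MulAction.stabilizer G a₀) b) = (a + 1) * (2 * a + 1)) := by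
  classical
  haveI : Nonempty Ω := ⟨a₀⟩
  haveI : Fintype (IrrCharacter G) := Fintype.ofFinite _
  have hzp : z ^ p = 1 := by rw [← hz]; exact pow_orderOf_eq_one z
  obtain ⟨M, hM⟩ := Cfsg.Agent.H10.BlockKn.exists_modular hp.out
  obtain ⟨Ty⟩ := types hM hz hzp hsyl hC
  rcases decomp hz hzp Ty hperf (fun χ => ml G Ω χ) (sum_two hΩ hzp hz hfree) ml_triv hp2 with h | h | h
  · left
    rw [← rank_sum a₀]; exact h
  · right
    obtain ⟨χ, ψ, hχt, hψt, hχψ, hχm, hψm, hχd, hψd, h0⟩ := h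
    have hrank : Nat.card (MulAction.orbitRel.Quotient (MulAction.stabilizer G a₀) Ω) = 3 := by
      rw [← rank_sum a₀, ← Finset.add_sum_erase _ _ (Finset.mem_univ (triv G)),
        ← Finset.add_sum_erase _ _ (Finset.mem_erase.2 ⟨hχt, Finset.mem_univ χ⟩),
        ← Finset.add_sum_erase _ _ (Finset.mem_erase.2 ⟨hχψ.symm, Finset.mem_erase.2 ⟨hψt, Finset.mem_univ ψ⟩⟩),
        Finset.sum_eq_zero, ml_triv, hχm, hψm]
      · norm_num
      · intro φ hφ
        have e1 := Finset.mem_erase.1 hφ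
        have e2 := Finset.mem_erase.1 e1.2
        have e3 := Finset.mem_erase.1 e2.2
        have e4 := h0 φ e3.1 e2.1 e1.1
        beta_reduce at e4
        rw [e4, zero_pow two_ne_zero]
    refine ⟨hrank, ?_⟩
    have hπ : (fun g : G => (Nat.card (MulAction.fixedBy Ω g) : ℂ)) = fun g => 1 + (ψ : G → ℂ) g + (χ : G → ℂ) g := by
      funext g
      have h1 := expand_apply (pch G Ω) pch_class g
      rw [← Finset.add_sum_erase _ _ (Finset.mem_univ (triv G)),
        ← Finset.add_sum_erase _ _ (Finset.mem_erase.2 ⟨hχt, Finset.mem_univ χ⟩),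
        ← Finset.add_sum_erase _ _ (Finset.mem_erase.2 ⟨hχψ.symm, Finset.mem_erase.2 ⟨hψt, Finset.mem_univ ψ⟩⟩),
        Finset.sum_eq_zero, ml_spec, ml_spec, ml_spec, ml_triv] at h1
      · beta_reduce at hχm hψm
        rw [hχm, hψm, triv_coe] at h1
        have h2 : (Nat.card (MulAction.fixedBy Ω g) : ℂ) = pch G Ω g := rfl
        rw [h2, h1]
        push_cast
        ring
      · intro φ hφ
        have e1 := Finset.mem_erase.1 hφ
        have e2 := Finset.mem_erase.1 e1.2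
        have e3 := Finset.mem_erase.1 e2.2
        have e4 := h0 φ e3.1 e2.1 e1.1
        beta_reduce at e4
        rw [ml_spec, e4, Nat.cast_zero, zero_mul]
    apply Rank3.main hΩ a₀ hrank (fun b hb => Rank3.bound hΩ a₀ hrank (fun b hb => hk a₀ b hb) b hb) (ψ : G → ℂ) (χ : G → ℂ)
      ψ.2 χ.2 hπ
    · rw [← charDegree_eq ψ.2, hψd, Nat.cast_sub hp.out.one_le, Nat.cast_one]
    · rw [← charDegree_eq χ.2, hχd]
  · exfalso
    obtain ⟨hε, hnt, χ, hχt, hχm, hχd, hχv, hL, h0⟩ := h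
    have hJ := card_J (p := p) hz
    set e := Nat.card (BrMain.om hz).range with hedef
    have he0 : 0 < e := Nat.card_pos
    have hb := tensor_bound hz hzp Ty hperf hε 1 (hL 1).2.2.2 he1
    rw [← hedef] at hb
    have ht2 : 2 ≤ Nat.card ((ZMod p)ˣ ⧸ (BrMain.om hz).range) := by
      have := Finite.one_lt_card_iff_nontrivial.2 hnt
      omega
    set t := Nat.card ((ZMod p)ˣ ⧸ (BrMain.om hz).range) with htdef
    have ht : t = 2 := by
      by_contra hne
      have h3 : 3 ≤ t := by omega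
      have h4 : e * 3 ≤ e * t := Nat.mul_le_mul_left e h3
      omega
    have hpe : p = 2 * e + 1 := by
      rw [ht] at hJ
      omega
    exact contra hΩ hz hzp hC hfree Ty hε hpe rfl ht χ hχt hχm hχd hχv hL h0 hk

end Cfsg.Agent.H9.Deg2p
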