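import Mathlib
import Cfsg.Agent.H9_Deg2pC
import Cfsg.Agent.S0713

/-!
# Degree 2p: group theoretic part
-/

set_option autoImplicit false

namespace Cfsg.Agent.H9.Deg2p

section blocks

variable {G : Type*} [Group G] {Ω : Type*} [MulAction G Ω]

/-- in a primitive group, stabilisers in a transitive, non-regular normal subgroup have a unique fixed point -/
theorem subdegree_ge_two [Finite G] [Finite Ω] [FaithfulSMul G Ω] (hprim : MulAction.IsPreprimitive G Ω) (N : Subgroup G) [hN : N.Normal]
    (htr : MulAction.IsPretransitive N Ω) {a : Ω} (hst : MulAction.stabilizer N a ≠ ⊥) (b : Ω) (hb : b ≠ a) :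
    2 ≤ Nat.card (MulAction.orbit (MulAction.stabilizer N a) b) := by
  classical
  haveI := hprim
  by_contra hlt
  haveI : Nonempty (MulAction.orbit (MulAction.stabilizer N a) b) := ⟨⟨b, MulAction.mem_orbit_self b⟩⟩
  have hpos : 0 < Nat.card (MulAction.orbit (MulAction.stabilizer N a) b) := Nat.card_pos
  have h1 : Nat.card (MulAction.orbit (MulAction.stabilizer N a) b) = 1 := by omega
  have hfixb : ∀ n : N, n • a = a → n • b = b := by
    intro n hn
    rw [Nat.card_eq_one_iff_unique] at h1
    have h2 : (⟨n • b, ⟨⟨n, hn⟩, rfl⟩⟩ : MulAction.orbit (MulAction.stabilizer N a) b) = ⟨b, MulAction.mem_orbit_self b⟩ :=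
      h1.1.elim _ _
    exact congrArg Subtype.val h2
  -- stabilisers of equal size
  have hcard : ∀ x y : Ω, Nat.card (MulAction.stabilizer N x) = Nat.card (MulAction.stabilizer N y) := by
    intro x y
    have e1 := (MulAction.stabilizer N x).card_mul_index
    have e2 := (MulAction.stabilizer N y).card_mul_index
    rw [MulAction.index_stabilizer_of_transitive] at e1 e2
    have h0 : 0 < Nat.card Ω := by
      haveI : Nonempty Ω := ⟨a⟩
      exact Nat.card_pos
    exact Nat.eq_of_mul_eq_mul_right h0 (e1.trans e2.symm)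
  have heq : ∀ x y : Ω, MulAction.stabilizer N x ≤ MulAction.stabilizer N y → MulAction.stabilizer N x = MulAction.stabilizer N y := by
    intro x y h
    exact Subgroup.eq_of_le_of_card_ge h (hcard y x).le
  let F : Set Ω := {x | MulAction.stabilizer N a ≤ MulAction.stabilizer N x}
  have hFb : MulAction.IsBlock G F := by
    rw [MulAction.isBlock_iff_smul_eq_of_mem]
    intro g x hx hgx
    have e1 : MulAction.stabilizer N a = MulAction.stabilizer N x := heq _ _ hx
    have e2 : MulAction.stabilizer N a = MulAction.stabilizer N (g • x) := heq _ _ hgx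
    have hconj : ∀ (y : Ω), MulAction.stabilizer N a ≤ MulAction.stabilizer N y ↔ MulAction.stabilizer N a ≤ MulAction.stabilizer N (g • y) := by
      have key : ∀ (g : G) (u v : Ω), MulAction.stabilizer N u ≤ MulAction.stabilizer N v →
          MulAction.stabilizer N (g • u) ≤ MulAction.stabilizer N (g • v) := by
        intro g u v huv n hn
        have h2 : g⁻¹ * (n : G) * g ∈ N := by
          have := hN.conj_mem n n.2 g⁻¹
          rwa [inv_inv] at this
        have h3 : (⟨g⁻¹ * (n : G) * g, h2⟩ : N) ∈ MulAction.stabilizer N u := by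
          change (g⁻¹ * (n : G) * g) • u = u
          have h4 : (n : G) • g • u = g • u := hn
          rw [mul_smul, mul_smul, h4, inv_smul_smul]
        have h4 : (g⁻¹ * (n : G) * g) • v = v := huv h3
        change (n : G) • g • v = g • v
        rw [mul_smul, mul_smul, inv_smul_eq_iff] at h4
        exact h4
      intro y
      constructor
      · intro h
        rw [e1] at h
        rw [e2]
        exact key g x y h
      · intro h
        rw [e2] at h
        rw [e1]
        have h5 := key g⁻¹ _ _ h
        rwa [inv_smul_smul, inv_smul_smul] at h5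
    ext y
    rw [Set.mem_smul_set_iff_inv_smul_mem]
    change MulAction.stabilizer N a ≤ MulAction.stabilizer N (g⁻¹ • y) ↔ MulAction.stabilizer N a ≤ MulAction.stabilizer N y
    rw [hconj (g⁻¹ • y), smul_inv_smul]
  rcases hFb.subsingleton_or_eq_univ with h | h
  · apply hb
    exact h (show b ∈ F from fun n hn => hfixb n hn) (show a ∈ F from fun n hn => hn)
  · apply hst
    rw [eq_bot_iff]
    intro n hn
    rw [Subgroup.mem_bot]
    have h2 : (n : G) = 1 := by
      apply FaithfulSMul.eq_of_smul_eq_smul (α := Ω)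
      intro x
      have hx : x ∈ F := by rw [h]; trivial
      have h3 : (n : G) • x = x := hx hn
      rw [h3, one_smul]
    exact Subtype.ext h2

end blocks

section cover

variable {G : Type*} [Group G] {Ω : Type*} [Fintype Ω] [MulAction G Ω] {p : ℕ} [hp : Fact p.Prime] {z : G}

theorem pow_free (hz : orderOf z = p) (hfree : ∀ x : Ω, z • x ≠ x) {g : G} (hg : g ∈ Subgroup.zpowers z) {x : Ω} (h : g • x = x) : g = 1 := by
  haveI : Finite (Subgroup.zpowers z) := by
    apply Nat.finite_of_card_ne_zero
    rw [Nat.card_zpowers, hz]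
    exact hp.out.ne_zero
  by_contra hg1
  obtain ⟨n, rfl⟩ := Subgroup.mem_zpowers_iff.1 hg
  have h1 : Subgroup.zpowers (z ^ n) = Subgroup.zpowers z := by
    apply Subgroup.eq_of_le_of_card_ge
    · rw [Subgroup.zpowers_le]; exact hg
    · rw [Nat.card_zpowers, Nat.card_zpowers, hz]
      have h2 : orderOf (z ^ n) ∣ p := by
        rw [← hz]
        exact orderOf_dvd_of_pow_eq_one (by rw [← zpow_natCast, ← zpow_mul, mul_comm, zpow_mul, zpow_natCast, pow_orderOf_eq_one, one_zpow])
      rcases (Nat.dvd_prime hp.out).1 h2 with h3 | h3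
      · exact absurd (orderOf_eq_one_iff.1 h3) hg1
      · rw [h3]
  have h2 : z ∈ Subgroup.zpowers (z ^ n) := by rw [h1]; exact Subgroup.mem_zpowers z
  have h3 : Subgroup.zpowers (z ^ n) ≤ MulAction.stabilizer G x := by
    rw [Subgroup.zpowers_le]; exact h
  exact hfree x (h3 h2)

theorem card_orbit (hz : orderOf z = p) (hfree : ∀ x : Ω, z • x ≠ x) (a : Ω) :
    Nat.card (MulAction.orbit (Subgroup.zpowers z) a) = p := by
  have h1 : MulAction.stabilizer (Subgroup.zpowers z) a = ⊥ := by
    rw [eq_bot_iff]
    intro g hg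
    rw [Subgroup.mem_bot]
    exact Subtype.ext (pow_free hz hfree g.2 hg)
  rw [Nat.card_coe_set_eq, ← MulAction.index_stabilizer, h1, Subgroup.index_bot, Nat.card_zpowers, hz]

theorem cover (hΩ : Fintype.card Ω = 2 * p) (hz : orderOf z = p) (hfree : ∀ x : Ω, z • x ≠ x) {a b : Ω}
    (hb : b ∉ MulAction.orbit (Subgroup.zpowers z) a) (x : Ω) :
    x ∈ MulAction.orbit (Subgroup.zpowers z) a ∨ x ∈ MulAction.orbit (Subgroup.zpowers z) b := by
  classical
  have h1 := card_orbit hz hfree a
  have h2 := card_orbit hz hfree b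
  have hdisj : Disjoint (MulAction.orbit (Subgroup.zpowers z) a) (MulAction.orbit (Subgroup.zpowers z) b) := by
    rw [Set.disjoint_left]
    intro y hy1 hy2
    apply hb
    have e1 := MulAction.orbit_eq_iff.2 hy1
    have e2 := MulAction.orbit_eq_iff.2 hy2
    rw [← e1, e2]
    exact MulAction.mem_orbit_self b
  have h3 : (MulAction.orbit (Subgroup.zpowers z) a ∪ MulAction.orbit (Subgroup.zpowers z) b).ncard = 2 * p := by
    rw [Set.ncard_union_eq hdisj (Set.toFinite _) (Set.toFinite _), ← Nat.card_coe_set_eq, ← Nat.card_coe_set_eq, h1, h2]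
    ring
  have h4 : MulAction.orbit (Subgroup.zpowers z) a ∪ MulAction.orbit (Subgroup.zpowers z) b = Set.univ := by
    apply Set.eq_of_subset_of_ncard_le (Set.subset_univ _)
    rw [h3, Set.ncard_univ, Nat.card_eq_fintype_card, hΩ]
  have h5 : x ∈ MulAction.orbit (Subgroup.zpowers z) a ∪ MulAction.orbit (Subgroup.zpowers z) b := by rw [h4]; trivial
  exact h5

end cover

section centralizer

variable {G : Type*} [Group G] {Ω : Type*} [Fintype Ω] [DecidableEq Ω] [MulAction G Ω] [FaithfulSMul G Ω] {p : ℕ} [hp : Fact p.Prime] {z : G}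

omit [Fintype Ω] [DecidableEq Ω] [FaithfulSMul G Ω] in
theorem comm_zpowers {w : G} (h : w * z = z * w) {g : G} (hg : g ∈ Subgroup.zpowers z) : w * g = g * w := by
  obtain ⟨n, rfl⟩ := Subgroup.mem_zpowers_iff.1 hg
  have h1 : Commute w z := h
  exact h1.zpow_right n

omit [DecidableEq Ω] in
theorem claimA (hΩ : Fintype.card Ω = 2 * p) (hz : orderOf z = p) (hfreeAll : ∀ g : G, orderOf g = p → ∀ x : Ω, g • x ≠ x)
    {y : G} (hy : y * z = z * y) {a : Ω} (ha : y • a ∈ MulAction.orbit (Subgroup.zpowers z) a) : y ∈ Subgroup.zpowers z := by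
  have hfree := hfreeAll z hz
  obtain ⟨⟨g, hg⟩, hgy⟩ := ha
  have hgy' : g • a = y • a := hgy
  set w := g⁻¹ * y with hw
  have hwz : w * z = z * w := by
    rw [hw, mul_assoc, hy, ← mul_assoc, ← mul_assoc]
    congr 1
    exact (comm_zpowers rfl (inv_mem hg)).symm
  have hwa : w • a = a := by
    rw [hw, mul_smul, ← hgy', inv_smul_smul]
  by_cases hw1 : w = 1
  · have : y = g := by
      rw [hw] at hw1
      exact (inv_mul_eq_one.1 hw1).symm
    rw [this]; exact hg
  · exfalso
    have hfixa : ∀ x ∈ MulAction.orbit (Subgroup.zpowers z) a, w • x = x := by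
      rintro x ⟨⟨h, hh⟩, rfl⟩
      change w • h • a = h • a
      rw [← mul_smul, comm_zpowers hwz hh, mul_smul, hwa]
    obtain ⟨b, hb⟩ : ∃ b : Ω, w • b ≠ b := by
      by_contra hcon
      push Not at hcon
      apply hw1
      apply FaithfulSMul.eq_of_smul_eq_smul (α := Ω)
      intro x
      rw [hcon, one_smul]
    have hba : b ∉ MulAction.orbit (Subgroup.zpowers z) a := fun h => hb (hfixa b h)
    have hwb : w • b ∈ MulAction.orbit (Subgroup.zpowers z) b := by
      rcases cover hΩ hz hfree hba (w • b) with h | h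
      · exfalso
        obtain ⟨⟨h, hh⟩, hhb⟩ := h
        have hhb' : h • a = w • b := hhb
        apply hba
        refine ⟨⟨h, hh⟩, ?_⟩
        change h • a = b
        have h2 : w • (h • a) = h • a := hfixa _ ⟨⟨h, hh⟩, rfl⟩
        rw [hhb'] at h2
        have h3 := MulAction.injective w h2
        rw [hhb', h3]
      · exact h
    obtain ⟨⟨h, hh⟩, hhb⟩ := hwb
    have hhb' : h • b = w • b := hhb
    have hact : ∀ x ∈ MulAction.orbit (Subgroup.zpowers z) b, ∀ n : ℕ, w ^ n • x = h ^ n • x := by
      rintro x ⟨⟨k, hk⟩, rfl⟩ n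
      change w ^ n • k • b = h ^ n • k • b
      have hkw : w * k = k * w := comm_zpowers hwz hk
      have hkh : h * k = k * h := comm_zpowers (comm_zpowers rfl hh).symm hk
      have hwh : w * h = h * w := comm_zpowers hwz hh
      have e1 : w ^ n * k = k * w ^ n := (show Commute w k from hkw).pow_left n
      have e2 : h ^ n * k = k * h ^ n := (show Commute h k from hkh).pow_left n
      rw [← mul_smul, ← mul_smul, e1, e2, mul_smul, mul_smul]
      congr 1
      induction n with
      | zero => rw [pow_zero, pow_zero]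
      | succ n ih =>
        have e3 : w ^ n * k = k * w ^ n := (show Commute w k from hkw).pow_left n
        have e4 : h ^ n * k = k * h ^ n := (show Commute h k from hkh).pow_left n
        have e5 : w ^ n * h = h * w ^ n := (show Commute w h from hwh).pow_left n
        rw [pow_succ, mul_smul, ← hhb', ← mul_smul, e5, mul_smul, ih e3 e4, ← mul_smul, ← pow_succ']
    have hhp : h ^ p = 1 := by
      obtain ⟨n, rfl⟩ := Subgroup.mem_zpowers_iff.1 hh
      rw [← zpow_natCast, ← zpow_mul, mul_comm, zpow_mul, zpow_natCast, ← hz, pow_orderOf_eq_one, one_zpow]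
    have hwp : w ^ p = 1 := by
      apply FaithfulSMul.eq_of_smul_eq_smul (α := Ω)
      intro x
      rw [one_smul]
      rcases cover hΩ hz hfree hba x with hx | hx
      · have : ∀ n : ℕ, w ^ n • x = x := by
          intro n
          induction n with
          | zero => rw [pow_zero, one_smul]
          | succ n ih => rw [pow_succ, mul_smul, hfixa x hx, ih]
        exact this p
      · rw [hact x hx p, hhp, one_smul]
    exact hfreeAll w (orderOf_eq_prime hwp hw1) a hwa

theorem centralizer_eq (hΩ : Fintype.card Ω = 2 * p) (hp2 : p ≠ 2) (hz : orderOf z = p) (hfreeAll : ∀ g : G, orderOf g = p → ∀ x : Ω, g • x ≠ x)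
    (heven : ∀ g : G, Equiv.Perm.sign (MulAction.toPerm g : Equiv.Perm Ω) = 1) (y : G) (hy : y * z = z * y) : y ∈ Subgroup.zpowers z := by
  have hfree := hfreeAll z hz
  have hp0 := hp.out.pos
  haveI : Nonempty Ω := Fintype.card_pos_iff.1 (by omega)
  obtain ⟨a⟩ := ‹Nonempty Ω›
  by_cases ha : y • a ∈ MulAction.orbit (Subgroup.zpowers z) a
  · exact claimA hΩ hz hfreeAll hy ha
  · exfalso
    have hpodd : Odd p := hp.out.odd_of_ne_two hp2
    -- y swaps the two orbits
    have hswap : ∀ x : Ω, y • x ∉ MulAction.orbit (Subgroup.zpowers z) x := by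
      intro x hx
      have h1 := claimA hΩ hz hfreeAll hy hx
      exact ha ⟨⟨y, h1⟩, rfl⟩
    have hy2 : (y ^ 2) • a ∈ MulAction.orbit (Subgroup.zpowers z) a := by
      rcases cover hΩ hz hfree ha ((y ^ 2) • a) with h | h
      · exact h
      · exfalso
        apply hswap (y • a)
        rw [← mul_smul, ← sq]
        exact h
    have hy2z : (y ^ 2) * z = z * y ^ 2 := by
      rw [sq, mul_assoc, hy, ← mul_assoc, hy, mul_assoc]
    have h1 := claimA hΩ hz hfreeAll hy2z hy2
    -- an involution
    obtain ⟨i, hi⟩ := Subgroup.mem_zpowers_iff.1 h1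
    obtain ⟨m, hm⟩ := hpodd
    have hzp : z ^ p = 1 := by rw [← hz]; exact pow_orderOf_eq_one z
    set g := z ^ (i * m) with hg
    have hgz : g ∈ Subgroup.zpowers z := Subgroup.zpow_mem_zpowers z _
    have hyg : y * g = g * y := comm_zpowers hy hgz
    set u := y * g with hu
    have hu2 : u ^ 2 = 1 := by
      have h2 : u ^ 2 = y ^ 2 * g ^ 2 := by
        rw [hu]
        exact (show Commute y g from hyg).mul_pow 2
      rw [h2, ← hi, hg, ← zpow_natCast, ← zpow_mul, ← zpow_add]
      have h3 : i + i * m * ((2 : ℕ) : ℤ) = (p : ℤ) * i := by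
        rw [hm]; push_cast; ring
      rw [h3, zpow_mul, zpow_natCast, hzp, one_zpow]
    have hufree : ∀ x : Ω, u • x ≠ x := by
      intro x hx
      apply hswap x
      have h2 : g • x = y⁻¹ • x := by
        rw [eq_inv_smul_iff, ← mul_smul]; exact hx
      refine ⟨⟨g⁻¹, inv_mem hgz⟩, ?_⟩
      change g⁻¹ • x = y • x
      rw [inv_smul_eq_iff, ← mul_smul, ← hyg]
      exact hx.symm
    -- parity
    set σ : Equiv.Perm Ω := MulAction.toPerm u with hσ
    have hσ2 : σ ^ 2 = 1 := by
      have h3 : (MulAction.toPermHom G Ω u) ^ 2 = 1 := by rw [← map_pow, hu2, map_one]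
      exact h3
    have hct := Equiv.Perm.cycleType_of_pow_prime_eq_one hσ2
    have hsupp : σ.support.card = 2 * p := by
      rw [← hΩ, ← Finset.card_univ]
      congr 1
      ext x
      simp only [Equiv.Perm.mem_support, Finset.mem_univ, iff_true]
      exact hufree x
    have hsum := Equiv.Perm.sum_cycleType σ
    rw [hsupp, hct, Multiset.sum_replicate, smul_eq_mul] at hsum
    have hcard : σ.cycleType.card = p := by omega
    have hsign := heven u
    rw [Equiv.Perm.sign_of_cycleType, Equiv.Perm.sum_cycleType] at hsign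
    change (-1 : ℤˣ) ^ (σ.support.card + σ.cycleType.card) = 1 at hsign
    rw [hsupp, hcard, pow_add, pow_mul, neg_one_sq, one_pow, one_mul, (hp.out.odd_of_ne_two hp2).neg_one_pow] at hsign
    exact absurd hsign (by decide)

end centralizer

end Cfsg.Agent.H9.Deg2p
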