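import Mathlib
import Cfsg.Agent.H9_Deg2pD
import Cfsg.Agent.H3_Burnside
import Cfsg.Agent.S0719

/-!
# Degree 2p: Wielandt's theorem
-/

set_option autoImplicit false

namespace Cfsg.Agent.H9.Deg2p

open Cfsg Cfsg.Agent.H3.CharIrr Cfsg.Agent.H3.CharComplete Cfsg.Agent.H10.Char Cfsg.Agent.H10.BlockKer
  Cfsg.Agent.H9.BrVec Cfsg.Agent.H9.Comm

variable {G : Type*} [Group G] [Finite G] {Ω : Type*} [Fintype Ω] [DecidableEq Ω] [MulAction G Ω] [FaithfulSMul G Ω] {p : ℕ}
  [hp : Fact p.Prime] {z : G}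

omit [DecidableEq Ω] [FaithfulSMul G Ω] in
theorem card_dvd (N : Subgroup G) [MulAction.IsPretransitive N Ω] [Nonempty Ω] : Fintype.card Ω ∣ Nat.card N := by
  obtain ⟨a⟩ := ‹Nonempty Ω›
  rw [← Nat.card_eq_fintype_card, ← MulAction.index_stabilizer_of_transitive N a]
  exact Subgroup.index_dvd_card _

omit [Finite G] [Fintype Ω] [DecidableEq Ω] in
theorem trans_of_normal (hprim : MulAction.IsPreprimitive G Ω) (N : Subgroup G) [N.Normal] (hN : N ≠ ⊥) :
    MulAction.IsPretransitive N Ω := by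
  haveI := hprim
  haveI : MulAction.IsQuasiPreprimitive G Ω := inferInstance
  apply MulAction.IsQuasiPreprimitive.isPretransitive_of_normal (G := G)
  intro h
  apply hN
  rw [eq_bot_iff]
  intro n hn
  rw [Subgroup.mem_bot]
  apply FaithfulSMul.eq_of_smul_eq_smul (α := Ω)
  intro x
  rw [one_smul]
  have hx : x ∈ MulAction.fixedPoints N Ω := by rw [h]; trivial
  exact hx ⟨n, hn⟩

omit [DecidableEq Ω] in
theorem perfect (hprim : MulAction.IsPreprimitive G Ω) (hΩ : Fintype.card Ω = 2 * p) (hp2 : p ≠ 2) (hz : orderOf z = p)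
    (hpp : ¬ p ^ 2 ∣ Nat.card G) : commutator (Subgroup.normalClosure ({z} : Set G)) = ⊤ := by
  classical
  set Γ := Subgroup.normalClosure ({z} : Set G) with hΓ
  have hzΓ : z ∈ Γ := Subgroup.subset_normalClosure rfl
  have hp0 := hp.out.pos
  haveI : Nonempty Ω := Fintype.card_pos_iff.1 (by omega)
  haveI : Γ.Normal := Subgroup.normalClosure_normal
  by_contra hne
  -- exponent p modulo the commutator subgroup
  let f : Γ →* Abelianization Γ := (powMonoidHom p).comp Abelianization.of
  have hf : f.ker = ⊤ := by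
    have h1 : Γ ≤ f.ker.map Γ.subtype := by
      refine hΓ.le.trans ((Subgroup.closure_le _).2 ?_)
      intro c hc
      have hcΓ : c ∈ Γ := Subgroup.conjugatesOfSet_subset_normalClosure hc
      refine ⟨⟨c, hcΓ⟩, ?_, rfl⟩
      rw [Group.mem_conjugatesOfSet_iff] at hc
      obtain ⟨a, ha, hac⟩ := hc
      rw [Set.mem_singleton_iff] at ha
      subst ha
      have hcp : c ^ p = 1 := by
        obtain ⟨g, hg⟩ := isConj_iff.1 hac
        rw [← hg, conj_pow, ← hz, pow_orderOf_eq_one, mul_one, mul_inv_cancel]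
      change f ⟨c, hcΓ⟩ = 1
      change (Abelianization.of (⟨c, hcΓ⟩ : Γ)) ^ p = 1
      rw [← map_pow]
      have h2 : (⟨c, hcΓ⟩ : Γ) ^ p = 1 := Subtype.ext hcp
      rw [h2, map_one]
    rw [eq_top_iff]
    intro x _
    obtain ⟨y, hy, hyx⟩ := h1 x.2
    have : y = x := Subtype.ext hyx
    rw [← this]; exact hy
  have hexp : ∀ x : Abelianization Γ, x ^ p = 1 := by
    intro x
    obtain ⟨y, rfl⟩ := QuotientGroup.mk_surjective x
    have : y ∈ f.ker := by rw [hf]; trivial
    exact this
  have hPG : IsPGroup p (Abelianization Γ) := fun x => ⟨1, by rw [pow_one]; exact hexp x⟩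
  obtain ⟨n, hn⟩ := IsPGroup.iff_card.1 hPG
  have hindex : (commutator Γ).index = p ^ n := by rw [← hn]; rfl
  have hn0 : n ≠ 0 := by
    rintro rfl
    rw [pow_zero] at hindex
    exact hne (Subgroup.index_eq_one.1 hindex)
  have hcardΓ := (commutator Γ).card_mul_index
  rw [hindex] at hcardΓ
  let D : Subgroup G := (commutator Γ).map Γ.subtype
  haveI : D.Normal := ConjAct.normal_of_characteristic_of_normal
  have hDc : Nat.card D = Nat.card (commutator Γ) :=
    Nat.card_congr ((commutator Γ).equivMapOfInjective Γ.subtype Γ.subtype_injective).symm.toEquiv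
  have hΓne : Γ ≠ ⊥ := by
    intro h
    rw [h, Subgroup.mem_bot] at hzΓ
    rw [hzΓ, orderOf_one] at hz
    exact hp.out.one_lt.ne hz
  haveI := trans_of_normal hprim Γ hΓne
  have hΓd := card_dvd (Ω := Ω) Γ
  rw [hΩ] at hΓd
  by_cases hD : D = ⊥
  · rw [hD] at hDc
    rw [Subgroup.card_bot] at hDc
    rw [← hDc, one_mul] at hcardΓ
    rw [← hcardΓ] at hΓd
    have h2 : 2 ∣ p ^ n := (dvd_mul_right 2 p).trans hΓd
    have h3 := Nat.prime_two.dvd_of_dvd_pow h2
    exact hp2 ((Nat.prime_dvd_prime_iff_eq Nat.prime_two hp.out).1 h3).symm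
  · haveI := trans_of_normal hprim D hD
    have hDd := card_dvd (Ω := Ω) D
    rw [hΩ] at hDd
    apply hpp
    have h1 : p ^ 2 ∣ Nat.card Γ := by
      rw [← hcardΓ, ← hDc, sq]
      exact mul_dvd_mul ((dvd_mul_left p 2).trans hDd) (dvd_pow_self p hn0)
    exact h1.trans (Subgroup.card_subgroup_dvd_card Γ)

theorem hom_trivial {H : Type*} [Group H] (hH : commutator H = ⊤) {A : Type*} [CommGroup A] (f : H →* A) (x : H) : f x = 1 := by
  have h1 : commutator H ≤ f.ker := Abelianization.commutator_subset_ker f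
  rw [hH] at h1
  exact h1 (Subgroup.mem_top x)

/-- the normal closure of an element of order p -/
theorem closure_main (hprim : MulAction.IsPreprimitive G Ω) (hΩ : Fintype.card Ω = 2 * p) (hp2 : p ≠ 2) (hz : orderOf z = p)
    (hfreeAll : ∀ g : G, orderOf g = p → ∀ x : Ω, g • x ≠ x) (hpp : ¬ p ^ 2 ∣ Nat.card G) (a₀ : Ω) :
    MulAction.IsPretransitive (Subgroup.normalClosure ({z} : Set G)) Ω ∧
    (Nat.card (MulAction.orbitRel.Quotient (MulAction.stabilizer (Subgroup.normalClosure ({z} : Set G)) a₀) Ω) = 2 ∨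
    (Nat.card (MulAction.orbitRel.Quotient (MulAction.stabilizer (Subgroup.normalClosure ({z} : Set G)) a₀) Ω) = 3 ∧
      ∃ a : ℕ, 0 < a ∧ p = 2 * a ^ 2 + 2 * a + 1 ∧ ∀ b : Ω, b ≠ a₀ →
      Nat.card (MulAction.orbit (MulAction.stabilizer (Subgroup.normalClosure ({z} : Set G)) a₀) b) = a * (2 * a + 1) ∨
      Nat.card (MulAction.orbit (MulAction.stabilizer (Subgroup.normalClosure ({z} : Set G)) a₀) b) = (a + 1) * (2 * a + 1))) := by
  classical
  have hperf := perfect hprim hΩ hp2 hz hpp
  have hzΓ : z ∈ Subgroup.normalClosure ({z} : Set G) := Subgroup.subset_normalClosure rfl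
  haveI : (Subgroup.normalClosure ({z} : Set G)).Normal := Subgroup.normalClosure_normal
  generalize hΓ : Subgroup.normalClosure ({z} : Set G) = Γ at *
  have hp0 := hp.out.pos
  have hp1 := hp.out.one_lt
  haveI : Nonempty Ω := ⟨a₀⟩
  have hΓne : Γ ≠ ⊥ := by
    intro h
    rw [h, Subgroup.mem_bot] at hzΓ
    rw [hzΓ, orderOf_one] at hz
    exact hp.out.one_lt.ne hz
  haveI := trans_of_normal hprim Γ hΓne
  refine ⟨inferInstance, ?_⟩
  haveI : Fintype Γ := Fintype.ofFinite _
  set z' : Γ := ⟨z, hzΓ⟩ with hz'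
  have hzo : orderOf z' = p := by rw [hz', Subgroup.orderOf_mk, hz]
  have hcard : Nat.card (Subgroup.zpowers z') = p := by rw [Nat.card_zpowers, hzo]
  have hsyl : ¬ p ∣ (Subgroup.zpowers z').index := by
    intro h
    apply hpp
    have h1 := (Subgroup.zpowers z').card_mul_index
    rw [hcard] at h1
    have h2 : p ^ 2 ∣ Nat.card Γ := by
      rw [← h1, sq]
      exact mul_dvd_mul_left p h
    exact h2.trans (Subgroup.card_subgroup_dvd_card Γ)
  have hfreeΓ : ∀ g : Γ, orderOf g = p → ∀ x : Ω, g • x ≠ x := by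
    intro g hg x
    exact hfreeAll g (by rw [← Subgroup.orderOf_coe] at hg; exact hg) x
  have heven : ∀ g : Γ, Equiv.Perm.sign (MulAction.toPerm g : Equiv.Perm Ω) = 1 := by
    intro g
    exact hom_trivial hperf (Equiv.Perm.sign.comp (MulAction.toPermHom Γ Ω)) g
  have hC := centralizer_eq (G := Γ) hΩ hp2 hzo hfreeΓ heven
  have hlin : ∀ χ : IrrCharacter Γ, charDegree (χ : Γ → ℂ) = 1 → χ = triv Γ := by
    intro χ hχ
    have h1 := charDegree_eq χ.2
    rw [hχ, Nat.cast_one] at h1
    obtain ⟨f, hf⟩ := Cfsg.Agent.H3.CharInd.IsChar.hom_units_of_one (IsIrr.isCharacter χ.2) h1.symm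
    apply Subtype.ext
    funext g
    rw [hf, hom_trivial hperf f g, triv_coe, Units.val_one]
  have he1 : Nat.card (BrMain.om hzo).range ≠ 1 := by
    intro h
    rw [BrMain.card_range, Subgroup.relIndex_eq_one] at h
    have hPg : IsPGroup p (Subgroup.zpowers z') := IsPGroup.of_card (n := 1) (by rw [hcard, pow_one])
    let P : Sylow p Γ := hPg.toSylow hsyl
    have hPz : (P : Subgroup Γ) = Subgroup.zpowers z' := rfl
    have hle : Subgroup.normalizer ((P : Subgroup Γ) : Set Γ) ≤ Subgroup.centralizer ((P : Subgroup Γ) : Set Γ) := h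
    have hcompl := MonoidHom.ker_transferSylow_isComplement' P hle
    have hker : (MonoidHom.transferSylow P hle).ker = ⊤ := by
      rw [eq_top_iff]
      intro x _
      letI : CommGroup (P : Subgroup Γ) :=
        { (inferInstance : Group (P : Subgroup Γ)) with
          mul_comm := fun a b => Subtype.ext (by
            have h2 := hle (Subgroup.le_normalizer a.2)
            rw [Subgroup.mem_centralizer_iff] at h2
            exact (h2 b b.2).symm) }
      exact hom_trivial hperf (MonoidHom.transferSylow P hle) x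
    rw [hker] at hcompl
    have h3 := hcompl.card_mul_card
    rw [Subgroup.card_top] at h3
    have h4 : Nat.card (P : Subgroup Γ) = 1 := by
      have h5 : 0 < Nat.card Γ := Nat.card_pos
      exact Nat.eq_of_mul_eq_mul_left h5 (by rw [h3, mul_one])
    rw [hPz, hcard] at h4
    exact hp1.ne' h4
  have hk : ∀ a b : Ω, b ≠ a → 2 ≤ Nat.card (MulAction.orbit (MulAction.stabilizer Γ a) b) := by
    intro a b hb
    apply subdegree_ge_two hprim Γ inferInstance _ b hb
    intro hst
    have h1 := (MulAction.stabilizer Γ a).card_mul_index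
    rw [MulAction.index_stabilizer_of_transitive, hst, Subgroup.card_bot, one_mul, Nat.card_eq_fintype_card, hΩ] at h1
    have h2 := Cfsg.Agent.H3.Burnside.burnside _ Γ 2 p 1 1 Nat.prime_two hp.out rfl (by rw [← h1]; ring)
    haveI : Nontrivial Γ := ⟨⟨z', 1, fun h => by
      rw [h, orderOf_one] at hzo
      exact hp1.ne hzo⟩⟩
    exact (IsSolvable.commutator_lt_top_of_nontrivial Γ).ne hperf
  have hp3 : 2 < p := by omega
  exact main (G := Γ) a₀ hp3 hΩ hzo hsyl hC (hfreeΓ z' hzo) hlin he1 hk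

end Cfsg.Agent.H9.Deg2p
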