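import Mathlib
import Cfsg.Agent.H25_Cyr
import Cfsg.Agent.H25_Cyp
import Cfsg.Agent.H10_BlockMain

set_option autoImplicit false
set_option linter.unusedSectionVars false

/-! H9_DgA: structure of the blocks of full defect one, with linear independence of the nonexceptional characters. -/

open scoped ComplexConjugate

namespace Cfsg.Agent.H9.Dg

open Cfsg Cfsg.Agent.H3.CharIrr Cfsg.Agent.H3.CharComplete Cfsg.Agent.H3.CharBasic
  Cfsg.Agent.H10.BlockLoc Cfsg.Agent.H10.BlockAlg Cfsg.Agent.H10.BlockIdem Cfsg.Agent.H10.BlockDefect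
  Cfsg.Agent.H10.Char Cfsg.Agent.H10.PPart Cfsg.Agent.H10.BlockMain Cfsg.Agent.H10.BlockSMT2
  Cfsg.Agent.H25.IndCong Cfsg.Agent.H25.Sub Cfsg.Agent.H25.Sub2 Cfsg.Agent.H25.Sub7 Cfsg.Agent.H25.Cyh Cfsg.Agent.H25.Cyi
  Cfsg.Agent.H25.Cyj Cfsg.Agent.H25.Cyl Cfsg.Agent.H25.Cym Cfsg.Agent.H25.Cyn Cfsg.Agent.H25.Cyo
  Cfsg.Agent.H25.Red Cfsg.Agent.H25.KG Cfsg.Agent.H25.BPTr Cfsg.Agent.H25.BPMain Cfsg.Agent.H25.BPDef
  Cfsg.Agent.H25.Fus Cfsg.Agent.H25.Nilp Cfsg.Agent.H25.NilpAb Cfsg.Agent.H25.FMT Cfsg.Agent.H25.Cyk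
  Cfsg.Agent.H9.BrVec Cfsg.Agent.H9.BrMain

variable {M : Ideal AlgInt} {G : Type*} [Group G] [Fintype G] {p : ℕ} [hp : Fact p.Prime]

/-- linear independence of a spanning set of the right size -/
theorem lin_of_rank {B : Set (IrrCharacter G)} {X : Finset (IrrCharacter G)} (hXB : ∀ χ ∈ X, χ ∈ B)
    (hspan : ∀ χ ∈ B, ∃ c : IrrCharacter G → ℂ, ∀ g, ¬ p ∣ orderOf g → (χ : G → ℂ) g = ∑ ψ ∈ X, c ψ * (ψ : G → ℂ) g)
    (hrank : X.card ≤ blockRank p B) (c : IrrCharacter G → ℂ)
    (hc : ∀ g, ¬ p ∣ orderOf g → ∑ χ ∈ X, c χ * (χ : G → ℂ) g = 0) : ∀ χ ∈ X, c χ = 0 := by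
  classical
  let v : X → (G → ℂ) := fun χ => pRegularPart p ((χ : IrrCharacter G) : G → ℂ)
  have hli : LinearIndependent ℂ v := by
    rw [linearIndependent_iff_card_le_finrank_span]
    rw [Fintype.card_coe]
    refine hrank.trans (le_of_eq ?_)
    change Module.finrank ℂ (Submodule.span ℂ ((fun χ : IrrCharacter G => pRegularPart p (χ : G → ℂ)) '' B)) =
      Module.finrank ℂ (Submodule.span ℂ (Set.range v))
    suffices hsp : Submodule.span ℂ ((fun χ : IrrCharacter G => pRegularPart p (χ : G → ℂ)) '' B) = Submodule.span ℂ (Set.range v) by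
      rw [hsp]
    apply le_antisymm
    · rw [Submodule.span_le]
      rintro _ ⟨χ, hχ, rfl⟩
      obtain ⟨c, hc⟩ := hspan χ hχ
      have h1 : pRegularPart p (χ : G → ℂ) = ∑ ψ : X, c ψ • v ψ := by
        funext g
        rw [Finset.sum_apply]
        by_cases hg : p ∣ orderOf g
        · unfold pRegularPart
          rw [if_neg (show ¬ IsPRegular p g from not_not.2 hg)]
          symm
          apply Finset.sum_eq_zero
          intro ψ _
          change c ψ * pRegularPart p ((ψ : IrrCharacter G) : G → ℂ) g = 0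
          unfold pRegularPart
          rw [if_neg (show ¬ IsPRegular p g from not_not.2 hg), mul_zero]
        · unfold pRegularPart
          rw [if_pos (show IsPRegular p g from hg), hc g hg, ← Finset.sum_coe_sort X]
          refine Finset.sum_congr rfl fun ψ _ => ?_
          change _ = c ψ * pRegularPart p ((ψ : IrrCharacter G) : G → ℂ) g
          unfold pRegularPart
          rw [if_pos (show IsPRegular p g from hg)]
      change pRegularPart p (χ : G → ℂ) ∈ _
      rw [h1]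
      exact Submodule.sum_mem _ fun ψ _ => Submodule.smul_mem _ _ (Submodule.subset_span ⟨ψ, rfl⟩)
    · rw [Submodule.span_le]
      rintro _ ⟨ψ, rfl⟩
      exact Submodule.subset_span ⟨ψ, hXB _ ψ.2, rfl⟩
  intro χ hχ
  have h2 := Fintype.linearIndependent_iff.1 hli (fun ψ => c ψ) (by
    funext g
    rw [Finset.sum_apply]
    by_cases hg : p ∣ orderOf g
    · apply Finset.sum_eq_zero
      intro ψ _
      change c ψ * pRegularPart p ((ψ : IrrCharacter G) : G → ℂ) g = 0
      unfold pRegularPart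
      rw [if_neg (show ¬ IsPRegular p g from not_not.2 hg), mul_zero]
    · have h3 := hc g hg
      rw [← Finset.sum_coe_sort X] at h3
      refine Eq.trans ?_ h3
      refine Finset.sum_congr rfl fun ψ _ => ?_
      change c ψ * pRegularPart p ((ψ : IrrCharacter G) : G → ℂ) g = _
      unfold pRegularPart
      rw [if_pos (show IsPRegular p g from hg)])
  exact h2 ⟨χ, hχ⟩

open Classical in
/-- the block part of a relation on p-regular elements -/
theorem part_reg (hM : IsPModular p M) [Fintype (IrrCharacter G)] {B : Set (IrrCharacter G)} (hB : IsPBlock M B)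
    (c : IrrCharacter G → ℂ) (hc : ∀ g, ¬ p ∣ orderOf g → ∑ χ, c χ * (χ : G → ℂ) g = 0) {g : G} (hg : ¬ p ∣ orderOf g) :
    ∑ χ, (if χ ∈ B then c χ * (χ : G → ℂ) g else 0) = 0 := by
  let α : G → ℂ := fun h => ∑ χ, c χ * (χ : G → ℂ) h
  have h1 : ∀ χ : IrrCharacter G, c χ = (Nat.card G : ℂ)⁻¹ * ∑ h : G, α h * conj ((χ : G → ℂ) h) := by
    intro χ
    have h2 : ∑ h : G, α h * conj ((χ : G → ℂ) h) = ∑ ψ : IrrCharacter G, c ψ * ((Nat.card G : ℂ) * classInner (ψ : G → ℂ) (χ : G → ℂ)) := by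
      simp only [α, Finset.sum_mul]
      rw [Finset.sum_comm]
      refine Finset.sum_congr rfl fun ψ _ => ?_
      unfold classInner
      rw [← mul_assoc (Nat.card G : ℂ), mul_inv_cancel₀ (Nat.cast_ne_zero.2 Nat.card_pos.ne'), one_mul, Finset.mul_sum]
      refine Finset.sum_congr rfl fun h _ => by ring
    rw [h2, Finset.sum_eq_single χ]
    · rw [ci_irr_self χ.2, mul_one]
      have h3 : (Nat.card G : ℂ) ≠ 0 := Nat.cast_ne_zero.2 Nat.card_pos.ne'
      field_simp
    · intro ψ _ hne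
      rw [ci_irr_ne ψ.2 χ.2 (fun h => hne (Subtype.ext h)), mul_zero, mul_zero]
    · intro h; exact absurd (Finset.mem_univ _) h
  have h2 : ∀ χ : IrrCharacter G, (if χ ∈ B then c χ * (χ : G → ℂ) g else 0) =
      ∑ h : G, ((Nat.card G : ℂ)⁻¹ * α h) * (if χ ∈ B then (χ : G → ℂ) g * conj ((χ : G → ℂ) h) else 0) := by
    intro χ
    split_ifs
    · rw [h1 χ, Finset.mul_sum, Finset.sum_mul]
      refine Finset.sum_congr rfl fun h _ => by ring
    · simp
  rw [Finset.sum_congr rfl fun χ _ => h2 χ, Finset.sum_comm]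
  apply Finset.sum_eq_zero
  intro h _
  rw [← Finset.mul_sum]
  by_cases hh : p ∣ orderOf h
  · rw [H10.BlockOrth.weak_orth hM hB g h hg hh, mul_zero]
  · have : α h = 0 := hc h hh
    rw [this, mul_zero, zero_mul]

section str

variable [hMax : M.IsMaximal] [hch : CharP (KM M) p] {u : G}

/-- the structure of the block of `G` attached to a block of the centralizer of the Sylow subgroup -/
structure Str (M : Ideal AlgInt) (p : ℕ) [hp : Fact p.Prime] (u : G) (hu : orderOf u = p) (b : Set (IrrCharacter (Ce (Subgroup.zpowers u)))) (B : Set (IrrCharacter G))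
    (θ : ZMod p → IrrCharacter (Ce (Subgroup.zpowers u))) (H : Subgroup (ZMod p)ˣ) (X : Finset (IrrCharacter G))
    (δ : IrrCharacter G → ℤ) (ε : ℤ) (L : Orb H → IrrCharacter G) : Prop where
  fam : Fam p u b θ
  cblk : IsPBlock M b
  blk : IsPBlock M B
  dg : IsDefectGroup p M B (Subgroup.zpowers u)
  ind : IsInducedBlock M (Ce (Subgroup.zpowers u)) b B
  mem : ∀ χ, χ ∈ B ↔ χ ∈ X ∨ ∃ o, L o = χ
  card : X.card = Nat.card H
  dlt : ∀ χ ∈ X, (δ χ = 1 ∨ δ χ = -1) ∧ ∀ a : ZMod p, a ≠ 0 → H25.Cyh.vv (mm0 θ) χ a = δ χ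
  eps : ε = 1 ∨ ε = -1
  inj : Function.Injective L
  disj : ∀ χ ∈ X, ∀ o, L o ≠ χ
  L1 : ∀ o (x : {x : ZMod p // x ≠ 0}), H25.Cyh.om H x = o → H25.Cyh.vv (mm0 θ) (L o) x.1 = -ε
  L0 : ∀ o (x : {x : ZMod p // x ≠ 0}), H25.Cyh.om H x ≠ o → H25.Cyh.vv (mm0 θ) (L o) x.1 = 0
  rel : ∀ o g, ¬ p ∣ orderOf g → (ε : ℂ) * (L o : G → ℂ) g = ∑ χ ∈ X, (δ χ : ℂ) * (χ : G → ℂ) g
  out : ∀ χ, χ ∉ B → ∀ a, H25.Cyh.vv (mm0 θ) χ a = 0
  lin : ∀ c : IrrCharacter G → ℂ, (∀ g, ¬ p ∣ orderOf g → ∑ χ ∈ X, c χ * (χ : G → ℂ) g = 0) → ∀ χ ∈ X, c χ = 0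
  sub : H ≤ (H9.BrMain.om hu).range
  prin : (∀ c, (θ 0 : Ce (Subgroup.zpowers u) → ℂ) c = 1) → H = (H9.BrMain.om hu).range

theorem exists_str (hM : IsPModular p M) (hu : orderOf u = p) (hidx : ¬ p ∣ (Subgroup.zpowers u).index)
    {b : Set (IrrCharacter (Ce (Subgroup.zpowers u)))} (hb : IsPBlock M b) :
    ∃ B θ H X δ ε L, Str M p u hu b B θ H X δ ε L := by
  classical
  haveI : Fact (1 < p) := ⟨hp.out.one_lt⟩
  have h10 : (1 : ZMod p) ≠ 0 := one_ne_zero
  obtain ⟨B, hind⟩ := H25.Cyp.ind_def hM (cen_eq hu h10) (zp_ord hu 1) hb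
  have hB : IsPBlock M B := hind.2.1
  -- defect group
  have hzC : Subgroup.zpowers u ≤ Ce (Subgroup.zpowers u) := by
    rw [Subgroup.zpowers_le]; exact (uc u).2
  haveI : Fintype (Ce (Subgroup.zpowers u)) := Fintype.ofFinite _
  haveI := hM.2.1
  obtain ⟨D, hD⟩ := exists_defectGroup (M := M) (p := p) hb
  have hPD : IsDefectGroup p M B (Subgroup.zpowers u) := by
    haveI hn : ((Subgroup.zpowers u).subgroupOf (Ce (Subgroup.zpowers u))).Normal := by
      constructor
      intro x hx g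
      rw [Subgroup.mem_subgroupOf] at hx ⊢
      have h1 : (g : G) * x * (g : G)⁻¹ = x := by
        have h2 := Subgroup.mem_centralizer_iff.1 g.2 x hx
        rw [← h2, mul_inv_cancel_right]
      rw [Subgroup.coe_mul, Subgroup.coe_mul, Subgroup.coe_inv, h1]
      exact hx
    have hpg : IsPGroup p (Subgroup.zpowers u) := IsPGroup.of_card (n := 1) (by rw [Nat.card_zpowers, hu, pow_one])
    have h1 := normal_le_defectGroup hM hb hD ((Subgroup.zpowers u).subgroupOf (Ce (Subgroup.zpowers u)))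
      (hpg.of_equiv (Subgroup.subgroupOfEquivOfLe hzC).symm)
    obtain ⟨E, hE, hDE⟩ := induced_defect_le hM (Ce (Subgroup.zpowers u)) hind hD
    have h2 : Subgroup.zpowers u ≤ E := by
      refine le_trans ?_ hDE
      intro x hx
      exact ⟨⟨x, hzC hx⟩, h1 (by rw [Subgroup.mem_subgroupOf]; exact hx), rfl⟩
    have h3 := card_defectGroup hM hB hE
    have h4 : E ≤ Subgroup.zpowers u := by
      rw [← Subgroup.relIndex_eq_one]
      have h5 : (Subgroup.zpowers u).relIndex E ∣ (Subgroup.zpowers u).index := Subgroup.relIndex_dvd_index_of_le h2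
      have h6 : (Subgroup.zpowers u).relIndex E ∣ Nat.card E := Subgroup.relIndex_dvd_card _ _
      rw [h3] at h6
      obtain ⟨j, -, hj⟩ := (Nat.dvd_prime_pow hp.out).1 h6
      rw [hj] at h5 ⊢
      rcases Nat.eq_zero_or_pos j with h0 | h0
      · rw [h0, pow_zero]
      · exact absurd ((dvd_pow_self p h0.ne').trans h5) hidx
    rw [le_antisymm h2 h4]
    exact hE
  obtain ⟨-, hbp, htop, θ, hf, X, Y, δ, ε, L, h1, h2, h3, h4, h5, h6, h7, h8, h9, h10', h11⟩ := H25.Cyo.main_p hM hB hu hidx hPD hind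
  refine ⟨B, θ, _, X, δ, ε, L, ?_⟩
  have hT := H25.Cyo.mem_Nf_stb (M := M) hb hu hf
  have hTN : Nf (Subgroup.zpowers u) (ep M (Ce (Subgroup.zpowers u)) b) ≤ Subgroup.normalizer (Subgroup.zpowers u : Set G) := fun t ht => ((hT t).1 ht).1
  exact
    { fam := hf
      cblk := hb
      blk := hB
      dg := hPD
      ind := hind
      mem := fun χ => by rw [h1, h8]
      card := h3
      dlt := h5
      eps := h6
      inj := h7
      disj := fun χ hχ o ho => Finset.disjoint_left.1 h2 hχ ((h8 χ).2 ⟨o, ho⟩)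
      L1 := h9
      L0 := h10'
      rel := h11
      out := fun χ hχ a => vv_out hM hu hf hind hχ a
      lin := by
        apply lin_of_rank (B := B) (p := p)
        · intro χ hχ; exact (h1 χ).2 (Or.inl hχ)
        · intro χ hχ
          rcases (h1 χ).1 hχ with h | h
          · refine ⟨fun ψ => if ψ = χ then 1 else 0, fun g _ => ?_⟩
            rw [Finset.sum_eq_single χ]
            · simp
            · intro ψ _ hne; simp [hne]
            · intro h'; exact absurd h h'
          · obtain ⟨o, rfl⟩ := (h8 χ).1 h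
            refine ⟨fun ψ => (ε : ℂ) * (δ ψ : ℂ), fun g hg => ?_⟩
            have h12 := h11 o g hg
            have h13 : (ε : ℂ) * ε = 1 := by rcases h6 with h | h <;> rw [h] <;> norm_num
            calc (L o : G → ℂ) g = (ε : ℂ) * ((ε : ℂ) * (L o : G → ℂ) g) := by rw [← mul_assoc, h13, one_mul]
              _ = _ := by
                rw [h12, Finset.mul_sum]
                refine Finset.sum_congr rfl fun ψ _ => by ring
        · rw [h3, card_HT hu hTN]
          exact H25.Cym.lower_p hM hB hu hidx hbp htop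
      sub := by
        intro h hh
        obtain ⟨t, ht, -, rfl⟩ := (mem_HT hu).1 hh
        exact ⟨_, rfl⟩
      prin := by
        intro hpr
        apply le_antisymm
        · intro h hh
          obtain ⟨t, ht, -, rfl⟩ := (mem_HT hu).1 hh
          exact ⟨_, rfl⟩
        · rintro _ ⟨⟨t, ht⟩, rfl⟩
          rw [mem_HT]
          refine ⟨t, ht, (hT t).2 ⟨ht, ?_⟩, rfl⟩
          intro c c' _
          rw [hpr, hpr] }

end str

end Cfsg.Agent.H9.Dg
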