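import Mathlib
import Cfsg.Agent.H9_DgA

set_option autoImplicit false
set_option linter.unusedSectionVars false

/-! H9_DgB: coefficients of generalized characters vanishing on p-regular elements. -/

open scoped ComplexConjugate

namespace Cfsg.Agent.H9.Dg

open Cfsg Cfsg.Agent.H3.CharIrr Cfsg.Agent.H3.CharComplete Cfsg.Agent.H3.CharBasic
  Cfsg.Agent.H10.BlockLoc Cfsg.Agent.H10.BlockAlg Cfsg.Agent.H10.BlockIdem Cfsg.Agent.H10.BlockDefect
  Cfsg.Agent.H10.Char Cfsg.Agent.H10.PPart Cfsg.Agent.H10.BlockMain Cfsg.Agent.H10.BlockSMT2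
  Cfsg.Agent.H25.IndCong Cfsg.Agent.H25.Sub Cfsg.Agent.H25.Sub2 Cfsg.Agent.H25.Sub7 Cfsg.Agent.H25.Cyh Cfsg.Agent.H25.Cyi
  Cfsg.Agent.H25.Cyj Cfsg.Agent.H25.Cyl Cfsg.Agent.H25.Cym Cfsg.Agent.H25.Cyn Cfsg.Agent.H25.Cyo
  Cfsg.Agent.H25.Red Cfsg.Agent.H25.KG Cfsg.Agent.H25.BPTr Cfsg.Agent.H25.BPMain Cfsg.Agent.H25.BPDef
  Cfsg.Agent.H25.Fus Cfsg.Agent.H25.Nilp Cfsg.Agent.H25.NilpAb Cfsg.Agent.H25.FMT Cfsg.Agent.H25.Cyk
  Cfsg.Agent.H9.BrVec Cfsg.Agent.H9.BrMain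

variable {M : Ideal AlgInt} {G : Type*} [Group G] [Fintype G] {p : ℕ} [hp : Fact p.Prime] {u : G}

/-- family sums are functionals on p-regular elements -/
theorem fam_sum [Fintype (IrrCharacter G)] (hu : orderOf u = p) (hidx : ¬ p ∣ (Subgroup.zpowers u).index)
    {b : Set (IrrCharacter (Ce (Subgroup.zpowers u)))} {θ : ZMod p → IrrCharacter (Ce (Subgroup.zpowers u))}
    (hf : Fam p u b θ) (c : IrrCharacter G → ℂ) (hc : ∀ g, ¬ p ∣ orderOf g → ∑ χ, c χ * (χ : G → ℂ) g = 0) :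
    ∑ χ : IrrCharacter G, c χ * ∑ a : ZMod p, (mm0 θ χ a : ℂ) = 0 := by
  classical
  have h1 : ∀ χ : IrrCharacter G, ∑ a : ZMod p, (mm0 θ χ a : ℂ) = (p : ℂ) * (Nat.card (Ce (Subgroup.zpowers u)) : ℂ)⁻¹ *
      ∑ y : G, (χ : G → ℂ) y * conj (cf p u (θ 0) y) := by
    intro χ
    have h2 := dd_AA hu hidx hf χ 0
    unfold H25.Cyh.dd AA at h2
    simp only [mul_zero, H25.Cyh.ee_zero, mul_one, zp_zero, one_mul] at h2
    exact h2
  have h3 : ∀ χ : IrrCharacter G, c χ * ∑ a : ZMod p, (mm0 θ χ a : ℂ) =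
      ∑ y : G, ((p : ℂ) * (Nat.card (Ce (Subgroup.zpowers u)) : ℂ)⁻¹ * conj (cf p u (θ 0) y)) * (c χ * (χ : G → ℂ) y) := by
    intro χ
    rw [h1, Finset.mul_sum, Finset.mul_sum]
    refine Finset.sum_congr rfl fun y _ => by ring
  rw [Finset.sum_congr rfl fun χ _ => h3 χ, Finset.sum_comm]
  apply Finset.sum_eq_zero
  intro y _
  rw [← Finset.mul_sum]
  by_cases hy : cf p u (θ 0) y = 0
  · rw [hy]; simp
  · rw [hc y (cf_supp (θ 0) 0 y hy).1, mul_zero]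

section

variable {hu : orderOf u = p} {b : Set (IrrCharacter (Ce (Subgroup.zpowers u)))} {B : Set (IrrCharacter G)}
    {θ : ZMod p → IrrCharacter (Ce (Subgroup.zpowers u))} {H : Subgroup (ZMod p)ˣ} {X : Finset (IrrCharacter G)}
    {δ : IrrCharacter G → ℤ} {ε : ℤ} {L : Orb H → IrrCharacter G}

theorem Str.sumB (S : Str M p u hu b B θ H X δ ε L) [Fintype (IrrCharacter G)] [Fintype (Orb H)] {R : Type*} [AddCommMonoid R]
    (f : IrrCharacter G → R) (hf : ∀ χ, χ ∉ B → f χ = 0) : ∑ χ, f χ = ∑ χ ∈ X, f χ + ∑ o, f (L o) := by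
  classical
  have h1 : ∑ o, f (L o) = ∑ χ ∈ Finset.univ.image L, f χ := by
    rw [Finset.sum_image fun a _ b _ h => S.inj h]
  rw [h1, ← Finset.sum_union]
  · symm
    apply Finset.sum_subset (Finset.subset_univ _)
    intro χ _ hχ
    apply hf
    intro h
    apply hχ
    rw [Finset.mem_union, Finset.mem_image]
    rcases (S.mem χ).1 h with h | ⟨o, ho⟩
    · exact Or.inl h
    · exact Or.inr ⟨o, Finset.mem_univ _, ho⟩
  · rw [Finset.disjoint_left]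
    intro χ hχ h
    obtain ⟨o, -, ho⟩ := Finset.mem_image.1 h
    exact S.disj χ hχ o ho

theorem sum_orb [Fintype (Orb H)] {R : Type*} [CommRing R] (f : Orb H → R) :
    ∑ x : {x : ZMod p // x ≠ 0}, f (H25.Cyh.om H x) = (Nat.card H : R) * ∑ o, f o := by
  classical
  rw [← Finset.sum_fiberwise (s := Finset.univ) (g := fun x => H25.Cyh.om H x), Finset.mul_sum]
  refine Finset.sum_congr rfl fun o _ => ?_
  have h1 : ∀ x ∈ Finset.univ.filter (fun x : {x : ZMod p // x ≠ 0} => H25.Cyh.om H x = o), f (H25.Cyh.om H x) = f o := by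
    intro x hx
    rw [(Finset.mem_filter.1 hx).2]
  rw [Finset.sum_congr rfl h1, Finset.sum_const, nsmul_eq_mul]
  congr 2
  have h2 := H25.Cyh.coset_count (H := H) free_HT o
  rw [← h2, Nat.card_eq_fintype_card, Fintype.card_subtype]

/-- the coefficients in the block of a generalized character vanishing on p-regular elements -/
theorem Str.coeff (hM : IsPModular p M) (hidx : ¬ p ∣ (Subgroup.zpowers u).index) (S : Str M p u hu b B θ H X δ ε L)
    [Fintype (IrrCharacter G)] [Fintype (Orb H)] (c : IrrCharacter G → ℤ)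
    (hc : ∀ g, ¬ p ∣ orderOf g → ∑ χ, (c χ : ℂ) * (χ : G → ℂ) g = 0) :
    ∃ κ : ℤ, (∀ χ ∈ X, c χ = δ χ * κ) ∧ ∑ o, c (L o) = - ε * κ ∧
      ∑ χ, c χ * (mm0 θ χ 0 : ℤ) = Nat.card H * κ := by
  classical
  have he2 : ε * ε = 1 := by rcases S.eps with h | h <;> rw [h] <;> norm_num
  have he2' : (ε : ℂ) * ε = 1 := by exact_mod_cast he2
  set T : ℤ := ∑ o, c (L o) with hT
  have h1 : ∀ g, ¬ p ∣ orderOf g → ∑ χ ∈ X, ((c χ : ℂ) + ε * δ χ * T) * (χ : G → ℂ) g = 0 := by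
    intro g hg
    have h2 := part_reg hM S.blk (fun χ => (c χ : ℂ)) hc hg
    rw [S.sumB _ (fun χ hχ => if_neg hχ)] at h2
    have h3 : ∑ χ ∈ X, (if χ ∈ B then (c χ : ℂ) * (χ : G → ℂ) g else 0) = ∑ χ ∈ X, (c χ : ℂ) * (χ : G → ℂ) g :=
      Finset.sum_congr rfl fun χ hχ => if_pos ((S.mem χ).2 (Or.inl hχ))
    have h4 : ∑ o, (if L o ∈ B then (c (L o) : ℂ) * (L o : G → ℂ) g else 0) =
        (T : ℂ) * (ε * ∑ χ ∈ X, (δ χ : ℂ) * (χ : G → ℂ) g) := by
      rw [hT, Int.cast_sum, Finset.sum_mul]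
      refine Finset.sum_congr rfl fun o _ => ?_
      rw [if_pos ((S.mem _).2 (Or.inr ⟨o, rfl⟩)), ← S.rel o g hg, ← mul_assoc (ε : ℂ), he2', one_mul]
    rw [h3, h4] at h2
    rw [← h2, Finset.mul_sum, Finset.mul_sum, ← Finset.sum_add_distrib]
    refine Finset.sum_congr rfl fun χ _ => by ring
  have h2 := S.lin _ h1
  have h3 : ∀ χ ∈ X, c χ = δ χ * (- ε * T) := by
    intro χ hχ
    have h4 := h2 χ hχ
    have h5 : c χ + ε * δ χ * T = 0 := by exact_mod_cast h4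
    linarith
  refine ⟨- ε * T, h3, by rw [← mul_assoc, neg_mul_neg, he2, one_mul], ?_⟩
  set κ : ℤ := - ε * T with hκ
  have hTκ : T = - ε * κ := by rw [hκ, ← mul_assoc, neg_mul_neg, he2, one_mul]
  have h4 : ∀ x : {x : ZMod p // x ≠ 0}, ∑ χ, c χ * (mm0 θ χ 0 : ℤ) - ∑ χ, c χ * (mm0 θ χ x : ℤ) =
      Nat.card H * κ - ε * c (L (H25.Cyh.om H x)) := by
    intro x
    have h5 : ∑ χ, c χ * (mm0 θ χ 0 : ℤ) - ∑ χ, c χ * (mm0 θ χ x : ℤ) = ∑ χ, c χ * H25.Cyh.vv (mm0 θ) χ x.1 := by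
      rw [← Finset.sum_sub_distrib]
      refine Finset.sum_congr rfl fun χ _ => ?_
      rw [← mul_sub]; rfl
    rw [h5, S.sumB _ (fun χ hχ => by rw [S.out χ hχ, mul_zero])]
    have h6 : ∑ χ ∈ X, c χ * H25.Cyh.vv (mm0 θ) χ x.1 = Nat.card H * κ := by
      have h7 : ∀ χ ∈ X, c χ * H25.Cyh.vv (mm0 θ) χ x.1 = κ := by
        intro χ hχ
        rw [(S.dlt χ hχ).2 x.1 x.2, h3 χ hχ]
        rcases (S.dlt χ hχ).1 with h | h <;> rw [h] <;> ring
      rw [Finset.sum_congr rfl h7, Finset.sum_const, S.card, nsmul_eq_mul]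
    have h7 : ∑ o, c (L o) * H25.Cyh.vv (mm0 θ) (L o) x.1 = - (ε * c (L (H25.Cyh.om H x))) := by
      rw [Finset.sum_eq_single (H25.Cyh.om H x)]
      · rw [S.L1 _ x rfl]; ring
      · intro o _ hne
        rw [S.L0 o x hne.symm, mul_zero]
      · intro h; exact absurd (Finset.mem_univ _) h
    rw [h6, h7]; ring
  have h5 : ∑ a : ZMod p, ∑ χ, c χ * (mm0 θ χ a : ℤ) = 0 := by
    have h6 := fam_sum hu hidx S.fam (fun χ => (c χ : ℂ)) hc
    have h7 : ((∑ a : ZMod p, ∑ χ, c χ * (mm0 θ χ a : ℤ) : ℤ) : ℂ) = 0 := by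
      rw [← h6]
      push_cast
      rw [Finset.sum_comm]
      refine Finset.sum_congr rfl fun χ _ => by rw [Finset.mul_sum]
    exact_mod_cast h7
  have h6 : ∑ a : ZMod p, (∑ χ, c χ * (mm0 θ χ 0 : ℤ) - ∑ χ, c χ * (mm0 θ χ a : ℤ)) =
      ∑ x : {x : ZMod p // x ≠ 0}, (Nat.card H * κ - ε * c (L (H25.Cyh.om H x))) := by
    rw [← Finset.sum_congr rfl fun x _ => h4 x]
    rw [← Fintype.sum_subtype_add_sum_subtype (fun x : ZMod p => x ≠ 0)]
    have h7 : ∑ i : {x : ZMod p // ¬ x ≠ 0}, (∑ χ, c χ * (mm0 θ χ 0 : ℤ) - ∑ χ, c χ * (mm0 θ χ i : ℤ)) = 0 := by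
      apply Finset.sum_eq_zero
      rintro ⟨i, hi⟩ _
      have hi' := not_not.1 hi
      subst hi'
      exact sub_self _
    rw [h7, add_zero]
  rw [Finset.sum_sub_distrib, h5, sub_zero, Finset.sum_sub_distrib, Finset.sum_const, Finset.sum_const, ← Finset.mul_sum,
    sum_orb (H := H) (fun o => c (L o)), ← hT, Finset.card_univ, Finset.card_univ, ZMod.card, nsmul_eq_mul, nsmul_eq_mul] at h6
  have h8 : Fintype.card {x : ZMod p // x ≠ 0} = p - 1 := by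
    have := Fintype.card_subtype_compl (fun x : ZMod p => x = 0)
    rw [Fintype.card_subtype_eq, ZMod.card] at this
    exact this
  have h9 : ((p - 1 : ℕ) : ℤ) = (p : ℤ) - 1 := by have := hp.out.one_lt; omega
  rw [h8, h9] at h6
  have h10 : (p : ℤ) * (∑ χ, c χ * (mm0 θ χ 0 : ℤ)) = p * (Nat.card H * κ) := by
    rw [h6, hκ]; ring
  have h11 : (p : ℤ) ≠ 0 := by exact_mod_cast hp.out.ne_zero
  exact mul_left_cancel₀ h11 h10

end

end Cfsg.Agent.H9.Dg
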