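import Mathlib
import Cfsg.Agent.H9_DgB

set_option autoImplicit false
set_option linter.unusedSectionVars false

/-! H9_DgC: types and shifts of characters of the centralizer, conjugate blocks. -/

open scoped ComplexConjugate

namespace Cfsg.Agent.H9.Dg

open Cfsg Cfsg.Agent.H3.CharIrr Cfsg.Agent.H3.CharComplete Cfsg.Agent.H3.CharBasic
  Cfsg.Agent.H10.BlockLoc Cfsg.Agent.H10.BlockAlg Cfsg.Agent.H10.BlockIdem Cfsg.Agent.H10.BlockDefect
  Cfsg.Agent.H10.Char Cfsg.Agent.H10.PPart Cfsg.Agent.H10.BlockMain Cfsg.Agent.H10.BlockSMT2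
  Cfsg.Agent.H25.IndCong Cfsg.Agent.H25.Sub Cfsg.Agent.H25.Sub2 Cfsg.Agent.H25.Sub7 Cfsg.Agent.H25.Cyh Cfsg.Agent.H25.Cyi
  Cfsg.Agent.H25.Cyj Cfsg.Agent.H25.Cyl Cfsg.Agent.H25.Cym Cfsg.Agent.H25.Cyn Cfsg.Agent.H25.Cyo
  Cfsg.Agent.H25.Red Cfsg.Agent.H25.KG Cfsg.Agent.H25.BPTr Cfsg.Agent.H25.BPMain Cfsg.Agent.H25.BPDef
  Cfsg.Agent.H25.Fus Cfsg.Agent.H25.Nilp Cfsg.Agent.H25.NilpAb Cfsg.Agent.H25.FMT Cfsg.Agent.H25.Cyk
  Cfsg.Agent.H9.BrVec Cfsg.Agent.H9.BrMain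

variable {M : Ideal AlgInt} {G : Type*} [Group G] [Fintype G] {p : ℕ} [hp : Fact p.Prime] {u : G}

/-- multiplicity in the restriction to the centralizer -/
noncomputable def mlt (χ : IrrCharacter G) (φ : IrrCharacter (Ce (Subgroup.zpowers u))) : ℕ :=
  letI : Fintype (Ce (Subgroup.zpowers u)) := Fintype.ofFinite _
  aa (Ce (Subgroup.zpowers u)) χ φ

theorem mm0_eq (θ : ZMod p → IrrCharacter (Ce (Subgroup.zpowers u))) (χ : IrrCharacter G) (a : ZMod p) :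
    mm0 θ χ a = mlt χ (θ a) := rfl

theorem mlt_spec [Fintype (Ce (Subgroup.zpowers u))] (χ : IrrCharacter G) (φ : IrrCharacter (Ce (Subgroup.zpowers u))) :
    classInner (fun h : Ce (Subgroup.zpowers u) => (χ : G → ℂ) h) (φ : Ce (Subgroup.zpowers u) → ℂ) = mlt χ φ := by
  have h1 := @aa_spec G _ _ (Ce (Subgroup.zpowers u)) (Fintype.ofFinite _) χ φ
  unfold mlt
  rw [← h1]
  congr
  exact Subsingleton.elim _ _

theorem res_expand [Fintype (IrrCharacter (Ce (Subgroup.zpowers u)))] (χ : IrrCharacter G) (c : Ce (Subgroup.zpowers u)) :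
    (χ : G → ℂ) c = ∑ φ : IrrCharacter (Ce (Subgroup.zpowers u)), (mlt χ φ : ℂ) * (φ : Ce (Subgroup.zpowers u) → ℂ) c := by
  haveI : Fintype (Ce (Subgroup.zpowers u)) := Fintype.ofFinite _
  have h1 := expand_apply (fun h : Ce (Subgroup.zpowers u) => (χ : G → ℂ) h) (fun a g => IsIrr.isClass χ.2 (a : G) (g : G)) c
  rw [h1]
  refine Finset.sum_congr rfl fun φ _ => ?_
  rw [mlt_spec]

/-- the type of a character of the centralizer -/
def IsTy (p : ℕ) [hp : Fact p.Prime] (φ : IrrCharacter (Ce (Subgroup.zpowers u))) (a : ZMod p) : Prop :=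
  ∀ i : ZMod p, (φ : Ce (Subgroup.zpowers u) → ℂ) ⟨zp p u i, zp_mem_Ce i⟩ = H25.Cyh.ee (a * i) * (φ : Ce (Subgroup.zpowers u) → ℂ) 1

theorem fam_one {b : Set (IrrCharacter (Ce (Subgroup.zpowers u)))} {θ : ZMod p → IrrCharacter (Ce (Subgroup.zpowers u))}
    (hf : Fam p u b θ) (a : ZMod p) : (θ a : Ce (Subgroup.zpowers u) → ℂ) 1 = (θ 0 : Ce (Subgroup.zpowers u) → ℂ) 1 := by
  have h1r : ¬ p ∣ orderOf ((1 : Ce (Subgroup.zpowers u)) : G) := by
    rw [Subgroup.coe_one, orderOf_one]; exact fun h => hp.out.one_lt.ne' (Nat.dvd_one.1 h)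
  have := hf.val a 0 1 1 h1r (by rw [Subgroup.coe_one, zp_zero, one_mul])
  rw [this, mul_zero, H25.Cyh.ee_zero, one_mul]

theorem fam_ty {b : Set (IrrCharacter (Ce (Subgroup.zpowers u)))} {θ : ZMod p → IrrCharacter (Ce (Subgroup.zpowers u))}
    (hf : Fam p u b θ) (a : ZMod p) : IsTy p (θ a) a := by
  intro i
  have h1r : ¬ p ∣ orderOf ((1 : Ce (Subgroup.zpowers u)) : G) := by
    rw [Subgroup.coe_one, orderOf_one]; exact fun h => hp.out.one_lt.ne' (Nat.dvd_one.1 h)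
  rw [hf.val a i 1 ⟨zp p u i, zp_mem_Ce i⟩ h1r (by rw [Subgroup.coe_one, mul_one]), fam_one hf a]

theorem ee_inj' {a b : ZMod p} (h : H25.Cyh.ee a = H25.Cyh.ee b) : a = b := ZMod.injective_stdAddChar h

theorem IsTy.unique {φ : IrrCharacter (Ce (Subgroup.zpowers u))} {a a' : ZMod p} (h : IsTy p φ a) (h' : IsTy p φ a') : a = a' := by
  have h1 := h 1
  rw [h' 1, mul_one, mul_one] at h1
  exact ee_inj' (mul_right_cancel₀ (IsIrr.one_ne_zero φ.2) h1).symm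

theorem fam_eq {b : Set (IrrCharacter (Ce (Subgroup.zpowers u)))} {θ : ZMod p → IrrCharacter (Ce (Subgroup.zpowers u))}
    (hf : Fam p u b θ) {φ : IrrCharacter (Ce (Subgroup.zpowers u))} (hφ : φ ∈ b) {a : ZMod p} (ha : IsTy p φ a) : θ a = φ := by
  obtain ⟨a', rfl⟩ := hf.surj φ hφ
  rw [ha.unique (fam_ty hf a')]

/-- types and shifts -/
structure SH (M : Ideal AlgInt) (p : ℕ) [hp : Fact p.Prime] (u : G) (ty : IrrCharacter (Ce (Subgroup.zpowers u)) → ZMod p)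
    (sh : ZMod p → IrrCharacter (Ce (Subgroup.zpowers u)) → IrrCharacter (Ce (Subgroup.zpowers u))) : Prop where
  ty_spec : ∀ φ, IsTy p φ (ty φ)
  fam : ∀ b θ, IsPBlock M b → Fam p u b θ → ∀ φ ∈ b, ∀ c, sh c φ = θ (ty φ + c)
  ex : ∀ φ, ∃ b θ, IsPBlock M b ∧ Fam p u b θ ∧ φ ∈ b

theorem exists_SH [hMax : M.IsMaximal] [hch : CharP (KM M) p] (hM : IsPModular p M) (hu : orderOf u = p) (hidx : ¬ p ∣ (Subgroup.zpowers u).index) :
    ∃ ty sh, SH M p u ty sh := by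
  haveI : Fintype (Ce (Subgroup.zpowers u)) := Fintype.ofFinite _
  have h1 : ∀ φ : IrrCharacter (Ce (Subgroup.zpowers u)), ∃ θ, Fam p u (blockOf M (φ : Ce (Subgroup.zpowers u) → ℂ)) θ := by
    intro φ
    obtain ⟨B, θ, H, X, δ, ε, L, S⟩ := exists_str hM hu hidx (isPBlock_blockOf (M := M) φ)
    exact ⟨θ, S.fam⟩
  choose th hth using h1
  have h2 : ∀ φ : IrrCharacter (Ce (Subgroup.zpowers u)), ∃ a, IsTy p φ a := by
    intro φ
    obtain ⟨a, ha⟩ := (hth φ).surj φ (mem_blockOf_self φ)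
    exact ⟨a, ha ▸ fam_ty (hth φ) a⟩
  choose ty hty using h2
  refine ⟨ty, fun c φ => th φ (ty φ + c), hty, ?_, fun φ => ⟨_, _, isPBlock_blockOf φ, hth φ, mem_blockOf_self φ⟩⟩
  intro b θ hb hf φ hφ c
  have h3 : b = blockOf M (φ : Ce (Subgroup.zpowers u) → ℂ) := block_eq_blockOf hb hφ
  subst h3
  symm
  exact fam_eq hf ((hth φ).mem _) (fam_ty (hth φ) _)

variable [hMax : M.IsMaximal] [hch : CharP (KM M) p]

/-- blocks of the centralizer inducing the same block are conjugate -/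
theorem Str.conj (hM : IsPModular p M) {hu : orderOf u = p} (hidx : ¬ p ∣ (Subgroup.zpowers u).index) {b : Set (IrrCharacter (Ce (Subgroup.zpowers u)))} {B : Set (IrrCharacter G)}
    {θ : ZMod p → IrrCharacter (Ce (Subgroup.zpowers u))} {H : Subgroup (ZMod p)ˣ} {X : Finset (IrrCharacter G)}
    {δ : IrrCharacter G → ℤ} {ε : ℤ} {L : Orb H → IrrCharacter G} (S : Str M p u hu b B θ H X δ ε L)
    {b' : Set (IrrCharacter (Ce (Subgroup.zpowers u)))} (hind' : IsInducedBlock M (Ce (Subgroup.zpowers u)) b' B)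
    {φ' : IrrCharacter (Ce (Subgroup.zpowers u))} (hφ' : φ' ∈ b') {a' : ZMod p} (ha' : IsTy p φ' a') :
    ∃ s ∈ (om hu).range, ∀ χ : IrrCharacter G, mlt χ φ' = mlt χ (θ ((s : ZMod p) * a')) := by
  classical
  obtain ⟨hcb, hbp, htop⟩ := data hM S.blk S.dg S.ind
  obtain ⟨hcb', hbp', htop'⟩ := data hM S.blk S.dg hind'
  obtain ⟨t, ht, hte⟩ := htop.conj_blk hbp hbp'
  have hn := norm_le_norm_Ce (Subgroup.zpowers u) ht
  have hK : Ce (Subgroup.zpowers u) = cs t (Ce (Subgroup.zpowers u)) := (mem_normalizer_iff_cs.1 hn).symm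
  rw [← ep_conj t hK] at hte
  have h1 := ep_inj (isPBlock_tB (cI t hK) hcb) hcb' hte
  rw [← h1] at hφ'
  obtain ⟨φ, hφ, hval⟩ := hφ'
  refine ⟨om hu ⟨t, ht⟩, ⟨_, rfl⟩, fun χ => ?_⟩
  have h2 : IsTy p φ ((om hu ⟨t, ht⟩ : ZMod p) * a') := by
    intro i
    have h3 := hval ⟨zp p u i, zp_mem_Ce i⟩
    have h4 : cI t hK ⟨zp p u i, zp_mem_Ce i⟩ = ⟨zp p u ((om hu ⟨t, ht⟩ : ZMod p) * i), zp_mem_Ce _⟩ := by
      apply Subtype.ext
      rw [cI_coe]
      exact om_spec hu ⟨t, ht⟩ i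
    have h5 := hval 1
    rw [map_one] at h5
    rw [h4, ha', h5] at h3
    rw [← h3]
    congr 2
    ring
  rw [fam_eq S.fam hφ h2]
  haveI : Fintype (Ce (Subgroup.zpowers u)) := Fintype.ofFinite _
  have h3 : ((mlt χ φ' : ℕ) : ℂ) = mlt χ φ := by
    rw [← mlt_spec, ← mlt_spec]
    unfold classInner
    congr 1
    symm
    refine Fintype.sum_equiv (cI t hK).toEquiv _ _ fun c => ?_
    have e1 : (cI t hK).toEquiv c = cI t hK c := rfl
    rw [e1, hval]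
    change (χ : G → ℂ) c * _ = (χ : G → ℂ) ((cI t hK c : Ce (Subgroup.zpowers u)) : G) * _
    rw [cI_coe, IsIrr.isClass χ.2]
  exact_mod_cast h3

end Cfsg.Agent.H9.Dg
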