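import Mathlib
import Cfsg.Agent.H9_DgC

set_option autoImplicit false
set_option linter.unusedSectionVars false

/-! H9_DgD: products of characters, multiplicities. -/

open scoped ComplexConjugate

namespace Cfsg.Agent.H9.Dg

open Cfsg Cfsg.Agent.H3.CharIrr Cfsg.Agent.H3.CharComplete Cfsg.Agent.H3.CharBasic
  Cfsg.Agent.H10.Char Cfsg.Agent.H25.Sub2 Cfsg.Agent.H25.Cyh
  Cfsg.Agent.H25.Cyj Cfsg.Agent.H25.Cyl Cfsg.Agent.H25.Cyn Cfsg.Agent.H25.KG
  Cfsg.Agent.H9.BrVec Cfsg.Agent.H9.BrMain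

variable {G : Type*} [Group G] [Fintype G] {p : ℕ} [hp : Fact p.Prime] {u : G}

/-- the product of a character with the conjugate of another -/
noncomputable def prd (χ ψ : IrrCharacter G) : G → ℂ := fun g => (χ : G → ℂ) g * conj ((ψ : G → ℂ) g)

theorem prd_char (χ ψ : IrrCharacter G) : IsCharacter G (prd χ ψ) :=
  IsChar.mul (IsIrr.isCharacter χ.2) (IsChar.conj (IsIrr.isCharacter ψ.2))

theorem exists_cc (χ ψ ξ : IrrCharacter G) : ∃ n : ℕ, classInner (prd χ ψ) (ξ : G → ℂ) = n :=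
  ci_char_nat (prd_char χ ψ) (IsIrr.isCharacter ξ.2)

/-- multiplicities in the product -/
noncomputable def cc (χ ψ ξ : IrrCharacter G) : ℕ := (exists_cc χ ψ ξ).choose

theorem cc_spec (χ ψ ξ : IrrCharacter G) : classInner (prd χ ψ) (ξ : G → ℂ) = cc χ ψ ξ := (exists_cc χ ψ ξ).choose_spec

theorem prd_expand [Fintype (IrrCharacter G)] (χ ψ : IrrCharacter G) (g : G) :
    (χ : G → ℂ) g * conj ((ψ : G → ℂ) g) = ∑ ξ, (cc χ ψ ξ : ℂ) * (ξ : G → ℂ) g := by
  have h1 := expand_apply (prd χ ψ) (char_class (prd_char χ ψ)) g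
  have h2 : prd χ ψ g = (χ : G → ℂ) g * conj ((ψ : G → ℂ) g) := rfl
  rw [← h2, h1]
  refine Finset.sum_congr rfl fun ξ _ => ?_
  rw [cc_spec]

/-- multiplicities of the restriction of the product -/
noncomputable def MM [Fintype (IrrCharacter G)] (χ ψ : IrrCharacter G) (φ : IrrCharacter (Ce (Subgroup.zpowers u))) : ℕ :=
  ∑ ξ, cc χ ψ ξ * mlt ξ φ

theorem MM_expand [Fintype (IrrCharacter G)] [Fintype (IrrCharacter (Ce (Subgroup.zpowers u)))] (χ ψ : IrrCharacter G) (c : Ce (Subgroup.zpowers u)) :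
    (χ : G → ℂ) c * conj ((ψ : G → ℂ) c) = ∑ φ : IrrCharacter (Ce (Subgroup.zpowers u)), (MM χ ψ φ : ℂ) * (φ : Ce (Subgroup.zpowers u) → ℂ) c := by
  rw [prd_expand]
  simp only [res_expand (u := u) _ c, Finset.mul_sum, MM, Nat.cast_sum, Nat.cast_mul, Finset.sum_mul]
  rw [Finset.sum_comm]
  refine Finset.sum_congr rfl fun φ _ => Finset.sum_congr rfl fun ξ _ => by ring

section ty

variable {M : Ideal AlgInt} {ty : IrrCharacter (Ce (Subgroup.zpowers u)) → ZMod p}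
    {sh : ZMod p → IrrCharacter (Ce (Subgroup.zpowers u)) → IrrCharacter (Ce (Subgroup.zpowers u))}
    [Fintype (IrrCharacter (Ce (Subgroup.zpowers u)))]

open Classical in
/-- multiplicities at the level of the group of order p -/
noncomputable def RR (ty : IrrCharacter (Ce (Subgroup.zpowers u)) → ZMod p) (m : IrrCharacter (Ce (Subgroup.zpowers u)) → ℕ) (a : ZMod p) : ℕ :=
  ∑ φ, if ty φ = a then m φ * charDegree (φ : Ce (Subgroup.zpowers u) → ℂ) else 0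

theorem RR_val (hS : SH M p u ty sh) (m : IrrCharacter (Ce (Subgroup.zpowers u)) → ℕ) (i : ZMod p) :
    ∑ φ, (m φ : ℂ) * (φ : Ce (Subgroup.zpowers u) → ℂ) ⟨zp p u i, zp_mem_Ce i⟩ = ∑ a, (RR ty m a : ℂ) * H25.Cyh.ee (a * i) := by
  classical
  simp only [RR, Nat.cast_sum, Finset.sum_mul]
  rw [Finset.sum_comm]
  refine Finset.sum_congr rfl fun φ _ => ?_
  rw [Finset.sum_eq_single (ty φ)]
  · rw [if_pos rfl, hS.ty_spec φ i, Nat.cast_mul, charDegree_eq φ.2]; ring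
  · intro a _ hne
    rw [if_neg hne.symm, Nat.cast_zero, zero_mul]
  · intro h; exact absurd (Finset.mem_univ _) h

theorem RR_chi (hS : SH M p u ty sh) (χ : IrrCharacter G) (i : ZMod p) :
    (χ : G → ℂ) (zp p u i) = ∑ a, (RR ty (mlt χ) a : ℂ) * H25.Cyh.ee (a * i) := by
  rw [← RR_val hS]
  exact res_expand χ ⟨zp p u i, zp_mem_Ce i⟩

theorem RR_prd (hS : SH M p u ty sh) [Fintype (IrrCharacter G)] (χ ψ : IrrCharacter G) (i : ZMod p) :
    (χ : G → ℂ) (zp p u i) * conj ((ψ : G → ℂ) (zp p u i)) = ∑ a, (RR ty (MM χ ψ) a : ℂ) * H25.Cyh.ee (a * i) := by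
  rw [← RR_val hS]
  exact MM_expand χ ψ ⟨zp p u i, zp_mem_Ce i⟩

theorem parseval (f g : ZMod p → ℕ) : ∑ i : ZMod p, (∑ a, (f a : ℂ) * H25.Cyh.ee (a * i)) * conj (∑ a, (g a : ℂ) * H25.Cyh.ee (a * i)) =
    (p : ℂ) * ∑ a, (f a : ℂ) * (g a : ℂ) := by
  have h1 : ∀ i : ZMod p, (∑ a, (f a : ℂ) * H25.Cyh.ee (a * i)) * conj (∑ a, (g a : ℂ) * H25.Cyh.ee (a * i)) =
      ∑ a, ∑ b, (f a : ℂ) * (g b : ℂ) * H25.Cyh.ee ((a - b) * i) := by
    intro i
    rw [map_sum, Finset.sum_mul]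
    refine Finset.sum_congr rfl fun a _ => ?_
    rw [Finset.mul_sum]
    refine Finset.sum_congr rfl fun b _ => ?_
    rw [map_mul, H25.Cyh.ee_conj, Complex.conj_natCast]
    have : H25.Cyh.ee ((a - b) * i) = H25.Cyh.ee (a * i) * H25.Cyh.ee (-(b * i)) := by
      rw [← H25.Cyh.ee_add]; congr 1; ring
    rw [this]; ring
  rw [Finset.sum_congr rfl fun i _ => h1 i, Finset.sum_comm, Finset.mul_sum]
  refine Finset.sum_congr rfl fun a _ => ?_
  rw [Finset.sum_comm]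
  simp only [← Finset.mul_sum, H25.Cyh.sum_ee]
  rw [Finset.sum_eq_single a]
  · rw [sub_self, if_pos rfl]; ring
  · intro b _ hne
    rw [if_neg (sub_ne_zero.2 hne.symm), mul_zero]
  · intro h; exact absurd (Finset.mem_univ _) h

theorem fourier_zero (f : ZMod p → ℕ) : ∑ i : ZMod p, ∑ a, (f a : ℂ) * H25.Cyh.ee (a * i) = (p : ℂ) * f 0 := by
  rw [Finset.sum_comm]
  simp only [← Finset.mul_sum, H25.Cyh.sum_ee]
  rw [Finset.sum_eq_single 0]
  · rw [if_pos rfl]; ring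
  · intro b _ hne
    rw [if_neg hne, mul_zero]
  · intro h; exact absurd (Finset.mem_univ _) h

theorem RR_zero (hS : SH M p u ty sh) [Fintype (IrrCharacter G)] (χ ψ : IrrCharacter G) :
    RR ty (MM χ ψ) 0 = ∑ a, RR ty (mlt χ) a * RR ty (mlt ψ) a := by
  have h1 := fourier_zero (p := p) (RR ty (MM χ ψ))
  rw [← Finset.sum_congr rfl fun i _ => RR_prd hS χ ψ i] at h1
  have h2 := parseval (p := p) (RR ty (mlt χ)) (RR ty (mlt ψ))
  have h2' : ∀ i : ZMod p, (χ : G → ℂ) (zp p u i) * conj ((ψ : G → ℂ) (zp p u i)) =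
      (∑ a, (RR ty (mlt χ) a : ℂ) * H25.Cyh.ee (a * i)) * conj (∑ a, (RR ty (mlt ψ) a : ℂ) * H25.Cyh.ee (a * i)) := fun i => by
    rw [RR_chi hS χ i, RR_chi hS ψ i]
  rw [← Finset.sum_congr rfl fun i _ => h2' i, h1] at h2
  have h3 := mul_left_cancel₀ (Nat.cast_ne_zero.2 hp.out.ne_zero) h2
  exact_mod_cast h3

theorem RR_sum (hS : SH M p u ty sh) [Fintype (IrrCharacter G)] (χ ψ : IrrCharacter G) :
    ∑ a, RR ty (MM χ ψ) a = charDegree (χ : G → ℂ) * charDegree (ψ : G → ℂ) := by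
  have h1 := RR_prd hS χ ψ 0
  simp only [mul_zero, H25.Cyh.ee_zero, mul_one, zp_zero] at h1
  rw [← charDegree_eq χ.2, ← charDegree_eq ψ.2, Complex.conj_natCast] at h1
  exact_mod_cast h1.symm

theorem RR_sum' (hS : SH M p u ty sh) (χ : IrrCharacter G) :
    ∑ a, RR ty (mlt χ) a = charDegree (χ : G → ℂ) := by
  have h1 := RR_chi hS χ 0
  simp only [mul_zero, H25.Cyh.ee_zero, mul_one, zp_zero] at h1
  rw [← charDegree_eq χ.2] at h1
  exact_mod_cast h1.symm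

theorem RR_pos (m : IrrCharacter (Ce (Subgroup.zpowers u)) → ℕ) (φ : IrrCharacter (Ce (Subgroup.zpowers u))) :
    m φ * charDegree (φ : Ce (Subgroup.zpowers u) → ℂ) ≤ RR ty m (ty φ) := by
  classical
  unfold RR
  refine le_trans (le_of_eq ?_) (Finset.single_le_sum (f := fun ψ => if ty ψ = ty φ then m ψ * charDegree (ψ : Ce (Subgroup.zpowers u) → ℂ) else 0)
    (fun _ _ => Nat.zero_le _) (Finset.mem_univ φ))
  rw [if_pos rfl]

theorem RR_ne {m : IrrCharacter (Ce (Subgroup.zpowers u)) → ℕ} {a : ZMod p} (h : RR ty m a ≠ 0) : ∃ φ, ty φ = a ∧ m φ ≠ 0 := by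
  classical
  by_contra hcon
  push Not at hcon
  apply h
  unfold RR
  apply Finset.sum_eq_zero
  intro φ _
  split_ifs with h1
  · rw [hcon φ h1, zero_mul]
  · rfl

/-- shifting -/
theorem RR_shift (hS : SH M p u ty sh) (m : IrrCharacter (Ce (Subgroup.zpowers u)) → ℕ) (c : ZMod p) :
    RR ty m c = RR ty (fun φ => m (sh c φ)) 0 := by
  classical
  have hfix : ∀ (c : ZMod p) φ, ty (sh c φ) = ty φ + c ∧ charDegree (sh c φ : Ce (Subgroup.zpowers u) → ℂ) = charDegree (φ : Ce (Subgroup.zpowers u) → ℂ) ∧ ∀ d, sh d (sh c φ) = sh (c + d) φ := by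
    intro c φ
    obtain ⟨b, θ, hb, hf, hφ⟩ := hS.ex φ
    have h1 := hS.fam b θ hb hf φ hφ c
    have h2 : ty (sh c φ) = ty φ + c := by
      apply (hS.ty_spec (sh c φ)).unique
      rw [h1]; exact fam_ty hf _
    refine ⟨h2, ?_, ?_⟩
    · have h3 : (charDegree (sh c φ : Ce (Subgroup.zpowers u) → ℂ) : ℂ) = charDegree (φ : Ce (Subgroup.zpowers u) → ℂ) := by
        haveI : Fintype (Ce (Subgroup.zpowers u)) := Fintype.ofFinite _
        rw [charDegree_eq (sh c φ).2, charDegree_eq φ.2, h1, fam_one hf, ← fam_eq hf hφ (hS.ty_spec φ), fam_one hf (ty φ)]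
      exact_mod_cast h3
    · intro d
      rw [hS.fam b θ hb hf (sh c φ) (h1 ▸ hf.mem _), h2, hS.fam b θ hb hf φ hφ, add_assoc]
  have hz : ∀ φ, sh 0 φ = φ := by
    intro φ
    obtain ⟨b, θ, hb, hf, hφ⟩ := hS.ex φ
    rw [hS.fam b θ hb hf φ hφ, add_zero]
    exact fam_eq hf hφ (hS.ty_spec φ)
  unfold RR
  refine (Fintype.sum_equiv ⟨sh c, sh (-c), fun φ => by rw [(hfix c φ).2.2, add_neg_cancel, hz], fun φ => by rw [(hfix (-c) φ).2.2, neg_add_cancel, hz]⟩ _ _ fun φ => ?_).symm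
  change _ = if ty (sh c φ) = c then m (sh c φ) * charDegree (sh c φ : Ce (Subgroup.zpowers u) → ℂ) else 0
  rw [(hfix c φ).1, (hfix c φ).2.1]
  simp only [add_eq_right]

end ty

end Cfsg.Agent.H9.Dg
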