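import Mathlib
import Cfsg.Agent.H9_DgD

set_option autoImplicit false
set_option linter.unusedSectionVars false

/-! H9_DgE: the core inequality for one block. -/

open scoped ComplexConjugate

namespace Cfsg.Agent.H9.Dg

open Cfsg Cfsg.Agent.H3.CharIrr Cfsg.Agent.H3.CharComplete Cfsg.Agent.H3.CharBasic
  Cfsg.Agent.H10.Char Cfsg.Agent.H10.BlockIdem Cfsg.Agent.H25.Sub2 Cfsg.Agent.H25.Cyh
  Cfsg.Agent.H25.Cyj Cfsg.Agent.H25.Cyl Cfsg.Agent.H25.Cyn Cfsg.Agent.H25.KG Cfsg.Agent.H25.Red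
  Cfsg.Agent.H9.BrVec Cfsg.Agent.H9.BrMain

variable {M : Ideal AlgInt} {G : Type*} [Group G] [Fintype G] {p : ℕ} [hp : Fact p.Prime] {u : G}
  [hMax : M.IsMaximal] [hch : CharP (KM M) p]
  {ty : IrrCharacter (Ce (Subgroup.zpowers u)) → ZMod p}
  {sh : ZMod p → IrrCharacter (Ce (Subgroup.zpowers u)) → IrrCharacter (Ce (Subgroup.zpowers u))}
  {hu : orderOf u = p} {b : Set (IrrCharacter (Ce (Subgroup.zpowers u)))} {B : Set (IrrCharacter G)}
  {θ : ZMod p → IrrCharacter (Ce (Subgroup.zpowers u))} {H : Subgroup (ZMod p)ˣ} {X : Finset (IrrCharacter G)}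
  {δ : IrrCharacter G → ℤ} {ε : ℤ} {L : Orb H → IrrCharacter G}

/-- the relation for family sums -/
theorem Str.rel_fam (S : Str M p u hu b B θ H X δ ε L) [Fintype (IrrCharacter G)] (hidx : ¬ p ∣ (Subgroup.zpowers u).index)
    {b' : Set (IrrCharacter (Ce (Subgroup.zpowers u)))} {θ' : ZMod p → IrrCharacter (Ce (Subgroup.zpowers u))}
    (hf : Fam p u b' θ') (o : Orb H) :
    ε * ∑ a : ZMod p, (mlt (L o) (θ' a) : ℤ) = ∑ χ ∈ X, δ χ * ∑ a : ZMod p, (mlt χ (θ' a) : ℤ) := by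
  classical
  have h1 := fam_sum hu hidx hf (fun χ => (if χ ∈ X then (δ χ : ℂ) else 0) - (if χ = L o then (ε : ℂ) else 0)) (by
    intro g hg
    simp only [sub_mul, Finset.sum_sub_distrib, ite_mul, zero_mul]
    rw [Finset.sum_ite_mem, Finset.univ_inter, Finset.sum_ite_eq' Finset.univ (L o), if_pos (Finset.mem_univ _), S.rel o g hg, sub_self])
  simp only [sub_mul, Finset.sum_sub_distrib, ite_mul, zero_mul] at h1
  rw [Finset.sum_ite_mem, Finset.univ_inter, Finset.sum_ite_eq' Finset.univ (L o), if_pos (Finset.mem_univ _), sub_eq_zero] at h1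
  simp only [mm0_eq] at h1
  exact_mod_cast h1.symm

set_option maxHeartbeats 4000000 in
theorem Str.core (S : Str M p u hu b B θ H X δ ε L) (hM : IsPModular p M) (hidx : ¬ p ∣ (Subgroup.zpowers u).index)
    (hS : SH M p u ty sh)
    [Fintype (IrrCharacter G)] [Fintype (Orb H)] (χi χj : IrrCharacter G) (hreg : ∀ g, ¬ p ∣ orderOf g → (χi : G → ℂ) g = (χj : G → ℂ) g)
    (hP0 : ∀ φ : IrrCharacter (Ce (Subgroup.zpowers u)), ty φ = 0 → MM χj χi φ = 0)
    (τ : IrrCharacter G) (hτ1 : cc χi χi τ = 1) (hτ : ∀ ψ : IrrCharacter G, (∀ φ : IrrCharacter (Ce (Subgroup.zpowers u)), mlt ψ φ ≠ 0 → ty φ = 0) → ψ = τ)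
    (τC : IrrCharacter (Ce (Subgroup.zpowers u))) (hτC : ∀ φ, mlt τ φ ≠ 0 → φ = τC) (hτC1 : mlt τ τC = 1)
    {c : ZMod p} (hc : c ≠ 0) :
    (θ 0 ≠ τC → MM χi χi (θ 0) ≤ 2 * MM χj χi (θ c)) ∧
    (θ 0 = τC → MM χi χi (θ 0) ≤ 2 * MM χj χi (θ c) + 1 ∧ (2 ≤ Nat.card H → 1 ≤ MM χj χi (θ c))) := by
  classical
  have hty : ∀ a, ty (θ a) = a := fun a => (hS.ty_spec _).unique (fam_ty S.fam a)
  have hP00 : MM χj χi (θ 0) = 0 := hP0 _ (hty 0)
  obtain ⟨κ, hκX, hκL, hκH⟩ := S.coeff hM hidx (fun ψ => (cc χi χi ψ : ℤ) - cc χj χi ψ) (by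
    intro g hg
    push_cast
    simp only [sub_mul, Finset.sum_sub_distrib]
    rw [← prd_expand, ← prd_expand, hreg g hg, sub_self])
  have hκM : (MM χi χi (θ 0) : ℤ) = Nat.card H * κ := by
    rw [← hκH]
    simp only [sub_mul, Finset.sum_sub_distrib, mm0_eq]
    have h1 : ∑ ψ, (cc χi χi ψ : ℤ) * (mlt ψ (θ 0) : ℤ) = MM χi χi (θ 0) := by unfold MM; push_cast; rfl
    have h2 : ∑ ψ, (cc χj χi ψ : ℤ) * (mlt ψ (θ 0) : ℤ) = MM χj χi (θ 0) := by unfold MM; push_cast; rfl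
    rw [h1, h2, hP00, Nat.cast_zero, sub_zero]
  have hHpos : 0 < Nat.card H := Nat.card_pos
  by_cases hz : MM χi χi (θ 0) = 0
  · refine ⟨fun _ => by omega, fun h => ?_⟩
    exfalso
    have h1 : cc χi χi τ * mlt τ (θ 0) ≤ MM χi χi (θ 0) :=
      Finset.single_le_sum (f := fun ξ => cc χi χi ξ * mlt ξ (θ 0)) (fun _ _ => Nat.zero_le _) (Finset.mem_univ τ)
    rw [hτ1, h, hτC1, ← h, hz] at h1
    omega
  have hκpos : 0 < κ := by
    have h1 : (0 : ℤ) < MM χi χi (θ 0) := by exact_mod_cast Nat.pos_of_ne_zero hz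
    rw [hκM] at h1
    by_contra hcon
    push Not at hcon
    have : (Nat.card H : ℤ) * κ ≤ 0 := mul_nonpos_of_nonneg_of_nonpos (by positivity) hcon
    omega
  have hle : ∀ ψ φ, cc χj χi ψ * mlt ψ φ ≤ MM χj χi (u := u) φ := fun ψ φ =>
    Finset.single_le_sum (f := fun ξ => cc χj χi ξ * mlt ξ φ) (fun _ _ => Nat.zero_le _) (Finset.mem_univ ψ)
  have hkill : ∀ ψ φ, ty φ = 0 → mlt ψ φ ≠ 0 → cc χj χi ψ = 0 := by
    intro ψ φ h1 h2
    have h3 := hle ψ φ
    rw [hP0 φ h1] at h3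
    rcases Nat.mul_eq_zero.1 (Nat.le_zero.1 h3) with h | h
    · exact h
    · exact absurd h h2
  have hvv : ∀ χ (a : ZMod p), H25.Cyh.vv (mm0 θ) χ a = (mlt χ (θ 0) : ℤ) - mlt χ (θ a) := fun χ a => rfl
  -- positive and negative characters
  set Xp := X.filter (fun χ => δ χ = 1) with hXp
  set Xm := X.filter (fun χ => δ χ = -1) with hXm
  have hpm : Xp.card + Xm.card = Nat.card H := by
    rw [← S.card, ← Finset.card_filter_add_card_filter_not (s := X) (fun χ => δ χ = 1)]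
    congr 1
    rw [hXm]
    congr 1
    apply Finset.filter_congr
    intro χ hχ
    rcases (S.dlt χ hχ).1 with h | h <;> rw [h] <;> norm_num
  have hp1 : ∀ χ ∈ Xp, ∀ a : ZMod p, a ≠ 0 → (mlt χ (θ 0) : ℤ) = mlt χ (θ a) + 1 := by
    intro χ hχ a ha
    rw [hXp, Finset.mem_filter] at hχ
    have h1 := (S.dlt χ hχ.1).2 a ha
    rw [hvv, hχ.2] at h1
    linarith
  have hm1 : ∀ χ ∈ Xm, (∀ φ, ty φ = 0 → mlt χ φ = 0) ∧ κ ≤ cc χj χi χ ∧ ∀ a : ZMod p, a ≠ 0 → mlt χ (θ a) = 1 := by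
    intro χ hχ
    rw [hXm, Finset.mem_filter] at hχ
    have h1 := hκX χ hχ.1
    rw [hχ.2] at h1
    have h2 : κ ≤ cc χj χi χ := by
      have : (0 : ℤ) ≤ cc χi χi χ := Int.natCast_nonneg _
      linarith
    have h3 : ∀ φ, ty φ = 0 → mlt χ φ = 0 := by
      intro φ h4
      by_contra h5
      have := hkill χ φ h4 h5
      omega
    refine ⟨h3, h2, fun a ha => ?_⟩
    have h4 := (S.dlt χ hχ.1).2 a ha
    rw [hvv, hχ.2, h3 _ (hty 0)] at h4
    omega
  -- the lower bound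
  have hbound : (Xm.card : ℤ) * κ ≤ MM χj χi (θ c) := by
    have h1 : ∑ χ ∈ Xm, cc χj χi χ * mlt χ (θ c) ≤ MM χj χi (θ c) :=
      Finset.sum_le_sum_of_subset (Finset.subset_univ _)
    have h2 : (Xm.card : ℤ) * κ ≤ ∑ χ ∈ Xm, ((cc χj χi χ * mlt χ (θ c) : ℕ) : ℤ) := by
      rw [← nsmul_eq_mul]
      apply Finset.card_nsmul_le_sum
      intro χ hχ
      rw [(hm1 χ hχ).2.2 c hc, mul_one]
      exact (hm1 χ hχ).2.1
    refine h2.trans ?_
    exact_mod_cast h1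
  -- choice of an exceptional character
  haveI : Fact (1 < p) := ⟨hp.out.one_lt⟩
  haveI : Nonempty (Orb H) := ⟨H25.Cyh.om H ⟨1, one_ne_zero⟩⟩
  obtain ⟨o, ho⟩ : ∃ o, ε = -1 ∨ (ε = 1 ∧ ∀ φ, ty φ = 0 → mlt (L o) φ = 0) := by
    rcases S.eps with h1 | h1
    · by_contra hcon
      push Not at hcon
      have h2 : ∀ o, (0 : ℤ) ≤ (cc χi χi (L o) : ℤ) - cc χj χi (L o) := by
        intro o
        obtain ⟨φ, h3, h4⟩ := (hcon o).2 h1
        rw [hkill _ φ h3 h4, Nat.cast_zero, sub_zero]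
        exact Int.natCast_nonneg _
      have h3 := Finset.sum_nonneg fun o (_ : o ∈ Finset.univ) => h2 o
      rw [hκL, h1] at h3
      linarith
    · exact ⟨Classical.arbitrary _, Or.inl h1⟩
  have ho' : ∀ φ, ty φ = 0 → ε * (mlt (L o) φ : ℤ) ≤ 0 := by
    intro φ hφ
    rcases ho with h | ⟨h, h'⟩
    · rw [h]
      have : (0 : ℤ) ≤ mlt (L o) φ := Int.natCast_nonneg _
      linarith
    · rw [h' φ hφ]; simp
  -- family sums
  have hXsum : ∀ F : IrrCharacter G → ℤ, ∑ χ ∈ X, δ χ * F χ = ∑ χ ∈ Xp, F χ - ∑ χ ∈ Xm, F χ := by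
    intro F
    rw [← Finset.sum_filter_add_sum_filter_not X (fun χ => δ χ = 1)]
    have h1 : ∑ χ ∈ X with δ χ = 1, δ χ * F χ = ∑ χ ∈ Xp, F χ :=
      Finset.sum_congr rfl fun χ hχ => by rw [(Finset.mem_filter.1 hχ).2, one_mul]
    have h2 : (X.filter fun χ => ¬ δ χ = 1) = Xm := by
      rw [hXm]
      apply Finset.filter_congr
      intro χ hχ
      rcases (S.dlt χ hχ).1 with h | h <;> rw [h] <;> norm_num
    rw [h1, h2, sub_eq_add_neg, ← Finset.sum_neg_distrib]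
    congr 1
    exact Finset.sum_congr rfl fun χ hχ => by rw [(Finset.mem_filter.1 hχ).2]; ring
  have hsump : ∑ χ ∈ Xp, (mlt χ (θ c) : ℤ) ≤ Xm.card := by
    have h1 := S.rel_fam hidx S.fam o
    rw [hXsum] at h1
    have hsplit : ∀ f : ZMod p → ℤ, ∑ a, f a = f 0 + ∑ x : {x : ZMod p // x ≠ 0}, f x := by
      intro f
      rw [← Fintype.sum_subtype_add_sum_subtype (fun x : ZMod p => x ≠ 0), add_comm]
      congr 1
      rw [Fintype.sum_eq_single (⟨0, by simp⟩ : {x : ZMod p // ¬ x ≠ 0})]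
      rintro ⟨x, hx⟩ hne
      exact absurd (Subtype.ext (not_not.1 hx)) hne
    have hcardx : (Fintype.card {x : ZMod p // x ≠ 0} : ℤ) = p - 1 := by
      have := Fintype.card_subtype_compl (fun x : ZMod p => x = 0)
      rw [Fintype.card_subtype_eq, ZMod.card] at this
      have h2 : Fintype.card {x : ZMod p // x ≠ 0} = p - 1 := this
      rw [h2]
      have := hp.out.one_lt
      omega
    have h2 : ∑ χ ∈ Xp, ∑ a, (mlt χ (θ a) : ℤ) = p * ∑ χ ∈ Xp, (mlt χ (θ c) : ℤ) + Xp.card := by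
      have h3 : ∀ χ ∈ Xp, ∑ a, (mlt χ (θ a) : ℤ) = p * (mlt χ (θ c) : ℤ) + 1 := by
        intro χ hχ
        have h6 : ∀ x : {x : ZMod p // x ≠ 0}, (mlt χ (θ x.1) : ℤ) = mlt χ (θ c) := by
          intro x
          have h4 := hp1 χ hχ x.1 x.2
          have h5 := hp1 χ hχ c hc
          linarith
        rw [hsplit, Finset.sum_congr rfl fun x _ => h6 x, Finset.sum_const, Finset.card_univ, nsmul_eq_mul, hcardx, hp1 χ hχ c hc]
        ring
      rw [Finset.sum_congr rfl h3, Finset.sum_add_distrib, ← Finset.mul_sum, Finset.sum_const, nsmul_eq_mul, mul_one]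
    have h3 : ∑ χ ∈ Xm, ∑ a, (mlt χ (θ a) : ℤ) = Xm.card * (p - 1) := by
      have h4 : ∀ χ ∈ Xm, ∑ a, (mlt χ (θ a) : ℤ) = p - 1 := by
        intro χ hχ
        have h6 : ∀ x : {x : ZMod p // x ≠ 0}, (mlt χ (θ x.1) : ℤ) = 1 := by
          intro x
          rw [(hm1 χ hχ).2.2 x.1 x.2]; rfl
        rw [hsplit, (hm1 χ hχ).1 _ (hty 0), Finset.sum_congr rfl fun x _ => h6 x, Finset.sum_const, Finset.card_univ, nsmul_eq_mul, hcardx]
        simp
      rw [Finset.sum_congr rfl h4, Finset.sum_const, nsmul_eq_mul]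
    have h4 : ∑ a, (mlt (L o) (θ a) : ℤ) = p * (mlt (L o) (θ 0) : ℤ) + ε * Nat.card H := by
      have h5 : ∀ a, (mlt (L o) (θ a) : ℤ) = mlt (L o) (θ 0) - H25.Cyh.vv (mm0 θ) (L o) a := by
        intro a; rw [hvv]; ring
      rw [Finset.sum_congr rfl fun a _ => h5 a, Finset.sum_sub_distrib, Finset.sum_const, Finset.card_univ, ZMod.card, nsmul_eq_mul,
        hsplit (fun a => H25.Cyh.vv (mm0 θ) (L o) a), H25.Cyh.vv_zero, zero_add]
      have h6 : ∀ x : {x : ZMod p // x ≠ 0}, H25.Cyh.vv (mm0 θ) (L o) x.1 = (fun o' => if o' = o then -ε else 0) (H25.Cyh.om H x) := by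
        intro x
        by_cases hx : H25.Cyh.om H x = o
        · rw [S.L1 o x hx]; simp [hx]
        · rw [S.L0 o x hx]; simp [hx]
      rw [Finset.sum_congr rfl fun x _ => h6 x]
      have h7 := sum_orb (p := p) (H := H) (R := ℤ) (fun o' => if o' = o then -ε else 0)
      rw [Finset.sum_ite_eq' Finset.univ o, if_pos (Finset.mem_univ _)] at h7
      rw [h7]
      ring
    rw [h2, h3, h4] at h1
    have h5 := ho' _ (hty 0)
    have he2 : ε * ε = 1 := by rcases S.eps with h | h <;> rw [h] <;> norm_num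
    have h6 : (p : ℤ) * (∑ χ ∈ Xp, (mlt χ (θ c) : ℤ)) ≤ p * Xm.card := by
      have h7 : (Nat.card H : ℤ) = Xp.card + Xm.card := by rw [← hpm]; push_cast; ring
      have h8 : (p : ℤ) * (ε * (mlt (L o) (θ 0) : ℤ)) ≤ 0 := mul_nonpos_of_nonneg_of_nonpos (by positivity) h5
      have h9 : ε * (p * (mlt (L o) (θ 0) : ℤ) + ε * Nat.card H) = p * (ε * (mlt (L o) (θ 0) : ℤ)) + Nat.card H := by
        calc ε * (p * (mlt (L o) (θ 0) : ℤ) + ε * Nat.card H) = p * (ε * (mlt (L o) (θ 0) : ℤ)) + (ε * ε) * Nat.card H := by ring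
          _ = _ := by rw [he2, one_mul]
      rw [h9, h7] at h1
      linarith
    have h7 : (0 : ℤ) < p := by exact_mod_cast hp.out.pos
    exact le_of_mul_le_mul_left h6 h7
  -- nontrivial positive characters contribute
  have hk : ∀ χ ∈ Xp, χ ≠ τ → 1 ≤ mlt χ (θ c) := by
    intro χ hχ hne
    by_contra hlt
    have hk0 : ∀ a : ZMod p, a ≠ 0 → mlt χ (θ a) = 0 := by
      intro a ha
      have h1 := hp1 χ hχ a ha
      have h2 := hp1 χ hχ c hc
      omega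
    apply hne
    apply hτ
    intro φ hφ
    by_contra hty0
    have hχB : χ ∈ B := (S.mem χ).2 (Or.inl (Finset.mem_filter.1 hχ).1)
    obtain ⟨b', θ', hb', hf', hφ'⟩ := hS.ex φ
    obtain ⟨B', θ'', H', X', δ', ε', L', S'⟩ := exists_str hM hu hidx hb'
    by_cases hBB : B' = B
    · subst hBB
      obtain ⟨s, hs, h1⟩ := S.conj hM hidx S'.ind hφ' (hS.ty_spec φ)
      rw [h1 χ] at hφ
      exact hφ (hk0 _ (mul_ne_zero (Units.ne_zero s) hty0))
    · have h1 : χ ∉ B' := fun h => hBB (block_eq_of_mem S'.blk S.blk h hχB)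
      have hcst : ∀ ψ ∈ B, ∀ a, (mlt ψ (θ'' a) : ℤ) = mlt ψ (θ'' 0) := by
        intro ψ hψ a
        have h2 := S'.out ψ (fun h => hBB (block_eq_of_mem S'.blk S.blk h hψ)) a
        change (mlt ψ (θ'' 0) : ℤ) - mlt ψ (θ'' a) = 0 at h2
        linarith
      have hty'' : ty (θ'' 0) = 0 := (hS.ty_spec _).unique (fam_ty S'.fam 0)
      have h2 := S.rel_fam hidx S'.fam o
      rw [hXsum] at h2
      have hall : ∀ ψ ∈ B, ∑ a, (mlt ψ (θ'' a) : ℤ) = p * mlt ψ (θ'' 0) := by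
        intro ψ hψ
        rw [Finset.sum_congr rfl fun a _ => hcst ψ hψ a, Finset.sum_const, Finset.card_univ, ZMod.card, nsmul_eq_mul]
      rw [hall _ ((S.mem _).2 (Or.inr ⟨o, rfl⟩)),
        Finset.sum_congr rfl fun ψ hψ => hall ψ ((S.mem ψ).2 (Or.inl (Finset.mem_filter.1 hψ).1)),
        Finset.sum_congr rfl fun ψ (hψ : ψ ∈ Xm) => (hall ψ ((S.mem ψ).2 (Or.inl (Finset.mem_filter.1 hψ).1))).trans
          (show _ = (0 : ℤ) by rw [(hm1 ψ hψ).1 _ hty'']; simp), Finset.sum_const_zero, sub_zero, ← Finset.mul_sum] at h2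
      have h3 : (p : ℤ) * (ε * mlt (L o) (θ'' 0)) = p * ∑ ψ ∈ Xp, (mlt ψ (θ'' 0) : ℤ) := by linarith
      have h4 : (0 : ℤ) < p := by exact_mod_cast hp.out.pos
      have h5 := mul_left_cancel₀ h4.ne' h3
      have h6 := ho' _ hty''
      have h7 : (mlt χ (θ'' 0) : ℤ) ≤ ∑ ψ ∈ Xp, (mlt ψ (θ'' 0) : ℤ) :=
        Finset.single_le_sum (f := fun ψ => (mlt ψ (θ'' 0) : ℤ)) (fun _ _ => Int.natCast_nonneg _) hχ
      have h8 : mlt χ (θ'' 0) = 0 := by omega
      apply hφ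
      rw [← fam_eq S'.fam hφ' (hS.ty_spec φ)]
      have h9 := hcst χ hχB (ty φ)
      omega
  have hcount : Xp.card ≤ Xm.card + (if τ ∈ Xp then 1 else 0) := by
    have h1 : ((Xp.erase τ).card : ℤ) ≤ ∑ χ ∈ Xp, (mlt χ (θ c) : ℤ) := by
      have h2 : ((Xp.erase τ).card : ℤ) ≤ ∑ χ ∈ Xp.erase τ, (mlt χ (θ c) : ℤ) := by
        have := Finset.card_nsmul_le_sum (Xp.erase τ) (fun χ => (mlt χ (θ c) : ℤ)) 1 (fun χ hχ => by
          have := hk χ (Finset.mem_of_mem_erase hχ) (Finset.ne_of_mem_erase hχ)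
          exact_mod_cast this)
        rwa [nsmul_eq_mul, mul_one] at this
      exact h2.trans (Finset.sum_le_sum_of_subset_of_nonneg (Finset.erase_subset _ _) (fun _ _ _ => Int.natCast_nonneg _))
    have h2 : ((Xp.erase τ).card : ℤ) ≤ Xm.card := h1.trans hsump
    split_ifs with h3
    · rw [Finset.card_erase_of_mem h3] at h2
      have h4 := Finset.card_pos.2 ⟨τ, h3⟩
      omega
    · rw [Finset.erase_eq_of_notMem h3] at h2
      omega
  have hτX : τ ∈ Xp → θ 0 = τC ∧ κ ≤ 1 := by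
    intro h
    have h1 := hp1 τ h c hc
    constructor
    · apply hτC
      omega
    · have h2 := hκX τ (Finset.mem_filter.1 h).1
      rw [(Finset.mem_filter.1 h).2, hτ1] at h2
      have : (0 : ℤ) ≤ cc χj χi τ := Int.natCast_nonneg _
      push_cast at h2
      linarith
  have hfin1 : τ ∉ Xp → MM χi χi (θ 0) ≤ 2 * MM χj χi (θ c) := by
    intro h
    rw [if_neg h, add_zero] at hcount
    have h1 : (Nat.card H : ℤ) ≤ 2 * Xm.card := by rw [← hpm]; push_cast; omega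
    have h2 : (Nat.card H : ℤ) * κ ≤ 2 * Xm.card * κ := mul_le_mul_of_nonneg_right h1 hκpos.le
    have h3 : (MM χi χi (θ 0) : ℤ) ≤ 2 * MM χj χi (θ c) := by rw [hκM]; linarith
    exact_mod_cast h3
  refine ⟨fun h => hfin1 fun h' => h (hτX h').1, fun h => ?_⟩
  constructor
  · by_cases h' : τ ∈ Xp
    · rw [if_pos h'] at hcount
      have h1 : (Nat.card H : ℤ) ≤ 2 * Xm.card + 1 := by rw [← hpm]; push_cast; omega
      have h2 : (Nat.card H : ℤ) * κ ≤ (2 * Xm.card + 1) * κ := mul_le_mul_of_nonneg_right h1 hκpos.le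
      have h3 : (MM χi χi (θ 0) : ℤ) ≤ 2 * MM χj χi (θ c) + 1 := by
        rw [hκM]
        have := (hτX h').2
        linarith
      exact_mod_cast h3
    · have := hfin1 h'
      omega
  · intro h2
    have h3 : 1 ≤ Xm.card := by
      split_ifs at hcount <;> omega
    have h3' : (1 : ℤ) ≤ (Xm.card : ℤ) := by exact_mod_cast h3
    have h4 : (1 : ℤ) * κ ≤ (Xm.card : ℤ) * κ := mul_le_mul_of_nonneg_right h3' hκpos.le
    have h5 : (1 : ℤ) ≤ MM χj χi (θ c) := by linarith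
    exact_mod_cast h5

end Cfsg.Agent.H9.Dg
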