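import Mathlib
import Cfsg.Agent.H9_DgE

set_option autoImplicit false
set_option linter.unusedSectionVars false

/-! H9_DgF: characters of small degree are exceptional with small support. -/

open scoped ComplexConjugate

namespace Cfsg.Agent.H9.Dg

open Cfsg Cfsg.Agent.H3.CharIrr Cfsg.Agent.H3.CharComplete Cfsg.Agent.H3.CharBasic
  Cfsg.Agent.H10.Char Cfsg.Agent.H10.BlockIdem Cfsg.Agent.H25.Sub2 Cfsg.Agent.H25.Cyh
  Cfsg.Agent.H25.Cyj Cfsg.Agent.H25.Cyl Cfsg.Agent.H25.Cyn Cfsg.Agent.H25.KG Cfsg.Agent.H25.Red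
  Cfsg.Agent.H9.BrVec Cfsg.Agent.H9.BrMain

variable {M : Ideal AlgInt} {G : Type*} [Group G] [Fintype G] {p : ℕ} [hp : Fact p.Prime] {u : G}
  [hMax : M.IsMaximal] [hch : CharP (KM M) p]
  {ty : IrrCharacter (Ce (Subgroup.zpowers u)) → ZMod p}
  {sh : ZMod p → IrrCharacter (Ce (Subgroup.zpowers u)) → IrrCharacter (Ce (Subgroup.zpowers u))}
  {hu : orderOf u = p} {b : Set (IrrCharacter (Ce (Subgroup.zpowers u)))} {B : Set (IrrCharacter G)}
  {θ : ZMod p → IrrCharacter (Ce (Subgroup.zpowers u))} {H : Subgroup (ZMod p)ˣ} {X : Finset (IrrCharacter G)}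
  {δ : IrrCharacter G → ℤ} {ε : ℤ} {L : Orb H → IrrCharacter G}

/-- degree bound -/
theorem card_le_deg {b' : Set (IrrCharacter (Ce (Subgroup.zpowers u)))} {θ' : ZMod p → IrrCharacter (Ce (Subgroup.zpowers u))}
    (hf : Fam p u b' θ') (χ : IrrCharacter G) (A : Finset (ZMod p)) (hA : ∀ a ∈ A, mlt χ (θ' a) ≠ 0) :
    A.card ≤ charDegree (χ : G → ℂ) := by
  classical
  haveI : Fintype (Ce (Subgroup.zpowers u)) := Fintype.ofFinite _
  haveI : Fintype (IrrCharacter (Ce (Subgroup.zpowers u))) := Fintype.ofFinite _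
  have h1 := res_expand χ (1 : Ce (Subgroup.zpowers u))
  rw [Subgroup.coe_one, ← charDegree_eq χ.2] at h1
  have h2 : charDegree (χ : G → ℂ) = ∑ φ : IrrCharacter (Ce (Subgroup.zpowers u)), mlt χ φ * charDegree (φ : Ce (Subgroup.zpowers u) → ℂ) := by
    have h3 : (charDegree (χ : G → ℂ) : ℂ) = ((∑ φ : IrrCharacter (Ce (Subgroup.zpowers u)), mlt χ φ * charDegree (φ : Ce (Subgroup.zpowers u) → ℂ) : ℕ) : ℂ) := by
      rw [h1]
      push_cast
      refine Finset.sum_congr rfl fun φ _ => ?_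
      rw [charDegree_eq φ.2]
    exact_mod_cast h3
  rw [h2]
  calc A.card = ∑ a ∈ A, 1 := by simp
    _ ≤ ∑ a ∈ A, mlt χ (θ' a) * charDegree (θ' a : Ce (Subgroup.zpowers u) → ℂ) := by
        apply Finset.sum_le_sum
        intro a ha
        exact Nat.mul_pos (Nat.pos_of_ne_zero (hA a ha)) (charDegree_pos (θ' a).2)
    _ = ∑ φ ∈ A.image θ', mlt χ φ * charDegree (φ : Ce (Subgroup.zpowers u) → ℂ) := by
        rw [Finset.sum_image fun a _ b _ h => hf.inj h]
    _ ≤ _ := Finset.sum_le_sum_of_subset (Finset.subset_univ _)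

theorem Str.exc (S : Str M p u hu b B θ H X δ ε L) (hM : IsPModular p M) (hidx : ¬ p ∣ (Subgroup.zpowers u).index)
    (hS : SH M p u ty sh) (χ : IrrCharacter G) (hdeg : 2 * charDegree (χ : G → ℂ) < p - 1)
    {φ₁ : IrrCharacter (Ce (Subgroup.zpowers u))} (hφ₁ : φ₁ ∈ b) (hm1 : mlt χ φ₁ ≠ 0) (hty1 : ty φ₁ ≠ 0) :
    ε = 1 ∧ L (H25.Cyh.om H ⟨ty φ₁, hty1⟩) = χ ∧
      ∀ φ, mlt χ φ ≠ 0 → ∃ s ∈ (om hu).range, ty φ = (s : ZMod p) * ty φ₁ := by
  classical
  have hvv : ∀ χ (a : ZMod p), H25.Cyh.vv (mm0 θ) χ a = (mlt χ (θ 0) : ℤ) - mlt χ (θ a) := fun χ a => rfl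
  have hp1 := hp.out.one_lt
  have hθ1 : θ (ty φ₁) = φ₁ := fam_eq S.fam hφ₁ (hS.ty_spec _)
  have hχB : χ ∈ B := by
    by_contra hχ
    have h1 : ∀ a : ZMod p, mlt χ (θ a) ≠ 0 := by
      intro a h0
      have h2 := S.out χ hχ a
      have h3 := S.out χ hχ (ty φ₁)
      rw [hvv] at h2 h3
      rw [hθ1] at h3
      omega
    have h2 := card_le_deg S.fam χ Finset.univ fun a _ => h1 a
    rw [Finset.card_univ, ZMod.card] at h2
    omega
  have hcardne : (Finset.univ.filter fun a : ZMod p => a ≠ 0).card = p - 1 := by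
    rw [Finset.filter_ne' Finset.univ (0 : ZMod p), Finset.card_erase_of_mem (Finset.mem_univ _), Finset.card_univ, ZMod.card]
  have hnall : ¬ ∀ a : ZMod p, a ≠ 0 → mlt χ (θ a) ≠ 0 := by
    intro h
    have h2 := card_le_deg S.fam χ (Finset.univ.filter fun a : ZMod p => a ≠ 0) fun a ha => h a (Finset.mem_filter.1 ha).2
    rw [hcardne] at h2
    omega
  obtain ⟨o, ho⟩ : ∃ o, L o = χ := by
    rcases (S.mem χ).1 hχB with h | h
    · exfalso
      apply hnall
      intro a ha h0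
      have h1 := (S.dlt χ h).2 a ha
      have h2 := (S.dlt χ h).2 _ hty1
      rw [hvv] at h1 h2
      rw [hθ1] at h2
      omega
    · exact h
  have hL0 : ∀ x : {x : ZMod p // x ≠ 0}, H25.Cyh.om H x ≠ o → (mlt χ (θ x.1) : ℤ) = mlt χ (θ 0) := by
    intro x hx
    have h1 := S.L0 o x hx
    rw [ho, hvv] at h1
    linarith
  have hL1 : ∀ x : {x : ZMod p // x ≠ 0}, H25.Cyh.om H x = o → (mlt χ (θ x.1) : ℤ) = mlt χ (θ 0) + ε := by
    intro x hx
    have h1 := S.L1 o x hx
    rw [ho, hvv] at h1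
    linarith
  have hzero : mlt χ (θ 0) = 0 := by
    by_contra hne
    have h1 := card_le_deg S.fam χ (Finset.univ.filter fun a : ZMod p => ¬ ∃ x : {x : ZMod p // x ≠ 0}, x.1 = a ∧ H25.Cyh.om H x = o) (by
      intro a ha h0
      rw [Finset.mem_filter] at ha
      by_cases h2 : a = 0
      · rw [h2] at h0; exact hne h0
      · have h3 := hL0 ⟨a, h2⟩ (fun h => ha.2 ⟨⟨a, h2⟩, rfl, h⟩)
        simp only at h3
        omega)
    have h2 : (Finset.univ.filter fun a : ZMod p => ∃ x : {x : ZMod p // x ≠ 0}, x.1 = a ∧ H25.Cyh.om H x = o).card = Nat.card H := by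
      rw [← H25.Cyh.coset_count (H := H) free_HT o, Nat.card_eq_fintype_card, Fintype.card_subtype,
        ← Finset.card_image_of_injective _ Subtype.val_injective]
      congr 1
      ext a
      simp only [Finset.mem_filter, Finset.mem_univ, true_and, Finset.mem_image]
      constructor
      · rintro ⟨x, h, h'⟩; exact ⟨x, h', h⟩
      · rintro ⟨x, h, h'⟩; exact ⟨x, h', h⟩
    have h3 := Finset.card_filter_add_card_filter_not (s := (Finset.univ : Finset (ZMod p))) (fun a : ZMod p => ∃ x : {x : ZMod p // x ≠ 0}, x.1 = a ∧ H25.Cyh.om H x = o)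
    rw [h2, Finset.card_univ, ZMod.card] at h3
    have h4 := H25.Cyh.card_orb (H := H) free_HT
    rcases Nat.lt_or_ge (Nat.card (Orb H)) 2 with h5 | h5
    · -- a single orbit
      have h6 : Nat.card (Orb H) = 1 ∨ Nat.card (Orb H) = 0 := by omega
      rcases h6 with h6 | h6
      · haveI : Subsingleton (Orb H) := (Nat.card_eq_one_iff_unique.1 h6).1
        apply hnall
        intro a ha h0
        have h7 := hL1 ⟨a, ha⟩ (Subsingleton.elim _ _)
        have h8 := hL1 ⟨_, hty1⟩ (Subsingleton.elim _ _)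
        simp only at h7 h8
        rw [hθ1] at h8
        omega
      · rw [h6, mul_zero] at h4; omega
    · have h6 : Nat.card H * 2 ≤ p - 1 := by
        rw [← h4]; exact Nat.mul_le_mul_left _ h5
      omega
  have hmem1 : H25.Cyh.om H ⟨ty φ₁, hty1⟩ = o := by
    by_contra h
    have h1 := hL0 _ h
    simp only [hθ1] at h1
    omega
  have hε : ε = 1 := by
    have h1 := hL1 _ hmem1
    simp only [hθ1] at h1
    rcases S.eps with h | h
    · exact h
    · omega
  refine ⟨hε, by rw [hmem1, ho], fun φ hφ => ?_⟩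
  obtain ⟨b', θ', hb', hf', hφ'⟩ := hS.ex φ
  obtain ⟨B', θ'', H', X', δ', ε', L', S'⟩ := exists_str hM hu hidx hb'
  have hχB' : χ ∈ B' := by
    by_contra hχ
    have h1 : ∀ a : ZMod p, mlt χ (θ'' a) ≠ 0 := by
      intro a h0
      have h2 := S'.out χ hχ a
      have h3 := S'.out χ hχ (ty φ)
      change (mlt χ (θ'' 0) : ℤ) - mlt χ (θ'' a) = 0 at h2
      change (mlt χ (θ'' 0) : ℤ) - mlt χ (θ'' (ty φ)) = 0 at h3
      rw [fam_eq S'.fam hφ' (hS.ty_spec φ)] at h3
      omega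
    have h2 := card_le_deg S'.fam χ Finset.univ fun a _ => h1 a
    rw [Finset.card_univ, ZMod.card] at h2
    omega
  have hBB : B' = B := block_eq_of_mem S'.blk S.blk hχB' hχB
  subst hBB
  obtain ⟨s, hs, h1⟩ := S.conj hM hidx S'.ind hφ' (hS.ty_spec φ)
  rw [h1 χ] at hφ
  have h2 : (s : ZMod p) * ty φ ≠ 0 := by
    intro h; rw [h] at hφ; exact hφ hzero
  have h3 : H25.Cyh.om H ⟨_, h2⟩ = o := by
    by_contra h
    have h4 := hL0 _ h
    simp only at h4
    omega
  rw [← hmem1, H25.Cyh.om_eq] at h3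
  obtain ⟨h, hh, h4⟩ := h3
  simp only at h4
  refine ⟨s⁻¹ * h, mul_mem (inv_mem hs) (S.sub hh), ?_⟩
  rw [Units.val_mul, mul_assoc, ← h4, ← mul_assoc, Units.inv_mul, one_mul]

/-- arithmetic -/
theorem numer {q d e m : ℕ} (hd : d = e * m) (hm : 1 ≤ m) (he : 1 ≤ e) (h2 : 2 * d < q) (hdvd : e ∣ q)
    (hmain : q * (e * m ^ 2) ≤ 2 * d ^ 2 + q) (hprin : 2 ≤ e → q ≤ d ^ 2) (hpr : (q + 1).Prime) : d = 1 := by
  subst hd
  rcases Nat.lt_or_ge 1 m with hm2 | hm2
  · exfalso
    obtain ⟨q', rfl⟩ := Nat.exists_eq_add_of_lt h2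
    have h3 : 2 ≤ e * m := by nlinarith
    have h4 : (2 * (e * m) + q' + 1) * (e * m * m) ≤ 2 * (e * m) ^ 2 + (2 * (e * m) + q' + 1) := by
      calc (2 * (e * m) + q' + 1) * (e * m * m) = (2 * (e * m) + q' + 1) * (e * m ^ 2) := by ring
        _ ≤ _ := hmain
    generalize e * m = d at *
    have h5 : d * 2 ≤ d * m := Nat.mul_le_mul_left _ hm2
    nlinarith [Nat.mul_le_mul_left (2 * d + q' + 1) h5]
  · have hm1 : m = 1 := by omega
    subst hm1
    rw [mul_one] at *
    rcases Nat.lt_or_ge 1 e with he2 | he2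
    · exfalso
      obtain ⟨k, rfl⟩ := hdvd
      have h3 : 2 < k := by
        by_contra h; push Not at h
        have : e * k ≤ e * 2 := Nat.mul_le_mul_left _ h
        omega
      have h4 := hprin he2
      have h5 : k ≤ e := by
        rw [pow_two] at h4
        exact Nat.le_of_mul_le_mul_left h4 (by omega)
      have h6 : k * e ≤ 2 * e + k := by
        have : e * (k * e) ≤ e * (2 * e + k) := by nlinarith
        exact Nat.le_of_mul_le_mul_left this (by omega)
      have h7 : e ≤ 3 := by nlinarith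
      interval_cases e
      · omega
      · have : k = 3 := by omega
        subst this
        norm_num at hpr
    · omega

end Cfsg.Agent.H9.Dg
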