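import Mathlib
import Cfsg.Agent.H9_DgF
import Cfsg.Agent.H3_CharQuot

set_option autoImplicit false
set_option linter.unusedSectionVars false

/-! H9_DgG: characters of degree less than (p-1)/2 when G is generated by the conjugates of its Sylow p-subgroup of order p. -/

open scoped ComplexConjugate

namespace Cfsg.Agent.H9.Dg

open Cfsg Cfsg.Agent.H3.CharIrr Cfsg.Agent.H3.CharComplete Cfsg.Agent.H3.CharBasic
  Cfsg.Agent.H10.Char Cfsg.Agent.H10.BlockIdem Cfsg.Agent.H25.Sub2 Cfsg.Agent.H25.Cyh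
  Cfsg.Agent.H25.Cyj Cfsg.Agent.H25.Cyl Cfsg.Agent.H25.Cyn Cfsg.Agent.H25.KG Cfsg.Agent.H25.Red
  Cfsg.Agent.H9.BrVec Cfsg.Agent.H9.BrMain Cfsg.Agent.H10.BlockKer

variable {M : Ideal AlgInt} {G : Type*} [Group G] [Fintype G] {p : ℕ} [hp : Fact p.Prime] {u : G}
  [hMax : M.IsMaximal] [hch : CharP (KM M) p]

theorem mlt_triv [Fintype (Ce (Subgroup.zpowers u))] (φ : IrrCharacter (Ce (Subgroup.zpowers u))) :
    (mlt (triv G) φ ≠ 0 → φ = triv _) ∧ mlt (triv G) (triv (Ce (Subgroup.zpowers u))) = 1 := by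
  have h1 : ∀ φ : IrrCharacter (Ce (Subgroup.zpowers u)), (mlt (triv G) φ : ℂ) =
      classInner ((triv (Ce (Subgroup.zpowers u)) : IrrCharacter (Ce (Subgroup.zpowers u))) : Ce (Subgroup.zpowers u) → ℂ) (φ : Ce (Subgroup.zpowers u) → ℂ) := by
    intro φ
    rw [← mlt_spec]
    rfl
  constructor
  · intro hne
    by_contra h
    apply hne
    have h2 := h1 φ
    rw [ci_irr_ne (triv _).2 φ.2 (fun h' => h (Subtype.ext h').symm)] at h2
    exact_mod_cast h2
  · have h2 := h1 (triv _)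
    rw [ci_irr_self (triv _).2] at h2
    exact_mod_cast h2

theorem main (hM : IsPModular p M) (hu : orderOf u = p) (hidx : ¬ p ∣ (Subgroup.zpowers u).index)
    (hgen : ∀ N : Subgroup G, N.Normal → u ∈ N → N = ⊤) (χ : IrrCharacter G) (hdeg : 2 * charDegree (χ : G → ℂ) < p - 1)
    (hne : (χ : G → ℂ) u ≠ (χ : G → ℂ) 1) : charDegree (χ : G → ℂ) = 1 := by
  classical
  haveI : Fintype (Ce (Subgroup.zpowers u)) := Fintype.ofFinite _
  haveI : Fintype (IrrCharacter (Ce (Subgroup.zpowers u))) := Fintype.ofFinite _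
  haveI : Fintype (IrrCharacter G) := Fintype.ofFinite _
  obtain ⟨ty, sh, hS⟩ := exists_SH hM hu hidx
  have hp1 := hp.out.one_lt
  haveI : Fact (1 < p) := ⟨hp1⟩
  -- characters whose constituents all have type zero
  have hval : ∀ ψ : IrrCharacter G, (∀ φ : IrrCharacter (Ce (Subgroup.zpowers u)), mlt ψ φ ≠ 0 → ty φ = 0) → (ψ : G → ℂ) u = (ψ : G → ℂ) 1 := by
    intro ψ h
    have h1 := RR_chi hS ψ 1
    have h2 := RR_chi hS ψ 0
    rw [zp_one] at h1
    rw [zp_zero] at h2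
    rw [h1, h2]
    refine Finset.sum_congr rfl fun a _ => ?_
    by_cases ha : a = 0
    · rw [ha, zero_mul, zero_mul]
    · have h3 : RR ty (mlt ψ) a = 0 := by
        by_contra hne
        obtain ⟨φ, h4, h5⟩ := RR_ne hne
        exact ha (h4 ▸ h φ h5)
      rw [h3]; simp
  obtain ⟨φ₁, hm1, hty1⟩ : ∃ φ₁ : IrrCharacter (Ce (Subgroup.zpowers u)), mlt χ φ₁ ≠ 0 ∧ ty φ₁ ≠ 0 := by
    by_contra hcon
    push Not at hcon
    exact hne (hval χ hcon)
  obtain ⟨b, θ₀, hb, hf₀, hφ₁⟩ := hS.ex φ₁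
  obtain ⟨B, θ, H, X, δ, ε, L, S⟩ := exists_str hM hu hidx hb
  obtain ⟨hε, hL, hsupp⟩ := S.exc hM hidx hS χ hdeg hφ₁ hm1 hty1
  set a₁ := ty φ₁ with ha₁
  set T := (om hu).range with hT
  set e := Nat.card T with he
  have hTcard : e ∣ p - 1 := by
    have h1 : e ∣ Nat.card (ZMod p)ˣ := Subgroup.card_subgroup_dvd_card T
    rwa [Nat.card_eq_fintype_card, ZMod.card_units] at h1
  -- multiplicities
  have hinv : ∀ (ψ : IrrCharacter G) (s : (ZMod p)ˣ), s ∈ T → ∀ a : ZMod p, RR ty (mlt ψ) ((s : ZMod p) * a) = RR ty (mlt ψ) a := by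
    intro ψ s hs a
    apply H25.Cyh.mu_mul (fun (_ : Unit) a => RR ty (mlt ψ) a) () s
    intro i
    change ∑ a : ZMod p, (RR ty (mlt ψ) a : ℂ) * H25.Cyh.ee (a * ((s : ZMod p) * i)) = ∑ a : ZMod p, (RR ty (mlt ψ) a : ℂ) * H25.Cyh.ee (a * i)
    rw [← RR_chi hS, ← RR_chi hS]
    exact class_mul hu ψ hs i
  have hsum : ∀ (ψ : IrrCharacter G) (a₀ : ZMod p), a₀ ≠ 0 → (∀ φ : IrrCharacter (Ce (Subgroup.zpowers u)), mlt ψ φ ≠ 0 → ∃ s ∈ T, ty φ = (s : ZMod p) * a₀) →
      ∀ F : ℕ → ℕ, F 0 = 0 → ∑ a, F (RR ty (mlt ψ) a) = e * F (RR ty (mlt ψ) a₀) := by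
    intro ψ a₀ ha₀ hψ F hF
    have h1 : ∑ a, F (RR ty (mlt ψ) a) = ∑ a ∈ Finset.univ.image (fun s : T => ((s : (ZMod p)ˣ) : ZMod p) * a₀), F (RR ty (mlt ψ) a) := by
      symm
      apply Finset.sum_subset (Finset.subset_univ _)
      intro a _ ha
      have h2 : RR ty (mlt ψ) a = 0 := by
        by_contra hne
        obtain ⟨φ, h4, h5⟩ := RR_ne hne
        obtain ⟨s, hs, h6⟩ := hψ φ h5
        apply ha
        rw [Finset.mem_image]
        exact ⟨⟨s, hs⟩, Finset.mem_univ _, by rw [← h4, h6]⟩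
      rw [h2, hF]
    rw [h1, Finset.sum_image, Finset.sum_congr rfl fun s _ => by rw [hinv ψ s.1 s.2], Finset.sum_const, Finset.card_univ, smul_eq_mul,
      he, Nat.card_eq_fintype_card]
    intro s _ s' _ h
    exact Subtype.ext (Units.ext (mul_right_cancel₀ ha₀ h))
  have hd : charDegree (χ : G → ℂ) = e * RR ty (mlt χ) a₁ := by
    rw [← RR_sum' hS χ]
    exact hsum χ a₁ hty1 hsupp id rfl
  have hm : 1 ≤ RR ty (mlt χ) a₁ := by
    by_contra h
    have h1 : RR ty (mlt χ) a₁ = 0 := by omega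
    rw [h1, mul_zero] at hd
    exact absurd hd (charDegree_pos χ.2).ne'
  have he1 : 1 ≤ e := Nat.card_pos
  -- the second exceptional character
  have hed : e ≤ charDegree (χ : G → ℂ) := by rw [hd]; exact Nat.le_mul_of_pos_right _ hm
  obtain ⟨a₂, ha₂, ha₂T⟩ : ∃ a₂ : ZMod p, a₂ ≠ 0 ∧ ∀ s ∈ T, a₂ ≠ ((s : (ZMod p)ˣ) : ZMod p) * a₁ := by
    by_contra hcon
    push Not at hcon
    have h1 : Fintype.card {x : ZMod p // x ≠ 0} ≤ Fintype.card T := by
      have h2 : ∀ x : {x : ZMod p // x ≠ 0}, ∃ s : T, x.1 = ((s : (ZMod p)ˣ) : ZMod p) * a₁ := by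
        intro x
        obtain ⟨s, hs, h⟩ := hcon x.1 x.2
        exact ⟨⟨s, hs⟩, h⟩
      choose f hf using h2
      apply Fintype.card_le_of_injective f
      intro x y hxy
      exact Subtype.ext (by rw [hf x, hf y, hxy])
    have h2 := Fintype.card_subtype_compl (fun x : ZMod p => x = 0)
    rw [Fintype.card_subtype_eq, ZMod.card] at h2
    have h3 : Fintype.card {x : ZMod p // x ≠ 0} = p - 1 := h2
    rw [h3, ← Nat.card_eq_fintype_card, ← he] at h1
    omega
  set χj := L (H25.Cyh.om H ⟨a₂, ha₂⟩) with hχj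
  have hreg : ∀ g, ¬ p ∣ orderOf g → (χ : G → ℂ) g = (χj : G → ℂ) g := by
    intro g hg
    have h1 := S.rel (H25.Cyh.om H ⟨a₁, hty1⟩) g hg
    have h2 := S.rel (H25.Cyh.om H ⟨a₂, ha₂⟩) g hg
    rw [hL] at h1
    rw [← h2, hε] at h1
    simpa using h1
  have hdegj : charDegree (χj : G → ℂ) = charDegree (χ : G → ℂ) := by
    have h1 := hreg 1 (by rw [orderOf_one]; exact fun h => hp1.ne' (Nat.dvd_one.1 h))
    rw [← charDegree_eq χ.2, ← charDegree_eq χj.2] at h1
    exact_mod_cast h1.symm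
  have hmj : mlt χj (θ a₂) ≠ 0 := by
    intro h0
    have h1 := S.L1 _ ⟨a₂, ha₂⟩ rfl
    rw [hε] at h1
    change (mlt χj (θ 0) : ℤ) - mlt χj (θ a₂) = -1 at h1
    rw [h0] at h1
    omega
  have htyθ : ∀ a, ty (θ a) = a := fun a => (hS.ty_spec _).unique (fam_ty S.fam a)
  have hsuppj : ∀ φ, mlt χj φ ≠ 0 → ∃ s ∈ T, ty φ = ((s : (ZMod p)ˣ) : ZMod p) * a₂ := by
    have h1 := (S.exc hM hidx hS χj (by rw [hdegj]; exact hdeg) (S.fam.mem a₂) hmj (by rw [htyθ]; exact ha₂)).2.2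
    rw [htyθ] at h1
    exact h1
  -- no trivial constituents in the product
  have hR0 : RR ty (MM χj χ) 0 = 0 := by
    rw [RR_zero hS]
    apply Finset.sum_eq_zero
    intro a _
    by_contra hne
    obtain ⟨φ, h1, h2⟩ := RR_ne (left_ne_zero_of_mul hne)
    obtain ⟨φ', h3, h4⟩ := RR_ne (right_ne_zero_of_mul hne)
    obtain ⟨s, hs, h5⟩ := hsuppj φ h2
    obtain ⟨s', hs', h6⟩ := hsupp φ' h4
    apply ha₂T (s⁻¹ * s') (mul_mem (inv_mem hs) hs')
    rw [Units.val_mul, mul_assoc, ← h6, h3, ← h1, h5, ← mul_assoc, Units.inv_mul, one_mul]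
  have hP0 : ∀ φ : IrrCharacter (Ce (Subgroup.zpowers u)), ty φ = 0 → MM χj χ φ = 0 := by
    intro φ hφ
    have h1 := RR_pos (ty := ty) (MM χj χ) φ
    rw [hφ, hR0] at h1
    rcases Nat.mul_eq_zero.1 (Nat.le_zero.1 h1) with h | h
    · exact h
    · exact absurd h (charDegree_pos φ.2).ne'
  -- the trivial character
  have hτ1 : cc χ χ (triv G) = 1 := by
    have h1 := cc_spec χ χ (triv G)
    have h2 : classInner (prd χ χ) ((triv G : IrrCharacter G) : G → ℂ) = classInner (χ : G → ℂ) (χ : G → ℂ) := by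
      unfold classInner prd
      congr 1
      refine Finset.sum_congr rfl fun g _ => ?_
      rw [triv_coe, map_one, mul_one]
    rw [h2, ci_irr_self χ.2] at h1
    exact_mod_cast h1.symm
  have hτ : ∀ ψ : IrrCharacter G, (∀ φ : IrrCharacter (Ce (Subgroup.zpowers u)), mlt ψ φ ≠ 0 → ty φ = 0) → ψ = triv G := by
    intro ψ h
    have h1 := hval ψ h
    have h2 := hgen (H3.CharQuot.chKer (ψ : G → ℂ) (IsIrr.isCharacter ψ.2)) (H3.CharQuot.chKer_normal _) h1
    have h3 : ∀ g, (ψ : G → ℂ) g = (ψ : G → ℂ) 1 := by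
      intro g
      have : g ∈ H3.CharQuot.chKer (ψ : G → ℂ) (IsIrr.isCharacter ψ.2) := by rw [h2]; exact Subgroup.mem_top g
      exact this
    by_contra hne
    have h4 := ci_irr_ne ψ.2 (triv G).2 (fun h' => hne (Subtype.ext h'))
    unfold classInner at h4
    rw [Finset.sum_congr rfl fun g _ => show (ψ : G → ℂ) g * conj (((triv G : IrrCharacter G) : G → ℂ) g) = (ψ : G → ℂ) 1 by
      rw [triv_coe, map_one, mul_one, h3], Finset.sum_const, Finset.card_univ, nsmul_eq_mul, ← Nat.card_eq_fintype_card, ← mul_assoc,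
      inv_mul_cancel₀ (Nat.cast_ne_zero.2 Nat.card_pos.ne'), one_mul] at h4
    exact IsIrr.one_ne_zero ψ.2 h4
  have htriv := fun φ => mlt_triv (u := u) φ
  -- the inequality for all canonical characters
  have hineq : ∀ (c : ZMod p), c ≠ 0 → ∀ φ : IrrCharacter (Ce (Subgroup.zpowers u)), ty φ = 0 →
      MM χ χ φ ≤ 2 * MM χj χ (sh c φ) + (if φ = triv _ then 1 else 0) ∧ (φ = triv _ → 2 ≤ e → 1 ≤ MM χj χ (sh c φ)) := by
    intro c hc φ hφ
    obtain ⟨b', θ', hb', hf', hφ'⟩ := hS.ex φ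
    obtain ⟨B', θ'', H', X', δ', ε', L', S'⟩ := exists_str hM hu hidx hb'
    haveI : Fintype (Orb H') := Fintype.ofFinite _
    have h0 : θ'' 0 = φ := by rw [← hφ]; exact fam_eq S'.fam hφ' (hS.ty_spec φ)
    have h1 : sh c φ = θ'' c := by rw [hS.fam b' θ'' hb' S'.fam φ hφ' c, hφ, zero_add]
    obtain ⟨h2, h3⟩ := S'.core hM hidx hS χ χj hreg hP0 (triv G) hτ1 hτ (triv _) (fun φ => (htriv φ).1) (htriv (triv _)).2 hc
    rw [h1]
    rw [h0] at h2 h3
    split_ifs with h4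
    · refine ⟨(h3 h4).1, fun _ h5 => (h3 h4).2 ?_⟩
      rw [S'.prin (by intro c; rw [h0, h4, triv_coe])]
      exact h5
    · exact ⟨(h2 h4).trans (by omega), fun h => absurd h h4⟩
  have hdtriv : charDegree ((triv (Ce (Subgroup.zpowers u)) : IrrCharacter (Ce (Subgroup.zpowers u))) : Ce (Subgroup.zpowers u) → ℂ) = 1 := by
    have : (charDegree ((triv (Ce (Subgroup.zpowers u)) : IrrCharacter (Ce (Subgroup.zpowers u))) : Ce (Subgroup.zpowers u) → ℂ) : ℂ) = 1 := by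
      rw [charDegree_eq (triv _).2, triv_coe]
    exact_mod_cast this
  have htytriv : ty (triv _) = 0 := by
    apply (hS.ty_spec _).unique
    intro i
    rw [triv_coe, triv_coe, zero_mul, H25.Cyh.ee_zero, one_mul]
  have hRc : ∀ c : ZMod p, c ≠ 0 → RR ty (MM χ χ) 0 ≤ 2 * RR ty (MM χj χ) c + 1 ∧ (2 ≤ e → 1 ≤ RR ty (MM χj χ) c) := by
    intro c hc
    rw [RR_shift hS (MM χj χ) c]
    constructor
    · have h1 : RR ty (MM χ χ) 0 ≤ ∑ φ : IrrCharacter (Ce (Subgroup.zpowers u)), ((2 * if ty φ = 0 then MM χj χ (sh c φ) * charDegree (φ : Ce (Subgroup.zpowers u) → ℂ) else 0) +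
          (if φ = triv _ then 1 else 0)) := by
        unfold RR
        apply Finset.sum_le_sum
        intro φ _
        split_ifs with h1 h2 h2
        · have h3 := (hineq c hc φ h1).1
          rw [if_pos h2] at h3
          rw [h2, hdtriv, mul_one, mul_one]
          rw [h2] at h3
          exact h3
        · have h3 := (hineq c hc φ h1).1
          rw [if_neg h2, add_zero] at h3
          calc MM χ χ φ * charDegree (φ : Ce (Subgroup.zpowers u) → ℂ) ≤ (2 * MM χj χ (sh c φ)) * charDegree (φ : Ce (Subgroup.zpowers u) → ℂ) := Nat.mul_le_mul_right _ h3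
            _ = _ := by ring
        · omega
        · omega
      rw [Finset.sum_add_distrib, ← Finset.mul_sum, Finset.sum_ite_eq' Finset.univ, if_pos (Finset.mem_univ _)] at h1
      exact h1
    · intro h2
      have h3 := (hineq c hc (triv _) htytriv).2 rfl h2
      have h4 := RR_pos (ty := ty) (fun φ => MM χj χ (sh c φ)) (triv (Ce (Subgroup.zpowers u)))
      rw [htytriv, hdtriv, mul_one] at h4
      exact h3.trans h4
  -- sums
  have hRii : RR ty (MM χ χ) 0 = e * (RR ty (mlt χ) a₁) ^ 2 := by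
    rw [RR_zero hS, ← hsum χ a₁ hty1 hsupp (fun n => n ^ 2) rfl]
    exact Finset.sum_congr rfl fun a _ => (pow_two _).symm
  have hRji : ∑ x : {x : ZMod p // x ≠ 0}, RR ty (MM χj χ) x = charDegree (χ : G → ℂ) ^ 2 := by
    have h1 := RR_sum hS χj χ
    rw [hdegj, ← pow_two, ← Fintype.sum_subtype_add_sum_subtype (fun x : ZMod p => x ≠ 0)] at h1
    have h2 : ∑ i : {x : ZMod p // ¬ x ≠ 0}, RR ty (MM χj χ) i = 0 := by
      apply Finset.sum_eq_zero
      rintro ⟨i, hi⟩ _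
      have hi' := not_not.1 hi
      subst hi'
      exact hR0
    rw [h2, add_zero] at h1
    exact h1
  have hcardx : Fintype.card {x : ZMod p // x ≠ 0} = p - 1 := by
    have h2 := Fintype.card_subtype_compl (fun x : ZMod p => x = 0)
    rw [Fintype.card_subtype_eq, ZMod.card] at h2
    exact h2
  refine numer (q := p - 1) (e := e) hd hm he1 hdeg hTcard ?_ ?_ (by rw [Nat.sub_add_cancel hp1.le]; exact hp.out)
  · have h1 : ∑ x : {x : ZMod p // x ≠ 0}, RR ty (MM χ χ) 0 ≤ ∑ x : {x : ZMod p // x ≠ 0}, (2 * RR ty (MM χj χ) x + 1) :=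
      Finset.sum_le_sum fun x _ => (hRc x.1 x.2).1
    rw [Finset.sum_const, Finset.sum_add_distrib, Finset.sum_const, ← Finset.mul_sum, hRji, Finset.card_univ, hcardx, hRii, smul_eq_mul, smul_eq_mul,
      mul_one] at h1
    exact h1
  · intro h2
    have h1 : ∑ x : {x : ZMod p // x ≠ 0}, 1 ≤ ∑ x : {x : ZMod p // x ≠ 0}, RR ty (MM χj χ) x :=
      Finset.sum_le_sum fun x _ => (hRc x.1 x.2).2 h2
    rw [Finset.sum_const, hRji, Finset.card_univ, hcardx, smul_eq_mul, mul_one] at h1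
    exact h1

end Cfsg.Agent.H9.Dg
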