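import Mathlib
import Cfsg.Agent.H9_DgG
import Cfsg.Agent.H3_CharInd
import Cfsg.Agent.H25_Orbit

set_option autoImplicit false
set_option linter.unusedSectionVars false

/-! H9_DgH: faithful characters of degree less than (p-1)/2 force a normal Sylow p-subgroup (Sylow of order p). -/

open scoped ComplexConjugate

namespace Cfsg.Agent.H9.Dg

open Cfsg Cfsg.Agent.H3.CharIrr Cfsg.Agent.H3.CharComplete Cfsg.Agent.H3.CharBasic
  Cfsg.Agent.H10.Char

theorem final {G : Type*} [Group G] [Finite G] {p : ℕ} (hp : p.Prime) (hdiv : p ∣ Nat.card G) (hsq : ¬ p ^ 2 ∣ Nat.card G)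
    {χ : G → ℂ} (hχ : IsCharacter G χ) (hfaith : ∀ g : G, χ g = χ 1 → g = 1) (hdeg : 2 * charDegree χ < p - 1) :
    ∃ H : Subgroup G, H.Normal ∧ Nat.card H = p := by
  classical
  haveI := Fact.mk hp
  haveI : Fintype G := Fintype.ofFinite _
  obtain ⟨u, hu⟩ := exists_prime_orderOf_dvd_card' p hdiv
  set K := Subgroup.normalClosure ({u} : Set G) with hK
  haveI : K.Normal := Subgroup.normalClosure_normal
  haveI : Fintype K := Fintype.ofFinite _
  have huK : u ∈ K := Subgroup.subset_normalClosure (Set.mem_singleton u)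
  set uK : K := ⟨u, huK⟩ with huKd
  have huo : orderOf uK = p := by
    rw [← Subgroup.orderOf_coe]; exact hu
  have hidx : ¬ p ∣ (Subgroup.zpowers uK).index := by
    intro h
    apply hsq
    have h1 : p ^ 2 ∣ Nat.card K := by
      rw [← (Subgroup.zpowers uK).card_mul_index, Nat.card_zpowers, huo, pow_two]
      exact Nat.mul_dvd_mul_left p h
    exact h1.trans (Subgroup.card_subgroup_dvd_card K)
  have hconj : ∀ g : G, ∃ t : K, t * ⟨g * u * g⁻¹, (inferInstance : K.Normal).conj_mem u huK g⟩ * t⁻¹ ∈ Subgroup.zpowers uK := by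
    intro g
    apply H25.Cyr.conj_into huo hidx
    refine ⟨1, ?_⟩
    rw [pow_one, ← Subgroup.orderOf_coe]
    change orderOf (g * u * g⁻¹) = p
    rw [H10.PPart.orderOf_conj, hu]
  have hgen : ∀ N : Subgroup K, N.Normal → uK ∈ N → N = ⊤ := by
    intro N hN hu'
    have h1 : K ≤ N.map K.subtype := by
      refine (Subgroup.closure_le (N.map K.subtype)).2 ?_
      intro x hx
      obtain ⟨y, hy, hxy⟩ := Group.mem_conjugatesOfSet_iff.1 hx
      rw [Set.mem_singleton_iff] at hy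
      subst hy
      obtain ⟨g, rfl⟩ := isConj_iff.1 hxy
      obtain ⟨t, ht⟩ := hconj g
      refine ⟨⟨g * y * g⁻¹, (inferInstance : K.Normal).conj_mem y huK g⟩, ?_, rfl⟩
      have h2 : t * ⟨g * y * g⁻¹, (inferInstance : K.Normal).conj_mem y huK g⟩ * t⁻¹ ∈ N := by
        have h3 : Subgroup.zpowers uK ≤ N := by rw [Subgroup.zpowers_le]; exact hu'
        exact h3 ht
      have h3 := hN.conj_mem _ h2 t⁻¹
      simpa [mul_assoc] using h3
    rw [eq_top_iff]
    intro x _
    obtain ⟨y, hy, hxy⟩ := h1 x.2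
    have : y = x := Subtype.ext hxy
    rwa [← this]
  obtain ⟨M, hM⟩ := H25.Orbit.exists_modular hp
  haveI := hM.2.1
  haveI := H25.Red.charP_KM M hM
  haveI : Fintype (IrrCharacter K) := Fintype.ofFinite _
  have hres : IsCharacter K (fun k : K => χ k) := H3.CharInd.IsChar.res hχ K
  have hnat : ∀ ψ : IrrCharacter K, ∃ n : ℕ, classInner (fun k : K => χ k) (ψ : K → ℂ) = n := fun ψ =>
    ci_char_nat hres (IsIrr.isCharacter ψ.2)
  choose m hm using hnat
  have hexp : ∀ k : K, χ k = ∑ ψ, (m ψ : ℂ) * (ψ : K → ℂ) k := by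
    intro k
    rw [expand_apply (fun k : K => χ k) (char_class hres) k]
    exact Finset.sum_congr rfl fun ψ _ => by rw [hm]
  have hdg : charDegree χ = ∑ ψ : IrrCharacter K, m ψ * charDegree (ψ : K → ℂ) := by
    have h1 := hexp 1
    have h0 : χ 1 = (charDegree χ : ℂ) := by
      obtain ⟨d, hd⟩ := IsChar.one_eq_nat hχ
      rw [hd, charDegree, hd]; simp
    rw [Subgroup.coe_one, h0] at h1
    have h2 : (charDegree χ : ℂ) = ((∑ ψ : IrrCharacter K, m ψ * charDegree (ψ : K → ℂ) : ℕ) : ℂ) := by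
      rw [h1]
      push_cast
      exact Finset.sum_congr rfl fun ψ _ => by rw [charDegree_eq ψ.2]
    exact_mod_cast h2
  have hcomm : ∀ ψ : IrrCharacter K, m ψ ≠ 0 → ∀ x y : K, (ψ : K → ℂ) (x * y * x⁻¹ * y⁻¹) = (ψ : K → ℂ) 1 := by
    intro ψ hψ x y
    have h1 : charDegree (ψ : K → ℂ) ≤ charDegree χ := by
      rw [hdg]
      refine le_trans (Nat.le_mul_of_pos_left _ (Nat.pos_of_ne_zero hψ)) (Finset.single_le_sum (f := fun ψ : IrrCharacter K => m ψ * charDegree (ψ : K → ℂ)) (fun _ _ => Nat.zero_le _) (Finset.mem_univ ψ))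
    by_cases h2 : (ψ : K → ℂ) uK = (ψ : K → ℂ) 1
    · have h3 := hgen (H3.CharQuot.chKer (ψ : K → ℂ) (IsIrr.isCharacter ψ.2)) (H3.CharQuot.chKer_normal _) h2
      have : (x * y * x⁻¹ * y⁻¹) ∈ H3.CharQuot.chKer (ψ : K → ℂ) (IsIrr.isCharacter ψ.2) := by rw [h3]; exact Subgroup.mem_top _
      exact this
    · have h3 := main hM huo hidx hgen ψ (by omega) h2
      have h4 : (ψ : K → ℂ) 1 = 1 := by rw [← charDegree_eq ψ.2, h3, Nat.cast_one]
      obtain ⟨f, hf⟩ := H3.CharInd.IsChar.hom_units_of_one (IsIrr.isCharacter ψ.2) h4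
      rw [hf, hf]
      rw [map_one, map_mul, map_mul, map_mul, map_inv, map_inv]
      congr 1
      rw [mul_comm (f x) (f y), mul_inv_cancel_right, mul_inv_cancel]
  have hab : ∀ x y : K, x * y = y * x := by
    intro x y
    have h1 : ((x * y * x⁻¹ * y⁻¹ : K) : G) = 1 := by
      apply hfaith
      rw [hexp]
      have h2 := hexp 1
      rw [Subgroup.coe_one] at h2
      rw [h2]
      refine Finset.sum_congr rfl fun ψ _ => ?_
      by_cases h3 : m ψ = 0
      · rw [h3]; simp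
      · rw [hcomm ψ h3]
    have h2 : x * y * x⁻¹ * y⁻¹ = 1 := Subtype.ext h1
    have h3 := mul_inv_eq_one.1 h2
    exact mul_inv_eq_iff_eq_mul.1 h3
  refine ⟨Subgroup.zpowers u, ?_, by rw [Nat.card_zpowers, hu]⟩
  constructor
  rintro _ ⟨n, rfl⟩ g
  obtain ⟨t, ht⟩ := hconj g
  rw [hab t, mul_inv_cancel_right] at ht
  have h1 : g * u * g⁻¹ ∈ Subgroup.zpowers u := by
    obtain ⟨j, hj⟩ := ht
    exact ⟨j, by have := congrArg Subtype.val hj; simpa using this⟩
  have h2 : g * u ^ n * g⁻¹ = (g * u * g⁻¹) ^ n := (conj_zpow).symm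
  change g * u ^ n * g⁻¹ ∈ _
  rw [h2]
  exact Subgroup.zpow_mem _ h1 n

end Cfsg.Agent.H9.Dg
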