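import Mathlib
import Cfsg.Prelude.Def_Perm
import Cfsg.Agent.H9_Burnside

set_option autoImplicit false
open scoped Pointwise

namespace Cfsg.Agent.H9.DiffSet

/-- a symmetric subset of `ZMod p` (p odd) all of whose difference counts agree is trivial -/
theorem symmetric_diffset {p : ℕ} [hp : Fact p.Prime] (hp2 : p ≠ 2) (B : Finset (ZMod p))
    (hsym : ∀ x, x ∈ B ↔ -x ∈ B)
    (hconst : ∀ d d' : ZMod p, d ≠ 0 → d' ≠ 0 → (B.filter (fun x => x + d ∈ B)).card = (B.filter (fun x => x + d' ∈ B)).card) :
    (∀ x, x ≠ 0 → x ∈ B) ∨ (∀ x, x ≠ 0 → x ∉ B) := by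
  have htwo : (2 : ZMod p) ≠ 0 := by
    intro h
    have h2 : ((2 : ℕ) : ZMod p) = 0 := by exact_mod_cast h
    rw [ZMod.natCast_eq_zero_iff] at h2
    exact hp2 ((Nat.prime_dvd_prime_iff_eq hp.out Nat.prime_two).1 h2)
  have key : ∀ x : ZMod p, x ≠ 0 → (((B.filter (fun y => y + (-2 * x) ∈ B)).card : ZMod 2) = if x ∈ B then 1 else 0) := by
    intro x hx
    set S := B.filter (fun y => y + (-2 * x) ∈ B) with hS
    have hmemS : ∀ y, y ∈ S ↔ y ∈ B ∧ y + (-2 * x) ∈ B := fun y => by rw [hS, Finset.mem_filter]
    have hxS : x ∈ S ↔ x ∈ B := by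
      rw [hmemS]
      constructor
      · exact fun h => h.1
      · intro h
        refine ⟨h, ?_⟩
        rw [hsym]
        convert h using 1
        ring
    have hinv : ((S.erase x).card : ZMod 2) = 0 := by
      rw [Finset.card_eq_sum_ones, Nat.cast_sum]
      refine Finset.sum_involution (fun y _ => -(y + (-2 * x))) ?_ ?_ ?_ ?_
      · intro y _
        simp only [Nat.cast_one]
        decide
      · intro y hy _ h
        rw [Finset.mem_erase] at hy
        apply hy.1
        have h2 : (2 : ZMod p) * (y - x) = 0 := by linear_combination -h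
        exact sub_eq_zero.1 ((mul_eq_zero.1 h2).resolve_left htwo)
      · intro y hy
        rw [Finset.mem_erase, hmemS] at hy ⊢
        refine ⟨?_, ?_, ?_⟩
        · intro h
          apply hy.1
          linear_combination -h
        · rw [hsym, neg_neg]; exact hy.2.2
        · rw [hsym]
          convert hy.2.1 using 1
          ring
      · intro y _
        ring
    by_cases hxB : x ∈ B
    · rw [if_pos hxB]
      have := Finset.card_erase_add_one (hxS.2 hxB)
      rw [← this, Nat.cast_add, hinv]
      simp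
    · rw [if_neg hxB]
      rw [Finset.erase_eq_of_notMem (fun h => hxB (hxS.1 h))] at hinv
      exact hinv
  by_cases h : ∃ x, x ≠ 0 ∧ x ∈ B
  · left
    obtain ⟨x, hx, hxB⟩ := h
    intro y hy
    have h1 := key x hx
    have h2 := key y hy
    rw [hconst (-2 * y) (-2 * x) (by simp [hy, htwo]) (by simp [hx, htwo]), h1, if_pos hxB] at h2
    by_contra hyB
    rw [if_neg hyB] at h2
    exact one_ne_zero h2
  · right
    intro x hx hxB
    exact h ⟨x, hx, hxB⟩

/-- counting blocks in an orbit through two points is 2-transitively invariant -/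
theorem count_const {G : Type*} [Group G] [Finite G] {α : Type*} [Fintype α] [DecidableEq α] [MulAction G α]
    (T : Finset (Finset α)) (hT : ∀ g : G, ∀ B ∈ T, g • B ∈ T) (g : G) (x y : α) :
    (T.filter (fun B => g • x ∈ B ∧ g • y ∈ B)).card = (T.filter (fun B => x ∈ B ∧ y ∈ B)).card := by
  symm
  apply Finset.card_bij (fun B _ => g • B)
  · intro B hB
    rw [Finset.mem_filter] at hB ⊢
    exact ⟨hT g B hB.1, Finset.smul_mem_smul_finset hB.2.1, Finset.smul_mem_smul_finset hB.2.2⟩
  · intro B _ C _ h
    exact smul_left_cancel g h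
  · intro B hB
    rw [Finset.mem_filter] at hB
    refine ⟨g⁻¹ • B, ?_, smul_inv_smul g B⟩
    rw [Finset.mem_filter]
    refine ⟨hT g⁻¹ B hB.1, ?_, ?_⟩
    · rw [Finset.mem_inv_smul_finset_iff]; exact hB.2.1
    · rw [Finset.mem_inv_smul_finset_iff]; exact hB.2.2

theorem smul_mem_orbit_iff' {G : Type*} [Group G] {α : Type*} [MulAction G α] (g : G) (x a : α) :
    g • x ∈ MulAction.orbit G a ↔ x ∈ MulAction.orbit G a := by
  rw [← MulAction.orbit_eq_iff, ← MulAction.orbit_eq_iff, MulAction.orbit_smul]

theorem two_transitive_case {α : Type*} [Fintype α] [DecidableEq α] {p : ℕ} [hp : Fact p.Prime] (hα : Fintype.card α = p)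
    (hp2 : p ≠ 2) {G : Type*} [Group G] [Finite G] [MulAction G α] [FaithfulSMul G α]
    (h2 : MulAction.IsMultiplyPretransitive G α 2) (P : Sylow p G)
    (heven : Even (Nat.card (Subgroup.normalizer ((P : Subgroup G) : Set G)))) (H : Subgroup G) (hH : H.index = p)
    (hpH : ¬ p ∣ Nat.card H) : ∃ a : α, H ≤ MulAction.stabilizer G a := by
  classical
  haveI : MulAction.IsPretransitive G α := by
    haveI := h2
    exact MulAction.isPretransitive_of_is_two_pretransitive
  obtain ⟨σ, t, e, hσ, ht, hoσ, hot⟩ := Burnside.exists_coord_inv (p := p) hα hp2 P heven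
  -- an H-orbit
  let D : Finset α := (MulAction.orbit H (e 0)).toFinset
  have hDmem : ∀ x, x ∈ D ↔ x ∈ MulAction.orbit H (e 0) := fun x => by simp [D]
  have hDH : ∀ h ∈ H, h • D = D := by
    intro h hh
    ext x
    rw [← Finset.inv_smul_mem_iff, hDmem, hDmem]
    have h1 : h⁻¹ • x = (⟨h⁻¹, H.inv_mem hh⟩ : H) • x := rfl
    rw [h1, smul_mem_orbit_iff']
  have h0D : e 0 ∈ D := by rw [hDmem]; exact MulAction.mem_orbit_self _
  have hDne : ∃ z, z ∉ D := by
    by_contra hcon
    push Not at hcon
    apply hpH
    have h1 : MulAction.orbit H (e 0) = Set.univ := by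
      ext x; rw [← hDmem]; simp [hcon]
    have h3 := MulAction.index_stabilizer H (e 0)
    rw [h1, Set.ncard_univ, Nat.card_eq_fintype_card, hα] at h3
    rw [← h3]
    exact Subgroup.index_dvd_card _
  -- the set of blocks
  let T : Finset (Finset α) := (MulAction.orbit G D).toFinset
  have hTmem : ∀ B, B ∈ T ↔ B ∈ MulAction.orbit G D := fun x => by simp [T]
  have hTG : ∀ g : G, ∀ B ∈ T, g • B ∈ T := by
    intro g B hB
    rw [hTmem] at hB ⊢
    exact (smul_mem_orbit_iff' _ _ _).2 hB
  have hTcardle : T.card ∣ p := by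
    have h1 : (MulAction.orbit G D).ncard = T.card := by
      rw [Set.ncard_eq_toFinset_card']
    rw [← h1, ← MulAction.index_stabilizer, ← hH]
    apply Subgroup.index_dvd_of_le
    intro h hh
    exact hDH h hh
  -- translates of a block
  have hinj : ∀ B ∈ T, ∀ n : ℕ, σ ^ n • B = B → p ∣ n := by
    intro B hB n hn
    by_contra hnd
    have hcop : Nat.Coprime (orderOf σ) n := by
      rw [hoσ]; exact (Nat.Prime.coprime_iff_not_dvd hp.out).2 hnd
    have h1 : σ ∈ Subgroup.zpowers (σ ^ n) := by
      obtain ⟨m, hm⟩ := exists_pow_eq_self_of_coprime hcop.symm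
      exact ⟨m, by simpa using hm⟩
    obtain ⟨m, hm⟩ := h1
    have hst : σ ^ n ∈ MulAction.stabilizer G B := hn
    have h3 := (MulAction.stabilizer G B).zpow_mem hst m
    have h4 : (σ ^ n) ^ m = σ := hm
    rw [h4] at h3
    -- B is invariant under σ
    have h5 : ∀ n : ℕ, σ ^ n • B = B := fun n => (MulAction.stabilizer G B).pow_mem h3 n
    obtain ⟨g, hg⟩ := (hTmem B).1 hB
    obtain ⟨z, hz⟩ := hDne
    have hzB : g • z ∉ B := by
      change g • D = B at hg
      rw [← hg]
      intro h
      exact hz ((Finset.smul_mem_smul_finset_iff g).1 h)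
    have h0B : g • e 0 ∈ B := by
      change g • D = B at hg
      rw [← hg]
      exact Finset.smul_mem_smul_finset h0D
    obtain ⟨x, hx⟩ := e.surjective (g • z)
    obtain ⟨y, hy⟩ := e.surjective (g • e 0)
    rw [← hx] at hzB
    rw [← hy] at h0B
    apply hzB
    have h6 : e x = σ ^ (x - y).val • e y := by
      rw [← Burnside.coord_add hσ, ZMod.natCast_zmod_val]; congr 1; ring
    rw [h6, ← h5 (x - y).val]
    exact Finset.smul_mem_smul_finset h0B
  have hTcard : T.card = p := by
    rcases (Nat.dvd_prime hp.out).1 hTcardle with h | h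
    · exfalso
      obtain ⟨B, hB⟩ := Finset.card_eq_one.1 h
      have h1 : B ∈ T := by rw [hB]; simp
      have h3 : σ ^ 1 • B = B := by
        have := hTG (σ ^ 1) B h1
        rw [hB, Finset.mem_singleton] at this
        exact this
      have := hinj B h1 1 h3
      have := Nat.le_of_dvd one_pos this
      have := hp.out.one_lt
      omega
    · exact h
  -- a block fixed by t
  have htt : ∀ B : Finset α, t • t • B = B := by
    intro B
    rw [← mul_smul, ← pow_two, ← hot, pow_orderOf_eq_one, one_smul]
  obtain ⟨B, hBT, htB⟩ : ∃ B ∈ T, t • B = B := by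
    by_contra hcon
    push Not at hcon
    have h1 : ((T.card : ℕ) : ZMod 2) = 0 := by
      rw [Finset.card_eq_sum_ones, Nat.cast_sum]
      refine Finset.sum_involution (fun B _ => t • B) ?_ ?_ ?_ ?_
      · intro y _
        simp only [Nat.cast_one]
        decide
      · intro B hB _ h
        exact hcon B hB h
      · intro B hB
        exact hTG t B hB
      · intro B _
        exact htt B
    rw [hTcard, ZMod.natCast_eq_zero_iff] at h1
    exact hp2 ((Nat.prime_dvd_prime_iff_eq Nat.prime_two hp.out).1 h1).symm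
  let B0 : Finset (ZMod p) := B.map e.symm.toEmbedding
  have hB0 : ∀ x, x ∈ B0 ↔ e x ∈ B := by
    intro x
    simp only [B0, Finset.mem_map, Equiv.coe_toEmbedding]
    constructor
    · rintro ⟨y, hy, rfl⟩; simpa using hy
    · intro h; exact ⟨e x, h, by simp⟩
  have htinv : t⁻¹ = t := by
    rw [inv_eq_iff_mul_eq_one, ← pow_two, ← hot, pow_orderOf_eq_one]
  have hsym : ∀ x, x ∈ B0 ↔ -x ∈ B0 := by
    intro x
    rw [hB0, hB0, ht]
    conv_lhs => rw [← htB]
    rw [← Finset.inv_smul_mem_iff, htinv]
  -- bijection between translations and blocks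
  have hTimg : T = (Finset.range p).image (fun n => σ ^ n • B) := by
    symm
    apply Finset.eq_of_subset_of_card_le
    · intro C hC
      rw [Finset.mem_image] at hC
      obtain ⟨n, -, rfl⟩ := hC
      exact hTG _ _ hBT
    · rw [hTcard, Finset.card_image_of_injOn, Finset.card_range]
      intro n hn m hm hnm
      simp only [Finset.coe_range, Set.mem_Iio] at hn hm
      simp only at hnm
      wlog hle : n ≤ m generalizing n m
      · exact (this hnm.symm hm hn (le_of_not_ge hle)).symm
      have h3 : σ ^ m = σ ^ n * σ ^ (m - n) := by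
        rw [← pow_add]; congr 1; omega
      rw [h3, mul_smul] at hnm
      have h4 := hinj B hBT (m - n) (smul_left_cancel _ hnm).symm
      have := Nat.eq_zero_of_dvd_of_lt h4 (by omega)
      omega
  have hcount : ∀ d : ZMod p, (B0.filter (fun x => x + d ∈ B0)).card = (T.filter (fun C => e 0 ∈ C ∧ e d ∈ C)).card := by
    intro d
    apply Finset.card_bij (fun x _ => σ ^ (-x).val • B)
    · intro x hx
      rw [Finset.mem_filter, hB0, hB0] at hx
      rw [Finset.mem_filter]
      refine ⟨hTG _ _ hBT, ?_, ?_⟩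
      · have : e 0 = σ ^ (-x).val • e x := by
          rw [← Burnside.coord_add hσ, ZMod.natCast_zmod_val]; congr 1; ring
        rw [this]; exact Finset.smul_mem_smul_finset hx.1
      · have : e d = σ ^ (-x).val • e (x + d) := by
          rw [← Burnside.coord_add hσ, ZMod.natCast_zmod_val]; congr 1; ring
        rw [this]; exact Finset.smul_mem_smul_finset hx.2
    · intro x _ y _ hxy
      have h3 : ∀ z w : ZMod p, z.val ≤ w.val → σ ^ z.val • B = σ ^ w.val • B → z = w := by
        intro z w hle h
        have h3 : σ ^ w.val = σ ^ z.val * σ ^ (w.val - z.val) := by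
          rw [← pow_add]; congr 1; omega
        rw [h3, mul_smul] at h
        have h4 := hinj B hBT (w.val - z.val) (smul_left_cancel _ h).symm
        have := Nat.eq_zero_of_dvd_of_lt h4 (by have := ZMod.val_lt w; omega)
        exact ZMod.val_injective p (by omega)
      rcases le_total (-x).val (-y).val with hle | hle
      · exact neg_injective (h3 _ _ hle hxy)
      · exact (neg_injective (h3 _ _ hle hxy.symm)).symm
    · intro C hC
      rw [Finset.mem_filter] at hC
      obtain ⟨hCT, h0, hd⟩ := hC
      rw [hTimg, Finset.mem_image] at hCT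
      obtain ⟨n, hn, rfl⟩ := hCT
      rw [Finset.mem_range] at hn
      have hv : (-(-(n : ZMod p))).val = n := by rw [neg_neg, ZMod.val_natCast, Nat.mod_eq_of_lt hn]
      refine ⟨-(n : ZMod p), ?_, by rw [hv]⟩
      rw [Finset.mem_filter, hB0, hB0]
      constructor
      · rw [← Finset.smul_mem_smul_finset_iff (σ ^ n), ← Burnside.coord_add hσ]
        simpa using h0
      · rw [← Finset.smul_mem_smul_finset_iff (σ ^ n), ← Burnside.coord_add hσ]
        convert hd using 2
        ring
  have hconst : ∀ d d' : ZMod p, d ≠ 0 → d' ≠ 0 → (B0.filter (fun x => x + d ∈ B0)).card = (B0.filter (fun x => x + d' ∈ B0)).card := by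
    intro d d' hd hd'
    rw [hcount, hcount]
    obtain ⟨g, hg1, hg2⟩ : ∃ g : G, g • e 0 = e 0 ∧ g • e d = e d' :=
      (MulAction.is_two_pretransitive_iff (G := G) (α := α)).1 h2
        (fun h => hd (e.injective h).symm) (fun h => hd' (e.injective h).symm)
    have := count_const T hTG g (e 0) (e d)
    rw [hg1, hg2] at this
    exact this.symm
  have htriv := symmetric_diffset hp2 B0 hsym hconst
  -- transfer
  obtain ⟨g, hg⟩ := (hTmem B).1 hBT
  change g • D = B at hg
  have hHB : ∀ h ∈ H, (g * h * g⁻¹) • B = B := by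
    intro h hh
    rw [← hg, ← mul_smul, inv_mul_cancel_right, mul_smul, hDH h hh]
  refine ⟨g⁻¹ • e 0, ?_⟩
  intro h hh
  rw [MulAction.mem_stabilizer_iff]
  have h7 : (g * h * g⁻¹) • e 0 = e 0 := by
    have h8 := hHB h hh
    set k := g * h * g⁻¹ with hk
    obtain ⟨x, hx⟩ := e.surjective (k • e 0)
    rw [← hx]
    have hkk : ∀ y, k • y ∈ B ↔ y ∈ B := by
      intro y
      conv_lhs => rw [← h8]
      exact Finset.smul_mem_smul_finset_iff k
    by_contra hne
    have hx0 : x ≠ 0 := fun h => hne (by rw [h])
    have h9 := hkk (e 0)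
    rw [← hx, ← hB0, ← hB0] at h9
    have hBne : (∃ z, z ∉ B0) := by
      obtain ⟨z, hz⟩ := hDne
      refine ⟨e.symm (g • z), ?_⟩
      rw [hB0, Equiv.apply_symm_apply, ← hg]
      intro h
      exact hz ((Finset.smul_mem_smul_finset_iff g).1 h)
    have hBne' : (∃ z, z ∈ B0) := by
      refine ⟨e.symm (g • e 0), ?_⟩
      rw [hB0, Equiv.apply_symm_apply, ← hg]
      exact Finset.smul_mem_smul_finset h0D
    rcases htriv with h | h
    · obtain ⟨z, hz⟩ := hBne
      have : z = 0 := by by_contra h0; exact hz (h z h0)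
      subst this
      exact hz (h9.1 (h x hx0))
    · obtain ⟨z, hz⟩ := hBne'
      have : z = 0 := by by_contra h0; exact h z h0 hz
      subst this
      exact h x hx0 (h9.2 hz)
  rw [mul_smul, mul_smul] at h7
  rw [eq_inv_smul_iff]; exact h7

end Cfsg.Agent.H9.DiffSet
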