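import Cfsg.Statements.S0705
import Cfsg.Agent.H9_MultTrans2

set_option autoImplicit false
open scoped Pointwise
open Cfsg

namespace Cfsg.Agent.S0705

/-- A generously `k`-transitive permutation group (every `(k+1)`-subset has its full symmetric group induced by the setwise stabiliser) of degree greater than `k` is `k`-transitive, and for a `k`-subset the setwise and pointwise stabilisers have the same orbits outside it. -/
theorem result {α : Type*} [Fintype α] [DecidableEq α] (G : Subgroup (Equiv.Perm α)) {k : ℕ} (hk : k < Fintype.card α) (hgen : ∀ s : Finset α, s.card = k + 1 → ∀ σ : Equiv.Perm ↥s, ∃ g ∈ G, ∀ x : ↥s, g (x : α) = σ x) : MulAction.IsMultiplyPretransitive G α k ∧ ∀ s : Finset α, s.card = k → ∀ a b : α, a ∉ s → b ∉ s → (∃ g ∈ G, g • s = s ∧ g a = b) → ∃ g ∈ G, (∀ x ∈ s, g x = x) ∧ g a = b := by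
  classical
  constructor
  · rcases Nat.eq_zero_or_pos k with h0 | h0
    · subst h0; exact MulAction.is_zero_pretransitive'
    refine H9.MultTrans2.multTrans_of_fixing h0 hk ?_
    intro t ht x y hx hy
    by_cases hxy : x = y
    · exact ⟨1, by simp, by rw [one_smul, hxy]⟩
    have hyx : y ∉ insert x t := by simp [Ne.symm hxy, hy]
    obtain ⟨g, hg, hgs⟩ := hgen (insert y (insert x t)) (by
      rw [Finset.card_insert_of_notMem hyx, Finset.card_insert_of_notMem hx, ht]; omega)
      (Equiv.swap ⟨x, by simp⟩ ⟨y, by simp⟩)
    refine ⟨⟨g, hg⟩, ?_, ?_⟩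
    · intro z hz
      have := hgs ⟨z, by simp [hz]⟩
      rw [Equiv.swap_apply_of_ne_of_ne] at this
      · exact this
      · intro h; have h' : z = x := congrArg Subtype.val h; exact hx (h' ▸ hz)
      · intro h; have h' : z = y := congrArg Subtype.val h; exact hy (h' ▸ hz)
    · have := hgs ⟨x, by simp⟩
      rw [Equiv.swap_apply_left] at this
      exact this
  · rintro s hs a b ha hb ⟨g, hg, hgs, hgab⟩
    have hgi : ∀ x ∈ s, g⁻¹ x ∈ s := by
      intro x hx
      have : x ∈ g • s := by rw [hgs]; exact hx
      rw [Finset.mem_smul_finset] at this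
      obtain ⟨y, hy, rfl⟩ := this
      simpa using hy
    have hgi' : ∀ x, x ∈ insert a s → (if x = a then a else g⁻¹ x) ∈ insert a s := by
      intro x hx
      split_ifs with h
      · simp
      · rw [Finset.mem_insert] at hx ⊢
        exact Or.inr (hgi x (hx.resolve_left h))
    let f : ↥(insert a s) → ↥(insert a s) := fun x => ⟨if (x : α) = a then a else g⁻¹ x, hgi' x x.2⟩
    have hf : Function.Injective f := by
      rintro ⟨x, hx⟩ ⟨y, hy⟩ h
      have h' := congrArg Subtype.val h
      simp only [f] at h'
      apply Subtype.ext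
      change x = y
      rw [Finset.mem_insert] at hx hy
      split_ifs at h' with h1 h2 h2
      · rw [h1, h2]
      · exact absurd (hgi y (hy.resolve_left h2)) (by rw [← h']; exact ha)
      · exact absurd (hgi x (hx.resolve_left h1)) (by rw [h']; exact ha)
      · exact (g⁻¹).injective h'
    obtain ⟨h, hh, hhs⟩ := hgen (insert a s) (by rw [Finset.card_insert_of_notMem ha, hs])
      (Equiv.ofBijective f (Finite.injective_iff_bijective.1 hf))
    refine ⟨g * h, G.mul_mem hg hh, ?_, ?_⟩
    · intro x hx
      have hxa : x ≠ a := fun h => ha (h ▸ hx)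
      have := hhs ⟨x, by simp [hx]⟩
      simp only [Equiv.ofBijective_apply, f, hxa, if_false] at this
      rw [Equiv.Perm.mul_apply, this]
      simp
    · have := hhs ⟨a, by simp⟩
      simp only [Equiv.ofBijective_apply, f, if_true] at this
      rw [Equiv.Perm.mul_apply, this, hgab]

end Cfsg.Agent.S0705
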