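import Mathlib
import Cfsg.Agent.H9_SylowConj
import Cfsg.Agent.H9_Jordan
import Cfsg.Agent.S0705

set_option autoImplicit false

namespace Cfsg.Agent.H9.Generous

open MulAction
open scoped Pointwise

theorem main {α : Type*} [Fintype α] [DecidableEq α] (G : Subgroup (Equiv.Perm α)) {k : ℕ}
    (hk : k < Fintype.card α) (hgen : ∀ s : Finset α, s.card = k + 1 → ∀ σ : Equiv.Perm ↥s, ∃ g ∈ G, ∀ x : ↥s, g (x : α) = σ x)
    {p : ℕ} (hp : p.Prime) (hpk : p ≤ k) (Γ : Finset α) (hΓ : Γ.card = k) (f : Fin p → α) (hf : ∀ i, f i ∉ Γ)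
    (hdist : ∀ i j, i ≠ j → f j ∉ MulAction.orbit (fixingSubgroup G (Γ : Set α)) (f i)) :
    ∃ i, p ∣ Nat.card (MulAction.orbit (fixingSubgroup G (Γ : Set α)) (f i)) := by
  classical
  haveI : Fact p.Prime := ⟨hp⟩
  by_contra hcon
  push Not at hcon
  obtain ⟨hkt, horb⟩ := S0705.result G hk hgen
  set H := fixingSubgroup G (Γ : Set α) with hHdef
  have hH : ∀ h : G, h ∈ H ↔ ∀ t ∈ Γ, h • t = t := by
    intro h
    rw [hHdef, mem_fixingSubgroup_iff]
    simp
  obtain ⟨P⟩ : Nonempty (Sylow p H) := inferInstance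
  set PG : Subgroup G := (P : Subgroup H).map H.subtype with hPG
  have hPGle : PG ≤ H := by rw [hPG]; exact Subgroup.map_subtype_le _
  have hPGcard : Nat.card PG = p ^ (Nat.card H).factorization p := by
    rw [hPG, Subgroup.card_map_of_injective (Subgroup.subtype_injective H), Sylow.card_eq_multiplicity]
  have hPGp : IsPGroup p PG := by
    rw [IsPGroup.iff_card]
    exact ⟨_, hPGcard⟩
  have hHorb : ∀ (h : G), h ∈ H → ∀ a w : α, w ∈ MulAction.orbit H a → h • w ∈ MulAction.orbit H a := by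
    rintro h hh a _ ⟨g, rfl⟩
    exact ⟨⟨h, hh⟩ * g, by simp [mul_smul]⟩
  have hOut : ∀ a : α, a ∉ Γ → ∀ w ∈ MulAction.orbit H a, w ∉ Γ := by
    rintro a ha _ ⟨h, rfl⟩ hw
    have h1 := (hH _).1 (h⁻¹).2 _ hw
    have h2 : ((h⁻¹ : H) : G) • ((h : G) • a) = a := by
      rw [Subgroup.coe_inv, inv_smul_smul]
    have h3 : ((h : G) • a) = a := by
      have h4 : ((h⁻¹ : H) : G) • ((h : G) • a) = (h : G) • a := h1
      rw [← h4, h2]
    apply ha
    have hw' : ((h : G) • a) ∈ Γ := hw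
    rwa [h3] at hw'
  -- a fixed point of PG in the first orbit
  have h0 : 0 < p := hp.pos
  let i0 : Fin p := ⟨0, h0⟩
  obtain ⟨e0, he0, he0fix⟩ := H9.SylowConj.exists_fixed hPGp (MulAction.orbit H (f i0))
    (fun r hr w hw => hHorb r (hPGle hr) _ w hw) (hcon i0)
  have he0Γ : e0 ∉ Γ := hOut _ (hf i0) _ he0
  set s : Finset α := insert e0 Γ with hs
  have hscard : s.card = k + 1 := by rw [hs, Finset.card_insert_of_notMem he0Γ, hΓ]
  -- Γ' and τ
  obtain ⟨Γ', hΓ', hΓ'c⟩ := Finset.exists_subset_card_eq (s := Γ) (n := p) (by omega)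
  obtain ⟨τ0, hτ0⟩ := exists_prime_orderOf_dvd_card' (G := Equiv.Perm Γ') p (by
    rw [Nat.card_perm, Nat.card_eq_fintype_card, Fintype.card_coe, hΓ'c]
    exact Nat.dvd_factorial hp.pos le_rfl)
  let τ : Equiv.Perm α := Equiv.Perm.ofSubtype τ0
  have hτout : ∀ a, a ∉ Γ' → τ a = a := fun a ha => Equiv.Perm.ofSubtype_apply_of_not_mem τ0 ha
  have hτin : ∀ a, a ∈ Γ' → τ a ∈ Γ' := fun a ha => by
    have := Equiv.Perm.ofSubtype_apply_of_mem τ0 ha
    rw [show τ a = τ0 ⟨a, ha⟩ from this]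
    exact (τ0 ⟨a, ha⟩).2
  have hτord : orderOf τ = p := by
    rw [← hτ0]
    exact orderOf_injective (Equiv.Perm.ofSubtype) Equiv.Perm.ofSubtype_injective τ0
  have hτs : ∀ a, a ∈ s ↔ τ a ∈ s := by
    have h1 : ∀ a ∈ s, τ a ∈ s := by
      intro a ha
      by_cases haΓ' : a ∈ Γ'
      · rw [hs, Finset.mem_insert]; exact Or.inr (hΓ' (hτin a haΓ'))
      · rw [hτout a haΓ']; exact ha
    intro a
    refine ⟨h1 a, fun h => ?_⟩
    by_cases haΓ' : a ∈ Γ'
    · rw [hs, Finset.mem_insert]; exact Or.inr (hΓ' haΓ')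
    · rwa [hτout a haΓ'] at h
  obtain ⟨y, hyG, hy⟩ := hgen s hscard (τ.subtypePerm (fun a => (hτs a).symm))
  have hy' : ∀ a ∈ s, y a = τ a := fun a ha => hy ⟨a, ha⟩
  let yG : G := ⟨y, hyG⟩
  let K : Subgroup G := fixingSubgroup G (s : Set α)
  have hK : ∀ h : G, h ∈ K ↔ ∀ t ∈ s, h • t = t := by
    intro h
    rw [mem_fixingSubgroup_iff]
    simp
  have hKH : K ≤ H := by
    intro h hh
    rw [hH]
    intro t ht
    exact (hK h).1 hh t (by rw [hs, Finset.mem_insert]; exact Or.inr ht)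
  have hPGK : PG ≤ K := by
    intro q hq
    rw [hK]
    intro t ht
    rw [hs, Finset.mem_insert] at ht
    rcases ht with rfl | ht
    · exact he0fix q hq
    · exact (hH q).1 (hPGle hq) t ht
  have hyinv : ∀ a ∈ s, (yG⁻¹ : G) • a ∈ s := by
    intro a ha
    have hsurj : ∃ b ∈ s, τ b = a := by
      refine ⟨τ⁻¹ a, ?_, by simp⟩
      rw [hτs]
      simpa using ha
    obtain ⟨b, hb, rfl⟩ := hsurj
    rw [← hy' b hb]
    change (yG⁻¹ : G) • (yG • b) ∈ s
    rw [inv_smul_smul]; exact hb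
  have hconjK : PG.map (MulAut.conj yG).toMonoidHom ≤ K := by
    rintro _ ⟨q, hq, rfl⟩
    rw [hK]
    intro t ht
    change (yG * q * yG⁻¹) • t = t
    rw [mul_smul, mul_smul, (hK q).1 (hPGK hq) _ (hyinv t ht), smul_inv_smul]
  have hPGcardK : Nat.card PG = p ^ (Nat.card K).factorization p :=
    H9.SylowConj.card_factorization_of_le hPGK hKH hPGcard
  obtain ⟨z, hzK, hz⟩ := H9.SylowConj.exists_conj (p := p) hconjK hPGK (by
    rw [Subgroup.card_map_of_injective (MulAut.conj yG).injective, hPGcardK]) hPGcardK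
  let x0 : G := z * yG
  have hx0s : ∀ a ∈ s, x0 • a = τ a := by
    intro a ha
    change (z * yG) • a = τ a
    rw [mul_smul]
    have : yG • a = τ a := hy' a ha
    rw [this]
    exact (hK z).1 hzK _ ((hτs a).1 ha)
  have hx0N : x0 ∈ Subgroup.normalizer (PG : Set G) := by
    rw [Subgroup.mem_normalizer_iff_map_conj_eq]
    have : MulAut.conj x0 = (MulAut.conj z) * (MulAut.conj yG) := map_mul _ _ _
    rw [Subgroup.map_map] at hz
    exact hz
  -- the p-part
  set v := (orderOf x0).factorization p with hv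
  set m := orderOf x0 / p ^ v with hm
  have hordne : orderOf x0 ≠ 0 := (orderOf_pos x0).ne'
  have hmp : p.Coprime m := Nat.coprime_ordCompl hp hordne
  have hmul : p ^ v * m = orderOf x0 := Nat.ordProj_mul_ordCompl_eq_self _ _
  let x : G := x0 ^ m
  have hxpow : x ^ (p ^ v) = 1 := by
    change (x0 ^ m) ^ (p ^ v) = 1
    rw [← pow_mul, mul_comm, hmul, pow_orderOf_eq_one]
  have hxs : ∀ (j : ℕ), ∀ a ∈ s, (x0 ^ j) • a = (τ ^ j) a ∧ (τ ^ j) a ∈ s := by
    intro j
    induction j with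
    | zero => intro a ha; simp [ha]
    | succ j ih =>
      intro a ha
      have h1 := ih a ha
      rw [pow_succ', mul_smul, h1.1, hx0s _ h1.2, pow_succ', Equiv.Perm.mul_apply]
      exact ⟨rfl, (hτs _).1 h1.2⟩
  -- Q
  let Q : Subgroup G := PG ⊔ Subgroup.zpowers x
  have hxN : Subgroup.zpowers x ≤ Subgroup.normalizer (PG : Set G) := by
    rw [Subgroup.zpowers_le]
    exact Subgroup.pow_mem _ hx0N m
  have hxp : IsPGroup p (Subgroup.zpowers x) := by
    rw [IsPGroup.iff_card]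
    rw [Nat.card_zpowers]
    obtain ⟨r, -, hr⟩ := (Nat.dvd_prime_pow hp).1 (orderOf_dvd_of_pow_eq_one hxpow)
    exact ⟨r, hr⟩
  have hQp : IsPGroup p Q := by
    change IsPGroup p (PG ⊔ Subgroup.zpowers x : Subgroup G)
    rw [sup_comm]
    exact IsPGroup.to_sup_of_normal_right' hxp hPGp hxN
  -- Q preserves Γ setwise
  have hxΓ : ∀ a ∈ Γ, x • a ∈ Γ := by
    intro a ha
    have h1 := (hxs m a (by rw [hs, Finset.mem_insert]; exact Or.inr ha))
    change (x0 ^ m) • a ∈ Γ
    rw [h1.1]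
    have h2 : ∀ j : ℕ, (τ ^ j) a ∈ Γ := by
      intro j
      induction j with
      | zero => simpa using ha
      | succ j ih =>
        rw [pow_succ', Equiv.Perm.mul_apply]
        by_cases hb : (τ ^ j) a ∈ Γ'
        · exact hΓ' (hτin _ hb)
        · rw [hτout _ hb]; exact ih
    exact h2 m
  let St : Subgroup G := MulAction.stabilizer G Γ
  have hxSt : x ∈ St := by
    rw [MulAction.mem_stabilizer_iff]
    refine Finset.eq_of_subset_of_card_le ?_ (by rw [Finset.card_smul_finset])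
    intro b hb
    rw [Finset.mem_smul_finset] at hb
    obtain ⟨a, ha, rfl⟩ := hb
    exact hxΓ a ha
  have hPSt : PG ≤ St := by
    intro q hq
    rw [MulAction.mem_stabilizer_iff]
    refine Finset.eq_of_subset_of_card_le ?_ (by rw [Finset.card_smul_finset])
    intro b hb
    rw [Finset.mem_smul_finset] at hb
    obtain ⟨a, ha, rfl⟩ := hb
    rw [(hH q).1 (hPGle hq) a ha]; exact ha
  have hQSt : Q ≤ St := sup_le hPSt (by rw [Subgroup.zpowers_le]; exact hxSt)
  -- Q preserves the orbits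
  have hQorb : ∀ q ∈ Q, ∀ i, ∀ w ∈ MulAction.orbit H (f i), q • w ∈ MulAction.orbit H (f i) := by
    intro q hq i w hw
    have hqΓ : (q : Equiv.Perm α) • Γ = Γ := hQSt hq
    have hwΓ : w ∉ Γ := hOut _ (hf i) w hw
    have hqw : q • w ∉ Γ := by
      intro h
      apply hwΓ
      have : q • w ∈ (q : Equiv.Perm α) • Γ := by rw [hqΓ]; exact h
      rw [Finset.mem_smul_finset] at this
      obtain ⟨b, hb, hbw⟩ := this
      have : b = w := (q : Equiv.Perm α).injective hbw
      rwa [← this]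
    obtain ⟨g, hg, hgΓ, hgw⟩ := horb Γ hΓ w (q • w) hwΓ hqw ⟨q, q.2, hqΓ, rfl⟩
    have hgH : (⟨g, hg⟩ : G) ∈ H := by
      rw [hH]
      exact hgΓ
    have := hHorb ⟨g, hg⟩ hgH _ w hw
    have h5 : (⟨g, hg⟩ : G) • w = q • w := hgw
    rwa [h5] at this
  have hefix : ∀ i, ∃ e ∈ MulAction.orbit H (f i), ∀ q ∈ Q, q • e = e := fun i =>
    H9.SylowConj.exists_fixed hQp (MulAction.orbit H (f i)) (fun r hr w hw => hQorb r hr i w hw) (hcon i)
  choose e he hefix using hefix
  have heinj : Function.Injective e := by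
    intro i j hij
    by_contra hne
    apply hdist i j hne
    have h1 : MulAction.orbit H (e i) = MulAction.orbit H (f i) := MulAction.orbit_eq_iff.2 (he i)
    have h2 : MulAction.orbit H (e j) = MulAction.orbit H (f j) := MulAction.orbit_eq_iff.2 (he j)
    rw [← h1, hij, h2]
    exact MulAction.mem_orbit_self _
  -- Γ'' = (Γ \ Γ') ∪ range e
  set Γ2 : Finset α := (Γ \ Γ') ∪ Finset.univ.image e with hΓ2
  have hΓ2c : Γ2.card = k := by
    rw [hΓ2, Finset.card_union_of_disjoint, Finset.card_sdiff_of_subset hΓ', hΓ, hΓ'c,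
      Finset.card_image_of_injective _ heinj, Finset.card_univ, Fintype.card_fin]
    · omega
    · rw [Finset.disjoint_left]
      intro a ha hb
      rw [Finset.mem_image] at hb
      obtain ⟨i, -, rfl⟩ := hb
      exact hOut _ (hf i) _ (he i) (Finset.mem_sdiff.1 ha).1
  have hQΓ2 : ∀ q ∈ Q, ∀ t ∈ Γ2, q • t = t := by
    intro q hq t ht
    rw [hΓ2, Finset.mem_union] at ht
    rcases ht with ht | ht
    · -- fixed by PG and x
      rw [Finset.mem_sdiff] at ht
      have hle : Q ≤ MulAction.stabilizer G t := by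
        refine sup_le ?_ ?_
        · intro r hr
          exact (hH r).1 (hPGle hr) t ht.1
        · rw [Subgroup.zpowers_le, MulAction.mem_stabilizer_iff]
          change (x0 ^ m) • t = t
          rw [((hxs m t (by rw [hs, Finset.mem_insert]; exact Or.inr ht.1)).1)]
          have : ∀ j : ℕ, (τ ^ j) t = t := by
            intro j
            induction j with
            | zero => rfl
            | succ j ih => rw [pow_succ', Equiv.Perm.mul_apply, ih, hτout t ht.2]
          exact this m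
      exact hle hq
    · rw [Finset.mem_image] at ht
      obtain ⟨i, -, rfl⟩ := ht
      exact hefix i q hq
  -- conjugate Γ2 to Γ
  have hconjΓ : ∃ g : G, g • Γ2 = Γ := by
    have h1 : IsPretransitive G (Fin k ↪ α) := hkt
    let e1 : Fin k ↪ α := (Finset.equivFinOfCardEq hΓ2c).symm.toEmbedding.trans (Function.Embedding.subtype _)
    let e2 : Fin k ↪ α := (Finset.equivFinOfCardEq hΓ).symm.toEmbedding.trans (Function.Embedding.subtype _)
    obtain ⟨g, hg⟩ := h1.exists_smul_eq e1 e2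
    refine ⟨g, Finset.eq_of_subset_of_card_le ?_ (by rw [Finset.card_smul_finset, hΓ2c, hΓ])⟩
    intro b hb
    rw [Finset.mem_smul_finset] at hb
    obtain ⟨a, ha, rfl⟩ := hb
    have h2 : e1 (Finset.equivFinOfCardEq hΓ2c ⟨a, ha⟩) = a := by simp [e1]
    have h3 := congrArg (fun q : Fin k ↪ α => q (Finset.equivFinOfCardEq hΓ2c ⟨a, ha⟩)) hg
    have h4 : g • e1 (Finset.equivFinOfCardEq hΓ2c ⟨a, ha⟩) = e2 (Finset.equivFinOfCardEq hΓ2c ⟨a, ha⟩) := h3
    rw [h2] at h4
    rw [h4]
    exact ((Finset.equivFinOfCardEq hΓ).symm _).2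
  obtain ⟨g, hg⟩ := hconjΓ
  have hQcard : Nat.card Q ∣ Nat.card H := by
    have h1 : Q.map (MulAut.conj g).toMonoidHom ≤ H := by
      rintro _ ⟨q, hq, rfl⟩
      rw [hH]
      intro t ht
      rw [← hg, Finset.mem_smul_finset] at ht
      obtain ⟨u, hu, rfl⟩ := ht
      change (g * q * g⁻¹) • (g • u) = g • u
      rw [mul_smul, mul_smul, inv_smul_smul, hQΓ2 q hq u hu]
    have h2 := Subgroup.card_dvd_of_le h1
    rwa [Subgroup.card_map_of_injective (MulAut.conj g).injective] at h2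
  obtain ⟨r, hr⟩ := IsPGroup.iff_card.1 hQp
  have hrle : r ≤ (Nat.card H).factorization p := by
    rw [← hp.pow_dvd_iff_le_factorization Nat.card_pos.ne', ← hr]
    exact hQcard
  have hQle : Nat.card Q ≤ Nat.card PG := by
    rw [hr, hPGcard]
    exact Nat.pow_le_pow_right hp.pos hrle
  have hPQ : PG = Q := Subgroup.eq_of_le_of_card_ge le_sup_left hQle
  have hxP : x ∈ PG := by
    rw [hPQ]
    exact (le_sup_right : Subgroup.zpowers x ≤ Q) (Subgroup.mem_zpowers x)
  -- contradiction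
  have hτm : τ ^ m = 1 := by
    ext t
    by_cases ht : t ∈ Γ'
    · have h1 := (hxs m t (by rw [hs, Finset.mem_insert]; exact Or.inr (hΓ' ht))).1
      rw [← h1]
      exact (hH x).1 (hPGle hxP) t (hΓ' ht)
    · have : ∀ j : ℕ, (τ ^ j) t = t := by
        intro j
        induction j with
        | zero => rfl
        | succ j ih => rw [pow_succ', Equiv.Perm.mul_apply, ih, hτout t ht]
      exact this m
  have hpm : p ∣ m := by rw [← hτord]; exact orderOf_dvd_of_pow_eq_one hτm
  exact hp.one_lt.ne' (Nat.Coprime.eq_one_of_dvd hmp hpm)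

end Cfsg.Agent.H9.Generous
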