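import Mathlib.GroupTheory.GroupAction.SubMulAction.Combination
import Mathlib.Data.Nat.Choose.Lucas
import Mathlib.Combinatorics.Enumerative.DoubleCounting
import Mathlib.Algebra.IsPrimePow
import Mathlib.Data.Nat.Factorization.PrimePow
import Mathlib.Tactic

set_option autoImplicit false

namespace Cfsg.Agent.H9.Homog

open scoped Pointwise
open MulAction

theorem isPretransitive_powersetCard_iff {G : Type*} [Group G] {α : Type*} [MulAction G α]
    [DecidableEq α] {k : ℕ} :
    IsPretransitive G (Set.powersetCard α k) ↔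
      ∀ s t : Finset α, s.card = k → t.card = k → ∃ g : G, g • s = t := by
  constructor
  · intro h s t hs ht
    obtain ⟨g, hg⟩ := h.exists_smul_eq (⟨s, hs⟩ : Set.powersetCard α k) ⟨t, ht⟩
    refine ⟨g, ?_⟩
    have := congrArg Subtype.val hg
    simpa using this
  · intro h
    constructor
    rintro ⟨s, hs⟩ ⟨t, ht⟩
    obtain ⟨g, hg⟩ := h s t hs ht
    exact ⟨g, Subtype.ext (by simpa using hg)⟩

theorem smul_finset_erase' {G : Type*} [Group G] {α : Type*} [MulAction G α] [DecidableEq α]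
    (g : G) (s : Finset α) (x : α) : g • (s.erase x) = (g • s).erase (g • x) := by
  ext y
  simp only [Finset.mem_smul_finset, Finset.mem_erase]
  constructor
  · rintro ⟨z, ⟨hz, hzs⟩, rfl⟩
    exact ⟨fun h => hz (MulAction.injective g h), z, hzs, rfl⟩
  · rintro ⟨hne, z, hz, rfl⟩
    exact ⟨z, ⟨fun h => hne (by rw [h]), hz⟩, rfl⟩

theorem not_dvd_choose {p a k : ℕ} (hp : p.Prime) (hk : p ^ a ∣ k) :
    ¬ p ∣ (k + (p ^ a - 1)).choose k := by
  haveI : Fact p.Prime := ⟨hp⟩
  have h1 : (k + (p ^ a - 1)).choose k = (k + (p ^ a - 1)).choose (p ^ a - 1) := by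
    rw [Nat.choose_symm_add]
  rw [h1]
  have h2 := Choose.choose_modEq_choose_mul_prod_range_choose (p := p) (n := k + (p ^ a - 1))
    (k := p ^ a - 1) a
  have hpos : 0 < p ^ a := pow_pos hp.pos a
  have h3 : (p ^ a - 1) / p ^ a = 0 := Nat.div_eq_of_lt (by omega)
  rw [h3, Nat.choose_zero_right] at h2
  have h4 : ∀ i ∈ Finset.range a, ((k + (p ^ a - 1)) / p ^ i % p).choose ((p ^ a - 1) / p ^ i % p) = 1 := by
    intro i hi
    rw [Finset.mem_range] at hi
    obtain ⟨m, hm⟩ := hk
    have h5 : k = p ^ i * (p * (p ^ (a - i - 1) * m)) := by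
      rw [hm, ← mul_assoc, ← mul_assoc, ← pow_succ, ← pow_add]
      congr 2; omega
    have h6 : (k + (p ^ a - 1)) / p ^ i = p * (p ^ (a - i - 1) * m) + (p ^ a - 1) / p ^ i := by
      conv_lhs => rw [h5]
      rw [Nat.mul_add_div (pow_pos hp.pos i)]
    rw [h6, Nat.mul_add_mod]
    simp
  rw [Finset.prod_congr rfl h4] at h2
  simp only [Nat.cast_one, Finset.prod_const_one, mul_one] at h2
  intro hd
  have h7 : ((k + (p ^ a - 1)).choose (p ^ a - 1) : ℤ) ≡ 0 [ZMOD p] :=
    (Int.modEq_zero_iff_dvd).2 (by exact_mod_cast hd)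
  have h8 := h2.symm.trans h7
  rw [Int.modEq_zero_iff_dvd] at h8
  have : (p : ℤ) ∣ 1 := h8
  have := Int.natCast_dvd_natCast.1 (by exact_mod_cast this : ((p:ℕ):ℤ) ∣ ((1:ℕ):ℤ))
  exact hp.one_lt.ne' (Nat.dvd_one.1 this)

/-- double counting: for a predicate on `(k-1)`-sets -/
theorem double_count {α : Type*} [DecidableEq α] (O : Finset α → Prop) [DecidablePred O]
    (L : Finset α) {k c : ℕ} (hk : 1 ≤ k)
    (hc : ∀ s ∈ L.powersetCard k, (s.filter (fun x => O (s.erase x))).card = c) :
    (L.card.choose k) * c = ((L.powersetCard (k - 1)).filter O).card * (L.card - (k - 1)) := by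
  have h1 : ∑ s ∈ L.powersetCard k, (s.filter (fun x => O (s.erase x))).card = (L.card.choose k) * c := by
    rw [Finset.sum_congr rfl hc, Finset.sum_const, Finset.card_powersetCard, smul_eq_mul]
  have h2 : ∑ s ∈ (L.powersetCard (k - 1)).filter O, (L \ s).card =
      ((L.powersetCard (k - 1)).filter O).card * (L.card - (k - 1)) := by
    rw [Finset.sum_congr rfl (g := fun _ => L.card - (k - 1))]
    · rw [Finset.sum_const, smul_eq_mul]
    · intro s hs
      rw [Finset.mem_filter, Finset.mem_powersetCard] at hs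
      rw [Finset.card_sdiff_of_subset hs.1.1, hs.1.2]
  rw [← h1, ← h2]
  rw [← Finset.card_sigma, ← Finset.card_sigma]
  refine Finset.card_bij' (fun p _ => ⟨p.1.erase p.2, p.2⟩) (fun p _ => ⟨insert p.2 p.1, p.2⟩) ?_ ?_ ?_ ?_
  · rintro ⟨s, x⟩ h
    simp only [Finset.mem_sigma, Finset.mem_powersetCard, Finset.mem_filter, Finset.mem_sdiff] at h ⊢
    refine ⟨⟨⟨(Finset.erase_subset _ _).trans h.1.1, ?_⟩, h.2.2⟩, h.1.1 h.2.1, Finset.notMem_erase _ _⟩
    rw [Finset.card_erase_of_mem h.2.1, h.1.2]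
  · rintro ⟨s, x⟩ h
    simp only [Finset.mem_sigma, Finset.mem_powersetCard, Finset.mem_filter, Finset.mem_sdiff] at h ⊢
    refine ⟨⟨?_, ?_⟩, Finset.mem_insert_self _ _, ?_⟩
    · exact Finset.insert_subset h.2.1 h.1.1.1
    · rw [Finset.card_insert_of_notMem h.2.2, h.1.1.2]; omega
    · rw [Finset.erase_insert h.2.2]; exact h.1.2
  · rintro ⟨s, x⟩ h
    simp only [Finset.mem_sigma, Finset.mem_powersetCard, Finset.mem_filter] at h
    simp only [Finset.insert_erase h.2.1]
  · rintro ⟨s, x⟩ h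
    simp only [Finset.mem_sigma, Finset.mem_powersetCard, Finset.mem_filter, Finset.mem_sdiff] at h
    simp only [Finset.erase_insert h.2.2]

/-- Wielandt: `k`-homogeneous implies `(k-1)`-homogeneous. -/
theorem pred_homogeneous {G : Type*} [Group G] {α : Type*} [MulAction G α] [Fintype α]
    [DecidableEq α] {k : ℕ} (hk : 2 ≤ k)
    (hG : ∀ s t : Finset α, s.card = k → t.card = k → ∃ g : G, g • s = t)
    (hq : ∀ q : ℕ, IsPrimePow q → q ∣ k → k + q - 1 ≤ Fintype.card α) :
    ∀ s t : Finset α, s.card = k - 1 → t.card = k - 1 → ∃ g : G, g • s = t := by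
  classical
  intro s₀ t₀ hs₀ ht₀
  have hkn : k + 1 ≤ Fintype.card α := by
    obtain ⟨p, hp, hpk⟩ := Nat.exists_prime_and_dvd (show k ≠ 1 by omega)
    have := hq p hp.isPrimePow hpk
    have := hp.two_le
    omega
  let O : Finset α → Prop := fun s => ∃ g : G, g • s₀ = s
  have hO : ∀ (g : G) (s : Finset α), O (g • s) ↔ O s := by
    intro g s
    constructor
    · rintro ⟨h, hh⟩
      exact ⟨g⁻¹ * h, by rw [mul_smul, hh, inv_smul_smul]⟩
    · rintro ⟨h, hh⟩
      exact ⟨g * h, by rw [mul_smul, hh]⟩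
  let cnt : Finset α → ℕ := fun s => (s.filter (fun x => O (s.erase x))).card
  have hcnt : ∀ (g : G) (s : Finset α), cnt (g • s) = cnt s := by
    intro g s
    have : (g • s).filter (fun x => O ((g • s).erase x)) = g • (s.filter (fun x => O (s.erase x))) := by
      ext x
      simp only [Finset.mem_filter, Finset.mem_smul_finset]
      constructor
      · rintro ⟨⟨y, hy, rfl⟩, h⟩
        refine ⟨y, ⟨hy, ?_⟩, rfl⟩
        rwa [← smul_finset_erase', hO] at h
      · rintro ⟨y, ⟨hy, h⟩, rfl⟩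
        refine ⟨⟨y, hy, rfl⟩, ?_⟩
        rwa [← smul_finset_erase', hO]
    show ((g • s).filter (fun x => O ((g • s).erase x))).card = _
    rw [this, Finset.card_smul_finset]
  -- a k-set containing s₀
  obtain ⟨x₀, hx₀⟩ : ∃ x, x ∉ s₀ := by
    by_contra h
    push Not at h
    have : s₀ = Finset.univ := Finset.eq_univ_iff_forall.2 h
    rw [this, Finset.card_univ] at hs₀
    omega
  set Γ := insert x₀ s₀ with hΓ
  have hΓk : Γ.card = k := by rw [hΓ, Finset.card_insert_of_notMem hx₀, hs₀]; omega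
  set c := cnt Γ with hc
  have hcall : ∀ s : Finset α, s.card = k → cnt s = c := by
    intro s hs
    obtain ⟨g, rfl⟩ := hG Γ s hΓk hs
    exact hcnt g Γ
  have hcpos : 0 < c := by
    rw [hc]
    apply Finset.card_pos.2
    refine ⟨x₀, ?_⟩
    rw [Finset.mem_filter]
    refine ⟨Finset.mem_insert_self _ _, 1, ?_⟩
    rw [one_smul, hΓ, Finset.erase_insert hx₀]
  have hck : c ≤ k := by
    rw [← hΓk]; exact Finset.card_filter_le _ _
  by_cases hceq : c = k
  · -- t₀ in a k-set
    obtain ⟨y₀, hy₀⟩ : ∃ x, x ∉ t₀ := by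
      by_contra h
      push Not at h
      have : t₀ = Finset.univ := Finset.eq_univ_iff_forall.2 h
      rw [this, Finset.card_univ] at ht₀
      omega
    have h1 : (insert y₀ t₀).card = k := by rw [Finset.card_insert_of_notMem hy₀, ht₀]; omega
    have h2 := hcall _ h1
    rw [hceq, ← h1] at h2
    have h3 : (insert y₀ t₀).filter (fun x => O ((insert y₀ t₀).erase x)) = insert y₀ t₀ :=
      Finset.filter_eq_self.2 (Finset.card_filter_eq_iff.1 h2)
    have h4 : y₀ ∈ (insert y₀ t₀).filter (fun x => O ((insert y₀ t₀).erase x)) := by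
      rw [h3]; exact Finset.mem_insert_self _ _
    rw [Finset.mem_filter, Finset.erase_insert hy₀] at h4
    exact h4.2
  · exfalso
    have hclt : c < k := lt_of_le_of_ne hck hceq
    -- prime power dividing k but not c
    obtain ⟨p, hp, a, hpa, hpk, hpc⟩ : ∃ p, p.Prime ∧ ∃ a, 0 < a ∧ p ^ a ∣ k ∧ ¬ p ^ a ∣ c := by
      by_contra hcon
      push Not at hcon
      have : k ∣ c := by
        rw [Nat.dvd_iff_prime_pow_dvd_dvd]
        intro p a hp hd
        rcases Nat.eq_zero_or_pos a with h0 | h0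
        · subst h0; simp
        · exact hcon p hp a h0 hd
      exact absurd (Nat.le_of_dvd hcpos this) (by omega)
    have hle := hq (p ^ a) (hp.isPrimePow.pow hpa.ne') hpk
    have hppos : 0 < p ^ a := pow_pos hp.pos a
    obtain ⟨L, -, hL⟩ := Finset.exists_subset_card_eq (s := (Finset.univ : Finset α)) (n := k + (p ^ a - 1))
      (by rw [Finset.card_univ]; omega)
    have hdc := double_count O L (k := k) (c := c) (by omega) (by
      intro s hs
      rw [Finset.mem_powersetCard] at hs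
      exact hcall s hs.2)
    rw [hL] at hdc
    have h1 : k + (p ^ a - 1) - (k - 1) = p ^ a := by omega
    rw [h1] at hdc
    have h2 : p ^ a ∣ (k + (p ^ a - 1)).choose k * c := ⟨_, by rw [hdc, mul_comm]⟩
    have h3 : Nat.Coprime (p ^ a) ((k + (p ^ a - 1)).choose k) :=
      Nat.Coprime.pow_left _ ((Nat.Prime.coprime_iff_not_dvd hp).2 (not_dvd_choose hp hpk))
    exact hpc (h3.dvd_of_dvd_mul_left h2)

end Cfsg.Agent.H9.Homog
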