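import Cfsg.Agent.H9_Homog

set_option autoImplicit false

namespace Cfsg.Agent.H9.HomogSub

open scoped Pointwise
open MulAction

theorem sub_iff {α : Type*} [DecidableEq α] (G : Subgroup (Equiv.Perm α)) {k : ℕ} :
    MulAction.IsPretransitive G (Set.powersetCard α k) ↔
      ∀ s t : Finset α, s.card = k → t.card = k → ∃ g : G, g • s = t := by
  constructor
  · intro h s t hs ht
    obtain ⟨g, hg⟩ := h.exists_smul_eq (⟨s, hs⟩ : Set.powersetCard α k) ⟨t, ht⟩
    exact ⟨g, congrArg Subtype.val hg⟩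
  · intro h
    constructor
    rintro ⟨s, hs⟩ ⟨t, ht⟩
    obtain ⟨g, hg⟩ := h s t hs ht
    exact ⟨g, Subtype.ext hg⟩

end Cfsg.Agent.H9.HomogSub
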