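import Mathlib

set_option autoImplicit false

/-! H9_Hup1: Huppert's theorem on solvable transitive linear groups, part 1: duality, counting, Zsigmondy elements. -/

namespace Cfsg.Agent.H9.Hup

open Subgroup

theorem card_hom_le (Q K : Type*) [Group Q] [Finite Q] [Field K] : Nat.card (Q →* Kˣ) ≤ Nat.card Q := by
  classical
  have h1 := linearIndependent_monoidHom Q K
  haveI := Fintype.ofFinite Q
  haveI : Finite (Q →* K) := h1.finite
  haveI := Fintype.ofFinite (Q →* K)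
  have h2 : Function.Injective (fun f : Q →* Kˣ => (Units.coeHom K).comp f) := by
    intro f g h
    ext x
    exact DFunLike.congr_fun h x
  have h3 : Nat.card (Q →* Kˣ) ≤ Nat.card (Q →* K) := Nat.card_le_card_of_injective _ h2
  have h4 := h1.fintype_card_le_finrank
  rw [Module.finrank_fintype_fun_eq_card] at h4
  rw [Nat.card_eq_fintype_card (α := Q →* K)] at h3
  rw [Nat.card_eq_fintype_card (α := Q)]
  exact h3.trans h4

theorem flip_le {X Y K : Type*} [Group X] [Group Y] [Finite X] [Finite Y] [Field K] (ψ : X →* Y →* Kˣ) :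
    ψ.ker.index ≤ ψ.flip.ker.index := by
  classical
  rw [Subgroup.index_ker ψ]
  have hfin : Finite ((Y ⧸ ψ.flip.ker) →* Kˣ) := by
    haveI := (linearIndependent_monoidHom (Y ⧸ ψ.flip.ker) K).finite
    exact Finite.of_injective (fun f : (Y ⧸ ψ.flip.ker) →* Kˣ => (Units.coeHom K).comp f) (by
      intro f g h
      refine MonoidHom.ext fun x => Units.ext ?_
      exact DFunLike.congr_fun h x)
  let g : ψ.range → ((Y ⧸ ψ.flip.ker) →* Kˣ) := fun θ => QuotientGroup.lift ψ.flip.ker θ.1 (by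
    intro y hy
    obtain ⟨x, hx⟩ := θ.2
    rw [← hx]
    have := DFunLike.congr_fun (MonoidHom.mem_ker.1 hy) x
    simpa using this)
  have hg : Function.Injective g := by
    intro θ θ' h
    apply Subtype.ext
    ext y
    have := DFunLike.congr_fun h (QuotientGroup.mk y)
    simpa [g] using congrArg Units.val this
  calc Nat.card ψ.range ≤ Nat.card ((Y ⧸ ψ.flip.ker) →* Kˣ) := Nat.card_le_card_of_injective g hg
    _ ≤ Nat.card (Y ⧸ ψ.flip.ker) := card_hom_le _ K
    _ = ψ.flip.ker.index := rfl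

/-- duality for the commutator pairing -/
theorem dual_le {H K : Type*} [Group H] [Finite H] [Field K] (A : Subgroup H) (φ : A →* Kˣ) (hφ : Function.Injective φ)
    (X Y : Subgroup H) (hcX : ∀ a ∈ A, ∀ h ∈ X, a * h = h * a) (hcY : ∀ a ∈ A, ∀ h ∈ Y, a * h = h * a)
    (hXY : ∀ x ∈ X, ∀ y ∈ Y, x * y * x⁻¹ * y⁻¹ ∈ A) :
    (centralizer (Y : Set H)).relIndex X ≤ (centralizer (X : Set H)).relIndex Y := by
  have hA : ∀ a ∈ A, ∀ b ∈ A, a * b = b * a := by
    intro a ha b hb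
    have h1 : (⟨a, ha⟩ * ⟨b, hb⟩ : A) = ⟨b, hb⟩ * ⟨a, ha⟩ := hφ (by rw [map_mul, map_mul, mul_comm])
    exact congrArg Subtype.val h1
  let ψ : X →* Y →* Kˣ := MonoidHom.mk' (fun x => MonoidHom.mk' (fun y => φ ⟨(x : H) * (y : H) * (x : H)⁻¹ * (y : H)⁻¹, hXY x x.2 y y.2⟩) (by
      intro y y'
      rw [← map_mul]
      congr 1
      apply Subtype.ext
      have h1 := hcY _ (hXY x x.2 y' y'.2) (y : H) y.2
      simp only [Subgroup.coe_mul, mul_inv_rev]
      calc (x : H) * (y * y') * (x : H)⁻¹ * ((y' : H)⁻¹ * (y : H)⁻¹)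
          = ((x : H) * y * (x : H)⁻¹ * (y : H)⁻¹) * (y * ((x : H) * y' * (x : H)⁻¹ * (y' : H)⁻¹)) * (y : H)⁻¹ := by group
        _ = ((x : H) * y * (x : H)⁻¹ * (y : H)⁻¹) * (((x : H) * y' * (x : H)⁻¹ * (y' : H)⁻¹) * y) * (y : H)⁻¹ := by rw [← h1]
        _ = ((x : H) * y * (x : H)⁻¹ * (y : H)⁻¹) * ((x : H) * y' * (x : H)⁻¹ * (y' : H)⁻¹) := by group)) (by
      intro x x'
      ext y
      simp only [MonoidHom.mk'_apply, MonoidHom.mul_apply, ← map_mul]
      congr 2
      apply Subtype.ext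
      have h1 := hcX _ (hXY x' x'.2 y y.2) (x : H) x.2
      simp only [Subgroup.coe_mul, mul_inv_rev]
      calc (x : H) * x' * y * ((x' : H)⁻¹ * (x : H)⁻¹) * (y : H)⁻¹
          = (x * (x' * y * (x' : H)⁻¹ * (y : H)⁻¹)) * y * (x : H)⁻¹ * (y : H)⁻¹ := by group
        _ = ((x' * y * (x' : H)⁻¹ * (y : H)⁻¹) * x) * y * (x : H)⁻¹ * (y : H)⁻¹ := by rw [← h1]
        _ = (x' * y * (x' : H)⁻¹ * (y : H)⁻¹) * (x * y * (x : H)⁻¹ * (y : H)⁻¹) := by group
        _ = (x * y * (x : H)⁻¹ * (y : H)⁻¹) * (x' * y * (x' : H)⁻¹ * (y : H)⁻¹) :=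
            hA _ (hXY x' x'.2 y y.2) _ (hXY x x.2 y y.2))
  have hker : ∀ (x : X) (y : Y), φ ⟨(x : H) * (y : H) * (x : H)⁻¹ * (y : H)⁻¹, hXY x x.2 y y.2⟩ = 1 ↔ (y : H) * x = x * y := by
    intro x y
    constructor
    · intro h
      have h1 : (⟨(x : H) * y * (x : H)⁻¹ * (y : H)⁻¹, hXY x x.2 y y.2⟩ : A) = 1 := hφ (by rw [h, map_one])
      have h2 : (x : H) * y * (x : H)⁻¹ * (y : H)⁻¹ = 1 := congrArg Subtype.val h1
      rw [mul_inv_eq_one, mul_inv_eq_iff_eq_mul] at h2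
      exact h2.symm
    · intro h
      rw [← map_one φ]
      congr 1
      apply Subtype.ext
      simp only [OneMemClass.coe_one]
      rw [mul_inv_eq_one, mul_inv_eq_iff_eq_mul]
      exact h.symm
  have h1 : ψ.ker = (centralizer (Y : Set H)).subgroupOf X := by
    ext x
    rw [MonoidHom.mem_ker, mem_subgroupOf, mem_centralizer_iff]
    constructor
    · intro h y hy
      have := DFunLike.congr_fun h ⟨y, hy⟩
      exact (hker x ⟨y, hy⟩).1 (by simpa [ψ] using this)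
    · intro h
      refine MonoidHom.ext fun y => ?_
      exact (hker x y).2 (h y y.2)
  have h2 : ψ.flip.ker = (centralizer (X : Set H)).subgroupOf Y := by
    ext y
    rw [MonoidHom.mem_ker, mem_subgroupOf, mem_centralizer_iff]
    constructor
    · intro h x hx
      have := DFunLike.congr_fun h ⟨x, hx⟩
      exact ((hker ⟨x, hx⟩ y).1 (by simpa [ψ] using this)).symm
    · intro h
      refine MonoidHom.ext fun x => ?_
      exact (hker x y).2 (h x x.2).symm
  have h3 := flip_le ψ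
  rw [h1, h2] at h3
  exact h3

theorem dual_eq {H K : Type*} [Group H] [Finite H] [Field K] (A : Subgroup H) (φ : A →* Kˣ) (hφ : Function.Injective φ)
    (X Y : Subgroup H) (hcX : ∀ a ∈ A, ∀ h ∈ X, a * h = h * a) (hcY : ∀ a ∈ A, ∀ h ∈ Y, a * h = h * a)
    (hXY : ∀ x ∈ X, ∀ y ∈ Y, x * y * x⁻¹ * y⁻¹ ∈ A) :
    (centralizer (Y : Set H)).relIndex X = (centralizer (X : Set H)).relIndex Y := by
  apply le_antisymm (dual_le A φ hφ X Y hcX hcY hXY)
  apply dual_le A φ hφ Y X hcY hcX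
  intro y hy x hx
  have h1 : y * x * y⁻¹ * x⁻¹ = (x * y * x⁻¹ * y⁻¹)⁻¹ := by group
  rw [h1]
  exact A.inv_mem (hXY x hx y hy)

/-- orbit counting modulo `p` -/
theorem card_fix_mod {α : Type*} [Finite α] (f : α → α) (p : ℕ) [Fact p.Prime] (hf : f^[p] = id) :
    Nat.card α ≡ Nat.card {a : α // f a = a} [MOD p] := by
  classical
  haveI := Fintype.ofFinite α
  have hpow : ∀ n : ℕ, (show Function.End α from f) ^ n = f^[n] := by
    intro n
    induction n with
    | zero => rfl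
    | succ n ih => rw [pow_succ, ih, Function.iterate_succ]; rfl
  have h := Equiv.Perm.card_fixedPoints_modEq (p := p) (n := 1) (f := (f : Function.End α)) (by
    rw [pow_one]
    exact (hpow p).trans hf)
  rw [Nat.card_eq_fintype_card, Nat.card_eq_fintype_card]
  convert h using 1
  exact Fintype.card_congr (Equiv.refl _)

/-- `p` is a primitive prime divisor of `q ^ n - 1` -/
structure Zs (p q n : ℕ) : Prop where
  pr : p.Prime
  qp : q.Prime
  pos : 0 < n
  dvd : p ∣ q ^ n - 1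
  ndvd : ∀ k, 0 < k → k < n → ¬ p ∣ q ^ k - 1

theorem Zs.ne {p q n : ℕ} (h : Zs p q n) : ¬ p ∣ q := by
  intro hd
  have h1 : p ∣ q ^ n := dvd_pow hd h.pos.ne'
  have h2 : 1 ≤ q ^ n := Nat.one_le_pow _ _ h.qp.pos
  have h3 : p ∣ 1 := by
    have := (Nat.dvd_sub h1 h.dvd)
    rwa [Nat.sub_sub_self h2] at this
  exact h.pr.one_lt.ne' (Nat.dvd_one.1 h3)

theorem Zs.sub {p q n a b : ℕ} (h : Zs p q n) (hba : b ≤ a) (ha : a ≤ n) (hm : q ^ a ≡ q ^ b [MOD p]) :
    b = a ∨ (b = 0 ∧ a = n) := by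
  rcases Nat.eq_or_lt_of_le hba with h1 | h1
  · exact Or.inl h1
  right
  have h2 : p ∣ q ^ a - q ^ b := (Nat.modEq_iff_dvd' (Nat.pow_le_pow_right h.qp.pos hba)).1 hm.symm
  have h3 : q ^ a - q ^ b = q ^ b * (q ^ (a - b) - 1) := by
    rw [Nat.mul_sub, mul_one, ← pow_add, Nat.add_sub_cancel' hba]
  rw [h3] at h2
  rcases h.pr.dvd_mul.1 h2 with h4 | h4
  · exact absurd (h.pr.dvd_of_dvd_pow h4) h.ne
  · by_contra hcon
    have h5 : a - b < n := by omega
    exact h.ndvd (a - b) (by omega) h5 h4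

theorem Zs.lt {p q n : ℕ} (h : Zs p q n) : n < p := by
  by_contra hcon
  rw [not_lt] at hcon
  have h1 : p - 1 < n := by have := h.pr.two_le; omega
  have h2 : 0 < p - 1 := by have := h.pr.two_le; omega
  apply h.ndvd (p - 1) h2 h1
  have hcop : Nat.Coprime q p := ((Nat.Prime.coprime_iff_not_dvd h.pr).2 h.ne).symm
  have h3 := Nat.ModEq.pow_totient hcop
  rw [Nat.totient_prime h.pr] at h3
  exact (Nat.modEq_iff_dvd' (Nat.one_le_pow _ _ h.qp.pos)).1 h3.symm

end Cfsg.Agent.H9.Hup
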