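import Mathlib
import Cfsg.Agent.H9_Hup1

set_option autoImplicit false

/-! H9_Hup2: Huppert's theorem on solvable transitive linear groups, part 2: the configuration. -/

namespace Cfsg.Agent.H9.Hup

open Subgroup

/-- `G` acts semilinearly on the `K`-space `V`, transitively on nonzero vectors, `A` a maximal abelian normal subgroup
acting as scalars. -/
structure Cf (q : ℕ) {K V G : Type*} [Field K] [Algebra (ZMod q) K] [AddCommGroup V] [Module K V] [Group G]
    (f : G →* AddMonoid.End V) (A : Subgroup G) (σ : G →* (K ≃ₐ[ZMod q] K)) (φ : A →* Kˣ) : Prop where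
  inj : Function.Injective f
  semi : ∀ (g : G) (k : K) (v : V), f g (k • v) = σ g k • f g v
  act : ∀ (a : A) (v : V), f (a : G) v = (φ a : K) • v
  ker : ∀ g, σ g = 1 ↔ ∀ a ∈ A, a * g = g * a
  norm : A.Normal
  max : ∀ N : Subgroup G, N.Normal → (∀ x ∈ N, ∀ y ∈ N, x * y = y * x) → A ≤ N → N = A
  tr : ∀ v w : V, v ≠ 0 → w ≠ 0 → ∃ g, f g v = w

variable {q : ℕ} {K V G : Type*} [Field K] [Algebra (ZMod q) K] [AddCommGroup V] [Module K V] [Group G]
    {f : G →* AddMonoid.End V} {A : Subgroup G} {σ : G →* (K ≃ₐ[ZMod q] K)} {φ : A →* Kˣ}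

namespace Cf

theorem φinj (h : Cf q f A σ φ) : Function.Injective φ := by
  intro a b hab
  apply Subtype.ext
  apply h.inj
  ext v
  rw [h.act, h.act, hab]

theorem Acomm (h : Cf q f A σ φ) : ∀ a ∈ A, ∀ b ∈ A, a * b = b * a := by
  intro a ha b hb
  have h1 : (⟨a, ha⟩ * ⟨b, hb⟩ : A) = ⟨b, hb⟩ * ⟨a, ha⟩ := h.φinj (by rw [map_mul, map_mul, mul_comm])
  exact congrArg Subtype.val h1

/-- linear action of the kernel -/
def L (h : Cf q f A σ φ) : σ.ker →* Module.End K V where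
  toFun g :=
    { toFun := fun v => f (g : G) v
      map_add' := fun v w => map_add _ v w
      map_smul' := fun k v => by
        rw [h.semi, MonoidHom.mem_ker.1 g.2]; rfl }
  map_one' := by
    ext v
    simp
  map_mul' g g' := by
    ext v
    simp

theorem L_apply (h : Cf q f A σ φ) (g : σ.ker) (v : V) : h.L g v = f (g : G) v := rfl

theorem L_inj (h : Cf q f A σ φ) : Function.Injective h.L := by
  intro g g' hg
  apply Subtype.ext
  apply h.inj
  ext v
  exact DFunLike.congr_fun hg v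

theorem L_ne [Nontrivial V] (h : Cf q f A σ φ) (g : σ.ker) : h.L g ≠ 0 := by
  intro h0
  have h1 : h.L g * h.L g⁻¹ = 1 := by rw [← map_mul, mul_inv_cancel, map_one]
  rw [h0, zero_mul] at h1
  exact zero_ne_one h1

theorem A_le_ker (h : Cf q f A σ φ) : A ≤ σ.ker := fun a ha =>
  (h.ker a).2 fun b hb => h.Acomm b hb a ha

theorem L_A (h : Cf q f A σ φ) (a : A) : h.L ⟨a, h.A_le_ker a.2⟩ = (φ a : K) • (1 : Module.End K V) := by
  ext v
  rw [L_apply, h.act]
  rfl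

end Cf

/-- a normal subgroup `B` of class two over `A` -/
structure Bd (r : ℕ) {G : Type*} [Group G] (A B C : Subgroup G) : Prop where
  pr : r.Prime
  norm : B.Normal
  le : A ≤ B
  ne : A ≠ B
  leC : B ≤ C
  comm : ∀ b ∈ B, ∀ c ∈ B, b * c * b⁻¹ * c⁻¹ ∈ A
  pow : ∀ b ∈ B, b ^ r ∈ A

namespace Bd

variable {r : ℕ} {B : Subgroup G}

theorem cent (h : Cf q f A σ φ) (hB : Bd r A B σ.ker) : ∀ a ∈ A, ∀ b ∈ B, a * b = b * a := fun a ha b hb =>
  (h.ker b).1 (hB.leC hb) a ha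

theorem z (h : Cf q f A σ φ) (hB : Bd r A B σ.ker) (b : G) (hb : b ∈ B) (hc : ∀ c ∈ B, c * b = b * c) : b ∈ A := by
  have h1 : B ⊓ centralizer (B : Set G) = A := by
    haveI := hB.norm
    apply h.max
    · infer_instance
    · intro x hx y hy
      exact mem_centralizer_iff.1 hy.2 x hx.1
    · intro a ha
      refine ⟨hB.le ha, mem_centralizer_iff.2 fun c hcB => ?_⟩
      exact (hB.cent h a ha c hcB).symm
  rw [← h1]
  exact ⟨hb, mem_centralizer_iff.2 hc⟩

/-- linear independence of coset representatives -/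
theorem indep [Nontrivial V] (h : Cf q f A σ φ) (hB : Bd r A B σ.ker) {ι : Type*} (b : ι → G) (hb : ∀ i, b i ∈ B)
    (hne : ∀ i j, (b i)⁻¹ * b j ∈ A → i = j) :
    LinearIndependent K (fun i => h.L ⟨b i, hB.leC (hb i)⟩) := by
  classical
  -- the characters
  let χ : ι → (B →* K) := fun i => (Units.coeHom K).comp (MonoidHom.mk' (fun c : B => φ ⟨(c : G) * b i * (c : G)⁻¹ * (b i)⁻¹, hB.comm c c.2 _ (hb i)⟩) (by
    intro c c'
    rw [← map_mul]
    congr 1
    apply Subtype.ext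
    have h1 := hB.cent h _ (hB.comm c' c'.2 _ (hb i)) (c : G) c.2
    simp only [Subgroup.coe_mul, mul_inv_rev]
    calc (c : G) * c' * b i * ((c' : G)⁻¹ * (c : G)⁻¹) * (b i)⁻¹
        = ((c : G) * (c' * b i * (c' : G)⁻¹ * (b i)⁻¹)) * b i * (c : G)⁻¹ * (b i)⁻¹ := by group
      _ = ((c' * b i * (c' : G)⁻¹ * (b i)⁻¹) * c) * b i * (c : G)⁻¹ * (b i)⁻¹ := by rw [← h1]
      _ = (c' * b i * (c' : G)⁻¹ * (b i)⁻¹) * (c * b i * (c : G)⁻¹ * (b i)⁻¹) := by group
      _ = (c * b i * (c : G)⁻¹ * (b i)⁻¹) * (c' * b i * (c' : G)⁻¹ * (b i)⁻¹) :=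
          h.Acomm _ (hB.comm c' c'.2 _ (hb i)) _ (hB.comm c c.2 _ (hb i))))
  have hχ : Function.Injective χ := by
    intro i j hij
    apply hne
    apply hB.z h
    · exact B.mul_mem (B.inv_mem (hb i)) (hb j)
    · intro c hc
      have h1 := DFunLike.congr_fun hij ⟨c, hc⟩
      have h2 : φ ⟨(c : G) * b i * (c : G)⁻¹ * (b i)⁻¹, hB.comm c hc _ (hb i)⟩ = φ ⟨(c : G) * b j * (c : G)⁻¹ * (b j)⁻¹, hB.comm c hc _ (hb j)⟩ :=
        Units.ext h1
      have h3 : c * b i * c⁻¹ * (b i)⁻¹ = c * b j * c⁻¹ * (b j)⁻¹ := congrArg Subtype.val (h.φinj h2)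
      have h4 : b i * c⁻¹ * (b i)⁻¹ = b j * c⁻¹ * (b j)⁻¹ := by
        have := congrArg (fun t => c⁻¹ * t) h3
        simpa [mul_assoc] using this
      have h5 : b i * c * (b i)⁻¹ = b j * c * (b j)⁻¹ := by
        have := congrArg (fun t => t⁻¹) h4
        simpa [mul_assoc] using this
      calc c * ((b i)⁻¹ * b j) = (b i)⁻¹ * (b i * c * (b i)⁻¹) * b j := by group
        _ = (b i)⁻¹ * (b j * c * (b j)⁻¹) * b j := by rw [h5]
        _ = (b i)⁻¹ * b j * c := by group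
  have hind := (linearIndependent_monoidHom B K).comp χ hχ
  rw [linearIndependent_iff'] at hind ⊢
  intro s g hg i hi
  -- conjugate
  have hconj : ∀ c : B, ∑ j ∈ s, (g j * χ j c) • h.L ⟨b j, hB.leC (hb j)⟩ = 0 := by
    intro c
    have h1 : h.L ⟨c, hB.leC c.2⟩ * (∑ j ∈ s, g j • h.L ⟨b j, hB.leC (hb j)⟩) * h.L ⟨c, hB.leC c.2⟩⁻¹ = 0 := by
      rw [hg, mul_zero, zero_mul]
    rw [← h1, Finset.mul_sum, Finset.sum_mul]
    apply Finset.sum_congr rfl
    intro j _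
    rw [mul_smul_comm, smul_mul_assoc, mul_smul]
    congr 1
    rw [← map_mul, ← map_mul]
    have h2 : (⟨(c : G), hB.leC c.2⟩ * ⟨b j, hB.leC (hb j)⟩ * (⟨(c : G), hB.leC c.2⟩ : σ.ker)⁻¹ : σ.ker)
        = ⟨(c : G) * b j * (c : G)⁻¹ * (b j)⁻¹, h.A_le_ker (hB.comm c c.2 _ (hb j))⟩ * ⟨b j, hB.leC (hb j)⟩ := by
      apply Subtype.ext
      simp
    rw [h2, map_mul]
    have h3 := h.L_A ⟨(c : G) * b j * (c : G)⁻¹ * (b j)⁻¹, hB.comm c c.2 _ (hb j)⟩
    rw [h3, smul_mul_assoc, one_mul]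
    rfl
  have hθ : ∀ θ : Module.Dual K (Module.End K V), g i * θ (h.L ⟨b i, hB.leC (hb i)⟩) = 0 := by
    intro θ
    apply hind s (fun j => g j * θ (h.L ⟨b j, hB.leC (hb j)⟩)) _ i hi
    funext c
    have h1 := congrArg θ (hconj c)
    rw [map_sum, map_zero] at h1
    rw [Finset.sum_apply, Pi.zero_apply, ← h1]
    apply Finset.sum_congr rfl
    intro j _
    rw [map_smul]
    simp only [Pi.smul_apply, smul_eq_mul, Function.comp]
    ring
  by_contra hgi
  apply h.L_ne ⟨b i, hB.leC (hb i)⟩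
  rw [← Module.forall_dual_apply_eq_zero_iff K]
  intro θ
  rcases mul_eq_zero.1 (hθ θ) with h1 | h1
  · exact absurd h1 hgi
  · exact h1

end Bd

end Cfsg.Agent.H9.Hup
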