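import Mathlib
import Cfsg.Agent.H9_Hup2

set_option autoImplicit false

/-! H9_Hup3: Huppert's theorem on solvable transitive linear groups, part 3: order formulas. -/

namespace Cfsg.Agent.H9.Hup

open Subgroup Module

variable {q : ℕ} {K V G : Type*} [Field K] [Algebra (ZMod q) K] [AddCommGroup V] [Module K V] [Group G]
    {f : G →* AddMonoid.End V} {A : Subgroup G} {σ : G →* (K ≃ₐ[ZMod q] K)} {φ : A →* Kˣ}

namespace Bd

variable {r : ℕ} {B : Subgroup G}

theorem indep' [Nontrivial V] (h : Cf q f A σ φ) (hB : Bd r A B σ.ker) :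
    LinearIndependent K (fun i : B ⧸ A.subgroupOf B => h.L ⟨((Quotient.out i : B) : G), hB.leC (Quotient.out i : B).2⟩) := by
  apply hB.indep h (fun i : B ⧸ A.subgroupOf B => ((Quotient.out i : B) : G)) (fun i => (Quotient.out i : B).2)
  intro i j hij
  have h1 : (QuotientGroup.mk (Quotient.out i) : B ⧸ A.subgroupOf B) = QuotientGroup.mk (Quotient.out j) := by
    rw [QuotientGroup.eq, mem_subgroupOf]
    simpa using hij
  rwa [QuotientGroup.out_eq', QuotientGroup.out_eq'] at h1

theorem card_le [Finite G] [Nontrivial V] [FiniteDimensional K V] (h : Cf q f A σ φ) (hB : Bd r A B σ.ker) :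
    A.relIndex B ≤ finrank K V ^ 2 := by
  classical
  haveI := Fintype.ofFinite (B ⧸ A.subgroupOf B)
  have h1 := (hB.indep' h).fintype_card_le_finrank
  rw [finrank_linearMap, ← pow_two] at h1
  rw [relIndex, Subgroup.index, Nat.card_eq_fintype_card]
  exact h1

theorem cent_eq [Finite G] [Nontrivial V] [FiniteDimensional K V] (h : Cf q f A σ φ) (hB : Bd r A B σ.ker)
    (hd : A.relIndex B = finrank K V ^ 2) : σ.ker ⊓ centralizer (B : Set G) = A := by
  classical
  haveI := Fintype.ofFinite (B ⧸ A.subgroupOf B)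
  haveI := hB.norm
  have h0 : Fintype.card (B ⧸ A.subgroupOf B) = finrank K (Module.End K V) := by
    rw [finrank_linearMap, ← pow_two, ← hd, relIndex, Subgroup.index, Nat.card_eq_fintype_card]
  have hspan := (hB.indep' h).span_eq_top_of_card_eq_finrank' h0
  have hcomm : ∀ (g : σ.ker), (g : G) ∈ centralizer (B : Set G) → ∀ T : Module.End K V, h.L g * T = T * h.L g := by
    intro g hg T
    have hT : T ∈ Submodule.span K (Set.range (fun i : B ⧸ A.subgroupOf B => h.L ⟨((Quotient.out i : B) : G), hB.leC (Quotient.out i : B).2⟩)) := by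
      rw [hspan]; trivial
    induction hT using Submodule.span_induction with
    | mem x hx =>
      obtain ⟨i, rfl⟩ := hx
      simp only
      rw [← map_mul, ← map_mul]
      congr 1
      apply Subtype.ext
      exact (mem_centralizer_iff.1 hg _ (Quotient.out i : B).2).symm
    | zero => rw [mul_zero, zero_mul]
    | add x y _ _ hx hy => rw [mul_add, add_mul, hx, hy]
    | smul a x _ hx => rw [mul_smul_comm, smul_mul_assoc, hx]
  apply h.max
  · infer_instance
  · intro x hx y hy
    have h1 := hcomm ⟨x, hx.1⟩ hx.2 (h.L ⟨y, hy.1⟩)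
    rw [← map_mul, ← map_mul] at h1
    exact congrArg Subtype.val (h.L_inj h1)
  · intro a ha
    refine ⟨h.A_le_ker ha, mem_centralizer_iff.2 fun b hb => ?_⟩
    exact (hB.cent h a ha b hb).symm

/-- a commutator of order `r` -/
theorem r_dvd [Finite K] (h : Cf q f A σ φ) (hB : Bd r A B σ.ker) : r ∣ Nat.card K - 1 := by
  obtain ⟨b, hb, c, hc, hbc⟩ : ∃ b ∈ B, ∃ c ∈ B, c * b ≠ b * c := by
    by_contra hcon
    push Not at hcon
    apply hB.ne
    apply le_antisymm hB.le
    intro b hb
    exact hB.z h b hb fun c hc => hcon b hb c hc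
  set a := b * c * b⁻¹ * c⁻¹ with ha
  have haA : a ∈ A := hB.comm b hb c hc
  have ha1 : a ≠ 1 := by
    intro h1
    apply hbc
    rw [ha, mul_inv_eq_one, mul_inv_eq_iff_eq_mul] at h1
    exact h1.symm
  have hpow : ∀ n : ℕ, b ^ n * c * (b ^ n)⁻¹ = a ^ n * c := by
    intro n
    induction n with
    | zero => simp
    | succ n ih =>
      have h1 : b ^ (n + 1) * c * (b ^ (n + 1))⁻¹ = b * (b ^ n * c * (b ^ n)⁻¹) * b⁻¹ := by
        rw [pow_succ']; group
      have h2 : a ^ n * b = b * a ^ n := by
        have : Commute a b := hB.cent h a haA b hb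
        exact this.pow_left n
      rw [h1, ih, pow_succ]
      calc b * (a ^ n * c) * b⁻¹ = (b * a ^ n) * c * b⁻¹ := by group
        _ = (a ^ n * b) * c * b⁻¹ := by rw [h2]
        _ = a ^ n * (b * c * b⁻¹ * c⁻¹) * c := by group
  have har : a ^ r = 1 := by
    have h1 := hpow r
    have h2 := hB.cent h (b ^ r) (hB.pow b hb) c hc
    have h3 : b ^ r * c * (b ^ r)⁻¹ = c := by rw [h2, mul_inv_cancel_right]
    rw [h3] at h1
    have := mul_right_cancel (b := c) (show a ^ r * c = 1 * c by rw [one_mul, ← h1])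
    exact this
  have ho : orderOf (φ ⟨a, haA⟩) = r := by
    rw [orderOf_injective φ h.φinj, ← orderOf_injective A.subtype A.subtype_injective]
    exact orderOf_eq_prime (p := r) (hp := ⟨hB.pr⟩) har ha1
  rw [← Nat.card_units, ← ho]
  exact orderOf_dvd_natCard _

theorem exists_pow [Finite G] (h : Cf q f A σ φ) (hB : Bd r A B σ.ker) :
    ∃ s, 2 ≤ s ∧ A.relIndex B = r ^ s := by
  haveI := Fact.mk hB.pr
  haveI : (A.subgroupOf B).Normal := by haveI := h.norm; infer_instance
  have hp : IsPGroup r (B ⧸ A.subgroupOf B) := by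
    intro x
    induction x using QuotientGroup.induction_on with
    | H b =>
      refine ⟨1, ?_⟩
      rw [pow_one, ← QuotientGroup.mk_pow, QuotientGroup.eq_one_iff, mem_subgroupOf]
      exact hB.pow b b.2
  obtain ⟨s, hs⟩ := IsPGroup.iff_card.1 hp
  refine ⟨s, ?_, hs⟩
  by_contra hcon
  have hcyc : IsCyclic (B ⧸ A.subgroupOf B) := by
    rcases (show s = 0 ∨ s = 1 by omega) with h1 | h1
    · rw [h1, pow_zero] at hs
      haveI : Subsingleton (B ⧸ A.subgroupOf B) := (Nat.card_eq_one_iff_unique.1 hs).1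
      infer_instance
    · rw [h1, pow_one] at hs
      exact isCyclic_of_prime_card hs
  have hab := commutative_of_cyclic_center_quotient (QuotientGroup.mk' (A.subgroupOf B)) (by
    intro x hx
    rw [QuotientGroup.ker_mk', mem_subgroupOf] at hx
    rw [mem_center_iff]
    intro y
    apply Subtype.ext
    exact (hB.cent h x hx y y.2).symm)
  apply hB.ne
  apply le_antisymm hB.le
  intro b hb
  refine hB.z h b hb fun c hc => ?_
  exact congrArg Subtype.val (hab ⟨c, hc⟩ ⟨b, hb⟩)

end Bd

namespace Cf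

theorem cardA_dvd [Finite K] (h : Cf q f A σ φ) : Nat.card A ∣ Nat.card K - 1 := by
  rw [← Nat.card_units]
  exact Subgroup.card_dvd_of_injective φ h.φinj

theorem index_dvd [Fact q.Prime] [Finite K] (σ : G →* (K ≃ₐ[ZMod q] K)) : σ.ker.index ∣ finrank (ZMod q) K := by
  haveI : FiniteDimensional (ZMod q) K := Module.Finite.of_finite
  rw [← IsGalois.card_aut_eq_finrank (ZMod q) K, Subgroup.index_ker]
  exact Subgroup.card_subgroup_dvd_card _

end Cf

end Cfsg.Agent.H9.Hup
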