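import Mathlib
import Cfsg.Agent.H9_Hup3

set_option autoImplicit false

/-! H9_Hup4: Huppert's theorem on solvable transitive linear groups, part 4: the element of primitive prime order. -/

namespace Cfsg.Agent.H9.Hup

open Subgroup Module

theorem iter_conj {H : Type*} [Group H] (x : H) (Y : Subgroup H) (hY : ∀ y ∈ Y, x * y * x⁻¹ ∈ Y) (n : ℕ) (y : Y) :
    (((fun y : Y => (⟨x * y * x⁻¹, hY y y.2⟩ : Y))^[n] y : Y) : H) = x ^ n * y * (x ^ n)⁻¹ := by
  induction n with
  | zero => simp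
  | succ n ih =>
    rw [Function.iterate_succ_apply']
    change x * _ * x⁻¹ = _
    rw [ih, pow_succ']
    group

/-- counting fixed points of conjugation -/
theorem cntG {H : Type*} [Group H] [Finite H] {p : ℕ} [Fact p.Prime] (x : H) (hx : x ^ p = 1) (Y : Subgroup H)
    (hY : ∀ y ∈ Y, x * y * x⁻¹ ∈ Y) :
    Nat.card Y ≡ Nat.card (Y ⊓ centralizer {x} : Subgroup H) [MOD p] := by
  have h := card_fix_mod (fun y : Y => (⟨x * y * x⁻¹, hY y y.2⟩ : Y)) p (by
    funext y
    apply Subtype.ext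
    rw [iter_conj, hx]
    simp)
  have e : {y : Y // (⟨x * y * x⁻¹, hY y y.2⟩ : Y) = y} ≃ (Y ⊓ centralizer {x} : Subgroup H) :=
    { toFun := fun y => ⟨y.1.1, y.1.2, mem_centralizer_singleton_iff.2 (by
        have := congrArg Subtype.val y.2
        simp only at this
        rw [mul_inv_eq_iff_eq_mul] at this
        exact this.symm)⟩
      invFun := fun y => ⟨⟨y.1, y.2.1⟩, by
        apply Subtype.ext
        have := mem_centralizer_singleton_iff.1 y.2.2
        simp only
        rw [mul_inv_eq_iff_eq_mul]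
        exact this.symm⟩
      left_inv := fun y => rfl
      right_inv := fun y => rfl }
  rw [Nat.card_congr e] at h
  exact h

/-- the commutator subgroup `[U, y]` in coprime action -/
theorem comm_sub {H : Type*} [Group H] {p r : ℕ} (hp : p.Prime) (hr : r.Prime) (hpr : p ≠ r)
    (U : Subgroup H) (y : H) (hy : y ^ p = 1) (hU : ∀ u ∈ U, y * u * y⁻¹ ∈ U)
    (hab : ∀ u ∈ U, ∀ v ∈ U, u * v = v * u) (hexp : ∀ u ∈ U, u ^ r = 1) (hne : ∃ u ∈ U, y * u ≠ u * y) :
    ∃ W : Subgroup H, W ≤ U ∧ (∀ w ∈ W, y * w * y⁻¹ ∈ W) ∧ W ⊓ centralizer {y} = ⊥ ∧ W ≠ ⊥ := by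
  let g : U →* H := MonoidHom.mk' (fun u => y * u * y⁻¹ * (u : H)⁻¹) (by
    intro u v
    have h1 := hab _ (U.mul_mem (hU v v.2) (U.inv_mem v.2)) _ (U.inv_mem u.2)
    simp only [Subgroup.coe_mul, mul_inv_rev]
    calc y * (u * v) * y⁻¹ * ((v : H)⁻¹ * (u : H)⁻¹)
        = (y * u * y⁻¹) * ((y * v * y⁻¹ * (v : H)⁻¹) * (u : H)⁻¹) := by group
      _ = (y * u * y⁻¹) * ((u : H)⁻¹ * (y * v * y⁻¹ * (v : H)⁻¹)) := by rw [h1]
      _ = (y * u * y⁻¹ * (u : H)⁻¹) * (y * v * y⁻¹ * (v : H)⁻¹) := by group)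
  have hg : ∀ u : U, g u = y * u * y⁻¹ * (u : H)⁻¹ := fun u => rfl
  have hle : g.range ≤ U := by
    rintro _ ⟨u, rfl⟩
    rw [hg]
    exact U.mul_mem (hU u u.2) (U.inv_mem u.2)
  refine ⟨g.range, hle, ?_, ?_, ?_⟩
  · rintro _ ⟨u, rfl⟩
    refine ⟨⟨y * u * y⁻¹, hU u u.2⟩, ?_⟩
    rw [hg, hg]
    group
  · rw [eq_bot_iff]
    rintro w ⟨⟨u, rfl⟩, hw⟩
    rw [mem_bot]
    have hw' : y * g u = g u * y := (mem_centralizer_singleton_iff.1 hw).symm
    have hpow : ∀ n : ℕ, y ^ n * u * (y ^ n)⁻¹ = (g u) ^ n * u := by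
      intro n
      induction n with
      | zero => simp
      | succ n ih =>
        have h1 : y ^ (n + 1) * u * (y ^ (n + 1))⁻¹ = y * (y ^ n * u * (y ^ n)⁻¹) * y⁻¹ := by
          rw [pow_succ']; group
        have h2 : y * (g u) ^ n = (g u) ^ n * y := by
          have : Commute y (g u) := hw'
          exact this.pow_right n
        rw [h1, ih, pow_succ]
        calc y * (g u ^ n * u) * y⁻¹ = (y * g u ^ n) * u * y⁻¹ := by group
          _ = (g u ^ n * y) * u * y⁻¹ := by rw [h2]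
          _ = g u ^ n * (y * u * y⁻¹ * (u : H)⁻¹) * u := by group
          _ = g u ^ n * g u * u := by rw [hg]
    have h1 := hpow p
    rw [hy] at h1
    have h2 : (g u) ^ p = 1 := by
      have h3 : (1 : H) * u = (g u) ^ p * u := by simpa using h1
      exact (mul_right_cancel h3).symm
    have h3 : (g u) ^ r = 1 := hexp _ (hle ⟨u, rfl⟩)
    have h4 : orderOf (g u) ∣ p := orderOf_dvd_of_pow_eq_one h2
    have h5 : orderOf (g u) ∣ r := orderOf_dvd_of_pow_eq_one h3
    have h6 : orderOf (g u) ∣ 1 := by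
      rw [← (Nat.coprime_primes hp hr).2 hpr]
      exact Nat.dvd_gcd h4 h5
    exact orderOf_eq_one_iff.1 (Nat.dvd_one.1 h6)
  · intro hbot
    obtain ⟨u, hu, hne⟩ := hne
    apply hne
    have h1 : g ⟨u, hu⟩ ∈ g.range := ⟨_, rfl⟩
    rw [hbot, mem_bot, hg] at h1
    rw [mul_inv_eq_one, mul_inv_eq_iff_eq_mul] at h1
    exact h1

variable {q : ℕ} {K V G : Type*} [Field K] [Algebra (ZMod q) K] [AddCommGroup V] [Module K V] [Group G]
    {f : G →* AddMonoid.End V} {A : Subgroup G} {σ : G →* (K ≃ₐ[ZMod q] K)} {φ : A →* Kˣ}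

theorem card_pow [Fact q.Prime] [Finite K] : Nat.card K = q ^ finrank (ZMod q) K := by
  haveI : FiniteDimensional (ZMod q) K := Module.Finite.of_finite
  have := Module.natCard_eq_pow_finrank (K := ZMod q) (V := K)
  rwa [Nat.card_zmod] at this

theorem n_eq [Fact q.Prime] [Finite K] [Finite V] {n : ℕ} (hV : Nat.card V = q ^ n) :
    n = finrank (ZMod q) K * finrank K V := by
  have h1 := Module.natCard_eq_pow_finrank (K := K) (V := V)
  rw [hV, card_pow (q := q) (K := K), ← pow_mul] at h1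
  exact Nat.pow_right_injective (Fact.out : q.Prime).two_le h1

section Zel

variable {p n : ℕ} {x : G}

theorem x_mem_ker [Fact q.Prime] [Finite K] [Finite V] [Nontrivial V] (hz : Zs p q n) (hV : Nat.card V = q ^ n)
    (σ : G →* (K ≃ₐ[ZMod q] K)) (hx : x ^ p = 1) : x ∈ σ.ker := by
  haveI : FiniteDimensional (ZMod q) K := Module.Finite.of_finite
  rw [MonoidHom.mem_ker]
  have h1 : orderOf (σ x) ∣ p := orderOf_dvd_of_pow_eq_one (by rw [← map_pow, hx, map_one])
  have h2 : orderOf (σ x) ∣ finrank (ZMod q) K := by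
    rw [← IsGalois.card_aut_eq_finrank (ZMod q) K]
    exact orderOf_dvd_natCard _
  rcases (Nat.dvd_prime hz.pr).1 h1 with h3 | h3
  · exact orderOf_eq_one_iff.1 h3
  · exfalso
    rw [h3] at h2
    have h4 := n_eq (K := K) hV
    have h5 : 0 < finrank (ZMod q) K := finrank_pos
    have h6 : 0 < finrank K V := finrank_pos
    have h7 := Nat.le_of_dvd h5 h2
    have h8 : finrank (ZMod q) K ≤ n := by
      rw [h4]; exact Nat.le_mul_of_pos_right _ h6
    have := hz.lt
    omega

/-- fixed points on an invariant additive subgroup -/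
theorem cntV [Finite V] (f : G →* AddMonoid.End V) (hp : p.Prime) (hx : x ^ p = 1) (W : AddSubgroup V) (hW : ∀ w ∈ W, f x w ∈ W) :
    Nat.card W ≡ Nat.card {w : W // f x w = w} [MOD p] := by
  haveI := Fact.mk hp
  have hit : ∀ (m : ℕ) (w : W), (((fun w : W => (⟨f x w, hW w w.2⟩ : W))^[m] w : W) : V) = f (x ^ m) w := by
    intro m w
    induction m with
    | zero => simp
    | succ m ih =>
      rw [Function.iterate_succ_apply']
      change f x _ = _
      rw [ih, pow_succ', map_mul]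
      rfl
  have h := card_fix_mod (fun w : W => (⟨f x w, hW w w.2⟩ : W)) p (by
    funext w
    apply Subtype.ext
    rw [hit, hx, map_one]
    rfl)
  refine h.trans ?_
  rw [Nat.card_congr (Equiv.subtypeEquivRight fun w => Subtype.ext_iff)]

theorem fix_zero [Fact q.Prime] [Finite V] (hinj : Function.Injective f) (hz : Zs p q n) (hV : Nat.card V = q ^ n)
    (hx : x ^ p = 1) (hx1 : x ≠ 1) (v : V) (hv : f x v = v) : v = 0 := by
  haveI := Fact.mk hz.pr
  let Fx : AddSubgroup V :=
    { carrier := {w | f x w = w}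
      zero_mem' := map_zero _
      add_mem' := fun {a b} ha hb => by
        simp only [Set.mem_setOf_eq] at ha hb ⊢
        rw [map_add, ha, hb]
      neg_mem' := fun {a} ha => by
        simp only [Set.mem_setOf_eq] at ha ⊢
        rw [map_neg, ha] }
  have h1 := cntV f hz.pr hx ⊤ (fun w _ => AddSubgroup.mem_top _)
  have h2 : Nat.card {w : (⊤ : AddSubgroup V) // f x w = w} = Nat.card Fx := by
    apply Nat.card_congr
    exact { toFun := fun w => ⟨w.1.1, w.2⟩, invFun := fun w => ⟨⟨w.1, AddSubgroup.mem_top _⟩, w.2⟩,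
            left_inv := fun w => rfl, right_inv := fun w => rfl }
  rw [h2, AddSubgroup.card_top, hV] at h1
  have h3 : Nat.card Fx ∣ q ^ n := hV ▸ AddSubgroup.card_addSubgroup_dvd_card Fx
  obtain ⟨b, hb, hb2⟩ := (Nat.dvd_prime_pow (Fact.out : q.Prime)).1 h3
  rw [hb2] at h1
  rcases hz.sub hb le_rfl h1 with h4 | ⟨h4, _⟩
  · exfalso
    apply hx1
    apply hinj
    rw [map_one]
    ext w
    have h5 : Fx = ⊤ := by
      apply AddSubgroup.eq_top_of_card_eq
      rw [hb2, h4, hV]
    have : w ∈ Fx := by rw [h5]; exact AddSubgroup.mem_top _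
    exact this
  · rw [h4, pow_zero] at hb2
    have h5 : Fx = ⊥ := AddSubgroup.card_eq_one.1 hb2
    have : v ∈ Fx := hv
    rw [h5] at this
    exact AddSubgroup.mem_bot.1 this

theorem irr [Fact q.Prime] [Finite V] (hinj : Function.Injective f) (hz : Zs p q n) (hV : Nat.card V = q ^ n)
    (hx : x ^ p = 1) (hx1 : x ≠ 1) (W : AddSubgroup V) (hW : ∀ w ∈ W, f x w ∈ W) (hne : W ≠ ⊥) : W = ⊤ := by
  have h1 := cntV f hz.pr hx W hW
  have h2 : Nat.card {w : W // f x w = w} = 1 := by
    rw [Nat.card_eq_one_iff_unique]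
    refine ⟨⟨fun a b => ?_⟩, ⟨⟨0, map_zero _⟩⟩⟩
    apply Subtype.ext
    apply Subtype.ext
    rw [fix_zero hinj hz hV hx hx1 _ a.2, fix_zero hinj hz hV hx hx1 _ b.2]
  rw [h2] at h1
  have h3 : Nat.card W ∣ q ^ n := hV ▸ AddSubgroup.card_addSubgroup_dvd_card W
  obtain ⟨a, ha, ha2⟩ := (Nat.dvd_prime_pow (Fact.out : q.Prime)).1 h3
  rw [ha2, ← pow_zero q] at h1
  rcases hz.sub (Nat.zero_le a) ha h1 with h4 | ⟨_, h4⟩
  · exfalso
    rw [← h4, pow_zero] at ha2
    exact hne (AddSubgroup.card_eq_one.1 ha2)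
  · apply AddSubgroup.eq_top_of_card_eq
    rw [ha2, h4, hV]

/-- the centralizer of `x` is commutative -/
theorem comm_of_comm [Fact q.Prime] [Finite V] [Nontrivial V] (hinj : Function.Injective f) (hz : Zs p q n) (hV : Nat.card V = q ^ n)
    (hx : x ^ p = 1) (hx1 : x ≠ 1) (y z : G) (hy : y * x = x * y) (hzx : z * x = x * z) : y * z = z * y := by
  obtain ⟨v0, hv0⟩ := exists_ne (0 : V)
  let R : Subring (AddMonoid.End V) := Subring.closure {f x}
  let W : AddSubgroup V := R.toAddSubgroup.map (AddMonoidHom.mk' (fun P : AddMonoid.End V => P v0) (fun P Q => rfl))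
  have hW1 : W = ⊤ := by
    apply irr hinj hz hV hx hx1
    · rintro _ ⟨P, hP, rfl⟩
      exact ⟨f x * P, R.mul_mem (Subring.subset_closure rfl) hP, rfl⟩
    · intro h0
      have : v0 ∈ W := ⟨1, R.one_mem, rfl⟩
      rw [h0] at this
      exact hv0 (AddSubgroup.mem_bot.1 this)
  have hcomm : ∀ y : G, y * x = x * y → ∀ P ∈ R, f y * P = P * f y := by
    intro y hy P hP
    induction hP using Subring.closure_induction with
    | mem P hP =>
      rw [Set.mem_singleton_iff.1 hP, ← map_mul, ← map_mul, hy]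
    | zero => simp
    | one => simp
    | add P Q _ _ hP hQ => rw [mul_add, add_mul, hP, hQ]
    | neg P _ hP => rw [mul_neg, neg_mul, hP]
    | mul P Q _ _ hP hQ => rw [← mul_assoc, hP, mul_assoc, hQ, mul_assoc]
  have hRc : ∀ P ∈ R, ∀ Q ∈ R, P * Q = Q * P := by
    intro P hP Q hQ
    induction hP using Subring.closure_induction with
    | mem P hP =>
      rw [Set.mem_singleton_iff.1 hP]
      exact hcomm x rfl Q hQ
    | zero => simp
    | one => simp
    | add P P' _ _ hP hP' => rw [mul_add, add_mul, hP, hP']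
    | neg P _ hP => rw [mul_neg, neg_mul, hP]
    | mul P P' _ _ hP hP' => rw [← mul_assoc, ← hP, mul_assoc, hP', mul_assoc]
  have hyR : f y ∈ R := by
    have h1 : f y v0 ∈ W := by rw [hW1]; exact AddSubgroup.mem_top _
    obtain ⟨P, hP, hPv⟩ := h1
    have h2 : f y = P := by
      ext v
      have h3 : v ∈ W := by rw [hW1]; exact AddSubgroup.mem_top _
      obtain ⟨Q, hQ, rfl⟩ := h3
      have h4 := DFunLike.congr_fun (hcomm y hy Q hQ) v0
      have h5 := DFunLike.congr_fun (hRc P hP Q hQ) v0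
      change f y (Q v0) = P (Q v0)
      change P v0 = f y v0 at hPv
      change f y (Q v0) = Q (f y v0) at h4
      change P (Q v0) = Q (P v0) at h5
      rw [h4, h5, hPv]
    rw [h2]; exact hP
  apply hinj
  rw [map_mul, map_mul]
  exact (hcomm z hzx (f y) hyR).symm

end Zel

end Cfsg.Agent.H9.Hup
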