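import Mathlib
import Cfsg.Agent.H9_Hup4

set_option autoImplicit false

/-! H9_Hup5: Huppert's theorem on solvable transitive linear groups, part 5: the element of primitive prime order, main lemma. -/

namespace Cfsg.Agent.H9.Hup

open Subgroup Module

variable {q : ℕ} {K V G : Type*} [Field K] [Algebra (ZMod q) K] [AddCommGroup V] [Module K V] [Group G]
    {f : G →* AddMonoid.End V} {A : Subgroup G} {σ : G →* (K ≃ₐ[ZMod q] K)} {φ : A →* Kˣ}
    {r : ℕ} {B : Subgroup G} {p n : ℕ} {x : G}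

theorem pow_conj_eq {H : Type*} [Group H] {a x b : H} (ha : a = x * b * x⁻¹ * b⁻¹) (hax : a * x = x * a) (m : ℕ) :
    x ^ m * b * (x ^ m)⁻¹ = a ^ m * b := by
  induction m with
  | zero => simp
  | succ m ih =>
    have h1 : x ^ (m + 1) * b * (x ^ (m + 1))⁻¹ = x * (x ^ m * b * (x ^ m)⁻¹) * x⁻¹ := by
      rw [pow_succ']; group
    have h2 : a ^ m * x = x * a ^ m := by
      have : Commute a x := hax
      exact this.pow_left m
    rw [h1, ih, pow_succ]
    calc x * (a ^ m * b) * x⁻¹ = (x * a ^ m) * b * x⁻¹ := by group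
      _ = (a ^ m * x) * b * x⁻¹ := by rw [h2]
      _ = a ^ m * (x * b * x⁻¹ * b⁻¹) * b := by group
      _ = a ^ m * a * b := by rw [← ha]

theorem exists_not_mem [Fact q.Prime] [Finite G] [Finite K] [Finite V] [Nontrivial V]
    (h : Cf q f A σ φ) (hB : Bd r A B σ.ker) (hz : Zs p q n) (hV : Nat.card V = q ^ n)
    (hx : x ^ p = 1) (hx1 : x ≠ 1) (hpr : p ≠ r) : ∃ b ∈ B, x * b * x⁻¹ * b⁻¹ ∉ A := by
  by_contra hcon
  push Not at hcon
  have hxk := x_mem_ker (K := K) hz hV σ hx
  have hxA : ∀ a ∈ A, a * x = x * a := (h.ker x).1 hxk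
  have hc : ∀ b ∈ B, b * x = x * b := by
    intro b hb
    have haA := hcon b hb
    set a := x * b * x⁻¹ * b⁻¹ with ha
    have h1 := pow_conj_eq ha (hxA a haA) p
    rw [hx] at h1
    have h2 : a ^ p = 1 := by
      have h3 : (1 : G) * b = a ^ p * b := by simpa using h1
      exact (mul_right_cancel h3).symm
    have h4 : x * b * x⁻¹ = a * b := by rw [ha]; group
    have h5 : (x * b * x⁻¹) ^ r = x * b ^ r * x⁻¹ := by
      rw [← MulAut.conj_apply, ← map_pow, MulAut.conj_apply]
    have h6 : x * b ^ r * x⁻¹ = b ^ r := by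
      rw [← hxA _ (hB.pow b hb), mul_inv_cancel_right]
    have hab : Commute a b := hB.cent h a haA b hb
    rw [h6, h4, hab.mul_pow] at h5
    have h7 : a ^ r = 1 := by
      have h8 : a ^ r * b ^ r = 1 * b ^ r := by rw [h5, one_mul]
      exact mul_right_cancel h8
    have h8 : orderOf a ∣ 1 := by
      rw [← (Nat.coprime_primes hz.pr hB.pr).2 hpr]
      exact Nat.dvd_gcd (orderOf_dvd_of_pow_eq_one h2) (orderOf_dvd_of_pow_eq_one h7)
    have h9 : a = 1 := orderOf_eq_one_iff.1 (Nat.dvd_one.1 h8)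
    rw [ha, mul_inv_eq_one, mul_inv_eq_iff_eq_mul] at h9
    exact h9.symm
  apply hB.ne
  apply le_antisymm hB.le
  intro b hb
  refine hB.z h b hb fun c hcB => ?_
  exact comm_of_comm h.inj hz hV hx hx1 c b (hc c hcB) (hc b hb)

/-- maximal abelian subgroups between -/
theorem exists_max_ab {H : Type*} [Group H] [Finite H] (A Y : Subgroup H) (hAY : A ≤ Y) (hA : A ≤ centralizer (A : Set H)) :
    ∃ L : Subgroup H, A ≤ L ∧ L ≤ Y ∧ L ≤ centralizer (L : Set H) ∧ Y ⊓ centralizer (L : Set H) = L := by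
  obtain ⟨L, hL⟩ := (Set.toFinite {L : Subgroup H | A ≤ L ∧ L ≤ Y ∧ L ≤ centralizer (L : Set H)}).exists_maximal ⟨A, le_rfl, hAY, hA⟩
  obtain ⟨h1, h2, h3⟩ := hL.prop
  refine ⟨L, h1, h2, h3, ?_⟩
  apply le_antisymm
  · intro c hc
    have hcL : zpowers c ≤ centralizer (L : Set H) := by rw [zpowers_le]; exact hc.2
    have hLc : L ≤ centralizer ((zpowers c : Subgroup H) : Set H) := le_centralizer_iff.1 hcL
    have h4 : L ⊔ zpowers c ≤ centralizer ((L ⊔ zpowers c : Subgroup H) : Set H) := by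
      apply sup_le
      · rw [le_centralizer_iff]
        exact sup_le h3 hcL
      · rw [le_centralizer_iff]
        refine sup_le hLc ?_
        intro u hu
        rw [mem_centralizer_iff]
        intro v hv
        obtain ⟨i, rfl⟩ := mem_zpowers_iff.1 hu
        obtain ⟨j, rfl⟩ := mem_zpowers_iff.1 hv
        exact (Commute.zpow_zpow_self c j i)
    have h5 := hL.le_of_ge (y := L ⊔ zpowers c) ⟨h1.trans le_sup_left, sup_le h2 (by rw [zpowers_le]; exact hc.1), h4⟩ le_sup_left
    exact h5 (mem_sup_right (mem_zpowers c))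
  · exact le_inf h2 h3

theorem zel [Fact q.Prime] [Finite G] [Finite K] [Finite V] [Nontrivial V]
    (h : Cf q f A σ φ) (hB : Bd r A B σ.ker) (hz : Zs p q n) (hV : Nat.card V = q ^ n)
    (hx : x ^ p = 1) (hx1 : x ≠ 1) :
    ∃ i, finrank K V = r ^ i ∧ n = r ^ i ∧ p = r ^ i + 1 ∧ A.relIndex B = (finrank K V) ^ 2 := by
  classical
  haveI := Fact.mk hz.pr
  haveI := Fact.mk hB.pr
  haveI := h.norm
  haveI : FiniteDimensional K V := Module.Finite.of_finite
  haveI : FiniteDimensional (ZMod q) K := Module.Finite.of_finite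
  obtain ⟨s, hs2, hs⟩ := hB.exists_pow h
  have hcard := hB.card_le h
  rw [hs] at hcard
  have hn := n_eq (K := K) hV
  have hk0 : 0 < finrank (ZMod q) K := finrank_pos
  set d := finrank K V with hd
  have hdn : d ≤ n := by rw [hn]; exact Nat.le_mul_of_pos_left _ hk0
  have hnp := hz.lt
  have hr2 := hB.pr.two_le
  have hrd : r ≤ d := by
    have h1 : r ^ 2 ≤ d ^ 2 := (Nat.pow_le_pow_right (by omega) hs2).trans hcard
    exact (Nat.pow_le_pow_iff_left (by norm_num)).1 h1
  have hpr : p ≠ r := by omega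
  obtain ⟨b0, hb0, hb0A⟩ := exists_not_mem h hB hz hV hx hx1 hpr
  -- the quotient
  let π := QuotientGroup.mk' A
  have hπ : ∀ g : G, π g = 1 ↔ g ∈ A := fun g => QuotientGroup.eq_one_iff g
  have hrel : ∀ T : Subgroup G, Nat.card (T.map π) = A.relIndex T := by
    intro T
    rw [← relIndex_ker, QuotientGroup.ker_mk']
  set U := B.map π with hU
  have hcomm_iff : ∀ g g' : G, π g * π g' = π g' * π g ↔ g * g' * g⁻¹ * g'⁻¹ ∈ A := by
    intro g g'
    rw [← hπ, map_mul, map_mul, map_mul, map_inv, map_inv, mul_inv_eq_one, mul_inv_eq_iff_eq_mul]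
  obtain ⟨W, hWU, hWx, hWc, hWne⟩ := comm_sub hz.pr hB.pr hpr U (π x) (by rw [← map_pow, hx, map_one]) (by
      rintro _ ⟨b, hb, rfl⟩
      refine ⟨x * b * x⁻¹, hB.norm.conj_mem b hb x, ?_⟩
      rw [map_mul, map_mul, map_inv]) (by
      rintro _ ⟨b, hb, rfl⟩ _ ⟨c, hc, rfl⟩
      exact (hcomm_iff b c).2 (hB.comm b hb c hc)) (by
      rintro _ ⟨b, hb, rfl⟩
      rw [← map_pow, hπ]
      exact hB.pow b hb) ⟨π b0, ⟨b0, hb0, rfl⟩, fun hcon => hb0A ((hcomm_iff x b0).1 hcon)⟩
  have hUcard : Nat.card U = r ^ s := by rw [hU, hrel, hs]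
  obtain ⟨t, hts, ht⟩ := (Nat.dvd_prime_pow hB.pr).1 (hUcard ▸ Subgroup.card_dvd_of_le hWU)
  have ht0 : t ≠ 0 := by
    rintro rfl
    rw [pow_zero] at ht
    exact hWne (Subgroup.card_eq_one.1 ht)
  -- order of r modulo p
  set j := orderOf (r : ZMod p) with hj
  have hjd : ∀ m : ℕ, r ^ m ≡ 1 [MOD p] ↔ j ∣ m := by
    intro m
    rw [hj, orderOf_dvd_iff_pow_eq_one, ← ZMod.natCast_eq_natCast_iff]
    push_cast
    rfl
  have hxπ : (π x) ^ p = 1 := by rw [← map_pow, hx, map_one]
  have hjt : j ∣ t := by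
    rw [← hjd, ← ht]
    have h1 := cntG (π x) hxπ W hWx
    rw [hWc, Subgroup.card_bot] at h1
    exact h1
  have hj0 : 0 < j := Nat.pos_of_dvd_of_pos hjt (Nat.pos_of_ne_zero ht0)
  have hpj : p < r ^ j + 1 := by
    have h1 := (hjd j).2 dvd_rfl
    have h2 : 1 < r ^ j := Nat.one_lt_pow hj0.ne' hB.pr.one_lt
    have h3 : p ∣ r ^ j - 1 := (Nat.modEq_iff_dvd' h2.le).1 h1.symm
    have h4 := Nat.le_of_dvd (by omega) h3
    omega
  have hsj : s < 2 * j := by
    by_contra hcon
    rw [not_lt] at hcon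
    have h1 : (r ^ j) ^ 2 ≤ d ^ 2 := by
      rw [← pow_mul, mul_comm]
      exact (Nat.pow_le_pow_right (by omega) hcon).trans hcard
    have h2 := (Nat.pow_le_pow_iff_left (by norm_num)).1 h1
    omega
  have htj : t = j := by
    obtain ⟨c, rfl⟩ := hjt
    have h1 : c ≠ 0 := by rintro rfl; simp at ht0
    have h2 : c < 2 := by
      by_contra hcon
      rw [not_lt] at hcon
      have : j * 2 ≤ j * c := Nat.mul_le_mul_left _ hcon
      omega
    have : c = 1 := by omega
    rw [this, mul_one]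
  rw [htj] at ht
  -- the preimage
  set Y := W.comap π with hY
  have hYW : Y.map π = W := map_comap_eq_self_of_surjective (QuotientGroup.mk'_surjective A) W
  have hAY : A ≤ Y := by
    intro a ha
    rw [hY, mem_comap, (hπ a).2 ha]
    exact W.one_mem
  have hYB : Y ≤ B := by
    intro g hg
    obtain ⟨b, hb, hbg⟩ := hWU hg
    have h1 : b⁻¹ * g ∈ A := by
      rw [← hπ, map_mul, map_inv, hbg, inv_mul_cancel]
    have : g = b * (b⁻¹ * g) := by group
    rw [this]
    exact B.mul_mem hb (hB.le h1)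
  have hAYc : A.relIndex Y = r ^ j := by rw [← hrel, hYW, ht]
  have hAcent : ∀ a ∈ A, ∀ y ∈ Y, a * y = y * a := fun a ha y hy => hB.cent h a ha y (hYB hy)
  have hYx : ∀ y ∈ Y, x * y * x⁻¹ ∈ Y := by
    intro y hy
    rw [hY, mem_comap, map_mul, map_mul, map_inv]
    exact hWx _ hy
  have hYx' : ∀ y ∈ Y, x⁻¹ * y * x ∈ Y := by
    have hpow : ∀ m : ℕ, ∀ y ∈ Y, x ^ m * y * (x ^ m)⁻¹ ∈ Y := by
      intro m
      induction m with
      | zero => intro y hy; simpa using hy
      | succ m ih =>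
        intro y hy
        have := hYx _ (ih y hy)
        rw [pow_succ']
        convert this using 1
        group
    intro y hy
    have h1 : x ^ (p - 1) = x⁻¹ := by
      rw [eq_inv_iff_mul_eq_one, ← pow_succ, Nat.sub_add_cancel hz.pr.one_lt.le, hx]
    have := hpow (p - 1) y hy
    rwa [h1, inv_inv] at this
  set Z := Y ⊓ centralizer (Y : Set G) with hZ
  have hAZ : A ≤ Z := fun a ha => ⟨hAY ha, mem_centralizer_iff.2 fun y hy => (hAcent a ha y hy).symm⟩
  have hZx : ∀ z ∈ Z, x * z * x⁻¹ ∈ Z := by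
    intro z hz'
    refine ⟨hYx z hz'.1, mem_centralizer_iff.2 fun y hy => ?_⟩
    have h1 := mem_centralizer_iff.1 hz'.2 _ (hYx' y hy)
    calc y * (x * z * x⁻¹) = x * ((x⁻¹ * y * x) * z) * x⁻¹ := by group
      _ = x * (z * (x⁻¹ * y * x)) * x⁻¹ := by rw [h1]
      _ = x * z * x⁻¹ * y := by group
  have hZW : Z.map π ≤ W := by
    rw [← hYW]
    exact map_mono inf_le_left
  obtain ⟨i', hi'j, hi'⟩ := (Nat.dvd_prime_pow hB.pr).1 (ht ▸ Subgroup.card_dvd_of_le hZW)
  have hji' : j ∣ i' := by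
    rw [← hjd, ← hi']
    have h1 := cntG (π x) hxπ (Z.map π) (by
      rintro _ ⟨z, hz', rfl⟩
      exact ⟨x * z * x⁻¹, hZx z hz', by rw [map_mul, map_mul, map_inv]⟩)
    have h2 : Z.map π ⊓ centralizer {π x} = ⊥ := by
      rw [eq_bot_iff, ← hWc]
      exact inf_le_inf_right _ hZW
    rw [h2, Subgroup.card_bot] at h1
    exact h1
  have hZA : Z ≤ A := by
    rcases Nat.eq_zero_or_pos i' with h0 | h0
    · rw [h0, pow_zero] at hi'
      have h1 := Subgroup.card_eq_one.1 hi'
      intro z hz'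
      rw [← hπ]
      have : π z ∈ Z.map π := ⟨z, hz', rfl⟩
      rwa [h1, mem_bot] at this
    · exfalso
      have h1 : i' = j := le_antisymm hi'j (Nat.le_of_dvd h0 hji')
      have h2 : Z.map π = W := Subgroup.eq_of_le_of_card_ge hZW (by rw [ht, hi', h1])
      have h3 : Y ≤ Z := by
        intro y hy
        have h4 : π y ∈ Z.map π := by rw [h2]; exact hy
        obtain ⟨z, hz', hzy⟩ := h4
        have h5 : z⁻¹ * y ∈ A := by rw [← hπ, map_mul, map_inv, hzy, inv_mul_cancel]
        have : y = z * (z⁻¹ * y) := by group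
        rw [this]
        exact Z.mul_mem hz' (hAZ h5)
      have h4 := dual_le A φ h.φinj Y B hAcent (hB.cent h) (fun y hy b hb => hB.comm y (hYB hy) b hb)
      have h5 : A.relIndex Y ≤ (centralizer (B : Set G)).relIndex Y := by
        rw [← inf_relIndex_right (centralizer (B : Set G)) Y]
        apply Nat.le_of_dvd
        · exact Nat.pos_of_ne_zero Subgroup.index_ne_zero_of_finite
        · apply relIndex_dvd_of_le_left
          intro g hg
          exact hB.z h g (hYB hg.2) fun c hc => mem_centralizer_iff.1 hg.1 c hc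
      have h6 : (centralizer (Y : Set G)).relIndex B ≤ Y.relIndex B := by
        apply Nat.le_of_dvd
        · exact Nat.pos_of_ne_zero Subgroup.index_ne_zero_of_finite
        · apply relIndex_dvd_of_le_left
          exact h3.trans inf_le_right
      have h7 := relIndex_mul_relIndex A Y B hAY hYB
      rw [hAYc, hs] at h7
      rw [hAYc] at h5
      have h8 : r ^ j * r ^ j ≤ r ^ s := by
        rw [← h7]
        exact Nat.mul_le_mul_left _ (h5.trans (h4.trans h6))
      rw [← pow_add] at h8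
      have := (Nat.pow_le_pow_iff_right hB.pr.one_lt).1 h8
      omega
  -- a maximal abelian subgroup
  obtain ⟨L, hAL, hLY, hLab, hLc⟩ := exists_max_ab A Y hAY (fun a ha => mem_centralizer_iff.2 fun b hb => h.Acomm b hb a ha)
  have h1 := dual_eq A φ h.φinj L Y (fun a ha y hy => hAcent a ha y (hLY hy)) hAcent
    (fun y hy b hb => hB.comm y (hYB (hLY hy)) b (hYB hb))
  have h2 : (centralizer (Y : Set G)).relIndex L = A.relIndex L := by
    have h3 : centralizer (Y : Set G) ⊓ L = A := by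
      apply le_antisymm
      · intro g hg
        exact hZA ⟨hLY hg.2, hg.1⟩
      · exact le_inf (hAZ.trans inf_le_right) hAL
    rw [← inf_relIndex_right, h3]
  have h3 : (centralizer (L : Set G)).relIndex Y = L.relIndex Y := by
    rw [← inf_relIndex_right, inf_comm, hLc]
  rw [h2, h3] at h1
  have h4 := relIndex_mul_relIndex A L Y hAL hLY
  rw [← h1, hAYc] at h4
  obtain ⟨i, hij, hi⟩ := (Nat.dvd_prime_pow hB.pr).1 (Dvd.intro _ h4)
  rw [hi, ← pow_add] at h4
  have hji : i + i = j := Nat.pow_right_injective hr2 h4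
  have h5 : ((r : ZMod p) ^ i) ^ 2 = 1 := by
    rw [← pow_mul, show i * 2 = j by omega, hj, pow_orderOf_eq_one]
  have h6 : (r : ZMod p) ^ i ≠ 1 := by
    intro h7
    have := orderOf_dvd_of_pow_eq_one h7
    have h8 := Nat.le_of_dvd (by omega) this
    omega
  have h7 : (r : ZMod p) ^ i = -1 := by
    have h8 : ((r : ZMod p) ^ i - 1) * ((r : ZMod p) ^ i + 1) = 0 := by
      linear_combination h5
    rcases mul_eq_zero.1 h8 with h9 | h9
    · exact absurd (sub_eq_zero.1 h9) h6
    · exact eq_neg_of_add_eq_zero_left h9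
  have h8 : p ∣ r ^ i + 1 := by
    rw [← ZMod.natCast_eq_zero_iff]
    push_cast
    rw [h7]
    ring
  have h9 := Nat.le_of_dvd (by omega) h8
  have h10 : r ^ i ≤ d := by
    have h11 : (r ^ i) ^ 2 ≤ d ^ 2 := by
      rw [← pow_mul, show i * 2 = j by omega]
      exact (Nat.pow_le_pow_right (by omega) (by omega)).trans hcard
    exact (Nat.pow_le_pow_iff_left (by norm_num)).1 h11
  refine ⟨i, by omega, by omega, by omega, ?_⟩
  rw [hs]
  apply le_antisymm hcard
  have h12 : d = r ^ i := by omega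
  rw [h12, ← pow_mul, show i * 2 = j by omega]
  exact Nat.pow_le_pow_right (by omega) (by omega)

end Cfsg.Agent.H9.Hup
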