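import Mathlib
import Cfsg.Agent.H9_Hup5
import Cfsg.Agent.H2_AutEA

set_option autoImplicit false

/-! H9_Hup6: Huppert's theorem on solvable transitive linear groups, part 6: orders. -/

namespace Cfsg.Agent.H9.Hup

open Subgroup Module
open scoped commutatorElement

theorem exists_elem {H : Type*} [Group H] [Finite H] (hs : Group.IsSolvable H) (N : Subgroup H) (hNn : N.Normal) (hN : N ≠ ⊥) :
    ∃ (M : Subgroup H) (r : ℕ), r.Prime ∧ M.Normal ∧ M ≤ N ∧ M ≠ ⊥ ∧ (∀ a ∈ M, ∀ b ∈ M, a * b = b * a) ∧ (∀ a ∈ M, a ^ r = 1) := by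
  obtain ⟨M, hM⟩ := (Set.toFinite {M : Subgroup H | M.Normal ∧ M ≠ ⊥ ∧ M ≤ N}).exists_minimal ⟨N, hNn, hN, le_rfl⟩
  obtain ⟨h1, h2, h3⟩ := hM.prop
  have hmin : ∀ T : Subgroup H, T.Normal → T ≤ M → T ≠ ⊥ → M ≤ T := fun T hT hle hne =>
    hM.le_of_le ⟨hT, hne, hle.trans h3⟩ hle
  have hab : ∀ a ∈ M, ∀ b ∈ M, a * b = b * a := by
    have h4 : ⁅M, M⁆ < M := Group.IsSolvable.commutator_lt_of_ne_bot h2
    have h5 : ⁅M, M⁆ = ⊥ := by
      by_contra hne
      exact absurd (hmin ⁅M, M⁆ inferInstance h4.le hne) (not_le_of_gt h4)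
    intro a ha b hb
    have h6 : ⁅a, b⁆ ∈ ⁅M, M⁆ := commutator_mem_commutator ha hb
    rw [h5, mem_bot, commutatorElement_eq_one_iff_mul_comm] at h6
    exact h6
  have hcard : Nat.card M ≠ 1 := fun h => h2 (Subgroup.card_eq_one.1 h)
  obtain ⟨r, hr, hrd⟩ := Nat.exists_prime_and_dvd hcard
  haveI := Fact.mk hr
  obtain ⟨c, hc⟩ := exists_prime_orderOf_dvd_card' r hrd
  let T : Subgroup H :=
    { carrier := {m | m ∈ M ∧ m ^ r = 1}
      one_mem' := ⟨M.one_mem, one_pow _⟩
      mul_mem' := fun {a b} ha hb => ⟨M.mul_mem ha.1 hb.1, by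
        have : Commute a b := hab a ha.1 b hb.1
        rw [this.mul_pow, ha.2, hb.2, mul_one]⟩
      inv_mem' := fun {a} ha => ⟨M.inv_mem ha.1, by rw [inv_pow, ha.2, inv_one]⟩ }
  have hTn : T.Normal := ⟨fun a ha g => ⟨h1.conj_mem a ha.1 g, by
    rw [← MulAut.conj_apply, ← map_pow, ha.2, map_one]⟩⟩
  have hTne : T ≠ ⊥ := by
    intro h0
    have hcT : (c : H) ∈ T := ⟨c.2, by
      have := pow_orderOf_eq_one c
      rw [hc] at this
      exact congrArg Subtype.val this⟩
    rw [h0, mem_bot] at hcT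
    have hc1 : c = 1 := Subtype.ext hcT
    rw [hc1, orderOf_one] at hc
    exact hr.one_lt.ne hc
  have hMT := hmin T hTn (fun a ha => ha.1) hTne
  exact ⟨M, r, hr, h1, h3, h2, hab, fun a ha => (hMT ha).2⟩

variable {q : ℕ} {K V G : Type*} [Field K] [Algebra (ZMod q) K] [AddCommGroup V] [Module K V] [Group G]
    {f : G →* AddMonoid.End V} {A : Subgroup G} {σ : G →* (K ≃ₐ[ZMod q] K)} {φ : A →* Kˣ}

theorem exists_Bd [Finite G] (hs : Group.IsSolvable G) (h : Cf q f A σ φ) (hne : A ≠ σ.ker) :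
    ∃ (B : Subgroup G) (r : ℕ), Bd r A B σ.ker := by
  haveI := h.norm
  let π := QuotientGroup.mk' A
  have hπ : ∀ g : G, π g = 1 ↔ g ∈ A := fun g => QuotientGroup.eq_one_iff g
  have hsq : Group.IsSolvable (G ⧸ A) := Group.isSolvable_of_surjective (QuotientGroup.mk'_surjective A)
  have hN : σ.ker.map π ≠ ⊥ := by
    intro h0
    apply hne
    apply le_antisymm h.A_le_ker
    intro g hg
    have : π g ∈ σ.ker.map π := ⟨g, hg, rfl⟩
    rw [h0, mem_bot, hπ] at this
    exact this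
  obtain ⟨M, r, hr, hMn, hMN, hM1, hMab, hMe⟩ := exists_elem hsq (σ.ker.map π)
    (Subgroup.Normal.map inferInstance π (QuotientGroup.mk'_surjective A)) hN
  refine ⟨M.comap π, r, hr, hMn.comap π, ?_, ?_, ?_, ?_, ?_⟩
  · intro a ha
    rw [mem_comap, (hπ a).2 ha]
    exact M.one_mem
  · intro h0
    apply hM1
    have h1 := map_comap_eq_self_of_surjective (QuotientGroup.mk'_surjective A) M
    rw [← h1, eq_bot_iff]
    rintro _ ⟨g, hg, rfl⟩
    rw [mem_bot]
    have : g ∈ A := by rw [h0]; exact hg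
    exact (hπ g).2 this
  · intro g hg
    obtain ⟨c, hc, hcg⟩ := hMN hg
    have h1 : c⁻¹ * g ∈ A := by rw [← hπ, map_mul, map_inv, hcg, inv_mul_cancel]
    have : g = c * (c⁻¹ * g) := by group
    rw [this]
    exact σ.ker.mul_mem hc (h.A_le_ker h1)
  · intro b hb c hc
    rw [← hπ, map_mul, map_mul, map_mul, map_inv, map_inv, mul_inv_eq_one, mul_inv_eq_iff_eq_mul]
    exact hMab _ hb _ hc
  · intro b hb
    rw [← hπ, map_pow]
    exact hMe _ hb

theorem card_V_dvd [Finite G] [Finite V] [Nontrivial V] (h : Cf q f A σ φ) : Nat.card V - 1 ∣ Nat.card G := by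
  letI : MulAction G V :=
    { smul := fun g v => f g v
      one_smul := fun v => by change f 1 v = v; rw [map_one]; rfl
      mul_smul := fun g g' v => by change f (g * g') v = f g (f g' v); rw [map_mul]; rfl }
  obtain ⟨v0, hv0⟩ := exists_ne (0 : V)
  have h1 : (MulAction.orbit G v0).ncard ∣ Nat.card G := by
    rw [← MulAction.index_stabilizer]
    exact Subgroup.index_dvd_card _
  have h2 : MulAction.orbit G v0 = {0}ᶜ := by
    ext v
    constructor
    · rintro ⟨g, rfl⟩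
      rw [Set.mem_compl_singleton_iff]
      change f g v0 ≠ 0
      intro h0
      apply hv0
      have h3 : f g⁻¹ (f g v0) = v0 := by
        have : (f g⁻¹ * f g) v0 = v0 := by rw [← map_mul, inv_mul_cancel, map_one]; rfl
        exact this
      rw [← h3, h0, map_zero]
    · intro hv
      exact h.tr v0 v hv0 hv
  have h3 : (MulAction.orbit G v0).ncard = Nat.card V - 1 := by
    rw [h2, Set.ncard_compl, Set.ncard_singleton]
  rw [← h3]
  exact h1

theorem card_G_eq_ker [Finite G] [Fact q.Prime] [Finite K] (h : Cf q f A σ φ) (hA : A = σ.ker) :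
    Nat.card G ∣ finrank (ZMod q) K * (Nat.card K - 1) := by
  have h1 := Subgroup.card_mul_index σ.ker
  rw [← h1, mul_comm]
  apply mul_dvd_mul (Cf.index_dvd σ)
  rw [← hA]
  exact h.cardA_dvd

theorem card_G_dvd [Finite G] [Finite V] [Nontrivial V] [Fact q.Prime] [Finite K] (h : Cf q f A σ φ) {r : ℕ} {B : Subgroup G}
    (hB : Bd r A B σ.ker) {s : ℕ} (hs : A.relIndex B = r ^ s) (hd : r ^ s = finrank K V ^ 2) :
    Nat.card G ∣ finrank (ZMod q) K * (∏ i : Fin s, (r ^ s - r ^ (i : ℕ))) * r ^ s * (Nat.card K - 1) := by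
  haveI := Fact.mk hB.pr
  haveI := h.norm
  haveI := hB.norm
  haveI : FiniteDimensional K V := Module.Finite.of_finite
  let π := QuotientGroup.mk' A
  have hπ : ∀ g : G, π g = 1 ↔ g ∈ A := fun g => QuotientGroup.eq_one_iff g
  have hrel : ∀ T : Subgroup G, Nat.card (T.map π) = A.relIndex T := by
    intro T
    rw [← relIndex_ker, QuotientGroup.ker_mk']
  have hcomm_iff : ∀ g g' : G, π g * π g' = π g' * π g ↔ g * g' * g⁻¹ * g'⁻¹ ∈ A := by
    intro g g'
    rw [← hπ, map_mul, map_mul, map_mul, map_inv, map_inv, mul_inv_eq_one, mul_inv_eq_iff_eq_mul]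
  haveI hUn : (B.map π).Normal := Subgroup.Normal.map inferInstance π (QuotientGroup.mk'_surjective A)
  let κ : G →* MulAut (B.map π) := MulAut.conjNormal.comp π
  have hκ : ∀ g, g ∈ κ.ker ↔ ∀ b ∈ B, g * b * g⁻¹ * b⁻¹ ∈ A := by
    intro g
    rw [MonoidHom.mem_ker]
    constructor
    · intro hg b hb
      rw [← hcomm_iff]
      have h1 := congrArg Subtype.val (DFunLike.congr_fun hg ⟨π b, ⟨b, hb, rfl⟩⟩)
      have h2 : π g * π b * (π g)⁻¹ = π b := h1
      rwa [mul_inv_eq_iff_eq_mul] at h2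
    · intro hg
      ext ⟨_, b, hb, rfl⟩
      have h1 := (hcomm_iff g b).2 (hg b hb)
      change π g * π b * (π g)⁻¹ = π b
      rw [mul_inv_eq_iff_eq_mul, h1]
  set D := κ.ker ⊓ σ.ker with hD
  have hBD : B ≤ D := fun b hb => ⟨(hκ b).2 fun c hc => hB.comm b hb c hc, hB.leC hb⟩
  have hAcD : ∀ a ∈ A, ∀ g ∈ D, a * g = g * a := fun a ha g hg => (h.ker g).1 hg.2 a ha
  have hdual := dual_le A φ h.φinj D B hAcD (hB.cent h) (fun g hg b hb => (hκ g).1 hg.1 b hb)
  have hce := hB.cent_eq h (hs.trans hd)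
  have h1 : (centralizer (B : Set G)).relIndex D = A.relIndex D := by
    have h2 : centralizer (B : Set G) ⊓ D = A := by
      apply le_antisymm
      · intro g hg
        rw [← hce]
        exact ⟨hg.2.2, hg.1⟩
      · intro a ha
        exact ⟨mem_centralizer_iff.2 fun b hb => (hB.cent h a ha b hb).symm, hBD (hB.le ha)⟩
    rw [← inf_relIndex_right, h2]
  have h2 : (centralizer (D : Set G)).relIndex B ≤ A.relIndex B := by
    apply Nat.le_of_dvd
    · exact Nat.pos_of_ne_zero Subgroup.index_ne_zero_of_finite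
    · apply relIndex_dvd_of_le_left
      intro a ha
      exact mem_centralizer_iff.2 fun g hg => (hAcD a ha g hg).symm
  rw [h1] at hdual
  have h3 := relIndex_mul_relIndex A B D hB.le hBD
  have h4 : B.relIndex D = 1 := by
    have h5 : 0 < A.relIndex B := Nat.pos_of_ne_zero Subgroup.index_ne_zero_of_finite
    have h6 : 0 < B.relIndex D := Nat.pos_of_ne_zero Subgroup.index_ne_zero_of_finite
    have h7 : A.relIndex B * B.relIndex D ≤ A.relIndex B * 1 := by
      rw [h3, mul_one]; exact hdual.trans h2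
    have h8 := Nat.le_of_mul_le_mul_left h7 h5
    omega
  have h5 : D = B := le_antisymm (relIndex_eq_one.1 h4) hBD
  have h6 : B.relIndex σ.ker ∣ ∏ i : Fin s, (r ^ s - r ^ (i : ℕ)) := by
    rw [← h5, hD, inf_relIndex_right, relIndex_ker]
    rw [← H2.AutEA.card_mulAut_ea (A := B.map π) (p := r) ⟨⟨?_⟩⟩ ?_ s (by rw [hrel, hs])]
    · exact Subgroup.card_subgroup_dvd_card _
    · rintro ⟨_, b, hb, rfl⟩ ⟨_, c, hc, rfl⟩
      apply Subtype.ext
      exact (hcomm_iff b c).2 (hB.comm b hb c hc)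
    · rintro ⟨_, b, hb, rfl⟩
      apply Subtype.ext
      change (π b) ^ r = 1
      rw [← map_pow, hπ]
      exact hB.pow b hb
  have h7 : Nat.card G = σ.ker.index * (B.relIndex σ.ker) * (A.relIndex B) * Nat.card A := by
    rw [← Subgroup.card_mul_index σ.ker]
    have h8 := Subgroup.relIndex_mul_relIndex ⊥ A σ.ker bot_le h.A_le_ker
    have h9 := relIndex_mul_relIndex A B σ.ker hB.le hB.leC
    rw [relIndex_bot_left, relIndex_bot_left] at h8
    rw [← h8, ← h9]
    ring
  rw [h7, hs]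
  exact mul_dvd_mul (mul_dvd_mul (mul_dvd_mul (Cf.index_dvd σ) h6) dvd_rfl) h.cardA_dvd

end Cfsg.Agent.H9.Hup
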