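import Mathlib
import Cfsg.Agent.H9_MultTrans2

set_option autoImplicit false

namespace Cfsg.Agent.H9.Semireg

/-- a set of endomorphisms of a non-zero finite space has a minimal non-zero invariant subspace -/
theorem exists_minimal_invariant {k V : Type*} [Field k] [AddCommGroup V] [Module k V] [Finite V]
    [Nontrivial V] (S : Set (Module.End k V)) :
    ∃ W : Submodule k V, W ≠ ⊥ ∧ (∀ a ∈ S, ∀ v ∈ W, a v ∈ W) ∧
      ∀ W' : Submodule k V, W' ≤ W → (∀ a ∈ S, ∀ v ∈ W', a v ∈ W') → W' = ⊥ ∨ W' = W := by
  classical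
  haveI : Finite (Submodule k V) := Finite.of_injective (fun W : Submodule k V => (W : Set V)) SetLike.coe_injective
  obtain ⟨W, ⟨hW1, hW2⟩, hmin⟩ := WellFounded.has_min (wellFounded_lt (α := Submodule k V))
    {W : Submodule k V | W ≠ ⊥ ∧ ∀ a ∈ S, ∀ v ∈ W, a v ∈ W} ⟨⊤, top_ne_bot, fun _ _ _ _ => trivial⟩
  refine ⟨W, hW1, hW2, fun W' hle hinv => ?_⟩
  by_cases hb : W' = ⊥
  · exact Or.inl hb
  · right
    have := hmin W' ⟨hb, hinv⟩
    exact hle.lt_or_eq.resolve_left this

/-- A finite commutative group with a faithful irreducible representation is cyclic. -/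
theorem isCyclic_of_irreducible {k W A : Type*} [Field k] [AddCommGroup W] [Module k W]
    [Nontrivial W] [CommGroup A] [Finite A] (ρ : A →* Module.End k W)
    (hinj : Function.Injective ρ)
    (hirr : ∀ W' : Submodule k W, (∀ a : A, ∀ v ∈ W', ρ a v ∈ W') → W' = ⊥ ∨ W' = ⊤) : IsCyclic A := by
  classical
  have hcomm : ∀ a ∈ Set.range ρ, ∀ b ∈ Set.range ρ, a * b = b * a := by
    rintro _ ⟨a, rfl⟩ _ ⟨b, rfl⟩
    rw [← map_mul, mul_comm, map_mul]
  let R := Algebra.adjoin k (Set.range ρ)
  letI : CommRing R := Algebra.adjoinCommRingOfComm k hcomm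
  have hker : ∀ x : R, x ≠ 0 → ∀ v : W, (x : Module.End k W) v = 0 → v = 0 := by
    intro x hx v hv
    have hk := hirr (LinearMap.ker (x : Module.End k W)) (by
      intro a w hw
      rw [LinearMap.mem_ker] at hw ⊢
      have h1 : x * ⟨ρ a, Algebra.subset_adjoin ⟨a, rfl⟩⟩ = ⟨ρ a, Algebra.subset_adjoin ⟨a, rfl⟩⟩ * x := mul_comm _ _
      have h2 := congrArg (fun z : R => (z : Module.End k W) w) h1
      change (x : Module.End k W) (ρ a w) = ρ a ((x : Module.End k W) w) at h2
      rw [h2, hw, map_zero])
    rcases hk with hk | hk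
    · have : v ∈ LinearMap.ker (x : Module.End k W) := hv
      rw [hk, Submodule.mem_bot] at this
      exact this
    · exfalso
      apply hx
      apply Subtype.ext
      rw [LinearMap.ker_eq_top] at hk
      exact hk
  haveI : NoZeroDivisors R := ⟨by
    intro x y hxy
    by_cases hx : x = 0
    · exact Or.inl hx
    · right
      apply Subtype.ext
      ext v
      have h2 := congrArg (fun z : R => (z : Module.End k W) v) hxy
      exact hker x hx _ h2⟩
  haveI : Nontrivial R := ⟨⟨0, 1, by
    intro h
    obtain ⟨v, hv⟩ := exists_ne (0 : W)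
    have h2 := congrArg (fun z : R => (z : Module.End k W) v) h
    exact hv h2.symm⟩⟩
  haveI : IsDomain R := NoZeroDivisors.to_isDomain R
  let f : A →* R :=
    { toFun := fun a => ⟨ρ a, Algebra.subset_adjoin ⟨a, rfl⟩⟩
      map_one' := Subtype.ext (map_one ρ)
      map_mul' := fun a b => Subtype.ext (map_mul ρ a b) }
  have hf : Function.Injective f := fun a b h => hinj (congrArg Subtype.val h)
  exact isCyclic_of_injective_ringHom f hf

/-- semiregular action on the non-zero vectors: the order divides `|W| - 1`. -/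
theorem card_dvd {W A : Type*} [AddCommGroup W] [Finite W] [Group A] [Finite A]
    [DistribMulAction A W] (hs : ∀ a : A, ∀ v : W, v ≠ 0 → a • v = v → a = 1) :
    Nat.card A ∣ Nat.card W - 1 := by
  classical
  haveI : Fintype W := Fintype.ofFinite W
  let X : SubMulAction A W :=
    { carrier := {v | v ≠ 0}
      smul_mem' := by
        intro a v hv h
        apply hv
        rwa [smul_eq_zero_iff_eq] at h }
  haveI : Fintype X := Fintype.ofFinite X
  have h1 := H9.MultTrans2.sum_card_stabilizer A X
  have h2 : ∀ x : X, Nat.card (MulAction.stabilizer A x) = 1 := by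
    intro x
    have : MulAction.stabilizer A x = ⊥ := by
      rw [eq_bot_iff]
      intro a ha
      exact hs a x x.2 (congrArg Subtype.val ha)
    rw [this]; simp
  rw [Finset.sum_congr rfl (fun x _ => h2 x), Finset.sum_const, smul_eq_mul, mul_one, Finset.card_univ] at h1
  have h3 : Fintype.card X = Nat.card W - 1 := by
    rw [Nat.card_eq_fintype_card]
    have : Fintype.card X = Fintype.card {v : W // v ≠ 0} := Fintype.card_congr (Equiv.refl _)
    rw [this, Fintype.card_subtype_compl, Fintype.card_subtype_eq]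
  rw [← h3, h1]
  exact dvd_mul_left _ _

end Cfsg.Agent.H9.Semireg
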