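import Mathlib
import Cfsg.Agent.H9_Semireg

set_option autoImplicit false

namespace Cfsg.Agent.H9.NearLin

/-- a ring of endomorphisms of a finite space in which every non-zero element is injective is commutative. -/
theorem comm_of_inj {k V : Type*} [Field k] [AddCommGroup V] [Module k V] [Finite V] [Nontrivial V]
    (T : Subalgebra k (Module.End k V))
    (h : ∀ t ∈ T, t ≠ 0 → ∀ v : V, t v = 0 → v = 0) : ∀ s ∈ T, ∀ t ∈ T, s * t = t * s := by
  classical
  haveI : Finite (Module.End k V) := Finite.of_injective (fun f : Module.End k V => (f : V → V)) DFunLike.coe_injective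
  haveI : Finite T := inferInstance
  haveI : NoZeroDivisors T := ⟨by
    intro x y hxy
    by_cases hx : x = 0
    · exact Or.inl hx
    · right
      apply Subtype.ext
      ext v
      have h2 := congrArg (fun z : T => (z : Module.End k V) v) hxy
      exact h x x.2 (fun h0 => hx (Subtype.ext h0)) _ h2⟩
  haveI : Nontrivial T := ⟨⟨0, 1, by
    intro h
    obtain ⟨v, hv⟩ := exists_ne (0 : V)
    have h2 := congrArg (fun z : T => (z : Module.End k V) v) h
    exact hv h2.symm⟩⟩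
  haveI : IsDomain T := NoZeroDivisors.to_isDomain T
  have hf := Finite.isDomain_to_isField T
  intro s hs t ht
  exact congrArg Subtype.val (hf.mul_comm ⟨s, hs⟩ ⟨t, ht⟩)

/-- minimal non-zero subspace invariant under the subgroup `N` of `H`. -/
def IsMinInv {p : ℕ} {V : Type*} [AddCommGroup V] [Module (ZMod p) V]
    {H : Subgroup (V ≃ₗ[ZMod p] V)} (N : Subgroup H) (W : Submodule (ZMod p) V) : Prop :=
  W ≠ ⊥ ∧ (∀ a ∈ N, ∀ v ∈ W, ((a : H) : V ≃ₗ[ZMod p] V) v ∈ W) ∧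
    (∀ W' : Submodule (ZMod p) V, W' ≤ W → (∀ a ∈ N, ∀ v ∈ W', ((a : H) : V ≃ₗ[ZMod p] V) v ∈ W') → W' = ⊥ ∨ W' = W)

theorem isMinInv_map {p : ℕ} [Fact p.Prime] {V : Type*} [AddCommGroup V] [Module (ZMod p) V]
    {H : Subgroup (V ≃ₗ[ZMod p] V)} {N : Subgroup H} (hN : N.Normal) {W : Submodule (ZMod p) V}
    (hW : IsMinInv N W) (h : H) : IsMinInv N (W.map ((h : V ≃ₗ[ZMod p] V) : V →ₗ[ZMod p] V)) := by
  obtain ⟨h1, h2, h3⟩ := hW
  have hinv : ∀ (g : H) (X : Submodule (ZMod p) V), (∀ a ∈ N, ∀ v ∈ X, ((a : H) : V ≃ₗ[ZMod p] V) v ∈ X) →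
      (∀ a ∈ N, ∀ v ∈ (X.map ((g : V ≃ₗ[ZMod p] V) : V →ₗ[ZMod p] V)), ((a : H) : V ≃ₗ[ZMod p] V) v ∈ (X.map ((g : V ≃ₗ[ZMod p] V) : V →ₗ[ZMod p] V))) := by
    rintro g X hX a ha _ ⟨v, hv, rfl⟩
    have h4 : g⁻¹ * a * g ∈ N := by
      have := hN.conj_mem a ha g⁻¹
      simpa using this
    refine ⟨_, hX _ h4 v hv, ?_⟩
    change (((g * (g⁻¹ * a * g) : H)) : V ≃ₗ[ZMod p] V) v = ((a * g : H) : V ≃ₗ[ZMod p] V) v
    congr 2
    group
  refine ⟨?_, hinv h W h2, ?_⟩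
  · intro hb
    apply h1
    rw [eq_bot_iff]
    intro v hv
    have : ((h : V ≃ₗ[ZMod p] V)) v ∈ (W.map ((h : V ≃ₗ[ZMod p] V) : V →ₗ[ZMod p] V)) := ⟨v, hv, rfl⟩
    rw [hb, Submodule.mem_bot] at this
    rw [Submodule.mem_bot]
    simpa using this
  · intro W' hle hW'
    have hle' : W'.map (((h⁻¹ : H) : V ≃ₗ[ZMod p] V) : V →ₗ[ZMod p] V) ≤ W := by
      rintro _ ⟨v, hv, rfl⟩
      obtain ⟨w, hw, hwv⟩ := hle hv
      rw [← hwv]
      change (((h⁻¹ * h : H)) : V ≃ₗ[ZMod p] V) w ∈ W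
      rw [inv_mul_cancel]
      exact hw
    rcases h3 _ hle' (hinv h⁻¹ W' hW') with h5 | h5
    · left
      rw [eq_bot_iff]
      intro v hv
      have : (((h⁻¹ : H) : V ≃ₗ[ZMod p] V)) v ∈ (W'.map (((h⁻¹ : H) : V ≃ₗ[ZMod p] V) : V →ₗ[ZMod p] V)) := ⟨v, hv, rfl⟩
      rw [h5, Submodule.mem_bot] at this
      rw [Submodule.mem_bot]
      simpa using this
    · right
      apply le_antisymm hle
      rintro _ ⟨v, hv, rfl⟩
      have hv' : v ∈ W'.map (((h⁻¹ : H) : V ≃ₗ[ZMod p] V) : V →ₗ[ZMod p] V) := by rw [h5]; exact hv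
      obtain ⟨w, hw, rfl⟩ := hv'
      change (((h * h⁻¹ : H)) : V ≃ₗ[ZMod p] V) w ∈ W'
      rw [mul_inv_cancel]
      exact hw

/-- Every nonzero vector lies in a minimal invariant subspace of a normal subgroup of a transitive linear group. -/
theorem exists_minInv_mem {p : ℕ} [Fact p.Prime] {V : Type*} [AddCommGroup V] [Module (ZMod p) V]
    [Finite V] {H : Subgroup (V ≃ₗ[ZMod p] V)} {N : Subgroup H} (hN : N.Normal)
    (htr : ∀ v w : V, v ≠ 0 → w ≠ 0 → ∃ h : H, (h : V ≃ₗ[ZMod p] V) v = w) (v : V) (hv : v ≠ 0) :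
    ∃ W : Submodule (ZMod p) V, IsMinInv N W ∧ v ∈ W := by
  haveI : Nontrivial V := ⟨v, 0, hv⟩
  obtain ⟨W, hW1, hW2, hW3⟩ := H9.Semireg.exists_minimal_invariant (k := ZMod p) (V := V)
    {f | ∃ a ∈ N, f = (((a : H) : V ≃ₗ[ZMod p] V) : V →ₗ[ZMod p] V)}
  have hW : IsMinInv N W := ⟨hW1, fun a ha v hv => hW2 _ ⟨a, ha, rfl⟩ v hv, fun W' hle hinv =>
    hW3 W' hle (by rintro _ ⟨a, ha, rfl⟩ v hv; exact hinv a ha v hv)⟩
  obtain ⟨w, hw, hw0⟩ := (Submodule.ne_bot_iff _).1 hW1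
  obtain ⟨h, rfl⟩ := htr w v hw0 hv
  exact ⟨_, isMinInv_map hN hW h, ⟨w, hw, rfl⟩⟩

theorem IsMinInv.inf_eq {p : ℕ} {V : Type*} [AddCommGroup V] [Module (ZMod p) V]
    {H : Subgroup (V ≃ₗ[ZMod p] V)} {N : Subgroup H} {W W' : Submodule (ZMod p) V}
    (h : IsMinInv N W) (h' : IsMinInv N W') : W = W' ∨ W ⊓ W' = ⊥ := by
  have hinv : ∀ a ∈ N, ∀ v ∈ W ⊓ W', ((a : H) : V ≃ₗ[ZMod p] V) v ∈ W ⊓ W' :=
    fun a ha v hv => ⟨h.2.1 a ha v hv.1, h'.2.1 a ha v hv.2⟩
  rcases h.2.2 _ inf_le_left hinv with h1 | h1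
  · exact Or.inr h1
  · left
    rcases h'.2.2 _ inf_le_right hinv with h2 | h2
    · exact absurd (h1.symm.trans h2) h.1
    · rw [← h1]; exact h2

/-- A non-abelian normal subgroup of a linear group regular on the non-zero vectors is irreducible. -/
theorem irreducible_of_nonabelian {p : ℕ} [Fact p.Prime] {V : Type*} [AddCommGroup V] [Module (ZMod p) V]
    [Finite V] {H : Subgroup (V ≃ₗ[ZMod p] V)} {N : Subgroup H} (hN : N.Normal)
    (htr : ∀ v w : V, v ≠ 0 → w ≠ 0 → ∃ h : H, (h : V ≃ₗ[ZMod p] V) v = w)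
    (hNna : ¬ IsMulCommutative N) (W : Submodule (ZMod p) V)
    (hW : ∀ n ∈ N, ∀ v ∈ W, ((n : H) : V ≃ₗ[ZMod p] V) v ∈ W) : W = ⊥ ∨ W = ⊤ := by
  classical
  by_contra hcon
  push Not at hcon
  obtain ⟨hWb, hWt⟩ := hcon
  haveI : Nontrivial V := by
    obtain ⟨w, hw, hw0⟩ := (Submodule.ne_bot_iff _).1 hWb
    exact ⟨w, 0, hw0⟩
  let S : Set (Module.End (ZMod p) V) := {f | ∃ a ∈ N, f = (((a : H) : V ≃ₗ[ZMod p] V) : V →ₗ[ZMod p] V)}
  let T := Algebra.adjoin (ZMod p) S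
  have hTinv : ∀ t ∈ T, ∀ X : Submodule (ZMod p) V, (∀ n ∈ N, ∀ v ∈ X, ((n : H) : V ≃ₗ[ZMod p] V) v ∈ X) →
      ∀ v ∈ X, t v ∈ X := by
    intro t ht X hX
    refine Algebra.adjoin_induction (p := fun t _ => ∀ v ∈ X, t v ∈ X) ?_ ?_ ?_ ?_ ht
    · rintro _ ⟨a, ha, rfl⟩ v hv
      exact hX a ha v hv
    · intro r v hv
      exact X.smul_mem r hv
    · intro x y _ _ hx hy v hv
      exact X.add_mem (hx v hv) (hy v hv)
    · intro x y _ _ hx hy v hv
      exact hx _ (hy v hv)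
  have hnotop : ∀ X : Submodule (ZMod p) V, IsMinInv N X → X ≠ ⊤ := by
    intro X hX htop
    rcases hX.2.2 W (by rw [htop]; exact le_top) hW with h | h
    · exact hWb h
    · exact hWt (by rw [h, htop])
  -- first case
  have key1 : ∀ t ∈ T, ∀ v w : V, v ≠ 0 → w ≠ 0 → t v = 0 →
      (∀ X : Submodule (ZMod p) V, IsMinInv N X → v ∈ X → w ∉ X) → t w = 0 := by
    intro t ht v w hv hw htv hX
    obtain ⟨Mv, hMv, hvM⟩ := exists_minInv_mem hN htr v hv
    obtain ⟨Mw, hMw, hwM⟩ := exists_minInv_mem hN htr w hw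
    have hvw : v + w ≠ 0 := by
      intro h
      have : w = -v := (neg_eq_of_add_eq_zero_right h).symm
      exact hX Mv hMv hvM (by rw [this]; exact Mv.neg_mem hvM)
    obtain ⟨Ms, hMs, hsM⟩ := exists_minInv_mem hN htr (v + w) hvw
    rcases hMw.inf_eq hMs with h | h
    · exfalso
      have h1 : v ∈ Mw := by
        have : v = (v + w) - w := by simp
        rw [this]
        exact Mw.sub_mem (by rw [h]; exact hsM) hwM
      exact hX Mw hMw h1 hwM
    · have h1 : t w ∈ Mw := hTinv t ht Mw hMw.2.1 w hwM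
      have h2 : t w ∈ Ms := by
        have : t w = t (v + w) := by rw [map_add, htv, zero_add]
        rw [this]
        exact hTinv t ht Ms hMs.2.1 _ hsM
      have : t w ∈ Mw ⊓ Ms := ⟨h1, h2⟩
      rw [h] at this
      exact this
  have key2 : ∀ t ∈ T, ∀ v w : V, v ≠ 0 → w ≠ 0 → t v = 0 → t w = 0 := by
    intro t ht v w hv hw htv
    obtain ⟨Mv, hMv, hvM⟩ := exists_minInv_mem hN htr v hv
    by_cases hwM : w ∈ Mv
    · obtain ⟨x, -, hx⟩ := SetLike.exists_of_lt (lt_top_iff_ne_top.2 (hnotop Mv hMv))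
      have hx0 : x ≠ 0 := fun h => hx (by rw [h]; exact Mv.zero_mem)
      have h1 := key1 t ht v x hv hx0 htv (by
        intro X hX hvX hxX
        rcases hMv.inf_eq hX with h | h
        · exact hx (by rw [h]; exact hxX)
        · have : v ∈ Mv ⊓ X := ⟨hvM, hvX⟩
          rw [h] at this
          exact hv this)
      refine key1 t ht x w hx0 hw h1 ?_
      intro X hX hxX hwX
      rcases hMv.inf_eq hX with h | h
      · exact hx (by rw [h]; exact hxX)
      · have : w ∈ Mv ⊓ X := ⟨hwM, hwX⟩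
        rw [h] at this
        exact hw this
    · refine key1 t ht v w hv hw htv ?_
      intro X hX hvX hwX
      rcases hMv.inf_eq hX with h | h
      · exact hwM (by rw [h]; exact hwX)
      · have : v ∈ Mv ⊓ X := ⟨hvM, hvX⟩
        rw [h] at this
        exact hv this
  have hcomm := comm_of_inj T (by
    intro t ht ht0 v htv
    by_contra hv
    apply ht0
    ext w
    by_cases hw : w = 0
    · rw [hw, map_zero, map_zero]
    · exact key2 t ht v w hv hw htv)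
  apply hNna
  rw [isMulCommutative_iff]
  intro a b
  apply Subtype.ext
  apply Subtype.ext
  ext v
  have := hcomm _ (Algebra.subset_adjoin ⟨a.1, a.2, rfl⟩) _ (Algebra.subset_adjoin ⟨b.1, b.2, rfl⟩)
  exact congrArg (fun f : Module.End (ZMod p) V => f v) this

/-- The centraliser of an irreducible subgroup is commutative. -/
theorem comm_centralizer {p : ℕ} [Fact p.Prime] {V : Type*} [AddCommGroup V] [Module (ZMod p) V]
    [Finite V] [Nontrivial V] {H : Subgroup (V ≃ₗ[ZMod p] V)} {N : Subgroup H}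
    (hirr : ∀ W : Submodule (ZMod p) V, (∀ n ∈ N, ∀ v ∈ W, ((n : H) : V ≃ₗ[ZMod p] V) v ∈ W) → W = ⊥ ∨ W = ⊤) :
    IsMulCommutative (Subgroup.centralizer (N : Set H)) := by
  classical
  let S : Set (Module.End (ZMod p) V) := {f | ∃ a ∈ N, f = (((a : H) : V ≃ₗ[ZMod p] V) : V →ₗ[ZMod p] V)}
  let T := Subalgebra.centralizer (ZMod p) S
  have hcomm := comm_of_inj T (by
    intro t ht ht0 v htv
    rcases hirr (LinearMap.ker t) (by
      intro n hn w hw
      rw [LinearMap.mem_ker] at hw ⊢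
      have h1 := (Subalgebra.mem_centralizer_iff (ZMod p)).1 ht _ ⟨n, hn, rfl⟩
      have h2 := congrArg (fun f : Module.End (ZMod p) V => f w) h1
      change ((n : H) : V ≃ₗ[ZMod p] V) (t w) = t (((n : H) : V ≃ₗ[ZMod p] V) w) at h2
      rw [← h2, hw, map_zero]) with h | h
    · have : v ∈ LinearMap.ker t := htv
      rw [h] at this
      exact this
    · exact absurd (LinearMap.ker_eq_top.1 h) ht0)
  rw [isMulCommutative_iff]
  intro a b
  apply Subtype.ext
  apply Subtype.ext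
  ext v
  have hmem : ∀ a : Subgroup.centralizer (N : Set H), ((((a : H) : V ≃ₗ[ZMod p] V) : V →ₗ[ZMod p] V)) ∈ T := by
    intro a
    rw [Subalgebra.mem_centralizer_iff]
    rintro _ ⟨n, hn, rfl⟩
    have := Subgroup.mem_centralizer_iff.1 a.2 n hn
    ext w
    exact congrArg (fun f : H => (f : V ≃ₗ[ZMod p] V) w) this
  have := hcomm _ (hmem a) _ (hmem b)
  exact congrArg (fun f : Module.End (ZMod p) V => f v) this

end Cfsg.Agent.H9.NearLin
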