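import Mathlib

set_option autoImplicit false

namespace Cfsg.Agent.H9.SylowInt

variable {G : Type*} [Group G] [Finite G] {p : ℕ} [hp : Fact p.Prime]

/-- normalisers grow in `p`-groups, elementwise -/
theorem exists_mem_normalizer (P : Subgroup G) (hP : IsPGroup p P) (D : Subgroup G) (hD : D < P) :
    ∃ x ∈ P, x ∉ D ∧ x ∈ Subgroup.normalizer (D : Set G) := by
  haveI : Finite P := inferInstance
  haveI hnil : Group.IsNilpotent P := hP.isNilpotent
  have hlt : D.subgroupOf P < ⊤ := by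
    rw [lt_top_iff_ne_top]
    intro h
    exact absurd (Subgroup.subgroupOf_eq_top.1 h) (not_le_of_gt hD)
  have h1 := Group.normalizerCondition_of_isNilpotent (G := P) (D.subgroupOf P) hlt
  obtain ⟨x, hx, hxD⟩ := SetLike.exists_of_lt h1
  refine ⟨x, x.2, hxD, ?_⟩
  rw [Subgroup.mem_normalizer_iff] at hx ⊢
  intro y
  constructor
  · intro hy
    exact (hx ⟨y, hD.le hy⟩).1 hy
  · intro hy
    have hyP : y ∈ P := by
      have h2 : y = (x : G)⁻¹ * ((x : G) * y * (x : G)⁻¹) * x := by group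
      rw [h2]
      exact P.mul_mem (P.mul_mem (P.inv_mem x.2) (hD.le hy)) x.2
    exact (hx ⟨y, hyP⟩).2 hy

theorem inf_lt {P Q : Sylow p G} (hPQ : P ≠ Q) : (P : Subgroup G) ⊓ Q < P := by
  refine lt_of_le_of_ne inf_le_left ?_
  intro h
  apply hPQ
  have h1 : (P : Subgroup G) ≤ Q := by rw [← h]; exact inf_le_right
  exact Sylow.ext (P.3 Q.2 h1).symm

theorem isPGroup_map {N : Subgroup G} {S : Subgroup N} (hS : IsPGroup p S) : IsPGroup p (S.map N.subtype) :=
  hS.map _

theorem mem_map_subtype {N : Subgroup G} {S : Subgroup N} {x : G} :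
    x ∈ S.map N.subtype ↔ ∃ h : x ∈ N, (⟨x, h⟩ : N) ∈ S := by
  constructor
  · rintro ⟨y, hy, rfl⟩
    exact ⟨y.2, hy⟩
  · rintro ⟨h, hx⟩
    exact ⟨_, hx, rfl⟩

/-- Facts about a maximal intersection `D = P ∩ Q` of distinct Sylow subgroups. -/
theorem main (P Q : Sylow p G) (hPQ : P ≠ Q)
    (hmax : ∀ P' Q' : Sylow p G, P' ≠ Q' → Nat.card ↥((P' : Subgroup G) ⊓ (Q' : Subgroup G)) ≤ Nat.card ↥((P : Subgroup G) ⊓ (Q : Subgroup G)))
    (N : Subgroup G) (hN : N = Subgroup.normalizer (((P : Subgroup G) ⊓ (Q : Subgroup G) : Subgroup G) : Set G)) :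
    1 < Nat.card (Sylow p N) ∧
    (∀ S T : Sylow p N, S ≠ T → (S : Subgroup _) ⊓ (T : Subgroup _) = ((P : Subgroup G) ⊓ (Q : Subgroup G)).subgroupOf N) ∧
    ∀ S : Sylow p N, ∃! T : Sylow p G, (S : Subgroup _).map N.subtype ≤ (T : Subgroup G) := by
  classical
  set D : Subgroup G := (P : Subgroup G) ⊓ (Q : Subgroup G) with hD
  have hDN : D ≤ N := by rw [hN]; exact Subgroup.le_normalizer
  have hDp : IsPGroup p D := P.2.to_le inf_le_left
  -- two Sylow subgroups containing a bigger subgroup coincide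
  have huniq : ∀ T1 T2 : Sylow p G, ∀ X : Subgroup G, X ≤ T1 → X ≤ T2 → Nat.card D < Nat.card X → T1 = T2 := by
    intro T1 T2 X h1 h2 hlt
    by_contra hne
    have h3 := hmax T1 T2 hne
    have h4 := Subgroup.card_le_of_le (le_inf h1 h2)
    omega
  have hcardlt : ∀ X : Subgroup G, D ≤ X → (∃ x ∈ X, x ∉ D) → Nat.card D < Nat.card X := by
    intro X hX ⟨x, hx, hxD⟩
    refine lt_of_le_of_ne (Subgroup.card_le_of_le hX) ?_
    intro h
    have := Subgroup.eq_of_le_of_card_ge hX h.ge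
    exact hxD (this ▸ hx)
  have hDS : ∀ S : Sylow p N, D ≤ (S : Subgroup N).map N.subtype := by
    intro S x hx
    rw [mem_map_subtype]
    refine ⟨hDN hx, ?_⟩
    haveI : (D.subgroupOf N).Normal := by
      rw [hN]; infer_instance
    have h1 : IsPGroup p (D.subgroupOf N) := hDp.comap_subtype
    exact h1.le_sylow_of_normal S hx
  obtain ⟨x, hxP, hxD, hxN⟩ := exists_mem_normalizer (P : Subgroup G) P.2 D (inf_lt hPQ)
  obtain ⟨y, hyQ, hyD, hyN⟩ := exists_mem_normalizer (Q : Subgroup G) Q.2 D (by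
    rw [hD, inf_comm]; exact inf_lt hPQ.symm)
  rw [← hN] at hxN hyN
  -- p-subgroups of N
  have hPN : IsPGroup p ((P : Subgroup G) ⊓ N : Subgroup G) := P.2.to_le inf_le_left
  have hQN : IsPGroup p ((Q : Subgroup G) ⊓ N : Subgroup G) := Q.2.to_le inf_le_left
  have hPlt : Nat.card D < Nat.card ((P : Subgroup G) ⊓ N : Subgroup G) :=
    hcardlt _ (le_inf inf_le_left hDN) ⟨x, ⟨hxP, hxN⟩, hxD⟩
  have hQlt : Nat.card D < Nat.card ((Q : Subgroup G) ⊓ N : Subgroup G) :=
    hcardlt _ (le_inf inf_le_right hDN) ⟨y, ⟨hyQ, hyN⟩, hyD⟩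
  obtain ⟨SP, hSP⟩ : ∃ S : Sylow p N, (P : Subgroup G) ⊓ N ≤ (S : Subgroup N).map N.subtype := by
    obtain ⟨S, hS⟩ := (P.2.comap_subtype (K := N)).exists_le_sylow
    refine ⟨S, ?_⟩
    rintro z ⟨hz1, hz2⟩
    rw [mem_map_subtype]
    exact ⟨hz2, hS hz1⟩
  obtain ⟨SQ, hSQ⟩ : ∃ S : Sylow p N, (Q : Subgroup G) ⊓ N ≤ (S : Subgroup N).map N.subtype := by
    obtain ⟨S, hS⟩ := (Q.2.comap_subtype (K := N)).exists_le_sylow
    refine ⟨S, ?_⟩
    rintro z ⟨hz1, hz2⟩
    rw [mem_map_subtype]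
    exact ⟨hz2, hS hz1⟩
  have hcardS : ∀ S : Sylow p N, Nat.card D < Nat.card ((S : Subgroup N).map N.subtype : Subgroup G) := by
    intro S
    refine lt_of_lt_of_le hPlt ?_
    refine (Subgroup.card_le_of_le hSP).trans ?_
    rw [Subgroup.card_map_of_injective N.subtype_injective, Subgroup.card_map_of_injective N.subtype_injective,
      SP.card_eq_multiplicity, S.card_eq_multiplicity]
  have hexists : ∀ S : Sylow p N, ∃ T : Sylow p G, (S : Subgroup N).map N.subtype ≤ T := fun S =>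
    (isPGroup_map S.2).exists_le_sylow
  -- S is recovered from T
  have hrec : ∀ (S : Sylow p N) (T : Sylow p G), (S : Subgroup N).map N.subtype ≤ T → (S : Subgroup N) = (T : Subgroup G).subgroupOf N := by
    intro S T h
    have h1 : (S : Subgroup N) ≤ (T : Subgroup G).subgroupOf N := fun z hz => h ⟨z, hz, rfl⟩
    exact (S.3 T.2.comap_subtype h1).symm
  refine ⟨?_, ?_, ?_⟩
  · rw [Finite.one_lt_card_iff_nontrivial]
    refine ⟨⟨SP, SQ, ?_⟩⟩
    intro heq
    obtain ⟨T, hT⟩ := hexists SP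
    have h1 : T = P := huniq T P _ (hSP.trans hT) inf_le_left hPlt
    have h2 : T = Q := huniq T Q _ (hSQ.trans (by rw [← heq]; exact hT)) inf_le_left hQlt
    exact hPQ (h1.symm.trans h2)
  · intro S T hST
    obtain ⟨S', hS'⟩ := hexists S
    obtain ⟨T', hT'⟩ := hexists T
    have hne : S' ≠ T' := by
      intro h
      apply hST
      apply Sylow.ext
      rw [hrec S S' hS', hrec T T' hT', h]
    have h1 : D ≤ ((S : Subgroup N) ⊓ (T : Subgroup N)).map N.subtype := by
      intro z hz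
      rw [mem_map_subtype]
      obtain ⟨h1, h2⟩ := mem_map_subtype.1 (hDS S hz)
      obtain ⟨h3, h4⟩ := mem_map_subtype.1 (hDS T hz)
      exact ⟨h1, h2, h4⟩
    have h2 : ((S : Subgroup N) ⊓ (T : Subgroup N)).map N.subtype ≤ (S' : Subgroup G) ⊓ T' :=
      le_inf ((Subgroup.map_mono inf_le_left).trans hS') ((Subgroup.map_mono inf_le_right).trans hT')
    have h3 := Subgroup.card_le_of_le h2
    have h4 := hmax S' T' hne
    have h5 := Subgroup.eq_of_le_of_card_ge h1 (h3.trans h4)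
    rw [h5, Subgroup.subgroupOf, Subgroup.comap_map_eq_self_of_injective N.subtype_injective]
  · intro S
    obtain ⟨T, hT⟩ := hexists S
    exact ⟨T, hT, fun T' hT' => huniq T' T _ hT' hT (hcardS S)⟩

end Cfsg.Agent.H9.SylowInt
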