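import Mathlib

/-!
H9_VL1: Vaughan-Lee's theorem, the counting argument in linear algebra.
-/

set_option autoImplicit false

namespace Cfsg.Agent.H9.VL

variable {p : ℕ} [hp : Fact p.Prime]

theorem card_ker {W : Type*} [AddCommGroup W] [Module (ZMod p) W] [Finite W] {φ : W →ₗ[ZMod p] ZMod p} (hφ : φ ≠ 0) :
    Nat.card W = p * Nat.card (LinearMap.ker φ) := by
  have hs : Function.Surjective φ := LinearMap.surjective hφ
  have h1 := Submodule.card_eq_card_quotient_mul_card (LinearMap.ker φ)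
  have h2 : Nat.card (W ⧸ LinearMap.ker φ) = p := by
    rw [Nat.card_congr (φ.quotKerEquivOfSurjective hs).toEquiv, Nat.card_zmod]
  rw [h1, h2, mul_comm]

theorem card_filter' {W : Type*} [Fintype W] (P : W → Prop) [DecidablePred P] :
    (Finset.univ.filter P).card = Nat.card {w // P w} := by
  rw [Nat.card_eq_fintype_card, Fintype.card_subtype]

theorem card_ker' {W : Type*} [AddCommGroup W] [Module (ZMod p) W] (φ : W →ₗ[ZMod p] ZMod p) :
    Nat.card (LinearMap.ker φ) = Nat.card {w // φ w = 0} :=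
  Nat.card_congr (Equiv.subtypeEquivRight (fun _ => LinearMap.mem_ker))

/-- at least `(1 - 1/p)^2` of the vectors avoid two hyperplanes -/
theorem avoid {W : Type*} [AddCommGroup W] [Module (ZMod p) W] [Finite W] {φ ψ : W →ₗ[ZMod p] ZMod p} (hφ : φ ≠ 0) (hψ : ψ ≠ 0) :
    Nat.card W * (p - 1) ^ 2 ≤ p ^ 2 * Nat.card {w : W // φ w ≠ 0 ∧ ψ w ≠ 0} := by
  classical
  haveI : Fintype W := Fintype.ofFinite W
  have hp1 := hp.out.one_le
  have h1 := card_ker hφ
  have h2 := card_ker hψ
  -- intersection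
  have h3 : Nat.card (LinearMap.ker φ) ≤ p * Nat.card {w : W // φ w = 0 ∧ ψ w = 0} := by
    set ρ : LinearMap.ker φ →ₗ[ZMod p] ZMod p := ψ.comp (LinearMap.ker φ).subtype with hρ
    have e : Nat.card {w : W // φ w = 0 ∧ ψ w = 0} = Nat.card (LinearMap.ker ρ) := by
      apply Nat.card_congr
      exact { toFun := fun w => ⟨⟨w.1, w.2.1⟩, w.2.2⟩, invFun := fun w => ⟨w.1.1, w.1.2, w.2⟩, left_inv := fun w => rfl, right_inv := fun w => rfl }
    rw [e]
    by_cases h0 : ρ = 0
    · rw [h0, LinearMap.ker_zero]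
      have : Nat.card (⊤ : Submodule (ZMod p) (LinearMap.ker φ)) = Nat.card (LinearMap.ker φ) :=
        Nat.card_congr Submodule.topEquiv.toEquiv
      rw [this]
      exact Nat.le_mul_of_pos_left _ hp.out.pos
    · exact (card_ker h0).le
  have c1 : Nat.card (LinearMap.ker φ) = (Finset.univ.filter (fun w : W => φ w = 0)).card := by
    rw [card_filter', card_ker']
  have c2 : Nat.card (LinearMap.ker ψ) = (Finset.univ.filter (fun w : W => ψ w = 0)).card := by
    rw [card_filter', card_ker']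
  have c3 : Nat.card {w : W // φ w = 0 ∧ ψ w = 0} = (Finset.univ.filter (fun w : W => φ w = 0) ∩ Finset.univ.filter (fun w : W => ψ w = 0)).card := by
    rw [← Finset.filter_and, card_filter']
  have c4 : Nat.card {w : W // φ w ≠ 0 ∧ ψ w ≠ 0} = ((Finset.univ.filter (fun w : W => φ w = 0) ∪ Finset.univ.filter (fun w : W => ψ w = 0))ᶜ).card := by
    rw [Nat.card_eq_fintype_card, Fintype.card_subtype]
    congr 1
    ext w
    simp
  have c5 := Finset.card_union_add_card_inter (Finset.univ.filter (fun w : W => φ w = 0)) (Finset.univ.filter (fun w : W => ψ w = 0))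
  have c6 := Finset.card_add_card_compl (Finset.univ.filter (fun w : W => φ w = 0) ∪ Finset.univ.filter (fun w : W => ψ w = 0))
  rw [← Nat.card_eq_fintype_card] at c6
  rw [← c1, ← c2, ← c3] at c5
  rw [← c4] at c6
  have e1 : (Nat.card W : ℤ) = p * Nat.card (LinearMap.ker φ) := by exact_mod_cast h1
  have e2 : (Nat.card W : ℤ) = p * Nat.card (LinearMap.ker ψ) := by exact_mod_cast h2
  have e3 : (Nat.card (LinearMap.ker φ) : ℤ) ≤ p * Nat.card {w : W // φ w = 0 ∧ ψ w = 0} := by exact_mod_cast h3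
  have e5 : (((Finset.univ.filter (fun w : W => φ w = 0) ∪ Finset.univ.filter (fun w : W => ψ w = 0)).card : ℕ) : ℤ) +
      Nat.card {w : W // φ w = 0 ∧ ψ w = 0} = Nat.card (LinearMap.ker φ) + Nat.card (LinearMap.ker ψ) := by exact_mod_cast c5
  have e6 : (((Finset.univ.filter (fun w : W => φ w = 0) ∪ Finset.univ.filter (fun w : W => ψ w = 0)).card : ℕ) : ℤ) +
      Nat.card {w : W // φ w ≠ 0 ∧ ψ w ≠ 0} = Nat.card W := by exact_mod_cast c6
  have hpz : (0 : ℤ) < p := by exact_mod_cast hp.out.pos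
  have hmain : (Nat.card W : ℤ) * ((p : ℤ) - 1) ^ 2 ≤ p ^ 2 * Nat.card {w : W // φ w ≠ 0 ∧ ψ w ≠ 0} := by
    have e7 : (p : ℤ) ^ 2 * Nat.card {w : W // φ w ≠ 0 ∧ ψ w ≠ 0} = p ^ 2 * Nat.card W - p * (p * Nat.card (LinearMap.ker φ)) -
        p * (p * Nat.card (LinearMap.ker ψ)) + p * (p * Nat.card {w : W // φ w = 0 ∧ ψ w = 0}) := by
      linear_combination (p : ℤ) ^ 2 * e6 - (p : ℤ) ^ 2 * e5
    rw [e7, ← e1, ← e2]
    have e8 : (Nat.card W : ℤ) ≤ p * (p * Nat.card {w : W // φ w = 0 ∧ ψ w = 0}) := by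
      rw [e1]; exact mul_le_mul_of_nonneg_left e3 hpz.le
    nlinarith
  have : ((Nat.card W * (p - 1) ^ 2 : ℕ) : ℤ) ≤ ((p ^ 2 * Nat.card {w : W // φ w ≠ 0 ∧ ψ w ≠ 0} : ℕ) : ℤ) := by
    push_cast [hp1]
    exact hmain
  exact_mod_cast this

theorem card_dual {V : Type*} [AddCommGroup V] [Module (ZMod p) V] [Finite V] : Nat.card (Module.Dual (ZMod p) V) = Nat.card V := by
  haveI : Module.Finite (ZMod p) V := Module.Finite.of_finite
  haveI : Finite (Module.Dual (ZMod p) V) := Module.finite_of_finite (ZMod p)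
  rw [Module.natCard_eq_pow_finrank (K := ZMod p) (V := V), Module.natCard_eq_pow_finrank (K := ZMod p) (V := Module.Dual (ZMod p) V),
    Subspace.dual_finrank_eq]

/-- the key contradiction -/
theorem LA {V : Type*} [AddCommGroup V] [Module (ZMod p) V] [Finite V] (η : Module.Dual (ZMod p) V) (hη : η ≠ 0)
    (β : Module.Dual (ZMod p) V → Module.Dual (ZMod p) V) (hβ : ∀ α, α ≠ 0 → ∀ c : ZMod p, β α ≠ c • α)
    (y : V → V) (hy : ∀ x, η x ≠ 0 → (∀ c : ZMod p, y x ≠ c • x) ∧ ∀ α : Module.Dual (ZMod p) V, α ≠ 0 → α x * β α (y x) = α (y x) * β α x) :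
    False := by
  classical
  haveI : Module.Finite (ZMod p) V := Module.Finite.of_finite
  haveI : Finite (Module.Dual (ZMod p) V) := Module.finite_of_finite (ZMod p)
  haveI : Fintype V := Fintype.ofFinite V
  haveI : Fintype (Module.Dual (ZMod p) V) := Fintype.ofFinite _
  have hp1 := hp.out.one_le
  set n := Nat.card V with hn
  have hDn : Nat.card (Module.Dual (ZMod p) V) = n := card_dual
  set s : Finset (Module.Dual (ZMod p) V) := Finset.univ.filter (fun α => ∀ c : ZMod p, α ≠ c • η) with hs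
  set t : Finset V := Finset.univ.filter (fun x => η x ≠ 0) with ht
  let r : Module.Dual (ZMod p) V → V → Prop := fun α x => α x = 0 ∧ β α x ≠ 0
  have hcount := Finset.sum_card_bipartiteAbove_eq_sum_card_bipartiteBelow (s := s) (t := t) r
  -- cardinality of s
  have hscard : n ≤ s.card + p := by
    have h1 := Finset.card_add_card_compl s
    rw [← Nat.card_eq_fintype_card, hDn] at h1
    have h2 : sᶜ ⊆ Finset.univ.image (fun c : ZMod p => c • η) := by
      intro α hα
      simp only [hs, Finset.mem_compl, Finset.mem_filter, Finset.mem_univ, true_and, not_forall, not_not] at hα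
      obtain ⟨c, hc⟩ := hα
      exact Finset.mem_image.2 ⟨c, Finset.mem_univ _, hc.symm⟩
    have h3 := (Finset.card_le_card h2).trans Finset.card_image_le
    rw [Finset.card_univ, ZMod.card] at h3
    omega
  -- cardinality of t
  have htcard : p * t.card + n = p * n := by
    have h1 := card_ker hη
    rw [← hn] at h1
    have h2 : Nat.card (LinearMap.ker η) = (Finset.univ.filter (fun x : V => η x = 0)).card := by
      rw [card_filter', card_ker']
    have h3 : t.card + (Finset.univ.filter (fun x : V => η x = 0)).card = n := by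
      rw [ht, add_comm, Finset.card_filter_add_card_filter_not, Finset.card_univ, hn, Nat.card_eq_fintype_card]
    rw [← h2] at h3
    calc p * t.card + n = p * t.card + p * Nat.card (LinearMap.ker η) := by rw [← h1]
      _ = p * n := by rw [← h3]; ring
  -- upper bound
  have hup : ∀ x ∈ t, p ^ 2 * (s.bipartiteBelow r x).card + p ^ 2 ≤ n := by
    intro x hx
    have hηx : η x ≠ 0 := (Finset.mem_filter.1 hx).2
    obtain ⟨hyx, hyα⟩ := hy x hηx
    have hx0 : x ≠ 0 := by rintro rfl; exact hηx (map_zero _)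
    -- K1 = annihilator of x
    let ev : V → (Module.Dual (ZMod p) V →ₗ[ZMod p] ZMod p) := fun v => Module.Dual.eval (ZMod p) V v
    have hev : ev x ≠ 0 := by
      intro h
      have := LinearMap.congr_fun h η
      exact hηx this
    have k1 := card_ker hev
    set ρ : LinearMap.ker (ev x) →ₗ[ZMod p] ZMod p := (ev (y x)).comp (LinearMap.ker (ev x)).subtype with hρ
    have hρ0 : ρ ≠ 0 := by
      intro h
      have hnot : y x ∉ Submodule.span (ZMod p) {x} := by
        intro h'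
        obtain ⟨c, hc⟩ := Submodule.mem_span_singleton.1 h'
        exact hyx c hc.symm
      obtain ⟨f, hf1, hf2⟩ := Submodule.exists_le_ker_of_notMem hnot
      have hfx : f x = 0 := hf2 (Submodule.mem_span_singleton_self x)
      apply hf1
      exact LinearMap.congr_fun h ⟨f, hfx⟩
    have k2 := card_ker hρ0
    have k3 : s.bipartiteBelow r x ⊆ (Finset.univ.filter (fun α : Module.Dual (ZMod p) V => α x = 0 ∧ α (y x) = 0)).erase 0 := by
      intro α hα
      obtain ⟨hαs, hα1, hα2⟩ := Finset.mem_filter.1 hα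
      have hα0 : α ≠ 0 := by
        rintro rfl
        exact (Finset.mem_filter.1 hαs).2 0 (by rw [zero_smul])
      have h1 := hyα α hα0
      rw [hα1, zero_mul] at h1
      refine Finset.mem_erase.2 ⟨hα0, Finset.mem_filter.2 ⟨Finset.mem_univ _, hα1, ?_⟩⟩
      exact (mul_eq_zero.1 h1.symm).resolve_right hα2
    have k4 : (Finset.univ.filter (fun α : Module.Dual (ZMod p) V => α x = 0 ∧ α (y x) = 0)).card = Nat.card (LinearMap.ker ρ) := by
      rw [← Fintype.card_subtype, ← Nat.card_eq_fintype_card]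
      apply Nat.card_congr
      exact { toFun := fun w => ⟨⟨w.1, w.2.1⟩, w.2.2⟩, invFun := fun w => ⟨w.1.1, w.1.2, w.2⟩, left_inv := fun w => rfl, right_inv := fun w => rfl }
    have k5 := Finset.card_le_card k3
    rw [Finset.card_erase_of_mem (Finset.mem_filter.2 ⟨Finset.mem_univ _, by simp, by simp⟩), k4] at k5
    have k6 : 0 < Nat.card (LinearMap.ker ρ) := Nat.card_pos
    have k7 : n = p ^ 2 * Nat.card (LinearMap.ker ρ) := by
      rw [← hDn, k1, k2]; ring
    rw [k7]
    calc p ^ 2 * (s.bipartiteBelow r x).card + p ^ 2 = p ^ 2 * ((s.bipartiteBelow r x).card + 1) := by ring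
      _ ≤ p ^ 2 * Nat.card (LinearMap.ker ρ) := Nat.mul_le_mul_left _ (by omega)
  -- lower bound
  have hlow : ∀ α ∈ s, n * (p - 1) ^ 2 ≤ p ^ 3 * (t.bipartiteAbove r α).card := by
    intro α hα
    have hα' := (Finset.mem_filter.1 hα).2
    have hα0 : α ≠ 0 := by
      rintro rfl
      exact hα' 0 (by rw [zero_smul])
    -- a functional vanishing on ker α is a multiple of α
    have hmul : ∀ f : Module.Dual (ZMod p) V, (∀ x, α x = 0 → f x = 0) → ∃ c : ZMod p, f = c • α := by
      intro f hf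
      obtain ⟨v, hv⟩ : ∃ v, α v ≠ 0 := by
        by_contra h
        push Not at h
        exact hα0 (LinearMap.ext h)
      refine ⟨f v * (α v)⁻¹, LinearMap.ext fun x => ?_⟩
      have h1 : α (x - (α x * (α v)⁻¹) • v) = 0 := by
        rw [map_sub, map_smul, smul_eq_mul, mul_assoc, inv_mul_cancel₀ hv, mul_one, sub_self]
      have h2 := hf _ h1
      rw [map_sub, map_smul, smul_eq_mul, sub_eq_zero] at h2
      rw [h2, LinearMap.smul_apply, smul_eq_mul]; ring
    set φ : LinearMap.ker α →ₗ[ZMod p] ZMod p := η.comp (LinearMap.ker α).subtype with hφ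
    set ψ : LinearMap.ker α →ₗ[ZMod p] ZMod p := (β α).comp (LinearMap.ker α).subtype with hψ
    have hφ0 : φ ≠ 0 := by
      intro h
      obtain ⟨c, hc⟩ := hmul η (fun x hx => LinearMap.congr_fun h ⟨x, hx⟩)
      have hc0 : c ≠ 0 := by rintro rfl; rw [zero_smul] at hc; exact hη hc
      apply hα' c⁻¹
      rw [hc, smul_smul, inv_mul_cancel₀ hc0, one_smul]
    have hψ0 : ψ ≠ 0 := by
      intro h
      obtain ⟨c, hc⟩ := hmul (β α) (fun x hx => LinearMap.congr_fun h ⟨x, hx⟩)
      exact hβ α hα0 c hc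
    have h1 := avoid hφ0 hψ0
    have h2 := card_ker hα0
    rw [← hn] at h2
    have h3 : Nat.card {w : LinearMap.ker α // φ w ≠ 0 ∧ ψ w ≠ 0} = (t.bipartiteAbove r α).card := by
      have : (t.bipartiteAbove r α).card = Nat.card {x : V // x ∈ t.bipartiteAbove r α} := by
        rw [Nat.card_eq_fintype_card, Fintype.card_coe]
      rw [this]
      apply Nat.card_congr
      exact { toFun := fun w => ⟨w.1.1, Finset.mem_filter.2 ⟨Finset.mem_filter.2 ⟨Finset.mem_univ _, w.2.1⟩, w.1.2, w.2.2⟩⟩,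
              invFun := fun w => ⟨⟨w.1, (Finset.mem_filter.1 w.2).2.1⟩, (Finset.mem_filter.1 (Finset.mem_filter.1 w.2).1).2, (Finset.mem_filter.1 w.2).2.2⟩,
              left_inv := fun w => rfl, right_inv := fun w => rfl }
    rw [h3] at h1
    calc n * (p - 1) ^ 2 = p * (Nat.card (LinearMap.ker α) * (p - 1) ^ 2) := by rw [h2]; ring
      _ ≤ p * (p ^ 2 * (t.bipartiteAbove r α).card) := Nat.mul_le_mul_left _ h1
      _ = p ^ 3 * (t.bipartiteAbove r α).card := by ring
  -- combine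
  have hL : s.card * (n * (p - 1) ^ 2) ≤ p ^ 3 * ∑ α ∈ s, (t.bipartiteAbove r α).card := by
    rw [Finset.mul_sum, ← smul_eq_mul, ← Finset.sum_const]
    exact Finset.sum_le_sum hlow
  have hU : p ^ 2 * ∑ x ∈ t, (s.bipartiteBelow r x).card + t.card * p ^ 2 ≤ t.card * n := by
    rw [Finset.mul_sum]
    calc ∑ x ∈ t, p ^ 2 * (s.bipartiteBelow r x).card + t.card * p ^ 2 = ∑ x ∈ t, (p ^ 2 * (s.bipartiteBelow r x).card + p ^ 2) := by
          rw [Finset.sum_add_distrib, Finset.sum_const, smul_eq_mul]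
      _ ≤ ∑ x ∈ t, n := Finset.sum_le_sum hup
      _ = t.card * n := by rw [Finset.sum_const, smul_eq_mul]
  rw [hcount] at hL
  set N := ∑ x ∈ t, (s.bipartiteBelow r x).card with hN
  have hn0 : 0 < n := Nat.card_pos
  have pz : (2 : ℤ) ≤ p := by exact_mod_cast hp.out.two_le
  have nz : (0 : ℤ) < n := by exact_mod_cast hn0
  have z1 : (n : ℤ) ≤ s.card + p := by exact_mod_cast hscard
  have z2 : (p : ℤ) * t.card + n = p * n := by exact_mod_cast htcard
  have z3 : (s.card : ℤ) * (n * ((p : ℤ) - 1) ^ 2) ≤ p ^ 3 * N := by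
    have : ((s.card * (n * (p - 1) ^ 2) : ℕ) : ℤ) ≤ ((p ^ 3 * N : ℕ) : ℤ) := by exact_mod_cast hL
    push_cast [hp1] at this
    exact this
  have z4 : (p : ℤ) ^ 2 * N + t.card * p ^ 2 ≤ t.card * n := by exact_mod_cast hU
  -- p^3 N ≤ p t (n - p^2) = n (p-1) (n - p^2)
  have z5 : (p : ℤ) ^ 3 * N ≤ n * ((p : ℤ) - 1) * (n - p ^ 2) := by
    have h1 : (p : ℤ) * (t.card : ℤ) = (n : ℤ) * ((p : ℤ) - 1) := by linarith
    have h2 : (p : ℤ) * ((p : ℤ) ^ 2 * (N : ℤ)) ≤ (p : ℤ) * ((t.card : ℤ) * (n : ℤ) - (t.card : ℤ) * (p : ℤ) ^ 2) :=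
      mul_le_mul_of_nonneg_left (by linarith) (by linarith)
    have h3 : (p : ℤ) * ((t.card : ℤ) * (n : ℤ) - (t.card : ℤ) * (p : ℤ) ^ 2) = ((p : ℤ) * (t.card : ℤ)) * ((n : ℤ) - (p : ℤ) ^ 2) := by ring
    rw [h3, h1] at h2
    calc (p : ℤ) ^ 3 * (N : ℤ) = (p : ℤ) * ((p : ℤ) ^ 2 * (N : ℤ)) := by ring
      _ ≤ _ := h2
  have z6 : ((n : ℤ) - p) * (n * ((p : ℤ) - 1) ^ 2) ≤ s.card * (n * ((p : ℤ) - 1) ^ 2) :=
    mul_le_mul_of_nonneg_right (by linarith) (by positivity)
  have z7 : ((n : ℤ) - p) * (n * ((p : ℤ) - 1) ^ 2) ≤ n * ((p : ℤ) - 1) * (n - p ^ 2) := z6.trans (z3.trans z5)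
  have z8 : (n * ((p : ℤ) - 1)) * (((n : ℤ) - p) * (p - 1) - (n - p ^ 2)) ≤ 0 := by
    have : (n * ((p : ℤ) - 1)) * (((n : ℤ) - p) * (p - 1) - (n - p ^ 2)) = ((n : ℤ) - p) * (n * ((p : ℤ) - 1) ^ 2) - n * ((p : ℤ) - 1) * (n - p ^ 2) := by ring
    rw [this]; linarith
  have z9 : (0 : ℤ) < ((n : ℤ) - p) * (p - 1) - (n - p ^ 2) := by
    have : ((n : ℤ) - p) * (p - 1) - (n - p ^ 2) = n * (p - 2) + p := by ring
    rw [this]
    have : (0 : ℤ) ≤ n * (p - 2) := mul_nonneg nz.le (by linarith)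
    linarith
  have z10 : (0 : ℤ) < n * ((p : ℤ) - 1) := mul_pos nz (by linarith)
  have := mul_pos z10 z9
  linarith

end Cfsg.Agent.H9.VL
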