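import Mathlib

/-!
H9_VL2: Vaughan-Lee's theorem: in a nilpotent group generated by `x_1, …, x_d`, every element of the derived group is a
product of commutators `[k_j, x_j]`.
-/

set_option autoImplicit false
open scoped Pointwise commutatorElement

namespace Cfsg.Agent.H9.VL

universe u

/-- the set of commutators `[k, x]`, `k ∈ K` -/
def cs {G : Type u} [Group G] (K : Subgroup G) (x : G) : Set G := {g | ∃ k ∈ K, g = ⁅k, x⁆}

theorem comm_mul {G : Type u} [Group G] (a b c : G) : ⁅a * b, c⁆ = a * ⁅b, c⁆ * a⁻¹ * ⁅a, c⁆ := by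
  simp only [commutatorElement_def]; group

theorem absorb {G : Type u} [Group G] {Z : Set G} (hZ : ∀ z ∈ Z, ∀ g : G, z * g = g * z) :
    ∀ (l : List (Set G)) (s : Set G), s ∈ l → s * Z ⊆ s → l.prod * Z ⊆ l.prod := by
  intro l
  induction l with
  | nil => intro s hs; simp at hs
  | cons a l ih =>
    intro s hs hsZ
    rw [List.prod_cons]
    rcases List.mem_cons.1 hs with rfl | h
    · rintro g hg
      obtain ⟨u, hu, z, hz, rfl⟩ := Set.mem_mul.1 hg
      obtain ⟨v, hv, w, hw, rfl⟩ := Set.mem_mul.1 hu
      have : v * w * z = (v * z) * w := by rw [mul_assoc, ← hZ z hz w, ← mul_assoc]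
      rw [this]
      exact Set.mul_mem_mul (hsZ (Set.mul_mem_mul hv hz)) hw
    · rw [mul_assoc]
      exact Set.mul_subset_mul_left (ih s h hsZ)

theorem one_mem_prod {G : Type u} [Group G] : ∀ l : List (Set G), (∀ s ∈ l, (1 : G) ∈ s) → (1 : G) ∈ l.prod := by
  intro l
  induction l with
  | nil => intro _; simp
  | cons a l ih =>
    intro h
    rw [List.prod_cons]
    exact ⟨1, h a List.mem_cons_self, 1, ih (fun s hs => h s (List.mem_cons_of_mem _ hs)), mul_one 1⟩

/-- there is a noncentral commutator datum with central commutator -/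
theorem exists_central {d : ℕ} {G : Type u} [Group G] [Finite G] (hG : Group.IsNilpotent G) (x : Fin d → G) (K : Fin d → Subgroup G)
    (hgen : Subgroup.closure (Set.range x) = ⊤) (hK : ∀ j, commutator G ≤ K j) (hx : ∀ i j, i < j → x i ∈ K j)
    (hnab : commutator G ≠ ⊥) : ∃ j, ∃ m ∈ K j, ⁅m, x j⁆ ∈ Subgroup.center G ∧ ⁅m, x j⁆ ≠ 1 := by
  classical
  -- an element commuting with all generators is central
  have hcen : ∀ m : G, (∀ j, ⁅m, x j⁆ = 1) → m ∈ Subgroup.center G := by
    intro m hm
    rw [Subgroup.mem_center_iff]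
    intro g
    have h1 : Subgroup.closure (Set.range x) ≤ Subgroup.centralizer ({m} : Set G) := by
      rw [Subgroup.closure_le]
      rintro _ ⟨j, rfl⟩
      rw [SetLike.mem_coe, Subgroup.mem_centralizer_singleton_iff]
      exact (commutatorElement_eq_one_iff_mul_comm.1 (hm j)).symm
    rw [hgen] at h1
    exact Subgroup.mem_centralizer_singleton_iff.1 (h1 (Subgroup.mem_top g))
  by_cases hc2 : commutator G ≤ Subgroup.center G
  · -- class two
    by_contra hno
    push Not at hno
    apply hnab
    have h1 : ∀ j, ∀ m ∈ K j, ⁅m, x j⁆ = 1 := by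
      intro j m hm
      exact hno j m hm (hc2 (Subgroup.commutator_mem_commutator (Subgroup.mem_top _) (Subgroup.mem_top _)))
    have h2 : ∀ i j, ⁅x i, x j⁆ = 1 := by
      intro i j
      rcases lt_trichotomy i j with h | h | h
      · exact h1 j _ (hx i j h)
      · rw [h, commutatorElement_self]
      · have := h1 i _ (hx j i h)
        rw [← commutatorElement_inv, this, inv_one]
    have h3 : ∀ i, x i ∈ Subgroup.center G := fun i => hcen _ (fun j => h2 i j)
    have h4 : Subgroup.center G = ⊤ := by
      rw [eq_top_iff, ← hgen, Subgroup.closure_le]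
      rintro _ ⟨j, rfl⟩
      exact h3 j
    rw [eq_bot_iff, commutator_def, Subgroup.commutator_le]
    intro a _ b _
    rw [Subgroup.mem_bot, commutatorElement_eq_one_iff_mul_comm]
    have : a ∈ Subgroup.center G := by rw [h4]; trivial
    exact (Subgroup.mem_center_iff.1 this b).symm
  · -- higher class
    obtain ⟨n0, hn0⟩ := nilpotent_iff_lowerCentralSeries.1 hG
    have hex : ∃ n, (⊤ : Subgroup G).lowerCentralSeries n = ⊥ := ⟨n0, hn0⟩
    set n := Nat.find hex with hn
    have hnb : (⊤ : Subgroup G).lowerCentralSeries n = ⊥ := Nat.find_spec hex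
    have hmin : ∀ m < n, (⊤ : Subgroup G).lowerCentralSeries m ≠ ⊥ := fun m hm => Nat.find_min hex hm
    have h1c : (⊤ : Subgroup G).lowerCentralSeries 1 = commutator G := Subgroup.top_lowerCentralSeries_one
    have hn3 : 3 ≤ n := by
      by_contra hlt
      have h2 : (⊤ : Subgroup G).lowerCentralSeries 2 = ⊥ := by
        rw [eq_bot_iff, ← hnb]
        exact Subgroup.lowerCentralSeries_antitone _ (by omega)
      apply hc2
      intro g hg
      rw [Subgroup.mem_center_iff]
      intro h
      have h3 : ⁅g, h⁆ ∈ (⊤ : Subgroup G).lowerCentralSeries 2 := by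
        rw [Subgroup.lowerCentralSeries_succ, h1c]
        exact Subgroup.commutator_mem_commutator hg (Subgroup.mem_top h)
      rw [h2, Subgroup.mem_bot, commutatorElement_eq_one_iff_mul_comm] at h3
      exact h3.symm
    obtain ⟨k, hk⟩ : ∃ k, n = k + 3 := ⟨n - 3, by omega⟩
    have hL : ∀ m ∈ (⊤ : Subgroup G).lowerCentralSeries (k + 1), ∀ g : G, ⁅m, g⁆ ∈ Subgroup.center G := by
      intro m hm g
      have h3 : ⁅m, g⁆ ∈ (⊤ : Subgroup G).lowerCentralSeries (k + 2) := by
        rw [Subgroup.lowerCentralSeries_succ]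
        exact Subgroup.commutator_mem_commutator hm (Subgroup.mem_top g)
      rw [Subgroup.mem_center_iff]
      intro h
      have h4 : ⁅⁅m, g⁆, h⁆ ∈ (⊤ : Subgroup G).lowerCentralSeries (k + 3) := by
        rw [Subgroup.lowerCentralSeries_succ]
        exact Subgroup.commutator_mem_commutator h3 (Subgroup.mem_top h)
      rw [← hk, hnb, Subgroup.mem_bot, commutatorElement_eq_one_iff_mul_comm] at h4
      exact h4.symm
    have hLK : (⊤ : Subgroup G).lowerCentralSeries (k + 1) ≤ commutator G := by
      rw [← h1c]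
      exact Subgroup.lowerCentralSeries_antitone _ (by omega)
    by_contra hno
    push Not at hno
    apply hmin (k + 2) (by omega)
    rw [eq_bot_iff, Subgroup.lowerCentralSeries_succ, Subgroup.commutator_le]
    intro m hm g _
    rw [Subgroup.mem_bot, commutatorElement_eq_one_iff_mul_comm]
    have h5 : m ∈ Subgroup.center G := hcen m (fun j => hno j m (hK j (hLK hm)) (hL m hm _))
    exact (Subgroup.mem_center_iff.1 h5 g).symm

theorem prod_comm {d : ℕ} : ∀ (n : ℕ) (G : Type u) [Group G] [Finite G] (_ : Group.IsNilpotent G) (_ : Nat.card G = n)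
    (x : Fin d → G) (K : Fin d → Subgroup G) (_ : Subgroup.closure (Set.range x) = ⊤) (_ : ∀ j, commutator G ≤ K j)
    (_ : ∀ i j, i < j → x i ∈ K j), (commutator G : Set G) ⊆ (List.ofFn (fun j => cs (K j) (x j))).prod := by
  intro n
  induction n using Nat.strong_induction_on with
  | _ n ih =>
    intro G _ _ hG hn x K hgen hK hx
    by_cases hnab : commutator G = ⊥
    · rw [hnab]
      intro g hg
      rw [SetLike.mem_coe, Subgroup.mem_bot] at hg
      rw [hg]
      apply one_mem_prod
      intro s hs
      obtain ⟨j, rfl⟩ := List.mem_ofFn.1 hs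
      exact ⟨1, one_mem _, by rw [commutatorElement_one_left]⟩
    · obtain ⟨j, m, hm, hz, hz1⟩ := exists_central hG x K hgen hK hx hnab
      set z := ⁅m, x j⁆ with hzdef
      set Z := Subgroup.zpowers z with hZ
      have hZc : ∀ w ∈ Z, ∀ g : G, w * g = g * w := by
        intro w hw g
        have : w ∈ Subgroup.center G := by
          have h1 : Z ≤ Subgroup.center G := by rw [hZ, Subgroup.zpowers_le]; exact hz
          exact h1 hw
        exact (Subgroup.mem_center_iff.1 this g).symm
      haveI hZn : Z.Normal := ⟨fun w hw g => by rw [← hZc w hw g, mul_inv_cancel_right]; exact hw⟩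
      have hcard : Nat.card (G ⧸ Z) < n := by
        rw [← hn, ← Subgroup.card_mul_index Z, Subgroup.index_eq_card]
        have h1 : 1 < Nat.card Z := by
          rw [Finite.one_lt_card_iff_nontrivial, Subgroup.nontrivial_iff_exists_ne_one]
          exact ⟨z, Subgroup.mem_zpowers z, hz1⟩
        exact lt_mul_left Nat.card_pos h1
      set f := QuotientGroup.mk' Z with hf
      have hfs : Function.Surjective f := QuotientGroup.mk'_surjective Z
      have hcm : commutator (G ⧸ Z) = (commutator G).map f := by
        rw [commutator_def, commutator_def, Subgroup.map_commutator, Subgroup.map_top_of_surjective f hfs]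
      have hI := ih _ hcard (G ⧸ Z) inferInstance rfl (fun i => f (x i)) (fun i => (K i).map f)
        (by
          rw [Set.range_comp' f x, ← MonoidHom.map_closure, hgen, Subgroup.map_top_of_surjective f hfs])
        (fun i => by rw [hcm]; exact Subgroup.map_mono (hK i))
        (fun i j hij => Subgroup.mem_map_of_mem f (hx i j hij))
      -- pull back
      have himg : (List.ofFn (fun i => cs ((K i).map f) (f (x i)))).prod = f '' (List.ofFn (fun i => cs (K i) (x i))).prod := by
        rw [Set.image_list_prod, List.map_ofFn]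
        congr 2
        funext i
        ext g
        constructor
        · rintro ⟨k, hk, rfl⟩
          obtain ⟨k', hk', rfl⟩ := Subgroup.mem_map.1 hk
          exact ⟨⁅k', x i⁆, ⟨k', hk', rfl⟩, map_commutatorElement f k' (x i)⟩
        · rintro ⟨_, ⟨k', hk', rfl⟩, rfl⟩
          exact ⟨f k', Subgroup.mem_map_of_mem f hk', map_commutatorElement f k' (x i)⟩
      rw [himg] at hI
      have habs : (List.ofFn (fun i => cs (K i) (x i))).prod * (Z : Set G) ⊆ (List.ofFn (fun i => cs (K i) (x i))).prod := by
        apply absorb (fun w hw g => hZc w hw g) _ (cs (K j) (x j)) (List.mem_ofFn.2 ⟨j, rfl⟩)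
        rintro g hg
        obtain ⟨_, ⟨k, hk, rfl⟩, w, hw, rfl⟩ := Set.mem_mul.1 hg
        -- w = z^t = [m^t, x_j]
        obtain ⟨t, rfl⟩ : ∃ t : ℕ, z ^ t = w := by
          have := (mem_powers_iff_mem_zpowers (x := z) (y := w)).2 hw
          exact this
        have hpow : ∀ t : ℕ, ⁅m ^ t, x j⁆ = z ^ t := by
          intro t
          induction t with
          | zero => rw [pow_zero, pow_zero, commutatorElement_one_left]
          | succ t iht =>
            rw [pow_succ, comm_mul, ← hzdef, ← (hZc z (Subgroup.mem_zpowers z) (m ^ t)), mul_inv_cancel_right, iht, ← pow_succ']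
        refine ⟨k * m ^ t, mul_mem hk (pow_mem hm t), ?_⟩
        rw [comm_mul, hpow, ← hZc _ (pow_mem (Subgroup.mem_zpowers z) t) k, mul_inv_cancel_right,
          hZc _ (pow_mem (Subgroup.mem_zpowers z) t)]
      intro g hg
      have h1 : f g ∈ (commutator (G ⧸ Z) : Set (G ⧸ Z)) := by
        rw [hcm]; exact Subgroup.mem_map_of_mem f hg
      obtain ⟨h, hh, hfh⟩ := hI h1
      have h2 : h⁻¹ * g ∈ Z := QuotientGroup.eq.1 hfh
      apply habs
      exact ⟨h, hh, h⁻¹ * g, h2, by group⟩

theorem card_prod_le {G : Type u} [Group G] [Finite G] : ∀ l : List (Set G), Nat.card (l.prod : Set G) ≤ (l.map (fun s : Set G => Nat.card s)).prod := by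
  intro l
  induction l with
  | nil => simp
  | cons a l ih =>
    rw [List.prod_cons, List.map_cons, List.prod_cons]
    exact (Set.natCard_mul_le).trans (Nat.mul_le_mul_left _ ih)

theorem card_cs_le {G : Type u} [Group G] [Finite G] (K : Subgroup G) (x : G) :
    Nat.card (cs K x) ≤ (Subgroup.centralizer ({x} : Set G)).relIndex K := by
  classical
  rw [Subgroup.relIndex, Subgroup.index_eq_card]
  let F : K ⧸ (Subgroup.centralizer ({x} : Set G)).subgroupOf K → cs K x :=
    Quotient.lift (fun k : K => (⟨⁅(k : G), x⁆, k, k.2, rfl⟩ : cs K x)) (by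
      intro a b hab
      apply Subtype.ext
      have h0 : a⁻¹ * b ∈ (Subgroup.centralizer ({x} : Set G)).subgroupOf K := QuotientGroup.leftRel_apply.1 hab
      have h1 : (a : G)⁻¹ * b ∈ Subgroup.centralizer ({x} : Set G) := Subgroup.mem_subgroupOf.1 h0
      rw [Subgroup.mem_centralizer_singleton_iff] at h1
      show ⁅(a : G), x⁆ = ⁅(b : G), x⁆
      have h2 : (b : G) = a * ((a : G)⁻¹ * b) := by group
      rw [h2, comm_mul, commutatorElement_eq_one_iff_mul_comm.2 h1, mul_one, mul_inv_cancel, one_mul])
  apply Nat.card_le_card_of_surjective F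
  rintro ⟨g, k, hk, rfl⟩
  exact ⟨QuotientGroup.mk ⟨k, hk⟩, rfl⟩

end Cfsg.Agent.H9.VL
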