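import Mathlib
import Cfsg.Agent.H1_Frattini

/-!
H9_VL3: Vaughan-Lee's theorem: the space `G/Φ(G)` and the forms attached to maximal subgroups.
-/

set_option autoImplicit false
open scoped Pointwise commutatorElement

namespace Cfsg.Agent.H9.VL

universe u

variable {p : ℕ} [hp : Fact p.Prime]

theorem exists_space {G : Type u} [Group G] [Finite G] (hG : IsPGroup p G) :
    ∃ (V : Type u) (_ : AddCommGroup V) (_ : Module (ZMod p) V) (_ : Finite V) (π : G → V), Function.Surjective π ∧
      (∀ x y, π (x * y) = π x + π y) ∧ ∀ x, π x = 0 ↔ x ∈ frattini G := by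
  obtain ⟨h1, h2⟩ := Cfsg.Agent.H1.Nilp.commutator_le_frattini hG
  letI : CommGroup (G ⧸ frattini G) := { (inferInstance : Group (G ⧸ frattini G)) with
    mul_comm := by
      intro a b
      obtain ⟨x, rfl⟩ := QuotientGroup.mk'_surjective _ a
      obtain ⟨y, rfl⟩ := QuotientGroup.mk'_surjective _ b
      rw [← map_mul, ← map_mul, QuotientGroup.mk'_eq_mk']
      refine ⟨(x * y)⁻¹ * (y * x), h1 ?_, by group⟩
      have : (x * y)⁻¹ * (y * x) = ⁅y⁻¹, x⁻¹⁆ := by rw [commutatorElement_def]; group
      rw [this]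
      exact Subgroup.commutator_mem_commutator (Subgroup.mem_top _) (Subgroup.mem_top _) }
  letI : Module (ZMod p) (Additive (G ⧸ frattini G)) := AddCommGroup.zmodModule (by
    intro a
    obtain ⟨x, hx⟩ := QuotientGroup.mk'_surjective (frattini G) (Additive.toMul a)
    have h3 : (Additive.toMul a) ^ p = 1 := by
      rw [← hx, ← map_pow]
      exact (QuotientGroup.eq_one_iff _).2 (h2 x)
    exact h3)
  refine ⟨Additive (G ⧸ frattini G), inferInstance, inferInstance, inferInstance, fun x => Additive.ofMul (QuotientGroup.mk x), ?_, ?_, ?_⟩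
  · intro v
    obtain ⟨x, hx⟩ := QuotientGroup.mk'_surjective (frattini G) (Additive.toMul v)
    exact ⟨x, hx⟩
  · intro x y; rfl
  · intro x
    exact QuotientGroup.eq_one_iff x

section

variable {G : Type u} [Group G] [Finite G] {V : Type u} [AddCommGroup V] [Module (ZMod p) V] [Finite V] {π : G → V}

theorem pi_one (hm : ∀ x y, π (x * y) = π x + π y) : π 1 = 0 := by
  have := hm 1 1
  rw [mul_one] at this
  exact left_eq_add.1 this

theorem pi_inv (hm : ∀ x y, π (x * y) = π x + π y) (x : G) : π x⁻¹ = -π x := by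
  have := hm x⁻¹ x
  rw [inv_mul_cancel, pi_one hm] at this
  exact eq_neg_of_add_eq_zero_left this.symm

theorem pi_pow (hm : ∀ x y, π (x * y) = π x + π y) (x : G) (n : ℕ) : π (x ^ n) = n • π x := by
  induction n with
  | zero => rw [pow_zero, zero_smul, pi_one hm]
  | succ n ih => rw [pow_succ, hm, ih, succ_nsmul]

/-- homomorphisms to `C_p` factor through `π` -/
theorem hom_factor (hs : Function.Surjective π) (hm : ∀ x y, π (x * y) = π x + π y)
    (hk : ∀ x, π x = 0 ↔ x ∈ frattini G) (χ : G →* Multiplicative (ZMod p)) :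
    ∃ β : Module.Dual (ZMod p) V, ∀ x, β (π x) = Multiplicative.toAdd (χ x) := by
  have hker : frattini G ≤ χ.ker := by
    apply Cfsg.Agent.H1.Frattini.frattini_le_of_elementary (p := p)
    · exact Abelianization.commutator_subset_ker χ
    · intro x
      rw [MonoidHom.mem_ker, map_pow]
      have : p • Multiplicative.toAdd (χ x) = 0 := by simp
      exact this
  have hχ : ∀ x y, π x = π y → χ x = χ y := by
    intro x y h
    have h1 : x⁻¹ * y ∈ frattini G := by
      rw [← hk, hm, pi_inv hm, h, neg_add_cancel]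
    have h2 := hker h1
    rw [MonoidHom.mem_ker, map_mul, map_inv, inv_mul_eq_one] at h2
    exact h2
  let s := Function.surjInv hs
  have hsπ : ∀ v, π (s v) = v := Function.surjInv_eq hs
  let f : V →+ ZMod p := AddMonoidHom.mk' (fun v => Multiplicative.toAdd (χ (s v))) (by
    intro v w
    rw [← toAdd_mul, ← map_mul]
    exact congrArg Multiplicative.toAdd (hχ _ _ (by rw [hsπ, hm, hsπ, hsπ])))
  refine ⟨f.toZModLinearMap p, fun x => ?_⟩
  show Multiplicative.toAdd (χ (s (π x))) = _
  rw [hχ _ x (hsπ _)]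

theorem comm_mul' {G : Type u} [Group G] (a b c : G) : ⁅a * b, c⁆ = a * ⁅b, c⁆ * a⁻¹ * ⁅a, c⁆ := by
  simp only [commutatorElement_def]; group

/-- existence of a bilinear form `W` vanishing on a normal subgroup with smaller derived group -/
theorem exists_W (hG : IsPGroup p G) {M : Subgroup G} (hMn : M.Normal) (hM : ⁅M, M⁆ ≠ commutator G) :
    ∃ W : G → G → ZMod p, (∀ x y z, W (x * y) z = W x z + W y z) ∧ (∀ x y, W y x = -W x y) ∧ (∀ x, W x x = 0) ∧
      (∀ x ∈ M, ∀ y ∈ M, W x y = 0) ∧ (∀ x y, x * y = y * x → W x y = 0) ∧ ∃ x y, W x y ≠ 0 := by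
  classical
  have hle : ⁅M, M⁆ ≤ commutator G := Subgroup.commutator_mono le_top le_top
  have hfin : {N : Subgroup G | N.Normal ∧ ⁅M, M⁆ ≤ N ∧ N < commutator G}.Finite := Set.toFinite _
  obtain ⟨N, ⟨hN, hMN, hNc⟩, hmax⟩ := hfin.exists_maximal ⟨⁅M, M⁆, inferInstance, le_rfl, lt_of_le_of_ne hle hM⟩
  set f := QuotientGroup.mk' N with hf
  have hfs : Function.Surjective f := QuotientGroup.mk'_surjective N
  have hcm : commutator (G ⧸ N) = (commutator G).map f := by
    rw [commutator_def, commutator_def, Subgroup.map_commutator, Subgroup.map_top_of_surjective f hfs]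
  have hQ : IsPGroup p (G ⧸ N) := hG.to_quotient N
  have hne : commutator (G ⧸ N) ≠ ⊥ := by
    rw [hcm]
    intro h
    rw [Subgroup.map_eq_bot_iff, hf, QuotientGroup.ker_mk'] at h
    exact absurd (le_antisymm hNc.le h) hNc.ne
  -- a central element of order p in the derived group
  obtain ⟨c, hcZ, hcc, hc⟩ : ∃ c ∈ commutator (G ⧸ N), c ∈ Subgroup.center (G ⧸ N) ∧ orderOf c = p := by
    haveI := hQ.isNilpotent
    have h1 : commutator (G ⧸ N) ⊓ Subgroup.center (G ⧸ N) ≠ ⊥ := Cfsg.Agent.H1.Nilp.normal_inf_center_ne_bot (commutator (G ⧸ N)) hne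
    have hpd : p ∣ Nat.card (commutator (G ⧸ N) ⊓ Subgroup.center (G ⧸ N) : Subgroup (G ⧸ N)) := by
      obtain ⟨k, hk⟩ := IsPGroup.iff_card.1 (hQ.to_subgroup (commutator (G ⧸ N) ⊓ Subgroup.center (G ⧸ N)))
      rw [hk]
      apply dvd_pow_self
      rintro rfl
      rw [pow_zero] at hk
      exact h1 (Subgroup.card_eq_one.1 hk)
    obtain ⟨c, hc⟩ := exists_prime_orderOf_dvd_card' p hpd
    exact ⟨c, c.2.1, c.2.2, by rw [Subgroup.orderOf_coe]; exact hc⟩
  have hcn : (Subgroup.zpowers c).Normal := by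
    refine ⟨fun w hw g => ?_⟩
    have h1 : w ∈ Subgroup.center (G ⧸ N) := by
      have : Subgroup.zpowers c ≤ Subgroup.center (G ⧸ N) := by rw [Subgroup.zpowers_le]; exact hcc
      exact this hw
    rw [Subgroup.mem_center_iff.1 h1 g, mul_inv_cancel_right]; exact hw
  have hZc : commutator (G ⧸ N) = Subgroup.zpowers c := by
    apply le_antisymm _ (by rw [Subgroup.zpowers_le]; exact hcZ)
    set N' := (Subgroup.zpowers c).comap f with hN'
    have hNN' : N ≤ N' := by
      intro x hx
      rw [hN', Subgroup.mem_comap]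
      have : f x = 1 := (QuotientGroup.eq_one_iff x).2 hx
      rw [this]; exact one_mem _
    have hN'c : N' ≤ commutator G := by
      intro x hx
      have h1 : f x ∈ (commutator G).map f := by
        rw [← hcm]
        have : Subgroup.zpowers c ≤ commutator (G ⧸ N) := by rw [Subgroup.zpowers_le]; exact hcZ
        exact this hx
      obtain ⟨y, hy, hxy⟩ := Subgroup.mem_map.1 h1
      have h2 : y⁻¹ * x ∈ N := QuotientGroup.eq.1 hxy
      have h3 : x = y * (y⁻¹ * x) := by group
      rw [h3]; exact mul_mem hy (hNc.le h2)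
    have hN'eq : N' = commutator G := by
      by_contra hne'
      have h4 := hmax ⟨hcn.comap f, hMN.trans hNN', lt_of_le_of_ne hN'c hne'⟩ hNN'
      have h5 : c ∈ (⊥ : Subgroup (G ⧸ N)) := by
        obtain ⟨x, hx⟩ := hfs c
        have h6 : x ∈ N' := by rw [hN', Subgroup.mem_comap, hx]; exact Subgroup.mem_zpowers c
        have h7 := h4 h6
        rw [← hx, Subgroup.mem_bot]
        exact (QuotientGroup.eq_one_iff x).2 h7
      rw [Subgroup.mem_bot] at h5
      rw [h5, orderOf_one] at hc
      exact hp.out.one_lt.ne hc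
    rw [hcm, ← hN'eq, hN', Subgroup.map_comap_eq_self_of_surjective hfs]
  have hcent : ∀ w ∈ commutator (G ⧸ N), ∀ g, w * g = g * w := by
    intro w hw g
    rw [hZc] at hw
    have h1 : w ∈ Subgroup.center (G ⧸ N) := by
      have : Subgroup.zpowers c ≤ Subgroup.center (G ⧸ N) := by rw [Subgroup.zpowers_le]; exact hcc
      exact this hw
    exact (Subgroup.mem_center_iff.1 h1 g).symm
  have hcard : Nat.card (commutator (G ⧸ N)) = p := by rw [hZc, Nat.card_zpowers, hc]
  let e : commutator (G ⧸ N) ≃* Multiplicative (ZMod p) := mulEquivOfPrimeCardEq hcard (by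
    rw [Nat.card_congr (Multiplicative.toAdd (α := ZMod p)), Nat.card_zmod])
  have hmem : ∀ x y : G, ⁅f x, f y⁆ ∈ commutator (G ⧸ N) := fun x y =>
    Subgroup.commutator_mem_commutator (Subgroup.mem_top _) (Subgroup.mem_top _)
  have hW0 : ∀ x y, ⁅f x, f y⁆ = 1 → Multiplicative.toAdd (e ⟨⁅f x, f y⁆, hmem x y⟩) = 0 := by
    intro x y h
    have : (⟨⁅f x, f y⁆, hmem x y⟩ : commutator (G ⧸ N)) = 1 := Subtype.ext h
    rw [this, map_one, toAdd_one]
  refine ⟨fun x y => Multiplicative.toAdd (e ⟨⁅f x, f y⁆, hmem x y⟩), ?_, ?_, ?_, ?_, ?_, ?_⟩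
  · intro x y z
    show Multiplicative.toAdd _ = Multiplicative.toAdd _ + Multiplicative.toAdd _
    rw [← toAdd_mul, ← map_mul]
    congr 2
    apply Subtype.ext
    show ⁅f (x * y), f z⁆ = ⁅f x, f z⁆ * ⁅f y, f z⁆
    rw [map_mul, comm_mul', ← hcent _ (hmem y z) (f x), mul_inv_cancel_right, hcent _ (hmem y z)]
  · intro x y
    show Multiplicative.toAdd _ = -Multiplicative.toAdd _
    rw [← toAdd_inv, ← map_inv]
    congr 2
    apply Subtype.ext
    show ⁅f y, f x⁆ = ⁅f x, f y⁆⁻¹
    rw [commutatorElement_inv]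
  · intro x
    exact hW0 x x (commutatorElement_self _)
  · intro x hx y hy
    apply hW0
    rw [← map_commutatorElement]
    exact (QuotientGroup.eq_one_iff _).2 (hMN (Subgroup.commutator_mem_commutator hx hy))
  · intro x y hxy
    apply hW0
    rw [← map_commutatorElement, commutatorElement_eq_one_iff_mul_comm.2 hxy, map_one]
  · by_contra hno
    push Not at hno
    apply hne
    rw [eq_bot_iff, commutator_def, Subgroup.commutator_le]
    intro a _ b _
    obtain ⟨x, rfl⟩ := hfs a
    obtain ⟨y, rfl⟩ := hfs b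
    have h1 := hno x y
    have h2 : e ⟨⁅f x, f y⁆, hmem x y⟩ = 1 := h1
    rw [map_eq_one_iff e e.injective] at h2
    rw [Subgroup.mem_bot]
    exact congrArg Subtype.val h2

/-- the functional attached to a maximal subgroup with smaller derived group -/
theorem form (hG : IsPGroup p G) (hs : Function.Surjective π) (hm : ∀ x y, π (x * y) = π x + π y)
    (hk : ∀ x, π x = 0 ↔ x ∈ frattini G) (hall : ∀ M : Subgroup G, IsCoatom M → ⁅M, M⁆ ≠ commutator G)
    {α : Module.Dual (ZMod p) V} (hα : α ≠ 0) :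
    ∃ β : Module.Dual (ZMod p) V, (∀ c : ZMod p, β ≠ c • α) ∧ ∀ x y, x * y = y * x → α (π x) * β (π y) = α (π y) * β (π x) := by
  classical
  let M : Subgroup G := { carrier := {g | α (π g) = 0}
                          mul_mem' := by
                            intro a b ha hb
                            show α (π (a * b)) = 0
                            rw [hm, map_add, show α (π a) = 0 from ha, show α (π b) = 0 from hb, add_zero]
                          one_mem' := by show α (π 1) = 0; rw [pi_one hm, map_zero]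
                          inv_mem' := by
                            intro a ha
                            show α (π a⁻¹) = 0
                            rw [pi_inv hm, map_neg, show α (π a) = 0 from ha, neg_zero] }
  have hMm : ∀ g, g ∈ M ↔ α (π g) = 0 := fun g => Iff.rfl
  obtain ⟨v0, hv0⟩ : ∃ v, α v ≠ 0 := by
    by_contra h
    push Not at h
    exact hα (LinearMap.ext h)
  obtain ⟨v, hv⟩ := hs ((α v0)⁻¹ • v0)
  have hαv : α (π v) = 1 := by rw [hv, map_smul, smul_eq_mul, inv_mul_cancel₀ hv0]
  have hdec : ∀ g : G, ∃ h ∈ M, g = h * v ^ (α (π g)).val := by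
    intro g
    refine ⟨g * (v ^ (α (π g)).val)⁻¹, ?_, by group⟩
    rw [hMm, hm, pi_inv hm, pi_pow hm, map_add, map_neg, map_nsmul, hαv, nsmul_eq_mul, mul_one, ZMod.natCast_val, ZMod.cast_id',
      id_eq, add_neg_cancel]
  have hMn : M.Normal := ⟨fun g hg x => by
    rw [hMm] at hg ⊢
    rw [hm, hm, pi_inv hm, map_add, map_add, hg, map_neg]; ring⟩
  have hMc : IsCoatom M := by
    constructor
    · intro h
      have : v ∈ M := by rw [h]; trivial
      rw [hMm, hαv] at this
      exact one_ne_zero this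
    · intro L hL
      obtain ⟨hle, g, hgL, hgM⟩ := SetLike.lt_iff_le_and_exists.1 hL
      rw [eq_top_iff]
      intro x _
      rw [hMm] at hgM
      -- x = h * g^n with n = α(πx)/α(πg)
      have hx : x = (x * (g ^ (α (π x) * (α (π g))⁻¹).val)⁻¹) * g ^ (α (π x) * (α (π g))⁻¹).val := by group
      rw [hx]
      refine mul_mem (hle ?_) (pow_mem hgL _)
      rw [hMm, hm, pi_inv hm, pi_pow hm, map_add, map_neg, map_nsmul, nsmul_eq_mul, ZMod.natCast_val, ZMod.cast_id', id_eq,
        mul_assoc, inv_mul_cancel₀ hgM, mul_one, add_neg_cancel]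
  obtain ⟨W, w1, w2, w3, w4, w5, x0, y0, hxy0⟩ := exists_W hG hMn (hall M hMc)
  have w1' : ∀ x y z, W x (y * z) = W x y + W x z := by
    intro x y z
    rw [w2, w1, w2 x y, w2 x z]; ring
  have wone : ∀ z, W 1 z = 0 := by
    intro z
    have := w1 1 1 z
    rw [mul_one] at this
    exact left_eq_add.1 this
  have wpow : ∀ x z (n : ℕ), W (x ^ n) z = n * W x z := by
    intro x z n
    induction n with
    | zero => rw [pow_zero, wone, Nat.cast_zero, zero_mul]
    | succ n ih => rw [pow_succ, w1, ih]; push_cast; ring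
  have wpow' : ∀ x z (n : ℕ), W x (z ^ n) = n * W x z := by
    intro x z n
    rw [w2, wpow, w2 x z]; ring
  -- functional
  let χ : G →* Multiplicative (ZMod p) :=
    { toFun := fun x => Multiplicative.ofAdd (W x v)
      map_one' := by rw [wone]; rfl
      map_mul' := fun x y => by rw [w1]; rfl }
  obtain ⟨β, hβ⟩ := hom_factor hs hm hk χ
  have hβ' : ∀ x, β (π x) = W x v := hβ
  have hform : ∀ x y, W x y = α (π y) * β (π x) - α (π x) * β (π y) := by
    intro x y
    obtain ⟨h, hh, hx⟩ := hdec x
    obtain ⟨k, hk', hy⟩ := hdec y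
    have e1 : W x v = W h v := by
      conv_lhs => rw [hx]
      rw [w1, wpow, w3]; ring
    have e2 : W y v = W k v := by
      conv_lhs => rw [hy]
      rw [w1, wpow, w3]; ring
    rw [hβ', hβ', e1, e2]
    conv_lhs => rw [hx, hy]
    rw [w1, w1', w1', w4 h hh k hk', wpow', wpow, wpow, wpow', w3, w2 k v]
    rw [ZMod.natCast_val, ZMod.cast_id', id_eq, ZMod.natCast_val, ZMod.cast_id', id_eq]
    ring
  refine ⟨β, ?_, ?_⟩
  · intro c hc
    have h1 : W v v = c * α (π v) := by rw [← hβ', hc]; rfl
    rw [w3, hαv, mul_one] at h1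
    apply hxy0
    rw [hform, hc, ← h1, zero_smul]; simp
  · intro x y hxy
    have h1 := hform x y
    rw [w5 x y hxy] at h1
    exact (sub_eq_zero.1 h1.symm).symm

end

end Cfsg.Agent.H9.VL
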