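import Mathlib
import Cfsg.Agent.H9_VL1
import Cfsg.Agent.H9_VL2
import Cfsg.Agent.H9_VL3

/-!
H9_VL4: Vaughan-Lee's theorem on the derived group of a finite p-group of given breadth.
-/

set_option autoImplicit false
open scoped Pointwise commutatorElement

namespace Cfsg.Agent.H9.VL

universe u

variable {p : ℕ} [hp : Fact p.Prime]

section

variable {G : Type u} [Group G] [Finite G] {V : Type u} [AddCommGroup V] [Module (ZMod p) V] [Finite V] {π : G → V}

/-- the elements with centralizer in `⟨x⟩ Φ(G)` are not contained in a hyperplane -/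
theorem gens (hG : IsPGroup p G) (hs : Function.Surjective π) (hm : ∀ x y, π (x * y) = π x + π y)
    (hk : ∀ x, π x = 0 ↔ x ∈ frattini G) (hall : ∀ M : Subgroup G, IsCoatom M → ⁅M, M⁆ ≠ commutator G)
    {η : Module.Dual (ZMod p) V} (hη : η ≠ 0) :
    ∃ x : G, (∀ y, x * y = y * x → ∃ c : ZMod p, π y = c • π x) ∧ η (π x) ≠ 0 := by
  by_contra hno
  push Not at hno
  have h1 : ∀ x, η (π x) ≠ 0 → ∃ y, x * y = y * x ∧ ∀ c : ZMod p, π y ≠ c • π x := by
    intro x hx
    by_contra h
    push Not at h
    exact hx (hno x h)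
  choose! Y hY1 hY2 using h1
  have hform := fun (α : Module.Dual (ZMod p) V) (hα : α ≠ 0) => form hG hs hm hk hall hα
  choose! β hβ1 hβ2 using hform
  have hsπ : ∀ v, π (Function.surjInv hs v) = v := Function.surjInv_eq hs
  refine LA η hη β hβ1 (fun v => π (Y (Function.surjInv hs v))) ?_
  intro v hv
  have hv' : η (π (Function.surjInv hs v)) ≠ 0 := by rwa [hsπ]
  refine ⟨fun c => ?_, fun α hα => ?_⟩
  · have := hY2 _ hv' c
    rwa [hsπ] at this
  · have := hβ2 α hα _ _ (hY1 _ hv')
    rwa [hsπ] at this

/-- the subgroup attached to a subspace -/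
def sub (hm : ∀ x y, π (x * y) = π x + π y) (L : Submodule (ZMod p) V) : Subgroup G where
  carrier := {g | π g ∈ L}
  mul_mem' := by
    intro a b ha hb
    show π (a * b) ∈ L
    rw [hm]; exact L.add_mem ha hb
  one_mem' := by show π 1 ∈ L; rw [pi_one hm]; exact L.zero_mem
  inv_mem' := by
    intro a ha
    show π a⁻¹ ∈ L
    rw [pi_inv hm]; exact L.neg_mem ha

theorem mem_sub (hm : ∀ x y, π (x * y) = π x + π y) (L : Submodule (ZMod p) V) (g : G) : g ∈ sub hm L ↔ π g ∈ L := Iff.rfl

theorem index_sub (hs : Function.Surjective π) (hm : ∀ x y, π (x * y) = π x + π y) (L : Submodule (ZMod p) V) :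
    (sub hm L).index * Nat.card L = Nat.card V := by
  let f : G →* Multiplicative V :=
    { toFun := fun x => Multiplicative.ofAdd (π x)
      map_one' := by rw [pi_one hm]; rfl
      map_mul' := fun x y => by rw [hm]; rfl }
  have hf : Function.Surjective f := fun v => by
    obtain ⟨x, hx⟩ := hs (Multiplicative.toAdd v)
    exact ⟨x, congrArg Multiplicative.ofAdd hx⟩
  have h1 : sub hm L = (AddSubgroup.toSubgroup L.toAddSubgroup).comap f := by
    ext g; rfl
  rw [h1, Subgroup.index_comap_of_surjective _ hf]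
  have h2 := Subgroup.index_mul_card (AddSubgroup.toSubgroup L.toAddSubgroup)
  exact h2

theorem commutator_le_sub (hm : ∀ x y, π (x * y) = π x + π y) (L : Submodule (ZMod p) V) : commutator G ≤ sub hm L := by
  rw [commutator_def, Subgroup.commutator_le]
  intro a _ b _
  rw [mem_sub, commutatorElement_def, hm, hm, hm, pi_inv hm, pi_inv hm]
  have : π a + π b + -π a + -π b = 0 := by abel
  rw [this]
  exact L.zero_mem

/-- a good generating family -/
theorem exists_family (hG : IsPGroup p G) (hs : Function.Surjective π) (hm : ∀ x y, π (x * y) = π x + π y)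
    (hk : ∀ x, π x = 0 ↔ x ∈ frattini G) (hall : ∀ M : Subgroup G, IsCoatom M → ⁅M, M⁆ ≠ commutator G) :
    ∃ (d : ℕ) (x : Fin d → G), (∀ i, ∀ y, x i * y = y * x i → ∃ c : ZMod p, π y = c • π (x i)) ∧
      LinearIndependent (ZMod p) (fun i => π (x i)) ∧ Submodule.span (ZMod p) (Set.range (fun i => π (x i))) = ⊤ := by
  classical
  set X : Set G := {x | ∀ y, x * y = y * x → ∃ c : ZMod p, π y = c • π x} with hX
  have hspan : Submodule.span (ZMod p) (π '' X) = ⊤ := by
    by_contra hne
    obtain ⟨η, hη, hker⟩ := Submodule.exists_le_ker_of_lt_top _ (lt_top_iff_ne_top.2 hne)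
    obtain ⟨x, hx1, hx2⟩ := gens hG hs hm hk hall hη
    exact hx2 (hker (Submodule.subset_span ⟨x, hx1, rfl⟩))
  obtain ⟨B, hBX, hBspan, hBli⟩ := exists_linearIndependent (ZMod p) (π '' X)
  haveI : Finite B := Set.toFinite B
  have hpre : ∀ i : B, ∃ x ∈ X, π x = i := fun i => hBX i.2
  choose g hg1 hg2 using hpre
  let e : Fin (Nat.card B) ≃ B := (Finite.equivFin B).symm
  have hfun : (fun i => π (g (e i))) = (fun i : Fin (Nat.card B) => ((e i : B) : V)) := funext fun i => hg2 _
  refine ⟨Nat.card B, fun i => g (e i), fun i => hg1 (e i), ?_, ?_⟩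
  · rw [hfun]
    exact hBli.comp e e.injective
  · rw [hfun]
    have : Set.range (fun i : Fin (Nat.card B) => ((e i : B) : V)) = B := by
      ext v
      constructor
      · rintro ⟨i, rfl⟩; exact (e i).2
      · intro hv; exact ⟨e.symm ⟨v, hv⟩, by show ((e (e.symm ⟨v, hv⟩) : B) : V) = v; rw [Equiv.apply_symm_apply]⟩
    rw [this, hBspan, hspan]

end

theorem card_lt' (d m : ℕ) (hm : m ≤ d) : Fintype.card {i : Fin d // (i : ℕ) < m} = m := by
  have e : {i : Fin d // (i : ℕ) < m} ≃ Fin m :=
    { toFun := fun i => ⟨i.1, i.2⟩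
      invFun := fun i => ⟨⟨i.1, i.2.trans_le hm⟩, i.2⟩
      left_inv := fun i => rfl
      right_inv := fun i => rfl }
  rw [Fintype.card_congr e, Fintype.card_fin]

theorem sum_aux (b d : ℕ) : 2 * ∑ j : Fin d, (b + (j : ℕ) + 1) = 2 * (d * b) + d * (d + 1) := by
  rw [Fin.sum_univ_eq_sum_range (fun j => b + j + 1) d]
  induction d with
  | zero => simp
  | succ d ihd => rw [Finset.sum_range_succ, mul_add, ihd]; ring

theorem vaughan_lee : ∀ (n : ℕ) (G : Type u) [Group G] [Finite G] (_ : IsPGroup p G) (_ : Nat.card G = n) (b : ℕ)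
    (_ : ∀ x : G, (Subgroup.centralizer ({x} : Set G)).index ≤ p ^ b), Nat.card (commutator G) ≤ p ^ (b * (b + 1) / 2) := by
  intro n
  induction n using Nat.strong_induction_on with
  | _ n ih =>
    intro G _ _ hG hn b hb
    classical
    by_cases hM : ∃ M : Subgroup G, IsCoatom M ∧ ⁅M, M⁆ = commutator G
    · obtain ⟨M, hMc, hMeq⟩ := hM
      have hlt : Nat.card M < n := by
        rw [← hn]
        have h1 := Subgroup.card_le_card_group M
        rcases lt_or_eq_of_le h1 with h | h
        · exact h
        · exact absurd (Subgroup.eq_top_of_card_eq M h) hMc.1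
      have h1 := ih _ hlt M (hG.to_subgroup M) rfl b (by
        intro x
        have h2 : Subgroup.centralizer ({x} : Set M) = (Subgroup.centralizer ({(x : G)} : Set G)).subgroupOf M := by
          ext y
          rw [Subgroup.mem_subgroupOf, Subgroup.mem_centralizer_singleton_iff, Subgroup.mem_centralizer_singleton_iff]
          exact ⟨fun h => congrArg Subtype.val h, fun h => Subtype.ext h⟩
        rw [h2]
        have h3 : (Subgroup.centralizer ({(x : G)} : Set G)).relIndex M ≤ (Subgroup.centralizer ({(x : G)} : Set G)).relIndex ⊤ :=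
          Subgroup.relIndex_le_of_le_right le_top (by rw [Subgroup.relIndex_top_right]; exact Subgroup.index_ne_zero_of_finite)
        rw [Subgroup.relIndex_top_right] at h3
        exact h3.trans (hb x))
      have h4 : (commutator M).map M.subtype = commutator G := by
        rw [commutator_def, Subgroup.map_commutator, ← MonoidHom.range_eq_map, Subgroup.range_subtype, hMeq]
      rw [← h4, Nat.card_congr ((commutator M).equivMapOfInjective M.subtype M.subtype_injective).symm.toEquiv]
      exact h1
    · push Not at hM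
      obtain ⟨V, i1, i2, i3, π, hs, hm, hk⟩ := exists_space hG
      obtain ⟨d, x, hx, hli, hspan⟩ := exists_family hG hs hm hk hM
      haveI : Module.Finite (ZMod p) V := Module.Finite.of_finite
      -- dimension
      have hV : Nat.card V = p ^ d := by
        have h1 := finrank_span_eq_card hli
        rw [hspan, finrank_top, Fintype.card_fin] at h1
        rw [Module.natCard_eq_pow_finrank (K := ZMod p) (V := V), h1, Nat.card_zmod]
      let L : ℕ → Submodule (ZMod p) V := fun m => Submodule.span (ZMod p) (Set.range (fun i : {i : Fin d // (i : ℕ) < m} => π (x i)))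
      have hLcard : ∀ m ≤ d, Nat.card (L m) = p ^ m := by
        intro m hmd
        have h1 := finrank_span_eq_card (hli.comp (fun i : {i : Fin d // (i : ℕ) < m} => (i : Fin d)) Subtype.val_injective)
        rw [card_lt' d m hmd] at h1
        have h2 : Module.finrank (ZMod p) (L m) = m := h1
        rw [Module.natCard_eq_pow_finrank (K := ZMod p) (V := L m), h2, Nat.card_zmod]
      have hgen : Subgroup.closure (Set.range x) = ⊤ := by
        apply frattini_nongenerating
        rw [eq_top_iff]
        intro g _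
        -- π g in the additive subgroup generated
        have h1 : ∀ v ∈ Submodule.span (ZMod p) (Set.range (fun i => π (x i))), ∃ h ∈ Subgroup.closure (Set.range x), π h = v := by
          intro v hv
          induction hv using Submodule.span_induction with
          | mem w hw =>
            obtain ⟨i, rfl⟩ := hw
            exact ⟨x i, Subgroup.subset_closure ⟨i, rfl⟩, rfl⟩
          | zero => exact ⟨1, one_mem _, pi_one hm⟩
          | add v w _ _ hv hw =>
            obtain ⟨a, ha, rfl⟩ := hv
            obtain ⟨c, hc, rfl⟩ := hw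
            exact ⟨a * c, mul_mem ha hc, hm a c⟩
          | smul c v _ hv =>
            obtain ⟨a, ha, rfl⟩ := hv
            refine ⟨a ^ c.val, pow_mem ha _, ?_⟩
            rw [pi_pow hm, ← Nat.cast_smul_eq_nsmul (ZMod p), ZMod.natCast_val, ZMod.cast_id', id_eq]
        obtain ⟨h, hh, hhg⟩ := h1 (π g) (by rw [hspan]; trivial)
        have h2 : h⁻¹ * g ∈ frattini G := by rw [← hk, hm, pi_inv hm, hhg, neg_add_cancel]
        have h3 : g = h * (h⁻¹ * g) := by group
        rw [h3]
        exact mul_mem (Subgroup.mem_sup_left hh) (Subgroup.mem_sup_right h2)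
      haveI := hG.isNilpotent
      have hprod := prod_comm (Nat.card G) G inferInstance rfl x (fun j => sub hm (L (j : ℕ))) hgen
        (fun j => commutator_le_sub hm _) (fun i j hij => Submodule.subset_span ⟨⟨i, hij⟩, rfl⟩)
      have hc1 : Nat.card (commutator G) ≤ ∏ j : Fin d, Nat.card (cs (sub hm (L (j : ℕ))) (x j)) := by
        calc Nat.card (commutator G) ≤ Nat.card ((List.ofFn (fun j : Fin d => cs (sub hm (L (j : ℕ))) (x j))).prod : Set G) :=
              Nat.card_mono (Set.toFinite _) hprod
          _ ≤ _ := card_prod_le _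
          _ = _ := by rw [List.map_ofFn, List.prod_ofFn]; rfl
      -- each factor
      have hfac : ∀ j : Fin d, Nat.card (cs (sub hm (L (j : ℕ))) (x j)) * p ^ d ≤ p ^ (b + (j : ℕ) + 1) := by
        intro j
        set C := Subgroup.centralizer ({x j} : Set G) with hC
        have hle1 : sub hm (L (j : ℕ)) ≤ sub hm (L ((j : ℕ) + 1)) := by
          intro g hg
          rw [mem_sub] at hg ⊢
          refine Submodule.span_mono ?_ hg
          rintro _ ⟨i, rfl⟩
          exact ⟨⟨i.1, i.2.trans (Nat.lt_succ_self _)⟩, rfl⟩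
        have hle2 : C ≤ sub hm (L ((j : ℕ) + 1)) := by
          intro g hg
          rw [hC, Subgroup.mem_centralizer_singleton_iff] at hg
          obtain ⟨c, hc⟩ := hx j g hg.symm
          rw [mem_sub, hc]
          exact Submodule.smul_mem _ _ (Submodule.subset_span ⟨⟨j, Nat.lt_succ_self _⟩, rfl⟩)
        have e1 := card_cs_le (sub hm (L (j : ℕ))) (x j)
        rw [← hC] at e1
        have e2 : C.relIndex (sub hm (L (j : ℕ))) ≤ C.relIndex (sub hm (L ((j : ℕ) + 1))) :=
          Subgroup.relIndex_le_of_le_right hle1 (by rw [Subgroup.relIndex]; exact Subgroup.index_ne_zero_of_finite)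
        have e3 := Subgroup.relIndex_mul_index hle2
        have e4 := index_sub hs hm (L ((j : ℕ) + 1))
        rw [hLcard _ (by have := j.2; omega), hV] at e4
        calc Nat.card (cs (sub hm (L (j : ℕ))) (x j)) * p ^ d
            ≤ C.relIndex (sub hm (L ((j : ℕ) + 1))) * p ^ d := Nat.mul_le_mul_right _ (e1.trans e2)
          _ = C.index * p ^ ((j : ℕ) + 1) := by rw [← e4, ← e3]; ring
          _ ≤ p ^ b * p ^ ((j : ℕ) + 1) := Nat.mul_le_mul_right _ (hb (x j))
          _ = p ^ (b + (j : ℕ) + 1) := by rw [← pow_add, add_assoc]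
      have hc2 : Nat.card (commutator G) * p ^ (d * d) ≤ p ^ (∑ j : Fin d, (b + (j : ℕ) + 1)) := by
        calc Nat.card (commutator G) * p ^ (d * d) ≤ (∏ j : Fin d, Nat.card (cs (sub hm (L (j : ℕ))) (x j))) * ∏ _j : Fin d, p ^ d := by
              rw [Finset.prod_const, Finset.card_univ, Fintype.card_fin, ← pow_mul]
              exact Nat.mul_le_mul_right _ hc1
          _ = ∏ j : Fin d, (Nat.card (cs (sub hm (L (j : ℕ))) (x j)) * p ^ d) := Finset.prod_mul_distrib.symm
          _ ≤ ∏ j : Fin d, p ^ (b + (j : ℕ) + 1) := Finset.prod_le_prod' (fun j _ => hfac j)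
          _ = _ := Finset.prod_pow_eq_pow_sum _ _ _
      -- arithmetic
      have hsum : 2 * ∑ j : Fin d, (b + (j : ℕ) + 1) = 2 * (d * b) + d * (d + 1) := sum_aux b d
      obtain ⟨t, ht⟩ : ∃ t, b * (b + 1) = 2 * t := by
        obtain ⟨t, ht⟩ := Nat.even_mul_succ_self b
        exact ⟨t, by rw [ht]; ring⟩
      rw [ht, Nat.mul_div_cancel_left t (by norm_num)]
      have hexp : ∑ j : Fin d, (b + (j : ℕ) + 1) ≤ t + d * d := by
        have h1 : (0 : ℤ) ≤ ((b : ℤ) - d) * ((b : ℤ) - d + 1) := by
          rcases le_or_gt (d : ℤ) b with h | h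
          · exact mul_nonneg (by linarith) (by linarith)
          · exact mul_nonneg_of_nonpos_of_nonpos (by linarith) (by omega)
        have h2 : (b : ℤ) * (b + 1) = 2 * t := by exact_mod_cast ht
        have h3 : 2 * ((∑ j : Fin d, (b + (j : ℕ) + 1) : ℕ) : ℤ) = 2 * (d * b) + d * (d + 1) := by exact_mod_cast hsum
        have h4 : 2 * ((∑ j : Fin d, (b + (j : ℕ) + 1) : ℕ) : ℤ) ≤ 2 * (t + d * d) := by nlinarith
        have h5 : ((∑ j : Fin d, (b + (j : ℕ) + 1) : ℕ) : ℤ) ≤ ((t + d * d : ℕ) : ℤ) := by push_cast at h4 ⊢; linarith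
        exact_mod_cast h5
      have hfin : Nat.card (commutator G) * p ^ (d * d) ≤ p ^ t * p ^ (d * d) := by
        rw [← pow_add]
        exact hc2.trans (Nat.pow_le_pow_right hp.out.pos hexp)
      exact Nat.le_of_mul_le_mul_right hfin (pow_pos hp.out.pos _)

end Cfsg.Agent.H9.VL
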