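import Mathlib
import Cfsg.Agent.H9_SemiAff

/-!
# Doubly transitive groups with few fixed points having a regular normal subgroup
-/

set_option autoImplicit false

open scoped Pointwise

namespace Cfsg.Agent.H9.ZassS

open Cfsg Cfsg.Agent.H9.ZassA Cfsg.Agent.H9.ZassC Cfsg.Agent.H9.SemiAff

variable {G Ω : Type*} [Group G] [MulAction G Ω]

/-- the regular case: elements fixing a point and commuting with the translation -/
theorem comm_of_fix {N : Subgroup G} [hNn : N.Normal] (hNf : ∀ n ∈ N, ∀ x : Ω, n • x = x → n = 1) {o : Ω} {g n : G}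
    (hn : n ∈ N) (hgo : g • o = o) (hgn : g • n • o = n • o) : g * n * g⁻¹ = n := by
  have h1 : (g * n * g⁻¹) • o = n • o := by
    rw [mul_smul, mul_smul, show g⁻¹ • o = o by rw [inv_smul_eq_iff, hgo], hgn]
  have h2 := hNf (n⁻¹ * (g * n * g⁻¹)) (N.mul_mem (N.inv_mem hn) (hNn.conj_mem n hn g)) o (by
    rw [mul_smul, inv_smul_eq_iff, h1])
  exact (inv_mul_eq_one.1 h2).symm

theorem char_two (hZ : ZG G Ω) {N : Subgroup G} [hNn : N.Normal] (hNf : ∀ n ∈ N, ∀ x : Ω, n • x = x → n = 1)
    (hNt : ∀ x y : Ω, ∃ n ∈ N, n • x = y) {o w : Ω} (how : o ≠ w) {g : G} (hg1 : g ≠ 1) (hgo : g • o = o) (hgw : g • w = w)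
    : ∀ n ∈ N, n • o = w → n * n = 1 := by
  intro n hn hno
  by_contra hnn
  have hc := comm_of_fix hNf hn hgo (by rw [hno, hgw])
  have hc' : g * n = n * g := mul_inv_eq_iff_eq_mul.1 hc
  apply hg1
  apply hZ.three g o w (n • w) how _ _ hgo hgw
  · rw [← mul_smul, hc', mul_smul, hgw]
  · intro h
    have h1 : n • o = n • w := by rw [hno]; exact h
    exact how (MulAction.injective n h1)
  · intro h
    apply hnn
    apply hNf (n * n) (N.mul_mem hn hn) o
    rw [mul_smul, hno]
    exact h.symm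

/-- full structure in the regular case, with a nontrivial element fixing two points -/
theorem regular_degree [Finite G] [Fintype Ω] [FaithfulSMul G Ω] (h2 : MulAction.IsMultiplyPretransitive G Ω 2)
    (h3 : ∀ g : G, ∀ a b c : Ω, a ≠ b → b ≠ c → a ≠ c → g • a = a → g • b = b → g • c = c → g = 1)
    (hfix : ∃ g : G, g ≠ 1 ∧ ∃ a b : Ω, a ≠ b ∧ g • a = a ∧ g • b = b)
    (N : Subgroup G) [hNn : N.Normal] (hNt : MulAction.IsPretransitive N Ω)
    (hNr : ∀ a : Ω, MulAction.stabilizer N a = ⊥) :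
    ∃ p : ℕ, p.Prime ∧ Fintype.card Ω = 2 ^ p := by
  classical
  have hZ : ZG G Ω := ⟨fun g hg => FaithfulSMul.eq_of_smul_eq_smul (α := Ω) (fun x => by rw [hg x, one_smul]),
    fun {a b c d} hab hcd => (MulAction.is_two_pretransitive_iff.mp h2) hab hcd, h3⟩
  obtain ⟨g, hg1, o, w, how, hgo, hgw⟩ := hfix
  have hNf : ∀ n ∈ N, ∀ x : Ω, n • x = x → n = 1 := by
    intro n hn x hx
    have : (⟨n, hn⟩ : N) ∈ MulAction.stabilizer N x := hx
    rw [hNr x, Subgroup.mem_bot] at this
    exact congrArg Subtype.val this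
  have hNt' : ∀ x y : Ω, ∃ n ∈ N, n • x = y := by
    intro x y
    obtain ⟨n, hn⟩ := hNt.exists_smul_eq x y
    exact ⟨n, n.2, hn⟩
  have hcardΩ : 2 ≤ Fintype.card Ω := Fintype.one_lt_card_iff.2 ⟨o, w, how⟩
  obtain ⟨p, j, hp, hj, hc, hcN, hNc, hNp⟩ := Frob.regular_normal_elementary h2 hcardΩ N hNt hNr
  -- an element of prime order
  obtain ⟨r, hr, hrg⟩ := Nat.exists_prime_and_dvd (n := orderOf g) (fun h => hg1 (orderOf_eq_one_iff.1 h))
  haveI := Fact.mk hr
  obtain ⟨x, hxr, hxo, hxw⟩ : ∃ x : G, orderOf x = r ∧ x • o = o ∧ x • w = w := by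
    refine ⟨g ^ (orderOf g / r), orderOf_pow_orderOf_div (orderOf_pos g).ne' hrg, ?_, ?_⟩
    · exact (MulAction.stabilizer G o).pow_mem hgo _
    · exact (MulAction.stabilizer G w).pow_mem hgw _
  have hx1 : x ≠ 1 := by
    rintro rfl
    rw [orderOf_one] at hxr
    exact hr.one_lt.ne hxr
  -- characteristic two
  have hp2 : p = 2 := by
    obtain ⟨n, hn, hno⟩ := hNt' o w
    have h4 := char_two hZ hNf hNt' how hx1 hxo hxw n hn hno
    have h5 : n ≠ 1 := by
      rintro rfl
      rw [one_smul] at hno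
      exact how hno
    have h6 : orderOf n = 2 := orderOf_eq_prime (by rw [pow_two, h4]) h5
    have h7 := orderOf_dvd_of_pow_eq_one (hNp n hn)
    rw [h6] at h7
    exact ((Nat.prime_dvd_prime_iff_eq Nat.prime_two hp).1 h7).symm
  subst hp2
  obtain ⟨K, hK⟩ := exists_ker hZ how
  have hKcard := Ker.card how hK
  have hKodd : Odd (Nat.card K) := by
    have : Even (Fintype.card Ω) := by
      rw [hc]
      exact (Nat.even_pow).2 ⟨even_two, by omega⟩
    rw [← hKcard] at this
    rwa [Nat.even_add_one, Nat.not_even_iff_odd] at this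
  have hKN : ∀ k ∈ K, k ≠ 1 → ∀ v ∈ N, k * v = v * k → v = 1 := by
    intro k hk hk1 v hv hkv
    by_contra hv1
    apply hk1
    apply hK.free k hk (v • o)
    · intro h
      exact hv1 (hNf v hv o h)
    · rw [← mul_smul, hkv, mul_smul, hK.le k hk]
  haveI := hNc
  have hZK : IsZGroup K := ZGrp.zgroup_of_fpf K N (by
      intro h
      rw [h, Subgroup.card_bot] at hcN
      rw [← hcN] at hc
      omega) (fun k _ v hv => hNn.conj_mem v hv k) hKN hKodd
  have hcyc := ZGrp.cyclic_of_fpf_aut K hZK (x := x) (hK.nrm x hxo) (fun k hk h => hK.fpf hZ how hxo hxw hx1 hk h)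
  have hKc : ∀ k ∈ K, ∀ l ∈ K, k * l = l * k := by
    intro k hk l hl
    have : IsMulCommutative K := inferInstance
    exact congrArg Subtype.val (this.is_comm.comm (⟨k, hk⟩ : K) ⟨l, hl⟩)
  have hD : Data G N K o := ⟨hZ.faith, hNn, hNt', hNf, fun m hm n hn =>
    congrArg Subtype.val (hNc.is_comm.comm (⟨m, hm⟩ : N) ⟨n, hn⟩), hK.le, hK.nrm, hK.reg, hKc⟩
  obtain ⟨F, hF, hFf, e, A, hcF, he0, he1, hAe, -, -, -, -, hB⟩ := coords hD how.symm
  obtain ⟨B, hB'⟩ := hB x hxo hxw
  have hpow : ∀ (i : ℕ) (y : Ω), (B ^ i) (e y) = e (x ^ i • y) := by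
    intro i
    induction i with
    | zero => intro y; rw [pow_zero, pow_zero, one_smul]; rfl
    | succ i ih =>
      intro y
      rw [pow_succ, pow_succ, mul_smul]
      change (B ^ i) (B (e y)) = _
      rw [← hB', ← hAe x hxo, ih]
  have hBr : B ^ r = 1 := by
    apply RingEquiv.ext
    intro y
    obtain ⟨z, rfl⟩ := e.surjective y
    rw [hpow, ← hxr, pow_orderOf_eq_one, one_smul]
    rfl
  have hord := orderOf_dvd_of_pow_eq_one hBr
  have hfixB : Nat.card {y : F // B y = y} = 2 := by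
    have e1 : {y : F | B y = y} = {0, 1} := by
      ext y
      simp only [Set.mem_ofPred_eq, Set.mem_insert_iff, Set.mem_singleton_iff]
      constructor
      · intro hy
        obtain ⟨z, rfl⟩ := e.surjective y
        rw [← hB', ← hAe x hxo] at hy
        have hz := e.injective hy
        by_contra hcon
        push Not at hcon
        apply hx1
        apply hZ.three x o w z how _ _ hxo hxw hz
        · rintro rfl; exact hcon.2 he1
        · rintro rfl; exact hcon.1 he0
      · rintro (rfl | rfl)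
        · exact map_zero B
        · exact map_one B
    have e2 : Nat.card {y : F // B y = y} = ({y : F | B y = y} : Set F).ncard := rfl
    rw [e2, e1, Set.ncard_pair zero_ne_one]
  have hFc := card_eq_fixed_pow B
  rw [hfixB] at hFc
  rw [Nat.card_eq_fintype_card, Nat.card_eq_fintype_card, hFc] at hcF
  rcases (Nat.dvd_prime hr).1 hord with h | h
  · exfalso
    rw [h, pow_one] at hcF
    apply hx1
    apply hZ.faith
    intro y
    have : y ∈ ({o, w} : Finset Ω) := by
      have h5 : ({o, w} : Finset Ω) = Finset.univ := by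
        apply Finset.eq_univ_of_card
        rw [Finset.card_pair how, hcF]
      rw [h5]; exact Finset.mem_univ _
    rw [Finset.mem_insert, Finset.mem_singleton] at this
    rcases this with rfl | rfl
    · exact hxo
    · exact hxw
  · exact ⟨r, hr, by rw [hcF, h]⟩

end Cfsg.Agent.H9.ZassS
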