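import Mathlib
import Cfsg.Agent.H3_Zass4
import Cfsg.Agent.H23_ZAction
import Cfsg.Agent.H9_ZassA

/-!
# Zassenhaus groups with odd two-point stabiliser without normal complements
-/

set_option autoImplicit false

namespace Cfsg.Agent.H9.ZassY

open Cfsg Subgroup Cfsg.Agent.H3.Zass Cfsg.Agent.H3.Zass2 Cfsg.Agent.H9.ZassA

variable {G Ω : Type*} [Group G] [MulAction G Ω]

theorem lam_trivial [Finite G] [Fintype Ω] (hZ : IsZassenhausGroup G Ω) {a b : Ω} (hab : a ≠ b)
    (hodd : Odd (Nat.card (EE G a b)))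
    (hnil : ∀ q : ℕ, q.Prime → q ∣ Nat.card (EE G a b) → ¬ ∃ N : Subgroup G, N.Normal ∧ N.index = q ^ (Nat.card G).factorization q)
    {t : G} (hta : t • a = b)
    (htb : t • b = a) (lam : EE G a b →* ℂˣ)
    (htm : ∀ x ∈ EE G a b, t * x * t⁻¹ ∈ EE G a b)
    (hinv : ∀ x : EE G a b, lam ⟨t * x * t⁻¹, htm x x.2⟩ = lam x) : lam = 1 := by
  classical
  by_contra hne
  have hzg := H3.Zass4.zgroup hZ hab hodd
  have hr1 : Nat.card lam.range ≠ 1 := by
    intro h
    apply hne
    ext x
    have h1 : lam.range = ⊥ := Subgroup.card_eq_one.1 h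
    have h2 : lam x ∈ lam.range := ⟨x, rfl⟩
    rw [h1, Subgroup.mem_bot] at h2
    rw [h2]; rfl
  haveI : Finite lam.range := Finite.of_surjective lam.rangeRestrict lam.rangeRestrict_surjective
  obtain ⟨q, hq, hqr⟩ := Nat.exists_prime_and_dvd hr1
  haveI := Fact.mk hq
  have hker : lam.ker.index = Nat.card lam.range := by rw [Subgroup.index_ker]
  have hqE : q ∣ Nat.card (EE G a b) := by
    rw [← lam.ker.card_mul_index, hker]
    exact Dvd.dvd.mul_left hqr _
  apply hnil q hq hqE
  have hq2 : q ≠ 2 := by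
    rintro rfl
    rw [← Nat.not_even_iff_odd] at hodd
    exact hodd (even_iff_two_dvd.2 hqE)
  obtain ⟨P⟩ : Nonempty (Sylow q (EE G a b)) := inferInstance
  -- lam is nontrivial on P
  have hPlam : ¬ (P : Subgroup (EE G a b)) ≤ lam.ker := by
    intro h
    have h1 : lam.ker.index ∣ (P : Subgroup (EE G a b)).index := Subgroup.index_dvd_of_le h
    rw [hker] at h1
    exact P.not_dvd_index (hqr.trans h1)
  have hcomm : ∀ x ∈ (P : Subgroup (EE G a b)), x ∈ commutator (EE G a b) → x = 1 := by
    intro x hx hxc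
    have h1 : commutator (EE G a b) ≤ lam.ker := Abelianization.commutator_subset_ker lam
    have h2 : q ∣ (commutator (EE G a b)).index := by
      have := Subgroup.index_dvd_of_le h1
      rw [hker] at this
      exact hqr.trans this
    have h3 : orderOf x ∣ Nat.card (commutator (EE G a b)) := by
      rw [← Subgroup.orderOf_mk x hxc]
      exact orderOf_dvd_natCard _
    obtain ⟨k, hk⟩ := (IsPGroup.iff_orderOf.1 P.isPGroup') ⟨x, hx⟩
    rw [Subgroup.orderOf_mk] at hk
    rcases Nat.eq_zero_or_pos k with h4 | h4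
    · rw [h4, pow_zero, orderOf_eq_one_iff] at hk
      exact hk
    · exfalso
      have h5 : q ∣ Nat.card (commutator (EE G a b)) := by
        rw [hk] at h3
        exact (dvd_pow_self q (by omega)).trans h3
      have h6 := Nat.dvd_gcd h5 h2
      rw [IsZGroup.coprime_commutator_index] at h6
      exact hq.one_lt.ne' (Nat.dvd_one.1 h6)
  obtain ⟨Q, hQ⟩ : ∃ Q : Subgroup G, Q = (P : Subgroup (EE G a b)).map (EE G a b).subtype := ⟨_, rfl⟩
  have hQE : Q ≤ EE G a b := by rw [hQ]; exact Subgroup.map_subtype_le _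
  have hQP : ∀ x : EE G a b, (x : G) ∈ Q ↔ x ∈ (P : Subgroup (EE G a b)) := by
    intro x
    rw [hQ]
    constructor
    · rintro ⟨y, hy, hyx⟩
      rwa [← Subtype.ext hyx]
    · intro h
      exact ⟨x, h, rfl⟩
  have hQp : IsPGroup q Q := by rw [hQ]; exact P.isPGroup'.map _
  have hQcard : Nat.card Q = Nat.card P := by
    rw [hQ, Subgroup.card_map_of_injective (Subgroup.subtype_injective _)]
  have hPcyc : IsCyclic P := hzg.isZGroup q hq P
  haveI hQcyc : IsCyclic Q := by
    rw [hQ]
    exact ((P : Subgroup (EE G a b)).equivMapOfInjective _ (Subgroup.subtype_injective _)).isCyclic.1 hPcyc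
  obtain ⟨h, hh, -⟩ := card_omega hZ hab
  have hQidx : ¬ q ∣ Q.index := by
    intro hd
    have h1 := card_G hZ hab hh
    have h2 := Q.card_mul_index
    have h3 := (P : Subgroup (EE G a b)).card_mul_index
    rw [h1, hQcard, ← h3] at h2
    have h4 : Q.index = (h + 1) * h * (P : Subgroup (EE G a b)).index := by
      apply Nat.eq_of_mul_eq_mul_left (Nat.card_pos (α := P))
      change Nat.card P * _ = Nat.card P * _
      rw [h2]; ring
    rw [h4] at hd
    rcases hq.dvd_mul.1 hd with h5 | h5
    · have h6 := coprime_card hZ hab hh hodd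
      have h7 : q ∣ h * (h + 1) := by rwa [mul_comm] at h5
      have h8 := Nat.dvd_gcd hqE h7
      rw [h6] at h8
      exact hq.one_lt.ne' (Nat.dvd_one.1 h8)
    · exact P.not_dvd_index h5
  let S : Sylow q G := hQp.toSylow hQidx
  have hS : (S : Subgroup G) = Q := rfl
  -- the part of the normaliser inside E
  have hNE : ∀ g ∈ normalizer (Q : Set G), g ∈ EE G a b → ∀ x ∈ Q, g * x * g⁻¹ = x := by
    intro g hg hgE x hx
    have h1 : g * x * g⁻¹ ∈ Q := (mem_normalizer_iff.1 hg x).1 hx
    have h2 := hcomm (⟨g, hgE⟩ * ⟨x, hQE hx⟩ * ⟨g, hgE⟩⁻¹ * ⟨x, hQE hx⟩⁻¹) (by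
      have h3 : g * x * g⁻¹ * x⁻¹ ∈ Q := Q.mul_mem h1 (Q.inv_mem hx)
      exact (hQP _).1 h3) (by
      rw [commutator_def]
      exact Subgroup.commutator_mem_commutator trivial trivial)
    have h3 : g * x * g⁻¹ * x⁻¹ = 1 := congrArg Subtype.val h2
    exact mul_inv_eq_one.1 h3
  have hcent : normalizer ((S : Subgroup G) : Set G) ≤ centralizer ((S : Subgroup G) : Set G) := by
    rw [hS]
    intro g hg
    obtain ⟨x0, hx0, hx0l⟩ : ∃ x0 ∈ (P : Subgroup (EE G a b)), x0 ∉ lam.ker := by
      by_contra hcon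
      push Not at hcon
      exact hPlam hcon
    have hx01 : (x0 : G) ≠ 1 := by
      intro h
      apply hx0l
      have : x0 = 1 := Subtype.ext h
      rw [this]; exact one_mem _
    have key : ∀ x ∈ Q, g * x * g⁻¹ = x := by
      have h1 : g * x0 * g⁻¹ ∈ Q := (mem_normalizer_iff.1 hg x0).1 ((hQP x0).2 hx0)
      rcases E_TI hZ hab x0.2 (hQE h1) hx01 with ⟨h2, h3⟩ | ⟨h2, h3⟩
      · exact hNE g hg ⟨h2, h3⟩
      · -- g swaps a and b
        have hgg : g * g ∈ EE G a b := ⟨by
          change (g * g) • a = a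
          rw [mul_smul, h2, h3], by
          change (g * g) • b = b
          rw [mul_smul, h3, h2]⟩
        have hggN : g * g ∈ normalizer (Q : Set G) := mul_mem hg hg
        have hggc := hNE _ hggN hgg
        have hlam : ∀ x : EE G a b, ∀ hgx : g * x * g⁻¹ ∈ EE G a b, lam ⟨g * x * g⁻¹, hgx⟩ = lam x := by
          intro x hgx
          have he : t⁻¹ * g ∈ EE G a b := ⟨by
            change (t⁻¹ * g) • a = a
            rw [mul_smul, h2, inv_smul_eq_iff, hta], by
            change (t⁻¹ * g) • b = b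
            rw [mul_smul, h3, inv_smul_eq_iff, htb]⟩
          have h4 := hinv (⟨_, he⟩ * x * ⟨_, he⟩⁻¹)
          have h5 : (⟨t * ((⟨_, he⟩ * x * ⟨_, he⟩⁻¹ : EE G a b) : G) * t⁻¹, htm _ (⟨_, he⟩ * x * ⟨_, he⟩⁻¹ : EE G a b).2⟩ : EE G a b) =
              ⟨g * x * g⁻¹, hgx⟩ := by
            apply Subtype.ext
            change t * ((t⁻¹ * g) * x * (t⁻¹ * g)⁻¹) * t⁻¹ = g * x * g⁻¹
            group
          rw [h5] at h4
          rw [h4, map_mul, map_mul, map_inv, mul_comm (lam ⟨t⁻¹ * g, he⟩), mul_inv_cancel_right]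
        obtain ⟨m, hm⟩ : ∃ m, m = orderOf (g * g) := ⟨_, rfl⟩
        have hmodd : Odd m := by
          have h4 : orderOf (g * g) ∣ Nat.card (EE G a b) := by
            rw [← Subgroup.orderOf_mk (g * g) hgg]
            exact orderOf_dvd_natCard _
          rw [hm]
          exact Odd.of_dvd_nat hodd h4
        obtain ⟨k, hk⟩ := hmodd
        obtain ⟨g', hg'⟩ : ∃ g', g' = g ^ m := ⟨_, rfl⟩
        have hg'1 : g' = (g * g) ^ k * g := by
          rw [hg', hk, pow_add, pow_mul, pow_one, pow_two]
        have hg'N : g' ∈ normalizer (Q : Set G) := by rw [hg']; exact pow_mem hg m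
        have hg'2 : g' * g' = 1 := by
          rw [hg', ← pow_add, ← two_mul, pow_mul, pow_two, hm, pow_orderOf_eq_one]
        have hg'c : ∀ x ∈ Q, g' * x * g'⁻¹ = g * x * g⁻¹ := by
          intro x hx
          have h4 := hNE _ (pow_mem hggN k) (pow_mem hgg k) _ ((mem_normalizer_iff.1 hg x).1 hx)
          rw [← h4, hg'1]
          group
        have hQodd : Nat.card Q % 2 = 1 := by
          have h4 : Nat.card Q ∣ Nat.card (EE G a b) := Subgroup.card_dvd_of_le hQE
          exact Nat.odd_iff.1 (Odd.of_dvd_nat hodd h4)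
        by_cases hb : Q ⊓ centralizer (zpowers g' : Set G) = ⊥
        · exfalso
          have h4 := inv_of_fpf (K := Q) hg'2 (fun k hk => (mem_normalizer_iff.1 hg'N k).1 hk) (by
            intro k hk hkk
            have h5 : k ∈ Q ⊓ centralizer (zpowers g' : Set G) := ⟨hk, by
              change k ∈ centralizer _
              rw [mem_centralizer_iff]
              rintro _ ⟨n, rfl⟩
              exact (show Commute g' k from mul_inv_eq_iff_eq_mul.1 hkk).zpow_left n⟩
            rwa [hb, mem_bot] at h5) x0 ((hQP x0).2 hx0)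
          rw [hg'c x0 ((hQP x0).2 hx0)] at h4
          have h5 := hlam x0 (hQE h1)
          have h6 : (⟨g * x0 * g⁻¹, hQE h1⟩ : EE G a b) = x0⁻¹ := Subtype.ext h4
          rw [h6, map_inv] at h5
          have h7 : lam x0 ^ 2 = 1 := by rw [pow_two]; nth_rewrite 1 [← h5]; exact inv_mul_cancel _
          have h8 : orderOf (lam x0) ∣ 2 := orderOf_dvd_of_pow_eq_one h7
          have h9 : orderOf (lam x0) ∣ Nat.card (EE G a b) := (orderOf_map_dvd lam x0).trans (orderOf_dvd_natCard _)
          have h10 : orderOf (lam x0) = 1 := by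
            rcases (Nat.dvd_prime Nat.prime_two).1 h8 with h | h
            · exact h
            · exfalso
              rw [h] at h9
              rw [← Nat.not_even_iff_odd] at hodd
              exact hodd (even_iff_two_dvd.2 h9)
          exact hx0l (orderOf_eq_one_iff.1 h10)
        · have h4 := H23.ZAction.cyclic_pgroup_action (A := zpowers g') (P := Q) hQp (zpowers_le.2 hg'N) (by
            rw [Nat.card_zpowers]
            have h5 : orderOf g' ∣ 2 := orderOf_dvd_of_pow_eq_one (by rw [pow_two, hg'2])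
            apply Nat.Coprime.coprime_dvd_left h5
            rw [Nat.coprime_two_left]
            exact Nat.odd_iff.2 hQodd) hb
          intro x hx
          rw [← hg'c x hx]
          have h5 := h4 hx
          rw [mem_centralizer_iff] at h5
          rw [mul_inv_eq_iff_eq_mul]
          exact h5 g' (mem_zpowers g')
    rw [mem_centralizer_iff]
    intro x hx
    exact (mul_inv_eq_iff_eq_mul.1 (key x hx)).symm
  refine ⟨(MonoidHom.transferSylow S hcent).ker, inferInstance, ?_⟩
  rw [(MonoidHom.ker_transferSylow_isComplement' S hcent).symm.index_eq_card]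
  exact S.card_eq_multiplicity

theorem main [Finite G] [Fintype Ω] (hZ : IsZassenhausGroup G Ω) {a b : Ω} (hab : a ≠ b)
    (hodd : Odd (Nat.card (EE G a b)))
    (hnil : ∀ q : ℕ, q.Prime → q ∣ Nat.card (EE G a b) → ¬ ∃ N : Subgroup G, N.Normal ∧ N.index = q ^ (Nat.card G).factorization q) :
    IsCyclic (EE G a b) ∧ centralizer ((EE G a b : Subgroup G) : Set G) = EE G a b ∧
    ∀ s : G, s • a = b → s • b = a → ∀ h ∈ EE G a b, s * h * s⁻¹ = h⁻¹ := by
  classical
  have hzg := H3.Zass4.zgroup hZ hab hodd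
  obtain ⟨t, ht, hta, htb⟩ := exists_inv hZ hab hodd
  have ht2 : t * t = 1 := by have := pow_orderOf_eq_one t; rwa [ht, sq] at this
  have htn : t ∈ Subgroup.normalizer ((EE G a b : Subgroup G) : Set G) := swap_normalizes (Or.inr ⟨hta, htb⟩)
  have htm : ∀ x ∈ EE G a b, t * x * t⁻¹ ∈ EE G a b := fun x hx =>
    (Subgroup.mem_normalizer_iff.mp htn x).mp hx
  have htt : ∀ x : G, t * (t * x * t⁻¹) * t⁻¹ = x := by
    intro x
    have h1 : t * (t * x * t⁻¹) * t⁻¹ = (t * t) * x * (t * t)⁻¹ := by group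
    rw [h1, ht2]; group
  let τ : EE G a b ≃* EE G a b :=
    { toFun := fun x => ⟨t * x * t⁻¹, htm x x.2⟩
      invFun := fun x => ⟨t * x * t⁻¹, htm x x.2⟩
      left_inv := fun x => Subtype.ext (htt x)
      right_inv := fun x => Subtype.ext (htt x)
      map_mul' := fun x y => by apply Subtype.ext; simp only [Subgroup.coe_mul]; group }
  have hfix : ∀ k ∈ EE G a b, t * k * t⁻¹ = k → k = 1 := by
    intro x hx hc
    have h1 := H3.ZGrp.fix_trivial hodd τ (fun x => Subtype.ext (htt x)) (fun lam hlam =>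
      lam_trivial hZ hab hodd hnil hta htb lam htm hlam) (x := ⟨x, hx⟩) (Subtype.ext hc)
    exact congrArg Subtype.val h1
  have hinv := inv_of_fpf ht2 htm hfix
  have hc : ∀ x ∈ EE G a b, ∀ y ∈ EE G a b, x * y = y * x := by
    intro x hx y hy
    have h1 := hinv _ ((EE G a b).mul_mem hx hy)
    have h4 : t * (x * y) * t⁻¹ = (t * x * t⁻¹) * (t * y * t⁻¹) := by group
    rw [h4, hinv x hx, hinv y hy] at h1
    have h5 := congrArg (·⁻¹) h1
    simp only [mul_inv_rev, inv_inv] at h5
    exact h5.symm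
  have hs : ∀ s : G, s • a = b → s • b = a → ∀ h ∈ EE G a b, s * h * s⁻¹ = h⁻¹ := by
    intro s hsa hsb h hh
    have he : t⁻¹ * s ∈ EE G a b := ⟨by
      change (t⁻¹ * s) • a = a
      rw [mul_smul, hsa, inv_smul_eq_iff, hta], by
      change (t⁻¹ * s) • b = b
      rw [mul_smul, hsb, inv_smul_eq_iff, htb]⟩
    have h1 : s * h * s⁻¹ = t * ((t⁻¹ * s) * h * (t⁻¹ * s)⁻¹) * t⁻¹ := by group
    rw [h1, hc _ he h hh, mul_inv_cancel_right, hinv h hh]
  refine ⟨?_, ?_, hs⟩
  · letI : CommGroup (EE G a b) := { (inferInstance : Group (EE G a b)) with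
      mul_comm := fun x y => Subtype.ext (hc x x.2 y y.2) }
    haveI : IsZGroup (EE G a b) := hzg
    infer_instance
  · apply le_antisymm
    · intro g hg
      rw [mem_centralizer_iff] at hg
      obtain ⟨x, hx, hxa, hxb⟩ := exists_ne_one hZ hab
      have hxE : x ∈ EE G a b := ⟨hxa, hxb⟩
      have h1 := hg x hxE
      have h2 : g * x * g⁻¹ = x := by rw [← h1, mul_inv_cancel_right]
      rcases E_TI hZ hab hxE (g := g) (by rw [h2]; exact hxE) hx with h3 | h3
      · exact h3
      · exfalso
        have h4 := hs g h3.1 h3.2 x hxE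
        rw [h2] at h4
        apply hx
        have h5 : x ^ 2 = 1 := by rw [pow_two]; nth_rewrite 1 [h4]; exact inv_mul_cancel _
        have h8 : orderOf x ∣ 2 := orderOf_dvd_of_pow_eq_one h5
        have h9 : orderOf x ∣ Nat.card (EE G a b) := by
          rw [← Subgroup.orderOf_mk x hxE]
          exact orderOf_dvd_natCard _
        rcases (Nat.dvd_prime Nat.prime_two).1 h8 with h | h
        · exact orderOf_eq_one_iff.1 h
        · exfalso
          rw [h] at h9
          rw [← Nat.not_even_iff_odd] at hodd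
          exact hodd (even_iff_two_dvd.2 h9)
    · intro x hx
      rw [mem_centralizer_iff]
      exact fun y hy => hc y hy x hx

end Cfsg.Agent.H9.ZassY
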