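import Mathlib
import Cfsg.Agent.HL_FusCrit

set_option autoImplicit false
set_option linter.unusedSectionVars false
set_option linter.unusedVariables false

/-!
Simplicity of the fusion systems of groups in defining characteristic: reduction to a group with central `p'`-kernel and
to one Sylow subgroup.
-/

namespace Cfsg.Agent.HL.DC

open Cfsg Cfsg.Agent.HL.FusCrit

universe u
variable {p : ℕ} [Fact p.Prime]

/-- the two conditions -/
structure Cond {Γ : Type u} [Group Γ] (p : ℕ) (S : Subgroup Γ) : Prop where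
  ne : S ≠ ⊥
  sc : ∀ T : Subgroup Γ, T ≤ S → (∀ t ∈ T, ∀ g : Γ, g * t * g⁻¹ ∈ S → g * t * g⁻¹ ∈ T) → T = ⊥ ∨ T = S
  gen : Subgroup.normalizer (S : Set Γ) ≤ Subgroup.closure (Acc p S)

variable {Γ : Type u} [Group Γ] [Finite Γ]

theorem Cond.simple {S : Sylow p Γ} (c : Cond p (S : Subgroup Γ)) : (groupFusionSystem (S : Subgroup Γ)).IsSimple p :=
  simple_gfs S c.ne c.sc c.gen

/-- conjugation -/
theorem map_conj_mem {S : Subgroup Γ} {g x : Γ} : x ∈ S.map (MulAut.conj g).toMonoidHom ↔ g⁻¹ * x * g ∈ S := by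
  constructor
  · rintro ⟨y, hy, rfl⟩
    have : g⁻¹ * (MulAut.conj g).toMonoidHom y * g = y := by simp [MulAut.conj_apply, mul_assoc]
    rw [this]; exact hy
  · intro h
    refine ⟨_, h, ?_⟩
    simp [MulAut.conj_apply, mul_assoc]

theorem norm_map {Δ : Type u} [Group Δ] (φ : Γ →* Δ) {S : Subgroup Γ} {g : Γ} (hg : g ∈ Subgroup.normalizer (S : Set Γ)) :
    φ g ∈ Subgroup.normalizer ((S.map φ : Subgroup Δ) : Set Δ) := by
  have h1 : ∀ g ∈ Subgroup.normalizer (S : Set Γ), ∀ x ∈ S.map φ, φ g * x * (φ g)⁻¹ ∈ S.map φ := by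
    rintro g hg _ ⟨x, hx, rfl⟩
    refine ⟨g * x * g⁻¹, (Subgroup.mem_normalizer_iff.1 hg x).1 hx, ?_⟩
    rw [map_mul, map_mul, map_inv]
  rw [Subgroup.mem_normalizer_iff]
  intro x
  constructor
  · exact h1 g hg x
  · intro hx
    have := h1 g⁻¹ (inv_mem hg) _ hx
    rw [map_inv, inv_inv] at this
    have e : (φ g)⁻¹ * (φ g * x * (φ g)⁻¹) * φ g = x := by group
    rwa [e] at this

/-- transfer of the accounted elements along a homomorphism injective on `S` -/
theorem acc_map {Δ : Type u} [Group Δ] [Finite Δ] (φ : Γ →* Δ) {S : Subgroup Γ} (hinj : ∀ s ∈ S, φ s = 1 → s = 1) {g : Γ} (hg : g ∈ Acc p S) :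
    φ g ∈ Acc p (S.map φ) := by
  rcases hg with (hg | hg) | ⟨hgN, R, hRS, hSR, hCR, hg⟩
  · exact Or.inl (Or.inl ⟨g, hg, rfl⟩)
  · refine Or.inl (Or.inr ?_)
    rw [SetLike.mem_coe, Subgroup.mem_centralizer_iff]
    rintro _ ⟨s, hs, rfl⟩
    rw [← map_mul, ← map_mul, Subgroup.mem_centralizer_iff.1 hg s hs]
  · refine Or.inr ⟨norm_map φ hgN, R.map φ, Subgroup.map_mono hRS, ?_, ?_, ?_⟩
    · rintro _ ⟨s, hs, rfl⟩
      exact norm_map φ (hSR hs)
    · rintro _ ⟨⟨s, hs, rfl⟩, hc⟩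
      refine ⟨s, hCR (Subgroup.mem_inf.2 ⟨hs, Subgroup.mem_centralizer_iff.2 ?_⟩), rfl⟩
      intro r hr
      have h1 := Subgroup.mem_centralizer_iff.1 hc (φ r) ⟨r, hr, rfl⟩
      have h2 : φ ((r * s) * (s * r)⁻¹) = 1 := by
        rw [map_mul, map_inv, map_mul, map_mul, h1, mul_inv_cancel]
      have h3 := hinj _ (mul_mem (mul_mem (hRS hr) hs) (inv_mem (mul_mem hs (hRS hr)))) h2
      exact mul_inv_eq_one.1 h3
    · have h1 : Subgroup.closure {g : Γ | g ∈ Subgroup.normalizer (R : Set Γ) ∧ ∃ k : ℕ, orderOf g = p ^ k} ≤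
          (Subgroup.closure {g : Δ | g ∈ Subgroup.normalizer ((R.map φ : Subgroup Δ) : Set Δ) ∧ ∃ k : ℕ, orderOf g = p ^ k}).comap φ := by
        rw [Subgroup.closure_le]
        rintro x ⟨hx, k, hk⟩
        refine Subgroup.subset_closure ⟨norm_map φ hx, ?_⟩
        have h2 : orderOf (φ x) ∣ p ^ k := by rw [← hk]; exact orderOf_map_dvd φ x
        obtain ⟨m, -, hm⟩ := (Nat.dvd_prime_pow Fact.out).1 h2
        exact ⟨m, hm⟩
      exact h1 hg

theorem Cond.conj {S : Subgroup Γ} (c : Cond p S) (g : Γ) : Cond p (S.map (MulAut.conj g).toMonoidHom) := by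
  have hinj : ∀ s ∈ S, (MulAut.conj g).toMonoidHom s = 1 → s = 1 := fun s _ h => (MulAut.conj g).injective (h.trans (map_one _).symm)
  constructor
  · intro h
    exact c.ne ((Subgroup.map_eq_bot_iff_of_injective _ (MulAut.conj g).injective).1 h)
  · intro T hT hsc
    have h1 := c.sc (T.map (MulAut.conj g⁻¹).toMonoidHom) ?_ ?_
    · have h2 : (T.map (MulAut.conj g⁻¹).toMonoidHom).map (MulAut.conj g).toMonoidHom = T := by
        ext x
        rw [map_conj_mem, map_conj_mem]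
        have : g⁻¹⁻¹ * (g⁻¹ * x * g) * g⁻¹ = x := by group
        rw [this]
      rcases h1 with h1 | h1
      · left; rw [← h2, h1, Subgroup.map_bot]
      · right; rw [← h2, h1]
    · intro x hx
      rw [map_conj_mem] at hx
      have h2 := hT hx
      rw [map_conj_mem] at h2
      have : g⁻¹ * (g⁻¹⁻¹ * x * g⁻¹) * g = x := by group
      rwa [this] at h2
    · intro t ht k hk
      rw [map_conj_mem] at ht ⊢
      have h2 := hsc _ ht (g * k * g⁻¹)
      have e : g * k * g⁻¹ * (g⁻¹⁻¹ * t * g⁻¹) * (g * k * g⁻¹)⁻¹ = g⁻¹⁻¹ * (k * t * k⁻¹) * g⁻¹ := by group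
      rw [e] at h2
      apply h2
      rw [map_conj_mem]
      have : g⁻¹ * (g⁻¹⁻¹ * (k * t * k⁻¹) * g⁻¹) * g = k * t * k⁻¹ := by group
      rw [this]; exact hk
  · intro x hx
    have h1 : g⁻¹ * x * g ∈ Subgroup.normalizer (S : Set Γ) := by
      rw [Subgroup.mem_normalizer_iff]
      intro s
      have h2 := (Subgroup.mem_normalizer_iff.1 hx) (g * s * g⁻¹)
      rw [map_conj_mem, map_conj_mem] at h2
      have e1 : g⁻¹ * (g * s * g⁻¹) * g = s := by group
      have e2 : g⁻¹ * (x * (g * s * g⁻¹) * x⁻¹) * g = g⁻¹ * x * g * s * (g⁻¹ * x * g)⁻¹ := by group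
      rw [e1, e2] at h2
      exact h2
    have h3 : Subgroup.closure (Acc p S) ≤ (Subgroup.closure (Acc p (S.map (MulAut.conj g).toMonoidHom))).comap (MulAut.conj g).toMonoidHom := by
      rw [Subgroup.closure_le]
      intro y hy
      exact Subgroup.subset_closure (acc_map _ hinj hy)
    have h4 := h3 (c.gen h1)
    have e : (MulAut.conj g).toMonoidHom (g⁻¹ * x * g) = x := by simp [MulAut.conj_apply, mul_assoc]
    rw [Subgroup.mem_comap, e] at h4
    exact h4

/-- central quotient -/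
theorem Cond.quot {S : Subgroup Γ} (c : Cond p S) (hS : IsPGroup p S) {Δ : Type u} [Group Δ] [Finite Δ] (φ : Γ →* Δ) (hφ : Function.Surjective φ)
    (hk : (Nat.card φ.ker).Coprime p) (hc : φ.ker ≤ Subgroup.center Γ) : Cond p (S.map φ) := by
  have hinj : ∀ s ∈ S, φ s = 1 → s = 1 := by
    intro s hs h
    obtain ⟨k, hk2⟩ := hS ⟨s, hs⟩
    have h3 : s ^ p ^ k = 1 := congrArg Subtype.val hk2
    have h4 : orderOf s ∣ Nat.card φ.ker := by
      rw [← Subgroup.orderOf_mk s (MonoidHom.mem_ker.2 h)]; exact orderOf_dvd_natCard _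
    have h5 : orderOf s ∣ p ^ k := orderOf_dvd_of_pow_eq_one h3
    have h6 : Nat.Coprime (p ^ k) (Nat.card φ.ker) := Nat.Coprime.pow_left _ hk.symm
    exact orderOf_eq_one_iff.1 (Nat.eq_one_of_dvd_coprimes h6 h5 h4)
  constructor
  · intro h
    apply c.ne
    rw [eq_bot_iff]
    intro s hs
    have : φ s ∈ S.map φ := ⟨s, hs, rfl⟩
    rw [h, Subgroup.mem_bot] at this
    exact hinj s hs this
  · intro T hT hsc
    have h1 := c.sc (S ⊓ T.comap φ) inf_le_left ?_
    · rcases h1 with h1 | h1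
      · left
        rw [eq_bot_iff]
        intro t ht
        obtain ⟨s, hs, rfl⟩ := hT ht
        have : s ∈ S ⊓ T.comap φ := ⟨hs, ht⟩
        rw [h1, Subgroup.mem_bot] at this
        rw [this, map_one]; exact one_mem _
      · right
        apply le_antisymm hT
        rintro _ ⟨s, hs, rfl⟩
        rw [SetLike.mem_coe, ← h1] at hs
        exact hs.2
    · rintro t ⟨ht1, ht2⟩ g hg
      refine ⟨hg, ?_⟩
      show φ (g * t * g⁻¹) ∈ T
      rw [map_mul, map_mul, map_inv]
      apply hsc _ ht2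
      rw [← map_inv, ← map_mul, ← map_mul]
      exact ⟨_, hg, rfl⟩
  · intro x hx
    obtain ⟨g, rfl⟩ := hφ x
    have hgN : g ∈ Subgroup.normalizer (S : Set Γ) := by
      have h0 : ∀ g : Γ, φ g ∈ Subgroup.normalizer ((S.map φ : Subgroup Δ) : Set Δ) → ∀ s ∈ S, g * s * g⁻¹ ∈ S := by
        intro g hg s hs
        have h1 := (Subgroup.mem_normalizer_iff.1 hg (φ s)).1 ⟨s, hs, rfl⟩
        rw [← map_inv, ← map_mul, ← map_mul] at h1
        obtain ⟨t, ht, h2⟩ := h1
        -- `g s g⁻¹ = t z`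
        obtain ⟨z, hz⟩ : ∃ z, z = t⁻¹ * (g * s * g⁻¹) := ⟨_, rfl⟩
        have hzk : z ∈ φ.ker := by
          rw [MonoidHom.mem_ker, hz, map_mul, map_inv, h2, inv_mul_cancel]
        have h3 : g * s * g⁻¹ = t * z := by rw [hz]; group
        -- orders
        obtain ⟨k, hk2⟩ := hS ⟨s, hs⟩
        have h4 : s ^ p ^ k = 1 := congrArg Subtype.val hk2
        obtain ⟨l, hl2⟩ := hS ⟨t, ht⟩
        have h5 : t ^ p ^ l = 1 := congrArg Subtype.val hl2
        have hcomm : Commute t z := (Subgroup.mem_center_iff.1 (hc hzk) t)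
        have h6 : z ^ p ^ (k + l) = 1 := by
          have e1 : (t * z) ^ p ^ (k + l) = 1 := by
            rw [← h3, conj_pow, pow_add, pow_mul, h4, one_pow, mul_one, mul_inv_cancel]
          rw [hcomm.mul_pow, add_comm k l, pow_add, pow_mul t, h5, one_pow, one_mul] at e1
          rw [add_comm k l, pow_add]; exact e1
        have h7 : orderOf z ∣ Nat.card φ.ker := by
          rw [← Subgroup.orderOf_mk z hzk]; exact orderOf_dvd_natCard _
        have h8 : Nat.Coprime (p ^ (k + l)) (Nat.card φ.ker) := Nat.Coprime.pow_left _ hk.symm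
        have h9 := orderOf_eq_one_iff.1 (Nat.eq_one_of_dvd_coprimes h8 (orderOf_dvd_of_pow_eq_one h6) h7)
        rw [h3, h9, mul_one]; exact ht
      rw [Subgroup.mem_normalizer_iff]
      intro s
      refine ⟨h0 g hx s, fun h => ?_⟩
      have := h0 g⁻¹ (by rw [map_inv]; exact inv_mem hx) _ h
      have e : g⁻¹ * (g * s * g⁻¹) * g⁻¹⁻¹ = s := by group
      rwa [e] at this
    have h3 : Subgroup.closure (Acc p S) ≤ (Subgroup.closure (Acc p (S.map φ))).comap φ := by
      rw [Subgroup.closure_le]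
      intro y hy
      exact Subgroup.subset_closure (acc_map φ hinj hy)
    exact h3 (c.gen hgN)

/-- a `p`-subgroup containing all `p`-elements of its normaliser is Sylow -/
theorem exists_sylow {U : Subgroup Γ} (hU : IsPGroup p U)
    (h : ∀ g ∈ Subgroup.normalizer (U : Set Γ), (∃ k, g ^ p ^ k = 1) → g ∈ U) : ∃ P : Sylow p Γ, (P : Subgroup Γ) = U := by
  obtain ⟨P, hP⟩ := hU.exists_le_sylow
  refine ⟨P, ?_⟩
  by_contra hne
  have hlt : U.subgroupOf P < ⊤ := by
    rw [lt_top_iff_ne_top]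
    intro h1
    apply hne
    apply le_antisymm _ hP
    intro x hx
    have : (⟨x, hx⟩ : (P : Subgroup Γ)) ∈ U.subgroupOf P := by rw [h1]; exact Subgroup.mem_top _
    exact this
  have hnil : Group.IsNilpotent (P : Subgroup Γ) := P.2.isNilpotent
  have hnc := Group.normalizerCondition_of_isNilpotent (G := (P : Subgroup Γ)) (U.subgroupOf P) hlt
  obtain ⟨x, hx, hxU⟩ := SetLike.exists_of_lt hnc
  apply hxU
  rw [Subgroup.mem_subgroupOf]
  apply h
  · rw [Subgroup.mem_normalizer_iff] at hx ⊢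
    intro u
    constructor
    · intro hu
      exact (hx ⟨u, hP hu⟩).1 hu
    · intro hu
      have e : u = (x : Γ)⁻¹ * ((x : Γ) * u * (x : Γ)⁻¹) * x := by group
      have hu2 : u ∈ (P : Subgroup Γ) := by
        rw [e]; exact mul_mem (mul_mem (inv_mem x.2) (hP hu)) x.2
      exact (hx ⟨u, hu2⟩).2 hu
  · obtain ⟨k, hk⟩ := P.2 x
    exact ⟨k, congrArg Subtype.val hk⟩

/-- the main reduction -/
theorem simple_quot {U : Subgroup Γ} (hU : IsPGroup p U)
    (hUs : ∀ g ∈ Subgroup.normalizer (U : Set Γ), (∃ k, g ^ p ^ k = 1) → g ∈ U) (c : Cond p U)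
    {Δ : Type u} [Group Δ] [Finite Δ] (φ : Γ →* Δ) (hφ : Function.Surjective φ)
    (hk : (Nat.card φ.ker).Coprime p) (hc : φ.ker ≤ Subgroup.center Γ) (S : Sylow p Δ) : (groupFusionSystem (S : Subgroup Δ)).IsSimple p := by
  obtain ⟨P, hP⟩ := exists_sylow hU hUs
  have c1 : Cond p ((P : Subgroup Γ).map φ) := by rw [hP]; exact c.quot hU φ hφ hk hc
  -- the image is Sylow
  have hidx : ¬ p ∣ ((P : Subgroup Γ).map φ).index := by
    intro h
    have h2 := Subgroup.index_map_dvd (H := (P : Subgroup Γ)) hφ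
    exact P.not_dvd_index (h.trans h2)
  obtain ⟨Q, hQ⟩ : ∃ Q : Sylow p Δ, (Q : Subgroup Δ) = (P : Subgroup Γ).map φ :=
    ⟨(P.2.map φ).toSylow hidx, rfl⟩
  obtain ⟨g, hg⟩ := MulAction.exists_smul_eq Δ Q S
  rw [← hQ] at c1
  have c2 := c1.conj g
  have e : (Q : Subgroup Δ).map (MulAut.conj g).toMonoidHom = (S : Subgroup Δ) := by
    rw [← hg]; rfl
  rw [e] at c2
  exact c2.simple

end Cfsg.Agent.HL.DC
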