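import Mathlib
import Cfsg.Agent.HL_DC1

set_option autoImplicit false
set_option linter.unusedSectionVars false
set_option linter.unusedVariables false

/-!
Unipotent radicals of flags, for a finite group acting linearly in defining characteristic.
-/

namespace Cfsg.Agent.HL.DC

open Cfsg Cfsg.Agent.HL.FusCrit

universe u v
variable {F : Type v} [Field F] {V : Type v} [AddCommGroup V] [Module F V]
variable {Γ : Type u} [Group Γ] [Finite Γ] (ρ : Γ →* (V →ₗ[F] V))

/-- closure under inverses is automatic -/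
theorem inv_mem_of_finite (M : Submonoid Γ) {g : Γ} (hg : g ∈ M) : g⁻¹ ∈ M := by
  have h : g⁻¹ = g ^ (orderOf g - 1) := by
    rw [eq_comm, ← mul_eq_one_iff_eq_inv, ← pow_succ, Nat.sub_add_cancel (orderOf_pos g), pow_orderOf_eq_one]
  rw [h]; exact pow_mem hg _

/-- stabiliser of a flag -/
def BF (W : ℕ → Submodule F V) : Subgroup Γ where
  carrier := {g | ∀ k, ∀ v ∈ W k, ρ g v ∈ W k}
  mul_mem' := by
    intro a b ha hb k v hv
    rw [map_mul]
    exact ha k _ (hb k v hv)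
  one_mem' := by
    intro k v hv
    rw [map_one]; exact hv
  inv_mem' := by
    intro g hg
    exact inv_mem_of_finite (Γ := Γ) { carrier := {g | ∀ k, ∀ v ∈ W k, ρ g v ∈ W k}
                                       mul_mem' := fun {a b} ha hb k v hv => by rw [map_mul]; exact ha k _ (hb k v hv)
                                       one_mem' := fun k v hv => by rw [map_one]; exact hv } hg

/-- the unipotent radical -/
def UF (W : ℕ → Submodule F V) : Subgroup Γ where
  carrier := {g | ∀ k, (∀ v ∈ W k, ρ g v ∈ W k) ∧ ∀ v ∈ W (k + 1), ρ g v - v ∈ W k}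
  mul_mem' := by
    intro a b ha hb k
    refine ⟨fun v hv => ?_, fun v hv => ?_⟩
    · rw [map_mul]; exact (ha k).1 _ ((hb k).1 v hv)
    · rw [map_mul]
      have h1 : (ρ a * ρ b) v - v = ρ a (ρ b v - v) + (ρ a v - v) := by
        rw [map_sub, Module.End.mul_apply]; abel
      rw [h1]
      exact (W k).add_mem ((ha k).1 _ ((hb k).2 v hv)) ((ha k).2 v hv)
  one_mem' := by
    intro k
    refine ⟨fun v hv => by rw [map_one]; exact hv, fun v hv => ?_⟩
    rw [map_one, Module.End.one_apply, sub_self]; exact (W k).zero_mem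
  inv_mem' := by
    intro g hg
    exact inv_mem_of_finite (Γ := Γ) {
      carrier := {g | ∀ k, (∀ v ∈ W k, ρ g v ∈ W k) ∧ ∀ v ∈ W (k + 1), ρ g v - v ∈ W k}
      mul_mem' := fun {a b} ha hb k => by
        refine ⟨fun v hv => ?_, fun v hv => ?_⟩
        · rw [map_mul]; exact (ha k).1 _ ((hb k).1 v hv)
        · rw [map_mul]
          have h1 : (ρ a * ρ b) v - v = ρ a (ρ b v - v) + (ρ a v - v) := by
            rw [map_sub, Module.End.mul_apply]; abel
          rw [h1]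
          exact (W k).add_mem ((ha k).1 _ ((hb k).2 v hv)) ((ha k).2 v hv)
      one_mem' := fun k => by
        refine ⟨fun v hv => by rw [map_one]; exact hv, fun v hv => ?_⟩
        rw [map_one, Module.End.one_apply, sub_self]; exact (W k).zero_mem } hg

variable {ρ} {W : ℕ → Submodule F V}

theorem mem_BF {g : Γ} : g ∈ BF ρ W ↔ ∀ k, ∀ v ∈ W k, ρ g v ∈ W k := Iff.rfl
theorem mem_UF {g : Γ} : g ∈ UF ρ W ↔ ∀ k, (∀ v ∈ W k, ρ g v ∈ W k) ∧ ∀ v ∈ W (k + 1), ρ g v - v ∈ W k := Iff.rfl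

theorem UF_le_BF : UF ρ W ≤ BF ρ W := fun _ hg k => (hg k).1

theorem mul_inv_apply' (g : Γ) (v : V) : ρ g (ρ g⁻¹ v) = v := by
  rw [← Module.End.mul_apply, ← map_mul, mul_inv_cancel, map_one, Module.End.one_apply]
theorem inv_mul_apply' (g : Γ) (v : V) : ρ g⁻¹ (ρ g v) = v := by
  rw [← Module.End.mul_apply, ← map_mul, inv_mul_cancel, map_one, Module.End.one_apply]

theorem BF_le_normalizer : BF ρ W ≤ Subgroup.normalizer ((UF ρ W : Subgroup Γ) : Set Γ) := by
  have h0 : ∀ g ∈ BF ρ W, ∀ u ∈ UF ρ W, g * u * g⁻¹ ∈ UF ρ W := by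
    intro g hg u hu k
    have hgi : g⁻¹ ∈ BF ρ W := inv_mem hg
    refine ⟨fun v hv => ?_, fun v hv => ?_⟩
    · rw [map_mul, map_mul]
      exact hg k _ ((hu k).1 _ (hgi k v hv))
    · have h1 : ρ (g * u * g⁻¹) v - v = ρ g (ρ u (ρ g⁻¹ v) - ρ g⁻¹ v) := by
        rw [map_sub, mul_inv_apply', map_mul, map_mul, Module.End.mul_apply, Module.End.mul_apply]
      rw [h1]
      exact hg k _ ((hu k).2 _ (hgi (k + 1) v hv))
  intro g hg
  rw [Subgroup.mem_normalizer_iff]
  intro u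
  refine ⟨h0 g hg u, fun h => ?_⟩
  have := h0 g⁻¹ (inv_mem hg) _ h
  have e : g⁻¹ * (g * u * g⁻¹) * g⁻¹⁻¹ = u := by group
  rwa [e] at this

/-- the normaliser of the radical preserves the flag -/
theorem normalizer_le_BF (h0 : W 0 = ⊥) (hfix : ∀ k, ∀ v, (∀ u ∈ UF ρ W, ρ u v - v ∈ W k) → v ∈ W (k + 1)) :
    Subgroup.normalizer ((UF ρ W : Subgroup Γ) : Set Γ) ≤ BF ρ W := by
  intro g hg k
  induction k generalizing g with
  | zero =>
    intro v hv
    rw [h0, Submodule.mem_bot] at hv ⊢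
    rw [hv, map_zero]
  | succ k ih =>
    intro v hv
    apply hfix
    intro u hu
    have h1 : g⁻¹ * u * g ∈ UF ρ W := by
      have := (Subgroup.mem_normalizer_iff.1 (inv_mem hg) u).1 hu
      rwa [inv_inv] at this
    have h2 : ρ u (ρ g v) - ρ g v = ρ g (ρ (g⁻¹ * u * g) v - v) := by
      rw [map_sub, map_mul, map_mul, Module.End.mul_apply, Module.End.mul_apply, mul_inv_apply']
    rw [h2]
    exact ih hg _ ((h1 k).2 v hv)

variable {p : ℕ} [Fact p.Prime] [CharP F p]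

theorem nilp {g : Γ} (h0 : W 0 = ⊥) (hg : g ∈ UF ρ W) : ∀ k, ∀ v ∈ W k, ((ρ g - 1) ^ k) v = 0 := by
  intro k
  induction k with
  | zero =>
    intro v hv
    rw [h0, Submodule.mem_bot] at hv
    rw [hv, map_zero]
  | succ k ih =>
    intro v hv
    rw [pow_succ, Module.End.mul_apply]
    exact ih _ ((hg k).2 v hv)

theorem isPGroup_UF (hρ : Function.Injective ρ) (h0 : W 0 = ⊥) {N : ℕ} (hN : W N = ⊤) : IsPGroup p (UF ρ W : Subgroup Γ) := by
  rintro ⟨g, hg⟩
  refine ⟨N, Subtype.ext ?_⟩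
  show g ^ p ^ N = 1
  apply hρ
  rw [map_pow, map_one]
  have h1 : (ρ g - 1) ^ N = 0 := by
    ext v
    have : v ∈ W N := by rw [hN]; exact Submodule.mem_top
    exact nilp h0 hg N v this
  have h2 : (ρ g) ^ p ^ N - 1 = (ρ g - 1) ^ p ^ N := by
    have h3 : ((Polynomial.X : Polynomial F) - 1) ^ p ^ N = Polynomial.X ^ p ^ N - 1 := by
      rw [sub_pow_char_pow, one_pow]
    have h4 := congrArg (Polynomial.aeval (ρ g)) h3
    simp only [map_pow, map_sub, Polynomial.aeval_X, map_one] at h4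
    exact h4.symm
  have h5 : N ≤ p ^ N := (Nat.lt_pow_self (Fact.out : p.Prime).one_lt).le
  rw [pow_eq_zero_of_le h5 h1, sub_eq_zero] at h2
  exact h2

theorem scalar_one {x : F} {m : ℕ} (h : x ^ p ^ m = 1) : x = 1 := by
  have h1 : (x - 1) ^ p ^ m = 0 := by rw [sub_pow_char_pow, one_pow, h, sub_self]
  have h2 : p ^ m ≠ 0 := pow_ne_zero _ (Fact.out : p.Prime).ne_zero
  exact sub_eq_zero.1 ((pow_eq_zero_iff h2).1 h1)

/-- `p`-elements of the stabiliser of a full flag -/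
theorem mem_UF_of_pow (hmono : ∀ k, W k ≤ W (k + 1)) (h1 : ∀ k, ∃ b : V, W (k + 1) ≤ W k ⊔ F ∙ b) {g : Γ} (hg : g ∈ BF ρ W) {m : ℕ}
    (hm : g ^ p ^ m = 1) : g ∈ UF ρ W := by
  intro k
  refine ⟨hg k, fun v hv => ?_⟩
  by_cases hall : W (k + 1) ≤ W k
  · exact (W k).sub_mem (hg k v (hall hv)) (hall hv)
  · obtain ⟨b, hb⟩ := h1 k
    -- choose a vector outside `W k`
    obtain ⟨c, hc, hck⟩ := SetLike.not_le_iff_exists.1 hall
    obtain ⟨w, hw, x, hx, hwx⟩ := Submodule.mem_sup.1 (hb hc)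
    obtain ⟨a, rfl⟩ := Submodule.mem_span_singleton.1 hx
    have ha : a ≠ 0 := by
      rintro rfl
      rw [zero_smul, add_zero] at hwx
      exact hck (hwx ▸ hw)
    -- `W (k+1) = W k + F c`
    have hspan : ∀ y ∈ W (k + 1), ∃ (t : F), y - t • c ∈ W k := by
      intro y hy
      obtain ⟨w', hw', x', hx', hwx'⟩ := Submodule.mem_sup.1 (hb hy)
      obtain ⟨a', rfl⟩ := Submodule.mem_span_singleton.1 hx'
      refine ⟨a' * a⁻¹, ?_⟩
      have h2 : y - (a' * a⁻¹) • c = w' - (a' * a⁻¹) • w := by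
        rw [← hwx', ← hwx, smul_add, smul_smul, mul_assoc, inv_mul_cancel₀ ha, mul_one]
        abel
      rw [h2]
      exact (W k).sub_mem hw' ((W k).smul_mem _ hw)
    obtain ⟨l, hl⟩ := hspan _ (hg (k + 1) c hc)
    have hpow : ∀ j : ℕ, ρ (g ^ j) c - l ^ j • c ∈ W k := by
      intro j
      induction j with
      | zero => rw [pow_zero, map_one, pow_zero, one_smul, Module.End.one_apply, sub_self]; exact (W k).zero_mem
      | succ j ih =>
        have h2 : ρ (g ^ (j + 1)) c - l ^ (j + 1) • c = ρ g (ρ (g ^ j) c - l ^ j • c) + l ^ j • (ρ g c - l • c) := by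
          rw [map_sub, map_smul, smul_sub, smul_smul, ← pow_succ, pow_succ' g, map_mul, Module.End.mul_apply]
          abel
        rw [h2]
        exact (W k).add_mem (hg k _ ih) ((W k).smul_mem _ hl)
    have h2 := hpow (p ^ m)
    rw [hm, map_one, Module.End.one_apply] at h2
    have h3 : l ^ p ^ m = 1 := by
      by_contra hne
      have h4 : (1 - l ^ p ^ m) • c ∈ W k := by rw [sub_smul, one_smul]; exact h2
      apply hck
      have h5 := (W k).smul_mem (1 - l ^ p ^ m)⁻¹ h4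
      rwa [smul_smul, inv_mul_cancel₀ (sub_ne_zero.2 (Ne.symm hne)), one_smul] at h5
    have h4 : l = 1 := scalar_one (p := p) h3
    rw [h4, one_smul] at hl
    obtain ⟨t, ht⟩ := hspan v hv
    have h5 : ρ g v - v = (ρ g (v - t • c) - (v - t • c)) + t • (ρ g c - c) := by
      rw [map_sub, map_smul, smul_sub]; abel
    rw [h5]
    exact (W k).add_mem ((W k).sub_mem (hg k _ ht) ht) ((W k).smul_mem _ hl)

/-- accounted elements from a parabolic -/
theorem acc_of {W' : ℕ → Submodule F V} (hle : UF ρ W' ≤ (UF ρ W : Subgroup Γ)) (hnor : UF ρ W ≤ (BF ρ W' : Subgroup Γ))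
    (hC : UF ρ W ⊓ Subgroup.centralizer ((UF ρ W' : Subgroup Γ) : Set Γ) ≤ UF ρ W') {g : Γ}
    (hgN : g ∈ Subgroup.normalizer ((UF ρ W : Subgroup Γ) : Set Γ))
    (hg : g ∈ Subgroup.closure {x : Γ | x ∈ BF ρ W' ∧ ∃ k : ℕ, x ^ p ^ k = 1}) :
    g ∈ Acc p (UF ρ W : Subgroup Γ) := by
  refine Or.inr ⟨hgN, UF ρ W', hle, hnor.trans BF_le_normalizer, hC, ?_⟩
  have h1 : Subgroup.closure {x : Γ | x ∈ BF ρ W' ∧ ∃ k : ℕ, x ^ p ^ k = 1} ≤
      Subgroup.closure {x : Γ | x ∈ Subgroup.normalizer ((UF ρ W' : Subgroup Γ) : Set Γ) ∧ ∃ k : ℕ, orderOf x = p ^ k} := by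
    apply Subgroup.closure_mono
    rintro x ⟨hx, k, hk⟩
    refine ⟨BF_le_normalizer hx, ?_⟩
    obtain ⟨m, -, hm⟩ := (Nat.dvd_prime_pow Fact.out).1 (orderOf_dvd_of_pow_eq_one hk)
    exact ⟨m, hm⟩
  exact h1 hg

end Cfsg.Agent.HL.DC
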