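import Mathlib
import Cfsg.Agent.HL_DC2

set_option autoImplicit false
set_option linter.unusedSectionVars false
set_option linter.unusedVariables false

/-!
Isometry groups of Witt index at least two: Eichler elements and the hyperbolic flag.
-/

namespace Cfsg.Agent.HL.DC

open Cfsg Cfsg.Agent.HL.FusCrit

universe u v

/-- an isometry group of Witt index `m` in dimension `n` (`n = 2m` or `2m+1`) with a hyperbolic flag basis -/
structure Geo (K : Type v) [Field K] (V : Type v) [AddCommGroup V] [Module K V] (Γ : Type u) [Group Γ] where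
  ρ : Γ →* (V →ₗ[K] V)
  inj : Function.Injective ρ
  σ : K →+* K
  ss : ∀ a, σ (σ a) = a
  ε : K
  ee : ε * ε = 1
  se : σ ε = ε
  B : V → V → K
  addl : ∀ x y z, B (x + y) z = B x z + B y z
  addr : ∀ x y z, B x (y + z) = B x y + B x z
  smull : ∀ (a : K) x y, B (a • x) y = σ a * B x y
  smulr : ∀ (a : K) x y, B x (a • y) = a * B x y
  swap : ∀ x y, B y x = ε * σ (B x y)
  pres : ∀ g x y, B (ρ g x) (ρ g y) = B x y
  n : ℕ
  m : ℕ
  two_le : 2 ≤ m
  hn : n = 2 * m ∨ n = 2 * m + 1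
  b : ℕ → V
  b_ne : ∀ i < n, B (b i) (b (n - 1 - i)) ≠ 0
  b_zero : ∀ i < n, ∀ j < n, i + j + 1 ≠ n → B (b i) (b j) = 0
  nondeg : ∀ v, (∀ i < n, B (b i) v = 0) → v = 0
  ex : ∀ e y a, B e e = 0 → B e y = 0 → ε * a + σ a + B y y = 0 →
    ∃ g : Γ, ∀ x, ρ g x = x + B e x • y - (ε * B y x) • e + (a * B e x) • e
  exa : ∀ y, ∃ a, ε * a + σ a + B y y = 0
  a0 : ∃ a, a ≠ 0 ∧ ε * a + σ a = 0
  trans : ∀ v, v ≠ 0 → B v v = 0 → ∃ g, ρ g (b 0) = v

namespace Geo

variable {K : Type v} [Field K] {V : Type v} [AddCommGroup V] [Module K V] {Γ : Type u} [Group Γ] (D : Geo K V Γ)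

theorem zerol (x : V) : D.B 0 x = 0 := by
  have := D.smull 0 0 x
  rwa [zero_smul, map_zero, zero_mul] at this
theorem zeror (x : V) : D.B x 0 = 0 := by
  have := D.smulr 0 x 0
  rwa [zero_smul, zero_mul] at this
theorem negl (x y : V) : D.B (-x) y = - D.B x y := by
  have := D.smull (-1) x y
  rwa [neg_one_smul, map_neg, map_one, neg_one_mul] at this
theorem negr (x y : V) : D.B x (-y) = - D.B x y := by
  have := D.smulr (-1) x y
  rwa [neg_one_smul, neg_one_mul] at this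
theorem subl (x y z : V) : D.B (x - y) z = D.B x z - D.B y z := by
  rw [sub_eq_add_neg, D.addl, D.negl, sub_eq_add_neg]
theorem subr (x y z : V) : D.B x (y - z) = D.B x y - D.B x z := by
  rw [sub_eq_add_neg, D.addr, D.negr, sub_eq_add_neg]
theorem e_ne : D.ε ≠ 0 := by
  intro h; have := D.ee; rw [h, zero_mul] at this; exact zero_ne_one this
theorem swap_zero {x y : V} (h : D.B x y = 0) : D.B y x = 0 := by rw [D.swap, h, map_zero, mul_zero]
theorem swap_ne {x y : V} (h : D.B x y ≠ 0) : D.B y x ≠ 0 := fun h' => h (D.swap_zero h')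
theorem s_ne {a : K} (h : a ≠ 0) : D.σ a ≠ 0 := fun h' => h ((map_eq_zero D.σ).1 h')
theorem n_ge : 4 ≤ D.n := by have := D.two_le; rcases D.hn with h | h <;> omega

theorem inv_mul_ap (g : Γ) (x : V) : D.ρ g⁻¹ (D.ρ g x) = x := by
  rw [← Module.End.mul_apply, ← map_mul, inv_mul_cancel, map_one, Module.End.one_apply]
theorem mul_inv_ap (g : Γ) (x : V) : D.ρ g (D.ρ g⁻¹ x) = x := by
  rw [← Module.End.mul_apply, ← map_mul, mul_inv_cancel, map_one, Module.End.one_apply]
theorem mul_ap (g h : Γ) (x : V) : D.ρ (g * h) x = D.ρ g (D.ρ h x) := by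
  rw [map_mul, Module.End.mul_apply]
theorem pres' (g : Γ) (x y : V) : D.B (D.ρ g x) y = D.B x (D.ρ g⁻¹ y) := by
  rw [← D.pres g⁻¹, D.inv_mul_ap]
theorem ext {g h : Γ} (H : ∀ x, D.ρ g x = D.ρ h x) : g = h := D.inj (LinearMap.ext H)

/-- Eichler elements -/
def IsE (g : Γ) (e y : V) (a : K) : Prop :=
  D.B e e = 0 ∧ D.B e y = 0 ∧ D.ε * a + D.σ a + D.B y y = 0 ∧
    ∀ x, D.ρ g x = x + D.B e x • y - (D.ε * D.B y x) • e + (a * D.B e x) • e

variable {D}

theorem IsE.exists {e y : V} {a : K} (h1 : D.B e e = 0) (h2 : D.B e y = 0) (h3 : D.ε * a + D.σ a + D.B y y = 0) : ∃ g, D.IsE g e y a := by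
  obtain ⟨g, hg⟩ := D.ex e y a h1 h2 h3
  exact ⟨g, h1, h2, h3, hg⟩

theorem IsE.uniq {g g' : Γ} {e y : V} {a : K} (h : D.IsE g e y a) (h' : D.IsE g' e y a) : g = g' :=
  D.ext fun x => by rw [h.2.2.2, h'.2.2.2]

theorem IsE.conj {g : Γ} {e y : V} {a : K} (h : D.IsE g e y a) (k : Γ) : D.IsE (k * g * k⁻¹) (D.ρ k e) (D.ρ k y) a := by
  refine ⟨by rw [D.pres]; exact h.1, by rw [D.pres]; exact h.2.1, by rw [D.pres]; exact h.2.2.1, fun x => ?_⟩
  rw [D.mul_ap, D.mul_ap, h.2.2.2, D.pres' k e, D.pres' k y]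
  simp only [map_add, map_sub, map_smul, D.mul_inv_ap]

theorem IsE.mul {g g' : Γ} {e y y' : V} {a a' : K} (h : D.IsE g e y a) (h' : D.IsE g' e y' a') :
    D.IsE (g * g') e (y + y') (a + a' - D.ε * D.B y y') := by
  obtain ⟨h1, h2, h3, h4⟩ := h
  obtain ⟨-, h2', h3', h4'⟩ := h'
  have hye : D.B y e = 0 := D.swap_zero h2
  have hye' : D.B y' e = 0 := D.swap_zero h2'
  refine ⟨h1, by rw [D.addr, h2, h2', add_zero], ?_, fun x => ?_⟩
  · rw [D.addl, D.addr, D.addr, D.swap y y', map_sub, map_add, map_mul, D.se]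
    have e1 : D.ε * (a + a' - D.ε * D.B y y') + (D.σ a + D.σ a' - D.ε * D.σ (D.B y y')) +
        (D.B y y + D.B y y' + (D.ε * D.σ (D.B y y') + D.B y' y')) =
        (D.ε * a + D.σ a + D.B y y) + (D.ε * a' + D.σ a' + D.B y' y') + (1 - D.ε * D.ε) * D.B y y' := by ring
    rw [e1, h3, h3', D.ee]; ring
  · rw [D.mul_ap, h4, h4']
    have e1 : D.B e (x + D.B e x • y' - (D.ε * D.B y' x) • e + (a' * D.B e x) • e) = D.B e x := by
      rw [D.addr, D.subr, D.addr, D.smulr, D.smulr, D.smulr, h1, h2']; ring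
    have e2 : D.B y (x + D.B e x • y' - (D.ε * D.B y' x) • e + (a' * D.B e x) • e) = D.B y x + D.B e x * D.B y y' := by
      rw [D.addr, D.subr, D.addr, D.smulr, D.smulr, D.smulr, hye]; ring
    rw [e1, e2, D.addl]
    module

theorem IsE.one {e : V} (h : D.B e e = 0) : D.IsE 1 e 0 0 := by
  refine ⟨h, D.zeror _, by rw [D.zerol, map_zero]; ring, fun x => ?_⟩
  rw [map_one, Module.End.one_apply, smul_zero, D.zerol, mul_zero, zero_mul, zero_smul]; abel

theorem IsE.eq_one {g : Γ} {e : V} (h : D.IsE g e 0 0) : g = 1 := h.uniq (IsE.one h.1)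

theorem IsE.inv {g : Γ} {e y : V} {a : K} (h : D.IsE g e y a) : D.IsE g⁻¹ e (-y) (-a - D.ε * D.B y y) := by
  obtain ⟨h1, h2, h3, h4⟩ := h
  have h3' : D.ε * (-a - D.ε * D.B y y) + D.σ (-a - D.ε * D.B y y) + D.B (-y) (-y) = 0 := by
    have hs : D.B y y = D.ε * D.σ (D.B y y) := D.swap y y
    rw [D.negl, D.negr, map_sub, map_neg, map_mul, D.se]
    have e1 : D.ε * (-a - D.ε * D.B y y) + (-D.σ a - D.ε * D.σ (D.B y y)) + - -D.B y y =
      -(D.ε * a + D.σ a + D.B y y) + (1 - D.ε * D.ε) * D.B y y + (D.B y y - D.ε * D.σ (D.B y y)) := by ring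
    rw [e1, h3, D.ee, ← hs]; ring
  obtain ⟨g', hg'⟩ := IsE.exists (D := D) (e := e) (y := -y) (a := -a - D.ε * D.B y y) h1 (by rw [D.negr, h2, neg_zero]) h3'
  have h5 := IsE.mul ⟨h1, h2, h3, h4⟩ hg'
  have e2 : a + (-a - D.ε * D.B y y) - D.ε * D.B y (-y) = 0 := by rw [D.negr]; ring
  rw [e2, add_neg_cancel] at h5
  have h6 := h5.eq_one
  have h7 : g' = g⁻¹ := (inv_eq_of_mul_eq_one_right h6).symm
  rw [← h7]; exact hg'

/-- changing `y` by a multiple of `e` -/
theorem IsE.shift {g : Γ} {e y : V} {a s : K} (h : D.IsE g e (y + s • e) a) : D.IsE g e y (a + s - D.ε * D.σ s) := by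
  obtain ⟨h1, h2, h3, h4⟩ := h
  have h2' : D.B e y = 0 := by rw [D.addr, D.smulr, h1, mul_zero, add_zero] at h2; exact h2
  have hye : D.B y e = 0 := D.swap_zero h2'
  refine ⟨h1, h2', ?_, fun x => ?_⟩
  · rw [D.addl, D.addr, D.addr, D.smulr, D.smulr, D.smull, D.smull, h1, h2', hye] at h3
    rw [map_sub, map_add, map_mul, D.se, D.ss]
    have e1 : D.ε * (a + s - D.ε * D.σ s) + (D.σ a + D.σ s - D.ε * s) + D.B y y =
      (D.ε * a + D.σ a + D.B y y) + (1 - D.ε * D.ε) * D.σ s := by ring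
    rw [e1, D.ee]
    linear_combination h3
  · rw [h4, D.addl, D.smull]
    module

theorem IsE.shift' {g : Γ} {e y : V} {a s : K} (h : D.IsE g e y a) : D.IsE g e (y + s • e) (a - s + D.ε * D.σ s) := by
  have h0 : D.IsE g e ((y + s • e) + (-s) • e) a := by
    have : (y + s • e) + (-s) • e = y := by module
    rw [this]; exact h
  have h1 := h0.shift
  have e1 : a + -s - D.ε * D.σ (-s) = a - s + D.ε * D.σ s := by rw [map_neg]; ring
  rwa [e1] at h1

/-- commutator -/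
theorem IsE.comm {g g' : Γ} {e y y' : V} {a a' : K} (h : D.IsE g e y a) (h' : D.IsE g' e y' a') :
    D.IsE (g * g' * g⁻¹ * g'⁻¹) e 0 (- D.ε * (D.B y y' - D.B y' y)) := by
  have h1 := ((h.mul h').mul h.inv).mul h'.inv
  have e1 : y + y' + -y + -y' = 0 := by abel
  rw [e1] at h1
  convert h1 using 1
  simp only [D.addl, D.negr, D.negl]
  ring

section p
variable {p : ℕ} [Fact p.Prime] [CharP K p]

theorem IsE.pow {g : Γ} {e y : V} {a : K} (h : D.IsE g e y a) : g ^ p ^ 2 = 1 := by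
  apply D.inj
  rw [map_pow, map_one]
  obtain ⟨h1, h2, h3, h4⟩ := h
  have hye : D.B y e = 0 := D.swap_zero h2
  have h0 : (D.ρ g - 1) ^ 3 = 0 := by
    have h5 : ∀ x, (D.ρ g - 1) x = D.B e x • y - (D.ε * D.B y x) • e + (a * D.B e x) • e := by
      intro x
      rw [LinearMap.sub_apply, Module.End.one_apply, h4]; abel
    have h6 : ∀ x, (D.ρ g - 1) ((D.ρ g - 1) x) = (- D.ε * (D.B e x * D.B y y)) • e := by
      intro x
      rw [h5 x, h5]
      have e1 : D.B e (D.B e x • y - (D.ε * D.B y x) • e + (a * D.B e x) • e) = 0 := by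
        rw [D.addr, D.subr, D.smulr, D.smulr, D.smulr, h1, h2]; ring
      have e2 : D.B y (D.B e x • y - (D.ε * D.B y x) • e + (a * D.B e x) • e) = D.B e x * D.B y y := by
        rw [D.addr, D.subr, D.smulr, D.smulr, D.smulr, hye]; ring
      rw [e1, e2]
      module
    ext x
    rw [pow_succ, pow_two, Module.End.mul_apply, Module.End.mul_apply, h6, h5 x]
    have e1 : D.B e (D.B e x • y - (D.ε * D.B y x) • e + (a * D.B e x) • e) = 0 := by
      rw [D.addr, D.subr, D.smulr, D.smulr, D.smulr, h1, h2]; ring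
    rw [e1]; simp
  have h2 : (D.ρ g) ^ p ^ 2 - 1 = (D.ρ g - 1) ^ p ^ 2 := by
    have h3 : ((Polynomial.X : Polynomial K) - 1) ^ p ^ 2 = Polynomial.X ^ p ^ 2 - 1 := by
      rw [sub_pow_char_pow, one_pow]
    have h4 := congrArg (Polynomial.aeval (D.ρ g)) h3
    simp only [map_pow, map_sub, Polynomial.aeval_X, map_one] at h4
    exact h4.symm
  have h5 : 3 ≤ p ^ 2 := by
    have := (Fact.out : p.Prime).two_le
    nlinarith
  rw [pow_eq_zero_of_le h5 h0, sub_eq_zero] at h2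
  exact h2
end p

variable (D)

/-- the flag -/
def W (k : ℕ) : Submodule K V where
  carrier := {v | ∀ j, j + k < D.n → D.B (D.b j) v = 0}
  add_mem' := fun {x y} hx hy j hj => by rw [D.addr, hx j hj, hy j hj, add_zero]
  zero_mem' := fun j _ => D.zeror _
  smul_mem' := fun c x hx j hj => by rw [D.smulr, hx j hj, mul_zero]

variable {D}

theorem mem_W {k : ℕ} {v : V} : v ∈ D.W k ↔ ∀ j, j + k < D.n → D.B (D.b j) v = 0 := Iff.rfl

theorem W_zero : D.W 0 = ⊥ := by
  rw [eq_bot_iff]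
  intro v hv
  rw [Submodule.mem_bot]
  exact D.nondeg v fun i hi => hv i (by omega)

theorem W_top {k : ℕ} (h : D.n ≤ k) : D.W k = ⊤ := by
  rw [eq_top_iff]
  intro v _ j hj
  omega

theorem W_le {k l : ℕ} (h : k ≤ l) : D.W k ≤ D.W l := fun v hv j hj => hv j (by omega)

theorem b_mem {i k : ℕ} (hi : i < D.n) (h : i < k) : D.b i ∈ D.W k := by
  intro j hj
  exact D.b_zero j (by omega) i hi (by omega)

theorem b_ne' {i j : ℕ} (h : i + j + 1 = D.n) : D.B (D.b i) (D.b j) ≠ 0 := by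
  have h1 := D.b_ne i (by omega)
  have : D.n - 1 - i = j := by omega
  rwa [this] at h1

theorem W_step {k : ℕ} {v : V} (hk : k < D.n) (hv : v ∈ D.W (k + 1)) : ∃ c : K, v - c • D.b k ∈ D.W k := by
  have h0 : D.B (D.b (D.n - 1 - k)) (D.b k) ≠ 0 := b_ne' (by omega)
  refine ⟨D.B (D.b (D.n - 1 - k)) v / D.B (D.b (D.n - 1 - k)) (D.b k), fun j hj => ?_⟩
  rw [D.subr, D.smulr]
  by_cases h : j + (k + 1) < D.n
  · rw [hv j h, D.b_zero j (by omega) k hk (by omega)]; ring
  · have : j = D.n - 1 - k := by omega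
    rw [this, div_mul_cancel₀ _ h0, sub_self]

/-- induction along the flag -/
theorem W_ind {P : V → Prop} (h0 : P 0) (hadd : ∀ x y, P x → P y → P (x + y)) {k : ℕ} (hk : k ≤ D.n)
    (hb : ∀ i < k, ∀ c : K, P (c • D.b i)) : ∀ v ∈ D.W k, P v := by
  induction k with
  | zero =>
    intro v hv
    rw [W_zero, Submodule.mem_bot] at hv
    rw [hv]; exact h0
  | succ k ih =>
    intro v hv
    obtain ⟨c, hc⟩ := W_step (by omega) hv
    have h1 := ih (by omega) (fun i hi => hb i (by omega)) _ hc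
    have h2 := hadd _ _ h1 (hb k (by omega) c)
    rwa [sub_add_cancel] at h2

theorem W_orth {k l : ℕ} (h : k + l ≤ D.n) {x y : V} (hx : x ∈ D.W k) (hy : y ∈ D.W l) : D.B x y = 0 := by
  revert x
  apply W_ind (k := k) (P := fun x => D.B x y = 0) (D.zerol _) (fun x x' h1 h2 => by rw [D.addl, h1, h2, add_zero]) (by omega)
  intro i hi c
  rw [D.smull, hy i (by omega), mul_zero]

/-- linear maps agreeing on the basis -/
theorem ext_b {g h : Γ} (H : ∀ i < D.n, D.ρ g (D.b i) = D.ρ h (D.b i)) : g = h := by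
  apply D.ext
  intro x
  have hx : x ∈ D.W D.n := by rw [W_top le_rfl]; exact Submodule.mem_top
  revert x
  apply W_ind (k := D.n) (P := fun x => D.ρ g x = D.ρ h x) (by rw [map_zero, map_zero])
    (fun x y h1 h2 => by rw [map_add, map_add, h1, h2]) le_rfl
  intro i hi c
  rw [map_smul, map_smul, H i hi]

/-- a vector with all products with `b i` (`i < k`) zero lies in `W (n-k)` -/
theorem mem_W_iff {k : ℕ} (hk : k ≤ D.n) {v : V} : v ∈ D.W (D.n - k) ↔ ∀ i < k, D.B (D.b i) v = 0 := by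
  constructor
  · intro h i hi; exact h i (by omega)
  · intro h j hj; exact h j (by omega)

end Geo

end Cfsg.Agent.HL.DC
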