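import Mathlib
import Cfsg.Agent.HL_DC4

set_option autoImplicit false
set_option linter.unusedSectionVars false
set_option linter.unusedVariables false

/-!
Isometry groups of Witt index at least two: the unipotent radicals.
-/

namespace Cfsg.Agent.HL.DC

open Cfsg Cfsg.Agent.HL.FusCrit

universe u v

namespace Geo

variable {K : Type v} [Field K] {V : Type v} [AddCommGroup V] [Module K V] {Γ : Type u} [Group Γ] {D : Geo K V Γ}

section
variable [Finite Γ]

theorem mem_U_of {g : Γ} (h : ∀ k, ∀ v ∈ D.W (k + 1), D.ρ g v - v ∈ D.W k) : g ∈ UF D.ρ D.W := by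
  intro k
  refine ⟨fun v hv => ?_, h k⟩
  have h1 := h k v (W_le (Nat.le_succ k) hv)
  have h2 := (D.W k).add_mem h1 hv
  rwa [sub_add_cancel] at h2

theorem IsE.mem_U {g : Γ} {j : ℕ} {y : V} {a : K} (hj : 2 * j + 1 < D.n) (hy : y ∈ D.W (D.n - 1 - j)) (h : D.IsE g (D.b j) y a) :
    g ∈ UF D.ρ D.W := by
  apply mem_U_of
  intro k v hv
  have e1 : D.ρ g v - v = D.B (D.b j) v • y - (D.ε * D.B y v) • D.b j + (a * D.B (D.b j) v) • D.b j := by
    rw [h.2.2.2]; abel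
  rw [e1]
  by_cases hk : j + (k + 1) < D.n
  · have h0 : D.B (D.b j) v = 0 := hv j hk
    rw [h0, zero_smul, mul_zero, zero_smul, zero_sub, add_zero]
    apply (D.W k).neg_mem
    by_cases hjk : j < k
    · exact (D.W k).smul_mem _ (b_mem (by omega) hjk)
    · have h1 : D.B y v = 0 := W_orth (k := D.n - 1 - j) (l := k + 1) (by omega) hy hv
      rw [h1, mul_zero, zero_smul]; exact (D.W k).zero_mem
  · have hb : D.b j ∈ D.W k := b_mem (by omega) (by omega)
    have hy' : y ∈ D.W k := W_le (by omega) hy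
    exact (D.W k).add_mem ((D.W k).sub_mem ((D.W k).smul_mem _ hy') ((D.W k).smul_mem _ hb)) ((D.W k).smul_mem _ hb)

theorem exists_root {j : ℕ} (hj : j + 1 < D.n) : ∃ u ∈ UF D.ρ D.W, ∃ s : K, s ≠ 0 ∧ D.ρ u (D.b (j + 1)) - D.b (j + 1) - s • D.b j ∈ D.W j := by
  have h2 := D.two_le
  have hnn := D.hn
  have hA : ∀ i, i + 1 < D.m → ∃ g ∈ UF D.ρ D.W, D.IsE g (D.b i) (D.b (D.n - 2 - i)) 0 := by
    intro i hi
    obtain ⟨g, hg⟩ := IsE.exists (D := D) (e := D.b i) (y := D.b (D.n - 2 - i)) (a := 0)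
      (D.b_zero i (by omega) i (by omega) (by omega)) (D.b_zero i (by omega) _ (by omega) (by omega))
      (by rw [D.b_zero (D.n - 2 - i) (by omega) (D.n - 2 - i) (by omega) (by omega), map_zero]; ring)
    exact ⟨g, hg.mem_U (by omega) (b_mem (by omega) (by omega)), hg⟩
  by_cases h1 : j + 1 < D.m
  · obtain ⟨g, hgU, hg⟩ := hA j h1
    refine ⟨g, hgU, - (D.ε * D.B (D.b (D.n - 2 - j)) (D.b (j + 1))), neg_ne_zero.2 (mul_ne_zero D.e_ne (b_ne' (by omega))), ?_⟩
    rw [hg.2.2.2, D.b_zero j (by omega) (j + 1) (by omega) (by omega)]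
    have : D.b (j + 1) + (0 : K) • D.b (D.n - 2 - j) - (D.ε * D.B (D.b (D.n - 2 - j)) (D.b (j + 1))) • D.b j + (0 * (0 : K)) • D.b j -
      D.b (j + 1) - (-(D.ε * D.B (D.b (D.n - 2 - j)) (D.b (j + 1)))) • D.b j = 0 := by module
    rw [this]; exact (D.W j).zero_mem
  · by_cases h3 : D.n - 1 - j < D.m
    · -- j = n - 2 - i
      obtain ⟨g, hgU, hg⟩ := hA (D.n - 2 - j) (by omega)
      have e1 : D.n - 2 - (D.n - 2 - j) = j := by omega
      rw [e1] at hg
      refine ⟨g, hgU, D.B (D.b (D.n - 2 - j)) (D.b (j + 1)), b_ne' (by omega), ?_⟩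
      rw [hg.2.2.2, D.b_zero j (by omega) (j + 1) (by omega) (by omega)]
      have : D.b (j + 1) + D.B (D.b (D.n - 2 - j)) (D.b (j + 1)) • D.b j - (D.ε * (0 : K)) • D.b (D.n - 2 - j) +
        (0 * D.B (D.b (D.n - 2 - j)) (D.b (j + 1))) • D.b (D.n - 2 - j) -
        D.b (j + 1) - (D.B (D.b (D.n - 2 - j)) (D.b (j + 1))) • D.b j = 0 := by module
      rw [this]; exact (D.W j).zero_mem
    · rcases D.hn with hn | hn
      · have hjm : j = D.m - 1 := by omega
        obtain ⟨a, ha, ha'⟩ := D.a0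
        obtain ⟨g, hg⟩ := IsE.exists (D := D) (e := D.b j) (y := 0) (a := a)
          (D.b_zero j (by omega) j (by omega) (by omega)) (D.zeror _) (by rw [D.zerol, ha', zero_add])
        refine ⟨g, hg.mem_U (by omega) (D.W _).zero_mem, a * D.B (D.b j) (D.b (j + 1)), mul_ne_zero ha (b_ne' (by omega)), ?_⟩
        rw [hg.2.2.2, D.zerol]
        have : D.b (j + 1) + D.B (D.b j) (D.b (j + 1)) • (0 : V) - (D.ε * (0 : K)) • D.b j + (a * D.B (D.b j) (D.b (j + 1))) • D.b j -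
          D.b (j + 1) - (a * D.B (D.b j) (D.b (j + 1))) • D.b j = 0 := by module
        rw [this]; exact (D.W j).zero_mem
      · obtain ⟨a, ha⟩ := D.exa (D.b D.m)
        obtain ⟨g, hg⟩ := IsE.exists (D := D) (e := D.b (D.m - 1)) (y := D.b D.m) (a := a)
          (D.b_zero _ (by omega) _ (by omega) (by omega)) (D.b_zero _ (by omega) _ (by omega) (by omega)) ha
        have hgU : g ∈ UF D.ρ D.W := hg.mem_U (by omega) (b_mem (by omega) (by omega))
        by_cases hjm : j + 1 = D.m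
        · have e1 : D.m - 1 = j := by omega
          rw [← hjm] at hg
          have e2 : j + 1 - 1 = j := by omega
          rw [e2] at hg
          refine ⟨g, hgU, - (D.ε * D.B (D.b (j + 1)) (D.b (j + 1))), neg_ne_zero.2 (mul_ne_zero D.e_ne (b_ne' (by omega))), ?_⟩
          rw [hg.2.2.2, hg.2.1]
          have : D.b (j + 1) + (0 : K) • D.b (j + 1) - (D.ε * D.B (D.b (j + 1)) (D.b (j + 1))) • D.b j + (a * (0 : K)) • D.b j -
            D.b (j + 1) - (-(D.ε * D.B (D.b (j + 1)) (D.b (j + 1)))) • D.b j = 0 := by module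
          rw [this]; exact (D.W j).zero_mem
        · have hjm' : j = D.m := by omega
          subst hjm'
          refine ⟨g, hgU, D.B (D.b (D.m - 1)) (D.b (D.m + 1)), b_ne' (by omega), ?_⟩
          rw [hg.2.2.2, D.b_zero D.m (by omega) (D.m + 1) (by omega) (by omega)]
          have : D.b (D.m + 1) + D.B (D.b (D.m - 1)) (D.b (D.m + 1)) • D.b D.m - (D.ε * (0 : K)) • D.b (D.m - 1) +
            (a * D.B (D.b (D.m - 1)) (D.b (D.m + 1))) • D.b (D.m - 1) - D.b (D.m + 1) -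
            (D.B (D.b (D.m - 1)) (D.b (D.m + 1))) • D.b D.m = (a * D.B (D.b (D.m - 1)) (D.b (D.m + 1))) • D.b (D.m - 1) := by module
          rw [this]
          exact (D.W _).smul_mem _ (b_mem (by omega) (by omega))

theorem fix (k : ℕ) (v : V) (h : ∀ u ∈ UF D.ρ D.W, D.ρ u v - v ∈ D.W k) : v ∈ D.W (k + 1) := by
  by_contra hv
  rw [mem_W] at hv
  push Not at hv
  obtain ⟨j0, hj0, hne0⟩ := hv
  have hex : ∃ j, D.B (D.b j) v ≠ 0 := ⟨j0, hne0⟩
  classical
  obtain ⟨j, hj⟩ : ∃ j, j = Nat.find hex := ⟨_, rfl⟩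
  have hne : D.B (D.b j) v ≠ 0 := by rw [hj]; exact Nat.find_spec hex
  have hle : j ≤ j0 := by rw [hj]; exact Nat.find_min' hex hne0
  have hmin : ∀ i < j, D.B (D.b i) v = 0 := by
    intro i hi
    by_contra h'
    rw [hj] at hi
    exact Nat.find_min hex hi h'
  obtain ⟨u, hu, s, hs, hr⟩ := exists_root (D := D) (j := j) (by omega)
  have h1 := h u⁻¹ (inv_mem hu) (j + 1) (by omega)
  rw [D.subr, ← D.pres', sub_eq_zero] at h1
  have h2 : D.ρ u (D.b (j + 1)) = (D.ρ u (D.b (j + 1)) - D.b (j + 1) - s • D.b j) + (D.b (j + 1) + s • D.b j) := by abel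
  have h3 : D.B (D.ρ u (D.b (j + 1)) - D.b (j + 1) - s • D.b j) v = 0 := by
    revert hr
    apply W_ind (k := j) (P := fun x => D.B x v = 0) (D.zerol _) (fun x x' h1 h2 => by rw [D.addl, h1, h2, add_zero]) (by omega)
    intro i hi c
    rw [D.smull, hmin i hi, mul_zero]
  rw [h2, D.addl, h3, D.addl, D.smull, zero_add, add_eq_left] at h1
  exact (mul_ne_zero (D.s_ne hs) hne) h1

theorem normalizer_le : Subgroup.normalizer ((UF D.ρ D.W : Subgroup Γ) : Set Γ) ≤ BF D.ρ D.W :=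
  normalizer_le_BF W_zero fix

theorem h_step (k : ℕ) : ∃ b : V, D.W (k + 1) ≤ D.W k ⊔ K ∙ b := by
  by_cases hk : k < D.n
  · refine ⟨D.b k, fun v hv => ?_⟩
    obtain ⟨c, hc⟩ := W_step hk hv
    rw [Submodule.mem_sup]
    exact ⟨_, hc, c • D.b k, Submodule.smul_mem _ _ (Submodule.mem_span_singleton_self _), sub_add_cancel _ _⟩
  · refine ⟨0, fun v _ => ?_⟩
    rw [W_top (k := k) (by omega)]
    exact Submodule.mem_sup_left Submodule.mem_top

/-- the flag of a maximal parabolic -/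
def Wc (D : Geo K V Γ) (c l : ℕ) : Submodule K V := if l = 0 then ⊥ else if l = 1 then D.W c else if l = 2 then D.W (D.n - c) else ⊤

theorem mem_Bc {c : ℕ} {g : Γ} : g ∈ BF D.ρ (D.Wc c) ↔ (∀ v ∈ D.W c, D.ρ g v ∈ D.W c) ∧ (∀ v ∈ D.W (D.n - c), D.ρ g v ∈ D.W (D.n - c)) := by
  rw [mem_BF]
  constructor
  · intro h
    exact ⟨fun v hv => by simpa [Wc] using h 1 v (by simpa [Wc] using hv), fun v hv => by simpa [Wc] using h 2 v (by simpa [Wc] using hv)⟩
  · rintro ⟨h1, h2⟩ k v hv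
    match k with
    | 0 =>
      simp only [Wc, if_true, Submodule.mem_bot] at hv ⊢
      rw [hv, map_zero]
    | 1 => simpa [Wc] using h1 v (by simpa [Wc] using hv)
    | 2 => simpa [Wc] using h2 v (by simpa [Wc] using hv)
    | (k + 3) => simp [Wc]

theorem mem_Uc {c : ℕ} (hc : 2 * c ≤ D.n) {g : Γ} : g ∈ UF D.ρ (D.Wc c) ↔ (∀ v ∈ D.W c, D.ρ g v = v) ∧ (∀ v ∈ D.W (D.n - c), D.ρ g v - v ∈ D.W c) ∧
    ∀ v, D.ρ g v - v ∈ D.W (D.n - c) := by
  rw [mem_UF]
  constructor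
  · intro h
    refine ⟨fun v hv => ?_, fun v hv => ?_, fun v => ?_⟩
    · have := (h 0).2 v (by simpa [Wc] using hv)
      simpa [Wc, sub_eq_zero] using this
    · simpa [Wc] using (h 1).2 v (by simpa [Wc] using hv)
    · simpa [Wc] using (h 2).2 v (by simp [Wc])
  · rintro ⟨h1, h2, h3⟩ k
    match k with
    | 0 =>
      refine ⟨fun v hv => ?_, fun v hv => ?_⟩
      · simp only [Wc, if_true, Submodule.mem_bot] at hv ⊢
        rw [hv, map_zero]
      · have := h1 v (by simpa [Wc] using hv)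
        simp only [Wc, if_true, Submodule.mem_bot]
        rw [this, sub_self]
    | 1 =>
      refine ⟨fun v hv => ?_, fun v hv => ?_⟩
      · have hv' : v ∈ D.W c := by simpa [Wc] using hv
        rw [h1 v hv']; exact hv
      · simpa [Wc] using h2 v (by simpa [Wc] using hv)
    | 2 =>
      refine ⟨fun v hv => ?_, fun v hv => ?_⟩
      · have hv' : v ∈ D.W (D.n - c) := by simpa [Wc] using hv
        have h4 := (D.W (D.n - c)).add_mem (W_le (by omega) (h2 v hv')) hv'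
        rw [sub_add_cancel] at h4
        simpa [Wc] using h4
      · simpa [Wc] using h3 v
    | (k + 3) => exact ⟨fun v hv => by simp [Wc], fun v hv => by simp [Wc]⟩

theorem Uc_le {c : ℕ} (hc : 2 * c ≤ D.n) : UF D.ρ (D.Wc c) ≤ (UF D.ρ D.W : Subgroup Γ) := by
  intro g hg
  obtain ⟨h1, h2, h3⟩ := (mem_Uc hc).1 hg
  apply mem_U_of
  intro k v hv
  by_cases hk : k + 1 ≤ c
  · rw [h1 v (W_le hk hv), sub_self]; exact (D.W k).zero_mem
  · by_cases hk2 : k + 1 ≤ D.n - c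
    · exact W_le (by omega) (h2 v (W_le hk2 hv))
    · exact W_le (by omega) (h3 v)

theorem le_Bc {c : ℕ} : BF D.ρ D.W ≤ (BF D.ρ (D.Wc c) : Subgroup Γ) := by
  intro g hg
  rw [mem_Bc]
  exact ⟨hg c, hg (D.n - c)⟩

theorem U_le_Bc {c : ℕ} : UF D.ρ D.W ≤ (BF D.ρ (D.Wc c) : Subgroup Γ) := UF_le_BF.trans le_Bc

theorem fix_b0 {g : Γ} (hg : g ∈ UF D.ρ D.W) : D.ρ g (D.b 0) = D.b 0 := by
  have h1 := (hg 0).2 (D.b 0) (b_mem (by have := D.n_ge; omega) (by omega))
  rw [W_zero, Submodule.mem_bot, sub_eq_zero] at h1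
  exact h1

theorem mem_W1 {v : V} (hv : v ∈ D.W 1) : ∃ c : K, v = c • D.b 0 := by
  obtain ⟨c, hc⟩ := W_step (D := D) (k := 0) (by have := D.n_ge; omega) hv
  rw [W_zero, Submodule.mem_bot, sub_eq_zero] at hc
  exact ⟨c, hc⟩

theorem IsE.mem_U1 {g : Γ} {y : V} {a : K} (h : D.IsE g (D.b 0) y a) : g ∈ UF D.ρ (D.Wc 1) := by
  have hn := D.n_ge
  have hy : y ∈ D.W (D.n - 1) := by
    intro j hj
    have : j = 0 := by omega
    rw [this]; exact h.2.1
  have hb : D.b 0 ∈ D.W (D.n - 1) := b_mem (by omega) (by omega)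
  have h0 : D.B y (D.b 0) = 0 := D.swap_zero h.2.1
  rw [mem_Uc (by omega)]
  refine ⟨fun v hv => ?_, fun v hv => ?_, fun v => ?_⟩
  · obtain ⟨c, rfl⟩ := mem_W1 hv
    rw [h.2.2.2, D.smulr, D.smulr, h.1, h0]
    simp
  · have h1 : D.B (D.b 0) v = 0 := hv 0 (by omega)
    rw [h.2.2.2, h1]
    have : v + (0 : K) • y - (D.ε * D.B y v) • D.b 0 + (a * (0 : K)) • D.b 0 - v = (-(D.ε * D.B y v)) • D.b 0 := by module
    rw [this]
    exact (D.W 1).smul_mem _ (b_mem (by omega) (by omega))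
  · have e1 : D.ρ g v - v = D.B (D.b 0) v • y - (D.ε * D.B y v) • D.b 0 + (a * D.B (D.b 0) v) • D.b 0 := by
      rw [h.2.2.2]; abel
    rw [e1]
    exact (D.W _).add_mem ((D.W _).sub_mem ((D.W _).smul_mem _ hy) ((D.W _).smul_mem _ hb)) ((D.W _).smul_mem _ hb)

/-- equality of Eichler elements with the same `e` -/
theorem IsE.y_eq {g : Γ} {e y y' : V} {a a' : K} (he : ∃ x, D.B e x ≠ 0) (h : D.IsE g e y a) (h' : D.IsE g e y' a') : ∃ c : K, y' - y = c • e := by
  obtain ⟨x, hx⟩ := he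
  have h1 := (h.2.2.2 x).symm.trans (h'.2.2.2 x)
  refine ⟨(D.B e x)⁻¹ * (-(D.ε * D.B y x) + a * D.B e x + D.ε * D.B y' x - a' * D.B e x), ?_⟩
  have h2 : D.B e x • (y' - y) = (-(D.ε * D.B y x) + a * D.B e x + D.ε * D.B y' x - a' * D.B e x) • e := by
    have h3 : D.B e x • (y' - y) = (x + D.B e x • y' - (D.ε * D.B y' x) • e + (a' * D.B e x) • e) -
      (x + D.B e x • y - (D.ε * D.B y x) • e + (a * D.B e x) • e) +
      (-(D.ε * D.B y x) + a * D.B e x + D.ε * D.B y' x - a' * D.B e x) • e := by module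
    rw [h3, ← h1, sub_self, zero_add]
  rw [← smul_smul, ← h2, smul_smul, inv_mul_cancel₀ hx, one_smul]

theorem cent1 : UF D.ρ D.W ⊓ Subgroup.centralizer ((UF D.ρ (D.Wc 1) : Subgroup Γ) : Set Γ) ≤ UF D.ρ (D.Wc 1) := by
  rintro u ⟨hu, huc⟩
  have hn := D.n_ge
  have hub := fix_b0 hu
  rw [mem_Uc (by omega)]
  refine ⟨fun v hv => ?_, fun v hv => ?_, fun v => ?_⟩
  · obtain ⟨c, rfl⟩ := mem_W1 hv
    rw [map_smul, hub]
  · obtain ⟨a, ha⟩ := D.exa v
    obtain ⟨g, hg⟩ := IsE.exists (D := D) (e := D.b 0) (y := v) (a := a) (D.b_zero 0 (by omega) 0 (by omega) (by omega)) (hv 0 (by omega)) ha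
    have h1 := hg.conj u
    have h2 : u * g * u⁻¹ = g := by
      have := (Subgroup.mem_centralizer_iff.1 huc) g hg.mem_U1
      rw [← this]; group
    rw [h2, hub] at h1
    obtain ⟨c, hc⟩ := IsE.y_eq ⟨D.b (D.n - 1), b_ne' (by omega)⟩ hg h1
    rw [hc]
    exact (D.W 1).smul_mem _ (b_mem (by omega) (by omega))
  · have hv : v ∈ D.W ((D.n - 1) + 1) := by rw [W_top (by omega)]; exact Submodule.mem_top
    exact (hu (D.n - 1)).2 v hv

theorem centm : UF D.ρ D.W ⊓ Subgroup.centralizer ((UF D.ρ (D.Wc D.m) : Subgroup Γ) : Set Γ) ≤ UF D.ρ (D.Wc D.m) := by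
  rintro u ⟨hu, huc⟩
  have hn := D.hn
  have h2 := D.two_le
  -- `u` fixes the `b i`, `i < m`
  have hfix : ∀ i < D.m, D.ρ u (D.b i) = D.b i := by
    intro i hi
    obtain ⟨a, ha, ha'⟩ := D.a0
    obtain ⟨g, hg⟩ := IsE.exists (D := D) (e := D.b i) (y := 0) (a := a) (D.b_zero i (by omega) i (by omega) (by omega)) (D.zeror _)
      (by rw [D.zerol, ha', zero_add])
    have hgm : g ∈ UF D.ρ (D.Wc D.m) := by
      rw [mem_Uc (by omega)]
      have e1 : ∀ v, D.ρ g v = v + (a * D.B (D.b i) v) • D.b i := by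
        intro v
        rw [hg.2.2.2, D.zerol]; module
      refine ⟨fun v hv => ?_, fun v hv => ?_, fun v => ?_⟩
      · rw [e1, hv i (by omega), mul_zero, zero_smul, add_zero]
      · rw [e1, hv i (by omega), mul_zero, zero_smul, add_zero, sub_self]; exact (D.W _).zero_mem
      · rw [e1, add_sub_cancel_left]
        exact (D.W _).smul_mem _ (b_mem (by omega) (by omega))
    have h1 := hg.conj u
    have h3 : u * g * u⁻¹ = g := by
      have := (Subgroup.mem_centralizer_iff.1 huc) g hgm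
      rw [← this]; group
    rw [h3, map_zero] at h1
    -- compare on `u (b (n-1-i))`
    have h4 := (h1.2.2.2 (D.ρ u (D.b (D.n - 1 - i)))).symm.trans (hg.2.2.2 (D.ρ u (D.b (D.n - 1 - i))))
    rw [D.pres] at h4
    have h5 : D.B (D.b i) (D.b (D.n - 1 - i)) ≠ 0 := b_ne' (by omega)
    have h6 : (a * D.B (D.b i) (D.b (D.n - 1 - i))) • D.ρ u (D.b i) = (a * D.B (D.b i) (D.ρ u (D.b (D.n - 1 - i)))) • D.b i := by
      rw [D.zerol] at h4
      simp only [smul_zero, mul_zero, zero_smul, sub_zero, add_zero] at h4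
      exact add_left_cancel h4
    obtain ⟨c, hc⟩ : ∃ c : K, D.ρ u (D.b i) = c • D.b i := by
      refine ⟨(a * D.B (D.b i) (D.b (D.n - 1 - i)))⁻¹ * (a * D.B (D.b i) (D.ρ u (D.b (D.n - 1 - i)))), ?_⟩
      rw [← smul_smul, ← h6, smul_smul, inv_mul_cancel₀ (mul_ne_zero ha h5), one_smul]
    -- `c = 1`
    have h7 : D.ρ u (D.b i) - D.b i ∈ D.W i := (hu i).2 _ (b_mem (by omega) (by omega))
    rw [hc] at h7 ⊢
    have h8 : (c - 1) • D.b i ∈ D.W i := by rw [sub_smul, one_smul]; exact h7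
    have h9 := h8 (D.n - 1 - i) (by omega)
    rw [D.smulr] at h9
    have h10 : c - 1 = 0 := by
      rcases mul_eq_zero.1 h9 with h | h
      · exact h
      · exact absurd h (b_ne' (by omega))
    rw [sub_eq_zero.1 h10, one_smul]
  have hfixW : ∀ v ∈ D.W D.m, D.ρ u v = v :=
    W_ind (P := fun v => D.ρ u v = v) (map_zero _) (fun x y h1 h2 => by rw [map_add, h1, h2]) (by omega)
      (fun i hi c => by rw [map_smul, hfix i hi])
  rw [mem_Uc (by omega)]
  refine ⟨hfixW, fun v hv => ?_, fun v => ?_⟩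
  · rcases hn with h | h
    · have e1 : D.n - D.m = D.m := by omega
      rw [e1] at hv
      rw [hfixW v hv, sub_self]; exact (D.W _).zero_mem
    · have e1 : D.n - D.m = D.m + 1 := by omega
      rw [e1] at hv
      exact (hu D.m).2 v hv
  · rw [mem_W_iff (by omega)]
    intro i hi
    rw [D.subr, ← D.inv_mul_ap u⁻¹ v]
    rw [inv_inv, D.mul_inv_ap]
    have h3 : D.ρ u⁻¹ (D.b i) = D.b i := by
      conv_lhs => rw [← hfix i hi]
      rw [D.inv_mul_ap]
    have h4 := D.pres' u⁻¹ (D.b i) v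
    rw [inv_inv, h3] at h4
    rw [← h4, sub_self]

/-- elements of the first unipotent radical are Eichler elements -/
theorem exists_E {u : Γ} (hu : u ∈ UF D.ρ (D.Wc 1)) : ∃ (y : V) (a : K), D.IsE u (D.b 0) y a := by
  have hn := D.n_ge
  have huU := Uc_le (by omega) hu
  have hub := fix_b0 huU
  obtain ⟨h1, h2, h3⟩ := (mem_Uc (by omega)).1 hu
  obtain ⟨f, hf⟩ : ∃ f, f = D.b (D.n - 1) := ⟨_, rfl⟩
  obtain ⟨κ, hκ⟩ : ∃ κ, κ = D.B (D.b 0) f := ⟨_, rfl⟩
  have hκ0 : κ ≠ 0 := by rw [hκ, hf]; exact b_ne' (by omega)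
  have hff : D.B f f = 0 := by rw [hf]; exact D.b_zero _ (by omega) _ (by omega) (by omega)
  obtain ⟨y, hy⟩ : ∃ y, y = κ⁻¹ • (D.ρ u f - f) := ⟨_, rfl⟩
  have hy' : D.ρ u f = f + κ • y := by rw [hy, smul_smul, mul_inv_cancel₀ hκ0, one_smul]; abel
  have hyW : y ∈ D.W (D.n - 1) := by rw [hy]; exact (D.W _).smul_mem _ (h3 f)
  have h0y : D.B (D.b 0) y = 0 := hyW 0 (by omega)
  obtain ⟨a, ha⟩ : ∃ a, a = D.ε * κ⁻¹ * D.B y f := ⟨_, rfl⟩
  have ha' : D.B y f = D.ε * κ * a := by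
    rw [ha]
    have : D.ε * κ * (D.ε * κ⁻¹ * D.B y f) = (D.ε * D.ε) * (κ * κ⁻¹) * D.B y f := by ring
    rw [this, D.ee, mul_inv_cancel₀ hκ0]; ring
  have hpar : D.ε * a + D.σ a + D.B y y = 0 := by
    have h4 : D.B (D.ρ u f) (D.ρ u f) = 0 := by rw [D.pres, hff]
    rw [hy', D.addl, D.addr, D.addr, D.smull, D.smull, D.smulr, D.smulr, hff, D.swap y f, ha', map_mul, map_mul, D.se] at h4
    have h5 : D.σ κ * κ * (D.ε * a + D.σ a + D.B y y) = 0 := by
      have e1 : D.σ κ * κ * (D.ε * a + D.σ a + D.B y y) =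
        (0 + κ * (D.ε * (D.ε * D.σ κ * D.σ a)) + (D.σ κ * (D.ε * κ * a) + D.σ κ * (κ * D.B y y))) + (1 - D.ε * D.ε) * (κ * D.σ κ * D.σ a) := by ring
      rw [e1, h4, D.ee]; ring
    exact (mul_eq_zero.1 h5).resolve_left (mul_ne_zero (D.s_ne hκ0) hκ0)
  obtain ⟨g, hg⟩ := IsE.exists (D := D) (e := D.b 0) (y := y) (a := a) (D.b_zero 0 (by omega) 0 (by omega) (by omega)) h0y hpar
  have hgf : D.ρ g f = D.ρ u f := by
    rw [hg.2.2.2, hy', ← hκ, ha']
    have e1 : f + κ • y - (D.ε * (D.ε * κ * a)) • D.b 0 + (a * κ) • D.b 0 = f + κ • y + ((1 - D.ε * D.ε) * (κ * a)) • D.b 0 := by module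
    rw [e1, D.ee]; simp
  refine ⟨y, a, ?_⟩
  have hug : u = g := by
    -- `g⁻¹ u` fixes `f` and is in the radical
    have hv : g⁻¹ * u ∈ UF D.ρ (D.Wc 1) := mul_mem (inv_mem hg.mem_U1) hu
    have hvf : D.ρ (g⁻¹ * u) f = f := by rw [D.mul_ap, ← hgf, D.inv_mul_ap]
    obtain ⟨v1, v2, v3⟩ := (mem_Uc (by omega)).1 hv
    have hW : ∀ x ∈ D.W (D.n - 1), D.ρ (g⁻¹ * u) x = x := by
      intro x hx
      obtain ⟨c, hc⟩ := mem_W1 (v2 x hx)
      have h5 : D.B f (D.ρ (g⁻¹ * u) x - x) = 0 := by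
        rw [D.subr]
        conv_lhs => rw [← hvf]
        rw [D.pres, hvf, sub_self]
      rw [hc, D.smulr] at h5
      have h6 : D.B f (D.b 0) ≠ 0 := by rw [hf]; exact b_ne' (by omega)
      have h7 := (mul_eq_zero.1 h5).resolve_right h6
      rw [h7, zero_smul, sub_eq_zero] at hc
      exact hc
    have h8 : g⁻¹ * u = 1 := by
      apply D.ext
      intro x
      have hx : x ∈ D.W ((D.n - 1) + 1) := by rw [W_top (by omega)]; exact Submodule.mem_top
      obtain ⟨c, hc⟩ := W_step (by omega) hx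
      rw [← hf] at hc
      have h9 := hW _ hc
      rw [map_sub, map_smul, hvf, sub_left_inj] at h9
      rw [h9, map_one, Module.End.one_apply]
    rw [inv_mul_eq_one] at h8
    exact h8.symm
  rw [hug]; exact hg

end

end Geo

end Cfsg.Agent.HL.DC
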