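import Mathlib
import Cfsg.Agent.HL_DC5
import Cfsg.Agent.H2_PGroup

set_option autoImplicit false
set_option linter.unusedSectionVars false
set_option linter.unusedVariables false

/-!
Isometry groups of Witt index at least two: no proper strongly closed subgroups.
-/

namespace Cfsg.Agent.HL.DC

open Cfsg Cfsg.Agent.HL.FusCrit

universe u v

namespace Geo

variable {K : Type v} [Field K] {V : Type v} [AddCommGroup V] [Module K V] {Γ : Type u} [Group Γ] {D : Geo K V Γ}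

section
variable [Finite Γ]

/-- strongly closed subgroups -/
structure SC (D : Geo K V Γ) (T : Subgroup Γ) : Prop where
  le : T ≤ UF D.ρ D.W
  sc : ∀ t ∈ T, ∀ g : Γ, g * t * g⁻¹ ∈ UF D.ρ D.W → g * t * g⁻¹ ∈ T

variable {T : Subgroup Γ}

theorem IsE.mem_U0 {g : Γ} {y : V} {a : K} (h : D.IsE g (D.b 0) y a) : g ∈ UF D.ρ D.W :=
  Uc_le (by have := D.n_ge; omega) h.mem_U1

/-- conjugation fixing `b 0` -/
theorem SC.conj0 (S : SC D T) {t : Γ} (ht : t ∈ T) {y : V} {a : K} (h : D.IsE t (D.b 0) y a) {g : Γ} (hg : D.ρ g (D.b 0) = D.b 0) :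
    g * t * g⁻¹ ∈ T ∧ D.IsE (g * t * g⁻¹) (D.b 0) (D.ρ g y) a := by
  have h1 := h.conj g
  rw [hg] at h1
  exact ⟨S.sc t ht g h1.mem_U0, h1⟩

theorem b00 : D.B (D.b 0) (D.b 0) = 0 := D.b_zero 0 (by have := D.n_ge; omega) 0 (by have := D.n_ge; omega) (by have := D.n_ge; omega)

theorem y_mem {g : Γ} {y : V} {a : K} (h : D.IsE g (D.b 0) y a) : y ∈ D.W (D.n - 1) := by
  intro j hj
  have : j = 0 := by omega
  rw [this]; exact h.2.1

theorem of_y_mem {y : V} (h : y ∈ D.W (D.n - 1)) : D.B (D.b 0) y = 0 := h 0 (by have := D.n_ge; omega)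

/-- hypothesis separating the unitary and symplectic cases -/
def HN (D : Geo K V Γ) : Prop := (∃ z, D.σ z ≠ D.ε * z) ∨ ((∀ y, D.B y y = 0) ∧ D.ε = -1 ∧ (∀ a, D.σ a = a) ∧ ((∃ l : K, l ≠ 0 ∧ l ≠ 1) ∨ 3 ≤ D.m))

theorem SC.get (S : SC D T) (hN : HN D) {t : Γ} (ht : t ∈ T) (ht1 : t ≠ 1) {y : V} {a : K} (h : D.IsE t (D.b 0) y a) :
    ∃ t' ∈ T, ∃ c, c ≠ 0 ∧ D.IsE t' (D.b 0) 0 c := by
  have hn := D.n_ge
  by_cases hy1 : y ∈ D.W 1
  · obtain ⟨s, rfl⟩ := mem_W1 hy1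
    have h0 : D.IsE t (D.b 0) (0 + s • D.b 0) a := by rw [zero_add]; exact h
    have h1 := h0.shift
    refine ⟨t, ht, _, fun hc => ?_, h1⟩
    rw [hc] at h1
    exact ht1 h1.eq_one
  rw [mem_W] at hy1
  push Not at hy1
  obtain ⟨j, hj, hjy⟩ := hy1
  have hyj : D.B y (D.b j) ≠ 0 := D.swap_ne hjy
  have hbj : D.b j ∈ D.W (D.n - 1) := b_mem (by omega) (by omega)
  rcases hN with ⟨z, hz⟩ | ⟨hs, he, hσ, hl⟩
  · -- commutator
    obtain ⟨x, hx⟩ : ∃ x, x = (z / D.B y (D.b j)) • D.b j := ⟨_, rfl⟩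
    have hxW : x ∈ D.W (D.n - 1) := by rw [hx]; exact (D.W _).smul_mem _ hbj
    have hyx : D.B y x = z := by rw [hx, D.smulr, div_mul_cancel₀ _ hyj]
    obtain ⟨a', ha'⟩ := D.exa x
    obtain ⟨g, hg⟩ := IsE.exists (D := D) (e := D.b 0) (y := x) (a := a') b00 (of_y_mem hxW) ha'
    have h1 := h.comm hg
    refine ⟨_, ?_, _, ?_, h1⟩
    · have h2 : t * g * t⁻¹ * g⁻¹ = t * (g * t⁻¹ * g⁻¹) := by group
      rw [h2]
      have h3 : g * t⁻¹ * g⁻¹ ∈ T := S.sc _ (inv_mem ht) g (mul_mem (mul_mem hg.mem_U0 (inv_mem (S.le ht))) (inv_mem hg.mem_U0))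
      exact mul_mem ht h3
    · rw [D.swap y x, hyx]
      refine mul_ne_zero (neg_ne_zero.2 D.e_ne) (sub_ne_zero.2 ?_)
      intro h3
      apply hz
      rw [h3]
      have : D.ε * (D.ε * D.σ z) = (D.ε * D.ε) * D.σ z := by ring
      conv_rhs => rw [this, D.ee, one_mul]
      rw [← h3]
  · -- symplectic
    have hsw : ∀ x z, D.B z x = - D.B x z := by intro x z; rw [D.swap, he, hσ]; ring
    have star : ∀ {t : Γ} {y : V} {a : K}, t ∈ T → D.IsE t (D.b 0) y a → ∀ z ∈ D.W (D.n - 1), D.B z y ≠ 0 →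
        ∃ t1 ∈ T, D.IsE t1 (D.b 0) z (D.B z y) := by
      intro t y a ht h z hz hzy
      obtain ⟨g, hg⟩ := IsE.exists (D := D) (e := z) (y := 0) (a := (D.B z y)⁻¹) (hs z) (D.zeror _)
        (by rw [D.zerol, he, hσ]; ring)
      have hg' : ∀ x, D.ρ g x = x + ((D.B z y)⁻¹ * D.B z x) • z := by
        intro x
        rw [hg.2.2.2, D.zerol]; module
      have hg0 : D.ρ g (D.b 0) = D.b 0 := by
        rw [hg', D.swap_zero (of_y_mem hz)]; simp
      obtain ⟨h1, h2⟩ := S.conj0 ht h hg0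
      have h3 := h.inv.mul h2
      have h4 : D.ρ g y = y + z := by rw [hg', inv_mul_cancel₀ hzy, one_smul]
      rw [h4, D.negl, D.addr, hs y, he] at h3
      refine ⟨_, mul_mem (inv_mem ht) h1, ?_⟩
      convert h3 using 1
      · abel
      · rw [hsw y z]; ring
    by_cases hl' : ∃ l : K, l ≠ 0 ∧ l ≠ 1
    · obtain ⟨l, hl0, hl1⟩ := hl'
      obtain ⟨t1, ht1', h1⟩ := star ht h (D.b j) hbj hjy
      obtain ⟨t2, ht2', h2⟩ := star ht h (l • D.b j) ((D.W _).smul_mem _ hbj) (by rw [D.smull, hσ]; exact mul_ne_zero hl0 hjy)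
      obtain ⟨t3, ht3, h3⟩ := star ht1' h1 y (y_mem h) hyj
      obtain ⟨t4, ht4, h4⟩ := star ht2' h2 y (y_mem h) (by rw [D.smulr]; exact mul_ne_zero hl0 hyj)
      have h5 := h3.inv.mul h4
      rw [neg_add_cancel] at h5
      refine ⟨_, mul_mem (inv_mem ht3) ht4, _, ?_, h5⟩
      rw [D.negl, hs y, D.smulr]
      intro h6
      have h7 : (l - 1) * D.B y (D.b j) = 0 := by linear_combination h6
      rcases mul_eq_zero.1 h7 with h8 | h8
      · exact hl1 (sub_eq_zero.1 h8)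
      · exact hyj h8
    · have hm : 3 ≤ D.m := hl.resolve_left hl'
      -- vectors `u, w` orthogonal to `y` with `B w u ≠ 0`
      have h0y : D.B (D.b 0) y = 0 := h.2.1
      have hj0 : j ≠ 0 := by rintro rfl; exact hjy h0y
      obtain ⟨i, hi0, hin, hij, hij'⟩ : ∃ i, 0 < i ∧ i < D.n - 1 ∧ i ≠ j ∧ i + j + 1 ≠ D.n ∧ 2 * i + 1 ≠ D.n := by
        have hnn := D.hn
        by_cases h1 : j = 1 ∨ j = D.n - 2
        · exact ⟨2, by omega, by omega, by omega, by omega, by omega⟩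
        · exact ⟨1, by omega, by omega, by omega, by omega, by omega⟩
      obtain ⟨i', hi'⟩ : ∃ i', i' = D.n - 1 - i := ⟨_, rfl⟩
      obtain ⟨uu, huu⟩ : ∃ uu, uu = D.b i - (D.B (D.b i) y / D.B (D.b j) y) • D.b j := ⟨_, rfl⟩
      obtain ⟨ww, hww⟩ : ∃ ww, ww = D.b i' - (D.B (D.b i') y / D.B (D.b j) y) • D.b j := ⟨_, rfl⟩
      have huW : uu ∈ D.W (D.n - 1) := by
        rw [huu]; exact (D.W _).sub_mem (b_mem (by omega) (by omega)) ((D.W _).smul_mem _ hbj)
      have hwW : ww ∈ D.W (D.n - 1) := by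
        rw [hww]; exact (D.W _).sub_mem (b_mem (by omega) (by omega)) ((D.W _).smul_mem _ hbj)
      have huy : D.B uu y = 0 := by rw [huu, D.subl, D.smull, hσ, div_mul_cancel₀ _ hjy, sub_self]
      have hwy : D.B ww y = 0 := by rw [hww, D.subl, D.smull, hσ, div_mul_cancel₀ _ hjy, sub_self]
      have hwu : D.B ww uu ≠ 0 := by
        rw [hww, huu, D.subl, D.subr, D.subr, D.smull, D.smull, D.smulr, D.smulr, hs (D.b j),
          D.b_zero j (by omega) i (by omega) (by omega), D.b_zero i' (by omega) j (by omega) (by omega)]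
        have : D.B (D.b i') (D.b i) ≠ 0 := b_ne' (by omega)
        simpa using this
      have key : ∀ z ∈ D.W (D.n - 1), D.B z y ≠ 0 → ∃ t1 ∈ T, D.IsE t1 (D.b 0) uu (- D.B z uu) := by
        intro z hz hzy
        obtain ⟨t1, ht1', h1⟩ := star ht h z hz hzy
        obtain ⟨t2, ht2', h2⟩ := star ht h (z + uu) ((D.W _).add_mem hz huW) (by rw [D.addl, huy, add_zero]; exact hzy)
        have h3 := h1.inv.mul h2
        refine ⟨_, mul_mem (inv_mem ht1') ht2', ?_⟩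
        convert h3 using 1
        · abel
        · rw [D.addl, huy, D.negl, D.addr, hs z, he]; ring
      obtain ⟨t1, ht1', h1⟩ := key (D.b j) hbj hjy
      obtain ⟨t2, ht2', h2⟩ := key (D.b j + ww) ((D.W _).add_mem hbj hwW) (by rw [D.addl, hwy, add_zero]; exact hjy)
      have h3 := h1.inv.mul h2
      rw [neg_add_cancel] at h3
      refine ⟨_, mul_mem (inv_mem ht1') ht2', _, ?_, h3⟩
      rw [D.negl, hs uu, D.addl]
      intro h6
      apply hwu
      linear_combination -h6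

theorem SC.all_trans (S : SC D T) {t : Γ} (ht : t ∈ T) {c : K} (h : D.IsE t (D.b 0) 0 c) {g : Γ} {v : V} (hv : v ≠ 0) (hg : D.IsE g v 0 c)
    (hgU : g ∈ UF D.ρ D.W) : g ∈ T := by
  obtain ⟨k, hk⟩ := D.trans v hv hg.1
  have h1 := h.conj k
  rw [hk, map_zero] at h1
  have h2 := h1.uniq hg
  rw [← h2]
  exact S.sc t ht k (by rw [h2]; exact hgU)

theorem b_nz {i : ℕ} (hi : i < D.n) : D.b i ≠ 0 := by
  intro h
  have := D.b_ne i hi
  rw [h, D.zerol] at this
  exact this rfl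

theorem SC.lemD (S : SC D T) {t : Γ} (ht : t ∈ T) {c : K} (hc : c ≠ 0) (h : D.IsE t (D.b 0) 0 c) (s : K) :
    ∃ t' ∈ T, D.IsE t' (D.b 0) (s • D.b 1) 0 := by
  have hn := D.n_ge
  have hpar : D.ε * c + D.σ c = 0 := by have := h.2.2.1; rwa [D.zerol, add_zero] at this
  by_cases hs : s = 0
  · refine ⟨1, one_mem _, ?_⟩
    rw [hs, zero_smul]; exact IsE.one b00
  obtain ⟨r, hr⟩ : ∃ r, r = c⁻¹ * s := ⟨_, rfl⟩
  have hr0 : r ≠ 0 := by rw [hr]; exact mul_ne_zero (inv_ne_zero hc) hs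
  have hb11 : D.B (D.b 1) (D.b 1) = 0 := D.b_zero 1 (by omega) 1 (by omega) (by omega)
  have hb01 : D.B (D.b 0) (D.b 1) = 0 := D.b_zero 0 (by omega) 1 (by omega) (by omega)
  have hb10 : D.B (D.b 1) (D.b 0) = 0 := D.b_zero 1 (by omega) 0 (by omega) (by omega)
  obtain ⟨v, hv⟩ : ∃ v, v = D.b 0 + r • D.b 1 := ⟨_, rfl⟩
  have hv2 : v ∈ D.W 2 := by
    rw [hv]; exact (D.W 2).add_mem (b_mem (by omega) (by omega)) ((D.W 2).smul_mem _ (b_mem (by omega) (by omega)))
  have hvv : D.B v v = 0 := by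
    rw [hv, D.addl, D.addr, D.addr, D.smulr, D.smull, D.smulr, D.smull, b00, hb11, hb01, hb10]; simp
  have hv0 : v ≠ 0 := by
    intro h0
    have h1 : D.B (D.b (D.n - 1)) v = 0 := by rw [h0, D.zeror]
    rw [hv, D.addr, D.smulr, D.b_zero (D.n - 1) (by omega) 1 (by omega) (by omega), mul_zero, add_zero] at h1
    exact b_ne' (by omega) h1
  have hw0 : r • D.b 1 ≠ 0 := smul_ne_zero hr0 (b_nz (by omega))
  have hww : D.B (r • D.b 1) (r • D.b 1) = 0 := by rw [D.smulr, D.smull, hb11]; simp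
  obtain ⟨g1, hg1⟩ := IsE.exists (D := D) (e := v) (y := 0) (a := c) hvv (D.zeror _) (by rw [D.zerol, add_zero, hpar])
  obtain ⟨g3, hg3⟩ := IsE.exists (D := D) (e := r • D.b 1) (y := 0) (a := c) hww (D.zeror _) (by rw [D.zerol, add_zero, hpar])
  have hU : ∀ {g : Γ} {v : V}, v ∈ D.W 2 → D.IsE g v 0 c → g ∈ UF D.ρ D.W := by
    intro g v hv hg
    apply mem_U_of
    intro k x hx
    have e1 : D.ρ g x - x = (c * D.B v x) • v := by rw [hg.2.2.2, D.zerol]; module
    rw [e1]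
    by_cases hk : 2 ≤ k
    · exact (D.W k).smul_mem _ (W_le hk hv)
    · rw [W_orth (k := 2) (l := k + 1) (by omega) hv hx, mul_zero, zero_smul]; exact (D.W k).zero_mem
  have h1 : g1 ∈ T := S.all_trans ht h hv0 hg1 (hU hv2 hg1)
  have h3 : g3 ∈ T := S.all_trans ht h hw0 hg3 (hU ((D.W 2).smul_mem _ (b_mem (by omega) (by omega))) hg3)
  refine ⟨g1 * t⁻¹ * g3⁻¹, mul_mem (mul_mem h1 (inv_mem ht)) (inv_mem h3), b00, by rw [D.smulr, hb01, mul_zero], ?_, fun x => ?_⟩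
  · rw [D.smulr, D.smull, hb11, map_zero]; ring
  · have hti := h.inv
    have hg3i := hg3.inv
    rw [D.mul_ap, D.mul_ap, hg3i.2.2.2, hti.2.2.2, hg1.2.2.2]
    simp only [neg_zero, D.zerol, mul_zero, sub_zero, smul_zero, add_zero, zero_smul]
    have hrs : c * r = s := by rw [hr, mul_inv_cancel_left₀ hc]
    have hσc : D.σ c = - D.ε * c := by linear_combination hpar
    have hσs : D.σ s = - D.ε * c * D.σ r := by rw [← hrs, map_mul, hσc]
    simp only [hv, D.addr, D.addl, D.smulr, D.smull, b00, hb11, hb01, hb10, hσs]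
    rw [← hrs]
    have hee := D.ee
    have e2 : D.ε * (-D.ε * c * D.σ r * D.B (D.b 1) x) = - (c * D.σ r * D.B (D.b 1) x) := by
      linear_combination (-(c * D.σ r * D.B (D.b 1) x)) * hee
    rw [e2]
    simp only [mul_zero, add_zero]
    module

/-- the context after one transvection has been found -/
structure SCt (D : Geo K V Γ) (T : Subgroup Γ) : Prop extends SC D T where
  d1 : ∀ s : K, ∃ t' ∈ T, D.IsE t' (D.b 0) (s • D.b 1) 0

theorem SCt.lemE (S : SCt D T) {y : V} (hy : y ∈ D.W (D.n - 1)) (hyy : D.B y y = 0) (h1y : D.B (D.b 1) y ≠ 0) :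
    ∃ t ∈ T, D.IsE t (D.b 0) y 0 := by
  have hn := D.n_ge
  obtain ⟨r, hr0, hr⟩ := D.a0
  have hb11 : D.B (D.b 1) (D.b 1) = 0 := D.b_zero 1 (by omega) 1 (by omega) (by omega)
  have hb10 : D.B (D.b 1) (D.b 0) = 0 := D.b_zero 1 (by omega) 0 (by omega) (by omega)
  have hy1 := D.swap_ne h1y
  have hy0 : D.B y (D.b 0) = 0 := D.swap_zero (of_y_mem hy)
  obtain ⟨s, hs⟩ : ∃ s, s = (r * D.B y (D.b 1))⁻¹ := ⟨_, rfl⟩
  have hs0 : s ≠ 0 := by rw [hs]; exact inv_ne_zero (mul_ne_zero hr0 hy1)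
  have hs' : r * D.B y (D.b 1) * s = 1 := by rw [hs]; exact mul_inv_cancel₀ (mul_ne_zero hr0 hy1)
  obtain ⟨v, hv⟩ : ∃ v, v = y - s • D.b 1 := ⟨_, rfl⟩
  have hvv : D.B v v = 0 := by
    rw [hv, D.subl, D.subr, D.subr, D.smulr, D.smull, D.smulr, D.smull, hyy, hb11, D.swap y (D.b 1)]
    have h1 : D.σ r * D.σ (D.B y (D.b 1)) * D.σ s = 1 := by rw [← map_mul, ← map_mul, hs', map_one]
    have hσr : D.σ r = - D.ε * r := by linear_combination hr
    have h2 : r * (D.σ s * (D.ε * D.σ (D.B y (D.b 1))) + s * D.B y (D.b 1)) = 0 := by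
      rw [hσr] at h1
      linear_combination (-1 : K) * h1 + hs'
    have h3 := (mul_eq_zero.1 h2).resolve_left hr0
    linear_combination -h3
  obtain ⟨g, hg⟩ := IsE.exists (D := D) (e := v) (y := 0) (a := r) hvv (D.zeror _) (by rw [D.zerol, add_zero, hr])
  have hg' : ∀ x, D.ρ g x = x + (r * D.B v x) • v := by
    intro x
    rw [hg.2.2.2, D.zerol]; module
  have hg0 : D.ρ g (D.b 0) = D.b 0 := by
    rw [hg', hv, D.subl, D.smull, hy0, hb10]; simp
  have hg1 : D.ρ g (D.b 1) = (r * D.B y (D.b 1)) • y := by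
    rw [hg', hv, D.subl, D.smull, hb11, mul_zero, sub_zero, smul_sub, smul_smul, hs', one_smul]; abel
  obtain ⟨t, ht, h1⟩ := S.d1 s
  obtain ⟨h2, h3⟩ := S.toSC.conj0 ht h1 hg0
  refine ⟨_, h2, ?_⟩
  rw [map_smul, hg1, smul_smul, mul_comm s, hs', one_smul] at h3
  exact h3

theorem SCt.lemF (S : SCt D T) : ∀ y ∈ D.W (D.n - 1), ∃ t ∈ T, ∃ a, D.IsE t (D.b 0) y a := by
  have hn := D.n_ge
  have hadd : ∀ x y, (∃ t ∈ T, ∃ a, D.IsE t (D.b 0) x a) → (∃ t ∈ T, ∃ a, D.IsE t (D.b 0) y a) → ∃ t ∈ T, ∃ a, D.IsE t (D.b 0) (x + y) a := by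
    rintro x y ⟨t, ht, a, h⟩ ⟨t', ht', a', h'⟩
    exact ⟨_, mul_mem ht ht', _, h.mul h'⟩
  have hneg : ∀ x, (∃ t ∈ T, ∃ a, D.IsE t (D.b 0) x a) → ∃ t ∈ T, ∃ a, D.IsE t (D.b 0) (-x) a := by
    rintro x ⟨t, ht, a, h⟩
    exact ⟨_, inv_mem ht, _, h.inv⟩
  have hzero : ∃ t ∈ T, ∃ a, D.IsE t (D.b 0) 0 a := ⟨1, one_mem _, 0, IsE.one b00⟩
  have hlast : ∀ c : K, ∃ t ∈ T, ∃ a, D.IsE t (D.b 0) (c • D.b (D.n - 2)) a := by
    intro c
    by_cases hc : c = 0
    · rw [hc, zero_smul]; exact hzero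
    · obtain ⟨t, ht, h⟩ := S.lemE (y := c • D.b (D.n - 2)) ((D.W _).smul_mem _ (b_mem (by omega) (by omega)))
        (by rw [D.smulr, D.smull, D.b_zero (D.n - 2) (by omega) (D.n - 2) (by omega) (by omega)]; simp)
        (by rw [D.smulr]; exact mul_ne_zero hc (b_ne' (by omega)))
      exact ⟨t, ht, _, h⟩
  apply W_ind (k := D.n - 1) hzero hadd (by omega)
  intro i hi c
  by_cases h0 : i = 0
  · subst h0
    have h1 := (IsE.one (D := D) b00).shift' (s := c)
    rw [zero_add] at h1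
    exact ⟨1, one_mem _, _, h1⟩
  by_cases h1 : i = 1
  · subst h1
    obtain ⟨t, ht, h⟩ := S.d1 c
    exact ⟨t, ht, _, h⟩
  by_cases h2 : i = D.n - 2
  · rw [h2]; exact hlast c
  have hlast1 := hneg _ (hlast 1)
  by_cases h3 : 2 * i + 1 = D.n
  · obtain ⟨a, ha⟩ := D.exa (c • D.b i)
    obtain ⟨κ, hκ⟩ : ∃ κ, κ = D.B (D.b (D.n - 2)) (D.b 1) := ⟨_, rfl⟩
    have hκ0 : κ ≠ 0 := by rw [hκ]; exact b_ne' (by omega)
    obtain ⟨μ, hμ⟩ : ∃ μ, μ = D.ε * a / κ := ⟨_, rfl⟩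
    have hμκ : μ * κ = D.ε * a := by rw [hμ, div_mul_cancel₀ _ hκ0]
    obtain ⟨t, ht, h⟩ := S.lemE (y := D.b (D.n - 2) + c • D.b i + μ • D.b 1)
      ((D.W _).add_mem ((D.W _).add_mem (b_mem (by omega) (by omega)) ((D.W _).smul_mem _ (b_mem (by omega) (by omega))))
        ((D.W _).smul_mem _ (b_mem (by omega) (by omega))))
      (by
        rw [D.addl, D.addl, D.addr, D.addr, D.addr, D.addr, D.addr, D.addr]
        have q1 : D.B (D.b (D.n - 2)) (D.b (D.n - 2)) = 0 := D.b_zero _ (by omega) _ (by omega) (by omega)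
        have q2 : D.B (D.b (D.n - 2)) (c • D.b i) = 0 := by rw [D.smulr, D.b_zero _ (by omega) _ (by omega) (by omega), mul_zero]
        have q3 : D.B (D.b (D.n - 2)) (μ • D.b 1) = D.ε * a := by rw [D.smulr, ← hκ, hμκ]
        have q4 : D.B (c • D.b i) (μ • D.b 1) = 0 := by
          rw [D.smulr, D.smull, D.b_zero i (by omega) 1 (by omega) (by omega)]; simp
        have q5 : D.B (μ • D.b 1) (μ • D.b 1) = 0 := by
          rw [D.smulr, D.smull, D.b_zero 1 (by omega) 1 (by omega) (by omega)]; simp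
        rw [q1, q2, q3, D.swap_zero q2, q4, D.swap (D.b (D.n - 2)) (μ • D.b 1), q3, D.swap_zero q4, q5, map_mul, D.se]
        have hee := D.ee
        linear_combination ha + (D.σ a) * hee)
      (by
        rw [D.addr, D.addr, D.smulr, D.smulr, D.b_zero 1 (by omega) i (by omega) (by omega), D.b_zero 1 (by omega) 1 (by omega) (by omega),
          mul_zero, mul_zero, add_zero, add_zero]
        exact b_ne' (by omega))
    obtain ⟨t', ht', h'⟩ := S.d1 μ
    have h4 := hadd _ _ (hadd _ _ ⟨t, ht, _, h⟩ (hneg _ ⟨t', ht', _, h'⟩)) hlast1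
    have e1 : D.b (D.n - 2) + c • D.b i + μ • D.b 1 + -(μ • D.b 1) + -((1 : K) • D.b (D.n - 2)) = c • D.b i := by module
    rwa [e1] at h4
  · obtain ⟨t, ht, h⟩ := S.lemE (y := D.b (D.n - 2) + c • D.b i)
      ((D.W _).add_mem (b_mem (by omega) (by omega)) ((D.W _).smul_mem _ (b_mem (by omega) (by omega))))
      (by
        have q1 : D.B (D.b (D.n - 2)) (D.b (D.n - 2)) = 0 := D.b_zero _ (by omega) _ (by omega) (by omega)
        have q2 : D.B (D.b (D.n - 2)) (c • D.b i) = 0 := by rw [D.smulr, D.b_zero _ (by omega) _ (by omega) (by omega), mul_zero]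
        have q5 : D.B (c • D.b i) (c • D.b i) = 0 := by
          rw [D.smulr, D.smull, D.b_zero i (by omega) i (by omega) (by omega)]; simp
        rw [D.addl, D.addr, D.addr, q1, q2, q5, D.swap_zero q2]; simp)
      (by
        rw [D.addr, D.smulr, D.b_zero 1 (by omega) i (by omega) (by omega), mul_zero, add_zero]
        exact b_ne' (by omega))
    have h4 := hadd _ _ ⟨t, ht, _, h⟩ hlast1
    have e1 : D.b (D.n - 2) + c • D.b i + -((1 : K) • D.b (D.n - 2)) = c • D.b i := by module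
    rwa [e1] at h4

theorem SCt.lemG (S : SCt D T) {a : K} (ha : D.ε * a + D.σ a = 0) : ∃ t ∈ T, D.IsE t (D.b 0) 0 a := by
  have hn := D.n_ge
  obtain ⟨κ, hκ⟩ : ∃ κ, κ = D.B (D.b 1) (D.b (D.n - 2)) := ⟨_, rfl⟩
  have hκ0 : κ ≠ 0 := by rw [hκ]; exact b_ne' (by omega)
  obtain ⟨s, hs⟩ : ∃ s, s = D.σ (- D.ε * a / κ) := ⟨_, rfl⟩
  have hσs : D.σ s * κ = - D.ε * a := by rw [hs, D.ss, div_mul_cancel₀ _ hκ0]
  have hee := D.ee
  obtain ⟨t1, ht1, h1⟩ := S.d1 s
  have hb1 : D.B (D.b 1) (D.b 1) = 0 := D.b_zero 1 (by omega) 1 (by omega) (by omega)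
  have hbn : D.B (D.b (D.n - 2)) (D.b (D.n - 2)) = 0 := D.b_zero _ (by omega) _ (by omega) (by omega)
  have hW1 : D.b (D.n - 2) ∈ D.W (D.n - 1) := b_mem (by omega) (by omega)
  obtain ⟨t2, ht2, h2⟩ := S.lemE (y := D.b (D.n - 2)) hW1 hbn (b_ne' (by omega))
  have hBs : D.B (s • D.b 1) (D.b (D.n - 2)) = - D.ε * a := by rw [D.smull, ← hκ, hσs]
  have hyy : D.B (s • D.b 1 + D.b (D.n - 2)) (s • D.b 1 + D.b (D.n - 2)) = 0 := by
    rw [D.addl, D.addr, D.addr, hbn, hBs, D.swap (s • D.b 1) (D.b (D.n - 2)), hBs, D.smulr, D.smull, hb1, map_mul, map_neg, D.se]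
    linear_combination -ha - (D.σ a) * hee
  obtain ⟨t3, ht3, h3⟩ := S.lemE (y := s • D.b 1 + D.b (D.n - 2))
    ((D.W _).add_mem ((D.W _).smul_mem _ (b_mem (by omega) (by omega))) hW1) hyy
    (by rw [D.addr, D.smulr, hb1, mul_zero, zero_add]; exact b_ne' (by omega))
  have h4 := (h1.mul h2).mul h3.inv
  refine ⟨_, mul_mem (mul_mem ht1 ht2) (inv_mem ht3), ?_⟩
  rw [add_neg_cancel, hBs, D.negr, hyy] at h4
  convert h4 using 1
  linear_combination (-a) * hee

theorem SCt.R1_le (S : SCt D T) : UF D.ρ (D.Wc 1) ≤ T := by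
  intro u hu
  obtain ⟨y, a, h⟩ := exists_E hu
  obtain ⟨t, ht, a', h'⟩ := S.lemF y (y_mem h)
  have h1 := h.mul h'.inv
  rw [add_neg_cancel] at h1
  have hp := h1.2.2.1
  rw [D.zerol, add_zero] at hp
  obtain ⟨t', ht', h2⟩ := S.lemG hp
  have h3 := h1.uniq h2
  have h4 : u = t' * t := by rw [← h3]; group
  rw [h4]; exact mul_mem ht' ht

theorem SCt.lemI (S : SCt D T) {k : ℕ} (hk : k < D.n) {g : Γ} {y : V} {a : K} (h : D.IsE g (D.b k) y a) (hg : g ∈ UF D.ρ D.W) : g ∈ T := by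
  obtain ⟨l, hl⟩ := D.trans (D.b k) (b_nz hk) h.1
  have h1 := h.conj l⁻¹
  have h2 : D.ρ l⁻¹ (D.b k) = D.b 0 := by rw [← hl, D.inv_mul_ap]
  rw [h2, inv_inv] at h1
  have h3 := S.R1_le h1.mem_U1
  have h4 := S.sc _ h3 l (by
    have : l * (l⁻¹ * g * l) * l⁻¹ = g := by group
    rw [this]; exact hg)
  have : l * (l⁻¹ * g * l) * l⁻¹ = g := by group
  rwa [this] at h4

theorem SCt.top (S : SCt D T) : UF D.ρ D.W ≤ T := by
  have hnn := D.hn
  have hn := D.n_ge
  have key : ∀ d ≤ D.m, ∀ u ∈ UF D.ρ D.W, (∀ i < D.m - d, D.ρ u (D.b i) = D.b i ∧ D.ρ u (D.b (D.n - 1 - i)) = D.b (D.n - 1 - i)) → u ∈ T := by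
    intro d
    induction d with
    | zero =>
      intro _ u hu h
      have hm : u = 1 := by
        apply ext_b (D := D)
        intro i hi
        rw [map_one, Module.End.one_apply]
        by_cases h1 : i < D.m
        · exact (h i (by omega)).1
        · by_cases h2 : D.n - 1 - i < D.m
          · have := (h (D.n - 1 - i) (by omega)).2
            rwa [show D.n - 1 - (D.n - 1 - i) = i by omega] at this
          · have him : i = D.m := by omega
            rw [him]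
            rw [← sub_eq_zero]
            apply D.nondeg
            intro j hj
            by_cases hj2 : j + D.m < D.n
            · exact (hu D.m).2 _ (b_mem (by omega) (by omega)) j hj2
            · have h3 := (h (D.n - 1 - j) (by omega)).2
              rw [show D.n - 1 - (D.n - 1 - j) = j by omega] at h3
              rw [D.subr]
              have h4 := D.pres u (D.b j) (D.b D.m)
              rw [h3] at h4
              rw [h4, sub_self]
      rw [hm]; exact one_mem _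
    | succ d ih =>
      intro hd u hu h
      obtain ⟨k, hk⟩ : ∃ k, k = D.m - (d + 1) := ⟨_, rfl⟩
      rw [← hk] at h
      have hkm : k < D.m := by omega
      obtain ⟨f, hf⟩ : ∃ f, f = D.b (D.n - 1 - k) := ⟨_, rfl⟩
      obtain ⟨κ, hκ⟩ : ∃ κ, κ = D.B (D.b k) f := ⟨_, rfl⟩
      have hκ0 : κ ≠ 0 := by rw [hκ, hf]; exact b_ne' (by omega)
      have hff : D.B f f = 0 := by rw [hf]; exact D.b_zero _ (by omega) _ (by omega) (by omega)
      have hkk : D.B (D.b k) (D.b k) = 0 := D.b_zero _ (by omega) _ (by omega) (by omega)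
      have hd1 : D.ρ u f - f ∈ D.W (D.n - 1 - k) := by
        rw [hf]; exact (hu _).2 _ (b_mem (by omega) (by omega))
      obtain ⟨y, hy⟩ : ∃ y, y = κ⁻¹ • (D.ρ u f - f) := ⟨_, rfl⟩
      have hy' : D.ρ u f = f + κ • y := by rw [hy, smul_smul, mul_inv_cancel₀ hκ0, one_smul]; abel
      have hyW : y ∈ D.W (D.n - 1 - k) := by rw [hy]; exact (D.W _).smul_mem _ hd1
      have h0y : D.B (D.b k) y = 0 := hyW k (by omega)
      obtain ⟨a, ha⟩ : ∃ a, a = D.ε * κ⁻¹ * D.B y f := ⟨_, rfl⟩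
      have ha' : D.B y f = D.ε * κ * a := by
        rw [ha]
        have : D.ε * κ * (D.ε * κ⁻¹ * D.B y f) = (D.ε * D.ε) * (κ * κ⁻¹) * D.B y f := by ring
        rw [this, D.ee, mul_inv_cancel₀ hκ0]; ring
      have hpar : D.ε * a + D.σ a + D.B y y = 0 := by
        have h4 : D.B (D.ρ u f) (D.ρ u f) = 0 := by rw [D.pres, hff]
        rw [hy', D.addl, D.addr, D.addr, D.smull, D.smull, D.smulr, D.smulr, hff, D.swap y f, ha', map_mul, map_mul, D.se] at h4
        have h5 : D.σ κ * κ * (D.ε * a + D.σ a + D.B y y) = 0 := by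
          have e1 : D.σ κ * κ * (D.ε * a + D.σ a + D.B y y) =
            (0 + κ * (D.ε * (D.ε * D.σ κ * D.σ a)) + (D.σ κ * (D.ε * κ * a) + D.σ κ * (κ * D.B y y))) + (1 - D.ε * D.ε) * (κ * D.σ κ * D.σ a) := by ring
          rw [e1, h4, D.ee]; ring
        exact (mul_eq_zero.1 h5).resolve_left (mul_ne_zero (D.s_ne hκ0) hκ0)
      obtain ⟨g, hg⟩ := IsE.exists (D := D) (e := D.b k) (y := y) (a := a) hkk h0y hpar
      have hgU : g ∈ UF D.ρ D.W := hg.mem_U (by omega) hyW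
      have hgT : g ∈ T := S.lemI (by omega) hg hgU
      have hgf : D.ρ g f = D.ρ u f := by
        rw [hg.2.2.2, hy', ← hκ, ha']
        have e1 : f + κ • y - (D.ε * (D.ε * κ * a)) • D.b k + (a * κ) • D.b k = f + κ • y + ((1 - D.ε * D.ε) * (κ * a)) • D.b k := by module
        rw [e1, D.ee]; simp
      -- outer vectors are fixed by `g`
      have hout : ∀ j < D.n, j ≠ D.n - 1 - k → D.ρ u (D.b j) = D.b j → D.B (D.b j) f = 0 → D.ρ g (D.b j) = D.b j := by
        intro j hj hjk hfix hjf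
        have h5 : D.B (D.b j) (D.ρ u f) = 0 := by
          have := D.pres u (D.b j) f
          rw [hfix] at this
          rw [this, hjf]
        rw [hy', D.addr, hjf, D.smulr, zero_add] at h5
        have h6 : D.B (D.b j) y = 0 := (mul_eq_zero.1 h5).resolve_left hκ0
        rw [hg.2.2.2, D.swap_zero h6, D.b_zero k (by omega) j hj (by omega)]
        simp
      have hvU : g⁻¹ * u ∈ UF D.ρ D.W := mul_mem (inv_mem hgU) hu
      have hvf : D.ρ (g⁻¹ * u) f = f := by rw [D.mul_ap, ← hgf, D.inv_mul_ap]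
      have hvo : ∀ j < D.n, j ≠ D.n - 1 - k → D.ρ u (D.b j) = D.b j → D.B (D.b j) f = 0 → D.ρ (g⁻¹ * u) (D.b j) = D.b j := by
        intro j hj hjk hfix hjf
        rw [D.mul_ap, hfix]
        conv_lhs => rw [← hout j hj hjk hfix hjf]
        rw [D.inv_mul_ap]
      have hlow : ∀ i < k, D.ρ (g⁻¹ * u) (D.b i) = D.b i ∧ D.ρ (g⁻¹ * u) (D.b (D.n - 1 - i)) = D.b (D.n - 1 - i) := by
        intro i hi
        exact ⟨hvo i (by omega) (by omega) (h i hi).1 (by rw [hf]; exact D.b_zero _ (by omega) _ (by omega) (by omega)),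
          hvo _ (by omega) (by omega) (h i hi).2 (by rw [hf]; exact D.b_zero _ (by omega) _ (by omega) (by omega))⟩
      have hbk : D.ρ (g⁻¹ * u) (D.b k) = D.b k := by
        rw [← sub_eq_zero]
        apply D.nondeg
        intro j hj
        by_cases hj2 : j + k < D.n
        · exact (hvU k).2 _ (b_mem (by omega) (by omega)) j hj2
        · have h3 := (hlow (D.n - 1 - j) (by omega)).2
          rw [show D.n - 1 - (D.n - 1 - j) = j by omega] at h3
          rw [D.subr]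
          have h4 := D.pres (g⁻¹ * u) (D.b j) (D.b k)
          rw [h3] at h4
          rw [h4, sub_self]
      have hfin : g⁻¹ * u ∈ T := by
        apply ih (by omega) _ hvU
        intro i hi
        by_cases hik : i < k
        · exact hlow i hik
        · have : i = k := by omega
          rw [this]
          exact ⟨hbk, by rw [← hf]; exact hvf⟩
      have h9 := mul_mem hgT hfin
      rwa [mul_inv_cancel_left] at h9
  intro u hu
  exact key D.m le_rfl u hu (fun i hi => by omega)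

variable (p : ℕ) [Fact p.Prime] [CharP K p]

theorem pgroup : IsPGroup p (UF D.ρ D.W : Subgroup Γ) := isPGroup_UF D.inj W_zero (W_top le_rfl)

include p in
theorem sc_thm (hN : HN D) (T : Subgroup Γ) (hT : T ≤ UF D.ρ D.W)
    (hsc : ∀ t ∈ T, ∀ g : Γ, g * t * g⁻¹ ∈ UF D.ρ D.W → g * t * g⁻¹ ∈ T) : T = ⊥ ∨ T = UF D.ρ D.W := by
  by_cases hT1 : T = ⊥
  · exact Or.inl hT1
  right
  have hP : IsPGroup p (UF D.ρ D.W : Subgroup Γ) := pgroup p
  obtain ⟨t, htT, ht1, htc⟩ : ∃ t ∈ T, t ≠ 1 ∧ ∀ u ∈ UF D.ρ D.W, u * t = t * u := by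
    have hM : (T.subgroupOf (UF D.ρ D.W)).Normal := by
      constructor
      intro t ht u
      exact hsc _ ht u (mul_mem (mul_mem u.2 (hT ht)) (inv_mem u.2))
    have hM1 : T.subgroupOf (UF D.ρ D.W) ≠ ⊥ := by
      intro h
      apply hT1
      rw [eq_bot_iff]
      intro t ht
      have : (⟨t, hT ht⟩ : (UF D.ρ D.W : Subgroup Γ)) ∈ T.subgroupOf (UF D.ρ D.W) := ht
      rw [h, Subgroup.mem_bot] at this
      rw [Subgroup.mem_bot]
      exact congrArg Subtype.val this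
    have h1 := H2.PGroup.inf_center_ne_bot hP hM1
    obtain ⟨⟨x, hx1, hx2⟩, hx3⟩ := Subgroup.ne_bot_iff_exists_ne_one.1 h1
    refine ⟨x, hx1, fun h => hx3 (Subtype.ext (Subtype.ext h)), fun u hu => ?_⟩
    exact congrArg Subtype.val (Subgroup.mem_center_iff.1 hx2 ⟨u, hu⟩)
  have S : SC D T := ⟨hT, hsc⟩
  have htR : t ∈ UF D.ρ (D.Wc 1) := by
    apply cent1
    exact ⟨hT htT, Subgroup.mem_centralizer_iff.2 fun g hg => htc g (Uc_le (by have := D.n_ge; omega) hg)⟩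
  obtain ⟨y, a, h⟩ := exists_E htR
  obtain ⟨t', ht', c, hc, h'⟩ := S.get hN htT ht1 h
  have S' : SCt D T := ⟨S, S.lemD ht' hc h'⟩
  exact le_antisymm hT S'.top

end

end Geo

end Cfsg.Agent.HL.DC
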