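import Mathlib
import Cfsg.Agent.HL_DC6

set_option autoImplicit false
set_option linter.unusedSectionVars false
set_option linter.unusedVariables false

/-!
Isometry groups of Witt index at least two: the normaliser of the Sylow subgroup is accounted for; simplicity of the
fusion system.
-/

namespace Cfsg.Agent.HL.DC

open Cfsg Cfsg.Agent.HL.FusCrit

universe u v

namespace Geo

variable {K : Type v} [Field K] {V : Type v} [AddCommGroup V] [Module K V] {Γ : Type u} [Group Γ] {D : Geo K V Γ}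

section
variable [Finite Γ]

theorem BF_of {h : Γ} (H : ∀ i < D.m, D.ρ h (D.b i) ∈ D.W (i + 1)) : h ∈ BF D.ρ D.W := by
  have hnn := D.hn
  have h2 := D.two_le
  have h1 : ∀ k ≤ D.m, ∀ v ∈ D.W k, D.ρ h v ∈ D.W k := by
    intro k hk
    apply W_ind (k := k) (P := fun v => D.ρ h v ∈ D.W k) (by rw [map_zero]; exact (D.W k).zero_mem)
      (fun x y hx hy => by rw [map_add]; exact (D.W k).add_mem hx hy) (by omega)
    intro i hi c
    rw [map_smul]
    exact (D.W k).smul_mem _ (W_le (by omega) (H i (by omega)))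
  have h3 : ∀ k ≤ D.m, ∀ v ∈ D.W k, D.ρ h⁻¹ v ∈ D.W k := by
    exact inv_mem_of_finite (Γ := Γ) { carrier := {g | ∀ k ≤ D.m, ∀ v ∈ D.W k, D.ρ g v ∈ D.W k}
                                       mul_mem' := fun {a b} ha hb k hk v hv => by rw [map_mul]; exact ha k hk _ (hb k hk v hv)
                                       one_mem' := fun k hk v hv => by rw [map_one]; exact hv } h1
  intro k v hv
  by_cases hk : k ≤ D.m
  · exact h1 k hk v hv
  · intro j hj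
    have h4 := D.pres' h⁻¹ (D.b j) v
    rw [inv_inv] at h4
    rw [← h4]
    exact W_orth (k := j + 1) (l := k) (by omega) (h3 (j + 1) (by omega) _ (b_mem (by omega) (by omega))) hv

theorem t_ne {g : Γ} (hg : g ∈ BF D.ρ D.W) {k : ℕ} (hk : k < D.n) {t : K} (ht : D.ρ g (D.b k) - t • D.b k ∈ D.W k) : t ≠ 0 := by
  rintro rfl
  rw [zero_smul, sub_zero] at ht
  have h1 := (inv_mem hg : g⁻¹ ∈ BF D.ρ D.W) k _ ht
  rw [D.inv_mul_ap] at h1
  exact b_ne' (by omega) (h1 (D.n - 1 - k) (by omega))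

/-- middle condition -/
def HM (D : Geo K V Γ) : Prop := D.n = 2 * D.m + 1 → ∀ g ∈ BF D.ρ D.W, (∀ i < D.m, D.ρ g (D.b i) - D.b i ∈ D.W i) →
  D.ρ g (D.b D.m) - D.b D.m ∈ D.W D.m

theorem mem_U_final (hM : HM D) {g : Γ} (hg : g ∈ BF D.ρ D.W) (h : ∀ i < D.m, D.ρ g (D.b i) - D.b i ∈ D.W i) : g ∈ UF D.ρ D.W := by
  have hnn := D.hn
  apply mem_U_of
  intro k v hv
  by_cases hkn : k < D.n
  swap
  · rw [W_top (k := k) (by omega)]; exact Submodule.mem_top
  have hb : D.ρ g (D.b k) - D.b k ∈ D.W k := by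
    by_cases hk : k < D.m
    · exact h k hk
    · by_cases hk2 : D.n - 1 - k < D.m
      · obtain ⟨i, hi⟩ : ∃ i, i = D.n - 1 - k := ⟨_, rfl⟩
        obtain ⟨t, ht⟩ := W_step hkn (hg (k + 1) _ (b_mem hkn (by omega)))
        have h1 : D.B (D.b i) (D.b k) ≠ 0 := b_ne' (by omega)
        have h2 := D.pres g (D.b i) (D.b k)
        have h3 : D.B (D.ρ g (D.b i) - D.b i) (D.ρ g (D.b k)) = 0 :=
          W_orth (k := i) (l := k + 1) (by omega) (h i (by omega)) (hg (k + 1) _ (b_mem hkn (by omega)))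
        have h4 : D.B (D.b i) (D.ρ g (D.b k) - t • D.b k) = 0 := ht i (by omega)
        rw [D.subl, h2, sub_eq_zero] at h3
        rw [D.subr, ← h3, D.smulr] at h4
        have h5 : (1 - t) * D.B (D.b i) (D.b k) = 0 := by linear_combination h4
        have h6 := (mul_eq_zero.1 h5).resolve_right h1
        have h7 : t = 1 := (sub_eq_zero.1 h6).symm
        rw [h7, one_smul] at ht
        exact ht
      · have hkm : k = D.m := by omega
        rw [hkm]
        exact hM (by omega) g hg h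
  obtain ⟨c, hc⟩ := W_step hkn hv
  have e1 : D.ρ g v - v = (D.ρ g (v - c • D.b k) - (v - c • D.b k)) + c • (D.ρ g (D.b k) - D.b k) := by
    rw [map_sub, map_smul]; module
  rw [e1]
  exact (D.W k).add_mem ((D.W k).sub_mem (hg k _ hc) hc) ((D.W k).smul_mem _ hb)

/-- moving singular vectors -/
theorem move {e v v' : V} (he : D.B e e = 0) (hv : D.B v v = 0) (hv' : D.B v' v' = 0) (h : D.B e v = D.B e v') (h0 : D.B e v ≠ 0) :
    ∃ (g : Γ) (a : K), D.IsE g e ((D.B e v)⁻¹ • (v' - v)) a ∧ D.ρ g v = v' := by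
  obtain ⟨τ, hτ⟩ : ∃ τ, τ = D.B e v := ⟨_, rfl⟩
  rw [← hτ] at h0 h ⊢
  have hs0 := D.s_ne h0
  obtain ⟨y, hy⟩ : ∃ y, y = τ⁻¹ • (v' - v) := ⟨_, rfl⟩
  rw [← hy]
  have hee := D.ee
  have hey : D.B e y = 0 := by rw [hy, D.smulr, D.subr, ← h, ← hτ, sub_self, mul_zero]
  have hyv : D.B y v = (D.σ τ)⁻¹ * D.B v' v := by rw [hy, D.smull, D.subl, hv, sub_zero, map_inv₀]
  have hyy : D.B y y = - ((D.σ τ)⁻¹ * τ⁻¹ * (D.B v' v + D.B v v')) := by
    rw [hy, D.smull, D.smulr, D.subl, D.subr, D.subr, hv, hv', map_inv₀]; ring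
  have hpar : D.ε * (D.ε * τ⁻¹ * D.B y v) + D.σ (D.ε * τ⁻¹ * D.B y v) + D.B y y = 0 := by
    rw [map_mul, map_mul, D.se, hyv, hyy, map_mul, map_inv₀, map_inv₀, D.ss, D.swap v' v]
    linear_combination (τ⁻¹ * ((D.σ τ)⁻¹ * D.B v' v)) * hee
  obtain ⟨g, hg⟩ := IsE.exists (D := D) (e := e) (y := y) (a := D.ε * τ⁻¹ * D.B y v) he hey hpar
  refine ⟨g, _, hg, ?_⟩
  rw [hg.2.2.2, ← hτ, hy, smul_smul, mul_inv_cancel₀ h0, one_smul, ← hy]
  have e1 : D.ε * τ⁻¹ * D.B y v * τ = D.ε * D.B y v := by field_simp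
  rw [e1]; module

theorem mem_Bc1 {g : Γ} (h : D.ρ g (D.b 0) = D.b 0) : g ∈ BF D.ρ (D.Wc 1) := by
  have hn := D.n_ge
  rw [mem_Bc]
  refine ⟨fun v hv => ?_, fun v hv j hj => ?_⟩
  · obtain ⟨c, rfl⟩ := mem_W1 hv
    rw [map_smul, h]; exact hv
  · have : j = 0 := by omega
    subst this
    have h1 := D.pres g (D.b 0) v
    rw [h] at h1
    rw [h1]; exact hv 0 (by omega)

/-- condition for the last torus element -/
def HLc (D : Geo K V Γ) : Prop := ∀ g ∈ BF D.ρ D.W, (∀ i < D.m - 1, D.ρ g (D.b i) - D.b i ∈ D.W i) → ∀ t : K,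
  D.ρ g (D.b (D.m - 1)) - t • D.b (D.m - 1) ∈ D.W (D.m - 1) → ∃ v v' : V, D.B v v = 0 ∧ D.B v' v' = 0 ∧
    D.B (D.b (D.m - 1)) v = D.B (D.b (D.m - 1)) v' ∧ D.B (D.b (D.m - 1)) v ≠ 0 ∧
    D.B (D.b (D.n - D.m)) v = D.B (D.b (D.n - D.m)) (D.b (D.m - 1)) ∧
    D.B (D.b (D.n - D.m)) v' = t * D.B (D.b (D.n - D.m)) (D.b (D.m - 1)) ∧
    ∀ i < D.m - 1, D.B (D.b i) v = 0 ∧ D.B (D.b i) v' = 0

variable (p : ℕ) [Fact p.Prime] [CharP K p]

/-- group generated by the `p`-elements of a parabolic -/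
def pel (D : Geo K V Γ) (c : ℕ) : Subgroup Γ := Subgroup.closure {x : Γ | x ∈ BF D.ρ (D.Wc c) ∧ ∃ k : ℕ, x ^ p ^ k = 1}

theorem last (hL : HLc D) {g : Γ} (hg : g ∈ BF D.ρ D.W) (h : ∀ i < D.m - 1, D.ρ g (D.b i) - D.b i ∈ D.W i) {t : K}
    (ht : D.ρ g (D.b (D.m - 1)) - t • D.b (D.m - 1) ∈ D.W (D.m - 1)) :
    ∃ k ∈ pel p D 1, k ∈ BF D.ρ D.W ∧ D.ρ k (D.b (D.m - 1)) = t • D.b (D.m - 1) ∧ ∀ i < D.m - 1, D.ρ k (D.b i) = D.b i := by
  have hnn := D.hn
  have h2 := D.two_le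
  have ht0 : t ≠ 0 := t_ne hg (by omega) ht
  obtain ⟨v, v', hv, hv', h3, h4, h5, h6, h7⟩ := hL g hg h t ht
  obtain ⟨e, he⟩ : ∃ e, e = D.b (D.m - 1) := ⟨_, rfl⟩
  obtain ⟨f, hf⟩ : ∃ f, f = D.b (D.n - D.m) := ⟨_, rfl⟩
  rw [← he] at h3 h4 ⊢
  rw [← he, ← hf] at h5 h6
  have hee : D.B e e = 0 := by rw [he]; exact D.b_zero _ (by omega) _ (by omega) (by omega)
  have hff : D.B f f = 0 := by rw [hf]; exact D.b_zero _ (by omega) _ (by omega) (by omega)
  have hfe : D.B f e ≠ 0 := by rw [he, hf]; exact b_ne' (by omega)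
  have hie : ∀ i < D.m - 1, D.B (D.b i) e = 0 := by intro i hi; rw [he]; exact D.b_zero _ (by omega) _ (by omega) (by omega)
  have hif : ∀ i < D.m - 1, D.B (D.b i) f = 0 := by intro i hi; rw [hf]; exact D.b_zero _ (by omega) _ (by omega) (by omega)
  obtain ⟨r1, a1, hr1, hr1'⟩ := move (D := D) hff hee hv h5.symm hfe
  obtain ⟨r2, a2, hr2, hr2'⟩ := move (D := D) hee hv hv' h3 h4
  obtain ⟨r3, a3, hr3, hr3'⟩ := move (D := D) (v := v') (v' := t • e) hff hv' (by rw [D.smulr, D.smull, hee]; simp)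
    (by rw [h6, D.smulr]) (by rw [h6]; exact mul_ne_zero ht0 hfe)
  have hfix : ∀ {r : Γ} {e' y : V} {a : K}, D.IsE r e' y a → (∀ i < D.m - 1, D.B (D.b i) e' = 0) → (∀ i < D.m - 1, D.B (D.b i) y = 0) →
      ∀ i < D.m - 1, D.ρ r (D.b i) = D.b i := by
    intro r e' y a hr h1 h2 i hi
    rw [hr.2.2.2, D.swap_zero (h1 i hi), D.swap_zero (h2 i hi)]
    simp
  have f1 := hfix hr1 hif (fun i hi => by rw [D.smulr, D.subr, (h7 i hi).1, hie i hi]; simp)
  have f2 := hfix hr2 hie (fun i hi => by rw [D.smulr, D.subr, (h7 i hi).1, (h7 i hi).2]; simp)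
  have f3 := hfix hr3 hif (fun i hi => by rw [D.smulr, D.subr, D.smulr, (h7 i hi).2, hie i hi]; simp)
  have hp : ∀ {r : Γ} {e' y : V} {a : K}, D.IsE r e' y a → (∀ i < D.m - 1, D.ρ r (D.b i) = D.b i) → r ∈ pel p D 1 := by
    intro r e' y a hr h
    exact Subgroup.subset_closure ⟨mem_Bc1 (h 0 (by omega)), 2, hr.pow⟩
  have q1 : D.ρ (r3 * r2 * r1) e = t • e := by rw [D.mul_ap, D.mul_ap, hr1', hr2', hr3']
  have q2 : ∀ i < D.m - 1, D.ρ (r3 * r2 * r1) (D.b i) = D.b i := by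
    intro i hi
    rw [D.mul_ap, D.mul_ap, f1 i hi, f2 i hi, f3 i hi]
  refine ⟨r3 * r2 * r1, mul_mem (mul_mem (hp hr3 f3) (hp hr2 f2)) (hp hr1 f1), ?_, q1, q2⟩
  apply BF_of
  intro i hi
  by_cases hi' : i < D.m - 1
  · rw [q2 i hi']; exact b_mem (by omega) (by omega)
  · have : i = D.m - 1 := by omega
    rw [this, ← he, q1, he]
    exact (D.W _).smul_mem _ (b_mem (by omega) (by omega))

/-- the transvections of the Levi factor of type `A` -/
theorem levi {i j : ℕ} (hi : i < D.m) (hj : j < D.m) (hij : i ≠ j) (r : K) : ∃ g : Γ, (g ∈ BF D.ρ (D.Wc D.m) ∧ ∃ k : ℕ, g ^ p ^ k = 1) ∧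
    ∀ l < D.m, D.ρ g (D.b l) = D.b l + (if l = j then r else 0) • D.b i := by
  have hnn := D.hn
  have h2 := D.two_le
  have hκ : D.B (D.b (D.n - 1 - j)) (D.b j) ≠ 0 := b_ne' (by omega)
  obtain ⟨κ, hκ'⟩ : ∃ κ, κ = D.B (D.b (D.n - 1 - j)) (D.b j) := ⟨_, rfl⟩
  rw [← hκ'] at hκ
  obtain ⟨r', hr'⟩ : ∃ r', r' = D.σ (- D.ε * r / κ) := ⟨_, rfl⟩
  have hσr : D.σ r' * κ = - D.ε * r := by rw [hr', D.ss, div_mul_cancel₀ _ hκ]
  have hee := D.ee
  obtain ⟨g, hg⟩ := IsE.exists (D := D) (e := D.b i) (y := r' • D.b (D.n - 1 - j)) (a := 0)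
    (D.b_zero _ (by omega) _ (by omega) (by omega)) (by rw [D.smulr, D.b_zero _ (by omega) _ (by omega) (by omega), mul_zero])
    (by rw [D.smulr, D.smull, D.b_zero (D.n - 1 - j) (by omega) (D.n - 1 - j) (by omega) (by omega), map_zero]; ring)
  have hgl : ∀ l < D.m, D.ρ g (D.b l) = D.b l + (if l = j then r else 0) • D.b i := by
    intro l hl
    rw [hg.2.2.2, D.b_zero i (by omega) l (by omega) (by omega), D.smull]
    by_cases hlj : l = j
    · rw [if_pos hlj, hlj, ← hκ', hσr]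
      have : D.ε * (-D.ε * r) = - r := by linear_combination (-r) * hee
      rw [this]; module
    · rw [if_neg hlj, D.b_zero (D.n - 1 - j) (by omega) l (by omega) (by omega)]
      module
  refine ⟨g, ⟨mem_Bc.2 ⟨?_, ?_⟩, 2, hg.pow⟩, hgl⟩
  · apply W_ind (k := D.m) (P := fun v => D.ρ g v ∈ D.W D.m) (by rw [map_zero]; exact (D.W _).zero_mem)
      (fun x y hx hy => by rw [map_add]; exact (D.W _).add_mem hx hy) (by omega)
    intro l hl c
    rw [map_smul, hgl l hl]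
    exact (D.W _).smul_mem _ ((D.W _).add_mem (b_mem (by omega) hl) ((D.W _).smul_mem _ (b_mem (by omega) hi)))
  · intro v hv
    have h1 : D.B (D.b i) v = 0 := hv i (by omega)
    rw [hg.2.2.2, h1]
    have : v + (0 : K) • r' • D.b (D.n - 1 - j) - (D.ε * D.B (r' • D.b (D.n - 1 - j)) v) • D.b i + (0 * (0 : K)) • D.b i =
      v - (D.ε * D.B (r' • D.b (D.n - 1 - j)) v) • D.b i := by module
    rw [this]
    exact (D.W _).sub_mem hv ((D.W _).smul_mem _ (b_mem (by omega) (by omega)))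

theorem torus {k : ℕ} (hk : k + 1 < D.m) {t : K} (ht : t ≠ 0) :
    ∃ h ∈ pel p D D.m, h ∈ BF D.ρ D.W ∧ D.ρ h (D.b k) = t • D.b k ∧ ∀ i < k, D.ρ h (D.b i) = D.b i := by
  have hnn := D.hn
  choose x hx1 hx2 using fun r => levi (D := D) p (i := k) (j := k + 1) (by omega) hk (by omega) r
  choose y hy1 hy2 using fun r => levi (D := D) p (i := k + 1) (j := k) hk (by omega) (by omega) r
  have hxk : ∀ r, D.ρ (x r) (D.b k) = D.b k := fun r => by rw [hx2 r k (by omega), if_neg (by omega), zero_smul, add_zero]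
  have hxk1 : ∀ r, D.ρ (x r) (D.b (k + 1)) = D.b (k + 1) + r • D.b k := fun r => by rw [hx2 r (k + 1) hk, if_pos rfl]
  have hyk : ∀ r, D.ρ (y r) (D.b k) = D.b k + r • D.b (k + 1) := fun r => by rw [hy2 r k (by omega), if_pos rfl]
  have hyk1 : ∀ r, D.ρ (y r) (D.b (k + 1)) = D.b (k + 1) := fun r => by rw [hy2 r (k + 1) hk, if_neg (by omega), zero_smul, add_zero]
  have hxo : ∀ r, ∀ l < D.m, l ≠ k → l ≠ k + 1 → D.ρ (x r) (D.b l) = D.b l := fun r l hl h1 h2 => by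
    rw [hx2 r l hl, if_neg h2, zero_smul, add_zero]
  have hyo : ∀ r, ∀ l < D.m, l ≠ k → l ≠ k + 1 → D.ρ (y r) (D.b l) = D.b l := fun r l hl h1 h2 => by
    rw [hy2 r l hl, if_neg h1, zero_smul, add_zero]
  have tx : ∀ r, x r ∈ pel p D D.m := fun r => Subgroup.subset_closure (hx1 r)
  have ty : ∀ r, y r ∈ pel p D D.m := fun r => Subgroup.subset_closure (hy1 r)
  obtain ⟨h, hh⟩ : ∃ h, h = x t * y (-t⁻¹) * x t * (x (-1) * y 1 * x (-1)) := ⟨_, rfl⟩
  have q1 : D.ρ h (D.b k) = t • D.b k := by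
    rw [hh]
    simp only [D.mul_ap, hxk, hxk1, hyk, hyk1, map_add, map_smul]
    have : t * t⁻¹ = 1 := mul_inv_cancel₀ ht
    match_scalars
    all_goals (first | (field_simp; ring) | field_simp | ring)
  have q2 : D.ρ h (D.b (k + 1)) = t⁻¹ • D.b (k + 1) := by
    rw [hh]
    simp only [D.mul_ap, hxk, hxk1, hyk, hyk1, map_add, map_smul]
    have : t * t⁻¹ = 1 := mul_inv_cancel₀ ht
    match_scalars
    all_goals (first | (field_simp; ring) | field_simp | ring)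
  have q3 : ∀ l < D.m, l ≠ k → l ≠ k + 1 → D.ρ h (D.b l) = D.b l := by
    intro l hl h1 h2
    rw [hh]
    simp only [D.mul_ap, hxo _ l hl h1 h2, hyo _ l hl h1 h2]
  refine ⟨h, ?_, ?_, q1, fun i hi => q3 i (by omega) (by omega) (by omega)⟩
  · rw [hh]
    exact mul_mem (mul_mem (mul_mem (tx _) (ty _)) (tx _)) (mul_mem (mul_mem (tx _) (ty _)) (tx _))
  · apply BF_of
    intro l hl
    by_cases h1 : l = k
    · rw [h1, q1]; exact (D.W _).smul_mem _ (b_mem (by omega) (by omega))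
    · by_cases h2 : l = k + 1
      · rw [h2, q2]; exact (D.W _).smul_mem _ (b_mem (by omega) (by omega))
      · rw [q3 l hl h1 h2]; exact b_mem (by omega) (by omega)

theorem gen_thm (hM : HM D) (hL : HLc D) : Subgroup.normalizer ((UF D.ρ D.W : Subgroup Γ) : Set Γ) ≤ Subgroup.closure (Acc p (UF D.ρ D.W : Subgroup Γ)) := by
  intro g hg
  have hnn := D.hn
  have h2 := D.two_le
  have hgB := normalizer_le hg
  clear hg
  have hacc1 : ∀ h ∈ pel p D 1, h ∈ BF D.ρ D.W → h ∈ Subgroup.closure (Acc p (UF D.ρ D.W : Subgroup Γ)) := by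
    intro h h1 h2
    exact Subgroup.subset_closure (acc_of (W' := D.Wc 1) (Uc_le (by omega)) U_le_Bc cent1 (BF_le_normalizer h2) h1)
  have haccm : ∀ h ∈ pel p D D.m, h ∈ BF D.ρ D.W → h ∈ Subgroup.closure (Acc p (UF D.ρ D.W : Subgroup Γ)) := by
    intro h h1 h2
    exact Subgroup.subset_closure (acc_of (W' := D.Wc D.m) (Uc_le (by omega)) U_le_Bc centm (BF_le_normalizer h2) h1)
  have hdiv : ∀ {g h : Γ} {k : ℕ} {t : K}, k < D.n → g ∈ BF D.ρ D.W → h ∈ BF D.ρ D.W → D.ρ g (D.b k) - t • D.b k ∈ D.W k →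
      D.ρ h (D.b k) = t • D.b k → (∀ i < k, D.ρ h (D.b i) = D.b i) → (∀ i < k, D.ρ g (D.b i) - D.b i ∈ D.W i) →
      ∀ i < k + 1, D.ρ (h⁻¹ * g) (D.b i) - D.b i ∈ D.W i := by
    intro g h k t hk hg hh ht h1 h3 h4 i hi
    have hinv : ∀ i < k, D.ρ h⁻¹ (D.b i) = D.b i := by
      intro i hi
      conv_lhs => rw [← h3 i hi]
      rw [D.inv_mul_ap]
    by_cases hik : i < k
    · have e1 : D.ρ (h⁻¹ * g) (D.b i) - D.b i = D.ρ h⁻¹ (D.ρ g (D.b i) - D.b i) := by
        rw [map_sub, hinv i hik, D.mul_ap]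
      rw [e1]
      exact (inv_mem hh : h⁻¹ ∈ BF D.ρ D.W) i _ (h4 i hik)
    · have : i = k := by omega
      subst this
      have e1 : D.ρ (h⁻¹ * g) (D.b i) - D.b i = D.ρ h⁻¹ (D.ρ g (D.b i) - t • D.b i) := by
        rw [map_sub, ← h1, D.inv_mul_ap, D.mul_ap]
      rw [e1]
      exact (inv_mem hh : h⁻¹ ∈ BF D.ρ D.W) i _ ht
  have key : ∀ d ≤ D.m - 1, ∀ g ∈ BF D.ρ D.W, (∀ i < D.m - 1 - d, D.ρ g (D.b i) - D.b i ∈ D.W i) →
      g ∈ Subgroup.closure (Acc p (UF D.ρ D.W : Subgroup Γ)) := by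
    intro d
    induction d with
    | zero =>
      intro _ g hg h
      rw [Nat.sub_zero] at h
      obtain ⟨t, ht⟩ := W_step (D := D) (k := D.m - 1) (by omega) (hg (D.m - 1 + 1) (D.b (D.m - 1)) (b_mem (by omega) (by omega)))
      obtain ⟨k, hk1, hk2, hk3, hk4⟩ := last (D := D) p hL hg h ht
      have h3 := hdiv (by omega) hg hk2 ht hk3 hk4 h
      have h4 : k⁻¹ * g ∈ UF D.ρ D.W := mem_U_final hM (mul_mem (inv_mem hk2) hg) (fun i hi => h3 i (by omega))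
      have h5 : k⁻¹ * g ∈ Subgroup.closure (Acc p (UF D.ρ D.W : Subgroup Γ)) := Subgroup.subset_closure (Or.inl (Or.inl h4))
      have h6 := mul_mem (hacc1 k hk1 hk2) h5
      rwa [mul_inv_cancel_left] at h6
    | succ d ih =>
      intro hd g hg h
      obtain ⟨k, hk⟩ : ∃ k, k = D.m - 1 - (d + 1) := ⟨_, rfl⟩
      rw [← hk] at h
      obtain ⟨t, ht⟩ := W_step (D := D) (k := k) (by omega) (hg (k + 1) (D.b k) (b_mem (by omega) (by omega)))
      have ht0 := t_ne hg (by omega) ht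
      obtain ⟨h', hh1, hh2, hh3, hh4⟩ := torus (D := D) p (k := k) (by omega) ht0
      have h3 := hdiv (by omega) hg hh2 ht hh3 hh4 h
      have h5 := ih (by omega) _ (mul_mem (inv_mem hh2) hg) (fun i hi => h3 i (by omega))
      have h6 := mul_mem (haccm h' hh1 hh2) h5
      rwa [mul_inv_cancel_left] at h6
  exact key (D.m - 1) le_rfl g hgB (fun i hi => by omega)

theorem cond (hN : HN D) (hM : HM D) (hL : HLc D) : Cond p (UF D.ρ D.W : Subgroup Γ) := by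
  refine ⟨?_, sc_thm p hN, gen_thm p hM hL⟩
  intro h
  obtain ⟨a, ha, ha'⟩ := D.a0
  have hn := D.n_ge
  obtain ⟨g, hg⟩ := IsE.exists (D := D) (e := D.b 0) (y := 0) (a := a) b00 (D.zeror _) (by rw [D.zerol, ha', zero_add])
  have h1 := hg.mem_U0
  rw [h, Subgroup.mem_bot] at h1
  have h2 := hg.2.2.2 (D.b (D.n - 1))
  rw [h1, map_one, Module.End.one_apply, D.zerol] at h2
  have h3 : (a * D.B (D.b 0) (D.b (D.n - 1))) • D.b 0 = 0 := by
    have : (a * D.B (D.b 0) (D.b (D.n - 1))) • D.b 0 = (D.b (D.n - 1) + D.B (D.b 0) (D.b (D.n - 1)) • (0 : V) - (D.ε * 0) • D.b 0 +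
      (a * D.B (D.b 0) (D.b (D.n - 1))) • D.b 0) - D.b (D.n - 1) := by module
    rw [this, ← h2, sub_self]
  rcases smul_eq_zero.1 h3 with h4 | h4
  · exact (mul_ne_zero ha (b_ne' (by omega))) h4
  · exact b_nz (by omega) h4

theorem center_inf {z : Γ} (hz : z ∈ Subgroup.center Γ) (hU : z ∈ UF D.ρ D.W) : z = 1 := by
  have hnn := D.hn
  have h2 := D.two_le
  have hfix : ∀ i < D.n, 2 * i + 1 ≠ D.n → D.ρ z (D.b i) = D.b i := by
    intro i hi hi2
    obtain ⟨a, ha, ha'⟩ := D.a0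
    obtain ⟨g, hg⟩ := IsE.exists (D := D) (e := D.b i) (y := 0) (a := a) (D.b_zero i (by omega) i (by omega) (by omega)) (D.zeror _)
      (by rw [D.zerol, ha', zero_add])
    have h1 := hg.conj z
    have h3 : z * g * z⁻¹ = g := by
      have := Subgroup.mem_center_iff.1 hz g
      rw [← this]; group
    rw [h3, map_zero] at h1
    have h4 := (h1.2.2.2 (D.ρ z (D.b (D.n - 1 - i)))).symm.trans (hg.2.2.2 (D.ρ z (D.b (D.n - 1 - i))))
    rw [D.pres] at h4
    have h5 : D.B (D.b i) (D.b (D.n - 1 - i)) ≠ 0 := b_ne' (by omega)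
    have h6 : (a * D.B (D.b i) (D.b (D.n - 1 - i))) • D.ρ z (D.b i) = (a * D.B (D.b i) (D.ρ z (D.b (D.n - 1 - i)))) • D.b i := by
      rw [D.zerol] at h4
      simp only [smul_zero, mul_zero, zero_smul, sub_zero, add_zero] at h4
      exact add_left_cancel h4
    obtain ⟨c, hc⟩ : ∃ c : K, D.ρ z (D.b i) = c • D.b i := by
      refine ⟨(a * D.B (D.b i) (D.b (D.n - 1 - i)))⁻¹ * (a * D.B (D.b i) (D.ρ z (D.b (D.n - 1 - i)))), ?_⟩
      rw [← smul_smul, ← h6, smul_smul, inv_mul_cancel₀ (mul_ne_zero ha h5), one_smul]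
    have h7 : D.ρ z (D.b i) - D.b i ∈ D.W i := (hU i).2 _ (b_mem (by omega) (by omega))
    rw [hc] at h7 ⊢
    have h8 : (c - 1) • D.b i ∈ D.W i := by rw [sub_smul, one_smul]; exact h7
    have h9 := h8 (D.n - 1 - i) (by omega)
    rw [D.smulr] at h9
    have h10 : c - 1 = 0 := (mul_eq_zero.1 h9).resolve_right (b_ne' (by omega))
    rw [sub_eq_zero.1 h10, one_smul]
  apply ext_b (D := D)
  intro i hi
  rw [map_one, Module.End.one_apply]
  by_cases h1 : 2 * i + 1 = D.n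
  · rw [← sub_eq_zero]
    apply D.nondeg
    intro j hj
    by_cases hj2 : j + i < D.n
    · exact (hU i).2 _ (b_mem (by omega) (by omega)) j hj2
    · have h3 := hfix j hj (by omega)
      rw [D.subr]
      have h4 := D.pres z (D.b j) (D.b i)
      rw [h3] at h4
      rw [h4, sub_self]
  · exact hfix i hi h1

theorem pel_mem {g : Γ} (hg : g ∈ Subgroup.normalizer ((UF D.ρ D.W : Subgroup Γ) : Set Γ)) (h : ∃ k, g ^ p ^ k = 1) : g ∈ UF D.ρ D.W := by
  obtain ⟨m, hm⟩ := h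
  exact mem_UF_of_pow (p := p) (fun k => W_le (Nat.le_succ k)) h_step (normalizer_le hg) hm

/-- the fusion system of the quotient is simple -/
theorem simple (hN : HN D) (hM : HM D) (hL : HLc D) {Δ : Type u} [Group Δ] [Finite Δ] (φ : Γ →* Δ) (hφ : Function.Surjective φ)
    (hc : φ.ker ≤ Subgroup.center Γ) (S : Sylow p Δ) : (groupFusionSystem (S : Subgroup Δ)).IsSimple p := by
  refine simple_quot (Γ := Γ) (pgroup (D := D) p) (fun g hg h => pel_mem p hg h) (cond p hN hM hL) φ hφ ?_ hc S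
  rw [Nat.coprime_comm, Nat.Prime.coprime_iff_not_dvd Fact.out]
  intro hd
  obtain ⟨⟨z, hz⟩, hord⟩ := exists_prime_orderOf_dvd_card' p hd
  have hzo : z ^ p ^ 1 = 1 := by
    rw [pow_one]
    have := pow_orderOf_eq_one (⟨z, hz⟩ : φ.ker)
    rw [hord] at this
    exact congrArg Subtype.val this
  have hzc := hc hz
  have hzN : z ∈ Subgroup.normalizer ((UF D.ρ D.W : Subgroup Γ) : Set Γ) := by
    rw [Subgroup.mem_normalizer_iff]
    intro h
    have := Subgroup.mem_center_iff.1 hzc h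
    rw [← this, mul_inv_cancel_right]
  have h1 := pel_mem (D := D) p hzN ⟨1, hzo⟩
  have h2 := center_inf hzc h1
  have h3 : (⟨z, hz⟩ : φ.ker) = 1 := Subtype.ext h2
  rw [h3, orderOf_one] at hord
  exact (Fact.out : p.Prime).one_lt.ne hord

end

end Geo

end Cfsg.Agent.HL.DC
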