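import Mathlib
import Cfsg.Agent.HL_DC7
import Cfsg.Agent.H5_USim
import Cfsg.Agent.H5_SUpar
import Cfsg.Agent.H15_WtSU

set_option autoImplicit false
set_option linter.unusedSectionVars false
set_option linter.unusedVariables false

/-!
The special unitary groups: simplicity of the fusion system in defining characteristic.
-/

namespace Cfsg.Agent.HL.DC

open Cfsg Cfsg.Agent.HL.FusCrit Matrix

universe u v

namespace Geo

variable {K : Type v} [Field K] {V : Type v} [AddCommGroup V] [Module K V] {Γ : Type u} [Group Γ] {D : Geo K V Γ} [Finite Γ]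

theorem pair_t {g : Γ} (hg : g ∈ BF D.ρ D.W) {i k : ℕ} (h : i + k + 1 = D.n) {s t : K} (hs : D.ρ g (D.b i) - s • D.b i ∈ D.W i)
    (ht : D.ρ g (D.b k) - t • D.b k ∈ D.W k) : D.σ s * t = 1 := by
  have h1 : D.B (D.b i) (D.b k) ≠ 0 := b_ne' h
  have h2 := D.pres g (D.b i) (D.b k)
  have h3 : D.B (D.ρ g (D.b i) - s • D.b i) (D.ρ g (D.b k)) = 0 :=
    W_orth (k := i) (l := k + 1) (by omega) hs (hg (k + 1) _ (b_mem (by omega) (by omega)))
  have h4 : D.B (D.b i) (D.ρ g (D.b k) - t • D.b k) = 0 := ht i (by omega)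
  rw [D.subl, h2, D.smull, sub_eq_zero] at h3
  rw [D.subr, D.smulr, sub_eq_zero] at h4
  rw [h4] at h3
  have h5 : (D.σ s * t - 1) * D.B (D.b i) (D.b k) = 0 := by linear_combination -h3
  exact sub_eq_zero.1 ((mul_eq_zero.1 h5).resolve_right h1)

end Geo

namespace Un

variable {K : Type v} [Field K] [Fintype K] {q n : ℕ} (hK : Fintype.card K = q ^ 2)

local notation "hh" => Cfsg.hermForm n K q

/-- the natural representation -/
def rep (n : ℕ) (K : Type v) [Field K] (q : ℕ) : Cfsg.SU n K q →* ((Fin n → K) →ₗ[K] (Fin n → K)) where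
  toFun g := Matrix.mulVecLin (H5.Unit.mat g)
  map_one' := by apply LinearMap.ext; intro v; simp [H5.Unit.mat]
  map_mul' a b := by
    apply LinearMap.ext; intro v
    simp [H5.Unit.mat_mul, Matrix.mulVec_mulVec, Module.End.mul_apply]

theorem rep_apply (g : Cfsg.SU n K q) (v : Fin n → K) : rep n K q g v = H5.Unit.mat g *ᵥ v := rfl

/-- the basis -/
def bb {m : ℕ} (E G : Matrix (Fin n) (Fin m) K) (i : ℕ) : Fin n → K :=
  if h : i < m then (fun r => E r ⟨i, h⟩) else if h : n - 1 - i < m then (fun r => G r ⟨n - 1 - i, h⟩) else (fun r => if (r : ℕ) = 2 * m then 1 else 0)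

include hK in
theorem hcol {m : ℕ} (M N : Matrix (Fin n) (Fin m) K) (i j : Fin m) :
    hh (fun r => M r j) (fun r => N r i) = (H15.Sk.cj (H5.Fld.frob hK) N * M) i j := by
  rw [Cfsg.hermForm, Matrix.mul_apply]
  apply Finset.sum_congr rfl
  intro r _
  show M r j * N r i ^ q = H5.Fld.frob hK (N r i) * M r j
  rw [H5.Fld.frob_apply]; ring

/-- properties of the frames -/
structure Fr (hK : Fintype.card K = q ^ 2) {m : ℕ} (E G : Matrix (Fin n) (Fin m) K) : Prop where
  hyp : H15.WtSU.Hyp (H5.Fld.frob hK) E G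
  z : ∀ r : Fin n, 2 * m ≤ r.val → ∀ i, E r i = 0 ∧ G r i = 0
  hn : n = 2 * m ∨ n = 2 * m + 1

theorem Fr.form {m : ℕ} {E G : Matrix (Fin n) (Fin m) K} (F : Fr hK E G) {i j : ℕ} (hi : i < n) (hj : j < n) :
    hh (bb E G j) (bb E G i) = if i + j + 1 = n then 1 else 0 := by
  have hq := H5.USim.q0 hK
  have hnn := F.hn
  have hEE : ∀ a b : Fin m, hh (fun r => E r b) (fun r => E r a) = 0 := by intro a b; rw [hcol hK, F.hyp.EE]; rfl
  have hGG : ∀ a b : Fin m, hh (fun r => G r b) (fun r => G r a) = 0 := by intro a b; rw [hcol hK, F.hyp.GG]; rfl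
  have hGE : ∀ a b : Fin m, hh (fun r => E r b) (fun r => G r a) = if a = b then 1 else 0 := by
    intro a b; rw [hcol hK, F.hyp.GE, Matrix.one_apply]
  have hEG : ∀ a b : Fin m, hh (fun r => G r b) (fun r => E r a) = if a = b then 1 else 0 := by
    intro a b; rw [hcol hK, F.hyp.EG, Matrix.one_apply]
  have hD : ∀ w : Fin n → K, (∀ r : Fin n, 2 * m ≤ r.val → w r = 0) → hh w (fun r => if (r : ℕ) = 2 * m then 1 else 0) = 0 := by
    intro w hw
    rw [Cfsg.hermForm]
    apply Finset.sum_eq_zero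
    intro r _
    by_cases hr : (r : ℕ) = 2 * m
    · rw [hw r (by omega), zero_mul]
    · simp only [if_neg hr]; rw [zero_pow hq, mul_zero]
  have hD' : ∀ w : Fin n → K, (∀ r : Fin n, 2 * m ≤ r.val → w r = 0) → hh (fun r => if (r : ℕ) = 2 * m then 1 else 0) w = 0 :=
    fun w hw => H5.USim.zero_symm hK (hD w hw)
  unfold bb
  by_cases h1 : i < m
  · rw [dif_pos h1]
    by_cases h2 : j < m
    · rw [dif_pos h2, hEE, if_neg (by omega)]
    · rw [dif_neg h2]
      by_cases h3 : n - 1 - j < m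
      · rw [dif_pos h3, hEG]
        by_cases h4 : i + j + 1 = n
        · rw [if_pos h4, if_pos (Fin.ext (by simp; omega))]
        · rw [if_neg h4, if_neg (fun h => h4 (by have := congrArg Fin.val h; simp at this; omega))]
      · rw [dif_neg h3, if_neg (by omega)]
        exact hD' _ (fun r hr => (F.z r hr _).1)
  · rw [dif_neg h1]
    by_cases h1' : n - 1 - i < m
    · rw [dif_pos h1']
      by_cases h2 : j < m
      · rw [dif_pos h2, hGE]
        by_cases h4 : i + j + 1 = n
        · rw [if_pos h4, if_pos (Fin.ext (by simp; omega))]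
        · rw [if_neg h4, if_neg (fun h => h4 (by have := congrArg Fin.val h; simp at this; omega))]
      · rw [dif_neg h2]
        by_cases h3 : n - 1 - j < m
        · rw [dif_pos h3, hGG, if_neg (by omega)]
        · rw [dif_neg h3, if_neg (by omega)]
          exact hD' _ (fun r hr => (F.z r hr _).2)
    · rw [dif_neg h1']
      by_cases h2 : j < m
      · rw [dif_pos h2, if_neg (by omega)]
        exact hD _ (fun r hr => (F.z r hr _).1)
      · rw [dif_neg h2]
        by_cases h3 : n - 1 - j < m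
        · rw [dif_pos h3, if_neg (by omega)]
          exact hD _ (fun r hr => (F.z r hr _).2)
        · rw [dif_neg h3, if_pos (by omega), Cfsg.hermForm, Finset.sum_eq_single (⟨2 * m, by omega⟩ : Fin n)]
          · simp
          · intro r _ hr
            have : (r : ℕ) ≠ 2 * m := fun h => hr (Fin.ext h)
            simp [this]
          · intro h'; exact absurd (Finset.mem_univ _) h'

/-- the geometry -/
noncomputable def geo (hn4 : 4 ≤ n) {m : ℕ} {E G : Matrix (Fin n) (Fin m) K} (F : Fr hK E G) :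
    Geo K (Fin n → K) (Cfsg.SU n K q) where
  ρ := rep n K q
  inj := by
    intro a b h
    apply H5.Unit.SU_ext
    intro x
    exact LinearMap.congr_fun h x
  σ := H5.Fld.frob hK
  ss := H5.Fld.frob_frob hK
  ε := 1
  ee := one_mul 1
  se := map_one _
  B := fun x y => hh y x
  addl := fun x y z => H5.Unit.herm_add_right hK z x y
  addr := fun x y z => H5.Unit.herm_add_left y z x
  smull := fun a x y => by
    show hh y (a • x) = _
    rw [H5.Unit.herm_smul_right, H5.Fld.frob_apply]
  smulr := fun a x y => H5.Unit.herm_smul_left a y x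
  swap := fun x y => by
    show hh x y = 1 * H5.Fld.frob hK (hh y x)
    rw [H5.Fld.frob_apply, one_mul, H5.Unit.herm_swap hK]
  pres := fun g x y => H5.Unit.SU_herm g y x
  n := n
  m := m
  two_le := by have := F.hn; omega
  hn := F.hn
  b := bb E G
  b_ne := by
    intro i hi
    show hh (bb E G (n - 1 - i)) (bb E G i) ≠ 0
    rw [F.form hK hi (by omega), if_pos (by omega)]
    exact one_ne_zero
  b_zero := by
    intro i hi j hj hij
    show hh (bb E G j) (bb E G i) = 0
    rw [F.form hK hi hj, if_neg (by omega)]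
  nondeg := by
    intro v h
    have h' : ∀ i < n, hh v (bb E G i) = 0 := h
    let L : (Fin n → K) →ₗ[K] (Fin n → K) :=
      { toFun := fun v i => hh v (bb E G i)
        map_add' := fun x y => by funext i; exact H5.Unit.herm_add_left x y _
        map_smul' := fun c x => by funext i; exact H5.Unit.herm_smul_left c x _ }
    have hs : Function.Surjective L := by
      rw [← LinearMap.range_eq_top, eq_top_iff]
      intro w _
      rw [← (Pi.basisFun K (Fin n)).sum_repr w]
      refine Submodule.sum_mem _ fun i _ => Submodule.smul_mem _ _ ⟨bb E G (n - 1 - i), ?_⟩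
      funext j
      show hh (bb E G (n - 1 - i)) (bb E G j) = _
      rw [F.form hK j.2 (by omega), Pi.basisFun_apply]
      by_cases hij : j = i
      · rw [hij, if_pos (by have := i.2; omega), Pi.single_eq_same]
      · rw [if_neg (fun h => hij (Fin.ext (by have := i.2; have := j.2; omega))), Pi.single_eq_of_ne hij]
    have hi := LinearMap.injective_iff_surjective.2 hs
    apply hi
    rw [map_zero]
    funext i
    exact h' i i.2
  ex := by
    intro e y a h1 h2 h3
    have h2' : hh e y = 0 := H5.USim.zero_symm hK h2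
    obtain ⟨A, hA⟩ := H5.USim.exists_E hK (u := e) (y := y) (a := -a) h1 h2 (by
      have h4 : 1 * a + H5.Fld.frob hK a + hh y y = 0 := h3
      rw [H5.Fld.frob_apply] at h4
      rw [H5.USim.pneg hK]
      linear_combination -h4)
    refine ⟨A, fun x => ?_⟩
    show H5.Unit.mat A *ᵥ x = x + hh x e • y - (1 * hh x y) • e + (a * hh x e) • e
    rw [hA]; module
  exa := by
    intro y
    obtain ⟨t, ht⟩ := H5.USim.tr_surj hK (-(hh y y)) (by rw [H5.USim.pneg hK, H5.Unit.herm_swap hK])
    refine ⟨t, ?_⟩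
    show 1 * t + H5.Fld.frob hK t + hh y y = 0
    rw [H5.Fld.frob_apply]
    linear_combination ht
  a0 := by
    obtain ⟨c, hc, hc'⟩ := H5.Unit.exists_ker_ne hK
    refine ⟨c, hc, ?_⟩
    show 1 * c + H5.Fld.frob hK c = 0
    rw [H5.Fld.frob_apply, one_mul, hc']
  trans := by
    intro v hv hvv
    have h00 : hh (bb E G 0) (bb E G 0) = 0 := by rw [F.form hK (by omega) (by omega), if_neg (by omega)]
    have h0n : hh (bb E G 0) (bb E G (n - 1)) = 1 := by rw [F.form hK (by omega) (by omega), if_pos (by omega)]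
    have hnn : hh (bb E G (n - 1)) (bb E G (n - 1)) = 0 := by rw [F.form hK (by omega) (by omega), if_neg (by omega)]
    obtain ⟨w, hw, hvw⟩ := H5.USim.exists_partner' hK hv hvv
    obtain ⟨A, hA, -⟩ := H5.USim.trans_pairs hK (by omega) h00 hnn h0n hvv hw hvw
    exact ⟨A, hA⟩

theorem det_one_of_nilp {N : Matrix (Fin n) (Fin n) K} {k : ℕ} (hN : N ^ k = 0) : (1 + N).det = 1 := by
  obtain ⟨p, hp⟩ := CharP.exists K
  have hpp : p.Prime := CharP.char_is_prime K p
  have hfp : Fact p.Prime := ⟨hpp⟩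
  by_cases hι : IsEmpty (Fin n)
  · simp
  rw [not_isEmpty_iff] at hι
  have h1 : (1 + N) ^ (p ^ k) = 1 := by
    have hc : CharP (Matrix (Fin n) (Fin n) K) p := inferInstance
    rw [add_pow_char_pow_of_commute p k (Commute.one_left N)]
    have h3 : k ≤ p ^ k := (Nat.lt_pow_self hpp.one_lt).le
    rw [one_pow, pow_eq_zero_of_le h3 hN, add_zero]
  have h2 := congrArg Matrix.det h1
  rw [Matrix.det_pow, Matrix.det_one] at h2
  have h3 : ((1 + N).det - 1) ^ (p ^ k) = 0 := by
    rw [sub_pow_char_pow, h2, one_pow, sub_self]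
  exact sub_eq_zero.mp (pow_eq_zero_iff (by have := hpp.pos; positivity) |>.mp h3)

theorem det_lem (hn4 : 4 ≤ n) {m : ℕ} {E G : Matrix (Fin n) (Fin m) K} (F : Fr hK E G) {g : Cfsg.SU n K q}
    (hg : g ∈ BF (geo hK hn4 F).ρ (geo hK hn4 F).W) {t s : ℕ → K}
    (ht : ∀ k < n, (geo hK hn4 F).ρ g ((geo hK hn4 F).b k) - t k • (geo hK hn4 F).b k ∈ (geo hK hn4 F).W k)
    {S : Matrix (Fin n) (Fin n) K} (hS : ∀ k < n, S *ᵥ ((geo hK hn4 F).b k) = s k • (geo hK hn4 F).b k) (hst : ∀ k < n, s k * t k = 1) : S.det = 1 := by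
  obtain ⟨D, hD⟩ : ∃ D, D = geo hK hn4 F := ⟨_, rfl⟩
  rw [← hD] at hg ht hS
  have hDn : D.n = n := by rw [hD]; rfl
  have hρ : ∀ x, D.ρ g x = H5.Unit.mat g *ᵥ x := by rw [hD]; intro x; rfl
  have hSW : ∀ k ≤ D.n, ∀ v ∈ D.W k, S *ᵥ v ∈ D.W k := by
    intro k hk
    apply Geo.W_ind (k := k) (P := fun v => S *ᵥ v ∈ D.W k) (by rw [mulVec_zero]; exact (D.W k).zero_mem)
      (fun x y hx hy => by rw [mulVec_add]; exact (D.W k).add_mem hx hy) hk
    intro i hi c
    rw [mulVec_smul, hS i (by omega)]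
    exact (D.W k).smul_mem _ ((D.W k).smul_mem _ (Geo.b_mem (by omega) hi))
  obtain ⟨N, hN⟩ : ∃ N, N = S * H5.Unit.mat g - 1 := ⟨_, rfl⟩
  have hNx : ∀ x, N *ᵥ x = S *ᵥ D.ρ g x - x := by
    intro x
    rw [hN, sub_mulVec, one_mulVec, ← mulVec_mulVec, hρ]
  have hNW : ∀ k < D.n, ∀ v ∈ D.W (k + 1), N *ᵥ v ∈ D.W k := by
    intro k hk v hv
    obtain ⟨c, hc⟩ := Geo.W_step hk hv
    have hgW : S *ᵥ D.ρ g (v - c • D.b k) ∈ D.W k := hSW k hk.le _ (hg k _ hc)
    have hb : S *ᵥ D.ρ g (D.b k) - D.b k ∈ D.W k := by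
      have e1 : S *ᵥ D.ρ g (D.b k) - D.b k = S *ᵥ (D.ρ g (D.b k) - t k • D.b k) := by
        rw [mulVec_sub, mulVec_smul, hS k (by omega), smul_smul, mul_comm, hst k (by omega), one_smul]
      rw [e1]
      exact hSW k hk.le _ (ht k (by omega))
    have e1 : N *ᵥ v = (S *ᵥ D.ρ g (v - c • D.b k) - (v - c • D.b k)) + c • (S *ᵥ D.ρ g (D.b k) - D.b k) := by
      rw [hNx, map_sub, map_smul, mulVec_sub, mulVec_smul, smul_sub]; abel
    rw [e1]
    exact (D.W k).add_mem ((D.W k).sub_mem hgW hc) ((D.W k).smul_mem _ hb)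
  have hnil : ∀ k ≤ D.n, ∀ v ∈ D.W k, (N ^ k) *ᵥ v = 0 := by
    intro k
    induction k with
    | zero =>
      intro _ v hv
      rw [Geo.W_zero, Submodule.mem_bot] at hv
      rw [hv, mulVec_zero]
    | succ k ih =>
      intro hk v hv
      rw [pow_succ, ← mulVec_mulVec]
      exact ih (by omega) _ (hNW k (by omega) v hv)
  have hN0 : N ^ D.n = 0 := by
    apply H5.Unit.ext_mulVec
    intro x
    rw [zero_mulVec]
    exact hnil D.n le_rfl x (by rw [Geo.W_top le_rfl]; exact Submodule.mem_top)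
  have h1 := det_one_of_nilp hN0
  rw [hN, add_sub_cancel, det_mul] at h1
  have h2 : (H5.Unit.mat g).det = 1 := (g : Matrix.SpecialLinearGroup (Fin n) K).2
  rwa [h2, mul_one] at h1

end Un

end Cfsg.Agent.HL.DC
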