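import Mathlib
import Cfsg.Agent.HL_DC9

set_option autoImplicit false
set_option linter.unusedSectionVars false
set_option linter.unusedVariables false

/-!
The special unitary groups: simplicity of the fusion system in defining characteristic, conclusion.
-/

namespace Cfsg.Agent.HL.DC

open Cfsg Cfsg.Agent.HL.FusCrit Matrix

universe u v

namespace Un

variable {K : Type v} [Field K] [Fintype K] {q n : ℕ} (hK : Fintype.card K = q ^ 2)

local notation "hh" => Cfsg.hermForm n K q

/-- all diagonal values -/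
theorem exists_t {V : Type v} [AddCommGroup V] [Module K V] {Γ : Type u} [Group Γ] [Finite Γ] {D : Geo K V Γ} {g : Γ} (hg : g ∈ BF D.ρ D.W) :
    ∃ t : ℕ → K, ∀ k < D.n, D.ρ g (D.b k) - t k • D.b k ∈ D.W k := by
  have h : ∀ k, ∃ t : K, k < D.n → D.ρ g (D.b k) - t • D.b k ∈ D.W k := by
    intro k
    by_cases hk : k < D.n
    · obtain ⟨t, ht⟩ := Geo.W_step hk (hg (k + 1) _ (Geo.b_mem hk (by omega)))
      exact ⟨t, fun _ => ht⟩
    · exact ⟨0, fun h => absurd h hk⟩
  choose t ht using h
  exact ⟨t, fun k hk => ht k hk⟩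

theorem t_unique {V : Type v} [AddCommGroup V] [Module K V] {Γ : Type u} [Group Γ] [Finite Γ] {D : Geo K V Γ} {x : V} {k : ℕ} (hk : k < D.n)
    {s t : K} (hs : x - s • D.b k ∈ D.W k) (ht : x - t • D.b k ∈ D.W k) : s = t := by
  have h1 := (D.W k).sub_mem ht hs
  have e1 : x - t • D.b k - (x - s • D.b k) = (s - t) • D.b k := by module
  rw [e1] at h1
  have h2 := h1 (D.n - 1 - k) (by omega)
  rw [D.smulr] at h2
  exact sub_eq_zero.1 ((mul_eq_zero.1 h2).resolve_right (Geo.b_ne' (by omega)))

theorem hM (hn4 : 4 ≤ n) {m : ℕ} {E G : Matrix (Fin n) (Fin m) K} (F : Fr hK E G) : Geo.HM (geo hK hn4 F) := by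
  intro hodd g hg h
  obtain ⟨t, ht⟩ := exists_t hg
  obtain ⟨D, hD⟩ : ∃ D, D = geo hK hn4 F := ⟨_, rfl⟩
  have hdl := fun (t : ℕ → K) (s : ℕ → K) (S : Matrix (Fin n) (Fin n) K) => det_lem hK hn4 F hg (t := t) (s := s) (S := S)
  rw [← hD] at hodd hg h ht hdl ⊢
  have hDn : D.n = n := by rw [hD]; rfl
  have hDB : ∀ x y, D.B x y = hh y x := by rw [hD]; intro x y; rfl
  have hDσ : ∀ a, D.σ a = a ^ q := by rw [hD]; intro a; exact H5.Fld.frob_apply hK a
  have h2 := D.two_le
  have hmm : D.B (D.b D.m) (D.b D.m) = 1 := by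
    rw [hDB]
    have := F.form hK (i := D.m) (j := D.m) (by omega) (by omega)
    rw [if_pos (by omega)] at this
    rw [hD] at this ⊢
    exact this
  have ht1 : ∀ k < D.n, k ≠ D.m → t k = 1 := by
    intro k hk hkm
    by_cases hk2 : k < D.m
    · exact t_unique hk (ht k hk) (by rw [one_smul]; exact h k hk2)
    · have h3 := Geo.pair_t hg (i := D.n - 1 - k) (k := k) (by omega) (ht _ (by omega)) (ht k hk)
      have h4 : t (D.n - 1 - k) = 1 := t_unique (by omega) (ht _ (by omega)) (by rw [one_smul]; exact h _ (by omega))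
      rw [h4, map_one, one_mul] at h3
      exact h3
  have htm : t D.m ≠ 0 := Geo.t_ne hg (by omega) (ht D.m (by omega))
  have hdet := hdl t (fun k => if k = D.m then (t D.m)⁻¹ else 1) (Cfsg.unitaryTransvection n q (D.b D.m) ((t D.m)⁻¹ - 1)) (by
      intro k hk; exact ht k (by omega)) (by
      intro k hk
      show _ = (if k = D.m then (t D.m)⁻¹ else 1) • D.b k
      rw [H5.Unit.T_mulVec, ← hDB]
      by_cases hkm : k = D.m
      · rw [if_pos hkm, hkm, hmm]; module
      · rw [if_neg hkm, D.b_zero D.m (by omega) k (by omega) (by omega)]; module) (by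
      intro k hk
      show (if k = D.m then (t D.m)⁻¹ else 1) * t k = 1
      by_cases hkm : k = D.m
      · rw [if_pos hkm, hkm, inv_mul_cancel₀ htm]
      · rw [if_neg hkm, one_mul, ht1 k (by omega) hkm])
  rw [H15.UGen.det_R, ← hDB, hmm, mul_one, add_sub_cancel] at hdet
  have h3 : t D.m = 1 := inv_eq_one.1 hdet
  have h4 := ht D.m (by omega)
  rw [h3, one_smul] at h4
  exact h4

theorem hL (hn4 : 4 ≤ n) {m : ℕ} {E G : Matrix (Fin n) (Fin m) K} (F : Fr hK E G) : Geo.HLc (geo hK hn4 F) := by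
  intro g hg h t0 ht0
  obtain ⟨t, ht⟩ := exists_t hg
  have hdl := fun (t : ℕ → K) (s : ℕ → K) (S : Matrix (Fin n) (Fin n) K) => det_lem hK hn4 F hg (t := t) (s := s) (S := S)
  have hform0 : ∀ i < n, ∀ j < n, hh (bb E G j) (bb E G i) = if i + j + 1 = n then 1 else 0 := fun i hi j hj => F.form hK hi hj
  obtain ⟨D, hD⟩ : ∃ D, D = geo hK hn4 F := ⟨_, rfl⟩
  have hDn : D.n = n := by rw [hD]; rfl
  have hDb : ∀ i, D.b i = bb E G i := by rw [hD]; intro i; rfl
  rw [← hD] at hg h ht ht0 hdl ⊢
  have hDB : ∀ x y, D.B x y = hh y x := by rw [hD]; intro x y; rfl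
  have hDσ : ∀ a, D.σ a = a ^ q := by rw [hD]; intro a; exact H5.Fld.frob_apply hK a
  have hDε : D.ε = 1 := by rw [hD]; rfl
  have hform : ∀ i < n, ∀ j < n, D.B (D.b i) (D.b j) = if i + j + 1 = n then 1 else 0 := by
    intro i hi j hj; rw [hDB, hDb, hDb]; exact hform0 i hi j hj
  have h2 := D.two_le
  have hnn := D.hn
  have htt0 : t (D.m - 1) = t0 := t_unique (by omega) (ht _ (by omega)) ht0
  obtain ⟨e, he⟩ : ∃ e, e = D.b (D.m - 1) := ⟨_, rfl⟩
  obtain ⟨f, hf⟩ : ∃ f, f = D.b (D.n - D.m) := ⟨_, rfl⟩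
  have hee : D.B e e = 0 := by rw [he, hform _ (by omega) _ (by omega), if_neg (by omega)]
  have hff : D.B f f = 0 := by rw [hf, hform _ (by omega) _ (by omega), if_neg (by omega)]
  have hef : D.B e f = 1 := by rw [he, hf, hform _ (by omega) _ (by omega), if_pos (by omega)]
  have hfe : D.B f e = 1 := by rw [he, hf, hform _ (by omega) _ (by omega), if_pos (by omega)]
  have hie : ∀ i < D.m - 1, D.B (D.b i) e = 0 := by intro i hi; rw [he, hform _ (by omega) _ (by omega), if_neg (by omega)]
  have hif : ∀ i < D.m - 1, D.B (D.b i) f = 0 := by intro i hi; rw [hf, hform _ (by omega) _ (by omega), if_neg (by omega)]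
  rw [← he, ← hf]
  rcases hnn with hn | hn
  · -- even dimension: `t0` is fixed
    have ht00 : t0 ≠ 0 := Geo.t_ne hg (by omega) ht0
    have hpair := Geo.pair_t hg (i := D.m - 1) (k := D.m) (by omega) (ht _ (by omega)) (ht _ (by omega))
    rw [htt0, hDσ] at hpair
    have ht1 : ∀ k < D.n, k ≠ D.m → k ≠ D.m - 1 → t k = 1 := by
      intro k hk hkm hkm'
      by_cases hk2 : k < D.m
      · exact t_unique hk (ht k hk) (by rw [one_smul]; exact h k (by omega))
      · have h3 := Geo.pair_t hg (i := D.n - 1 - k) (k := k) (by omega) (ht _ (by omega)) (ht k hk)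
        have h4 : t (D.n - 1 - k) = 1 := t_unique (by omega) (ht _ (by omega)) (by rw [one_smul]; exact h _ (by omega))
        rw [h4, map_one, one_mul] at h3
        exact h3
    have hf' : f = D.b D.m := by rw [hf]; congr 1; omega
    obtain ⟨S, hSd, hS⟩ := H5.SUpar.exists_dil hK (e := e) (f := f) (l := t0⁻¹) (m := t0 ^ q) (by rw [← hDB]; exact hee)
      (by rw [← hDB]; exact hff) (by rw [← hDB]; exact hfe) (by rw [← mul_pow, mul_inv_cancel₀ ht00, one_pow])
    have hdet := hdl t (fun k => if k = D.m - 1 then t0⁻¹ else if k = D.m then t0 ^ q else 1) (S.1 : Matrix (Fin n) (Fin n) K) (by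
        intro k hk; exact ht k (by omega)) (by
        intro k hk
        show _ = (if k = D.m - 1 then t0⁻¹ else if k = D.m then t0 ^ q else 1) • D.b k
        rw [hS, ← hDB, ← hDB]
        by_cases hk1 : k = D.m - 1
        · rw [if_pos hk1, hk1, ← he, hfe, hee]; module
        · rw [if_neg hk1]
          by_cases hk2 : k = D.m
          · rw [if_pos hk2, hk2, ← hf', hff, hef]; module
          · rw [if_neg hk2]
            have q1 : D.B f (D.b k) = 0 := by rw [hf', hform _ (by omega) _ (by omega), if_neg (by omega)]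
            have q2 : D.B e (D.b k) = 0 := by rw [he, hform _ (by omega) _ (by omega), if_neg (by omega)]
            rw [q1, q2]; module) (by
        intro k hk
        show (if k = D.m - 1 then t0⁻¹ else if k = D.m then t0 ^ q else 1) * t k = 1
        by_cases hk1 : k = D.m - 1
        · rw [if_pos hk1, hk1, htt0, inv_mul_cancel₀ ht00]
        · rw [if_neg hk1]
          by_cases hk2 : k = D.m
          · rw [if_pos hk2, hk2]; exact hpair
          · rw [if_neg hk2, one_mul, ht1 k (by omega) hk2 hk1])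
    rw [hSd] at hdet
    have hfix : t0 ^ q = t0 := by
      have := congrArg (fun z => t0 * z) hdet
      simp only [mul_one] at this
      rw [← mul_assoc, mul_inv_cancel₀ ht00, one_mul] at this
      exact this
    obtain ⟨μ, hμ, hμ'⟩ := D.a0
    rw [hDε, one_mul] at hμ'
    refine ⟨e + μ • f, t0 • e + μ • f, ?_, ?_, ?_, ?_, ?_, ?_, fun i hi => ⟨?_, ?_⟩⟩
    · rw [D.addl, D.addr, D.addr, D.smulr, D.smulr, D.smull, D.smull, hee, hff, hef, hfe]; linear_combination hμ'
    · simp only [D.addl, D.addr, D.smulr, D.smull, hee, hff, hef, hfe, hDσ t0, hfix]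
      linear_combination t0 * hμ'
    · rw [D.addr, D.addr, D.smulr, D.smulr, hee, hef]; ring
    · rw [D.addr, D.smulr, hee, hef]; simpa using hμ
    · rw [D.addr, D.smulr, hff, hfe]; ring
    · rw [D.addr, D.smulr, D.smulr, hff, hfe]; ring
    · rw [D.addr, D.smulr, hie i hi, hif i hi]; ring
    · rw [D.addr, D.smulr, D.smulr, hie i hi, hif i hi]; ring
  · obtain ⟨z, hz⟩ : ∃ z, z = D.b D.m := ⟨_, rfl⟩
    have hzz : D.B z z = 1 := by rw [hz, hform _ (by omega) _ (by omega), if_pos (by omega)]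
    have hez : D.B e z = 0 := by rw [he, hz, hform _ (by omega) _ (by omega), if_neg (by omega)]
    have hfz : D.B f z = 0 := by rw [hf, hz, hform _ (by omega) _ (by omega), if_neg (by omega)]
    have hze : D.B z e = 0 := D.swap_zero hez
    have hzf : D.B z f = 0 := D.swap_zero hfz
    have hiz : ∀ i < D.m - 1, D.B (D.b i) z = 0 := by intro i hi; rw [hz, hform _ (by omega) _ (by omega), if_neg (by omega)]
    obtain ⟨d, hd⟩ := H5.USim.nm_surj hK (-2 : K) (by
      have h3 := H5.USim.pneg hK (2 : K)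
      rw [h3]
      have : (2 : K) = 1 + 1 := by norm_num
      rw [this, H5.USim.padd hK, one_pow])
    obtain ⟨d', hd'⟩ := H5.USim.nm_surj hK (-(t0 + t0 ^ q)) (by
      rw [H5.USim.pneg hK, H5.USim.padd hK, H5.USim.pp hK, add_comm])
    refine ⟨e + d • z + f, t0 • e + d' • z + f, ?_, ?_, ?_, ?_, ?_, ?_, fun i hi => ⟨?_, ?_⟩⟩
    · simp only [D.addl, D.addr, D.smulr, D.smull, hee, hff, hef, hfe, hzz, hez, hfz, hze, hzf, hDσ]
      linear_combination hd
    · simp only [D.addl, D.addr, D.smulr, D.smull, hee, hff, hef, hfe, hzz, hez, hfz, hze, hzf, hDσ]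
      linear_combination hd'
    · simp only [D.addr, D.smulr, hee, hef, hez]; ring
    · simp only [D.addr, D.smulr, hee, hef, hez]; simp
    · simp only [D.addr, D.smulr, hff, hfe, hfz]; ring
    · simp only [D.addr, D.smulr, hff, hfe, hfz]; ring
    · simp only [D.addr, D.smulr, hie i hi, hif i hi, hiz i hi]; ring
    · simp only [D.addr, D.smulr, hie i hi, hif i hi, hiz i hi]; ring

include hK in
theorem s5172 (p : ℕ) [Fact p.Prime] [CharP K p] (hn : 4 ≤ n) (S : Sylow p (Cfsg.PSU n K q)) :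
    (Cfsg.groupFusionSystem (S : Subgroup (Cfsg.PSU n K q))).IsSimple p := by
  obtain ⟨E, G, hyp, hz⟩ := H15.WtSU.exists_Hyp (m := n / 2) (n := n) hK (by omega)
  have F : Fr hK E G := ⟨hyp, hz, by omega⟩
  refine Geo.simple (D := geo hK hn F) p ?_ (hM hK hn F) (hL hK hn F) (QuotientGroup.mk' (Subgroup.center (Cfsg.SU n K q)))
    (QuotientGroup.mk'_surjective _) ?_ S
  · left
    by_contra hcon
    push Not at hcon
    apply H5.Fld.frob_ne_id hK
    ext z
    have := hcon z
    rw [show (geo hK hn F).ε = 1 from rfl, one_mul] at this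
    exact this
  · rw [QuotientGroup.ker_mk']

end Un

end Cfsg.Agent.HL.DC
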