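import Cfsg.Statements.S2579
import Cfsg.Agent.H19_Trv

set_option autoImplicit false
open Cfsg

namespace Cfsg.Agent.S2579

open Module
theorem pair_of {F : Type*} [Field F] {n : ℕ} (s : Matrix (Fin n) (Fin n) F) (hs : Cfsg.IsTransvection s) :
    ∃ (a : Fin n → F) (φ : (Fin n → F) →ₗ[F] F), a ≠ 0 ∧ φ ≠ 0 ∧ φ a = 0 ∧ ∀ x, s.mulVec x = x + φ x • a := by
  obtain ⟨a, φ, h1, h2, h3, h4⟩ := H19.Trv.exists_pair (Matrix.mulVecLin (s - 1) : Module.End F (Fin n → F)) hs.1 (by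
    have := congrArg (Matrix.toLinAlgEquiv' : Matrix (Fin n) (Fin n) F ≃ₐ[F] _) hs.2
    rw [map_mul, map_zero] at this
    exact this)
  refine ⟨a, φ, h1, h2, h3, fun x => ?_⟩
  have h5 : (s - 1).mulVec x = φ x • a := h4 x
  rw [Matrix.sub_mulVec, Matrix.one_mulVec] at h5
  rw [← h5]; abel

/-- In SL_n(F) with n ≥ 3, over a finite field F, any two transvections (matrices t with t − 1 of rank one and square zero) are conjugate by an element of SL_n(F). -/
theorem result {F : Type*} [Field F] [Finite F] {n : ℕ} (hn : 3 ≤ n) (s t : Matrix.SpecialLinearGroup (Fin n) F) (hs : Cfsg.IsTransvection (s : Matrix (Fin n) (Fin n) F)) (ht : Cfsg.IsTransvection (t : Matrix (Fin n) (Fin n) F)) : IsConj s t := by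
  classical
  obtain ⟨m, rfl⟩ : ∃ m, n = m + 3 := ⟨n - 3, by omega⟩
  obtain ⟨a, φ, h1, h2, h3, h4⟩ := pair_of _ hs
  obtain ⟨a', φ', h1', h2', h3', h4'⟩ := pair_of _ ht
  obtain ⟨g, hdet, hga, hgφ⟩ := H19.Trv.transitive_sl (m := m) (by simp) h1 h2 h3 h1' h2' h3'
  obtain ⟨M, hM⟩ : ∃ M : Matrix (Fin (m + 3)) (Fin (m + 3)) F, M = LinearMap.toMatrix' g.toLinearMap := ⟨_, rfl⟩
  have hMv : ∀ x, M.mulVec x = g x := by
    intro x
    rw [hM, LinearMap.toMatrix'_mulVec]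
    rfl
  have hMdet : M.det = 1 := by
    rw [hM, LinearMap.det_toMatrix', ← LinearEquiv.coe_det, hdet, Units.val_one]
  let c : Matrix.SpecialLinearGroup (Fin (m + 3)) F := ⟨M, hMdet⟩
  rw [isConj_iff]
  refine ⟨c, ?_⟩
  rw [mul_inv_eq_iff_eq_mul]
  apply Subtype.ext
  show M * (s : Matrix _ _ F) = (t : Matrix _ _ F) * M
  apply Matrix.ext_of_mulVec_single
  intro i
  rw [← Matrix.mulVec_mulVec, ← Matrix.mulVec_mulVec, h4, h4', hMv, hMv, map_add, map_smul, hga, hgφ]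

end Cfsg.Agent.S2579
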