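import Mathlib
import Cfsg.Agent.HL_DC2
import Cfsg.Agent.H5_SL
import Cfsg.Agent.H5_GL
import Cfsg.Agent.S2579
import Cfsg.Agent.H2_PGroup

set_option autoImplicit false
set_option linter.unusedSectionVars false
set_option linter.unusedVariables false

/-!
`PSL_n(q)`, `n ≥ 3`: simplicity of the fusion system in the defining characteristic.
-/

namespace Cfsg.Agent.HL.DC

open Cfsg Cfsg.Agent.HL.FusCrit Matrix Matrix.SpecialLinearGroup

namespace SLn

universe v
variable {F : Type v} [Field F] [Fintype F] {n : ℕ}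

local notation "G" => SpecialLinearGroup (Fin n) F

/-- the natural representation -/
def rep (n : ℕ) (F : Type v) [Field F] : SpecialLinearGroup (Fin n) F →* ((Fin n → F) →ₗ[F] (Fin n → F)) where
  toFun g := Matrix.mulVecLin (g : Matrix (Fin n) (Fin n) F)
  map_one' := by ext; simp
  map_mul' a b := by
    apply LinearMap.ext; intro v
    simp [Matrix.mulVec_mulVec, Module.End.mul_apply]

theorem rep_apply (g : G) (v : Fin n → F) : rep n F g v = (g : Matrix (Fin n) (Fin n) F) *ᵥ v := rfl

theorem rep_inj : Function.Injective (rep n F) := by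
  intro a b h
  apply Subtype.ext
  apply Matrix.ext_of_mulVec_single
  intro i
  exact LinearMap.congr_fun h _

/-- the standard flag -/
def W (n : ℕ) (F : Type v) [Field F] (k : ℕ) : Submodule F (Fin n → F) where
  carrier := {v | ∀ i : Fin n, k ≤ i → v i = 0}
  add_mem' ha hb i hi := by rw [Pi.add_apply, ha i hi, hb i hi, add_zero]
  zero_mem' i _ := rfl
  smul_mem' c v hv i hi := by rw [Pi.smul_apply, hv i hi, smul_zero]

theorem mem_W {k : ℕ} {v : Fin n → F} : v ∈ W n F k ↔ ∀ i : Fin n, k ≤ i → v i = 0 := Iff.rfl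

theorem W_zero : W n F 0 = ⊥ := by
  rw [eq_bot_iff]
  intro v hv
  rw [Submodule.mem_bot]
  funext i
  exact hv i (Nat.zero_le _)

theorem W_top : W n F n = ⊤ := by
  rw [eq_top_iff]
  intro v _ i hi
  exact absurd i.2 (by omega)

theorem W_mono (k : ℕ) : W n F k ≤ W n F (k + 1) := fun v hv i hi => hv i (by omega)

theorem W_step (k : ℕ) : ∃ b : Fin n → F, W n F (k + 1) ≤ W n F k ⊔ F ∙ b := by
  by_cases hk : k < n
  · refine ⟨Pi.single ⟨k, hk⟩ 1, fun v hv => ?_⟩
    rw [Submodule.mem_sup]
    refine ⟨v - v ⟨k, hk⟩ • Pi.single ⟨k, hk⟩ 1, fun i hi => ?_, v ⟨k, hk⟩ • Pi.single ⟨k, hk⟩ 1,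
      Submodule.smul_mem _ _ (Submodule.mem_span_singleton_self _), by abel⟩
    by_cases hik : i = ⟨k, hk⟩
    · rw [hik]; simp
    · have h1 : k < i := by
        rcases lt_or_eq_of_le hi with h | h
        · exact h
        · exact absurd (Fin.ext h.symm) hik
      simp [hv i h1, hik]
  · refine ⟨0, fun v hv => Submodule.mem_sup_left (fun i hi => ?_)⟩
    exact absurd i.2 (by omega)

/-- upper unitriangular -/
theorem mem_UF_iff {g : G} : g ∈ UF (rep n F) (W n F) ↔ ∀ i j : Fin n, j ≤ i → (g : Matrix (Fin n) (Fin n) F) i j = (1 : Matrix (Fin n) (Fin n) F) i j := by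
  constructor
  · intro h i j hji
    have h1 := (h j).2 (Pi.single j 1) (by
      intro l hl
      have : l ≠ j := by rintro rfl; omega
      simp [this]) i (by exact_mod_cast hji)
    rw [rep_apply, Pi.sub_apply, Matrix.mulVec_single_one, sub_eq_zero] at h1
    rw [Matrix.one_apply]
    simpa [Pi.single_apply] using h1
  · intro h k
    have h2 : ∀ v ∈ W n F (k + 1), rep n F g v - v ∈ W n F k := by
      intro v hv i hi
      rw [rep_apply, Pi.sub_apply, Matrix.mulVec, dotProduct, sub_eq_zero]
      rw [Finset.sum_eq_single i]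
      · rw [h i i le_rfl, Matrix.one_apply_eq, one_mul]
      · intro j _ hj
        rcases lt_or_gt_of_ne hj with hlt | hgt
        · rw [h i j hlt.le, Matrix.one_apply_ne hj.symm, zero_mul]
        · rw [hv j (by have : (i : ℕ) < j := hgt; omega), mul_zero]
      · intro h'; exact absurd (Finset.mem_univ i) h'
    refine ⟨fun v hv => ?_, h2⟩
    have h3 := h2 v (W_mono k hv)
    have h4 := (W n F k).add_mem h3 hv
    rwa [sub_add_cancel] at h4

theorem mem_BF_iff {g : G} : g ∈ BF (rep n F) (W n F) ↔ ∀ i j : Fin n, j < i → (g : Matrix (Fin n) (Fin n) F) i j = 0 := by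
  constructor
  · intro h i j hji
    have h1 := h (j + 1) (Pi.single j 1) (by
      intro l hl
      have : l ≠ j := by rintro rfl; omega
      simp [this]) i (by have : (j : ℕ) < i := hji; omega)
    rwa [rep_apply, Matrix.mulVec_single_one] at h1
  · intro h k v hv i hi
    rw [rep_apply, Matrix.mulVec, dotProduct]
    apply Finset.sum_eq_zero
    intro j _
    by_cases hj : j < i
    · rw [h i j hj, zero_mul]
    · rw [hv j (by have : ¬ (j : ℕ) < i := hj; omega), mul_zero]

theorem tv_mem {i j : Fin n} (hij : i < j) (a : F) : transvection hij.ne a ∈ UF (rep n F) (W n F) := by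
  rw [mem_UF_iff]
  intro r c hcr
  rw [transvection_coe, Matrix.add_apply, Matrix.single_apply, if_neg, add_zero]
  rintro ⟨rfl, rfl⟩
  exact absurd hij (not_lt.2 hcr)

theorem fix (k : ℕ) (v : Fin n → F) (h : ∀ u ∈ UF (rep n F) (W n F), rep n F u v - v ∈ W n F k) : v ∈ W n F (k + 1) := by
  intro j hj
  have hk : k < n := by have := j.2; omega
  have hlt : (⟨k, hk⟩ : Fin n) < j := by rw [Fin.lt_def]; exact hj
  have h1 := h _ (tv_mem hlt 1) ⟨k, hk⟩ le_rfl
  rw [rep_apply, Pi.sub_apply, transvection_coe, Matrix.add_mulVec, Matrix.one_mulVec, Pi.add_apply, add_sub_cancel_left,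
    Matrix.mulVec, dotProduct, Finset.sum_eq_single j] at h1
  · simpa using h1
  · intro l _ hl
    rw [Matrix.single_apply, if_neg (fun h => hl h.2.symm), zero_mul]
  · intro h'; exact absurd (Finset.mem_univ j) h'

variable (p : ℕ) [Fact p.Prime] [CharP F p]

theorem pgroup : IsPGroup p (UF (rep n F) (W n F)) := isPGroup_UF rep_inj W_zero W_top

theorem normalizer_le : Subgroup.normalizer ((UF (rep n F) (W n F) : Subgroup G) : Set G) ≤ BF (rep n F) (W n F) :=
  normalizer_le_BF W_zero fix

/-- the line flag and the hyperplane flag -/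
def W1 (n : ℕ) (F : Type v) [Field F] (k : ℕ) : Submodule F (Fin n → F) := if k = 0 then ⊥ else if k = 1 then W n F 1 else ⊤
def W2 (n : ℕ) (F : Type v) [Field F] (k : ℕ) : Submodule F (Fin n → F) := if k = 0 then ⊥ else if k = 1 then W n F (n - 1) else ⊤

theorem mem_flag {W' : ℕ → Submodule F (Fin n → F)} {k : ℕ} (h : W' = fun l => if l = 0 then ⊥ else if l = 1 then W n F k else ⊤) {g : G} :
    (g ∈ BF (rep n F) W' ↔ ∀ v ∈ W n F k, rep n F g v ∈ W n F k) ∧
    (g ∈ UF (rep n F) W' ↔ (∀ v ∈ W n F k, rep n F g v = v) ∧ ∀ v, rep n F g v - v ∈ W n F k) := by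
  have e0 : W' 0 = ⊥ := by rw [h]; rfl
  have e1 : W' 1 = W n F k := by rw [h]; rfl
  have e2 : ∀ l, W' (l + 2) = ⊤ := by intro l; rw [h]; simp
  constructor
  · constructor
    · intro hg v hv
      have := hg 1 v (by rw [e1]; exact hv)
      rwa [e1] at this
    · intro hg l
      rcases l with _ | _ | l
      · rw [e0]; intro v hv
        rw [Submodule.mem_bot] at hv ⊢; rw [hv, map_zero]
      · rw [zero_add, e1]; exact hg
      · rw [e2]; intro v _; exact Submodule.mem_top
  · constructor
    · intro hg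
      constructor
      · intro v hv
        have := (hg 0).2 v (by rw [zero_add, e1]; exact hv)
        rw [e0, Submodule.mem_bot, sub_eq_zero] at this
        exact this
      · intro v
        have := (hg 1).2 v (by rw [e2]; exact Submodule.mem_top)
        rwa [e1] at this
    · rintro ⟨h1, h2⟩ l
      rcases l with _ | _ | l
      · rw [e0, zero_add, e1]
        refine ⟨fun v hv => by rw [Submodule.mem_bot] at hv ⊢; rw [hv, map_zero], fun v hv => ?_⟩
        rw [h1 v hv, sub_self]; exact Submodule.zero_mem _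
      · rw [zero_add, e1, e2]
        exact ⟨fun v hv => by rw [h1 v hv]; exact hv, fun v _ => h2 v⟩
      · rw [e2]
        exact ⟨fun v _ => Submodule.mem_top, fun v _ => Submodule.mem_top⟩

/-- the radical of a maximal parabolic -/
def Wk (n : ℕ) (F : Type v) [Field F] (k l : ℕ) : Submodule F (Fin n → F) := if l = 0 then ⊥ else if l = 1 then W n F k else ⊤

theorem mem_Bk {k : ℕ} {g : G} : g ∈ BF (rep n F) (Wk n F k) ↔ ∀ v ∈ W n F k, rep n F g v ∈ W n F k := (mem_flag (k := k) rfl).1
theorem mem_Uk {k : ℕ} {g : G} : g ∈ UF (rep n F) (Wk n F k) ↔ (∀ v ∈ W n F k, rep n F g v = v) ∧ ∀ v, rep n F g v - v ∈ W n F k := (mem_flag (k := k) rfl).2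

theorem W_le {k l : ℕ} (h : k ≤ l) : W n F k ≤ W n F l := fun v hv i hi => hv i (h.trans hi)

theorem Uk_le (k : ℕ) : UF (rep n F) (Wk n F k) ≤ (UF (rep n F) (W n F) : Subgroup G) := by
  intro g hg
  rw [mem_Uk] at hg
  have h2 : ∀ l, ∀ v ∈ W n F (l + 1), rep n F g v - v ∈ W n F l := by
    intro l v hv
    by_cases hl : l + 1 ≤ k
    · rw [hg.1 v (W_le hl hv), sub_self]; exact Submodule.zero_mem _
    · exact W_le (by omega) (hg.2 v)
  intro l
  refine ⟨fun v hv => ?_, h2 l⟩
  have h3 := h2 l v (W_mono l hv)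
  have h4 := (W n F l).add_mem h3 hv
  rwa [sub_add_cancel] at h4

theorem le_Bk (k : ℕ) : UF (rep n F) (W n F) ≤ (BF (rep n F) (Wk n F k) : Subgroup G) := by
  intro g hg
  rw [mem_Bk]
  exact (hg k).1

theorem rep_tv {i j : Fin n} (hij : i ≠ j) (a : F) (v : Fin n → F) : rep n F (transvection hij a) v = v + (a * v j) • Pi.single i 1 := by
  rw [rep_apply, transvection_coe, Matrix.add_mulVec, Matrix.one_mulVec]
  congr 1
  funext r
  rw [Matrix.mulVec, dotProduct, Finset.sum_eq_single j]
  · rw [Matrix.single_apply]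
    by_cases hr : i = r
    · subst hr; simp
    · rw [if_neg (by tauto)]; simp [Ne.symm hr]
  · intro l _ hl
    rw [Matrix.single_apply, if_neg (fun h => hl h.2.symm), zero_mul]
  · intro h'; exact absurd (Finset.mem_univ j) h'

theorem tv_mem_Uk {k : ℕ} {i j : Fin n} (hij : i ≠ j) (hi : (i : ℕ) < k) (hj : k ≤ j) (a : F) :
    transvection hij a ∈ UF (rep n F) (Wk n F k) := by
  rw [mem_Uk]
  constructor
  · intro v hv
    rw [rep_tv, hv j hj, mul_zero, zero_smul, add_zero]
  · intro v
    rw [rep_tv, add_sub_cancel_left]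
    apply Submodule.smul_mem
    intro l hl
    have : l ≠ i := by rintro rfl; omega
    simp [this]

theorem tv_mem_Bk {k : ℕ} {i j : Fin n} (hij : i ≠ j) (h : (i : ℕ) < k ∨ k ≤ j) (a : F) : transvection hij a ∈ BF (rep n F) (Wk n F k) := by
  rw [mem_Bk]
  intro v hv
  rw [rep_tv]
  rcases h with h | h
  · apply Submodule.add_mem _ hv
    apply Submodule.smul_mem
    intro l hl
    have : l ≠ i := by rintro rfl; omega
    simp [this]
  · rw [hv j h, mul_zero, zero_smul, add_zero]; exact hv

/-- commuting with a transvection -/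
theorem comm_entry {g : G} {i j : Fin n} (hij : i ≠ j) (h : transvection hij 1 * g = g * transvection hij 1) (r c : Fin n) :
    (if r = i then (g : Matrix (Fin n) (Fin n) F) j c else 0) = if c = j then (g : Matrix (Fin n) (Fin n) F) r i else 0 := by
  have h1 : (1 + Matrix.single i j (1 : F)) * (g : Matrix (Fin n) (Fin n) F) = (g : Matrix (Fin n) (Fin n) F) * (1 + Matrix.single i j (1 : F)) :=
    congrArg Subtype.val h
  rw [add_mul, mul_add, one_mul, mul_one, add_right_inj] at h1
  have h2 := congrFun (congrFun h1 r) c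
  rw [Matrix.mul_apply, Matrix.mul_apply, Finset.sum_eq_single j, Finset.sum_eq_single i] at h2
  · simp only [Matrix.single_apply] at h2
    by_cases hr : r = i
    · by_cases hc : c = j
      · simpa [hr, hc] using h2
      · simp only [hr, true_and, and_true, if_true, one_mul, Ne.symm hc, if_false, mul_zero] at h2
        simp only [hr, if_true, hc, if_false]; exact h2
    · by_cases hc : c = j
      · simp only [Ne.symm hr, false_and, if_false, zero_mul, hc, and_self, if_true, mul_one] at h2
        simp only [hr, if_false, hc, if_true]; exact h2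
      · simp [hr, hc]
  · intro l _ hl; rw [Matrix.single_apply, if_neg (fun h => hl h.1.symm), mul_zero]
  · intro h'; exact absurd (Finset.mem_univ i) h'
  · intro l _ hl; rw [Matrix.single_apply, if_neg (fun h => hl h.2.symm), zero_mul]
  · intro h'; exact absurd (Finset.mem_univ j) h'

theorem cent1 (hn : 3 ≤ n) : UF (rep n F) (W n F) ⊓ Subgroup.centralizer ((UF (rep n F) (Wk n F 1) : Subgroup G) : Set G) ≤ UF (rep n F) (Wk n F 1) := by
  rintro g ⟨hg, hc⟩
  have hg' := mem_UF_iff.1 hg
  have h0 : 0 < n := by omega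
  have key : ∀ i : Fin n, 1 ≤ (i : ℕ) → ∀ c, (g : Matrix (Fin n) (Fin n) F) i c = (1 : Matrix (Fin n) (Fin n) F) i c := by
    intro i hi c
    have hne : (⟨0, h0⟩ : Fin n) ≠ i := by rintro rfl; simp at hi
    have h1 := Subgroup.mem_centralizer_iff.1 hc _ (tv_mem_Uk hne (by simp) hi 1)
    have h2 := comm_entry hne h1 ⟨0, h0⟩ c
    rw [if_pos rfl, hg' ⟨0, h0⟩ ⟨0, h0⟩ le_rfl, Matrix.one_apply_eq] at h2
    rw [h2, Matrix.one_apply]
    by_cases h3 : c = i
    · rw [if_pos h3, if_pos h3.symm]
    · rw [if_neg h3, if_neg (Ne.symm h3)]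
  rw [mem_Uk]
  constructor
  · intro v hv
    have := (hg 0).2 v hv
    rw [W_zero, Submodule.mem_bot, sub_eq_zero] at this
    exact this
  · intro v i hi
    rw [rep_apply, Pi.sub_apply, Matrix.mulVec, dotProduct, sub_eq_zero]
    have : ∀ c, (g : Matrix (Fin n) (Fin n) F) i c * v c = (1 : Matrix (Fin n) (Fin n) F) i c * v c := fun c => by rw [key i hi c]
    rw [Finset.sum_congr rfl (fun c _ => this c)]
    have h4 := congrFun (Matrix.one_mulVec v) i
    exact h4

theorem cent2 (hn : 3 ≤ n) : UF (rep n F) (W n F) ⊓ Subgroup.centralizer ((UF (rep n F) (Wk n F (n - 1)) : Subgroup G) : Set G) ≤ UF (rep n F) (Wk n F (n - 1)) := by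
  rintro g ⟨hg, hc⟩
  have hg' := mem_UF_iff.1 hg
  have h0 : n - 1 < n := by omega
  have key : ∀ j : Fin n, (j : ℕ) < n - 1 → ∀ r, (g : Matrix (Fin n) (Fin n) F) r j = (1 : Matrix (Fin n) (Fin n) F) r j := by
    intro j hj r
    have hne : j ≠ (⟨n - 1, h0⟩ : Fin n) := by rintro rfl; simp at hj
    have h1 := Subgroup.mem_centralizer_iff.1 hc _ (tv_mem_Uk hne hj le_rfl 1)
    have h2 := comm_entry hne h1 r ⟨n - 1, h0⟩
    rw [if_pos rfl, hg' ⟨n - 1, h0⟩ ⟨n - 1, h0⟩ le_rfl, Matrix.one_apply_eq] at h2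
    rw [← h2, Matrix.one_apply]
  rw [mem_Uk]
  constructor
  · intro v hv
    funext r
    rw [rep_apply, Matrix.mulVec, dotProduct]
    have h4 := congrFun (Matrix.one_mulVec v) r
    rw [← h4, Matrix.mulVec, dotProduct]
    apply Finset.sum_congr rfl
    intro j _
    by_cases hj : (j : ℕ) < n - 1
    · rw [key j hj]
    · rw [hv j (by omega), mul_zero, mul_zero]
  · intro v
    have := (hg (n - 1)).2 v (by rw [show n - 1 + 1 = n by omega, W_top]; exact Submodule.mem_top)
    exact this

theorem tv_pow {i j : Fin n} (hij : i ≠ j) (a : F) : (transvection hij a : G) ^ p ^ 1 = 1 := by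
  have h : ∀ k : ℕ, (transvection hij a : G) ^ k = transvection hij (k * a) := by
    intro k
    induction k with
    | zero => rw [pow_zero, Nat.cast_zero, zero_mul, transvection_coeff_zero]
    | succ k ih => rw [pow_succ, ih, ← transvection_add, Nat.cast_succ, add_mul, one_mul]
  rw [pow_one, h, CharP.cast_eq_zero, zero_mul, transvection_coeff_zero]

theorem diag_mem_closure {k : ℕ} {i j : Fin n} (hij : i ≠ j) (h1 : (i : ℕ) < k ∨ k ≤ j) (h2 : (j : ℕ) < k ∨ k ≤ i) (a : F) (ha : a ≠ 0) :
    diag2n hij a ha ∈ Subgroup.closure {x : G | x ∈ BF (rep n F) (Wk n F k) ∧ ∃ k : ℕ, x ^ p ^ k = 1} := by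
  rw [H5.SL.diag2n_eq hij a ha]
  have t1 : ∀ b : F, transvection hij b ∈ Subgroup.closure {x : G | x ∈ BF (rep n F) (Wk n F k) ∧ ∃ k : ℕ, x ^ p ^ k = 1} :=
    fun b => Subgroup.subset_closure ⟨tv_mem_Bk hij h1 b, 1, tv_pow p hij b⟩
  have t2 : ∀ b : F, transvection hij.symm b ∈ Subgroup.closure {x : G | x ∈ BF (rep n F) (Wk n F k) ∧ ∃ k : ℕ, x ^ p ^ k = 1} :=
    fun b => Subgroup.subset_closure ⟨tv_mem_Bk hij.symm h2 b, 1, tv_pow p hij.symm b⟩
  exact mul_mem (mul_mem (mul_mem (t1 _) (t2 _)) (t1 _)) (mul_mem (mul_mem (t1 _) (t2 _)) (t1 _))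

theorem diag_BF {i j : Fin n} (hij : i ≠ j) (a : F) (ha : a ≠ 0) : diag2n hij a ha ∈ BF (rep n F) (W n F) := by
  rw [mem_BF_iff]
  intro r c hcr
  rw [diag2n_coe, Matrix.diagonal_apply_ne _ hcr.ne']

theorem diag_acc (hn : 3 ≤ n) {i j : Fin n} (hij : i ≠ j) (h : (i : ℕ) + 1 = j) (a : F) (ha : a ≠ 0) :
    diag2n hij a ha ∈ Acc p (UF (rep n F) (W n F) : Subgroup G) := by
  have hN := BF_le_normalizer (ρ := rep n F) (diag_BF hij a ha)
  by_cases hi : (i : ℕ) = 0
  · exact acc_of (W' := Wk n F (n - 1)) (Uk_le _) (le_Bk _) (cent2 hn) hN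
      (diag_mem_closure p hij (Or.inl (by omega)) (Or.inl (by omega)) a ha)
  · exact acc_of (W' := Wk n F 1) (Uk_le _) (le_Bk _) (cent1 hn) hN
      (diag_mem_closure p hij (Or.inr (by omega)) (Or.inr (by omega)) a ha)

theorem gen (hn : 3 ≤ n) : Subgroup.normalizer ((UF (rep n F) (W n F) : Subgroup G) : Set G) ≤ Subgroup.closure (Acc p (UF (rep n F) (W n F) : Subgroup G)) := by
  intro g hg
  have hgB := normalizer_le hg
  clear hg
  have key : ∀ m : ℕ, ∀ g : G, g ∈ BF (rep n F) (W n F) → (∀ i : Fin n, m < i → (g : Matrix (Fin n) (Fin n) F) i i = 1) →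
      g ∈ Subgroup.closure (Acc p (UF (rep n F) (W n F) : Subgroup G)) := by
    intro m
    induction m with
    | zero =>
      intro g hg hd
      apply Subgroup.subset_closure
      refine Or.inl (Or.inl ?_)
      have hgu := mem_BF_iff.1 hg
      have h0 : 0 < n := by omega
      have hdet : ∏ i, (g : Matrix (Fin n) (Fin n) F) i i = 1 := by
        rw [← Matrix.det_of_isUpperTriangular (M := (g : Matrix (Fin n) (Fin n) F)) (fun i j hij => hgu i j hij)]
        exact g.2
      rw [Finset.prod_eq_single (⟨0, h0⟩ : Fin n)] at hdet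
      · rw [SetLike.mem_coe, mem_UF_iff]
        intro i j hji
        rcases hji.lt_or_eq with h | rfl
        · rw [hgu i j h, Matrix.one_apply_ne h.ne']
        · rw [Matrix.one_apply_eq]
          by_cases hj : (j : ℕ) = 0
          · have : j = ⟨0, h0⟩ := Fin.ext hj
            rw [this]; exact hdet
          · exact hd j (by omega)
      · intro i _ hi
        apply hd
        have : (i : ℕ) ≠ 0 := fun h => hi (Fin.ext h)
        omega
      · intro h'; exact absurd (Finset.mem_univ _) h'
    | succ m ih =>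
      intro g hg hd
      by_cases hm : m + 1 < n
      · have hij : (⟨m, by omega⟩ : Fin n) ≠ ⟨m + 1, hm⟩ := by
          intro h; have := congrArg Fin.val h; simp at this
        have hgu := mem_BF_iff.1 hg
        obtain ⟨a, ha⟩ : ∃ a, a = (g : Matrix (Fin n) (Fin n) F) ⟨m + 1, hm⟩ ⟨m + 1, hm⟩ := ⟨_, rfl⟩
        have ha0 : a ≠ 0 := by
          intro h0
          have hdet : ∏ i, (g : Matrix (Fin n) (Fin n) F) i i = 1 := by
            rw [← Matrix.det_of_isUpperTriangular (M := (g : Matrix (Fin n) (Fin n) F)) (fun i j hij => hgu i j hij)]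
            exact g.2
          rw [Finset.prod_eq_zero (Finset.mem_univ (⟨m + 1, hm⟩ : Fin n)) (by rw [← ha, h0])] at hdet
          exact zero_ne_one hdet
        have h1 : diag2n hij a ha0 * g ∈ Subgroup.closure (Acc p (UF (rep n F) (W n F) : Subgroup G)) := by
          refine ih _ (mul_mem (diag_BF hij a ha0) hg) (fun i hi => ?_)
          show (((diag2n hij a ha0 : G) : Matrix (Fin n) (Fin n) F) * (g : Matrix (Fin n) (Fin n) F)) i i = 1
          rw [diag2n_coe, Matrix.diagonal_mul]
          have hne1 : i ≠ ⟨m, by omega⟩ := fun h => by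
            have h' : (i : ℕ) = m := congrArg Fin.val h
            omega
          rw [if_neg hne1]
          by_cases h2 : i = ⟨m + 1, hm⟩
          · rw [if_pos h2, h2, ← ha, inv_mul_cancel₀ ha0]
          · rw [if_neg h2, one_mul]
            apply hd
            have : (i : ℕ) ≠ m + 1 := fun h => h2 (Fin.ext h)
            omega
        have h2 : diag2n hij a ha0 ∈ Subgroup.closure (Acc p (UF (rep n F) (W n F) : Subgroup G)) :=
          Subgroup.subset_closure (diag_acc p hn hij rfl a ha0)
        have h3 := mul_mem (inv_mem h2) h1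
        rwa [inv_mul_cancel_left] at h3
      · exact ih g hg (fun i hi => absurd i.2 (by omega))
  exact key n g hgB (fun i hi => absurd i.2 (by omega))

/-- rank one square zero -/
theorem isTransvection_of {x : G} {w f : Fin n → F} (h : (x : Matrix (Fin n) (Fin n) F) = 1 + Matrix.vecMulVec w f) (hwf : f ⬝ᵥ w = 0) (hx : x ≠ 1) :
    IsTransvection (x : Matrix (Fin n) (Fin n) F) := by
  have h1 : (x : Matrix (Fin n) (Fin n) F) - 1 = Matrix.vecMulVec w f := by rw [h, add_sub_cancel_left]
  constructor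
  · rw [h1]
    apply le_antisymm (Matrix.rank_vecMulVec_le w f)
    rw [Nat.one_le_iff_ne_zero]
    intro h2
    have h3 : Matrix.vecMulVec w f = 0 := by
      by_contra h4
      have : (Matrix.vecMulVec w f).mulVecLin.range ≠ ⊥ := by
        intro h5
        apply h4
        rw [LinearMap.range_eq_bot] at h5
        apply Matrix.ext_of_mulVec_single
        intro i
        rw [Matrix.zero_mulVec]
        exact LinearMap.congr_fun h5 _
      apply this
      exact Submodule.finrank_eq_zero.1 h2
    apply hx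
    apply Subtype.ext
    rw [h, h3, add_zero]; rfl
  · rw [h1, Matrix.vecMulVec_mul_vecMulVec, hwf, zero_smul, Matrix.vecMulVec_zero]

include p in
theorem sc (hn : 3 ≤ n) (T : Subgroup G) (hT : T ≤ UF (rep n F) (W n F))
    (hsc : ∀ t ∈ T, ∀ g : G, g * t * g⁻¹ ∈ UF (rep n F) (W n F) → g * t * g⁻¹ ∈ T) : T = ⊥ ∨ T = UF (rep n F) (W n F) := by
  by_cases hT1 : T = ⊥
  · exact Or.inl hT1
  right
  have hP : IsPGroup p (UF (rep n F) (W n F) : Subgroup G) := pgroup p
  have h00 : 0 < n := by omega
  -- a central element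
  obtain ⟨t, htT, ht1, htc⟩ : ∃ t ∈ T, t ≠ 1 ∧ ∀ u ∈ UF (rep n F) (W n F), u * t = t * u := by
    have hM : (T.subgroupOf (UF (rep n F) (W n F))).Normal := by
      constructor
      intro t ht u
      exact hsc _ ht u (mul_mem (mul_mem u.2 (hT ht)) (inv_mem u.2))
    have hM1 : T.subgroupOf (UF (rep n F) (W n F)) ≠ ⊥ := by
      intro h
      apply hT1
      rw [eq_bot_iff]
      intro t ht
      have : (⟨t, hT ht⟩ : (UF (rep n F) (W n F) : Subgroup G)) ∈ T.subgroupOf (UF (rep n F) (W n F)) := ht
      rw [h, Subgroup.mem_bot] at this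
      rw [Subgroup.mem_bot]
      exact congrArg Subtype.val this
    have h1 := H2.PGroup.inf_center_ne_bot hP hM1
    obtain ⟨⟨x, hx1, hx2⟩, hx3⟩ := Subgroup.ne_bot_iff_exists_ne_one.1 h1
    refine ⟨x, hx1, fun h => hx3 (Subtype.ext (Subtype.ext h)), fun u hu => ?_⟩
    exact congrArg Subtype.val (Subgroup.mem_center_iff.1 hx2 ⟨u, hu⟩)
  have htU := mem_UF_iff.1 (hT htT)
  -- its shape
  have hshape : ∀ r c : Fin n, r ≠ c → ¬ ((r : ℕ) = 0 ∧ (c : ℕ) = n - 1) → (t : Matrix (Fin n) (Fin n) F) r c = 0 := by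
    intro r c hrc hne
    by_cases hr : (r : ℕ) = 0
    · -- `c < n - 1`
      have hc : (c : ℕ) < n - 1 := by
        have : (c : ℕ) ≠ n - 1 := fun h => hne ⟨hr, h⟩
        have := c.2; omega
      have hlt : c < (⟨n - 1, by omega⟩ : Fin n) := by rw [Fin.lt_def]; exact hc
      have h2 := comm_entry hlt.ne (htc _ (tv_mem hlt 1)) r ⟨n - 1, by omega⟩
      rw [if_neg hrc, if_pos rfl] at h2
      exact h2.symm
    · have hlt : (⟨0, h00⟩ : Fin n) < r := by rw [Fin.lt_def]; show 0 < (r : ℕ); omega
      have h2 := comm_entry hlt.ne (htc _ (tv_mem hlt 1)) ⟨0, h00⟩ c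
      rw [if_pos rfl, if_neg (Ne.symm hrc)] at h2
      exact h2
  have hne0 : (⟨0, h00⟩ : Fin n) ≠ ⟨n - 1, by omega⟩ := by
    intro h; have := congrArg Fin.val h; simp at this; omega
  have ht : (t : Matrix (Fin n) (Fin n) F) = 1 + Matrix.vecMulVec (Pi.single ⟨0, h00⟩ 1) (Pi.single ⟨n - 1, by omega⟩ ((t : Matrix (Fin n) (Fin n) F) ⟨0, h00⟩ ⟨n - 1, by omega⟩)) := by
    ext r c
    rw [Matrix.add_apply, Matrix.vecMulVec_apply]
    by_cases hrc : r = c
    · subst hrc
      rw [htU r r le_rfl]
      by_cases h : r = ⟨0, h00⟩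
      · subst h; simp [hne0]
      · simp [h]
    · rw [Matrix.one_apply_ne hrc]
      by_cases h : (r : ℕ) = 0 ∧ (c : ℕ) = n - 1
      · have h1 : r = ⟨0, h00⟩ := Fin.ext h.1
        have h2 : c = ⟨n - 1, by omega⟩ := Fin.ext h.2
        rw [h1, h2]
        simp
      · rw [hshape r c hrc h]
        by_cases h1 : r = ⟨0, h00⟩
        · have h2 : c ≠ ⟨n - 1, by omega⟩ := by
            rintro rfl; exact h ⟨by rw [h1], rfl⟩
          simp [h2]
        · simp [h1]
  have htt := isTransvection_of ht (by rw [single_dotProduct, Pi.single_eq_of_ne hne0.symm, mul_zero]) ht1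
  -- all transvections of `U` are in `T`
  have hall : ∀ x : G, x ∈ UF (rep n F) (W n F) → IsTransvection (x : Matrix (Fin n) (Fin n) F) → x ∈ T := by
    intro x hx hxt
    obtain ⟨g, hg⟩ := isConj_iff.1 (S2579.result hn t x htt hxt)
    have := hsc t htT g (by rw [hg]; exact hx)
    rwa [hg] at this
  apply le_antisymm hT
  -- row by row
  have key : ∀ m : ℕ, ∀ u : G, u ∈ UF (rep n F) (W n F) → (∀ i : Fin n, m ≤ i → ∀ c, (u : Matrix (Fin n) (Fin n) F) i c = (1 : Matrix (Fin n) (Fin n) F) i c) → u ∈ T := by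
    intro m
    induction m with
    | zero =>
      intro u _ h
      have : u = 1 := by
        apply Subtype.ext
        ext i c
        exact h i (Nat.zero_le _) c
      rw [this]; exact one_mem _
    | succ m ih =>
      intro u hu h
      by_cases hm : m < n
      · obtain ⟨i, hi⟩ : ∃ i : Fin n, i = ⟨m, hm⟩ := ⟨_, rfl⟩
        have hu' := mem_UF_iff.1 hu
        obtain ⟨f, hf⟩ : ∃ f : Fin n → F, f = fun c => (u : Matrix (Fin n) (Fin n) F) i c - (1 : Matrix (Fin n) (Fin n) F) i c := ⟨_, rfl⟩
        have hfi : ∀ c, c ≤ i → f c = 0 := by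
          intro c hc; rw [hf]
          show (u : Matrix (Fin n) (Fin n) F) i c - (1 : Matrix (Fin n) (Fin n) F) i c = 0
          rw [hu' i c hc, sub_self]
        have hdot : f ⬝ᵥ (Pi.single i 1 : Fin n → F) = 0 := by rw [dotProduct_single, hfi i le_rfl, zero_mul]
        have hdet : ∀ a : F, (1 + Matrix.vecMulVec (Pi.single i 1 : Fin n → F) (a • f)).det = 1 := by
          intro a
          rw [Matrix.vecMulVec_eq (Fin 1), Matrix.det_one_add_replicateCol_mul_replicateRow, smul_dotProduct, hdot, smul_zero, add_zero]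
        obtain ⟨x, hx⟩ : ∃ x : G, (x : Matrix (Fin n) (Fin n) F) = 1 + Matrix.vecMulVec (Pi.single i 1) f := by
          have := hdet 1
          rw [one_smul] at this
          exact ⟨⟨_, this⟩, rfl⟩
        have hxU : x ∈ UF (rep n F) (W n F) := by
          rw [mem_UF_iff]
          intro r c hcr
          rw [hx, Matrix.add_apply, Matrix.vecMulVec_apply]
          by_cases hr : r = i
          · rw [hr] at hcr ⊢
            rw [hfi c hcr, mul_zero, add_zero]
          · rw [Pi.single_eq_of_ne hr, zero_mul, add_zero]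
        have hxT : x ∈ T := by
          by_cases hx1 : x = 1
          · rw [hx1]; exact one_mem _
          · exact hall x hxU (isTransvection_of hx hdot hx1)
        have hux : u * x⁻¹ ∈ T := by
          apply ih _ (mul_mem hu (inv_mem hxU))
          intro r hr c
          -- `u x⁻¹` has identity rows
          have h1 : (u : Matrix (Fin n) (Fin n) F) r = ((x : G) : Matrix (Fin n) (Fin n) F) r ∨ ((u : Matrix (Fin n) (Fin n) F) r = (1 : Matrix (Fin n) (Fin n) F) r ∧ r ≠ i) := by
            by_cases hri : r = i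
            · left
              funext c
              rw [hx, hri, Matrix.add_apply, Matrix.vecMulVec_apply, Pi.single_eq_same, one_mul, hf]
              show _ = _ + ((u : Matrix (Fin n) (Fin n) F) i c - (1 : Matrix (Fin n) (Fin n) F) i c)
              ring
            · right
              refine ⟨?_, hri⟩
              funext c
              apply h
              have : (r : ℕ) ≠ m := by
                intro h'; apply hri; rw [hi]; exact Fin.ext h'
              omega
          have h2 : ∀ M : Matrix (Fin n) (Fin n) F, ((u : Matrix (Fin n) (Fin n) F) * M) r c = ((x : G) : Matrix (Fin n) (Fin n) F) r ⬝ᵥ (fun j => M j c) ∨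
              ((u : Matrix (Fin n) (Fin n) F) * M) r c = M r c := by
            intro M
            rcases h1 with h1 | ⟨h1, -⟩
            · left; rw [Matrix.mul_apply, dotProduct, h1]
            · right; rw [Matrix.mul_apply, h1]
              have := Matrix.one_mul M
              exact congrFun (congrFun this r) c
          show ((u : Matrix (Fin n) (Fin n) F) * ((x⁻¹ : G) : Matrix (Fin n) (Fin n) F)) r c = _
          have h3 : ((x : G) : Matrix (Fin n) (Fin n) F) * ((x⁻¹ : G) : Matrix (Fin n) (Fin n) F) = 1 := by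
            have := congrArg Subtype.val (mul_inv_cancel x)
            exact this
          rcases h1 with h1 | ⟨h1, hri⟩
          · rw [Matrix.mul_apply, h1, ← Matrix.mul_apply, h3]
          · rw [Matrix.mul_apply, h1, ← Matrix.mul_apply, Matrix.one_mul]
            -- the rows of `x⁻¹` other than `i`
            have h4 : ((x : G) : Matrix (Fin n) (Fin n) F) r = (1 : Matrix (Fin n) (Fin n) F) r := by
              funext c
              rw [hx, Matrix.add_apply, Matrix.vecMulVec_apply, Pi.single_eq_of_ne hri, zero_mul, add_zero]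
            have h5 := congrFun (congrFun h3 r) c
            rw [Matrix.mul_apply, h4, ← Matrix.mul_apply, Matrix.one_mul] at h5
            exact h5
        have := mul_mem hux hxT
        rwa [inv_mul_cancel_right] at this
      · exact ih u hu (fun i hi => absurd i.2 (by omega))
  intro u hu
  exact key n u hu (fun i hi => absurd i.2 (by omega))

theorem cond (hn : 3 ≤ n) : Cond p (UF (rep n F) (W n F) : Subgroup G) := by
  refine ⟨?_, sc p hn, gen p hn⟩
  intro h
  have hlt : (⟨0, by omega⟩ : Fin n) < ⟨1, by omega⟩ := by rw [Fin.lt_def]; show 0 < 1; omega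
  have h1 := tv_mem (F := F) hlt 1
  rw [h, Subgroup.mem_bot] at h1
  have h2 := congrFun (congrFun (congrArg Subtype.val h1) ⟨0, by omega⟩) ⟨1, by omega⟩
  rw [transvection_coe, Matrix.add_apply] at h2
  simp at h2

theorem s5163 (hn : 3 ≤ n) (S : Sylow p (ProjectiveSpecialLinearGroup (Fin n) F)) :
    (groupFusionSystem (S : Subgroup (ProjectiveSpecialLinearGroup (Fin n) F))).IsSimple p := by
  refine simple_quot (Γ := G) (pgroup p) ?_ (cond p hn) (QuotientGroup.mk' (Subgroup.center G)) (QuotientGroup.mk'_surjective _) ?_ ?_ S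
  · rintro g hg ⟨m, hm⟩
    exact mem_UF_of_pow (p := p) W_mono W_step (normalizer_le hg) hm
  · rw [QuotientGroup.ker_mk', H5.GL.card_center_SL rfl n (by omega)]
    have h1 : Nat.gcd n (Fintype.card F - 1) ∣ Fintype.card F - 1 := Nat.gcd_dvd_right _ _
    apply Nat.Coprime.coprime_dvd_left h1
    rw [Nat.coprime_comm, Nat.Prime.coprime_iff_not_dvd Fact.out]
    intro h2
    obtain ⟨k, hk, h3⟩ := FiniteField.card F p
    have h4 : p ∣ Fintype.card F := by rw [h3]; exact dvd_pow_self p k.ne_zero
    have h5 : 1 < Fintype.card F := Fintype.one_lt_card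
    have h6 := (Nat.dvd_sub_iff_right (by omega : 1 ≤ Fintype.card F) h4).mp h2
    exact (Fact.out : p.Prime).one_lt.ne' (Nat.dvd_one.mp h6)
  · rw [QuotientGroup.ker_mk']

end SLn

end Cfsg.Agent.HL.DC
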