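import Mathlib
import Cfsg.Agent.HL_DC7
import Cfsg.Agent.H5_Symp

set_option autoImplicit false
set_option linter.unusedSectionVars false
set_option linter.unusedVariables false

/-!
The symplectic groups: simplicity of the fusion system in defining characteristic.
-/

namespace Cfsg.Agent.HL.DC

open Cfsg Cfsg.Agent.HL.FusCrit Matrix

namespace Sp

universe v
variable {K : Type v} [Field K] {m : ℕ}

local notation "V" => (Fin m ⊕ Fin m → K)
local notation "G" => Matrix.symplecticGroup (Fin m) K

/-- the natural representation -/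
def rep (m : ℕ) (K : Type v) [Field K] : Matrix.symplecticGroup (Fin m) K →* ((Fin m ⊕ Fin m → K) →ₗ[K] (Fin m ⊕ Fin m → K)) where
  toFun g := Matrix.mulVecLin (g : Matrix (Fin m ⊕ Fin m) (Fin m ⊕ Fin m) K)
  map_one' := by apply LinearMap.ext; intro v; simp
  map_mul' a b := by
    apply LinearMap.ext; intro v
    simp [Matrix.mulVec_mulVec, Module.End.mul_apply]

theorem rep_apply (g : G) (v : V) : rep m K g v = (g : Matrix (Fin m ⊕ Fin m) (Fin m ⊕ Fin m) K) *ᵥ v := rfl

/-- the basis -/
def bb (m : ℕ) (K : Type v) [Field K] (i : ℕ) : Fin m ⊕ Fin m → K :=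
  if h : i < m then Pi.single (Sum.inl ⟨i, h⟩) 1 else if h : i < 2 * m then Pi.single (Sum.inr ⟨2 * m - 1 - i, by omega⟩) 1 else 0

theorem sf (u v : V) : Cfsg.sympForm m K u v = ∑ i, (u (Sum.inr i) * v (Sum.inl i) - u (Sum.inl i) * v (Sum.inr i)) := by
  unfold Cfsg.sympForm Matrix.J
  rw [Matrix.fromBlocks_mulVec, dotProduct, Fintype.sum_sum_type, ← Finset.sum_add_distrib]
  apply Finset.sum_congr rfl
  intro i _
  simp [Matrix.neg_mulVec]
  ring

theorem form_l {i : ℕ} (h : i < m) (v : V) : Cfsg.sympForm m K (bb m K i) v = - v (Sum.inr ⟨i, h⟩) := by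
  rw [sf, bb, dif_pos h, Finset.sum_eq_single (⟨i, h⟩ : Fin m)]
  · simp
  · intro j _ hj; simp [hj]
  · intro h'; exact absurd (Finset.mem_univ _) h'

theorem form_r {i : ℕ} (h : ¬ i < m) (h2 : i < 2 * m) (v : V) : Cfsg.sympForm m K (bb m K i) v = v (Sum.inl ⟨2 * m - 1 - i, by omega⟩) := by
  rw [sf, bb, dif_neg h, dif_pos h2, Finset.sum_eq_single (⟨2 * m - 1 - i, by omega⟩ : Fin m)]
  · simp
  · intro j _ hj; simp [hj]
  · intro h'; exact absurd (Finset.mem_univ _) h'

variable [Fintype K]

/-- the geometry -/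
noncomputable def geo (m : ℕ) (hm : 2 ≤ m) (K : Type v) [Field K] : Geo K (Fin m ⊕ Fin m → K) (Matrix.symplecticGroup (Fin m) K) where
  ρ := rep m K
  inj := by
    intro a b h
    apply H5.Symp.Sp_ext
    intro x
    exact LinearMap.congr_fun h x
  σ := RingHom.id K
  ss := fun _ => rfl
  ε := -1
  ee := by ring
  se := rfl
  B := Cfsg.sympForm m K
  addl := H5.Symp.add_left
  addr := H5.Symp.add_right
  smull := H5.Symp.smul_left
  smulr := fun a x y => H5.Symp.smul_right a x y
  swap := fun x y => by rw [H5.Symp.swap x y]; simp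
  pres := fun g x y => (H5.Conc.mem_symplecticGroup_iff g.1).mp g.2 x y
  n := 2 * m
  m := m
  two_le := hm
  hn := Or.inl rfl
  b := bb m K
  b_ne := by
    intro i hi
    by_cases h : i < m
    · rw [form_l h, bb, dif_neg (by omega), dif_pos (by omega)]
      have : (⟨2 * m - 1 - (2 * m - 1 - i), by omega⟩ : Fin m) = ⟨i, h⟩ := Fin.ext (by simp; omega)
      rw [this]; simp
    · rw [form_r h hi, bb, dif_pos (by omega)]
      simp
  b_zero := by
    intro i hi j hj hij
    by_cases h : i < m
    · rw [form_l h, bb]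
      by_cases h2 : j < m
      · rw [dif_pos h2]; simp
      · rw [dif_neg h2, dif_pos hj, Pi.single_eq_of_ne, neg_zero]
        intro h3
        have := congrArg Fin.val (Sum.inr.inj h3)
        simp only at this
        omega
    · rw [form_r h hi, bb]
      by_cases h2 : j < m
      · rw [dif_pos h2, Pi.single_eq_of_ne]
        intro h3
        have := congrArg Fin.val (Sum.inl.inj h3)
        simp only at this
        omega
      · rw [dif_neg h2, dif_pos hj]; simp
  nondeg := by
    intro v h
    funext c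
    rcases c with c | c
    · have h1 := h (2 * m - 1 - c) (by omega)
      rw [form_r (by have := c.2; omega) (by omega)] at h1
      have : (⟨2 * m - 1 - (2 * m - 1 - (c : ℕ)), by have := c.2; omega⟩ : Fin m) = c := Fin.ext (by simp; have := c.2; omega)
      rw [this] at h1
      exact h1
    · have h1 := h c (by have := c.2; omega)
      rw [form_l c.2] at h1
      exact neg_eq_zero.1 h1
  ex := by
    intro e y a h1 h2 _
    refine ⟨H5.Symp.T (e + y) (-1) * H5.Symp.T e (1 - a) * H5.Symp.T y 1, fun x => ?_⟩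
    have hye : Cfsg.sympForm m K y e = 0 := by rw [H5.Symp.swap e y, h2, neg_zero]
    rw [map_mul, map_mul, Module.End.mul_apply, Module.End.mul_apply, rep_apply, rep_apply, rep_apply, H5.Symp.T_apply, H5.Symp.T_apply,
      H5.Symp.T_apply]
    simp only [H5.Symp.add_left, H5.Symp.add_right, H5.Symp.smul_left, H5.Symp.smul_right, H5.Symp.self, h2, hye]
    rw [H5.Symp.swap e x, H5.Symp.swap y x]
    module
  exa := fun y => ⟨0, by rw [H5.Symp.self]; simp⟩
  a0 := ⟨1, one_ne_zero, by simp⟩
  trans := by
    intro v hv _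
    obtain ⟨g, -, hg⟩ := H5.Symp.H_transitive (u := bb m K 0) (w := v) (by
      rw [bb, dif_pos (by omega)]
      intro h
      have := congrFun h (Sum.inl ⟨0, by omega⟩)
      simp at this) hv
    exact ⟨g, hg⟩

theorem s5171 (p : ℕ) [Fact p.Prime] [CharP K p] (hm : 2 ≤ m) (hex : m = 2 → 3 ≤ Fintype.card K) (S : Sylow p (Cfsg.PSp m K)) :
    (Cfsg.groupFusionSystem (S : Subgroup (Cfsg.PSp m K))).IsSimple p := by
  refine Geo.simple (D := geo m hm K) p ?_ ?_ ?_ (QuotientGroup.mk' (Subgroup.center G)) (QuotientGroup.mk'_surjective _) ?_ S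
  · right
    refine ⟨H5.Symp.self, rfl, fun _ => rfl, ?_⟩
    by_cases h3 : 3 ≤ m
    · exact Or.inr h3
    · left
      have h4 := hex (by omega)
      by_contra hcon
      push Not at hcon
      have h5 : Fintype.card K ≤ 2 := by
        classical
        rw [← Finset.card_univ]
        have : (Finset.univ : Finset K) ⊆ {0, 1} := by
          intro x _
          by_cases hx : x = 0
          · simp [hx]
          · simp [hcon x hx]
        exact (Finset.card_le_card this).trans Finset.card_le_two
      omega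
  · intro h
    exfalso
    have h' : 2 * m = 2 * m + 1 := h
    omega
  · intro g _ _ t _
    obtain ⟨D, hD⟩ : ∃ D, D = geo m hm K := ⟨_, rfl⟩
    rw [← hD]
    have hDn : D.n = 2 * m := by rw [hD]; rfl
    have hDm : D.m = m := by rw [hD]; rfl
    have hself : ∀ x, D.B x x = 0 := by rw [hD]; exact H5.Symp.self
    refine ⟨D.b (D.m - 1) + D.b (D.n - D.m), t • D.b (D.m - 1) + D.b (D.n - D.m), hself _, hself _, ?_, ?_, ?_, ?_, fun i hi => ⟨?_, ?_⟩⟩
    · rw [D.addr, D.addr, D.smulr, hself]; ring
    · rw [D.addr, hself, zero_add]; exact Geo.b_ne' (by omega)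
    · rw [D.addr, hself, add_zero]
    · rw [D.addr, D.smulr, hself, add_zero]
    · rw [D.addr, D.b_zero _ (by omega) _ (by omega) (by omega), D.b_zero _ (by omega) _ (by omega) (by omega), add_zero]
    · rw [D.addr, D.smulr, D.b_zero _ (by omega) _ (by omega) (by omega), D.b_zero _ (by omega) _ (by omega) (by omega)]; ring
  · rw [QuotientGroup.ker_mk']

end Sp

end Cfsg.Agent.HL.DC
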