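import Mathlib
import Cfsg.Agent.HL_FTC

/-! `C_π` is closed under extensions (from the odd order theorem). -/

set_option autoImplicit false
set_option linter.unusedSectionVars false
open Subgroup Cfsg
open scoped commutatorElement Pointwise

universe u

namespace Cfsg.Agent.HL.FTC

variable {G : Type u} [Group G] [Finite G] {π : Set ℕ}

theorem smulN (A : Subgroup G) [A.Normal] (g : G) : MulAut.conj g • A = A :=
  H1.Basic.conj_eq_iff_mem_normalizer.2 (by rw [Subgroup.normalizer_eq_top]; trivial)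

theorem hallOf_top {K : Subgroup G} : IsPiHall π K ↔ IsPiHallOf π K ⊤ := by
  constructor
  · intro h
    exact ⟨le_top, h.1, by simpa [Subgroup.relIndex_top_right] using h.2⟩
  · intro h
    exact ⟨h.2.1, by simpa [Subgroup.relIndex_top_right] using h.2.2⟩

theorem hallOf_sub {X A : Subgroup G} (h : X ≤ A) : IsPiHall π (X.subgroupOf A) ↔ IsPiHallOf π X A := by
  have e : Nat.card (X.subgroupOf A) = Nat.card X := Nat.card_congr (Subgroup.subgroupOfEquivOfLe h).toEquiv
  constructor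
  · intro h1
    exact ⟨h, fun p hp hd => h1.1 p hp (by rw [e]; exact hd), h1.2⟩
  · intro h1
    exact ⟨fun p hp hd => h1.2.1 p hp (by rw [← e]; exact hd), h1.2.2⟩

theorem conj_in {A : Subgroup G}
    (hA : ∀ H K : Subgroup A, IsPiHall π H → IsPiHall π K → ∃ g : A, K = H.map (MulAut.conj g).toMonoidHom)
    {X Y : Subgroup G} (hX : IsPiHallOf π X A) (hY : IsPiHallOf π Y A) : ∃ a ∈ A, MulAut.conj a • X = Y := by
  obtain ⟨a, ha⟩ := hA _ _ ((hallOf_sub hX.1).2 hX) ((hallOf_sub hY.1).2 hY)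
  exact ⟨a, a.2, H1.Basic.conj_of_subgroupOf hX.1 hY.1 a ha.symm⟩

theorem D_Gamma (ft : FT.{u}) (A : Subgroup G) [A.Normal] {H L : Subgroup G} (hH : IsPiHallOf π H A)
    (hAL : A ≤ L) (hL : Pi π (Nat.card (L.map (QuotientGroup.mk' A)))) :
    D π ↥(normalizer (H : Set G) ⊓ L) := by
  set Γ := normalizer (H : Set G) ⊓ L with hΓ
  have hHΓ : H ≤ Γ := le_inf Subgroup.le_normalizer (hH.1.trans hAL)
  haveI : (H.subgroupOf Γ).Normal := by
    rw [Subgroup.normal_subgroupOf_iff_le_normalizer hHΓ]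
    exact inf_le_left
  refine D_three ft (H.subgroupOf Γ) (A.subgroupOf Γ) (Subgroup.comap_mono hH.1) ?_ ?_ ?_
  · rw [Nat.card_congr (Subgroup.subgroupOfEquivOfLe hHΓ).toEquiv]
    exact hH.2.1
  · have h1 : (H.subgroupOf Γ).relIndex (A.subgroupOf Γ) = H.relIndex (A ⊓ Γ) := by
      rw [← Subgroup.inf_subgroupOf_right A Γ, Subgroup.relIndex_subgroupOf inf_le_right]
    rw [h1]
    have h2 : Pi πᶜ (H.relIndex A) := fun p hp hd hpi => hH.2.2 p hp hpi hd
    refine h2.dvd ⟨(A ⊓ Γ).relIndex A, ?_⟩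
    rw [Subgroup.relIndex_mul_relIndex _ _ _ (le_inf hH.1 hHΓ) inf_le_left]
  · show Pi π (A.relIndex Γ)
    have h1 := Subgroup.relIndex_ker (K := Γ) (QuotientGroup.mk' A)
    rw [QuotientGroup.ker_mk'] at h1
    rw [h1]
    exact hL.dvd (Subgroup.card_dvd_of_le (Subgroup.map_mono inf_le_right))

theorem relIndex_Gamma (A : Subgroup G) [A.Normal] {Γ L : Subgroup G} (h : Γ ⊔ A = L) :
    Γ.relIndex L = (A ⊓ Γ).relIndex A := by
  have hAL : A ≤ L := h ▸ le_sup_right
  have hGL : Γ ≤ L := h ▸ le_sup_left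
  have e1 : A.relIndex L = A.relIndex Γ := by rw [← h, Subgroup.relIndex_sup_right]
  have e2 := H12.Hall.relIndex_mul (A := A ⊓ Γ) (B := Γ) inf_le_right
  have e3 := H12.Hall.relIndex_mul (A := A) (B := L) hAL
  have e4 := H12.Hall.relIndex_mul (A := Γ) (B := L) hGL
  have e5 := H12.Hall.relIndex_mul (A := A ⊓ Γ) (B := A) inf_le_left
  rw [Subgroup.inf_relIndex_right] at e2
  have hr : 0 < A.relIndex Γ := Nat.pos_of_ne_zero (Subgroup.index_ne_zero_of_finite)
  have hc : 0 < Nat.card ↥(A ⊓ Γ) := Nat.card_pos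
  have : Γ.relIndex L * (A.relIndex Γ * Nat.card ↥(A ⊓ Γ)) = (A ⊓ Γ).relIndex A * (A.relIndex Γ * Nat.card ↥(A ⊓ Γ)) := by
    rw [e2, e4, ← e3, ← e5, e1, ← e2]; ring
  exact Nat.eq_of_mul_eq_mul_right (Nat.mul_pos hr hc) this

theorem frat {A : Subgroup G} [A.Normal]
    (hA : ∀ H K : Subgroup A, IsPiHall π H → IsPiHall π K → ∃ g : A, K = H.map (MulAut.conj g).toMonoidHom)
    {H : Subgroup G} (hH : IsPiHallOf π H A) (g : G) : ∃ a ∈ A, a * g ∈ normalizer (H : Set G) := by
  have hAg : MulAut.conj g • A = A := smulN A g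
  have h1 : IsPiHallOf π (MulAut.conj g • H) A := by
    refine H12.Hall.of_card hH ?_ ?_
    · rw [← hAg]; exact Subgroup.map_mono hH.1
    · exact Subgroup.card_map_of_injective (MulAut.conj g).injective
  obtain ⟨a, ha, h2⟩ := conj_in hA h1 hH
  refine ⟨a, ha, ?_⟩
  rw [← H1.Basic.conj_eq_iff_mem_normalizer, map_mul, mul_smul, h2]

theorem C_ext (ft : FT.{u}) (A : Subgroup G) [A.Normal] (hA : IsCPiGroup π A) (hQ : IsCPiGroup π (G ⧸ A)) :
    IsCPiGroup π G := by
  obtain ⟨⟨H₀, hH₀⟩, hAc⟩ := hA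
  obtain ⟨⟨K₀, hK₀⟩, hQc⟩ := hQ
  constructor
  · -- existence
    set H := H₀.map A.subtype with hHdef
    have hHA : H ≤ A := Subgroup.map_subtype_le H₀
    have hH : IsPiHallOf π H A := by
      rw [← hallOf_sub hHA]
      have : H.subgroupOf A = H₀ := by
        rw [hHdef, Subgroup.subgroupOf, Subgroup.comap_map_eq_self_of_injective A.subtype_injective]
      rwa [this]
    set L := K₀.comap (QuotientGroup.mk' A) with hL
    have hAL : A ≤ L := fun x hx => by
      rw [hL, Subgroup.mem_comap, ((by exact (QuotientGroup.eq_one_iff (N := A) x).2 hx) : QuotientGroup.mk' A x = 1)]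
      exact one_mem _
    have hLm : L.map (QuotientGroup.mk' A) = K₀ := Subgroup.map_comap_eq_self_of_surjective (QuotientGroup.mk'_surjective A) K₀
    have hD := D_Gamma ft A hH hAL (by rw [hLm]; exact hK₀.1)
    set Γ := normalizer (H : Set G) ⊓ L with hΓ
    obtain ⟨B', hB'⟩ := hD.ex
    refine ⟨B'.map Γ.subtype, hall_iff.2 ⟨?_, ?_⟩⟩
    · rw [Subgroup.card_map_of_injective Γ.subtype_injective]; exact hB'.1
    · have hsup : Γ ⊔ A = L := by
        apply le_antisymm (sup_le inf_le_right hAL)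
        intro x hx
        obtain ⟨a, ha, hax⟩ := frat hAc hH x
        have : x = a⁻¹ * (a * x) := by group
        rw [this]
        exact mul_mem (Subgroup.mem_sup_right (inv_mem ha)) (Subgroup.mem_sup_left ⟨hax, mul_mem (hAL ha) hx⟩)
      have e1 : (B'.map Γ.subtype).index = B'.index * Γ.index := by
        rw [Subgroup.index_map_subtype]
      have e2 : Γ.index = Γ.relIndex L * L.index := (Subgroup.relIndex_mul_index inf_le_right).symm
      have e3 : L.index = K₀.index := Subgroup.index_comap_of_surjective _ (QuotientGroup.mk'_surjective A)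
      rw [e1, e2, relIndex_Gamma A hsup, e3]
      refine (hall_iff.1 hB').2.mul (Pi.mul ?_ (hall_iff.1 hK₀).2)
      have h2 : Pi πᶜ (H.relIndex A) := fun p hp hd hpi => hH.2.2 p hp hpi hd
      refine h2.dvd ⟨H.relIndex (A ⊓ Γ), ?_⟩
      rw [mul_comm, Subgroup.relIndex_mul_relIndex _ _ _ (le_inf hHA (le_inf Subgroup.le_normalizer (hHA.trans hAL))) inf_le_left]
  · -- conjugacy
    intro K₁ K₂ hK₁ hK₂
    have hnA : (⊤ : Subgroup G) ≤ normalizer (A : Set G) := by rw [Subgroup.normalizer_eq_top]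
    have hall : ∀ K : Subgroup G, IsPiHall π K → IsPiHallOf π (K ⊓ A) A := fun K hK =>
      H12.Hall.inf_normal (hallOf_top.1 hK) le_top hnA
    have hconj : ∀ (g : G) (K : Subgroup G), IsPiHall π K → IsPiHall π (MulAut.conj g • K) := fun g K hK => hall_conj' hK g
    obtain ⟨a, ha, h1⟩ := conj_in hAc (hall K₁ hK₁) (hall K₂ hK₂)
    set K₃ := MulAut.conj a • K₁ with hK₃def
    have hK₃ : IsPiHall π K₃ := hconj a K₁ hK₁
    have h3A : K₃ ⊓ A = K₂ ⊓ A := by
      rw [← h1, hK₃def, Subgroup.smul_inf, smulN A a]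
    set H := K₂ ⊓ A with hHdef
    have hH : IsPiHallOf π H A := hall K₂ hK₂
    obtain ⟨g', hg'⟩ := hQc _ _ (hall_map A hK₃) (hall_map A hK₂)
    obtain ⟨g, rfl⟩ := QuotientGroup.mk'_surjective A g'
    obtain ⟨b, hb, hbn⟩ := frat hAc hH g
    set K₄ := MulAut.conj (b * g) • K₃ with hK₄def
    have hK₄ : IsPiHall π K₄ := hconj _ _ hK₃
    have h4A : K₄ ⊓ A = H := by
      have : MulAut.conj (b * g) • (K₃ ⊓ A) = K₄ ⊓ A := by
        rw [hK₄def, Subgroup.smul_inf, smulN A (b * g)]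
      rw [← this, h3A]
      exact H1.Basic.conj_eq_iff_mem_normalizer.2 hbn
    have hmk : QuotientGroup.mk' A (b * g) = QuotientGroup.mk' A g := by
      rw [map_mul, ((by exact (QuotientGroup.eq_one_iff (N := A) b).2 hb) : QuotientGroup.mk' A b = 1), one_mul]
    have h4m : K₄.map (QuotientGroup.mk' A) = K₂.map (QuotientGroup.mk' A) := by
      rw [hg', ← hmk]
      exact map_conj_mk A K₃ (b * g)
    have hsup := sup_of_map_eq A h4m
    set L := K₂ ⊔ A with hL
    have hAL : A ≤ L := le_sup_right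
    have hLm : L.map (QuotientGroup.mk' A) = K₂.map (QuotientGroup.mk' A) := by
      rw [hL, Subgroup.map_sup, show A.map (QuotientGroup.mk' A) = ⊥ from by
        rw [Subgroup.map_eq_bot_iff, QuotientGroup.ker_mk'], sup_bot_eq]
    have hD := D_Gamma ft A hH hAL (by rw [hLm]; exact (hall_map A hK₂).1)
    set Γ := normalizer (H : Set G) ⊓ L with hΓ
    have hle : ∀ K : Subgroup G, K ⊓ A = H → K ≤ L → K ≤ Γ := by
      intro K hK hKL
      refine le_inf ?_ hKL
      rw [← hK]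
      intro x hx
      rw [← H1.Basic.conj_eq_iff_mem_normalizer, Subgroup.smul_inf, smulN A x,
        H1.Basic.conj_eq_iff_mem_normalizer.2 (Subgroup.le_normalizer hx)]
    have hK4Γ := hle K₄ h4A (le_sup_left.trans hsup.le)
    have hK2Γ := hle K₂ rfl le_sup_left
    have hallΓ : ∀ K : Subgroup G, IsPiHall π K → K ≤ Γ → IsPiHallOf π K Γ := fun K hK hle =>
      H12.Hall.mono (hallOf_top.1 hK) hle le_top |> fun _ => ⟨hle, hK.1, fun p hp hpi hd =>
        hK.2 p hp hpi (hd.trans (Subgroup.relIndex_dvd_index_of_le hle))⟩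
    obtain ⟨c, -, hc⟩ := conj_in hD.cj (hallΓ K₄ hK₄ hK4Γ) (hallΓ K₂ hK₂ hK2Γ)
    refine ⟨c * (b * g) * a, ?_⟩
    rw [mapconj_eq, map_mul, mul_smul, map_mul, mul_smul, ← hK₃def, ← hK₄def, hc]

end Cfsg.Agent.HL.FTC
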