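import Mathlib
import Cfsg.Agent.HL_Mat3

set_option autoImplicit false
set_option linter.unusedVariables false

/-!
The 2-fusion systems of M11 and M12 are simple.
-/

namespace Cfsg.Agent.HL.Mat

open Cfsg Cfsg.Agent.H7.Golay Cfsg.Agent.H7.Oct Cfsg.Agent.H7.M24 Cfsg.Agent.H14.M24Eng Cfsg.Agent.H14.M24Gen
open scoped Pointwise

/-- polycyclic sequence -/
def as12 : List (List ℕ) := [[2, 3, 0, 1, 12, 17, 6, 10, 16, 9, 7, 11, 4, 13, 23, 19, 8, 5, 18, 15, 20, 21, 22, 14],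
  [1, 0, 3, 2, 4, 14, 6, 7, 16, 9, 10, 11, 12, 18, 5, 19, 8, 23, 13, 15, 21, 20, 22, 17],
  [0, 1, 3, 2, 12, 5, 6, 7, 18, 9, 10, 22, 4, 16, 14, 21, 13, 23, 8, 20, 19, 15, 11, 17],
  [0, 1, 2, 3, 16, 17, 13, 19, 4, 18, 15, 20, 8, 9, 23, 7, 12, 5, 6, 10, 22, 11, 21, 14],
  [0, 1, 2, 3, 9, 14, 4, 11, 18, 12, 22, 10, 6, 8, 5, 20, 13, 23, 16, 21, 19, 15, 7, 17],
  [0, 1, 2, 3, 12, 5, 9, 10, 16, 6, 7, 22, 4, 18, 14, 19, 8, 17, 13, 15, 21, 20, 11, 23]]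

/-- relations -/
def es12 : List (ℕ × List ℕ) := [(0, [1, 3, 4, 24, 16]),
  (0, [1, 10, 4, 8]),
  (0, [3, 6, 4]),
  (2, [3, 2]),
  (1, [1]),
  (0, [])]

/-- central involution -/
def z12 : List ℕ := [0, 1, 2, 3, 12, 5, 9, 10, 16, 6, 7, 22, 4, 18, 14, 19, 8, 17, 13, 15, 21, 20, 11, 23]

/-- derivation -/
def ss12 : List (ℕ × ℕ × List ℕ × List ℕ × ℕ) := [(0, 0, [6, 4, 12, 9, 13, 10, 1, 15, 3, 0, 19, 17, 18, 8, 22, 5, 2, 11, 16, 14, 20, 21, 23, 7], [1, 0, 3, 2, 4, 14, 6, 7, 16, 9, 10, 11, 12, 18, 5, 19, 8, 23, 13, 15, 21, 20, 22, 17], 2),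
  (1, 0, [0, 6, 9, 1, 8, 14, 2, 21, 12, 3, 15, 11, 18, 13, 10, 23, 4, 7, 16, 17, 19, 20, 22, 5], [0, 1, 3, 2, 12, 5, 6, 7, 18, 9, 10, 22, 4, 16, 14, 21, 13, 23, 8, 20, 19, 15, 11, 17], 4),
  (2, 0, [6, 13, 9, 18, 4, 21, 3, 19, 16, 1, 15, 17, 12, 0, 11, 7, 8, 20, 2, 10, 23, 14, 5, 22], [2, 3, 0, 1, 12, 17, 6, 10, 16, 9, 7, 11, 4, 13, 23, 19, 8, 5, 18, 15, 20, 21, 22, 14], 1),
  (3, 0, [1, 18, 13, 0, 4, 17, 3, 11, 16, 2, 7, 21, 6, 9, 19, 5, 8, 15, 12, 14, 10, 22, 20, 23], [0, 1, 3, 2, 6, 14, 4, 11, 16, 12, 22, 7, 9, 13, 5, 15, 8, 17, 18, 19, 21, 20, 10, 23], 52),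
  (2, 1, [], [3, 2, 0, 1, 4, 23, 6, 10, 13, 9, 7, 22, 12, 16, 17, 20, 18, 5, 8, 21, 19, 15, 11, 14], 0),
  (0, 0, [13, 18, 6, 9, 1, 22, 0, 5, 4, 2, 17, 14, 3, 16, 11, 15, 12, 20, 8, 19, 7, 10, 23, 21], [0, 1, 2, 3, 16, 17, 13, 19, 4, 18, 15, 20, 8, 9, 23, 7, 12, 5, 6, 10, 22, 11, 21, 14], 8),
  (2, 4, [], [0, 1, 2, 3, 9, 14, 4, 11, 18, 12, 22, 10, 6, 8, 5, 20, 13, 23, 16, 21, 19, 15, 7, 17], 0)]

def ch12 : List (ℕ × List ℕ × List ℕ) := [(0, [0, 1, 2, 3, 4, 5], [3, 2, 1]),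
  (2, [2, 3, 4, 5], [3]),
  (4, [3, 4, 5], [18, 16, 13, 12, 9, 8, 6])]

def pa12 : List (ℕ × List ℕ) := [(0, [3, 2, 1]), (4, [18, 16, 13, 12, 9, 8, 6]), (5, [23, 17, 14]), (7, [22, 21, 20, 19, 15, 11, 10])]

-- tail from 2
def ch12t2 : List (ℕ × List ℕ × List ℕ) := [(2, [0, 1, 2, 3], [3]),
  (4, [1, 2, 3], [18, 16, 13, 12, 9, 8, 6])]

def pa12t2 : List (ℕ × List ℕ) := [(0, []), (1, []), (2, [3]), (4, [18, 16, 13, 12, 9, 8, 6]), (5, [23, 17, 14]), (7, [22, 21, 20, 19, 15, 11, 10])]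

-- tail from 3
def ch12t3 : List (ℕ × List ℕ × List ℕ) := [(4, [0, 1, 2], [18, 16, 13, 12, 9, 8, 6])]

def pa12t3 : List (ℕ × List ℕ) := [(0, []), (1, []), (2, []), (3, []), (4, [18, 16, 13, 12, 9, 8, 6]), (5, [23, 17, 14]), (7, [22, 21, 20, 19, 15, 11, 10])]

/-- tail -/
def as12t2 : List (List ℕ) := as12.drop 2
def es12t2 : List (ℕ × List ℕ) := es12.drop 2

noncomputable def P12 (l : List ℕ) : Bool := isM24 l && Nat.beq (act l sqM) sqM

theorem hP12 : ∀ l, P12 l = true → ∃ g ∈ Spor.M12, Rep g l := by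
  intro l h
  simp only [P12, Bool.and_eq_true] at h
  obtain ⟨g, hg, hr⟩ := exists_M24 h.1
  exact ⟨g, mem_M12.2 ⟨hg, dod_of_rep hr h.2⟩, hr⟩

theorem hs12 : Has Spor.M12 as12 := by
  have h : (as12.all P12) = true := by decide +kernel
  intro l hl
  exact hP12 l (List.all_eq_true.1 h l hl)

theorem pc12 : pcOK as12 es12 = true := by decide +kernel
theorem cen12 : cenOK as12 z12 (2 ^ as12.length) = true := by decide +kernel
theorem ss12_ok : stepsOK P12 as12 [z12] ss12 = true := by decide +kernel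
theorem ch12_ok : cardOK as12 ch12 = true := by decide +kernel
theorem pa12_ok : partOK as12 pa12 = true := by decide +kernel
theorem cd12 : Nat.card (gp as12) = 2 ^ as12.length := card_gp hs12 pc12 ch12_ok

theorem sub12t2 : ∀ l ∈ as12t2, l ∈ as12 := fun l hl => List.mem_of_mem_drop hl
theorem hs12t2 : Has Spor.M12 as12t2 := fun l hl => hs12 l (sub12t2 l hl)
theorem pc12t2 : pcOK as12t2 es12t2 = true := by decide +kernel
theorem ch12t2_ok : cardOK as12t2 ch12t2 = true := by decide +kernel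
theorem pa12t2_ok : partOK as12t2 pa12t2 = true := by decide +kernel
theorem cd12t2 : Nat.card (gp as12t2) = 2 ^ as12t2.length := card_gp hs12t2 pc12t2 ch12t2_ok

def chA : List (ℕ × List ℕ × List ℕ) := chain11.take 3
def chB : List (ℕ × List ℕ × List ℕ) := chain11.drop 3

theorem card_fix4 : Nat.card (fixK Spor.M11 [3, 2, 1]) = 8 := by
  have hG := has_slpRun prog11 (has11 T_mem11 V_mem11 U_mem11)
  have h1 := chain_mul Spor.M11 _ hG chA [] (by decide +kernel)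
  have h2 := chain_mul Spor.M11 _ hG chB [3, 2, 1] (by decide +kernel)
  rw [Cfsg.Agent.H14.M24Gen.fixK_nil, card_M11, show chainProd chA = 990 by decide +kernel] at h1
  rw [show chainProd chB = 8 by decide +kernel] at h2
  have h3 : 0 < Nat.card (fixK Spor.M11 ((chB.map Prod.fst).reverse ++ [3, 2, 1])) := Nat.card_pos
  have e : (chA.map Prod.fst).reverse ++ [] = [3, 2, 1] := by decide +kernel
  rw [e] at h1
  omega

theorem four12 {N : Subgroup (Equiv.Perm GolayPt)} (hN : N ≤ Spor.M12)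
    (hfix : ∀ n ∈ N, ∀ x ∈ [3, 2, 1, 0], n (pt x) = pt x) : IsPGroup 2 N := by
  have : Fact (Nat.Prime 2) := ⟨Nat.prime_two⟩
  refine (IsPGroup.of_card (n := 3) card_fix4).to_le fun g hg => ?_
  refine mem_fixK.2 ⟨⟨hN hg, hfix g hg 0 (by simp)⟩, fun q hq => ?_⟩
  have := hfix g hg (ix q) (by revert hq; simp; tauto)
  rwa [pt_ix] at this

theorem norm12 (N : Subgroup (Equiv.Perm GolayPt)) (hN : N ≤ Spor.M12) (h : St N (gp as12) []) : IsPGroup 2 N := by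
  refine stage' h hs12 pa12_ok 0 4 [0, 1, 2, 3, 5, 14, 17, 23] (by decide +kernel) ?_
  have h1 := h.fixK (p := 0) (by norm_num)
  rw [fix_eq hs12 cd12 cd12t2 sub12t2 (p := 0) (m := 4) (by norm_num)
      (by decide +kernel) (by rw [ncard_of_part hs12 pa12_ok (by norm_num)]; decide +kernel) (by decide +kernel)] at h1
  refine stage' h1 hs12t2 pa12t2_ok 1 1 [1] (by decide +kernel) ?_
  have h2 := h1.fixK (p := 1) (by norm_num)
  rw [fix_same hs12t2 (by decide +kernel)] at h2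
  refine stage' h2 hs12t2 pa12t2_ok 2 2 [2, 3] (by decide +kernel) ?_
  have h5 := h2.twin (p := 2) (q := 3) (by norm_num) (by norm_num) (by norm_num)
    (orbit_pair hs12t2 pa12t2_ok (by decide +kernel))
  refine four12 ?_ (fun n hn x hx => h5 n hn x hx)
  exact (fixK_sub _ _).trans ((fixK_sub _ _).trans ((fixK_sub _ _).trans hN))

theorem simple12 (S : Sylow 2 Spor.M12) : (groupFusionSystem (S : Subgroup Spor.M12)).IsSimple 2 :=
  mat_simple hs12 pc12 (by simp [as12]) (m := 1485) (by decide) (by rw [card_M12]; decide +kernel) cd12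
    (lz := z12) (by decide +kernel) cen12 hP12 ss12_ok norm12 S

/-- polycyclic sequence -/
def as11 : List (List ℕ) := [[0, 1, 3, 2, 6, 14, 4, 11, 16, 12, 22, 7, 9, 13, 5, 15, 8, 17, 18, 19, 21, 20, 10, 23],
  [0, 1, 2, 3, 8, 17, 18, 15, 12, 13, 19, 21, 16, 6, 23, 10, 4, 5, 9, 7, 11, 22, 20, 14],
  [0, 1, 2, 3, 9, 14, 4, 11, 18, 12, 22, 10, 6, 8, 5, 20, 13, 23, 16, 21, 19, 15, 7, 17],
  [0, 1, 2, 3, 12, 5, 9, 10, 16, 6, 7, 22, 4, 18, 14, 19, 8, 17, 13, 15, 21, 20, 11, 23]]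

/-- relations -/
def es11 : List (ℕ × List ℕ) := [(0, [7, 6, 4]),
  (2, [3, 2]),
  (1, [1]),
  (0, [])]

/-- central involution -/
def z11 : List ℕ := [0, 1, 2, 3, 12, 5, 9, 10, 16, 6, 7, 22, 4, 18, 14, 19, 8, 17, 13, 15, 21, 20, 11, 23]

/-- derivation -/
def ss11 : List (ℕ × ℕ × List ℕ × List ℕ × ℕ) := [(0, 0, [0, 13, 1, 18, 16, 19, 12, 14, 3, 9, 5, 10, 8, 4, 17, 21, 2, 15, 6, 20, 11, 7, 22, 23], [0, 1, 3, 2, 6, 14, 4, 11, 16, 12, 22, 7, 9, 13, 5, 15, 8, 17, 18, 19, 21, 20, 10, 23], 1),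
  (1, 0, [0, 1, 4, 12, 8, 22, 16, 19, 9, 18, 21, 15, 13, 2, 11, 23, 6, 5, 3, 17, 10, 7, 20, 14], [0, 1, 3, 2, 4, 5, 9, 10, 13, 6, 7, 11, 12, 8, 14, 20, 18, 23, 16, 21, 15, 19, 22, 17], 13),
  (0, 1, [], [0, 1, 2, 3, 9, 14, 4, 11, 18, 12, 22, 10, 6, 8, 5, 20, 13, 23, 16, 21, 19, 15, 7, 17], 0),
  (0, 0, [0, 2, 1, 3, 18, 5, 6, 21, 16, 9, 20, 22, 13, 12, 17, 15, 8, 14, 4, 19, 10, 7, 11, 23], [0, 1, 2, 3, 8, 17, 18, 15, 12, 13, 19, 21, 16, 6, 23, 10, 4, 5, 9, 7, 11, 22, 20, 14], 2)]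

def ch11 : List (ℕ × List ℕ × List ℕ) := [(2, [0, 1, 2, 3], [3]),
  (4, [1, 2, 3], [8, 18, 16, 13, 12, 9, 6])]

def pa11 : List (ℕ × List ℕ) := [(0, []), (1, []), (2, [3]), (4, [8, 18, 16, 13, 12, 9, 6]), (5, [23, 17, 14]), (7, [22, 21, 20, 19, 15, 11, 10])]

-- tail from 1
def ch11t1 : List (ℕ × List ℕ × List ℕ) := [(4, [0, 1, 2], [8, 18, 16, 13, 12, 9, 6])]

def pa11t1 : List (ℕ × List ℕ) := [(0, []), (1, []), (2, []), (3, []), (4, [8, 18, 16, 13, 12, 9, 6]), (5, [23, 17, 14]), (7, [22, 21, 20, 19, 15, 11, 10])]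


noncomputable def P11 (l : List ℕ) : Bool := isM24 l && (Nat.beq (act l sqM) sqM && Nat.beq (l.getD 0 0) 0)

theorem hP11 : ∀ l, P11 l = true → ∃ g ∈ Spor.M11, Rep g l := by
  intro l h
  simp only [P11, Bool.and_eq_true] at h
  obtain ⟨g, hg, hr⟩ := exists_M24 h.1
  exact ⟨g, mem_M11.2 ⟨⟨hg, dod_of_rep hr h.2.1⟩, fix_of_rep hr 0 (by norm_num) h.2.2⟩, hr⟩

theorem hs11 : Has Spor.M11 as11 := by
  have h : (as11.all P11) = true := by decide +kernel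
  intro l hl
  exact hP11 l (List.all_eq_true.1 h l hl)

theorem pc11 : pcOK as11 es11 = true := by decide +kernel
theorem cen11 : cenOK as11 z11 (2 ^ as11.length) = true := by decide +kernel
theorem ss11_ok : stepsOK P11 as11 [z11] ss11 = true := by decide +kernel
theorem ch11_ok : cardOK as11 ch11 = true := by decide +kernel
theorem pa11_ok : partOK as11 pa11 = true := by decide +kernel
theorem cd11 : Nat.card (gp as11) = 2 ^ as11.length := card_gp hs11 pc11 ch11_ok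

theorem norm11 (N : Subgroup (Equiv.Perm GolayPt)) (hN : N ≤ Spor.M11) (h : St N (gp as11) []) : IsPGroup 2 N := by
  have h0 : St N (gp as11) [0] := ⟨h.le, h.nrm, h.pgr, by
    intro n hn x hx
    rw [List.mem_singleton] at hx
    subst hx
    exact (mem_M11.1 (hN hn)).2⟩
  refine stage' h0 hs11 pa11_ok 1 1 [1] (by decide +kernel) ?_
  have h2 := h0.fixK (p := 1) (by norm_num)
  rw [fix_same hs11 (by decide +kernel)] at h2
  refine stage' h2 hs11 pa11_ok 2 2 [2, 3] (by decide +kernel) ?_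
  have h5 := h2.twin (p := 2) (q := 3) (by norm_num) (by norm_num) (by norm_num)
    (orbit_pair hs11 pa11_ok (by decide +kernel))
  refine four12 ?_ (fun n hn x hx => h5 n hn x hx)
  exact (fixK_sub _ _).trans ((fixK_sub _ _).trans (hN.trans inf_le_left))

theorem simple11 (S : Sylow 2 Spor.M11) : (groupFusionSystem (S : Subgroup Spor.M11)).IsSimple 2 :=
  mat_simple hs11 pc11 (by simp [as11]) (m := 495) (by decide) (by rw [card_M11]; decide +kernel) cd11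
    (lz := z11) (by decide +kernel) cen11 hP11 ss11_ok norm11 S

end Cfsg.Agent.HL.Mat
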