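import Mathlib
import Cfsg.Agent.HL_Mat3

set_option autoImplicit false
set_option linter.unusedVariables false

/-!
The 2-fusion system of M24 is simple.
-/

namespace Cfsg.Agent.HL.Mat

open Cfsg Cfsg.Agent.H7.Golay Cfsg.Agent.H7.Oct Cfsg.Agent.H7.M24 Cfsg.Agent.H14.M24Eng Cfsg.Agent.H14.M24Gen
open scoped Pointwise

/-- polycyclic sequence -/
def as24 : List (List ℕ) := [[3, 2, 1, 0, 12, 5, 11, 10, 15, 22, 7, 6, 4, 13, 14, 8, 19, 17, 18, 16, 20, 21, 9, 23],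
  [4, 7, 2, 3, 0, 5, 11, 1, 8, 21, 10, 6, 12, 18, 19, 15, 17, 16, 13, 14, 22, 9, 20, 23],
  [1, 0, 2, 3, 4, 5, 21, 7, 15, 18, 12, 20, 10, 22, 17, 8, 16, 14, 9, 19, 11, 6, 13, 23],
  [0, 1, 12, 10, 4, 5, 13, 7, 8, 22, 3, 18, 2, 6, 19, 15, 17, 16, 11, 14, 21, 20, 9, 23],
  [0, 1, 3, 2, 4, 5, 18, 7, 8, 21, 12, 13, 10, 11, 17, 15, 19, 14, 6, 16, 22, 9, 20, 23],
  [0, 1, 2, 3, 7, 5, 22, 4, 15, 11, 12, 9, 10, 21, 14, 8, 19, 17, 20, 16, 18, 13, 6, 23],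
  [0, 1, 2, 3, 4, 9, 14, 7, 20, 5, 10, 17, 12, 16, 6, 21, 13, 11, 19, 18, 8, 15, 23, 22],
  [0, 1, 2, 3, 4, 16, 21, 7, 17, 13, 10, 20, 12, 9, 15, 14, 5, 8, 22, 23, 11, 6, 18, 19],
  [0, 1, 2, 3, 4, 15, 13, 7, 23, 21, 10, 18, 12, 6, 16, 5, 14, 19, 11, 17, 22, 9, 20, 8],
  [0, 1, 2, 3, 4, 23, 11, 7, 15, 22, 10, 6, 12, 18, 17, 8, 19, 14, 13, 16, 21, 20, 9, 5]]

/-- relations -/
def es24 : List (ℕ × List ℕ) := [(0, [12, 24, 19, 18, 16, 288, 320, 384, 256]),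
  (0, [8, 2, 4, 1, 80, 224, 64, 128]),
  (0, [3, 2, 4, 88, 16, 96, 64]),
  (0, [1, 3, 36, 56, 16, 32]),
  (0, [1, 10, 20, 8, 16]),
  (0, [15, 10, 12, 8]),
  (0, [1, 2, 4]),
  (0, [1, 2]),
  (0, [1]),
  (0, [])]

/-- central involution -/
def z24 : List ℕ := [0, 1, 2, 3, 4, 23, 11, 7, 15, 22, 10, 6, 12, 18, 17, 8, 19, 14, 13, 16, 21, 20, 9, 5]

/-- derivation -/
def ss24 : List (ℕ × ℕ × List ℕ × List ℕ × ℕ) := [(0, 0, [15, 0, 1, 8, 4, 3, 6, 5, 22, 9, 23, 18, 7, 17, 19, 20, 11, 16, 14, 13, 10, 12, 21, 2], [0, 1, 3, 2, 4, 5, 18, 7, 8, 21, 12, 13, 10, 11, 17, 15, 19, 14, 6, 16, 22, 9, 20, 23], 16),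
  (1, 0, [23, 5, 7, 0, 8, 22, 16, 15, 20, 6, 4, 17, 1, 14, 12, 21, 3, 2, 19, 10, 18, 11, 13, 9], [0, 1, 12, 10, 4, 5, 13, 7, 8, 22, 3, 18, 2, 6, 19, 15, 17, 16, 11, 14, 21, 20, 9, 23], 8),
  (2, 0, [23, 17, 0, 2, 3, 22, 4, 1, 16, 20, 14, 7, 5, 21, 15, 19, 11, 8, 13, 9, 10, 12, 18, 6], [0, 1, 2, 3, 7, 5, 22, 4, 15, 11, 12, 9, 10, 21, 14, 8, 19, 17, 20, 16, 18, 13, 6, 23], 32),
  (3, 0, [16, 7, 4, 19, 2, 10, 9, 5, 6, 11, 23, 18, 3, 14, 15, 21, 22, 8, 17, 13, 0, 1, 20, 12], [1, 0, 2, 3, 4, 5, 21, 7, 15, 18, 12, 20, 10, 22, 17, 8, 16, 14, 9, 19, 11, 6, 13, 23], 4),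
  (4, 0, [23, 2, 5, 10, 8, 16, 14, 3, 18, 9, 15, 19, 12, 11, 22, 13, 7, 20, 6, 1, 4, 0, 21, 17], [4, 7, 2, 3, 0, 5, 11, 1, 8, 21, 10, 6, 12, 18, 19, 15, 17, 16, 13, 14, 22, 9, 20, 23], 2),
  (5, 0, [20, 5, 18, 17, 21, 19, 8, 23, 11, 2, 13, 15, 14, 9, 0, 6, 10, 3, 22, 7, 4, 12, 1, 16], [3, 2, 1, 0, 12, 5, 11, 10, 15, 22, 7, 6, 4, 13, 14, 8, 19, 17, 18, 16, 20, 21, 9, 23], 1),
  (6, 0, [0, 10, 12, 4, 7, 18, 22, 2, 21, 23, 3, 20, 1, 13, 19, 9, 5, 17, 6, 15, 14, 16, 8, 11], [0, 1, 2, 3, 4, 15, 13, 7, 23, 21, 10, 18, 12, 6, 16, 5, 14, 19, 11, 17, 22, 9, 20, 8], 256),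
  (7, 0, [2, 10, 0, 3, 12, 19, 14, 7, 20, 6, 4, 15, 1, 13, 18, 11, 17, 22, 9, 8, 5, 16, 21, 23], [0, 1, 2, 3, 4, 16, 21, 7, 17, 13, 10, 20, 12, 9, 15, 14, 5, 8, 22, 23, 11, 6, 18, 19], 128),
  (8, 0, [2, 3, 4, 12, 7, 22, 15, 1, 8, 13, 10, 21, 0, 5, 17, 20, 19, 11, 9, 18, 14, 6, 16, 23], [0, 1, 2, 3, 4, 9, 14, 7, 20, 5, 10, 17, 12, 16, 6, 21, 13, 11, 19, 18, 8, 15, 23, 22], 64)]

def ch24 : List (ℕ × List ℕ × List ℕ) := [(0, [0, 1, 2, 3, 4, 5, 6, 7, 8, 9], [12, 10, 7, 4, 3, 2, 1]),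
  (2, [3, 4, 5, 6, 7, 8, 9], [12, 10, 3]),
  (4, [5, 6, 7, 8, 9], [7]),
  (5, [6, 7, 8, 9], [20, 17, 14, 11, 8, 6, 23, 22, 21, 19, 18, 16, 15, 13, 9])]

def pa24 : List (ℕ × List ℕ) := [(0, [12, 10, 7, 4, 3, 2, 1]), (5, [14, 8, 6, 23, 22, 21, 20, 19, 18, 17, 16, 15, 13, 11, 9])]

-- tail from 3
def ch24t3 : List (ℕ × List ℕ × List ℕ) := [(2, [0, 1, 2, 3, 4, 5, 6], [12, 10, 3]),
  (4, [2, 3, 4, 5, 6], [7]),
  (5, [3, 4, 5, 6], [20, 17, 14, 11, 8, 6, 23, 22, 21, 19, 18, 16, 15, 13, 9])]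

def pa24t3 : List (ℕ × List ℕ) := [(0, []), (1, []), (2, [12, 10, 3]), (4, [7]), (5, [14, 8, 6, 23, 22, 21, 20, 19, 18, 17, 16, 15, 13, 11, 9])]

-- tail from 5
def ch24t5 : List (ℕ × List ℕ × List ℕ) := [(4, [0, 1, 2, 3, 4], [7]),
  (5, [1, 2, 3, 4], [20, 17, 14, 11, 8, 6, 23, 22, 21, 19, 18, 16, 15, 13, 9])]

def pa24t5 : List (ℕ × List ℕ) := [(0, []), (1, []), (2, []), (3, []), (4, [7]), (5, [14, 8, 6, 23, 22, 21, 20, 19, 18, 17, 16, 15, 13, 11, 9]), (10, [12])]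

-- tail from 6
def ch24t6 : List (ℕ × List ℕ × List ℕ) := [(5, [0, 1, 2, 3], [20, 17, 14, 11, 8, 6, 23, 22, 21, 19, 18, 16, 15, 13, 9])]

def pa24t6 : List (ℕ × List ℕ) := [(0, []), (1, []), (2, []), (3, []), (4, []), (5, [20, 17, 14, 11, 8, 6, 23, 22, 21, 19, 18, 16, 15, 13, 9]), (7, []), (10, []), (12, [])]

/-- tail -/
def as24t3 : List (List ℕ) := as24.drop 3
def es24t3 : List (ℕ × List ℕ) := es24.drop 3
/-- tail -/
def as24t5 : List (List ℕ) := as24.drop 5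
def es24t5 : List (ℕ × List ℕ) := es24.drop 5

noncomputable def P24 (l : List ℕ) : Bool := isM24 l

theorem hP24 : ∀ l, P24 l = true → ∃ g ∈ M24, Rep g l := fun _ h => exists_M24 h

theorem hs24 : Has M24 as24 := by
  have h : (as24.all P24) = true := by decide +kernel
  intro l hl
  exact hP24 l (List.all_eq_true.1 h l hl)

theorem pc24 : pcOK as24 es24 = true := by decide +kernel
theorem cen24 : cenOK as24 z24 (2 ^ as24.length) = true := by decide +kernel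
theorem ss24_ok : stepsOK P24 as24 [z24] ss24 = true := by decide +kernel
theorem ch24_ok : cardOK as24 ch24 = true := by decide +kernel
theorem pa24_ok : partOK as24 pa24 = true := by decide +kernel
theorem cd24 : Nat.card (gp as24) = 2 ^ as24.length := card_gp hs24 pc24 ch24_ok

theorem sub24t3 : ∀ l ∈ as24t3, l ∈ as24 := fun l hl => List.mem_of_mem_drop hl
theorem hs24t3 : Has M24 as24t3 := fun l hl => hs24 l (sub24t3 l hl)
theorem pc24t3 : pcOK as24t3 es24t3 = true := by decide +kernel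
theorem ch24t3_ok : cardOK as24t3 ch24t3 = true := by decide +kernel
theorem pa24t3_ok : partOK as24t3 pa24t3 = true := by decide +kernel
theorem cd24t3 : Nat.card (gp as24t3) = 2 ^ as24t3.length := card_gp hs24t3 pc24t3 ch24t3_ok

theorem sub24t5 : ∀ l ∈ as24t5, l ∈ as24 := fun l hl => List.mem_of_mem_drop hl
theorem hs24t5 : Has M24 as24t5 := fun l hl => hs24 l (sub24t5 l hl)
theorem pc24t5 : pcOK as24t5 es24t5 = true := by decide +kernel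
theorem ch24t5_ok : cardOK as24t5 ch24t5 = true := by decide +kernel
theorem pa24t5_ok : partOK as24t5 pa24t5 = true := by decide +kernel
theorem cd24t5 : Nat.card (gp as24t5) = 2 ^ as24t5.length := card_gp hs24t5 pc24t5 ch24t5_ok

theorem norm24 (N : Subgroup (Equiv.Perm GolayPt)) (hN : N ≤ M24) (h : St N (gp as24) []) : IsPGroup 2 N := by
  refine stage' h hs24 pa24_ok 0 8 [0, 1, 2, 3, 4, 7, 10, 12] (by decide +kernel) ?_
  have h1 := h.fixK (p := 0) (by norm_num)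
  rw [fix_eq hs24 cd24 cd24t3 sub24t3 (p := 0) (m := 8) (by norm_num)
      (by decide +kernel) (by rw [ncard_of_part hs24 pa24_ok (by norm_num)]; decide +kernel) (by decide +kernel)] at h1
  refine stage' h1 hs24t3 pa24t3_ok 1 1 [1] (by decide +kernel) ?_
  have h2 := h1.fixK (p := 1) (by norm_num)
  rw [fix_same hs24t3 (by decide +kernel)] at h2
  refine stage' h2 hs24t3 pa24t3_ok 2 4 [2, 3, 10, 12] (by decide +kernel) ?_
  have h3 := h2.fixK (p := 2) (by norm_num)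
  rw [fix_eq hs24t3 cd24t3 cd24t5 (fun l hl => List.mem_of_mem_drop (show l ∈ (as24t3).drop 2 from by simpa [as24t5, as24t3, List.drop_drop] using hl)) (p := 2) (m := 4) (by norm_num)
      (by decide +kernel) (by rw [ncard_of_part hs24t3 pa24t3_ok (by norm_num)]; decide +kernel) (by decide +kernel)] at h3
  refine stage' h3 hs24t5 pa24t5_ok 3 1 [3] (by decide +kernel) ?_
  have h4 := h3.fixK (p := 3) (by norm_num)
  rw [fix_same hs24t5 (by decide +kernel)] at h4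
  refine stage' h4 hs24t5 pa24t5_ok 4 2 [4, 7, 10, 12] (by decide +kernel) ?_
  have h5 := h4.twin (p := 4) (q := 7) (by norm_num) (by norm_num) (by norm_num)
    (orbit_pair hs24t5 pa24t5_ok (by decide +kernel))
  refine sq_of_le ?_ (fun n hn x hx => h5 n hn x hx)
  exact (fixK_sub _ _).trans ((fixK_sub _ _).trans ((fixK_sub _ _).trans ((fixK_sub _ _).trans ((fixK_sub _ _).trans hN))))

theorem simple24 (S : Sylow 2 M24) : (groupFusionSystem (S : Subgroup M24)).IsSimple 2 :=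
  mat_simple hs24 pc24 (by simp [as24]) (m := 239085) (by decide) (by rw [card_M24]; decide +kernel) cd24
    (lz := z24) (by decide +kernel) cen24 hP24 ss24_ok norm24 S

end Cfsg.Agent.HL.Mat
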