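import Mathlib

set_option autoImplicit false

namespace Cfsg.Agent.HL.Misc13

/-- If `z` is an involution with `C_N(z) = 1`, then `z` inverts the finite normal subgroup `N`. -/
theorem inverts_of_centralizer_inf_eq_bot {H : Type*} [Group H] [Finite H] (z : H)
    (hz : z * z = 1) (N : Subgroup H) [N.Normal]
    (h : N ⊓ Subgroup.centralizer ({z} : Set H) = ⊥) :
    ∀ x ∈ N, z * x * z⁻¹ = x⁻¹ := by
  have hzi : z⁻¹ = z := inv_eq_of_mul_eq_one_left hz
  let f : N → N := fun x => ⟨(x : H)⁻¹ * (z * x * z⁻¹),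
    N.mul_mem (N.inv_mem x.2) (Subgroup.Normal.conj_mem inferInstance _ x.2 z)⟩
  have hinj : Function.Injective f := by
    intro x y hxy
    have h1 : (x : H)⁻¹ * (z * x * z⁻¹) = (y : H)⁻¹ * (z * y * z⁻¹) := congrArg Subtype.val hxy
    have h2 : (y : H) * (x : H)⁻¹ ∈ N ⊓ Subgroup.centralizer ({z} : Set H) := by
      refine Subgroup.mem_inf.2 ⟨N.mul_mem y.2 (N.inv_mem x.2),
        Subgroup.mem_centralizer_singleton_iff.2 ?_⟩
      have h3 : (y : H) * (x : H)⁻¹ = (z * y * z⁻¹) * (z * x * z⁻¹)⁻¹ := by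
        rw [eq_mul_inv_iff_mul_eq, mul_assoc, h1]; group
      calc (y : H) * (x : H)⁻¹ * z = (z * y * z⁻¹) * (z * x * z⁻¹)⁻¹ * z := by rw [← h3]
        _ = z * (y * (x : H)⁻¹) := by group
    rw [h, Subgroup.mem_bot] at h2
    apply Subtype.ext
    exact (mul_inv_eq_one.1 h2).symm
  have hsurj : Function.Surjective f := Finite.surjective_of_injective hinj
  intro y hy
  obtain ⟨x, hx⟩ := hsurj ⟨y, hy⟩
  have hx' : (x : H)⁻¹ * (z * x * z⁻¹) = y := congrArg Subtype.val hx
  rw [← hx', hzi]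
  have h4 : z * ((x : H)⁻¹ * (z * x * z)) * z = z * (x : H)⁻¹ * z * x * (z * z) := by group
  rw [h4, hz, mul_one]
  have h5 : ((x : H)⁻¹ * (z * x * z))⁻¹ = z⁻¹ * (x : H)⁻¹ * z⁻¹ * x := by group
  rw [h5, hzi]

theorem normal_eq_bot_of_fourgroup {H : Type*} [Group H] [Finite H] (E : Subgroup H)
    (hE : IsKleinFour ↥E) (N : Subgroup H) [N.Normal]
    (h : ∀ e ∈ E, e ≠ 1 → N ⊓ Subgroup.centralizer ({e} : Set H) = ⊥) : N = ⊥ := by
  have hcard : Nat.card E = 4 := hE.card_four
  have hsq : ∀ e ∈ E, e * e = 1 := by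
    intro e he
    have := hE.mul_self ⟨e, he⟩
    exact congrArg Subtype.val this
  have : Nontrivial E := by
    rw [← Finite.one_lt_card_iff_nontrivial, hcard]; norm_num
  obtain ⟨a, ha1⟩ := exists_ne (1 : E)
  have : ∃ b : E, b ≠ 1 ∧ b ≠ a := by
    by_contra hcon
    push Not at hcon
    have hle : Nat.card E ≤ 2 := by
      have : (Set.univ : Set E) ⊆ {1, a} := by
        intro x _
        by_cases hx : x = 1
        · simp [hx]
        · simp [hcon x hx]
      calc Nat.card E = (Set.univ : Set E).ncard := (Set.ncard_univ E).symm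
        _ ≤ ({1, a} : Set E).ncard := Set.ncard_le_ncard this (Set.toFinite _)
        _ ≤ 2 := by
          have := Set.ncard_insert_le (1 : E) {a}
          rwa [Set.ncard_singleton] at this
    omega
  obtain ⟨b, hb1, hba⟩ := this
  have ha1' : (a : H) ≠ 1 := fun h => ha1 (Subtype.ext h)
  have hb1' : (b : H) ≠ 1 := fun h => hb1 (Subtype.ext h)
  have hab1 : (a * b : H) ≠ 1 := by
    intro hab
    apply hba
    apply Subtype.ext
    have h1 := hsq a a.2
    have : (a : H) * a = a * b := by rw [h1, hab]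
    exact (mul_left_cancel this).symm
  have ia := inverts_of_centralizer_inf_eq_bot (a : H) (hsq _ a.2) N (h _ a.2 ha1')
  have ib := inverts_of_centralizer_inf_eq_bot (b : H) (hsq _ b.2) N (h _ b.2 hb1')
  have hab2 : (a * b : H) ∈ E := E.mul_mem a.2 b.2
  rw [Subgroup.eq_bot_iff_forall]
  intro x hx
  have h1 : (a * b : H) * x * (a * b : H)⁻¹ = x := by
    calc (a * b : H) * x * (a * b : H)⁻¹ = a * (b * x * (b : H)⁻¹) * (a : H)⁻¹ := by group
      _ = x := by rw [ib x hx, ia _ (N.inv_mem hx), inv_inv]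
  have h2 : x ∈ N ⊓ Subgroup.centralizer ({(a * b : H)} : Set H) := by
    refine Subgroup.mem_inf.2 ⟨hx, Subgroup.mem_centralizer_singleton_iff.2 ?_⟩
    nth_rewrite 1 [← h1]; group
  rw [h _ hab2 hab1, Subgroup.mem_bot] at h2
  exact h2

end Cfsg.Agent.HL.Misc13
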