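import Cfsg.Agent.H4_ZStar
import Cfsg.Agent.H1_Factor
import Cfsg.Agent.H1_Nilp

/-! classes of involutions with `p`-power products. -/

set_option autoImplicit false
open scoped Pointwise commutatorElement

namespace Cfsg.Agent.HL.S1618

open Cfsg

variable {G : Type*} [Group G]

theorem conj_of_odd {s t : G} (hs : s * s = 1) (ht : t * t = 1) (ho : Odd (orderOf (s * t))) :
    ∃ n : ℕ, (s * t) ^ n * s * ((s * t) ^ n)⁻¹ = t := by
  obtain ⟨k, hk⟩ := ho
  have hsi : s⁻¹ = s := inv_eq_of_mul_eq_one_right hs
  have hti : t⁻¹ = t := inv_eq_of_mul_eq_one_right ht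
  have h1 : ∀ n : ℕ, s * ((s * t) ^ n)⁻¹ = (s * t) ^ n * s := by
    intro n
    have e1 : s * (s * t) ^ n * s⁻¹ = ((s * t) ^ n)⁻¹ := by
      rw [← conj_pow, ← inv_pow]
      congr 1
      rw [mul_inv_rev, hsi, hti, ← mul_assoc, hs, one_mul]
    rw [← e1, hsi]
    simp only [← mul_assoc]
    rw [hs, one_mul]
  refine ⟨k, ?_⟩
  rw [mul_assoc, h1, ← mul_assoc, ← pow_add]
  have h2 : (s * t) ^ (k + k) * (s * t) = 1 := by
    rw [← pow_succ, show k + k + 1 = orderOf (s * t) by omega, pow_orderOf_eq_one]
  have h3 : (s * t) ^ (k + k) = (s * t)⁻¹ := eq_inv_of_mul_eq_one_left h2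
  rw [h3, mul_inv_rev, hsi, hti, mul_assoc, hs, mul_one]

theorem main [Finite G] (p : ℕ) (hp : p.Prime) (hodd : p ≠ 2) {D : Set G} (hinv : ∀ d ∈ D, orderOf d = 2)
    (t : G) (htD : t ∈ D) (hD : D = conjugatesOf t) (hgen : Subgroup.closure D = ⊤)
    (hprod : ∀ x ∈ D, ∀ y ∈ D, x ≠ y → ∃ k : ℕ, orderOf (x * y) = p ^ k) : Group.IsNilpotent (commutator G) := by
  classical
  have hpodd : Odd p := hp.odd_of_ne_two hodd
  have hDconj : ∀ d ∈ D, ∀ g : G, g * d * g⁻¹ ∈ D := by
    intro d hd g
    rw [hD] at hd ⊢
    obtain ⟨c, hc⟩ := isConj_iff.mp hd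
    change IsConj _ _
    rw [isConj_iff]
    exact ⟨g * c, by rw [← hc]; group⟩
  have hsq : ∀ d ∈ D, d * d = 1 := by
    intro d hd
    have := pow_orderOf_eq_one d
    rwa [hinv d hd, pow_two] at this
  have hoddprod : ∀ x ∈ D, ∀ y ∈ D, Odd (orderOf (x * y)) := by
    intro x hx y hy
    by_cases hxy : x = y
    · rw [hxy, hsq y hy, orderOf_one]; exact odd_one
    · obtain ⟨k, hk⟩ := hprod x hx y hy hxy
      rw [hk]; exact hpodd.pow
  -- the product of commuting members
  have hcommute : ∀ x ∈ D, ∀ y ∈ D, Commute x y → y = x := by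
    intro x hx y hy hxy
    have h1 : (x * y) ^ 2 = 1 := by
      rw [hxy.mul_pow, pow_two, pow_two, hsq x hx, hsq y hy, one_mul]
    have h2 := orderOf_dvd_of_pow_eq_one h1
    have h3 := hoddprod x hx y hy
    have h4 : orderOf (x * y) = 1 := by
      rcases (Nat.dvd_prime Nat.prime_two).mp h2 with h | h
      · exact h
      · rw [h] at h3; exact absurd h3 (by decide)
    rw [orderOf_eq_one_iff] at h4
    have h5 : x * y = x * x := by rw [h4, hsq x hx]
    exact mul_left_cancel h5
  have hiso : ∀ d ∈ D, IsIsolatedInvolution d := fun d hd => ⟨hinv d hd, fun g hg => hcommute d hd _ (hDconj d hd g) hg⟩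
  set N := pPrimeCore 2 G with hN
  haveI hNn : N.Normal := H1.Nilp.pPrimeCore_normal 2
  have hNodd : Odd (Nat.card N) := by
    have := H1.Nilp.pPrimeCore_coprime (G := G) 2
    exact Nat.coprime_two_right.mp this
  have hz : ∀ g, t * g * t⁻¹ * g⁻¹ ∈ N := fun g => H4.ZStar.zstar (hiso t htD) g
  have hNorder : ∀ n ∈ N, Odd (orderOf n) := by
    intro n hn
    have h1 : orderOf (⟨n, hn⟩ : N) ∣ Nat.card N := orderOf_dvd_natCard _
    rw [Subgroup.orderOf_mk] at h1
    exact Odd.of_dvd_nat hNodd h1
  -- every element is in `N ∪ N t`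
  have hcov : ∀ g : G, g ∈ N ∨ g * t ∈ N := by
    have key : (⊤ : Subgroup G) ≤ N ⊔ Subgroup.zpowers t := by
      rw [← hgen, Subgroup.closure_le]
      intro d hd
      rw [hD] at hd
      obtain ⟨c, hc⟩ := isConj_iff.mp hd
      rw [SetLike.mem_coe, ← hc]
      have h1 : c * t * c⁻¹ = (t * c * t⁻¹ * c⁻¹)⁻¹ * t := by group
      rw [h1]
      exact mul_mem (Subgroup.mem_sup_left (inv_mem (hz c))) (Subgroup.mem_sup_right (Subgroup.mem_zpowers t))
    intro g
    obtain ⟨n, hn, y, hy, hg⟩ := Subgroup.mem_sup_of_normal_left.mp (key (Subgroup.mem_top g))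
    obtain ⟨j, hj⟩ := Subgroup.mem_zpowers_iff.mp hy
    have ht2 : t ^ 2 = 1 := by rw [pow_two]; exact hsq t htD
    rcases Int.even_or_odd j with hj2 | hj2
    · left
      obtain ⟨i, hi⟩ := hj2
      have : y = 1 := by
        rw [← hj, hi, ← two_mul, zpow_mul]
        have : t ^ (2 : ℤ) = 1 := by exact_mod_cast ht2
        rw [this, one_zpow]
      rw [← hg, this, mul_one]; exact hn
    · right
      obtain ⟨i, hi⟩ := hj2
      have : y = t := by
        rw [← hj, hi, zpow_add, zpow_mul]
        have : t ^ (2 : ℤ) = 1 := by exact_mod_cast ht2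
        rw [this, one_zpow, one_mul, zpow_one]
      rw [← hg, this, mul_assoc, hsq t htD, mul_one]; exact hn
  -- all involutions lie in `D`
  have hallinv : ∀ s : G, orderOf s = 2 → s ∈ D := by
    intro s hs
    have hss : s * s = 1 := by rw [← pow_two, ← hs]; exact pow_orderOf_eq_one s
    have h1 : s * t ∈ N := by
      rcases hcov s with h | h
      · exfalso
        have := hNorder s h
        rw [hs] at this
        exact absurd this (by decide)
      · exact h
    obtain ⟨n, hn⟩ := conj_of_odd (hsq t htD) hss (by
      have : t * s = (s * t)⁻¹ := by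
        rw [mul_inv_rev, inv_eq_of_mul_eq_one_right hss, inv_eq_of_mul_eq_one_right (hsq t htD)]
      rw [this, orderOf_inv]
      exact hNorder _ h1)
    rw [← hn]
    exact hDconj t htD _
  -- for each prime `q` there is an involution normalising a Sylow `q`-subgroup of `N`
  have hex : ∀ q : ℕ, ∀ [Fact q.Prime], ∀ Q : Sylow q N, ∃ s ∈ D,
      s ∈ Subgroup.normalizer (((Q : Subgroup N).map N.subtype : Subgroup G) : Set G) := by
    intro q _ Q
    have h1 := Sylow.normalizer_sup_eq_top Q
    set M := Subgroup.normalizer (((Q : Subgroup N).map N.subtype : Subgroup G) : Set G) with hM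
    have h2 : 2 ∣ Nat.card M := by
      by_contra h2
      have hMo : Odd (Nat.card M) := by
        rw [← Nat.not_even_iff_odd, even_iff_two_dvd]; exact h2
      obtain ⟨m, hm, n, hn, hmn⟩ := Subgroup.mem_sup_of_normal_right.mp (show t ∈ M ⊔ N from h1 ▸ Subgroup.mem_top t)
      -- image of `t` in `G/N` has odd order
      have h3 : (QuotientGroup.mk' N) t = (QuotientGroup.mk' N) m := by
        rw [← hmn, map_mul]
        have : (QuotientGroup.mk' N) n = 1 := (QuotientGroup.eq_one_iff n).mpr hn
        rw [this, mul_one]
      have h4 : orderOf ((QuotientGroup.mk' N) t) ∣ 2 := by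
        rw [← hinv t htD]; exact orderOf_map_dvd _ _
      have h5 : Odd (orderOf ((QuotientGroup.mk' N) t)) := by
        rw [h3]
        have h6 : orderOf (⟨m, hm⟩ : M) ∣ Nat.card M := orderOf_dvd_natCard _
        rw [Subgroup.orderOf_mk] at h6
        exact Odd.of_dvd_nat hMo ((orderOf_map_dvd _ _).trans h6)
      have h6 : orderOf ((QuotientGroup.mk' N) t) = 1 := by
        rcases (Nat.dvd_prime Nat.prime_two).mp h4 with h | h
        · exact h
        · rw [h] at h5; exact absurd h5 (by decide)
      rw [orderOf_eq_one_iff] at h6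
      have h7 : t ∈ N := (QuotientGroup.eq_one_iff t).mp h6
      have h8 := hNorder t h7
      rw [hinv t htD] at h8
      exact absurd h8 (by decide)
    obtain ⟨⟨s, hs⟩, hs2⟩ := exists_prime_orderOf_dvd_card' 2 h2
    rw [Subgroup.orderOf_mk] at hs2
    exact ⟨s, hallinv s hs2, hs⟩
  -- the centraliser of an involution has index a power of `p`
  have hcentidx : ∀ q : ℕ, q.Prime → q ≠ p → ∀ s ∈ D, ¬ q ∣ (Subgroup.centralizer ({s} : Set G)).index := by
    intro q hq hqp s0 hs0 hdvd
    haveI : Fact q.Prime := ⟨hq⟩
    -- index of centralisers are all the same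
    have hidx : ∀ s ∈ D, (Subgroup.centralizer ({s} : Set G)).index = (Subgroup.centralizer ({s0} : Set G)).index := by
      intro s hs
      have h1 : ∀ x : G, (Subgroup.centralizer ({x} : Set G)).index = Nat.card (conjugatesOf x) := by
        intro x
        have h2 : conjugatesOf x = MulAction.orbit (ConjAct G) x := by
          ext y; rw [ConjAct.mem_orbit_conjAct, isConj_comm]; rfl
        rw [h2]
        have h3 := MulAction.index_stabilizer (ConjAct G) x
        have h4 : (Subgroup.centralizer ({x} : Set G)).index = (MulAction.stabilizer (ConjAct G) x).index := by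
          rw [ConjAct.stabilizer_eq_centralizer]; rfl
        rw [h4, h3]; rfl
      have h5 : conjugatesOf s = conjugatesOf s0 := by
        rw [hD] at hs hs0
        have e1 := (isConj_iff_conjugatesOf_eq).mp hs
        have e2 := (isConj_iff_conjugatesOf_eq).mp hs0
        rw [← e1, e2]
      rw [h1, h1, h5]
    obtain ⟨Q⟩ : Nonempty (Sylow q N) := inferInstance
    obtain ⟨s, hsD, hsM⟩ := hex q Q
    rw [← hidx s hsD] at hdvd
    -- `Q` centralises `s`
    have hcent : (Q : Subgroup N).map N.subtype ≤ Subgroup.centralizer ({s} : Set G) := by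
      intro a ha
      have h1 : s * a * s⁻¹ * a⁻¹ ∈ (Q : Subgroup N).map N.subtype :=
        mul_mem ((Subgroup.mem_normalizer_iff.mp hsM a).mp ha) (inv_mem ha)
      have h2 : s * a * s⁻¹ * a⁻¹ = s * (a * s * a⁻¹) := by
        rw [inv_eq_of_mul_eq_one_right (hsq s hsD)]; group
      have h3 : a * s * a⁻¹ = s := by
        by_contra hne
        obtain ⟨k, hk⟩ := hprod s hsD _ (hDconj s hsD a) (fun hh => hne hh.symm)
        have hQ : IsPGroup q ((Q : Subgroup N).map N.subtype) := Q.isPGroup'.map _
        obtain ⟨j, hj⟩ := (IsPGroup.iff_orderOf.mp hQ) ⟨_, h1⟩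
        rw [Subgroup.orderOf_mk, h2, hk] at hj
        have h4 : orderOf (s * (a * s * a⁻¹)) = 1 := by
          rw [hk]
          rcases Nat.eq_zero_or_pos k with h0 | h0
          · rw [h0, pow_zero]
          · exfalso
            have h5 : p ∣ q ^ j := by rw [← hj]; exact dvd_pow_self _ (by omega)
            exact hqp ((Nat.prime_dvd_prime_iff_eq hp hq).mp (hp.dvd_of_dvd_pow h5)).symm
        rw [orderOf_eq_one_iff] at h4
        apply hne
        have h5 : s * (a * s * a⁻¹) = s * s := by rw [h4, hsq s hsD]
        exact mul_left_cancel h5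
      rw [Subgroup.mem_centralizer_singleton_iff]
      rw [mul_inv_eq_iff_eq_mul] at h3
      exact h3
    -- index computation
    have h1 : (Subgroup.centralizer ({s} : Set G)).index * Nat.card (Subgroup.centralizer ({s} : Set G)) = Nat.card G :=
      Subgroup.index_mul_card _
    by_cases hq2 : q = 2
    · subst hq2
      -- |G| = 2 |N|
      have h2 : 2 ∣ Nat.card (Subgroup.centralizer ({s} : Set G)) := by
        have h3 : orderOf (⟨s, Subgroup.mem_centralizer_singleton_iff.mpr rfl⟩ : Subgroup.centralizer ({s} : Set G)) ∣ _ :=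
          orderOf_dvd_natCard _
        rw [Subgroup.orderOf_mk, hinv s hsD] at h3
        exact h3
      have h3 : N.index ∣ 2 := by
        have h4 : N.index ≤ 2 := by
          rw [Subgroup.index]
          have : Function.Surjective (fun i : Fin 2 => if i = 0 then (QuotientGroup.mk 1 : G ⧸ N) else QuotientGroup.mk t) := by
            intro x
            induction x using QuotientGroup.induction_on with
            | H g =>
              rcases hcov g with h | h
              · refine ⟨0, ?_⟩
                simp only [if_true]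
                rw [QuotientGroup.eq]; simpa using h
              · refine ⟨1, ?_⟩
                simp only [Fin.isValue, one_ne_zero, if_false]
                rw [QuotientGroup.eq]
                have : t⁻¹ * g = t⁻¹ * (g * t) * t⁻¹⁻¹ * (t⁻¹ * t⁻¹) := by group
                rw [this]
                have h5 : t⁻¹ * t⁻¹ = 1 := by rw [← mul_inv_rev, hsq t htD, inv_one]
                rw [h5, mul_one]
                exact hNn.conj_mem _ h t⁻¹
          have h5 := Nat.card_le_card_of_surjective _ this
          simpa using h5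
        interval_cases h6 : N.index
        · exact absurd h6 Subgroup.index_ne_zero_of_finite
        · exact one_dvd _
        · exact dvd_refl _
      have h4 : 2 * 2 ∣ 2 * Nat.card N := by
        calc 2 * 2 ∣ (Subgroup.centralizer ({s} : Set G)).index * Nat.card (Subgroup.centralizer ({s} : Set G)) := mul_dvd_mul hdvd h2
          _ = N.index * Nat.card N := by rw [h1, Subgroup.index_mul_card]
          _ ∣ 2 * Nat.card N := Nat.mul_dvd_mul_right h3 _
      have h5 : 2 ∣ Nat.card N := Nat.dvd_of_mul_dvd_mul_left (by norm_num) h4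
      rw [← even_iff_two_dvd] at h5
      exact (Nat.not_even_iff_odd.mpr hNodd) h5
    · have h2 : Nat.card Q ∣ Nat.card (Subgroup.centralizer ({s} : Set G)) := by
        have h3 := Subgroup.card_dvd_of_le hcent
        rwa [Subgroup.card_map_of_injective N.subtype_injective] at h3
      have h3 : q ∣ (Q : Subgroup N).index * N.index := by
        have h4 : (Q : Subgroup N).index * N.index * Nat.card Q = Nat.card G := by
          rw [mul_assoc, mul_comm N.index, ← mul_assoc, Subgroup.index_mul_card, mul_comm, Subgroup.index_mul_card]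
        obtain ⟨c, hc⟩ := h2
        have h5 : (Q : Subgroup N).index * N.index * Nat.card Q = (Subgroup.centralizer ({s} : Set G)).index * c * Nat.card Q := by
          rw [h4, ← h1, hc]; ring
        have h6 := Nat.eq_of_mul_eq_mul_right Nat.card_pos h5
        rw [h6]; exact Dvd.dvd.mul_right hdvd _
      rcases hq.dvd_mul.mp h3 with h4 | h4
      · exact Q.not_dvd_index h4
      · have h5 : N.index ∣ 2 ^ 2 := by
          -- N.index ∣ 2 again
          have h4' : N.index ≤ 2 := by
            rw [Subgroup.index]
            have : Function.Surjective (fun i : Fin 2 => if i = 0 then (QuotientGroup.mk 1 : G ⧸ N) else QuotientGroup.mk t) := by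
              intro x
              induction x using QuotientGroup.induction_on with
              | H g =>
                rcases hcov g with h | h
                · refine ⟨0, ?_⟩
                  simp only [if_true]
                  rw [QuotientGroup.eq]; simpa using h
                · refine ⟨1, ?_⟩
                  simp only [Fin.isValue, one_ne_zero, if_false]
                  rw [QuotientGroup.eq]
                  have : t⁻¹ * g = t⁻¹ * (g * t) * t⁻¹⁻¹ * (t⁻¹ * t⁻¹) := by group
                  rw [this]
                  have h5 : t⁻¹ * t⁻¹ = 1 := by rw [← mul_inv_rev, hsq t htD, inv_one]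
                  rw [h5, mul_one]
                  exact hNn.conj_mem _ h t⁻¹
            have h5 := Nat.card_le_card_of_surjective _ this
            simpa using h5
          interval_cases h6 : N.index
          · exact absurd h6 Subgroup.index_ne_zero_of_finite
          · exact one_dvd _
          · exact ⟨2, rfl⟩
        have h6 := (Nat.prime_dvd_prime_iff_eq hq Nat.prime_two).mp (hq.dvd_of_dvd_pow (h4.trans h5))
        exact hq2 h6
  -- Now take `q = p`
  haveI : Fact p.Prime := ⟨hp⟩
  obtain ⟨P⟩ : Nonempty (Sylow p N) := inferInstance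
  obtain ⟨s, hsD, hsM⟩ := hex p P
  set P' := (P : Subgroup N).map N.subtype with hP'
  have hcop : P'.index.Coprime (Subgroup.centralizer ({s} : Set G)).index := by
    rw [Nat.coprime_iff_gcd_eq_one]
    by_contra hne
    obtain ⟨q, hq, hqd⟩ := Nat.exists_prime_and_dvd hne
    have h1 := hqd.trans (Nat.gcd_dvd_left _ _)
    have h2 := hqd.trans (Nat.gcd_dvd_right _ _)
    have hqp : q = p := by
      by_contra hqp
      exact hcentidx q hq hqp s hsD h2
    subst hqp
    have h3 : P'.index = (P : Subgroup N).index * N.index := by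
      have := Subgroup.index_map_subtype (P : Subgroup N)
      rw [hP', this]
    rw [h3] at h1
    rcases hq.dvd_mul.mp h1 with h4 | h4
    · exact P.not_dvd_index h4
    · -- N.index is not divisible by p
      have hNi : N.index ∣ 2 := by
        have h4' : N.index ≤ 2 := by
          rw [Subgroup.index]
          have : Function.Surjective (fun i : Fin 2 => if i = 0 then (QuotientGroup.mk 1 : G ⧸ N) else QuotientGroup.mk t) := by
            intro x
            induction x using QuotientGroup.induction_on with
            | H g =>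
              rcases hcov g with h | h
              · refine ⟨0, ?_⟩
                simp only [if_true]
                rw [QuotientGroup.eq]; simpa using h
              · refine ⟨1, ?_⟩
                simp only [Fin.isValue, one_ne_zero, if_false]
                rw [QuotientGroup.eq]
                have : t⁻¹ * g = t⁻¹ * (g * t) * t⁻¹⁻¹ * (t⁻¹ * t⁻¹) := by group
                rw [this]
                have h5 : t⁻¹ * t⁻¹ = 1 := by rw [← mul_inv_rev, hsq t htD, inv_one]
                rw [h5, mul_one]
                exact hNn.conj_mem _ h t⁻¹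
          have h5 := Nat.card_le_card_of_surjective _ this
          simpa using h5
        interval_cases h6 : N.index
        · exact absurd h6 Subgroup.index_ne_zero_of_finite
        · exact one_dvd _
        · exact dvd_refl _
      exact hodd ((Nat.prime_dvd_prime_iff_eq hq Nat.prime_two).mp (h4.trans hNi))
  obtain ⟨-, hfac⟩ := H1.Factor.index_inf_of_coprime _ _ hcop
  -- `P'` is normal
  have hDP : ∀ d ∈ D, d * s ∈ P' := by
    intro d hd
    have h1 : ∃ g : G, g * s * g⁻¹ = d := by
      rw [hD] at hd hsD
      exact isConj_iff.mp ((IsConj.symm hsD).trans hd)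
    obtain ⟨g, rfl⟩ := h1
    obtain ⟨a, ha, c, hc, rfl⟩ := hfac g
    have h2 : c * s * c⁻¹ = s := by
      rw [mul_inv_eq_iff_eq_mul]
      exact Subgroup.mem_centralizer_singleton_iff.mp hc
    have h3 : a * c * s * (a * c)⁻¹ * s = a * (s * a⁻¹ * s⁻¹) := by
      calc a * c * s * (a * c)⁻¹ * s = a * (c * s * c⁻¹) * a⁻¹ * s := by group
        _ = a * s * a⁻¹ * s := by rw [h2]
        _ = a * (s * a⁻¹ * s⁻¹) := by rw [inv_eq_of_mul_eq_one_right (hsq s hsD)]; group
    rw [h3]
    exact mul_mem ha ((Subgroup.mem_normalizer_iff.mp hsM _).mp (inv_mem ha))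
  have hPn : P'.Normal := by
    have h1 : Subgroup.normalizer (P' : Set G) = ⊤ := by
      rw [← top_le_iff, ← hgen, Subgroup.closure_le]
      intro d hd
      have h2 : d = (d * s) * s := by rw [mul_assoc, hsq s hsD, mul_one]
      rw [SetLike.mem_coe, h2]
      exact mul_mem (Subgroup.le_normalizer (hDP d hd)) hsM
    exact Subgroup.normalizer_eq_top_iff.mp h1
  haveI := hPn
  have hcomm : commutator G ≤ P' := by
    have h1 : ∀ g : G, ∃ n : ℤ, (QuotientGroup.mk' P') g = (QuotientGroup.mk' P' s) ^ n := by
      have h2 : (⊤ : Subgroup G) ≤ (Subgroup.zpowers (QuotientGroup.mk' P' s)).comap (QuotientGroup.mk' P') := by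
        rw [← hgen, Subgroup.closure_le]
        intro d hd
        rw [SetLike.mem_coe, Subgroup.mem_comap]
        have h3 : d = (d * s) * s := by rw [mul_assoc, hsq s hsD, mul_one]
        have h4 : (QuotientGroup.mk' P') (d * s) = 1 := (QuotientGroup.eq_one_iff _).mpr (hDP d hd)
        rw [h3, map_mul, h4, one_mul]
        exact Subgroup.mem_zpowers _
      intro g
      obtain ⟨n, hn⟩ := Subgroup.mem_zpowers_iff.mp (h2 (Subgroup.mem_top g))
      exact ⟨n, hn.symm⟩
    rw [commutator_def, Subgroup.commutator_le]
    intro a _ b _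
    have h3 : (QuotientGroup.mk' P') ⁅a, b⁆ = 1 := by
      obtain ⟨n, hn⟩ := h1 a
      obtain ⟨k, hk⟩ := h1 b
      rw [commutatorElement_def, map_mul, map_mul, map_mul, map_inv, map_inv, hn, hk]
      group
    exact (QuotientGroup.eq_one_iff _).mp h3
  have hPp : IsPGroup p P' := P.isPGroup'.map _
  exact (hPp.to_le hcomm).isNilpotent

end Cfsg.Agent.HL.S1618
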