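import Cfsg.Agent.HL_SzSubJ

/-! Suzuki groups: 2-generation. -/

set_option autoImplicit false
set_option linter.unusedSimpArgs false
open scoped Pointwise MatrixGroups Matrix commutatorElement

namespace Cfsg.Agent.HL.Sz

open Cfsg.Agent.HL.SzAbs Cfsg.Agent.HL.TI

section

variable {F : Type*} [Field F] {m : ℕ} {θ : F →+* F}

/-- the torus meets a subfield subgroup in a small group -/
theorem sub_large_order [Fintype F] (hm : 1 ≤ m) (hF : Fintype.card F = 2 ^ (2 * m + 1)) (K : Subfield F)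
    (hK : ∃ k ∈ K, k ≠ 0 ∧ k ≠ 1) (x : Cfsg.Sz F m) (hx : x ∈ Std F m K) (hodd : Odd (orderOf x))
    (hxo : 2 ^ (2 * m + 1) - 1 ≤ orderOf x) : K = ⊤ := by
  obtain ⟨k, hk1, hk, hdiv⟩ := subfield_card hF K hK
  haveI : Fintype K := Fintype.ofFinite K
  obtain ⟨e⟩ := std_iso hm hF K hk1 hk hdiv (L := K) (by rw [← Nat.card_eq_fintype_card, hk])
  by_contra hne
  have hkm : k < m := by
    have h1 : k ≤ m := by
      have := Nat.le_of_dvd (by omega) hdiv
      omega
    rcases lt_or_eq_of_le h1 with h | h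
    · exact h
    · exfalso
      subst h
      apply hne
      have h2 : (K : Set F) = Set.univ := by
        apply Set.eq_of_subset_of_ncard_le (Set.subset_univ _)
        rw [Set.ncard_univ, Nat.card_eq_fintype_card, hF, ← hk]; exact le_of_eq rfl
      apply SetLike.coe_injective
      rw [h2]; rfl
  have hb : ∃ y : Cfsg.Sz K k, orderOf y = orderOf x := by
    refine ⟨e ⟨x, hx⟩, ?_⟩
    rw [MulEquiv.orderOf_eq, Subgroup.orderOf_mk]
  obtain ⟨y, hy⟩ := hb
  have h8 : 8 ≤ 2 ^ (2 * m + 1) := q_ge hm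
  have hy1 : y ≠ 1 := by
    rintro rfl
    rw [orderOf_one] at hy
    omega
  obtain ⟨hc1, hc2, hc3⟩ := odd_cent hk1 (F := K) (by rw [← Nat.card_eq_fintype_card, hk]) y hy1 (by rw [hy]; exact hodd)
  have h1 := order_dvd_card y
  have h2 := Nat.le_of_dvd Nat.card_pos h1
  rw [hy] at h2
  -- sizes
  have h3 : 3 * (2 * k + 1) ≤ 2 * m + 1 := by
    obtain ⟨c, hc⟩ := hdiv
    have hc0 : c ≠ 0 := by rintro rfl; omega
    have hc1 : c ≠ 1 := by rintro rfl; omega
    have hc2 : c ≠ 2 := by rintro rfl; omega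
    have : 3 ≤ c := by omega
    nlinarith
  have h4 : 2 ^ (3 * (2 * k + 1)) ≤ 2 ^ (2 * m + 1) := Nat.pow_le_pow_right (by omega) h3
  have h5 : 2 ^ (3 * (2 * k + 1)) = 2 ^ (2 * k + 1) * 2 ^ (2 * k + 1) * 2 ^ (2 * k + 1) := by
    rw [← pow_add, ← pow_add]; congr 1; ring
  have h6 : 2 ^ (k + 1) ≤ 2 ^ (2 * k + 1) := Nat.pow_le_pow_right (by omega) (by omega)
  have h7 : 8 ≤ 2 ^ (2 * k + 1) := q_ge hk1
  have h6' : 0 < 2 ^ (k + 1) := by positivity
  have h8' : Nat.card (Subgroup.centralizer ({y} : Set (Cfsg.Sz K k))) ≤ 2 * 2 ^ (2 * k + 1) + 1 := by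
    rcases hc2 with h | h | h
    · rw [h]; omega
    · rw [h]; omega
    · rw [Set.mem_singleton_iff] at h
      rw [h]; omega
  have h9 : 2 ^ (2 * k + 1) * 2 ^ (2 * k + 1) * 2 ^ (2 * k + 1) ≥ 64 * 2 ^ (2 * k + 1) := by nlinarith
  omega

theorem two_gen [Fintype F] (hm : 1 ≤ m) (hF : Fintype.card F = 2 ^ (2 * m + 1)) :
    ∃ a b : Cfsg.Sz F m, Subgroup.closure ({a, b} : Set (Cfsg.Sz F m)) = ⊤ := by
  obtain ⟨θ, h, hθ⟩ := exists_theta hF
  obtain ⟨k0, hk0⟩ := IsCyclic.exists_generator (α := Fˣ)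
  have hord : orderOf k0 = 2 ^ (2 * m + 1) - 1 := by
    rw [orderOf_eq_card_of_forall_mem_zpowers hk0, Nat.card_units, Nat.card_eq_fintype_card, hF]
  have h8 : 8 ≤ 2 ^ (2 * m + 1) := q_ge hm
  have hk01 : k0 ≠ 1 := by
    rintro rfl
    rw [orderOf_one] at hord; omega
  have hDord : orderOf (De h hθ k0) = 2 ^ (2 * m + 1) - 1 := by
    rw [← hord]
    exact orderOf_injective (Dhom h hθ) (fun a b hab => D_inj (congrArg Subtype.val hab)) k0
  have hDodd : Odd (orderOf (De h hθ k0)) := by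
    rw [hDord, Nat.odd_iff]
    have h2 : 2 ∣ 2 ^ (2 * m + 1) := dvd_pow_self _ (by omega)
    omega
  have hD1 : De h hθ k0 ≠ 1 := by
    intro hh
    rw [hh, orderOf_one] at hDord
    omega
  set a := De h hθ k0 with ha
  set b := Ue h hθ 1 0 * We h hθ with hb
  have hbn : b.1 • pt θ none = pt θ (some (1, 0)) := by
    change (U θ 1 0 * W F) • pt θ none = _
    rw [mul_smul, W_none, U_some h]; simp
  have hb0 : b.1 • pt θ (some (0, 0)) = pt θ none := by
    change (U θ 1 0 * W F) • pt θ (some (0, 0)) = _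
    rw [mul_smul, W_zero, U_none]
  refine ⟨a, b, ?_⟩
  set M := Subgroup.closure ({a, b} : Set (Cfsg.Sz F m)) with hM
  have haM : a ∈ M := Subgroup.subset_closure (by simp)
  have hbM : b ∈ M := Subgroup.subset_closure (by simp)
  rcases subgroups hm hF M with ⟨P, hP⟩ | ⟨x, hx1, hxo, hx⟩ | ⟨K, u, hK, hu⟩
  · exfalso
    obtain ⟨p, hp⟩ := borel_fix hm hF h hθ P
    have h1 := (hp a).mp (hP haM)
    have h2 := (hp b).mp (hP hbM)
    rcases D_fix h k0 hk01 p h1 with rfl | rfl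
    · rw [hbn] at h2
      have := pt_inj θ h2
      simp at this
    · rw [hb0] at h2
      have := pt_inj θ h2
      simp at this
  · exfalso
    have h1 := odd_mem hm hF x a hx1 hxo hDodd (hx haM)
    have h2 := (odd_cent hm hF x hx1 hxo).2.2 a h1 hD1
    have h3 := hx hbM
    rw [← h2, cent_Dsub hm hF h hθ a ⟨k0, rfl⟩ hD1] at h3
    obtain ⟨r, hr, hr'⟩ := norm_D_perm hm hF h hθ b h3 none (Or.inl rfl)
    rw [hbn] at hr'
    have := pt_inj θ hr'
    rcases hr with rfl | rfl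
    · simp at this
    · simp at this
  · have h1 := (hu a).mp haM
    have h2 : orderOf (u⁻¹ * a * u) = orderOf a := orderOf_conj' a u
    have h3 := sub_large_order hm hF K hK _ h1 (by rw [h2]; exact hDodd) (by rw [h2, hDord])
    subst h3
    ext x
    rw [hu]
    exact ⟨fun _ => trivial, fun _ i j => trivial⟩

end

end Cfsg.Agent.HL.Sz
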