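import Mathlib
import Cfsg.Agent.H14_Schur2
import Cfsg.Agent.HL_SzSylow
import Cfsg.Agent.HL_SzTorus
import Cfsg.Agent.HL_SzSubC
import Cfsg.Agent.HL_SzModelB

set_option autoImplicit false
set_option linter.unusedSectionVars false
set_option linter.unusedVariables false

/-!
The Schur multiplier of `Sz(q)`, `q ≥ 32`, is trivial.
-/

namespace Cfsg.Agent.HL.SzMult

open Subgroup Cfsg Cfsg.Agent.H14.Schur Cfsg.Agent.HL.Sz
open scoped Pointwise commutatorElement MatrixGroups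

universe u v w

/-- invariant bilinear maps vanish -/
theorem kill {F : Type w} [Field F] [CharP F 2] {Γ : Type v} [Group Γ] (β : F → F → Γ) (h1 : ∀ a a' b, β (a + a') b = β a b * β a' b)
    (h2 : ∀ a b b', β a (b + b') = β a b * β a b') (g : F → F) (hinv : ∀ l, l ≠ 0 → ∀ a b, β (l * a) (g l * b) = β a b)
    (hg : ∀ l, l ≠ 0 → g l ≠ 0) {x y : F} (hx : x ≠ 0) (hy : y ≠ 0) (hxy : x + y ≠ 0)
    (hne : (g x)⁻¹ + (g y)⁻¹ + (g (x + y))⁻¹ ≠ 0) (a b : F) : β a b = 1 := by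
  have e2 : ∀ t : F, t + t = 0 := fun t => CharTwo.add_self_eq_zero t
  have z2 : ∀ a, β a 0 = 1 := by
    intro a
    have := h2 a 0 0
    rw [add_zero] at this
    exact left_eq_mul.1 this
  have z1 : ∀ b, β 0 b = 1 := by
    intro b
    have := h1 0 0 b
    rw [add_zero] at this
    exact left_eq_mul.1 this
  have sq : ∀ a b, β a b * β a b = 1 := by
    intro a b
    rw [← h2, e2, z2]
  have key : ∀ l, l ≠ 0 → ∀ b, β l b = β 1 ((g l)⁻¹ * b) := by
    intro l hl b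
    have := hinv l hl 1 ((g l)⁻¹ * b)
    rwa [mul_one, mul_inv_cancel_left₀ (hg l hl)] at this
  have one : ∀ b, β 1 b = 1 := by
    intro b
    obtain ⟨c, hc⟩ : ∃ c, c = ((g x)⁻¹ + (g y)⁻¹ + (g (x + y))⁻¹)⁻¹ * b := ⟨_, rfl⟩
    have hb : b = (g x)⁻¹ * c + (g y)⁻¹ * c + (g (x + y))⁻¹ * c := by
      rw [← add_mul, ← add_mul, hc, mul_inv_cancel_left₀ hne]
    rw [hb, h2, ← key _ hxy, h1, key _ hx, key _ hy, h2, ← h2, sq]
  by_cases ha : a = 0
  · rw [ha]; exact z1 b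
  · rw [key a ha]; exact one _

section

variable {Γ : Type u} {G : Type v} [Group Γ] [Group G] {σ : Γ →* G}

theorem comm_eq (hc : σ.ker ≤ center Γ) {x y x' y' : Γ} (hx : σ x = σ x') (hy : σ y = σ y') : ⁅x, y⁆ = ⁅x', y'⁆ := by
  obtain ⟨z, hz, -, rfl⟩ := eq_mul_ker hc hx
  obtain ⟨w, hw, -, rfl⟩ := eq_mul_ker hc hy
  rw [H14.Schur.comm_mul_left hz, H14.Schur.comm_mul_right hw]

theorem conj_eq (hc : σ.ker ≤ center Γ) {x x' : Γ} (hx : σ x = σ x') (y : Γ) : x * y * x⁻¹ = x' * y * x'⁻¹ := by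
  obtain ⟨z, hz, -, rfl⟩ := eq_mul_ker hc hx
  have h := Subgroup.mem_center_iff.1 hz
  calc x' * z * y * (x' * z)⁻¹ = x' * (z * y) * z⁻¹ * x'⁻¹ := by group
    _ = x' * y * x'⁻¹ := by rw [← h]; group

theorem mul_left' {x y z : Γ} (h : x * ⁅y, z⁆ = ⁅y, z⁆ * x) (h2 : ⁅y, z⁆ * ⁅x, z⁆ = ⁅x, z⁆ * ⁅y, z⁆) : ⁅x * y, z⁆ = ⁅x, z⁆ * ⁅y, z⁆ := by
  have e : ⁅x * y, z⁆ = x * ⁅y, z⁆ * x⁻¹ * ⁅x, z⁆ := by
    simp only [commutatorElement_def]; group
  rw [e, h, mul_inv_cancel_right, h2]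

theorem mul_right' {x y z : Γ} (h : y * ⁅x, z⁆ = ⁅x, z⁆ * y) : ⁅x, y * z⁆ = ⁅x, y⁆ * ⁅x, z⁆ := by
  have e : ⁅x, y * z⁆ = ⁅x, y⁆ * (y * ⁅x, z⁆ * y⁻¹) := by
    simp only [commutatorElement_def]; group
  rw [e, h, mul_inv_cancel_right]

end

section

variable {F : Type u} [Field F] [Fintype F] {m : ℕ} {θ : F →+* F}

theorem exists_id (hm : 1 ≤ m) (hF : Fintype.card F = 2 ^ (2 * m + 1)) [CharP F 2] :
    ∃ t : F, t ≠ 0 ∧ 1 + t ≠ 0 ∧ (1 : F)⁻¹ + t⁻¹ + (1 + t)⁻¹ ≠ 0 := by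
  classical
  have h1 : ∃ t : F, (((Polynomial.X ^ 2 + Polynomial.X + 1) * Polynomial.X * (Polynomial.X + 1) : Polynomial F)).eval t ≠ 0 := by
    apply Polynomial.exists_eval_ne_zero_of_natDegree_lt_card
    · intro h
      have h2 := congrArg Polynomial.natDegree h
      have h3 : ((Polynomial.X ^ 2 + Polynomial.X + 1) * Polynomial.X * (Polynomial.X + 1) : Polynomial F).natDegree = 4 := by
        compute_degree!
      rw [h3] at h2
      simp at h2
    · have h3 : ((Polynomial.X ^ 2 + Polynomial.X + 1) * Polynomial.X * (Polynomial.X + 1) : Polynomial F).natDegree ≤ 4 := by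
        compute_degree
      rw [Cardinal.mk_fintype, hF]
      norm_cast
      have : 2 ^ 3 ≤ 2 ^ (2 * m + 1) := Nat.pow_le_pow_right (by norm_num) (by omega)
      omega
  obtain ⟨t, ht⟩ := h1
  simp only [Polynomial.eval_mul, Polynomial.eval_add, Polynomial.eval_pow, Polynomial.eval_X, Polynomial.eval_one] at ht
  have t0 : t ≠ 0 := fun h => ht (by rw [h]; ring)
  have t1 : 1 + t ≠ 0 := fun h => ht (by rw [add_comm t 1, h]; ring)
  refine ⟨t, t0, t1, fun h => ht ?_⟩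
  have h2 : (2 : F) = 0 := CharTwo.two_eq_zero
  have h3 : t ^ 2 + t + 1 = 0 := by
    field_simp at h
    linear_combination h - (t) * h2
  rw [h3]; ring

theorem exists_theta (hm : 2 ≤ m) (hF : Fintype.card F = 2 ^ (2 * m + 1)) [CharP F 2] (hθ : ∀ x, θ x = x ^ (2 ^ (m + 1))) :
    ∃ t : F, t ≠ 0 ∧ 1 + t ≠ 0 ∧ ((1 : F) * θ 1)⁻¹ + (t * θ t)⁻¹ + ((1 + t) * θ (1 + t))⁻¹ ≠ 0 := by
  classical
  obtain ⟨n, hn⟩ : ∃ n, n = 2 ^ (m + 1) := ⟨_, rfl⟩
  let P : Polynomial F := (Polynomial.X * Polynomial.X ^ n * ((1 + Polynomial.X) * (1 + Polynomial.X ^ n)) +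
    (1 + Polynomial.X) * (1 + Polynomial.X ^ n) + Polynomial.X * Polynomial.X ^ n)
  have hn0 : n ≠ 0 := by rw [hn]; positivity
  have hP0 : P ≠ 0 := by
    intro h
    have := congrArg (Polynomial.eval 0) h
    simp [P, hn0] at this
  have dX : (Polynomial.X : Polynomial F).natDegree ≤ 1 := Polynomial.natDegree_X_le
  have dXn : (Polynomial.X ^ n : Polynomial F).natDegree ≤ n := Polynomial.natDegree_X_pow_le n
  have d1 : (1 + Polynomial.X : Polynomial F).natDegree ≤ 1 := Polynomial.natDegree_add_le_of_degree_le (by simp) dX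
  have d2 : (1 + Polynomial.X ^ n : Polynomial F).natDegree ≤ n := Polynomial.natDegree_add_le_of_degree_le (by simp) dXn
  have dA : (Polynomial.X * Polynomial.X ^ n : Polynomial F).natDegree ≤ 1 + n := Polynomial.natDegree_mul_le_of_le dX dXn
  have dB : ((1 + Polynomial.X) * (1 + Polynomial.X ^ n) : Polynomial F).natDegree ≤ 1 + n := Polynomial.natDegree_mul_le_of_le d1 d2
  have dP : P.natDegree ≤ (1 + n) + (1 + n) := by
    refine Polynomial.natDegree_add_le_of_degree_le (Polynomial.natDegree_add_le_of_degree_le ?_ (by omega)) (by omega)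
    exact Polynomial.natDegree_mul_le_of_le dA dB
  have h1 : ∃ t : F, (P * Polynomial.X * (1 + Polynomial.X)).eval t ≠ 0 := by
    apply Polynomial.exists_eval_ne_zero_of_natDegree_lt_card
    · refine mul_ne_zero (mul_ne_zero hP0 Polynomial.X_ne_zero) ?_
      intro h
      have := congrArg (Polynomial.eval 0) h
      simp at this
    · have h3 : (P * Polynomial.X * (1 + Polynomial.X)).natDegree ≤ (1 + n) + (1 + n) + 1 + 1 :=
        Polynomial.natDegree_mul_le_of_le (Polynomial.natDegree_mul_le_of_le dP dX) d1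
      rw [Cardinal.mk_fintype, hF]
      norm_cast
      refine lt_of_le_of_lt h3 ?_
      have e1 : 2 ^ (2 * m + 1) = 2 ^ (m - 2) * 4 * 2 ^ (m + 1) := by
        rw [show (4 : ℕ) = 2 ^ 2 from rfl, ← pow_add, ← pow_add]; congr 1; omega
      have e2 : 1 ≤ 2 ^ (m - 2) := Nat.one_le_two_pow
      have e3 : 2 ^ 3 ≤ 2 ^ (m + 1) := Nat.pow_le_pow_right (by norm_num) (by omega)
      have e4 : 4 * n ≤ 2 ^ (2 * m + 1) := by
        rw [e1, ← hn]
        nlinarith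
      rw [← hn] at e3
      omega
  obtain ⟨t, ht⟩ := h1
  simp only [P, Polynomial.eval_mul, Polynomial.eval_add, Polynomial.eval_pow, Polynomial.eval_X, Polynomial.eval_one] at ht
  rw [hn, ← hθ t] at ht
  have t0 : t ≠ 0 := fun h => ht (by rw [h]; ring)
  have t1 : 1 + t ≠ 0 := fun h => ht (by rw [h]; ring)
  have u0 : θ t ≠ 0 := by rwa [Ne, map_eq_zero]
  have u1 : 1 + θ t ≠ 0 := by
    have : 1 + θ t = θ (1 + t) := by rw [map_add, map_one]
    rw [this, Ne, map_eq_zero]; exact t1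
  refine ⟨t, t0, t1, fun h => ht ?_⟩
  have h3 : t * θ t * ((1 + t) * (1 + θ t)) + (1 + t) * (1 + θ t) + t * θ t = 0 := by
    rw [map_one, map_add, map_one, mul_one, inv_one] at h
    field_simp at h
    linear_combination h
  rw [h3]; ring

end

section

variable {F : Type u} [Field F] [Fintype F] {m : ℕ}

theorem no_two (hm : 2 ≤ m) (hF : Fintype.card F = 2 ^ (2 * m + 1)) {Γ : Type u} [Group Γ] [Finite Γ] (σ : Γ →* Cfsg.Sz F m)
    (hσ : IsStemExtension σ) (hcard : Nat.card σ.ker = 2) : False := by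
  classical
  obtain ⟨θ, h, hθ⟩ := HL.Sz.exists_theta hF
  have hch : CharP F 2 := CharTwo.of_one_ne_zero_of_two_eq_zero one_ne_zero h.two
  obtain ⟨hs, hc, -⟩ := id hσ
  have hm1 : 1 ≤ m := by omega
  -- lifts
  obtain ⟨s, hsσ⟩ : ∃ s : Cfsg.Sz F m → Γ, ∀ g, σ (s g) = g := ⟨Function.surjInv hs, Function.surjInv_eq hs⟩
  have cz : ∀ z : Γ, σ z = 1 → ∀ g, g * z = z * g := fun z hz => Subgroup.mem_center_iff.1 (hc hz)
  have e2 : ∀ t : F, t + t = 0 := fun t => CharTwo.add_self_eq_zero t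
  let A : F → Cfsg.Sz F m := fun a => Ue h hθ a 0
  let Z : F → Cfsg.Sz F m := fun b => Ue h hθ 0 b
  have hZZ : ∀ b d, Z b * Z d = Z (b + d) := by
    intro b d
    show Ue h hθ 0 b * Ue h hθ 0 d = _
    rw [Ue_mul]; congr 1 <;> simp
  have hAA : ∀ a c, A a * A c = A (a + c) * Z (θ a * c) := by
    intro a c
    show Ue h hθ a 0 * Ue h hθ c 0 = Ue h hθ (a + c) 0 * Ue h hθ 0 _
    rw [Ue_mul, Ue_mul]; congr 1 <;> simp
  have hAZ : ∀ a b, A a * Z b = Ue h hθ a b := by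
    intro a b
    show Ue h hθ a 0 * Ue h hθ 0 b = _
    rw [Ue_mul]; congr 1 <;> simp
  have hZA : ∀ a b, Z b * A a = Ue h hθ a b := by
    intro a b
    show Ue h hθ 0 b * Ue h hθ a 0 = _
    rw [Ue_mul]; congr 1 <;> simp
  have hDZ : ∀ k b, De h hθ k * Z b * (De h hθ k)⁻¹ = Z (θ k * k ^ 2 * b) := by
    intro k b
    show De h hθ k * Ue h hθ 0 b * _ = _
    rw [De_Ue, mul_zero]
  have hDA : ∀ k a, De h hθ k * A a * (De h hθ k)⁻¹ = A (θ k * a) := by
    intro k a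
    show De h hθ k * Ue h hθ a 0 * _ = _
    rw [De_Ue, mul_zero]
  have ker_comm : ∀ x y : Γ, σ x * σ y = σ y * σ x → σ ⁅x, y⁆ = 1 := by
    intro x y hxy
    rw [commutatorElement_def, map_mul, map_mul, map_mul, map_inv, map_inv, hxy, mul_inv_cancel_right, mul_inv_cancel]
  obtain ⟨t, t0, t1, tne⟩ := exists_id hm1 hF
  obtain ⟨r, r0, r1, rne⟩ := exists_theta hm hF hθ
  -- Stage A
  have stA : ∀ b d, ⁅s (Z b), s (Z d)⁆ = 1 := by
    have kc : ∀ b d, σ ⁅s (Z b), s (Z d)⁆ = 1 := by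
      intro b d
      apply ker_comm
      rw [hsσ, hsσ, hZZ, hZZ, add_comm]
    refine kill (fun b d => ⁅s (Z b), s (Z d)⁆) ?_ ?_ id ?_ (fun l hl => hl) one_ne_zero t0 t1 tne
    · intro b b' d
      show ⁅s (Z (b + b')), s (Z d)⁆ = _
      rw [comm_eq hc (x' := s (Z b) * s (Z b')) (y' := s (Z d)) (by rw [map_mul, hsσ, hsσ, hsσ, hZZ]) rfl]
      exact mul_left' (cz _ (kc _ _) _) (cz _ (kc _ _) _).symm
    · intro b d d'
      show ⁅s (Z b), s (Z (d + d'))⁆ = _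
      rw [comm_eq hc (x' := s (Z b)) (y' := s (Z d) * s (Z d')) rfl (by rw [map_mul, hsσ, hsσ, hsσ, hZZ])]
      exact mul_right' (cz _ (kc _ _) _)
    · intro l hl b d
      obtain ⟨k, hk⟩ := lam_surj h l hl
      show ⁅s (Z (l * b)), s (Z (l * d))⁆ = ⁅s (Z b), s (Z d)⁆
      rw [comm_eq hc (x' := s (De h hθ k) * s (Z b) * (s (De h hθ k))⁻¹) (y' := s (De h hθ k) * s (Z d) * (s (De h hθ k))⁻¹)
        (by rw [map_mul, map_mul, map_inv, hsσ, hsσ, hsσ, hDZ, hk]) (by rw [map_mul, map_mul, map_inv, hsσ, hsσ, hsσ, hDZ, hk])]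
      have e : ⁅s (De h hθ k) * s (Z b) * (s (De h hθ k))⁻¹, s (De h hθ k) * s (Z d) * (s (De h hθ k))⁻¹⁆ =
          s (De h hθ k) * ⁅s (Z b), s (Z d)⁆ * (s (De h hθ k))⁻¹ := by
        simp only [commutatorElement_def]; group
      rw [e, cz _ (kc _ _), mul_inv_cancel_right]
  -- Stage B
  have stB : ∀ a b, ⁅s (A a), s (Z b)⁆ = 1 := by
    have kc : ∀ a b, σ ⁅s (A a), s (Z b)⁆ = 1 := by
      intro a b
      apply ker_comm
      rw [hsσ, hsσ, hAZ, hZA]
    refine kill (fun b d => ⁅s (A b), s (Z d)⁆) ?_ ?_ (fun l => l * θ l) ?_ (fun l hl => mul_ne_zero hl (by rwa [Ne, map_eq_zero])) one_ne_zero r0 r1 rne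
    · intro b b' d
      show ⁅s (A (b + b')), s (Z d)⁆ = _
      have e1 : ⁅s (A (b + b')), s (Z d)⁆ = ⁅s (A (b + b')) * s (Z (θ b * b')), s (Z d)⁆ := by
        rw [mul_left' (by rw [stA, mul_one, one_mul]) (by rw [stA, mul_one, one_mul]), stA, mul_one]
      rw [e1, comm_eq hc (x' := s (A b) * s (A b')) (y' := s (Z d)) (by rw [map_mul, map_mul, hsσ, hsσ, hsσ, hsσ, hAA]) rfl]
      exact mul_left' (cz _ (kc _ _) _) (cz _ (kc _ _) _).symm
    · intro b d d'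
      show ⁅s (A b), s (Z (d + d'))⁆ = _
      rw [comm_eq hc (x' := s (A b)) (y' := s (Z d) * s (Z d')) rfl (by rw [map_mul, hsσ, hsσ, hsσ, hZZ])]
      exact mul_right' (cz _ (kc _ _) _)
    · intro l hl b d
      obtain ⟨k, hk⟩ : ∃ k : Fˣ, θ (k : F) = l := by
        obtain ⟨k0, hk0⟩ := (Finite.surjective_of_injective θ.injective) l
        have : k0 ≠ 0 := by
          rintro rfl
          rw [map_zero] at hk0
          exact hl hk0.symm
        exact ⟨Units.mk0 k0 this, hk0⟩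
      show ⁅s (A (l * b)), s (Z (l * θ l * d))⁆ = ⁅s (A b), s (Z d)⁆
      rw [comm_eq hc (x' := s (De h hθ k) * s (A b) * (s (De h hθ k))⁻¹) (y' := s (De h hθ k) * s (Z d) * (s (De h hθ k))⁻¹)
        (by rw [map_mul, map_mul, map_inv, hsσ, hsσ, hsσ, hDA, hk]) (by rw [map_mul, map_mul, map_inv, hsσ, hsσ, hsσ, hDZ, ← hk, h.sq])]
      have e : ⁅s (De h hθ k) * s (A b) * (s (De h hθ k))⁻¹, s (De h hθ k) * s (Z d) * (s (De h hθ k))⁻¹⁆ =
          s (De h hθ k) * ⁅s (A b), s (Z d)⁆ * (s (De h hθ k))⁻¹ := by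
        simp only [commutatorElement_def]; group
      rw [e, cz _ (kc _ _), mul_inv_cancel_right]
  -- the groups
  obtain ⟨S, hS⟩ : ∃ S : Subgroup Γ, S = (Usub h hθ).comap σ := ⟨_, rfl⟩
  obtain ⟨X, hX⟩ : ∃ X : Subgroup Γ, X = (Zsub h hθ).comap σ := ⟨_, rfl⟩
  have memS : ∀ x, x ∈ S → ∃ a b, σ x = Ue h hθ a b := by
    intro x hx
    rw [hS, Subgroup.mem_comap] at hx
    obtain ⟨a, b, hab⟩ := hx
    exact ⟨a, b, Subtype.ext hab⟩
  have memX : ∀ x, x ∈ X → ∃ b, σ x = Z b := by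
    intro x hx
    rw [hX, Subgroup.mem_comap] at hx
    obtain ⟨b, hab⟩ := hx
    exact ⟨b, Subtype.ext hab⟩
  have memX' : ∀ x b, σ x = Z b → x ∈ X := by
    intro x b hx
    rw [hX, Subgroup.mem_comap, hx]
    exact ⟨b, rfl⟩
  have kerX : ∀ x, σ x = 1 → x ∈ X := fun x hx => memX' x 0 (by rw [hx]; exact (Ue_zero h hθ).symm)
  have XleS : X ≤ S := by
    rw [hX, hS]; exact Subgroup.comap_mono (Zsub_le h hθ)
  -- `X` is central in `S`
  have cen : ∀ x ∈ S, ∀ y ∈ X, ⁅x, y⁆ = 1 := by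
    intro x hx y hy
    obtain ⟨a, b, hab⟩ := memS x hx
    obtain ⟨d, hd⟩ := memX y hy
    rw [comm_eq hc (x' := s (A a) * s (Z b)) (y' := s (Z d)) (by rw [map_mul, hsσ, hsσ, hAZ, hab]) (by rw [hsσ, hd])]
    rw [mul_left' (by rw [stA, mul_one, one_mul]) (by rw [stA, mul_one, one_mul]), stA, stB, mul_one]
  have cen' : ∀ x ∈ S, ∀ y ∈ X, x * y = y * x := by
    intro x hx y hy
    exact commutatorElement_eq_one_iff_mul_comm.1 (cen x hx y hy)
  have sA : ∀ a, s (A a) ∈ S := by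
    intro a
    rw [hS, Subgroup.mem_comap, hsσ]
    exact ⟨a, 0, rfl⟩
  have commX : ∀ x ∈ S, ∀ y ∈ S, ⁅x, y⁆ ∈ X := by
    intro x hx y hy
    obtain ⟨a, b, hab⟩ := memS x hx
    obtain ⟨c, d, hcd⟩ := memS y hy
    apply memX' _ (θ a * c + θ c * a)
    have e1 : σ ⁅x, y⁆ = ⁅σ x, σ y⁆ := by simp only [commutatorElement_def, map_mul, map_inv]
    rw [e1, hab, hcd]
    exact Subtype.ext (comm_UU' h a b c d)
  let instX : CommGroup X := { (inferInstance : Group X) with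
    mul_comm := fun a b => Subtype.ext (cen' _ (XleS a.2) _ b.2) }
  -- the trace
  have adX : ∀ (l : Fˣ) (w : Γ), w ∈ X → s (De h hθ l) * w * (s (De h hθ l))⁻¹ ∈ X := by
    intro l w hw
    obtain ⟨b, hb⟩ := memX w hw
    apply memX' _ (θ l * l ^ 2 * b)
    rw [map_mul, map_mul, map_inv, hsσ, hb, hDZ]
  let ad : Fˣ → X → X := fun l w => ⟨s (De h hθ l) * w * (s (De h hθ l))⁻¹, adX l _ w.2⟩
  have ad_mul : ∀ l w w', ad l (w * w') = ad l w * ad l w' := by
    intro l w w'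
    apply Subtype.ext
    show s (De h hθ l) * ((w : Γ) * w') * (s (De h hθ l))⁻¹ = s (De h hθ l) * w * (s (De h hθ l))⁻¹ * (s (De h hθ l) * w' * (s (De h hθ l))⁻¹)
    group
  have ad_ad : ∀ l k w, ad l (ad k w) = ad (l * k) w := by
    intro l k w
    apply Subtype.ext
    show s (De h hθ l) * (s (De h hθ k) * w * (s (De h hθ k))⁻¹) * (s (De h hθ l))⁻¹ = s (De h hθ (l * k)) * w * (s (De h hθ (l * k)))⁻¹
    rw [conj_eq hc (x := s (De h hθ (l * k))) (x' := s (De h hθ l) * s (De h hθ k)) (by rw [map_mul, hsσ, hsσ, hsσ, De_mul])]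
    group
  let T : X → X := fun w => ∏ l : Fˣ, ad l w
  have T_mul : ∀ w w', T (w * w') = T w * T w' := by
    intro w w'
    show ∏ l : Fˣ, ad l (w * w') = (∏ l : Fˣ, ad l w) * ∏ l : Fˣ, ad l w'
    rw [← Finset.prod_mul_distrib]
    exact Finset.prod_congr rfl (fun l _ => ad_mul l w w')
  have T_ad : ∀ k w, T (ad k w) = T w := by
    intro k w
    show ∏ l : Fˣ, ad l (ad k w) = ∏ l : Fˣ, ad l w
    rw [← Equiv.prod_comp (Equiv.mulRight k) (fun l => ad l w)]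
    exact Finset.prod_congr rfl (fun l _ => ad_ad l k w)
  -- Stage C
  have stC : ∀ a c, T ⟨⁅s (A a), s (A c)⁆, commX _ (sA a) _ (sA c)⟩ = 1 := by
    refine kill (fun a c => T ⟨⁅s (A a), s (A c)⁆, commX _ (sA a) _ (sA c)⟩) ?_ ?_ id ?_ (fun l hl => hl) one_ne_zero t0 t1 tne
    · intro a a' c
      show T ⟨⁅s (A (a + a')), s (A c)⁆, _⟩ = _
      rw [← T_mul]
      congr 1
      apply Subtype.ext
      show ⁅s (A (a + a')), s (A c)⁆ = ⁅s (A a), s (A c)⁆ * ⁅s (A a'), s (A c)⁆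
      have zS : s (Z (θ a * a')) ∈ X := memX' _ _ (hsσ _)
      have e0 : ⁅s (Z (θ a * a')), s (A c)⁆ = 1 := by
        rw [← inv_inj, commutatorElement_inv, inv_one]
        exact cen _ (sA c) _ zS
      have e1 : ⁅s (A (a + a')), s (A c)⁆ = ⁅s (A (a + a')) * s (Z (θ a * a')), s (A c)⁆ := by
        rw [mul_left' (by rw [e0, mul_one, one_mul]) (by rw [e0, mul_one, one_mul]), e0, mul_one]
      rw [e1, comm_eq hc (x' := s (A a) * s (A a')) (y' := s (A c)) (by rw [map_mul, map_mul, hsσ, hsσ, hsσ, hsσ, hAA]) rfl]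
      exact mul_left' (cen' _ (sA a) _ (commX _ (sA a') _ (sA c))) (cen' _ (XleS (commX _ (sA a') _ (sA c))) _ (commX _ (sA a) _ (sA c)))
    · intro a c c'
      show T ⟨⁅s (A a), s (A (c + c'))⁆, _⟩ = _
      rw [← T_mul]
      congr 1
      apply Subtype.ext
      show ⁅s (A a), s (A (c + c'))⁆ = ⁅s (A a), s (A c)⁆ * ⁅s (A a), s (A c')⁆
      have zS : s (Z (θ c * c')) ∈ X := memX' _ _ (hsσ _)
      have e0 : ⁅s (A a), s (Z (θ c * c'))⁆ = 1 := cen _ (sA a) _ zS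
      have e1 : ⁅s (A a), s (A (c + c'))⁆ = ⁅s (A a), s (A (c + c')) * s (Z (θ c * c'))⁆ := by
        rw [mul_right' (by rw [e0, mul_one, one_mul]), e0, mul_one]
      rw [e1, comm_eq hc (x' := s (A a)) (y' := s (A c) * s (A c')) rfl (by rw [map_mul, map_mul, hsσ, hsσ, hsσ, hsσ, hAA])]
      exact mul_right' (cen' _ (sA c) _ (commX _ (sA a) _ (sA c')))
    · intro l hl a c
      obtain ⟨k, hk⟩ : ∃ k : Fˣ, θ (k : F) = l := by
        obtain ⟨k0, hk0⟩ := (Finite.surjective_of_injective θ.injective) l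
        have : k0 ≠ 0 := by
          rintro rfl
          rw [map_zero] at hk0
          exact hl hk0.symm
        exact ⟨Units.mk0 k0 this, hk0⟩
      show T ⟨⁅s (A (l * a)), s (A (l * c))⁆, _⟩ = T ⟨⁅s (A a), s (A c)⁆, _⟩
      rw [← T_ad k ⟨⁅s (A a), s (A c)⁆, commX _ (sA a) _ (sA c)⟩]
      congr 1
      apply Subtype.ext
      show ⁅s (A (l * a)), s (A (l * c))⁆ = s (De h hθ k) * ⁅s (A a), s (A c)⁆ * (s (De h hθ k))⁻¹
      rw [comm_eq hc (x' := s (De h hθ k) * s (A a) * (s (De h hθ k))⁻¹) (y' := s (De h hθ k) * s (A c) * (s (De h hθ k))⁻¹)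
        (by rw [map_mul, map_mul, map_inv, hsσ, hsσ, hsσ, hDA, hk]) (by rw [map_mul, map_mul, map_inv, hsσ, hsσ, hsσ, hDA, hk])]
      simp only [commutatorElement_def]; group
  have T_one : T 1 = 1 := by
    have := T_mul 1 1
    rw [mul_one] at this
    exact left_eq_mul.1 this
  let N : Subgroup Γ := ({ toFun := T, map_one' := T_one, map_mul' := T_mul } : X →* X).ker.map X.subtype
  have memN : ∀ (w : Γ) (hw : w ∈ X), T ⟨w, hw⟩ = 1 → w ∈ N := fun w hw hT => ⟨⟨w, hw⟩, hT, rfl⟩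
  refine false_of_comm_le σ hσ (p := 2) hcard (Usub h hθ) (isPGroup_Usub hF h hθ) ?_ N ?_ ?_
  · have := (sylU hm1 hF h hθ).not_dvd_index
    rwa [sylU_coe] at this
  · rw [← hS, Subgroup.commutator_le]
    intro x hx y hy
    obtain ⟨a, b, hab⟩ := memS x hx
    obtain ⟨c, d, hcd⟩ := memS y hy
    have zb : s (Z b) ∈ X := memX' _ _ (hsσ _)
    have zd : s (Z d) ∈ X := memX' _ _ (hsσ _)
    have e : ⁅x, y⁆ = ⁅s (A a), s (A c)⁆ := by
      rw [comm_eq hc (x' := s (A a) * s (Z b)) (y' := s (A c) * s (Z d)) (by rw [map_mul, hsσ, hsσ, hAZ, hab]) (by rw [map_mul, hsσ, hsσ, hAZ, hcd])]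
      have e0 : ⁅s (Z b), s (A c) * s (Z d)⁆ = 1 := by
        rw [← inv_inj, commutatorElement_inv, inv_one]
        exact cen _ (mul_mem (sA c) (XleS zd)) _ zb
      have e1 : ⁅s (A a), s (Z d)⁆ = 1 := cen _ (sA a) _ zd
      rw [mul_left' (by rw [e0, mul_one, one_mul]) (by rw [e0, mul_one, one_mul]), e0, mul_one,
        mul_right' (by rw [e1, mul_one, one_mul]), e1, mul_one]
    rw [e]
    exact memN _ _ (stC a c)
  · rintro _ ⟨⟨x, hx⟩, hxT, rfl⟩ hσx
    have hσx' : σ x = 1 := hσx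
    show x = 1
    have h1 : T ⟨x, hx⟩ = 1 := hxT
    have h2 : T ⟨x, hx⟩ = ⟨x, hx⟩ ^ (Fintype.card Fˣ) := by
      show ∏ l : Fˣ, ad l ⟨x, hx⟩ = _
      rw [Finset.prod_congr rfl (g := fun _ => (⟨x, hx⟩ : X)), Finset.prod_const, Finset.card_univ]
      intro l _
      apply Subtype.ext
      show s (De h hθ l) * x * (s (De h hθ l))⁻¹ = x
      rw [cz x hσx', mul_inv_cancel_right]
    rw [h2] at h1
    have h3 : x ^ Fintype.card Fˣ = 1 := by
      have := congrArg Subtype.val h1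
      simpa using this
    have h4 : x ^ 2 = 1 := by
      have h5 : orderOf x ∣ 2 := by
        rw [← hcard, ← Subgroup.orderOf_mk x (MonoidHom.mem_ker.2 hσx')]
        exact orderOf_dvd_natCard _
      exact orderOf_dvd_iff_pow_eq_one.1 h5
    have h5 : Fintype.card Fˣ = 2 ^ (2 * m + 1) - 1 := by rw [Fintype.card_units, hF]
    have h6 : Odd (Fintype.card Fˣ) := by
      rw [h5]
      have : 2 ∣ 2 ^ (2 * m + 1) := dvd_pow_self _ (by omega)
      have h7 : 1 ≤ 2 ^ (2 * m + 1) := Nat.one_le_two_pow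
      rw [Nat.odd_iff]; omega
    obtain ⟨j, hj⟩ := h6
    rw [hj, pow_succ, pow_mul, h4, one_pow, one_mul] at h3
    exact h3

theorem main (hm : 2 ≤ m) (hF : Fintype.card F = 2 ^ (2 * m + 1)) : HasCyclicSchurMultiplier (Cfsg.Lie.Sz F (2 ^ (m + 1))) 1 := by
  have hm1 : 1 ≤ m := by omega
  apply trivial_of_primes
  intro p hp Γ _ _ σ hσ hcard
  -- pass to the other model
  let e := modelEquiv hm1 hF
  let σ' : Γ →* Cfsg.Sz F m := e.symm.toMonoidHom.comp σ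
  have hker : σ'.ker = σ.ker := by
    ext x
    rw [MonoidHom.mem_ker, MonoidHom.mem_ker]
    show e.symm (σ x) = 1 ↔ _
    rw [map_eq_one_iff _ e.symm.injective]
  have hσ' : IsStemExtension σ' := by
    refine ⟨e.symm.surjective.comp hσ.1, ?_, ?_⟩
    · rw [hker]; exact hσ.2.1
    · rw [hker]; exact hσ.2.2
  rw [← hker] at hcard
  by_cases hp2 : p = 2
  · subst hp2
    exact no_two hm hF σ' hσ' hcard
  · have h1 := Cfsg.Agent.S0102.result (perfect hm1 hF) (p := p) (fun P => cyclic_sylow hm1 hF hp2 P) σ' hσ'.1 hσ'.2.1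
      (perfect_of_stem σ' hσ' (perfect hm1 hF))
    rw [hcard] at h1
    exact h1 dvd_rfl

end

end Cfsg.Agent.HL.SzMult
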