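import Cfsg.Statements.S0010
-- import your own Cfsg.Agent.* helpers here

set_option autoImplicit false
open Cfsg

namespace Cfsg.Agent.S0010
open scoped Pointwise

/-- The largest normal p-subgroup of a finite group is the intersection of all its Sylow p-subgroups. -/
theorem result {G : Type*} [Group G] [Finite G] (p : ℕ) [Fact p.Prime] :
    Cfsg.pCore p G = ⨅ P : Sylow p G, (P : Subgroup G) := by
  apply le_antisymm
  · refine sSup_le ?_
    rintro N ⟨hN, hp⟩
    refine le_iInf fun P => ?_
    obtain ⟨Q, hQ⟩ := hp.exists_le_sylow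
    obtain ⟨g, hg⟩ := MulAction.exists_smul_eq G Q P
    intro x hx
    have h1 : MulAut.conj g • (Q : Subgroup G) = (P : Subgroup G) := by
      rw [← hg]; rfl
    rw [← h1, Subgroup.mem_pointwise_smul_iff_inv_smul_mem]
    apply hQ
    have : (MulAut.conj g)⁻¹ • x = g⁻¹ * x * g := by
      simp [MulAut.smul_def]
    rw [this]
    simpa using hN.conj_mem x hx g⁻¹
  · refine le_sSup ⟨?_, ?_⟩
    · refine ⟨fun n hn g => ?_⟩
      rw [Subgroup.mem_iInf] at hn ⊢
      intro P
      have h2 := hn (g⁻¹ • P)
      have h1 : ((g⁻¹ • P : Sylow p G) : Subgroup G) = MulAut.conj g⁻¹ • (P : Subgroup G) := rfl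
      rw [h1, Subgroup.mem_pointwise_smul_iff_inv_smul_mem] at h2
      simpa [MulAut.smul_def] using h2
    · exact (default : Sylow p G).2.to_le (iInf_le _ _)

end Cfsg.Agent.S0010
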