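import Cfsg.Statements.S0011
import Cfsg.Agent.H1_Nilp

set_option autoImplicit false
open Cfsg

namespace Cfsg.Agent.S0011

/-- If the Frattini quotient of a finite group is nilpotent then the group is nilpotent. -/
theorem result {G : Type*} [Group G] [Finite G]
    (h : Group.IsNilpotent (G ⧸ frattini G)) : Group.IsNilpotent G := by
  have h1 : Group.IsNilpotent (⊤ : Subgroup G) := by
    apply Cfsg.Agent.H1.Nilp.nilpotent_of_quotient_frattini ⊤ (frattini G) le_top le_rfl
    let f : (⊤ : Subgroup G) →* G ⧸ frattini G :=
      (QuotientGroup.mk' (frattini G)).comp (⊤ : Subgroup G).subtype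
    have hker : (frattini G).subgroupOf ⊤ = f.ker := by
      ext x
      rw [Subgroup.mem_subgroupOf, MonoidHom.mem_ker]
      exact (QuotientGroup.eq_one_iff _).symm
    let e : ((⊤ : Subgroup G) ⧸ (frattini G).subgroupOf ⊤) ≃* ((⊤ : Subgroup G) ⧸ f.ker) :=
      QuotientGroup.quotientMulEquivOfEq hker
    let g := (QuotientGroup.kerLift f).comp e.toMonoidHom
    have hg : Function.Injective g := (QuotientGroup.kerLift_injective f).comp e.injective
    have h2 : Group.IsNilpotent g.range := inferInstance
    exact (Group.isNilpotent_congr (MonoidHom.ofInjective hg)).mpr h2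
  exact Group.isNilpotent_top.mp h1

end Cfsg.Agent.S0011
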