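import Cfsg.Statements.S0012
import Cfsg.Agent.H1_Nilp

set_option autoImplicit false
open Cfsg

namespace Cfsg.Agent.S0012

/-- In a finite p-group every commutator and every p-th power lies in the Frattini subgroup, so the Frattini quotient is elementary abelian. -/
theorem result {G : Type*} [Group G] [Finite G] (p : ℕ) [Fact p.Prime]
    (hG : IsPGroup p G) : commutator G ≤ frattini G ∧ ∀ x : G, x ^ p ∈ frattini G := by
  exact Cfsg.Agent.H1.Nilp.commutator_le_frattini hG

end Cfsg.Agent.S0012
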