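import Cfsg.Statements.S0048
import Cfsg.Agent.H1_Hall

set_option autoImplicit false
open Cfsg

namespace Cfsg.Agent.S0048

/-- In a finite solvable group every maximal subgroup has index a prime power. -/
theorem result {G : Type*} [Group G] [Finite G] [Group.IsSolvable G]
    (M : Subgroup G) (hM : IsCoatom M) : IsPrimePow M.index := by
  obtain ⟨p, k, hp, hk, h⟩ := Cfsg.Agent.H1.Hall.maximal_index_prime_pow M hM
  rw [h]
  exact hp.isPrimePow.pow hk.ne'

end Cfsg.Agent.S0048
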