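import Cfsg.Statements.S0059
import Cfsg.Agent.H1_Coprime2

set_option autoImplicit false
open Cfsg

namespace Cfsg.Agent.S0059

/-- Let a finite group act on a set on which a normal subgroup K of coprime order and index is transitive, with K or the quotient solvable. Then any complement H of K has a fixed point, and any two H-fixed points are interchanged by an element of K centralising H. -/
theorem result {G : Type*} [Group G] [Finite G] {X : Type*} [Nonempty X] [MulAction G X]
    (K H : Subgroup G) [K.Normal] (hc : Subgroup.IsComplement' K H) (hcop : (Nat.card K).Coprime K.index)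
    (hsolv : Group.IsSolvable K ∨ Group.IsSolvable (G ⧸ K)) (htrans : MulAction.IsPretransitive K X) :
    (∃ x : X, ∀ h ∈ H, h • x = x) ∧
    ∀ x y : X, (∀ h ∈ H, h • x = x) → (∀ h ∈ H, h • y = y) → ∃ k ∈ K ⊓ Subgroup.centralizer (H : Set G), k • x = y := by
  have hcH : Nat.card H = K.index := (Cfsg.Agent.H1.Basic.isComplement'_iff_card hcop).mp hc
  have hAK : H ≤ Subgroup.normalizer (K : Set G) := Subgroup.le_normalizer_of_normal
  have hcop' : (Nat.card H).Coprime (Nat.card K) := by rw [hcH]; exact hcop.symm
  have hs : Group.IsSolvable H ∨ Group.IsSolvable K := by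
    rcases hsolv with h | h
    · exact Or.inr h
    · left
      let e := hc.symm.QuotientMulEquiv
      exact Group.isSolvable_of_isSolvable_injective (f := e.symm.toMonoidHom) e.symm.injective
  have htr : ∀ x y : X, ∃ k ∈ K, k • x = y := by
    intro x y
    obtain ⟨k, hk⟩ := htrans.exists_smul_eq x y
    exact ⟨k, k.2, hk⟩
  refine ⟨?_, ?_⟩
  · obtain ⟨y, -, hy⟩ := Cfsg.Agent.H1.Coprime.glauberman_exists hAK hcop' hs (Set.univ : Set X)
      Set.univ_nonempty (fun _ _ _ _ => trivial) (fun _ _ _ _ => trivial)
      (fun y _ z _ => htr y z)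
    exact ⟨y, hy⟩
  · intro x y hx hy
    obtain ⟨k, hk, h⟩ := htr x y
    exact Cfsg.Agent.H1.Coprime.glauberman_conj hAK hcop' hs hx hy hk h

end Cfsg.Agent.S0059
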