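import Cfsg.Statements.S0072
import Mathlib
import Cfsg.Agent.H2_Fusion3

set_option autoImplicit false
open Cfsg

namespace Cfsg.Agent.S0072

/-- A finite group has a normal p-complement if and only if every p-local subgroup (normalizer of a nontrivial p-subgroup) has one. -/
theorem result {G : Type*} [Group G] [Finite G] (p : ℕ) [Fact p.Prime] : Cfsg.HasNormalPComplement p G ↔ ∀ Q : Subgroup G, IsPGroup p Q → Q ≠ ⊥ → Cfsg.HasNormalPComplement p (Subgroup.normalizer (Q : Set G)) := by
  constructor
  · intro h Q _ _
    exact Cfsg.Agent.H2.Basic.npc_subgroup _ h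
  · intro h
    apply Cfsg.Agent.H2.Fusion3.npc_of_frobenius
    intro Q hQ g hg hgp
    by_cases hb : Q = ⊥
    · subst hb
      rw [Subgroup.mem_centralizer_iff]
      rintro q hq
      have : q = 1 := hq
      rw [this, one_mul, mul_one]
    · have h1 := h Q hQ hb
      have h2 := Cfsg.Agent.H2.Fusion3.mem_centralizer_of_npc h1 (Q.subgroupOf _) (hQ.comap_subtype)
        (⟨g, hg⟩ : Subgroup.normalizer (Q : Set G)) (Subgroup.subset_normalizer_of_normal (S := Set.univ) (Set.mem_univ _)) (by
          rw [Subgroup.orderOf_mk]; exact hgp)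
      rw [Subgroup.mem_centralizer_iff] at h2 ⊢
      intro q hq
      have h3 := h2 ⟨q, Subgroup.le_normalizer hq⟩ hq
      exact congrArg Subtype.val h3

end Cfsg.Agent.S0072
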