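import Cfsg.Statements.S0073
import Mathlib
import Cfsg.Agent.H2_Fusion4
import Cfsg.Agent.H2_AutEA

set_option autoImplicit false
open Cfsg

namespace Cfsg.Agent.S0073

/-- For a finite non-abelian simple group, either the cube of the least prime divisor of the order divides the order, or 12 does. -/
theorem result {G : Type*} [Group G] [Finite G] [IsSimpleGroup G] (hG : ∃ x y : G, x * y ≠ y * x) : (Nat.card G).minFac ^ 3 ∣ Nat.card G ∨ 12 ∣ Nat.card G := by
  by_contra hcon
  push Not at hcon
  obtain ⟨h3, h12⟩ := hcon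
  obtain ⟨x₀, y₀, hxy⟩ := hG
  have hn1 : Nat.card G ≠ 1 := by
    intro h1
    have := (Nat.card_eq_one_iff_unique.1 h1).1
    exact hxy (Subsingleton.elim _ _)
  set p := (Nat.card G).minFac with hpdef
  have hpp : p.Prime := Nat.minFac_prime hn1
  have : Fact p.Prime := ⟨hpp⟩
  have hpG : p ∣ Nat.card G := Nat.minFac_dvd _
  have hnot := Cfsg.Agent.H2.Fusion4.not_npc_of_simple (p := p) ⟨x₀, y₀, hxy⟩ hpG
  obtain ⟨P⟩ : Nonempty (Sylow p G) := inferInstance
  have hncyc : ¬ IsCyclic P := by
    intro hc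
    apply hnot
    exact ⟨P, _, inferInstance, IsCyclic.isComplement' hpdef.symm hc⟩
  obtain ⟨k, hk⟩ := IsPGroup.iff_card.1 P.isPGroup'
  have hk3 : k < 3 := by
    by_contra hge
    push Not at hge
    apply h3
    have h1 : p ^ 3 ∣ Nat.card P := by rw [hk]; exact pow_dvd_pow p hge
    exact h1.trans (Subgroup.card_subgroup_dvd_card _)
  have hk2 : k = 2 := by
    interval_cases k
    · exfalso
      apply hncyc
      rw [pow_zero] at hk
      have := (Nat.card_eq_one_iff_unique.1 hk).1
      infer_instance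
    · exfalso
      apply hncyc
      rw [pow_one] at hk
      exact isCyclic_of_prime_card hk
    · rfl
  subst hk2
  have hcomm : IsMulCommutative P := IsPGroup.isMulCommutative_of_card_eq_prime_sq hk
  have hexp : ∀ a : P, a ^ p = 1 := by
    intro a
    have h1 : orderOf a ∣ p ^ 2 := by rw [← hk]; exact orderOf_dvd_natCard a
    obtain ⟨j, hj, hj2⟩ := (Nat.dvd_prime_pow hpp).1 h1
    interval_cases j
    · rw [pow_zero, orderOf_eq_one_iff] at hj2
      rw [hj2, one_pow]
    · rw [pow_one] at hj2
      have h2 : orderOf a ∣ p := by rw [hj2]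
      exact orderOf_dvd_iff_pow_eq_one.1 h2
    · exfalso
      apply hncyc
      exact isCyclic_of_orderOf_eq_card a (by rw [hj2, hk])
  apply hnot
  apply Cfsg.Agent.H2.Fusion4.npc_of_card_mulAut P hcomm
  intro q hq hqd hqG
  rw [Cfsg.Agent.H2.AutEA.card_mulAut_ea_two hcomm hexp hk] at hqd
  have hqp : p ≤ q := Nat.minFac_le_of_dvd hq.two_le hqG
  have hp2 : 2 ≤ p := hpp.two_le
  have e1 : p ^ 2 - 1 = (p - 1) * (p + 1) := by
    obtain ⟨m, hm⟩ : ∃ m, p = m + 1 := ⟨p - 1, by omega⟩
    rw [hm]; simp only [Nat.add_sub_cancel]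
    have : (m + 1) ^ 2 = m * (m + 1 + 1) + 1 := by ring
    rw [this, Nat.add_sub_cancel]
  have e2 : p ^ 2 - p = p * (p - 1) := by
    rw [Nat.mul_sub, mul_one, pow_two]
  rw [e1, e2] at hqd
  by_contra hne
  have hlt : p < q := lt_of_le_of_ne hqp (Ne.symm hne)
  have nd1 : ¬ q ∣ p - 1 := fun h => by
    have := Nat.le_of_dvd (by omega) h
    omega
  have nd2 : ¬ q ∣ p := fun h => by
    have := Nat.le_of_dvd (by omega) h
    omega
  have hd : q ∣ p + 1 := by
    rcases (Nat.Prime.dvd_mul hq).1 hqd with h | h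
    · rcases (Nat.Prime.dvd_mul hq).1 h with h | h
      · exact absurd h nd1
      · exact h
    · rcases (Nat.Prime.dvd_mul hq).1 h with h | h
      · exact absurd h nd2
      · exact absurd h nd1
  have hqe : q = p + 1 := by
    have := Nat.le_of_dvd (by omega) hd
    omega
  -- p = 2, q = 3
  have hp2' : p = 2 := by
    rcases hpp.eq_two_or_odd' with h | h
    · exact h
    · exfalso
      have : Even q := by rw [hqe]; exact h.add_odd odd_one
      have := (hq.even_iff).1 this
      omega
  have hq3 : q = 3 := by omega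
  apply h12
  have h4 : 4 ∣ Nat.card G := by
    have : p ^ 2 ∣ Nat.card G := by rw [← hk]; exact Subgroup.card_subgroup_dvd_card _
    rw [hp2'] at this
    exact this
  have h3' : 3 ∣ Nat.card G := by rw [← hq3]; exact hqG
  exact Nat.Coprime.mul_dvd_of_dvd_of_dvd (m := 4) (n := 3) (by norm_num) h4 h3'

end Cfsg.Agent.S0073
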