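import Cfsg.Statements.S0076
import Mathlib
import Cfsg.Agent.H2_Basic

set_option autoImplicit false
open Cfsg

namespace Cfsg.Agent.S0076

/-- Two P-invariant subsets of a Sylow p-subgroup P that are conjugate in G are conjugate under the normalizer of P. -/
theorem result {G : Type*} [Group G] [Finite G] {p : ℕ} [Fact p.Prime] (P : Sylow p G) (X Y : Set G) (hXP : X ⊆ P) (hYP : Y ⊆ P) (hX : ∀ x ∈ P, (fun y => x * y * x⁻¹) '' X = X) (hY : ∀ x ∈ P, (fun y => x * y * x⁻¹) '' Y = Y) (g : G) (hg : (fun y => g * y * g⁻¹) '' X = Y) : ∃ n ∈ Subgroup.normalizer (P : Set G), (fun y => n * y * n⁻¹) '' X = Y := by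
  have hset : ∀ (x : G) (Z : Set G), (fun y => x * y * x⁻¹) '' Z = Z ↔ x ∈ Subgroup.normalizer Z := by
    intro x Z
    rw [Subgroup.mem_normalizer_iff_conj_image_eq]
    rfl
  have hPN : (P : Subgroup G) ≤ Subgroup.normalizer Y := fun x hx => (hset x Y).1 (hY x hx)
  have hgN : ((g • P : Sylow p G) : Subgroup G) ≤ Subgroup.normalizer Y := by
    intro x hx
    have hx' : g⁻¹ * x * g ∈ P := (Cfsg.Agent.H2.Basic.mem_smul_sylow P g x).1 hx
    apply (hset x Y).1
    have h1 := hX _ hx'
    rw [← hg, Set.image_image]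
    conv_rhs => rw [← h1, Set.image_image]
    congr 1
    funext y
    group
  obtain ⟨h, hh, he⟩ := Cfsg.Agent.H2.Basic.sylow_conj_in (Subgroup.normalizer Y) (g • P) P hgN hPN
  refine ⟨h * g, ?_, ?_⟩
  · rw [← mul_smul] at he
    exact Sylow.smul_eq_iff_mem_normalizer.1 he
  · have h1 := (hset h Y).2 hh
    rw [← h1, ← hg, Set.image_image]
    congr 1
    funext y
    group

end Cfsg.Agent.S0076
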