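import Cfsg.Statements.S0077
import Mathlib
import Cfsg.Agent.H2_Fusion2

set_option autoImplicit false
open Cfsg

namespace Cfsg.Agent.S0077

/-- If a subgroup Z of the centre of a Sylow p-subgroup P is weakly closed in P, then P meets the derived subgroup of G exactly where it meets the derived subgroup of the normalizer of Z. -/
theorem result {G : Type*} [Group G] [Finite G] {p : ℕ} [Fact p.Prime] (P : Sylow p G) (Z : Subgroup G) (hZ : Z ≤ Subgroup.centralizer (P : Set G)) (hW : Cfsg.IsWeaklyClosed Z P) : commutator G ⊓ (P : Subgroup G) = ⁅Subgroup.normalizer (Z : Set G), Subgroup.normalizer (Z : Set G)⁆ ⊓ (P : Subgroup G) := by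
  have hPN : (P : Subgroup G) ≤ Subgroup.normalizer (Z : Set G) := by
    intro x hx
    rw [Subgroup.mem_normalizer_iff]
    intro z
    constructor
    · intro hz
      have h1 := (Subgroup.mem_centralizer_iff.1 (hZ hz)) x hx
      rw [h1, mul_inv_cancel_right]; exact hz
    · intro hz
      have h1 := (Subgroup.mem_centralizer_iff.1 (hZ hz)) x⁻¹ (inv_mem hx)
      have h2 : x * z * x⁻¹ = z := by
        have h3 : x⁻¹ * (x * z * x⁻¹) = x * z * x⁻¹ * x⁻¹ := h1
        have h4 : z * x⁻¹ = x * z * x⁻¹ * x⁻¹ := by rw [← h3]; group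
        exact (mul_right_cancel h4).symm
      rwa [h2] at hz
  apply Cfsg.Agent.H2.Fusion2.inf_commutator_eq_of_control P _ hPN
  intro x hx g hgx
  set y := g * x * g⁻¹ with hy
  -- Z and g Z g⁻¹ centralize y
  set Zg : Subgroup G := Z.map (MulAut.conj g).toMonoidHom with hZg
  have hZp : IsPGroup p Z := P.isPGroup'.to_le hW.1
  have hZgp : IsPGroup p Zg := hZp.map _
  have h1 : Z ≤ Subgroup.centralizer {y} := by
    intro z hz
    rw [Subgroup.mem_centralizer_singleton_iff]
    exact ((Subgroup.mem_centralizer_iff.1 (hZ hz)) y hgx).symm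
  have h2 : Zg ≤ Subgroup.centralizer {y} := by
    rintro _ ⟨z, hz, rfl⟩
    rw [Subgroup.mem_centralizer_singleton_iff]
    have h3 : x * z = z * x := (Subgroup.mem_centralizer_iff.1 (hZ hz)) x hx
    change g * z * g⁻¹ * (g * x * g⁻¹) = g * x * g⁻¹ * (g * z * g⁻¹)
    calc g * z * g⁻¹ * (g * x * g⁻¹) = g * (z * x) * g⁻¹ := by group
      _ = g * (x * z) * g⁻¹ := by rw [h3]
      _ = _ := by group
  obtain ⟨c, hc, S, hS1, hS2⟩ := Cfsg.Agent.H2.Basic.exists_conj_common_sylow (p := p) _ Z Zg hZp hZgp h1 h2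
  obtain ⟨w, hw⟩ := MulAction.exists_smul_eq G S P
  -- conjugating by w: Z^w ≤ P, so = Z
  have key : ∀ t : G, (∀ z ∈ Z, t * z * t⁻¹ ∈ P) → Z.map (MulAut.conj t).toMonoidHom = Z := by
    intro t ht
    apply hW.2
    rintro _ ⟨z, hz, rfl⟩
    exact ht z hz
  have k1 : Z.map (MulAut.conj w).toMonoidHom = Z := by
    apply key
    intro z hz
    rw [← hw, Cfsg.Agent.H2.Basic.mem_smul_sylow]
    have : w⁻¹ * (w * z * w⁻¹) * w = z := by group
    rw [this]; exact hS1 hz
  have k2 : Z.map (MulAut.conj (w * c * g)).toMonoidHom = Z := by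
    apply key
    intro z hz
    rw [← hw, Cfsg.Agent.H2.Basic.mem_smul_sylow]
    have : w⁻¹ * (w * c * g * z * (w * c * g)⁻¹) * w = c * (g * z * g⁻¹) * c⁻¹ := by group
    rw [this]; exact hS2 _ ⟨z, hz, rfl⟩
  refine ⟨c * g, ?_, ?_⟩
  · have n1 : w ∈ Subgroup.normalizer (Z : Set G) := Subgroup.mem_normalizer_iff_map_conj_eq.2 k1
    have n2 : w * c * g ∈ Subgroup.normalizer (Z : Set G) := Subgroup.mem_normalizer_iff_map_conj_eq.2 k2
    have := mul_mem (inv_mem n1) n2
    simpa [mul_assoc] using this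
  · have hcy : c * y = y * c := (Subgroup.mem_centralizer_singleton_iff.1 hc)
    calc c * g * x * (c * g)⁻¹ = c * (g * x * g⁻¹) * c⁻¹ := by group
      _ = y := by rw [← hy, hcy, mul_inv_cancel_right]

end Cfsg.Agent.S0077
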