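import Cfsg.Statements.S0078
import Mathlib
import Cfsg.Agent.H2_Fusion2
import Cfsg.Agent.S0077
import Cfsg.Agent.H2_PGroup

set_option autoImplicit false
open Cfsg

namespace Cfsg.Agent.S0078

/-- In a p-normal group, a Sylow p-subgroup P meets O^p(G) exactly where it meets O^p(V), for any subgroup V containing the normalizer of the centre of P. -/
theorem result {G : Type*} [Group G] [Finite G] {p : ℕ} [Fact p.Prime] (P : Sylow p G) (hn : ∀ Q : Sylow p G, (P : Subgroup G) ⊓ Subgroup.centralizer (P : Set G) ≤ (Q : Subgroup G) → (Q : Subgroup G) ⊓ Subgroup.centralizer (Q : Set G) = (P : Subgroup G) ⊓ Subgroup.centralizer (P : Set G)) (V : Subgroup G) (hV : Subgroup.normalizer (((P : Subgroup G) ⊓ Subgroup.centralizer (P : Set G) : Subgroup G) : Set G) ≤ V) : (P : Subgroup G) ⊓ Cfsg.pResidual p G = (P : Subgroup G) ⊓ (Cfsg.pResidual p V).map V.subtype := by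
  set Z : Subgroup G := (P : Subgroup G) ⊓ Subgroup.centralizer (P : Set G) with hZ
  have hZc : Z ≤ Subgroup.centralizer (P : Set G) := inf_le_right
  have hW : Cfsg.IsWeaklyClosed Z P := by
    refine ⟨inf_le_left, fun g hg => ?_⟩
    have h1 : Z ≤ ((g⁻¹ • P : Sylow p G) : Subgroup G) := by
      intro z hz
      change z ∈ g⁻¹ • P
      rw [Cfsg.Agent.H2.Basic.mem_smul_sylow, inv_inv]
      exact hg ⟨z, hz, rfl⟩
    have h2 := hn _ h1
    ext x
    constructor
    · rintro ⟨z, hz, rfl⟩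
      rw [← h2] at hz
      change g * z * g⁻¹ ∈ Z
      have hz1 : z ∈ g⁻¹ • P := hz.1
      rw [Cfsg.Agent.H2.Basic.mem_smul_sylow, inv_inv] at hz1
      refine ⟨hz1, ?_⟩
      change g * z * g⁻¹ ∈ Subgroup.centralizer (P : Set G)
      rw [Subgroup.mem_centralizer_iff]
      intro y hy
      have h3 : g⁻¹ * y * g ∈ g⁻¹ • P := by
        rw [Cfsg.Agent.H2.Basic.mem_smul_sylow]
        have : g⁻¹⁻¹ * (g⁻¹ * y * g) * g⁻¹ = y := by group
        rw [this]; exact hy
      have h4 : g⁻¹ * y * g * z = z * (g⁻¹ * y * g) := (Subgroup.mem_centralizer_iff.1 hz.2) _ h3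
      calc y * (g * z * g⁻¹) = g * (g⁻¹ * y * g * z) * g⁻¹ := by group
        _ = g * (z * (g⁻¹ * y * g)) * g⁻¹ := by rw [h4]
        _ = _ := by group
    · intro hx
      refine ⟨g⁻¹ * x * g, ?_, by change g * (g⁻¹ * x * g) * g⁻¹ = x; group⟩
      rw [← h2]
      have hx1 : x ∈ P := hx.1
      refine ⟨?_, ?_⟩
      · change g⁻¹ * x * g ∈ g⁻¹ • P
        rw [Cfsg.Agent.H2.Basic.mem_smul_sylow]
        have : g⁻¹⁻¹ * (g⁻¹ * x * g) * g⁻¹ = x := by group
        rw [this]; exact hx1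
      · change g⁻¹ * x * g ∈ Subgroup.centralizer ((g⁻¹ • P : Sylow p G) : Set G)
        rw [Subgroup.mem_centralizer_iff]
        intro y hy
        have hy' : y ∈ g⁻¹ • P := hy
        rw [Cfsg.Agent.H2.Basic.mem_smul_sylow, inv_inv] at hy'
        have h4 : g * y * g⁻¹ * x = x * (g * y * g⁻¹) := (Subgroup.mem_centralizer_iff.1 hx.2) _ hy'
        calc y * (g⁻¹ * x * g) = g⁻¹ * (g * y * g⁻¹ * x) * g := by group
          _ = g⁻¹ * (x * (g * y * g⁻¹)) * g := by rw [h4]
          _ = _ := by group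
  have h1 := Cfsg.Agent.S0077.result P Z hZc hW
  have hPV : (P : Subgroup G) ≤ V := by
    refine le_trans ?_ hV
    intro x hx
    rw [Subgroup.mem_normalizer_iff]
    intro z
    have key : ∀ y ∈ (P : Subgroup G), ∀ z ∈ Z, y * z * y⁻¹ ∈ Z := by
      intro y hy z hz
      have h1 : y * z = z * y := (Subgroup.mem_centralizer_iff.1 (hZc hz)) y hy
      rw [h1, mul_inv_cancel_right]; exact hz
    refine ⟨key x hx z, fun h => ?_⟩
    have := key x⁻¹ (inv_mem hx) _ h
    have h5 : x⁻¹ * (x * z * x⁻¹) * x⁻¹⁻¹ = z := by group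
    rwa [h5] at this
  have h2 := Cfsg.Agent.H2.Fusion2.tate P V hPV (by
    intro C hC hCi x hx hxG hxP
    have h3 : x ∈ commutator G ⊓ (P : Subgroup G) := ⟨hxG, hxP⟩
    rw [h1] at h3
    have h4 : x ∈ ⁅V, V⁆ := Subgroup.commutator_mono hV hV h3.1
    rw [← Subgroup.map_subtype_commutator] at h4
    obtain ⟨y, hy, hyx⟩ := h4
    have h5 : y = ⟨x, hx⟩ := Subtype.ext hyx
    rw [← h5]
    have hcyc : IsCyclic (V ⧸ C) := isCyclic_of_prime_card (p := p) (by rw [← Subgroup.index_eq_card, hCi])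
    have hcomm := IsCyclic.isMulCommutative (α := V ⧸ C)
    exact (Subgroup.Normal.quotient_commutative_iff_commutator_le.1 hcomm) hy)
  apply le_antisymm
  · rintro x ⟨hxP, hxK⟩
    refine ⟨hxP, ?_⟩
    rw [← h2]
    exact ⟨hxK, hPV hxP⟩
  · rintro x ⟨hxP, hxR⟩
    rw [← h2] at hxR
    exact ⟨hxP, hxR.1⟩

end Cfsg.Agent.S0078
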