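import Cfsg.Statements.S0079
import Mathlib
import Cfsg.Agent.H2_Hall

set_option autoImplicit false
open Cfsg

namespace Cfsg.Agent.S0079

/-- A nilpotent Hall subgroup has a normal complement exactly when elements of it that are conjugate in the whole group are already conjugate inside it. -/
theorem result {G : Type*} [Group G] [Finite G] (H : Subgroup G) (hH : Group.IsNilpotent H) (hHall : Nat.Coprime (Nat.card H) H.index) : (∃ N : Subgroup G, N.Normal ∧ N.IsComplement' H) ↔ ∀ x ∈ H, ∀ y ∈ H, (∃ g : G, g * x * g⁻¹ = y) → ∃ h ∈ H, h * x * h⁻¹ = y := by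
  constructor
  · rintro ⟨N, hN, hNH⟩ x hx y hy ⟨g, hg⟩
    have hg1 : g ∈ N ⊔ H := by rw [hNH.sup_eq_top]; trivial
    rw [← SetLike.mem_coe, Subgroup.normal_mul] at hg1
    obtain ⟨n, hn, h, hh, rfl⟩ := hg1
    refine ⟨h, hh, ?_⟩
    have e1 : n * (h * x * h⁻¹) * n⁻¹ = y := by rw [← hg]; group
    have hz : h * x * h⁻¹ ∈ H := mul_mem (mul_mem hh hx) (inv_mem hh)
    have h1 : y * (h * x * h⁻¹)⁻¹ ∈ N := by
      rw [← e1]
      have h2 := N.mul_mem hn (hN.conj_mem _ (inv_mem hn) (h * x * h⁻¹))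
      have h3 : n * (h * x * h⁻¹) * n⁻¹ * (h * x * h⁻¹)⁻¹ = n * (h * x * h⁻¹ * n⁻¹ * (h * x * h⁻¹)⁻¹) := by group
      rw [h3]; exact h2
    have h2 : y * (h * x * h⁻¹)⁻¹ ∈ H := mul_mem hy (inv_mem hz)
    have h3 := (Subgroup.disjoint_def.1 hNH.disjoint) h1 h2
    exact (mul_inv_eq_one.1 h3).symm
  · intro h
    apply Cfsg.Agent.H2.Fusion3.exists_normal_complement_of_forall_npc H hHall
    intro q hq hqH
    have : Fact q.Prime := ⟨hq⟩
    have hidx : ¬ q ∣ H.index := fun hd => hq.one_lt.ne' (Nat.eq_one_of_dvd_coprimes hHall hqH hd)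
    obtain ⟨P, hP⟩ := Cfsg.Agent.H2.Hall.exists_sylow_le (p := q) H hidx
    apply Cfsg.Agent.H2.Fusion3.npc_of_controls_fusion P
    intro x hx g hgx
    obtain ⟨t, ht, hte⟩ := h x (hP hx) _ (hP hgx) ⟨g, rfl⟩
    obtain ⟨A, hAH, hAC, hPA, -⟩ := Cfsg.Agent.H2.Hall.nilpotent_split P H hP hH
    rw [← hPA, Cfsg.Agent.H2.Card.mem_sup_iff' (by
      exact hAC.trans (Subgroup.centralizer_le_normalizer _))] at ht
    obtain ⟨a, ha, b, hb, rfl⟩ := ht
    refine ⟨a, ha, ?_⟩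
    rw [← hte]
    have h1 : x * b = b * x := (Subgroup.mem_centralizer_iff.1 (hAC hb)) x hx
    calc a * x * a⁻¹ = a * (x * b) * b⁻¹ * a⁻¹ := by group
      _ = a * (b * x) * b⁻¹ * a⁻¹ := by rw [h1]
      _ = _ := by group

end Cfsg.Agent.S0079
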