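import Cfsg.Statements.S0080
import Mathlib
import Cfsg.Agent.H2_Fusion2

set_option autoImplicit false
open Cfsg

namespace Cfsg.Agent.S0080

/-- When the index of H is prime to the order of H/H', the focal subgroup of H is G' ∩ H, and H/(G' ∩ H) has a normal complement. -/
theorem result {G : Type*} [Group G] [Finite G] (H : Subgroup G) (h : Nat.Coprime H.index (⁅H, H⁆.relIndex H)) : Subgroup.focalSubgroup H = commutator G ⊓ H ∧ ∃ N : Subgroup G, N.Normal ∧ N ⊓ H = commutator G ⊓ H ∧ N ⊔ H = ⊤ := by
  have hcard : Nat.Coprime (Nat.card (H ⧸ H.focalSubgroupOf)) H.index := by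
    have h1 : Nat.card (H ⧸ H.focalSubgroupOf) ∣ ⁅H, H⁆.relIndex H := by
      rw [← Subgroup.index_eq_card]
      have h2 : ⁅H, H⁆.subgroupOf H ≤ H.focalSubgroupOf := by
        intro x hx
        rw [Subgroup.focalSubgroupOf_def, Subgroup.mem_subgroupOf]
        exact H.commutator_le_focalSubgroup hx
      exact Subgroup.index_dvd_of_le h2
    exact Nat.Coprime.coprime_dvd_left h1 h.symm
  have hker : H.transferFocal.ker ⊓ H = H.focalSubgroup := by
    apply le_antisymm
    · rintro x ⟨hx, hxH⟩
      have h1 := H.transferFocal_eq_pow ⟨x, hxH⟩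
      have h0 : H.transferFocal x = 1 := hx
      change H.transferFocal x = _ at h1
      rw [h0] at h1
      have h2 := (powCoprime hcard).injective (a₁ := ((⟨x, hxH⟩ : H) : H ⧸ H.focalSubgroupOf)) (a₂ := 1) (by
        rw [powCoprime_apply, powCoprime_apply, ← h1, one_pow])
      rw [QuotientGroup.eq_one_iff, Subgroup.focalSubgroupOf_def, Subgroup.mem_subgroupOf] at h2
      exact h2
    · refine le_inf ?_ H.focalSubgroup_le
      refine le_trans H.focalSubgroup_le_commutator ?_
      have hcm : IsMulCommutative (H ⧸ H.focalSubgroupOf) := inferInstance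
      letI : CommGroup (H ⧸ H.focalSubgroupOf) :=
        { (inferInstance : Group (H ⧸ H.focalSubgroupOf)) with mul_comm := fun a b => mul_comm' a b }
      exact Abelianization.commutator_subset_ker H.transferFocal
  have hcomm : commutator G ≤ H.transferFocal.ker := by
    have hcm : IsMulCommutative (H ⧸ H.focalSubgroupOf) := inferInstance
    letI : CommGroup (H ⧸ H.focalSubgroupOf) :=
      { (inferInstance : Group (H ⧸ H.focalSubgroupOf)) with mul_comm := fun a b => mul_comm' a b }
    exact Abelianization.commutator_subset_ker H.transferFocal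
  have hfoc : H.focalSubgroup = commutator G ⊓ H := by
    apply le_antisymm
    · exact le_inf H.focalSubgroup_le_commutator H.focalSubgroup_le
    · rw [← hker]; exact inf_le_inf_right _ hcomm
  refine ⟨hfoc, H.transferFocal.ker, inferInstance, by rw [hker, hfoc], ?_⟩
  rw [eq_top_iff]
  intro g _
  obtain ⟨y, hy⟩ := (powCoprime hcard).surjective (H.transferFocal g)
  obtain ⟨x, rfl⟩ := QuotientGroup.mk'_surjective _ y
  rw [powCoprime_apply] at hy
  have h1 := H.transferFocal_eq_pow x
  have h2 : H.transferFocal (x : G) = H.transferFocal g := by rw [h1]; exact hy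
  have h3 : g * (x : G)⁻¹ ∈ H.transferFocal.ker := by
    rw [MonoidHom.mem_ker, map_mul, map_inv, h2, mul_inv_cancel]
  have h4 : g = g * (x : G)⁻¹ * x := by group
  rw [h4]
  exact Subgroup.mul_mem_sup h3 x.2

end Cfsg.Agent.S0080
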