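import Cfsg.Statements.S0082
import Mathlib
import Cfsg.Agent.H2_Fusion4

set_option autoImplicit false
open Cfsg

namespace Cfsg.Agent.S0082

/-- With a cyclic Sylow p-subgroup, either there is a normal p-complement or the elements of order prime to p generate the whole group. -/
theorem result {G : Type*} [Group G] [Finite G] {p : ℕ} [Fact p.Prime] (P : Sylow p G) (hP : IsCyclic P) : Cfsg.HasNormalPComplement p G ∨ Cfsg.pResidual p G = ⊤ := by
  by_cases htop : Cfsg.pResidual p G = ⊤
  · exact Or.inr htop
  · left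
    have i1 := Cfsg.Agent.H2.Fusion.pResidual_normal (G := G) p
    have hq : IsPGroup p (G ⧸ Cfsg.pResidual p G) :=
      Cfsg.Agent.H2.Fusion.isPGroup_quotient_of_pResidual_le le_rfl
    -- a normal subgroup of index p containing O^p(G)
    have hne : (⊥ : Subgroup (G ⧸ Cfsg.pResidual p G)) < ⊤ := by
      rw [bot_lt_iff_ne_bot]
      intro h
      apply htop
      rw [eq_top_iff]
      intro g _
      have : (QuotientGroup.mk' (Cfsg.pResidual p G) g) ∈ (⊤ : Subgroup (G ⧸ Cfsg.pResidual p G)) := trivial
      rw [h, Subgroup.mem_bot, QuotientGroup.mk'_apply, QuotientGroup.eq_one_iff] at this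
      exact this
    obtain ⟨L₀, hL₀, -, -, hLi, -⟩ := Cfsg.Agent.H2.PGroup.exists_normal_relIndex hq hne
    set L := L₀.comap (QuotientGroup.mk' (Cfsg.pResidual p G)) with hL
    have iL : L.Normal := by rw [hL]; infer_instance
    have hLidx : L.index = p := by
      rw [hL, Subgroup.index_comap_of_surjective _ (QuotientGroup.mk'_surjective _),
        ← Subgroup.relIndex_top_right]
      exact hLi
    have hLP : (P : Subgroup G) ⊔ L = ⊤ := by
      rw [eq_top_iff, ← Cfsg.Agent.H2.Fusion2.sup_pResidual P]
      refine sup_le_sup_left ?_ _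
      intro x hx
      rw [hL, Subgroup.mem_comap]
      have : QuotientGroup.mk' (Cfsg.pResidual p G) x = 1 := by
        rw [QuotientGroup.mk'_apply, QuotientGroup.eq_one_iff]; exact hx
      rw [this]; exact one_mem _
    apply Cfsg.Agent.H2.Fusion3.npc_of_tate P
    intro C hC hCi x hx hxG
    have hxL : x ∈ L := by
      have hcyc : IsCyclic (G ⧸ L) := isCyclic_of_prime_card (p := p) (by rw [← Subgroup.index_eq_card, hLidx])
      have hcomm := IsCyclic.isMulCommutative (α := G ⧸ L)
      exact (Subgroup.Normal.quotient_commutative_iff_commutator_le.1 hcomm) hxG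
    obtain ⟨c, hc⟩ := hP.exists_generator
    obtain ⟨k, hk⟩ := Subgroup.mem_zpowers_iff.1 (hc ⟨x, hx⟩)
    have hcop : (p : ℤ) ∣ k := by
      by_contra hnd
      -- then c ∈ ⟨x⟩, so P ≤ L
      have hxx : IsPGroup p P := P.isPGroup'
      obtain ⟨m, hm⟩ := IsPGroup.iff_orderOf.1 hxx c
      have hcp : IsCoprime k ((p : ℤ) ^ m) := by
        apply IsCoprime.pow_right
        rw [isCoprime_comm, (Nat.prime_iff_prime_int.1 (Fact.out : p.Prime)).coprime_iff_not_dvd]
        exact hnd
      obtain ⟨u, v, huv⟩ := hcp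
      have hcL : (c : G) ∈ L := by
        have h1 : c = c ^ (u * k + v * (p : ℤ) ^ m) := by rw [huv, zpow_one]
        have h2 : c ^ (v * (p : ℤ) ^ m) = 1 := by
          rw [mul_comm, zpow_mul]
          have : c ^ ((p : ℤ) ^ m) = 1 := by
            have h3 : ((p : ℤ) ^ m) = ((p ^ m : ℕ) : ℤ) := by push_cast; rfl
            rw [h3, zpow_natCast, ← hm, pow_orderOf_eq_one]
          rw [this, one_zpow]
        have h3 : c = (⟨x, hx⟩ : (P : Subgroup G)) ^ u := by
          rw [h1, zpow_add, h2, mul_one, mul_comm u k, zpow_mul, hk]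
        rw [h3]
        exact zpow_mem hxL u
      have hPL : (P : Subgroup G) ≤ L := by
        intro y hy
        obtain ⟨j, hj⟩ := Subgroup.mem_zpowers_iff.1 (hc ⟨y, hy⟩)
        have h1 : y = (c : G) ^ j := by
          have := congrArg Subtype.val hj
          simpa using this.symm
        rw [h1]; exact zpow_mem hcL j
      rw [sup_eq_right.2 hPL] at hLP
      rw [hLP, Subgroup.index_top] at hLidx
      exact (Fact.out : p.Prime).ne_one hLidx.symm
    obtain ⟨j, hj⟩ := hcop
    rw [← hk, hj, mul_comm, zpow_mul, zpow_natCast]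
    exact Cfsg.Agent.H2.PGroup.pow_mem_coatom P.isPGroup' (Cfsg.Agent.H2.PGroup.isCoatom_of_index hCi) _

end Cfsg.Agent.S0082
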