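import Cfsg.Statements.S0083
import Mathlib
import Cfsg.Agent.H2_Fusion4

set_option autoImplicit false
open Cfsg

namespace Cfsg.Agent.S0083

/-- For an abelian Sylow p-subgroup P, a normal p-complement exists exactly when the normalizer of P is an internal direct product of P with some subgroup. -/
theorem result {G : Type*} [Group G] [Finite G] {p : ℕ} [Fact p.Prime] (P : Sylow p G) (hP : IsMulCommutative P) : Cfsg.HasNormalPComplement p G ↔ ∃ Q : Subgroup G, Q ≤ Subgroup.centralizer (P : Set G) ∧ Q ⊓ (P : Subgroup G) = ⊥ ∧ Q ⊔ (P : Subgroup G) = Subgroup.normalizer (P : Set G) := by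
  constructor
  · intro h
    have h1 := Cfsg.Agent.H2.Basic.npc_subgroup (Subgroup.normalizer (P : Set G)) h
    obtain ⟨N, hN, hNp, k, hk⟩ := Cfsg.Agent.H2.Basic.npc_iff.1 h1
    have hc := Cfsg.Agent.H2.Basic.isComplement'_sylow (P.subtype Subgroup.le_normalizer) hNp hk
    refine ⟨N.map (Subgroup.normalizer (P : Set G)).subtype, ?_, ?_, ?_⟩
    · rintro _ ⟨n, hn, rfl⟩
      apply Cfsg.Agent.H2.Fusion3.mem_centralizer_of_npc h (P : Subgroup G) P.isPGroup' _ n.2
      have := (Cfsg.Agent.H2.Basic.mem_npc_iff hNp hk n).1 hn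
      rwa [← Subgroup.orderOf_coe] at this
    · rw [eq_bot_iff]
      rintro _ ⟨⟨n, hn, rfl⟩, hnP⟩
      have h3 := hc.disjoint
      rw [Subgroup.disjoint_def] at h3
      have h4 : n = 1 := h3 hn hnP
      rw [h4]; exact one_mem _
    · have h3 := hc.sup_eq_top
      have h4 := congrArg (Subgroup.map (Subgroup.normalizer (P : Set G)).subtype) h3
      rw [Subgroup.map_sup, ← MonoidHom.range_eq_map, Subgroup.range_subtype] at h4
      have h5 : ((P.subtype Subgroup.le_normalizer : Sylow p (Subgroup.normalizer (P : Set G))) : Subgroup _).map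
          (Subgroup.normalizer (P : Set G)).subtype = (P : Subgroup G) :=
        Subgroup.map_subgroupOf_eq_of_le Subgroup.le_normalizer
      rwa [h5] at h4
  · rintro ⟨Q, hQC, hQP, hQ⟩
    apply Cfsg.Agent.H2.Fusion4.npc_of_normalizer_le_centralizer P
    rw [← hQ]
    refine sup_le hQC ?_
    intro x hx
    rw [Subgroup.mem_centralizer_iff]
    intro y hy
    have := mul_comm' (⟨y, hy⟩ : P) ⟨x, hx⟩
    exact congrArg Subtype.val this

end Cfsg.Agent.S0083
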