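import Cfsg.Statements.S0085
import Mathlib
import Cfsg.Agent.H2_Fusion4
import Cfsg.Agent.H2_AutEA

set_option autoImplicit false
open Cfsg

namespace Cfsg.Agent.S0085

/-- A group whose Sylow 2-subgroups are elementary abelian of order 8 and whose order is prime to 3 and to 7 has a normal 2-complement. -/
theorem result {G : Type*} [Group G] [Finite G] (T : Sylow 2 G) (h8 : Nat.card T = 8) (he : ∀ x : T, x * x = 1) (h3 : ¬ 3 ∣ Nat.card G) (h7 : ¬ 7 ∣ Nat.card G) : Cfsg.HasNormalPComplement 2 G := by
  have hexp : ∀ a : T, a ^ 2 = 1 := fun a => by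
    rw [pow_two]; exact he a
  have hc : IsMulCommutative T := by
    rw [isMulCommutative_iff]
    intro a b
    have h1 := he (a * b)
    have ha := he a
    have hb := he b
    calc a * b = a * (a * b * (a * b)) * b := by rw [h1, mul_one]
      _ = (a * a) * b * a * (b * b) := by group
      _ = b * a := by rw [ha, hb, one_mul, mul_one]
  apply Cfsg.Agent.H2.Fusion4.npc_of_card_mulAut T hc
  intro q hq hqd hqG
  have hca := Cfsg.Agent.H2.AutEA.card_mulAut_ea_three (p := 2) hc hexp (by rw [h8]; norm_num)
  rw [hca] at hqd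
  have h6 : q ∣ 2 ^ 3 * 3 * 7 := by norm_num at hqd ⊢; exact hqd
  rcases (Nat.Prime.dvd_mul hq).1 h6 with h | h
  · rcases (Nat.Prime.dvd_mul hq).1 h with h | h
    · exact (Nat.prime_dvd_prime_iff_eq hq Nat.prime_two).1 (hq.dvd_of_dvd_pow h)
    · exfalso
      have := (Nat.prime_dvd_prime_iff_eq hq Nat.prime_three).1 h
      subst this
      exact h3 hqG
  · exfalso
    have := (Nat.prime_dvd_prime_iff_eq hq (by norm_num)).1 h
    subst this
    exact h7 hqG

end Cfsg.Agent.S0085
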