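import Cfsg.Statements.S0087
import Mathlib
import Cfsg.Agent.H2_Hall

set_option autoImplicit false
open Cfsg

namespace Cfsg.Agent.S0087

/-- A Hall subgroup that is central in its normalizer has a normal complement. -/
theorem result {G : Type*} [Group G] [Finite G] (H : Subgroup G) (hHall : Nat.Coprime (Nat.card H) H.index) (h : Subgroup.normalizer (H : Set G) ≤ Subgroup.centralizer (H : Set G)) : ∃ N : Subgroup G, N.Normal ∧ N.IsComplement' H := by
  have hHC : H ≤ Subgroup.centralizer (H : Set G) := Subgroup.le_normalizer.trans h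
  have hcomm : ∀ x ∈ H, ∀ y ∈ H, x * y = y * x := fun x hx y hy =>
    (Subgroup.mem_centralizer_iff.1 (hHC hy)) x hx
  apply Cfsg.Agent.H2.Fusion3.exists_normal_complement_of_forall_npc H hHall
  intro q hq hqH
  have : Fact q.Prime := ⟨hq⟩
  have hidx : ¬ q ∣ H.index := fun hd => hq.one_lt.ne' (Nat.eq_one_of_dvd_coprimes hHall hqH hd)
  obtain ⟨P, hP⟩ := Cfsg.Agent.H2.Hall.exists_sylow_le (p := q) H hidx
  apply Cfsg.Agent.H2.Fusion4.npc_of_normalizer_le_centralizer P
  intro n hn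
  set C := Subgroup.centralizer (P : Set G) with hC
  have hHC' : H ≤ C := by
    intro x hx
    rw [hC, Subgroup.mem_centralizer_iff]
    intro y hy
    exact hcomm y (hP hy) x hx
  set K := H.map (MulAut.conj n).toMonoidHom with hK
  have hKC : K ≤ C := by
    rintro _ ⟨x, hx, rfl⟩
    rw [hC, Subgroup.mem_centralizer_iff]
    intro y hy
    have h1 : n⁻¹ * y * n ∈ (P : Subgroup G) := (Subgroup.mem_normalizer_iff''.1 hn y).1 hy
    have h2 := hcomm _ (hP h1) x hx
    change y * (n * x * n⁻¹) = n * x * n⁻¹ * y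
    calc y * (n * x * n⁻¹) = n * (n⁻¹ * y * n * x) * n⁻¹ := by group
      _ = n * (x * (n⁻¹ * y * n)) * n⁻¹ := by rw [h2]
      _ = _ := by group
  have hHnil : Group.IsNilpotent H := by
    have : IsMulCommutative H := by
      rw [isMulCommutative_iff]
      intro a b
      exact Subtype.ext (hcomm a a.2 b b.2)
    open scoped IsMulCommutative in
    infer_instance
  have hKnil : Group.IsNilpotent K :=
    (Group.isNilpotent_congr (H.equivMapOfInjective _ (MulAut.conj n).injective)).1 hHnil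
  obtain ⟨c, hc⟩ := Cfsg.Agent.H2.Hall.nilpotent_hall_conj (Nat.card H) C (H.subgroupOf C) (K.subgroupOf C)
    (Cfsg.Agent.H2.Card.card_subgroupOf_of_le hHC')
    (by rw [Cfsg.Agent.H2.Card.card_subgroupOf_of_le hKC, hK, Subgroup.card_map_of_injective (MulAut.conj n).injective])
    ((Group.isNilpotent_congr (Subgroup.subgroupOfEquivOfLe hHC')).2 hHnil)
    ((Group.isNilpotent_congr (Subgroup.subgroupOfEquivOfLe hKC)).2 hKnil)
    (by
      rw [Cfsg.Agent.H2.Card.card_subgroupOf_of_le hHC']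
      exact Nat.Coprime.coprime_dvd_right (Subgroup.relIndex_dvd_index_of_le hHC') hHall)
  have hcn : (c : G)⁻¹ * n ∈ Subgroup.normalizer (H : Set G) := by
    rw [Subgroup.mem_normalizer_iff_map_conj_eq]
    ext x
    constructor
    · rintro ⟨y, hy, rfl⟩
      have h1 : n * y * n⁻¹ ∈ K := ⟨y, hy, rfl⟩
      have h2 : (⟨n * y * n⁻¹, hKC h1⟩ : C) ∈ K.subgroupOf C := h1
      rw [hc] at h2
      obtain ⟨w, hw, hwe⟩ := h2
      have h3 : (c : G) * w * (c : G)⁻¹ = n * y * n⁻¹ := congrArg Subtype.val hwe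
      change (c : G)⁻¹ * n * y * ((c : G)⁻¹ * n)⁻¹ ∈ H
      have h4 : (c : G)⁻¹ * n * y * ((c : G)⁻¹ * n)⁻¹ = (c : G)⁻¹ * (n * y * n⁻¹) * c := by group
      rw [h4, ← h3]
      have h5 : (c : G)⁻¹ * ((c : G) * w * (c : G)⁻¹) * c = w := by group
      rw [h5]; exact hw
    · intro hx
      have h1 : c * ⟨x, hHC' hx⟩ * c⁻¹ ∈ K.subgroupOf C := by
        rw [hc]; exact ⟨⟨x, hHC' hx⟩, hx, rfl⟩
      obtain ⟨y, hy, hye⟩ := h1
      refine ⟨y, hy, ?_⟩
      have h2 : n * y * n⁻¹ = (c : G) * x * (c : G)⁻¹ := hye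
      change (c : G)⁻¹ * n * y * ((c : G)⁻¹ * n)⁻¹ = x
      have h4 : (c : G)⁻¹ * n * y * ((c : G)⁻¹ * n)⁻¹ = (c : G)⁻¹ * (n * y * n⁻¹) * c := by group
      rw [h4, h2]; group
  have h1 := h hcn
  have h2 : (c : G)⁻¹ * n ∈ Subgroup.centralizer (P : Set G) := by
    rw [Subgroup.mem_centralizer_iff]
    intro y hy
    exact (Subgroup.mem_centralizer_iff.1 h1) y (hP hy)
  have h3 : (c : G) * ((c : G)⁻¹ * n) ∈ Subgroup.centralizer (P : Set G) := mul_mem c.2 h2
  rwa [mul_inv_cancel_left] at h3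

end Cfsg.Agent.S0087
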