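import Cfsg.Statements.S0089
import Mathlib
import Cfsg.Agent.H2_Fusion4
import Cfsg.Agent.S0088

set_option autoImplicit false
open Cfsg

namespace Cfsg.Agent.S0089

/-- When all Sylow subgroups are abelian, the derived subgroup meets the centre trivially. -/
theorem result {G : Type*} [Group G] [Finite G] (h : ∀ p : ℕ, p.Prime → ∀ P : Sylow p G, IsMulCommutative P) : commutator G ⊓ Subgroup.center G = ⊥ := by
  rw [eq_bot_iff]
  intro x hx
  by_contra hne
  rw [Subgroup.mem_bot] at hne
  have h1 : orderOf x ≠ 1 := fun h => hne (orderOf_eq_one_iff.1 h)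
  obtain ⟨p, hp, hpd⟩ := Nat.exists_prime_and_dvd h1
  have : Fact p.Prime := ⟨hp⟩
  obtain ⟨m, hm⟩ := hpd
  set y := x ^ m with hy
  have hyo : orderOf y = p := by
    have hpos := orderOf_pos x
    rw [hy, orderOf_pow_of_dvd]
    · rw [hm]; exact Nat.mul_div_cancel _ (by rcases Nat.eq_zero_or_pos m with h | h; · rw [h, mul_zero] at hm; omega
                                              · exact h)
    · rintro rfl; rw [mul_zero] at hm; omega
    · rw [hm]; exact dvd_mul_left _ _
  have hyI : y ∈ commutator G ⊓ Subgroup.center G := pow_mem hx m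
  have hyp : IsPGroup p (Subgroup.zpowers y) := IsPGroup.of_card (n := 1) (by rw [Nat.card_zpowers, hyo, pow_one])
  obtain ⟨P, hP⟩ := hyp.exists_le_sylow
  have h2 := Cfsg.Agent.S0088.result (P : Subgroup G) (h p hp P) P.card_coprime_index
  have h3 : y ∈ (P : Subgroup G) ⊓ commutator G ⊓ Subgroup.center G :=
    ⟨⟨hP (Subgroup.mem_zpowers y), hyI.1⟩, hyI.2⟩
  rw [h2, Subgroup.mem_bot] at h3
  rw [h3, orderOf_one] at hyo
  exact hp.ne_one hyo.symm

end Cfsg.Agent.S0089
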