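import Cfsg.Statements.S0091
import Mathlib
import Cfsg.Agent.H2_Fusion2
import Cfsg.Agent.H2_PGroup

set_option autoImplicit false
open Cfsg

namespace Cfsg.Agent.S0091

/-- If a nontrivial Sylow p-subgroup controls its own fusion then it is not contained in the derived subgroup. -/
theorem result {G : Type*} [Group G] [Finite G] {p : ℕ} [Fact p.Prime] (P : Sylow p G) (hp : p ∣ Nat.card G) (h : ∀ x ∈ P, ∀ y ∈ P, (∃ g : G, g * x * g⁻¹ = y) → ∃ z ∈ P, z * x * z⁻¹ = y) : ¬ (P : Subgroup G) ≤ commutator G := by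
  intro hle
  have h1 := Cfsg.Agent.H2.Fusion2.inf_commutator_eq_of_control P (P : Subgroup G) le_rfl
    (fun x hx g hg => h x hx _ hg ⟨g, rfl⟩)
  rw [inf_eq_right.2 hle, inf_eq_left.2 (Subgroup.commutator_le_self _)] at h1
  have h2 : (P : Subgroup G) ≠ ⊥ := P.ne_bot_of_dvd_card hp
  have hnt : (⊤ : Subgroup (P : Subgroup G)) ≠ ⊥ := by
    intro hb
    apply h2
    rw [eq_bot_iff]
    intro x hx
    have : (⟨x, hx⟩ : (P : Subgroup G)) ∈ (⊤ : Subgroup (P : Subgroup G)) := trivial
    rw [hb, Subgroup.mem_bot] at this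
    exact congrArg Subtype.val this
  have h3 := Cfsg.Agent.H2.PGroup.commutator_top_lt P.isPGroup' hnt
  apply h3.ne
  rw [← _root_.commutator_def]
  apply Subgroup.map_injective (Subgroup.subtype_injective _)
  rw [Subgroup.map_subtype_commutator, ← h1]
  rw [← MonoidHom.range_eq_map, Subgroup.range_subtype]

end Cfsg.Agent.S0091
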