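import Cfsg.Statements.S0092
import Mathlib
import Cfsg.Agent.H2_Fusion4
import Cfsg.Agent.H2_Card
import Cfsg.Agent.H1_Coprime2

set_option autoImplicit false
open Cfsg

namespace Cfsg.Agent.S0092

open Subgroup
open scoped commutatorElement Pointwise

/-- If the Sylow p-subgroups of O^p(G) are abelian then G splits over O^p(G). -/
theorem result {G : Type*} [Group G] [Finite G] {p : ℕ} [Fact p.Prime] (h : ∀ Q : Sylow p (Cfsg.pResidual p G), IsMulCommutative Q) : ∃ K : Subgroup G, K.IsComplement' (Cfsg.pResidual p G) := by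
  have hpp : p.Prime := Fact.out
  set K : Subgroup G := Cfsg.pResidual p G with hK
  have hKn : K.Normal := Cfsg.Agent.H2.Fusion.pResidual_normal p
  let T : Sylow p K := default
  have hT := Cfsg.Agent.H2.Fusion4.inf_pResidual_of_abelian T (h T)
  rw [Cfsg.Agent.H2.Fusion.pResidual_pResidual, inf_top_eq] at hT
  set Q : Subgroup G := (T : Subgroup K).map K.subtype with hQ
  have hQK : Q ≤ K := (map_le_range _ _).trans (by rw [range_subtype])
  have hQcard : Nat.card Q = Nat.card T := card_map_of_injective K.subtype_injective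
  have hQp : IsPGroup p Q := T.isPGroup'.map K.subtype
  have hQc : IsMulCommutative Q := by
    have := h T
    exact inferInstance
  set N : Subgroup G := normalizer (Q : Set G) with hN
  set L : Subgroup G := N ⊓ K with hL
  have hQL : Q ≤ L := le_inf le_normalizer hQK
  have hLN : L ≤ N := inf_le_left
  have hrel : ¬ p ∣ Q.relIndex L := by
    intro hd
    have h1 : Q.relIndex L ∣ Q.relIndex K := by
      have := relIndex_mul_relIndex Q L K hQL inf_le_right
      exact Dvd.intro _ this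
    have h2 : Q.relIndex K = (T : Subgroup K).index := by
      rw [relIndex, hQ, subgroupOf, comap_map_eq_self_of_injective K.subtype_injective]
    rw [h2] at h1
    exact T.not_dvd_index (hd.trans h1)
  obtain ⟨m, hm⟩ := IsPGroup.iff_card.1 hQp
  have hcop : (Nat.card Q).Coprime (Q.relIndex L) := by
    rw [hm]
    exact Nat.Coprime.pow_left _ ((Nat.Prime.coprime_iff_not_dvd hpp).2 hrel)
  obtain ⟨B, hBL, hBcard, hBQ, hBsup⟩ := Cfsg.Agent.H1.Coprime.sz_exists hQL hLN hcop
  have hcop' : (Nat.card B).Coprime (Nat.card Q) := by rw [hBcard]; exact hcop.symm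
  have hBN : B ≤ N := hBL.trans hLN
  -- Q = [Q, B]
  have hQB : Q ≤ ⁅Q, B⁆ := by
    have h1 : Q = ⁅Q, (normalizer ((T : Subgroup K) : Set K)).map K.subtype⁆ := by
      conv_lhs => rw [hQ, hT, map_commutator]
      rfl
    have h2 : (normalizer ((T : Subgroup K) : Set K)).map K.subtype ≤ L := by
      refine le_inf ?_ ((map_le_range _ _).trans (by rw [range_subtype]))
      exact le_normalizer_map K.subtype
    have h3 : Q ≤ ⁅Q, L⁆ := by
      conv_lhs => rw [h1]
      exact commutator_mono le_rfl h2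
    refine h3.trans ?_
    rw [commutator_le]
    intro q hq l hl
    rw [← hBsup, Cfsg.Agent.H2.Card.mem_sup_iff hBN] at hl
    obtain ⟨b, hb, q', hq', rfl⟩ := hl
    have h4 : q * q' = q' * q := congrArg Subtype.val (hQc.is_comm.comm (⟨q, hq⟩ : Q) ⟨q', hq'⟩)
    have h5 : ⁅q, b * q'⁆ = ⁅q, b⁆ := by
      calc ⁅q, b * q'⁆ = q * b * (q' * q⁻¹) * q'⁻¹ * b⁻¹ := by
            simp only [commutatorElement_def]; group
        _ = q * b * (q⁻¹ * q') * q'⁻¹ * b⁻¹ := by
            rw [show q' * q⁻¹ = q⁻¹ * q' by rw [mul_inv_eq_iff_eq_mul, mul_assoc, ← h4]; group]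
        _ = ⁅q, b⁆ := by simp only [commutatorElement_def]; group
    rw [h5]
    exact commutator_mem_commutator hq hb
  have hCQ : Q ⊓ centralizer (B : Set G) = ⊥ := by
    have h1 := Cfsg.Agent.H1.Coprime.inf_commutator_eq_bot_of_abelian B Q hBN hcop'
    rw [eq_bot_iff, ← h1]
    exact le_inf le_rfl (inf_le_left.trans hQB)
  have hsolv : Group.IsSolvable B ∨ Group.IsSolvable Q := by
    right
    have := hQp.isNilpotent
    infer_instance
  have hQsolv := hsolv
  set M : Subgroup G := N ⊓ normalizer (B : Set G) with hM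
  have hLnorm : ∀ n ∈ N, ∀ l ∈ L, n * l * n⁻¹ ∈ L := by
    intro n hn l hl
    exact mem_inf.2 ⟨N.mul_mem (N.mul_mem hn hl.1) (N.inv_mem hn), hKn.conj_mem l hl.2 n⟩
  have hNM : ∀ n ∈ N, ∃ k ∈ Q, k⁻¹ * n ∈ M := by
    intro n hn
    have h1 : MulAut.conj n • B ≤ B ⊔ Q := by
      rw [hBsup]
      intro x hx
      rw [Cfsg.Agent.H1.Basic.mem_conj] at hx
      have := hLnorm n hn _ (hBL hx)
      have h2 : n * (n⁻¹ * x * n) * n⁻¹ = x := by group
      rwa [h2] at this
    obtain ⟨k, hk, hkB⟩ := Cfsg.Agent.H1.Coprime.sz_internal hBN h1 (Cfsg.Agent.H1.Basic.card_conj _ _) hcop' hsolv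
    refine ⟨k, hk, mem_inf.2 ⟨N.mul_mem (N.inv_mem (le_normalizer hk)) hn, ?_⟩⟩
    rw [← Cfsg.Agent.H1.Basic.conj_eq_iff_mem_normalizer, ← Cfsg.Agent.H1.Basic.conj_conj, ← hkB,
      Cfsg.Agent.H1.Basic.conj_conj, inv_mul_cancel, Cfsg.Agent.H1.Basic.conj_one]
  have hMK : K ⊓ M = B := by
    apply le_antisymm
    · rintro x ⟨hxK, hxN, hxB⟩
      have hxL : x ∈ L := ⟨hxN, hxK⟩
      rw [← hBsup, Cfsg.Agent.H2.Card.mem_sup_iff hBN] at hxL
      obtain ⟨b, hb, q, hq, rfl⟩ := hxL
      have hqB : q ∈ normalizer (B : Set G) := by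
        have := mul_mem (inv_mem (le_normalizer hb)) hxB
        simpa using this
      have hqC := Cfsg.Agent.H1.Coprime.mem_centralizer_of_mem_normalizer hBN hBQ hq hqB
      have : q ∈ Q ⊓ centralizer (B : Set G) := ⟨hq, hqC⟩
      rw [hCQ, mem_bot] at this
      rw [this, mul_one]; exact hb
    · exact le_inf (hBL.trans inf_le_right) (le_inf hBN le_normalizer)
  have hMKtop : M ⊔ K = ⊤ := by
    rw [eq_top_iff]
    have h1 : N ⊔ K = ⊤ := Sylow.normalizer_sup_eq_top T
    rw [← h1]
    refine sup_le ?_ le_sup_right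
    intro n hn
    obtain ⟨k, hk, hkn⟩ := hNM n hn
    have h2 : n = k * (k⁻¹ * n) := by group
    rw [h2]
    exact mul_mem ((le_sup_right : K ≤ M ⊔ K) (hQK hk)) ((le_sup_left : M ≤ M ⊔ K) hkn)
  have hKidx : K.relIndex M = K.index := by
    have h1 := Cfsg.Agent.H2.Card.relIndex_sup_of_le_normalizer (H := M) (N := K)
      (by rw [normalizer_eq_top]; exact le_top)
    rw [← h1, hMKtop, relIndex_top_right]
  obtain ⟨k, hk⟩ := IsPGroup.iff_card.1
    (Cfsg.Agent.H2.Fusion.isPGroup_quotient_of_pResidual_le (p := p) (N := K) le_rfl)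
  rw [← index_eq_card] at hk
  have hBp : ¬ p ∣ Nat.card B := by rw [hBcard]; exact hrel
  have hMcard : Nat.card M = Nat.card B * p ^ k := by
    have h1 := Cfsg.Agent.H2.Card.card_inf_mul_relIndex K M
    rw [← h1, hMK, hKidx, hk]
  let R' : Sylow p M := default
  have hRcard : Nat.card R' = p ^ k := by
    rw [R'.card_eq_multiplicity, hMcard, Nat.factorization_mul Nat.card_pos.ne' (pow_pos hpp.pos k).ne',
      Finsupp.add_apply, Nat.factorization_eq_zero_of_not_dvd hBp, hpp.factorization_pow]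
    simp
  refine ⟨(R' : Subgroup M).map M.subtype, ?_⟩
  have hRc : Nat.card ((R' : Subgroup M).map M.subtype) = p ^ k := by
    rw [card_map_of_injective M.subtype_injective, hRcard]
  apply isComplement'_of_card_mul_and_disjoint
  · rw [hRc, ← hk, mul_comm]
    exact card_mul_index K
  · rw [disjoint_iff_inf_le]
    rintro x ⟨hx1, hx2⟩
    have hxM : x ∈ M := (map_le_range _ _).trans (by rw [range_subtype]) hx1
    have hxB : x ∈ B := by rw [← hMK]; exact ⟨hx2, hxM⟩
    have h3 : orderOf x ∣ p ^ k := by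
      rw [← hRc]
      exact Subgroup.orderOf_dvd_natCard _ hx1
    have h4 : orderOf x ∣ Nat.card B := Subgroup.orderOf_dvd_natCard _ hxB
    have h5 : orderOf x ∣ 1 := by
      rw [← (Nat.Coprime.pow_left k ((Nat.Prime.coprime_iff_not_dvd hpp).2 hBp))]
      exact Nat.dvd_gcd h3 h4
    rw [mem_bot, ← orderOf_eq_one_iff]
    exact Nat.dvd_one.1 h5

end Cfsg.Agent.S0092
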