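import Cfsg.Statements.S0094
import Mathlib
import Cfsg.Agent.H2_Critical

set_option autoImplicit false
open Cfsg

namespace Cfsg.Agent.S0094

open scoped commutatorElement

/-- In a special p-group every central element has order dividing p. -/
theorem result {P : Type*} [Group P] [Finite P] {p : ℕ} [Fact p.Prime] (h : Cfsg.IsSpecial p P) (z : P) (hz : z ∈ Subgroup.center P) : z ^ p = 1 := by
  obtain ⟨hP, hfr, hcomm⟩ := h
  have hc : ∀ a b : P, ⁅a, b⁆ ∈ Subgroup.center P := fun a b => by
    rw [← hcomm, _root_.commutator_def]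
    exact Subgroup.commutator_mem_commutator (Subgroup.mem_top a) (Subgroup.mem_top b)
  rw [← hcomm, _root_.commutator_def, Subgroup.commutator_def] at hz
  have key : ∀ z ∈ Subgroup.closure {g : P | ∃ g₁ ∈ (⊤ : Subgroup P), ∃ g₂ ∈ (⊤ : Subgroup P), ⁅g₁, g₂⁆ = g},
      z ∈ Subgroup.center P ∧ z ^ p = 1 := by
    intro z hz
    induction hz using Subgroup.closure_induction with
    | mem x hx =>
      obtain ⟨a, _, b, _, rfl⟩ := hx
      refine ⟨hc a b, ?_⟩
      rw [← Cfsg.Agent.H2.Class.comm_pow_left hc, commutatorElement_eq_one_iff_mul_comm]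
      have : a ^ p ∈ Subgroup.center P := by
        rw [← hfr]; exact (Cfsg.Agent.H1.Nilp.commutator_le_frattini hP).2 a
      exact (Subgroup.mem_center_iff.1 this b).symm
    | one => exact ⟨one_mem _, one_pow p⟩
    | mul x y _ _ hx hy =>
      refine ⟨mul_mem hx.1 hy.1, ?_⟩
      have hxy : Commute x y := (Subgroup.mem_center_iff.1 hy.1 x)
      rw [hxy.mul_pow, hx.2, hy.2, one_mul]
    | inv x _ hx => exact ⟨inv_mem hx.1, by rw [inv_pow, hx.2, inv_one]⟩
  exact (key z hz).2

end Cfsg.Agent.S0094
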