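import Cfsg.Statements.S0097
import Mathlib
import Cfsg.Agent.H2_Class2
import Cfsg.Agent.H1_Nilp

set_option autoImplicit false
open Cfsg

namespace Cfsg.Agent.S0097

open scoped commutatorElement

/-- For odd p and E extraspecial, the subgroup generated by the elements of order dividing p has exponent dividing p and index at most p. -/
theorem result {E : Type*} [Group E] [Finite E] {p : ℕ} [Fact p.Prime] (hp : p ≠ 2) (h : Cfsg.IsExtraspecial p E) : (Subgroup.closure {x : E | x ^ p = 1}).index ≤ p ∧ ∀ g ∈ Subgroup.closure {x : E | x ^ p = 1}, g ^ p = 1 := by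
  have hpp : p.Prime := Fact.out
  obtain ⟨⟨hP, hfr, hcomm⟩, hcard⟩ := h
  have hc : ∀ a b : E, ⁅a, b⁆ ∈ Subgroup.center E := fun a b => by
    rw [← hcomm, _root_.commutator_def]
    exact Subgroup.commutator_mem_commutator (Subgroup.mem_top a) (Subgroup.mem_top b)
  have hz : ∀ z ∈ Subgroup.center E, z ^ p = 1 := by
    intro z hz
    have := pow_card_eq_one' (x := (⟨z, hz⟩ : Subgroup.center E))
    rw [hcard] at this
    simpa using congrArg Subtype.val this
  refine ⟨?_, fun g hg => Cfsg.Agent.H2.Class.pow_p_closure_two hpp hp hc hg⟩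
  let f : E →* E :=
    { toFun := fun x => x ^ p
      map_one' := one_pow p
      map_mul' := fun x y => Cfsg.Agent.H2.Class.mul_pow_p hpp hp hc x y (hz _ (hc _ _)) }
  have h1 : f.ker ≤ Subgroup.closure {x : E | x ^ p = 1} := fun x hx =>
    Subgroup.subset_closure (MonoidHom.mem_ker.1 hx)
  have h2 : f.range ≤ Subgroup.center E := by
    rintro _ ⟨x, rfl⟩
    rw [← hfr]
    exact (Cfsg.Agent.H1.Nilp.commutator_le_frattini hP).2 x
  have h3 : f.ker.index ≤ p := by
    rw [Subgroup.index_ker, ← hcard]
    exact Subgroup.card_le_of_le h2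
  exact (Nat.le_of_dvd (Nat.pos_of_ne_zero Subgroup.index_ne_zero_of_finite)
    (Subgroup.index_dvd_of_le h1)).trans h3

end Cfsg.Agent.S0097
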