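import Cfsg.Statements.S0098
import Mathlib
import Cfsg.Agent.H2_Extra3

set_option autoImplicit false
open Cfsg

namespace Cfsg.Agent.S0098

open Subgroup
open scoped commutatorElement

/-- For odd p, extraspecial p-groups of exponent p are determined up to isomorphism by their order. -/
theorem result {E₁ : Type*} {E₂ : Type*} [Group E₁] [Group E₂] [Finite E₁] [Finite E₂] {p : ℕ} [Fact p.Prime] (hp : p ≠ 2) (h₁ : Cfsg.IsExtraspecial p E₁) (h₂ : Cfsg.IsExtraspecial p E₂) (he₁ : Monoid.exponent E₁ = p) (he₂ : Monoid.exponent E₂ = p) (hc : Nat.card E₁ = Nat.card E₂) : Nonempty (E₁ ≃* E₂) := by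
  have k1 : ∀ x : E₁, x ^ p = 1 := fun x => by rw [← he₁]; exact Monoid.pow_exponent_eq_one x
  have k2 : ∀ x : E₂, x ^ p = 1 := fun x => by rw [← he₂]; exact Monoid.pow_exponent_eq_one x
  obtain ⟨x, y, hxy⟩ := Cfsg.Agent.H2.Extra.not_abelian h₁
  obtain ⟨x', y', hxy'⟩ := Cfsg.Agent.H2.Extra.not_abelian h₂
  obtain ⟨e, -⟩ := Cfsg.Agent.H2.Extra.iso_exp_p (Nat.card E₁) E₁ E₂ le_rfl h₁ h₂ k1 k2 hc
    ⁅x, y⁆ (Cfsg.Agent.H2.Extra.comm_mem_center h₁ x y) ⁅x', y'⁆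
    (Cfsg.Agent.H2.Extra.comm_mem_center h₂ x' y') hxy hxy'
  exact ⟨e⟩

end Cfsg.Agent.S0098
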