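import Cfsg.Statements.S0100
import Mathlib
import Cfsg.Agent.H2_Rank3
import Cfsg.Agent.H2_Alperin
import Cfsg.Agent.S0129

set_option autoImplicit false
open Cfsg

namespace Cfsg.Agent.S0100

open Subgroup Cfsg Cfsg.Agent.H2.Card

/-- For odd p, a p-group without normal elementary abelian subgroups of order p^3 has p-rank at most 2. -/
theorem result {P : Type*} [Group P] [Finite P] {p : ℕ} [Fact p.Prime] (hp : p ≠ 2) (hP : IsPGroup p P) (h : ∀ A : Subgroup P, A.Normal → IsMulCommutative A → (∀ a ∈ A, a ^ p = 1) → Nat.card A ≠ p ^ 3) (E : Subgroup P) (hE : IsMulCommutative E) (hEe : ∀ e ∈ E, e ^ p = 1) : Nat.card E ≤ p ^ 2 := by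
  have hpp : p.Prime := Fact.out
  obtain ⟨A, hA⟩ := (Set.toFinite {A : Subgroup P | A.Normal ∧ IsMulCommutative A ∧ ∀ a ∈ A, a ^ p = 1}).exists_maximal
    ⟨⊥, inferInstance, inferInstance, fun a ha => by rw [mem_bot.1 ha, one_pow]⟩
  obtain ⟨hAn, hAc, hAe⟩ := hA.prop
  obtain ⟨n, hn⟩ := IsPGroup.iff_card.1 (hP.to_subgroup A)
  have hn2 : n ≤ 2 := by
    by_contra hcon
    obtain ⟨L, hLn, hLA, hLc⟩ := Cfsg.Agent.H2.Rank3.exists_normal_card hP hAn hn (k := 3) (by omega)
    refine h L hLn ⟨⟨fun a b => ?_⟩⟩ (fun a ha => hAe a (hLA ha)) hLc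
    have := hAc.is_comm.comm (⟨a, hLA a.2⟩ : A) ⟨b, hLA b.2⟩
    exact Subtype.ext (congrArg (Subtype.val : A → P) this)
  have halp : ∀ x ∈ centralizer (A : Set P), x ^ p = 1 → x ∈ A := by
    intro x hx hxp
    refine Cfsg.Agent.H2.Alperin.mem_of_centralizes hP (n := 1) (by rwa [pow_one]) A hAn hAc
      (by simpa using hAe) ?_ x hx (by rwa [pow_one])
    intro B hBn hBc hBe hAB
    exact le_antisymm (hA.2 ⟨hBn, hBc, by simpa using hBe⟩ hAB) hAB
  have hidx := Cfsg.Agent.S0129.index_centralizer_le hP n A hAn hn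
  have hidx' : (centralizer (A : Set P)).index ≤ p := by
    refine hidx.trans ?_
    interval_cases n <;> simp [hpp.pos, hpp.one_lt.le]
  by_cases hEC : E ≤ centralizer (A : Set P)
  · have : E ≤ A := fun e he => halp e (hEC he) (hEe e he)
    calc Nat.card E ≤ Nat.card A := card_le_of_le this
      _ = p ^ n := hn
      _ ≤ p ^ 2 := Nat.pow_le_pow_right hpp.pos hn2
  · have h1 : centralizer (A : Set P) ⊓ E ≤ A := fun e he => halp e he.1 (hEe e he.2)
    have h2 : centralizer (A : Set P) ⊓ E ≠ A := by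
      intro heq
      apply hEC
      intro e he
      rw [mem_centralizer_iff]
      intro a ha
      have haE : a ∈ E := by
        have : a ∈ centralizer (A : Set P) ⊓ E := by rw [heq]; exact ha
        exact this.2
      exact congrArg Subtype.val (hE.is_comm.comm (⟨a, haE⟩ : E) ⟨e, he⟩)
    have h3 := card_lt_of_lt (lt_of_le_of_ne h1 h2)
    obtain ⟨k, hk⟩ := IsPGroup.iff_card.1 (hP.to_subgroup (centralizer (A : Set P) ⊓ E))
    rw [hk, hn] at h3
    have h4 := (Nat.pow_lt_pow_iff_right hpp.one_lt).1 h3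
    have h5 : Nat.card (centralizer (A : Set P) ⊓ E : Subgroup P) ≤ p := by
      rw [hk]
      calc p ^ k ≤ p ^ 1 := Nat.pow_le_pow_right hpp.pos (by omega)
        _ = p := pow_one p
    have h6 : (centralizer (A : Set P)).relIndex E ≤ p :=
      (Nat.le_of_dvd (Nat.pos_of_ne_zero index_ne_zero_of_finite) (relIndex_dvd_index_of_normal _ _)).trans hidx'
    rw [← card_inf_mul_relIndex (centralizer (A : Set P)) E, pow_two]
    exact Nat.mul_le_mul h5 h6

end Cfsg.Agent.S0100
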