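import Cfsg.Statements.S0101
import Mathlib
import Cfsg.Agent.H2_Fusion2
import Cfsg.Agent.H2_PGroup

set_option autoImplicit false
open Cfsg

namespace Cfsg.Agent.S0101

/-- In a perfect central extension, the kernel meets each Sylow p-subgroup P inside the Frattini subgroup of P. -/
theorem result {H : Type*} {G : Type*} [Group H] [Group G] [Finite H] (σ : H →* G) (hσ : Function.Surjective σ) (hc : σ.ker ≤ Subgroup.center H) (hH : commutator H = ⊤) {p : ℕ} [Fact p.Prime] (P : Sylow p H) : σ.ker ⊓ (P : Subgroup H) ≤ (frattini P).map (P : Subgroup H).subtype := by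
  rintro x ⟨hx, hxP⟩
  -- transfer to P / P'
  have h1 : x ∈ Subgroup.center H := hc hx
  have hxG : x ∈ commutator H := by rw [hH]; trivial
  have h2 : x ∈ commutator H ⊓ (P : Subgroup H) := ⟨hxG, hxP⟩
  -- use the abelianization of P
  let φ : (P : Subgroup H) →* Abelianization (P : Subgroup H) := Abelianization.of
  have key : ∀ (k : ℕ) (g₀ : H), g₀⁻¹ * x ^ k * g₀ ∈ (P : Subgroup H) → g₀⁻¹ * x ^ k * g₀ = x ^ k := by
    intro k g₀ _
    have h3 := Subgroup.mem_center_iff.1 (pow_mem h1 k) g₀
    rw [mul_assoc, ← h3, inv_mul_cancel_left]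
  have h4 := MonoidHom.transfer_eq_pow φ x key
  have h5 : MonoidHom.transfer φ x = 1 := by
    have := Abelianization.commutator_subset_ker (MonoidHom.transfer φ) hxG
    exact this
  rw [h5] at h4
  have h6 : φ (⟨x, hxP⟩ ^ (P : Subgroup H).index) = 1 := by
    rw [h4]; congr 1
  rw [map_pow] at h6
  have hAp : IsPGroup p (Abelianization (P : Subgroup H)) :=
    P.isPGroup'.of_surjective Abelianization.of (QuotientGroup.mk'_surjective _)
  have hcop : Nat.Coprime p (P : Subgroup H).index :=
    (Nat.Prime.coprime_iff_not_dvd Fact.out).2 P.not_dvd_index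
  have h7 := (hAp.powEquiv hcop).injective (a₁ := φ ⟨x, hxP⟩) (a₂ := 1) (by
        rw [IsPGroup.powEquiv_apply, IsPGroup.powEquiv_apply, h6, one_pow])
  have h8 : (⟨x, hxP⟩ : (P : Subgroup H)) ∈ commutator (P : Subgroup H) := by
    rwa [← QuotientGroup.eq_one_iff]
  exact ⟨⟨x, hxP⟩, Cfsg.Agent.H2.PGroup.commutator_le_frattini P.isPGroup' h8, rfl⟩

end Cfsg.Agent.S0101
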