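import Cfsg.Statements.S0104
import Mathlib
import Cfsg.Agent.H2_Basic

set_option autoImplicit false
open Cfsg

namespace Cfsg.Agent.S0104

/-- A subgroup Z of a Sylow p-subgroup P that is normalized by N_G(P) is weakly closed in P exactly when it is normal in every Sylow p-subgroup containing it. -/
theorem result {G : Type*} [Group G] [Finite G] {p : ℕ} [Fact p.Prime] (P : Sylow p G) (Z : Subgroup G) (hZP : Z ≤ (P : Subgroup G)) (hZN : Subgroup.normalizer (P : Set G) ≤ Subgroup.normalizer (Z : Set G)) : Cfsg.IsWeaklyClosed Z P ↔ ∀ R : Sylow p G, Z ≤ (R : Subgroup G) → (R : Subgroup G) ≤ Subgroup.normalizer (Z : Set G) := by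
  constructor
  · rintro ⟨-, hw⟩ R hZR
    obtain ⟨g, hg⟩ := MulAction.exists_smul_eq G R P
    have h1 : Z.map (MulAut.conj g).toMonoidHom = Z := by
      apply hw
      rintro _ ⟨z, hz, rfl⟩
      change g * z * g⁻¹ ∈ P
      rw [← hg, Cfsg.Agent.H2.Basic.mem_smul_sylow]
      have : g⁻¹ * (g * z * g⁻¹) * g = z := by group
      rw [this]; exact hZR hz
    have n1 : g ∈ Subgroup.normalizer (Z : Set G) := Subgroup.mem_normalizer_iff_map_conj_eq.2 h1
    intro r hr
    have h2 : g * r * g⁻¹ ∈ P := by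
      rw [← hg, Cfsg.Agent.H2.Basic.mem_smul_sylow]
      have : g⁻¹ * (g * r * g⁻¹) * g = r := by group
      rw [this]; exact hr
    have h3 := hZN (Subgroup.le_normalizer h2)
    have h4 := mul_mem (mul_mem (inv_mem n1) h3) n1
    have : g⁻¹ * (g * r * g⁻¹) * g = r := by group
    rwa [this] at h4
  · intro h
    refine ⟨hZP, fun g hg => ?_⟩
    -- Z ≤ g⁻¹ P g
    have h1 : Z ≤ ((g⁻¹ • P : Sylow p G) : Subgroup G) := by
      intro z hz
      change z ∈ g⁻¹ • P
      rw [Cfsg.Agent.H2.Basic.mem_smul_sylow, inv_inv]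
      exact hg ⟨z, hz, rfl⟩
    have h2 := h _ h1
    have h3 : (P : Subgroup G) ≤ Subgroup.normalizer (Z : Set G) := h P hZP
    obtain ⟨n, hn, hne⟩ := Cfsg.Agent.H2.Basic.sylow_conj_in _ (g⁻¹ • P) P h2 h3
    rw [← mul_smul] at hne
    have h4 := hZN (Sylow.smul_eq_iff_mem_normalizer.1 hne)
    have h5 : g ∈ Subgroup.normalizer (Z : Set G) := by
      have := mul_mem (inv_mem h4) hn
      simpa using this
    exact Subgroup.mem_normalizer_iff_map_conj_eq.1 h5

end Cfsg.Agent.S0104
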