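import Cfsg.Statements.S0105
import Mathlib
import Cfsg.Agent.H2_Fusion4
import Cfsg.Agent.S0090

set_option autoImplicit false
open Cfsg

namespace Cfsg.Agent.S0105

/-- With an abelian Sylow p-subgroup P, some quotient of G is isomorphic to the part of P central in N_G(P). -/
theorem result {G : Type*} [Group G] [Finite G] {p : ℕ} [Fact p.Prime] (P : Sylow p G) (hP : IsMulCommutative P) : ∃ (N : Subgroup G) (hN : N.Normal), Nonempty (G ⧸ N ≃* ((P : Subgroup G) ⊓ Subgroup.centralizer (Subgroup.normalizer (P : Set G) : Set G) : Subgroup G)) := by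
  -- decomposition of P in its normalizer
  set N := Subgroup.normalizer (P : Set G) with hN
  have hPN : (P : Subgroup G) ≤ N := Subgroup.le_normalizer
  set A : Subgroup N := (P : Subgroup G).subgroupOf N with hA
  have iA : A.Normal := Subgroup.normal_in_normalizer (H := (P : Subgroup G))
  have hAc : IsMulCommutative A := by
    rw [isMulCommutative_iff]
    intro a b
    apply Subtype.ext
    apply Subtype.ext
    change (a.1.1 * b.1.1 : G) = b.1.1 * a.1.1
    exact congrArg Subtype.val (mul_comm' (⟨a.1.1, a.2⟩ : (P : Subgroup G)) ⟨b.1.1, b.2⟩)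
  have hHall : Nat.Coprime (Nat.card A) A.index := (P.subtype hPN).card_coprime_index
  obtain ⟨h1, h2, h3⟩ := Cfsg.Agent.S0090.result A hAc hHall
  set Z : Subgroup G := (P : Subgroup G) ⊓ Subgroup.centralizer (N : Set G) with hZ
  have iK := Cfsg.Agent.H2.Fusion.pResidual_normal (G := G) p
  set K := Cfsg.pResidual p G with hK
  have hPK := Cfsg.Agent.H2.Fusion4.inf_pResidual_of_abelian P hP
  have hmapA : ⁅A, (⊤ : Subgroup N)⁆.map N.subtype = ⁅(P : Subgroup G), N⁆ := by
    rw [Subgroup.map_commutator, hA, Subgroup.map_subgroupOf_eq_of_le hPN, ← MonoidHom.range_eq_map,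
      Subgroup.range_subtype]
  have hmapZ : (Subgroup.center N ⊓ A).map N.subtype = Z := by
    ext x
    constructor
    · rintro ⟨y, ⟨hy1, hy2⟩, rfl⟩
      refine ⟨hy2, ?_⟩
      change (y : G) ∈ Subgroup.centralizer (N : Set G)
      rw [Subgroup.mem_centralizer_iff]
      intro n hn
      exact congrArg Subtype.val (Subgroup.mem_center_iff.1 hy1 ⟨n, hn⟩)
    · rintro ⟨hx1, hx2⟩
      refine ⟨⟨x, hPN hx1⟩, ⟨?_, hx1⟩, rfl⟩
      change _ ∈ Subgroup.center N
      rw [Subgroup.mem_center_iff]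
      intro n
      exact Subtype.ext ((Subgroup.mem_centralizer_iff.1 hx2) n n.2)
  have hdisj : ∀ x ∈ Z, x ∈ K → x = 1 := by
    intro x hxZ hxK
    have h4 : x ∈ (P : Subgroup G) ⊓ K := ⟨hxZ.1, hxK⟩
    rw [hPK, ← hmapA, h1] at h4
    rw [← hmapZ] at hxZ
    obtain ⟨y, hy, hyx⟩ := h4
    obtain ⟨w, hw, hwx⟩ := hxZ
    have h5 : y = w := N.subtype_injective (hyx.trans hwx.symm)
    have h6 : y ∈ (commutator N ⊓ A) ⊓ (Subgroup.center N ⊓ A) := ⟨hy, by rw [h5]; exact hw⟩
    rw [h2, Subgroup.mem_bot] at h6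
    rw [← hyx, h6, map_one]
  have hsup : (P : Subgroup G) ≤ K ⊔ Z := by
    intro x hx
    have h4 : (⟨x, hPN hx⟩ : N) ∈ A := hx
    rw [← h3, ← h1] at h4
    have h5 : x ∈ (⁅A, (⊤ : Subgroup N)⁆ ⊔ (Subgroup.center N ⊓ A)).map N.subtype := ⟨_, h4, rfl⟩
    rw [Subgroup.map_sup, hmapA, hmapZ, ← hPK] at h5
    exact (sup_le_sup_right inf_le_right _ : _ ≤ K ⊔ Z) h5
  have htop : K ⊔ Z = ⊤ := by
    rw [eq_top_iff, ← Cfsg.Agent.H2.Fusion2.sup_pResidual P]
    exact sup_le hsup le_sup_left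
  refine ⟨K, iK, ⟨(MulEquiv.ofBijective ((QuotientGroup.mk' K).comp Z.subtype) ⟨?_, ?_⟩).symm⟩⟩
  · rw [injective_iff_map_eq_one]
    intro z hz
    have h4 : (z : G) ∈ K := by
      rwa [MonoidHom.comp_apply, QuotientGroup.mk'_apply, QuotientGroup.eq_one_iff] at hz
    exact Subtype.ext (hdisj z z.2 h4)
  · intro q
    obtain ⟨g, rfl⟩ := QuotientGroup.mk'_surjective K q
    have hg : g ∈ K ⊔ Z := by rw [htop]; trivial
    rw [← SetLike.mem_coe, Subgroup.normal_mul] at hg
    obtain ⟨k, hk, z, hz, rfl⟩ := hg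
    refine ⟨⟨z, hz⟩, ?_⟩
    have : QuotientGroup.mk' K k = 1 := by
      rw [QuotientGroup.mk'_apply, QuotientGroup.eq_one_iff]; exact hk
    change QuotientGroup.mk' K z = QuotientGroup.mk' K (k * z)
    rw [map_mul, this, one_mul]

end Cfsg.Agent.S0105
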