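import Cfsg.Statements.S0107
import Mathlib
import Cfsg.Agent.H19_Transfer
import Cfsg.Agent.S0111
import Cfsg.Agent.H2_Basic

set_option autoImplicit false
open Cfsg

namespace Cfsg.Agent.S0107

open Subgroup Cfsg

theorem unique_involution {C : Type*} [Group C] [Finite C] (hC : IsCyclic C) {x y : C} (hx : orderOf x = 2)
    (hy : orderOf y = 2) : x = y := by
  classical
  have := Fintype.ofFinite C
  by_contra hne
  have h1 := hC.card_pow_eq_one_le (n := 2) (by norm_num)
  have h2 : ({1, x, y} : Finset C) ⊆ Finset.univ.filter (fun a : C => a ^ 2 = 1) := by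
    intro a ha
    simp only [Finset.mem_insert, Finset.mem_singleton] at ha
    simp only [Finset.mem_filter, Finset.mem_univ, true_and]
    rcases ha with rfl | rfl | rfl
    · exact one_pow 2
    · rw [← hx, pow_orderOf_eq_one]
    · rw [← hy, pow_orderOf_eq_one]
  have h3 : ({1, x, y} : Finset C).card = 3 := by
    rw [Finset.card_eq_three]
    refine ⟨1, x, y, ?_, ?_, hne, rfl⟩
    · rintro rfl; simp at hx
    · rintro rfl; simp at hy
  have h4 := Finset.card_le_card h2
  omega

/-- A finite group with no nontrivial 2-group quotient and dihedral Sylow 2-subgroups of order at least 8 has a single class of involutions. -/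
theorem result {G : Type*} [Group G] [Finite G] (T : Sylow 2 G) (n : ℕ) (hn : 2 ≤ n) (hT : Nonempty ((T : Subgroup G) ≃* DihedralGroup (2 ^ n))) (hO : Cfsg.pResidual 2 G = ⊤) (x y : G) (hx : orderOf x = 2) (hy : orderOf y = 2) : ∃ g : G, g * x * g⁻¹ = y := by
  have h2 : Fact (Nat.Prime 2) := ⟨Nat.prime_two⟩
  obtain ⟨e⟩ := hT
  have hN : NeZero (2 ^ n) := ⟨by positivity⟩
  let D : Subgroup (DihedralGroup (2 ^ n)) := zpowers (DihedralGroup.r 1)
  have hDcard : Nat.card D = 2 ^ n := by
    rw [Nat.card_zpowers]; exact DihedralGroup.orderOf_r_one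
  have hDi : D.index = 2 := by
    have h3 := card_mul_index D
    rw [hDcard, DihedralGroup.nat_card] at h3
    have : 0 < 2 ^ n := by positivity
    exact Nat.eq_of_mul_eq_mul_left this (by rw [h3, mul_comm])
  let Q' : Subgroup (T : Subgroup G) := D.comap e.toMonoidHom
  have hQ'i : Q'.index = 2 := by
    change (D.comap e.toMonoidHom).index = 2
    rw [index_comap_of_surjective _ e.surjective, hDi]
  have hQ'c : IsCyclic Q' := by
    have : IsCyclic D := inferInstance
    have hinj : Function.Injective ((e.toMonoidHom.comp Q'.subtype).codRestrict D (fun x => x.2)) := by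
      intro a b h
      have h1 := congrArg Subtype.val h
      exact Subtype.ext (e.injective h1)
    exact isCyclic_of_injective _ hinj
  let Q : Subgroup G := Q'.map (T : Subgroup G).subtype
  have hQT : Q ≤ (T : Subgroup G) := map_subtype_le _
  have hQi : Q.relIndex (T : Subgroup G) = 2 := by
    have h3 : Q.subgroupOf (T : Subgroup G) = Q' :=
      comap_map_eq_self_of_injective (T : Subgroup G).subtype_injective Q'
    rw [relIndex, h3, hQ'i]
  have hno : ∀ M : Subgroup G, M.Normal → M.index ≠ 2 := by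
    intro M hM hi
    have h1 : Cfsg.pResidual 2 G ≤ M := by
      rw [Cfsg.pResidual, closure_le]
      intro g hg
      have h3 : g ^ 2 ∈ M := by
        have := M.pow_index_mem g
        rwa [hi] at this
      have h4 : (orderOf g).Coprime 2 := hg
      obtain ⟨m, hm⟩ := exists_pow_eq_self_of_coprime h4.symm
      rw [SetLike.mem_coe, ← hm]
      exact M.pow_mem h3 m
    rw [hO, top_le_iff] at h1
    rw [h1, index_top] at hi
    omega
  have key : ∀ x : G, orderOf x = 2 → ∃ g : G, g * x * g⁻¹ ∈ Q := by
    intro x hx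
    have hxp : IsPGroup 2 (zpowers x) := by
      rw [IsPGroup.iff_card]; exact ⟨1, by rw [Nat.card_zpowers, hx, pow_one]⟩
    obtain ⟨S, hS⟩ := hxp.exists_le_sylow
    obtain ⟨g, hg⟩ := MulAction.exists_smul_eq G S T
    have hgx : g * x * g⁻¹ ∈ (T : Subgroup G) := by
      rw [← hg]
      refine (Cfsg.Agent.H2.Basic.mem_smul_sylow S g _).2 ?_
      have : g⁻¹ * (g * x * g⁻¹) * g = x := by group
      rw [this]
      exact hS (mem_zpowers x)
    have ho : orderOf (g * x * g⁻¹) = 2 := by
      have := orderOf_injective (MulAut.conj g).toMonoidHom (MulAut.conj g).injective x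
      rw [← hx, ← this]; rfl
    by_cases hq : g * x * g⁻¹ ∈ Q
    · exact ⟨g, hq⟩
    · rcases Cfsg.Agent.S0111.result T Q hQT hQi _ ho hgx hq with ⟨M, hM, hMi, -⟩ | ⟨h, hh⟩
      · exact absurd hMi (hno M hM)
      · refine ⟨h * g, ?_⟩
        have : h * g * x * (h * g)⁻¹ = h * (g * x * g⁻¹) * h⁻¹ := by group
        rwa [this]
  obtain ⟨g, hg⟩ := key x hx
  obtain ⟨h, hh⟩ := key y hy
  have hQc : IsCyclic Q := isCyclic_of_surjective (Q'.equivMapOfInjective _ (T : Subgroup G).subtype_injective)
    (Q'.equivMapOfInjective _ (T : Subgroup G).subtype_injective).surjective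
  have ho : ∀ (g x : G), orderOf x = 2 → orderOf (g * x * g⁻¹) = 2 := by
    intro g x hx
    have := orderOf_injective (MulAut.conj g).toMonoidHom (MulAut.conj g).injective x
    rw [← hx, ← this]; rfl
  have h5 : (⟨g * x * g⁻¹, hg⟩ : Q) = ⟨h * y * h⁻¹, hh⟩ := by
    apply unique_involution hQc
    · rw [← Subgroup.orderOf_coe]; exact ho g x hx
    · rw [← Subgroup.orderOf_coe]; exact ho h y hy
  have h6 : g * x * g⁻¹ = h * y * h⁻¹ := congrArg Subtype.val h5
  refine ⟨h⁻¹ * g, ?_⟩
  calc h⁻¹ * g * x * (h⁻¹ * g)⁻¹ = h⁻¹ * (g * x * g⁻¹) * h := by group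
    _ = h⁻¹ * (h * y * h⁻¹) * h := by rw [h6]
    _ = y := by group

end Cfsg.Agent.S0107
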