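import Cfsg.Statements.S0618
import Mathlib
import Cfsg.Agent.H2_FFB
import Cfsg.Agent.S0600
import Cfsg.Agent.S0601

set_option autoImplicit false
open Cfsg

namespace Cfsg.Agent.S0618

/-- A p-separable group with trivial p'-core in which the Thompson factorization fails has p = 2 or 3, and J(G) induces on the normal closure of Ω₁(Z(S)) a group containing a normal SL(2, p). -/
theorem result {G : Type*} [Group G] [Finite G] {p : ℕ} [Fact p.Prime] (hsep : Cfsg.IsPSolvable p G) (hO : Cfsg.pPrimeCore p G = ⊥) (hnf : ¬ Cfsg.IsThompsonFactorizable p G) : (p = 2 ∨ p = 3) ∧ ∃ E : Subgroup G, Subgroup.centralizer ((⨆ S : Sylow p G, Cfsg.omegaOne p ((S : Subgroup G) ⊓ Subgroup.centralizer ((S : Subgroup G) : Set G))) : Set G) ≤ E ∧ E ≤ Cfsg.thompsonSubgroup p G ⊔ Subgroup.centralizer ((⨆ S : Sylow p G, Cfsg.omegaOne p ((S : Subgroup G) ⊓ Subgroup.centralizer ((S : Subgroup G) : Set G))) : Set G) ∧ Cfsg.thompsonSubgroup p G ⊔ Subgroup.centralizer ((⨆ S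 : Sylow p G, Cfsg.omegaOne p ((S : Subgroup G) ⊓ Subgroup.centralizer ((S : Subgroup G) : Set G))) : Set G) ≤ Subgroup.normalizer (E : Set G) ∧ ∃ hn : ((Subgroup.centralizer ((⨆ S : Sylow p G, Cfsg.omegaOne p ((S : Subgroup G) ⊓ Subgroup.centralizer ((S : Subgroup G) : Set G))) : Set G)).subgroupOf E).Normal, Nonempty ((↥E ⧸ (Subgroup.centralizer ((⨆ S : Sylow p G, Cfsg.omegaOne p ((S : Subgroup G) ⊓ Subgroup.centralizer ((S : Subgroup G) : Set G))) : Set G)).subgroupOf E) ≃* Matrix.SpecialLinearGroup (Fin 2) (ZMod p)) := by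
  have hc := Cfsg.Agent.H22.PSolv.centralizer_pCore_le hsep hO
  obtain ⟨hVn, hVea, -⟩ := Cfsg.Agent.S0601.result (p := p) (G := G) hc
  set V : Subgroup G := (⨆ S : Sylow p G, Cfsg.omegaOne p ((S : Subgroup G) ⊓ Subgroup.centralizer ((S : Subgroup G) : Set G))) with hV
  haveI := hVn
  have hgen : V = ⨆ S : Sylow p G, V ⊓ Subgroup.centralizer ((S : Subgroup G) : Set G) := by
    apply le_antisymm
    · apply iSup_le
      intro S
      refine le_iSup_of_le S (le_inf (le_iSup_of_le S le_rfl) ?_)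
      exact Cfsg.Agent.H2.ThompFact.OZ_le_centralizer (S : Subgroup G)
    · exact iSup_le fun S => inf_le_left
  have hOp := Cfsg.Agent.S0600.result V hVea hgen
  have hJch : (Cfsg.thompsonSubgroup p G).Characteristic := Cfsg.Agent.H2.Thompson.thompson_char G
  haveI hJ : (Cfsg.thompsonSubgroup p G).Normal := inferInstance
  have hne : ¬ Cfsg.thompsonSubgroup p G ≤ Subgroup.centralizer (V : Set G) := by
    intro h
    exact hnf ((Cfsg.Agent.H2.ThompFact.factorizable_iff hO).2 h)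
  have S := Cfsg.Agent.H2.FFA.setup V hVea hsep hOp (Cfsg.thompsonSubgroup p G)
  have hG := Cfsg.Agent.H2.FFA.thompson_gen V hVea S
  obtain ⟨hp23, A, hA⟩ := Cfsg.Agent.H2.FFA.fail V hsep hVea hOp hne
  have hCC : Subgroup.centralizer ((⨆ S : Sylow p G, Cfsg.omegaOne p ((S : Subgroup G) ⊓ Subgroup.centralizer ((S : Subgroup G) : Set G))) : Set G) = Subgroup.centralizer (V : Set G) := by
    rw [hV, Subgroup.iSup_eq_closure, Subgroup.centralizer_closure]
    rfl
  rw [hCC]
  refine ⟨hp23, ?_⟩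
  obtain ⟨h1, h2, h3, h4⟩ := Cfsg.Agent.H2.FFA.pullback V (Cfsg.Agent.H2.FF.Setup.KA_le hA.le) (S.KA_normal hG hA) (S.comp hA).sl2
  exact ⟨_, h1, h2, h3, h4⟩

end Cfsg.Agent.S0618
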