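import Cfsg.Statements.S0109
import Mathlib
import Cfsg.Agent.H18_QPair5
import Cfsg.Agent.H22_PSolv
import Cfsg.Agent.S0618

set_option autoImplicit false
open Cfsg

namespace Cfsg.Agent.S0109

/-- The Thompson factorization Theorem for solvable groups states that, with p odd (and abelian Sylow 2-subgroups when p = 3) and no nontrivial normal subgroup of order prime to p, every element of G is a product of an element normalizing J(P) and an element centralizing the elements of order dividing p in the centre of P. -/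
theorem result {G : Type*} [Group G] [Finite G] {p : ℕ} [Fact p.Prime] (hp : p ≠ 2) (hs : Group.IsSolvable G) (h3 : p = 3 → ∀ T : Sylow 2 G, IsMulCommutative T) (hF : ∀ N : Subgroup G, N.Normal → Nat.Coprime (Nat.card N) p → N = ⊥) (P : Sylow p G) (g : G) : ∃ a ∈ Subgroup.normalizer (Cfsg.thompsonSubgroupOf p (P : Subgroup G) : Set G), ∃ c ∈ Subgroup.centralizer {x : G | x ∈ (P : Subgroup G) ∧ (∀ y ∈ (P : Subgroup G), x * y = y * x) ∧ x ^ p = 1}, g = a * c := by
  have hsep : Cfsg.IsPSolvable p G := by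
    exact Cfsg.Agent.H22.PSolv.isPSolvable_of_isSolvable hs
  have hO : Cfsg.pPrimeCore p G = ⊥ := hF _ (Cfsg.Agent.H1.Nilp.pPrimeCore_normal p) (Cfsg.Agent.H1.Nilp.pPrimeCore_coprime p)
  by_cases hnf : Cfsg.IsThompsonFactorizable p G
  · obtain ⟨x, hx, c, hc, n, hn, h⟩ := hnf P g⁻¹
    rw [hO, Subgroup.mem_bot] at hx
    refine ⟨n⁻¹, inv_mem hn, c⁻¹, inv_mem ?_, ?_⟩
    · rw [Subgroup.mem_centralizer_iff] at hc ⊢
      rintro y ⟨hy1, hy2, hy3⟩
      apply hc
      apply Cfsg.Agent.H2.ThompFact.mem_omegaOne _ hy3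
      refine Subgroup.mem_inf.2 ⟨hy1, Subgroup.mem_centralizer_iff.2 fun z hz => (hy2 z hz).symm⟩
    · rw [hx, one_mul] at h
      rw [← mul_inv_rev, ← h, inv_inv]
  · exfalso
    obtain ⟨h1, E, -, -, -, hn, ⟨e⟩⟩ := Cfsg.Agent.S0618.result hsep hO hnf
    rcases h1 with h1 | h1
    · exact hp h1
    · obtain ⟨T⟩ : Nonempty (Sylow 2 G) := inferInstance
      exact Cfsg.Agent.H18.QPair.not_comm_of_sub hp E (e.toMonoidHom.comp (QuotientGroup.mk' _))
        (e.surjective.comp (QuotientGroup.mk'_surjective _)) T (h3 h1 T)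

end Cfsg.Agent.S0109
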