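import Cfsg.Statements.S0115
import Mathlib
import Cfsg.Agent.H2_MaxClass2

set_option autoImplicit false
open Cfsg

namespace Cfsg.Agent.S0115

open Subgroup

/-- A 2-group of order 2^n, n ≥ 3, is of maximal class exactly when its commutator quotient is a Klein four-group. -/
theorem result {X : Type*} [Group X] [Finite X] (n : ℕ) (hn : 3 ≤ n) (hX : Nat.card X = 2 ^ n) : Group.nilpotencyClass X = n - 1 ↔ IsKleinFour (X ⧸ commutator X) := by
  constructor
  · exact Cfsg.Agent.H2.MaxClass.klein_of_max hn hX
  · intro h
    apply Cfsg.Agent.H2.MaxClass.max_of_klein n X hn hX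
    rw [index_eq_card]
    exact h.card_four

end Cfsg.Agent.S0115
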