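import Cfsg.Statements.S0116
import Mathlib
import Cfsg.Agent.H2_Tame

set_option autoImplicit false
open Cfsg

namespace Cfsg.Agent.S0116

/-- The Alperin fusion Theorem states that conjugation between subsets of a Sylow p-subgroup P factors through normalizers of tame intersections P ∩ Q_i with other Sylow p-subgroups, carrying the subset along step by step. -/
theorem result {G : Type*} [Group G] [Finite G] {p : ℕ} [Fact p.Prime] (P : Sylow p G) (A : Set G) (g : G) (hA : A ⊆ (P : Set G)) (hAg : (fun a => g⁻¹ * a * g) '' A ⊆ (P : Set G)) : ∃ (n : ℕ) (Q : Fin n → Sylow p G) (x : Fin n → G), (List.ofFn x).prod = g ∧ (∀ i : Fin n, x i ∈ Subgroup.normalizer ((((P : Subgroup G) ⊓ (Q i : Subgroup G)) : Subgroup G) : Set G) ∧ ¬ p ∣ ((P : Subgroup G) ⊓ Subgroup.normalizer ((((P : Subgroup G) ⊓ (Q i : Subgroup G)) : Subgroup G) : Set G)).relIndex (Subgroup.normalizer ((((P : Subgroup G) ⊓ (Q i : Subgroup G))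 : Subgroup G) : Set G)) ∧ ¬ p ∣ ((Q i : Subgroup G) ⊓ Subgroup.normalizer ((((P : Subgroup G) ⊓ (Q i : Subgroup G)) : Subgroup G) : Set G)).relIndex (Subgroup.normalizer ((((P : Subgroup G) ⊓ (Q i : Subgroup G)) : Subgroup G) : Set G))) ∧ (∀ h : 0 < n, A ⊆ (((P : Subgroup G) ⊓ (Q ⟨0, h⟩ : Subgroup G) : Subgroup G) : Set G)) ∧ ∀ i : Fin n, ∀ h : i.val + 1 < n, (fun a => (((List.ofFn x).take (i.val + 1)).prod)⁻¹ * a * ((List.ofFn x).take (i.val + 1)).prod) '' A ⊆ (((P : Subgroup G) ⊓ (Q ⟨i.val + 1, h⟩ : Subgroup G) : Subgroup G) : Set G) := by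
  have key : ∀ B : Set G, B.Nonempty → B ⊆ (P : Set G) → (fun a => g⁻¹ * a * g) '' B ⊆ (P : Set G) →
      ∃ (n : ℕ) (Q : Fin n → Sylow p G) (x : Fin n → G), (List.ofFn x).prod = g ∧ (∀ i : Fin n, x i ∈ Subgroup.normalizer ((((P : Subgroup G) ⊓ (Q i : Subgroup G)) : Subgroup G) : Set G) ∧ ¬ p ∣ ((P : Subgroup G) ⊓ Subgroup.normalizer ((((P : Subgroup G) ⊓ (Q i : Subgroup G)) : Subgroup G) : Set G)).relIndex (Subgroup.normalizer ((((P : Subgroup G) ⊓ (Q i : Subgroup G)) : Subgroup G) : Set G)) ∧ ¬ p ∣ ((Q i : Subgroup G) ⊓ Subgroup.normalizer ((((P : Subgroup G) ⊓ (Q i : Subgroup G)) : Subgroup G) : Set G)).relIndex (Subgroup.normalizer ((((P : Subgroup G) ⊓ (Q i : Subgroup G)) : Subgroup G) : Set G))) ∧ (∀ h : 0 < n, B ⊆ (((P : Subgroup G) ⊓ (Q ⟨0, h⟩ : Subgroup G) : Subgroup G) : Set G)) ∧ ∀ i : Fin n, ∀ h : i.val + 1 < n, (fun a => (((List.ofFn x).take (i.val + 1)).prod)⁻¹ * a * ((List.ofFn x).take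 (i.val + 1)).prod) '' B ⊆ (((P : Subgroup G) ⊓ (Q ⟨i.val + 1, h⟩ : Subgroup G) : Subgroup G) : Set G) := by
    intro B hBne hB hBg
    obtain ⟨n, T, x, h1, h2, h3, h4, h5⟩ := (Cfsg.Agent.H2.Tame.tame_family P).2 B g hBne hB hBg
    choose Q hQ1 hQ2 hQ3 using h2
    refine ⟨n, Q, x, h1, ?_, ?_, ?_⟩
    · intro i
      refine ⟨?_, ?_, ?_⟩
      · rw [hQ1 i]; exact h3 i
      · rw [hQ1 i]; exact hQ2 i
      · rw [hQ1 i]; exact hQ3 i
    · intro h
      rw [hQ1]; exact h4 h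
    · intro i h
      rw [hQ1]; exact h5 i h
  rcases A.eq_empty_or_nonempty with rfl | hne
  · obtain ⟨n, Q, x, h1, h2, -, -⟩ := key {1} ⟨1, rfl⟩ (by
      rintro _ rfl; exact one_mem P) (by
      rintro _ ⟨_, rfl, rfl⟩
      change g⁻¹ * 1 * g ∈ P
      rw [mul_one, inv_mul_cancel]; exact one_mem P)
    refine ⟨n, Q, x, h1, h2, fun _ => Set.empty_subset _, fun _ _ => ?_⟩
    rw [Set.image_empty]
    exact Set.empty_subset _
  · exact key A hne hA hAg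

end Cfsg.Agent.S0116
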