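import Cfsg.Statements.S0119
import Mathlib
import Cfsg.Agent.H2_Critical

set_option autoImplicit false
open Cfsg

namespace Cfsg.Agent.S0119

open Subgroup
open scoped commutatorElement

/-- If a p'-group A of automorphisms of a p-group G satisfies G = [G, A] and acts trivially on every characteristic abelian subgroup, then G is special with centre equal to the fixed points of A. -/
theorem result {G : Type*} [Group G] [Finite G] {p : ℕ} [Fact p.Prime] (hG : IsPGroup p G) (A : Subgroup (MulAut G)) (hA : Nat.Coprime (Nat.card A) p) (hGA : Subgroup.closure {x : G | ∃ g : G, ∃ a ∈ A, x = g⁻¹ * a g} = ⊤) (hchar : ∀ H : Subgroup G, H.Characteristic → IsMulCommutative H → ∀ a ∈ A, ∀ h ∈ H, a h = h) : Cfsg.IsSpecial p G ∧ (∀ g : G, (g ∈ Subgroup.center G ↔ ∀ a ∈ A, a g = g)) := by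
  have hpp : p.Prime := Fact.out
  have : Group.IsNilpotent G := hG.isNilpotent
  -- characteristic abelian subgroups are central
  have hcent : ∀ H : Subgroup G, H.Characteristic → IsMulCommutative H → H ≤ center G := by
    intro D hD hDc d hd
    have hle : Subgroup.closure {x : G | ∃ g : G, ∃ a ∈ A, x = g⁻¹ * a g} ≤ centralizer {d} := by
      rw [closure_le]
      rintro _ ⟨g, a, ha, rfl⟩
      rw [SetLike.mem_coe, mem_centralizer_singleton_iff]
      have h4 : a (g * d * g⁻¹) = g * d * g⁻¹ :=
        hchar D hD hDc a ha _ ((inferInstance : D.Normal).conj_mem d hd g)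
      rw [map_mul, map_mul, map_inv, hchar D hD hDc a ha d hd, mul_inv_eq_iff_eq_mul] at h4
      rw [mul_assoc, h4]; group
    rw [hGA] at hle
    rw [mem_center_iff]
    intro g
    exact mem_centralizer_singleton_iff.1 (hle (mem_top g))
  obtain ⟨H, hH, h1, h2, h3⟩ := Cfsg.Agent.H2.Critical.exists_critical hG
  have hZH : H ⊓ centralizer (H : Set G) ≤ center G := by
    apply hcent
    · exact Cfsg.Agent.H2.Critical.characteristic_inf hH inferInstance
    · rw [Cfsg.Agent.H2.Critical.isMulCommutative_iff_le_centralizer]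
      exact inf_le_right.trans (centralizer_le inf_le_left)
  have hCH : centralizer (H : Set G) ≤ center G := (le_inf h3 le_rfl).trans hZH
  have hHc : ⁅H, (⊤ : Subgroup G)⁆ ≤ center G := h2.trans hZH
  have hcomm0 : ⁅⁅H, (⊤ : Subgroup G)⁆, (⊤ : Subgroup G)⁆ = ⊥ := by
    rw [commutator_eq_bot_iff_le_centralizer]
    rw [coe_top, centralizer_univ]
    exact hHc
  have hcomm1 : ⁅⁅(⊤ : Subgroup G), (⊤ : Subgroup G)⁆, H⁆ = ⊥ := by
    apply commutator_commutator_eq_bot_of_rotate
    · rw [commutator_comm (⊤ : Subgroup G) H]; exact hcomm0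
    · exact hcomm0
  have hGc : commutator G ≤ center G := by
    rw [_root_.commutator_def]
    exact (commutator_eq_bot_iff_le_centralizer.1 hcomm1).trans hCH
  have hc : ∀ a b : G, ⁅a, b⁆ ∈ center G := fun a b =>
    hGc (by rw [_root_.commutator_def]; exact commutator_mem_commutator (mem_top _) (mem_top _))
  have hpow : ∀ x : G, x ^ p ∈ center G := by
    intro x
    apply hCH
    rw [mem_centralizer_iff]
    intro h hh
    have h4 : h ^ p ∈ center G := by
      apply hZH
      refine ⟨pow_mem hh p, ?_⟩
      have h4 : (⟨h, hh⟩ : H) ^ p ∈ frattini H :=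
        (Cfsg.Agent.H1.Nilp.commutator_le_frattini (hG.to_subgroup H)).2 _
      exact h1 (mem_map_of_mem _ h4)
    have h5 : ⁅h, x ^ p⁆ = 1 := by
      rw [Cfsg.Agent.H2.Class.comm_pow_right hc, ← Cfsg.Agent.H2.Class.comm_pow_left hc,
        commutatorElement_eq_one_iff_mul_comm]
      exact (mem_center_iff.1 h4 x).symm
    exact commutatorElement_eq_one_iff_mul_comm.1 h5
  have hfr : frattini G ≤ center G :=
    Cfsg.Agent.H1.Frattini.frattini_le_of_elementary (p := p) _ hGc hpow
  -- averaging
  classical
  have : Fintype A := Fintype.ofFinite A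
  let N : G →* Abelianization G :=
    { toFun := fun g => ∏ a : A, Abelianization.of ((a : MulAut G) g)
      map_one' := by simp
      map_mul' := fun x y => by simp [Finset.prod_mul_distrib] }
  have hNa : ∀ (a : A) (g : G), N ((a : MulAut G) g) = N g := by
    intro a g
    change ∏ b : A, Abelianization.of ((b : MulAut G) ((a : MulAut G) g)) = ∏ b : A, Abelianization.of ((b : MulAut G) g)
    exact Fintype.prod_equiv (Equiv.mulRight a) _ _ (fun b => rfl)
  have hN1 : N = 1 := by
    apply MonoidHom.eq_of_eqOn_dense hGA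
    rintro _ ⟨g, a, ha, rfl⟩
    rw [map_mul, map_inv, hNa ⟨a, ha⟩ g, inv_mul_cancel]; rfl
  have hfix : ∀ g : G, (∀ a ∈ A, a g = g) → g ∈ commutator G := by
    intro g hg
    have h4 : N g = 1 := by rw [hN1]; rfl
    have h5 : N g = (Abelianization.of g) ^ Nat.card A := by
      change ∏ a : A, Abelianization.of ((a : MulAut G) g) = _
      rw [Finset.prod_congr rfl (fun a _ => by rw [hg a a.2]), Finset.prod_const, Finset.card_univ,
        Nat.card_eq_fintype_card]
    rw [h4, eq_comm] at h5
    obtain ⟨n, hn⟩ := hG g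
    have h6 : (Abelianization.of g) ^ p ^ n = 1 := by rw [← map_pow, hn, map_one]
    have h7 : orderOf (Abelianization.of g) ∣ 1 := by
      rw [← (hA.pow_right n)]
      exact Nat.dvd_gcd (orderOf_dvd_of_pow_eq_one h5) (orderOf_dvd_of_pow_eq_one h6)
    rw [Nat.dvd_one, orderOf_eq_one_iff] at h7
    rw [← Abelianization.ker_of, MonoidHom.mem_ker, h7]
  have hZfix : ∀ g ∈ center G, ∀ a ∈ A, a g = g := by
    intro g hg a ha
    exact hchar (center G) inferInstance inferInstance a ha g hg
  have hZG : center G ≤ commutator G := fun g hg => hfix g (hZfix g hg)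
  have hGfr := (Cfsg.Agent.H1.Nilp.commutator_le_frattini hG).1
  refine ⟨⟨hG, le_antisymm hfr (hZG.trans hGfr), le_antisymm hGc hZG⟩, fun g => ⟨hZfix g, fun hg => hGc (hfix g hg)⟩⟩

end Cfsg.Agent.S0119
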