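import Cfsg.Statements.S0120
import Mathlib
import Cfsg.Agent.H2_Critical

set_option autoImplicit false
open Cfsg

namespace Cfsg.Agent.S0120

open Subgroup
open scoped commutatorElement

/-- For odd p, a p'-automorphism of a p-group acting trivially on the elements of order dividing p is trivial. -/
theorem result {G : Type*} [Group G] [Finite G] {p : ℕ} [Fact p.Prime] (hp : p ≠ 2) (hG : IsPGroup p G) (a : MulAut G) (ha : Nat.Coprime (orderOf a) p) (h : ∀ x : G, x ^ p = 1 → a x = x) : a = 1 := by
  have hpp : p.Prime := Fact.out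
  obtain ⟨H, hH, h1, h2, h3⟩ := Cfsg.Agent.H2.Critical.exists_critical hG
  have hinv : ∀ x ∈ H, a x ∈ H := by
    intro x hx
    have := (characteristic_iff_comap_eq.1 hH) a
    rw [← this] at hx
    exact hx
  apply Cfsg.Agent.H2.Critical.aut_trivial_of_critical hG H inferInstance h3 a ha
  apply Cfsg.Agent.H2.Critical.fixes_of_power_hom hG a ha h (Nat.card H) H le_rfl hinv
  have hc : ∀ a b : H, ⁅a, b⁆ ∈ center H := by
    intro a b
    have h4 : ⁅(a : G), (b : G)⁆ ∈ H ⊓ centralizer (H : Set G) :=
      h2 (commutator_mem_commutator a.2 (mem_top _))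
    rw [mem_center_iff]
    intro g
    exact Subtype.ext ((mem_centralizer_iff.1 h4.2) g g.2)
  have hq : ∀ a : H, a ^ p ∈ center H := by
    intro a
    have h4 : a ^ p ∈ frattini H := (Cfsg.Agent.H1.Nilp.commutator_le_frattini (hG.to_subgroup H)).2 a
    have h5 := h1 (mem_map_of_mem _ h4)
    rw [mem_center_iff]
    intro g
    exact Subtype.ext ((mem_centralizer_iff.1 h5) g g.2)
  have hpow : ∀ x y : H, (x * y) ^ p = x ^ p * y ^ p := by
    intro x y
    apply Cfsg.Agent.H2.Class.mul_pow_p hpp hp hc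
    rw [← Cfsg.Agent.H2.Class.comm_pow_left hc, commutatorElement_eq_one_iff_mul_comm]
    exact (mem_center_iff.1 (hq y) x).symm
  intro x hx y hy
  exact congrArg Subtype.val (hpow ⟨x, hx⟩ ⟨y, hy⟩)

end Cfsg.Agent.S0120
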