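import Cfsg.Statements.S0123
import Mathlib
import Cfsg.Agent.H2_Class2

set_option autoImplicit false
open Cfsg

namespace Cfsg.Agent.S0123

open scoped commutatorElement

/-- For a p-group of small class relative to p (class ≤ 2 with p odd, or class ≤ 3 with p > 3) whose derived subgroup is generated by elements of order dividing p, the p-th power map is multiplicative. -/
theorem result {R : Type*} [Group R] [Finite R] {p : ℕ} [Fact p.Prime] (hR : IsPGroup p R) (hcl : (p ≠ 2 ∧ ⁅commutator R, (⊤ : Subgroup R)⁆ = ⊥) ∨ (3 < p ∧ ⁅⁅commutator R, (⊤ : Subgroup R)⁆, (⊤ : Subgroup R)⁆ = ⊥)) (hder : commutator R ≤ Subgroup.closure {x : R | x ^ p = 1}) (x y : R) : (x * y) ^ p = x ^ p * y ^ p := by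
  have hp : p.Prime := Fact.out
  have hc : ∀ a b : R, ⁅a, b⁆ ∈ commutator R := fun a b => by
    rw [_root_.commutator_def]
    exact Subgroup.commutator_mem_commutator (Subgroup.mem_top a) (Subgroup.mem_top b)
  rcases hcl with ⟨h2, hcl⟩ | ⟨h3, hcl⟩
  · have h := Cfsg.Agent.H2.Class.class_two_of_commutator hcl
    exact Cfsg.Agent.H2.Class.mul_pow_p hp h2 h x y
      (Cfsg.Agent.H2.Class.pow_p_closure_two hp h2 h (hder (hc y x)))
  · have h := Cfsg.Agent.H2.Class.class_three_of_commutator hcl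
    have hq : ∀ a b : R, ⁅a, b⁆ ^ p = 1 := fun a b =>
      Cfsg.Agent.H2.Class.pow_p_closure_three hp h3 h (hder (hc a b))
    exact Cfsg.Agent.H2.Class.mul_pow_p_three hp h3 h x y (hq _ _) (hq _ _) (hq _ _)

end Cfsg.Agent.S0123
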