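import Cfsg.Statements.S0125
import Mathlib
import Cfsg.Agent.H2_Fusion4
import Cfsg.Agent.H1_Basic

set_option autoImplicit false
open Cfsg

namespace Cfsg.Agent.S0125

open Subgroup

/-- The centralizer of a self-centralizing normal subgroup A of a Sylow p-subgroup is the direct product of A with a normal p'-subgroup. -/
theorem result {G : Type*} [Group G] [Finite G] {p : ℕ} [Fact p.Prime] (R : Sylow p G) (A : Subgroup G) (hAR : A ≤ (R : Subgroup G)) (hAn : (R : Subgroup G) ≤ Subgroup.normalizer (A : Set G)) (hC : (R : Subgroup G) ⊓ Subgroup.centralizer (A : Set G) = A) : ∃ H : Subgroup G, H ≤ Subgroup.centralizer (A : Set G) ∧ Nat.Coprime (Nat.card H) p ∧ Subgroup.centralizer (A : Set G) ≤ Subgroup.normalizer (H : Set G) ∧ H ⊓ A = ⊥ ∧ H ⊔ A = Subgroup.centralizer (A : Set G) := by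
  set C := centralizer (A : Set G) with hCdef
  have hAC : A ≤ C := by rw [← hC]; exact inf_le_right
  set N := normalizer (A : Set G) with hN
  have hCN : C ≤ N := centralizer_le_normalizer _
  have hCn : (C.subgroupOf N).Normal := by
    rw [normal_subgroupOf_iff_le_normalizer hCN]
    intro n hn
    have h1 := Cfsg.Agent.H1.Basic.conj_eq_iff_mem_normalizer.2 hn
    rw [mem_normalizer_iff]
    intro x
    have hnn := mem_normalizer_iff.1 hn
    simp only [hCdef, SetLike.mem_coe, mem_centralizer_iff]
    constructor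
    · intro hx v hv
      have h1 := hx (n⁻¹ * v * n) ((hnn (n⁻¹ * v * n)).2 (by simpa [mul_assoc] using hv))
      calc v * (n * x * n⁻¹) = n * ((n⁻¹ * v * n) * x) * n⁻¹ := by group
        _ = n * (x * (n⁻¹ * v * n)) * n⁻¹ := by rw [h1]
        _ = _ := by group
    · intro hx v hv
      have h1 := hx (n * v * n⁻¹) ((hnn v).1 hv)
      calc v * x = n⁻¹ * ((n * v * n⁻¹) * (n * x * n⁻¹)) * n := by group
        _ = n⁻¹ * ((n * x * n⁻¹) * (n * v * n⁻¹)) * n := by rw [h1]
        _ = _ := by group
  let R' : Sylow p N := R.subtype hAn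
  have h1 := Cfsg.Agent.H2.Fusion.not_dvd_relIndex_inf R' (C.subgroupOf N)
  have h2 : (R' : Subgroup N) ⊓ C.subgroupOf N = A.subgroupOf N := by
    have : (R' : Subgroup N) = (R : Subgroup G).subgroupOf N := rfl
    rw [this, ← hC]
    rfl
  rw [h2, relIndex_subgroupOf hCN] at h1
  have hAp : IsPGroup p (A.subgroupOf C) :=
    (R.isPGroup'.to_le hAR).comap_of_injective C.subtype C.subtype_injective
  let P : Sylow p C := hAp.toSylow h1
  have hPA : (P : Subgroup C) = A.subgroupOf C := rfl
  have hcent : ∀ a ∈ A, ∀ c ∈ C, a * c = c * a := fun a ha c hc => (mem_centralizer_iff.1 hc) a ha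
  have hnpc : Cfsg.HasNormalPComplement p C := by
    apply Cfsg.Agent.H2.Fusion4.npc_of_normalizer_le_centralizer P
    intro c _
    rw [mem_centralizer_iff]
    intro a ha
    exact Subtype.ext (hcent a ha c c.2)
  obtain ⟨N', hN', hcompl⟩ := (Cfsg.Agent.H2.Basic.npc_iff_sylow P).1 hnpc
  refine ⟨N'.map C.subtype, (map_le_range _ _).trans (by rw [range_subtype]), ?_, ?_, ?_, ?_⟩
  · rw [card_map_of_injective C.subtype_injective]
    have h3 : Nat.card N' * Nat.card P = Nat.card C := hcompl.card_mul
    have h4 : Nat.card (P : Subgroup C) * (P : Subgroup C).index = Nat.card C := card_mul_index _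
    have h5 : Nat.card N' = (P : Subgroup C).index := by
      apply Nat.eq_of_mul_eq_mul_right (Nat.card_pos (α := P))
      rw [h3, mul_comm, ← h4]
    rw [h5]
    exact ((Nat.Prime.coprime_iff_not_dvd (Fact.out : p.Prime)).2 P.not_dvd_index).symm
  · have h3 := le_normalizer_map (H := N') C.subtype
    rw [normalizer_eq_top] at h3
    refine le_trans ?_ h3
    rw [← MonoidHom.range_eq_map, range_subtype]
  · rw [eq_bot_iff]
    rintro _ ⟨⟨x, hx, rfl⟩, hxA⟩
    have h3 : x ∈ (N' ⊓ (P : Subgroup C) : Subgroup C) := mem_inf.2 ⟨hx, hxA⟩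
    rw [hcompl.disjoint.eq_bot, mem_bot] at h3
    rw [h3, map_one, mem_bot]
  · have h3 := hcompl.sup_eq_top
    have h4 := congrArg (Subgroup.map C.subtype) h3
    rw [Subgroup.map_sup, hPA, subgroupOf_map_subtype, inf_eq_left.2 hAC, ← MonoidHom.range_eq_map,
      range_subtype] at h4
    exact h4

end Cfsg.Agent.S0125
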