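import Cfsg.Statements.S0131
import Mathlib
import Cfsg.Agent.H2_Fusion2

set_option autoImplicit false
open Cfsg

namespace Cfsg.Agent.S0131

/-- P/P' has a normal complement in G exactly when the focal subgroup G' ∩ P is as small as possible, namely P'. -/
theorem result {G : Type*} [Group G] [Finite G] {p : ℕ} [Fact p.Prime] (P : Sylow p G) : (∃ N : Subgroup G, N.Normal ∧ N ⊓ (P : Subgroup G) = ⁅(P : Subgroup G), (P : Subgroup G)⁆ ∧ N ⊔ (P : Subgroup G) = ⊤) ↔ commutator G ⊓ (P : Subgroup G) = ⁅(P : Subgroup G), (P : Subgroup G)⁆ := by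
  constructor
  · rintro ⟨N, hN, h1, h2⟩
    apply le_antisymm
    · rw [← h1]
      refine inf_le_inf_right _ ?_
      rw [← Subgroup.Normal.quotient_commutative_iff_commutator_le, isMulCommutative_iff]
      intro a b
      obtain ⟨x, rfl⟩ := QuotientGroup.mk'_surjective N a
      obtain ⟨y, rfl⟩ := QuotientGroup.mk'_surjective N b
      have key : ∀ g : G, ∃ z ∈ (P : Subgroup G), QuotientGroup.mk' N g = QuotientGroup.mk' N z := by
        intro g
        have hg : g ∈ (P : Subgroup G) ⊔ N := by rw [sup_comm, h2]; trivial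
        rw [← SetLike.mem_coe, Subgroup.mul_normal] at hg
        obtain ⟨z, hz, n, hn, rfl⟩ := hg
        refine ⟨z, hz, ?_⟩
        have : QuotientGroup.mk' N n = 1 := by
          rw [QuotientGroup.mk'_apply, QuotientGroup.eq_one_iff]; exact hn
        rw [map_mul, this, mul_one]
      obtain ⟨x', hx', hxe⟩ := key x
      obtain ⟨y', hy', hye⟩ := key y
      rw [hxe, hye]
      open scoped commutatorElement in
      have h3 : QuotientGroup.mk' N ⁅x', y'⁆ = 1 := by
        rw [QuotientGroup.mk'_apply, QuotientGroup.eq_one_iff]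
        have : ⁅x', y'⁆ ∈ N ⊓ (P : Subgroup G) := by
          rw [h1]; exact Subgroup.commutator_mem_commutator hx' hy'
        exact this.1
      rw [map_commutatorElement, commutatorElement_eq_one_iff_mul_comm] at h3
      exact h3
    · refine le_inf ?_ (Subgroup.commutator_le_self _)
      rw [_root_.commutator_def]
      exact Subgroup.commutator_mono le_top le_top
  · intro h
    have i1 := Cfsg.Agent.H2.Fusion.pResidual_normal (G := G) p
    refine ⟨(P : Subgroup G).transferFocal.ker, inferInstance, ?_, ?_⟩
    · rw [Subgroup.ker_transferFocal_inf_eq_focalSubgroup, ← Subgroup.commutator_inf_eq_focalSubgroup, h]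
    · rw [eq_top_iff, ← Cfsg.Agent.H2.Fusion2.sup_pResidual P, sup_comm]
      refine sup_le_sup_right ?_ _
      exact Cfsg.Agent.H2.Fusion.pResidual_le_ker (P.isPGroup'.to_quotient _) _

end Cfsg.Agent.S0131
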