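import Cfsg.Statements.S0136
import Cfsg.Agent.H3_CharComplete

set_option autoImplicit false
open Cfsg

namespace Cfsg.Agent.S0136

/-- Two elements of a finite group are conjugate if and only if no irreducible complex character separates them. -/
theorem result {G : Type*} [Group G] [Finite G] (g h : G) : IsConj g h ↔ ∀ χ : Cfsg.IrrCharacter G, (χ : G → ℂ) g = (χ : G → ℂ) h := by
  classical
  have := Fintype.ofFinite G
  have := Fintype.ofFinite (Cfsg.IrrCharacter G)
  constructor
  · intro hc χ
    exact Cfsg.Agent.H3.CharComplete.IsClass.eq_of_isConj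
      (Cfsg.Agent.H3.CharIrr.IsIrr.isClass χ.2) hc
  · intro hall
    by_contra hc
    have h1 := Cfsg.Agent.H3.CharComplete.orth2 g h
    rw [if_neg hc] at h1
    have h2 := Cfsg.Agent.H3.CharComplete.orth2 g g
    rw [if_pos (IsConj.refl g)] at h2
    have h3 : ∑ χ : Cfsg.IrrCharacter G, (χ : G → ℂ) g * (starRingEnd ℂ) ((χ : G → ℂ) h) =
        ∑ χ : Cfsg.IrrCharacter G, (χ : G → ℂ) g * (starRingEnd ℂ) ((χ : G → ℂ) g) :=
      Finset.sum_congr rfl fun χ _ => by rw [hall χ]
    rw [h1, h2] at h3
    have : Nat.card (Subgroup.centralizer ({g} : Set G)) ≠ 0 := Nat.card_pos.ne'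
    exact this (by exact_mod_cast h3.symm)

end Cfsg.Agent.S0136
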