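import Cfsg.Statements.S0154
import Cfsg.Agent.H3_CharInd

set_option autoImplicit false
open Cfsg

namespace Cfsg.Agent.S0154

/-- A finite group has exactly as many irreducible complex characters of degree 1 as the index of its commutator subgroup. -/
theorem result {G : Type*} [Group G] [Finite G] : Nat.card {χ : Cfsg.IrrCharacter G // (χ : G → ℂ) 1 = 1} = (commutator G).index := by
  classical
  have := Fintype.ofFinite G
  let e : (G →* ℂˣ) ≃ {χ : Cfsg.IrrCharacter G // (χ : G → ℂ) 1 = 1} :=
    Equiv.ofBijective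
      (fun f => ⟨⟨fun g => (f g : ℂ), Cfsg.Agent.H3.CharInd.isIrr_of_hom_units f⟩, by simp⟩)
      ⟨fun f f' h => by
        ext g
        have := congrFun (congrArg (fun χ : {χ : Cfsg.IrrCharacter G // (χ : G → ℂ) 1 = 1} =>
          (χ.1 : G → ℂ)) h) g
        exact this, fun χ => by
        obtain ⟨f, hf⟩ := Cfsg.Agent.H3.CharInd.IsChar.hom_units_of_one
          (Cfsg.Agent.H3.CharIrr.IsIrr.isCharacter χ.1.2) χ.2
        refine ⟨f, ?_⟩
        apply Subtype.ext; apply Subtype.ext
        funext g
        exact (hf g).symm⟩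
  rw [← Nat.card_congr e, Nat.card_congr (Abelianization.lift (G := G) (A := ℂˣ)),
    CommGroup.card_monoidHom_of_hasEnoughRootsOfUnity]
  rfl

end Cfsg.Agent.S0154
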