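import Cfsg.Statements.S0162
import Cfsg.Agent.S0161
import Cfsg.Agent.H3_CharInt

set_option autoImplicit false
open Cfsg

namespace Cfsg.Agent.S0162

/-- If a finite group has odd order, its order is congruent to its number of conjugacy classes modulo 16. -/
theorem result {G : Type*} [Group G] [Finite G] (hodd : Odd (Nat.card G)) : Nat.card G ≡ Nat.card (ConjClasses G) [MOD 16] := by
  classical
  have := Fintype.ofFinite G
  have := Fintype.ofFinite (Cfsg.IrrCharacter G)
  have hs := Cfsg.Agent.H3.CharComplete.sum_sq (G := G)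
  choose n hn0 hn hnd using fun χ : Cfsg.IrrCharacter G =>
    Cfsg.Agent.H3.CharInt.IsIrr.dvd_card χ.2
  have hs' : ∑ χ : Cfsg.IrrCharacter G, n χ ^ 2 = Nat.card G := by
    have : ((∑ χ : Cfsg.IrrCharacter G, n χ ^ 2 : ℕ) : ℂ) = (Nat.card G : ℂ) := by
      rw [← hs]; push_cast
      exact Finset.sum_congr rfl fun χ _ => by rw [hn χ]
    exact_mod_cast this
  have hc : Nat.card (ConjClasses G) = ∑ χ : Cfsg.IrrCharacter G, 1 := by
    rw [← Cfsg.Agent.H3.CharComplete.card_irr, Nat.card_eq_fintype_card]; simp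
  rw [← ZMod.natCast_eq_natCast_iff, ← hs', hc]
  push_cast
  rw [← sub_eq_zero, ← Finset.sum_sub_distrib]
  have hodd' : ∀ χ, Odd (n χ) := fun χ => hodd.of_dvd_nat (hnd χ)
  have h8 : ∀ χ, ∃ k : ℕ, n χ ^ 2 = 8 * k + 1 := by
    intro χ
    obtain ⟨m, hm⟩ := hodd' χ
    obtain ⟨j, hj⟩ := Nat.even_mul_succ_self m
    exact ⟨j, by rw [hm]; ring_nf; ring_nf at hj; omega⟩
  have hconj : ∀ χ : Cfsg.IrrCharacter G, Cfsg.IsIrrCharacter G
    (fun g => (starRingEnd ℂ) ((χ : G → ℂ) g)) := fun χ => Cfsg.Agent.H3.CharInd.IsIrr.conj χ.2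
  have hn1 : ∀ χ : Cfsg.IrrCharacter G, n ⟨_, hconj χ⟩ = n χ := by
    intro χ
    have h1 := hn ⟨_, hconj χ⟩
    have h2 : (starRingEnd ℂ) ((χ : G → ℂ) 1) = (n ⟨_, hconj χ⟩ : ℂ) := h1
    rw [hn χ] at h2
    simp only [map_natCast] at h2
    exact_mod_cast h2.symm
  refine Finset.sum_involution (fun χ _ => ⟨_, hconj χ⟩) ?_ ?_ ?_ ?_
  · intro χ _
    rw [hn1 χ]
    obtain ⟨k, hk⟩ := h8 χ
    have h3 : ((n χ : ZMod 16)) ^ 2 = 8 * (k : ZMod 16) + 1 := by
      have := congrArg (Nat.cast : ℕ → ZMod 16) hk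
      push_cast at this
      exact this
    rw [h3]
    have h16 : (16 : ZMod 16) = 0 := rfl
    linear_combination (k : ZMod 16) * h16
  · intro χ _ hne heq
    apply hne
    have hreal : ∀ g : G, ((χ : G → ℂ) g).im = 0 := fun g =>
      Complex.conj_eq_iff_im.mp (congrFun (congrArg Subtype.val heq) g)
    have h4 := Cfsg.Agent.S0161.result hodd χ hreal
    have h5 : n χ = 1 := by
      have := hn χ
      rw [h4] at this
      have h6 : (1 : ℂ) = n χ := this
      exact_mod_cast h6.symm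
    rw [h5]; simp
  · intro χ _; exact Finset.mem_univ _
  · intro χ _
    apply Subtype.ext
    funext g
    simp

end Cfsg.Agent.S0162
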