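import Cfsg.Statements.S0165
import Cfsg.Agent.H3_DefectZero

set_option autoImplicit false
open Cfsg

namespace Cfsg.Agent.S0165

/-- If p ^ n is the exact power of the prime p dividing the order of a finite group and p ^ n divides the degree of an irreducible complex representation, then its character vanishes at every element of order divisible by p. -/
theorem result {G : Type*} [Group G] [Finite G] {V : Type*} [AddCommGroup V] [Module ℂ V] [FiniteDimensional ℂ V] (ρ : Representation ℂ G V) [ρ.IsIrreducible] (p n : ℕ) (hp : p.Prime) (hn : p ^ n ∣ Nat.card G) (hn' : ¬ p ^ (n + 1) ∣ Nat.card G) (hdeg : p ^ n ∣ Module.finrank ℂ V) (x : G) (hx : p ∣ orderOf x) : ρ.character x = 0 := by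
  classical
  have := Fintype.ofFinite G
  have hχ := Cfsg.Agent.H3.CharIrr.isIrr_of_rep ρ inferInstance
  obtain ⟨d, hd⟩ := hdeg
  have hpG : p ∣ Nat.card G := hx.trans (orderOf_dvd_natCard x)
  obtain ⟨b, hb⟩ := hn
  have hb' : ¬ p ∣ b := by
    rintro ⟨c, rfl⟩
    exact hn' ⟨c, by rw [hb]; ring⟩
  have hn0 : n ≠ 0 := by
    rintro rfl
    rw [pow_zero, one_mul] at hb
    exact hb' (hb ▸ hpG)
  obtain ⟨a, rfl⟩ := Nat.exists_eq_succ_of_ne_zero hn0
  exact Cfsg.Agent.H3.DefectZero.vanish hp hb ⟨a, rfl⟩ hb' hχ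
    (by rw [Representation.char_one, hd]) hx

end Cfsg.Agent.S0165
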