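import Cfsg.Statements.S0167
import Cfsg.Agent.H3_CharCalc

set_option autoImplicit false
open Cfsg

namespace Cfsg.Agent.S0167

/-- An element g of a finite group is a commutator if and only if the sum over the irreducible characters χ of χ g / χ 1 is nonzero. -/
theorem result {G : Type*} [Group G] [Finite G] (g : G) : (∃ a b : G, g = a * b * a⁻¹ * b⁻¹) ↔ ∑ᶠ χ : Cfsg.IrrCharacter G, (χ : G → ℂ) g / (χ : G → ℂ) 1 ≠ 0 := by
  classical
  have := Fintype.ofFinite G
  have := Fintype.ofFinite (Cfsg.IrrCharacter G)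
  have h := Cfsg.Agent.H3.CharCalc.card_commutator g
  have h0 : (Nat.card G : ℂ) ≠ 0 := Cfsg.Agent.H3.CharIrr.card_cast_ne_zero
  rw [finsum_eq_sum_of_fintype]
  constructor
  · rintro ⟨a, b, rfl⟩ h1
    rw [h1, mul_zero] at h
    have h2 : (Finset.univ.filter (fun p : G × G => p.1 * p.2 * p.1⁻¹ * p.2⁻¹ =
      a * b * a⁻¹ * b⁻¹)).card = 0 := by exact_mod_cast h
    rw [Finset.card_eq_zero] at h2
    have h3 : (a, b) ∈ (∅ : Finset (G × G)) := by rw [← h2]; simp
    simp at h3
  · intro h1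
    have h2 : ((Finset.univ.filter (fun p : G × G => p.1 * p.2 * p.1⁻¹ * p.2⁻¹ = g)).card : ℂ)
        ≠ 0 := by rw [h]; exact mul_ne_zero h0 h1
    have h3 : (Finset.univ.filter (fun p : G × G => p.1 * p.2 * p.1⁻¹ * p.2⁻¹ = g)).Nonempty := by
      rw [← Finset.card_ne_zero]; exact_mod_cast h2
    obtain ⟨p, hp⟩ := h3
    simp only [Finset.mem_filter, Finset.mem_univ, true_and] at hp
    exact ⟨p.1, p.2, hp.symm⟩

end Cfsg.Agent.S0167
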