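import Cfsg.Statements.S0168
import Cfsg.Agent.H3_CharMult

set_option autoImplicit false
open Cfsg

namespace Cfsg.Agent.S0168

/-- The Burnside–Brauer Theorem. Let χ be the character of a faithful complex representation of a finite group, taking m distinct values. Then every irreducible character has nonzero inner product with χ ^ i for some i < m. -/
theorem result {G : Type*} [Group G] [Fintype G] {V : Type*} [AddCommGroup V] [Module ℂ V] [FiniteDimensional ℂ V] (ρ : Representation ℂ G V) (hfaithful : Function.Injective ρ) (ψ : G → ℂ) (hψ : Cfsg.IsIrrCharacter G ψ) : ∃ i : ℕ, i < Nat.card (Set.range ρ.character) ∧ Cfsg.classInner (fun g => ρ.character g ^ i) ψ ≠ 0 := by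
  classical
  by_contra hcon
  push Not at hcon
  let S : Finset ℂ := Finset.univ.image ρ.character
  have hcard : Nat.card (Set.range ρ.character) = S.card := by
    rw [Nat.card_eq_fintype_card, ← Set.toFinset_card]
    congr 1
    ext x; simp [S]
  -- polynomial combination
  have hsum : ∀ i, i < S.card → ∑ g : G, ρ.character g ^ i * (starRingEnd ℂ) (ψ g) = 0 := by
    intro i hi
    have h1 := hcon i (by rw [hcard]; exact hi)
    rw [Cfsg.classInner, mul_eq_zero, inv_eq_zero] at h1
    exact h1.resolve_left Cfsg.Agent.H3.CharIrr.card_cast_ne_zero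
  have hpoly : ∀ P : Polynomial ℂ, P.natDegree < S.card →
      ∑ g : G, P.eval (ρ.character g) * (starRingEnd ℂ) (ψ g) = 0 := by
    intro P hP
    have h2 : ∀ g : G, P.eval (ρ.character g) * (starRingEnd ℂ) (ψ g) =
        ∑ i ∈ Finset.range S.card, P.coeff i * (ρ.character g ^ i * (starRingEnd ℂ) (ψ g)) := by
      intro g
      rw [Polynomial.eval_eq_sum_range' hP, Finset.sum_mul]
      exact Finset.sum_congr rfl fun i _ => by ring
    rw [Finset.sum_congr rfl fun g _ => h2 g, Finset.sum_comm]
    apply Finset.sum_eq_zero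
    intro i hi
    rw [← Finset.mul_sum, hsum i (Finset.mem_range.mp hi), mul_zero]
  -- take the Lagrange-type polynomial vanishing at all values except χ(1)
  let a : ℂ := ρ.character 1
  have haS : a ∈ S := Finset.mem_image.mpr ⟨1, Finset.mem_univ _, rfl⟩
  let P : Polynomial ℂ := ∏ s ∈ S.erase a, (Polynomial.X - Polynomial.C s)
  have hdeg : P.natDegree < S.card := by
    rw [Polynomial.natDegree_prod_of_monic _ _ (fun s _ => Polynomial.monic_X_sub_C s)]
    simp only [Polynomial.natDegree_X_sub_C, Finset.sum_const, smul_eq_mul, mul_one]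
    exact Finset.card_erase_lt_of_mem haS
  have h3 := hpoly P hdeg
  have hP0 : ∀ g : G, g ≠ 1 → P.eval (ρ.character g) = 0 := by
    intro g hg
    have hne : ρ.character g ≠ a := by
      intro h
      have h4 := (Cfsg.Agent.H3.CharBasic.char_eq_finrank_iff ρ g).mp
        (by rw [h]; exact Representation.char_one ρ)
      apply hg
      apply hfaithful
      rw [h4, map_one]; rfl
    rw [Polynomial.eval_prod]
    apply Finset.prod_eq_zero (i := ρ.character g)
    · exact Finset.mem_erase.mpr ⟨hne, Finset.mem_image.mpr ⟨g, Finset.mem_univ _, rfl⟩⟩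
    · simp
  rw [Finset.sum_eq_single (1 : G) (fun g _ hg => by rw [hP0 g hg, zero_mul])
    (fun h => absurd (Finset.mem_univ _) h)] at h3
  rcases mul_eq_zero.mp h3 with h4 | h4
  · rw [Polynomial.eval_prod, Finset.prod_eq_zero_iff] at h4
    obtain ⟨s, hs, hs0⟩ := h4
    rw [Polynomial.eval_sub, Polynomial.eval_X, Polynomial.eval_C, sub_eq_zero] at hs0
    exact (Finset.mem_erase.mp hs).1 hs0.symm
  · rw [map_eq_zero] at h4
    exact Cfsg.Agent.H3.CharIrr.IsIrr.one_ne_zero hψ h4

end Cfsg.Agent.S0168
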