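import Cfsg.Statements.S0170
import Cfsg.Agent.H3_Isom
import Cfsg.Agent.H3_CharTI

set_option autoImplicit false
open Cfsg

namespace Cfsg.Agent.S0170

open Cfsg Cfsg.Agent.H3.CharIrr Cfsg.Agent.H3.CharComplete Cfsg.Agent.H3.CharInd Cfsg.Agent.H3.Isom in
theorem aux {G : Type*} [Group G] [Fintype G] (N : Subgroup G) (S : Set G)
    (hTI : ∀ g : G, g ∉ N → ∀ s ∈ S, g * s * g⁻¹ ∈ S → s = 1) {ι : Type*} (i₀ : ι)
    (χ : ι → (N → ℂ)) (hirr : ∀ i, IsIrrCharacter N (χ i))
    (hinj : Function.Injective χ) (hvan : ∀ i, ∀ x : N, (x : G) ∉ S → χ i x = 0)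
    (hdeg : ∀ i j, χ i 1 = χ j 1) : ∃ ε : ℂ, (ε = 1 ∨ ε = -1) ∧ ∃ θ : ι → (G → ℂ),
      (∀ i, IsIrrCharacter G (θ i)) ∧ Function.Injective θ ∧
      ∀ i j, indFun N (χ i) - indFun N (χ j) = ε • (θ i - θ j) := by
  classical
  have := Fintype.ofFinite N
  have hdiff : ∀ i, IsGeneralizedCharacter N (χ i - χ i₀) := fun i =>
    IsGen.sub (IsGen.of_irr (hirr i)) (IsGen.of_irr (hirr i₀))
  have hci : ∀ i j, classInner (indFun N (χ i - χ i₀)) (indFun N (χ j - χ i₀)) =
      classInner (χ i - χ i₀) (χ j - χ i₀) := by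
    intro i j
    apply Cfsg.Agent.H3.CharTI.ind_inner_of_TI' N S hTI
    · exact IsGen.isClass (hdiff j)
    · intro x hx; rw [Pi.sub_apply, hvan i x hx, hvan i₀ x hx, sub_zero]
    · intro x hx; rw [Pi.sub_apply, hvan j x hx, hvan i₀ x hx, sub_zero]
    · rw [Pi.sub_apply, hdeg i i₀, sub_self]
  obtain ⟨ε, hε, μ, hμ, hμinj, h⟩ := isometry_lemma i₀ (fun i => indFun N (χ i - χ i₀))
    (by beta_reduce; rw [sub_self, ind_zero]) (fun i => IsGen.ind (hdiff i))
    (fun i => by beta_reduce; rw [ind_one, Pi.sub_apply, hdeg i i₀, sub_self, mul_zero])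
    (fun i hi => by
      beta_reduce
      rw [hci, ci_diff (hirr i) (hirr i₀) (hirr i) (hirr i₀), if_pos rfl, if_pos rfl,
        if_neg (fun h => hi (hinj h)), if_neg (fun h => hi (hinj h.symm))]
      norm_num)
    (fun i j hi hj hij => by
      beta_reduce
      have e1 : ¬ χ i = χ j := fun h => hij (hinj h)
      have e2 : ¬ χ i = χ i₀ := fun h => hi (hinj h)
      have e3 : ¬ χ i₀ = χ j := fun h => hj (hinj h.symm)
      rw [hci, ci_diff (hirr i) (hirr i₀) (hirr j) (hirr i₀), if_neg e1, if_neg e2, if_neg e3,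
        if_pos rfl]
      norm_num)
  refine ⟨ε, hε, μ, hμ, hμinj, fun i j => ?_⟩
  have h1 := h i
  have h2 := h j
  beta_reduce at h1 h2
  rw [ind_sub] at h1 h2
  have h3 : indFun N (χ i) - indFun N (χ j) =
      (indFun N (χ i) - indFun N (χ i₀)) - (indFun N (χ j) - indFun N (χ i₀)) := by ring
  rw [h3, h1, h2, ← smul_sub]
  congr 1
  ring

/-- Exceptional characters. Let S be a subset of a finite group contained in its normalizer N and meeting its conjugates by elements outside N only in the identity. Given n ≥ 2 distinct irreducible characters of N of equal degree that vanish on N away from S, there exist a sign ε and n distinct irreducible characters θ_i of G such that inducing χ_i − χ_j to G gives ε (θ_i − θ_j) for all i, j. -/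
theorem result {G : Type*} [Group G] [Fintype G] (S : Set G) (hSN : S ⊆ Subgroup.normalizer S) (hTI : ∀ g : G, g ∉ Subgroup.normalizer S → ∀ s ∈ S, g * s * g⁻¹ ∈ S → s = 1) (n : ℕ) (hn : 2 ≤ n) (χ : Fin n → (Subgroup.normalizer S → ℂ)) (hirr : ∀ i, Cfsg.IsIrrCharacter (Subgroup.normalizer S) (χ i)) (hinj : Function.Injective χ) (hvan : ∀ i, ∀ x : Subgroup.normalizer S, (x : G) ∉ S → χ i x = 0) (hdeg : ∀ i j, χ i 1 = χ j 1) : ∃ ε : ℂ, (ε = 1 ∨ ε = -1) ∧ ∃ θ : Fin n → (G → ℂ), (∀ i, Cfsg.IsIrrCharacter G (θ i)) ∧ Function.Injective θ ∧ ∀ i j, Cfsg.indFun (Subgroup.normalizer S) (χ i) - Cfsg.indFun (Subgroup.normalizer S) (χ j) = ε • (θ i - θ j) := by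
  exact aux (Subgroup.normalizer S) S hTI (⟨0, by omega⟩ : Fin n) χ hirr hinj hvan hdeg

end Cfsg.Agent.S0170
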