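import Cfsg.Statements.S0173
import Cfsg.Agent.H3_CharCalc

set_option autoImplicit false
open Cfsg

namespace Cfsg.Agent.S0173

/-- Brauer's permutation lemma for a single automorphism: the number of conjugacy classes mapped to themselves equals the number of irreducible complex characters χ with χ ∘ α = χ. -/
theorem result {G : Type*} [Group G] [Finite G] (α : G ≃* G) : Nat.card {C : ConjClasses G // ConjClasses.map α.toMonoidHom C = C} = Nat.card {χ : Cfsg.IrrCharacter G // (χ : G → ℂ) ∘ α = (χ : G → ℂ)} := by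
  classical
  have := Fintype.ofFinite G
  symm
  have hcomp : ∀ χ : Cfsg.IrrCharacter G, Cfsg.IsIrrCharacter G ((χ : G → ℂ) ∘ α) := fun χ =>
    (Cfsg.Agent.H3.CharInd.isIrr_comp_iff α).mpr χ.2
  let π : Cfsg.IrrCharacter G → Cfsg.IrrCharacter G := fun χ => ⟨(χ : G → ℂ) ∘ α, hcomp χ⟩
  let τ : ConjClasses G → ConjClasses G := ConjClasses.map α.symm.toMonoidHom
  have h := Cfsg.Agent.H3.CharCalc.brauer_perm π τ (fun χ g g' hg => by
    have h1 : ConjClasses.mk g' = ConjClasses.mk (α.symm g) := hg
    rw [ConjClasses.mk_eq_mk_iff_isConj] at h1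
    have h2 := Cfsg.Agent.H3.CharComplete.IsClass.eq_of_isConj
      (Cfsg.Agent.H3.CharIrr.IsIrr.isClass (hcomp χ)) h1
    change ((χ : G → ℂ) ∘ α) g' = _
    rw [h2]; simp)
  have h1 : Nat.card {χ : Cfsg.IrrCharacter G // (χ : G → ℂ) ∘ α = (χ : G → ℂ)} =
      Nat.card {χ : Cfsg.IrrCharacter G // π χ = χ} :=
    Nat.card_congr (Equiv.subtypeEquivRight fun χ => ⟨fun h => Subtype.ext h, fun h =>
      congrArg Subtype.val h⟩)
  have h2 : Nat.card {C : ConjClasses G // ConjClasses.map α.toMonoidHom C = C} =
      Nat.card {C : ConjClasses G // τ C = C} :=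
    Nat.card_congr (Equiv.subtypeEquivRight fun C => by
      obtain ⟨g, rfl⟩ := ConjClasses.exists_rep C
      change ConjClasses.mk (α g) = ConjClasses.mk g ↔
        ConjClasses.mk (α.symm g) = ConjClasses.mk g
      rw [ConjClasses.mk_eq_mk_iff_isConj, ConjClasses.mk_eq_mk_iff_isConj]
      constructor
      · intro h
        have := (α.symm.toMonoidHom).map_isConj h
        simpa using this.symm
      · intro h
        have := (α.toMonoidHom).map_isConj h
        simpa using this.symm)
  rw [h1, h2, h]

end Cfsg.Agent.S0173
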