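import Cfsg.Statements.S0177
import Cfsg.Agent.H25_BrauerP


set_option autoImplicit false
open Cfsg

namespace Cfsg.Agent.S0177

open Cfsg.Agent.H3 Cfsg.Agent.H3.CharBasic Cfsg.Agent.H3.CharIrr Cfsg.Agent.H25.Brauer Cfsg.Agent.H25.BrauerP in
/-- The Artin induction Theorem: for a character χ of a finite group, |G| • χ is a ℤ-linear combination of functions induced from homomorphisms of cyclic subgroups into ℂˣ. -/
theorem result {G : Type*} [Group G] [Fintype G] (χ : G → ℂ) (hχ : Cfsg.IsCharacter G χ) : ∃ l : List ((A : Subgroup G) × ((A →* ℂˣ) × ℤ)), (∀ t ∈ l, IsCyclic t.1) ∧ (Nat.card G : ℂ) • χ = (l.map fun t => (t.2.2 : ℂ) • Cfsg.indFun t.1 (fun a => (t.2.1 a : ℂ))).sum := by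
  classical
  apply VHom_list (P := fun A => IsCyclic A)
  have : Fintype (Subgroup G) := Fintype.ofFinite _
  have e1 : (Nat.card G : ℂ) • χ = χ * (fun _ : G => (Nat.card G : ℂ)) := by
    ext g; simp [mul_comm]
  rw [e1, artin_one, finsum_mem_eq_finite_toFinset_sum _ (Set.toFinite _), Finset.mul_sum]
  refine sum_mem fun C hC => ?_
  have hC' : IsCyclic C := by simpa using hC
  rw [mul_indFun _ _ _ (IsChar.isClass hχ)]
  apply ind_gen_mem_VHom C hC'
  · intro a b
    have := (IsCyclic.isMulCommutative (α := C))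
    exact mul_comm' a b
  · exact CharComplete.IsGen.mul (CharComplete.IsGen.of_char (IsChar.res hχ C)) (artinFun_gen C hC')

end Cfsg.Agent.S0177
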