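import Cfsg.Statements.S0178
import Cfsg.Agent.H3_CharMult

set_option autoImplicit false
open Cfsg

namespace Cfsg.Agent.S0178

/-- The degree of an irreducible complex representation of a finite group is at most the index of any abelian subgroup. -/
theorem result {G : Type*} [Group G] [Finite G] {V : Type*} [AddCommGroup V] [Module ℂ V] [FiniteDimensional ℂ V] (ρ : Representation ℂ G V) [ρ.IsIrreducible] (A : Subgroup G) (hA : ∀ a ∈ A, ∀ b ∈ A, a * b = b * a) : Module.finrank ℂ V ≤ A.index := by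
  classical
  have := Fintype.ofFinite G
  have hχ : Cfsg.IsIrrCharacter G ρ.character :=
    Cfsg.Agent.H3.CharIrr.isIrr_of_rep ρ inferInstance
  obtain ⟨ψ, hψ, hψ0⟩ := Cfsg.Agent.H3.CharMult.exists_constituent_res (H := A) hχ
  have hψ1 : ψ 1 = 1 := Cfsg.Agent.H3.CharMult.IsIrr.one_of_comm
    (fun a b => Subtype.ext (hA a a.2 b b.2)) hψ
  have h1 := (Cfsg.Agent.H3.CharMult.constituent_ind_iff (ψ := ψ)
    (Cfsg.Agent.H3.CharIrr.IsIrr.isCharacter hχ)).mpr hψ0
  refine Cfsg.Agent.H3.CharMult.IsChar.degree_le' (Cfsg.Agent.H3.CharInd.IsChar.ind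
    (Cfsg.Agent.H3.CharIrr.IsIrr.isCharacter hψ)) hχ h1 ?_ (Representation.char_one ρ)
  rw [Cfsg.Agent.H3.CharInd.ind_one, hψ1, mul_one]

end Cfsg.Agent.S0178
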