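import Cfsg.Statements.S0180
import Cfsg.Agent.H3_GalProd

set_option autoImplicit false
open Cfsg

namespace Cfsg.Agent.S0180

/-- Every irreducible complex character of a finite group takes only rational values if and only if g is conjugate to g ^ m for every element g and every m coprime to the group order. -/
theorem result {G : Type*} [Group G] [Finite G] : (∀ χ : Cfsg.IrrCharacter G, ∀ g : G, ∃ q : ℚ, (χ : G → ℂ) g = (q : ℂ)) ↔ ∀ m : ℕ, m.Coprime (Nat.card G) → ∀ g : G, IsConj g (g ^ m) := by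
  classical
  have := Fintype.ofFinite G
  have : NeZero (Nat.card G) := ⟨Nat.card_pos.ne'⟩
  have hpow : ∀ g : G, g ^ Nat.card G = 1 := fun g => pow_card_eq_one'
  constructor
  · intro hrat m hm g
    have := Fintype.ofFinite (Cfsg.IrrCharacter G)
    obtain ⟨σ, hσ⟩ := Cfsg.Agent.H3.CharGal.exists_gal (Nat.card G) m hm
    have h1 : ∀ χ : Cfsg.IrrCharacter G, (χ : G → ℂ) (g ^ m) = (χ : G → ℂ) g := by
      intro χ
      obtain ⟨q, hq⟩ := hrat χ g
      have h2 := Cfsg.Agent.H3.CharGal.IsChar.gal (Cfsg.Agent.H3.CharIrr.IsIrr.isCharacter χ.2) g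
        (hpow g) hσ (algebraMap ℚ _ q) (by rw [hq]; simp)
      rw [AlgEquiv.commutes] at h2
      rw [← h2, hq]; simp
    by_contra hne
    have h3 := Cfsg.Agent.H3.CharComplete.orth2 g (g ^ m)
    rw [if_neg hne] at h3
    have h4 := Cfsg.Agent.H3.CharComplete.orth2 g g
    rw [if_pos (IsConj.refl g)] at h4
    rw [Finset.sum_congr rfl fun χ _ => by rw [h1 χ], h4] at h3
    exact (Nat.cast_ne_zero.mpr (Nat.card_pos (α := Subgroup.centralizer ({g} : Set G))).ne') h3
  · intro hconj χ g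
    have hchar := Cfsg.Agent.H3.CharIrr.IsIrr.isCharacter χ.2
    obtain ⟨q, hq⟩ := Cfsg.Agent.H3.CharGal.rat_of_fixed
      (⟨(χ : G → ℂ) g, Cfsg.Agent.H3.CharGal.IsChar.mem_cyc hchar g (hpow g)⟩ :
        Cfsg.Agent.H3.CharGal.Cyc (Nat.card G)) (fun σ => by
        obtain ⟨m, hm, hσ⟩ := Cfsg.Agent.H3.CharGal.gal_actsAs _ σ
        apply Subtype.ext
        rw [Cfsg.Agent.H3.CharGal.IsChar.gal hchar g (hpow g) hσ _ rfl]
        obtain ⟨c, hc⟩ := isConj_iff.mp (hconj m hm g)
        rw [← hc]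
        exact Cfsg.Agent.H3.CharIrr.IsIrr.isClass χ.2 g c)
    exact ⟨q, hq⟩

end Cfsg.Agent.S0180
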