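import Cfsg.Statements.S0181
import Cfsg.Agent.H3_CharMult

set_option autoImplicit false
open Cfsg

namespace Cfsg.Agent.S0181

/-- Let H be a normal subgroup of a finite group G and ρ an irreducible complex representation whose kernel does not contain H. If g commutes with no non-identity element of H, then the character of ρ vanishes at g. -/
theorem result {G : Type*} [Group G] [Finite G] {V : Type*} [AddCommGroup V] [Module ℂ V] [FiniteDimensional ℂ V] (ρ : Representation ℂ G V) [ρ.IsIrreducible] (H : Subgroup G) [H.Normal] (hker : ∃ h ∈ H, ρ h ≠ LinearMap.id) (g : G) (hg : ∀ h ∈ H, h * g = g * h → h = 1) : ρ.character g = 0 := by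
  classical
  have := Fintype.ofFinite G
  -- every element of the coset H g is conjugate to g
  have hconj : ∀ h ∈ H, ρ.character (h * g) = ρ.character g := by
    intro h hh
    let f : H → H := fun x => ⟨x * (g * (x : G)⁻¹ * g⁻¹),
      H.mul_mem x.2 (by
        have : g * (x : G)⁻¹ * g⁻¹ ∈ H := (inferInstance : H.Normal).conj_mem _ (H.inv_mem x.2) g
        exact this)⟩
    have hinj : Function.Injective f := by
      intro x y hxy
      have h1 : (x : G) * (g * (x : G)⁻¹ * g⁻¹) = (y : G) * (g * (y : G)⁻¹ * g⁻¹) :=
        congrArg Subtype.val hxy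
      have h2 : ((y : G)⁻¹ * x) * g = g * ((y : G)⁻¹ * x) := by
        calc ((y : G)⁻¹ * x) * g = (y : G)⁻¹ * ((x : G) * (g * (x : G)⁻¹ * g⁻¹)) * g * x := by group
          _ = (y : G)⁻¹ * ((y : G) * (g * (y : G)⁻¹ * g⁻¹)) * g * x := by rw [h1]
          _ = _ := by group
      have h3 := hg ((y : G)⁻¹ * x) (H.mul_mem (H.inv_mem y.2) x.2) h2
      apply Subtype.ext
      exact (inv_mul_eq_one.mp h3).symm
    obtain ⟨x, hx⟩ := (Finite.injective_iff_surjective.mp hinj) ⟨h, hh⟩
    have hx' : (x : G) * (g * (x : G)⁻¹ * g⁻¹) = h := congrArg Subtype.val hx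
    have : h * g = x * g * (x : G)⁻¹ := by rw [← hx']; group
    rw [this, Representation.char_conj]
  -- the operator T = ∑_{h ∈ H} ρ h
  let T : V →ₗ[ℂ] V := ∑ h : H, ρ h
  have hT1 : ∀ h ∈ H, ρ h ∘ₗ T = T := by
    intro h hh
    ext v
    simp only [T, LinearMap.comp_apply, LinearMap.sum_apply, map_sum]
    rw [← Equiv.sum_comp (Equiv.mulLeft (⟨h, hh⟩ : H)) (fun x : H => ρ x v)]
    refine Finset.sum_congr rfl fun x _ => ?_
    simp only [Equiv.coe_mulLeft, Subgroup.coe_mul, map_mul]
    rfl
  -- the fixed space of H is invariant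
  let U : Submodule ℂ V := { carrier := {v | ∀ h ∈ H, ρ h v = v}
                             add_mem' := fun {a b} ha hb h hh => by rw [map_add, ha h hh, hb h hh]
                             zero_mem' := fun h _ => map_zero _
                             smul_mem' := fun c v hv h hh => by rw [map_smul, hv h hh] }
  have hU : ∀ x, ∀ v ∈ U, ρ x v ∈ U := by
    intro x v hv h hh
    have h1 : x⁻¹ * h * x ∈ H := by
      have := (inferInstance : H.Normal).conj_mem h hh x⁻¹
      simpa using this
    rw [← Module.End.mul_apply, ← map_mul]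
    have h2 : h * x = x * (x⁻¹ * h * x) := by group
    rw [h2, map_mul, Module.End.mul_apply, hv _ h1]
  have hUbot : U = ⊥ := by
    rcases ((Cfsg.Agent.H3.CharIrr.irrep_iff ρ).mp inferInstance).2 U hU with h | h
    · exact h
    · exfalso
      obtain ⟨h0, hh0, hne⟩ := hker
      apply hne
      ext v
      have : v ∈ U := by rw [h]; trivial
      exact this h0 hh0
  have hT0 : T = 0 := by
    ext v
    have : T v ∈ U := by
      intro h hh
      exact congrArg (fun f => f v) (hT1 h hh)
    rw [hUbot, Submodule.mem_bot] at this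
    exact this
  have h3 : ∑ h : H, ρ.character (h * g) = 0 := by
    have h4 : (T * ρ g : Module.End ℂ V) = 0 := by rw [hT0, zero_mul]
    have h5 := congrArg (LinearMap.trace ℂ V) h4
    simp only [T, Finset.sum_mul, map_sum, map_zero] at h5
    rw [← h5]
    refine Finset.sum_congr rfl fun h _ => ?_
    rw [Representation.character, map_mul]
  rw [Finset.sum_congr rfl fun (h : H) _ => hconj h h.2, Finset.sum_const, nsmul_eq_mul,
    mul_eq_zero] at h3
  rcases h3 with h3 | h3
  · exfalso
    have : (Finset.univ : Finset H).card ≠ 0 := by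
      rw [Finset.card_univ]; exact Fintype.card_ne_zero
    exact this (by exact_mod_cast h3)
  · exact h3

end Cfsg.Agent.S0181
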