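import Cfsg.Statements.S0184
import Cfsg.Agent.H3_Monomial
import Cfsg.Agent.H1_Nilp

set_option autoImplicit false
open Cfsg

namespace Cfsg.Agent.S0184

open Cfsg Cfsg.Agent.H3.CharIrr Cfsg.Agent.H3.CharComplete Cfsg.Agent.H3.CharInd Cfsg.Agent.H3.CharInt in
theorem aux1 {G : Type*} [Group G] [Finite G] {n : ℕ} (ρ : Representation ℂ G (Fin n → ℂ))
    (hρ : ρ.IsIrreducible) (hinj : Function.Injective ρ) : IsCyclic (Subgroup.center G) := by
  classical
  have hnt := ((irrep_iff ρ).mp hρ).1
  obtain ⟨v, hv⟩ := exists_ne (0 : Fin n → ℂ)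
  choose c hc using fun z : Subgroup.center G => central_scalar ρ hρ z.2
  let f : Subgroup.center G →* ℂ :=
    { toFun := c
      map_one' := by
        have h1 := hc 1
        have h2 := congrArg (fun T : (Fin n → ℂ) →ₗ[ℂ] (Fin n → ℂ) => T v) h1
        simp only [Subgroup.coe_one, map_one, LinearMap.smul_apply, LinearMap.id_apply,
          Module.End.one_apply] at h2
        have h3 : (1 - c 1) • v = 0 := by rw [sub_smul, one_smul, ← h2, sub_self]
        have h4 := (smul_eq_zero.mp h3).resolve_right hv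
        exact (sub_eq_zero.mp h4).symm
      map_mul' := by
        intro a b
        have h1 := hc (a * b)
        rw [Subgroup.coe_mul, map_mul, hc a, hc b] at h1
        have h2 := congrArg (fun T : (Fin n → ℂ) →ₗ[ℂ] (Fin n → ℂ) => T v) h1
        simp only [Module.End.mul_apply, LinearMap.smul_apply, LinearMap.id_apply, smul_smul] at h2
        have h3 : (c (a * b) - c a * c b) • v = 0 := by rw [sub_smul, ← h2, sub_self]
        have h4 := (smul_eq_zero.mp h3).resolve_right hv
        exact sub_eq_zero.mp h4 }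
  have hf : Function.Injective f := by
    intro a b hab
    apply Subtype.ext
    apply hinj
    rw [hc a, hc b]
    have : c a = c b := hab
    rw [this]
  exact isCyclic_of_subgroup_isDomain f hf

open Cfsg Cfsg.Agent.H3.CharIrr Cfsg.Agent.H3.CharComplete Cfsg.Agent.H3.CharQuot in
theorem aux2 {G : Type*} [Group G] [Fintype G] (p : ℕ) [hp : Fact p.Prime] (hG : IsPGroup p G)
    (hcyc : IsCyclic (Subgroup.center G)) :
    ∃ χ : G → ℂ, IsIrrCharacter G χ ∧ ∀ g, χ g = χ 1 → g = 1 := by
  classical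
  by_cases hnt : Nontrivial G
  swap
  · rw [not_nontrivial_iff_subsingleton] at hnt
    exact ⟨fun _ => 1, Cfsg.Agent.H3.CharInd.isIrr_one, fun g _ => Subsingleton.elim _ _⟩
  have hZnt : Nontrivial (Subgroup.center G) := hG.center_nontrivial
  have hZp : IsPGroup p (Subgroup.center G) := hG.to_subgroup _
  have hpd : p ∣ Nat.card (Subgroup.center G) := by
    obtain ⟨k, hk, hk'⟩ := (IsPGroup.nontrivial_iff_card hZp).mp hZnt
    rw [hk']; exact dvd_pow_self p hk.ne'
  obtain ⟨z, hz⟩ := exists_prime_orderOf_dvd_card' p hpd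
  have hz1 : (z : G) ≠ 1 := by
    intro h
    have : z = 1 := Subtype.ext h
    rw [this, orderOf_one] at hz
    exact hp.out.one_lt.ne hz
  have := Fintype.ofFinite (IrrCharacter G)
  obtain ⟨χ, hχ⟩ : ∃ χ : IrrCharacter G, (χ : G → ℂ) z ≠ (χ : G → ℂ) 1 := by
    by_contra hne
    push Not at hne
    have h1 := sum_one_mul (z : G)
    rw [if_neg hz1, Finset.sum_congr rfl fun χ _ => by rw [hne χ, ← sq], sum_sq] at h1
    exact (Nat.cast_ne_zero.mpr (Nat.card_pos (α := G)).ne') h1
  refine ⟨χ, χ.2, ?_⟩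
  by_contra hcon
  push Not at hcon
  obtain ⟨g, hg, hg1⟩ := hcon
  have hnil : Group.IsNilpotent G := hG.isNilpotent
  have hKn := chKer_normal (IsIrr.isCharacter χ.2)
  have hK : chKer (χ : G → ℂ) (IsIrr.isCharacter χ.2) ≠ ⊥ := by
    intro h
    have : g ∈ chKer (χ : G → ℂ) (IsIrr.isCharacter χ.2) := hg
    rw [h, Subgroup.mem_bot] at this
    exact hg1 this
  have h2 := Cfsg.Agent.H1.Nilp.normal_inf_center_ne_bot _ hK
  -- a nontrivial element of prime order in the intersection
  obtain ⟨w, hw1⟩ := Subgroup.ne_bot_iff_exists_ne_one.mp h2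
  have hwp : IsPGroup p (chKer (χ : G → ℂ) (IsIrr.isCharacter χ.2) ⊓ Subgroup.center G : Subgroup G) :=
    hG.to_subgroup _
  have hpd' : p ∣ Nat.card (chKer (χ : G → ℂ) (IsIrr.isCharacter χ.2) ⊓ Subgroup.center G : Subgroup G) := by
    obtain ⟨k, hk, hk'⟩ := (IsPGroup.nontrivial_iff_card hwp).mp ⟨w, 1, hw1⟩
    rw [hk']; exact dvd_pow_self p hk.ne'
  obtain ⟨y, hy⟩ := exists_prime_orderOf_dvd_card' p hpd'
  have hy' : orderOf (⟨y, y.2.2⟩ : Subgroup.center G) = p := by
    rw [Subgroup.orderOf_mk, Subgroup.orderOf_coe, hy]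
  -- both generate the unique subgroup of order `p`
  have h3 := IsCyclic.card_pow_eq_one_le (α := Subgroup.center G) hp.out.pos
  have h4 : z ∈ Subgroup.zpowers (⟨y, y.2.2⟩ : Subgroup.center G) := by
    by_contra hz'
    have h5 : insert z (Finset.univ.filter (fun x => x ∈ Subgroup.zpowers (⟨y, y.2.2⟩ : Subgroup.center G))) ⊆
        Finset.univ.filter (fun a : Subgroup.center G => a ^ p = 1) := by
      intro x hx
      rw [Finset.mem_insert, Finset.mem_filter] at hx
      rw [Finset.mem_filter]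
      refine ⟨Finset.mem_univ _, ?_⟩
      rcases hx with rfl | ⟨-, hx⟩
      · rw [← hz, pow_orderOf_eq_one]
      · obtain ⟨k, rfl⟩ := Subgroup.mem_zpowers_iff.mp hx
        rw [← zpow_natCast, ← zpow_mul, mul_comm, zpow_mul, zpow_natCast]
        have : (⟨y, y.2.2⟩ : Subgroup.center G) ^ p = 1 := by rw [← hy', pow_orderOf_eq_one]
        rw [this, one_zpow]
    have h6 := Finset.card_le_card h5
    rw [Finset.card_insert_of_notMem (by simpa using hz')] at h6
    have h7 : (Finset.univ.filter (fun x => x ∈ Subgroup.zpowers (⟨y, y.2.2⟩ : Subgroup.center G))).card = p := by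
      rw [← Fintype.card_subtype, ← Nat.card_eq_fintype_card]
      exact (Nat.card_zpowers _).trans hy'
    rw [h7] at h6
    omega
  apply hχ
  obtain ⟨k, hk⟩ := Subgroup.mem_zpowers_iff.mp h4
  have h8 : (z : G) = (y : G) ^ k := by rw [← hk]; simp
  have h9 : (y : G) ∈ chKer (χ : G → ℂ) (IsIrr.isCharacter χ.2) := y.2.1
  have h10 := Subgroup.zpow_mem _ h9 k
  rw [← h8] at h10
  exact h10

/-- A finite p-group admits a faithful irreducible complex representation if and only if its centre is cyclic. -/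
theorem result {G : Type*} [Group G] [Finite G] (p : ℕ) [Fact p.Prime] (hG : IsPGroup p G) : (∃ (n : ℕ) (ρ : Representation ℂ G (Fin n → ℂ)), ρ.IsIrreducible ∧ Function.Injective ρ) ↔ IsCyclic (Subgroup.center G) := by
  classical
  have := Fintype.ofFinite G
  constructor
  · rintro ⟨n, ρ, hρ, hinj⟩
    exact aux1 ρ hρ hinj
  · intro hcyc
    obtain ⟨χ, ⟨n, ρ, hρ, hρχ⟩, h⟩ := aux2 p hG hcyc
    refine ⟨n, ρ, hρ, ?_⟩
    rw [injective_iff_map_eq_one]
    intro g hg
    apply h
    rw [← hρχ]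
    exact (Cfsg.Agent.H3.CharQuot.rep_eq_one_iff ρ g).mp hg

end Cfsg.Agent.S0184
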