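import Cfsg.Statements.S0185
import Cfsg.Agent.H3_CharInt
import Cfsg.Agent.H3_CharMult

set_option autoImplicit false
open Cfsg

namespace Cfsg.Agent.S0185

/-- If a finite group has a faithful complex representation of degree less than the smallest prime dividing its order, the group is abelian. -/
theorem result {G : Type*} [Group G] [Finite G] {V : Type*} [AddCommGroup V] [Module ℂ V] [FiniteDimensional ℂ V] (ρ : Representation ℂ G V) (hfaithful : Function.Injective ρ) (hdeg : ∀ p : ℕ, p.Prime → p ∣ Nat.card G → Module.finrank ℂ V < p) (a b : G) : a * b = b * a := by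
  classical
  have := Fintype.ofFinite G
  have := Fintype.ofFinite (Cfsg.IrrCharacter G)
  have hχ := Cfsg.Agent.H3.CharIrr.isCharacter_of_rep ρ
  obtain ⟨n, hn, hsum⟩ := Cfsg.Agent.H3.CharMult.IsChar.eq_sum_nat hχ
  -- constituents are linear
  have hlin : ∀ ψ : Cfsg.IrrCharacter G, n ψ ≠ 0 → (ψ : G → ℂ) 1 = 1 := by
    intro ψ hψ
    obtain ⟨d, hd0, hd, hdvd⟩ := Cfsg.Agent.H3.CharInt.IsIrr.dvd_card ψ.2
    have hle := Cfsg.Agent.H3.CharMult.IsChar.degree_le hχ ψ.2 (hn ψ) (Representation.char_one ρ) hd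
    have h1 : d ≤ Module.finrank ℂ V := (Nat.le_mul_of_pos_left d (Nat.pos_of_ne_zero hψ)).trans hle
    by_cases hd1 : d = 1
    · rw [hd, hd1]; simp
    · exfalso
      obtain ⟨p, hp, hpd⟩ := Nat.exists_prime_and_dvd hd1
      have h2 := hdeg p hp (hpd.trans hdvd)
      have h3 := Nat.le_of_dvd hd0 hpd
      omega
  have hcomm : ρ.character (a * b * a⁻¹ * b⁻¹) = ρ.character 1 := by
    rw [hsum]
    simp only [Finset.sum_apply, Pi.smul_apply, smul_eq_mul]
    refine Finset.sum_congr rfl fun ψ _ => ?_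
    by_cases h0 : n ψ = 0
    · rw [h0]; simp
    · obtain ⟨f, hf⟩ := Cfsg.Agent.H3.CharInd.IsChar.hom_units_of_one
        (Cfsg.Agent.H3.CharIrr.IsIrr.isCharacter ψ.2) (hlin ψ h0)
      rw [hf, hf]
      congr 2
      rw [map_mul, map_mul, map_mul, map_inv, map_inv, map_one, mul_comm (f a) (f b)]
      simp
  rw [Representation.char_one] at hcomm
  have h4 := (Cfsg.Agent.H3.CharBasic.char_eq_finrank_iff ρ _).mp hcomm
  have h5 : a * b * a⁻¹ * b⁻¹ = 1 := by
    apply hfaithful
    rw [h4, map_one]; rfl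
  have h6 : a * b * a⁻¹ = b := mul_inv_eq_one.mp h5
  exact mul_inv_eq_iff_eq_mul.mp h6

end Cfsg.Agent.S0185
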