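import Cfsg.Statements.S0187
import Cfsg.Agent.H3_CharInd

set_option autoImplicit false
open Cfsg

namespace Cfsg.Agent.S0187

/-- A finite group is commutative if and only if every irreducible complex character has degree 1. -/
theorem result {G : Type*} [Group G] [Finite G] : (∀ a b : G, a * b = b * a) ↔ ∀ χ : Cfsg.IrrCharacter G, (χ : G → ℂ) 1 = 1 := by
  classical
  have := Fintype.ofFinite G
  have := Fintype.ofFinite (Cfsg.IrrCharacter G)
  have := Fintype.ofFinite (ConjClasses G)
  have hc := Cfsg.Agent.H3.CharComplete.card_irr (G := G)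
  have hs := Cfsg.Agent.H3.CharComplete.sum_sq (G := G)
  choose n hn0 hn using fun χ : Cfsg.IrrCharacter G =>
    Cfsg.Agent.H3.CharIrr.IsIrr.one_eq_nat χ.2
  have hs' : ∑ χ : Cfsg.IrrCharacter G, n χ ^ 2 = Nat.card G := by
    have : ((∑ χ : Cfsg.IrrCharacter G, n χ ^ 2 : ℕ) : ℂ) = (Nat.card G : ℂ) := by
      rw [← hs]; push_cast
      exact Finset.sum_congr rfl fun χ _ => by rw [hn χ]
    exact_mod_cast this
  constructor
  · intro hab χ
    have hbij : Function.Bijective (ConjClasses.mk : G → ConjClasses G) := by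
      refine ⟨fun a b h => ?_, ConjClasses.mk_surjective⟩
      rw [ConjClasses.mk_eq_mk_iff_isConj, isConj_iff] at h
      obtain ⟨c, rfl⟩ := h
      rw [hab c a, mul_assoc]; simp
    have h1 : Nat.card (Cfsg.IrrCharacter G) = Nat.card G := by
      rw [hc]; exact (Nat.card_congr (Equiv.ofBijective _ hbij)).symm
    have h2 : ∑ χ : Cfsg.IrrCharacter G, (n χ ^ 2 - 1 + 1) = ∑ χ : Cfsg.IrrCharacter G, n χ ^ 2 :=
      Finset.sum_congr rfl fun χ _ => Nat.sub_add_cancel (Nat.one_le_pow _ _ (hn0 χ))
    rw [Finset.sum_add_distrib, hs', ← h1, Nat.card_eq_fintype_card] at h2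
    simp only [Finset.sum_const, Finset.card_univ, smul_eq_mul, mul_one] at h2
    have h3 : ∑ χ : Cfsg.IrrCharacter G, (n χ ^ 2 - 1) = 0 := by omega
    have h4 := (Finset.sum_eq_zero_iff.mp h3) χ (Finset.mem_univ _)
    have h5 : n χ = 1 := by
      have := hn0 χ
      by_contra hne
      have : 2 ≤ n χ := by omega
      have : 2 ^ 2 ≤ n χ ^ 2 := Nat.pow_le_pow_left this 2
      omega
    rw [hn χ, h5]; simp
  · intro h1
    have h2 : Nat.card (Cfsg.IrrCharacter G) = Nat.card G := by
      rw [← hs', Nat.card_eq_fintype_card]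
      have : ∀ χ, n χ = 1 := fun χ => by
        have := hn χ
        rw [h1 χ] at this
        exact_mod_cast this.symm
      simp [this]
    rw [hc] at h2
    have hinj : Function.Injective (ConjClasses.mk : G → ConjClasses G) := by
      have hsurj : Function.Surjective (ConjClasses.mk : G → ConjClasses G) :=
        ConjClasses.mk_surjective
      rw [Nat.card_eq_fintype_card, Nat.card_eq_fintype_card] at h2
      exact ((Fintype.bijective_iff_surjective_and_card _).mpr ⟨hsurj, h2.symm⟩).1
    intro a b
    have : ConjClasses.mk (a * b) = ConjClasses.mk (b * a) := by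
      rw [ConjClasses.mk_eq_mk_iff_isConj, isConj_iff]
      exact ⟨b, by simp [mul_assoc]⟩
    exact hinj this

end Cfsg.Agent.S0187
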