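import Cfsg.Statements.S0189
import Cfsg.Agent.H3_CharInd

set_option autoImplicit false
open Cfsg

namespace Cfsg.Agent.S0189

/-- If a complex character of a finite group vanishes at every non-identity element of a Sylow p-subgroup P, then |P| divides its degree. -/
theorem result {G : Type*} [Group G] [Finite G] (p : ℕ) [Fact p.Prime] (P : Sylow p G) (χ : G → ℂ) (hχ : Cfsg.IsCharacter G χ) (hvan : ∀ g : G, g ∈ P → g ≠ 1 → χ g = 0) : ∃ k : ℕ, χ 1 = (Nat.card P : ℂ) * k := by
  classical
  have := Fintype.ofFinite G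
  obtain ⟨k, hk⟩ := Cfsg.Agent.H3.CharComplete.ci_char_nat
    (Cfsg.Agent.H3.CharInd.IsChar.res hχ (P : Subgroup G))
    (Cfsg.Agent.H3.CharIrr.IsChar.one (G := (P : Subgroup G)))
  refine ⟨k, ?_⟩
  rw [← hk, Cfsg.classInner]
  have h1 : ∑ g : (P : Subgroup G), χ g * (starRingEnd ℂ) 1 = χ 1 := by
    rw [Finset.sum_eq_single (1 : (P : Subgroup G))]
    · simp
    · intro g _ hg
      rw [hvan g g.2 (fun h => hg (Subtype.ext h)), zero_mul]
    · intro h; exact absurd (Finset.mem_univ _) h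
  rw [h1]
  have : (Nat.card P : ℂ) ≠ 0 := by exact_mod_cast Nat.card_pos.ne'
  field_simp

end Cfsg.Agent.S0189
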