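import Cfsg.Statements.S0190
import Cfsg.Agent.H3_CharInd

set_option autoImplicit false
open Cfsg

namespace Cfsg.Agent.S0190

/-- For a transitive action of a finite group on X, the permutation character g ↦ (number of fixed points of g) is the function induced from the principal character of the stabilizer of any point. -/
theorem result {G : Type*} [Group G] [Fintype G] (X : Type*) [MulAction G X] [Finite X] [MulAction.IsPretransitive G X] (x : X) : (fun g : G => (Nat.card (MulAction.fixedBy X g) : ℂ)) = Cfsg.indFun (MulAction.stabilizer G x) (fun _ => 1) := by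
  classical
  have := Fintype.ofFinite X
  ext g
  rw [Cfsg.indFun]
  have h1 : ∀ y : G, Cfsg.extendByZero (MulAction.stabilizer G x) (fun _ => 1) (y⁻¹ * g * y) =
      if g • (y • x) = y • x then 1 else 0 := by
    intro y
    have h2 : y⁻¹ * g * y ∈ MulAction.stabilizer G x ↔ g • (y • x) = y • x := by
      rw [MulAction.mem_stabilizer_iff, mul_smul, mul_smul, inv_smul_eq_iff]
    by_cases h : g • (y • x) = y • x
    · rw [if_pos h, Cfsg.Agent.H3.CharInd.ext_mem _ _ (h2.mpr h)]
    · rw [if_neg h, Cfsg.Agent.H3.CharInd.ext_not_mem _ _ (fun h' => h (h2.mp h'))]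
  rw [Finset.sum_congr rfl fun y _ => h1 y]
  have h3 : ∑ y : G, (if g • (y • x) = y • x then (1 : ℂ) else 0) =
      ∑ z : X, (Nat.card (MulAction.stabilizer G x) : ℂ) * (if g • z = z then 1 else 0) := by
    rw [← Finset.sum_fiberwise_of_maps_to (s := Finset.univ) (t := Finset.univ)
      (g := fun y : G => y • x) (fun y _ => Finset.mem_univ _)]
    refine Finset.sum_congr rfl fun z _ => ?_
    obtain ⟨c, hc⟩ := MulAction.exists_smul_eq G x z
    have h4 : ((Finset.univ.filter (fun y : G => y • x = z)).card) =
        Nat.card (MulAction.stabilizer G x) := by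
      rw [Nat.card_eq_fintype_card, ← Finset.card_univ]
      refine Finset.card_bij' (fun y hy => (⟨c⁻¹ * y, ?_⟩ : MulAction.stabilizer G x))
        (fun y _ => c * y) ?_ ?_ ?_ ?_
      · simp only [Finset.mem_filter, Finset.mem_univ, true_and] at hy
        rw [MulAction.mem_stabilizer_iff, mul_smul, hy, ← hc, inv_smul_smul]
      · intro y _; exact Finset.mem_univ _
      · intro y _
        simp only [Finset.mem_filter, Finset.mem_univ, true_and]
        rw [mul_smul, MulAction.mem_stabilizer_iff.mp y.2, hc]
      · intro y _; simp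
      · intro y _; ext; simp
    rw [Finset.sum_congr rfl (g := fun _ => if g • z = z then (1 : ℂ) else 0) (fun y hy => by
      simp only [Finset.mem_filter, Finset.mem_univ, true_and] at hy; rw [hy])]
    rw [Finset.sum_const, h4, nsmul_eq_mul]
  rw [h3, ← Finset.mul_sum]
  have h5 : (Nat.card (MulAction.stabilizer G x) : ℂ) ≠ 0 := by exact_mod_cast Nat.card_pos.ne'
  rw [← mul_assoc, inv_mul_cancel₀ h5, one_mul, Finset.sum_boole, Nat.card_eq_fintype_card,
    Fintype.card_subtype]
  rfl

end Cfsg.Agent.S0190
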