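import Cfsg.Statements.S0191
import Cfsg.Agent.H3_GalProd

set_option autoImplicit false
open Cfsg

namespace Cfsg.Agent.S0191

open Cfsg Cfsg.Agent.H3.CharIrr Cfsg.Agent.H3.CharComplete Cfsg.Agent.H3.CharGal Cfsg.Agent.H3.GalProd in
theorem aux {G : Type*} [Group G] [Fintype G] {χ : G → ℂ} (hχ : IsIrrCharacter G χ)
    (h0 : ∀ g, χ g ≠ 0) : χ 1 = 1 := by
  classical
  have : NeZero (Nat.card G) := ⟨Nat.card_pos.ne'⟩
  have hchar := IsIrr.isCharacter hχ
  have hpow : ∀ g : G, g ^ Nat.card G = 1 := fun g => pow_card_eq_one'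
  let ι := {g : G // g ≠ 1}
  let f : ι → Cyc (Nat.card G) := fun g => ⟨χ g, IsChar.mem_cyc hchar g (hpow g)⟩
  obtain ⟨h1, -⟩ := card_le_sum_sq f (fun i => IsChar.isIntegral hchar i)
    (fun i h => h0 i (congrArg Subtype.val h)) (fun σ => by
      obtain ⟨m, hm, hσ⟩ := gal_actsAs _ σ
      have hm' : (Nat.card G).Coprime m := hm.symm
      refine ⟨(powCoprime hm').subtypeEquiv (fun g => ?_), fun i => ?_⟩
      · rw [not_iff_not]
        constructor
        · rintro rfl; exact powCoprime_one hm'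
        · intro h
          apply (powCoprime hm').injective
          rw [h, powCoprime_one]
      · apply Subtype.ext
        exact IsChar.gal hchar (i : G) (hpow _) hσ (f i) rfl)
  have h2 : ∑ g : G, ‖χ g‖ ^ 2 = Nat.card G := by
    have h3 := ci_irr_self hχ
    rw [classInner] at h3
    have h4 : (Nat.card G : ℂ) ≠ 0 := by exact_mod_cast Nat.card_pos.ne'
    have h5 : ∑ g : G, χ g * (starRingEnd ℂ) (χ g) = Nat.card G := by
      field_simp at h3; exact h3
    have h6 : (∑ g : G, χ g * (starRingEnd ℂ) (χ g)) = ((∑ g : G, ‖χ g‖ ^ 2 : ℝ) : ℂ) := by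
      push_cast
      refine Finset.sum_congr rfl fun g _ => ?_
      rw [Complex.mul_conj, Complex.normSq_eq_norm_sq]; push_cast; rfl
    rw [h6] at h5
    exact_mod_cast h5
  have h3 : ∑ g : G, ‖χ g‖ ^ 2 = ‖χ 1‖ ^ 2 + ∑ i : ι, ‖χ i‖ ^ 2 := by
    rw [← Finset.add_sum_erase _ _ (Finset.mem_univ (1 : G))]
    congr 1
    exact Finset.sum_subtype _ (fun x => by simp) _
  obtain ⟨d, hd, hd'⟩ := IsIrr.one_eq_nat hχ
  have h4 : (Fintype.card ι : ℝ) = Nat.card G - 1 := by
    have : Fintype.card ι = Nat.card G - 1 := by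
      rw [Fintype.card_subtype_compl, Nat.card_eq_fintype_card]; simp
    rw [this, Nat.cast_sub Nat.card_pos]; simp
  rw [h4] at h1
  have h5 : ‖χ 1‖ ^ 2 ≤ 1 := by
    have h6 : ∑ i : ι, ‖(f i : ℂ)‖ ^ 2 = ∑ i : ι, ‖χ i‖ ^ 2 := rfl
    rw [h6] at h1
    linarith
  rw [hd', Complex.norm_natCast] at h5
  have h7 : d ^ 2 ≤ 1 := by exact_mod_cast h5
  have h8 : d = 1 := by nlinarith
  rw [hd', h8]; simp

/-- An irreducible complex representation of a finite group of degree greater than 1 has a character that vanishes somewhere. -/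
theorem result {G : Type*} [Group G] [Finite G] {V : Type*} [AddCommGroup V] [Module ℂ V] [FiniteDimensional ℂ V] (ρ : Representation ℂ G V) [ρ.IsIrreducible] (hdeg : 1 < Module.finrank ℂ V) : ∃ g : G, ρ.character g = 0 := by
  classical
  have := Fintype.ofFinite G
  by_contra hne
  push Not at hne
  have h1 := aux (Cfsg.Agent.H3.CharIrr.isIrr_of_rep ρ inferInstance) hne
  rw [Representation.char_one] at h1
  have h2 : Module.finrank ℂ V = 1 := by exact_mod_cast h1
  omega

end Cfsg.Agent.S0191
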