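import Cfsg.Statements.S0192
import Cfsg.Agent.H3_Burnside
import Cfsg.Agent.H3_CharIrr

set_option autoImplicit false
open Cfsg

namespace Cfsg.Agent.S0192

open Cfsg.Agent.H3.CharIrr in
theorem inner_one {G : Type*} [Group G] [Fintype G] {V : Type*} [AddCommGroup V] [Module ℂ V]
    [FiniteDimensional ℂ V] (ρ : Representation ℂ G V) (H : Subgroup G) [Fintype H] :
    Cfsg.classInner (fun x : H => ρ.character x) (fun _ => 1) =
      (Module.finrank ℂ (Representation.invariants (ρ.comp H.subtype)) : ℂ) := by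
  have : Invertible (Nat.card H : ℂ) := invertibleOfNonzero card_cast_ne_zero
  rw [← Representation.card_inv_mul_sum_char_eq_finrank]
  simp only [Cfsg.classInner, map_one, mul_one]
  rfl

theorem invariants_top {G : Type*} [Group G] [Finite G] {V : Type*} [AddCommGroup V] [Module ℂ V]
    [FiniteDimensional ℂ V] (ρ : Representation ℂ G V) (hρ : ρ.IsIrreducible) (v : V) (hv : v ≠ 0)
    (hfix : ∀ g, ρ g v = v) : ρ.character = fun _ => 1 := by
  apply Cfsg.Agent.H3.Burnside.char_eq_one_of_trivial ρ hρ
  have h1 := ((Cfsg.Agent.H3.CharIrr.irrep_iff ρ).mp hρ).2 (Representation.invariants ρ)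
    (fun g w hw => by rw [hw g]; exact hw)
  rcases h1 with h1 | h1
  · exfalso
    apply hv
    have : v ∈ Representation.invariants ρ := hfix
    rwa [h1, Submodule.mem_bot] at this
  · intro g
    ext w
    have : w ∈ Representation.invariants ρ := by rw [h1]; trivial
    exact this g

/-- Brauer's generation criterion. Let G be a finite simple group, H₁ and H₂ subgroups, and χ a non-principal irreducible character. If the multiplicity of the principal character in χ restricted to H₁ ⊓ H₂ is less than the sum of the corresponding multiplicities for H₁ and H₂, then H₁ and H₂ do not generate G. -/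
theorem result {G : Type*} [Group G] [Fintype G] [IsSimpleGroup G] (H₁ H₂ : Subgroup G) [Fintype H₁] [Fintype H₂] [Fintype ↥(H₁ ⊓ H₂)] (χ : G → ℂ) (hχ : Cfsg.IsIrrCharacter G χ) (hχ1 : χ ≠ fun _ => 1) (hlt : (Cfsg.classInner (fun x : ↥(H₁ ⊓ H₂) => χ x) (fun _ => 1)).re < (Cfsg.classInner (fun x : H₁ => χ x) (fun _ => 1)).re + (Cfsg.classInner (fun x : H₂ => χ x) (fun _ => 1)).re) : H₁ ⊔ H₂ ≠ ⊤ := by
  classical
  intro htop
  obtain ⟨n, ρ, hρ, rfl⟩ := hχ
  rw [inner_one ρ, inner_one ρ, inner_one ρ] at hlt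
  simp only [Complex.natCast_re] at hlt
  have hlt' : Module.finrank ℂ (Representation.invariants (ρ.comp (H₁ ⊓ H₂).subtype)) <
      Module.finrank ℂ (Representation.invariants (ρ.comp H₁.subtype)) +
      Module.finrank ℂ (Representation.invariants (ρ.comp H₂.subtype)) := by
    exact_mod_cast hlt
  set U := Representation.invariants (ρ.comp H₁.subtype) with hU
  set W := Representation.invariants (ρ.comp H₂.subtype) with hW
  have h1 := Submodule.finrank_sup_add_finrank_inf_eq U W
  have h2 : U ⊔ W ≤ Representation.invariants (ρ.comp (H₁ ⊓ H₂).subtype) := by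
    rw [sup_le_iff]
    refine ⟨fun v hv g => hv ⟨g, g.2.1⟩, fun v hv g => hv ⟨g, g.2.2⟩⟩
  have h3 := Submodule.finrank_mono h2
  have h4 : 0 < Module.finrank ℂ (U ⊓ W : Submodule ℂ (Fin n → ℂ)) := by omega
  obtain ⟨⟨v, hv⟩, hv0⟩ := (Module.finrank_pos_iff_exists_ne_zero).mp h4
  let S : Subgroup G :=
    { carrier := {g | ρ g v = v}
      one_mem' := by simp
      mul_mem' := fun {a b} ha hb => by
        change ρ (a * b) v = v
        rw [map_mul, Module.End.mul_apply, (hb : ρ b v = v), (ha : ρ a v = v)]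
      inv_mem' := fun {a} ha => by
        change ρ a⁻¹ v = v
        have : ρ a⁻¹ (ρ a v) = v := by
          rw [← Module.End.mul_apply, ← map_mul, inv_mul_cancel, map_one]; rfl
        rwa [(ha : ρ a v = v)] at this }
  have hle : H₁ ⊔ H₂ ≤ S := by
    rw [sup_le_iff]
    exact ⟨fun g hg => hv.1 ⟨g, hg⟩, fun g hg => hv.2 ⟨g, hg⟩⟩
  rw [htop] at hle
  exact hχ1 (invariants_top ρ hρ v (fun h => hv0 (Subtype.ext h)) (fun g => hle (Subgroup.mem_top g)))

end Cfsg.Agent.S0192
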