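import Cfsg.Statements.S0194
import Cfsg.Agent.H3_Clifford
import Cfsg.Agent.S0161

set_option autoImplicit false
open scoped ComplexConjugate
open Cfsg

namespace Cfsg.Agent.S0194

/-- Let G have odd order, H be a normal subgroup and θ a non-principal irreducible character of H. Then the function induced from θ is orthogonal to its complex conjugate. -/
theorem result {G : Type*} [Group G] [Fintype G] (hodd : Odd (Nat.card G)) (H : Subgroup G) [H.Normal] (θ : H → ℂ) (hθ : Cfsg.IsIrrCharacter H θ) (hθ1 : θ ≠ fun _ => 1) : Cfsg.classInner (fun g => conj (Cfsg.indFun H θ g)) (Cfsg.indFun H θ) = 0 := by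
  classical
  have hN : H.Normal := inferInstance
  have : Fintype H := Fintype.ofFinite H
  have hconj : (fun g => (starRingEnd ℂ) (Cfsg.indFun H θ g)) =
      Cfsg.indFun H (fun h => (starRingEnd ℂ) (θ h)) := by
    ext g
    simp only [Cfsg.indFun, map_mul, map_sum, map_inv₀, map_natCast]
    congr 1
    refine Finset.sum_congr rfl fun x _ => ?_
    by_cases hx : x⁻¹ * g * x ∈ H
    · rw [Cfsg.Agent.H3.CharInd.ext_mem H _ hx, Cfsg.Agent.H3.CharInd.ext_mem H _ hx]
    · rw [Cfsg.Agent.H3.CharInd.ext_not_mem H _ hx, Cfsg.Agent.H3.CharInd.ext_not_mem H _ hx,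
        map_zero]
  rw [hconj]
  have h1 := Cfsg.Agent.H3.Clifford.ci_ind_ind hN (fun h => (starRingEnd ℂ) (θ h)) θ
  have hN0 : (Nat.card H : ℂ) ≠ 0 := Cfsg.Agent.H3.CharInd.cardH_ne_zero H
  have hθbar := Cfsg.Agent.H3.CharInd.IsIrr.conj hθ
  rw [Finset.sum_eq_zero] at h1
  · exact (mul_eq_zero.mp h1).resolve_left hN0
  · intro x _
    apply Cfsg.Agent.H3.CharIrr.ci_irr_ne hθbar ((Cfsg.Agent.H3.Clifford.cj_isIrr hN x).mpr hθ)
    intro heq
    apply hθ1
    -- x ^ 2 fixes θ
    have h2 : x ^ 2 ∈ Cfsg.Agent.H3.Clifford.inertia hN θ := by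
      rw [Cfsg.Agent.H3.Clifford.mem_inertia, sq, ← Cfsg.Agent.H3.Clifford.cj_cj, ← heq]
      ext n
      rw [Cfsg.Agent.H3.Clifford.cj_apply]
      have h3 := congrFun heq n
      rw [Cfsg.Agent.H3.Clifford.cj_apply] at h3
      rw [← h3]; simp
    have hox : Odd (orderOf x) := hodd.of_dvd_nat (orderOf_dvd_natCard x)
    obtain ⟨m, hm⟩ := hox
    have h5 : x = (x ^ 2) ^ (m + 1) := by
      rw [← pow_mul, show 2 * (m + 1) = orderOf x + 1 by omega, pow_succ, pow_orderOf_eq_one,
        one_mul]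
    have h6 : x ∈ Cfsg.Agent.H3.Clifford.inertia hN θ := by
      rw [h5]; exact Subgroup.pow_mem _ h2 _
    rw [Cfsg.Agent.H3.Clifford.mem_inertia] at h6
    rw [h6] at heq
    exact Cfsg.Agent.S0161.result (hodd.of_dvd_nat (Subgroup.card_subgroup_dvd_card H)) ⟨θ, hθ⟩
      (fun g => Complex.conj_eq_iff_im.mp (congrFun heq g))

end Cfsg.Agent.S0194
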