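import Cfsg.Statements.S0196
import Mathlib
import Cfsg.Agent.H3_Grp

set_option autoImplicit false
open Cfsg

namespace Cfsg.Agent.S0196

/-- Let A be a subgroup of a finite group G that equals the centralizer of each of its non-identity elements, and let N be its normalizer. Then the index of A in N divides |A| − 1 (N/A permutes the non-identity elements of A in orbits of full length). -/
theorem result {G : Type*} [Group G] [Finite G] (A : Subgroup G) (hA : ∀ x ∈ A, x ≠ 1 → Subgroup.centralizer ({x} : Set G) = A) : (A.subgroupOf (Subgroup.normalizer (A : Set G))).index ∣ Nat.card A - 1 := by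
  classical
  have := Fintype.ofFinite G
  have hAN : A ≤ Subgroup.normalizer (A : Set G) := Subgroup.le_normalizer
  let X := {x : G // x ∈ A ∧ x ≠ 1}
  have hmem : ∀ (n : Subgroup.normalizer (A : Set G)) (x : G), x ∈ A ∧ x ≠ 1 →
      ((n : G) * x * (n : G)⁻¹ ∈ A ∧ (n : G) * x * (n : G)⁻¹ ≠ 1) := fun n x hx => by
    refine ⟨(Subgroup.mem_normalizer_iff.mp n.2 x).mp hx.1, fun h => hx.2 ?_⟩
    have : x = (n : G)⁻¹ * ((n : G) * x * (n : G)⁻¹) * n := by group
    rw [this, h]; group
  let act : MulAction (Subgroup.normalizer (A : Set G)) X :=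
    { smul := fun n x => ⟨(n : G) * x.1 * (n : G)⁻¹, hmem n x.1 x.2⟩
      one_smul := fun x => Subtype.ext (by
        change ((1 : Subgroup.normalizer (A : Set G)) : G) * x.1 * _ = x.1
        simp)
      mul_smul := fun a b x => Subtype.ext (by
        change ((a * b : Subgroup.normalizer (A : Set G)) : G) * x.1 * _ =
          (a : G) * ((b : G) * x.1 * (b : G)⁻¹) * (a : G)⁻¹
        push_cast
        group) }
  have hstab : ∀ x : X, MulAction.stabilizer (Subgroup.normalizer (A : Set G)) x =
      A.subgroupOf (Subgroup.normalizer (A : Set G)) := by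
    intro x
    ext n
    rw [MulAction.mem_stabilizer_iff, Subgroup.mem_subgroupOf]
    have h1 := hA x.1 x.2.1 x.2.2
    constructor
    · intro h
      have h2 : (n : G) * x.1 * (n : G)⁻¹ = x.1 := congrArg Subtype.val h
      apply h1.le
      rw [Subgroup.mem_centralizer_iff]
      intro y hy
      rw [Set.mem_singleton_iff] at hy
      subst hy
      calc x.1 * (n : G) = ((n : G) * x.1 * (n : G)⁻¹) * n := by rw [h2]
        _ = _ := by group
    · intro h
      replace h := h1.ge h
      rw [Subgroup.mem_centralizer_iff] at h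
      apply Subtype.ext
      change (n : G) * x.1 * (n : G)⁻¹ = x.1
      rw [← h x.1 rfl]; group
  have hcard : Nat.card X = Nat.card A - 1 := by
    have e : X ≃ {x : A // x ≠ 1} :=
      { toFun := fun x => ⟨⟨x.1, x.2.1⟩, fun h => x.2.2 (congrArg Subtype.val h)⟩
        invFun := fun x => ⟨x.1.1, x.1.2, fun h => x.2 (Subtype.ext h)⟩
        left_inv := fun x => rfl
        right_inv := fun x => rfl }
    rw [Nat.card_congr e, Nat.card_eq_fintype_card, Nat.card_eq_fintype_card,
      Fintype.card_subtype_compl, Fintype.card_subtype_eq]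
  rw [← hcard]
  apply Cfsg.Agent.H3.Grp.dvd_card_of_stabilizer (N := Subgroup.normalizer (A : Set G))
  intro x
  rw [hstab x]

end Cfsg.Agent.S0196
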