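import Cfsg.Statements.S0218
import Mathlib

set_option autoImplicit false
open Cfsg

namespace Cfsg.Agent.S0218

/-- The generalized quaternion group of order 2^(n+3) contains exactly one element of order 2. -/
theorem result (n : ℕ) : Nat.card {x : QuaternionGroup (2 ^ (n + 1)) // orderOf x = 2} = 1 := by
  have hn : NeZero (2 ^ (n + 1)) := ⟨by positivity⟩
  have key : ∀ x : QuaternionGroup (2 ^ (n + 1)), orderOf x = 2 ↔
      x = QuaternionGroup.a ((2 ^ (n + 1) : ℕ) : ZMod (2 * 2 ^ (n + 1))) := by
    intro x
    have hlt : 2 ^ (n + 1) < 2 * 2 ^ (n + 1) := by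
      have : 0 < 2 ^ (n + 1) := by positivity
      omega
    constructor
    · intro h
      rcases x with i | i
      · rw [QuaternionGroup.orderOf_a] at h
        have hi : i.val < 2 * 2 ^ (n + 1) := ZMod.val_lt i
        have hg : Nat.gcd (2 * 2 ^ (n + 1)) i.val ∣ 2 * 2 ^ (n + 1) := Nat.gcd_dvd_left _ _
        have hg2 : Nat.gcd (2 * 2 ^ (n + 1)) i.val ∣ i.val := Nat.gcd_dvd_right _ _
        have hg3 : Nat.gcd (2 * 2 ^ (n + 1)) i.val = 2 ^ (n + 1) := by
          have h1 := Nat.div_mul_cancel hg
          rw [h] at h1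
          exact Nat.eq_of_mul_eq_mul_left (by norm_num) h1
        rw [hg3] at hg2
        obtain ⟨c, hc⟩ := hg2
        have hc1 : c = 1 := by
          have hc2 : c < 2 := by
            rw [hc, mul_comm] at hi
            exact Nat.lt_of_mul_lt_mul_right hi
          interval_cases c
          · exfalso
            rw [hc, mul_zero, Nat.gcd_zero_right] at hg3
            omega
          · rfl
        congr 1
        rw [hc1, mul_one] at hc
        rw [← ZMod.natCast_zmod_val i]
        exact congrArg _ hc
      · rw [QuaternionGroup.orderOf_xa] at h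
        norm_num at h
    · rintro rfl
      rw [QuaternionGroup.orderOf_a, ZMod.val_natCast, Nat.mod_eq_of_lt hlt,
        Nat.gcd_eq_right (Dvd.intro_left 2 rfl)]
      exact Nat.mul_div_cancel _ (by positivity)
  rw [Nat.card_eq_one_iff_unique]
  refine ⟨⟨fun x y => Subtype.ext ?_⟩, ⟨⟨_, (key _).mpr rfl⟩⟩⟩
  rw [(key _).mp x.2, (key _).mp y.2]

end Cfsg.Agent.S0218
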