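import Cfsg.Statements.S0201
import Mathlib
import Cfsg.Agent.H4_ZCor
import Cfsg.Agent.S0218

set_option autoImplicit false
open Cfsg

namespace Cfsg.Agent.S0201

/-- Brauer–Suzuki Theorem: if a Sylow 2-subgroup of a finite group is generalized quaternion (of order at least 8) and the group has no nontrivial normal subgroup of odd order, then its centre has order 2. -/
theorem result {G : Type*} [Group G] [Finite G] (S : Sylow 2 G) (n : ℕ) (e : (S : Subgroup G) ≃* QuaternionGroup (2 ^ (n + 1))) (hO : ∀ N : Subgroup G, N.Normal → Odd (Nat.card N) → N = ⊥) : Nat.card (Subgroup.center G) = 2 := by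
  have hf : Fact (Nat.Prime 2) := ⟨Nat.prime_two⟩
  have h1 := Cfsg.Agent.S0218.result n
  rw [Nat.card_eq_one_iff_unique] at h1
  obtain ⟨hsub, ⟨w⟩⟩ := h1
  have hz : orderOf ((e.symm w.1 : (S : Subgroup G)) : G) = 2 := by
    rw [Subgroup.orderOf_coe, MulEquiv.orderOf_eq]; exact w.2
  refine Cfsg.Agent.H4.ZCor.center_of_quaternion S (N := 2 ^ (n + 1)) ?_ e hz (e.symm w.1).2 ?_ hO
  · rw [pow_succ]
    have : 0 < 2 ^ n := by positivity
    omega
  · intro t ht ht2
    have h3 : orderOf (e ⟨t, ht⟩) = 2 := by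
      rw [MulEquiv.orderOf_eq, ← Subgroup.orderOf_coe]; exact ht2
    have h4 := Subsingleton.elim (⟨e ⟨t, ht⟩, h3⟩ : {x : QuaternionGroup (2 ^ (n + 1)) // orderOf x = 2}) w
    have h5 : e ⟨t, ht⟩ = w.1 := congrArg Subtype.val h4
    rw [← h5, MulEquiv.symm_apply_apply]

end Cfsg.Agent.S0201
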