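import Cfsg.Statements.S0203
import Mathlib
import Cfsg.Agent.H4_Klein

set_option autoImplicit false
open Cfsg

namespace Cfsg.Agent.S0203

open Cfsg.Agent.H4.Klein

/-- If a Sylow 2-subgroup P of a finite group G is a Klein four-group, then G has three classes of involutions if and only if P has a normal complement in G. -/
theorem result {G : Type*} [Group G] [Finite G] (P : Sylow 2 G) (hP : IsKleinFour (P : Subgroup G)) : Nat.card {C : ConjClasses G // ∃ t : G, orderOf t = 2 ∧ ConjClasses.mk t = C} = 3 ↔ ∃ N : Subgroup G, N.Normal ∧ Subgroup.IsComplement' N (P : Subgroup G) := by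
  haveI := hP
  constructor
  · intro h3
    rcases dichotomy P hP with h | h
    · rw [card_of_all P hP h] at h3; omega
    · have hle : Subgroup.normalizer ((P : Subgroup G) : Set G) ≤ Subgroup.centralizer ((P : Subgroup G) : Set G) := by
        intro n hn
        rw [Subgroup.mem_centralizer_iff]
        intro x hx
        have h1 : n * x * n⁻¹ ∈ (P : Subgroup G) := (Subgroup.mem_normalizer_iff.mp hn x).mp hx
        have h2 := h x hx _ h1 (isConj_iff.mpr ⟨n, rfl⟩)
        exact (mul_inv_eq_iff_eq_mul.mp h2.symm).symm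
      exact ⟨_, inferInstance, MonoidHom.ker_transferSylow_isComplement' P hle⟩
  · rintro ⟨N, hN, hc⟩
    apply card_of_none P hP
    intro x hx y hy hxy
    obtain ⟨g, hg⟩ := isConj_iff.mp hxy
    -- g = n * p
    have hcomm : ∀ a ∈ (P : Subgroup G), ∀ b ∈ (P : Subgroup G), a * b = b * a := by
      intro a ha b hb
      exact congrArg Subtype.val (IsKleinFour.isMulCommutative (G := (P : Subgroup G)) |>.1.1 ⟨a, ha⟩ ⟨b, hb⟩)
    obtain ⟨⟨⟨n, hn⟩, ⟨p, hp⟩⟩, hnp⟩ := hc.2 g
    simp only at hnp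
    have h1 : y = n * x * n⁻¹ := by
      rw [← hg, ← hnp]
      calc n * p * x * (n * p)⁻¹ = n * (p * x) * p⁻¹ * n⁻¹ := by group
        _ = n * (x * p) * p⁻¹ * n⁻¹ := by rw [hcomm p hp x hx]
        _ = n * x * n⁻¹ := by group
    have h2 : y * x⁻¹ ∈ N := by
      rw [h1]
      have : n * x * n⁻¹ * x⁻¹ = n * (x * n⁻¹ * x⁻¹) := by group
      rw [this]
      exact N.mul_mem hn (hN.conj_mem _ (N.inv_mem hn) x)
    have h3 : y * x⁻¹ ∈ N ⊓ (P : Subgroup G) := ⟨h2, (P : Subgroup G).mul_mem hy ((P : Subgroup G).inv_mem hx)⟩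
    rw [hc.disjoint.eq_bot, Subgroup.mem_bot] at h3
    exact (mul_inv_eq_one.mp h3).symm

end Cfsg.Agent.S0203
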