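import Cfsg.Statements.S0212
import Mathlib
import Cfsg.Agent.H4_Count

set_option autoImplicit false
open Cfsg

namespace Cfsg.Agent.S0212

open Cfsg.Agent.H4.Inv Cfsg.Agent.H4.Count

/-- The Brauer–Fowler bound: if G is a finite simple group and t an involution of G whose centralizer has order n, then |G| ≤ (2n^2)!. -/
theorem result {G : Type*} [Group G] [Finite G] [IsSimpleGroup G] (t : G) (ht : orderOf t = 2) : Nat.card G ≤ Nat.factorial (2 * (Nat.card (Subgroup.centralizer ({t} : Set G))) ^ 2) := by
  classical
  set n := Nat.card (Subgroup.centralizer ({t} : Set G)) with hn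
  have hn0 : 0 < n := Nat.card_pos
  by_cases hcen : Subgroup.center G = ⊤
  · have h1 : Subgroup.centralizer ({t} : Set G) = ⊤ := by
      rw [eq_top_iff]
      intro g _
      rw [Subgroup.mem_centralizer_singleton_iff]
      have : t ∈ Subgroup.center G := by rw [hcen]; trivial
      exact (Subgroup.mem_center_iff.mp this g)
    have h2 : n = Nat.card G := by rw [hn, h1, Subgroup.card_top]
    rw [← h2]
    calc n ≤ 2 * n ^ 2 := by nlinarith
      _ ≤ _ := Nat.self_le_factorial _
  · have hcb : Subgroup.center G = ⊥ := by
      rcases (inferInstance : (Subgroup.center G).Normal).eq_bot_or_eq_top with h | h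
      · exact h
      · exact absurd h hcen
    haveI : Fintype G := Fintype.ofFinite G
    obtain ⟨x, hx1, hx⟩ := (Set.toFinite {x : G | x ≠ 1}).exists_maximalFor
      (fun x => Nat.card (Subgroup.centralizer ({x} : Set G))) _ ⟨t, ne_one ht⟩
    have hxmax : ∀ y : G, y ≠ 1 → Nat.card (Subgroup.centralizer ({y} : Set G)) ≤
        Nat.card (Subgroup.centralizer ({x} : Set G)) := by
      intro y hy
      rcases le_total (Nat.card (Subgroup.centralizer ({x} : Set G))) (Nat.card (Subgroup.centralizer ({y} : Set G))) with h | h
      · exact hx (j := y) hy h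
      · exact h
    have hx1' : x ≠ 1 := hx1
    set c := Nat.card (Subgroup.centralizer ({x} : Set G)) with hc
    have hcount := count (G := G) c c (fun y hy => hxmax y (ne_one hy))
      (fun y t hy _ _ => hxmax y (by rintro rfl; exact hy (one_mul 1)))
    -- |I| ≥ N / n
    have hcl := class_card t
    have hI : Nat.card {x : G // ∃ g, g * t * g⁻¹ = x} ≤ Nat.card (Invl G) := by
      refine Nat.card_le_card_of_injective (fun x => ⟨x.1, by
        obtain ⟨g, hg⟩ := x.2
        rw [← hg, orderOf_conj]; exact ht⟩) ?_
      intro a b hab
      exact Subtype.ext (by simpa using congrArg Subtype.val hab)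
    rw [← hn] at hcl
    set I := Nat.card (Invl G) with hIdef
    set N := Nat.card G with hN
    have hNpos : 0 < N := Nat.card_pos
    have hNI : N ≤ n * I := by rw [hcl]; exact Nat.mul_le_mul_left _ hI
    have hIN : 1 + I ≤ N := by
      have : I < N := by
        rw [hIdef, hN]
        rw [Nat.card_eq_fintype_card, Nat.card_eq_fintype_card]
        apply Fintype.card_lt_of_injective_not_surjective (fun z : Invl G => z.1) Subtype.val_injective
        intro h
        obtain ⟨⟨z, hz⟩, hz1⟩ := h 1
        simp only at hz1
        rw [hz1] at hz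
        exact one_not_inv hz
      omega
    obtain ⟨r, hr⟩ : ∃ r, N = 1 + I + r := ⟨N - 1 - I, by omega⟩
    have hr' : N - 1 - I = r := by omega
    rw [hr'] at hcount
    have hIpos : 0 < I := Nat.pos_of_ne_zero (by
      rintro h
      rw [h] at hNI; omega)
    have hkey : N < n ^ 2 * c := by
      by_contra hcon
      push Not at hcon
      have h1 : I ^ 2 + I ≤ (N - 1) * c := by
        have : N - 1 = I + r := by omega
        rw [this]
        nlinarith
      have hc0 : 0 < c := Nat.card_pos
      have h2 : I ^ 2 < N * c := by
        have : (N - 1) * c ≤ N * c := Nat.mul_le_mul_right _ (Nat.sub_le _ _)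
        nlinarith
      have h3 : N ^ 2 ≤ n ^ 2 * I ^ 2 := by
        calc N ^ 2 ≤ (n * I) ^ 2 := Nat.pow_le_pow_left hNI 2
          _ = n ^ 2 * I ^ 2 := by ring
      have h4 : n ^ 2 * I ^ 2 < n ^ 2 * (N * c) := Nat.mul_lt_mul_of_pos_left h2 (by positivity)
      have h5 : n ^ 2 * (N * c) = N * (n ^ 2 * c) := by ring
      have h6 : N * (n ^ 2 * c) ≤ N * N := Nat.mul_le_mul_left _ hcon
      nlinarith
    -- the index of C(x)
    have hidx := Subgroup.card_mul_index (Subgroup.centralizer ({x} : Set G))
    rw [← hc, ← hN] at hidx
    have hlt : (Subgroup.centralizer ({x} : Set G)).index < n ^ 2 := by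
      by_contra hcon
      push Not at hcon
      have : c * n ^ 2 ≤ c * (Subgroup.centralizer ({x} : Set G)).index := Nat.mul_le_mul_left _ hcon
      rw [hidx] at this
      have h2 : n ^ 2 * c = c * n ^ 2 := mul_comm _ _
      omega
    have hne : Subgroup.centralizer ({x} : Set G) ≠ ⊤ := by
      intro h
      apply hx1'
      have : x ∈ Subgroup.center G := by
        rw [Subgroup.mem_center_iff]
        intro g
        have : g ∈ Subgroup.centralizer ({x} : Set G) := by rw [h]; trivial
        exact Subgroup.mem_centralizer_singleton_iff.mp this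
      rw [hcb, Subgroup.mem_bot] at this
      exact this
    have hker : (MulAction.toPermHom G (G ⧸ Subgroup.centralizer ({x} : Set G))).ker = ⊥ := by
      rw [← Subgroup.normalCore_eq_ker]
      rcases (inferInstance : (Subgroup.normalCore (Subgroup.centralizer ({x} : Set G))).Normal).eq_bot_or_eq_top with h | h
      · exact h
      · exact absurd (top_le_iff.mp (h ▸ Subgroup.normalCore_le _)) hne
    have hinj := (MonoidHom.ker_eq_bot_iff _).mp hker
    have hle := Nat.card_le_card_of_injective _ hinj
    rw [Nat.card_perm] at hle
    refine hle.trans (Nat.factorial_le ?_)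
    change (Subgroup.centralizer ({x} : Set G)).index ≤ _
    nlinarith

end Cfsg.Agent.S0212
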