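import Cfsg.Statements.S0219
import Mathlib

set_option autoImplicit false
open Cfsg

namespace Cfsg.Agent.S0219

theorem index_two {G : Type*} [Group G] [Finite G] (heven : Even (Nat.card G)) (T : Sylow 2 G)
    (hT : IsCyclic (T : Subgroup G)) : ∃ H : Subgroup G, H.index = 2 := by
  have h2 : (Nat.card G).minFac = 2 := (Nat.minFac_eq_two_iff _).mpr heven.two_dvd
  have hcomp := IsCyclic.isComplement' (P := T) h2 hT
  set f := MonoidHom.transferSylow T (hT.normalizer_le_centralizer h2) with hf
  -- the order of `T` is even
  have hTpos : 2 ∣ Nat.card T := by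
    have := Sylow.dvd_card_of_dvd_card T heven.two_dvd
    exact this
  -- `f` is surjective
  have hsurj : Function.Surjective f := by
    rw [← MonoidHom.range_eq_top]
    apply Subgroup.eq_top_of_card_eq
    rw [← Subgroup.index_ker, hcomp.symm.index_eq_card]
  obtain ⟨k, hk⟩ := (IsPGroup.iff_card (p := 2)).mp T.2
  have hk1 : k ≠ 0 := by
    rintro rfl
    rw [pow_zero] at hk
    rw [hk] at hTpos
    norm_num at hTpos
  obtain ⟨K, hK⟩ := Sylow.exists_subgroup_card_pow_prime (G := T) 2 (n := k - 1)
    (by rw [hk]; exact pow_dvd_pow 2 (Nat.sub_le k 1))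
  refine ⟨K.comap f, ?_⟩
  rw [Subgroup.index_comap_of_surjective _ hsurj]
  have h3 := Subgroup.card_mul_index K
  rw [hK, hk] at h3
  obtain ⟨j, rfl⟩ := Nat.exists_eq_succ_of_ne_zero hk1
  simp only [Nat.succ_eq_add_one, Nat.add_sub_cancel, pow_succ] at h3
  exact Nat.eq_of_mul_eq_mul_left (by positivity) h3

/-- If a finite group has even order and a cyclic Sylow 2-subgroup, then it has a subgroup of index 2 (consider the parity of permutations in the regular representation). -/
theorem result {G : Type*} [Group G] [Finite G] (heven : Even (Nat.card G)) (T : Sylow 2 G) (hT : IsCyclic (T : Subgroup G)) : ∃ H : Subgroup G, H.index = 2 := by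
  exact index_two heven T hT

end Cfsg.Agent.S0219
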