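import Cfsg.Statements.S0220
import Mathlib
import Cfsg.Agent.S0219
import Cfsg.Agent.H4_Util

set_option autoImplicit false
open Cfsg

namespace Cfsg.Agent.S0220

open Cfsg.Agent.H4.Util

theorem main {G : Type*} [Group G] [Finite G] (x : G) (hx : orderOf x = 2) (C : Subgroup G)
    (hC : C = Subgroup.centralizer ({x} : Set G)) (S : Sylow 2 C)
    (hS : IsCyclic (S : Subgroup C)) : ∃ H : Subgroup G, H.index = 2 := by
  -- x as an element of C
  have hxC : x ∈ C := by rw [hC, Subgroup.mem_centralizer_singleton_iff]
  let S' : Subgroup G := (S : Subgroup C).map C.subtype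
  have hS'2 : IsPGroup 2 S' := S.2.map _
  have hS'C : S' ≤ C := by
    rintro _ ⟨y, hy, rfl⟩; exact y.2
  have hScyc : IsCyclic S' := by
    have e := Subgroup.equivMapOfInjective (S : Subgroup C) C.subtype C.subtype_injective
    exact (MulEquiv.isCyclic e).mp hS
  -- x ∈ S'
  have hxS : x ∈ S' := by
    have hxS2 : (⟨x, hxC⟩ : C) ∈ (S : Subgroup C) := by
      apply mem_sylow_of_central S (k := 1)
      · rintro ⟨c, hc⟩
        rw [hC, Subgroup.mem_centralizer_singleton_iff] at hc
        exact Subtype.ext hc
      · rw [← Subgroup.orderOf_coe, pow_one]; exact hx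
    exact ⟨⟨x, hxC⟩, hxS2, rfl⟩
  -- a Sylow subgroup of G containing S'
  obtain ⟨T, hT⟩ := hS'2.exists_le_sylow
  -- S' = T
  have hST : S' = T := by
    by_contra hne
    have hlt : S' < T := lt_of_le_of_ne hT hne
    obtain ⟨t, htT, htn, ht2⟩ := exists_normalizer_gt T.2 hlt
    have htC : t ∈ C := by
      rw [hC, Subgroup.mem_centralizer_singleton_iff]
      have h1 : t * x * t⁻¹ ∈ S' := (Subgroup.mem_normalizer_iff.mp ht2 x).mp hxS
      have h2 : orderOf (t * x * t⁻¹) = 2 := by
        have := orderOf_injective (MulAut.conj t).toMonoidHom (MulAut.conj t).injective x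
        simpa [hx] using this
      have e1 : orderOf (⟨t * x * t⁻¹, h1⟩ : S') = 2 := by rw [← Subgroup.orderOf_coe]; exact h2
      have e2 : orderOf (⟨x, hxS⟩ : S') = 2 := by rw [← Subgroup.orderOf_coe]; exact hx
      have h3 : t * x * t⁻¹ = x := congrArg Subtype.val (cyclic_unique_involution hScyc e1 e2)
      exact mul_inv_eq_iff_eq_mul.mp h3
    -- the group S' ⊔ ⟨t⟩ in C is a 2-group, so lies in S
    let R : Subgroup G := S' ⊔ Subgroup.zpowers (t : G)
    have hRT : R ≤ T := sup_le hT (by rw [Subgroup.zpowers_le]; exact htT)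
    have hR2 : IsPGroup 2 (R.subgroupOf C) :=
      (T.2.to_le hRT).comap_of_injective C.subtype C.subtype_injective
    have hSR : (S : Subgroup C) ≤ R.subgroupOf C := by
      intro y hy
      rw [Subgroup.mem_subgroupOf]
      exact Subgroup.mem_sup_left ⟨y, hy, rfl⟩
    have heq := S.3 hR2 hSR
    apply htn
    have htS : (⟨t, htC⟩ : C) ∈ (S : Subgroup C) := by
      rw [← heq, Subgroup.mem_subgroupOf]
      exact Subgroup.mem_sup_right (Subgroup.mem_zpowers _)
    exact ⟨⟨t, htC⟩, htS, rfl⟩
  have hTc : IsCyclic (T : Subgroup G) := by rw [← hST]; exact hScyc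
  exact Cfsg.Agent.S0219.index_two (by
    have := orderOf_dvd_natCard x
    rw [hx] at this
    exact (even_iff_two_dvd).mpr this) T hTc

/-- If x is an involution of a finite group G and a Sylow 2-subgroup of the centralizer of x is cyclic, then G has a subgroup of index 2; in particular G is not simple unless it has order 2. -/
theorem result {G : Type*} [Group G] [Finite G] (x : G) (hx : orderOf x = 2) (S : Sylow 2 ↥(Subgroup.centralizer ({x} : Set G))) (hS : IsCyclic (S : Subgroup ↥(Subgroup.centralizer ({x} : Set G)))) : ∃ H : Subgroup G, H.index = 2 := by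
  exact main x hx _ rfl S hS

end Cfsg.Agent.S0220
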