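import Cfsg.Statements.S1337
import Cfsg.Agent.H11_Conn2
import Cfsg.Agent.S0126
import Cfsg.Agent.S0129

set_option autoImplicit false
open Cfsg

namespace Cfsg.Agent.S1337

open Subgroup Cfsg.Agent.H11.Conn Cfsg.Agent.H12.Narrow in
theorem exists_U {P : Type*} [Group P] [Finite P] (p : ℕ) [Fact p.Prime] (hP : IsPGroup p P)
    (hrk : ¬ Cfsg.PRankLE p 2 P) :
    ∃ U : Subgroup P, U.Normal ∧ Cfsg.IsElementaryAbelian p U ∧ Nat.card ↥U = p ^ 2 := by
  by_cases hp : p = 2
  · subst hp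
    exact exists_normal_four hP hrk
  · refine Cfsg.Agent.S0126.result hp hP ?_
    intro hcyc
    apply hrk
    intro A _ hAe
    have h1 : Nat.card A ≤ p := by
      refine Cfsg.Agent.H2.Rank2.card_le_of_cyclic (Fact.out : p.Prime).pos ?_ hAe
      exact Subgroup.isCyclic A
    have := (Fact.out : p.Prime).one_lt
    nlinarith

open Subgroup Cfsg.Agent.H11.Conn Cfsg.Agent.H12.Narrow in
theorem big_fix {P : Type*} [Group P] [Finite P] {p : ℕ} [hpf : Fact p.Prime] (hP : IsPGroup p P)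
    {U : Subgroup P} (hU : U.Normal) (hUe : Cfsg.IsElementaryAbelian p U) (hUc : Nat.card ↥U = p ^ 2)
    {A : Subgroup P} (hAe : Cfsg.IsElementaryAbelian p A) (hAc : p ^ 3 ≤ Nat.card A) :
    p ^ 2 ≤ Nat.card (centralizer (U : Set P) ⊓ A : Subgroup P) := by
  have hidx := Cfsg.Agent.S0129.index_centralizer_le hP 2 U hU hUc
  have h6 : (centralizer (U : Set P)).relIndex A ≤ p := by
    refine (Nat.le_of_dvd (Nat.pos_of_ne_zero index_ne_zero_of_finite)
      (relIndex_dvd_index_of_normal _ _)).trans (hidx.trans ?_)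
    norm_num
  have h7 := Cfsg.Agent.H2.Card.card_inf_mul_relIndex (centralizer (U : Set P)) A
  rw [← h7] at hAc
  have hp := hpf.out.pos
  have h8 : p ^ 2 * p ≤ Nat.card (centralizer (U : Set P) ⊓ A : Subgroup P) * p := by
    calc p ^ 2 * p = p ^ 3 := by ring
      _ ≤ _ := hAc
      _ ≤ _ := Nat.mul_le_mul_left _ h6
  exact Nat.le_of_mul_le_mul_right h8 hp

/-- Let P be a finite p-group of p-rank greater than 2. Then P has a normal elementary abelian subgroup U of order p², and for every elementary abelian X ≤ P with |X| ≥ p²: X is joined to U by a chain of pairwise commuting elementary abelian subgroups of order ≥ p² if and only if C_P(X) has p-rank greater than 2. -/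
theorem result {P : Type*} [Group P] [Finite P] (p : ℕ) [Fact p.Prime] (hP : IsPGroup p P) (hrk : ¬ Cfsg.PRankLE p 2 P) : ∃ U : Subgroup P, U.Normal ∧ Cfsg.IsElementaryAbelian p U ∧ Nat.card ↥U = p ^ 2 ∧ ∀ X : Subgroup P, Cfsg.IsElementaryAbelian p X → p ^ 2 ≤ Nat.card ↥X → (Relation.ReflTransGen (fun A B : Subgroup P => Cfsg.IsElementaryAbelian p A ∧ p ^ 2 ≤ Nat.card ↥A ∧ Cfsg.IsElementaryAbelian p B ∧ p ^ 2 ≤ Nat.card ↥B ∧ ∀ a ∈ A, ∀ b ∈ B, a * b = b * a) X U ↔ ¬ Cfsg.PRankLE p 2 ↥(Subgroup.centralizer (X : Set P))) := by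
  classical
  have hpp := (Fact.out : p.Prime)
  obtain ⟨U, hU, hUe, hUc⟩ := exists_U p hP hrk
  refine ⟨U, hU, hUe, hUc, fun X hX hXc => ?_⟩
  have hX' : X ≤ Subgroup.centralizer (X : Set P) := by
    intro x hx
    rw [Subgroup.mem_centralizer_iff]
    intro y hy
    exact Cfsg.Agent.H11.Conn.ea_comm' hX hy hx
  constructor
  · intro hchain hle
    -- `X` is isolated
    have hiso : ∀ Y : Subgroup P, Cfsg.IsElementaryAbelian p Y → p ^ 2 ≤ Nat.card Y →
        (∀ a ∈ X, ∀ b ∈ Y, a * b = b * a) → Y = X := by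
      intro Y hY hYc hcom
      have h1 : Y ≤ Subgroup.centralizer (X : Set P) := by
        intro y hy
        rw [Subgroup.mem_centralizer_iff]
        intro x hx
        exact hcom x hx y hy
      have h2 := Cfsg.Agent.H12.Narrow.ea_sup h1 hY hX
      have h3 := Cfsg.Agent.H12.SCN.pRankLE_iff.mp hle (Y ⊔ X) (sup_le h1 hX') h2
      have h4 : X = Y ⊔ X := Subgroup.eq_of_le_of_card_ge le_sup_right (h3.trans hXc)
      have h5 : Y = Y ⊔ X := Subgroup.eq_of_le_of_card_ge le_sup_left (h3.trans hYc)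
      exact h5.trans h4.symm
    have hXU : X = U := by
      have : ∀ Y, Relation.ReflTransGen (fun A B : Subgroup P => Cfsg.IsElementaryAbelian p A ∧
          p ^ 2 ≤ Nat.card ↥A ∧ Cfsg.IsElementaryAbelian p B ∧ p ^ 2 ≤ Nat.card ↥B ∧
            ∀ a ∈ A, ∀ b ∈ B, a * b = b * a) X Y → Y = X := by
        intro Y h
        induction h with
        | refl => rfl
        | tail _ h2 ih =>
          subst ih
          exact hiso _ h2.2.2.1 h2.2.2.2.1 h2.2.2.2.2
      exact (this U hchain).symm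
    subst hXU
    -- the centralizer of `U` has large rank
    unfold PRankLE at hrk
    push Not at hrk
    obtain ⟨A, hAc, hA3, hcard⟩ := hrk
    have hAe : IsElementaryAbelian p A := ⟨hAc, hA3⟩
    have h3 := big_fix hP hU hUe hUc hAe (Cfsg.Agent.H11.Conn.card_of_lt (hP.to_subgroup A) hcard)
    have h4 := hiso _ (Cfsg.Agent.H11.Conn.ea_mono hAe
      (inf_le_right : Subgroup.centralizer (X : Set P) ⊓ A ≤ A)) h3 (fun a ha b hb =>
        Subgroup.mem_centralizer_iff.mp hb.1 a ha)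
    have h5 : X ≤ A := h4 ▸ (inf_le_right : Subgroup.centralizer (X : Set P) ⊓ A ≤ A)
    have h6 : A ≤ Subgroup.centralizer (X : Set P) := by
      intro a ha
      rw [Subgroup.mem_centralizer_iff]
      intro x hx
      exact Cfsg.Agent.H11.Conn.ea_comm' hAe (h5 hx) ha
    have h7 := Cfsg.Agent.H12.SCN.pRankLE_iff.mp hle A h6 hAe
    omega
  · intro hle
    obtain ⟨Y, hYC, hYe, hYc⟩ := Cfsg.Agent.H12.SCN.exists_of_not_pRankLE hle
    have hYc3 := Cfsg.Agent.H11.Conn.card_of_lt (hP.to_subgroup Y) hYc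
    have h3 := big_fix hP hU hUe hUc hYe hYc3
    have hFe := Cfsg.Agent.H11.Conn.ea_mono hYe
      (inf_le_right : Subgroup.centralizer (U : Set P) ⊓ Y ≤ Y)
    refine Relation.ReflTransGen.head (b := Y) ⟨hX, hXc, hYe, hYc.le, ?_⟩
      (Relation.ReflTransGen.head (b := Subgroup.centralizer (U : Set P) ⊓ Y)
        ⟨hYe, hYc.le, hFe, h3, ?_⟩ (Relation.ReflTransGen.single ⟨hFe, h3, hUe, hUc.ge, ?_⟩))
    · intro a ha b hb
      exact Subgroup.mem_centralizer_iff.mp (hYC hb) a ha
    · intro a ha b hb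
      exact Cfsg.Agent.H11.Conn.ea_comm' hYe ha hb.2
    · intro a ha b hb
      exact (Subgroup.mem_centralizer_iff.mp ha.1 b hb).symm

end Cfsg.Agent.S1337
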