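import Cfsg.Statements.S0221
import Mathlib
import Cfsg.Agent.S1337
import Cfsg.Agent.H19_Transfer

set_option autoImplicit false
open Cfsg

namespace Cfsg.Agent.S0221

open Subgroup Cfsg.Agent.H11.Conn Cfsg.Agent.H12.Narrow in
theorem keyP {P : Type*} [Group P] [Finite P] (hP : IsPGroup 2 P) {A : Subgroup P}
    (hAe : Cfsg.IsElementaryAbelian 2 A) (hAc : 2 ^ 3 ≤ Nat.card A) :
    ∃ M : Subgroup P, M.index ≤ 2 ∧ ∀ y ∈ M, y ^ 2 = 1 → ∃ F : Subgroup P, F ≤ centralizer ({y} : Set P) ∧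
      Cfsg.IsElementaryAbelian 2 F ∧ Nat.card F = 8 := by
  haveI : Fact (Nat.Prime 2) := ⟨Nat.prime_two⟩
  have hrk : ¬ Cfsg.PRankLE 2 2 P := by
    intro h
    have h1 := h A hAe.1 hAe.2
    omega
  obtain ⟨U, hU, hUe, hUc⟩ := exists_normal_four hP hrk
  have hidx := Cfsg.Agent.S0129.index_centralizer_le hP 2 U hU hUc
  have hbig := Cfsg.Agent.S1337.big_fix hP hU hUe hUc hAe hAc
  obtain ⟨a, haM, ha2, haU⟩ : ∃ a ∈ centralizer (U : Set P), a ^ 2 = 1 ∧ a ∉ U := by
    by_cases hW : centralizer (U : Set P) ⊓ A ≤ U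
    · have h1 : centralizer (U : Set P) ⊓ A = U := by
        apply Subgroup.eq_of_le_of_card_ge hW
        rw [hUc]; exact hbig
      have hUA : U ≤ A := by rw [← h1]; exact inf_le_right
      have h2 : ¬ A ≤ U := by
        intro h
        have := Subgroup.card_le_of_le h
        rw [hUc] at this
        omega
      obtain ⟨a, haA, haU⟩ := SetLike.not_le_iff_exists.mp h2
      refine ⟨a, ?_, hAe.2 a haA, haU⟩
      rw [mem_centralizer_iff]
      intro u hu
      exact ea_comm' hAe (hUA hu) haA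
    · obtain ⟨a, haA, haU⟩ := SetLike.not_le_iff_exists.mp hW
      exact ⟨a, haA.1, hAe.2 a haA.2, haU⟩
  have hadj : ∀ b ∈ centralizer (U : Set P), b ^ 2 = 1 → b ∉ U →
      Cfsg.IsElementaryAbelian 2 (U ⊔ zpowers b) ∧ Nat.card (U ⊔ zpowers b : Subgroup P) = 8 := by
    intro b hb hb2 hbU
    have hcm : ∀ u ∈ U, u * b = b * u := fun u hu => mem_centralizer_iff.mp hb u hu
    refine ⟨ea_adj hUe hb2 hcm, ?_⟩
    rw [card_adj hb2 hcm hbU, hUc]; norm_num
  refine ⟨centralizer (U : Set P), by simpa using hidx, ?_⟩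
  intro y hy hy2
  have hle : ∀ F : Subgroup P, Cfsg.IsElementaryAbelian 2 F → y ∈ F → F ≤ centralizer ({y} : Set P) := by
    intro F hF hyF f hf
    rw [mem_centralizer_singleton_iff]
    exact ea_comm' hF hf hyF
  by_cases hyU : y ∈ U
  · obtain ⟨h1, h2⟩ := hadj a haM ha2 haU
    exact ⟨_, hle _ h1 (mem_sup_left hyU), h1, h2⟩
  · obtain ⟨h1, h2⟩ := hadj y hy hy2 hyU
    exact ⟨_, hle _ h1 (mem_sup_right (mem_zpowers y)), h1, h2⟩

/-- Let G be a finite group with no subgroup of index 2 whose 2-rank is at least 3 (it contains an elementary abelian subgroup of order 8). Then the centralizer of every involution of G also contains an elementary abelian subgroup of order 8. -/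
theorem result {G : Type*} [Group G] [Finite G] (hno : ∀ H : Subgroup G, H.index ≠ 2) (hrank : ∃ E : Subgroup G, Nat.card E = 8 ∧ ∀ e ∈ E, e ^ 2 = 1) (x : G) (hx : orderOf x = 2) : ∃ E : Subgroup G, E ≤ Subgroup.centralizer ({x} : Set G) ∧ Nat.card E = 8 ∧ ∀ e ∈ E, e ^ 2 = 1 := by
  classical
  haveI : Fact (Nat.Prime 2) := ⟨Nat.prime_two⟩
  obtain ⟨E, hE8, hE2⟩ := hrank
  have hEe : Cfsg.IsElementaryAbelian 2 E := by
    refine ⟨⟨⟨fun a b => Subtype.ext ?_⟩⟩, hE2⟩
    have h1 := hE2 _ (mul_mem a.2 b.2)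
    have h2 := hE2 _ a.2
    have h3 := hE2 _ b.2
    show (a : G) * b = b * a
    rw [pow_two] at h1 h2 h3
    have e1 : (a : G)⁻¹ = a := inv_eq_of_mul_eq_one_left h2
    have e2 : (b : G)⁻¹ = b := inv_eq_of_mul_eq_one_left h3
    have e3 : ((a : G) * b)⁻¹ = a * b := inv_eq_of_mul_eq_one_left h1
    rw [mul_inv_rev, e1, e2] at e3
    exact e3.symm
  have hxp : IsPGroup 2 (Subgroup.zpowers x) := by
    rw [IsPGroup.iff_card]
    exact ⟨1, by rw [Nat.card_zpowers, hx, pow_one]⟩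
  obtain ⟨S, hS⟩ := hxp.exists_le_sylow
  have hxS : x ∈ (S : Subgroup G) := hS (Subgroup.mem_zpowers x)
  obtain ⟨Q, hQ⟩ := (Cfsg.Agent.H11.Conn.ea_pgroup hEe).exists_le_sylow
  obtain ⟨g, hg⟩ := MulAction.exists_smul_eq G Q S
  -- conjugate of E inside S
  obtain ⟨E', hE'S, hE'e, hE'c⟩ : ∃ E' : Subgroup G, E' ≤ S ∧ Cfsg.IsElementaryAbelian 2 E' ∧ Nat.card E' = 8 := by
    refine ⟨E.map (MulAut.conj g).toMonoidHom, ?_, Cfsg.Agent.H11.Conn.ea_map _ hEe, ?_⟩
    · rintro _ ⟨e, he, rfl⟩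
      rw [← hg]
      exact Subgroup.smul_mem_pointwise_smul e (MulAut.conj g) _ (hQ he)
    · rw [Nat.card_congr (E.equivMapOfInjective _ (MulAut.conj g).injective).symm.toEquiv]
      exact hE8
  have hE''e : Cfsg.IsElementaryAbelian 2 (E'.subgroupOf S) := by
    refine ⟨⟨⟨fun a b => Subtype.ext (Subtype.ext ?_)⟩⟩, fun a ha => Subtype.ext (hE'e.2 _ ha)⟩
    exact Cfsg.Agent.H11.Conn.ea_comm' hE'e a.2 b.2
  obtain ⟨M, hMi, hM⟩ := keyP S.isPGroup' hE''e (by
    rw [Nat.card_congr (Subgroup.subgroupOfEquivOfLe hE'S).toEquiv, hE'c]; norm_num)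
  -- transport the conclusion
  have hkey : ∀ y ∈ M.map (S : Subgroup G).subtype, y ^ 2 = 1 → ∃ F : Subgroup G, F ≤ Subgroup.centralizer ({y} : Set G) ∧
      Nat.card F = 8 ∧ ∀ e ∈ F, e ^ 2 = 1 := by
    rintro _ ⟨y, hy, rfl⟩ hy2
    obtain ⟨F, hF1, hF2, hF3⟩ := hM y hy (Subtype.ext hy2)
    refine ⟨F.map (S : Subgroup G).subtype, ?_, ?_, ?_⟩
    · rintro _ ⟨f, hf, rfl⟩
      rw [Subgroup.mem_centralizer_singleton_iff]
      exact congrArg Subtype.val (Subgroup.mem_centralizer_singleton_iff.mp (hF1 hf))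
    · rw [Nat.card_congr (F.equivMapOfInjective _ (Subgroup.subtype_injective _)).symm.toEquiv]
      exact hF3
    · rintro _ ⟨f, hf, rfl⟩
      exact congrArg Subtype.val (hF2.2 f hf)
  have hx2 : x ^ 2 = 1 := by rw [← hx]; exact pow_orderOf_eq_one x
  by_cases hxM : x ∈ M.map (S : Subgroup G).subtype
  · obtain ⟨F, h1, h2, h3⟩ := hkey x hxM hx2
    exact ⟨F, h1, h2, h3⟩
  · have hrel : (M.map (S : Subgroup G).subtype).relIndex (S : Subgroup G) = 2 := by
      have h0 : (M.map (S : Subgroup G).subtype).relIndex (S : Subgroup G) = M.index := by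
        have e1 : (M.map (S : Subgroup G).subtype).subgroupOf (S : Subgroup G) = M := by
          rw [Subgroup.subgroupOf, Subgroup.comap_map_eq_self_of_injective (Subgroup.subtype_injective _)]
        rw [Subgroup.relIndex, e1]
      rw [h0]
      have h1 : M.index ≠ 0 := Subgroup.index_ne_zero_of_finite
      have h2 : M.index ≠ 1 := by
        intro h
        rw [Subgroup.index_eq_one] at h
        exact hxM ⟨⟨x, hxS⟩, by rw [h]; trivial, rfl⟩
      omega
    have hodd : Odd ((S : Subgroup G).index) := by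
      have := S.not_dvd_index
      rwa [← Nat.not_even_iff_odd, even_iff_two_dvd]
    by_cases hcon : ∀ g : G, g⁻¹ * x * g ∈ (S : Subgroup G) → g⁻¹ * x * g ∉ M.map (S : Subgroup G).subtype
    · exfalso
      obtain ⟨K, -, hK, -⟩ := Cfsg.Agent.H19.Transfer.thompson hodd hrel x ⟨1, by rw [hx, pow_one]⟩ hcon (by
        intro g j _
        have h1 : x ^ 2 ^ (j + 1) = 1 := by
          rw [pow_succ', pow_mul, hx2, one_pow]
        rw [h1, mul_one, inv_mul_cancel]
        exact one_mem _)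
      exact hno K hK
    · push Not at hcon
      obtain ⟨g, hgS, hgM⟩ := hcon
      obtain ⟨F, h1, h2, h3⟩ := hkey _ hgM (by
        rw [pow_two]
        calc g⁻¹ * x * g * (g⁻¹ * x * g) = g⁻¹ * (x ^ 2) * g := by rw [pow_two]; group
          _ = 1 := by rw [hx2, mul_one, inv_mul_cancel])
      refine ⟨F.map (MulAut.conj g).toMonoidHom, ?_, ?_, ?_⟩
      · rintro _ ⟨f, hf, rfl⟩
        have h4 := Subgroup.mem_centralizer_singleton_iff.mp (h1 hf)
        rw [Subgroup.mem_centralizer_singleton_iff]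
        show g * f * g⁻¹ * x = x * (g * f * g⁻¹)
        calc g * f * g⁻¹ * x = g * (f * (g⁻¹ * x * g)) * g⁻¹ := by group
          _ = g * ((g⁻¹ * x * g) * f) * g⁻¹ := by rw [h4]
          _ = x * (g * f * g⁻¹) := by group
      · rw [Nat.card_congr (F.equivMapOfInjective _ (MulAut.conj g).injective).symm.toEquiv]
        exact h2
      · rintro _ ⟨f, hf, rfl⟩
        rw [← map_pow, h3 f hf, map_one]

end Cfsg.Agent.S0221
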