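import Cfsg.Statements.S0226
import Mathlib

set_option autoImplicit false
open Cfsg

namespace Cfsg.Agent.S0226

theorem odd_aux {G : Type*} [Group G] [Finite G] (heven : Even (Nat.card G)) :
    Odd (Nat.card {t : G // orderOf t = 2}) := by
  classical
  haveI := Fintype.ofFinite G
  have h1 : Fintype.card G ≡ Fintype.card (Function.fixedPoints (fun x : G => x⁻¹)) [MOD 2] := by
    let f : Function.End G := fun x => x⁻¹
    have hf : f ^ 2 ^ 1 = 1 := by
      rw [pow_one, pow_two]
      funext x
      exact inv_inv x
    exact Equiv.Perm.card_fixedPoints_modEq hf
  have h2 : Fintype.card (Function.fixedPoints (fun x : G => x⁻¹)) =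
      Nat.card {t : G // orderOf t = 2} + 1 := by
    rw [← Nat.card_eq_fintype_card, ← Finite.card_option]
    refine Nat.card_congr (Equiv.symm ⟨fun o => match o with
      | none => ⟨1, by simp [Function.fixedPoints, Function.IsFixedPt]⟩
      | some t => ⟨t.1, by
          simp only [Function.fixedPoints, Function.IsFixedPt, Set.mem_ofPred_eq]
          have := pow_orderOf_eq_one t.1
          rw [t.2, pow_two] at this
          exact inv_eq_of_mul_eq_one_left this⟩,
      fun x => if h : x.1 = 1 then none else some ⟨x.1, orderOf_eq_prime (by
          have := x.2
          simp only [Function.fixedPoints, Function.IsFixedPt, Set.mem_ofPred_eq] at this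
          rw [pow_two]
          nth_rewrite 1 [← this]
          exact inv_mul_cancel _) h⟩, ?_, ?_⟩)
    · rintro (_ | t)
      · simp
      · have : (t.1 : G) ≠ 1 := by
          intro h
          have := t.2
          rw [h, orderOf_one] at this
          norm_num at this
        simp [this]
    · rintro ⟨x, hx⟩
      by_cases h : x = 1
      · subst h; simp
      · simp [h]
  rw [h2, ← Nat.card_eq_fintype_card] at h1
  rw [Nat.even_iff] at heven
  rw [Nat.odd_iff]
  unfold Nat.ModEq at h1
  omega

/-- A finite group of even order has an odd number of involutions. -/
theorem result {G : Type*} [Group G] [Finite G] (heven : Even (Nat.card G)) : Odd (Nat.card {t : G // orderOf t = 2}) := by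
  exact odd_aux heven

end Cfsg.Agent.S0226
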