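import Cfsg.Statements.S0228
import Mathlib
import Cfsg.Agent.H4_Inv

set_option autoImplicit false
open Cfsg

namespace Cfsg.Agent.S0228

open Cfsg.Agent.H4.Inv

/-- A group of order 12 in which no involution is central is isomorphic to the alternating group on four letters. -/
theorem result {G : Type*} [Group G] [Finite G] (hG : Nat.card G = 12) (hz : ∀ z : G, orderOf z = 2 → z ∉ Subgroup.center G) : Nonempty (G ≃* alternatingGroup (Fin 4)) := by
  classical
  haveI h3 : Fact (Nat.Prime 3) := ⟨by norm_num⟩
  haveI h2 : Fact (Nat.Prime 2) := ⟨Nat.prime_two⟩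
  obtain ⟨P⟩ : Nonempty (Sylow 3 G) := inferInstance
  obtain ⟨S⟩ : Nonempty (Sylow 2 G) := inferInstance
  have f3 : Nat.factorization 12 3 = 1 := by
    rw [show (12:ℕ) = 2 ^ 2 * 3 by norm_num, Nat.factorization_mul (by norm_num) (by norm_num),
      Nat.factorization_pow]
    simp [Nat.Prime.factorization Nat.prime_two, Nat.Prime.factorization (p := 3) (by norm_num)]
  have f2 : Nat.factorization 12 2 = 2 := by
    rw [show (12:ℕ) = 2 ^ 2 * 3 by norm_num, Nat.factorization_mul (by norm_num) (by norm_num),
      Nat.factorization_pow]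
    simp [Nat.Prime.factorization Nat.prime_two, Nat.Prime.factorization (p := 3) (by norm_num)]
  have hP : Nat.card (P : Subgroup G) = 3 := by
    rw [Sylow.card_eq_multiplicity, hG, f3, pow_one]
  have hS : Nat.card (S : Subgroup G) = 2 ^ 2 := by
    rw [Sylow.card_eq_multiplicity, hG, f2]
  have hPi : (P : Subgroup G).index = 4 := by
    have := Subgroup.card_mul_index (P : Subgroup G)
    rw [hP, hG] at this; omega
  have hn1 : Nat.card (Sylow 3 G) ∣ 4 := hPi ▸ Sylow.card_dvd_index P
  have hn2 : Nat.card (Sylow 3 G) ≡ 1 [MOD 3] := card_sylow_modEq_one 3 G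
  have hn3 : Nat.card (Sylow 3 G) = 1 ∨ Nat.card (Sylow 3 G) = 4 := by
    have h4 : Nat.card (Sylow 3 G) ≤ 4 := Nat.le_of_dvd (by norm_num) hn1
    have h5 : 0 < Nat.card (Sylow 3 G) := Nat.card_pos
    unfold Nat.ModEq at hn2
    interval_cases h : Nat.card (Sylow 3 G) <;> omega
  have hNP : Nat.card (Sylow 3 G) = (Subgroup.normalizer ((P : Subgroup G) : Set G)).index :=
    Sylow.card_eq_index_normalizer P
  rcases hn3 with hn | hn
  · exfalso
    have hPn : (P : Subgroup G).Normal := by
      rw [hn] at hNP
      have := Subgroup.index_eq_one.mp hNP.symm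
      exact Subgroup.normalizer_eq_top_iff.mp this
    haveI := hPn
    let φ : (S : Subgroup G) →* MulAut (P : Subgroup G) :=
      (MulAut.conjNormal (H := (P : Subgroup G))).comp (S : Subgroup G).subtype
    haveI hcyc : IsCyclic (P : Subgroup G) := isCyclic_of_prime_card hP
    have hA : Nat.card (MulAut (P : Subgroup G)) = 2 := by
      rw [IsCyclic.card_mulAut, hP]; rfl
    have hk : φ.ker.index ∣ 2 := by
      rw [Subgroup.index_ker]
      have := Subgroup.card_subgroup_dvd_card φ.range
      rwa [hA] at this
    have hk2 := Subgroup.card_mul_index φ.ker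
    rw [hS] at hk2
    have hk3 : 2 ∣ Nat.card φ.ker := by
      have h6 : φ.ker.index ≤ 2 := Nat.le_of_dvd (by norm_num) hk
      have h7 : 0 < φ.ker.index := Nat.pos_of_ne_zero Subgroup.index_ne_zero_of_finite
      interval_cases h : φ.ker.index
      · omega
      · omega
    obtain ⟨⟨t, htk⟩, ht⟩ := exists_prime_orderOf_dvd_card' (G := φ.ker) 2 hk3
    have ht2 : orderOf (t : G) = 2 := by
      rw [Subgroup.orderOf_coe]
      exact (Subgroup.orderOf_coe (H := φ.ker) ⟨t, htk⟩).trans ht
    apply hz (t : G) ht2
    have hcP : ∀ x ∈ (P : Subgroup G), (t : G) * x = x * t := by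
      intro x hx
      have := congrArg (fun f : MulAut (P : Subgroup G) => ((f ⟨x, hx⟩ : (P : Subgroup G)) : G)) (MonoidHom.mem_ker.mp htk)
      have h8 : (t : G) * x * (t : G)⁻¹ = x := this
      exact mul_inv_eq_iff_eq_mul.mp h8
    have hcS : ∀ x ∈ (S : Subgroup G), (t : G) * x = x * t := by
      intro x hx
      exact congrArg (fun y : (S : Subgroup G) => (y : G))
        (IsPGroup.commutative_of_card_eq_prime_sq hS t ⟨x, hx⟩)
    have hCP : (P : Subgroup G) ≤ Subgroup.centralizer ({(t : G)} : Set G) := by
      intro x hx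
      rw [Subgroup.mem_centralizer_singleton_iff]
      exact (hcP x hx).symm
    have hCS : (S : Subgroup G) ≤ Subgroup.centralizer ({(t : G)} : Set G) := by
      intro x hx
      rw [Subgroup.mem_centralizer_singleton_iff]
      exact (hcS x hx).symm
    have d1 := Subgroup.card_dvd_of_le hCP
    have d2 := Subgroup.card_dvd_of_le hCS
    rw [hP] at d1
    rw [hS] at d2
    have d3 : 12 ∣ Nat.card (Subgroup.centralizer ({(t : G)} : Set G)) := by
      have : Nat.Coprime 3 (2 ^ 2) := by norm_num
      have := this.mul_dvd_of_dvd_of_dvd d1 d2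
      simpa using this
    have d4 : Subgroup.centralizer ({(t : G)} : Set G) = ⊤ := by
      apply Subgroup.eq_top_of_le_card
      rw [hG]
      exact Nat.le_of_dvd Nat.card_pos d3
    rw [Subgroup.mem_center_iff]
    intro g
    have : g ∈ Subgroup.centralizer ({(t : G)} : Set G) := by rw [d4]; trivial
    exact Subgroup.mem_centralizer_singleton_iff.mp this
  · -- n = 4
    haveI : Fintype (Sylow 3 G) := Fintype.ofFinite _
    let φ : G →* Equiv.Perm (Sylow 3 G) := MulAction.toPermHom G (Sylow 3 G)
    have hNc : Nat.card (Subgroup.normalizer ((P : Subgroup G) : Set G)) = 3 := by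
      have := Subgroup.card_mul_index (Subgroup.normalizer ((P : Subgroup G) : Set G))
      rw [← hNP, hn, hG] at this
      omega
    have hNPeq : (P : Subgroup G) = Subgroup.normalizer ((P : Subgroup G) : Set G) := by
      apply Subgroup.eq_of_le_of_card_ge Subgroup.le_normalizer
      rw [hNc, hP]
    have hker : φ.ker ≤ (P : Subgroup G) := by
      intro g hg
      rw [hNPeq]
      have h5 := MonoidHom.mem_ker.mp hg
      have h6 : g • P = P := by
        have : φ g P = P := by rw [h5]; rfl
        exact this
      exact Sylow.smul_eq_iff_mem_normalizer.mp h6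
    have hkb : φ.ker = ⊥ := by
      have h5 := Subgroup.card_dvd_of_le hker
      rw [hP] at h5
      rcases (Nat.dvd_prime h3.out).mp h5 with h6 | h6
      · exact Subgroup.card_eq_one.mp h6
      · exfalso
        have h7 : φ.ker = (P : Subgroup G) := by
          apply Subgroup.eq_of_le_of_card_ge hker
          rw [h6, hP]
        have h8 : (P : Subgroup G).Normal := h7 ▸ (inferInstance : φ.ker.Normal)
        rw [← Subgroup.normalizer_eq_top_iff, ← hNPeq] at h8
        rw [h8] at hP
        rw [Subgroup.card_top, hG] at hP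
        omega
    have hinj : Function.Injective φ := (MonoidHom.ker_eq_bot_iff φ).mp hkb
    have hr : Nat.card φ.range = 12 := by
      rw [← hG]
      exact Nat.card_congr (MonoidHom.ofInjective hinj).symm.toEquiv
    have hperm : Nat.card (Equiv.Perm (Sylow 3 G)) = 24 := by
      rw [Nat.card_perm, hn]; rfl
    have hidx : φ.range.index = 2 := by
      have := Subgroup.card_mul_index φ.range
      rw [hr, hperm] at this
      omega
    have halt := Equiv.Perm.eq_alternatingGroup_of_index_eq_two hidx
    have e1 : G ≃* φ.range := MonoidHom.ofInjective hinj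
    have e2 : φ.range ≃* alternatingGroup (Sylow 3 G) := MulEquiv.subgroupCongr halt
    have e3 : alternatingGroup (Sylow 3 G) ≃* alternatingGroup (Fin 4) :=
      Equiv.altCongrHom (Fintype.equivFinOfCardEq (by rw [← Nat.card_eq_fintype_card, hn]))
    exact ⟨(e1.trans e2).trans e3⟩

end Cfsg.Agent.S0228
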