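import Cfsg.Statements.S0229
import Mathlib
import Cfsg.Agent.H4_Iso

set_option autoImplicit false
open Cfsg

namespace Cfsg.Agent.S0229

/-- Let t be an involution of a Sylow 2-subgroup S of a finite group G, conjugate in G to no other element of S, and let s be an involution of G not conjugate to t. Then the order of st is twice an odd number. -/
theorem result {G : Type*} [Group G] [Finite G] (S : Sylow 2 G) (t : G) (ht : orderOf t = 2) (htS : t ∈ S) (hiso : ∀ g : G, g * t * g⁻¹ ∈ S → g * t * g⁻¹ = t) (s : G) (hs : orderOf s = 2) (hns : ¬ IsConj s t) : orderOf (s * t) % 4 = 2 := by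
  have hI := (Cfsg.Agent.H4.Iso.isolated_iff_sylow S ht htS).mp hiso
  have hn : 0 < orderOf (t * s) := orderOf_pos _
  have e : orderOf (s * t) = orderOf (t * s) := by
    have : s * t = (t * s)⁻¹ := by
      rw [mul_inv_rev, Cfsg.Agent.H4.Inv.inv_eq ht, Cfsg.Agent.H4.Inv.inv_eq hs]
    rw [this, orderOf_inv]
  rw [e]
  have heven : Even (orderOf (t * s)) := by
    by_contra h
    rw [Nat.not_even_iff_odd] at h
    exact hns (Cfsg.Agent.H4.Inv.isConj_of_odd ht hs h).symm
  have h4 : ¬ 4 ∣ orderOf (t * s) := by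
    intro h4
    obtain ⟨d, -, hd⟩ := (Cfsg.Agent.H4.Inv.conj_central_iff ht hs heven).mpr h4
    obtain ⟨h1, h2, h3⟩ := Cfsg.Agent.H4.Inv.even_central ht hs hn.ne' heven
    have h5 := hI.2 d (by rw [hd]; exact (Commute.refl t).mul_right h2.symm)
    rw [hd] at h5
    have h6 := mul_eq_left.mp h5
    rw [h6, orderOf_one] at h1
    norm_num at h1
  obtain ⟨m, hm⟩ := heven
  omega

end Cfsg.Agent.S0229
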