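import Cfsg.Statements.S0230
import Mathlib
import Cfsg.Agent.H4_Inv
import Cfsg.Agent.S1186

set_option autoImplicit false
open Cfsg

namespace Cfsg.Agent.S0230

open Cfsg.Agent.H4.Inv

/-- Let G be a finite group with two non-conjugate involutions, and let t be an involution whose centralizer has maximal order among centralizers of involutions. Then |G| < |C_G(t)|^3. -/
theorem result {G : Type*} [Group G] [Finite G] (s t : G) (hs : orderOf s = 2) (ht : orderOf t = 2) (hnc : ¬ IsConj s t) (hmax : ∀ u : G, orderOf u = 2 → Nat.card (Subgroup.centralizer ({u} : Set G)) ≤ Nat.card (Subgroup.centralizer ({t} : Set G))) : Nat.card G < Nat.card (Subgroup.centralizer ({t} : Set G)) ^ 3 := by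
  have hX := Cfsg.Agent.S1186.card_X s
  set X := {x : G // ∃ g, g * s * g⁻¹ = x} with hXdef
  set I := {z : G // orderOf z = 2 ∧ z ∈ Subgroup.centralizer ({t} : Set G)} with hI
  -- choose the central involution
  have hch : ∀ x : X, ∃ z : I, x.1 ∈ Subgroup.centralizer ({(z : G)} : Set G) := by
    rintro ⟨x, g, rfl⟩
    have hx2 : orderOf (g * s * g⁻¹) = 2 := by rw [orderOf_conj]; exact hs
    have heven : Even (orderOf (g * s * g⁻¹ * t)) := by
      rw [← Nat.not_odd_iff_even]
      intro hodd
      apply hnc
      have h1 := isConj_of_odd hx2 ht hodd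
      exact (isConj_iff.mpr ⟨g, rfl⟩ : IsConj s (g * s * g⁻¹)).trans h1
    obtain ⟨h1, h2, h3⟩ := even_central hx2 ht (orderOf_pos _).ne' heven
    exact ⟨⟨_, h1, Subgroup.mem_centralizer_singleton_iff.mpr h3.eq⟩,
      Subgroup.mem_centralizer_singleton_iff.mpr h2.eq.symm⟩
  choose f hf using hch
  have hle : Nat.card X ≤ Nat.card (Σ z : I, Subgroup.centralizer ({(z : G)} : Set G)) := by
    refine Nat.card_le_card_of_injective (fun x => ⟨f x, ⟨x.1, hf x⟩⟩) ?_
    intro x y hxy
    simp only [Sigma.mk.injEq] at hxy
    obtain ⟨h1, h2⟩ := hxy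
    apply Subtype.ext
    have : ∀ (z w : I) (hzw : z = w) (a : Subgroup.centralizer ({(z : G)} : Set G))
        (b : Subgroup.centralizer ({(w : G)} : Set G)), HEq a b → (a : G) = b := by
      rintro z w rfl a b hab
      rw [eq_of_heq hab]
    exact this _ _ h1 _ _ h2
  have hIc : Nat.card I < Nat.card (Subgroup.centralizer ({t} : Set G)) := by
    classical
    haveI : Fintype I := Fintype.ofFinite _
    haveI : Fintype (Subgroup.centralizer ({t} : Set G)) := Fintype.ofFinite _
    rw [Nat.card_eq_fintype_card, Nat.card_eq_fintype_card]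
    apply Fintype.card_lt_of_injective_not_surjective (fun z : I => (⟨z.1, z.2.2⟩ : Subgroup.centralizer ({t} : Set G)))
    · intro a b hab
      exact Subtype.ext (by simpa using congrArg Subtype.val hab)
    · intro hsurj
      obtain ⟨⟨z, hz1, hz2⟩, hz⟩ := hsurj 1
      have : z = 1 := congrArg Subtype.val hz
      rw [this, orderOf_one] at hz1
      norm_num at hz1
  have hsum : Nat.card (Σ z : I, Subgroup.centralizer ({(z : G)} : Set G)) ≤
      Nat.card I * Nat.card (Subgroup.centralizer ({t} : Set G)) := by
    classical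
    haveI : Fintype I := Fintype.ofFinite I
    rw [Nat.card_sigma]
    calc ∑ z : I, Nat.card (Subgroup.centralizer ({(z : G)} : Set G))
        ≤ ∑ z : I, Nat.card (Subgroup.centralizer ({t} : Set G)) :=
          Finset.sum_le_sum fun z _ => hmax z.1 z.2.1
      _ = _ := by rw [Finset.sum_const, Finset.card_univ, smul_eq_mul, ← Nat.card_eq_fintype_card (α := I)]
  set n := Nat.card (Subgroup.centralizer ({t} : Set G)) with hn
  have hn0 : 0 < n := Nat.card_pos
  have hs1 := hmax s hs
  calc Nat.card G = Nat.card (Subgroup.centralizer ({s} : Set G)) * Nat.card X := hX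
    _ ≤ n * (Nat.card I * n) := Nat.mul_le_mul hs1 (hle.trans hsum)
    _ < n * (n * n) := by
        apply Nat.mul_lt_mul_of_pos_left _ hn0
        exact Nat.mul_lt_mul_of_pos_right hIc hn0
    _ = n ^ 3 := by ring

end Cfsg.Agent.S0230
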