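import Cfsg.Statements.S0231
import Mathlib
import Cfsg.Agent.H4_Inv
import Cfsg.Agent.H4_Util

set_option autoImplicit false
open scoped Pointwise
open Cfsg

namespace Cfsg.Agent.S0231

open Cfsg.Agent.H4.Inv Cfsg.Agent.H4.Util

/-- Let T be a Sylow 2-subgroup of the finite group G which is not normal and which intersects every other Sylow 2-subgroup trivially. Then G has a single conjugacy class of involutions. -/
theorem result {G : Type*} [Group G] [Finite G] (T : Sylow 2 G) (hnn : ¬ (T : Subgroup G).Normal) (hTI : ∀ g : G, MulAut.conj g • (T : Subgroup G) ≠ T → MulAut.conj g • (T : Subgroup G) ⊓ T = ⊥) (s t : G) (hs : orderOf s = 2) (ht : orderOf t = 2) : IsConj s t := by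
  by_contra hnc
  -- two Sylow subgroups sharing a nontrivial element are equal
  have hTI2 : ∀ (P Q : Sylow 2 G) (z : G), z ∈ P → z ∈ Q → z ≠ 1 → P = Q := by
    intro P Q z hzP hzQ hz1
    obtain ⟨a, rfl⟩ := MulAction.exists_smul_eq G T P
    obtain ⟨b, rfl⟩ := MulAction.exists_smul_eq G T Q
    by_cases hne : MulAut.conj (a⁻¹ * b) • (T : Subgroup G) = T
    · have h1 : a • T = b • T := by
        apply Sylow.ext
        change MulAut.conj a • (T : Subgroup G) = MulAut.conj b • (T : Subgroup G)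
        conv_lhs => rw [← hne]
        rw [smul_smul, ← map_mul, mul_inv_cancel_left]
      exact h1
    · exfalso
      have h1 := hTI _ hne
      have h2 : a⁻¹ * z * a ∈ MulAut.conj (a⁻¹ * b) • (T : Subgroup G) ⊓ T := by
        refine ⟨?_, (mem_smul_sylow T a z).mp hzP⟩
        have h3 := (mem_smul_sylow T b z).mp hzQ
        have e : a⁻¹ * z * a = (MulAut.conj (a⁻¹ * b)) • (b⁻¹ * z * b) := by
          rw [MulAut.smul_def, MulAut.conj_apply]; group
        rw [e]
        exact Subgroup.smul_mem_pointwise_smul _ _ _ h3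
      rw [h1, Subgroup.mem_bot] at h2
      apply hz1
      calc z = a * (a⁻¹ * z * a) * a⁻¹ := by group
        _ = 1 := by rw [h2]; group
  -- commuting involutions lie in a common Sylow subgroup
  have hcomm : ∀ a b : G, orderOf a = 2 → orderOf b = 2 → Commute a b → ∃ P : Sylow 2 G, a ∈ P ∧ b ∈ P := by
    intro a b ha hb hab
    have h1 : IsPGroup 2 (Subgroup.zpowers a) := zpowers_isPGroup (k := 1) (by simpa using ha)
    have h2 : IsPGroup 2 (Subgroup.zpowers b) := zpowers_isPGroup (k := 1) (by simpa using hb)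
    have h3 := isPGroup_sup_of_commute h1 h2 (by
      rintro _ ⟨m, rfl⟩ _ ⟨n, rfl⟩
      exact (hab.zpow_zpow m n).eq)
    obtain ⟨P, hP⟩ := h3.exists_le_sylow
    exact ⟨P, hP (Subgroup.mem_sup_left (Subgroup.mem_zpowers a)),
      hP (Subgroup.mem_sup_right (Subgroup.mem_zpowers b))⟩
  -- conjugates of s and of t lie in a common Sylow subgroup
  have hcommon : ∀ a b : G, ∃ P : Sylow 2 G, a * s * a⁻¹ ∈ P ∧ b * t * b⁻¹ ∈ P := by
    intro a b
    have hx2 : orderOf (a * s * a⁻¹) = 2 := by rw [orderOf_conj]; exact hs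
    have hy2 : orderOf (b * t * b⁻¹) = 2 := by rw [orderOf_conj]; exact ht
    have heven : Even (orderOf (a * s * a⁻¹ * (b * t * b⁻¹))) := by
      rw [← Nat.not_odd_iff_even]
      intro hodd
      apply hnc
      have h1 := isConj_of_odd hx2 hy2 hodd
      exact ((isConj_iff.mpr ⟨a, rfl⟩ : IsConj s (a * s * a⁻¹)).trans h1).trans
        (isConj_iff.mpr ⟨b, rfl⟩ : IsConj t (b * t * b⁻¹)).symm
    obtain ⟨h1, h2, h3⟩ := even_central hx2 hy2 (orderOf_pos _).ne' heven
    obtain ⟨P, hP1, hP2⟩ := hcomm _ _ h1 hx2 h2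
    obtain ⟨Q, hQ1, hQ2⟩ := hcomm _ _ h1 hy2 h3
    have : P = Q := hTI2 P Q _ hP1 hQ1 (by intro h; rw [h, orderOf_one] at h1; norm_num at h1)
    subst this
    exact ⟨P, hP2, hQ2⟩
  obtain ⟨P, hP1, hP2⟩ := hcommon 1 1
  have hs1 : s ≠ 1 := ne_one hs
  have ht1 : t ≠ 1 := ne_one ht
  have hs' : s ∈ P := by simpa using hP1
  have ht' : t ∈ P := by simpa using hP2
  -- P is normal
  have hPn : ∀ g : G, g • P = P := by
    intro g
    obtain ⟨Q, hQ1, hQ2⟩ := hcommon g 1
    have e1 : Q = P := hTI2 Q P t (by simpa using hQ2) ht' ht1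
    subst e1
    have h1 : g * s * g⁻¹ ∈ g • Q := by
      refine (mem_smul_sylow Q g _).mpr ?_
      have e : g⁻¹ * (g * s * g⁻¹) * g = s := by group
      rw [e]; exact hs'
    exact hTI2 _ _ _ h1 hQ1 (by
      intro h
      apply hs1
      calc s = g⁻¹ * (g * s * g⁻¹) * g := by group
        _ = 1 := by rw [h]; group)
  apply hnn
  obtain ⟨a, ha⟩ := MulAction.exists_smul_eq G P T
  rw [hPn a] at ha
  rw [← ha]
  refine ⟨fun n hn g => ?_⟩
  have h1 : g * n * g⁻¹ ∈ (g • P : Sylow 2 G) := by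
    refine (mem_smul_sylow P g _).mpr ?_
    have e : g⁻¹ * (g * n * g⁻¹) * g = n := by group
    rw [e]; exact hn
  rw [hPn g] at h1
  exact h1

end Cfsg.Agent.S0231
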