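import Cfsg.Statements.S0232
import Mathlib
import Cfsg.Agent.H4_Count
import Cfsg.Agent.S0230

set_option autoImplicit false
open Cfsg

namespace Cfsg.Agent.S0232

open Cfsg.Agent.H4.Inv Cfsg.Agent.H4.Count

theorem main : ∀ (n : ℕ) (G : Type*) [Group G] [Finite G], Nat.card G = n → Even n → 2 < n →
    ∃ H : Subgroup G, H ≠ ⊤ ∧ Nat.card G < (Nat.card H) ^ 3 := by
  intro n
  induction n using Nat.strong_induction_on with
  | _ n ih =>
  intro G _ _ hn heven hgt
  classical
  by_cases hZ : ∃ z ∈ Subgroup.center G, orderOf z = 2
  · obtain ⟨z, hzc, hz⟩ := hZ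
    haveI hZn : (Subgroup.zpowers z).Normal := ⟨by
      rintro _ ⟨k, rfl⟩ g
      have : g * z ^ k * g⁻¹ = z ^ k := by
        have := (Subgroup.mem_center_iff.mp (Subgroup.zpow_mem _ hzc k)) g
        rw [this, mul_inv_cancel_right]
      simp only
      rw [this]
      exact Subgroup.zpow_mem _ (Subgroup.mem_zpowers z) k⟩
    have hZc : Nat.card (Subgroup.zpowers z) = 2 := by rw [Nat.card_zpowers, hz]
    have hQ : 2 * Nat.card (G ⧸ Subgroup.zpowers z) = n := by
      rw [← hn, ← hZc]
      exact (Subgroup.card_mul_index (Subgroup.zpowers z))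
    set m := Nat.card (G ⧸ Subgroup.zpowers z) with hm
    rcases Nat.even_or_odd m with he | hodd
    · by_cases h2 : m = 2
      · refine ⟨Subgroup.zpowers z, ?_, ?_⟩
        · intro h
          rw [h, Subgroup.card_top, hn] at hZc
          omega
        · rw [hZc, hn]
          omega
      · have hm2 : 2 < m := by
          have h0 : 0 < m := Nat.card_pos
          obtain ⟨k, hk⟩ := he
          omega
        obtain ⟨H, hH, hlt⟩ := ih m (by omega) (G ⧸ Subgroup.zpowers z) rfl he hm2
        refine ⟨H.comap (QuotientGroup.mk' (Subgroup.zpowers z)), ?_, ?_⟩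
        · intro h
          apply hH
          rw [← Subgroup.map_comap_eq_self_of_surjective (QuotientGroup.mk'_surjective (Subgroup.zpowers z)) H, h]
          exact Subgroup.map_top_of_surjective _ (QuotientGroup.mk'_surjective _)
        · have h3 : (H.comap (QuotientGroup.mk' (Subgroup.zpowers z))).index = H.index :=
            Subgroup.index_comap_of_surjective _ (QuotientGroup.mk'_surjective _)
          have h4 := Subgroup.card_mul_index (H.comap (QuotientGroup.mk' (Subgroup.zpowers z)))
          have h5 := Subgroup.card_mul_index H
          rw [h3, hn] at h4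
          rw [← hm] at h5
          have h6 : Nat.card (H.comap (QuotientGroup.mk' (Subgroup.zpowers z))) = 2 * Nat.card H := by
            have h7 : 0 < H.index := Nat.pos_of_ne_zero Subgroup.index_ne_zero_of_finite
            apply Nat.eq_of_mul_eq_mul_right h7
            rw [h4, mul_assoc, h5, hQ]
          rw [h6, hn, ← hQ]
          rw [← hm] at hlt
          have : (2 * Nat.card H) ^ 3 = 8 * (Nat.card H) ^ 3 := by ring
          omega
    · have hcop : Nat.Coprime (Nat.card (Subgroup.zpowers z)) (Subgroup.zpowers z).index := by
        rw [hZc]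
        change Nat.Coprime 2 m
        exact (Nat.coprime_two_left).mpr hodd
      obtain ⟨H, hH⟩ := Subgroup.exists_right_complement'_of_coprime hcop
      have h1 := hH.card_mul
      rw [hZc, hn] at h1
      have h2 : Nat.card H = m := by omega
      have h3 : 3 ≤ m := by
        obtain ⟨k, hk⟩ := hodd
        omega
      refine ⟨H, ?_, ?_⟩
      · intro h
        rw [h, Subgroup.card_top, hn] at h2
        omega
      · rw [h2, hn, ← hQ]
        nlinarith [pow_pos (by omega : 0 < m) 3, Nat.mul_le_mul h3 h3, Nat.mul_le_mul (Nat.mul_le_mul h3 h3) (le_refl m)]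
  · push Not at hZ
    by_contra hcon
    push Not at hcon
    haveI : Fintype G := Fintype.ofFinite G
    have hcne : ∀ x : G, orderOf x = 2 → Subgroup.centralizer ({x} : Set G) ≠ ⊤ := by
      intro x hx h
      apply hZ x _ hx
      rw [Subgroup.mem_center_iff]
      intro g
      have : g ∈ Subgroup.centralizer ({x} : Set G) := by rw [h]; trivial
      exact Subgroup.mem_centralizer_singleton_iff.mp this
    obtain ⟨t0, ht0⟩ := exists_prime_orderOf_dvd_card' (G := G) 2 (hn ▸ heven.two_dvd)
    obtain ⟨t, ht, htmax⟩ := (Set.toFinite {x : G | orderOf x = 2}).exists_maximalFor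
      (fun x => Nat.card (Subgroup.centralizer ({x} : Set G))) _ ⟨t0, ht0⟩
    have ht' : orderOf t = 2 := ht
    have htmax' : ∀ y : G, orderOf y = 2 → Nat.card (Subgroup.centralizer ({y} : Set G)) ≤
        Nat.card (Subgroup.centralizer ({t} : Set G)) := by
      intro y hy
      rcases le_total (Nat.card (Subgroup.centralizer ({t} : Set G))) (Nat.card (Subgroup.centralizer ({y} : Set G))) with h | h
      · exact htmax (j := y) hy h
      · exact h
    by_cases hone : ∀ s : G, orderOf s = 2 → IsConj s t
    · -- one class
      obtain ⟨M, hM, hMmax⟩ := (Set.toFinite {H : Subgroup G | H ≠ ⊤}).exists_maximalFor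
        (fun H : Subgroup G => Nat.card H) _ ⟨Subgroup.centralizer ({t} : Set G), hcne t ht'⟩
      have hM' : M ≠ ⊤ := hM
      set h := Nat.card M with hh
      have hle : ∀ H : Subgroup G, H ≠ ⊤ → Nat.card H ≤ h := by
        intro H hH
        rcases le_total (Nat.card M) (Nat.card H) with h' | h'
        · exact hMmax (j := H) hH h'
        · exact h'
      have hcub := hcon M hM'
      rw [← hh] at hcub
      have hN2 : 2 < Nat.card G := by rw [hn]; exact hgt
      have hcount := count (G := G) (h / 2) h (fun x hx => hle _ (hcne x hx)) (by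
        intro x s hx hs hxs
        have h1 := card_cstar hx hxs
        by_cases h2 : cstar x = ⊤
        · exfalso
          rw [h2, Subgroup.card_top] at h1
          have hne : Subgroup.centralizer ({x} : Set G) ≠ ⊤ := by
            intro h4
            rw [h4, Subgroup.card_top] at h1
            have : 0 < Nat.card G := Nat.card_pos
            omega
          have h3 := hcon _ hne
          set c := Nat.card (Subgroup.centralizer ({x} : Set G)) with hc
          rw [h1] at h3
          have hc0 : 0 < c := Nat.card_pos
          have h4 : c ^ 2 ≤ 2 := by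
            apply Nat.le_of_mul_le_mul_left _ hc0
            calc c * c ^ 2 = c ^ 3 := by ring
              _ ≤ 2 * c := h3
              _ = c * 2 := mul_comm _ _
          have h5 : c < 2 := by nlinarith
          omega
        · have h3 := hle _ h2
          rw [h1] at h3
          omega)
      have hcl := class_card t
      have hI : Nat.card {x : G // ∃ g, g * t * g⁻¹ = x} = Nat.card (Invl G) := by
        refine Nat.card_congr ⟨fun x => ⟨x.1, by
          obtain ⟨g, hg⟩ := x.2
          rw [← hg, orderOf_conj]; exact ht'⟩, fun x => ⟨x.1, isConj_iff.mp (hone x.1 x.2).symm⟩, ?_, ?_⟩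
        · intro x; rfl
        · intro x; rfl
      rw [hI] at hcl
      set c := Nat.card (Subgroup.centralizer ({t} : Set G)) with hc
      have hch : c ≤ h := hle _ (hcne t ht')
      have hc0 : 0 < c := Nat.card_pos
      set I := Nat.card (Invl G) with hIdef
      set N := Nat.card G with hN
      have hI0 : 0 < I := by
        rcases Nat.eq_zero_or_pos I with h0 | h0
        · rw [h0] at hcl; omega
        · exact h0
      have hIN : 1 + I ≤ N := by
        have : I < N := by
          rw [hIdef, hN]
          rw [Nat.card_eq_fintype_card, Nat.card_eq_fintype_card]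
          apply Fintype.card_lt_of_injective_not_surjective (fun z : Invl G => z.1) Subtype.val_injective
          intro h
          obtain ⟨⟨z, hz⟩, hz1⟩ := h 1
          simp only at hz1
          rw [hz1] at hz
          exact one_not_inv hz
        omega
      obtain ⟨r, hr⟩ : ∃ r, N = 1 + I + r := ⟨N - 1 - I, by omega⟩
      have hr' : N - 1 - I = r := by omega
      rw [hr'] at hcount
      have e1 : 2 * (h / 2) ≤ h := Nat.mul_div_le h 2
      have h5 : 2 * I ^ 2 + 2 * I ≤ 2 * I * h + r * h := by nlinarith
      -- r = c I - 1 - I
      have h6 : 1 + I + r = c * I := by rw [← hr, hcl]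
      have hh1 : 1 ≤ h := by omega
      have h7 : 2 * I ^ 2 + 2 * I + h ≤ I * h + (c * I) * h := by
        nlinarith
      have h8 : I * (2 * I + 2) < I * (h + h * h) := by
        have : c * I * h ≤ h * I * h := by gcongr
        nlinarith
      have h9 : 2 * I + 2 < h + h * h := Nat.lt_of_mul_lt_mul_left h8
      have h10 : N ≤ h * I := by rw [hcl]; exact Nat.mul_le_mul_right _ hch
      have h11 : 2 * N + 2 * h < h * (h + h * h) := by nlinarith
      have h12 : h ^ 3 ≤ N := hcub
      nlinarith
    · push Not at hone
      obtain ⟨s, hs, hsc⟩ := hone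
      have := Cfsg.Agent.S0230.result s t hs ht' hsc htmax'
      exact absurd (hcon _ (hcne t ht')) (not_le.mpr this)

/-- A finite group G of even order greater than 2 has a proper subgroup H with |G| < |H|^3. -/
theorem result {G : Type*} [Group G] [Finite G] (heven : Even (Nat.card G)) (hgt : 2 < Nat.card G) : ∃ H : Subgroup G, H ≠ ⊤ ∧ Nat.card G < (Nat.card H) ^ 3 := by
  exact main (Nat.card G) G rfl heven hgt

end Cfsg.Agent.S0232
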