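import Cfsg.Statements.S0233
import Mathlib
import Cfsg.Agent.H4_Count

set_option autoImplicit false
open Cfsg

namespace Cfsg.Agent.S0233

open Cfsg.Agent.H4.Inv Cfsg.Agent.H4.Count

/-- Let G be a finite group of even order with exactly n involutions whose centre has odd order, and put a = |G|/n. Then G has a proper subgroup H with |G : H| = 2 or |G : H| < a(a+1)/2; over ℕ the latter reads 2·|G:H|·n² < |G|·(|G| + n). -/
theorem result {G : Type*} [Group G] [Finite G] (heven : Even (Nat.card G)) (hZ : Odd (Nat.card (Subgroup.center G))) : ∃ H : Subgroup G, H ≠ ⊤ ∧ (H.index = 2 ∨ 2 * H.index * (Nat.card {t : G // orderOf t = 2}) ^ 2 < Nat.card G * (Nat.card G + Nat.card {t : G // orderOf t = 2})) := by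
  classical
  by_contra hcon
  push Not at hcon
  haveI : Fintype G := Fintype.ofFinite G
  change ∀ H : Subgroup G, H ≠ ⊤ → H.index ≠ 2 ∧ Nat.card G * (Nat.card G + Nat.card (Invl G)) ≤
    2 * H.index * (Nat.card (Invl G)) ^ 2 at hcon
  set I := Nat.card (Invl G) with hIdef
  set N := Nat.card G with hN
  have hNpos : 0 < N := Nat.card_pos
  have hbound : ∀ H : Subgroup G, H ≠ ⊤ → Nat.card H * (N + I) ≤ 2 * I ^ 2 := by
    intro H hH
    have h1 := (hcon H hH).2
    have h2 := Subgroup.card_mul_index H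
    rw [← hN] at h2
    have h3 : N * (Nat.card H * (N + I)) ≤ N * (2 * I ^ 2) := by
      calc N * (Nat.card H * (N + I)) = Nat.card H * (N * (N + I)) := by ring
        _ ≤ Nat.card H * (2 * H.index * I ^ 2) := Nat.mul_le_mul_left _ h1
        _ = (Nat.card H * H.index) * (2 * I ^ 2) := by ring
        _ = N * (2 * I ^ 2) := by rw [h2]
    exact Nat.le_of_mul_le_mul_left h3 hNpos
  have hIN : 1 + I ≤ N := by
    have : I < N := by
      rw [hIdef, hN]
      rw [Nat.card_eq_fintype_card, Nat.card_eq_fintype_card]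
      apply Fintype.card_lt_of_injective_not_surjective (fun z : Invl G => z.1) Subtype.val_injective
      intro h
      obtain ⟨⟨z, hz⟩, hz1⟩ := h 1
      simp only at hz1
      rw [hz1] at hz
      exact one_not_inv hz
    omega
  have hIpos : 0 < I := by
    obtain ⟨t, ht⟩ := exists_prime_orderOf_dvd_card' (G := G) 2 heven.two_dvd
    exact Nat.card_pos_iff.mpr ⟨⟨⟨t, ht⟩⟩, inferInstance⟩
  set D := N + I with hD
  have hDpos : 0 < D := by omega
  have hcount := count (G := G) (I ^ 2 / D) (2 * I ^ 2 / D) (by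
    intro x hx
    rw [Nat.le_div_iff_mul_le hDpos]
    apply hbound
    intro h
    have hxc : x ∈ Subgroup.center G := by
      rw [Subgroup.mem_center_iff]
      intro g
      have : g ∈ Subgroup.centralizer ({x} : Set G) := by rw [h]; trivial
      exact Subgroup.mem_centralizer_singleton_iff.mp this
    have h2 : orderOf (⟨x, hxc⟩ : Subgroup.center G) = 2 := by rw [← hx]; exact (Subgroup.orderOf_coe _).symm
    have h3 := orderOf_dvd_natCard (⟨x, hxc⟩ : Subgroup.center G)
    rw [h2] at h3
    exact (Nat.not_even_iff_odd.mpr hZ) (even_iff_two_dvd.mpr h3)) (by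
    intro x t hx ht hxt
    rw [Nat.le_div_iff_mul_le hDpos]
    have h1 := card_cstar hx hxt
    have h2 : cstar x ≠ ⊤ := by
      intro h
      rw [h, Subgroup.card_top] at h1
      have h3 := Subgroup.card_mul_index (Subgroup.centralizer ({x} : Set G))
      have hne : Subgroup.centralizer ({x} : Set G) ≠ ⊤ := by
        intro h4
        rw [h4, Subgroup.card_top] at h1
        omega
      apply (hcon _ hne).1
      rw [h1, mul_comm] at h3
      exact Nat.eq_of_mul_eq_mul_right Nat.card_pos h3
    have h3 := hbound _ h2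
    rw [h1] at h3
    nlinarith)
  rw [← hIdef, ← hN] at hcount
  obtain ⟨r, hr⟩ : ∃ r, N = 1 + I + r := ⟨N - 1 - I, by omega⟩
  have hr' : N - 1 - I = r := by omega
  rw [hr'] at hcount
  have e1 : (I ^ 2 / D) * D ≤ I ^ 2 := Nat.div_mul_le_self _ _
  have e2 : (2 * I ^ 2 / D) * D ≤ 2 * I ^ 2 := Nat.div_mul_le_self _ _
  have h5 : (I ^ 2 + 2 * I) * D ≤ (I + I * (2 * I ^ 2 / D) + r * (I ^ 2 / D)) * D :=
    Nat.mul_le_mul_right _ hcount
  have h6 : (I + I * (2 * I ^ 2 / D) + r * (I ^ 2 / D)) * D ≤ I * D + I * (2 * I ^ 2) + r * I ^ 2 := by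
    calc (I + I * (2 * I ^ 2 / D) + r * (I ^ 2 / D)) * D
        = I * D + I * ((2 * I ^ 2 / D) * D) + r * ((I ^ 2 / D) * D) := by ring
      _ ≤ _ := by gcongr
  have h7 : D = 1 + 2 * I + r := by omega
  have h8 := h5.trans h6
  rw [h7] at h8
  nlinarith

end Cfsg.Agent.S0233
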