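import Cfsg.Statements.S0234
import Mathlib
import Cfsg.Agent.H4_Count
import Cfsg.Agent.H3_Burnside
import Cfsg.Agent.S0233
import Cfsg.Agent.S0219

set_option autoImplicit false
open Cfsg

namespace Cfsg.Agent.S0234

open Cfsg.Agent.H4.Inv Cfsg.Agent.H4.Count

theorem count_alt : (Finset.univ.filter (fun t : Equiv.Perm (Fin 5) => t * t = 1 ∧ t ≠ 1 ∧ Equiv.Perm.sign t = 1)).card = 15 := by
  decide +kernel

/-- In a finite simple group G of even order greater than 2, the number n of involutions satisfies 3n < |G|. -/
theorem result {G : Type*} [Group G] [Finite G] [IsSimpleGroup G] (heven : Even (Nat.card G)) (hgt : 2 < Nat.card G) : 3 * Nat.card {t : G // orderOf t = 2} < Nat.card G := by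
  classical
  by_contra hcon
  push Not at hcon
  haveI : Fintype G := Fintype.ofFinite G
  set N := Nat.card G with hN
  change N ≤ 3 * Nat.card (Invl G) at hcon
  set I := Nat.card (Invl G) with hI
  -- G is not solvable
  have hns : ¬ Group.IsSolvable G := by
    intro hs
    have hcomm : ∀ a b : G, a * b = b * a := fun a b => by
      exact (IsSimpleGroup.comm_iff_isSolvable (G := G)).mpr hs a b
    letI : CommGroup G := { (inferInstance : Group G) with mul_comm := hcomm }
    have hp : (Nat.card G).Prime := IsSimpleGroup.prime_card (α := G)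
    rw [← hN] at hp
    rcases hp.eq_one_or_self_of_dvd 2 heven.two_dvd with h | h <;> omega
  have hpq : ∀ p q a b : ℕ, p.Prime → q.Prime → N ≠ p ^ a * q ^ b := by
    intro p q a b hp hq h
    exact hns (Cfsg.Agent.H3.Burnside.burnside N G p q a b hp hq rfl h)
  -- centre is trivial
  have hcb : Subgroup.center G = ⊥ := by
    rcases (inferInstance : (Subgroup.center G).Normal).eq_bot_or_eq_top with h | h
    · exact h
    · exfalso
      apply hns
      have hcomm : ∀ a b : G, a * b = b * a := fun a b => by
        have : b ∈ Subgroup.center G := by rw [h]; trivial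
        exact (Subgroup.mem_center_iff.mp this a)
      exact Group.isSolvable_of_comm hcomm
  obtain ⟨H, hH, hH2⟩ := Cfsg.Agent.S0233.result (G := G) heven (by rw [hcb, Subgroup.card_bot]; exact odd_one)
  change H.index = 2 ∨ 2 * H.index * I ^ 2 < N * (N + I) at hH2
  have hI0 : 0 < I := by
    rcases Nat.eq_zero_or_pos I with h | h
    · rw [h] at hcon; omega
    · exact h
  have hidx : H.index ≤ 5 := by
    rcases hH2 with h | h
    · omega
    · by_contra h5
      push Not at h5
      have h6 : N * (N + I) ≤ 3 * I * (4 * I) := by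
        apply Nat.mul_le_mul hcon; omega
      have h7 : 2 * 6 * I ^ 2 ≤ 2 * H.index * I ^ 2 := by gcongr; omega
      nlinarith
  have hker : (MulAction.toPermHom G (G ⧸ H)).ker = ⊥ := by
    rw [← Subgroup.normalCore_eq_ker]
    rcases (inferInstance : (Subgroup.normalCore H).Normal).eq_bot_or_eq_top with h | h
    · exact h
    · exact absurd (top_le_iff.mp (h ▸ Subgroup.normalCore_le _)) hH
  have hinj := (MonoidHom.ker_eq_bot_iff _).mp hker
  haveI : Fintype (G ⧸ H) := Fintype.ofFinite _
  -- signs are trivial
  have hsign : ∀ g : G, Equiv.Perm.sign (MulAction.toPermHom G (G ⧸ H) g) = 1 := by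
    have h1 := (inferInstance : ((Equiv.Perm.sign.comp (MulAction.toPermHom G (G ⧸ H))).ker).Normal).eq_bot_or_eq_top
    rcases h1 with h | h
    · exfalso
      have h2 := (MonoidHom.ker_eq_bot_iff _).mp h
      have h3 := Nat.card_le_card_of_injective _ h2
      have h4 : Nat.card ℤˣ = 2 := by rw [Nat.card_eq_fintype_card]; rfl
      omega
    · intro g
      have : g ∈ (Equiv.Perm.sign.comp (MulAction.toPermHom G (G ⧸ H))).ker := by rw [h]; trivial
      exact this
  have hk : Nat.card (G ⧸ H) = H.index := rfl
  have hk2 : 2 ≤ H.index := by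
    have h0 : H.index ≠ 0 := Subgroup.index_ne_zero_of_finite
    have h1 : H.index ≠ 1 := fun h => hH (Subgroup.index_eq_one.mp h)
    omega
  have hnt : Nontrivial (G ⧸ H) := by
    rw [← Finite.one_lt_card_iff_nontrivial, hk]; omega
  -- N divides k!/2
  have hdvd : 2 * N ∣ H.index.factorial := by
    have h1 : (MulAction.toPermHom G (G ⧸ H)).range ≤ alternatingGroup (G ⧸ H) := by
      rintro _ ⟨g, rfl⟩
      exact hsign g
    have h2 := Subgroup.card_dvd_of_le h1
    rw [← Nat.card_congr (MonoidHom.ofInjective hinj).toEquiv, ← hN] at h2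
    have h3 : 2 * Nat.card (alternatingGroup (G ⧸ H)) = H.index.factorial := by
      rw [Nat.card_eq_fintype_card, two_mul_card_alternatingGroup, Fintype.card_perm,
        ← Nat.card_eq_fintype_card, hk]
    rw [← h3]
    exact Nat.mul_dvd_mul_left 2 h2
  have hk5 : H.index = 5 ∧ N = 60 := by
    have hcases : ∀ M : ℕ, 2 * N ∣ 2 * M → N ∣ M := fun M h => Nat.dvd_of_mul_dvd_mul_left (by norm_num) h
    have hk' : H.index = 2 ∨ H.index = 3 ∨ H.index = 4 ∨ H.index = 5 := by omega
    rcases hk' with h | h | h | h
    · exfalso
      rw [h] at hdvd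
      have := Nat.le_of_dvd (by norm_num) (hcases 1 hdvd)
      omega
    · exfalso
      rw [h] at hdvd
      have := Nat.le_of_dvd (by norm_num) (hcases 3 hdvd)
      have h3 : N = 3 := by omega
      rw [h3] at heven
      exact absurd heven (by decide)
    · exfalso
      rw [h] at hdvd
      have h12 := hcases 12 hdvd
      have : N ∈ Nat.divisors 12 := Nat.mem_divisors.mpr ⟨h12, by norm_num⟩
      have h' : Nat.divisors 12 = {1, 2, 3, 4, 6, 12} := by decide
      rw [h'] at this
      simp only [Finset.mem_insert, Finset.mem_singleton] at this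
      rcases this with h | h | h | h | h | h
      · omega
      · omega
      · exact hpq 2 3 0 1 (by norm_num) (by norm_num) (by rw [h]; norm_num)
      · exact hpq 2 3 2 0 (by norm_num) (by norm_num) (by rw [h]; norm_num)
      · exact hpq 2 3 1 1 (by norm_num) (by norm_num) (by rw [h]; norm_num)
      · exact hpq 2 3 2 1 (by norm_num) (by norm_num) (by rw [h]; norm_num)
    · refine ⟨h, ?_⟩
      rw [h] at hdvd
      have h60 := hcases 60 hdvd
      have : N ∈ Nat.divisors 60 := Nat.mem_divisors.mpr ⟨h60, by norm_num⟩
      have h' : Nat.divisors 60 = {1, 2, 3, 4, 5, 6, 10, 12, 15, 20, 30, 60} := by decide +kernel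
      rw [h'] at this
      simp only [Finset.mem_insert, Finset.mem_singleton] at this
      rcases this with h | h | h | h | h | h | h | h | h | h | h | h
      · omega
      · omega
      · exact absurd h (fun h => hpq 2 3 0 1 (by norm_num) (by norm_num) (by rw [h]; norm_num))
      · exact absurd h (fun h => hpq 2 3 2 0 (by norm_num) (by norm_num) (by rw [h]; norm_num))
      · exact absurd h (fun h => hpq 2 5 0 1 (by norm_num) (by norm_num) (by rw [h]; norm_num))
      · exact absurd h (fun h => hpq 2 3 1 1 (by norm_num) (by norm_num) (by rw [h]; norm_num))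
      · exact absurd h (fun h => hpq 2 5 1 1 (by norm_num) (by norm_num) (by rw [h]; norm_num))
      · exact absurd h (fun h => hpq 2 3 2 1 (by norm_num) (by norm_num) (by rw [h]; norm_num))
      · exact absurd h (fun h => hpq 3 5 1 1 (by norm_num) (by norm_num) (by rw [h]; norm_num))
      · exact absurd h (fun h => hpq 2 5 2 1 (by norm_num) (by norm_num) (by rw [h]; norm_num))
      · exfalso
        haveI : Fact (Nat.Prime 2) := ⟨Nat.prime_two⟩
        obtain ⟨T⟩ : Nonempty (Sylow 2 G) := inferInstance
        have f2 : Nat.factorization 30 2 = 1 := by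
          rw [show (30:ℕ) = 2 * 15 by norm_num, Nat.factorization_mul (by norm_num) (by norm_num)]
          have : Nat.factorization 15 2 = 0 := Nat.factorization_eq_zero_of_not_dvd (by norm_num)
          simp [this, Nat.Prime.factorization Nat.prime_two]
        have hT : Nat.card (T : Subgroup G) = 2 := by
          rw [Sylow.card_eq_multiplicity, ← hN, h, f2, pow_one]
        have hTc : IsCyclic (T : Subgroup G) := isCyclic_of_prime_card hT
        obtain ⟨K, hK⟩ := Cfsg.Agent.S0219.result (G := G) heven T hTc
        have hKn : K.Normal := Subgroup.normal_of_index_eq_two hK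
        rcases hKn.eq_bot_or_eq_top with h7 | h7
        · rw [h7, Subgroup.index_bot, ← hN] at hK; omega
        · rw [h7, Subgroup.index_top] at hK; omega
      · exact h
  obtain ⟨hk5, hN60⟩ := hk5
  -- count involutions
  have e : (G ⧸ H) ≃ Fin 5 := Finite.equivFinOfCardEq (by rw [hk, hk5])
  have hI15 : I ≤ 15 := by
    rw [← count_alt, hI, ← Fintype.card_coe, ← Nat.card_eq_fintype_card]
    refine Nat.card_le_card_of_injective (fun t => ⟨e.permCongrHom (MulAction.toPermHom G (G ⧸ H) t.1), ?_⟩) ?_
    · rw [Finset.mem_filter]
      refine ⟨Finset.mem_univ _, ?_, ?_, ?_⟩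
      · rw [← map_mul, ← map_mul, mul_self t.2, map_one, map_one]
      · intro h
        have h1 : (e.permCongrHom) (MulAction.toPermHom G (G ⧸ H) t.1) = (e.permCongrHom) 1 := by
          rw [h, map_one]
        have h2 := (e.permCongrHom).injective h1
        have h3 := hinj (h2.trans (map_one _).symm)
        exact ne_one t.2 h3
      · have := hsign t.1
        rw [← this]
        exact Equiv.Perm.sign_permCongr e _
    · intro a b hab
      have h1 := congrArg Subtype.val hab
      have h2 := (e.permCongrHom).injective h1
      exact Subtype.ext (hinj h2)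
  omega

end Cfsg.Agent.S0234
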