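import Cfsg.Statements.S0235
import Mathlib

set_option autoImplicit false
open Cfsg

namespace Cfsg.Agent.S0235

/-- If x² ≠ 1, the ordered pairs (u, v) of involutions with uv = x correspond bijectively to the involutions t with t x t⁻¹ = x⁻¹ (via (u, v) ↦ u), so the two counts agree. -/
theorem result {G : Type*} [Group G] [Finite G] (x : G) (hx : x ^ 2 ≠ 1) : Nat.card {p : G × G // orderOf p.1 = 2 ∧ orderOf p.2 = 2 ∧ p.1 * p.2 = x} = Nat.card {t : G // orderOf t = 2 ∧ t * x * t⁻¹ = x⁻¹} := by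
  refine Nat.card_congr ⟨fun p => ⟨p.1.1, p.2.1, ?_⟩, fun t => ⟨(t.1, t.1 * x), t.2.1, ?_, ?_⟩, ?_, ?_⟩
  · obtain ⟨⟨u, v⟩, hu, hv, huv⟩ := p
    simp only at hu hv huv ⊢
    have hu' : u * u = 1 := by rw [← pow_two, ← hu]; exact pow_orderOf_eq_one u
    have hv' : v * v = 1 := by rw [← pow_two, ← hv]; exact pow_orderOf_eq_one v
    rw [← huv, mul_inv_rev, inv_eq_of_mul_eq_one_left hu', inv_eq_of_mul_eq_one_left hv',
      ← mul_assoc, hu', one_mul]
  · obtain ⟨t, ht, hx'⟩ := t
    simp only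
    have ht' : t * t = 1 := by rw [← pow_two, ← ht]; exact pow_orderOf_eq_one t
    have hti : t⁻¹ = t := inv_eq_of_mul_eq_one_left ht'
    refine orderOf_eq_prime ?_ ?_
    · rw [pow_two]
      have : t * x * (t * x) = (t * x * t⁻¹) * x := by rw [hti]; group
      rw [this, hx', inv_mul_cancel]
    · intro h
      apply hx
      have h1 : x = t := by
        have := eq_inv_of_mul_eq_one_right h
        rw [this, hti]
      rw [h1, pow_two, ht']
  · obtain ⟨t, ht, hx'⟩ := t
    simp only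
    have ht' : t * t = 1 := by rw [← pow_two, ← ht]; exact pow_orderOf_eq_one t
    rw [← mul_assoc, ht', one_mul]
  · rintro ⟨⟨u, v⟩, hu, hv, huv⟩
    simp only [Subtype.mk.injEq, Prod.mk.injEq, true_and]
    simp only at hu hv huv
    have hu' : u * u = 1 := by rw [← pow_two, ← hu]; exact pow_orderOf_eq_one u
    rw [← huv, ← mul_assoc, hu', one_mul]
  · rintro ⟨t, ht⟩
    rfl

end Cfsg.Agent.S0235
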