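import Cfsg.Statements.S0239
import Mathlib

set_option autoImplicit false
open Cfsg

namespace Cfsg.Agent.S0239

/-- If some nontrivial element x of a finite group G is conjugate to x⁻¹, then |G| is even. -/
theorem result {G : Type*} [Group G] [Finite G] (x : G) (hx : x ≠ 1) (hreal : IsConj x x⁻¹) : Even (Nat.card G) := by
  obtain ⟨g, hg⟩ := isConj_iff.mp hreal
  by_contra hodd
  rw [Nat.not_even_iff_odd] at hodd
  -- g^2 commutes with x, g has odd order
  have h1 : Commute (g ^ 2) x := by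
    have h : g ^ 2 * x * (g ^ 2)⁻¹ = x := by
      calc g ^ 2 * x * (g ^ 2)⁻¹ = g * (g * x * g⁻¹) * g⁻¹ := by simp only [pow_two, mul_inv_rev, mul_assoc]
        _ = g * x⁻¹ * g⁻¹ := by rw [hg]
        _ = (g * x * g⁻¹)⁻¹ := by group
        _ = x := by rw [hg, inv_inv]
    exact mul_inv_eq_iff_eq_mul.mp h
  have hgo : Odd (orderOf g) := Odd.of_dvd_nat hodd (orderOf_dvd_natCard g)
  have h2 : Commute g x := by
    obtain ⟨m, hm⟩ := hgo
    have h3 : (g ^ 2) ^ (m + 1) = g := by
      rw [← pow_mul, show 2 * (m + 1) = orderOf g + 1 by omega, pow_succ, pow_orderOf_eq_one,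
        one_mul]
    rw [← h3]
    exact h1.pow_left _
  have h3 : x = x⁻¹ := by
    rw [h2.eq, mul_inv_cancel_right] at hg
    exact hg
  have h4 : x ^ 2 = 1 := by
    rw [pow_two]
    nth_rewrite 2 [h3]
    exact mul_inv_cancel x
  have hxo : Odd (orderOf x) := Odd.of_dvd_nat hodd (orderOf_dvd_natCard x)
  have h5 : orderOf x ∣ 2 := orderOf_dvd_of_pow_eq_one h4
  rcases (Nat.dvd_prime Nat.prime_two).mp h5 with h6 | h6
  · exact hx (orderOf_eq_one_iff.mp h6)
  · rw [h6] at hxo
    exact absurd hxo (by decide)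

end Cfsg.Agent.S0239
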