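import Cfsg.Statements.S0240
import Mathlib

set_option autoImplicit false
open Cfsg

namespace Cfsg.Agent.S0240

/-- Let G be a finite group with n involutions and H a subgroup with |H|·(n+1) > |G|. Then some nontrivial h ∈ H is strongly real in G: an involution t of G satisfies t h t⁻¹ = h⁻¹. -/
theorem result {G : Type*} [Group G] [Finite G] (H : Subgroup G) (hH : Nat.card G < Nat.card H * (Nat.card {t : G // orderOf t = 2} + 1)) : ∃ h : G, h ∈ H ∧ h ≠ 1 ∧ ∃ t : G, orderOf t = 2 ∧ t * h * t⁻¹ = h⁻¹ := by
  classical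
  -- pigeonhole on cosets
  let I := Option {t : G // orderOf t = 2}
  let f : I → G := fun o => match o with
    | none => 1
    | some t => t.1
  have hf : Function.Injective f := by
    rintro (_ | ⟨s, hs⟩) (_ | ⟨t, ht⟩) h
    · rfl
    · exfalso; simp only [f] at h; rw [← h, orderOf_one] at ht; norm_num at ht
    · exfalso; simp only [f] at h; rw [h, orderOf_one] at hs; norm_num at hs
    · simp only [f] at h; subst h; rfl
  have hI : Nat.card I = Nat.card {t : G // orderOf t = 2} + 1 := Finite.card_option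
  have hlt : Nat.card (G ⧸ H) < Nat.card I := by
    rw [hI]
    have h1 := Subgroup.card_mul_index H
    have h2 : H.index = Nat.card (G ⧸ H) := rfl
    rw [← h2]
    rw [← h1] at hH
    exact Nat.lt_of_mul_lt_mul_left hH
  have hni : ¬ Function.Injective (fun o : I => (QuotientGroup.mk (f o) : G ⧸ H)) := by
    intro hinj
    exact absurd (Nat.card_le_card_of_injective _ hinj) (not_le.mpr hlt)
  have sq : ∀ t : G, orderOf t = 2 → t * t = 1 := fun t ht => by
    rw [← pow_two, ← ht]; exact pow_orderOf_eq_one t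
  have inv : ∀ t : G, orderOf t = 2 → t⁻¹ = t := fun t ht => inv_eq_of_mul_eq_one_left (sq t ht)
  simp only [Function.Injective, not_forall] at hni
  obtain ⟨a, b, hab, hne⟩ := hni
  rw [QuotientGroup.eq] at hab
  have hab1 : (f a)⁻¹ * f b ≠ 1 := by
    intro h
    exact hne (hf (inv_mul_eq_one.mp h))
  refine ⟨_, hab, hab1, ?_⟩
  rcases a with _ | ⟨s, hs⟩
  · rcases b with _ | ⟨t, ht⟩
    · exact absurd rfl hne
    · refine ⟨t, ht, ?_⟩
      simp only [f, inv_one, one_mul]
      rw [inv t ht, sq t ht, one_mul]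
  · rcases b with _ | ⟨t, ht⟩
    · refine ⟨s, hs, ?_⟩
      simp only [f, mul_one]
      rw [inv s hs, inv s hs, sq s hs, one_mul]
    · refine ⟨s, hs, ?_⟩
      simp only [f]
      rw [inv s hs, mul_inv_rev, inv s hs, inv t ht, ← mul_assoc, sq s hs, one_mul]

end Cfsg.Agent.S0240
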