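import Cfsg.Statements.S0241
import Mathlib

set_option autoImplicit false
open Cfsg

namespace Cfsg.Agent.S0241

/-- If x ≠ 1 is conjugate to x⁻¹ in a finite group G and |C_G(x)| is odd, then some involution t satisfies t x t⁻¹ = x⁻¹. -/
theorem result {G : Type*} [Group G] [Finite G] (x : G) (hx : x ≠ 1) (hreal : IsConj x x⁻¹) (hodd : Odd (Nat.card (Subgroup.centralizer ({x} : Set G)))) : ∃ t : G, orderOf t = 2 ∧ t * x * t⁻¹ = x⁻¹ := by
  obtain ⟨g, hg⟩ := isConj_iff.mp hreal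
  -- powers
  have hinv : ∀ k : ℕ, Odd k → g ^ k * x * (g ^ k)⁻¹ = x⁻¹ := by
    intro k hk
    obtain ⟨m, rfl⟩ := hk
    have h1 : Commute (g ^ 2) x := by
      have h : g ^ 2 * x * (g ^ 2)⁻¹ = x := by
        calc g ^ 2 * x * (g ^ 2)⁻¹ = g * (g * x * g⁻¹) * g⁻¹ := by simp only [pow_two, mul_inv_rev, mul_assoc]
          _ = g * x⁻¹ * g⁻¹ := by rw [hg]
          _ = (g * x * g⁻¹)⁻¹ := by group
          _ = x := by rw [hg, inv_inv]
      exact mul_inv_eq_iff_eq_mul.mp h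
    have h2 : Commute (g ^ (2 * m)) x := by rw [pow_mul]; exact h1.pow_left _
    calc g ^ (2 * m + 1) * x * (g ^ (2 * m + 1))⁻¹
        = g * (g ^ (2 * m) * x * (g ^ (2 * m))⁻¹) * g⁻¹ := by group
      _ = g * (x * g ^ (2 * m) * (g ^ (2 * m))⁻¹) * g⁻¹ := by rw [h2.eq]
      _ = g * x * g⁻¹ := by group
      _ = x⁻¹ := hg
  obtain ⟨k, m, hm, hkm⟩ := Nat.exists_eq_two_pow_mul_odd (n := orderOf g) (orderOf_pos g).ne'
  set h := g ^ m with hh
  have hhx : h * x * h⁻¹ = x⁻¹ := hinv m hm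
  have hho : h ^ 2 ^ k = 1 := by
    rw [hh, ← pow_mul, mul_comm, ← hkm, pow_orderOf_eq_one]
  -- h ^ 2 centralizes x, so has odd order, and 2-power order
  have hc : h ^ 2 ∈ Subgroup.centralizer ({x} : Set G) := by
    rw [Subgroup.mem_centralizer_singleton_iff]
    have : h ^ 2 * x * (h ^ 2)⁻¹ = x := by
      calc h ^ 2 * x * (h ^ 2)⁻¹ = h * (h * x * h⁻¹) * h⁻¹ := by simp only [pow_two, mul_inv_rev, mul_assoc]
        _ = h * x⁻¹ * h⁻¹ := by rw [hhx]
        _ = (h * x * h⁻¹)⁻¹ := by group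
        _ = x := by rw [hhx, inv_inv]
    exact mul_inv_eq_iff_eq_mul.mp this
  have ho : Odd (orderOf (h ^ 2)) := by
    have := orderOf_dvd_natCard (⟨h ^ 2, hc⟩ : Subgroup.centralizer ({x} : Set G))
    rw [← Subgroup.orderOf_coe] at this
    exact Odd.of_dvd_nat hodd this
  have ho2 : orderOf (h ^ 2) ∣ 2 ^ k := by
    apply orderOf_dvd_of_pow_eq_one
    rw [← pow_mul, mul_comm, pow_mul, hho, one_pow]
  have ho3 : h ^ 2 = 1 := by
    rw [← orderOf_eq_one_iff]
    exact Nat.Coprime.eq_one_of_dvd (Nat.Coprime.pow_right k (Nat.coprime_two_right.mpr ho)) ho2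
  refine ⟨h, orderOf_eq_prime ho3 ?_, hhx⟩
  intro h1
  rw [h1] at hhx
  have h3 : x = x⁻¹ := by simpa using hhx
  have h4 : x ^ 2 = 1 := by
    rw [pow_two]
    nth_rewrite 2 [h3]
    exact mul_inv_cancel x
  have hxc : x ∈ Subgroup.centralizer ({x} : Set G) := by
    rw [Subgroup.mem_centralizer_singleton_iff]
  have hxo : Odd (orderOf x) := by
    have := orderOf_dvd_natCard (⟨x, hxc⟩ : Subgroup.centralizer ({x} : Set G))
    rw [← Subgroup.orderOf_coe] at this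
    exact Odd.of_dvd_nat hodd this
  have h5 : orderOf x ∣ 2 := orderOf_dvd_of_pow_eq_one h4
  rcases (Nat.dvd_prime Nat.prime_two).mp h5 with h6 | h6
  · exact hx (orderOf_eq_one_iff.mp h6)
  · rw [h6] at hxo
    exact absurd hxo (by decide)

end Cfsg.Agent.S0241
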