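import Cfsg.Statements.S0253
import Mathlib
import Cfsg.Agent.H5_A5

set_option autoImplicit false
open Cfsg

namespace Cfsg.Agent.S0253

open Cfsg.Agent.H5 Cfsg.Agent.H5.SL2 Cfsg.Agent.H5.V4

/-- PSL_2(5) is isomorphic to A_5. -/
theorem result {F : Type*} [Field F] [Fintype F] (hF : Fintype.card F = 5) : Nonempty (Matrix.ProjectiveSpecialLinearGroup (Fin 2) F ≃* alternatingGroup (Fin 5)) := by
  obtain ⟨H, ⟨e⟩⟩ := A5.exists_a5 (F := F) (by rw [hF]; decide) (by rw [hF]; exact ⟨24, by norm_num⟩)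
  have hA5 : Nat.card (alternatingGroup (Fin 5)) = 60 := by
    rw [nat_card_alternatingGroup, Nat.card_eq_fintype_card, Fintype.card_fin]; decide
  have h1 : Nat.card H = 60 := by rw [Nat.card_congr e.toEquiv, hA5]
  have h2 : Nat.card (Matrix.ProjectiveSpecialLinearGroup (Fin 2) F) = 60 := by
    have h3 := GL.card_PSL_mul hF 2 (by norm_num)
    have h4 : Nat.card (Matrix.SpecialLinearGroup (Fin 2) F) = 120 := by
      have h5 := card_SL2 (F := F)
      rw [hF] at h5
      exact h5
    rw [h4] at h3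
    norm_num at h3
    omega
  have h3 : H = ⊤ := by
    apply Subgroup.eq_top_of_card_eq
    rw [h1, h2]
  subst h3
  exact ⟨Subgroup.topEquiv.symm.trans e⟩

end Cfsg.Agent.S0253
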