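import Cfsg.Statements.S0254
import Mathlib
import Cfsg.Agent.S0497
import Cfsg.Agent.H5_GL
import Cfsg.Agent.H5_SL2

set_option autoImplicit false
open Cfsg

namespace Cfsg.Agent.S0254

/-- PSL_2(9) is isomorphic to A_6. -/
theorem result {F : Type*} [Field F] [Fintype F] (hF : Fintype.card F = 9) : Nonempty (Matrix.ProjectiveSpecialLinearGroup (Fin 2) F ≃* alternatingGroup (Fin 6)) := by
  have h1 : IsSimpleGroup (Matrix.ProjectiveSpecialLinearGroup (Fin 2) F) :=
    Matrix.ProjectiveSpecialLinearGroup.rank_two_simple (by rw [Nat.card_eq_fintype_card, hF]; norm_num)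
  apply S0497.result
  have h3 := H5.GL.card_PSL_mul hF 2 (by norm_num)
  have h4 : Nat.card (Matrix.SpecialLinearGroup (Fin 2) F) = 720 := by
    have h5 := H5.SL2.card_SL2 (F := F)
    rw [hF] at h5
    exact h5
  rw [h4] at h3
  norm_num at h3
  omega

end Cfsg.Agent.S0254
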