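import Cfsg.Statements.S0257
import Mathlib
import Cfsg.Agent.H5_SmallIso
import Cfsg.Agent.H5_Dih

set_option autoImplicit false
open Cfsg

namespace Cfsg.Agent.S0257

open Cfsg.Agent.H5.SL2 Matrix

theorem mem_norm_of {G : Type*} [Group G] [Finite G] (Q : Subgroup G) (g : G)
    (h : ∀ x ∈ Q, g * x * g⁻¹ ∈ Q) : g ∈ Subgroup.normalizer (Q : Set G) := by
  have h1 : Q.map (MulAut.conj g).toMonoidHom ≤ Q := by
    rintro _ ⟨x, hx, rfl⟩; exact h x hx
  have h2 : Q.map (MulAut.conj g).toMonoidHom = Q := by
    apply Subgroup.eq_of_le_of_card_ge h1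
    rw [Subgroup.card_map_of_injective (MulAut.conj g).injective]
  rw [Subgroup.mem_normalizer_iff]
  intro x
  refine ⟨h x, fun hx => ?_⟩
  have h3 : g * x * g⁻¹ ∈ Q.map (MulAut.conj g).toMonoidHom := by rw [h2]; exact hx
  obtain ⟨y, hy, hy'⟩ := h3
  have : x = y := by
    have : g * y * g⁻¹ = g * x * g⁻¹ := hy'
    exact (mul_left_cancel (mul_right_cancel this)).symm
  rw [this]; exact hy

/-- SL_2(3) has a normal subgroup of index 3 isomorphic to the quaternion group of order 8, and its centre has order 2. -/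
theorem result {F : Type*} [Field F] [Fintype F] (hF : Fintype.card F = 3) : (∃ Q : Subgroup (Matrix.SpecialLinearGroup (Fin 2) F), Q.Normal ∧ Q.index = 3 ∧ Nonempty (Q ≃* QuaternionGroup 2)) ∧ Nat.card (Subgroup.center (Matrix.SpecialLinearGroup (Fin 2) F)) = 2 := by
  refine ⟨?_, ?_⟩
  swap
  · rw [Cfsg.Agent.H5.GL.card_center_SL hF 2 (by norm_num)]
    decide
  have h3 : CharP F 3 := charP_of_card_eq_prime_pow (f := 1) (by rw [hF]; norm_num)
  have h30 : (3 : F) = 0 := by exact_mod_cast CharP.cast_eq_zero F 3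
  have h2 : (2 : F) = -1 := by linear_combination h30
  have h2ne : (2 : F) ≠ 0 := by rw [h2]; exact neg_ne_zero.mpr one_ne_zero
  have hall : ∀ c : F, c = 0 ∨ c = 1 ∨ c = -1 := by
    intro c
    have := FiniteField.pow_card c
    rw [hF] at this
    have h4 : c * (c - 1) * (c + 1) = 0 := by linear_combination this
    rcases mul_eq_zero.mp h4 with h | h
    · rcases mul_eq_zero.mp h with h | h
      · exact Or.inl h
      · exact Or.inr (Or.inl (sub_eq_zero.mp h))
    · exact Or.inr (Or.inr (eq_neg_of_add_eq_zero_left h))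
  let x : Matrix.SpecialLinearGroup (Fin 2) F := w 1
  let y : Matrix.SpecialLinearGroup (Fin 2) F := ⟨!![1, 1; 1, -1], by rw [Matrix.det_fin_two]; simp; linear_combination -h30⟩
  have x00 : x.1 0 0 = 0 := rfl
  have x01 : x.1 0 1 = -1 := by simp [x]
  have x10 : x.1 1 0 = 1 := by simp [x]
  have x11 : x.1 1 1 = 0 := rfl
  have y00 : y.1 0 0 = 1 := rfl
  have y01 : y.1 0 1 = 1 := rfl
  have y10 : y.1 1 0 = 1 := rfl
  have y11 : y.1 1 1 = -1 := rfl
  have hxx : x * x = -1 := by
    apply ext2 <;> simp [mul00, mul01, mul10, mul11, x00, x01, x10, x11, neg00, neg01, neg10, neg11, one00, one01, one10, one11]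
  have hyy : y * y = -1 := by
    apply ext2 <;> simp [mul00, mul01, mul10, mul11, y00, y01, y10, y11, neg00, neg01, neg10, neg11, one00, one01, one10, one11]
    · linear_combination h30
    · linear_combination h30
  have hyx : y * x = x⁻¹ * y := by
    apply ext2 <;> simp [mul00, mul01, mul10, mul11, x00, x01, x10, x11, y00, y01, y10, y11, inv00, inv01, inv10, inv11]
  have hx2 : x ^ 2 = -1 := by rw [sq, hxx]
  have hneg : (-1 : Matrix.SpecialLinearGroup (Fin 2) F) ≠ 1 := by
    intro h
    have := congrArg (fun g : S F => g.1 0 0) h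
    simp only [neg00, one00] at this
    apply h2ne
    linear_combination -this
  have hx : orderOf x = 2 * 2 := by
    have : orderOf x = 2 ^ (1 + 1) := by
      apply orderOf_eq_prime_pow
      · rw [pow_one, hx2]; exact hneg
      · rw [pow_succ, pow_mul, pow_one, hx2]; simp
    rw [this]; norm_num
  have hconj : y * x * y⁻¹ = x⁻¹ := by rw [hyx, mul_inv_cancel_right]
  have hnot : y ∉ Subgroup.zpowers x := by
    rintro ⟨k, hk⟩
    have hk : x ^ k = y := hk
    have hc : y * x = x * y := by rw [← hk, ← _root_.zpow_one_add, ← _root_.zpow_add_one, add_comm]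
    rw [hyx] at hc
    have h5 := mul_right_cancel hc
    have h6 : x * x = 1 := by
      calc x * x = x⁻¹ * x := by rw [h5]
        _ = 1 := inv_mul_cancel x
    rw [hxx] at h6
    exact hneg h6
  have hy : y * y = x ^ 2 := by rw [hyy, hx2]
  have hinj := Cfsg.Agent.H5.Dih.quatHom_injective x y hx hy hconj hnot
  set φ := Cfsg.Agent.H5.Dih.quatHom x y hx hy hconj with hφ
  have hxr : x ∈ φ.range := by
    refine ⟨QuaternionGroup.a 1, ?_⟩
    change x ^ (ZMod.val (1 : ZMod (2 * 2))) = x
    have : ZMod.val (1 : ZMod (2 * 2)) = 1 := by decide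
    rw [this, pow_one]
  have hyr : y ∈ φ.range := by
    refine ⟨QuaternionGroup.xa 0, ?_⟩
    change y * x ^ (ZMod.val (0 : ZMod (2 * 2))) = y
    have : ZMod.val (0 : ZMod (2 * 2)) = 0 := by decide
    rw [this, pow_zero, mul_one]
  have hgen : ∀ K : Subgroup (S F), x ∈ K → y ∈ K → φ.range ≤ K := by
    rintro K hxK hyK _ ⟨(i | i), rfl⟩
    · exact K.pow_mem hxK _
    · exact K.mul_mem hyK (K.pow_mem hxK _)
  have hcomm : ∀ g : S F, g * x * g⁻¹ ∈ φ.range → g * y * g⁻¹ ∈ φ.range → g ∈ Subgroup.normalizer (φ.range : Set (S F)) := by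
    intro g h1 h2
    apply mem_norm_of
    exact hgen (φ.range.comap (MulAut.conj g).toMonoidHom) h1 h2
  have hu1 : u (1 : F) ∈ Subgroup.normalizer (φ.range : Set (S F)) := by
    apply hcomm
    · have : u (1 : F) * x * (u 1)⁻¹ = y := by
        apply ext2 <;> simp [mul00, mul01, mul10, mul11, x00, x01, x10, x11, y00, y01, y10, y11, inv00, inv01, inv10, inv11]
        linear_combination -h30
      rw [this]; exact hyr
    · have : u (1 : F) * y * (u 1)⁻¹ = x * y := by
        apply ext2 <;> simp [mul00, mul01, mul10, mul11, x00, x01, x10, x11, y00, y01, y10, y11, inv00, inv01, inv10, inv11]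
        · linear_combination h30
        · linear_combination -h30
        · linear_combination -h30
      rw [this]; exact mul_mem hxr hyr
  have hl1 : l (1 : F) ∈ Subgroup.normalizer (φ.range : Set (S F)) := by
    apply hcomm
    · have : l (1 : F) * x * (l 1)⁻¹ = (x * y)⁻¹ := by
        apply ext2 <;> simp [mul00, mul01, mul10, mul11, x00, x01, x10, x11, y00, y01, y10, y11, inv00, inv01, inv10, inv11]
        linear_combination h30
      rw [this]; exact inv_mem (mul_mem hxr hyr)
    · have : l (1 : F) * y * (l 1)⁻¹ = x⁻¹ := by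
        apply ext2 <;> simp [mul00, mul01, mul10, mul11, x00, x01, x10, x11, y00, y01, y10, y11, inv00, inv01, inv10, inv11]
        linear_combination h30
      rw [this]; exact inv_mem hxr
  have hnorm : Subgroup.normalizer (φ.range : Set (S F)) = ⊤ := by
    apply eq_top_of_ul
    · intro c
      rcases hall c with rfl | rfl | rfl
      · rw [u_zero]; exact one_mem _
      · exact hu1
      · rw [← u_inv]; exact inv_mem hu1
    · intro c
      rcases hall c with rfl | rfl | rfl
      · rw [l_zero]; exact one_mem _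
      · exact hl1
      · rw [← l_inv]; exact inv_mem hl1
  refine ⟨φ.range, Subgroup.normalizer_eq_top_iff.mp hnorm, ?_, ⟨(MonoidHom.ofInjective hinj).symm⟩⟩
  have h1 := φ.range.index_mul_card
  rw [← Nat.card_congr (MonoidHom.ofInjective hinj).toEquiv, Nat.card_eq_fintype_card (α := QuaternionGroup 2), QuaternionGroup.card,
    card_SL2, hF] at h1
  omega

end Cfsg.Agent.S0257
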