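import Cfsg.Statements.S0263
import Mathlib

set_option autoImplicit false
open Cfsg

namespace Cfsg.Agent.S0263

theorem prod_eq (q n : ℕ) : ∏ i : Fin n, (q ^ n - q ^ (i : ℕ)) =
    q ^ (n * (n - 1) / 2) * ∏ i : Fin n, (q ^ ((i : ℕ) + 1) - 1) := by
  have h1 : ∀ i : Fin n, (q ^ n - q ^ (i : ℕ)) = q ^ (i : ℕ) * (q ^ (n - (i : ℕ)) - 1) := by
    intro i
    rw [Nat.mul_sub, ← pow_add, mul_one]
    congr 2
    omega
  rw [Finset.prod_congr rfl (fun i _ => h1 i), Finset.prod_mul_distrib]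
  congr 1
  · rw [Finset.prod_pow_eq_pow_sum, Fin.sum_univ_eq_sum_range (fun i => i), Finset.sum_range_id]
  · apply Fintype.prod_equiv (Fin.revPerm)
    intro i
    simp only [Fin.revPerm_apply, Fin.val_rev]
    congr 2
    omega

/-- A Sylow p-subgroup of GL_n(q), p the characteristic, has order q^(n(n-1)/2). -/
theorem result {F : Type*} [Field F] [Fintype F] {q : ℕ} (hF : Fintype.card F = q) (p : ℕ) [Fact p.Prime] [CharP F p] (n : ℕ) (P : Sylow p (Matrix.GeneralLinearGroup (Fin n) F)) : Nat.card P = q ^ (n * (n - 1) / 2) := by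
  obtain ⟨k, hk, hq⟩ := FiniteField.card F p
  have hp : p.Prime := Fact.out
  rw [hF] at hq
  have hk1 : 1 ≤ (k : ℕ) := k.2
  rw [Sylow.card_eq_multiplicity, Matrix.card_GL_field, hF, prod_eq]
  have h2 : (∏ i : Fin n, (q ^ ((i : ℕ) + 1) - 1)).factorization p = 0 := by
    apply Nat.factorization_eq_zero_of_not_dvd
    rw [Prime.dvd_finsetProd_iff hp.prime]
    rintro ⟨i, -, hi⟩
    have h3 : p ∣ q ^ ((i : ℕ) + 1) := by
      rw [hq, ← pow_mul]
      exact dvd_pow_self _ (by positivity)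
    have h4 : 1 ≤ q ^ ((i : ℕ) + 1) := Nat.one_le_pow _ _ (by rw [hq]; exact pow_pos hp.pos _)
    have h5 : p ∣ q ^ ((i : ℕ) + 1) - (q ^ ((i : ℕ) + 1) - 1) := Nat.dvd_sub h3 hi
    rw [Nat.sub_sub_self h4] at h5
    exact hp.one_lt.ne' (Nat.dvd_one.mp h5)
  have h6 : (∏ i : Fin n, (q ^ ((i : ℕ) + 1) - 1)) ≠ 0 := by
    rw [Finset.prod_ne_zero_iff]
    intro i _
    have : 1 < q ^ ((i : ℕ) + 1) := by
      apply Nat.one_lt_pow (by omega)
      rw [hq]; exact Nat.one_lt_pow (by omega) hp.one_lt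
    omega
  have h7 : q ^ (n * (n - 1) / 2) ≠ 0 := by
    apply pow_ne_zero; rw [hq]; exact pow_ne_zero _ hp.ne_zero
  rw [Nat.factorization_mul h7 h6, Finsupp.add_apply, h2, add_zero]
  conv_rhs => rw [hq]
  rw [hq, ← pow_mul, hp.factorization_pow, Finsupp.single_eq_same]

end Cfsg.Agent.S0263
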