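import Cfsg.Statements.S0264
import Mathlib
import Cfsg.Agent.H5_SL

set_option autoImplicit false
open Cfsg

namespace Cfsg.Agent.S0264

open Matrix Matrix.SpecialLinearGroup
open scoped commutatorElement

theorem key_two {F : Type*} [Field F] (a : F) (ha0 : a ≠ 0) (ha1 : a ≠ 1) {i j : Fin 2}
    (hij : i ≠ j) (c : F) :
    toGL (Matrix.SpecialLinearGroup.transvection hij c) ∈ commutator (GL (Fin 2) F) := by
  set d : GL (Fin 2) F := Matrix.GeneralLinearGroup.mkOfDetNeZero
    (diagonal (fun k => if k = i then a else 1)) (by
      rw [det_diagonal]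
      exact Finset.prod_ne_zero_iff.mpr (fun k _ => by split_ifs; exacts [ha0, one_ne_zero])) with hd
  have h1 : ⁅d, toGL (Matrix.SpecialLinearGroup.transvection hij (c / (a - 1)))⁆ =
      toGL (Matrix.SpecialLinearGroup.transvection hij c) := by
    rw [commutatorElement_def, mul_inv_eq_iff_eq_mul, mul_inv_eq_iff_eq_mul]
    apply Units.ext
    simp only [Units.val_mul]
    change diagonal (fun k => if k = i then a else 1) * (1 + single i j (c / (a - 1))) =
      (1 + single i j c) * (1 + single i j (c / (a - 1))) * diagonal (fun k => if k = i then a else 1)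
    simp only [mul_add, add_mul, mul_one, one_mul,
      H5.SL.diagonal_mul_single, H5.SL.single_mul_diagonal,
      single_mul_single_of_ne _ _ _ _ hij.symm]
    simp only [↓reduceIte, hij.symm, add_zero, Matrix.zero_mul]
    rw [add_assoc, ← single_add]
    congr 2
    have : a - 1 ≠ 0 := sub_ne_zero.mpr ha1
    field_simp
    ring
  rw [← h1]
  exact Subgroup.commutator_mem_commutator (Subgroup.mem_top _) (Subgroup.mem_top _)

/-- GL_n(F)' = SL_n(F) (as the kernel of det), for every field F and every n, except n = 2 over the field of two elements. -/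
theorem result {F : Type*} [Field F] (n : ℕ) (h : n = 2 → ∃ a : F, a ≠ 0 ∧ a ≠ 1) : commutator (Matrix.GeneralLinearGroup (Fin n) F) = (Matrix.GeneralLinearGroup.det : Matrix.GeneralLinearGroup (Fin n) F →* Fˣ).ker := by
  apply le_antisymm
  · rw [commutator_eq_closure, Subgroup.closure_le]
    rintro _ ⟨x, y, rfl⟩
    rw [SetLike.mem_coe, MonoidHom.mem_ker, map_commutatorElement, commutatorElement_eq_one_iff_mul_comm,
      mul_comm]
  · rw [← H5.GL.range_toGL]
    rintro _ ⟨s, rfl⟩
    rcases Nat.lt_or_ge n 2 with hn | hn
    · have : Subsingleton (Fin n) := by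
        interval_cases n <;> infer_instance
      rw [Subsingleton.elim s 1, map_one]
      exact one_mem _
    · have : Nontrivial (Fin n) := Fin.nontrivial_iff_two_le.mpr hn
      have hs : s ∈ Subgroup.closure {g : Matrix.SpecialLinearGroup (Fin n) F |
          ∃ (i j : Fin n) (hij : i ≠ j) (a : F), g = Matrix.SpecialLinearGroup.transvection hij a} := by
        rw [H5.SL.closure_transvections]; exact Subgroup.mem_top _
      have hmap : (Subgroup.closure {g : Matrix.SpecialLinearGroup (Fin n) F |
          ∃ (i j : Fin n) (hij : i ≠ j) (a : F), g = Matrix.SpecialLinearGroup.transvection hij a}) ≤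
          (commutator (Matrix.GeneralLinearGroup (Fin n) F)).comap toGL := by
        rw [Subgroup.closure_le]
        rintro _ ⟨i, j, hij, a, rfl⟩
        rw [SetLike.mem_coe, Subgroup.mem_comap]
        rcases Nat.lt_or_ge n 3 with hn3 | hn3
        · obtain rfl : n = 2 := by omega
          obtain ⟨b, hb0, hb1⟩ := h rfl
          exact key_two b hb0 hb1 hij a
        · obtain ⟨x, y, hxy⟩ := H5.SL.transvection_mem_commutatorSet (F := F) (ι := Fin n)
            (by simpa using (by omega : 2 < n)) hij a
          rw [← hxy, map_commutatorElement]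
          exact Subgroup.commutator_mem_commutator (Subgroup.mem_top _) (Subgroup.mem_top _)
      exact hmap hs

end Cfsg.Agent.S0264
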