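import Cfsg.Statements.S0267
import Mathlib
import Cfsg.Agent.H5_P1

set_option autoImplicit false
open Cfsg

namespace Cfsg.Agent.S0267

open Cfsg.Agent.H5.P1 Cfsg.Agent.H5.SL2 MulAction
open scoped MatrixGroups LinearAlgebra.Projectivization

theorem smul_eq {F : Type*} [Field F] (s : Matrix.SpecialLinearGroup (Fin 2) F) (x : ℙ F (Fin 2 → F)) :
    s • x = (Matrix.ProjGenLinGroup.mk (Matrix.SpecialLinearGroup.toGL s)) • x := by
  induction x using Projectivization.ind with | _ v hv => rfl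

/-- SL_2(q) is 3-transitive on the q+1 points of the projective line if and only if q is even. -/
theorem result {F : Type*} [Field F] [Fintype F] : MulAction.IsMultiplyPretransitive (Matrix.SpecialLinearGroup (Fin 2) F) (Projectivization F (Fin 2 → F)) 3 ↔ ringChar F = 2 := by
  constructor
  · intro h
    by_contra hc
    obtain ⟨a, ha⟩ := FiniteField.exists_nonsquare (F := F) hc
    have ha0 : a ≠ 0 := by rintro rfl; exact ha ⟨0, by simp⟩
    have ha1 : a ≠ 1 := by rintro rfl; exact ha ⟨1, by simp⟩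
    have hP : (![1, a] : Fin 2 → F) ≠ 0 := by
      intro h; have := congrFun h 0; simp at this
    have h01 : (P0 : ℙ F (Fin 2 → F)) ≠ P1 := by
      rw [P0, P1, Ne, mk_eq_iff]; simp [cr]
    have h02 : (P0 : ℙ F (Fin 2 → F)) ≠ P2 := by
      rw [P0, P2, Ne, mk_eq_iff]; simp [cr]
    have h12 : (P1 : ℙ F (Fin 2 → F)) ≠ P2 := by
      rw [P1, P2, Ne, mk_eq_iff]; simp [cr]
    have h0a : (P0 : ℙ F (Fin 2 → F)) ≠ Projectivization.mk F ![1, a] hP := by
      rw [P0, Ne, mk_eq_iff]; simp [cr, ha0]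
    have h1a : (P1 : ℙ F (Fin 2 → F)) ≠ Projectivization.mk F ![1, a] hP := by
      rw [P1, Ne, mk_eq_iff]; simp [cr]
    let x : Fin 3 ↪ ℙ F (Fin 2 → F) := ⟨![P0, P1, P2], by
      intro i j hij
      fin_cases i <;> fin_cases j <;> simp [h01, h02, h12, h01.symm, h02.symm, h12.symm] at hij ⊢⟩
    let y : Fin 3 ↪ ℙ F (Fin 2 → F) := ⟨![P0, P1, Projectivization.mk F ![1, a] hP], by
      intro i j hij
      fin_cases i <;> fin_cases j <;> simp [h01, h0a, h1a, h01.symm, h0a.symm, h1a.symm] at hij ⊢⟩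
    obtain ⟨g, hg⟩ := h.exists_smul_eq x y
    have hsm : ∀ x : Fin 2 → F, g • x = (g : Matrix (Fin 2) (Fin 2) F).mulVec x := fun x => rfl
    have hg0 : g • (P0 : ℙ F (Fin 2 → F)) = P0 := congrArg (fun z : Fin 3 ↪ ℙ F (Fin 2 → F) => z 0) hg
    have hg1 : g • (P1 : ℙ F (Fin 2 → F)) = P1 := congrArg (fun z : Fin 3 ↪ ℙ F (Fin 2 → F) => z 1) hg
    have hg2 : g • (P2 : ℙ F (Fin 2 → F)) = Projectivization.mk F ![1, a] hP := congrArg (fun z : Fin 3 ↪ ℙ F (Fin 2 → F) => z 2) hg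
    rw [P0, Projectivization.smul_mk, mk_eq_iff, hsm] at hg0
    rw [P1, Projectivization.smul_mk, mk_eq_iff, hsm] at hg1
    rw [P2, Projectivization.smul_mk, mk_eq_iff, hsm] at hg2
    simp [cr, Matrix.mulVec, dotProduct, Fin.sum_univ_two] at hg0 hg1 hg2
    have hd := det_eq g
    rw [hg0, mul_zero, sub_zero] at hd
    rw [hg0, hg1] at hg2
    apply ha
    refine ⟨g.1 1 1, ?_⟩
    linear_combination (g.1 1 1) * hg2 - a * hd
  · intro hc
    have hsq : ∀ a : F, ∃ b, b ^ 2 = a := by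
      intro a
      have := FiniteField.isSquare_of_char_two hc a
      obtain ⟨b, hb⟩ := this
      exact ⟨b, by rw [hb, sq]⟩
    have hlift : ∀ g : PGL(2, F), ∃ s : Matrix.SpecialLinearGroup (Fin 2) F, ∀ x : ℙ F (Fin 2 → F), s • x = g • x := by
      intro g
      obtain ⟨⟨s⟩, hs⟩ := Matrix.ProjectiveSpecialLinearGroup.toPGL_surj_of_roots (n := Fin 2) (R := F) (by
        intro r
        obtain ⟨b, hb⟩ := hsq r
        have hb0 : b ≠ 0 := by rintro rfl; exact r.ne_zero (by rw [← hb]; simp)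
        refine ⟨Units.mk0 b hb0, ?_⟩
        apply Units.ext
        simpa using hb) g
      refine ⟨s, fun x => ?_⟩
      rw [smul_eq, ← hs]; rfl
    have hm := (Cfsg.Agent.H5.P1.multi (F := F))
    refine ⟨fun x y => ?_⟩
    obtain ⟨g, hg⟩ := hm.exists_smul_eq x y
    obtain ⟨s, hs⟩ := hlift g
    refine ⟨s, ?_⟩
    rw [← hg]
    ext i
    exact hs _

end Cfsg.Agent.S0267
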