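import Cfsg.Statements.S0268
import Mathlib

set_option autoImplicit false
open Cfsg

namespace Cfsg.Agent.S0268

/-- For q odd, -1 is the unique involution of SL_2(q). -/
theorem result {F : Type*} [Field F] [Fintype F] (hF : Odd (Fintype.card F)) (g : Matrix.SpecialLinearGroup (Fin 2) F) (h1 : g ≠ 1) (h2 : g * g = 1) : (g : Matrix (Fin 2) (Fin 2) F) = -1 := by
  have h2' : (2 : F) ≠ 0 := by
    intro h0
    have hc : CharP F 2 := by
      have : ringChar F = 2 := by
        have h3 : (ringChar F) ∣ 2 := (ringChar.spec F 2).mp (by exact_mod_cast h0)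
        rcases (Nat.dvd_prime Nat.prime_two).mp h3 with h | h
        · exfalso
          have := CharP.ringChar_ne_one (R := F)
          exact this h
        · exact h
      exact ringChar.of_eq this
    obtain ⟨k, hk, hq⟩ := FiniteField.card F 2
    rw [hq] at hF
    have : Even (2 ^ (k : ℕ)) := Nat.even_pow.mpr ⟨even_two, k.2.ne'⟩
    exact (Nat.not_even_iff_odd.mpr hF) this
  have hinv : g⁻¹ = g := inv_eq_of_mul_eq_one_left h2
  have hexp := Matrix.SpecialLinearGroup.SL2_inv_expl g
  rw [hinv] at hexp
  have e00 : g.1 0 0 = g.1 1 1 := by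
    conv_lhs => rw [hexp]
    rfl
  have e01 : g.1 0 1 = - g.1 0 1 := by
    conv_lhs => rw [hexp]
    rfl
  have e10 : g.1 1 0 = - g.1 1 0 := by
    conv_lhs => rw [hexp]
    rfl
  have z01 : g.1 0 1 = 0 := by
    have : (2 : F) * g.1 0 1 = 0 := by linear_combination e01
    exact (mul_eq_zero.mp this).resolve_left h2'
  have z10 : g.1 1 0 = 0 := by
    have : (2 : F) * g.1 1 0 = 0 := by linear_combination e10
    exact (mul_eq_zero.mp this).resolve_left h2'
  have hdet := g.2
  rw [Matrix.det_fin_two, z01, z10, ← e00] at hdet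
  have h3 : (g.1 0 0 - 1) * (g.1 0 0 + 1) = 0 := by linear_combination hdet
  rcases mul_eq_zero.mp h3 with h4 | h4
  · exfalso
    apply h1
    have h5 : g.1 0 0 = 1 := by linear_combination h4
    ext i j
    fin_cases i <;> fin_cases j
    · simpa using h5
    · simpa using z01
    · simpa using z10
    · simpa using e00.symm.trans h5
  · have h5 : g.1 0 0 = -1 := by linear_combination h4
    ext i j
    fin_cases i <;> fin_cases j
    · simpa using h5
    · simpa using z01
    · simpa using z10
    · simpa using e00.symm.trans h5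

end Cfsg.Agent.S0268
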