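import Cfsg.Statements.S0275
import Mathlib
import Cfsg.Agent.S0274
import Cfsg.Agent.H5_SL2Quat
import Cfsg.Agent.H5_V4b

set_option autoImplicit false
open Cfsg

namespace Cfsg.Agent.S0275

open Cfsg.Agent.H5 Cfsg.Agent.H5.SL2 Cfsg.Agent.H5.V4 Cfsg.Agent.H5.SL2Quat

theorem exists_q8 {F : Type*} [Field F] [Fintype F] (hF : Odd (Fintype.card F)) :
    ∃ x y : SL2.S F, orderOf x = 2 * 2 ∧ y * y = x ^ 2 ∧ y * x * y⁻¹ = x⁻¹ := by
  have h2 := SL2Quat.two_ne_zero' hF
  obtain ⟨a, b, hab⟩ := sum_two_sq hF (-1)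
  let y : SL2.S F := mk2 a b b (-a) (by linear_combination -hab)
  have y00 : y.1 0 0 = a := rfl
  have y01 : y.1 0 1 = b := rfl
  have y10 : y.1 1 0 = b := rfl
  have y11 : y.1 1 1 = -a := rfl
  have hxx : w (1 : Fˣ) * w 1 = -1 := by
    apply ext2 <;> simp [mul00, mul01, mul10, mul11, neg00, neg01, neg10, neg11, one00, one01, one10, one11]
  have hyy : y * y = -1 := by
    apply ext2 <;> simp [mul00, mul01, mul10, mul11, y00, y01, y10, y11, neg00, neg01, neg10, neg11, one00, one01, one10, one11]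
    · linear_combination hab
    · ring
    · ring
    · linear_combination hab
  have hyx : y * w 1 = (w 1)⁻¹ * y := by
    apply ext2 <;> simp [mul00, mul01, mul10, mul11, y00, y01, y10, y11, inv00, inv01, inv10, inv11]
  have hx2 : (w (1 : Fˣ)) ^ 2 = -1 := by rw [sq, hxx]
  have hx : orderOf (w (1 : Fˣ)) = 2 * 2 := by
    have : orderOf (w (1 : Fˣ)) = 2 ^ (1 + 1) := by
      apply orderOf_eq_prime_pow
      · rw [pow_one, hx2]; exact neg_one_ne h2
      · rw [pow_succ, pow_mul, pow_one, hx2]; simp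
    rw [this]; norm_num
  exact ⟨w 1, y, hx, by rw [hyy, hx2], by rw [hyx, mul_inv_cancel_right]⟩

/-- If p is odd and H is a subgroup of SL_2(q), q a power of p, with more than one Sylow p-subgroup, then the Sylow 2-subgroups of H are generalised quaternion. -/
theorem result {F : Type*} [Field F] [Fintype F] (p : ℕ) [Fact p.Prime] [CharP F p] (hp : p ≠ 2) (H : Subgroup (Matrix.SpecialLinearGroup (Fin 2) F)) (hH : 1 < Nat.card (Sylow p H)) (S : Sylow 2 H) : ∃ k : ℕ, 1 ≤ k ∧ Nonempty ((S : Subgroup H) ≃* QuaternionGroup (2 ^ k)) := by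
  have hpp : p.Prime := Fact.out
  have hodd : Odd p := hpp.eq_two_or_odd'.resolve_left hp
  obtain ⟨K, hK, ⟨e⟩⟩ := S0274.result p hp H hH
  obtain ⟨x, y, hx, hy, hxy⟩ := exists_q8 (F := ZMod p) (by rw [ZMod.card]; exact hodd)
  have h2 : (2 : F) ≠ 0 := by
    intro h
    have h1 : ((2 : ℕ) : F) = 0 := by exact_mod_cast h
    rw [CharP.cast_eq_zero_iff F p] at h1
    exact hp ((Nat.prime_dvd_prime_iff_eq hpp Nat.prime_two).mp h1)
  let f : SL2.S (ZMod p) →* H := (Subgroup.inclusion hK).comp e.symm.toMonoidHom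
  have hf : Function.Injective f := (Subgroup.inclusion_injective hK).comp e.symm.injective
  exact quat_sylow h2 H.subtype H.subtype_injective (f x) (f y) (by rw [orderOf_injective f hf, hx])
    (by rw [← map_mul, hy, map_pow]) (by rw [← map_mul, ← map_inv, ← map_mul, hxy, map_inv]) S

end Cfsg.Agent.S0275
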