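import Cfsg.Statements.S0281
import Mathlib
import Cfsg.Agent.H5_Unit
import Cfsg.Agent.H5_FF

set_option autoImplicit false
open Cfsg

namespace Cfsg.Agent.S0281

open Matrix Cfsg.Agent.H5 Cfsg.Agent.H5.Unit

theorem exists_P {F : Type*} [Field F] [Fintype F] {q : ℕ} (hF : Fintype.card F = q ^ 2) :
    ∃ (P : Matrix (Fin 2) (Fin 2) F) (c : F), c ≠ 0 ∧ P.det ≠ 0 ∧
      Pᵀ * P.map (Fld.frob hF) = c • !![0, 1; -1, 0] := by
  obtain ⟨u, hu0, hu⟩ := Herm.exists_sing (Herm.hermFrm_isHerm hF 2) (Conc.hermFrm_nondeg hF 2)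
    (by simp)
  obtain ⟨f, hp⟩ := Frm.exists_partner (Conc.hermFrm_nondeg hF 2) hu0 hu
  obtain ⟨c, hc0, hc⟩ := exists_ker_ne hF
  have hcq : c ^ q = -c := by rw [eq_neg_iff_add_eq_zero, add_comm, hc]
  have h1 : Cfsg.hermForm 2 F q u u = 0 := hp.Qu
  have h2 : Cfsg.hermForm 2 F q f f = 0 := hp.Qf
  have h3 : Cfsg.hermForm 2 F q f u = 1 := hp.Buf
  have h4 : Cfsg.hermForm 2 F q u f = 1 := hp.Bfu
  have hq0 : q ≠ 0 := by have := Fld.one_lt_q hF; omega
  obtain ⟨d, hd1, hneg⟩ : ∃ d, d = -c ∧ d ^ q = c := by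
    refine ⟨-c, rfl, ?_⟩
    have : (-c) ^ q = -(c ^ q) := by
      rw [← Fld.frob_apply hF, ← Fld.frob_apply hF, map_neg]
    rw [this, hcq, neg_neg]
  let w : Fin 2 → Fin 2 → F := ![u, d • f]
  have hw : ∀ i j, Cfsg.hermForm 2 F q (w i) (w j) = (c • !![0, 1; -1, 0] : Matrix (Fin 2) (Fin 2) F) i j := by
    intro i j
    fin_cases i <;> fin_cases j
    · simp [w, h1]
    · simp [w, herm_smul_right, h4, hneg]
    · change Cfsg.hermForm 2 F q (d • f) u = _
      rw [herm_smul_left, h3, hd1]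
      simp
    · simp [w, herm_smul_left, herm_smul_right, h2]
  have hmain : (Matrix.of w)ᵀᵀ * (Matrix.of w)ᵀ.map (Fld.frob hF) = c • !![0, 1; -1, 0] := by
    ext i j
    rw [← hw, Matrix.mul_apply, Cfsg.hermForm]
    refine Finset.sum_congr rfl (fun k _ => ?_)
    rw [Matrix.map_apply, Fld.frob_apply]
    rfl
  refine ⟨(Matrix.of w)ᵀ, c, hc0, ?_, hmain⟩
  intro h0
  have h5 := congrArg Matrix.det hmain
  rw [Matrix.det_mul, Matrix.det_transpose, h0, zero_mul, Matrix.det_smul] at h5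
  simp at h5
  exact pow_ne_zero 2 hc0 h5.symm

theorem J_mul {F : Type*} [CommRing F] (m : Matrix (Fin 2) (Fin 2) F) :
    mᵀ * !![0, 1; -1, 0] * m = m.det • !![0, 1; -1, 0] := by
  ext i j
  fin_cases i <;> fin_cases j <;> simp [Matrix.mul_apply, Fin.sum_univ_two, Matrix.det_fin_two,
    Matrix.vecHead, Matrix.vecTail] <;> ring

/-- SU_2(q) is isomorphic to SL_2(q). -/
theorem result {F K : Type*} [Field F] [Fintype F] [Field K] [Fintype K] {q : ℕ} (hF : Fintype.card F = q ^ 2) (hK : Fintype.card K = q) : Nonempty (Cfsg.SU 2 F q ≃* Matrix.SpecialLinearGroup (Fin 2) K) := by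
  obtain ⟨ι, hι⟩ := Cfsg.Agent.H5.FF.exists_embedding hK hF two_ne_zero
  obtain ⟨P, c, hc, hPd, hP⟩ := exists_P hF
  have hPu : IsUnit P.det := isUnit_iff_ne_zero.mpr hPd
  have hPP : P⁻¹ * P = 1 := Matrix.nonsing_inv_mul P hPu
  have hPP' : P * P⁻¹ = 1 := Matrix.mul_nonsing_inv P hPu
  have hfrob : ∀ k : K, Fld.frob hF (ι k) = ι k := fun k => by
    rw [Fld.frob_apply]; exact (hι _).mpr ⟨k, rfl⟩
  have hcJ : IsUnit (c • !![0, 1; -1, 0] : Matrix (Fin 2) (Fin 2) F).det := by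
    rw [Matrix.det_smul]
    simp [hc]
  -- criterion
  have crit : ∀ m : Matrix (Fin 2) (Fin 2) F, m.det = 1 →
      ((P * m * P⁻¹)ᵀ * (P * m * P⁻¹).map (Fld.frob hF) = 1 ↔ m.map (Fld.frob hF) = m) := by
    intro m hm
    have hJm : mᵀ * (c • !![0, 1; -1, 0]) * m = c • !![0, 1; -1, 0] := by
      rw [Matrix.mul_smul, Matrix.smul_mul, J_mul, hm, one_smul]
    have hmu : IsUnit m.det := by rw [hm]; exact isUnit_one
    have e1 : (P * m * P⁻¹).map (Fld.frob hF) =
        P.map (Fld.frob hF) * m.map (Fld.frob hF) * P⁻¹.map (Fld.frob hF) := by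
      rw [Matrix.map_mul, Matrix.map_mul]
    have e2 : P⁻¹.map (Fld.frob hF) * P.map (Fld.frob hF) = 1 := by
      rw [← Matrix.map_mul, hPP, Matrix.map_one _ (map_zero _) (map_one _)]
    have e2' : P.map (Fld.frob hF) * P⁻¹.map (Fld.frob hF) = 1 := by
      rw [← Matrix.map_mul, hPP', Matrix.map_one _ (map_zero _) (map_one _)]
    have e3 : (P * m * P⁻¹)ᵀ = P⁻¹ᵀ * mᵀ * Pᵀ := by
      rw [Matrix.transpose_mul, Matrix.transpose_mul, Matrix.mul_assoc]
    have e4 : Pᵀ * P⁻¹ᵀ = 1 := by rw [← Matrix.transpose_mul, hPP, Matrix.transpose_one]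
    have e4' : P⁻¹ᵀ * Pᵀ = 1 := by rw [← Matrix.transpose_mul, hPP', Matrix.transpose_one]
    have e5 : (P * m * P⁻¹)ᵀ * (P * m * P⁻¹).map (Fld.frob hF) =
        P⁻¹ᵀ * (mᵀ * (c • !![0, 1; -1, 0]) * m.map (Fld.frob hF)) * P⁻¹.map (Fld.frob hF) := by
      rw [e1, e3, ← hP]
      simp only [Matrix.mul_assoc]
    rw [e5]
    constructor
    · intro h
      have h2 : mᵀ * (c • !![0, 1; -1, 0]) * m.map (Fld.frob hF) = c • !![0, 1; -1, 0] := by
        calc mᵀ * (c • !![0, 1; -1, 0]) * m.map (Fld.frob hF) =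
            Pᵀ * (P⁻¹ᵀ * (mᵀ * (c • !![0, 1; -1, 0]) * m.map (Fld.frob hF)) *
              P⁻¹.map (Fld.frob hF)) * P.map (Fld.frob hF) := by
              simp only [← Matrix.mul_assoc]
              rw [e4, Matrix.one_mul, Matrix.mul_assoc (_ * _) _ (P.map _), e2, Matrix.mul_one]
          _ = c • !![0, 1; -1, 0] := by rw [h, Matrix.mul_one, hP]
      have h3 := h2.trans hJm.symm
      have h4 := (Matrix.isUnit_iff_isUnit_det _).mpr (show IsUnit (mᵀ).det by rwa [Matrix.det_transpose])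
      exact (h4.mul ((Matrix.isUnit_iff_isUnit_det _).mpr hcJ)).mul_left_cancel h3
    · intro h
      rw [h, hJm, ← hP]
      simp only [← Matrix.mul_assoc]
      rw [e4', Matrix.one_mul, e2']
  have hmemSU : ∀ s : Matrix.SpecialLinearGroup (Fin 2) F, s ∈ Cfsg.SU 2 F q ↔
      (s : Matrix (Fin 2) (Fin 2) F)ᵀ * (s : Matrix (Fin 2) (Fin 2) F).map (Fld.frob hF) = 1 :=
    fun s => mem_GU_iff hF 2 (Matrix.SpecialLinearGroup.toGL s)
  have hdet : ∀ m : Matrix (Fin 2) (Fin 2) F, (P * m * P⁻¹).det = m.det := by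
    intro m
    rw [Matrix.det_mul, Matrix.det_mul, Matrix.det_nonsing_inv, Ring.inverse_eq_inv',
      mul_comm P.det, mul_assoc, mul_inv_cancel₀ hPd, mul_one]
  have hmapdet : ∀ m : Matrix.SpecialLinearGroup (Fin 2) K,
      ((m : Matrix (Fin 2) (Fin 2) K).map ι).det = 1 := by
    intro m
    have := (RingHom.map_det ι (m : Matrix (Fin 2) (Fin 2) K)).symm
    rw [m.2, map_one] at this
    exact this
  have hex : ∀ m : Matrix.SpecialLinearGroup (Fin 2) K, ∃ g : Cfsg.SU 2 F q,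
      mat g = P * (m : Matrix (Fin 2) (Fin 2) K).map ι * P⁻¹ := by
    intro m
    let s : Matrix.SpecialLinearGroup (Fin 2) F :=
      ⟨P * (m : Matrix (Fin 2) (Fin 2) K).map ι * P⁻¹, by rw [hdet, hmapdet]⟩
    have hs : s ∈ Cfsg.SU 2 F q := by
      refine (hmemSU s).mpr ((crit _ (hmapdet m)).mpr ?_)
      ext i j
      exact hfrob _
    exact ⟨⟨s, hs⟩, rfl⟩
  choose φ0 hφ0 using hex
  let φ : Matrix.SpecialLinearGroup (Fin 2) K →* Cfsg.SU 2 F q :=
    MonoidHom.mk' φ0 (by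
        intro a b
        apply Subtype.ext
        apply Subtype.ext
        change mat (φ0 (a * b)) = mat (φ0 a) * mat (φ0 b)
        rw [hφ0, hφ0, hφ0]
        change P * (a.1 * b.1).map ι * P⁻¹ = (P * a.1.map ι * P⁻¹) * (P * b.1.map ι * P⁻¹)
        rw [Matrix.map_mul]
        simp only [← Matrix.mul_assoc]
        rw [Matrix.mul_assoc _ P⁻¹ P, hPP, Matrix.mul_one])
  refine ⟨(MulEquiv.ofBijective φ ⟨?_, ?_⟩).symm⟩
  · intro a b hab
    have h1 : P * a.1.map ι * P⁻¹ = P * b.1.map ι * P⁻¹ := by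
      have := congrArg (fun z => mat z) hab
      change mat (φ0 a) = mat (φ0 b) at this
      rwa [hφ0, hφ0] at this
    have hPU : IsUnit P := (Matrix.isUnit_iff_isUnit_det _).mpr hPu
    have hPU' : IsUnit P⁻¹ := (Matrix.isUnit_iff_isUnit_det _).mpr (by
      rw [Matrix.det_nonsing_inv]; simpa using hPd)
    have h2 := hPU.mul_left_cancel (hPU'.mul_right_cancel h1)
    apply Subtype.ext
    ext i j
    have h3 := congrFun (congrFun h2 i) j
    exact ι.injective h3
  · intro g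
    have hg := (hmemSU g.1).mp g.2
    have e : P * (P⁻¹ * mat g * P) * P⁻¹ = mat g := by
      simp only [← Matrix.mul_assoc]
      rw [hPP', Matrix.one_mul, Matrix.mul_assoc, hPP', Matrix.mul_one]
    have hd1 : (P⁻¹ * mat g * P).det = 1 := by
      rw [← hdet, e]
      exact g.1.2
    have h1 := (crit (P⁻¹ * mat g * P) hd1).mp (by rw [e]; exact hg)
    have h2 : ∀ i j, ∃ k : K, ι k = (P⁻¹ * mat g * P) i j := by
      intro i j
      have h3 := congrFun (congrFun h1 i) j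
      rw [Matrix.map_apply, Fld.frob_apply, hι] at h3
      exact h3
    choose k hk using h2
    have hk' : (Matrix.of k).map ι = P⁻¹ * mat g * P := by
      ext i j
      exact hk i j
    have hkd : (Matrix.of k).det = 1 := by
      apply ι.injective
      rw [RingHom.map_det, map_one]
      change ((Matrix.of k).map ι).det = 1
      rw [hk', hd1]
    let s : Matrix.SpecialLinearGroup (Fin 2) K := ⟨Matrix.of k, hkd⟩
    refine ⟨s, ?_⟩
    apply Subtype.ext
    apply Subtype.ext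
    refine (hφ0 s).trans ?_
    change P * (Matrix.of k).map ι * P⁻¹ = mat g
    rw [hk', e]

end Cfsg.Agent.S0281
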