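import Cfsg.Statements.S0282
import Mathlib
import Cfsg.Agent.H5_U32

set_option autoImplicit false
open Cfsg

namespace Cfsg.Agent.S0282

/-- PSU_3(2) is a solvable group of order 72. -/
theorem result {F : Type*} [Field F] [Fintype F] (hF : Fintype.card F = 4) : Nat.card (Cfsg.PSU 3 F 2) = 72 ∧ Group.IsSolvable (Cfsg.PSU 3 F 2) := by
  obtain ⟨h1, N, hN, h9, h3, ⟨e⟩⟩ := H5.U32.main hF
  refine ⟨h1, ?_⟩
  have hfin : Finite (Cfsg.PSU 3 F 2) := Nat.finite_of_card_ne_zero (by rw [h1]; norm_num)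
  have : Fact (Nat.Prime 3) := ⟨by norm_num⟩
  have : Fact (Nat.Prime 2) := ⟨by norm_num⟩
  have hs1 : Group.IsSolvable N := by
    have : IsPGroup 3 N := IsPGroup.of_card (n := 2) (by rw [h9]; norm_num)
    have := this.isNilpotent
    infer_instance
  have hs2 : Group.IsSolvable (Cfsg.PSU 3 F 2 ⧸ N) := by
    have : IsPGroup 2 (Cfsg.PSU 3 F 2 ⧸ N) := IsPGroup.of_card (n := 3) (by
      rw [Nat.card_congr e.toEquiv, Nat.card_eq_fintype_card, QuaternionGroup.card]; norm_num)
    have := this.isNilpotent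
    infer_instance
  exact solvable_of_ker_le_range N.subtype (QuotientGroup.mk' N) (by rw [QuotientGroup.ker_mk', Subgroup.range_subtype])

end Cfsg.Agent.S0282
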