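import Cfsg.Statements.S0284
import Mathlib
import Cfsg.Agent.H5_Unit

set_option autoImplicit false
open Cfsg

namespace Cfsg.Agent.S0284

/-- The standard Hermitian form on F^n, |F| = q^2, has exactly q^(n-1) (q^n - (-1)^n) vectors of norm 1. -/
theorem result {F : Type*} [Field F] [Fintype F] {q : ℕ} (hF : Fintype.card F = q ^ 2) (n : ℕ) : Nat.card {v : Fin n → F // Cfsg.hermForm n F q v v = 1} = (if Even n then q ^ (n - 1) * (q ^ n - 1) else q ^ (n - 1) * (q ^ n + 1)) := by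
  have hq := Cfsg.Agent.H5.Fld.one_lt_q hF
  have h1 := Cfsg.Agent.H5.Unit.card_norm_one_mul hF (Cfsg.Agent.H5.Conc.hermFrm hF n)
    (Cfsg.Agent.H5.Herm.hermFrm_isHerm hF n)
  rw [Cfsg.Agent.H5.Herm.N0_eq _ (Cfsg.Agent.H5.Herm.hermFrm_isHerm hF n)
    (Cfsg.Agent.H5.Conc.hermFrm_nondeg hF n)] at h1
  rw [Module.finrank_fin_fun] at h1
  change (q - 1) * Nat.card {v : Fin n → F // Cfsg.hermForm n F q v v = 1} + _ = _ at h1
  set N := Nat.card {v : Fin n → F // Cfsg.hermForm n F q v v = 1}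
  obtain ⟨r, rfl⟩ : ∃ r, q = r + 2 := ⟨q - 2, by omega⟩
  have hr : r + 2 - 1 = r + 1 := rfl
  rw [hr] at h1
  apply Nat.eq_of_mul_eq_mul_left (show 0 < r + 1 by omega)
  rcases n with _ | n
  · simpa using h1
  · rw [Nat.add_sub_cancel] at h1 ⊢
    obtain ⟨a, ha⟩ : ∃ a, (r + 2) ^ n = a + 1 := ⟨(r + 2) ^ n - 1, by
      have : 0 < (r + 2) ^ n := by positivity
      omega⟩
    have hb : (r + 2) ^ (n + 1) = (r + 2) * a + r + 2 := by rw [pow_succ, ha]; ring
    have h2 : (r + 2) ^ (2 * (n + 1)) = ((r + 2) * a + r + 2) ^ 2 := by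
      rw [← hb, ← pow_mul]; congr 1; ring
    rw [h2, hb, ha] at h1
    rw [hb, ha]
    have e1 : a + 1 - 1 = a := rfl
    have e2 : (r + 2) * a + r + 2 - 1 = (r + 2) * a + r + 1 := rfl
    rw [e1, e2] at h1
    rw [e2]
    by_cases h : Even (n + 1)
    · rw [if_pos h] at h1 ⊢
      nlinarith [h1]
    · rw [if_neg h] at h1 ⊢
      nlinarith [h1]

end Cfsg.Agent.S0284
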