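import Cfsg.Statements.S0291
import Mathlib
import Cfsg.Agent.H5_QuadC

set_option autoImplicit false
open Cfsg

namespace Cfsg.Agent.S0291

/-- For q odd, the form x_0^2 + sum_{i<m} x_i y_i on F^(2m+1) has exactly q^(2m) zeros. -/
theorem result {F : Type*} [Field F] [Fintype F] {q : ℕ} (hF : Fintype.card F = q) (hodd : Odd q) (m : ℕ) : Nat.card {v : Unit ⊕ (Fin m ⊕ Fin m) → F // Cfsg.quadFormOdd m F v = 0} = q ^ (2 * m) := by
  have h := Cfsg.Agent.H5.QuadC.card_zeros hF m 1 _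
    (Cfsg.Agent.H5.QuadC.wittDec_odd (m := m) (F := F))
  have e : Nat.card {v : Unit ⊕ (Fin m ⊕ Fin m) → F // Cfsg.quadFormOdd m F v = 0} =
      (Cfsg.Agent.H5.Frm.ofQuad (Cfsg.Agent.H5.QuadC.qOdd m F)).N0 :=
    Nat.card_congr (Equiv.subtypeEquivRight (fun v => by
      rw [Cfsg.Agent.H5.Quad.ofQuad_Q, Cfsg.Agent.H5.QuadC.qOdd_apply]))
  rw [e, h]
  have hq : 0 < q := by rw [← hF]; exact Fintype.card_pos
  obtain ⟨x, hx⟩ := Cfsg.Agent.H5.QuadC.pow_pred_eq hq m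
  have e1 : m + 1 - 1 = m := rfl
  rw [e1, two_mul, pow_add, hx]
  have e4 : x + 1 - 1 = x := rfl
  rw [e4]
  ring

end Cfsg.Agent.S0291
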