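import Cfsg.Statements.S0300
import Mathlib
import Cfsg.Agent.H5_ExcM
import Cfsg.Agent.S0824
import Cfsg.Agent.S0252

set_option autoImplicit false
open Cfsg

namespace Cfsg.Agent.S0300

theorem two_cases {F : Type*} [Field F] [Fintype F] (hF : Fintype.card F = 2) (a : F) : a = 0 ∨ a = 1 := by
  by_contra hcon
  push Not at hcon
  classical
  have h1 : ({0, 1, a} : Finset F).card = 3 := by
    rw [Finset.card_insert_of_notMem, Finset.card_insert_of_notMem, Finset.card_singleton]
    · simp [hcon.2.symm]
    · simp [hcon.1.symm]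
  have h2 := Finset.card_le_univ ({0, 1, a} : Finset F)
  omega

/-- PΩ^-_4(q) is isomorphic to PSL_2(q^2). -/
theorem result {F K : Type*} [Field F] [Fintype F] [Field K] [Fintype K] {q : ℕ} (hF : Fintype.card F = q) (hK : Fintype.card K = q ^ 2) (a b : F) (hab : ∀ z₁ z₂ : F, z₁ ^ 2 + a * z₁ * z₂ + b * z₂ ^ 2 = 0 → z₁ = 0 ∧ z₂ = 0) : Nonempty (Cfsg.POmega F (Cfsg.quadFormMinus 1 F a b) ≃* Matrix.ProjectiveSpecialLinearGroup (Fin 2) K) := by
  by_cases h2 : q = 2
  · subst h2
    have hb : b = 1 := by
      rcases two_cases hF b with rfl | rfl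
      · exfalso
        exact one_ne_zero (hab 0 1 (by ring)).2
      · rfl
    subst hb
    have ha : a = 1 := by
      rcases two_cases hF a with rfl | rfl
      · exfalso
        have : CharP F 2 := charP_of_card_eq_prime hF
        have h2 : (2 : F) = 0 := by exact_mod_cast CharP.cast_eq_zero F 2
        exact one_ne_zero (hab 1 1 (by linear_combination h2)).2
      · rfl
    subst ha
    obtain ⟨e1⟩ := S0252.result (F := K) hK
    obtain ⟨e2⟩ := S0824.result (F := F) hF
    have h5 : 5 ≤ Nat.card (Fin 5) := by simp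
    have hcm : (commutator (Cfsg.isometryGroup F (Cfsg.quadFormMinus 1 F 1 1))).map e2.toMonoidHom = alternatingGroup (Fin 5) := by
      rw [← alternatingGroup.commutator_perm_eq h5]
      exact H5.Exc.com_map e2
    have e3 : Cfsg.Omega F (Cfsg.quadFormMinus 1 F 1 1) ≃* alternatingGroup (Fin 5) :=
      (e2.subgroupMap _).trans (MulEquiv.subgroupCongr hcm)
    have hcen : Subgroup.center (alternatingGroup (Fin 5)) = ⊥ := alternatingGroup.center_eq_bot (by simp)
    exact ⟨(H5.OmSim.quotCenterE e3).trans ((QuotientGroup.quotientMulEquivOfEq hcen).trans (QuotientGroup.quotientBot.trans e1.symm))⟩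
  · obtain ⟨i, -⟩ := H5.FF.exists_embedding hF hK two_ne_zero
    letI := i.toAlgebra
    exact H5.Exc.iso4m_ne hF hK hab h2

end Cfsg.Agent.S0300
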