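import Cfsg.Statements.S0305
import Mathlib
import Cfsg.Agent.H5_QuadC
import Cfsg.Agent.H5_Dih

set_option autoImplicit false
open Cfsg

namespace Cfsg.Agent.S0305

open Cfsg.Agent.H5 Cfsg.Agent.H5.Frm in
theorem main {F : Type*} [Field F] [Fintype F] {q : ℕ} (hF : Fintype.card F = q) :
    Nonempty ((ofQuad (QuadC.qPlus 1 F)).isom ≃* DihedralGroup (q - 1)) := by
  classical
  set A := ofQuad (QuadC.qPlus 1 F)
  have hq : 1 < q := by rw [← hF]; exact Fintype.one_lt_card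
  have hcardA : Nat.card A.isom = 2 * (q - 1) := by
    have := QuadC.card_isom_plus hF 0 A (QuadC.nondeg_plus) (QuadC.wittDec_plus)
    simpa using this
  have hQ : ∀ v, A.Q v = v (.inl 0) * v (.inr 0) := by
    intro v
    change QuadC.qPlus 1 F v = _
    rw [QuadC.qPlus_apply, Cfsg.quadFormPlus]
    simp
  have hext : ∀ v w : Fin 1 ⊕ Fin 1 → F, v (.inl 0) = w (.inl 0) → v (.inr 0) = w (.inr 0) → v = w := by
    intro v w h1 h2
    ext i
    rcases i with i | i
    · fin_cases i; exact h1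
    · fin_cases i; exact h2
  have hM : ∀ c : Fˣ, ∃ g : A.isom, ∀ v, g.1 v (.inl 0) = c * v (.inl 0) ∧
      g.1 v (.inr 0) = ((c⁻¹ : Fˣ) : F) * v (.inr 0) := by
    intro c
    let f : Fˣ → (Fin 1 ⊕ Fin 1 → F) →ₗ[F] (Fin 1 ⊕ Fin 1 → F) := fun c =>
      { toFun := fun v => Sum.elim (fun i => c * v (.inl i)) (fun i => ((c⁻¹ : Fˣ) : F) * v (.inr i))
        map_add' := fun v w => by
          ext i; rcases i with i | i <;> simp [mul_add]
        map_smul' := fun r v => by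
          ext i; rcases i with i | i <;> simp [mul_left_comm] }
    refine ⟨⟨LinearEquiv.ofLinear (f c) (f c⁻¹) ?_ ?_, ?_⟩, fun v => ⟨rfl, rfl⟩⟩
    · apply LinearMap.ext
      intro v
      apply hext
      · change (c : F) * (((c⁻¹ : Fˣ) : F) * v (.inl 0)) = v (.inl 0)
        rw [← mul_assoc, Units.mul_inv, one_mul]
      · change ((c⁻¹ : Fˣ) : F) * (((c⁻¹⁻¹ : Fˣ) : F) * v (.inr 0)) = v (.inr 0)
        rw [← mul_assoc, Units.mul_inv, one_mul]
    · apply LinearMap.ext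
      intro v
      apply hext
      · change ((c⁻¹ : Fˣ) : F) * ((c : F) * v (.inl 0)) = v (.inl 0)
        rw [← mul_assoc, Units.inv_mul, one_mul]
      · change ((c⁻¹⁻¹ : Fˣ) : F) * (((c⁻¹ : Fˣ) : F) * v (.inr 0)) = v (.inr 0)
        rw [← mul_assoc, Units.inv_mul, one_mul]
    · rw [Conc.mem_ofQuad_isom]
      intro v
      change A.Q (f c v) = A.Q v
      rw [hQ, hQ]
      change ((c : F) * v (.inl 0)) * (((c⁻¹ : Fˣ) : F) * v (.inr 0)) = _
      have := Units.mul_inv c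
      linear_combination (v (.inl 0) * v (.inr 0)) * this
  choose M0 hM0 using hM
  have hisomext : ∀ g h : A.isom, (∀ v, g.1 v (.inl 0) = h.1 v (.inl 0)) →
      (∀ v, g.1 v (.inr 0) = h.1 v (.inr 0)) → g = h := by
    intro g h h1 h2
    apply Subtype.ext
    ext v : 1
    exact hext _ _ (h1 v) (h2 v)
  let M : Fˣ →* A.isom := MonoidHom.mk' M0 (by
    intro u w
    apply hisomext
    · intro v
      change _ = ((M0 u).1 ((M0 w).1 v)) (.inl 0)
      rw [(hM0 _ _).1, (hM0 _ _).1, (hM0 _ _).1, Units.val_mul, mul_assoc]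
    · intro v
      change _ = ((M0 u).1 ((M0 w).1 v)) (.inr 0)
      rw [(hM0 _ _).2, (hM0 _ _).2, (hM0 _ _).2, mul_inv, Units.val_mul, mul_assoc])
  have hMinj : Function.Injective M := by
    intro u w h
    have h1 := congrArg (fun g : A.isom => g.1 (fun _ => 1) (.inl 0)) h
    change (M0 u).1 (fun _ => 1) (.inl 0) = (M0 w).1 (fun _ => 1) (.inl 0) at h1
    rw [(hM0 _ _).1, (hM0 _ _).1, mul_one, mul_one] at h1
    exact Units.ext h1
  obtain ⟨g0, hg0⟩ := IsCyclic.exists_generator (α := Fˣ)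
  have horder : orderOf g0 = q - 1 := by
    rw [orderOf_eq_card_of_forall_mem_zpowers hg0, Nat.card_eq_fintype_card, Fintype.card_units, hF]
  have hfinA : Finite A.isom := Nat.finite_of_card_ne_zero (by rw [hcardA]; omega)
  -- swap
  let sw := LinearEquiv.funCongrLeft F F (Equiv.sumComm (Fin 1) (Fin 1))
  obtain ⟨y, hy⟩ : ∃ y : A.isom, ∀ v, y.1 v (.inl 0) = v (.inr 0) ∧ y.1 v (.inr 0) = v (.inl 0) := by
    refine ⟨⟨sw, ?_⟩, fun v => ⟨rfl, rfl⟩⟩
    rw [Conc.mem_ofQuad_isom]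
    intro v
    change A.Q (sw v) = A.Q v
    rw [hQ, hQ]
    exact mul_comm _ _
  have hyy : y * y = 1 := by
    apply hisomext
    · intro v
      change y.1 (y.1 v) (.inl 0) = v (.inl 0)
      rw [(hy _).1, (hy _).2]
    · intro v
      change y.1 (y.1 v) (.inr 0) = v (.inr 0)
      rw [(hy _).2, (hy _).1]
  have hyinv : y⁻¹ = y := inv_eq_of_mul_eq_one_left hyy
  refine Dih.nonempty_dihedral (by omega) (M g0) y ?_ hyy ?_ ?_ hcardA.le
  · rw [orderOf_injective M hMinj, horder]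
  · rw [hyinv, ← map_inv]
    apply hisomext
    · intro v
      change y.1 ((M0 g0).1 (y.1 v)) (.inl 0) = (M0 g0⁻¹).1 v (.inl 0)
      rw [(hy _).1, (hM0 _ _).2, (hy _).2, (hM0 _ _).1]
    · intro v
      change y.1 ((M0 g0).1 (y.1 v)) (.inr 0) = (M0 g0⁻¹).1 v (.inr 0)
      rw [(hy _).2, (hM0 _ _).1, (hy _).1, (hM0 _ _).2, inv_inv]
  · intro hmemy
    rw [Subgroup.mem_zpowers_iff] at hmemy
    obtain ⟨k, hk⟩ := hmemy
    rw [← map_zpow] at hk
    have h1 := congrArg (fun g : A.isom => g.1 (Sum.elim (fun _ => 0) (fun _ => 1)) (.inl 0)) hk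
    change (M0 (g0 ^ k)).1 _ (.inl 0) = y.1 _ (.inl 0) at h1
    rw [(hM0 _ _).1, (hy _).1] at h1
    simp at h1

/-- GO^+_2(q) is dihedral of order 2(q-1). -/
theorem result {F : Type*} [Field F] [Fintype F] {q : ℕ} (hF : Fintype.card F = q) : Nonempty (Cfsg.isometryGroup F (Cfsg.quadFormPlus 1 F) ≃* DihedralGroup (q - 1)) := by
  obtain ⟨e⟩ := main hF
  exact ⟨(Cfsg.Agent.H5.Conc.orthEquiv (Cfsg.Agent.H5.QuadC.qPlus 1 F) _
    (Cfsg.Agent.H5.QuadC.qPlus_apply 1 F)).trans e⟩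

end Cfsg.Agent.S0305
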