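import Cfsg.Statements.S0306
import Mathlib
import Cfsg.Agent.H5_Norm
import Cfsg.Agent.H5_Dih

set_option autoImplicit false
open Cfsg

namespace Cfsg.Agent.S0306

open Cfsg.Agent.H5 Cfsg.Agent.H5.Frm in
theorem main {F : Type*} [Field F] [Fintype F] {q : ℕ} (hF : Fintype.card F = q) (a b : F)
    (hab : ∀ z₁ z₂ : F, z₁ ^ 2 + a * z₁ * z₂ + b * z₂ ^ 2 = 0 → z₁ = 0 ∧ z₂ = 0) :
    Nonempty ((ofQuad (QuadC.qMinus 0 F a b)).isom ≃* DihedralGroup (q + 1)) := by
  classical
  obtain ⟨K, _, _, _, hK⟩ := Norm.exists_K hF hab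
  obtain ⟨θ, hθ, hroot, hspan⟩ := Norm.exists_theta hF hab hK
  set A := ofQuad (QuadC.qMinus 0 F a b)
  have hcardA : Nat.card A.isom = 2 * (q + 1) := by
    have := QuadC.card_isom_minus hF 0 A (QuadC.nondeg_minus hab) (QuadC.wittDec_minus hab)
    simpa using this
  have hq : 1 < q := by rw [← hF]; exact Fintype.one_lt_card
  let φ0 : ((Fin 0 ⊕ Fin 0) ⊕ Fin 2 → F) →ₗ[F] K :=
    { toFun := fun v => algebraMap F K (v (.inr 0)) + algebraMap F K (v (.inr 1)) * θ
      map_add' := fun v w => by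
        simp only [Pi.add_apply, map_add]; ring
      map_smul' := fun c v => by
        simp only [Pi.smul_apply, smul_eq_mul, map_mul, RingHom.id_apply, Algebra.smul_def]; ring }
  have hQ : ∀ v, algebraMap F K (A.Q v) = (φ0 v) ^ (q + 1) := by
    intro v
    change algebraMap F K (QuadC.qMinus 0 F a b v) =
      (algebraMap F K (v (.inr 0)) + algebraMap F K (v (.inr 1)) * θ) ^ (q + 1)
    rw [hθ, QuadC.qMinus_apply, Cfsg.quadFormMinus]
    simp
  have hbij : Function.Bijective φ0 := by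
    constructor
    · rw [← LinearMap.ker_eq_bot, LinearMap.ker_eq_bot']
      intro v hv
      have h1 := hQ v
      rw [hv, zero_pow (by omega)] at h1
      exact (QuadC.wittDec_minus (m := 0) hab).1 v ((map_eq_zero _).mp h1)
    · intro z
      obtain ⟨z₁, z₂, rfl⟩ := hspan z
      exact ⟨Sum.elim (fun _ => 0) ![z₁, z₂], by simp [φ0]⟩
  let φ : ((Fin 0 ⊕ Fin 0) ⊕ Fin 2 → F) ≃ₗ[F] K := LinearEquiv.ofBijective φ0 hbij
  have hφQ : ∀ v, algebraMap F K (A.Q v) = (φ v) ^ (q + 1) := hQ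
  have hmem : ∀ T : K ≃ₗ[F] K, (∀ z, (T z) ^ (q + 1) = z ^ (q + 1)) →
      ∃ g : A.isom, ∀ v, φ (g.1 v) = T (φ v) := by
    intro T hT
    refine ⟨⟨(φ.trans T).trans φ.symm, ?_⟩, fun v => ?_⟩
    · rw [Conc.mem_ofQuad_isom]
      intro v
      apply (algebraMap F K).injective
      change algebraMap F K (A.Q (φ.symm (T (φ v)))) = algebraMap F K (A.Q v)
      rw [hφQ, LinearEquiv.apply_symm_apply, hT, ← hφQ]
    · change φ (φ.symm (T (φ v))) = _
      rw [LinearEquiv.apply_symm_apply]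
  have hext : ∀ g h : A.isom, (∀ v, φ (g.1 v) = φ (h.1 v)) → g = h := by
    intro g h hgh
    apply Subtype.ext
    ext v : 1
    exact φ.injective (hgh v)
  -- the torus
  set T := (powMonoidHom (q + 1) : Kˣ →* Kˣ).ker with hT
  have hTcard : Nat.card T = q + 1 := Fld.card_norm_ker hK
  have hTmem : ∀ u : T, ((u.1 : Kˣ) : K) ^ (q + 1) = 1 := by
    intro u
    have h0 : u.1 ^ (q + 1) = 1 := MonoidHom.mem_ker.mp u.2
    have := congrArg Units.val h0
    rwa [Units.val_pow_eq_pow_val, Units.val_one] at this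
  have hM : ∀ u : T, ∃ g : A.isom, ∀ v, φ (g.1 v) = ((u.1 : Kˣ) : K) * φ v := by
    intro u
    obtain ⟨g, hg⟩ := hmem ((LinearEquiv.smulOfNeZero K K ((u.1 : Kˣ) : K) u.1.ne_zero).restrictScalars F)
      (fun z => by
        change (((u.1 : Kˣ) : K) • z) ^ (q + 1) = z ^ (q + 1)
        rw [smul_eq_mul, mul_pow, hTmem, one_mul])
    exact ⟨g, hg⟩
  choose M0 hM0 using hM
  let M : T →* A.isom := MonoidHom.mk' M0 (by
    intro u w
    apply hext
    intro v
    rw [hM0]
    change _ = φ ((M0 u).1 ((M0 w).1 v))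
    rw [hM0, hM0]
    simp [mul_assoc])
  have hMinj : Function.Injective M := by
    intro u w h
    have h1 := congrArg (fun g : A.isom => φ (g.1 (φ.symm 1))) h
    change φ ((M0 u).1 (φ.symm 1)) = φ ((M0 w).1 (φ.symm 1)) at h1
    rw [hM0, hM0, LinearEquiv.apply_symm_apply, mul_one, mul_one] at h1
    exact Subtype.ext (Units.ext h1)
  obtain ⟨g0, hg0⟩ := IsCyclic.exists_generator (α := T)
  have horder : orderOf g0 = q + 1 := by
    rw [orderOf_eq_card_of_forall_mem_zpowers hg0, hTcard]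
  -- frobenius
  have hcq : ∀ c : F, c ^ q = c := fun c => by
    have := FiniteField.pow_card c
    rwa [hF] at this
  have hfrF : ∀ c : F, Fld.frob hK (algebraMap F K c) = algebraMap F K c := fun c => by
    rw [Fld.frob_apply, ← map_pow, hcq]
  have hfinA : Finite A.isom := Nat.finite_of_card_ne_zero (by rw [hcardA]; omega)
  obtain ⟨y, hy⟩ := hmem (LinearEquiv.ofInvolutive
      ({ toFun := fun z => Fld.frob hK z
         map_add' := map_add _
         map_smul' := fun c z => by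
          rw [Algebra.smul_def, map_mul, hfrF, RingHom.id_apply, Algebra.smul_def] } : K →ₗ[F] K)
      (fun z => Fld.frob_frob hK z)) (fun z => by
        change (Fld.frob hK z) ^ (q + 1) = z ^ (q + 1)
        rw [pow_succ, ← map_pow, Fld.frob_apply, pow_succ, ← Fld.frob_apply hK, ← Fld.frob_apply hK,
          Fld.frob_frob, mul_comm])
  have hy' : ∀ v, φ (y.1 v) = (φ v) ^ q := by
    intro v
    rw [hy]
    exact Fld.frob_apply hK _
  have hqq : ∀ z : K, (z ^ q) ^ q = z := by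
    intro z
    rw [← Fld.frob_apply hK, ← Fld.frob_apply hK, Fld.frob_frob]
  have hyy : y * y = 1 := by
    apply hext
    intro v
    change φ (y.1 (y.1 v)) = φ v
    rw [hy', hy', hqq]
  have hyinv : y⁻¹ = y := inv_eq_of_mul_eq_one_left hyy
  refine Dih.nonempty_dihedral (by omega) (M g0) y ?_ hyy ?_ ?_ hcardA.le
  · rw [orderOf_injective M hMinj, horder]
  · rw [hyinv, ← map_inv]
    apply hext
    intro v
    change φ (y.1 ((M0 g0).1 (y.1 v))) = φ ((M0 g0⁻¹).1 v)
    rw [hy', hM0, hy', hM0, mul_pow, hqq]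
    congr 1
    have h1 := hTmem g0
    rw [pow_succ] at h1
    change _ = (((g0.1 : Kˣ)⁻¹ : Kˣ) : K)
    rw [Units.val_inv_eq_inv_val]
    exact eq_inv_of_mul_eq_one_left h1
  · intro hmemy
    rw [Subgroup.mem_zpowers_iff] at hmemy
    obtain ⟨k, hk⟩ := hmemy
    rw [← map_zpow] at hk
    have h1 := congrArg (fun g : A.isom => φ (g.1 (φ.symm 1))) hk
    change φ ((M0 (g0 ^ k)).1 (φ.symm 1)) = φ (y.1 (φ.symm 1)) at h1
    rw [hM0, hy', LinearEquiv.apply_symm_apply, mul_one, one_pow] at h1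
    have h2 : g0 ^ k = 1 := Subtype.ext (Units.ext h1)
    rw [h2, map_one] at hk
    -- y = 1
    apply Fld.frob_ne_id hK
    ext z
    have h3 := congrArg (fun g : A.isom => φ (g.1 (φ.symm z))) hk
    change φ (φ.symm z) = φ (y.1 (φ.symm z)) at h3
    rw [hy', LinearEquiv.apply_symm_apply] at h3
    rw [Fld.frob_apply, RingHom.id_apply]
    exact h3.symm

/-- GO^-_2(q) is dihedral of order 2(q+1). -/
theorem result {F : Type*} [Field F] [Fintype F] {q : ℕ} (hF : Fintype.card F = q) (a b : F) (hab : ∀ z₁ z₂ : F, z₁ ^ 2 + a * z₁ * z₂ + b * z₂ ^ 2 = 0 → z₁ = 0 ∧ z₂ = 0) : Nonempty (Cfsg.isometryGroup F (Cfsg.quadFormMinus 0 F a b) ≃* DihedralGroup (q + 1)) := by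
  obtain ⟨e⟩ := main hF a b hab
  exact ⟨(Cfsg.Agent.H5.Conc.orthEquiv (Cfsg.Agent.H5.QuadC.qMinus 0 F a b) _
    (Cfsg.Agent.H5.QuadC.qMinus_apply 0 F a b)).trans e⟩

end Cfsg.Agent.S0306
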