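import Cfsg.Statements.S0307
import Mathlib
import Cfsg.Agent.H5_Cyc

set_option autoImplicit false
open Cfsg

namespace Cfsg.Agent.S0307

open Matrix in
theorem aux {F : Type*} [Field F] [Fintype F] {q : ℕ} (hF : Fintype.card F = q) :
    Nat.card Fˣ = q - 1 := by
  classical
  rw [Nat.card_eq_fintype_card, Fintype.card_units, hF]

/-- PSL_n(q) is normal in PGL_n(q) with cyclic quotient of order gcd(n, q-1): the image of the natural map PSL_n → PGL_n is the kernel of a surjective homomorphism onto the cyclic group of that order. -/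
theorem result {F : Type*} [Field F] [Fintype F] {q : ℕ} (hF : Fintype.card F = q) (n : ℕ) (hn : 1 ≤ n) : ∃ g : Matrix.ProjGenLinGroup (Fin n) F →* Multiplicative (ZMod (Nat.gcd n (q - 1))), Function.Surjective g ∧ g.ker = (Matrix.ProjectiveSpecialLinearGroup.toPGL : Matrix.ProjectiveSpecialLinearGroup (Fin n) F →* Matrix.ProjGenLinGroup (Fin n) F).range := by
  have hne : NeZero n := ⟨by omega⟩
  obtain ⟨ψ, hψ, hker⟩ := Cfsg.Agent.H5.Cyc.exists_quot (D := Fˣ) n (q - 1) (aux hF)
  have h0 : (ψ.comp (Matrix.GeneralLinearGroup.det : GL (Fin n) F →* Fˣ)).comp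
      (Matrix.GeneralLinearGroup.scalar (Fin n)) = 1 := by
    ext u : 1
    rw [MonoidHom.comp_apply, MonoidHom.comp_apply, MonoidHom.one_apply, ← MonoidHom.mem_ker, hker]
    refine ⟨u, ?_⟩
    rw [powMonoidHom_apply]
    ext
    simp
  refine ⟨Matrix.ProjGenLinGroup.lift _ h0, ?_, ?_⟩
  · intro y
    obtain ⟨d, hd⟩ := hψ y
    obtain ⟨A, hA⟩ := Matrix.GeneralLinearGroup.det_surjective (n := Fin n) d
    exact ⟨Matrix.ProjGenLinGroup.mk A, by rw [Matrix.ProjGenLinGroup.lift_mk]; rw [← hd, ← hA]; rfl⟩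
  · ext x
    induction x using Matrix.ProjGenLinGroup.induction_on with
    | mk A =>
    rw [MonoidHom.mem_ker, Matrix.ProjGenLinGroup.lift_mk, MonoidHom.comp_apply,
      ← MonoidHom.mem_ker, hker]
    constructor
    · rintro ⟨u, hu⟩
      rw [powMonoidHom_apply] at hu
      -- det A = u^n
      have hdet : (((u⁻¹ : Fˣ) : F) • (A : Matrix (Fin n) (Fin n) F)).det = 1 := by
        rw [Matrix.det_smul, Fintype.card_fin]
        have h2 : ((u : Fˣ) : F) ^ n = (A : Matrix (Fin n) (Fin n) F).det := by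
          have := congrArg Units.val hu
          simpa using this
        rw [← h2, ← mul_pow, Units.inv_mul, one_pow]
      refine ⟨QuotientGroup.mk (⟨_, hdet⟩ : Matrix.SpecialLinearGroup (Fin n) F), ?_⟩
      refine (Matrix.ProjectiveSpecialLinearGroup.toPGL_mk
        (⟨_, hdet⟩ : Matrix.SpecialLinearGroup (Fin n) F)).trans ?_
      rw [Matrix.ProjGenLinGroup.mk_eq_mk_iff]
      refine ⟨u, ?_⟩
      ext i j
      change ((((u⁻¹ : Fˣ) : F) • (A : Matrix (Fin n) (Fin n) F)) *
        (Matrix.scalar (Fin n) (u : F))) i j = _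
      rw [Matrix.scalar_apply, Matrix.mul_diagonal, Matrix.smul_apply, smul_eq_mul, mul_right_comm,
        Units.inv_mul, one_mul]
    · rintro ⟨y, hy⟩
      obtain ⟨X, rfl⟩ := QuotientGroup.mk_surjective y
      rw [Matrix.ProjectiveSpecialLinearGroup.toPGL_mk, Matrix.ProjGenLinGroup.mk_eq_mk_iff] at hy
      obtain ⟨u, hu⟩ := hy
      refine ⟨u, ?_⟩
      rw [← hu, powMonoidHom_apply]
      ext
      simp

end Cfsg.Agent.S0307
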