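import Cfsg.Statements.S0309
import Cfsg.Agent.H6_BN

set_option autoImplicit false
open Cfsg

namespace Cfsg.Agent.S0309

/-- Bruhat decomposition, uniqueness part: for `n, n' ∈ N` the double cosets `B n B` and `B n' B` coincide
exactly when `n` and `n'` have the same image in `W = N / (B ⊓ N)`. -/
theorem result {G : Type*} [Group G] (P : Cfsg.BNPair G) {n n' : G}
    (hn : n ∈ P.N) (hn' : n' ∈ P.N) :
    DoubleCoset.doubleCoset n (P.B : Set G) P.B = DoubleCoset.doubleCoset n' (P.B : Set G) P.B ↔ n⁻¹ * n' ∈ P.B := by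
  have e1 : DoubleCoset.doubleCoset n (P.B : Set G) P.B =
      Cfsg.Agent.H6.BN.C P ((⟨n, hn⟩ : P.N) : Cfsg.Agent.H6.BN.W P) :=
    (Cfsg.Agent.H6.BN.C_mk_eq (⟨n, hn⟩ : P.N)).symm
  have e2 : DoubleCoset.doubleCoset n' (P.B : Set G) P.B =
      Cfsg.Agent.H6.BN.C P ((⟨n', hn'⟩ : P.N) : Cfsg.Agent.H6.BN.W P) :=
    (Cfsg.Agent.H6.BN.C_mk_eq (⟨n', hn'⟩ : P.N)).symm
  rw [e1, e2]
  constructor
  · intro h
    have h1 := QuotientGroup.eq.1 (Cfsg.Agent.H6.BN.C_injective h)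
    rw [Cfsg.Agent.H6.BN.mem_T] at h1
    exact h1
  · intro h
    have h1 : ((⟨n, hn⟩ : P.N) : Cfsg.Agent.H6.BN.W P) = ((⟨n', hn'⟩ : P.N) : Cfsg.Agent.H6.BN.W P) := by
      apply QuotientGroup.eq.2
      rw [Cfsg.Agent.H6.BN.mem_T]
      exact h
    rw [h1]

end Cfsg.Agent.S0309
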