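import Cfsg.Statements.S0316
import Cfsg.Agent.H6_BN

set_option autoImplicit false
open Cfsg

namespace Cfsg.Agent.S0316

/-- The map `J ↦ P_J` is a lattice isomorphism from the power set of the set of distinguished generators onto the
subgroups containing `B`. -/
theorem result {G : Type*} [Group G] (P : Cfsg.BNPair G) :
    ∃ e : Set P.S ≃o {M : Subgroup G // P.B ≤ M},
      ∀ J : Set P.S, ((e J : {M : Subgroup G // P.B ≤ M}) : Subgroup G) = P.parabolic (Subtype.val '' J) := by
  let f : Set P.S → {M : Subgroup G // P.B ≤ M} := fun J =>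
    ⟨P.parabolic (Subtype.val '' J), Cfsg.Agent.H6.BN.B_le_parabolic _⟩
  have hsub : ∀ J : Set P.S, Subtype.val '' J ⊆ P.S := by
    rintro J _ ⟨s, _, rfl⟩
    exact s.2
  have hle : ∀ J K : Set P.S, f J ≤ f K ↔ J ≤ K := by
    intro J K
    change P.parabolic (Subtype.val '' J) ≤ P.parabolic (Subtype.val '' K) ↔ J ≤ K
    rw [Cfsg.Agent.H6.BN.parabolic_le_iff (hsub J) (hsub K),
      Set.image_subset_image_iff Subtype.val_injective]
  have hinj : Function.Injective f := by
    intro J K h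
    exact le_antisymm ((hle J K).1 h.le) ((hle K J).1 h.ge)
  have hsurj : Function.Surjective f := by
    rintro ⟨M, hM⟩
    refine ⟨{s | (s : G) ∈ M}, Subtype.ext ?_⟩
    change P.parabolic (Subtype.val '' {s : P.S | (s : G) ∈ M}) = M
    conv_rhs => rw [Cfsg.Agent.H6.BN.eq_parabolic M hM]
    congr 1
    ext s
    constructor
    · rintro ⟨t, ht, rfl⟩
      exact ⟨t.2, ht⟩
    · rintro ⟨hs, hs'⟩
      exact ⟨⟨s, hs⟩, hs', rfl⟩
  exact ⟨⟨Equiv.ofBijective f ⟨hinj, hsurj⟩, fun {J K} => hle J K⟩, fun J => rfl⟩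

end Cfsg.Agent.S0316
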