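import Cfsg.Statements.S0326
-- import your own Cfsg.Agent.* helpers here

set_option autoImplicit false
open Cfsg

namespace Cfsg.Agent.S0326

/-- The Suzuki–Tits ovoid over a finite field with `q` elements has `q² + 1` points. -/
theorem result {F : Type*} [Field F] [Fintype F] (m : ℕ) :
    Nat.card (Cfsg.suzukiOvoid F m) = Fintype.card F ^ 2 + 1 := by
  classical
  let g : Option (F × F) → (Fin 4 → F) := fun p => match p with
    | none => ![1, 0, 0, 0]
    | some (x, y) => ![x * y + x ^ (2 ^ (m + 1) + 2) + y ^ (2 ^ (m + 1)), y, x, 1]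
  have hg : ∀ p, g p ≠ 0 := by
    intro p h
    rcases p with _ | ⟨x, y⟩
    · have := congrFun h 0; simp [g] at this
    · have := congrFun h 3; simp [g] at this
  let P : Option (F × F) → Projectivization F (Fin 4 → F) := fun p => Projectivization.mk F (g p) (hg p)
  have hinj : Function.Injective P := by
    intro p q h
    simp only [P] at h
    rw [Projectivization.mk_eq_mk_iff'] at h
    obtain ⟨c, hc⟩ := h
    rcases p with _ | ⟨x, y⟩ <;> rcases q with _ | ⟨x', y'⟩
    · rfl
    · have h3 := congrFun hc 3
      simp [g] at h3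
      subst h3
      have h0 := congrFun hc 0
      simp [g] at h0
    · have h3 := congrFun hc 3
      simp [g] at h3
    · have h3 := congrFun hc 3
      simp [g] at h3
      subst h3
      have h1 := congrFun hc 1
      have h2 := congrFun hc 2
      simp [g] at h1 h2
      rw [h1, h2]
  have heq : Cfsg.suzukiOvoid F m = Set.range P := by
    ext p
    constructor
    · rintro ⟨v, hv, rfl, rfl | ⟨x, y, rfl⟩⟩
      · exact ⟨none, rfl⟩
      · exact ⟨some (x, y), rfl⟩
    · rintro ⟨p, rfl⟩
      rcases p with _ | ⟨x, y⟩
      · exact ⟨_, hg none, rfl, Or.inl rfl⟩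
      · exact ⟨_, hg (some (x, y)), rfl, Or.inr ⟨x, y, rfl⟩⟩
  rw [heq, Nat.card_range_of_injective hinj, Finite.card_option, Nat.card_prod,
    Nat.card_eq_fintype_card, sq]

end Cfsg.Agent.S0326
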