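import Cfsg.Statements.S0328
import Cfsg.Agent.HL_SzSimple

set_option autoImplicit false
open Cfsg

namespace Cfsg.Agent.S0328

/-- The stabiliser in the Suzuki group of the two ovoid points spanned by `(1,0,0,0)` and `(0,0,0,1)` is
isomorphic to the multiplicative group of the field (cyclic of order `q - 1`). -/
theorem result {F : Type*} [Field F] [Fintype F] {m : ℕ} (hm : 1 ≤ m)
    (hF : Fintype.card F = 2 ^ (2 * m + 1)) :
    Nonempty (↥(MulAction.stabilizer (Cfsg.Sz F m) (Cfsg.suzukiPointInfinity F) ⊓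
        MulAction.stabilizer (Cfsg.Sz F m) (Cfsg.suzukiPointZero F)) ≃* Fˣ) := by
  classical
  obtain ⟨θ, h, hθ⟩ := Cfsg.Agent.HL.Sz.exists_theta hF
  let f : Fˣ →* ↥(MulAction.stabilizer (Cfsg.Sz F m) (Cfsg.suzukiPointInfinity F) ⊓
        MulAction.stabilizer (Cfsg.Sz F m) (Cfsg.suzukiPointZero F)) :=
    { toFun := fun k => ⟨⟨Cfsg.Agent.HL.Sz.D θ k, Cfsg.Agent.HL.Sz.D_mem h hθ k⟩, by
        refine ⟨?_, ?_⟩
        · exact Cfsg.Agent.HL.Sz.D_none θ k
        · have := Cfsg.Agent.HL.Sz.D_some h k 0 0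
          rw [mul_zero, mul_zero, ← Cfsg.Agent.HL.Sz.pt_zero_eq] at this
          exact this⟩
      map_one' := by
        apply Subtype.ext; apply Subtype.ext
        exact Cfsg.Agent.HL.Sz.D_one θ
      map_mul' := by
        intro k l
        apply Subtype.ext; apply Subtype.ext
        exact (Cfsg.Agent.HL.Sz.D_mul θ k l).symm }
  refine ⟨(MulEquiv.ofBijective f ⟨?_, ?_⟩).symm⟩
  · intro k l hkl
    have := congrArg (fun x => x.1.1) hkl
    exact Cfsg.Agent.HL.Sz.D_inj this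
  · rintro ⟨⟨g, hg⟩, h1, h2⟩
    have h2' : g • Cfsg.suzukiPointZero F = Cfsg.suzukiPointZero F := h2
    rw [Cfsg.Agent.HL.Sz.pt_zero_eq θ] at h2'
    obtain ⟨k, hk⟩ := Cfsg.Agent.HL.Sz.stab_two hm hF h hθ g hg h1 h2'
    refine ⟨k, ?_⟩
    apply Subtype.ext; apply Subtype.ext
    exact hk.symm

end Cfsg.Agent.S0328
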