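import Cfsg.Statements.S0335
import Cfsg.Agent.HL_SzMore

set_option autoImplicit false
open Cfsg

namespace Cfsg.Agent.S0335

/-- The Suzuki–Tits point set is an ovoid: any three distinct points of it are projectively independent
(no line of projective 3-space meets it in more than two points). -/
theorem result {F : Type*} [Field F] [Fintype F] {m : ℕ} (hm : 1 ≤ m)
    (hF : Fintype.card F = 2 ^ (2 * m + 1)) (p : Fin 3 ↪ Cfsg.suzukiOvoid F m) :
    Projectivization.Independent (fun i => (p i : Projectivization F (Fin 4 → F))) := by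
  obtain ⟨θ, h, hθ⟩ := Cfsg.Agent.HL.Sz.exists_theta hF
  have hov := Cfsg.Agent.HL.Sz.suzukiOvoid_eq m θ hθ
  have h0 : ∀ i, ∃ a, (p i : Projectivization F (Fin 4 → F)) = Cfsg.Agent.HL.Sz.pt θ a := by
    intro i
    obtain ⟨a, ha⟩ := (Set.ext_iff.mp hov _).mp (p i).2
    exact ⟨a, ha.symm⟩
  choose a ha using h0
  have hinj : Function.Injective a := by
    intro i j hij
    apply p.injective
    apply Subtype.ext
    rw [ha, ha, hij]
  have := Cfsg.Agent.HL.Sz.indep_three hm hF h hθ a hinj
  convert this using 2 with i
  exact ha i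

end Cfsg.Agent.S0335
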