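import Cfsg.Statements.S0366
import Cfsg.Agent.H7_M24b

set_option autoImplicit false
open Cfsg

open Cfsg.Agent.H7.Golay
open Cfsg.Agent.H7.Oct
open Cfsg.Agent.H7.M24
open Cfsg.Agent.H7.M24b

namespace Cfsg.Agent.S0366

/-- The permutation group preserving the length-24 code is 5-transitive on the 24 points. -/
theorem result : MulAction.IsMultiplyPretransitive Cfsg.M24 Cfsg.GolayPt 5 := by
  rw [MulAction.isMultiplyPretransitive_iff]
  intro x y
  obtain ⟨g, hg, h⟩ := five_trans x y x.injective y.injective
  refine ⟨⟨g, hg⟩, ?_⟩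
  apply DFunLike.ext; intro i
  exact h i

end Cfsg.Agent.S0366
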