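import Cfsg.Statements.S0383
import Cfsg.Agent.H7_M24d

set_option autoImplicit false
open scoped Pointwise
open Cfsg

open Cfsg.Agent.H7.Golay
open Cfsg.Agent.H7.Oct
open Cfsg.Agent.H7.M24
open Cfsg.Agent.H7.M24b
open Cfsg.Agent.H7.M24c
open Cfsg.Agent.H7.M24d

namespace Cfsg.Agent.S0383

/-- A dodecad stabiliser in the group of the length-24 code is simple. -/
theorem result (d : Finset Cfsg.GolayPt) (hd : d ∈ Cfsg.dodecads) : IsSimpleGroup (MulAction.stabilizer Cfsg.M24 d) := by
  obtain ⟨e⟩ := stab_dodecad_equiv hd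
  have := M12s_simple
  exact e.isSimpleGroup

end Cfsg.Agent.S0383
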