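import Cfsg.Statements.S0384
import Cfsg.Agent.H7_M24d

set_option autoImplicit false
open scoped Pointwise
open Cfsg

open Cfsg.Agent.H7.Golay
open Cfsg.Agent.H7.Oct
open Cfsg.Agent.H7.M24
open Cfsg.Agent.H7.M24b
open Cfsg.Agent.H7.M24c
open Cfsg.Agent.H7.M24d

namespace Cfsg.Agent.S0384

/-- A dodecad stabiliser is sharply 5-transitive on the dodecad. -/
theorem result (d : Finset Cfsg.GolayPt) (hd : d ∈ Cfsg.dodecads) (x y : Fin 5 ↪ Cfsg.GolayPt) (hx : ∀ i, x i ∈ d) (hy : ∀ i, y i ∈ d) : ∃! g : MulAction.stabilizer Cfsg.M24 d, ∀ i, ((g : Cfsg.M24) : Equiv.Perm Cfsg.GolayPt) (x i) = y i := by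
  obtain ⟨g, hg, hgd, h⟩ := dodecad_five_trans hd 5 le_rfl x y hx hy x.injective y.injective
  refine ⟨⟨⟨g, hg⟩, hgd⟩, h, ?_⟩
  rintro ⟨⟨g', hg'⟩, hgd'⟩ h'
  have hgd'' : g' • d = d := hgd'
  have h' : ∀ i, g' (x i) = y i := h'
  have h1 : g⁻¹ * g' = 1 := by
    refine dodecad_five_fix hd x hx x.injective (mul_mem (inv_mem hg) hg') ?_ ?_
    · rw [mul_smul, hgd'', inv_smul_eq_iff, hgd]
    · intro i
      rw [Equiv.Perm.mul_apply, h' i, Equiv.Perm.inv_eq_iff_eq, h i]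
  apply Subtype.ext
  apply Subtype.ext
  exact (inv_mul_eq_one.1 h1).symm

end Cfsg.Agent.S0384
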