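import Cfsg.Statements.S0393
import Cfsg.Agent.H7_L4
import Cfsg.Agent.H7_Co3

set_option autoImplicit false
open Cfsg

namespace Cfsg.Agent.S0393


open Cfsg.Agent.H7.Golay Cfsg.Agent.H7.Oct Cfsg.Agent.H7.L1 Cfsg.Agent.H7.L3 Cfsg.Agent.H7.L4

/-- reduction modulo 4 -/
def π : (GolayPt → ℤ) →+ (GolayPt → ZMod 4) := (Int.castAddHom (ZMod 4)).compLeft GolayPt

theorem π_apply (x : GolayPt → ℤ) (i : GolayPt) : π x i = (x i : ZMod 4) := rfl

theorem mem_ker {x : GolayPt → ℤ} : x ∈ π.ker ↔ ∀ i, (4 : ℤ) ∣ x i := by
  rw [AddMonoidHom.mem_ker, funext_iff]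
  refine forall_congr' fun i => ?_
  rw [π_apply, Pi.zero_apply, ZMod.intCast_zmod_eq_zero_iff_dvd]
  rfl

theorem π_surj : Function.Surjective π := by
  intro y
  refine ⟨fun i => (y i).val, ?_⟩
  ext i
  rw [π_apply]
  simp

theorem cast_eq {a b : ℤ} : ((a : ZMod 4) = (b : ZMod 4)) ↔ a % 4 = b % 4 := by
  rw [ZMod.intCast_eq_intCast_iff]
  rfl

def ev (c : Finset GolayPt) : GolayPt → ZMod 4 := fun i => if i ∈ c then 2 else 0
def od (c : Finset GolayPt) : GolayPt → ZMod 4 := fun i => if i ∈ c then 1 else 3

theorem ev_inj : Function.Injective ev := by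
  intro c d h
  ext i
  have := congrFun h i
  by_cases h1 : i ∈ c <;> by_cases h2 : i ∈ d <;> simp [ev, h1, h2] at this ⊢
  all_goals exact absurd this (by decide)

theorem od_inj : Function.Injective od := by
  intro c d h
  ext i
  have := congrFun h i
  by_cases h1 : i ∈ c <;> by_cases h2 : i ∈ d <;> simp [od, h1, h2] at this ⊢
  all_goals exact absurd this (by decide)

theorem map_eq : ((leechLattice.map π : AddSubgroup _) : Set (GolayPt → ZMod 4)) = ev '' Cw ∪ od '' Cw := by
  ext y
  constructor
  · rintro ⟨x, hx, rfl⟩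
    rcases mem_leech_iff.1 hx with h | h
    · left
      refine ⟨cls x 2, h.2.2, ?_⟩
      ext i
      rw [π_apply]
      have := h.1 i
      by_cases hi : i ∈ cls x 2
      · rw [ev, if_pos hi]
        rw [mem_cls] at hi
        have : ((x i : ℤ) : ZMod 4) = ((2 : ℤ) : ZMod 4) := cast_eq.2 (by omega)
        rw [this]; rfl
      · rw [ev, if_neg hi]
        rw [mem_cls] at hi
        have : ((x i : ℤ) : ZMod 4) = ((0 : ℤ) : ZMod 4) := cast_eq.2 (by omega)
        rw [this]; rfl
    · right
      refine ⟨cls x 1, h.2.2, ?_⟩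
      ext i
      rw [π_apply]
      have := h.1 i
      by_cases hi : i ∈ cls x 1
      · rw [od, if_pos hi]
        rw [mem_cls] at hi
        have : ((x i : ℤ) : ZMod 4) = ((1 : ℤ) : ZMod 4) := cast_eq.2 (by omega)
        rw [this]; rfl
      · rw [od, if_neg hi]
        rw [mem_cls] at hi
        have : ((x i : ℤ) : ZMod 4) = ((3 : ℤ) : ZMod 4) := cast_eq.2 (by omega)
        rw [this]; rfl
  · rintro (⟨c, hc, rfl⟩ | ⟨c, hc, rfl⟩)
    · refine ⟨fun i => if i ∈ c then 2 else 0, ?_, ?_⟩
      · apply mem_leech_iff.2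
        left
        refine ⟨fun i => by dsimp only; split_ifs <;> norm_num, ?_, ?_⟩
        · rw [Finset.sum_ite_mem, Finset.univ_inter, Finset.sum_const, nsmul_eq_mul]
          have := weight4 hc
          omega
        · have : cls (fun i => if i ∈ c then (2 : ℤ) else 0) 2 = c := by
            ext i
            rw [mem_cls]
            by_cases hi : i ∈ c <;> simp [hi]
          rw [this]; exact hc
      · ext i
        rw [π_apply]
        by_cases hi : i ∈ c <;> simp [ev, hi]
    · have hm : (fun q => (if q ∈ c then (1 : ℤ) else -1) * (if q = none then -3 else 1)) ∈ famC :=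
        mem_famC.2 ⟨c, hc, none, fun q => rfl⟩
      refine ⟨_, mem_leech_iff.2 (Or.inr (famC_spec hm).1), ?_⟩
      ext i
      rw [π_apply]
      by_cases hn : i = none
      · subst hn
        by_cases hi : none ∈ c
        · simp only [od, hi, if_true]; decide
        · simp only [od, hi, if_true, if_false]; decide
      · by_cases hi : i ∈ c
        · simp only [od, hi, hn, if_true, if_false]; decide
        · simp only [od, hi, hn, if_false]; decide

theorem card_map : Nat.card (leechLattice.map π) = 8192 := by
  have h : Nat.card (leechLattice.map π) = (ev '' Cw ∪ od '' Cw).ncard := by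
    rw [← map_eq]; rfl
  rw [h, Set.ncard_union_eq _ (Set.toFinite _) (Set.toFinite _), Set.ncard_image_of_injective _ ev_inj,
    Set.ncard_image_of_injective _ od_inj, Cfsg.Agent.H7.Co3.ncard_Cw]
  rw [Set.disjoint_left]
  rintro y ⟨c, -, rfl⟩ ⟨d, -, h⟩
  have := congrFun h none
  by_cases h1 : none ∈ c <;> by_cases h2 : none ∈ d <;> simp [ev, od, h1, h2] at this <;> exact absurd this (by decide)


/-- The lattice has index 2^36 in ℤ^24 (unimodular at scale 1/8). -/
theorem result : Cfsg.leechLattice.index = 2 ^ 36 := by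
  have h1 : π.ker.index = 4 ^ 24 := by
    rw [AddSubgroup.index_ker, AddMonoidHom.range_eq_top.2 π_surj, AddSubgroup.card_top, Nat.card_eq_fintype_card, Fintype.card_fun,
      ZMod.card]
    rfl
  have h2 : π.ker.relIndex leechLattice = 8192 := by
    rw [AddSubgroup.relIndex_ker, card_map]
  have h3 : leechLattice.relIndex π.ker = 2 := by
    rw [AddSubgroup.relIndex_eq_two_iff]
    have key : ∀ x, x ∈ π.ker → (x ∈ leechLattice ↔ (∑ i, x i) % 8 = 0) := by
      intro x hx
      rw [mem_ker] at hx
      rw [mem_leech_iff]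
      constructor
      · rintro (h | h)
        · exact h.2.1
        · have := h.1 none
          have := hx none
          omega
      · intro h
        left
        refine ⟨fun i => by have := hx i; omega, h, ?_⟩
        have : cls x 2 = ∅ := by
          ext i
          rw [mem_cls]
          have := hx i
          simp only [Finset.notMem_empty, iff_false]
          omega
        rw [this]
        have h0 := evenT_zero.2.2
        rwa [show cls (0 : GolayPt → ℤ) 2 = ∅ by ext i; simp [mem_cls]] at h0
    refine ⟨Pi.single none 4, ?_, ?_⟩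
    · rw [mem_ker]
      intro i
      rcases single_cases none 4 i with h | h <;> rw [h] <;> norm_num
    · intro b hb
      have hs : (Pi.single none 4 : GolayPt → ℤ) ∈ π.ker := by
        rw [mem_ker]
        intro i
        rcases single_cases none 4 i with h | h <;> rw [h] <;> norm_num
      rw [key _ (π.ker.add_mem hb hs), key _ hb]
      have e : ∑ i, (b + Pi.single none 4 : GolayPt → ℤ) i = ∑ i, b i + 4 := by
        simp only [Pi.add_apply]
        rw [Finset.sum_add_distrib, sum_single]
      rw [e]
      have hd : (4 : ℤ) ∣ ∑ i, b i := Finset.dvd_sum fun i _ => mem_ker.1 hb i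
      unfold Xor
      omega
  have h4 : (π.ker ⊓ leechLattice).index = 2 * 4 ^ 24 := by
    rw [← AddSubgroup.relIndex_mul_index (inf_le_left : π.ker ⊓ leechLattice ≤ π.ker), h1, AddSubgroup.inf_relIndex_left, h3]
  have h5 : (π.ker ⊓ leechLattice).index = 8192 * leechLattice.index := by
    rw [← AddSubgroup.relIndex_mul_index (inf_le_right : π.ker ⊓ leechLattice ≤ leechLattice), AddSubgroup.inf_relIndex_right, h2]
  rw [h4] at h5
  omega

end Cfsg.Agent.S0393
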