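import Cfsg.Statements.S0408
import Cfsg.Agent.H7_S12b

set_option autoImplicit false
open Cfsg

namespace Cfsg.Agent.S0408

/-- Uniqueness of the Steiner system S(5, 6, 12) up to isomorphism. -/
theorem result {α β : Type*} [Fintype α] [DecidableEq α] [Fintype β] [DecidableEq β] (hα : Fintype.card α = 12) (hβ : Fintype.card β = 12) {B : Set (Finset α)} {B' : Set (Finset β)} (hB : Cfsg.IsSteinerSystem 5 6 B) (hB' : Cfsg.IsSteinerSystem 5 6 B') : Cfsg.SetSystemIso B B' := by
  obtain ⟨x⟩ : Nonempty (Fin 5 ↪ α) := by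
    rw [Function.Embedding.nonempty_iff_card_le, Fintype.card_fin, hα]
    norm_num
  obtain ⟨y⟩ : Nonempty (Fin 5 ↪ β) := by
    rw [Function.Embedding.nonempty_iff_card_le, Fintype.card_fin, hβ]
    norm_num
  obtain ⟨e, he, -⟩ := Cfsg.Agent.H7.S12.iso12 hα hB x
  obtain ⟨e', he', -⟩ := Cfsg.Agent.H7.S12.iso12 hβ hB' y
  exact (he.symm.trans he').toSSI

end Cfsg.Agent.S0408
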