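import Cfsg.Statements.S0432
import Cfsg.Agent.H7_L1

set_option autoImplicit false
open Cfsg

open Cfsg.Agent.H7.L1

namespace Cfsg.Agent.S0432

/-- Coordinate permutations from the code's group preserve the lattice. -/
theorem result (σ : Equiv.Perm Cfsg.GolayPt) (hσ : σ ∈ Cfsg.M24) (x : Cfsg.GolayPt → ℤ) (hx : x ∈ Cfsg.leechLattice) : (fun i => x (σ i)) ∈ Cfsg.leechLattice := by
  exact perm_mem hσ hx

end Cfsg.Agent.S0432
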