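import Cfsg.Statements.S0439
import Mathlib

set_option autoImplicit false
open Cfsg

namespace Cfsg.Agent.S0439

/-- In the symmetric group of degree n ≥ 2, the set of transpositions is a conjugacy class of 3-transpositions which generates the group. -/
theorem result (n : ℕ) (hn : 2 ≤ n) : Cfsg.IsThreeTranspositionClass {σ : Equiv.Perm (Fin n) | σ.IsSwap} := by
  have hsame : ∀ a b c : Fin n, a ≠ b → a ≠ c →
      (Equiv.swap a b * Equiv.swap a c) ^ 2 = 1 ∨ (Equiv.swap a b * Equiv.swap a c) ^ 3 = 1 := by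
    intro a b c hab hac
    by_cases hbc : b = c
    · left; subst hbc; simp
    · right
      have := (Equiv.Perm.isThreeCycle_swap_mul_swap_same hab hac hbc).orderOf
      rw [← this]; exact pow_orderOf_eq_one _
  refine ⟨⟨?_, ?_⟩, ?_, Equiv.Perm.closure_isSwap⟩
  · rintro d ⟨x, y, hxy, rfl⟩
    exact Equiv.Perm.IsSwap.orderOf ⟨x, y, hxy, rfl⟩
  · rintro _ ⟨x, y, hxy, rfl⟩ _ ⟨z, w, hzw, rfl⟩
    by_cases h1 : x = z
    · subst h1; exact hsame x y w hxy hzw
    by_cases h2 : x = w
    · subst h2
      rw [Equiv.swap_comm z x]; exact hsame x y z hxy hzw.symm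
    by_cases h3 : y = z
    · subst h3
      rw [Equiv.swap_comm x y]; exact hsame y x w hxy.symm hzw
    by_cases h4 : y = w
    · subst h4
      rw [Equiv.swap_comm x y, Equiv.swap_comm z y]; exact hsame y x z hxy.symm hzw.symm
    · left
      have hd : Equiv.Perm.Disjoint (Equiv.swap x y) (Equiv.swap z w) := by
        intro u
        by_cases hux : u = x
        · subst hux; right; exact Equiv.swap_apply_of_ne_of_ne h1 h2
        by_cases huy : u = y
        · subst huy; right; exact Equiv.swap_apply_of_ne_of_ne h3 h4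
        · left; exact Equiv.swap_apply_of_ne_of_ne hux huy
      rw [hd.commute.mul_pow]
      simp [pow_two, Equiv.swap_mul_self]
  · have h01 : (⟨0, by omega⟩ : Fin n) ≠ ⟨1, by omega⟩ := by
      intro h; simpa using congrArg Fin.val h
    refine ⟨Equiv.swap (⟨0, by omega⟩ : Fin n) ⟨1, by omega⟩, ⟨_, _, h01, rfl⟩, ?_⟩
    ext σ
    constructor
    · rintro ⟨x, y, hxy, rfl⟩
      exact Equiv.Perm.isConj_swap h01 hxy
    · intro h
      have h' : IsConj (Equiv.swap (⟨0, by omega⟩ : Fin n) ⟨1, by omega⟩) σ := h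
      rw [Equiv.Perm.isConj_iff_cycleType_eq] at h'
      change σ.IsSwap
      rw [Equiv.Perm.isSwap_iff_cycleType, ← h', ← Equiv.Perm.isSwap_iff_cycleType]
      exact ⟨_, _, h01, rfl⟩

end Cfsg.Agent.S0439
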