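import Cfsg.Statements.S0440
import Cfsg.Agent.H5_Symp

set_option autoImplicit false
open Cfsg

namespace Cfsg.Agent.S0440

open H5.Symp Matrix

theorem eq_T {F : Type*} [Field F] {m : ℕ} (g : Matrix.symplecticGroup (Fin m) F)
    (hr : ((g : Matrix (Fin m ⊕ Fin m) (Fin m ⊕ Fin m) F) - 1).rank = 1) :
    ∃ (w : Fin m ⊕ Fin m → F) (c : F), w ≠ 0 ∧ c ≠ 0 ∧ g = T w c := by
  have h1 : Module.finrank F (LinearMap.range ((g : Matrix (Fin m ⊕ Fin m) (Fin m ⊕ Fin m) F) - 1).mulVecLin) = 1 := hr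
  rw [finrank_eq_one_iff'] at h1
  obtain ⟨⟨w, hw⟩, hw0, hw1⟩ := h1
  have hw0' : w ≠ 0 := fun h => hw0 (Subtype.ext h)
  have h2 : ∀ x : Fin m ⊕ Fin m → F, ∃ c : F, (g : Matrix (Fin m ⊕ Fin m) (Fin m ⊕ Fin m) F) *ᵥ x = x + c • w := by
    intro x
    obtain ⟨c, hc⟩ := hw1 ⟨_, ⟨x, rfl⟩⟩
    have h3 : c • w = ((g : Matrix (Fin m ⊕ Fin m) (Fin m ⊕ Fin m) F) - 1) *ᵥ x := congrArg Subtype.val hc
    refine ⟨c, ?_⟩
    rw [h3, Matrix.sub_mulVec, Matrix.one_mulVec]
    abel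
  choose φ hφ using h2
  have hinv := (H5.Conc.mem_symplecticGroup_iff g.1).1 g.2
  have h3 : ∀ x y, φ y * Cfsg.sympForm m F x w = φ x * Cfsg.sympForm m F y w := by
    intro x y
    have h4 := hinv x y
    rw [hφ, hφ, add_left, add_right, add_right, smul_left, smul_left, smul_right, smul_right, self, swap y w] at h4
    linear_combination h4
  obtain ⟨y, hy⟩ := exists_ne hw0'
  have hy' : Cfsg.sympForm m F y w ≠ 0 := by
    rw [swap w y]; exact neg_ne_zero.mpr hy
  have hg : g = T w (φ y / Cfsg.sympForm m F y w) := by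
    apply Sp_ext
    intro x
    rw [hφ, T_apply]
    congr 2
    rw [div_mul_eq_mul_div, h3 x y, mul_div_assoc, div_self hy', mul_one]
  refine ⟨w, _, hw0', ?_, hg⟩
  intro hc
  rw [hc, T_zero] at hg
  rw [hg] at hr
  simp at hr

theorem rank_T {F : Type*} [Field F] {m : ℕ} {w : Fin m ⊕ Fin m → F} {c : F} (hw : w ≠ 0) (hc : c ≠ 0) :
    ((T w c : Matrix (Fin m ⊕ Fin m) (Fin m ⊕ Fin m) F) - 1).rank = 1 := by
  obtain ⟨y, hy⟩ := exists_ne hw
  have hy' : Cfsg.sympForm m F y w ≠ 0 := by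
    rw [swap w y]; exact neg_ne_zero.mpr hy
  have h1 : LinearMap.range ((T w c : Matrix (Fin m ⊕ Fin m) (Fin m ⊕ Fin m) F) - 1).mulVecLin = Submodule.span F {w} := by
    apply le_antisymm
    · rintro _ ⟨x, rfl⟩
      rw [Matrix.mulVecLin_apply, Matrix.sub_mulVec, T_apply, Matrix.one_mulVec, add_sub_cancel_left]
      exact Submodule.smul_mem _ _ (Submodule.mem_span_singleton_self w)
    · rw [Submodule.span_singleton_le_iff_mem]
      refine ⟨(c * Cfsg.sympForm m F y w)⁻¹ • y, ?_⟩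
      rw [Matrix.mulVecLin_apply, Matrix.mulVec_smul, Matrix.sub_mulVec, T_apply, Matrix.one_mulVec, add_sub_cancel_left, smul_smul,
        inv_mul_cancel₀ (mul_ne_zero hc hy'), one_smul]
  show Module.finrank F (LinearMap.range _) = 1
  rw [h1, finrank_span_singleton hw]

theorem T_ne_one {F : Type*} [Field F] {m : ℕ} {w : Fin m ⊕ Fin m → F} {c : F} (hw : w ≠ 0) (hc : c ≠ 0) :
    T w c ≠ 1 := by
  intro h
  have := rank_T hw hc
  rw [h] at this
  simp at this

theorem braid {F : Type*} [Field F] [CharP F 2] {m : ℕ} {u v : Fin m ⊕ Fin m → F} (h : Cfsg.sympForm m F u v = 1) :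
    (T u (1 : F) * T v 1) ^ 3 = 1 := by
  have h2 : (1 : F) + 1 = 0 := CharTwo.add_self_eq_zero 1
  have hsq : ∀ w : Fin m ⊕ Fin m → F, T w (1 : F) * T w 1 = 1 := fun w => by rw [T_mul_T, h2, T_zero]
  have hinv : ∀ w : Fin m ⊕ Fin m → F, (T w (1 : F))⁻¹ = T w 1 := fun w => inv_eq_of_mul_eq_one_left (hsq w)
  have hvu : Cfsg.sympForm m F v u = 1 := by
    rw [swap u v, h]
    exact neg_eq_of_add_eq_zero_left h2
  have h3 : T u (1 : F) * T v 1 * T u 1 = T (u + v) 1 := by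
    have := conj_T (T u (1 : F)) v 1
    rw [hinv, T_apply, hvu, mul_one, one_smul, add_comm v u] at this
    exact this
  have h4 : T v (1 : F) * T u 1 * T v 1 = T (u + v) 1 := by
    have := conj_T (T v (1 : F)) u 1
    rw [hinv, T_apply, h, mul_one, one_smul] at this
    exact this
  have h5 : (T u (1 : F) * T v 1) ^ 3 = (T u 1 * T v 1 * T u 1) * (T v 1 * T u 1 * T v 1) := by
    rw [pow_succ, pow_two]
    simp only [mul_assoc]
  rw [h5, h3, h4, hsq]

theorem commT {F : Type*} [Field F] [CharP F 2] {m : ℕ} {u v : Fin m ⊕ Fin m → F} (h : Cfsg.sympForm m F u v = 0) :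
    (T u (1 : F) * T v 1) ^ 2 = 1 := by
  have h2 : (1 : F) + 1 = 0 := CharTwo.add_self_eq_zero 1
  have hsq : ∀ w : Fin m ⊕ Fin m → F, T w (1 : F) * T w 1 = 1 := fun w => by rw [T_mul_T, h2, T_zero]
  have hinv : ∀ w : Fin m ⊕ Fin m → F, (T w (1 : F))⁻¹ = T w 1 := fun w => inv_eq_of_mul_eq_one_left (hsq w)
  have hvu : Cfsg.sympForm m F v u = 0 := by
    rw [swap u v, h, neg_zero]
  have h3 : T u (1 : F) * T v 1 * T u 1 = T v 1 := by
    have := conj_T (T u (1 : F)) v 1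
    rw [hinv, T_apply, hvu, mul_zero, zero_smul, add_zero] at this
    exact this
  rw [pow_two, ← mul_assoc, h3, hsq]

theorem cases2 (c : ZMod 2) : c = 0 ∨ c = 1 := by
  revert c; decide

theorem main (F : Type*) [Field F] [CharP F 2] (h01 : ∀ c : F, c = 0 ∨ c = 1) (n : ℕ) (hn : 1 ≤ n) :
    Cfsg.IsThreeTranspositionClass {g : Matrix.symplecticGroup (Fin n) F | ((g : Matrix (Fin n ⊕ Fin n) (Fin n ⊕ Fin n) F) - 1).rank = 1} := by
  have h2 : (1 : F) + 1 = 0 := CharTwo.add_self_eq_zero 1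
  have hsq : ∀ w : Fin n ⊕ Fin n → F, T w (1 : F) * T w 1 = 1 := fun w => by rw [T_mul_T, h2, T_zero]
  have hD : ∀ g : Matrix.symplecticGroup (Fin n) F, ((g : Matrix (Fin n ⊕ Fin n) (Fin n ⊕ Fin n) F) - 1).rank = 1 ↔ ∃ w : Fin n ⊕ Fin n → F, w ≠ 0 ∧ g = T w 1 := by
    intro g
    constructor
    · intro h
      obtain ⟨w, c, hw, hc, hg⟩ := eq_T g h
      rw [(h01 c).resolve_left hc] at hg
      exact ⟨w, hw, hg⟩
    · rintro ⟨w, hw, rfl⟩
      exact rank_T hw one_ne_zero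
  refine ⟨⟨?_, ?_⟩, ?_, ?_⟩
  · intro d hd
    obtain ⟨w, hw, rfl⟩ := (hD d).1 hd
    exact orderOf_eq_prime (by rw [pow_two]; exact hsq w) (T_ne_one hw one_ne_zero)
  · intro d hd e he
    obtain ⟨w, hw, rfl⟩ := (hD d).1 hd
    obtain ⟨u, hu, rfl⟩ := (hD e).1 he
    rcases h01 (Cfsg.sympForm n F w u) with h | h
    · exact Or.inl (commT h)
    · exact Or.inr (braid h)
  · have hv : (fun _ => 1 : Fin n ⊕ Fin n → F) ≠ 0 := fun h => one_ne_zero (congrFun h (Sum.inl ⟨0, by omega⟩))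
    refine ⟨T (fun _ => 1) 1, (hD _).2 ⟨_, hv, rfl⟩, ?_⟩
    ext g
    rw [Set.mem_setOf_eq, hD]
    show _ ↔ IsConj _ g
    rw [isConj_iff]
    constructor
    · rintro ⟨w, hw, rfl⟩
      obtain ⟨x, -, hx⟩ := H_transitive hv hw
      exact ⟨x, by rw [conj_T, hx]⟩
    · rintro ⟨x, rfl⟩
      refine ⟨_, ?_, conj_T x _ 1⟩
      intro h
      have h3 := conj_T x (fun _ => 1) (1 : F)
      rw [h] at h3
      have h4 : T (0 : Fin n ⊕ Fin n → F) (1 : F) = 1 := by
        apply Sp_ext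
        intro x
        rw [T_apply, smul_zero, add_zero]
        simp
      rw [h4, mul_inv_eq_one] at h3
      exact T_ne_one hv one_ne_zero (mul_eq_left.1 h3)
  · rw [eq_top_iff, ← H_eq_top, H, Subgroup.closure_le]
    rintro A ⟨w, c, hA⟩
    have hA' : A = T w c := Subtype.ext hA
    rw [hA']
    rcases h01 c with rfl | rfl
    · rw [T_zero]; exact Subgroup.one_mem _
    · by_cases hw : w = 0
      · have h4 : T w (1 : F) = 1 := by
          apply Sp_ext
          intro x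
          rw [T_apply, hw, smul_zero, add_zero]
          simp
        rw [h4]; exact Subgroup.one_mem _
      · exact Subgroup.subset_closure ((hD _).2 ⟨w, hw, rfl⟩)

/-- In the symplectic group in dimension 2n ≥ 2 over the field with two elements, the elements g for which g - 1 has rank one (the symplectic transvections) form a conjugacy class of 3-transpositions generating the group. -/
theorem result (n : ℕ) (hn : 1 ≤ n) : Cfsg.IsThreeTranspositionClass {g : Matrix.symplecticGroup (Fin n) (ZMod 2) | ((g : Matrix (Fin n ⊕ Fin n) (Fin n ⊕ Fin n) (ZMod 2)) - 1).rank = 1} := by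
  exact main (ZMod 2) cases2 n hn

end Cfsg.Agent.S0440
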