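import Cfsg.Statements.S0442
import Mathlib

set_option autoImplicit false
open Cfsg

namespace Cfsg.Agent.S0442

/-- A standard trick for producing elements of an involution centraliser: for an involution a and an element g, let b be the conjugate g⁻¹ * a * g. If a * b has odd order 2m + 1 then g * (a * b) ^ m commutes with a; if a * b has even order 2m then (a * b) ^ m and (a * (g * a * g⁻¹)) ^ m commute with a. -/
theorem result {G : Type*} [Group G] (a g : G) (ha : orderOf a = 2) : (∀ m : ℕ, orderOf (a * (g⁻¹ * a * g)) = 2 * m + 1 → Commute (g * (a * (g⁻¹ * a * g)) ^ m) a) ∧ (∀ m : ℕ, orderOf (a * (g⁻¹ * a * g)) = 2 * m → Commute ((a * (g⁻¹ * a * g)) ^ m) a ∧ Commute ((a * (g * a * g⁻¹)) ^ m) a) := by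
  have h2 : a * a = 1 := by
    have := pow_orderOf_eq_one a
    rw [ha, pow_two] at this; exact this
  have hinv : a⁻¹ = a := inv_eq_of_mul_eq_one_left h2
  have key : ∀ (c : G) (hc : c * c = 1) (m : ℕ), a * (a * c) ^ m * a = ((a * c) ^ m)⁻¹ := by
    intro c hc m
    have hcinv : c⁻¹ = c := inv_eq_of_mul_eq_one_left hc
    have h3 : a * (a * c) * a⁻¹ = (a * c)⁻¹ := by
      rw [mul_inv_rev, hcinv, ← mul_assoc, h2, one_mul]
    have h4 : (a * (a * c) * a⁻¹) ^ m = a * (a * c) ^ m * a⁻¹ := conj_pow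
    rw [h3, hinv] at h4
    rw [← h4, inv_pow]
  have hb : (g⁻¹ * a * g) * (g⁻¹ * a * g) = 1 := by
    have : (g⁻¹ * a * g) * (g⁻¹ * a * g) = g⁻¹ * (a * a) * g := by group
    rw [this, h2]; group
  have hb' : (g * a * g⁻¹) * (g * a * g⁻¹) = 1 := by
    have : (g * a * g⁻¹) * (g * a * g⁻¹) = g * (a * a) * g⁻¹ := by group
    rw [this, h2]; group
  have comm_of : ∀ c : G, c * c = 1 → ∀ m : ℕ, (a * c) ^ (2 * m) = 1 → Commute ((a * c) ^ m) a := by
    intro c hc m hm
    have h3 := key c hc m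
    have h4 : ((a * c) ^ m)⁻¹ = (a * c) ^ m := by
      apply inv_eq_of_mul_eq_one_left
      rw [← pow_add, ← two_mul]; exact hm
    rw [h4] at h3
    -- a x a = x
    have h5 : a * (a * (a * c) ^ m * a) = a * (a * c) ^ m := by rw [h3]
    have h6 : a * (a * (a * c) ^ m * a) = (a * a) * ((a * c) ^ m * a) := by group
    rw [h6, h2, one_mul] at h5
    exact h5
  refine ⟨?_, ?_⟩
  · intro m hm
    have hpow : (a * (g⁻¹ * a * g)) ^ (2 * m + 1) = 1 := by rw [← hm]; exact pow_orderOf_eq_one _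
    have h3 := key _ hb m
    -- a g x a = g (g⁻¹ a g) x a = g (b) (a a) x a
    change g * (a * (g⁻¹ * a * g)) ^ m * a = a * (g * (a * (g⁻¹ * a * g)) ^ m)
    have h4 : a * (g * (a * (g⁻¹ * a * g)) ^ m) = g * (g⁻¹ * a * g) * (a * (g⁻¹ * a * g)) ^ m := by group
    rw [h4]
    set b := g⁻¹ * a * g with hbdef
    have hbinv : b⁻¹ = b := inv_eq_of_mul_eq_one_left hb
    -- (ab)^m a = b (ab)^m
    have h5 : a * ((a * b) ^ m * a) = ((a * b) ^ m)⁻¹ := by rw [← mul_assoc]; exact h3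
    have h6 : ((a * b) ^ m)⁻¹ = (a * b) ^ (m + 1) := by
      apply inv_eq_of_mul_eq_one_left
      rw [← pow_add, ← hpow]; congr 1; ring
    have h7 : (a * b) ^ m * a = a * (a * b) ^ (m + 1) := by
      rw [← h6, ← h5, ← mul_assoc a a, h2, one_mul]
    rw [mul_assoc, h7, pow_succ', mul_assoc g b]
    congr 1
    rw [← mul_assoc, ← mul_assoc, h2, one_mul]
  · intro m hm
    have hpow : (a * (g⁻¹ * a * g)) ^ (2 * m) = 1 := by rw [← hm]; exact pow_orderOf_eq_one _
    refine ⟨comm_of _ hb m hpow, comm_of _ hb' m ?_⟩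
    have h4 : a * (g * a * g⁻¹) = g * (a * (g⁻¹ * a * g))⁻¹ * g⁻¹ := by
      simp only [mul_inv_rev, inv_inv, hinv]; group
    rw [h4, conj_pow, inv_pow, hpow]; group

end Cfsg.Agent.S0442
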