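import Cfsg.Statements.S0443
import Mathlib

set_option autoImplicit false
open Cfsg

namespace Cfsg.Agent.S0443

/-- Two definitions of a 2-central involution agree: an element t of order 2 of a finite group lies in the centre of some Sylow 2-subgroup if and only if its centraliser contains some Sylow 2-subgroup. -/
theorem result {G : Type*} [Group G] [Finite G] (t : G) (ht : orderOf t = 2) : Cfsg.IsTwoCentralInvolution t ↔ ∃ P : Sylow 2 G, (P : Subgroup G) ≤ Subgroup.centralizer ({t} : Set G) := by
  have : Fact (Nat.Prime 2) := ⟨Nat.prime_two⟩
  constructor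
  · rintro ⟨-, P, htP, hP⟩
    refine ⟨P, ?_⟩
    intro x hx
    rw [Subgroup.mem_centralizer_singleton_iff]
    exact (hP x hx)
  · rintro ⟨P, hP⟩
    refine ⟨ht, P, ?_, ?_⟩
    · have hle : Subgroup.zpowers t ≤ Subgroup.normalizer ((P : Subgroup G) : Set G) := by
        rw [Subgroup.zpowers_le]
        apply Subgroup.centralizer_le_normalizer
        intro x hx
        have := hP hx
        rw [Subgroup.mem_centralizer_singleton_iff] at this
        exact this
      have h2 : IsPGroup 2 (Subgroup.zpowers t) := by
        apply IsPGroup.of_card (n := 1)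
        rw [Nat.card_zpowers, ht]; rfl
      have hsup : IsPGroup 2 ((P : Subgroup G) ⊔ Subgroup.zpowers t : Subgroup G) :=
        IsPGroup.to_sup_of_normal_left' P.isPGroup' h2 hle
      have := P.is_maximal' hsup le_sup_left
      have h3 : t ∈ ((P : Subgroup G) ⊔ Subgroup.zpowers t : Subgroup G) :=
        (le_sup_right : Subgroup.zpowers t ≤ _) (Subgroup.mem_zpowers t)
      rw [this] at h3; exact h3
    · intro x hx
      have := hP hx
      rw [Subgroup.mem_centralizer_singleton_iff] at this
      exact this

end Cfsg.Agent.S0443
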