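import Cfsg.Statements.S0444
import Mathlib

set_option autoImplicit false
open Cfsg

namespace Cfsg.Agent.S0444

/-- the map from the dihedral group of order 6 -/
def fmap {G : Type*} [Group G] (d e : G) : DihedralGroup 3 → G
  | .r i => (d * e) ^ i.val
  | .sr i => d * (d * e) ^ i.val

theorem fmap_mul {G : Type*} [Group G] (d e : G) (hd : d * d = 1) (he : e * e = 1)
    (h3 : (d * e) ^ 3 = 1) (x y : DihedralGroup 3) : fmap d e (x * y) = fmap d e x * fmap d e y := by
  have hpow : ∀ n : ℕ, (d * e) ^ (n % 3) = (d * e) ^ n := fun n => by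
    conv_rhs => rw [← Nat.mod_add_div n 3, pow_add, pow_mul, h3, one_pow, mul_one]
  have hdi : d⁻¹ = d := inv_eq_of_mul_eq_one_left hd
  have hei : e⁻¹ = e := inv_eq_of_mul_eq_one_left he
  have hconj : ∀ n : ℕ, d * (d * e) ^ n * d = ((d * e) ^ n)⁻¹ := by
    intro n
    have h1 : d * (d * e) * d⁻¹ = (d * e)⁻¹ := by
      rw [mul_inv_rev, hei, hdi, ← mul_assoc, hd, one_mul]
    have h2 : (d * (d * e) * d⁻¹) ^ n = d * (d * e) ^ n * d⁻¹ := conj_pow
    rw [h1, inv_pow, hdi] at h2
    exact h2.symm
  have hneg : ∀ i : ZMod 3, (d * e) ^ (-i).val = ((d * e) ^ i.val)⁻¹ := by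
    intro i
    apply eq_inv_of_mul_eq_one_left
    rw [← pow_add]
    rw [← hpow, ← ZMod.val_add, neg_add_cancel]; simp
  have hadd : ∀ i j : ZMod 3, (d * e) ^ (i + j).val = (d * e) ^ i.val * (d * e) ^ j.val := by
    intro i j
    rw [ZMod.val_add, hpow, pow_add]
  have hcomm : ∀ i : ZMod 3, (d * e) ^ i.val * d = d * ((d * e) ^ i.val)⁻¹ := by
    intro i
    rw [← hconj, ← mul_assoc, ← mul_assoc, hd, one_mul]
  rcases x with i | i <;> rcases y with j | j
  · rw [DihedralGroup.r_mul_r]; exact hadd i j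
  · rw [DihedralGroup.r_mul_sr]
    change d * (d * e) ^ (j - i).val = (d * e) ^ i.val * (d * (d * e) ^ j.val)
    rw [← mul_assoc, hcomm, mul_assoc, ← hneg, ← hadd]; congr 3; ring
  · rw [DihedralGroup.sr_mul_r]
    change d * (d * e) ^ (i + j).val = d * (d * e) ^ i.val * (d * e) ^ j.val
    rw [hadd, mul_assoc]
  · rw [DihedralGroup.sr_mul_sr]
    change (d * e) ^ (j - i).val = d * (d * e) ^ i.val * (d * (d * e) ^ j.val)
    have : d * (d * e) ^ i.val * (d * (d * e) ^ j.val) = (d * (d * e) ^ i.val * d) * (d * e) ^ j.val := by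
      simp only [mul_assoc]
    rw [this, hconj, ← hneg, ← hadd]; congr 2; ring

theorem iso_dihedral {G : Type*} [Group G] (d e : G) (hd : d * d = 1) (he : e * e = 1)
    (h3 : (d * e) ^ 3 = 1) (hc : ¬ Commute d e) :
    Nonempty (DihedralGroup 3 ≃* Subgroup.closure ({d, e} : Set G)) := by
  let f : DihedralGroup 3 →* G := MonoidHom.mk' (fmap d e) (fmap_mul d e hd he h3)
  have hr : ∀ i, f (.r i) = (d * e) ^ i.val := fun i => rfl
  have hsr : ∀ i, f (.sr i) = d * (d * e) ^ i.val := fun i => rfl
  have hde : d * e ≠ 1 := by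
    intro h
    apply hc
    have h1 : d = e⁻¹ := eq_inv_of_mul_eq_one_left h
    rw [h1]; exact (Commute.refl e).inv_left
  have hord : orderOf (d * e) = 3 := by
    have : Fact (Nat.Prime 3) := ⟨Nat.prime_three⟩
    exact orderOf_eq_prime h3 hde
  have hinj : Function.Injective f := by
    rw [injective_iff_map_eq_one]
    intro x hx
    rcases x with i | i
    · rw [hr] at hx
      have h1 := orderOf_dvd_of_pow_eq_one hx
      rw [hord] at h1
      have h2 : i.val < 3 := ZMod.val_lt i
      have h3' : i.val = 0 := Nat.eq_zero_of_dvd_of_lt h1 h2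
      have : i = 0 := (ZMod.val_eq_zero i).1 h3'
      rw [this]; rfl
    · exfalso
      rw [hsr] at hx
      -- d = ((d e)^i)⁻¹ commutes with d * e, hence with e
      have h1 : d = ((d * e) ^ i.val)⁻¹ := eq_inv_of_mul_eq_one_left hx
      have h2 : Commute d (d * e) := by
        have : Commute (((d * e) ^ i.val)⁻¹) (d * e) := ((Commute.refl (d * e)).pow_left _).inv_left
        rw [← h1] at this; exact this
      apply hc
      have h5 : Commute d (d * (d * e)) := (Commute.refl d).mul_right h2
      rw [← mul_assoc, hd, one_mul] at h5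
      exact h5
  have hrange : f.range = Subgroup.closure ({d, e} : Set G) := by
    apply le_antisymm
    · rintro _ ⟨x, rfl⟩
      have hdm : d ∈ Subgroup.closure ({d, e} : Set G) := Subgroup.subset_closure (by simp)
      have hem : e ∈ Subgroup.closure ({d, e} : Set G) := Subgroup.subset_closure (by simp)
      rcases x with i | i
      · rw [hr]; exact Subgroup.pow_mem _ (Subgroup.mul_mem _ hdm hem) _
      · rw [hsr]; exact Subgroup.mul_mem _ hdm (Subgroup.pow_mem _ (Subgroup.mul_mem _ hdm hem) _)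
    · rw [Subgroup.closure_le]
      rintro x (rfl | rfl)
      · exact ⟨.sr 0, by rw [hsr]; simp⟩
      · refine ⟨.sr 1, ?_⟩
        rw [hsr]
        have : (1 : ZMod 3).val = 1 := rfl
        rw [this, pow_one, ← mul_assoc, hd, one_mul]
  exact ⟨(MonoidHom.ofInjective hinj).trans (MulEquiv.subgroupCongr hrange)⟩

/-- Two members of a set of 3-transpositions which do not commute generate a subgroup isomorphic to the symmetric group on three letters. -/
theorem result {G : Type*} [Group G] {E : Set G} (hE : Cfsg.IsThreeTranspositionSet E) {d e : G} (hd : d ∈ E) (he : e ∈ E) (h : ¬ Commute d e) : Nonempty (Subgroup.closure ({d, e} : Set G) ≃* Equiv.Perm (Fin 3)) := by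
  have h2 : ∀ d ∈ E, d * d = 1 := fun d hd => by
    have := pow_orderOf_eq_one d
    rw [hE.1 d hd, pow_two] at this; exact this
  have h3 : (d * e) ^ 3 = 1 := by
    rcases hE.2 d hd e he with h1 | h1
    · exfalso; apply h
      rw [pow_two] at h1
      have : d * e = (d * e)⁻¹ := eq_inv_of_mul_eq_one_left h1
      rw [mul_inv_rev, inv_eq_of_mul_eq_one_left (h2 d hd), inv_eq_of_mul_eq_one_left (h2 e he)] at this
      exact this
    · exact h1
  obtain ⟨E1⟩ := iso_dihedral d e (h2 d hd) (h2 e he) h3 h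
  obtain ⟨E2⟩ := iso_dihedral (Equiv.swap (0 : Fin 3) 1) (Equiv.swap (1 : Fin 3) 2) (by decide) (by decide)
    (by decide) (by unfold Commute SemiconjBy; decide)
  have htop : Subgroup.closure ({Equiv.swap (0 : Fin 3) 1, Equiv.swap (1 : Fin 3) 2} : Set (Equiv.Perm (Fin 3))) = ⊤ := by
    rw [eq_top_iff]
    intro x _
    have hc : Nat.card (Subgroup.closure ({Equiv.swap (0 : Fin 3) 1, Equiv.swap (1 : Fin 3) 2} : Set (Equiv.Perm (Fin 3)))) = Nat.card (Equiv.Perm (Fin 3)) := by
      rw [← Nat.card_congr E2.toEquiv, DihedralGroup.nat_card, Nat.card_eq_fintype_card, Fintype.card_perm]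
      rfl
    rw [Subgroup.eq_top_of_card_eq _ hc]; trivial
  exact ⟨E1.symm.trans (E2.trans ((MulEquiv.subgroupCongr htop).trans Subgroup.topEquiv))⟩

end Cfsg.Agent.S0444
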