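import Cfsg.Statements.S2572
import Cfsg.Agent.H19_Trv
import Cfsg.Agent.S2579
import Cfsg.Agent.H5_Concrete

set_option autoImplicit false
open Cfsg

namespace Cfsg.Agent.S2572

open Module

section
variable {F V : Type*} [Field F] [AddCommGroup V] [Module F V] [FiniteDimensional F V]

def PP (F V : Type*) [Field F] [AddCommGroup V] [Module F V] : Type _ :=
  {p : V × (V →ₗ[F] F) // p.1 ≠ 0 ∧ p.2 ≠ 0 ∧ p.2 p.1 = 0}

theorem card_PP [Finite F] {m : ℕ} (hV : finrank F V = m + 2) :
    Nat.card (PP F V) = (Nat.card F ^ (m + 2) - 1) * (Nat.card F ^ (m + 1) - 1) := by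
  classical
  haveI : Finite V := Module.finite_of_finite F
  haveI : Finite (V →ₗ[F] F) := Module.finite_of_finite F
  let e : PP F V ≃ Σ φ : {φ : V →ₗ[F] F // φ ≠ 0}, {a : LinearMap.ker φ.1 // a ≠ 0} :=
    { toFun := fun p => ⟨⟨p.1.2, p.2.2.1⟩, ⟨⟨p.1.1, p.2.2.2⟩, fun h => p.2.1 (congrArg Subtype.val h)⟩⟩
      invFun := fun w => ⟨(w.2.1.1, w.1.1), fun h => w.2.2 (Subtype.ext h), w.1.2, w.2.1.2⟩
      left_inv := fun p => rfl
      right_inv := fun w => rfl }
  haveI : Fintype {φ : V →ₗ[F] F // φ ≠ 0} := Fintype.ofFinite _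
  rw [Nat.card_congr e, Nat.card_sigma]
  have h1 : ∀ φ : {φ : V →ₗ[F] F // φ ≠ 0}, Nat.card {a : LinearMap.ker φ.1 // a ≠ 0} = Nat.card F ^ (m + 1) - 1 := by
    rintro ⟨φ, hφ⟩
    have hker : finrank F (LinearMap.ker φ) = m + 1 := by
      have h1 := φ.finrank_range_add_finrank_ker
      have h2 : LinearMap.range φ = ⊤ := LinearMap.range_eq_top.2 (LinearMap.surjective hφ)
      rw [h2, finrank_top, finrank_self, hV] at h1
      omega
    haveI : Fintype (LinearMap.ker φ) := Fintype.ofFinite _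
    rw [Nat.card_eq_fintype_card]
    have h3 : Fintype.card {a : LinearMap.ker φ // a ≠ 0} = Fintype.card (LinearMap.ker φ) - 1 := by
      rw [Fintype.card_subtype_compl]; simp
    rw [h3, ← Nat.card_eq_fintype_card, Module.natCard_eq_pow_finrank (K := F) (V := LinearMap.ker φ), hker]
  rw [Finset.sum_congr rfl (fun φ _ => h1 φ), Finset.sum_const, Finset.card_univ, smul_eq_mul]
  congr 1
  haveI : Fintype (V →ₗ[F] F) := Fintype.ofFinite _
  have h4 : Fintype.card {φ : V →ₗ[F] F // φ ≠ 0} = Fintype.card (V →ₗ[F] F) - 1 := by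
    rw [Fintype.card_subtype_compl]; simp
  rw [h4, ← Nat.card_eq_fintype_card, Module.natCard_eq_pow_finrank (K := F) (V := V →ₗ[F] F), Module.finrank_linearMap,
    finrank_self, mul_one, hV]

def act (g : V ≃ₗ[F] V) (p : PP F V) : PP F V :=
  ⟨(g p.1.1, p.1.2.comp g.symm.toLinearMap), by
    refine ⟨fun h => p.2.1 (g.injective (h.trans (map_zero g).symm)), fun h => p.2.2.1 ?_, ?_⟩
    · apply LinearMap.ext
      intro x
      have := congrArg (fun f : V →ₗ[F] F => f (g x)) h
      simpa using this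
    · show p.1.2 (g.symm (g p.1.1)) = 0
      rw [g.symm_apply_apply]
      exact p.2.2.2⟩

theorem count [Finite F] {m : ℕ} (hV : finrank F V = m + 2) (a : V) (φ : V →ₗ[F] F) (ha : a ≠ 0) (hφ : φ ≠ 0)
    (hφa : φ a = 0) :
    Nat.card {g : V ≃ₗ[F] V // ∀ x, g (φ x • a) = φ (g x) • a} * (Nat.card F ^ (m + 2) - 1) * (Nat.card F ^ (m + 1) - 1) =
      (Nat.card F - 1) * Nat.card (V ≃ₗ[F] V) := by
  classical
  haveI : Finite V := Module.finite_of_finite F
  haveI : Finite (V →ₗ[F] V) := Module.finite_of_finite F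
  haveI : Finite (V ≃ₗ[F] V) := Finite.of_injective (fun g : V ≃ₗ[F] V => g.toLinearMap) LinearEquiv.toLinearMap_injective
  let p0 : PP F V := ⟨(a, φ), ha, hφ, hφa⟩
  let H : Subgroup (V ≃ₗ[F] V) :=
    { carrier := {h | h a = a ∧ ∀ x, φ (h x) = φ x}
      one_mem' := ⟨rfl, fun x => rfl⟩
      mul_mem' := by
        intro g h hg hh
        exact ⟨by show g (h a) = a; rw [hh.1, hg.1], fun x => by show φ (g (h x)) = φ x; rw [hg.2, hh.2]⟩
      inv_mem' := by
        intro g hg
        constructor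
        · show g.symm a = a
          rw [LinearEquiv.symm_apply_eq]
          exact hg.1.symm
        · intro x
          show φ (g.symm x) = φ x
          rw [← hg.2 (g.symm x), g.apply_symm_apply] }
  let f : (V ≃ₗ[F] V) → PP F V := fun g => act g p0
  have hf : Function.Surjective f := by
    rintro ⟨⟨a', φ'⟩, h1, h2, h3⟩
    obtain ⟨g, hg1, hg2⟩ := H19.Trv.transitive (m := m) hV ha hφ hφa h1 h2 h3
    refine ⟨g, Subtype.ext (Prod.ext hg1 ?_)⟩
    apply LinearMap.ext
    intro x
    show φ (g.symm x) = φ' x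
    rw [← hg2, g.apply_symm_apply]
  have hfH : ∀ g g', f g = f g' ↔ g⁻¹ * g' ∈ H := by
    intro g g'
    constructor
    · intro h
      have h1 : g a = g' a := congrArg (fun p : PP F V => p.1.1) h
      have h2 : φ.comp g.symm.toLinearMap = φ.comp g'.symm.toLinearMap := congrArg (fun p : PP F V => p.1.2) h
      constructor
      · show g.symm (g' a) = a
        rw [← h1, g.symm_apply_apply]
      · intro x
        have h3 := congrArg (fun f : V →ₗ[F] F => f (g' x)) h2
        have h4 : φ (g.symm (g' x)) = φ (g'.symm (g' x)) := h3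
        rw [g'.symm_apply_apply] at h4
        exact h4
    · rintro ⟨h1, h2⟩
      have h1' : g.symm (g' a) = a := h1
      have h2' : ∀ x, φ (g.symm (g' x)) = φ x := h2
      refine Subtype.ext (Prod.ext ?_ ?_)
      · show g a = g' a
        rw [LinearEquiv.symm_apply_eq] at h1'
        exact h1'.symm
      · apply LinearMap.ext
        intro x
        show φ (g.symm x) = φ (g'.symm x)
        have := h2' (g'.symm x)
        rw [g'.apply_symm_apply] at this
        exact this
  have hP := H19.Trv.card_preimage H f hf hfH Set.univ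
  obtain ⟨S, hS⟩ : ∃ S : Set (PP F V), S = {p | ∃ c : Fˣ, p.1.1 = (c : F) • a ∧ ∀ x, (c : F) * p.1.2 x = φ x} := ⟨_, rfl⟩
  have hQ := H19.Trv.card_preimage H f hf hfH S
  have hcardS : Nat.card S = Nat.card F - 1 := by
    let s : Fˣ → S := fun c => ⟨⟨((c : F) • a, ((c⁻¹ : Fˣ) : F) • φ), by
      refine ⟨fun h => ha ((smul_eq_zero.1 h).resolve_left c.ne_zero), fun h => hφ ((smul_eq_zero.1 h).resolve_left (c⁻¹).ne_zero), ?_⟩
      show ((c⁻¹ : Fˣ) : F) • φ ((c : F) • a) = 0
      rw [map_smul, hφa, smul_zero, smul_zero]⟩, by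
      rw [hS]
      refine ⟨c, rfl, fun x => ?_⟩
      show (c : F) * (((c⁻¹ : Fˣ) : F) * φ x) = φ x
      rw [← mul_assoc, Units.mul_inv, one_mul]⟩
    have hs : Function.Bijective s := by
      constructor
      · intro c d h
        have h1 : (c : F) • a = (d : F) • a := congrArg (fun p : S => p.1.1.1) h
        exact Units.ext (smul_left_injective F ha h1)
      · rintro ⟨⟨⟨a', φ'⟩, hp⟩, hpS⟩
        rw [hS] at hpS
        obtain ⟨c, hc1, hc2⟩ := hpS
        refine ⟨c, Subtype.ext (Subtype.ext (Prod.ext hc1.symm ?_))⟩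
        apply LinearMap.ext
        intro x
        show ((c⁻¹ : Fˣ) : F) * φ x = φ' x
        rw [← hc2 x, ← mul_assoc, Units.inv_mul, one_mul]
    rw [← Nat.card_congr (Equiv.ofBijective s hs)]
    haveI : Fintype F := Fintype.ofFinite F
    rw [Nat.card_eq_fintype_card, Fintype.card_units, Nat.card_eq_fintype_card]
  have hC : Nat.card {g : V ≃ₗ[F] V // f g ∈ S} = Nat.card {g : V ≃ₗ[F] V // ∀ x, g (φ x • a) = φ (g x) • a} := by
    apply Nat.card_congr
    apply Equiv.subtypeEquivRight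
    intro g
    rw [hS]
    constructor
    · rintro ⟨c, h1, h2⟩ x
      have h1' : g a = (c : F) • a := h1
      have h2' : ∀ y, (c : F) * φ (g.symm y) = φ y := h2
      rw [map_smul, h1', smul_smul, ← h2' (g x), g.symm_apply_apply, mul_comm]
    · intro h
      obtain ⟨x0, hx0⟩ : ∃ x0, φ x0 = 1 := LinearMap.surjective hφ 1
      have h1 := h x0
      rw [hx0, one_smul] at h1
      have hc0 : φ (g x0) ≠ 0 := by
        intro h0
        rw [h0, zero_smul] at h1
        exact ha (g.injective (h1.trans (map_zero g).symm))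
      refine ⟨Units.mk0 _ hc0, h1, fun x => ?_⟩
      show φ (g x0) * φ (g.symm x) = φ x
      have h2 := h (g.symm x)
      rw [g.apply_symm_apply, map_smul, h1, smul_smul] at h2
      have h3 := smul_left_injective F ha h2
      rw [mul_comm]; exact h3
  rw [hC, hcardS] at hQ
  have h5 : Nat.card {g : V ≃ₗ[F] V // f g ∈ (Set.univ : Set (PP F V))} = Nat.card (V ≃ₗ[F] V) :=
    Nat.card_congr (Equiv.subtypeUnivEquiv (fun g => Set.mem_univ _))
  have h6 : Nat.card (Set.univ : Set (PP F V)) = Nat.card (PP F V) := Nat.card_congr (Equiv.Set.univ _)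
  rw [h5, h6, card_PP hV] at hP
  rw [hQ, hP]; ring
end

/-- Centraliser of a transvection in GL_n(q), n ≥ 2: if t − 1 has rank one and square zero, the centraliser of t in GL_n(q) has order q^(2n−3) (q − 1) |GL_(n−2)(q)| (a group of order q^(2n−3) extended by GL_1(q) × GL_(n−2)(q)). -/
theorem result {F : Type*} [Field F] [Fintype F] {q n : ℕ} (hF : Fintype.card F = q) (hn : 2 ≤ n) (t : GL (Fin n) F) (ht : Cfsg.IsTransvection (t : Matrix (Fin n) (Fin n) F)) : Nat.card ↥(Subgroup.centralizer ({t} : Set (GL (Fin n) F))) = q ^ (2 * n - 3) * (q - 1) * ∏ i : Fin (n - 2), (q ^ (n - 2) - q ^ (i : ℕ)) := by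
  classical
  subst hF
  obtain ⟨m, rfl⟩ : ∃ m, n = m + 2 := ⟨n - 2, by omega⟩
  obtain ⟨a, φ, h1, h2, h3, h4⟩ := Cfsg.Agent.S2579.pair_of _ ht
  have hc := count (m := m) (by simp : finrank F (Fin (m + 2) → F) = m + 2) a φ h1 h2 h3
  let e := H5.Conc.glEquiv (Fin (m + 2)) F
  have hcen : Nat.card ↥(Subgroup.centralizer ({t} : Set (GL (Fin (m + 2)) F))) =
      Nat.card {g : (Fin (m + 2) → F) ≃ₗ[F] (Fin (m + 2) → F) // ∀ x, g (φ x • a) = φ (g x) • a} := by
    apply Nat.card_congr
    refine e.toEquiv.subtypeEquiv ?_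
    intro g
    rw [Subgroup.mem_centralizer_iff]
    simp only [Set.mem_singleton_iff, forall_eq]
    have hg : ∀ x, e g x = (g : Matrix (Fin (m + 2)) (Fin (m + 2)) F).mulVec x := fun x => rfl
    have htx : ∀ x, e t x = x + φ x • a := h4
    constructor
    · intro h x
      have h5 : e t (e g x) = e g (e t x) := by
        rw [← LinearEquiv.mul_apply, ← LinearEquiv.mul_apply, ← map_mul, ← map_mul, h]
      rw [htx, htx, map_add] at h5
      exact (add_left_cancel h5).symm
    · intro h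
      apply e.injective
      rw [map_mul, map_mul]
      apply LinearEquiv.ext
      intro x
      rw [LinearEquiv.mul_apply, LinearEquiv.mul_apply, htx, htx, map_add]
      have h7 : e g (φ x • a) = φ (e g x) • a := h x
      rw [h7]
  have hgl : Nat.card ((Fin (m + 2) → F) ≃ₗ[F] (Fin (m + 2) → F)) = ∏ i : Fin (m + 2), (Fintype.card F ^ (m + 2) - Fintype.card F ^ (i : ℕ)) := by
    rw [← Nat.card_congr e.toEquiv, Matrix.card_GL_field]
  rw [← hcen, hgl, Nat.card_eq_fintype_card (α := F)] at hc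
  obtain ⟨q, hq⟩ : ∃ q, q = Fintype.card F := ⟨_, rfl⟩
  have hq1 : 1 < q := hq ▸ Fintype.one_lt_card
  rw [← hq] at hc ⊢
  rw [Fin.prod_univ_succ, Fin.prod_univ_succ] at hc
  simp only [Fin.val_zero, pow_zero, Fin.val_succ] at hc
  have hprod : ∏ i : Fin m, (q ^ (m + 2) - q ^ ((i : ℕ) + 1 + 1)) = q ^ (2 * m) * ∏ i : Fin m, (q ^ m - q ^ (i : ℕ)) := by
    have : ∀ i : Fin m, q ^ (m + 2) - q ^ ((i : ℕ) + 1 + 1) = q ^ 2 * (q ^ m - q ^ (i : ℕ)) := by
      intro i
      rw [Nat.mul_sub, ← pow_add, ← pow_add]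
      congr 2 <;> ring
    rw [Finset.prod_congr rfl (fun i _ => this i), Finset.prod_mul_distrib, Finset.prod_const, Finset.card_univ, Fintype.card_fin,
      ← pow_mul]
  rw [hprod] at hc
  have hA : 0 < q ^ (m + 2) - 1 := Nat.sub_pos_of_lt (Nat.one_lt_pow (by omega) hq1)
  have hB : 0 < q ^ (m + 1) - 1 := Nat.sub_pos_of_lt (Nat.one_lt_pow (by omega) hq1)
  have hqq : q ^ (m + 2) - q ^ (0 + 1) = q * (q ^ (m + 1) - 1) := by
    rw [Nat.mul_sub, mul_one, ← pow_succ', zero_add, pow_one]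
  rw [hqq] at hc
  apply Nat.eq_of_mul_eq_mul_right (Nat.mul_pos hA hB)
  rw [← mul_assoc, hc]
  rw [show m + 2 - 2 = m by omega, show 2 * (m + 2) - 3 = 2 * m + 1 by omega, pow_succ]
  ring

end Cfsg.Agent.S2572
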