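import Cfsg.Statements.S0445
import Cfsg.Agent.S2572

set_option autoImplicit false
open Cfsg

namespace Cfsg.Agent.S0445

theorem gen {F : Type*} [Field F] [Fintype F] [DecidableEq F] (hF : Fintype.card F = 2) (s : Matrix.SpecialLinearGroup (Fin 5) F)
    (hs : (s : Matrix (Fin 5) (Fin 5) F) = Matrix.transvection 0 1 1) :
    Nat.card (Subgroup.centralizer ({s} : Set (Matrix.SpecialLinearGroup (Fin 5) F))) = 21504 := by
  classical
  have hu : Subsingleton Fˣ := by
    rw [← Fintype.card_le_one_iff_subsingleton, Fintype.card_units, hF]
  let ι : Matrix.SpecialLinearGroup (Fin 5) F →* GL (Fin 5) F := Matrix.SpecialLinearGroup.toGL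
  have hinj : Function.Injective ι := Matrix.SpecialLinearGroup.toGL_injective
  have hsurj : Function.Surjective ι := by
    intro g
    have hdet : (g : Matrix (Fin 5) (Fin 5) F).det = 1 := by
      have h1 : (Matrix.GeneralLinearGroup.det g : Fˣ) = 1 := Subsingleton.elim _ _
      have h2 := congrArg Units.val h1
      rw [Matrix.GeneralLinearGroup.val_det_apply, Units.val_one] at h2
      exact h2
    exact ⟨⟨g, hdet⟩, Units.ext rfl⟩
  let e : Matrix.SpecialLinearGroup (Fin 5) F ≃* GL (Fin 5) F := MulEquiv.ofBijective ι ⟨hinj, hsurj⟩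
  have hsm : (s : Matrix (Fin 5) (Fin 5) F) - 1 = Matrix.single 0 1 1 := by
    rw [hs, Matrix.transvection]; simp
  have ht : Cfsg.IsTransvection ((e s : GL (Fin 5) F) : Matrix (Fin 5) (Fin 5) F) := by
    have he : ((e s : GL (Fin 5) F) : Matrix (Fin 5) (Fin 5) F) = s := rfl
    constructor
    · rw [he, hsm]
      apply le_antisymm
      · have : (Matrix.single 0 1 1 : Matrix (Fin 5) (Fin 5) F) = Matrix.vecMulVec (Pi.single 0 1) (Pi.single 1 1) := by
          rw [Matrix.single_eq_single_vecMulVec_single]
        rw [this]
        exact Matrix.rank_vecMulVec_le _ _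
      · rw [Nat.one_le_iff_ne_zero]
        intro h
        have h2 : (Matrix.single 0 1 1 : Matrix (Fin 5) (Fin 5) F) = 0 := by
          rw [Matrix.rank, Submodule.finrank_eq_zero, LinearMap.range_eq_bot] at h
          apply Matrix.ext_of_mulVec_single
          intro i
          have := congrArg (fun f : (Fin 5 → F) →ₗ[F] (Fin 5 → F) => f (Pi.single i 1)) h
          rw [Matrix.zero_mulVec]
          exact this
        have h3 := congrFun (congrFun h2 0) 1
        simp at h3
    · rw [he, hsm]
      simp
  have hc := Cfsg.Agent.S2572.result (F := F) (q := 2) (n := 5) hF (by norm_num) (e s) ht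
  have hcen : Nat.card ↥(Subgroup.centralizer ({s} : Set (Matrix.SpecialLinearGroup (Fin 5) F))) =
      Nat.card ↥(Subgroup.centralizer ({e s} : Set (GL (Fin 5) F))) := by
    apply Nat.card_congr
    refine e.toEquiv.subtypeEquiv ?_
    intro g
    rw [Subgroup.mem_centralizer_iff, Subgroup.mem_centralizer_iff]
    simp only [Set.mem_singleton_iff, forall_eq]
    constructor
    · intro h
      show e s * e g = e g * e s
      rw [← map_mul, ← map_mul, h]
    · intro h
      apply e.injective
      rw [map_mul, map_mul]
      exact h
  rw [hcen, hc]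
  decide

/-- In the special linear group of dimension 5 over the field with two elements, the centraliser of a transvection has order 21504 = 2 ^ 7 · 168 (it is an extension of an extraspecial group of order 2 ^ 7 by the simple group of order 168). -/
theorem result (s : Matrix.SpecialLinearGroup (Fin 5) (ZMod 2)) (hs : (s : Matrix (Fin 5) (Fin 5) (ZMod 2)) = Matrix.transvection 0 1 1) : Nat.card (Subgroup.centralizer ({s} : Set (Matrix.SpecialLinearGroup (Fin 5) (ZMod 2)))) = 21504 := by
  exact gen (by simp) s hs

end Cfsg.Agent.S0445
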