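import Cfsg.Statements.S0446

set_option autoImplicit false
open Cfsg

namespace Cfsg.Agent.S0446

/-- Every finite group of even order contains a 2-central involution, i.e. an element of order 2 in the centre of some Sylow 2-subgroup. -/
theorem result {G : Type*} [Group G] [Finite G] (h : Even (Nat.card G)) : ∃ t : G, Cfsg.IsTwoCentralInvolution t := by
  haveI : Fact (Nat.Prime 2) := ⟨Nat.prime_two⟩
  obtain ⟨P⟩ : Nonempty (Sylow 2 G) := inferInstance
  have hdvd : 2 ∣ Nat.card P := by
    rw [P.card_eq_multiplicity]
    have h2 : 2 ∣ Nat.card G := h.two_dvd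
    have : (Nat.card G).factorization 2 ≠ 0 := by
      have := (Nat.prime_two.dvd_iff_one_le_factorization (Nat.card_pos.ne')).1 h2
      omega
    exact dvd_pow_self 2 this
  haveI : Nontrivial P := by
    rw [← Finite.one_lt_card_iff_nontrivial]
    exact lt_of_lt_of_le one_lt_two (Nat.le_of_dvd Nat.card_pos hdvd)
  have hc : Nontrivial (Subgroup.center P) := P.isPGroup'.center_nontrivial
  have hcp : IsPGroup 2 (Subgroup.center P) := P.isPGroup'.to_subgroup _
  have hd2 : 2 ∣ Nat.card (Subgroup.center P) := by
    obtain ⟨n, hn⟩ := hcp.exists_card_eq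
    rw [hn]
    have : n ≠ 0 := by
      rintro rfl
      have := Finite.one_lt_card (α := Subgroup.center P)
      rw [hn] at this; simp at this
    exact dvd_pow_self 2 this
  obtain ⟨z, hz⟩ := exists_prime_orderOf_dvd_card' 2 hd2
  refine ⟨((z : P) : G), ?_, P, (z : P).2, ?_⟩
  · rw [Subgroup.orderOf_coe, Subgroup.orderOf_coe, hz]
  · intro x hx
    have := (Subgroup.mem_center_iff.1 z.2) ⟨x, hx⟩
    exact congrArg Subtype.val this

end Cfsg.Agent.S0446
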