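import Cfsg.Statements.S0458
import Cfsg.Agent.H20_J3M

set_option autoImplicit false
open Cfsg

namespace Cfsg.Agent.S0458

/-- Janko's third group exists as a transitive permutation group of degree 6156 with point stabiliser of order 8160: a simple group of order 50232960. -/
theorem result : ∃ H : Subgroup (Equiv.Perm (Fin 6156)), Cfsg.IsJ3 H ∧ MulAction.IsPretransitive H (Fin 6156) ∧ Nat.card (MulAction.stabilizer H (0 : Fin 6156)) = 8160 := by
  have hinj := Cfsg.Agent.H20.J3M.main.2
  have hcard := Cfsg.Agent.H20.J3M.main.1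
  set φ := Cfsg.Agent.H20.J3M.phi with hφ
  have e : Cfsg.Agent.H20.J3M.J ≃* φ.range := MonoidHom.ofInjective hinj
  have hc : Nat.card φ.range = 50232960 := by rw [← Nat.card_congr e.toEquiv]; exact hcard
  haveI := Cfsg.Agent.H20.J3M.simple
  have hs : IsSimpleGroup φ.range := (MulEquiv.isSimpleGroup_congr e).1 inferInstance
  have htr : ∀ i : Fin 6156, ∃ g : φ.range, g • (0 : Fin 6156) = i := by
    intro i
    obtain ⟨g, hg⟩ := Cfsg.Agent.H20.J3M.trans0 i
    exact ⟨⟨φ g, g, rfl⟩, hg⟩
  have hp : MulAction.IsPretransitive φ.range (Fin 6156) := by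
    refine ⟨fun i j => ?_⟩
    obtain ⟨g, hg⟩ := htr i
    obtain ⟨h, hh⟩ := htr j
    exact ⟨h * g⁻¹, by rw [← hg, mul_smul, inv_smul_smul, hh]⟩
  refine ⟨φ.range, ⟨hs, hc⟩, hp, ?_⟩
  haveI : Finite φ.range := Nat.finite_of_card_ne_zero (by rw [hc]; norm_num)
  have h1 := MulAction.index_stabilizer_of_transitive φ.range (0 : Fin 6156)
  have h2 := Subgroup.card_mul_index (MulAction.stabilizer φ.range (0 : Fin 6156))
  rw [h1, hc, Nat.card_fin] at h2
  omega

end Cfsg.Agent.S0458
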