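import Cfsg.Statements.S0478
import Cfsg.Agent.H20_J3U

set_option autoImplicit false
open Cfsg

namespace Cfsg.Agent.S0478

theorem exists_omega {F : Type} [Field F] [Fintype F] (hF : Fintype.card F = 4) : ∃ ω : F, ω ^ 2 + ω + 1 = 0 := by
  classical
  have h1 : Fintype.card Fˣ = 3 := by
    rw [Fintype.card_units, hF]
  obtain ⟨u, hu⟩ : ∃ u : Fˣ, u ≠ 1 := by
    by_contra hcon
    push Not at hcon
    have h2 : Fintype.card Fˣ ≤ 1 := Fintype.card_le_one_iff.2 (fun a b => by rw [hcon a, hcon b])
    omega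
  refine ⟨u, ?_⟩
  have h3 : (u : F) ^ 3 = 1 := by
    have := pow_card_eq_one (x := u)
    rw [h1] at this
    rw [← Units.val_pow_eq_pow_val, this, Units.val_one]
  have h4 : ((u : F) - 1) * ((u : F) ^ 2 + u + 1) = 0 := by linear_combination h3
  rcases mul_eq_zero.1 h4 with h5 | h5
  · exact absurd (Units.ext (by simpa using sub_eq_zero.1 h5)) hu
  · exact h5

/-- A triple cover of Janko's third group inside a unitary group: for a field F with four elements, the special unitary group of dimension 9 (with respect to the form with q = 2) has a subgroup whose centre has order 3 and whose quotient by its centre is simple of order 50232960. -/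
theorem result : ∃ (F : Type) (_ : Field F) (_ : Fintype F), Fintype.card F = 4 ∧ ∃ H : Subgroup (Cfsg.SU 9 F 2), Nat.card (Subgroup.center H) = 3 ∧ Cfsg.IsJ3 (H ⧸ Subgroup.center H) := by
  letI : Fintype (GaloisField 2 2) := Fintype.ofFinite _
  have hF : Fintype.card (GaloisField 2 2) = 4 := by
    rw [← Nat.card_eq_fintype_card, GaloisField.card 2 2 (by norm_num)]; norm_num
  obtain ⟨ω, hω⟩ := exists_omega hF
  have h := Cfsg.Agent.H20.J3W.FH_of hF hω
  refine ⟨GaloisField 2 2, inferInstance, inferInstance, hF, (Cfsg.Agent.H20.J3U.rho h).range, ?_⟩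
  have e : Cfsg.Spor.threeJ3 (GaloisField 2 2) ω ≃* (Cfsg.Agent.H20.J3U.rho h).range :=
    MonoidHom.ofInjective (Cfsg.Agent.H20.J3U.rho_inj h)
  constructor
  · rw [← Nat.card_congr (Subgroup.centerCongr e).toEquiv]
    exact Cfsg.Agent.H20.J3W.card_center hF h
  · have e2 : Cfsg.Spor.J3 (GaloisField 2 2) ω ≃* ((Cfsg.Agent.H20.J3U.rho h).range ⧸ Subgroup.center (Cfsg.Agent.H20.J3U.rho h).range) :=
      QuotientGroup.congr _ _ e (Cfsg.Agent.H20.J3U.map_center e)
    haveI := Cfsg.Agent.H20.J3W.simple_J3 h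
    exact ⟨(MulEquiv.isSimpleGroup_congr e2).1 inferInstance, by
      rw [← Nat.card_congr e2.toEquiv]; exact Cfsg.Agent.H20.J3W.card_J3 h⟩

end Cfsg.Agent.S0478
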