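import Cfsg.Statements.S0481
import Mathlib

set_option autoImplicit false
open Cfsg

namespace Cfsg.Agent.S0481

/-- Large extraspecial subgroups: let z be an involution of a finite group G whose centraliser C contains a normal 2-subgroup Q with centre of order 2 and all squares central, such that every element of G centralising Q lies in Q. Then C contains a Sylow 2-subgroup of G, and any involution of G whose centraliser contains a Sylow 2-subgroup of G is conjugate to z. -/
theorem result {G : Type*} [Group G] [Finite G] (z : G) (hz : orderOf z = 2) (Q : Subgroup G) (hQC : Q ≤ Subgroup.centralizer ({z} : Set G)) (hQn : ∀ g ∈ Subgroup.centralizer ({z} : Set G), ∀ q ∈ Q, g * q * g⁻¹ ∈ Q) (hQ2 : IsPGroup 2 Q) (hZ : Nat.card (Subgroup.center Q) = 2) (hsq : ∀ x : Q, x ^ 2 ∈ Subgroup.center Q) (hlarge : Subgroup.centralizer (Q : Set G) ≤ Q) : (∃ P : Sylow 2 G, (P : Subgroup G) ≤ Subgroup.centralizer ({z} : Set G)) ∧ ∀ u : G, orderOf u = 2 → (∃ P : Sylow 2 G, (P : Subgroup G) ≤ Subgroup.centralizer ({u} : Set G)) → IsConj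 z u := by
  classical
  have : Fact (Nat.Prime 2) := ⟨Nat.prime_two⟩
  have hzQ : z ∈ Q := by
    apply hlarge
    intro q hq
    have := hQC hq
    rw [Subgroup.mem_centralizer_singleton_iff] at this
    exact this
  -- a Sylow 2-subgroup `P` containing `Q`
  obtain ⟨P, hP⟩ : ∃ P : Sylow 2 G, Q ≤ (P : Subgroup G) := hQ2.exists_le_sylow
  -- elements of the centre of `Q`
  have hcen : ∀ u : G, u ∈ Q → (∀ q ∈ Q, q * u = u * q) → orderOf u = 2 → u = z := by
    intro u huQ huc huo
    have hu : (⟨u, huQ⟩ : Q) ∈ Subgroup.center Q := by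
      rw [Subgroup.mem_center_iff]
      rintro ⟨q, hq⟩
      exact Subtype.ext (huc q hq)
    have hzc : (⟨z, hzQ⟩ : Q) ∈ Subgroup.center Q := by
      rw [Subgroup.mem_center_iff]
      rintro ⟨q, hq⟩
      have := hQC hq
      rw [Subgroup.mem_centralizer_singleton_iff] at this
      exact Subtype.ext this
    have hfin : Nat.card (Subgroup.center Q) = 2 := hZ
    have h1 : ∀ x y : Subgroup.center Q, x ≠ 1 → y ≠ 1 → x = y := by
      intro x y hx hy
      by_contra hne
      have h3 : ({1, x, y} : Finset (Subgroup.center Q)).card = 3 := by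
        rw [Finset.card_eq_three]
        exact ⟨1, x, y, hx.symm, hy.symm, hne, rfl⟩
      have := Fintype.ofFinite (Subgroup.center Q)
      have h4 := Finset.card_le_univ ({1, x, y} : Finset (Subgroup.center Q))
      rw [h3, ← Nat.card_eq_fintype_card, hfin] at h4
      omega
    have hne : ∀ w : G, orderOf w = 2 → w ≠ 1 := by
      rintro w hw rfl
      simp at hw
    have h5 := h1 ⟨⟨u, huQ⟩, hu⟩ ⟨⟨z, hzQ⟩, hzc⟩
      (fun h => hne u huo (congrArg (fun t : Subgroup.center Q => ((t : Q) : G)) h))
      (fun h => hne z hz (congrArg (fun t : Subgroup.center Q => ((t : Q) : G)) h))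
    exact congrArg (fun t : Subgroup.center Q => ((t : Q) : G)) h5
  -- an involution centralising a Sylow subgroup containing Q is z
  have hmain : ∀ u : G, orderOf u = 2 → (P : Subgroup G) ≤ Subgroup.centralizer ({u} : Set G) → u = z := by
    intro u hu hPu
    have hc : ∀ q ∈ Q, q * u = u * q := by
      intro q hq
      have := hPu (hP hq)
      rw [Subgroup.mem_centralizer_singleton_iff] at this
      exact this
    apply hcen u _ hc hu
    apply hlarge
    intro q hq; exact hc q hq
  have hPz : (P : Subgroup G) ≤ Subgroup.centralizer ({z} : Set G) := by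
    -- the centre of P contains an involution
    have hPne : Nontrivial (P : Subgroup G) := by
      refine ⟨⟨z, hP hzQ⟩, 1, ?_⟩
      intro h
      have h1 : z = 1 := congrArg Subtype.val h
      rw [h1] at hz; simp at hz
    have hcp : Nontrivial (Subgroup.center (P : Subgroup G)) := P.isPGroup'.center_nontrivial
    have hcp2 : IsPGroup 2 (Subgroup.center (P : Subgroup G)) := P.isPGroup'.to_subgroup _
    have hd2 : 2 ∣ Nat.card (Subgroup.center (P : Subgroup G)) := by
      obtain ⟨n, hn⟩ := hcp2.exists_card_eq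
      rw [hn]
      have : n ≠ 0 := by
        rintro rfl
        have := Finite.one_lt_card (α := Subgroup.center (P : Subgroup G))
        rw [hn] at this; simp at this
      exact dvd_pow_self 2 this
    obtain ⟨w, hw⟩ := exists_prime_orderOf_dvd_card' 2 hd2
    have hwc : (P : Subgroup G) ≤ Subgroup.centralizer ({((w : (P : Subgroup G)) : G)} : Set G) := by
      intro x hx
      rw [Subgroup.mem_centralizer_singleton_iff]
      have := (Subgroup.mem_center_iff.1 w.2) ⟨x, hx⟩
      exact congrArg Subtype.val this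
    have := hmain _ (by rw [Subgroup.orderOf_coe, Subgroup.orderOf_coe, hw]) hwc
    rw [this] at hwc; exact hwc
  refine ⟨⟨P, hPz⟩, ?_⟩
  rintro u hu ⟨R, hR⟩
  obtain ⟨g, hg⟩ := MulAction.exists_smul_eq G R P
  -- P = g R g⁻¹ ≤ C(g u g⁻¹)
  have h1 : (P : Subgroup G) ≤ Subgroup.centralizer ({g * u * g⁻¹} : Set G) := by
    intro x hx
    rw [Subgroup.mem_centralizer_singleton_iff]
    have hx' : g⁻¹ * x * g ∈ (R : Subgroup G) := by
      have h2 : x ∈ ((g • R : Sylow 2 G) : Subgroup G) := by rw [hg]; exact hx
      rw [Sylow.coe_subgroup_smul, Subgroup.mem_smul_pointwise_iff_exists] at h2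
      obtain ⟨r, hr, rfl⟩ := h2
      have : g⁻¹ * (MulAut.conj g • r) * g = r := by
        simp [MulAut.smul_def, MulAut.conj_apply]; group
      rw [this]; exact hr
    have h3 := hR hx'
    rw [Subgroup.mem_centralizer_singleton_iff] at h3
    have h4 : g * (g⁻¹ * x * g * u) * g⁻¹ = g * (u * (g⁻¹ * x * g)) * g⁻¹ := by rw [h3]
    have h5 : g * (g⁻¹ * x * g * u) * g⁻¹ = x * (g * u * g⁻¹) := by group
    have h6 : g * (u * (g⁻¹ * x * g)) * g⁻¹ = (g * u * g⁻¹) * x := by group
    rw [h5, h6] at h4; exact h4
  have h2 : orderOf (g * u * g⁻¹) = 2 := by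
    rw [← hu]
    have := MulEquiv.orderOf_eq (MulAut.conj g) u
    rw [MulAut.conj_apply] at this; exact this
  have h3 := hmain _ h2 h1
  rw [← h3]
  exact (isConj_iff.2 ⟨g, rfl⟩ : IsConj u (g * u * g⁻¹)).symm

end Cfsg.Agent.S0481
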