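import Cfsg.Statements.S0499
import Cfsg.Agent.S0071

set_option autoImplicit false
open Cfsg

namespace Cfsg.Agent.S0499

open Subgroup

/-- an odd order element acting nontrivially on a group of order dividing 8 -/
theorem key {Q : Type*} [Group Q] [Finite Q] (h8 : Nat.card Q ∣ 8) (α : MulAut Q) (hodd : Odd (orderOf α)) (h1 : α ≠ 1) :
    4 ∣ Nat.card Q ∧ (3 ∣ orderOf α ∨ (7 ∣ orderOf α ∧ Nat.card Q = 8)) := by
  classical
  haveI : Finite (MulAut Q) := Finite.of_injective (fun f => (f : Q → Q)) (fun f g h => MulEquiv.ext (congrFun h))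
  have hne : orderOf α ≠ 1 := fun h => h1 (orderOf_eq_one_iff.1 h)
  obtain ⟨q, hq, hqd⟩ := Nat.exists_prime_and_dvd hne
  haveI : Fact q.Prime := ⟨hq⟩
  have hq2 : q ≠ 2 := by
    rintro rfl
    exact (Nat.not_even_iff_odd.2 hodd) (even_iff_two_dvd.2 hqd)
  obtain ⟨β, hβ⟩ : ∃ β, β = α ^ (orderOf α / q) := ⟨_, rfl⟩
  have hβo : orderOf β = q := by
    rw [hβ, orderOf_pow_of_dvd (Nat.div_ne_zero_iff.2 ⟨hq.ne_zero, Nat.le_of_dvd (orderOf_pos α) hqd⟩) (Nat.div_dvd_of_dvd hqd)]
    exact Nat.div_div_self hqd (orderOf_pos α).ne'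
  have hpg : IsPGroup q (zpowers β) := IsPGroup.of_card (n := 1) (by rw [Nat.card_zpowers, hβo, pow_one])
  have hmod := hpg.card_modEq_card_fixedPoints Q
  -- fixed points form a proper subgroup
  let F : Subgroup Q :=
    { carrier := {x | β x = x}
      one_mem' := map_one β
      mul_mem' := fun {a b} ha hb => by
        show β (a * b) = a * b
        rw [map_mul, show β a = a from ha, show β b = b from hb]
      inv_mem' := fun {a} ha => by
        show β a⁻¹ = a⁻¹
        rw [map_inv, show β a = a from ha] }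
  have hfix : MulAction.fixedPoints (zpowers β) Q = (F : Set Q) := by
    ext x
    constructor
    · intro h
      exact h ⟨β, mem_zpowers β⟩
    · intro h
      rintro ⟨γ, hγ⟩
      obtain ⟨k, rfl⟩ := mem_zpowers_iff.1 hγ
      show (β ^ k) x = x
      have hs : β ∈ MulAction.stabilizer (MulAut Q) x := h
      exact (MulAction.stabilizer (MulAut Q) x).zpow_mem hs k
  have hcF : Nat.card (MulAction.fixedPoints (zpowers β) Q) = Nat.card F := by rw [hfix]; rfl
  rw [hcF] at hmod
  have hFd : Nat.card F ∣ Nat.card Q := card_subgroup_dvd_card F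
  have hFne : Nat.card F ≠ Nat.card Q := by
    intro h
    have : F = ⊤ := (Subgroup.card_eq_iff_eq_top F).1 h
    have hβ1 : β = 1 := by
      apply MulEquiv.ext
      intro x
      have : x ∈ F := by rw [this]; trivial
      exact this
    rw [hβ1, orderOf_one] at hβo
    exact hq.one_lt.ne hβo
  have hmod2 : q ∣ Nat.card Q - Nat.card F := (Nat.modEq_iff_dvd' (Nat.le_of_dvd Nat.card_pos hFd)).1 hmod.symm
  obtain ⟨a, ha⟩ : ∃ a, a = Nat.card Q := ⟨_, rfl⟩
  obtain ⟨b, hb⟩ : ∃ b, b = Nat.card F := ⟨_, rfl⟩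
  have hbpos : 0 < b := hb ▸ Nat.card_pos
  rw [← ha] at h8 hFd hFne hmod2 ⊢
  rw [← hb] at hFd hFne hmod2
  have hapos : 0 < a := ha ▸ Nat.card_pos
  clear hmod hcF
  have hq3 : 3 ≤ q := by have := hq.two_le; omega
  have hale : a ≤ 8 := Nat.le_of_dvd (by norm_num) h8
  have hble : b ≤ a := Nat.le_of_dvd hapos hFd
  have hsub : 0 < a - b := by omega
  have hqle : q ≤ a - b := Nat.le_of_dvd hsub hmod2
  have hq7 : q ≤ 7 := by omega
  interval_cases a <;> simp at h8 <;> interval_cases b <;> simp at hFd hFne <;> interval_cases q <;>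
    first
    | (exfalso; revert hq; decide)
    | (exfalso; revert hmod2; decide)
    | exact ⟨by norm_num, Or.inl hqd⟩
    | exact ⟨by norm_num, Or.inr ⟨hqd, rfl⟩⟩
    | omega

/-- A non-abelian finite simple group of even order has order divisible by 12, 16 or 56. -/
theorem result {G : Type*} [Group G] [Finite G] [IsSimpleGroup G]
    (hG : ¬ IsMulCommutative G) (h2 : Even (Nat.card G)) :
    12 ∣ Nat.card G ∨ 16 ∣ Nat.card G ∨ 56 ∣ Nat.card G := by
  classical
  haveI : Fact (Nat.Prime 2) := ⟨Nat.prime_two⟩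
  obtain ⟨P⟩ : Nonempty (Sylow 2 G) := inferInstance
  by_contra hcon
  push Not at hcon
  obtain ⟨h12, h16, h56⟩ := hcon
  obtain ⟨k, hk⟩ := IsPGroup.iff_card.1 P.isPGroup'
  have hPd : Nat.card (P : Subgroup G) ∣ Nat.card G := card_subgroup_dvd_card _
  have hk3 : k ≤ 3 := by
    by_contra hk4
    apply h16
    have h1 : 2 ^ 4 ∣ 2 ^ k := Nat.pow_dvd_pow 2 (by omega)
    have h2 : 2 ^ k ∣ Nat.card G := by rw [← hk]; exact hPd
    exact (show (16 : ℕ) = 2 ^ 4 by norm_num) ▸ h1.trans h2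
  have hP8 : Nat.card (P : Subgroup G) ∣ 8 := by
    rw [show Nat.card (P : Subgroup G) = 2 ^ k from hk]
    exact (show (8 : ℕ) = 2 ^ 3 by norm_num) ▸ Nat.pow_dvd_pow 2 hk3
  have hno : ¬ ∃ N : Subgroup G, N.Normal ∧ N.IsComplement' (P : Subgroup G) := by
    rintro ⟨N, hN, hc⟩
    have hcard := hc.card_mul
    rcases hN.eq_bot_or_eq_top with h | h
    · rw [h, card_bot, one_mul] at hcard
      have hPG : IsPGroup 2 G := IsPGroup.of_card (n := k) (by rw [← hcard]; exact hk)
      haveI := hPG.isNilpotent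
      apply hG
      haveI : Group.IsSolvable G := inferInstance
      have hc2 := (IsSimpleGroup.comm_iff_isSolvable (G := G)).2 inferInstance
      exact ⟨⟨hc2⟩⟩
    · rw [h, card_top] at hcard
      have h1 : Nat.card (P : Subgroup G) = 1 := by
        have := Nat.card_pos (α := G)
        nlinarith
      have h2 : 2 ∣ Nat.card (P : Subgroup G) := P.dvd_card_of_dvd_card (even_iff_two_dvd.1 h2)
      omega
  rw [Cfsg.Agent.S0071.result P] at hno
  push Not at hno
  obtain ⟨Q, hQP, g, hgN, hgo, hgC⟩ := hno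
  have hQ8 : Nat.card Q ∣ 8 := (card_dvd_of_le hQP).trans hP8
  let α : MulAut Q := Subgroup.normalizerMonoidHom Q ⟨g, hgN⟩
  have hα : ∀ x : Q, ((α x : Q) : G) = g * x * g⁻¹ := fun x => rfl
  have hαd : orderOf α ∣ orderOf g := by
    have h1 := orderOf_map_dvd (Subgroup.normalizerMonoidHom Q) ⟨g, hgN⟩
    rwa [Subgroup.orderOf_mk] at h1
  have hgodd : Odd (orderOf g) := by
    rw [← Nat.coprime_two_right]; exact hgo
  have hαodd : Odd (orderOf α) := Odd.of_dvd_nat hgodd hαd
  have hα1 : α ≠ 1 := by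
    intro h
    apply hgC
    rw [mem_centralizer_iff]
    intro x hx
    have h1 := hα ⟨x, hx⟩
    rw [h] at h1
    have h2 : x = g * x * g⁻¹ := h1
    rw [eq_mul_inv_iff_mul_eq] at h2
    exact h2
  obtain ⟨h4, h⟩ := key hQ8 α hαodd hα1
  have hQG : Nat.card Q ∣ Nat.card G := card_subgroup_dvd_card _
  have hαG : orderOf α ∣ Nat.card G := hαd.trans (orderOf_dvd_natCard g)
  rcases h with h3 | ⟨h7, hQc⟩
  · apply h12
    exact (show (12 : ℕ) = 4 * 3 by norm_num) ▸ Nat.Coprime.mul_dvd_of_dvd_of_dvd (by norm_num) (h4.trans hQG) (h3.trans hαG)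
  · apply h56
    rw [hQc] at hQG
    exact (show (56 : ℕ) = 8 * 7 by norm_num) ▸ Nat.Coprime.mul_dvd_of_dvd_of_dvd (by norm_num) hQG (h7.trans hαG)

end Cfsg.Agent.S0499
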