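import Cfsg.Statements.S0502
import Cfsg.Agent.H11_Conn3

set_option autoImplicit false
open Cfsg

namespace Cfsg.Agent.S0502

theorem kf_iff {P : Type*} [Group P] [Finite P] (A : Subgroup P) :
    IsKleinFour A ↔ (Cfsg.IsElementaryAbelian 2 A ∧ Nat.card A = 4) := by
  constructor
  · intro h
    have h2 : ∀ a ∈ A, a ^ 2 = 1 := by
      intro a ha
      have h3 := Monoid.pow_exponent_eq_one (⟨a, ha⟩ : A)
      rw [h.exponent_two] at h3
      exact congrArg Subtype.val h3
    refine ⟨⟨⟨⟨fun a b => ?_⟩⟩, h2⟩, h.card_four⟩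
    have h3 := fun x : A => (show x * x = 1 from by
      rw [← pow_two]; exact Subtype.ext (h2 x x.2))
    have h4 := fun x : A => inv_eq_of_mul_eq_one_left (h3 x)
    calc a * b = (a * b)⁻¹ := (h4 _).symm
      _ = b⁻¹ * a⁻¹ := by group
      _ = b * a := by rw [h4, h4]
  · rintro ⟨h1, h2⟩
    refine ⟨h2, ?_⟩
    have h3 : Monoid.exponent A ∣ 2 := Monoid.exponent_dvd_of_forall_pow_eq_one
      (fun a => Subtype.ext (h1.2 a a.2))
    rcases (Nat.dvd_prime Nat.prime_two).mp h3 with h4 | h4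
    · exfalso
      rw [Monoid.exp_eq_one_iff] at h4
      rw [Nat.card_of_subsingleton (1 : A)] at h2
      omega
    · exact h4

/-- If a finite 2-group has a normal elementary abelian subgroup of order at least 8, then any two of its Klein
four-subgroups are joined by a chain of Klein four-subgroups with consecutive members commuting elementwise. -/
theorem result {P : Type*} [Group P] [Finite P] (hP : IsPGroup 2 P)
    (E : Subgroup P) [E.Normal] (hE : IsMulCommutative E) (hE2 : ∀ e ∈ E, e ^ 2 = 1) (hE8 : 8 ≤ Nat.card E) :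
    Cfsg.IsFourConnected P := by
  classical
  haveI : Fact (Nat.Prime 2) := ⟨Nat.prime_two⟩
  have hE' : Cfsg.IsElementaryAbelian 2 E := ⟨hE, hE2⟩
  obtain ⟨F, hFE, hF⟩ := Cfsg.Agent.H11.Conn.exists_sub (p := 2) (k := 2) (hP.to_subgroup E) (by omega)
  intro A B hA hB
  rw [kf_iff] at hA hB
  have h1 := Cfsg.Agent.H11.Conn.four_chain hP hE' hE8 hFE hF hA.1 hA.2
  have h2 := Cfsg.Agent.H11.Conn.four_chain hP hE' hE8 hFE hF hB.1 hB.2
  have h3 := Cfsg.Agent.H11.Conn.symm_chain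
      (fun A B (h : (IsElementaryAbelian 2 A ∧ Nat.card A = 4) ∧
      (IsElementaryAbelian 2 B ∧ Nat.card B = 4) ∧ ∀ a ∈ A, ∀ b ∈ B, a * b = b * a) =>
        (⟨h.2.1, h.1, fun b hb a ha => (h.2.2 a ha b hb).symm⟩ :
          (IsElementaryAbelian 2 B ∧ Nat.card B = 4) ∧
      (IsElementaryAbelian 2 A ∧ Nat.card A = 4) ∧ ∀ a ∈ B, ∀ b ∈ A, a * b = b * a)) h2
  refine Relation.ReflTransGen.mono ?_ _ _ (h1.trans h3)
  rintro C D ⟨h4, h5, h6⟩
  exact ⟨(kf_iff C).mpr h4, (kf_iff D).mpr h5, h6⟩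

end Cfsg.Agent.S0502
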