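import Cfsg.Statements.S0505
import Mathlib
import Cfsg.Agent.H17_PC
import Cfsg.Agent.H11_Bal3
import Cfsg.Agent.H1_Hall
import Cfsg.Agent.H2_PGroup

set_option autoImplicit false
open Cfsg

namespace Cfsg.Agent.S0505

theorem charP_of_solv {H : Type*} [Group H] [Finite H] [Group.IsSolvable H] (h : oddCore H = ⊥) :
    Cfsg.Agent.H18.CharP.HasCharP 2 H := by
  haveI : Fact (Nat.Prime 2) := ⟨Nat.prime_two⟩
  have h1 : fittingSubgroup H = pCore 2 H := Cfsg.Agent.H11.Bal.fitting_eq_pCore 2 h
  have h2 := Cfsg.Agent.H1.Hall.centralizer_fitting_le (G := H)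
  rw [h1] at h2
  exact h2

/-- Let G be a finite group of even order in which the centralizer of every involution is solvable and has trivial
core (no nontrivial normal subgroup of odd order). Then G is of characteristic 2 type. -/
theorem result {G : Type*} [Group G] [Finite G]
    (h2 : Even (Nat.card G))
    (hs : ∀ t : G, orderOf t = 2 → Group.IsSolvable (Subgroup.centralizer ({t} : Set G)))
    (hc : ∀ t : G, orderOf t = 2 → Cfsg.oddCore (Subgroup.centralizer ({t} : Set G)) = ⊥) :
    Cfsg.IsCharacteristicTwoType G := by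
  haveI : Fact (Nat.Prime 2) := ⟨Nat.prime_two⟩
  refine ⟨h2, fun T hT hT1 => ?_⟩
  haveI : Nontrivial T := (Subgroup.nontrivial_iff_ne_bot T).2 hT1
  haveI := hT.center_nontrivial
  have hZ : IsPGroup 2 (Subgroup.center T) := hT.to_subgroup _
  obtain ⟨k, hk⟩ := IsPGroup.iff_card.1 hZ
  have hk0 : k ≠ 0 := by
    rintro rfl
    have := Finite.one_lt_card_iff_nontrivial.2 (inferInstance : Nontrivial (Subgroup.center T))
    omega
  obtain ⟨z, hz⟩ := exists_prime_orderOf_dvd_card' 2 (G := Subgroup.center T) (by rw [hk]; exact dvd_pow_self 2 hk0)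
  have hz2 : orderOf ((z : T) : G) = 2 := by rw [Subgroup.orderOf_coe, Subgroup.orderOf_coe, hz]
  haveI := hs _ hz2
  exact Cfsg.Agent.H17.PC.norm_of_cent hT (z : T).2
    (fun x hx => congrArg Subtype.val (Subgroup.mem_center_iff.1 z.2 ⟨x, hx⟩)) (charP_of_solv (hc _ hz2))

end Cfsg.Agent.S0505
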