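import Cfsg.Statements.S0514
import Cfsg.Agent.S0071

set_option autoImplicit false
open Cfsg

namespace Cfsg.Agent.S0514

open Subgroup

theorem val_two {n : ℕ} (hn : n ≠ 0) (hne : Even n) {i : ZMod n} (h : i + i = 0) : i = 0 ∨ i = ((n / 2 : ℕ) : ZMod n) := by
  haveI : NeZero n := ⟨hn⟩
  have h1 : (i + i).val = 0 := by rw [h]; exact ZMod.val_zero
  rw [ZMod.val_add] at h1
  have h2 := ZMod.val_lt i
  have h3 : n ∣ i.val + i.val := Nat.dvd_of_mod_eq_zero h1
  obtain ⟨c, hc⟩ := h3
  have hc2 : c < 2 := by
    by_contra hcc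
    have : n * 2 ≤ n * c := Nat.mul_le_mul_left _ (by omega)
    omega
  interval_cases c
  · left
    exact (ZMod.val_eq_zero i).1 (by omega)
  · right
    apply ZMod.val_injective n
    rw [ZMod.val_natCast, Nat.mod_eq_of_lt (by omega)]
    omega

/-- the main lemma on odd automorphisms of dihedral 2-groups fixing a central involution -/
theorem main {R : Type*} [Group R] [Finite R] (h2 : IsPGroup 2 R) {n : ℕ} (hn : n ≠ 0) (hne : Even n)
    (f : R →* DihedralGroup n) (hf : Function.Injective f) (α : MulAut R) (hodd : Odd (orderOf α)) (t : R)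
    (ht : t * t = 1) (ht1 : t ≠ 1) (hαt : α t = t) : α = 1 := by
  classical
  haveI : Fact (Nat.Prime 2) := ⟨Nat.prime_two⟩
  have hαm : ∀ x : R, (α ^ orderOf α) x = x := fun x => by rw [pow_orderOf_eq_one]; rfl
  by_cases hA : ∃ y : R, y * y ≠ 1
  · obtain ⟨y, hy⟩ := hA
    have hrot : ∀ y : R, y * y ≠ 1 → ∃ i, f y = DihedralGroup.r i := by
      intro y hy
      rcases hfy : f y with i | i
      · exact ⟨i, rfl⟩
      · exfalso
        apply hy
        apply hf
        rw [map_mul, hfy, map_one, DihedralGroup.sr_mul_sr, sub_self]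
        rfl
    obtain ⟨C, hC⟩ : ∃ C : Subgroup R, C = (zpowers (DihedralGroup.r (1 : ZMod n))).comap f := ⟨_, rfl⟩
    have hmem : ∀ y : R, y ∈ C ↔ ∃ i, f y = DihedralGroup.r i := by
      intro y
      rw [hC, mem_comap, mem_zpowers_iff]
      constructor
      · rintro ⟨k, hk⟩
        exact ⟨_, by rw [← hk, DihedralGroup.r_one_zpow]⟩
      · rintro ⟨i, hi⟩
        obtain ⟨k, rfl⟩ := ZMod.intCast_surjective i
        exact ⟨k, by rw [hi, DihedralGroup.r_one_zpow]⟩
    haveI : IsCyclic C := by
      let g : C →* zpowers (DihedralGroup.r (1 : ZMod n)) :=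
        (f.comp C.subtype).codRestrict _ (fun x => by
          have h : (x : R) ∈ (zpowers (DihedralGroup.r (1 : ZMod n))).comap f := by rw [← hC]; exact x.2
          exact h)
      exact isCyclic_of_injective g (fun a b hab => Subtype.ext (hf (congrArg Subtype.val hab)))
    obtain ⟨⟨x, hxC⟩, hx⟩ := IsCyclic.exists_generator (α := C)
    have hx' : ∀ z : R, z ∈ C → ∃ k : ℕ, x ^ k = z := by
      intro z hz
      obtain ⟨k, hk⟩ := (mem_powers_iff_mem_zpowers).2 (hx ⟨z, hz⟩)
      exact ⟨k, congrArg Subtype.val hk⟩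
    have hxx : x * x ≠ 1 := by
      intro h
      obtain ⟨k, hk⟩ := hx' y ((hmem y).2 (hrot y hy))
      apply hy
      rw [← hk, ← pow_add, ← two_mul, pow_mul, pow_two, h, one_pow]
    have hαx : (α x) * (α x) ≠ 1 := by
      rw [← map_mul]
      intro h
      exact hxx (α.injective (by rw [h, map_one]))
    obtain ⟨j, hj⟩ := hx' (α x) ((hmem _).2 (hrot _ hαx))
    have hpow : ∀ i : ℕ, (α ^ i) x = x ^ (j ^ i) := by
      intro i
      induction i with
      | zero => simp
      | succ i ih =>
        rw [pow_succ', MulAut.mul_apply, ih, map_pow, ← hj, ← pow_mul, pow_succ']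
    have hjm : x ^ (j ^ orderOf α) = x ^ 1 := by
      rw [← hpow, hαm, pow_one]
    rw [pow_eq_pow_iff_modEq] at hjm
    obtain ⟨k, hk⟩ := (IsPGroup.iff_orderOf.1 h2) x
    rw [hk] at hjm
    have hjm2 : ((j : ZMod (2 ^ k)) ^ orderOf α) = 1 := by
      rw [← ZMod.natCast_eq_natCast_iff] at hjm
      simpa using hjm
    have hk0 : k ≠ 0 := by
      rintro rfl
      rw [pow_zero, orderOf_eq_one_iff] at hk
      rw [hk] at hxx
      exact hxx (one_mul _)
    have hju : (j : ZMod (2 ^ k)) = 1 := by
      obtain ⟨u, hu⟩ : IsUnit (j : ZMod (2 ^ k)) := IsUnit.of_pow_eq_one hjm2 (orderOf_pos α).ne'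
      rw [← hu] at hjm2 ⊢
      have hu1 : u ^ orderOf α = 1 := Units.ext (by push_cast; exact hjm2)
      have h1 : orderOf u ∣ orderOf α := orderOf_dvd_of_pow_eq_one hu1
      have h3 : orderOf u ∣ 2 ^ (k - 1) := by
        have h4 := orderOf_dvd_natCard u
        rw [Nat.card_eq_fintype_card, ZMod.card_units_eq_totient, Nat.totient_prime_pow Nat.prime_two (Nat.pos_of_ne_zero hk0)] at h4
        simpa using h4
      have h5 : Nat.Coprime (orderOf α) (2 ^ (k - 1)) := Nat.Coprime.pow_right _ (Nat.coprime_two_right.2 hodd)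
      have h6 : orderOf u = 1 := Nat.eq_one_of_dvd_one ((Nat.Coprime.gcd_eq_one h5) ▸ Nat.dvd_gcd h1 h3)
      rw [orderOf_eq_one_iff] at h6
      rw [h6]; rfl
    have hαx1 : α x = x := by
      rw [← hj]
      nth_rewrite 2 [← pow_one x]
      rw [pow_eq_pow_iff_modEq, hk, ← ZMod.natCast_eq_natCast_iff, hju, Nat.cast_one]
    have hαC : ∀ z ∈ C, α z = z := by
      intro z hz
      obtain ⟨k, rfl⟩ := hx' z hz
      rw [map_pow, hαx1]
    apply MulEquiv.ext
    intro z
    show α z = z
    by_cases hz : z ∈ C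
    · exact hαC z hz
    have hαz : α z ∉ C := by
      intro h
      apply hz
      have := hαC _ h
      have h3 := α.injective this
      rwa [h3] at h
    have hc : z⁻¹ * α z ∈ C := by
      rw [hmem] at hz hαz ⊢
      rw [map_mul, map_inv]
      rcases hfz : f z with i | i
      · exact absurd ⟨i, hfz⟩ hz
      rcases hfz2 : f (α z) with l | l
      · exact absurd ⟨l, hfz2⟩ hαz
      exact ⟨l - i, by rw [DihedralGroup.inv_sr, DihedralGroup.sr_mul_sr]⟩
    obtain ⟨c, hcc⟩ : ∃ c, c = z⁻¹ * α z := ⟨_, rfl⟩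
    have hαz2 : α z = z * c := by rw [hcc]; group
    rw [← hcc] at hc
    have hpz : ∀ i : ℕ, (α ^ i) z = z * c ^ i := by
      intro i
      induction i with
      | zero => simp
      | succ i ih =>
        rw [pow_succ', MulAut.mul_apply, ih, map_mul, map_pow, hαC c hc, hαz2, mul_assoc, ← pow_succ']
    have h7 : z = z * c ^ orderOf α := by rw [← hpz, hαm]
    have h8 : c ^ orderOf α = 1 := by
      nth_rewrite 1 [← mul_one z] at h7
      exact (mul_left_cancel h7).symm
    obtain ⟨k', hk'⟩ := (IsPGroup.iff_orderOf.1 h2) c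
    have h9 : orderOf c ∣ orderOf α := orderOf_dvd_of_pow_eq_one h8
    have h10 : c = 1 := by
      rw [← orderOf_eq_one_iff]
      have h5 : Nat.Coprime (orderOf α) (2 ^ k') := Nat.Coprime.pow_right _ (Nat.coprime_two_right.2 hodd)
      rw [hk'] at h9 ⊢
      exact Nat.eq_one_of_dvd_one ((Nat.Coprime.gcd_eq_one h5) ▸ Nat.dvd_gcd h9 dvd_rfl)
    rw [hαz2, h10, mul_one]
  · push Not at hA
    have hval : ∀ (y : R) (i : ZMod n), f y = DihedralGroup.r i → y = 1 ∨ i = ((n / 2 : ℕ) : ZMod n) := by
      intro y i h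
      have h1 : i + i = 0 := by
        have h3 := hA y
        have h4 := congrArg f h3
        rw [map_mul, h, map_one, DihedralGroup.r_mul_r, DihedralGroup.one_def] at h4
        exact DihedralGroup.r.inj h4
      rcases val_two hn hne h1 with h5 | h5
      · left
        apply hf
        rw [h, h5, map_one]; rfl
      · right; exact h5
    have hrr : ∀ y z : R, (∃ i, f y = DihedralGroup.r i) → (∃ i, f z = DihedralGroup.r i) → y ≠ 1 → z ≠ 1 → y = z := by
      rintro y z ⟨i, hi⟩ ⟨l, hl⟩ hy hz
      have h1 := (hval y i hi).resolve_left hy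
      have h3 := (hval z l hl).resolve_left hz
      apply hf
      rw [hi, hl, h1, h3]
    have hss : ∀ y z : R, (¬ ∃ i, f y = DihedralGroup.r i) → (¬ ∃ i, f z = DihedralGroup.r i) → ∃ i, f (y * z) = DihedralGroup.r i := by
      intro y z hy hz
      rcases hfy : f y with i | i
      · exact absurd ⟨i, hfy⟩ hy
      rcases hfz : f z with l | l
      · exact absurd ⟨l, hfz⟩ hz
      exact ⟨_, by rw [map_mul, hfy, hfz, DihedralGroup.sr_mul_sr]⟩
    have hinv : ∀ y z : R, y * z = 1 → z = y := fun y z h => by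
      have := hA y
      exact mul_left_cancel (h.trans this.symm)
    have hmm : ∀ y z w : R, y * z = w → z = y * w := fun y z w h => by
      rw [← h, ← mul_assoc, hA y, one_mul]
    have hcomm : ∀ y z : R, y * z = z * y := by
      intro y z
      have h1 := hA (y * z)
      have h3 := hinv _ _ (by rw [mul_assoc] at h1; exact h1)
      have h4 := hmm z (y * z) y h3
      exact h4
    have key : ∀ x y : R, x ≠ 1 → x ≠ t → y = 1 ∨ y = t ∨ y = x ∨ y = x * t := by
      intro x y hx1 hxt
      by_cases hy1 : y = 1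
      · exact Or.inl hy1
      by_cases ht' : ∃ i, f t = DihedralGroup.r i
      · have hx' : ¬ ∃ i, f x = DihedralGroup.r i := fun h => hxt (hrr x t h ht' hx1 ht1)
        by_cases hy' : ∃ i, f y = DihedralGroup.r i
        · exact Or.inr (Or.inl (hrr y t hy' ht' hy1 ht1))
        · have h1 := hss x y hx' hy'
          by_cases h3 : x * y = 1
          · exact Or.inr (Or.inr (Or.inl (hinv _ _ h3)))
          · exact Or.inr (Or.inr (Or.inr (hmm _ _ _ (hrr _ _ h1 ht' h3 ht1))))
      · by_cases hx' : ∃ i, f x = DihedralGroup.r i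
        · by_cases hy' : ∃ i, f y = DihedralGroup.r i
          · exact Or.inr (Or.inr (Or.inl (hrr y x hy' hx' hy1 hx1)))
          · have h1 := hss t y ht' hy'
            by_cases h3 : t * y = 1
            · exact Or.inr (Or.inl (hinv _ _ h3))
            · refine Or.inr (Or.inr (Or.inr ?_))
              rw [hmm _ _ _ (hrr _ _ h1 hx' h3 hx1)]
              exact hcomm _ _
        · have h1 := hss t x ht' hx'
          have h3 : t * x ≠ 1 := fun h => hxt (hinv _ _ h)
          by_cases hy' : ∃ i, f y = DihedralGroup.r i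
          · refine Or.inr (Or.inr (Or.inr ?_))
            rw [hrr _ _ hy' h1 hy1 h3]
            exact hcomm _ _
          · have h4 := hss t y ht' hy'
            by_cases h5 : t * y = 1
            · exact Or.inr (Or.inl (hinv _ _ h5))
            · exact Or.inr (Or.inr (Or.inl (mul_left_cancel (hrr _ _ h4 h1 h5 h3))))
    have hsq : α ^ 2 = 1 := by
      apply MulEquiv.ext
      intro x
      show (α ^ 2) x = x
      rw [pow_two, MulAut.mul_apply]
      by_cases hx1 : x = 1
      · rw [hx1, map_one, map_one]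
      by_cases hxt : x = t
      · rw [hxt, hαt, hαt]
      rcases key x (α x) hx1 hxt with h | h | h | h
      · exact absurd (α.injective (by rw [h, map_one])) hx1
      · exact absurd (α.injective (by rw [h, hαt])) hxt
      · rw [h, h]
      · rw [h, map_mul, h, hαt, mul_assoc, ht, mul_one]
    have h3 : orderOf α ∣ 2 := orderOf_dvd_of_pow_eq_one hsq
    have h4 : orderOf α = 1 := by
      rcases (Nat.dvd_prime Nat.prime_two).1 h3 with h | h
      · exact h
      · rw [h] at hodd
        exact absurd hodd (by decide)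
    exact orderOf_eq_one_iff.1 h4

/-- In a finite group whose Sylow 2-subgroups are dihedral of order at least 4, the centralizer of any involution has a
normal subgroup of odd order whose index in the centralizer is a power of 2. -/
theorem result {X : Type*} [Group X] [Finite X]
    (S : Sylow 2 X) (n : ℕ) (hn : 2 ≤ n) (hS : Nonempty ((S : Subgroup X) ≃* DihedralGroup n)) (t : X)
    (ht : orderOf t = 2) :
    ∃ N : Subgroup (Subgroup.centralizer ({t} : Set X)), N.Normal ∧ Odd (Nat.card N) ∧ ∃ k : ℕ, N.index = 2 ^ k := by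
  classical
  haveI : Fact (Nat.Prime 2) := ⟨Nat.prime_two⟩
  obtain ⟨P⟩ : Nonempty (Sylow 2 (Subgroup.centralizer ({t} : Set X))) := inferInstance
  obtain ⟨eS⟩ := hS
  have hn0 : n ≠ 0 := by omega
  haveI : NeZero n := ⟨hn0⟩
  obtain ⟨kS, hkS⟩ := IsPGroup.iff_card.1 S.isPGroup'
  have hcS : 2 * n = 2 ^ kS := by
    rw [← hkS, Nat.card_congr eS.toEquiv, DihedralGroup.nat_card]
  have hne : Even n := by
    rcases kS with _ | _ | k
    · simp at hcS
    · simp at hcS; omega
    · exact ⟨2 ^ k, by rw [pow_succ, pow_succ] at hcS; omega⟩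
  have htC : t ∈ Subgroup.centralizer ({t} : Set X) := by
    rw [mem_centralizer_iff]
    rintro h rfl
    rfl
  obtain ⟨t', ht'⟩ : ∃ t' : Subgroup.centralizer ({t} : Set X), t' = ⟨t, htC⟩ := ⟨_, rfl⟩
  have htt : t' * t' = 1 := by
    rw [ht']
    apply Subtype.ext
    show t * t = 1
    rw [← pow_two, ← ht, pow_orderOf_eq_one]
  have ht1 : t' ≠ 1 := by
    rw [ht']
    intro h
    have h1 : t = 1 := congrArg Subtype.val h
    rw [h1, orderOf_one] at ht
    omega
  have hcen : ∀ g : Subgroup.centralizer ({t} : Set X), g * t' = t' * g := by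
    intro g
    rw [ht']
    apply Subtype.ext
    exact ((mem_centralizer_iff.1 g.2) t rfl).symm
  have hfrob : ∃ N : Subgroup (Subgroup.centralizer ({t} : Set X)), N.Normal ∧ N.IsComplement' (P : Subgroup (Subgroup.centralizer ({t} : Set X))) := by
    rw [Cfsg.Agent.S0071.result P]
    intro Q hQP g hgN hgo
    obtain ⟨R, hR⟩ : ∃ R : Subgroup (Subgroup.centralizer ({t} : Set X)), R = Q ⊔ zpowers t' := ⟨_, rfl⟩
    have hnor : (zpowers t').Normal := by
      constructor
      intro z hz g
      have : g * z * g⁻¹ = z := by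
        obtain ⟨k, rfl⟩ := mem_zpowers_iff.1 hz
        have h1 : Commute g t' := hcen g
        have h2 := h1.zpow_right k
        rw [h2.eq, mul_inv_cancel_right]
      rw [this]
      exact hz
    have hQ2 : IsPGroup 2 Q := P.isPGroup'.to_le hQP
    have hz2 : IsPGroup 2 (zpowers t') := by
      apply IsPGroup.of_card (n := 1)
      rw [Nat.card_zpowers, pow_one]
      exact orderOf_eq_prime (by rw [pow_two]; exact htt) ht1
    have hR2 : IsPGroup 2 R := by
      rw [hR]
      exact hQ2.to_sup_of_normal_right hz2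
    have htR : t' ∈ R := by rw [hR]; exact mem_sup_right (mem_zpowers t')
    have hgR : g ∈ normalizer (R : Set (Subgroup.centralizer ({t} : Set X))) := by
      rw [hR, mem_normalizer_iff_map_conj_eq, Subgroup.map_sup]
      congr 1
      · exact mem_normalizer_iff_map_conj_eq.1 hgN
      · rw [MonoidHom.map_zpowers]
        congr 1
        show g * t' * g⁻¹ = t'
        rw [hcen g, mul_inv_cancel_right]
    -- the embedding
    obtain ⟨T, hT⟩ := (hR2.map (Subgroup.centralizer ({t} : Set X)).subtype).exists_le_sylow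
    let eT : (T : Subgroup X) ≃* DihedralGroup n := (Sylow.equiv T S).trans eS
    let j : R →* (T : Subgroup X) := (((Subgroup.centralizer ({t} : Set X)).subtype).comp R.subtype).codRestrict _ (fun x =>
      hT (Subgroup.mem_map_of_mem _ x.2))
    have hj : Function.Injective j := fun a b h => Subtype.ext (Subtype.ext (congrArg (fun z : (T : Subgroup X) => (z : X)) h))
    let α : MulAut R := Subgroup.normalizerMonoidHom R ⟨g, hgR⟩
    have hα : ∀ x : R, ((α x : R) : Subgroup.centralizer ({t} : Set X)) = g * x * g⁻¹ := fun x => rfl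
    have hαd : orderOf α ∣ orderOf g := by
      have h1 := orderOf_map_dvd (Subgroup.normalizerMonoidHom R) ⟨g, hgR⟩
      rwa [Subgroup.orderOf_mk] at h1
    have hgodd : Odd (orderOf g) := by
      rw [← Nat.coprime_two_right]; exact hgo
    have hαodd : Odd (orderOf α) := Odd.of_dvd_nat hgodd hαd
    have hα1 : α = 1 := by
      refine main hR2 hn0 hne (eT.toMonoidHom.comp j) (eT.injective.comp hj) α hαodd ⟨t', htR⟩ (Subtype.ext htt) (fun h => ht1 (congrArg Subtype.val h)) ?_
      apply Subtype.ext
      rw [hα]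
      show g * t' * g⁻¹ = t'
      rw [hcen g, mul_inv_cancel_right]
    rw [mem_centralizer_iff]
    intro x hx
    have hxR : x ∈ R := by rw [hR]; exact mem_sup_left hx
    have h1 := hα ⟨x, hxR⟩
    rw [hα1] at h1
    have h2 : x = g * x * g⁻¹ := h1
    rw [eq_mul_inv_iff_mul_eq] at h2
    exact h2
  obtain ⟨N, hN, hc⟩ := hfrob
  obtain ⟨k, hk⟩ := IsPGroup.iff_card.1 P.isPGroup'
  refine ⟨N, hN, ?_, k, ?_⟩
  · have h1 := hc.index_eq_card
    have h2 := P.not_dvd_index
    rw [h1] at h2
    rw [Nat.odd_iff]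
    omega
  · rw [hc.symm.index_eq_card]
    exact hk

end Cfsg.Agent.S0514
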