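import Cfsg.Statements.S0520
import Mathlib
import Cfsg.Agent.H1_Schmidt
import Cfsg.Agent.H2_Basic
import Cfsg.Agent.H24_Tools


set_option autoImplicit false
open Cfsg

namespace Cfsg.Agent.S0520
open Subgroup
open scoped Pointwise

def kf {G : Type*} [Group G] (V : Subgroup G) : Prop := Nat.card V = 4 ∧ ∀ a ∈ V, a * a = 1

theorem kf_iff {G : Type*} [Group G] (V : Subgroup G) : IsKleinFour V ↔ kf V := by
  constructor
  · intro h
    refine ⟨h.card_four, fun a ha => ?_⟩
    have h1 := Monoid.pow_exponent_eq_one (⟨a, ha⟩ : V)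
    rw [h.exponent_two, pow_two] at h1
    exact congrArg Subtype.val h1
  · rintro ⟨h1, h2⟩
    refine ⟨h1, ?_⟩
    have h3 : Monoid.exponent V ∣ 2 := by
      apply Monoid.exponent_dvd_of_forall_pow_eq_one
      intro a
      rw [pow_two]
      exact Subtype.ext (h2 a a.2)
    rcases (Nat.dvd_prime Nat.prime_two).1 h3 with h4 | h4
    · exfalso
      rw [Monoid.exp_eq_one_iff] at h4
      haveI := h4
      have := Nat.card_unique (α := V)
      omega
    · exact h4

theorem kf_comm {G : Type*} [Group G] {V : Subgroup G} (h : kf V) : ∀ a ∈ V, ∀ b ∈ V, a * b = b * a := by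
  intro a ha b hb
  have h1 := h.2 a ha
  have h2 := h.2 b hb
  have h3 := h.2 _ (mul_mem ha hb)
  have ea : a⁻¹ = a := by rw [inv_eq_iff_mul_eq_one]; exact h1
  have eb : b⁻¹ = b := by rw [inv_eq_iff_mul_eq_one]; exact h2
  have eab : (a * b)⁻¹ = a * b := by rw [inv_eq_iff_mul_eq_one]; exact h3
  rw [mul_inv_rev, ea, eb] at eab
  exact eab.symm

theorem kf_map {G G' : Type*} [Group G] [Group G'] (f : G →* G') (hf : Function.Injective f) {V : Subgroup G} (h : kf V) :
    kf (V.map f) := by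
  refine ⟨by rw [Subgroup.card_map_of_injective hf]; exact h.1, ?_⟩
  rintro _ ⟨a, ha, rfl⟩
  rw [← map_mul, h.2 a ha, map_one]

theorem kf_subgroupOf {G : Type*} [Group G] {V H : Subgroup G} (hVH : V ≤ H) (h : kf V) : kf (V.subgroupOf H) := by
  refine ⟨?_, ?_⟩
  · rw [← h.1]
    exact Nat.card_congr (Subgroup.subgroupOfEquivOfLe hVH).toEquiv
  · intro a ha
    exact Subtype.ext (h.2 a ha)

theorem rank_iff {G : Type*} [Group G] [Finite G] (Q : Subgroup G) :
    ¬ Cfsg.PRankLE 2 1 Q ↔ ∃ V : Subgroup G, kf V ∧ V ≤ Q := by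
  haveI : Fact (Nat.Prime 2) := ⟨Nat.prime_two⟩
  constructor
  · intro h
    unfold Cfsg.PRankLE at h
    push Not at h
    obtain ⟨A, hAc, hA2, hcard⟩ := h
    have hp : IsPGroup 2 A := by
      intro a
      refine ⟨1, ?_⟩
      rw [pow_one]
      exact Subtype.ext (hA2 a a.2)
    obtain ⟨n, hn⟩ := hp.exists_card_eq
    have hn2 : 2 ≤ n := by
      by_contra hlt
      have : 2 ^ n ≤ 2 ^ 1 := Nat.pow_le_pow_right (by norm_num) (by omega)
      omega
    obtain ⟨K, hK⟩ := Sylow.exists_subgroup_card_pow_prime (G := A) 2 (n := 2) (by rw [hn]; exact pow_dvd_pow 2 hn2)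
    have hkK : kf K := by
      refine ⟨by rw [hK]; norm_num, ?_⟩
      intro a _
      apply Subtype.ext
      have := hA2 a a.2
      rwa [pow_two] at this
    refine ⟨(K.map A.subtype).map Q.subtype, kf_map _ (Subgroup.subtype_injective _) (kf_map _ (Subgroup.subtype_injective _) hkK), Subgroup.map_subtype_le _⟩
  · rintro ⟨V, hV, hVQ⟩ h
    have h1 := kf_subgroupOf hVQ hV
    have h2 := h (V.subgroupOf Q) ⟨⟨fun a b => Subtype.ext (kf_comm h1 a a.2 b b.2)⟩⟩ (fun a ha => by rw [pow_two]; exact h1.2 a ha)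
    rw [h1.1] at h2
    omega

def R {G : Type*} [Group G] (A B : Subgroup G) : Prop := IsKleinFour A ∧ IsKleinFour B ∧ ∀ a ∈ A, ∀ b ∈ B, a * b = b * a

theorem R_symm {G : Type*} [Group G] {A B : Subgroup G} (h : R A B) : R B A := by
  obtain ⟨h1, h2, h3⟩ := h
  exact ⟨h2, h1, fun a ha b hb => (h3 b hb a ha).symm⟩

theorem T_symm {G : Type*} [Group G] {A B : Subgroup G} (h : Relation.ReflTransGen R A B) : Relation.ReflTransGen R B A := by
  induction h with
  | refl => exact Relation.ReflTransGen.refl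
  | tail _ h2 ih => exact Relation.ReflTransGen.head (R_symm h2) ih

theorem R_map {G G' : Type*} [Group G] [Group G'] (f : G →* G') (hf : Function.Injective f) {A B : Subgroup G} (h : R A B) :
    R (A.map f) (B.map f) := by
  refine ⟨(kf_iff _).2 (kf_map f hf ((kf_iff _).1 h.1)), (kf_iff _).2 (kf_map f hf ((kf_iff _).1 h.2.1)), ?_⟩
  rintro _ ⟨a, ha, rfl⟩ _ ⟨b, hb, rfl⟩
  rw [← map_mul, h.2.2 a ha b hb, map_mul]

theorem T_map {G G' : Type*} [Group G] [Group G'] (f : G →* G') (hf : Function.Injective f) {A B : Subgroup G}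
    (h : Relation.ReflTransGen R A B) : Relation.ReflTransGen R (A.map f) (B.map f) := by
  induction h with
  | refl => exact Relation.ReflTransGen.refl
  | tail _ h2 ih => exact ih.tail (R_map f hf h2)

section

variable {G : Type*} [Group G] [Finite G] [hp : Fact (Nat.Prime 2)] (S : Sylow 2 G)

def Gam : Subgroup G := ⨆ Q : {Q : Subgroup G // Q ≤ (S : Subgroup G) ∧ ¬ Cfsg.PRankLE 2 1 Q}, Subgroup.normalizer ((Q : Subgroup G) : Set G)

theorem norm_le {Q V : Subgroup G} (hQ : Q ≤ S) (hV : kf V) (hVQ : V ≤ Q) : normalizer (Q : Set G) ≤ Gam S :=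
  le_iSup_of_le (f := fun Q : {Q : Subgroup G // Q ≤ (S : Subgroup G) ∧ ¬ Cfsg.PRankLE 2 1 Q} => Subgroup.normalizer ((Q : Subgroup G) : Set G))
    ⟨Q, hQ, (rank_iff Q).2 ⟨V, hV, hVQ⟩⟩ le_rfl

theorem key (n : ℕ) : ∀ (x : G) (V : Subgroup G), kf V → V ≤ S → V ≤ ((x • S : Sylow 2 G) : Subgroup G) →
    Nat.card S - Nat.card ((S : Subgroup G) ⊓ (x • S : Sylow 2 G) : Subgroup G) = n → x ∈ Gam S := by
  induction n using Nat.strong_induction_on with | _ n ih => ?_
  intro x V hV hVS hVx hn
  set D := (S : Subgroup G) ⊓ (x • S : Sylow 2 G) with hD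
  have hVD : V ≤ D := le_inf hVS hVx
  have hDS : D ≤ S := inf_le_left
  have hDx : D ≤ (x • S : Sylow 2 G) := inf_le_right
  have hN : normalizer (D : Set G) ≤ Gam S := norm_le S hDS hV hVD
  have hcS : ∀ P : Sylow 2 G, Nat.card P = Nat.card S := fun P => Nat.card_congr (Sylow.equiv P S).toEquiv
  by_cases hDeq : D = S
  · have h1 : (S : Subgroup G) ≤ (x • S : Sylow 2 G) := by rw [← hDeq]; exact hDx
    have h2 : (x • S : Sylow 2 G) = S := by
      apply Sylow.ext
      exact (Subgroup.eq_of_le_of_card_ge h1 (hcS _).le).symm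
    have h3 := Sylow.smul_eq_iff_mem_normalizer.1 h2
    exact norm_le S le_rfl hV hVS h3
  have hlt : D < S := lt_of_le_of_ne hDS hDeq
  have hcD : Nat.card D < Nat.card S := by
    have := Subgroup.card_le_of_le hDS
    rcases lt_or_eq_of_le this with h | h
    · exact h
    · exact absurd (Subgroup.eq_of_le_of_card_ge hDS h.ge) hDeq
  have hlt2 : D < (x • S : Sylow 2 G) := by
    refine lt_of_le_of_ne hDx ?_
    intro h
    have h1 : Nat.card D = Nat.card S := by
      rw [h]; exact hcS _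
    omega
  have hA := H1.Schmidt.lt_inf_normalizer hlt S.2.isNilpotent
  have hB := H1.Schmidt.lt_inf_normalizer hlt2 (x • S : Sylow 2 G).2.isNilpotent
  set A := (S : Subgroup G) ⊓ normalizer (D : Set G) with hAdef
  set B := ((x • S : Sylow 2 G) : Subgroup G) ⊓ normalizer (D : Set G) with hBdef
  have hcA : Nat.card D < Nat.card A := by
    have := Subgroup.card_le_of_le hA.le
    rcases lt_or_eq_of_le this with h | h
    · exact h
    · exact absurd (Subgroup.eq_of_le_of_card_ge hA.le h.ge) hA.ne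
  have hcB : Nat.card D < Nat.card B := by
    have := Subgroup.card_le_of_le hB.le
    rcases lt_or_eq_of_le this with h | h
    · exact h
    · exact absurd (Subgroup.eq_of_le_of_card_ge hB.le h.ge) hB.ne
  obtain ⟨h, hh, T, hAT, hBT⟩ := H2.Basic.exists_conj_common_sylow (normalizer (D : Set G)) A B
    (S.2.to_le inf_le_left) ((x • S : Sylow 2 G).2.to_le inf_le_left) inf_le_right inf_le_right
  obtain ⟨y, rfl⟩ := MulAction.exists_smul_eq G S T
  have hy : y ∈ Gam S := by
    have h1 : A ≤ (S : Subgroup G) ⊓ (y • S : Sylow 2 G) := le_inf inf_le_left hAT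
    have h2 := Subgroup.card_le_of_le h1
    exact ih _ (by omega) y V hV hVS (hVD.trans (hA.le.trans hAT)) rfl
  have hw : y⁻¹ * h * x ∈ Gam S := by
    have hmem : ∀ b ∈ B, y⁻¹ * h * b * (y⁻¹ * h)⁻¹ ∈ (S : Subgroup G) ⊓ ((y⁻¹ * h * x) • S : Sylow 2 G) := by
      intro b hb
      refine ⟨?_, ?_⟩
      · have h1 : h * b * h⁻¹ ∈ y • S := hBT b hb
        rw [H2.Basic.mem_smul_sylow] at h1
        have e : y⁻¹ * h * b * (y⁻¹ * h)⁻¹ = y⁻¹ * (h * b * h⁻¹) * y := by group
        rw [e]; exact h1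
      · show _ ∈ (y⁻¹ * h * x) • S
        rw [H2.Basic.mem_smul_sylow]
        have h1 : b ∈ x • S := hb.1
        rw [H2.Basic.mem_smul_sylow] at h1
        have e : (y⁻¹ * h * x)⁻¹ * (y⁻¹ * h * b * (y⁻¹ * h)⁻¹) * (y⁻¹ * h * x) = x⁻¹ * b * x := by group
        rw [e]; exact h1
    have h1 : B.map (MulAut.conj (y⁻¹ * h)).toMonoidHom ≤ (S : Subgroup G) ⊓ ((y⁻¹ * h * x) • S : Sylow 2 G) := by
      rintro _ ⟨b, hb, rfl⟩
      exact hmem b hb
    have h2 := Subgroup.card_le_of_le h1
    have h3 : Nat.card (B.map (MulAut.conj (y⁻¹ * h)).toMonoidHom) = Nat.card B :=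
      Subgroup.card_map_of_injective (MulAut.conj (y⁻¹ * h)).injective
    have hVB : V ≤ B := hVD.trans hB.le
    have h4 : V.map (MulAut.conj (y⁻¹ * h)).toMonoidHom ≤ B.map (MulAut.conj (y⁻¹ * h)).toMonoidHom := Subgroup.map_mono hVB
    exact ih _ (by omega) (y⁻¹ * h * x) (V.map (MulAut.conj (y⁻¹ * h)).toMonoidHom)
      (kf_map _ (MulAut.conj (y⁻¹ * h)).injective hV) (h4.trans (h1.trans inf_le_left)) (h4.trans (h1.trans inf_le_right)) rfl
  have e : x = h⁻¹ * y * (y⁻¹ * h * x) := by group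
  rw [e]
  exact mul_mem (mul_mem (inv_mem (hN hh)) hy) hw

theorem key' {x y : G} {V : Subgroup G} (hV : kf V) (h1 : V ≤ ((x • S : Sylow 2 G) : Subgroup G)) (h2 : V ≤ ((y • S : Sylow 2 G) : Subgroup G))
    (hx : x ∈ Gam S) : y ∈ Gam S := by
  have h3 : x⁻¹ * y ∈ Gam S := by
    refine key S _ (x⁻¹ * y) (V.map (MulAut.conj x⁻¹).toMonoidHom) (kf_map _ (MulAut.conj x⁻¹).injective hV) ?_ ?_ rfl
    · rintro _ ⟨v, hv, rfl⟩
      have h4 : v ∈ x • S := h1 hv
      rw [H2.Basic.mem_smul_sylow] at h4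
      change x⁻¹ * v * x⁻¹⁻¹ ∈ S
      rw [inv_inv]; exact h4
    · rintro _ ⟨v, hv, rfl⟩
      have h4 : v ∈ y • S := h2 hv
      rw [H2.Basic.mem_smul_sylow] at h4
      change x⁻¹ * v * x⁻¹⁻¹ ∈ (x⁻¹ * y) • S
      rw [H2.Basic.mem_smul_sylow]
      have e : (x⁻¹ * y)⁻¹ * (x⁻¹ * v * x⁻¹⁻¹) * (x⁻¹ * y) = y⁻¹ * v * y := by group
      rw [e]; exact h4
  have e : y = x * (x⁻¹ * y) := by group
  rw [e]; exact mul_mem hx h3

end

/-- Let G be a finite group of 2-rank at least 2 and S a Sylow 2-subgroup whose commuting graph of Klein four-subgroups is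
connected. Then the commuting graph of Klein four-subgroups of G is disconnected if and only if the 2-generated core — the
subgroup generated by the normalizers N_G(Q) of the subgroups Q of S that contain a Klein four-group — is a proper
subgroup of G. -/
theorem result {G : Type*} [Group G] [Finite G] (h2 : ¬ Cfsg.PRankLE 2 1 G)
    (S : Sylow 2 G) (hS : Cfsg.IsFourConnected (S : Subgroup G)) :
    ¬ Cfsg.IsFourConnected G ↔
      (⨆ Q : {Q : Subgroup G // Q ≤ (S : Subgroup G) ∧ ¬ Cfsg.PRankLE 2 1 Q},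
          Subgroup.normalizer ((Q : Subgroup G) : Set G)) ≠ ⊤ := by

  classical
  haveI : Fact (Nat.Prime 2) := ⟨Nat.prime_two⟩
  change ¬ Cfsg.IsFourConnected G ↔ Gam S ≠ ⊤
  rw [not_iff_not]
  -- a four-group in S
  obtain ⟨V0, hV0, hV0S⟩ : ∃ V : Subgroup G, kf V ∧ V ≤ S := by
    have h3 : ¬ Cfsg.PRankLE 2 1 (⊤ : Subgroup G) := by
      intro h
      apply h2
      intro A hAc hA
      have h4 := h (A.subgroupOf ⊤) ⟨⟨fun a b => Subtype.ext (Subtype.ext (congrArg (fun z : A => (z : G)) (hAc.is_comm.comm (⟨((a : (⊤ : Subgroup G)) : G), a.2⟩ : A) (⟨((b : (⊤ : Subgroup G)) : G), b.2⟩ : A))))⟩⟩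
        (fun a ha => Subtype.ext (hA _ ha))
      rwa [Nat.card_congr (Subgroup.subgroupOfEquivOfLe (le_top : A ≤ ⊤)).toEquiv] at h4
    obtain ⟨V, hV, -⟩ := (rank_iff _).1 h3
    have hVp : IsPGroup 2 V := IsPGroup.of_card (n := 2) (by rw [hV.1]; norm_num)
    obtain ⟨T, hT⟩ := hVp.exists_le_sylow
    obtain ⟨x, hx⟩ := MulAction.exists_smul_eq G T S
    refine ⟨V.map (MulAut.conj x).toMonoidHom, kf_map _ (MulAut.conj x).injective hV, ?_⟩
    rintro _ ⟨v, hv, rfl⟩
    change x * v * x⁻¹ ∈ S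
    rw [← hx, H2.Basic.mem_smul_sylow]
    have e : x⁻¹ * (x * v * x⁻¹) * x = v := by group
    rw [e]; exact hT hv
  have hconjS : ∀ (V : Subgroup G), kf V → ∃ x : G, V ≤ ((x • S : Sylow 2 G) : Subgroup G) := by
    intro V hV
    have hVp : IsPGroup 2 V := IsPGroup.of_card (n := 2) (by rw [hV.1]; norm_num)
    obtain ⟨T, hT⟩ := hVp.exists_le_sylow
    obtain ⟨x, hx⟩ := MulAction.exists_smul_eq G S T
    exact ⟨x, by rw [hx]; exact hT⟩
  constructor
  · -- connected implies Gam = top
    intro hc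
    rw [eq_top_iff]
    intro g _
    have hpath := hc V0 (V0.map (MulAut.conj g).toMonoidHom) ((kf_iff _).2 hV0) ((kf_iff _).2 (kf_map _ (MulAut.conj g).injective hV0))
    have hex : ∀ W : Subgroup G, Relation.ReflTransGen R V0 W → kf W ∧ ∃ x ∈ Gam S, W ≤ ((x • S : Sylow 2 G) : Subgroup G) := by
      intro W hW
      induction hW with
      | refl => exact ⟨hV0, 1, one_mem _, by rw [one_smul]; exact hV0S⟩
      | @tail W1 W2 _ h2 ih =>
        obtain ⟨hW1, x, hx, hxW⟩ := ih
        have hW2 : kf W2 := (kf_iff _).1 h2.2.1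
        refine ⟨hW2, ?_⟩
        have hp : IsPGroup 2 (W1 ⊔ W2 : Subgroup G) := by
          apply IsPGroup.to_sup_of_normal_right'
          · exact IsPGroup.of_card (n := 2) (by rw [hW1.1]; norm_num)
          · exact IsPGroup.of_card (n := 2) (by rw [hW2.1]; norm_num)
          · have : W1 ≤ centralizer (W2 : Set G) := by
              intro a ha
              rw [mem_centralizer_iff]
              intro b hb
              exact (h2.2.2 a ha b hb).symm
            exact this.trans (centralizer_le_normalizer _)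
        obtain ⟨T, hT⟩ := hp.exists_le_sylow
        obtain ⟨y, rfl⟩ := MulAction.exists_smul_eq G S T
        refine ⟨y, key' S hW1 hxW (le_sup_left.trans hT) hx, le_sup_right.trans hT⟩
    obtain ⟨hW, x, hx, hxW⟩ := hex _ hpath
    refine key' S hW hxW ?_ hx
    rintro _ ⟨v, hv, rfl⟩
    change g * v * g⁻¹ ∈ g • S
    rw [H2.Basic.mem_smul_sylow]
    have e : g⁻¹ * (g * v * g⁻¹) * g = v := by group
    rw [e]; exact hV0S hv
  · -- Gam = top implies connected
    intro htop
    have hSc : ∀ V : Subgroup G, kf V → V ≤ S → Relation.ReflTransGen R V0 V := by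
      intro V hV hVS
      have h1 := hS (V0.subgroupOf S) (V.subgroupOf S) ((kf_iff _).2 (kf_subgroupOf hV0S hV0)) ((kf_iff _).2 (kf_subgroupOf hVS hV))
      have h3 := T_map (S : Subgroup G).subtype (Subgroup.subtype_injective _) h1
      rwa [Subgroup.map_subgroupOf_eq_of_le hV0S, Subgroup.map_subgroupOf_eq_of_le hVS] at h3
    let H : Subgroup G :=
      { carrier := {g | Relation.ReflTransGen R V0 (V0.map (MulAut.conj g).toMonoidHom)}
        one_mem' := by
          have : V0.map (MulAut.conj (1 : G)).toMonoidHom = V0 := by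
            ext x
            rw [H24.Tools.mem_map_conj]; simp
          change Relation.ReflTransGen R V0 (V0.map (MulAut.conj (1 : G)).toMonoidHom)
          rw [this]
        mul_mem' := by
          intro a b ha hb
          change Relation.ReflTransGen R V0 (V0.map (MulAut.conj (a * b)).toMonoidHom)
          have h3 := T_map (MulAut.conj a).toMonoidHom (MulAut.conj a).injective hb
          have : (V0.map (MulAut.conj b).toMonoidHom).map (MulAut.conj a).toMonoidHom = V0.map (MulAut.conj (a * b)).toMonoidHom := by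
            ext x
            rw [H24.Tools.mem_map_conj, H24.Tools.mem_map_conj, H24.Tools.mem_map_conj]
            have e : b⁻¹ * (a⁻¹ * x * a) * b = (a * b)⁻¹ * x * (a * b) := by group
            rw [e]
          rw [this] at h3
          exact Relation.ReflTransGen.trans ha h3
        inv_mem' := by
          intro a ha
          change Relation.ReflTransGen R V0 (V0.map (MulAut.conj (a⁻¹)).toMonoidHom)
          have h3 := T_map (MulAut.conj a⁻¹).toMonoidHom (MulAut.conj a⁻¹).injective ha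
          have : (V0.map (MulAut.conj a).toMonoidHom).map (MulAut.conj a⁻¹).toMonoidHom = V0 := by
            ext x
            rw [H24.Tools.mem_map_conj, H24.Tools.mem_map_conj]
            have e : a⁻¹ * (a⁻¹⁻¹ * x * a⁻¹) * a = x := by group
            rw [e]
          rw [this] at h3
          exact T_symm h3 }
    have hH : H = ⊤ := by
      rw [eq_top_iff, ← htop]
      apply iSup_le
      rintro ⟨Q, hQS, hQr⟩
      intro n hn
      obtain ⟨V, hV, hVQ⟩ := (rank_iff Q).1 hQr
      have h3 := T_map (MulAut.conj n).toMonoidHom (MulAut.conj n).injective (hSc V hV (hVQ.trans hQS))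
      have h4 : V.map (MulAut.conj n).toMonoidHom ≤ Q := by
        rintro _ ⟨v, hv, rfl⟩
        exact (mem_normalizer_iff.1 hn v).1 (hVQ hv)
      have h5 := hSc _ (kf_map _ (MulAut.conj n).injective hV) (h4.trans hQS)
      exact Relation.ReflTransGen.trans h5 (T_symm h3)
    have hall : ∀ V : Subgroup G, kf V → Relation.ReflTransGen R V0 V := by
      intro V hV
      obtain ⟨x, hx⟩ := hconjS V hV
      have h3 : V.map (MulAut.conj x⁻¹).toMonoidHom ≤ S := by
        rintro _ ⟨v, hv, rfl⟩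
        have h4 : v ∈ x • S := hx hv
        rw [H2.Basic.mem_smul_sylow] at h4
        change x⁻¹ * v * x⁻¹⁻¹ ∈ S
        rw [inv_inv]; exact h4
      have h4 := hSc _ (kf_map _ (MulAut.conj x⁻¹).injective hV) h3
      have h5 := T_map (MulAut.conj x).toMonoidHom (MulAut.conj x).injective h4
      have : (V.map (MulAut.conj x⁻¹).toMonoidHom).map (MulAut.conj x).toMonoidHom = V := by
        ext y
        rw [H24.Tools.mem_map_conj, H24.Tools.mem_map_conj]
        have e : x⁻¹⁻¹ * (x⁻¹ * y * x) * x⁻¹ = y := by group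
        rw [e]
      rw [this] at h5
      have h6 : x ∈ H := by rw [hH]; trivial
      exact Relation.ReflTransGen.trans h6 h5
    intro U V hU hV
    exact Relation.ReflTransGen.trans (T_symm (hall U ((kf_iff _).1 hU))) (hall V ((kf_iff _).1 hV))


end Cfsg.Agent.S0520
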