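import Cfsg.Statements.S0521
import Cfsg.Agent.H24_Quad
import Cfsg.Agent.H22_PSolv
import Cfsg.Agent.H2_PGroup
import Cfsg.Agent.S0029
-- import your own Cfsg.Agent.* helpers here

set_option autoImplicit false
open Cfsg

namespace Cfsg.Agent.S0521

open scoped commutatorElement

theorem key {p : ℕ} [hp : Fact p.Prime] (hp2 : p ≠ 2) {Y : Type*} [Group Y] [Finite Y] (hY : Odd (Nat.card Y))
    (hsol : Group.IsSolvable Y) (h1 : Cfsg.pPrimeCore p Y = ⊥) {T : Type*} [Group T] (hT : IsPGroup p T)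
    (hcyc : IsCyclic (commutator T)) (σ : T →* Y) (hQ : Cfsg.pCore p Y ≤ σ.range) : σ.range ≤ Cfsg.pCore p Y := by
  classical
  set Q := Cfsg.pCore p Y with hQd
  have hQn : Q.Normal := inferInstance
  have hQp : IsPGroup p Q := H11.Cores.pCore_isPGroup p
  have hCQ : Subgroup.centralizer (Q : Set Y) ≤ Q :=
    H22.PSolv.centralizer_pCore_le (H22.PSolv.isPSolvable_of_isSolvable hsol) h1
  set F : Subgroup Y := (frattini Q).map Q.subtype with hF
  have hFn : F.Normal := H11.Cores.map_subtype_normal_of_characteristic Q (frattini Q)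
  have hFQ : F ≤ Q := by rw [hF]; exact Subgroup.map_subtype_le _
  have hFp : IsPGroup p F := hQp.to_le hFQ
  set μ := QuotientGroup.mk' F with hμ
  have hμs : Function.Surjective μ := QuotientGroup.mk'_surjective F
  have hμk : ∀ y, μ y = 1 ↔ y ∈ F := fun y => by
    rw [hμ, ← MonoidHom.mem_ker, QuotientGroup.ker_mk']
  set V : Subgroup (Y ⧸ F) := Q.map μ with hV
  have hVn : V.Normal := hQn.map μ hμs
  have hVmem : ∀ y, μ y ∈ V ↔ y ∈ Q := by
    intro y
    constructor
    · rintro ⟨q, hq, hqy⟩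
      have h2 : μ (q⁻¹ * y) = 1 := by rw [map_mul, map_inv, hqy, inv_mul_cancel]
      have h3 := hFQ ((hμk _).1 h2)
      have h4 := Q.mul_mem hq h3
      rwa [mul_inv_cancel_left] at h4
    · intro h; exact ⟨y, h, rfl⟩
  have hVel : Cfsg.IsElementaryAbelian p V := by
    refine ⟨⟨⟨?_⟩⟩, ?_⟩
    · rintro ⟨_, a, ha, rfl⟩ ⟨_, b, hb, rfl⟩
      apply Subtype.ext
      show μ a * μ b = μ b * μ a
      rw [← map_mul, ← map_mul, eq_comm, ← inv_mul_eq_one, ← map_inv, ← map_mul, hμk]
      have h2 : ⁅(⟨a, ha⟩ : Q)⁻¹, (⟨b, hb⟩ : Q)⁻¹⁆ ∈ frattini Q := H2.PGroup.commutator_le_frattini hQp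
        (Subgroup.commutator_mem_commutator (Subgroup.mem_top _) (Subgroup.mem_top _))
      refine ⟨_, h2, ?_⟩
      show a⁻¹ * b⁻¹ * a⁻¹⁻¹ * b⁻¹⁻¹ = _
      group
    · rintro _ ⟨a, ha, rfl⟩
      rw [← map_pow, hμk]
      exact ⟨(⟨a, ha⟩ : Q) ^ p, H2.PGroup.pow_mem_frattini hQp _, rfl⟩
  have hVp : IsPGroup p V := hQp.map μ
  -- the centralizer of `V`
  have hCV : ∀ g : Y ⧸ F, g ∈ Subgroup.centralizer (V : Set (Y ⧸ F)) → g ∈ V := by
    set K := (Subgroup.centralizer (V : Set (Y ⧸ F))).comap μ with hK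
    have hKn : K.Normal := by
      haveI : (Subgroup.centralizer (V : Set (Y ⧸ F))).Normal := inferInstance
      exact Subgroup.Normal.comap inferInstance μ
    have hKp : IsPGroup p K := by
      have : ∀ r : ℕ, r.Prime → r ∣ Nat.card K → r = p := by
        intro r hr hrK
        by_contra hrp
        haveI : Fact r.Prime := ⟨hr⟩
        obtain ⟨k, hk⟩ := exists_prime_orderOf_dvd_card' r hrK
        have hk' : orderOf k.1 = r := by rw [Subgroup.orderOf_coe]; exact hk
        have hle : Subgroup.zpowers k.1 ≤ K := by rw [Subgroup.zpowers_le]; exact k.2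
        have hcen := Cfsg.Agent.S0029.result (Subgroup.zpowers k.1) Q (by
          rw [Subgroup.normalizer_eq_top (H := Q)]; exact le_top) (by
          rw [Nat.card_zpowers, hk']
          obtain ⟨n, hn⟩ := IsPGroup.iff_card.1 (hQp.to_subgroup (frattini Q))
          rw [hn]
          exact ((Nat.coprime_primes hr hp.out).2 hrp).pow_right n) (by
          intro a ha q hq
          rw [← hF, ← hμk, map_mul, map_mul, map_mul, map_inv, map_inv]
          have h2 := Subgroup.mem_centralizer_iff.1 (hle ha) (μ q) ⟨q, hq, rfl⟩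
          rw [← h2, mul_assoc, mul_assoc]
          group)
        have h3 : k.1 ∈ Q := hCQ (hcen (Subgroup.mem_zpowers _))
        obtain ⟨n, hn⟩ := IsPGroup.iff_orderOf.1 hQp ⟨k.1, h3⟩
        rw [Subgroup.orderOf_mk, hk'] at hn
        have h4 : r ∣ p ^ n := ⟨1, by rw [mul_one]; exact hn.symm⟩
        exact hrp ((Nat.prime_dvd_prime_iff_eq hr hp.out).1 (hr.dvd_of_dvd_pow h4))
      apply IsPGroup.of_card (n := (Nat.card K).primeFactorsList.length)
      exact Nat.eq_prime_pow_of_unique_prime_dvd Nat.card_pos.ne' (fun {d} hd hdK => this d hd hdK)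
    have hKQ : K ≤ Q := H11.Cores.le_pCore p hKp
    intro g hg
    obtain ⟨y, rfl⟩ := hμs g
    exact (hVmem y).2 (hKQ hg)
  -- the `p`-core of `G/V`
  have hcoreV : Cfsg.pCore p ((Y ⧸ F) ⧸ V) = ⊥ := by
    set ψ := (QuotientGroup.mk' V).comp μ with hψ
    have hψs : Function.Surjective ψ := (QuotientGroup.mk'_surjective V).comp hμs
    have hψk : ψ.ker = Q := by
      ext y
      rw [MonoidHom.mem_ker, hψ, MonoidHom.comp_apply, ← MonoidHom.mem_ker, QuotientGroup.ker_mk', hVmem]
    have h2 : (Cfsg.pCore p ((Y ⧸ F) ⧸ V)).comap ψ ≤ Q := by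
      haveI : ((Cfsg.pCore p ((Y ⧸ F) ⧸ V)).comap ψ).Normal := Subgroup.Normal.comap inferInstance ψ
      apply H11.Cores.le_pCore p
      apply IsPGroup.comap_of_ker_isPGroup (H11.Cores.pCore_isPGroup p)
      rw [hψk]; exact hQp
    rw [eq_bot_iff]
    intro x hx
    obtain ⟨y, rfl⟩ := hψs x
    have h3 : y ∈ Q := h2 hx
    rw [Subgroup.mem_bot, ← MonoidHom.mem_ker, hψk]
    exact h3
  rintro _ ⟨t, rfl⟩
  by_contra hs
  set τ := μ.comp σ with hτ
  -- the quadratic action
  set W : Subgroup (Y ⧸ F) := V ⊓ ⁅τ.range, τ.range⁆ with hW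
  have hVT : V ≤ τ.range := by
    rintro _ ⟨q, hq, rfl⟩
    obtain ⟨t, ht⟩ := hQ hq
    exact ⟨t, by rw [hτ, MonoidHom.comp_apply, ht]⟩
  have hWcyc : IsCyclic W := by
    have h2 : ⁅τ.range, τ.range⁆ = (commutator T).map τ := by
      rw [commutator_def, Subgroup.map_commutator, ← MonoidHom.range_eq_map]
    haveI : IsCyclic ((commutator T).map τ) :=
      isCyclic_of_surjective (τ.subgroupMap (commutator T)) (τ.subgroupMap_surjective (commutator T))
    haveI : IsCyclic (⁅τ.range, τ.range⁆ : Subgroup (Y ⧸ F)) := by rw [h2]; infer_instance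
    exact isCyclic_of_injective (Subgroup.inclusion (inf_le_right : W ≤ ⁅τ.range, τ.range⁆))
      (Subgroup.inclusion_injective _)
  have hWcard : Nat.card W ∣ p := by
    rw [← IsCyclic.exponent_eq_card]
    apply Monoid.exponent_dvd_of_forall_pow_eq_one
    rintro ⟨w, hw⟩
    exact Subtype.ext (hVel.2 w hw.1)
  have hWT : W ≤ τ.range := inf_le_left.trans hVT
  have hTp : IsPGroup p τ.range := IsPGroup.of_surjective hT τ.rangeRestrict τ.rangeRestrict_surjective
  have hWn : τ.range ≤ Subgroup.normalizer (W : Set (Y ⧸ F)) := by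
    rw [hW]
    intro x hx
    rw [Subgroup.mem_normalizer_iff]
    intro y
    have h3 : ∀ x ∈ τ.range, ∀ y ∈ V ⊓ ⁅τ.range, τ.range⁆, x * y * x⁻¹ ∈ V ⊓ ⁅τ.range, τ.range⁆ := by
      intro x hx y hy
      refine ⟨hVn.conj_mem y hy.1 x, ?_⟩
      have h4 : x * y * x⁻¹ = ⁅x, y⁆ * y := by rw [commutatorElement_def]; group
      rw [h4]
      exact Subgroup.mul_mem _ (Subgroup.commutator_mem_commutator hx ((hVT hy.1))) hy.2
    constructor
    · exact h3 x hx y
    · intro h
      have h4 := h3 x⁻¹ (Subgroup.inv_mem _ hx) _ h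
      have h5 : x⁻¹ * (x * y * x⁻¹) * x⁻¹⁻¹ = y := by group
      rwa [h5] at h4
  have hWcen : ∀ w ∈ W, ∀ x ∈ τ.range, x * w = w * x := by
    rcases (Nat.dvd_prime hp.out).1 hWcard with h2 | h2
    · intro w hw x _
      rw [Subgroup.card_eq_one] at h2
      rw [h2, Subgroup.mem_bot] at hw
      rw [hw, mul_one, one_mul]
    · haveI : (W.subgroupOf τ.range).Normal := (Subgroup.normal_subgroupOf_iff_le_normalizer hWT).2 hWn
      have h3 : W.subgroupOf τ.range ≠ ⊥ := by
        intro h
        rw [Subgroup.subgroupOf_eq_bot, disjoint_iff, inf_eq_left.2 hWT] at h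
        rw [h, Subgroup.card_bot] at h2
        exact hp.out.one_lt.ne h2
      have h4 := H2.PGroup.inf_center_ne_bot hTp h3
      have h5 : Nat.card (W.subgroupOf τ.range) = p := by
        rw [← h2]; exact Nat.card_congr (Subgroup.subgroupOfEquivOfLe hWT).toEquiv
      have h6 : W.subgroupOf τ.range ⊓ Subgroup.center τ.range = W.subgroupOf τ.range := by
        apply Subgroup.eq_of_le_of_card_ge inf_le_left
        have h7 : Nat.card ↥(W.subgroupOf τ.range ⊓ Subgroup.center τ.range) ∣ Nat.card (W.subgroupOf τ.range) :=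
          Subgroup.card_dvd_of_le inf_le_left
        rw [h5] at h7 ⊢
        rcases (Nat.dvd_prime hp.out).1 h7 with h8 | h8
        · exact absurd (Subgroup.card_eq_one.1 h8) h4
        · exact h8.ge
      intro w hw x hx
      have h7 : (⟨w, hWT hw⟩ : τ.range) ∈ W.subgroupOf τ.range ⊓ Subgroup.center τ.range := by
        rw [h6]; exact hw
      exact congrArg Subtype.val (Subgroup.mem_center_iff.1 h7.2 ⟨x, hx⟩)
  have hquad : ⁅⁅V, Subgroup.zpowers (τ t)⁆, Subgroup.zpowers (τ t)⁆ = ⊥ := by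
    have hz : Subgroup.zpowers (τ t) ≤ τ.range := by rw [Subgroup.zpowers_le]; exact ⟨t, rfl⟩
    have h2 : ⁅V, Subgroup.zpowers (τ t)⁆ ≤ W :=
      le_inf (Subgroup.commutator_le_left V _) (Subgroup.commutator_mono hVT hz)
    rw [eq_bot_iff]
    refine (Subgroup.commutator_mono h2 hz).trans ?_
    rw [Subgroup.commutator_le]
    intro w hw x hx
    rw [Subgroup.mem_bot, commutatorElement_eq_one_iff_mul_comm]
    exact (hWcen w hw x hx).symm
  obtain ⟨Z, φ, -, hφ, -⟩ := H18.QPair.sec_of_quad (V := V) (X := ⊤) hp2 hVel (by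
      rw [Subgroup.normalizer_eq_top (H := V)]) ((QuotientGroup.mk' V).comp (⊤ : Subgroup (Y ⧸ F)).subtype) (by
      intro y
      obtain ⟨x, rfl⟩ := QuotientGroup.mk'_surjective V y
      exact ⟨⟨x, trivial⟩, rfl⟩) (by
      intro x
      rw [MonoidHom.comp_apply, ← MonoidHom.mem_ker, QuotientGroup.ker_mk']
      constructor
      · intro hx
        rw [Subgroup.mem_centralizer_iff]
        intro y hy
        haveI := hVel.1
        exact congrArg Subtype.val (mul_comm' (⟨y, hy⟩ : V) ⟨_, hx⟩)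
      · intro hx
        exact hCV _ hx) (a := τ t) trivial hquad (by
      rw [hcoreV, Subgroup.mem_bot, MonoidHom.comp_apply, ← MonoidHom.mem_ker, QuotientGroup.ker_mk']
      intro h
      exact hs ((hVmem _).1 h))
  have h2 := H24.Quad.even_of_surj hp2 Z φ hφ
  have h3 : Nat.card (Y ⧸ F) ∣ Nat.card Y := Subgroup.card_quotient_dvd_card F
  have h4 := h2.trans h3
  rw [Nat.odd_iff] at hY
  omega

/-- Let X be a finite solvable group of odd order, p a prime and S a Sylow p-subgroup of X whose commutator subgroup is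
cyclic. Then the product of the largest normal subgroup of X of order prime to p with S is a normal subgroup of X. -/
theorem result {X : Type*} [Group X] [Finite X] [Group.IsSolvable X]
    (hX : Odd (Nat.card X)) (p : ℕ) [Fact p.Prime] (S : Sylow p X) (hS : IsCyclic (commutator (S : Subgroup X))) :
    (Cfsg.pPrimeCore p X ⊔ (S : Subgroup X)).Normal := by
  classical
  set N := Cfsg.pPrimeCore p X with hN
  set μ := QuotientGroup.mk' N with hμ
  have hμs : Function.Surjective μ := QuotientGroup.mk'_surjective N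
  set T := S.mapSurjective hμs with hT
  have hTc : (T : Subgroup (X ⧸ N)) = (S : Subgroup X).map μ := rfl
  have hQT : Cfsg.pCore p (X ⧸ N) ≤ (T : Subgroup (X ⧸ N)) := by
    have h1 : IsPGroup p ((T : Subgroup (X ⧸ N)) ⊔ Cfsg.pCore p (X ⧸ N) : Subgroup (X ⧸ N)) :=
      IsPGroup.to_sup_of_normal_right T.isPGroup' (H11.Cores.pCore_isPGroup p)
    rw [← T.is_maximal' h1 le_sup_left]
    exact le_sup_right
  have hle : (T : Subgroup (X ⧸ N)) ≤ Cfsg.pCore p (X ⧸ N) := by
    by_cases hp2 : p = 2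
    · subst hp2
      have h1 : Nat.card T = 1 := by
        obtain ⟨n, hn⟩ := IsPGroup.iff_card.1 T.isPGroup'
        rcases Nat.eq_zero_or_pos n with h0 | h0
        · rw [h0, pow_zero] at hn; exact hn
        · exfalso
          have h2 : 2 ∣ Nat.card X := by
            refine (dvd_pow_self 2 h0.ne').trans ?_
            rw [← hn]
            exact (Subgroup.card_subgroup_dvd_card _).trans (Subgroup.card_quotient_dvd_card N)
          rw [Nat.odd_iff] at hX
          omega
      rw [Subgroup.card_eq_one.1 h1]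
      exact bot_le
    · have hr : (μ.comp (S : Subgroup X).subtype).range = (T : Subgroup (X ⧸ N)) := by
        rw [MonoidHom.range_comp, Subgroup.range_subtype]; rfl
      have h2 := key hp2 (Y := X ⧸ N) (Odd.of_dvd_nat hX (Subgroup.card_quotient_dvd_card N)) inferInstance
        (H11.Cores.pPrimeCore_quotient p) S.isPGroup' hS (μ.comp (S : Subgroup X).subtype) (by rw [hr]; exact hQT)
      rw [hr] at h2
      exact h2
  have heq : (T : Subgroup (X ⧸ N)) = Cfsg.pCore p (X ⧸ N) := le_antisymm hle hQT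
  have h3 : N ⊔ (S : Subgroup X) = (T : Subgroup (X ⧸ N)).comap μ := by
    rw [hTc, Subgroup.comap_map_eq, hμ, QuotientGroup.ker_mk', sup_comm]
  rw [h3, heq]
  exact Subgroup.Normal.comap inferInstance μ

end Cfsg.Agent.S0521
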