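import Cfsg.Statements.S0522
import Cfsg.Agent.H12_Trans3
import Cfsg.Agent.H18_Off4
import Cfsg.Agent.H22_Basic

set_option autoImplicit false
open Cfsg

namespace Cfsg.Agent.S0522

/-- Transitivity Theorem (odd-order setting). Let X be a finite group of odd order in which the normalizer of every
nontrivial p-subgroup is solvable, P a Sylow p-subgroup, and B an abelian subgroup of P, normalized by P, with
C_P(B) = B and containing an elementary abelian subgroup of order p^3. Then for every prime q ≠ p, any two q-subgroups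
that are maximal among the q-subgroups normalized by B are conjugate by an element of the centralizer of B. -/
theorem result {X : Type*} [Group X] [Finite X] (hX : Odd (Nat.card X)) (p : ℕ)
    [Fact p.Prime] (hloc : ∀ T : Subgroup X, IsPGroup p T → T ≠ ⊥ → Group.IsSolvable (Subgroup.normalizer (T : Set X)))
    (P : Sylow p X) (B : Subgroup X) (hBP : B ≤ (P : Subgroup X))
    (hBn : ∀ x ∈ (P : Subgroup X), ∀ b ∈ B, x * b * x⁻¹ ∈ B) (hBa : IsMulCommutative B)
    (hBc : (P : Subgroup X) ⊓ Subgroup.centralizer (B : Set X) = B)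
    (hB3 : ∃ E : Subgroup X, E ≤ B ∧ (∀ e ∈ E, e ^ p = 1) ∧ p ^ 3 ≤ Nat.card E)
    (q : ℕ) [Fact q.Prime] (hqp : q ≠ p) (Q₁ Q₂ : Subgroup X)
    (h₁ : IsPGroup q Q₁ ∧ B ≤ Subgroup.normalizer (Q₁ : Set X) ∧
      ∀ R : Subgroup X, IsPGroup q R → B ≤ Subgroup.normalizer (R : Set X) → Q₁ ≤ R → R = Q₁)
    (h₂ : IsPGroup q Q₂ ∧ B ≤ Subgroup.normalizer (Q₂ : Set X) ∧
      ∀ R : Subgroup X, IsPGroup q R → B ≤ Subgroup.normalizer (R : Set X) → Q₂ ≤ R → R = Q₂) :
    ∃ c ∈ Subgroup.centralizer (B : Set X), Q₂ = Q₁.map (MulAut.conj c).toMonoidHom := by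
  classical
  have hp2 : p ≠ 2 := by
    rintro rfl
    obtain ⟨E, hEB, -, hE⟩ := hB3
    have h1 : Nat.card E ∣ Nat.card X := Subgroup.card_subgroup_dvd_card E
    have h2 : Odd (Nat.card E) := Odd.of_dvd_nat hX h1
    have h3 : IsPGroup 2 E := P.isPGroup'.to_le (hEB.trans hBP)
    obtain ⟨k, hk⟩ := IsPGroup.iff_card.1 h3
    rcases Nat.eq_zero_or_pos k with h4 | h4
    · rw [hk, h4] at hE; norm_num at hE
    · rw [hk] at h2
      exact absurd h2 (Nat.not_odd_iff_even.2 ((even_two.pow_of_ne_zero h4.ne')))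
  have hBpg : IsPGroup p B := P.isPGroup'.to_le hBP
  have hPB : (P : Subgroup X) ≤ Subgroup.normalizer (B : Set X) := by
    intro x hx
    rw [Subgroup.mem_normalizer_iff]
    intro b
    refine ⟨hBn x hx b, fun h => ?_⟩
    have h1 := hBn x⁻¹ ((P : Subgroup X).inv_mem hx) _ h
    have e : x⁻¹ * (x * b * x⁻¹) * x⁻¹⁻¹ = b := by group
    rwa [e] at h1
  have hfull : ∀ x ∈ Subgroup.centralizer (B : Set X), IsPGroup p (Subgroup.zpowers x) → x ∈ B := by
    intro x hx hxp
    -- `Q = B ⟨x⟩` is a p-subgroup of `C(B)`; put it in a Sylow subgroup of N(B)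
    set N := Subgroup.normalizer (B : Set X) with hN
    have hxN : x ∈ N := by
      rw [hN, Subgroup.mem_normalizer_iff]
      intro b
      constructor
      · intro hb
        have h1 := Subgroup.mem_centralizer_iff.1 hx b hb
        rw [← h1, mul_inv_cancel_right]; exact hb
      · intro hb
        have h1 := Subgroup.mem_centralizer_iff.1 hx _ hb
        have h2 : b = x * b * x⁻¹ := by
          have h3 : x * b * x⁻¹ * x = x * (x * b * x⁻¹) := h1
          have h4 : x * b = x * (x * b * x⁻¹) := by rw [← h3]; group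
          exact mul_left_cancel h4
        rw [h2]; exact hb
    let PN : Sylow p N := P.subtype hPB
    have hxs : IsPGroup p (Subgroup.zpowers (⟨x, hxN⟩ : N)) := by
      have h1 : (Subgroup.zpowers (⟨x, hxN⟩ : N)).map N.subtype = Subgroup.zpowers x := by
        rw [MonoidHom.map_zpowers]; rfl
      have e := (Subgroup.zpowers (⟨x, hxN⟩ : N)).equivMapOfInjective N.subtype N.subtype_injective
      rw [h1] at e
      exact hxp.of_equiv e.symm
    obtain ⟨Q, hQ⟩ := hxs.exists_le_sylow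
    obtain ⟨g, hg⟩ := MulAction.exists_smul_eq N Q PN
    have h1 : g * ⟨x, hxN⟩ * g⁻¹ ∈ (PN : Subgroup N) := by
      rw [← hg, Sylow.coe_subgroup_smul]
      exact Subgroup.smul_mem_pointwise_smul _ (MulAut.conj g) _ (hQ (Subgroup.mem_zpowers _))
    have h2 : (g : X) * x * (g : X)⁻¹ ∈ (P : Subgroup X) := h1
    have h3 : (g : X) * x * (g : X)⁻¹ ∈ Subgroup.centralizer (B : Set X) := by
      rw [Subgroup.mem_centralizer_iff]
      intro b hb
      have hgi : (g : X)⁻¹ * b * (g : X)⁻¹⁻¹ ∈ B := (Subgroup.mem_normalizer_iff.1 (N.inv_mem g.2) b).1 hb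
      rw [inv_inv] at hgi
      have h4 := Subgroup.mem_centralizer_iff.1 hx _ hgi
      calc b * (g * x * (g : X)⁻¹) = g * (((g : X)⁻¹ * b * g) * x) * (g : X)⁻¹ := by group
        _ = g * (x * ((g : X)⁻¹ * b * g)) * (g : X)⁻¹ := by rw [h4]
        _ = (g * x * (g : X)⁻¹) * b := by group
    have h4 : (g : X) * x * (g : X)⁻¹ ∈ B := by rw [← hBc]; exact ⟨h2, h3⟩
    exact (Subgroup.mem_normalizer_iff.1 g.2 x).2 h4
  have hE3 : ¬ Cfsg.PRankLE p 2 B := by
    intro h
    obtain ⟨E, hEB, hE1, hE⟩ := hB3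
    have h1 := h (E.subgroupOf B) (by
      refine ⟨⟨fun a b => ?_⟩⟩
      apply Subtype.ext; apply Subtype.ext
      exact congrArg Subtype.val (hBa.is_comm.comm (a : B) (b : B))) (by
      intro a ha
      exact Subtype.ext (hE1 a ha))
    rw [Cfsg.Agent.H22.Basic.card_subgroupOf_eq hEB] at h1
    have h2 : p ^ 2 < p ^ 3 := Nat.pow_lt_pow_right (Fact.out : p.Prime).one_lt (by norm_num)
    omega
  obtain ⟨k, hk, hkQ⟩ := Cfsg.Agent.H12.Trans.transitivity (p := p) (G := X)
    (fun T hT hT1 => by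
      haveI := hloc T hT hT1
      exact Cfsg.Agent.H18.Off.isPConstrained_of_isSolvable p)
    (fun h => absurd h hp2) hBpg hBa hE3 hfull (q := q) hqp (Q₁ := Q₁) (Q₂ := Q₂)
    ⟨⟨h₁.1, h₁.2.1⟩, fun R hR hle => h₁.2.2 R hR.1 hR.2 hle⟩ ⟨⟨h₂.1, h₂.2.1⟩, fun R hR hle => h₂.2.2 R hR.1 hR.2 hle⟩
  exact ⟨k, Cfsg.Agent.H12.Core.piCoreOf_le _ _ hk, hkQ⟩

end Cfsg.Agent.S0522
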