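import Cfsg.Statements.S0574
import Cfsg.Agent.H1_KW6

set_option autoImplicit false
open Cfsg

namespace Cfsg.Agent.S0574

/-- Let the finite group G be the product AB of an abelian subgroup A and a subgroup B of nilpotency class at most two, and let Ω be the number of prime factors, with multiplicity, of the order of the commutator subgroup of B. Then the term of index 2(1 + Ω) of the derived series of G is trivial. -/
theorem result {G : Type*} [Group G] [Finite G] (A B : Subgroup G) [IsMulCommutative A] (hB : commutator ↥B ≤ Subgroup.center ↥B) (hAB : ∀ g : G, ∃ a ∈ A, ∃ b ∈ B, g = a * b) : derivedSeries G (2 * (1 + (Nat.card ↥(commutator ↥B)).primeFactorsList.length)) = ⊥ := by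
  have hmap : (commutator ↥B).map B.subtype = ⁅B, B⁆ := by
    rw [commutator_def, Subgroup.map_commutator, ← MonoidHom.range_eq_map, Subgroup.range_subtype]
  have hcard : Nat.card ↥(commutator ↥B) = Nat.card ↥(⁅B, B⁆ : Subgroup G) := by
    rw [← hmap, Subgroup.card_map_of_injective B.subtype_injective]
  apply Cfsg.Agent.H1.KW.s0574_aux _ G A B inferInstance _ hAB (by rw [hcard])
  rw [← hmap]
  rintro _ ⟨x, hx, rfl⟩
  rw [Subgroup.mem_centralizer_iff]
  intro y hy
  exact congrArg Subtype.val (Subgroup.mem_center_iff.mp (hB hx) ⟨y, hy⟩)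

end Cfsg.Agent.S0574
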