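import Mathlib
import Cfsg.Statements.S0592

set_option autoImplicit false
set_option linter.unusedSectionVars false
open Cfsg

namespace Cfsg.Agent.S0592

open Polynomial in
theorem exists_eigen {K : Type*} [Field K] [Fintype K] {p : ℕ} [Fact p.Prime] [CharP K p] {W : Type*} [AddCommGroup W]
    [Module K W] [FiniteDimensional K W] [Nontrivial W] (T : Module.End K W) (e k : ℕ) (hT : T ^ (p ^ e * k) = 1)
    (hk : k ∣ Fintype.card K - 1) : ∃ (c : K) (v : W), v ≠ 0 ∧ T v = c • v := by
  classical
  have hint : IsIntegral K T := Algebra.IsIntegral.isIntegral T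
  have hdvd : minpoly K T ∣ (X ^ k - 1 : K[X]) ^ (p ^ e) := by
    rw [sub_pow_char_pow, one_pow]
    apply minpoly.dvd
    simp only [map_sub, map_pow, aeval_X, map_one]
    rw [← pow_mul, mul_comm k, hT, sub_self]
  obtain ⟨π, hπ, hπd⟩ := WfDvdMonoid.exists_irreducible_factor (minpoly.not_isUnit K T) (minpoly.ne_zero hint)
  have h1 : π ∣ (X ^ k - 1 : K[X]) := hπ.prime.dvd_of_dvd_pow (hπd.trans hdvd)
  have h2 : (X ^ k - 1 : K[X]) ∣ X ^ (Fintype.card K - 1) - 1 := by
    obtain ⟨m, hm⟩ := hk
    rw [hm, pow_mul]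
    exact sub_one_dvd_pow_sub_one _ _
  have hq : 1 < Fintype.card K := Fintype.one_lt_card
  have h3 : (X ^ (Fintype.card K - 1) - 1 : K[X]) ∣ X ^ (Fintype.card K) - X := by
    refine ⟨X, ?_⟩
    rw [sub_mul, one_mul, ← pow_succ, Nat.sub_add_cancel hq.le]
  have h4 : π ∣ (X ^ (Fintype.card K) - X : K[X]) := h1.trans (h2.trans h3)
  have hs : Splits (X ^ (Fintype.card K) - X : K[X]) := by
    have := (FiniteField.isSplittingField_sub K K).splits
    simpa using this
  have hne : (X ^ (Fintype.card K) - X : K[X]) ≠ 0 := FiniteField.X_pow_card_sub_X_ne_zero K hq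
  have hs' : Splits π := hs.of_dvd hne h4
  obtain ⟨c, hc⟩ := hs'.exists_eval_eq_zero (by
    intro h0
    exact hπ.not_isUnit (isUnit_iff_degree_eq_zero.2 h0))
  have hroot : (minpoly K T).IsRoot c := by
    obtain ⟨r, hr⟩ := hπd
    rw [IsRoot.def, hr, eval_mul, hc, zero_mul]
  have hev := Module.End.hasEigenvalue_of_isRoot hroot
  obtain ⟨v, hv⟩ := hev.exists_hasEigenvector
  exact ⟨c, v, hv.2, hv.apply_eq_smul⟩


/-- a `2 × 2` matrix `M` with `(M - 1) ^ 2 = 0` has determinant one -/
theorem det_unip {K : Type*} [Field K] (M : Matrix (Fin 2) (Fin 2) K) (h : (M - 1) * (M - 1) = 0) : M.det = 1 := by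
  have e00 := congrFun (congrFun h 0) 0
  have e01 := congrFun (congrFun h 0) 1
  have e10 := congrFun (congrFun h 1) 0
  have e11 := congrFun (congrFun h 1) 1
  simp [Matrix.mul_apply, Fin.sum_univ_two] at e00 e01 e10 e11
  rw [Matrix.det_fin_two]
  by_cases ht : M 0 0 + M 1 1 - 2 = 0
  · have h1 : M 1 1 = 2 - M 0 0 := by linear_combination ht
    rw [h1]
    linear_combination -e00
  · have h01 : M 0 1 = 0 := by
      have : M 0 1 * (M 0 0 + M 1 1 - 2) = 0 := by linear_combination e01
      exact (mul_eq_zero.1 this).resolve_right ht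
    have h10 : M 1 0 = 0 := by
      have : M 1 0 * (M 0 0 + M 1 1 - 2) = 0 := by linear_combination e10
      exact (mul_eq_zero.1 this).resolve_right ht
    rw [h01] at e00 e11
    rw [h10] at e00 e11
    have h0 : M 0 0 - 1 = 0 := by
      have : (M 0 0 - 1) * (M 0 0 - 1) = 0 := by linear_combination e00
      exact mul_self_eq_zero.1 this
    have h1 : M 1 1 - 1 = 0 := by
      have : (M 1 1 - 1) * (M 1 1 - 1) = 0 := by linear_combination e11
      exact mul_self_eq_zero.1 this
    exact absurd (by linear_combination h0 + h1) ht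

universe u v

theorem main {K : Type v} [Field K] [Fintype K] {p : ℕ} [Fact p.Prime] [CharP K p] {Γ : Type*} [Group Γ] (x y : Γ)
    (hgen : Subgroup.closure {x, y} = ⊤) (e k : ℕ) (hxy : (x * y) ^ (p ^ e * k) = 1) (hk : k ∣ Fintype.card K - 1)
    (hSL : ∀ φ : Γ →* Matrix.SpecialLinearGroup (Fin 2) K, ∀ g, ∃ n : ℕ, φ g ^ p ^ n = 1) :
    ∀ (n : ℕ) (W : Type u) [AddCommGroup W] [Module K W] [FiniteDimensional K W] (ρ : Γ →* Module.End K W),
      Module.finrank K W = n → (∀ w, ρ x (ρ x w - w) = ρ x w - w) → (∀ w, ρ y (ρ y w - w) = ρ y w - w) →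
      ∀ g, ∃ m : ℕ, ρ g ^ p ^ m = 1 := by
  classical
  intro n
  induction n using Nat.strong_induction_on with
  | _ n ih =>
  intro W _ _ _ ρ hn hx hy g
  rcases subsingleton_or_nontrivial W with hW | hW
  · exact ⟨0, LinearMap.ext fun w => Subsingleton.elim _ _⟩
  obtain ⟨c, v, hv0, hv⟩ := exists_eigen (ρ (x * y)) e k (by rw [← map_pow, hxy, map_one]) hk
  have hinv : ∀ (h : Γ) (w : W), ρ h⁻¹ (ρ h w) = w := by
    intro h w
    rw [← Module.End.mul_apply, ← map_mul, inv_mul_cancel, map_one]; rfl
  have hinv' : ∀ (h : Γ) (w : W), ρ h (ρ h⁻¹ w) = w := by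
    intro h w
    rw [← Module.End.mul_apply, ← map_mul, mul_inv_cancel, map_one]; rfl
  have hc0 : c ≠ 0 := by
    rintro rfl
    rw [zero_smul] at hv
    apply hv0
    rw [← hinv (x * y) v, hv, map_zero]
  have hxx : ∀ w, ρ x (ρ x w) = 2 • ρ x w - w := by
    intro w
    have := hx w
    rw [map_sub, sub_eq_iff_eq_add] at this
    rw [this, two_smul]; abel
  have hyy : ∀ w, ρ y (ρ y w) = 2 • ρ y w - w := by
    intro w
    have := hy w
    rw [map_sub, sub_eq_iff_eq_add] at this
    rw [this, two_smul]; abel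
  have hxi : ∀ w, ρ x⁻¹ w = 2 • w - ρ x w := by
    intro w
    have h1 := hxx (ρ x⁻¹ w)
    rw [hinv'] at h1
    rw [h1]; abel
  have hyv : ρ y v = c • (2 • v - ρ x v) := by
    rw [← hxi, ← map_smul, ← hv, map_mul, Module.End.mul_apply, hinv]
  have hyx : ρ y (ρ x v) = c⁻¹ • ((2 * c - 2) • ρ y v + v) := by
    have h1 : ρ y (ρ y v) = c • (2 • ρ y v - ρ y (ρ x v)) := by
      conv_lhs => rw [hyv]
      rw [map_smul, map_sub, map_nsmul]
    rw [hyy] at h1
    rw [eq_inv_smul_iff₀ hc0, ← sub_eq_zero]
    have h2 : c • ρ y (ρ x v) = (2 * c) • ρ y v - (2 • ρ y v - v) := by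
      rw [h1]
      module
    rw [h2]
    module
  set S : Submodule K W := Submodule.span K {v, ρ x v} with hSdef
  have hvS : v ∈ S := Submodule.subset_span (by simp)
  have hxvS : ρ x v ∈ S := Submodule.subset_span (by simp)
  have hyvS : ρ y v ∈ S := by
    rw [hyv]; exact S.smul_mem _ (S.sub_mem (S.nsmul_mem hvS 2) hxvS)
  have gx : ∀ w ∈ S, ρ x w ∈ S := by
    intro w hw
    refine Submodule.span_induction (p := fun w _ => ρ x w ∈ S) ?_ ?_ ?_ ?_ hw
    · rintro w (rfl | hw)
      · exact hxvS
      · rw [Set.mem_singleton_iff.1 hw, hxx]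
        exact S.sub_mem (S.nsmul_mem hxvS 2) hvS
    · rw [map_zero]; exact S.zero_mem
    · intro a b _ _ ha hb
      rw [map_add]; exact S.add_mem ha hb
    · intro a b _ hb
      rw [map_smul]; exact S.smul_mem _ hb
  have gy : ∀ w ∈ S, ρ y w ∈ S := by
    intro w hw
    refine Submodule.span_induction (p := fun w _ => ρ y w ∈ S) ?_ ?_ ?_ ?_ hw
    · rintro w (rfl | hw)
      · exact hyvS
      · rw [Set.mem_singleton_iff.1 hw, hyx]
        exact S.smul_mem _ (S.add_mem (S.smul_mem _ hyvS) hvS)
    · rw [map_zero]; exact S.zero_mem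
    · intro a b _ _ ha hb
      rw [map_add]; exact S.add_mem ha hb
    · intro a b _ hb
      rw [map_smul]; exact S.smul_mem _ hb
  have ginj : ∀ h : Γ, Function.Injective (ρ h) := fun h a b hab => by rw [← hinv h a, hab, hinv]
  have gmap : ∀ h : Γ, (∀ w ∈ S, ρ h w ∈ S) → ∀ w ∈ S, ρ h⁻¹ w ∈ S := by
    intro h hh w hw
    have h1 : S.map (ρ h) = S := by
      apply Submodule.eq_of_le_of_finrank_eq
      · rintro _ ⟨w, hw, rfl⟩; exact hh w hw
      · exact (LinearEquiv.finrank_eq (Submodule.equivMapOfInjective (ρ h) (ginj h) S)).symm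
    rw [← h1] at hw
    obtain ⟨u, hu, rfl⟩ := hw
    rw [hinv]; exact hu
  have gall : ∀ h : Γ, ∀ w ∈ S, ρ h w ∈ S := by
    intro h
    have hh : h ∈ Subgroup.closure ({x, y} : Set Γ) := by rw [hgen]; trivial
    refine Subgroup.closure_induction (p := fun h _ => ∀ w ∈ S, ρ h w ∈ S) ?_ ?_ ?_ ?_ hh
    · rintro h (rfl | hh)
      · exact gx
      · rw [Set.mem_singleton_iff.1 hh]; exact gy
    · intro w hw
      rw [map_one]; exact hw
    · intro a b _ _ ha hb w hw
      rw [map_mul]; exact ha _ (hb w hw)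
    · intro a _ ha
      exact gmap a ha
  let ρS : Γ →* Module.End K S :=
    { toFun := fun h => (ρ h).restrict (gall h)
      map_one' := by ext w; simp
      map_mul' := by intro a b; ext w; simp }
  let ρQ : Γ →* Module.End K (W ⧸ S) :=
    { toFun := fun h => S.mapQ S (ρ h) (fun w hw => gall h w hw)
      map_one' := by ext w; simp
      map_mul' := by intro a b; ext w; simp }
  have hS1 : ∃ m : ℕ, ρS g ^ p ^ m = 1 := by
    by_cases hli : LinearIndependent K ![v, ρ x v]
    · have hspan : Submodule.span K (Set.range ![v, ρ x v]) = S := by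
        rw [hSdef]; congr 1
        rw [Matrix.range_cons, Matrix.range_cons, Matrix.range_empty, Set.union_empty]; rfl
      let B0 : Module.Basis (Fin 2) K (Submodule.span K (Set.range ![v, ρ x v])) := Module.Basis.span hli
      let B : Module.Basis (Fin 2) K S := B0.map (LinearEquiv.ofEq _ _ hspan)
      let μ : Γ →* Matrix (Fin 2) (Fin 2) K :=
        { toFun := fun h => LinearMap.toMatrix B B (ρS h)
          map_one' := by rw [map_one]; exact LinearMap.toMatrix_one B
          map_mul' := by intro a b; rw [map_mul]; exact LinearMap.toMatrix_mul B _ _ }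
      have hdet : ∀ h : Γ, (μ h).det = 1 := by
        intro h
        have hh : h ∈ Subgroup.closure ({x, y} : Set Γ) := by rw [hgen]; trivial
        have hquad : ∀ z : Γ, (∀ w, ρ z (ρ z w - w) = ρ z w - w) → (μ z).det = 1 := by
          intro z hz
          apply det_unip
          have h1 : μ z - 1 = LinearMap.toMatrix B B (ρS z - 1) := by
            rw [map_sub, LinearMap.toMatrix_one]; rfl
          rw [h1, ← LinearMap.toMatrix_mul]
          have h2 : (ρS z - 1) * (ρS z - 1) = 0 := by
            ext w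
            have := hz w
            simp only [Module.End.mul_apply, LinearMap.sub_apply, Module.End.one_apply, LinearMap.zero_apply,
              Submodule.coe_sub, ZeroMemClass.coe_zero]
            show ρ z (ρ z w - w) - (ρ z w - w) = 0
            rw [this, sub_self]
          rw [h2, map_zero]
        refine Subgroup.closure_induction (p := fun h _ => (μ h).det = 1) ?_ ?_ ?_ ?_ hh
        · rintro h (rfl | hh)
          · exact hquad _ hx
          · rw [Set.mem_singleton_iff.1 hh]; exact hquad _ hy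
        · rw [map_one, Matrix.det_one]
        · intro a b _ _ ha hb
          rw [map_mul, Matrix.det_mul, ha, hb, one_mul]
        · intro a _ ha
          have : (μ a⁻¹).det * (μ a).det = 1 := by
            rw [← Matrix.det_mul, ← map_mul, inv_mul_cancel, map_one, Matrix.det_one]
          rwa [ha, mul_one] at this
      let φ : Γ →* Matrix.SpecialLinearGroup (Fin 2) K :=
        { toFun := fun h => ⟨μ h, hdet h⟩
          map_one' := Subtype.ext (map_one μ)
          map_mul' := fun a b => Subtype.ext (map_mul μ a b) }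
      obtain ⟨m, hm⟩ := hSL φ g
      refine ⟨m, ?_⟩
      have h1 : μ g ^ p ^ m = 1 := by
        have := congrArg Subtype.val hm
        rwa [Matrix.SpecialLinearGroup.coe_pow] at this
      apply (LinearMap.toMatrix B B).injective
      rw [← map_pow, LinearMap.toMatrix_one]
      rw [← map_pow] at h1
      exact h1
    · refine ⟨0, ?_⟩
      have hdep : ∃ d : K, ρ x v = d • v := by
        by_contra hno
        push Not at hno
        apply hli
        rw [LinearIndependent.pair_iff' hv0]
        intro a ha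
        exact hno a ha.symm
      obtain ⟨d, hd⟩ := hdep
      have hd1 : d = 1 := by
        have h1 := hxx v
        rw [hd, map_smul, hd, smul_smul, ← sub_eq_zero] at h1
        have h2 : ((d - 1) * (d - 1)) • v = 0 := by
          rw [← h1]; module
        rcases smul_eq_zero.1 h2 with h3 | h3
        · exact sub_eq_zero.1 (mul_self_eq_zero.1 h3)
        · exact absurd h3 hv0
      rw [hd1, one_smul] at hd
      have hyc : ρ y v = c • v := by rw [hyv, hd]; module
      have hc1 : c = 1 := by
        have h1 := hyy v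
        rw [hyc, map_smul, hyc, smul_smul, ← sub_eq_zero] at h1
        have h2 : ((c - 1) * (c - 1)) • v = 0 := by
          rw [← h1]; module
        rcases smul_eq_zero.1 h2 with h3 | h3
        · exact sub_eq_zero.1 (mul_self_eq_zero.1 h3)
        · exact absurd h3 hv0
      rw [hc1, one_smul] at hyc
      have hSv : ∀ w ∈ S, ∃ a : K, w = a • v := by
        intro w hw
        rw [hSdef, hd, Set.pair_eq_singleton, Submodule.mem_span_singleton] at hw
        obtain ⟨a, ha⟩ := hw
        exact ⟨a, ha.symm⟩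
      have hfix : ρ g v = v := by
        have hh : g ∈ Subgroup.closure ({x, y} : Set Γ) := by rw [hgen]; trivial
        refine Subgroup.closure_induction (p := fun h _ => ρ h v = v) ?_ ?_ ?_ ?_ hh
        · rintro h (rfl | hh)
          · exact hd
          · rw [Set.mem_singleton_iff.1 hh]; exact hyc
        · rw [map_one]; rfl
        · intro a b _ _ ha hb
          rw [map_mul, Module.End.mul_apply, hb, ha]
        · intro a _ ha
          have := hinv a v
          rwa [ha] at this
      rw [pow_zero, pow_one]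
      ext w
      obtain ⟨a, ha⟩ := hSv w w.2
      show ρ g (w : W) = (w : W)
      rw [ha, map_smul, hfix]
  have hQ1 : ∃ m : ℕ, ρQ g ^ p ^ m = 1 := by
    have hfr : Module.finrank K (W ⧸ S) < n := by
      have h1 := Submodule.finrank_quotient_add_finrank S
      have h2 : 0 < Module.finrank K S := by
        rw [Module.finrank_pos_iff]
        exact ⟨⟨⟨v, hvS⟩, 0, fun h => hv0 (congrArg Subtype.val h)⟩⟩
      omega
    refine ih _ hfr (W ⧸ S) ρQ rfl ?_ ?_ g
    · intro w
      obtain ⟨w, rfl⟩ := Submodule.mkQ_surjective S w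
      show S.mkQ (ρ x (ρ x w - w)) = S.mkQ (ρ x w - w)
      rw [hx]
    · intro w
      obtain ⟨w, rfl⟩ := Submodule.mkQ_surjective S w
      show S.mkQ (ρ y (ρ y w - w)) = S.mkQ (ρ y w - w)
      rw [hy]
  obtain ⟨m1, hm1⟩ := hS1
  obtain ⟨m2, hm2⟩ := hQ1
  set m := max m1 m2 with hm
  have hS2 : ρS (g ^ p ^ m) = 1 := by
    rw [map_pow, show p ^ m = p ^ m1 * p ^ (m - m1) by rw [← pow_add]; congr 1; omega, pow_mul, hm1, one_pow]
  have hQ2 : ρQ (g ^ p ^ m) = 1 := by
    rw [map_pow, show p ^ m = p ^ m2 * p ^ (m - m2) by rw [← pow_add]; congr 1; omega, pow_mul, hm2, one_pow]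
  set u := g ^ p ^ m with hu
  have u1 : ∀ w ∈ S, ρ u w = w := by
    intro w hw
    have := congrArg (fun f : Module.End K S => ((f ⟨w, hw⟩ : S) : W)) hS2
    exact this
  have u2 : ∀ w, ρ u w - w ∈ S := by
    intro w
    have := congrArg (fun f : Module.End K (W ⧸ S) => f (S.mkQ w)) hQ2
    have h1 : S.mkQ (ρ u w) = S.mkQ w := this
    rwa [Submodule.mkQ_apply, Submodule.mkQ_apply, Submodule.Quotient.eq] at h1
  refine ⟨m + 1, ?_⟩
  rw [pow_succ, pow_mul, ← map_pow, ← hu]
  have key : ∀ (j : ℕ) (w : W), (ρ u ^ j) w = w + j • (ρ u w - w) := by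
    intro j
    induction j with
    | zero => intro w; simp
    | succ j ihj =>
      intro w
      rw [pow_succ', Module.End.mul_apply, ihj, map_add, map_nsmul, u1 _ (u2 w), succ_nsmul]
      abel
  ext w
  rw [key, Module.End.one_apply]
  have : (p : ℕ) • (ρ u w - w) = 0 := by
    rw [← Nat.cast_smul_eq_nsmul K, CharP.cast_eq_zero, zero_smul]
  rw [this, add_zero]

/-- Two quadratically acting generators of a linear group that is not a p-group, with the p'-part of the order of their product dividing q - 1, give a homomorphism onto a subgroup of SL(2, q) that is not a p-group. -/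
theorem result {K : Type*} [Field K] [Fintype K] {p : ℕ} [Fact p.Prime] [CharP K p] {W : Type*} [AddCommGroup W] [Module K W] [FiniteDimensional K W] [Finite W] [Nontrivial W] (H : Subgroup (W ≃ₗ[K] W)) (a b : W ≃ₗ[K] W) (hH : H = Subgroup.closure {a, b}) (ha : ∀ w : W, a (a w - w) = a w - w) (hb : ∀ w : W, b (b w - w) = b w - w) (hnp : ¬ IsPGroup p H) (hk : ∃ e k : ℕ, orderOf (a * b) = p ^ e * k ∧ k ∣ Fintype.card K - 1) : ∃ φ : H →* Matrix.SpecialLinearGroup (Fin 2) K, ¬ IsPGroup p φ.range := by
  by_contra hno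
  push Not at hno
  apply hnp
  obtain ⟨e, k, hord, hk⟩ := hk
  have haH : a ∈ H := by rw [hH]; exact Subgroup.subset_closure (by simp)
  have hbH : b ∈ H := by rw [hH]; exact Subgroup.subset_closure (by simp)
  have hgen : Subgroup.closure ({⟨a, haH⟩, ⟨b, hbH⟩} : Set H) = ⊤ := by
    apply Subgroup.map_injective H.subtype_injective
    rw [MonoidHom.map_closure, ← MonoidHom.range_eq_map, Subgroup.range_subtype, Set.image_pair]
    exact hH.symm
  let ρ : H →* Module.End K W :=
    { toFun := fun h => ((h : W ≃ₗ[K] W) : W →ₗ[K] W)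
      map_one' := rfl
      map_mul' := fun _ _ => rfl }
  have hmain := main (p := p) (⟨a, haH⟩ : H) ⟨b, hbH⟩ hgen e k (by
    apply Subtype.ext
    show (a * b) ^ (p ^ e * k) = 1
    rw [← hord, pow_orderOf_eq_one]) hk (by
    intro φ g
    obtain ⟨n, hn⟩ := hno φ ⟨φ g, g, rfl⟩
    exact ⟨n, congrArg Subtype.val hn⟩) _ W ρ rfl ha hb
  intro g
  obtain ⟨m, hm⟩ := hmain g
  refine ⟨m, ?_⟩
  rw [← map_pow] at hm
  apply Subtype.ext
  apply LinearEquiv.ext
  intro w
  exact LinearMap.congr_fun hm w

end Cfsg.Agent.S0592
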