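import Cfsg.Statements.S0599
import Mathlib
import Cfsg.Agent.H2_Replace

set_option autoImplicit false
open Cfsg

namespace Cfsg.Agent.S0599

open Subgroup
open scoped commutatorElement

/-- The Timmesfeld replacement Theorem: replacing a best offender A by C_A([U, A]) gives a best offender with fixed points [U, A]C_V(A), still nontrivial on V if A was. -/
theorem result {G : Type*} [Group G] [Finite G] {p : ℕ} [Fact p.Prime] (V A : Subgroup G) (hV : Cfsg.IsElementaryAbelian p V) (hAV : A ≤ Subgroup.normalizer (V : Set G)) (hA : Cfsg.IsBestOffenderOn p V A) (U : Subgroup G) (hU : U ≤ V) : Cfsg.IsBestOffenderOn p V (A ⊓ Subgroup.centralizer ((⁅U, A⁆ : Subgroup G) : Set G)) ∧ V ⊓ Subgroup.centralizer ((A ⊓ Subgroup.centralizer ((⁅U, A⁆ : Subgroup G) : Set G) : Subgroup G) : Set G) = ⁅U, A⁆ ⊔ (V ⊓ Subgroup.centralizer (A : Set G)) ∧ (⁅V, A⁆ ≠ ⊥ → ⁅V, A ⊓ Subgroup.centralizer ((⁅U, A⁆ : Subgroup G) : Set G)⁆ ≠ ⊥) := by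
  obtain ⟨hmax, hab, hpow⟩ := hA
  obtain ⟨h1, h2⟩ := Cfsg.Agent.H2.Replace.replacement
      (fun x hx y hy => Cfsg.Agent.H2.Quad.comm_of_ea hV hx hy) hab hmax hAV hU
  refine ⟨⟨fun B hB => ?_, ?_, ?_⟩, h2, fun hne h0 => ?_⟩
  · refine (hmax B (hB.trans inf_le_left)).trans h1.symm.le
  · exact (Subgroup.commutator_mono inf_le_left inf_le_left).trans hab
  · intro a ha
    exact hpow a (Subgroup.mem_inf.1 ha).1
  · -- V ≤ C(B) hence V = [U,A] C_V(A)
    have h3 : V ⊓ Subgroup.centralizer ((A ⊓ Subgroup.centralizer ((⁅U, A⁆ : Subgroup G) : Set G) : Subgroup G) : Set G) = V := by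
      rw [inf_eq_left, ← Subgroup.commutator_eq_bot_iff_le_centralizer]
      exact h0
    have h4 : V = ⁅U, A⁆ ⊔ (V ⊓ Subgroup.centralizer (A : Set G)) := h3.symm.trans h2
    have hUA : ⁅U, A⁆ ≤ ⁅V, A⁆ := Subgroup.commutator_mono hU le_rfl
    have hVAV : ⁅V, A⁆ ≤ V := Cfsg.Agent.H2.Quad.commutator_le_left_of_normalizes hAV
    refine Cfsg.Agent.H2.Quad.not_le_commutator hV hAV hpow hVAV hne ?_
    have hn : ⁅U, A⁆ ≤ Subgroup.normalizer ((V ⊓ Subgroup.centralizer (A : Set G) : Subgroup G) : Set G) := by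
      have : V ≤ Subgroup.centralizer ((V ⊓ Subgroup.centralizer (A : Set G) : Subgroup G) : Set G) :=
        (Cfsg.Agent.H2.Quad.ea_le_centralizer hV).trans (Subgroup.centralizer_le inf_le_left)
      exact (hUA.trans hVAV).trans (this.trans (Subgroup.centralizer_le_normalizer _))
    rw [Subgroup.commutator_le]
    intro v hv a ha
    rw [h4, Cfsg.Agent.H2.Card.mem_sup_iff hn] at hv
    obtain ⟨x, hx, y, hy, rfl⟩ := hv
    have hy2 : a * y = y * a := (Subgroup.mem_centralizer_iff.1 (Subgroup.mem_inf.1 hy).2) a ha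
    have h5 : ⁅x * y, a⁆ = ⁅x, a⁆ := by
      calc ⁅x * y, a⁆ = x * (y * a) * y⁻¹ * x⁻¹ * a⁻¹ := by rw [commutatorElement_def]; group
        _ = x * (a * y) * y⁻¹ * x⁻¹ * a⁻¹ := by rw [hy2]
        _ = ⁅x, a⁆ := by rw [commutatorElement_def]; group
    rw [h5]
    exact Subgroup.commutator_mem_commutator (hUA hx) ha

end Cfsg.Agent.S0599
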