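import Cfsg.Statements.S0607
import Mathlib
import Cfsg.Agent.H2_Thompson
import Cfsg.Agent.S0606
import Cfsg.Agent.S0599

set_option autoImplicit false
open Cfsg

namespace Cfsg.Agent.S0607

open Subgroup
open scoped commutatorElement

/-- The replacement Theorem for the Thompson subgroup: from A of maximal order among elementary abelian p-subgroups one obtains A₀ = [V, A] C_A([V, A]) of the same kind, quadratic on V and nontrivial on V when A is. -/
theorem result {G : Type*} [Group G] [Finite G] {p : ℕ} [Fact p.Prime] (V : Subgroup G) [V.Normal] (hV : Cfsg.IsElementaryAbelian p V) (A : Subgroup G) (hA : A ∈ Cfsg.maxElementaryAbelianSubgroups p G) : (⁅V, A⁆ ⊔ (A ⊓ Subgroup.centralizer ((⁅V, A⁆ : Subgroup G) : Set G))) ∈ Cfsg.maxElementaryAbelianSubgroups p G ∧ ⁅⁅V, ⁅V, A⁆ ⊔ (A ⊓ Subgroup.centralizer ((⁅V, A⁆ : Subgroup G) : Set G))⁆, ⁅V, A⁆ ⊔ (A ⊓ Subgroup.centralizer ((⁅V, A⁆ : Subgroup G) : Set G))⁆ = ⊥ ∧ (⁅V,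 A⁆ ≠ ⊥ → ⁅V, ⁅V, A⁆ ⊔ (A ⊓ Subgroup.centralizer ((⁅V, A⁆ : Subgroup G) : Set G))⁆ ≠ ⊥) := by
  have hbest := Cfsg.Agent.S0606.result V hV A hA
  have hAV : A ≤ normalizer (V : Set G) := by rw [normalizer_eq_top]; exact le_top
  obtain ⟨h1, h2⟩ := Cfsg.Agent.H2.Replace.replacement
      (fun x hx y hy => Cfsg.Agent.H2.Quad.comm_of_ea hV hx hy) hbest.2.1 hbest.1 hAV (le_refl V)
  obtain ⟨-, -, h3⟩ := Cfsg.Agent.S0599.result V A hV hAV hbest V le_rfl
  set B : Subgroup G := A ⊓ centralizer ((⁅V, A⁆ : Subgroup G) : Set G) with hB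
  have hVA : ⁅V, A⁆ ≤ V := Cfsg.Agent.H2.Quad.commutator_le_left_of_normalizes hAV
  have hBC : B ≤ centralizer ((⁅V, A⁆ : Subgroup G) : Set G) := inf_le_right
  have hBe := Cfsg.Agent.H2.Quad.ea_of_le (W := B) hA.1 inf_le_left
  have hVAe := Cfsg.Agent.H2.Quad.ea_of_le hV hVA
  have hA0e := Cfsg.Agent.H2.Quad.ea_sup hVAe hBe hBC
  -- fixed points
  have hCVA : V ⊓ centralizer (A : Set G) ≤ A := by
    apply Cfsg.Agent.H2.Thompson.le_of_centralizes (H := ⊤) (p := p) le_top hA.1 (fun B _ hB => hA.2 B hB) le_top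
    · exact fun b hb => hV.2 b (mem_inf.1 hb).1
    · exact inf_le_right
  have hCVAB : V ⊓ centralizer (A : Set G) ≤ B := by
    refine le_inf hCVA (inf_le_left.trans ?_)
    exact (Cfsg.Agent.H2.Quad.ea_le_centralizer hV).trans (centralizer_le hVA)
  have hsupeq : B ⊔ (V ⊓ centralizer (B : Set G)) = ⁅V, A⁆ ⊔ B := by
    have h2' : V ⊓ centralizer (B : Set G) = ⁅V, A⁆ ⊔ (V ⊓ centralizer (A : Set G)) := h2
    rw [h2']
    apply le_antisymm
    · exact sup_le le_sup_right (sup_le le_sup_left (hCVAB.trans le_sup_right))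
    · exact sup_le (le_sup_left.trans le_sup_right) le_sup_left
  have hBV : B ⊓ (V ⊓ centralizer (B : Set G)) = V ⊓ centralizer (A : Set G) := by
    apply le_antisymm
    · refine le_inf (inf_le_right.trans inf_le_left) (inf_le_left.trans ?_)
      exact inf_le_left.trans (Cfsg.Agent.H2.Quad.ea_le_centralizer hA.1)
    · refine le_inf hCVAB (le_inf inf_le_left (inf_le_right.trans (centralizer_le inf_le_left)))
  have hn : B ≤ normalizer ((V ⊓ centralizer (B : Set G) : Subgroup G) : Set G) := by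
    refine le_trans ?_ (centralizer_le_normalizer _)
    rw [le_centralizer_iff]; exact inf_le_right
  have hcard := Cfsg.Agent.H2.Card.card_sup_mul_card_inf hn
  rw [hBV, hsupeq] at hcard
  have h1' : Nat.card B * Nat.card (V ⊓ centralizer (B : Set G) : Subgroup G) =
    Nat.card A * Nat.card (V ⊓ centralizer (A : Set G) : Subgroup G) := h1
  rw [h1'] at hcard
  have hcard' : Nat.card (⁅V, A⁆ ⊔ B : Subgroup G) = Nat.card A :=
    Nat.eq_of_mul_eq_mul_right Nat.card_pos hcard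
  have hVeq : ⁅V, ⁅V, A⁆ ⊔ B⁆ ≤ ⁅V, B⁆ := by
    rw [commutator_le]
    intro v hv x hx
    have hnn : ⁅V, A⁆ ≤ normalizer (B : Set G) := by
      refine le_trans ?_ (centralizer_le_normalizer _)
      rw [le_centralizer_iff]; exact hBC
    rw [Cfsg.Agent.H2.Card.mem_sup_iff hnn] at hx
    obtain ⟨c, hc, b, hb, rfl⟩ := hx
    have hcv : c * v = v * c := Cfsg.Agent.H2.Quad.comm_of_ea hV (hVA hc) hv
    have hw : ⁅v, b⁆ ∈ V := Cfsg.Agent.H2.Quad.comm_mem (inf_le_left.trans hAV) hb hv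
    have hcw : c * ⁅v, b⁆ = ⁅v, b⁆ * c := Cfsg.Agent.H2.Quad.comm_of_ea hV (hVA hc) hw
    have h5 : ⁅v, c * b⁆ = ⁅v, b⁆ := by
      calc ⁅v, c * b⁆ = (v * c) * (b * v⁻¹ * b⁻¹) * c⁻¹ := by rw [commutatorElement_def]; group
        _ = (c * v) * (b * v⁻¹ * b⁻¹) * c⁻¹ := by rw [hcv]
        _ = c * ⁅v, b⁆ * c⁻¹ := by rw [commutatorElement_def]; group
        _ = ⁅v, b⁆ := by rw [hcw]; group
    rw [h5]
    exact commutator_mem_commutator hv hb
  refine ⟨⟨hA0e, fun C hC => ?_⟩, ?_, fun hne h0 => ?_⟩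
  · rw [hcard']; exact hA.2 C hC
  · rw [eq_bot_iff]
    have h6 : ⁅⁅V, ⁅V, A⁆ ⊔ B⁆, ⁅V, A⁆ ⊔ B⁆ ≤ ⁅⁅V, A⁆, ⁅V, A⁆ ⊔ B⁆ :=
      commutator_mono (hVeq.trans (commutator_mono le_rfl inf_le_left)) le_rfl
    refine h6.trans (le_of_eq ?_)
    rw [commutator_eq_bot_iff_le_centralizer, Cfsg.Agent.H2.Replace.centralizer_sup]
    refine le_inf (Cfsg.Agent.H2.Quad.ea_le_centralizer hVAe) ?_
    rw [le_centralizer_iff]; exact hBC
  · apply h3 hne
    rw [eq_bot_iff, ← h0]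
    exact commutator_mono le_rfl le_sup_right

end Cfsg.Agent.S0607
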