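import Cfsg.Statements.S0617
import Mathlib
import Cfsg.Agent.H2_FF9

set_option autoImplicit false
open Cfsg

namespace Cfsg.Agent.S0617

/-- Structure Theorem for failure of factorization: a faithful group generated by best offenders, with self-centralizing p'-core, is a direct product of copies of SL(2, p) (p = 2 or 3), each acting on its own plane in V, which is the direct product of these planes and C_V(H). -/
theorem result {G : Type*} [Group G] [Finite G] {p : ℕ} [Fact p.Prime] (V H : Subgroup G) (hV : Cfsg.IsElementaryAbelian p V) (hHV : H ≤ Subgroup.normalizer (V : Set G)) (hf : H ⊓ Subgroup.centralizer (V : Set G) = ⊥) (hS1 : Subgroup.centralizer (Cfsg.pPrimeCore p ↥H : Set ↥H) ≤ Cfsg.pPrimeCore p ↥H) (hS3 : H = ⨆ A : {A : Subgroup G // A ≤ H ∧ Cfsg.IsBestOffenderOn p V A}, (A : Subgroup G)) (hH1 : H ≠ ⊥) : (p = 2 ∨ p = 3) ∧ (∀ E :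 {E : Subgroup G // ∃ A : Subgroup G, A ≤ H ∧ Cfsg.IsBestOffenderOn p V A ∧ ⁅V, A⁆ ≠ ⊥ ∧ (∀ B : Subgroup G, B ≤ A → Cfsg.IsBestOffenderOn p V B → ⁅V, B⁆ ≠ ⊥ → B = A) ∧ E = ⁅((Cfsg.pPrimeCore p ↥H).map H.subtype), A⁆ ⊔ A}, H ≤ Subgroup.normalizer ((E : Subgroup G) : Set G) ∧ Nonempty (↥(E : Subgroup G) ≃* Matrix.SpecialLinearGroup (Fin 2) (ZMod p)) ∧ Nat.card ↥(⁅V, (E : Subgroup G)⁆) = p ^ 2) ∧ iSupIndep (fun E : {E : Subgroup G // ∃ A : Subgroup G, A ≤ H ∧ Cfsg.IsBestOffenderOn p V A ∧ ⁅V, A⁆ ≠ ⊥ ∧ (∀ B : Subgroup G, B ≤ A → Cfsg.IsBestOffenderOn p V B → ⁅V, B⁆ ≠ ⊥ → B = A) ∧ E = ⁅((Cfsg.pPrimeCore p ↥H).map H.subtype), A⁆ ⊔ A} => (E : Subgroup G)) ∧ (⨆ E : {E : Subgroup G // ∃ A : Subgroup G, A ≤ H ∧ Cfsg.IsBestOffenderOn p V A ∧ ⁅V, A⁆ ≠ ⊥ ∧ (∀ B : Subgroup G, B ≤ A → Cfsg.IsBestOffenderOn p V B → ⁅V, B⁆ ≠ ⊥ → B = A) ∧ E = ⁅((Cfsg.pPrimeCore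 p ↥H).map H.subtype), A⁆ ⊔ A}, (E : Subgroup G)) = H ∧ iSupIndep (fun o : Option {E : Subgroup G // ∃ A : Subgroup G, A ≤ H ∧ Cfsg.IsBestOffenderOn p V A ∧ ⁅V, A⁆ ≠ ⊥ ∧ (∀ B : Subgroup G, B ≤ A → Cfsg.IsBestOffenderOn p V B → ⁅V, B⁆ ≠ ⊥ → B = A) ∧ E = ⁅((Cfsg.pPrimeCore p ↥H).map H.subtype), A⁆ ⊔ A} => o.elim (V ⊓ Subgroup.centralizer (H : Set G)) (fun E => ⁅V, (E : Subgroup G)⁆)) ∧ (V ⊓ Subgroup.centralizer (H : Set G)) ⊔ (⨆ E : {E : Subgroup G // ∃ A : Subgroup G, A ≤ H ∧ Cfsg.IsBestOffenderOn p V A ∧ ⁅V, A⁆ ≠ ⊥ ∧ (∀ B : Subgroup G, B ≤ A → Cfsg.IsBestOffenderOn p V B → ⁅V, B⁆ ≠ ⊥ → B = A) ∧ E = ⁅((Cfsg.pPrimeCore p ↥H).map H.subtype), A⁆ ⊔ A}, ⁅V, (E : Subgroup G)⁆) = V := by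
  have S : Cfsg.Agent.H2.FF.Setup p V H := ⟨hV, hHV, hf, hS1⟩
  have hG := S.gen_of hS3
  have hP : ∀ E : Subgroup G, (∃ A : Subgroup G, A ≤ H ∧ Cfsg.IsBestOffenderOn p V A ∧ ⁅V, A⁆ ≠ ⊥ ∧ (∀ B : Subgroup G, B ≤ A → Cfsg.IsBestOffenderOn p V B → ⁅V, B⁆ ≠ ⊥ → B = A) ∧ E = ⁅((Cfsg.pPrimeCore p ↥H).map H.subtype), A⁆ ⊔ A) ↔ E ∈ Cfsg.Agent.H2.FF.Setup.Comps p V H := by
    intro E
    constructor
    · rintro ⟨A, hAH, hA, hAV, hmin, rfl⟩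
      have h := (S.min_iff hAH).1 ⟨hA, hAV, hmin⟩
      exact ⟨A, ⟨hAH, h.1, h.2⟩, rfl⟩
    · rintro ⟨A, hA, rfl⟩
      have h := (S.min_iff hA.le).2 ⟨hA.card, hA.fix⟩
      exact ⟨A, hA.le, h.1, h.2.1, h.2.2, rfl⟩
  obtain ⟨A₀, hA₀⟩ := S.exists_min hG hH1
  refine ⟨(S.comp hA₀).small, ?_, ?_, ?_, ?_, ?_⟩
  · rintro ⟨E, hE⟩
    obtain ⟨A, hA, rfl⟩ := (hP E).1 hE
    exact ⟨S.KA_normal hG hA, (S.comp hA).sl2, (S.comp hA).card⟩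
  · intro i
    refine (S.comps_indep hG i ((hP i).1 i.2)).mono_right ?_
    refine iSup_le fun j => iSup_le fun hj => ?_
    exact le_iSup_of_le (⟨j, (hP j).1 j.2, fun h => hj (Subtype.ext h)⟩ : {E' : Subgroup G // E' ∈ Cfsg.Agent.H2.FF.Setup.Comps p V H ∧ E' ≠ i}) le_rfl
  · refine Eq.trans ?_ (S.comps_sup hG)
    apply le_antisymm
    · refine iSup_le fun j => ?_
      exact le_iSup_of_le (⟨j, (hP j).1 j.2⟩ : {E' : Subgroup G // E' ∈ Cfsg.Agent.H2.FF.Setup.Comps p V H}) le_rfl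
    · refine iSup_le fun j => ?_
      refine le_trans ?_ (le_iSup _ ⟨j, (hP j).2 j.2⟩)
      exact le_rfl
  · intro o
    rcases o with _ | i
    · rw [disjoint_iff, eq_bot_iff]
      refine le_trans ?_ S.planes_fix_disj.le
      refine inf_le_inf_left _ ?_
      refine iSup_le fun j => iSup_le fun hj => ?_
      rcases j with _ | j
      · exact absurd rfl hj
      · exact le_iSup_of_le (⟨j, (hP j).1 j.2⟩ : {E' : Subgroup G // E' ∈ Cfsg.Agent.H2.FF.Setup.Comps p V H}) le_rfl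
    · refine (S.plane_disj hG i ((hP i).1 i.2)).mono_right ?_
      refine iSup_le fun j => iSup_le fun hj => ?_
      rcases j with _ | j
      · exact le_sup_left
      · refine le_trans ?_ le_sup_right
        exact le_iSup_of_le (⟨j, (hP j).1 j.2, fun h => hj (congrArg some (Subtype.ext h))⟩ : {E' : Subgroup G // E' ∈ Cfsg.Agent.H2.FF.Setup.Comps p V H ∧ E' ≠ i}) le_rfl
  · refine Eq.trans ?_ (S.planes_sup hG)
    congr 1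
    apply le_antisymm
    · refine iSup_le fun j => ?_
      exact le_iSup_of_le (⟨j, (hP j).1 j.2⟩ : {E' : Subgroup G // E' ∈ Cfsg.Agent.H2.FF.Setup.Comps p V H}) le_rfl
    · refine iSup_le fun j => ?_
      refine le_trans ?_ (le_iSup _ ⟨j, (hP j).2 j.2⟩)
      exact le_rfl

end Cfsg.Agent.S0617
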