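import Cfsg.Statements.S0622
import Mathlib
import Cfsg.Agent.H2_ThompFact

set_option autoImplicit false
universe u
open Cfsg

namespace Cfsg.Agent.S0622

open scoped Pointwise
open Subgroup Cfsg

open Cfsg.Agent.H2.Thompson Cfsg.Agent.H2.ThompFact in
theorem stable_comp {S S' H : Type u} [Group S] [Group S'] [Group H] {p : ℕ} (η : S ≃* S') (τ : S' →* H)
    (h : IsStableEmbedding p τ) : IsStableEmbedding p (τ.comp η.toMonoidHom) := by
  obtain ⟨h1, h2, ⟨P, hP⟩, h4, h5, h6⟩ := h
  have hr : (τ.comp η.toMonoidHom).range = τ.range := by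
    rw [MonoidHom.range_comp, MonoidHom.range_eq_top.2 η.surjective, ← MonoidHom.range_eq_map]
  have hJ : (thompsonSubgroup p S).map (τ.comp η.toMonoidHom) = (thompsonSubgroup p S').map τ := by
    rw [← map_map, thompson_map_equiv]
  refine ⟨h1.comp η.injective, h2, ⟨P, by rw [hP, hr]⟩, h4, by rw [hJ]; exact h5, ?_⟩
  intro V hV hle
  apply h6 V
  have : (omegaCenterThompson p S).map (τ.comp η.toMonoidHom) = (omegaCenterThompson p S').map τ := by
    rw [← map_map]
    congr 1
    rw [omegaCenterThompson, omegaCenterThompson, ← omegaOne_map, ← thompson_map_equiv η]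
    · congr 1
      apply le_antisymm
      · rintro _ ⟨x, hx, rfl⟩
        refine mem_inf.2 ⟨mem_map_of_mem _ (mem_inf.1 hx).1, ?_⟩
        rw [mem_centralizer_iff]
        rintro _ ⟨y, hy, rfl⟩
        rw [← map_mul, ← map_mul, (mem_centralizer_iff.1 (mem_inf.1 hx).2) y hy]
      · rintro _ ⟨⟨x, hx, rfl⟩, hc⟩
        refine mem_map_of_mem _ (mem_inf.2 ⟨hx, ?_⟩)
        rw [mem_centralizer_iff]
        intro y hy
        have := (mem_centralizer_iff.1 hc) _ (mem_map_of_mem η.toMonoidHom hy)
        rw [← map_mul, ← map_mul] at this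
        exact η.injective this
    · exact η.injective.comp (subtype_injective _)
  rwa [this] at hle

theorem mem_omega_center {S : Type u} [Group S] {p : ℕ} (x : S) :
    x ∈ omegaOne p (center S) ↔ x ∈ center S ∧ x ^ p = 1 :=
  Cfsg.Agent.H2.ThompFact.mem_omegaOne_of_comm (fun x _ y hy => (mem_center_iff.1 hy x))

open Cfsg.Agent.H2.Thompson Cfsg.Agent.H2.ThompFact in
theorem mem_family {S : Type u} [Group S] [Finite S] {p : ℕ} :
    omegaOne p (center S) ≤ omegaCenterThompson p S ∧
    ∀ (H : Type u) [Group H] (τ : S →* H), IsStableEmbedding p τ → ((omegaCenterThompson p S).map τ).Normal := by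
  constructor
  · intro x hx
    rw [mem_omega_center] at hx
    apply mem_omegaOne _ hx.2
    have hc : x ∈ centralizer (thompsonSubgroup p S : Set S) := by
      rw [mem_centralizer_iff]
      exact fun y _ => mem_center_iff.1 hx.1 y
    refine mem_inf.2 ⟨?_, hc⟩
    obtain ⟨A, hA⟩ := exists_max p S
    apply le_thompson hA
    apply mem_of_centralizes (H := ⊤) (p := p) le_top hA.1 (fun B _ hB => hA.2 B hB) (mem_top x) hx.2
    exact centralizer_le (SetLike.coe_subset_coe.2 (le_thompson hA)) hc
  · intro H _ τ hτ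
    obtain ⟨hinj, -, -, -, hn, -⟩ := hτ
    rw [omegaCenterThompson, ← omegaOne_map]
    · have h1 : ((thompsonSubgroup p S ⊓ centralizer (thompsonSubgroup p S : Set S)).map τ) =
        ((thompsonSubgroup p S).map τ) ⊓ centralizer (((thompsonSubgroup p S).map τ : Subgroup H) : Set H) := by
        apply le_antisymm
        · rintro _ ⟨x, hx, rfl⟩
          refine mem_inf.2 ⟨mem_map_of_mem _ (mem_inf.1 hx).1, ?_⟩
          rw [mem_centralizer_iff]
          rintro _ ⟨y, hy, rfl⟩
          rw [← map_mul, ← map_mul, (mem_centralizer_iff.1 (mem_inf.1 hx).2) y hy]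
        · rintro _ ⟨⟨x, hx, rfl⟩, hc⟩
          refine mem_map_of_mem _ (mem_inf.2 ⟨hx, ?_⟩)
          rw [mem_centralizer_iff]
          intro y hy
          have := (mem_centralizer_iff.1 hc) _ (mem_map_of_mem τ hy)
          rw [← map_mul, ← map_mul] at this
          exact hinj this
      rw [h1]
      set K := (thompsonSubgroup p S).map τ
      have h2 : (K ⊓ centralizer (K : Set H)).Normal := inferInstance
      refine ⟨fun x hx g => ?_⟩
      have h3 : MulAut.conj g • (K ⊓ centralizer (K : Set H)) = K ⊓ centralizer (K : Set H) :=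
        Cfsg.Agent.H1.Basic.conj_of_normal g _
      have h4 := omegaOne_conj (p := p) g (K ⊓ centralizer (K : Set H))
      rw [h3] at h4
      rw [h4, Cfsg.Agent.H1.Basic.conj_mem_conj]
      exact hx
    · exact hinj.comp (subtype_injective _)

theorem family_map {S S' : Type u} [Group S] [Group S'] {p : ℕ} (η : S ≃* S') (W : Subgroup S)
    (hW : omegaOne p (center S) ≤ W ∧
    ∀ (H : Type u) [Group H] (τ : S →* H), IsStableEmbedding p τ → (W.map τ).Normal) :
    omegaOne p (center S') ≤ W.map η.toMonoidHom ∧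
    ∀ (H : Type u) [Group H] (τ : S' →* H), IsStableEmbedding p τ → ((W.map η.toMonoidHom).map τ).Normal := by
  constructor
  · intro x hx
    rw [mem_omega_center] at hx
    refine ⟨η.symm x, hW.1 ?_, by simp⟩
    rw [mem_omega_center]
    refine ⟨?_, by rw [← map_pow, hx.2, map_one]⟩
    rw [mem_center_iff]
    intro g
    apply η.injective
    rw [map_mul, map_mul, MulEquiv.apply_symm_apply]
    exact mem_center_iff.1 hx.1 _
  · intro H _ τ hτ
    rw [map_map]
    exact hW.2 H _ (stable_comp η τ hτ)

theorem map_le {S S' : Type u} [Group S] [Group S'] {p : ℕ} (η : S ≃* S') :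
    stableNormalClosure p S' ≤ (stableNormalClosure p S).map η.toMonoidHom := by
  intro x hx
  refine ⟨η.symm x, ?_, by simp⟩
  rw [SetLike.mem_coe, stableNormalClosure, mem_sInf]
  intro W hW
  rw [stableNormalClosure, mem_sInf] at hx
  obtain ⟨y, hy, hyx⟩ := hx _ (family_map η W hW)
  rw [← hyx]
  simpa using hy

theorem map_eq {S S' : Type u} [Group S] [Group S'] {p : ℕ} (η : S ≃* S') :
    (stableNormalClosure p S).map η.toMonoidHom = stableNormalClosure p S' := by
  apply le_antisymm _ (map_le η)
  have h := map_mono (f := η.toMonoidHom) (map_le (p := p) η.symm)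
  refine h.trans ?_
  rw [map_map]
  have : η.toMonoidHom.comp η.symm.toMonoidHom = MonoidHom.id S' := by ext; simp
  rw [this, Subgroup.map_id]

/-- Basic properties of the stable normal closure W(S) of Ω₁(Z(S)) in a finite p-group: characteristic, squeezed between Ω₁(Z(S)) and Ω₁(Z(J(S))), nontrivial for S ≠ 1, and transported by group isomorphisms. -/
theorem result {S : Type u} [Group S] [Finite S] {p : ℕ} [Fact p.Prime] (hS : IsPGroup p S) : (Cfsg.stableNormalClosure p S).Characteristic ∧ Cfsg.omegaOne p (Subgroup.center S) ≤ Cfsg.stableNormalClosure p S ∧ Cfsg.stableNormalClosure p S ≤ Cfsg.omegaCenterThompson p S ∧ (Nontrivial S → Cfsg.stableNormalClosure p S ≠ ⊥) ∧ ∀ (S' : Type u) [Group S'] (η : S ≃* S'), (Cfsg.stableNormalClosure p S).map η.toMonoidHom = Cfsg.stableNormalClosure p S' := by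
  have h2 : Cfsg.omegaOne p (Subgroup.center S) ≤ Cfsg.stableNormalClosure p S := by
    apply le_sInf
    exact fun W hW => hW.1
  refine ⟨?_, h2, ?_, ?_, ?_⟩
  · rw [characteristic_iff_map_eq]
    exact fun φ => map_eq φ
  · exact sInf_le mem_family
  · intro hnt h0
    have h3 := hS.bot_lt_center
    have hpg : IsPGroup p (center S) := hS.to_subgroup _
    have hdvd : p ∣ Nat.card (center S) := by
      obtain ⟨n, hn⟩ := IsPGroup.iff_card.1 hpg
      rw [hn]
      apply dvd_pow_self
      rintro rfl
      rw [pow_zero] at hn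
      exact h3.ne' (card_eq_one.1 hn)
    obtain ⟨y, hy⟩ := exists_prime_orderOf_dvd_card' p hdvd
    have hyp : (y : S) ^ p = 1 := by
      have := pow_orderOf_eq_one y
      rw [hy] at this
      exact congrArg Subtype.val this
    have h4 : (y : S) ∈ Cfsg.omegaOne p (Subgroup.center S) := by
      rw [mem_omega_center]; exact ⟨y.2, hyp⟩
    have h5 := h2 h4
    rw [h0, mem_bot] at h5
    have : y = 1 := Subtype.ext h5
    rw [this, orderOf_one] at hy
    exact (Fact.out : p.Prime).one_lt.ne hy
  · exact fun S' _ η => map_eq η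

end Cfsg.Agent.S0622
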