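import Cfsg.Statements.S0625
import Cfsg.Agent.H18_PStab

set_option autoImplicit false
open Cfsg

namespace Cfsg.Agent.S0625


/-- A p-separable group with p at least 5 is p-stable in the action sense. -/
theorem result {G : Type*} [Group G] [Finite G] {p : ℕ} [Fact p.Prime] (hp : 5 ≤ p) (hsep : Cfsg.IsPSolvable p G) : Cfsg.IsActionPStable p G := by
  have hp2 : p ≠ 2 := by omega
  apply H18.PStab.isActionPStable_of
  intro Y _ hY
  have : Finite Y := H13.Sec.involves_finite hY
  apply H18.PStab.stable_of_sl hp2
  intro h1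
  obtain ⟨K, f, hf⟩ := H13.Sec.involves_iff.1 (H13.Sec.involves_trans h1 hY)
  have h3 := H18.QPair.psolv_of_le hp2 (H := ⊤) K le_top f hf
    (H22.PSolv.isPSolvable_of_injective (Subgroup.subtype ⊤) (Subgroup.subtype_injective _) hsep)
  omega

end Cfsg.Agent.S0625
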