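import Cfsg.Statements.S0626
import Cfsg.Agent.H18_PStab

set_option autoImplicit false
open Cfsg

namespace Cfsg.Agent.S0626


/-- For odd p, groups whose Sylow 2-subgroups are abelian are p-stable in the action sense. -/
theorem result {G : Type*} [Group G] [Finite G] {p : ℕ} [Fact p.Prime] (hp : p ≠ 2) (hab : ∀ T : Sylow 2 G, IsMulCommutative T) : Cfsg.IsActionPStable p G := by
  apply H18.PStab.isActionPStable_of
  intro Y _ hY
  have : Finite Y := H13.Sec.involves_finite hY
  apply H18.PStab.stable_of_sl hp
  intro h1
  obtain ⟨K, f, hf⟩ := H13.Sec.involves_iff.1 (H13.Sec.involves_trans h1 hY)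
  exact H18.QPair.not_comm_of_sub hp K f hf default (hab default)

end Cfsg.Agent.S0626
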