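import Cfsg.Statements.S0629
import Mathlib
import Cfsg.Agent.H2_PCons

set_option autoImplicit false
open Cfsg

namespace Cfsg.Agent.S0629

open Subgroup Cfsg Cfsg.Agent.H2.PCons

/-- A group in which the centralizer of a Sylow p-subgroup of O_{p',p}(G) is p-solvable is p-constrained. -/
theorem result {G : Type*} [Group G] [Finite G] {p : ℕ} [Fact p.Prime] (P : Sylow p ↥(Cfsg.pPrimePCore p G)) (hsol : Cfsg.IsPSolvable p ↥(Subgroup.centralizer (((P : Subgroup ↥(Cfsg.pPrimePCore p G)).map (Cfsg.pPrimePCore p G).subtype : Subgroup G) : Set G))) : Cfsg.IsPConstrained p G := by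
  rw [pc_iff_quotient]
  have hK := Cfsg.Agent.H1.Nilp.pPrimeCore_coprime (G := G) p
  have hKn := Cfsg.Agent.H1.Nilp.pPrimeCore_normal (G := G) p
  have hmap := map_sylow (QuotientGroup.mk' (pPrimeCore p G)) (QuotientGroup.mk'_surjective _) (by
    rw [QuotientGroup.ker_mk']; exact hK) (Cfsg.Agent.H11.Cores.pPrimeCore_quotient p) P
  set Q := (P : Subgroup ↥(Cfsg.pPrimePCore p G)).map (Cfsg.pPrimePCore p G).subtype with hQ
  have hQp : IsPGroup p Q := P.isPGroup'.map _
  set K := pPrimeCore p G with hKdef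
  set f := resHom K (centralizer (Q : Set G)) _ (mem_centralizer_map K Q) with hf
  have hsurj : Function.Surjective f := by
    rintro ⟨y, hy⟩
    obtain ⟨x, rfl⟩ := QuotientGroup.mk'_surjective K y
    obtain ⟨c, hc, hc'⟩ := Cfsg.Agent.H2.ThompFact.exists_centralizer_lift K hK Q hQp x hy
    exact ⟨⟨c, hc⟩, Subtype.ext hc'⟩
  have hs := Cfsg.Agent.H22.PSolv.isPSolvable_of_surjective f hsurj hsol
  rw [hmap] at hs
  have hn := Cfsg.Agent.H1.Nilp.pCore_normal (G := G ⧸ K) p
  set C := centralizer (pCore p (G ⧸ K) : Set (G ⧸ K)) with hC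
  have hCn : C.Normal := inferInstance
  have h1 := Cfsg.Agent.H11.Cores.map_pPrimeCore_of_isSubnormal p (Subgroup.Normal.isSubnormal hCn)
  rw [Cfsg.Agent.H11.Cores.pPrimeCore_quotient p, bot_inf_eq, Subgroup.map_eq_bot_iff_of_injective _ C.subtype_injective] at h1
  have h2 := Cfsg.Agent.H22.PSolv.centralizer_pCore_le hs h1
  have h3 := Cfsg.Agent.H11.Cores.map_pCore_of_isSubnormal p (Subgroup.Normal.isSubnormal hCn)
  have h4 : (⊤ : Subgroup C) ≤ pCore p C := by
    refine le_trans ?_ h2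
    intro x _
    rw [mem_centralizer_iff]
    intro y hy
    have hy2 : (y : G ⧸ K) ∈ (pCore p C).map C.subtype := ⟨y, hy, rfl⟩
    rw [h3] at hy2
    exact Subtype.ext ((mem_centralizer_iff.1 x.2) y hy2.1)
  apply Cfsg.Agent.H1.Nilp.le_pCore hCn
  have h5 : IsPGroup p (⊤ : Subgroup C) := (Cfsg.Agent.H1.Nilp.pCore_isPGroup p).to_le h4
  exact h5.of_equiv Subgroup.topEquiv

end Cfsg.Agent.S0629
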