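import Cfsg.Statements.S0633
import Cfsg.Agent.H22_HH5

set_option autoImplicit false
open Cfsg

namespace Cfsg.Agent.S0633

open Module Cfsg.Agent Cfsg.Agent.H22 Cfsg.Agent.H22.HH4 Cfsg.Agent.H22.HH5
open scoped TensorProduct

/-- Theorem B of Hall and Higman on the minimal polynomial of a p-element of order p^n in a p-solvable linear group on a nonzero vector space in characteristic p with no nontrivial normal p-subgroup: its degree is p^n, except when some p^n₀ - 1 (n₀ ≤ n) is a power of a prime q for which the Sylow q-subgroups are non-abelian, in which case the degree is at least p^(n-n₀)(p^n₀ - 1). -/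
theorem result {F : Type*} [Field F] {p : ℕ} [Fact p.Prime] [CharP F p] {V : Type*} [AddCommGroup V] [Module F V] [FiniteDimensional F V] [Nontrivial V] (H : Subgroup (V ≃ₗ[F] V)) [Finite H] (hsol : Cfsg.IsPSolvable p H) (hOp : Cfsg.pCore p H = ⊥) (x : V ≃ₗ[F] V) (hx : x ∈ H) (n : ℕ) (hn : orderOf x = p ^ n) (r : ℕ) (hr : minpoly F (x : Module.End F V) = (Polynomial.X - 1) ^ r) : r = p ^ n ∨ ∃ n₀ q m : ℕ, 1 ≤ n₀ ∧ n₀ ≤ n ∧ q.Prime ∧ 1 ≤ m ∧ p ^ n₀ - 1 = q ^ m ∧ (∀ Q : Sylow q H, ¬ IsMulCommutative Q) ∧ p ^ (n - n₀) * (p ^ n₀ - 1) ≤ r := by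
  classical
  have hp : Fact p.Prime := inferInstance
  let k := AlgebraicClosure F
  haveI : CharP k p := charP_of_injective_algebraMap (FaithfulSMul.algebraMap_injective F k) p
  let β := Module.End.baseChangeHom F k V
  let τ : H →* Module.End F V :=
    { toFun := fun h => ((h : V ≃ₗ[F] V) : V →ₗ[F] V)
      map_one' := rfl
      map_mul' := fun a b => rfl }
  have hτ : Function.Injective τ := by
    intro a b hab
    apply Subtype.ext
    apply LinearEquiv.toLinearMap_injective
    exact hab
  let ρ : H →* Module.End k (k ⊗[F] V) :=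
    (β : Module.End F V →* Module.End k (k ⊗[F] V)).comp τ
  have hρ : Function.Injective ρ := by
    intro a b hab
    exact hτ (baseChange_inj (k := k) hab)
  let xH : H := ⟨x, hx⟩
  have hxo : orderOf xH = p ^ n := by rw [← hn, ← Subgroup.orderOf_coe]
  have hpow : ∀ i : ℕ, (ρ xH - 1) ^ i ≠ 0 → ((x : Module.End F V) - 1) ^ i ≠ 0 := by
    intro i hi h0
    apply hi
    have h1 : (ρ xH - 1) ^ i = β (((x : Module.End F V) - 1) ^ i) := by
      rw [map_pow, map_sub, map_one]; rfl
    rw [h1, h0, map_zero]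
  have hr0 : ((x : Module.End F V) - 1) ^ r = 0 := by
    have h1 := minpoly.aeval F (x : Module.End F V)
    rw [hr] at h1
    simpa using h1
  have hge : ∀ i : ℕ, ((x : Module.End F V) - 1) ^ (i - 1) ≠ 0 → i ≤ r := by
    intro i hi
    by_contra hcon
    apply hi
    have h1 : i - 1 = r + (i - 1 - r) := by omega
    rw [h1, pow_add, hr0, zero_mul]
  haveI : Nontrivial (k ⊗[F] V) := by
    obtain ⟨v, hv⟩ := exists_ne (0 : V)
    refine ⟨⟨(1 : k) ⊗ₜ[F] v, 0, fun h => hv ?_⟩⟩
    apply Module.FaithfullyFlat.tensorProduct_mk_injective (A := F) (B := k) V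
    rw [map_zero]
    exact h
  rcases TB (p := p) hsol hOp ρ hρ xH n hxo with h | ⟨n₀, q, m, h1, h2, h3, h4, h5, h6, h7⟩
  · left
    apply le_antisymm _ (hge _ (hpow _ h))
    have h8 : ((x : Module.End F V) - 1) ^ p ^ n = 0 := by
      have e1 : ((Polynomial.X : Polynomial F) - 1) ^ p ^ n = Polynomial.X ^ p ^ n - 1 := by
        rw [sub_pow_char_pow, one_pow]
      have e2 := congrArg (Polynomial.aeval (x : Module.End F V)) e1
      simp only [map_pow, map_sub, Polynomial.aeval_X, map_one] at e2
      rw [e2]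
      have e3 : (x : Module.End F V) ^ p ^ n = 1 := by
        have e4 : τ xH ^ p ^ n = 1 := by
          rw [← map_pow, ← hxo, pow_orderOf_eq_one, map_one]
        exact e4
      rw [e3, sub_self]
    have h9 : minpoly F (x : Module.End F V) ∣ ((Polynomial.X : Polynomial F) - 1) ^ p ^ n := by
      apply minpoly.dvd
      simpa using h8
    rw [hr] at h9
    have h0 : (Polynomial.X : Polynomial F) - 1 ≠ 0 := by
      have := Polynomial.X_sub_C_ne_zero (1 : F)
      simpa using this
    have hu : ¬ IsUnit ((Polynomial.X : Polynomial F) - 1) := by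
      have := Polynomial.not_isUnit_X_sub_C (1 : F)
      simpa using this
    exact (pow_dvd_pow_iff h0 hu).mp h9
  · right
    exact ⟨n₀, q, m, h1, h2, h3, h4, h5, h6, hge _ (hpow _ h7)⟩

end Cfsg.Agent.S0633
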