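import Cfsg.Statements.S0634
import Mathlib
import Cfsg.Agent.H2_PCons

set_option autoImplicit false
open Cfsg

namespace Cfsg.Agent.S0634

open Subgroup Cfsg

theorem core_bot {G : Type*} [Group G] [Finite G] {p : ℕ} (N M : Subgroup G) [N.Normal] [M.Normal]
    (hM : M = (pPrimeCore p (G ⧸ N)).comap (QuotientGroup.mk' N)) : pPrimeCore p (G ⧸ M) = ⊥ := by
  have hNM : N ≤ M := by rw [hM]; exact Cfsg.Agent.H1.Hall.le_comap_mk _ _
  set D := (pPrimeCore p (G ⧸ M)).comap (QuotientGroup.mk' M) with hD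
  have hn := Cfsg.Agent.H1.Nilp.pPrimeCore_normal (G := G ⧸ M) p
  have hMD : M ≤ D := Cfsg.Agent.H1.Hall.le_comap_mk _ _
  have h1 : (M.relIndex D).Coprime p := by
    rw [hD, Cfsg.Agent.H1.Hall.relIndex_comap_mk]
    exact Cfsg.Agent.H1.Nilp.pPrimeCore_coprime p
  have h2 : (N.relIndex M).Coprime p := by
    rw [hM, Cfsg.Agent.H1.Hall.relIndex_comap_mk]
    exact Cfsg.Agent.H1.Nilp.pPrimeCore_coprime p
  have h3 : (N.relIndex D).Coprime p := by
    rw [← relIndex_mul_relIndex N M D hNM hMD]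
    exact Nat.Coprime.mul_left h2 h1
  have hDn : D.Normal := hn.comap _
  have h4 : D.map (QuotientGroup.mk' N) ≤ pPrimeCore p (G ⧸ N) := by
    apply Cfsg.Agent.H1.Nilp.le_pPrimeCore (hDn.map _ (QuotientGroup.mk'_surjective N))
    rw [← Cfsg.Agent.H1.Hall.relIndex_comap_mk, comap_map_eq, QuotientGroup.ker_mk', sup_eq_left.2 (hNM.trans hMD)]
    exact h3
  have h5 : D ≤ M := by
    rw [hM, ← map_le_iff_le_comap]; exact h4
  rw [eq_bot_iff]
  intro x hx
  obtain ⟨y, rfl⟩ := QuotientGroup.mk'_surjective M x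
  have : y ∈ M := h5 hx
  rw [mem_bot, ← MonoidHom.mem_ker, QuotientGroup.ker_mk']
  exact this

/-- In a p-soluble group each p-factor of the upper p-series contains its own centralizer in the corresponding quotient. -/
theorem result {G : Type*} [Group G] [Finite G] {p : ℕ} [Fact p.Prime] (hsol : Cfsg.IsPSolvable p G) (k : ℕ) : Subgroup.centralizer ((((Cfsg.upperPSeries p G (2 * k + 2)).1.map (QuotientGroup.mk' (Cfsg.upperPSeries p G (2 * k + 1)).1)) : Subgroup (G ⧸ (Cfsg.upperPSeries p G (2 * k + 1)).1)) : Set (G ⧸ (Cfsg.upperPSeries p G (2 * k + 1)).1)) ≤ (Cfsg.upperPSeries p G (2 * k + 2)).1.map (QuotientGroup.mk' (Cfsg.upperPSeries p G (2 * k + 1)).1) := by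
  have e1 : (Cfsg.upperPSeries p G (2 * k + 2)).1 = (Cfsg.pCore p (G ⧸ (Cfsg.upperPSeries p G (2 * k + 1)).1)).comap (QuotientGroup.mk' _) :=
    Cfsg.Agent.H22.PSolv.U_succ_odd (p := p) (G := G) (i := 2 * k + 1) (by rw [Nat.not_even_iff_odd]; exact ⟨k, rfl⟩)
  rw [e1, map_comap_eq_self_of_surjective (QuotientGroup.mk'_surjective _)]
  apply Cfsg.Agent.H22.PSolv.centralizer_pCore_le (Cfsg.Agent.H22.PSolv.isPSolvable_quotient _ hsol)
  exact core_bot (Cfsg.upperPSeries p G (2 * k)).1 _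
    (Cfsg.Agent.H22.PSolv.U_succ_even (p := p) (G := G) (i := 2 * k) (even_two_mul k))

end Cfsg.Agent.S0634
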