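import Cfsg.Statements.S0641
import Mathlib
import Cfsg.Agent.H2_PGroup

set_option autoImplicit false
open Cfsg

namespace Cfsg.Agent.S0641

open Subgroup Cfsg

/-- Regularity of a p-group passes to quotient groups. -/
theorem result {G : Type*} [Group G] {p : ℕ} [Fact p.Prime] (hG : Cfsg.IsRegularPGroup p G) (N : Subgroup G) [N.Normal] : Cfsg.IsRegularPGroup p (G ⧸ N) := by
  refine ⟨hG.1.to_quotient N, fun a b n => ?_⟩
  obtain ⟨x, rfl⟩ := QuotientGroup.mk_surjective a
  obtain ⟨y, rfl⟩ := QuotientGroup.mk_surjective b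
  obtain ⟨c, hc, h⟩ := hG.2 x y n
  refine ⟨(c : G ⧸ N), ?_, ?_⟩
  · have h1 : (Cfsg.powerClosure p n ⁅Subgroup.closure ({x, y} : Set G), Subgroup.closure ({x, y} : Set G)⁆).map (QuotientGroup.mk' N) ≤
        Cfsg.powerClosure p n ⁅Subgroup.closure ({(x : G ⧸ N), (y : G ⧸ N)} : Set (G ⧸ N)), Subgroup.closure ({(x : G ⧸ N), (y : G ⧸ N)} : Set (G ⧸ N))⁆ := by
      rw [Cfsg.powerClosure, MonoidHom.map_closure, closure_le]
      rintro _ ⟨_, ⟨z, hz, rfl⟩, rfl⟩
      apply Subgroup.subset_closure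
      refine ⟨(QuotientGroup.mk' N) z, ?_, by rw [map_pow]⟩
      have h2 : (Subgroup.closure ({x, y} : Set G)).map (QuotientGroup.mk' N) =
          Subgroup.closure ({(x : G ⧸ N), (y : G ⧸ N)} : Set (G ⧸ N)) := by
        rw [MonoidHom.map_closure, Set.image_pair]; rfl
      rw [← h2, ← map_commutator]
      exact mem_map_of_mem _ hz
    exact h1 (mem_map_of_mem (QuotientGroup.mk' N) hc)
  · rw [← QuotientGroup.mk_mul, ← QuotientGroup.mk_pow, h]; rfl

end Cfsg.Agent.S0641
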