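import Cfsg.Statements.S0642
import Mathlib
import Cfsg.Agent.H2_PGroup2

set_option autoImplicit false
open Cfsg

namespace Cfsg.Agent.S0642

open Subgroup Cfsg Cfsg.Agent.H2.Quad
open scoped commutatorElement

/-- Among finite 2-groups the regular ones are exactly the abelian ones. -/
theorem result {G : Type*} [Group G] [Finite G] (hG : IsPGroup 2 G) : Cfsg.IsRegularPGroup 2 G ↔ ∀ a b : G, a * b = b * a := by
  constructor
  · intro h a b
    have hH : ∀ x ∈ Subgroup.closure ({a, b} : Set G), x ∈ Subgroup.closure ({a, b} : Set G) := fun x hx => hx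
    set H : Subgroup G := Subgroup.closure ({a, b} : Set G) with hHdef
    set D : Subgroup G := ⁅H, H⁆ with hD
    set N : Subgroup G := Cfsg.powerClosure 2 1 D with hN
    have haH : a ∈ H := Subgroup.subset_closure (by simp)
    have hbH : b ∈ H := Subgroup.subset_closure (by simp)
    have hDH : H ≤ normalizer (D : Set G) := by
      have h1 : ⁅D, H⁆ ≤ D := by
        have : D ≤ H := by
          rw [hD, commutator_le]
          intro x hx y hy
          rw [commutatorElement_def]
          exact mul_mem (mul_mem (mul_mem hx hy) (inv_mem hx)) (inv_mem hy)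
        exact commutator_mono this le_rfl
      rwa [← le_normalizer_iff_commutator_le_left] at h1
    have hNH : H ≤ normalizer (N : Set G) := by
      have key : ∀ g ∈ H, ∀ x ∈ N, g * x * g⁻¹ ∈ N := by
        intro g hg x hx
        rw [hN, powerClosure] at hx ⊢
        induction hx using Subgroup.closure_induction with
        | mem x hx =>
          obtain ⟨y, hy, rfl⟩ := hx
          apply Subgroup.subset_closure
          exact ⟨g * y * g⁻¹, conj_mem hDH hg hy, by rw [conj_pow]⟩
        | one => simp
        | mul x y _ _ hx hy =>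
          have : g * (x * y) * g⁻¹ = (g * x * g⁻¹) * (g * y * g⁻¹) := by group
          rw [this]; exact mul_mem hx hy
        | inv x _ hx =>
          have : g * x⁻¹ * g⁻¹ = (g * x * g⁻¹)⁻¹ := by group
          rw [this]; exact inv_mem hx
      intro g hg
      rw [mem_normalizer_iff]
      intro x
      constructor
      · exact key g hg x
      · intro hx
        have := key g⁻¹ (inv_mem hg) _ hx
        have h2 : g⁻¹ * (g * x * g⁻¹) * g⁻¹⁻¹ = x := by group
        rwa [h2] at this
    obtain ⟨c, hc, hcc⟩ := h.2 a b 1
    have hcN : c ∈ N := hc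
    have hab : ⁅b, a⁆ ∈ N := by
      rw [pow_one] at hcc
      have e1 : a⁻¹ * b * a * b⁻¹ = b ^ 2 * c * (b ^ 2)⁻¹ := by
        have e2 : c = (b ^ 2)⁻¹ * (a ^ 2)⁻¹ * (a * b) ^ 2 := by rw [hcc]; group
        rw [e2]
        simp only [sq]; group
      have e3 : ⁅b, a⁆ = a * (a⁻¹ * b * a * b⁻¹) * a⁻¹ := by rw [commutatorElement_def]; group
      rw [e3, e1]
      exact conj_mem hNH haH (conj_mem hNH (pow_mem hbH 2) hcN)
    have hDN : D ≤ N := by
      rw [hD, hHdef]
      apply Cfsg.Agent.H2.PGroup2.commutator_closure_le hNH
      intro x hx y hy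
      rcases hx with rfl | hx <;> rcases hy with rfl | hy
      · simp [one_mem]
      · rw [Set.mem_singleton_iff] at hy; subst hy
        rw [← commutatorElement_inv]; exact inv_mem hab
      · rw [Set.mem_singleton_iff] at hx; subst hx; exact hab
      · rw [Set.mem_singleton_iff] at hx hy; subst hx; subst hy; simp [one_mem]
    have hDbot : D = ⊥ := by
      by_contra hne
      refine Cfsg.Agent.H2.PGroup2.not_le_powers (hG.to_subgroup D) hne ?_ hDN
      intro M _ hM
      rw [hN, powerClosure, closure_le]
      rintro _ ⟨x, hx, rfl⟩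
      rw [pow_one]; exact hM x hx
    have h3 : ⁅a, b⁆ ∈ D := commutator_mem_commutator haH hbH
    rw [hDbot, mem_bot] at h3
    exact commutatorElement_eq_one_iff_mul_comm.1 h3
  · intro h
    refine ⟨hG, fun a b n => ⟨1, one_mem _, ?_⟩⟩
    rw [mul_one]
    exact (show Commute a b from h a b).mul_pow _

end Cfsg.Agent.S0642
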