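import Cfsg.Statements.S0645
import Mathlib
import Cfsg.Agent.H2_Rank2

set_option autoImplicit false
open Cfsg

namespace Cfsg.Agent.S0645

open Subgroup Cfsg Cfsg.Agent.H2.Card Cfsg.Agent.H2.Rank2
open scoped commutatorElement

/-- Classification of p-groups with a cyclic maximal subgroup, odd p: a non-abelian one of order p^n has generators a of order p^(n-1) and b of order p, b outside the cyclic subgroup generated by a, with b a b⁻¹ = a^(1 + p^(n-2)). -/
theorem result {G : Type*} [Group G] [Finite G] {p : ℕ} [Fact p.Prime] (hp : p ≠ 2) (n : ℕ) (hn : 3 ≤ n) (hG : Nat.card G = p ^ n) (C : Subgroup G) (hC : IsCyclic C) (hCi : C.index = p) (hna : ∃ x y : G, x * y ≠ y * x) : ∃ a b : G, orderOf a = p ^ (n - 1) ∧ orderOf b = p ∧ b ∉ Subgroup.zpowers a ∧ b * a * b⁻¹ = a ^ (1 + p ^ (n - 2)) := by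
  have hpp : p.Prime := Fact.out
  have hpg : IsPGroup p G := IsPGroup.iff_card.2 ⟨n, hG⟩
  obtain ⟨x0, y0, hxy0⟩ := hna
  have hnc : ¬ IsCyclic G := by
    intro h
    obtain ⟨g, hg⟩ := h.exists_generator
    obtain ⟨k, hk⟩ := mem_zpowers_iff.1 (hg x0)
    obtain ⟨l, hl⟩ := mem_zpowers_iff.1 (hg y0)
    apply hxy0
    rw [← hk, ← hl]
    exact (Commute.zpow_zpow_self g k l).eq
  obtain ⟨hpow, hcen, hea, hcard⟩ := cyclic_index hp hpg hnc C hC hCi
  set Ω := closure {x : G | x ^ p = 1} with hΩ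
  obtain ⟨⟨a, haC⟩, hag⟩ := hC.exists_generator
  have hCa : C = zpowers a := by
    apply le_antisymm
    · intro y hy
      obtain ⟨k, hk⟩ := mem_zpowers_iff.1 (hag ⟨y, hy⟩)
      exact ⟨k, congrArg Subtype.val hk⟩
    · rwa [zpowers_le]
  have hCcard : Nat.card C = p ^ (n - 1) := by
    have h1 := card_mul_index C
    rw [hCi, hG] at h1
    have h2 : p ^ n = p ^ (n - 1) * p := by rw [← pow_succ]; congr 1; omega
    rw [h2] at h1
    exact Nat.eq_of_mul_eq_mul_right hpp.pos h1
  have hao : orderOf a = p ^ (n - 1) := by rw [← Nat.card_zpowers, ← hCa, hCcard]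
  -- element of order p outside C
  obtain ⟨b, hbΩ, hbC⟩ : ∃ b ∈ Ω, b ∉ C := by
    by_contra hcon
    push Not at hcon
    have h1 : Ω ≤ C := hcon
    have h2 := card_le_of_cyclic hpp.pos (isCyclic_of_le h1 hC) (fun z hz => hea.2 z hz)
    rw [hcard] at h2
    have : p * 1 < p * p := Nat.mul_lt_mul_of_pos_left hpp.one_lt hpp.pos
    nlinarith
  have hbp : b ^ p = 1 := hea.2 b hbΩ
  have hb1 : b ≠ 1 := by rintro rfl; exact hbC (one_mem _)
  have hbo : orderOf b = p := orderOf_eq_prime hbp hb1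
  have hCmax : ∀ H : Subgroup G, C ≤ H → b ∈ H → H = ⊤ := by
    intro H hCH hbH
    have h1 := index_dvd_of_le hCH
    rw [hCi] at h1
    rcases (Nat.dvd_prime hpp).1 h1 with h2 | h2
    · rwa [index_eq_one] at h2
    · exfalso
      have := eq_of_le_of_index_eq hCH (hCi.trans h2.symm)
      rw [this] at hbC
      exact hbC hbH
  have hCn : C.Normal := Cfsg.Agent.H2.PGroup.normal_of_index_p hpg hCi
  set c := ⁅b, a⁆ with hc
  have hcC : c ∈ C := by
    rw [hc, commutatorElement_def]
    exact C.mul_mem (hCn.conj_mem _ haC b) (C.inv_mem haC)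
  have hcz : ∀ g : G, g * c = c * g := fun g => mem_center_iff.1 (hcen b a) g
  have hc1 : c ≠ 1 := by
    intro h
    have h1 : b * a = a * b := commutatorElement_eq_one_iff_mul_comm.1 h
    apply hxy0
    have h2 : centralizer {a} = ⊤ := hCmax _ (by
      rw [hCa, zpowers_le, mem_centralizer_singleton_iff]) (by
      rw [mem_centralizer_singleton_iff]; exact h1)
    have h3 : centralizer (C : Set G) = ⊤ := by
      rw [eq_top_iff, hCa, le_centralizer_iff, zpowers_le, mem_centralizer_iff]
      intro g _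
      have : g ∈ centralizer {a} := by rw [h2]; exact mem_top g
      exact mem_centralizer_singleton_iff.1 this
    have h4 : centralizer {b} = ⊤ := hCmax _ (by
      intro g hg
      rw [mem_centralizer_singleton_iff]
      have : b ∈ centralizer (C : Set G) := by rw [h3]; exact mem_top b
      exact (mem_centralizer_iff.1 this) g hg) (by rw [mem_centralizer_singleton_iff])
    have h5 : center G = ⊤ := by
      apply hCmax
      · intro g hg
        rw [mem_center_iff]
        intro x
        have : x ∈ centralizer (C : Set G) := by rw [h3]; exact mem_top x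
        exact ((mem_centralizer_iff.1 this) g hg).symm
      · rw [mem_center_iff]
        intro x
        have : x ∈ centralizer {b} := by rw [h4]; exact mem_top x
        exact mem_centralizer_singleton_iff.1 this
    have : y0 ∈ center G := by rw [h5]; exact mem_top y0
    exact mem_center_iff.1 this x0
  have hcp : c ^ p = 1 := by
    rw [hc, ← Cfsg.Agent.H2.Class.comm_pow_left hcen, hbp, commutatorElement_one_left]
  obtain ⟨k, hk⟩ : ∃ k : ℕ, a ^ k = c := by
    have h1 : c ∈ zpowers a := by rw [← hCa]; exact hcC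
    rw [← mem_powers_iff_mem_zpowers] at h1
    exact h1
  set d := a ^ p ^ (n - 2) with hd
  have hn1 : p ^ (n - 1) = p ^ (n - 2) * p := by rw [← pow_succ]; congr 1; omega
  have hdo : orderOf d = p := by
    rw [hd, orderOf_pow_of_dvd (pow_ne_zero _ hpp.ne_zero) (by rw [hao, hn1]; exact dvd_mul_right _ _), hao, hn1,
      Nat.mul_div_cancel_left _ (pow_pos hpp.pos _)]
  obtain ⟨j, hj⟩ : p ^ (n - 2) ∣ k := by
    have h1 : a ^ (k * p) = 1 := by rw [pow_mul, hk, hcp]
    have h2 := orderOf_dvd_of_pow_eq_one h1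
    rw [hao, hn1] at h2
    exact Nat.dvd_of_mul_dvd_mul_right hpp.pos h2
  have hcd : d ^ j = c := by rw [hd, ← pow_mul, ← hj, hk]
  have hpj : ¬ p ∣ j := by
    rintro ⟨t, rfl⟩
    apply hc1
    rw [← hcd, pow_mul, ← hdo, pow_orderOf_eq_one, one_pow]
  obtain ⟨i, hi⟩ : ∃ i : ℕ, (d ^ j) ^ i = d := by
    apply exists_pow_eq_self_of_coprime
    rw [hdo]
    exact ((Nat.Prime.coprime_iff_not_dvd hpp).2 hpj).symm
  rw [hcd] at hi
  have hpi : ¬ p ∣ i := by
    rintro ⟨t, rfl⟩
    rw [pow_mul, hcp, one_pow] at hi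
    rw [← hi, orderOf_one] at hdo
    exact hpp.one_lt.ne hdo
  obtain ⟨m, hm⟩ : ∃ m : ℕ, (b ^ i) ^ m = b := by
    apply exists_pow_eq_self_of_coprime
    rw [hbo]
    exact ((Nat.Prime.coprime_iff_not_dvd hpp).2 hpi).symm
  refine ⟨a, b ^ i, hao, ?_, ?_, ?_⟩
  · apply orderOf_eq_prime
    · rw [← pow_mul, mul_comm, pow_mul, hbp, one_pow]
    · intro h
      rw [h, one_pow] at hm
      exact hb1 hm.symm
  · intro h
    apply hbC
    rw [hCa, ← hm]
    exact pow_mem h m
  · have h1 : ⁅b ^ i, a⁆ = d := by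
      rw [Cfsg.Agent.H2.Class.comm_pow_left hcen]; exact hi
    rw [commutatorElement_def] at h1
    calc b ^ i * a * (b ^ i)⁻¹ = (b ^ i * a * (b ^ i)⁻¹ * a⁻¹) * a := by group
      _ = d * a := by rw [h1]
      _ = a ^ (1 + p ^ (n - 2)) := by rw [hd, ← pow_succ, add_comm]

end Cfsg.Agent.S0645
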