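import Cfsg.Statements.S0660
import Mathlib
import Cfsg.Agent.H1_Coprime2

set_option autoImplicit false
open Cfsg

namespace Cfsg.Agent.S0660

open Subgroup
open scoped Pointwise

/-- Under a coprime action on an abelian group, an invariant subgroup that is complemented admits an invariant complement. -/
theorem result {G : Type*} [Group G] [Finite G] (V A U : Subgroup G) (hVab : IsMulCommutative V) (hAV : A ≤ Subgroup.normalizer (V : Set G)) (hcop : (Nat.card A).Coprime (Nat.card V)) (hUV : U ≤ V) (hAU : A ≤ Subgroup.normalizer (U : Set G)) (W : Subgroup G) (hWV : W ≤ V) (hUW : U ⊓ W = ⊥) (hUWV : U ⊔ W = V) : ∃ W' : Subgroup G, W' ≤ V ∧ A ≤ Subgroup.normalizer (W' : Set G) ∧ U ⊓ W' = ⊥ ∧ U ⊔ W' = V := by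
  classical
  have : Fintype A := Fintype.ofFinite A
  open scoped IsMulCommutative in
  let cj : A → V →* V := fun a =>
    { toFun := fun v => ⟨a * v * (a : G)⁻¹, (mem_normalizer_iff.1 (hAV a.2) _).1 v.2⟩
      map_one' := by ext; simp
      map_mul' := by intro x y; ext; simp [mul_assoc] }
  have hcj : ∀ (a b : A) (v : V), cj a (cj b v) = cj (a * b) v := by
    intro a b v; ext; simp [cj, mul_assoc]
  have hcj1 : ∀ v : V, cj 1 v = v := by
    intro v; ext; simp [cj]
  let U' : Subgroup V := U.subgroupOf V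
  let W' : Subgroup V := W.subgroupOf V
  let f : U' × W' →* V := U'.subtype.coprod W'.subtype
  have hinj : Function.Injective f := by
    rw [injective_iff_map_eq_one]
    rintro ⟨u, w⟩ h
    have h1 : (u : V) * (w : V) = 1 := h
    have h2 : ((u : V) : G) * ((w : V) : G) = 1 := congrArg Subtype.val h1
    have h3 : ((u : V) : G) ∈ U ⊓ W := ⟨u.2, by
      rw [eq_inv_of_mul_eq_one_left h2]; exact W.inv_mem w.2⟩
    rw [hUW, mem_bot] at h3
    rw [h3, one_mul] at h2
    exact Prod.ext (Subtype.ext (Subtype.ext h3)) (Subtype.ext (Subtype.ext h2))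
  have hsurj : Function.Surjective f := by
    intro v
    have hv : (v : G) ∈ U ⊔ W := by rw [hUWV]; exact v.2
    have hnorm : U ≤ normalizer (W : Set G) := by
      intro u hu
      rw [mem_normalizer_iff]
      intro x
      have hcomm : ∀ x ∈ V, ∀ y ∈ V, x * y = y * x := fun x hx y hy =>
        congrArg Subtype.val (hVab.is_comm.comm (⟨x, hx⟩ : V) ⟨y, hy⟩)
      constructor
      · intro hx
        rw [hcomm u (hUV hu) x (hWV hx), mul_inv_cancel_right]; exact hx
      · intro hx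
        have h1 := hcomm u (hUV hu) _ (hWV hx)
        have h2 : u * (u * x * u⁻¹) * u⁻¹ = u * x * u⁻¹ := by rw [h1]; group
        have h3 : u * x * u⁻¹ = x := by
          have := congrArg (fun z => u⁻¹ * z * u) h2
          simpa [mul_assoc] using this
        rwa [h3] at hx
    obtain ⟨u, hu, w, hw, huw⟩ := (Cfsg.Agent.H1.Basic.mem_sup_iff_of_le_normalizer (N := W) (H := U) hnorm).1
      (by rw [sup_comm]; exact hv)
    refine ⟨⟨⟨⟨w, hUV hw⟩, hw⟩, ⟨⟨u, hWV hu⟩, hu⟩⟩, ?_⟩
    apply Subtype.ext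
    change w * u = v
    have hcomm := congrArg Subtype.val (hVab.is_comm.comm (⟨u, hWV hu⟩ : V) ⟨w, hUV hw⟩)
    rw [← huw]
    exact hcomm.symm
  let e : U' × W' ≃* V := MulEquiv.ofBijective f ⟨hinj, hsurj⟩
  let π : V →* V := U'.subtype.comp ((MonoidHom.fst U' W').comp e.symm.toMonoidHom)
  have hπU : ∀ v : V, ((π v : V) : G) ∈ U := fun v => ((e.symm v).1).2
  have hπid : ∀ u : V, (u : G) ∈ U → π u = u := by
    intro u hu
    have h1 : e (⟨u, hu⟩, 1) = u := by
      change ((u : V)) * ((1 : W') : V) = u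
      rw [OneMemClass.coe_one, mul_one]
    have h2 : e.symm u = (⟨u, hu⟩, 1) := e.symm_apply_eq.2 h1.symm
    change ((e.symm u).1 : V) = u
    rw [h2]
  open scoped IsMulCommutative in
  let ψ : V →* V :=
    { toFun := fun v => ∏ a : A, cj a (π (cj a⁻¹ v))
      map_one' := by simp
      map_mul' := by intro x y; simp [Finset.prod_mul_distrib] }
  have hψU : ∀ v : V, ((ψ v : V) : G) ∈ U := by
    intro v
    have : ψ v ∈ U' := by
      apply Subgroup.prod_mem
      intro a _
      rw [mem_subgroupOf]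
      exact (mem_normalizer_iff.1 (hAU a.2) _).1 (hπU _)
    exact this
  have hψid : ∀ u : V, (u : G) ∈ U → ψ u = u ^ Fintype.card A := by
    intro u hu
    change ∏ a : A, cj a (π (cj a⁻¹ u)) = _
    rw [Finset.prod_congr rfl (fun a _ => ?_), Finset.prod_const, Finset.card_univ]
    rw [hπid _ ((mem_normalizer_iff.1 (hAU (A.inv_mem a.2)) _).1 hu), hcj, mul_inv_cancel, hcj1]
  have hψcj : ∀ (b : A) (v : V), ψ (cj b v) = cj b (ψ v) := by
    intro b v
    change ∏ a : A, cj a (π (cj a⁻¹ (cj b v))) = cj b (∏ a : A, cj a (π (cj a⁻¹ v)))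
    rw [map_prod]
    apply Fintype.prod_equiv (Equiv.mulLeft b⁻¹)
    intro a
    rw [Equiv.coe_mulLeft, hcj, hcj, mul_inv_cancel_left, mul_inv_rev, inv_inv]
  have hUcop : (Nat.card U).Coprime (Fintype.card A) := by
    rw [← Nat.card_eq_fintype_card]
    exact (hcop.coprime_dvd_right (card_dvd_of_le hUV)).symm
  have hker : U ⊓ ψ.ker.map V.subtype = ⊥ := by
    rw [eq_bot_iff]
    rintro _ ⟨hu, ⟨v, hv, rfl⟩⟩
    have h1 : v ^ Fintype.card A = 1 := by rw [← hψid v hu]; exact hv
    have h2 : (v : G) ^ Fintype.card A = 1 := congrArg Subtype.val h1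
    have h3 : orderOf (v : G) ∣ Nat.gcd (Nat.card U) (Fintype.card A) :=
      Nat.dvd_gcd (Subgroup.orderOf_dvd_natCard U hu) (orderOf_dvd_of_pow_eq_one h2)
    rw [hUcop, Nat.dvd_one, orderOf_eq_one_iff] at h3
    exact h3
  refine ⟨ψ.ker.map V.subtype, map_subtype_le _, ?_, hker, ?_⟩
  · intro a ha
    apply mem_normalizer_fintype
    rintro _ ⟨v, hv, rfl⟩
    refine ⟨cj ⟨a, ha⟩ v, ?_, rfl⟩
    rw [SetLike.mem_coe, MonoidHom.mem_ker] at hv ⊢
    rw [hψcj, hv, map_one]
  · apply le_antisymm (sup_le hUV (map_subtype_le _))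
    intro v hv
    -- `v = u · k`
    have hx := hψU ⟨v, hv⟩
    set x : V := ψ ⟨v, hv⟩ with hxdef
    obtain ⟨m, hm⟩ : ∃ m : ℕ, (x ^ Fintype.card A) ^ m = x := by
      apply exists_pow_eq_self_of_coprime
      rw [← Subgroup.orderOf_coe]
      exact (hUcop.coprime_dvd_left (Subgroup.orderOf_dvd_natCard U hx)).symm
    have hu : ((x ^ m : V) : G) ∈ U := U.pow_mem hx m
    have h1 : ψ (x ^ m) = x := by
      rw [hψid _ hu, ← pow_mul, mul_comm, pow_mul, hm]
    have h2 : (x ^ m)⁻¹ * ⟨v, hv⟩ ∈ ψ.ker := by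
      rw [MonoidHom.mem_ker, map_mul, map_inv, h1, hxdef, inv_mul_cancel]
    have h3 : v = ((x ^ m : V) : G) * (((x ^ m)⁻¹ * ⟨v, hv⟩ : V) : G) := by
      rw [← Subgroup.coe_mul, mul_inv_cancel_left]
    rw [h3]
    exact mul_mem (mem_sup_left hu) (mem_sup_right ⟨_, h2, rfl⟩)

end Cfsg.Agent.S0660
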