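import Cfsg.Statements.S0663
import Mathlib
import Cfsg.Agent.H2_PGroup
import Cfsg.Agent.H2_Quad
import Cfsg.Agent.H1_Coprime2

set_option autoImplicit false
open Cfsg

namespace Cfsg.Agent.S0663

open Subgroup Cfsg Cfsg.Agent.H2.Card
open scoped commutatorElement

section aux
variable {L : Type*} [Group L] [Finite L] {p : ℕ} [hp : Fact p.Prime] {N G : Subgroup L}

theorem comm_lt {H : Subgroup L} (hH : IsPGroup p H) (hG : IsPGroup p G) (hGH : G ≤ normalizer (H : Set L))
    (hne : H ≠ ⊥) : ⁅H, G⁆ < H := by
  refine lt_of_le_of_ne (Cfsg.Agent.H2.Quad.commutator_le_left_of_normalizes hGH) ?_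
  intro h
  have hsup : IsPGroup p (H ⊔ G : Subgroup L) := hH.to_sup_of_normal_left' hG hGH
  have hnil : Group.IsNilpotent (H ⊔ G : Subgroup L) := hsup.isNilpotent
  apply Cfsg.Agent.H1.Coprime.commutator_lt_of_nilpotent hnil le_sup_left hne
  exact h.ge.trans (Subgroup.commutator_mono le_rfl le_sup_right)

theorem inv (hGN : G ≤ normalizer (N : Set L)) : ∀ i, G ≤ normalizer (iterCommutator N G i : Set L) ∧
    iterCommutator N G i ≤ N := by
  intro i
  induction i with
  | zero => exact ⟨hGN, le_rfl⟩
  | succ i ih =>
    exact ⟨Subgroup.normalizer_commutator_ge_right _ _,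
      (Cfsg.Agent.H2.Quad.commutator_le_left_of_normalizes ih.1).trans ih.2⟩

theorem eq_of_between {A D B : Subgroup L} (h1 : A ≤ D) (h2 : D ≤ B) (hne : ¬ B ≤ D) (hi : A.relIndex B = p) :
    D = A := by
  have h3 := relIndex_mul_relIndex A D B h1 h2
  rw [hi] at h3
  have h4 : D.relIndex B ∣ p := ⟨_, by rw [mul_comm]; exact h3.symm⟩
  rcases (Nat.dvd_prime hp.out).1 h4 with h5 | h5
  · rw [relIndex_eq_one] at h5; exact absurd h5 hne
  · rw [h5] at h3
    have h6 : A.relIndex D = 1 := by
      have := hp.out.pos
      exact Nat.eq_of_mul_eq_mul_right this (by rw [h3, one_mul])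
    rw [relIndex_eq_one] at h6
    exact le_antisymm h6 h1

theorem chain_normal (hN : IsPGroup p N) (hG : IsPGroup p G) (hGN : G ≤ normalizer (N : Set L)) {n : ℕ}
    (h : ∀ i < n, (iterCommutator N G (i + 1)).relIndex (iterCommutator N G i) = p) :
    ∀ i ≤ n, N ≤ normalizer (iterCommutator N G i : Set L) := by
  intro i
  induction i with
  | zero => intro _; exact le_normalizer
  | succ i ih =>
    intro hi
    have h1 := ih (by omega)
    have hX : IsPGroup p (N ⊔ G : Subgroup L) := hN.to_sup_of_normal_left' hG hGN
    have hnil := hX.isNilpotent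
    have hrel := h i (by omega)
    have hne : iterCommutator N G i ≠ ⊥ := by
      intro h0
      rw [h0, relIndex_bot_right] at hrel
      exact hp.out.one_lt.ne hrel
    have h2 : ¬ iterCommutator N G i ≤ ⁅iterCommutator N G i, N ⊔ G⁆ :=
      Cfsg.Agent.H1.Coprime.commutator_lt_of_nilpotent hnil ((inv hGN i).2.trans le_sup_left) hne
    have h3 : ⁅iterCommutator N G i, N ⊔ G⁆ ≤ iterCommutator N G i :=
      Cfsg.Agent.H2.Quad.commutator_le_left_of_normalizes (sup_le h1 (inv hGN i).1)
    have h4 := eq_of_between (p := p) (A := iterCommutator N G (i + 1))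
      (commutator_mono le_rfl le_sup_right) h3 h2 hrel
    rw [← h4]
    exact le_sup_left.trans (Subgroup.normalizer_commutator_ge_right _ _)

theorem all (hN : IsPGroup p N) (hG : IsPGroup p G) (hGN : G ≤ normalizer (N : Set L)) {n : ℕ}
    (h : ∀ i < n, (iterCommutator N G (i + 1)).relIndex (iterCommutator N G i) = p)
    (hbot : iterCommutator N G n = ⊥) {H : Subgroup L} (hGH : G ≤ normalizer (H : Set L)) :
    ∀ k i, i + k = n → H ≤ iterCommutator N G i → ∃ j ≤ n, H = iterCommutator N G j := by
  intro k
  induction k with
  | zero =>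
    intro i hi hH
    rw [Nat.add_zero] at hi
    subst hi
    exact ⟨i, le_rfl, by rw [hbot] at hH ⊢; exact le_bot_iff.1 hH⟩
  | succ k ih =>
    intro i hi hH
    by_cases h1 : H ≤ iterCommutator N G (i + 1)
    · exact ih (i + 1) (by omega) h1
    · refine ⟨i, by omega, ?_⟩
      by_contra hne
      set I := iterCommutator N G i with hI
      have hIp : IsPGroup p I := hN.to_le (inv hGN i).2
      obtain ⟨M, hM⟩ := (Set.toFinite {M : Subgroup L | G ≤ normalizer (M : Set L) ∧ H ≤ M ∧ M < I}).exists_maximal
        ⟨H, hGH, le_rfl, lt_of_le_of_ne hH hne⟩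
      obtain ⟨hGM, hHM, hMI⟩ := hM.prop
      -- M normal in I
      have hIM : I ≤ normalizer (M : Set L) := by
        by_contra hcon
        have h2 : normalizer (M : Set L) ⊓ I < I := by
          refine lt_of_le_of_ne inf_le_right ?_
          intro h; apply hcon; rw [← h]; exact inf_le_left
        have h3 : G ≤ normalizer ((normalizer (M : Set L) ⊓ I : Subgroup L) : Set L) := by
          intro g hg
          have hg1 := hGM hg
          have hg2 : g ∈ normalizer (I : Set L) := (inv hGN i).1 hg
          rw [mem_normalizer_iff]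
          intro x
          rw [mem_inf, mem_inf, ← (mem_normalizer_iff.1 hg2 x)]
          refine and_congr_left (fun _ => ?_)
          constructor
          · intro hx; exact mul_mem (mul_mem hg1 hx) (inv_mem hg1)
          · intro hx
            have := mul_mem (mul_mem (inv_mem hg1) hx) hg1
            have e : g⁻¹ * (g * x * g⁻¹) * g = x := by group
            rwa [e] at this
        have h4 : M ≤ normalizer (M : Set L) ⊓ I := le_inf le_normalizer hMI.le
        have h5 := hM.2 ⟨h3, hHM.trans h4, h2⟩ h4
        -- normalizer condition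
        have hnil := hIp.isNilpotent
        have hlt : M.subgroupOf I < ⊤ := by
          rw [lt_top_iff_ne_top]
          intro h6
          rw [subgroupOf_eq_top] at h6
          exact hMI.not_ge h6
        have h7 := Group.normalizerCondition_of_isNilpotent (G := I) (M.subgroupOf I) hlt
        obtain ⟨x, hx, hxM⟩ := SetLike.exists_of_lt h7
        apply hxM
        rw [mem_subgroupOf]
        apply h5
        refine ⟨?_, x.2⟩
        apply mem_normalizer_fintype
        intro m hm
        have := (mem_normalizer_iff.1 hx ⟨m, hMI.le hm⟩).1 hm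
        exact this
      have hX : IsPGroup p (I ⊔ G : Subgroup L) := hIp.to_sup_of_normal_left' hG (inv hGN i).1
      have hIX : I ≤ I ⊔ G := le_sup_left
      have n1 : (M.subgroupOf (I ⊔ G)).Normal := normal_subgroupOf_of_le_normalizer (sup_le hIM hGM)
      have n2 : (I.subgroupOf (I ⊔ G)).Normal := normal_subgroupOf_of_le_normalizer (sup_le le_normalizer (inv hGN i).1)
      have hlt : M.subgroupOf (I ⊔ G) < I.subgroupOf (I ⊔ G) := by
        refine lt_of_le_of_ne (fun x hx => hMI.le hx) ?_
        intro h
        apply hMI.not_ge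
        intro x hx
        have : (⟨x, hIX hx⟩ : (I ⊔ G : Subgroup L)) ∈ M.subgroupOf (I ⊔ G) := by rw [h]; exact hx
        exact this
      obtain ⟨K, hKn, hMK, hKI, hKrel, hKc⟩ := Cfsg.Agent.H2.PGroup.exists_normal_relIndex hX hlt
      have h8 : ⁅I, G⁆ ≤ K.map (I ⊔ G).subtype := by
        rw [commutator_le]
        intro x hx g hg
        refine ⟨⁅(⟨x, hIX hx⟩ : (I ⊔ G : Subgroup L)), ⟨g, mem_sup_right hg⟩⁆, hKc (commutator_mem_commutator hx (mem_top _)), rfl⟩
      have h9 : M ≤ K.map (I ⊔ G).subtype := by
        intro x hx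
        exact ⟨⟨x, hIX (hMI.le hx)⟩, hMK hx, rfl⟩
      have h10 : K.map (I ⊔ G).subtype ≤ I := by
        rintro _ ⟨x, hx, rfl⟩
        exact hKI hx
      have h11 : ¬ I ≤ K.map (I ⊔ G).subtype := by
        intro h
        have h12 : I.subgroupOf (I ⊔ G) ≤ K := by
          intro x hx
          obtain ⟨y, hy, hyx⟩ := h (mem_subgroupOf.1 hx)
          have : y = x := Subtype.ext hyx
          rwa [← this]
        rw [← relIndex_eq_one, hKrel] at h12
        exact hp.out.one_lt.ne' h12
      have h13 := eq_of_between (p := p) h8 h10 h11 (h i (by omega))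
      exact h1 (hHM.trans (h9.trans h13.le))

end aux

/-- A p-group acts uniserially on a p-group N of order p^n exactly when the iterated commutator chain from N has length n; in that case the chain terms are all the invariant subgroups of N and they are normal in N. -/
theorem result {L : Type*} [Group L] [Finite L] {p : ℕ} [Fact p.Prime] (N G : Subgroup L) (hN : IsPGroup p N) (hG : IsPGroup p G) (hGN : G ≤ Subgroup.normalizer (N : Set L)) (n : ℕ) (hn : Nat.card N = p ^ n) : ((∀ H : Subgroup L, H ≤ N → G ≤ Subgroup.normalizer (H : Set L) → H ≠ ⊥ → (⁅H, G⁆).relIndex H = p) ↔ Cfsg.iterCommutator N G (n - 1) ≠ ⊥ ∨ n = 0) ∧ ((∀ H : Subgroup L, H ≤ N → G ≤ Subgroup.normalizer (H : Set L) → H ≠ ⊥ → (⁅H, G⁆).relIndex H = p) → ∀ H : Subgroup L, H ≤ N → G ≤ Subgroup.normalizer (H : Set L) → (∃ i ≤ n, H = Cfsg.iterCommutator N G i) ∧ N ≤ Subgroup.normalizer (H : Set L)) := by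
  have hpp : p.Prime := Fact.out
  have hI := fun i => inv (N := N) (G := G) hGN i
  have hIp : ∀ i, IsPGroup p (iterCommutator N G i) := fun i => hN.to_le (hI i).2
  have huni : (∀ H : Subgroup L, H ≤ N → G ≤ Subgroup.normalizer (H : Set L) → H ≠ ⊥ → (⁅H, G⁆).relIndex H = p) →
      ∀ i ≤ n, Nat.card (iterCommutator N G i) = p ^ (n - i) := by
    intro h i
    induction i with
    | zero => intro _; exact hn
    | succ i ih =>
      intro hi
      have h1 := ih (by omega)
      have hne : iterCommutator N G i ≠ ⊥ := by
        intro h0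
        rw [h0, card_bot] at h1
        exact (Nat.one_lt_pow (by omega) hpp.one_lt).ne h1
      have h2 := h _ (hI i).2 (hI i).1 hne
      have h3 := card_mul_relIndex (Cfsg.Agent.H2.Quad.commutator_le_left_of_normalizes (hI i).1)
      rw [h2, h1] at h3
      have h4 : p ^ (n - i) = p ^ (n - (i + 1)) * p := by rw [← pow_succ]; congr 1; omega
      rw [h4] at h3
      exact Nat.eq_of_mul_eq_mul_right hpp.pos h3
  have hchain : (∀ i ≤ n, Nat.card (iterCommutator N G i) = p ^ (n - i)) →
      (∀ i < n, (iterCommutator N G (i + 1)).relIndex (iterCommutator N G i) = p) ∧ iterCommutator N G n = ⊥ := by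
    intro h
    constructor
    · intro i hi
      have h3 := card_mul_relIndex (Cfsg.Agent.H2.Quad.commutator_le_left_of_normalizes (hI i).1)
      have h5 : Nat.card (⁅iterCommutator N G i, G⁆ : Subgroup L) = p ^ (n - (i + 1)) := h (i + 1) (by omega)
      rw [h5, h i hi.le] at h3
      have h4 : p ^ (n - i) = p ^ (n - (i + 1)) * p := by rw [← pow_succ]; congr 1; omega
      rw [h4] at h3
      exact Nat.eq_of_mul_eq_mul_left (pow_pos hpp.pos _) h3
    · have := h n le_rfl
      rwa [Nat.sub_self, pow_zero, card_eq_one] at this
  have hall : (∀ i ≤ n, Nat.card (iterCommutator N G i) = p ^ (n - i)) →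
      ∀ H : Subgroup L, H ≤ N → G ≤ Subgroup.normalizer (H : Set L) → ∃ i ≤ n, H = iterCommutator N G i := by
    intro h H hHN hGH
    obtain ⟨h1, h2⟩ := hchain h
    exact all hN hG hGN h1 h2 hGH n 0 (by omega) hHN
  refine ⟨⟨?_, ?_⟩, ?_⟩
  · intro h
    by_cases hn0 : n = 0
    · exact Or.inr hn0
    · left
      intro h0
      have := huni h (n - 1) (by omega)
      rw [h0, card_bot, show n - (n - 1) = 1 by omega, pow_one] at this
      exact hpp.one_lt.ne this
  · intro h
    have hcard : ∀ i ≤ n, Nat.card (iterCommutator N G i) = p ^ (n - i) := by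
      rcases h with h | h
      · have hne : ∀ j, ∀ i, i + j = n - 1 → iterCommutator N G i ≠ ⊥ := by
          intro j
          induction j with
          | zero => intro i hi; rw [Nat.add_zero] at hi; rw [hi]; exact h
          | succ j ih =>
            intro i hi h0
            apply ih (i + 1) (by omega)
            change ⁅iterCommutator N G i, G⁆ = ⊥
            rw [h0, Subgroup.commutator_bot_left]
        choose a ha using fun i => IsPGroup.iff_card.1 (hIp i)
        have ha0 : a 0 = n := Nat.pow_right_injective hpp.two_le (by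
          change p ^ a 0 = p ^ n
          rw [← ha, ← hn]; rfl)
        have hlt : ∀ i, i ≤ n - 1 → a (i + 1) < a i := by
          intro i hi
          have h1 := comm_lt (hIp i) hG (hI i).1 (hne (n - 1 - i) i (by omega))
          have h2 := card_lt_of_lt h1
          have h3 : Nat.card (⁅iterCommutator N G i, G⁆ : Subgroup L) = p ^ a (i + 1) := ha (i + 1)
          rw [h3, ha i] at h2
          exact (Nat.pow_lt_pow_iff_right hpp.one_lt).1 h2
        have hn1 : 1 ≤ n := by
          by_contra hcon
          have hn0 : n = 0 := by omega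
          subst hn0
          have := hlt 0 (by omega)
          omega
        have hub : ∀ i ≤ n, a i + i ≤ n := by
          intro i
          induction i with
          | zero => intro _; omega
          | succ i ih => intro hi; have := ih (by omega); have := hlt i (by omega); omega
        have hlb : ∀ j ≤ n, j ≤ a (n - j) := by
          intro j
          induction j with
          | zero => intro _; omega
          | succ j ih =>
            intro hj
            have h1 := ih (by omega)
            have h2 := hlt (n - (j + 1)) (by omega)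
            rw [show n - (j + 1) + 1 = n - j by omega] at h2
            omega
        intro i hi
        rw [ha]
        congr 1
        have h1 := hub i hi
        have h2 := hlb (n - i) (by omega)
        rw [show n - (n - i) = i by omega] at h2
        omega
      · subst h
        intro i hi
        have : i = 0 := by omega
        subst this
        exact hn
    intro H hHN hGH hne
    obtain ⟨j, hj, rfl⟩ := hall hcard H hHN hGH
    obtain ⟨h1, h2⟩ := hchain hcard
    have hjn : j ≠ n := by rintro rfl; exact hne h2
    exact h1 j (by omega)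
  · intro h H hHN hGH
    have hcard := huni h
    obtain ⟨j, hj, rfl⟩ := hall hcard H hHN hGH
    exact ⟨⟨j, hj, rfl⟩, chain_normal hN hG hGN (hchain hcard).1 j hj⟩

end Cfsg.Agent.S0663
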