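import Cfsg.Statements.S0666
import Mathlib
import Cfsg.Agent.H2_FrobAct
import Cfsg.Agent.H1_Frob
import Cfsg.Agent.S0035

set_option autoImplicit false
open Cfsg

namespace Cfsg.Agent.S0666

/-- A Frobenius group acting on a nontrivial abelian group of order prime to that of its kernel, with the kernel acting without nontrivial fixed points, has a complement with a nontrivial fixed point. -/
theorem result {G : Type*} [Group G] [Finite G] (V F : Subgroup G) (hVab : IsMulCommutative V) (hV1 : V ≠ ⊥) (hFV : F ≤ Subgroup.normalizer (V : Set G)) (H : Subgroup ↥F) (hH : Cfsg.IsFrobeniusComplement H) (hcop : (Nat.card V).Coprime (Nat.card (Cfsg.frobeniusKernel H))) (hCK : V ⊓ Subgroup.centralizer (Subtype.val '' Cfsg.frobeniusKernel H : Set G) = ⊥) : V ⊓ Subgroup.centralizer ((H.map F.subtype : Subgroup G) : Set G) ≠ ⊥ := by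
  classical
  obtain ⟨N, hNK, hNn, hNH⟩ := Cfsg.Agent.S0035.result H hH
  by_contra hno
  letI : CommGroup V := { (inferInstance : Group V) with mul_comm := hVab.is_comm.comm }
  let φ : F →* MulAut V := (V.normalizerMonoidHom).comp (Subgroup.inclusion hFV)
  have hφ : ∀ (f : F) (v : V), ((φ f v : V) : G) = f * v * (f : G)⁻¹ := fun f v => rfl
  have hfix : ∀ (f : F) (v : V), φ f v = v → (f : G) * v = v * f := by
    intro f v h
    have h1 : (f : G) * v * (f : G)⁻¹ = v := by rw [← hφ, h]
    rw [mul_inv_eq_iff_eq_mul] at h1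
    exact h1
  have hNker : ∀ v : V, (∀ n ∈ N, φ n v = v) → v = 1 := by
    intro v hv
    have h1 : (v : G) ∈ V ⊓ Subgroup.centralizer (Subtype.val '' Cfsg.frobeniusKernel H : Set G) := by
      refine ⟨v.2, ?_⟩
      refine Subgroup.mem_centralizer_iff.2 ?_
      rintro _ ⟨n, hn, rfl⟩
      rw [← hNK] at hn
      exact hfix n v (hv n hn)
    rw [hCK, Subgroup.mem_bot] at h1
    exact Subtype.ext h1
  have hHfix : ∀ v : V, (∀ h ∈ H, φ h v = v) → v = 1 := by
    intro v hv
    have h1 : (v : G) ∈ V ⊓ Subgroup.centralizer ((H.map F.subtype : Subgroup G) : Set G) := by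
      refine ⟨v.2, ?_⟩
      refine Subgroup.mem_centralizer_iff.2 ?_
      rintro _ ⟨n, hn, rfl⟩
      exact hfix n v (hv n hn)
    rw [hno, Subgroup.mem_bot] at h1
    exact Subtype.ext h1
  have hdisj : Disjoint N H := hNH.disjoint
  have h2 := Cfsg.Agent.H2.FrobAct.trivial_of φ N H hNker hHfix (by
    intro h hh h1 k hk hkh
    have h3 : k ∈ H := by
      exact Cfsg.Agent.H1.Frob.centralizer_le hH hh h1 hkh
    have h5 : k ∈ N ⊓ H := ⟨hk, h3⟩
    rw [disjoint_iff.1 hdisj] at h5
    exact h5) (by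
    have : Nat.card N = Nat.card (Cfsg.frobeniusKernel H) := by
      rw [← hNK]; rfl
    rw [this]; exact hcop.symm)
  apply hV1
  rw [eq_bot_iff]
  intro v hv
  exact congrArg Subtype.val (h2 ⟨v, hv⟩)

end Cfsg.Agent.S0666
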