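import Cfsg.Statements.S0668
import Cfsg.Agent.H9_PermMod

set_option autoImplicit false
open Cfsg

namespace Cfsg.Agent.S0668

noncomputable def Psi (G : Type*) [Group G] (K : Type*) [Field K] (Ω₁ Ω₂ : Type*) [Fintype Ω₁] [Fintype Ω₂] [MulAction G Ω₁] [MulAction G Ω₂] :
    (MulAction.orbitRel.Quotient G (Ω₁ × Ω₂) → K) →ₗ[K] ((Ω₁ → K) →ₗ[K] (Ω₂ → K)) where
  toFun φ :=
    { toFun := fun f y => ∑ x, φ (Quotient.mk'' (x, y)) * f x
      map_add' := by intro f f'; funext u; simp [mul_add, Finset.sum_add_distrib]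
      map_smul' := by intro c f; funext u; simp [Finset.mul_sum, mul_left_comm] }
  map_add' := by
    intro φ ψ
    ext f y
    simp [add_mul, Finset.sum_add_distrib]
  map_smul' := by
    intro c φ
    ext f y
    simp [Finset.mul_sum, mul_assoc]

theorem Psi_apply {G : Type*} [Group G] {K : Type*} [Field K] {Ω₁ Ω₂ : Type*} [Fintype Ω₁] [Fintype Ω₂] [MulAction G Ω₁] [MulAction G Ω₂]
    (φ : MulAction.orbitRel.Quotient G (Ω₁ × Ω₂) → K) (f : Ω₁ → K) (y : Ω₂) :
    Psi G K Ω₁ Ω₂ φ f y = ∑ x, φ (Quotient.mk'' (x, y)) * f x := rfl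

theorem Psi_single {G : Type*} [Group G] {K : Type*} [Field K] {Ω₁ Ω₂ : Type*} [Fintype Ω₁] [DecidableEq Ω₁] [Fintype Ω₂] [MulAction G Ω₁] [MulAction G Ω₂]
    (φ : MulAction.orbitRel.Quotient G (Ω₁ × Ω₂) → K) (x : Ω₁) (y : Ω₂) :
    Psi G K Ω₁ Ω₂ φ (Pi.single x 1) y = φ (Quotient.mk'' (x, y)) := by
  rw [Psi_apply]
  simp [Pi.single_apply]

theorem linear_eq_sum {K : Type*} [Field K] {Ω₁ Ω₂ : Type*} [Fintype Ω₁] [DecidableEq Ω₁]
    (F : (Ω₁ → K) →ₗ[K] (Ω₂ → K)) (f : Ω₁ → K) (y : Ω₂) : F f y = ∑ x, F (Pi.single x 1) y * f x := by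
  have h1 : f = ∑ x, f x • (Pi.single x (1 : K) : Ω₁ → K) := by
    funext y
    simp [Finset.sum_apply, Pi.single_apply]
  conv_lhs => rw [h1]
  rw [map_sum, Finset.sum_apply]
  apply Finset.sum_congr rfl
  intro x _
  rw [map_smul, Pi.smul_apply, smul_eq_mul, mul_comm]

/-- The equivariant linear maps between the permutation modules of two finite `G`-sets form a space whose dimension is the number of `G`-orbits on the product of the two sets. -/
theorem result {G : Type*} [Group G] {K : Type*} [Field K] {Ω₁ Ω₂ : Type*} [Fintype Ω₁] [Fintype Ω₂] [MulAction G Ω₁] [MulAction G Ω₂] : Module.finrank K ((Cfsg.permRep K G Ω₁).linHom (Cfsg.permRep K G Ω₂)).invariants = Nat.card (MulAction.orbitRel.Quotient G (Ω₁ × Ω₂)) := by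
  classical
  have hinj : Function.Injective (Psi G K Ω₁ Ω₂) := by
    intro φ ψ h
    funext q
    obtain ⟨⟨x, y⟩, rfl⟩ := Quotient.exists_rep q
    have h1 : Psi G K Ω₁ Ω₂ φ (Pi.single x 1) y = Psi G K Ω₁ Ω₂ ψ (Pi.single x 1) y := by rw [h]
    rw [Psi_single, Psi_single] at h1
    exact h1
  have hrange : ((Cfsg.permRep K G Ω₁).linHom (Cfsg.permRep K G Ω₂)).invariants = LinearMap.range (Psi G K Ω₁ Ω₂) := by
    ext F
    rw [Representation.mem_invariants]
    constructor
    · intro h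
      have h1 : ∀ (g : G) (x : Ω₁) (y : Ω₂), F (Pi.single (g • x) 1) (g • y) = F (Pi.single x 1) y := by
        intro g x y
        have h2 := LinearMap.congr_fun (h g) (Pi.single (g • x) 1)
        have h3 := congrFun h2 (g • y)
        rw [Representation.linHom_apply] at h3
        rw [← h3]
        simp only [LinearMap.comp_apply]
        rw [H9.PermMod.permRep_apply, inv_smul_smul]
        have h4 : (Cfsg.permRep K G Ω₁) g⁻¹ (Pi.single (g • x) 1) = Pi.single x 1 := by
          funext z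
          rw [H9.PermMod.permRep_apply, inv_inv, Pi.single_apply, Pi.single_apply]
          simp only [smul_left_cancel_iff]
        rw [h4]
      refine ⟨Quotient.lift (fun xy : Ω₁ × Ω₂ => F (Pi.single xy.1 1) xy.2) ?_, ?_⟩
      · rintro ⟨x, y⟩ ⟨x', y'⟩ ⟨g, hg⟩
        change (g • x', g • y') = (x, y) at hg
        rw [Prod.mk.injEq] at hg
        simp only
        rw [← hg.1, ← hg.2, h1]
      · ext x y
        simp only [LinearMap.comp_apply, LinearMap.single_apply]
        rw [Psi_single]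
        rfl
    · rintro ⟨φ, rfl⟩ g
      rw [Representation.linHom_apply]
      ext x y
      simp only [LinearMap.comp_apply, LinearMap.single_apply]
      rw [H9.PermMod.permRep_apply, Psi_apply, Psi_apply]
      apply Fintype.sum_equiv (MulAction.toPerm g)
      intro z
      rw [MulAction.toPerm_apply, H9.PermMod.permRep_apply, inv_inv]
      congr 2
      apply Quotient.sound
      refine ⟨g⁻¹, ?_⟩
      change (g⁻¹ • g • z, g⁻¹ • y) = (z, g⁻¹ • y)
      rw [inv_smul_smul]
  rw [hrange, LinearMap.finrank_range_of_inj hinj]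
  haveI : Finite (MulAction.orbitRel.Quotient G (Ω₁ × Ω₂)) := Quotient.finite _
  letI := Fintype.ofFinite (MulAction.orbitRel.Quotient G (Ω₁ × Ω₂))
  rw [Module.finrank_fintype_fun_eq_card, Nat.card_eq_fintype_card]

end Cfsg.Agent.S0668
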