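import Cfsg.Statements.S0669
-- import your own Cfsg.Agent.* helpers here

set_option autoImplicit false
open Cfsg

namespace Cfsg.Agent.S0669

/-- The rank of a transitive action: orbits on ordered pairs correspond to orbits of a point stabiliser. -/
theorem result {G : Type*} [Group G] {Ω : Type*} [Finite Ω] [MulAction G Ω] [MulAction.IsPretransitive G Ω] (a : Ω) : Nat.card (MulAction.orbitRel.Quotient G (Ω × Ω)) = Nat.card (MulAction.orbitRel.Quotient (MulAction.stabilizer G a) Ω) := by
  classical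
  let f : MulAction.orbitRel.Quotient (MulAction.stabilizer G a) Ω → MulAction.orbitRel.Quotient G (Ω × Ω) :=
    Quotient.map' (fun b => (a, b)) (by
      rintro b c ⟨⟨g, hg⟩, rfl⟩
      refine ⟨g, ?_⟩
      have : g • a = a := hg
      simp [Prod.smul_mk, this]
      rfl)
  symm
  refine Nat.card_congr (Equiv.ofBijective f ⟨?_, ?_⟩)
  · rintro ⟨b⟩ ⟨c⟩ h
    have h' := Quotient.exact h
    obtain ⟨g, hg⟩ := h'
    have h1 : g • a = a := congrArg Prod.fst hg
    have h2 : g • c = b := congrArg Prod.snd hg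
    exact Quotient.sound ⟨⟨g, h1⟩, h2⟩
  · rintro ⟨⟨x, y⟩⟩
    obtain ⟨g, hg⟩ := MulAction.exists_smul_eq G x a
    refine ⟨Quotient.mk _ (g • y), ?_⟩
    refine Quotient.sound ⟨g, ?_⟩
    simp [Prod.smul_mk, hg]

end Cfsg.Agent.S0669
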