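import Cfsg.Statements.S0677
import Cfsg.Agent.H9_DiffSet

set_option autoImplicit false
open Cfsg

namespace Cfsg.Agent.S0677

/-- In a transitive permutation group of prime degree `p` whose Sylow `p`-normaliser has even order, the point stabilisers are the only subgroups of index `p`. -/
theorem result {α : Type*} [Fintype α] [DecidableEq α] {p : ℕ} [Fact p.Prime] (hα : Fintype.card α = p) (G : Subgroup (Equiv.Perm α)) [MulAction.IsPretransitive G α] (P : Sylow p G) (heven : Even (Nat.card (Subgroup.normalizer ((P : Subgroup G) : Set G)))) (H : Subgroup G) (hH : H.index = p) : ∃ a : α, H = MulAction.stabilizer G a := by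
  classical
  have hp : p.Prime := Fact.out
  have hcard := Subgroup.card_mul_index H
  rw [hH] at hcard
  have hpH : ¬ p ∣ Nat.card H := by
    intro h
    obtain ⟨k, hk⟩ := h
    apply H9.Burnside.not_sq_dvd (p := p) hα (G := G)
    rw [← hcard, hk]
    exact ⟨k, by ring⟩
  have key : ∃ a : α, H ≤ MulAction.stabilizer G a := by
    by_cases hA : H9.PrimeDeg.Aff p G α
    · obtain ⟨e, he⟩ := hA
      -- barycentre
      have hHne : ((Nat.card H : ℕ) : ZMod p) ≠ 0 := by
        intro h
        rw [ZMod.natCast_eq_zero_iff] at h
        exact hpH h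
      letI : Fintype H := Fintype.ofFinite H
      let m : ZMod p := (∑ h : H, e.symm ((h : G) • e 0)) / (Nat.card H : ZMod p)
      refine ⟨e m, fun g hg => ?_⟩
      rw [MulAction.mem_stabilizer_iff]
      obtain ⟨a, b, hab⟩ := he g
      rw [hab]
      congr 1
      have h1 : ∑ h : H, (a * e.symm ((h : G) • e 0) + b) = ∑ h : H, e.symm ((h : G) • e 0) := by
        apply Fintype.sum_equiv (Equiv.mulLeft (⟨g, hg⟩ : H))
        intro h
        rw [Equiv.coe_mulLeft]
        symm
        rw [Equiv.symm_apply_eq, ← hab, Equiv.apply_symm_apply, ← mul_smul]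
        rfl
      rw [Finset.sum_add_distrib, ← Finset.mul_sum] at h1
      simp only [Finset.sum_const, Finset.card_univ, nsmul_eq_mul] at h1
      rw [← Nat.card_eq_fintype_card] at h1
      simp only [m]
      field_simp
      linear_combination h1
    · have hp3 : 3 < p := by
        by_contra h
        exact hA (H9.Burnside.aff_of_le_three (p := p) hα (by omega))
      exact H9.DiffSet.two_transitive_case (p := p) hα (by omega) (H9.Burnside.burnside (p := p) hα hA) P heven H hH hpH
  obtain ⟨a, ha⟩ := key
  refine ⟨a, ?_⟩
  apply Subgroup.eq_of_le_of_card_ge ha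
  have h1 := Subgroup.card_mul_index (MulAction.stabilizer G a)
  rw [MulAction.index_stabilizer_of_transitive, Nat.card_eq_fintype_card (α := α), hα] at h1
  have h2 : Nat.card (MulAction.stabilizer G a) * p = Nat.card H * p := by rw [h1, hcard]
  exact (Nat.eq_of_mul_eq_mul_right hp.pos h2).le

end Cfsg.Agent.S0677
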