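import Cfsg.Statements.S0680
import Mathlib
import Cfsg.Agent.H9_Sharp2

set_option autoImplicit false
open Cfsg

namespace Cfsg.Agent.S0680

/-- A finite sharply doubly transitive permutation group has degree a prime power `p ^ j`; a Sylow `p`-subgroup is normal, elementary abelian and regular, and consists of the identity together with the elements without fixed points. (Frobenius' Theorem is not needed.) -/
theorem result {α : Type*} [Fintype α] [DecidableEq α] (G : Subgroup (Equiv.Perm α)) [MulAction.IsMultiplyPretransitive G α 2] (hsharp : ∀ x : Fin 2 ↪ α, MulAction.stabilizer G x = ⊥) (h2 : 2 ≤ Fintype.card α) : ∃ p j : ℕ, p.Prime ∧ 1 ≤ j ∧ Fintype.card α = p ^ j ∧ ∀ (hp : Fact p.Prime) (P : Sylow p G), (P : Subgroup G).Normal ∧ IsMulCommutative (P : Subgroup G) ∧ (∀ x ∈ (P : Subgroup G), x ^ p = 1) ∧ MulAction.IsPretransitive (P : Subgroup G) α ∧ (∀ a : α, MulAction.stabilizer (P : Subgroup G) a = ⊥) ∧ ∀ g : G, g ∈ (P : Subgroup G) ↔ g = 1 ∨ ∀ a : α, g • a ≠ a := by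
  classical
  obtain ⟨p, j, hp, hj, hcard, K, hKn, hcardK, hKc, hKp, hKt, hKreg, hKmem, hcG⟩ :=
    H9.Sharp2.main (G := G) (α := α) inferInstance hsharp h2
  refine ⟨p, j, hp, hj, hcard, ?_⟩
  intro hpf P
  have hndvd : ¬ p ∣ p ^ j - 1 := by
    intro h
    have h1 : p ∣ p ^ j := dvd_pow_self p (by omega)
    have h2 : 0 < p ^ j := pow_pos hp.pos j
    have h3 : p ∣ 1 := by
      have := (Nat.dvd_sub h1 h)
      rwa [Nat.sub_sub_self h2] at this
    exact hp.one_lt.ne' (Nat.dvd_one.1 h3)
  have hfac : (Nat.card G).factorization p = j := by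
    have hne : p ^ j - 1 ≠ 0 := by
      intro h; rw [h] at hndvd; exact hndvd (dvd_zero p)
    rw [hcG, Nat.factorization_mul (pow_pos hp.pos j).ne' hne, Finsupp.add_apply, Nat.factorization_eq_zero_of_not_dvd hndvd,
      hp.factorization_pow, Finsupp.single_eq_same, add_zero]
  let P' : Sylow p G := Sylow.ofCard K (by rw [hcardK, hfac])
  haveI hP'n : (P' : Subgroup G).Normal := hKn
  haveI := Sylow.unique_of_normal P' hP'n
  have hPK : (P : Subgroup G) = K := by
    rw [Subsingleton.elim P P']; rfl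
  rw [hPK]
  exact ⟨hKn, hKc, hKp, hKt, hKreg, hKmem⟩

end Cfsg.Agent.S0680
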