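import Cfsg.Statements.S0681
-- import your own Cfsg.Agent.* helpers here

set_option autoImplicit false
open Cfsg

namespace Cfsg.Agent.S0681

open Cfsg in
theorem zero_mul' {F : Type*} [Cfsg.NearField F] (a : F) : (0:F) * a = 0 := by
  have h := Cfsg.NearField.right_distrib (0:F) 0 a
  rw [add_zero] at h
  exact (left_eq_add.mp h)

theorem neg_mul' {F : Type*} [Cfsg.NearField F] (x a : F) : (-x) * a = -(x * a) := by
  have h := Cfsg.NearField.right_distrib x (-x) a
  rw [add_neg_cancel, zero_mul'] at h
  exact (neg_eq_of_add_eq_zero_right h.symm).symm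

theorem sub_mul' {F : Type*} [Cfsg.NearField F] (x y a : F) : (x - y) * a = x * a - y * a := by
  rw [sub_eq_add_neg, Cfsg.NearField.right_distrib, neg_mul', ← sub_eq_add_neg]

/-- the affine permutation -/
noncomputable def aff {F : Type*} [Cfsg.NearField F] (a b a' : F) (h1 : a * a' = 1) (h2 : a' * a = 1) : Equiv.Perm F where
  toFun x := x * a + b
  invFun y := (y - b) * a'
  left_inv x := by simp [mul_assoc, h1]
  right_inv y := by simp [mul_assoc, h2]

/-- The affine maps `x ↦ x * a + b`, `a ≠ 0`, of a near-field form a sharply doubly transitive permutation group. -/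
theorem result {F : Type*} [Cfsg.NearField F] : ∃ H : Subgroup (Equiv.Perm F), (∀ σ : Equiv.Perm F, σ ∈ H ↔ ∃ a b : F, a ≠ 0 ∧ ∀ x : F, σ x = x * a + b) ∧ MulAction.IsMultiplyPretransitive H F 2 ∧ ∀ x : Fin 2 ↪ F, MulAction.stabilizer H x = ⊥ := by
  classical
  let H : Subgroup (Equiv.Perm F) :=
    { carrier := {σ | ∃ a b : F, a ≠ 0 ∧ ∀ x : F, σ x = x * a + b}
      one_mem' := ⟨1, 0, (Cfsg.NearField.zero_ne_one).symm, fun x => by simp⟩
      mul_mem' := by
        rintro σ τ ⟨a, b, ha, hσ⟩ ⟨c, d, hc, hτ⟩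
        refine ⟨c * a, d * a + b, ?_, fun x => ?_⟩
        · intro h
          obtain ⟨a', h1, h2⟩ := Cfsg.NearField.exists_inv a ha
          have : c * a * a' = 0 := by rw [h, zero_mul']
          rw [mul_assoc, h1, mul_one] at this
          exact hc this
        · simp only [Equiv.Perm.coe_mul, Function.comp_apply, hσ, hτ, Cfsg.NearField.right_distrib, mul_assoc, add_assoc]
      inv_mem' := by
        rintro σ ⟨a, b, ha, hσ⟩
        obtain ⟨a', h1, h2⟩ := Cfsg.NearField.exists_inv a ha
        refine ⟨a', (-b) * a', ?_, fun x => ?_⟩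
        · rintro rfl
          rw [Cfsg.NearField.mul_zero] at h1
          exact Cfsg.NearField.zero_ne_one h1
        · apply σ.injective
          rw [Equiv.Perm.inv_def, Equiv.apply_symm_apply, hσ, ← Cfsg.NearField.right_distrib, mul_assoc, h2]
          simp }
  have hH : ∀ σ : Equiv.Perm F, σ ∈ H ↔ ∃ a b : F, a ≠ 0 ∧ ∀ x : F, σ x = x * a + b := fun σ => Iff.rfl
  refine ⟨H, hH, ?_, ?_⟩
  · rw [MulAction.is_two_pretransitive_iff]
    intro x y u v hxy huv
    have hxy' : x - y ≠ 0 := sub_ne_zero.2 hxy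
    have huv' : u - v ≠ 0 := sub_ne_zero.2 huv
    obtain ⟨d, hd1, hd2⟩ := Cfsg.NearField.exists_inv _ hxy'
    have ha : d * (u - v) ≠ 0 := by
      intro h
      have : (x - y) * (d * (u - v)) = 0 := by rw [h, Cfsg.NearField.mul_zero]
      rw [← mul_assoc, hd1, one_mul] at this
      exact huv' this
    obtain ⟨a', h1, h2⟩ := Cfsg.NearField.exists_inv _ ha
    set a := d * (u - v) with hadef
    have hsub : x * a - y * a = u - v := by
      rw [← sub_mul', hadef, ← mul_assoc, hd1, one_mul]
    refine ⟨⟨aff a (-(x * a) + u) a' h1 h2, ⟨a, _, ha, fun x => rfl⟩⟩, ?_, ?_⟩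
    · change x * a + (-(x * a) + u) = u
      simp
    · change y * a + (-(x * a) + u) = v
      have : y * a + -(x*a) = v - u := by
        rw [← neg_sub u v, ← hsub, neg_sub, sub_eq_add_neg]
      rw [← add_assoc, this]; simp
  · intro x
    rw [eq_bot_iff]
    rintro ⟨σ, a, b, ha, hσ⟩ hs
    rw [MulAction.mem_stabilizer_iff] at hs
    have e0 : x 0 * a + b = x 0 := by
      have := congrArg (fun f : Fin 2 ↪ F => f 0) hs
      rw [← hσ]; exact this
    have e1 : x 1 * a + b = x 1 := by
      have := congrArg (fun f : Fin 2 ↪ F => f 1) hs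
      rw [← hσ]; exact this
    have hne : x 0 - x 1 ≠ 0 := sub_ne_zero.2 (fun h => by simpa using x.injective h)
    obtain ⟨d, hd1, hd2⟩ := Cfsg.NearField.exists_inv _ hne
    have h3 : (x 0 - x 1) * a = x 0 - x 1 := by
      rw [sub_mul']
      conv_rhs => rw [← e0, ← e1]
      simp
    have ha1 : a = 1 := by
      have := congrArg (fun t => d * t) h3
      simp only [← mul_assoc, hd2, one_mul] at this
      exact this
    subst ha1
    have hb : b = 0 := by simpa using e0
    subst hb
    rw [Subgroup.mem_bot]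
    apply Subtype.ext
    ext t
    simp [hσ]

end Cfsg.Agent.S0681
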