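import Cfsg.Statements.S0682
import Mathlib.GroupTheory.Perm.Cycle.Type
import Mathlib.GroupTheory.PGroup
-- import your own Cfsg.Agent.* helpers here

set_option autoImplicit false
open Cfsg

namespace Cfsg.Agent.S0682

theorem zero_mul' {F : Type*} [Cfsg.NearField F] (a : F) : (0:F) * a = 0 := by
  have h := Cfsg.NearField.right_distrib (0:F) 0 a
  rw [add_zero] at h
  exact (left_eq_add.mp h)

theorem nsmul_mul' {F : Type*} [Cfsg.NearField F] (n : ℕ) (x a : F) : (n • x) * a = n • (x * a) := by
  induction n with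
  | zero => simp [zero_mul']
  | succ n ih => rw [succ_nsmul, succ_nsmul, Cfsg.NearField.right_distrib, ih]

/-- A finite near-field has prime-power order; its additive group is commutative of prime exponent. -/
theorem result {F : Type*} [Cfsg.NearField F] [Finite F] : ∃ p j : ℕ, p.Prime ∧ 1 ≤ j ∧ Nat.card F = p ^ j ∧ (∀ x y : F, x + y = y + x) ∧ ∀ x : F, p • x = 0 := by
  classical
  have hnt : Nontrivial F := ⟨0, 1, Cfsg.NearField.zero_ne_one⟩
  have hcard : Nat.card F ≠ 1 := by
    have := Finite.one_lt_card (α := F)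
    omega
  obtain ⟨p, hp, hpd⟩ := Nat.exists_prime_and_dvd hcard
  haveI : Fact p.Prime := ⟨hp⟩
  obtain ⟨x, hx⟩ := (exists_prime_addOrderOf_dvd_card' (G := F) p hpd)
  have hx0 : x ≠ 0 := by
    rintro rfl
    rw [addOrderOf_zero] at hx
    exact hp.one_lt.ne hx
  obtain ⟨x', hx1, hx2⟩ := Cfsg.NearField.exists_inv x hx0
  have hpx : p • x = 0 := by rw [← hx]; exact addOrderOf_nsmul_eq_zero x
  have hall : ∀ y : F, p • y = 0 := by
    intro y
    have : y = x * (x' * y) := by rw [← mul_assoc, hx1, one_mul]
    rw [this, ← nsmul_mul', hpx, zero_mul']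
  have hpg : IsPGroup p (Multiplicative F) := by
    intro g
    refine ⟨1, ?_⟩
    rw [pow_one]
    exact hall (Multiplicative.toAdd g)
  obtain ⟨j, hj⟩ := IsPGroup.iff_card.1 hpg
  have hj' : Nat.card F = p ^ j := hj
  have hcomm : ∀ x y : F, x + y = y + x := by
    haveI := hpg.center_nontrivial
    obtain ⟨⟨z, hz⟩, hz1⟩ := exists_ne (1 : Subgroup.center (Multiplicative F))
    have hz0 : (Multiplicative.toAdd z) ≠ (0:F) := by
      intro h
      apply hz1
      apply Subtype.ext
      exact h
    set zz : F := Multiplicative.toAdd z with hzz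
    have hzc : ∀ w : F, w + zz = zz + w := fun w => Subgroup.mem_center_iff.1 hz (Multiplicative.ofAdd w)
    obtain ⟨z', hz1', hz2'⟩ := Cfsg.NearField.exists_inv zz hz0
    intro y w
    by_cases hy : y = 0
    · subst hy; simp
    have hya : y = zz * (z' * y) := by rw [← mul_assoc, hz1', one_mul]
    have ha0 : z' * y ≠ 0 := by
      intro h
      rw [h, Cfsg.NearField.mul_zero] at hya
      exact hy hya
    obtain ⟨a', h1, h2⟩ := Cfsg.NearField.exists_inv _ ha0
    set a := z' * y with ha
    have hw : w = (w * a') * a := by rw [mul_assoc, h2, mul_one]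
    rw [hya, hw, ← Cfsg.NearField.right_distrib, ← Cfsg.NearField.right_distrib, hzc]
  refine ⟨p, j, hp, ?_, hj', hcomm, hall⟩
  rcases Nat.eq_zero_or_pos j with h | h
  · subst h; rw [pow_zero] at hj'; exact absurd hj' hcard
  · exact h

end Cfsg.Agent.S0682
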