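import Cfsg.Statements.S0683
import Mathlib
import Cfsg.Agent.H9_Sharp2

set_option autoImplicit false
open Cfsg

namespace Cfsg.Agent.S0683

/-- A finite sharply doubly transitive permutation group is the affine group of a near-field: the permuted set carries a near-field structure for which the group consists exactly of the maps `x ↦ x * a + b` with `a ≠ 0`. -/
theorem result {α : Type*} [Fintype α] [DecidableEq α] (H : Subgroup (Equiv.Perm α)) [MulAction.IsMultiplyPretransitive H α 2] (hsharp : ∀ x : Fin 2 ↪ α, MulAction.stabilizer H x = ⊥) (h2 : 2 ≤ Fintype.card α) : ∃ _ : Cfsg.NearField α, ∀ σ : Equiv.Perm α, σ ∈ H ↔ ∃ a b : α, a ≠ 0 ∧ ∀ x : α, σ x = x * a + b := by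
  classical
  have hG2 : MulAction.IsMultiplyPretransitive H α 2 := inferInstance
  obtain ⟨p, j, hp, hj, hcard, K, hKn, hcardK, hKc, hKp, hKt, hKreg, hKmem, hcG⟩ :=
    H9.Sharp2.main (G := H) (α := α) inferInstance hsharp h2
  rw [MulAction.is_two_pretransitive_iff] at hG2
  obtain ⟨o, e, hoe⟩ : ∃ o e : α, o ≠ e := by
    have := Fintype.one_lt_card_iff.1 (show 1 < Fintype.card α by omega)
    exact this
  have hsh : ∀ g : H, ∀ a b : α, a ≠ b → g • a = a → g • b = b → g = 1 := fun g a b hab ha hb =>
    H9.Sharp2.sharp_iff hsharp g a b hab ha hb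
  have hinj : ∀ n n' : K, n • o = n' • o → n = n' := by
    intro n n' h
    have : n'⁻¹ * n ∈ MulAction.stabilizer K o := by
      rw [MulAction.mem_stabilizer_iff, mul_smul, inv_smul_eq_iff]; exact h
    rw [hKreg, Subgroup.mem_bot] at this
    exact (inv_mul_eq_one.1 this).symm
  have hex : ∀ x : α, ∃ k : K, k • o = x := fun x => hKt.exists_smul_eq o x
  choose t ht using hex
  have htuniq : ∀ (k : K) (x : α), k • o = x → k = t x := fun k x h => hinj k (t x) (by rw [h, ht])
  have hexh : ∀ a : α, ∃ h : H, a ≠ o → (h • o = o ∧ h • e = a) := by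
    intro a
    by_cases ha : a = o
    · exact ⟨1, fun h => absurd ha h⟩
    · obtain ⟨g, hg⟩ := hG2 hoe (Ne.symm ha)
      exact ⟨g, fun _ => hg⟩
  choose h hh using hexh
  have huniq : ∀ (g : H) (a : α), g • o = o → g • e = a → g = h a := by
    intro g a h1 h2
    have hao : a ≠ o := by
      intro hao
      apply hoe
      rw [hao, ← h1] at h2
      exact (MulAction.injective g h2).symm
    have h3 : (h a)⁻¹ * g = 1 := by
      apply hsh _ o e hoe
      · rw [mul_smul, h1, inv_smul_eq_iff, (hh a hao).1]
      · rw [mul_smul, h2, inv_smul_eq_iff, (hh a hao).2]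
    exact (inv_mul_eq_one.1 h3).symm
  -- addition
  have htadd : ∀ x y : α, t (t x • y) = t x * t y := by
    intro x y
    symm
    apply htuniq
    rw [mul_smul, ht]
  have hto : t o = 1 := (htuniq 1 o (one_smul _ _)).symm
  have hht : ∀ (g : H) (y : α), g • o = o → ∀ x : α, g • (t y • x) = t (g • y) • (g • x) := by
    intro g y hgo x
    have h1 : (⟨g * t y * g⁻¹, hKn.conj_mem _ (t y).2 g⟩ : K) = t (g • y) := by
      apply htuniq
      change (g * (t y : H) * g⁻¹) • o = g • y
      have h4 : g⁻¹ • o = o := by rw [inv_smul_eq_iff, hgo]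
      rw [mul_smul, mul_smul, h4]
      have : (t y : H) • o = y := ht y
      rw [this]
    rw [← h1]
    change g • ((t y : H) • x) = (g * (t y : H) * g⁻¹) • (g • x)
    rw [mul_smul, mul_smul, inv_smul_smul]
  letI i1 : Add α := ⟨fun x y => t x • y⟩
  letI i2 : Zero α := ⟨o⟩
  letI i3 : Neg α := ⟨fun x => (t x)⁻¹ • o⟩
  letI ag : AddGroup α := AddGroup.ofLeftAxioms
    (fun x y z => by
        change t (t x • y) • z = t x • (t y • z)
        rw [htadd, mul_smul])
    (fun x => by
        change t o • x = x
        rw [hto, one_smul])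
    (fun x => by
        change t ((t x)⁻¹ • o) • x = o
        have : t ((t x)⁻¹ • o) = (t x)⁻¹ := (htuniq _ _ rfl).symm
        rw [this, inv_smul_eq_iff, ht])
  have hadd : ∀ x y : α, x + y = t x • y := fun x y => rfl
  have hcomm : ∀ x y : α, x + y = y + x := by
    intro x y
    rw [hadd, hadd]
    nth_rewrite 1 [← ht y]
    nth_rewrite 2 [← ht x]
    rw [← mul_smul, ← mul_smul, hKc.is_comm.comm]
  have h1e : h e = 1 := (huniq 1 e (one_smul _ _) (one_smul _ _)).symm
  have hno : ∀ a x : α, a ≠ o → x ≠ o → h a • x ≠ o := by
    intro a x ha hx hc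
    apply hx
    have h1 := (hh a ha).1
    rw [← h1] at hc
    exact MulAction.injective (h a) hc
  have hhh : ∀ a b : α, a ≠ o → b ≠ o → h (h b • a) = h b * h a := by
    intro a b ha hb
    symm
    apply huniq
    · rw [mul_smul, (hh a ha).1, (hh b hb).1]
    · rw [mul_smul, (hh a ha).2]
  refine ⟨{ ag with
    mul := fun x a => if a = o then o else h a • x
    one := e
    mul_assoc := ?_
    one_mul := ?_
    mul_one := ?_
    right_distrib := ?_
    mul_zero := ?_
    zero_ne_one := hoe
    exists_inv := ?_ }, ?_⟩
  · intro x a b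
    change (if b = o then o else h b • (if a = o then o else h a • x)) =
      (if (if b = o then o else h b • a) = o then o else h (if b = o then o else h b • a) • x)
    by_cases hb : b = o
    · simp [hb]
    by_cases ha : a = o
    · simp [ha, hb, (hh b hb).1]
    · have h3 := hno b a hb ha
      rw [if_neg hb, if_neg ha, if_neg hb, if_neg h3, hhh a b ha hb, mul_smul]
  · intro a
    change (if a = o then o else h a • e) = a
    split_ifs with ha
    · exact ha.symm
    · exact (hh a ha).2
  · intro a
    change (if e = o then o else h e • a) = a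
    rw [if_neg (Ne.symm hoe), h1e, one_smul]
  · intro x y c
    change (if c = o then o else h c • (t x • y)) = t (if c = o then o else h c • x) • (if c = o then o else h c • y)
    by_cases hc : c = o
    · simp only [hc, if_true]
      rw [ht]
    · simp only [hc, if_false]
      rw [hht _ _ (hh c hc).1]
  · intro a
    change (if o = o then o else h o • a) = o
    rw [if_pos rfl]
  · intro a ha
    have ha' : a ≠ o := ha
    have h3 : (h a)⁻¹ • e ≠ o := by
      intro hc
      rw [inv_smul_eq_iff, (hh a ha').1] at hc
      exact hoe hc.symm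
    have h4 : h ((h a)⁻¹ • e) = (h a)⁻¹ := by
      symm
      apply huniq
      · rw [inv_smul_eq_iff, (hh a ha').1]
      · rfl
    refine ⟨(h a)⁻¹ • e, ?_, ?_⟩
    · change (if (h a)⁻¹ • e = o then o else h ((h a)⁻¹ • e) • a) = e
      rw [if_neg h3, h4, inv_smul_eq_iff, (hh a ha').2]
    · change (if a = o then o else h a • ((h a)⁻¹ • e)) = e
      rw [if_neg ha', smul_inv_smul]
  · intro σ
    constructor
    · intro hσ
      let g : H := ⟨σ, hσ⟩
      set b : α := g • o with hb
      let g' : H := (t b : H)⁻¹ * g
      have hg'o : g' • o = o := by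
        change ((t b : H)⁻¹ * g) • o = o
        rw [mul_smul, inv_smul_eq_iff]
        exact (ht b).symm
      set a : α := g' • e with ha
      have hao : a ≠ o := by
        intro hc
        apply hoe
        rw [← hg'o] at hc
        exact (MulAction.injective g' hc).symm
      have hg'a : g' = h a := huniq g' a hg'o rfl
      refine ⟨a, b, hao, fun x => ?_⟩
      have h5 : ∀ u v : α, u + v = v + u := hcomm
      change σ x = (if a = o then o else h a • x) + b
      rw [h5, if_neg hao]
      change σ x = t b • (h a • x)
      rw [← hg'a]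
      change σ x = (t b : H) • (((t b : H)⁻¹ * g) • x)
      rw [← mul_smul, mul_inv_cancel_left]
      rfl
    · rintro ⟨a, b, hao, hx⟩
      have hao' : a ≠ o := hao
      have h6 : σ = (((t b : H) * h a : H) : Equiv.Perm α) := by
        ext x
        have h7 := hx x
        change σ x = t (if a = o then o else h a • x) • b at h7
        have h8 : σ x = (if a = o then o else h a • x) + b := h7
        rw [hcomm, if_neg hao'] at h8
        rw [h8]
        rfl
      rw [h6]
      exact ((t b : H) * h a).2

end Cfsg.Agent.S0683
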