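import Cfsg.Statements.S0684
import Mathlib
import Cfsg.Agent.H9_Semireg

set_option autoImplicit false
open Cfsg

namespace Cfsg.Agent.S0684

theorem main {p : ℕ} [Fact p.Prime] {V : Type*} [AddCommGroup V] [Module (ZMod p) V] [Finite V]
    (H : Subgroup (V ≃ₗ[ZMod p] V))
    (hsemi : ∀ h : H, ∀ v : V, v ≠ 0 → (h : V ≃ₗ[ZMod p] V) v = v → h = 1)
    (A : Subgroup H) (hAc : IsMulCommutative A) [hnt : Nontrivial V] :
    IsCyclic A ∧ ∃ W : Submodule (ZMod p) V, W ≠ ⊥ ∧ (∀ a ∈ A, ∀ v ∈ W, ((a : H) : V ≃ₗ[ZMod p] V) v ∈ W) ∧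
    (∀ W' : Submodule (ZMod p) V, W' ≤ W → (∀ a ∈ A, ∀ v ∈ W', ((a : H) : V ≃ₗ[ZMod p] V) v ∈ W') → W' = ⊥ ∨ W' = W) ∧
    Nat.card A ∣ p ^ Module.finrank (ZMod p) W - 1 := by
  classical
  obtain ⟨W, hW1, hW2, hW3⟩ := H9.Semireg.exists_minimal_invariant (k := ZMod p) (V := V)
    {f | ∃ a ∈ A, f = (((a : H) : V ≃ₗ[ZMod p] V) : V →ₗ[ZMod p] V)}
  have hW2' : ∀ a ∈ A, ∀ v ∈ W, ((a : H) : V ≃ₗ[ZMod p] V) v ∈ W := fun a ha v hv => hW2 _ ⟨a, ha, rfl⟩ v hv
  haveI : Nontrivial W := Submodule.nontrivial_iff_ne_bot.2 hW1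
  haveI hfV : Finite (V ≃ₗ[ZMod p] V) := Finite.of_injective (fun e : V ≃ₗ[ZMod p] V => (e : V → V)) DFunLike.coe_injective
  haveI : Finite A := inferInstance
  letI : CommGroup A := { (inferInstance : Group A) with mul_comm := fun a b => hAc.is_comm.comm a b }
  let ρ : A →* Module.End (ZMod p) W :=
    { toFun := fun a => ((((a : H) : V ≃ₗ[ZMod p] V) : V →ₗ[ZMod p] V)).restrict (hW2' a a.2)
      map_one' := by ext; rfl
      map_mul' := fun a b => by ext; rfl }
  have hsemi' : ∀ a : A, ∀ v : W, v ≠ 0 → ρ a v = v → a = 1 := by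
    intro a v hv h
    apply Subtype.ext
    exact hsemi a v (fun h0 => hv (Subtype.ext h0)) (congrArg Subtype.val h)
  have hinj : Function.Injective ρ := by
    rw [injective_iff_map_eq_one]
    intro a ha
    obtain ⟨v, hv⟩ := exists_ne (0 : W)
    exact hsemi' a v hv (by rw [ha]; rfl)
  refine ⟨?_, W, hW1, hW2', ?_, ?_⟩
  · have := H9.Semireg.isCyclic_of_irreducible ρ hinj (by
      intro W' hW'
      have h1 := hW3 (W'.map W.subtype) (Submodule.map_subtype_le W W') (by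
        rintro _ ⟨a, ha, rfl⟩ _ ⟨v, hv, rfl⟩
        exact ⟨_, hW' ⟨a, ha⟩ v hv, rfl⟩)
      rcases h1 with h1 | h1
      · left
        rw [eq_bot_iff]
        intro v hv
        have h5 : (v : V) ∈ W'.map W.subtype := ⟨v, hv, rfl⟩
        rw [h1, Submodule.mem_bot] at h5
        rw [Submodule.mem_bot]
        exact Subtype.ext h5
      · right
        rw [eq_top_iff]
        intro v _
        have : (v : V) ∈ W'.map W.subtype := by rw [h1]; exact v.2
        obtain ⟨w, hw, hwv⟩ := this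
        have : w = v := Subtype.ext hwv
        rw [← this]; exact hw)
    exact this
  · intro W' hle hinv
    exact hW3 W' hle (by rintro _ ⟨a, ha, rfl⟩ v hv; exact hinv a ha v hv)
  · letI : DistribMulAction A W :=
      { smul := fun a v => ρ a v
        one_smul := fun v => by show ρ 1 v = v; rw [map_one]; rfl
        mul_smul := fun a b v => by show ρ (a * b) v = ρ a (ρ b v); rw [map_mul]; rfl
        smul_zero := fun a => map_zero _
        smul_add := fun a v w => map_add _ _ _ }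
    have := H9.Semireg.card_dvd (W := W) (A := A) hsemi'
    rwa [Module.natCard_eq_pow_finrank (K := ZMod p) (V := W), Nat.card_zmod] at this

/-- Point stabiliser of a sharply doubly transitive group not of semilinear type: a maximal normal abelian subgroup `A` of a linear group `H` that is regular on non-zero vectors and has no irreducible cyclic normal subgroup is cyclic and reducible, and the order of `A` divides `p ^ k - 1` for `k` the dimension of a minimal `A`-invariant subspace. -/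
theorem result {p : ℕ} [Fact p.Prime] {V : Type*} [AddCommGroup V] [Module (ZMod p) V] [Finite V] (H : Subgroup (V ≃ₗ[ZMod p] V)) (hreg : ∀ v w : V, v ≠ 0 → w ≠ 0 → ∃! h : H, (h : V ≃ₗ[ZMod p] V) v = w) (hI : ∀ A : Subgroup H, A.Normal → IsCyclic A → ∃ W : Submodule (ZMod p) V, W ≠ ⊥ ∧ W ≠ ⊤ ∧ ∀ a ∈ A, ∀ v ∈ W, ((a : H) : V ≃ₗ[ZMod p] V) v ∈ W) (A : Subgroup H) (hAn : A.Normal) (hAc : IsMulCommutative A) (hAmax : ∀ B : Subgroup H, B.Normal → IsMulCommutative B → A ≤ B → B = A) : IsCyclic A ∧ ∃ W : Submodule (ZMod p) V, W ≠ ⊥ ∧ W ≠ ⊤ ∧ (∀ a ∈ A, ∀ v ∈ W, ((a : H) : V ≃ₗ[ZMod p] V) v ∈ W) ∧ (∀ W' : Submodule (ZMod p) V, W' ≤ W → (∀ a ∈ A, ∀ v ∈ W', ((a : H) : V ≃ₗ[ZMod p] V) v ∈ W') → W' = ⊥ ∨ W' = W) ∧ Nat.card A ∣ p ^ Module.finrank (ZMod p) W - 1 := by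
  have hsemi : ∀ h : H, ∀ v : V, v ≠ 0 → (h : V ≃ₗ[ZMod p] V) v = v → h = 1 := by
    intro h v hv hh
    obtain ⟨_, _, hu⟩ := hreg v v hv hv
    rw [hu h hh, hu 1 rfl]
  -- V is nontrivial by hI applied to the trivial subgroup
  haveI hnt : Nontrivial V := by
    obtain ⟨W, hW1, hW2, _⟩ := hI ⊥ inferInstance inferInstance
    by_contra hcon
    rw [not_nontrivial_iff_subsingleton] at hcon
    exact hW1 (Subsingleton.elim _ _)
  obtain ⟨hcyc, W, h1, h2, h3, h4⟩ := main H hsemi A hAc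
  refine ⟨hcyc, W, h1, ?_, h2, h3, h4⟩
  obtain ⟨W0, hW1, hW2, hW3⟩ := hI A hAn hcyc
  intro htop
  rcases h3 W0 (by rw [htop]; exact le_top) hW3 with h | h
  · exact hW1 h
  · exact hW2 (by rw [h, htop])

end Cfsg.Agent.S0684
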