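import Cfsg.Statements.S0685
import Mathlib
import Cfsg.Agent.H9_NearMain

set_option autoImplicit false
open Cfsg

namespace Cfsg.Agent.S0685

/-- In a linear group over the prime field that is regular on non-zero vectors and has no irreducible cyclic normal subgroup, a maximal normal abelian subgroup is properly contained in its centraliser, which is non-abelian. -/
theorem result {p : ℕ} [Fact p.Prime] {V : Type*} [AddCommGroup V] [Module (ZMod p) V] [Finite V] (H : Subgroup (V ≃ₗ[ZMod p] V)) (hreg : ∀ v w : V, v ≠ 0 → w ≠ 0 → ∃! h : H, (h : V ≃ₗ[ZMod p] V) v = w) (hI : ∀ A : Subgroup H, A.Normal → IsCyclic A → ∃ W : Submodule (ZMod p) V, W ≠ ⊥ ∧ W ≠ ⊤ ∧ ∀ a ∈ A, ∀ v ∈ W, ((a : H) : V ≃ₗ[ZMod p] V) v ∈ W) (A : Subgroup H) (hAn : A.Normal) (hAc : IsMulCommutative A) (hAmax : ∀ B : Subgroup H, B.Normal → IsMulCommutative B → A ≤ B → B = A) : A < Subgroup.centralizer (A : Set H) ∧ ¬ IsMulCommutative (Subgroup.centralizer (A : Set H)) := by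
  classical
  have hsemi : ∀ h : H, ∀ v : V, v ≠ 0 → (h : V ≃ₗ[ZMod p] V) v = v → h = 1 := by
    intro h v hv hh
    obtain ⟨_, _, hu⟩ := hreg v v hv hv
    rw [hu h hh, hu 1 rfl]
  have htr : ∀ v w : V, v ≠ 0 → w ≠ 0 → ∃ h : H, (h : V ≃ₗ[ZMod p] V) v = w := by
    intro v w hv hw
    obtain ⟨h, hh, _⟩ := hreg v w hv hw
    exact ⟨h, hh⟩
  haveI hnt : Nontrivial V := by
    obtain ⟨W, hW1, hW2, _⟩ := hI ⊥ inferInstance inferInstance
    by_contra hcon
    rw [not_nontrivial_iff_subsingleton] at hcon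
    exact hW1 (Subsingleton.elim _ _)
  haveI hfV : Finite (V ≃ₗ[ZMod p] V) := Finite.of_injective (fun e : V ≃ₗ[ZMod p] V => (e : V → V)) DFunLike.coe_injective
  haveI := hAn
  have hAC : A ≤ Subgroup.centralizer (A : Set H) := by
    intro a ha
    rw [Subgroup.mem_centralizer_iff]
    intro b hb
    exact congrArg Subtype.val (hAc.is_comm.comm (⟨b, hb⟩ : A) ⟨a, ha⟩)
  have hna : ¬ IsMulCommutative (Subgroup.centralizer (A : Set H)) := by
    intro hCab
    have hCA : Subgroup.centralizer (A : Set H) = A := hAmax _ inferInstance hCab hAC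
    obtain ⟨hcyc, W, h1, h2, h3, h4⟩ := H9.NearMain.main H hsemi A hAc
    have hWmin : H9.NearLin.IsMinInv A W := ⟨h1, h2, h3⟩
    obtain ⟨⟨a, haA⟩, hgen⟩ := hcyc
    -- |H| ≤ |A|^2
    have hcent : ∀ g : H, g * a = a * g → g ∈ A := by
      intro g hg
      rw [← hCA, Subgroup.mem_centralizer_iff]
      intro b hb
      obtain ⟨n, hn⟩ := hgen ⟨b, hb⟩
      have hn' : a ^ n = b := congrArg Subtype.val hn
      rw [← hn']
      exact ((show Commute g a from hg).zpow_right n).symm
    have hle1 : Nat.card (H ⧸ A) ≤ Nat.card A := by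
      refine Nat.card_le_card_of_injective (fun q : H ⧸ A => (⟨q.out * a * q.out⁻¹, hAn.conj_mem a haA _⟩ : A)) ?_
      intro q q' hqq
      have h5 : q.out * a * q.out⁻¹ = q'.out * a * q'.out⁻¹ := congrArg Subtype.val hqq
      have h6 : q.out⁻¹ * q'.out ∈ A := by
        apply hcent
        have : q.out⁻¹ * q'.out * a = q.out⁻¹ * (q'.out * a * q'.out⁻¹) * q'.out := by group
        rw [this, ← h5]; group
      rw [← QuotientGroup.eq, QuotientGroup.out_eq', QuotientGroup.out_eq'] at h6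
      exact h6
    have hle2 : Nat.card H ≤ Nat.card A * Nat.card A := by
      rw [Subgroup.card_eq_card_quotient_mul_card_subgroup A]
      exact Nat.mul_le_mul_right _ hle1
    -- |H| = |V| - 1
    obtain ⟨w, hw, hw0⟩ := (Submodule.ne_bot_iff _).1 h1
    have hcardH : Nat.card H = Nat.card V - 1 := by
      haveI : Fintype V := Fintype.ofFinite V
      have e : H ≃ {v : V // v ≠ 0} := Equiv.ofBijective (fun h => ⟨(h : V ≃ₗ[ZMod p] V) w, by simpa using hw0⟩) (by
        constructor
        · intro h h' hh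
          have h7 : (h : V ≃ₗ[ZMod p] V) w = (h' : V ≃ₗ[ZMod p] V) w := congrArg Subtype.val hh
          obtain ⟨_, _, hu⟩ := hreg w ((h' : V ≃ₗ[ZMod p] V) w) hw0 (by simpa using hw0)
          rw [hu h h7, hu h' rfl]
        · rintro ⟨v, hv⟩
          obtain ⟨h, hh⟩ := htr w v hw0 hv
          exact ⟨h, Subtype.ext hh⟩)
      rw [Nat.card_congr e, Nat.card_eq_fintype_card, Nat.card_eq_fintype_card, Fintype.card_subtype_compl, Fintype.card_subtype_eq]
    -- W ≠ ⊤
    have hWtop : W ≠ ⊤ := by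
      obtain ⟨W0, hW1, hW2, hW3⟩ := hI A hAn ⟨⟨a, haA⟩, hgen⟩
      intro htop
      rcases h3 W0 (by rw [htop]; exact le_top) hW3 with h | h
      · exact hW1 h
      · exact hW2 (by rw [h, htop])
    obtain ⟨v, -, hv⟩ := SetLike.exists_of_lt (lt_top_iff_ne_top.2 hWtop)
    have hv0 : v ≠ 0 := fun h => hv (by rw [h]; exact W.zero_mem)
    obtain ⟨h, hh⟩ := htr w v hw0 hv0
    have hW'min := H9.NearLin.isMinInv_map hAn hWmin h
    set W' := W.map ((h : V ≃ₗ[ZMod p] V) : V →ₗ[ZMod p] V) with hW'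
    have hdisj : W ⊓ W' = ⊥ := by
      rcases hWmin.inf_eq hW'min with h5 | h5
      · exact absurd (by rw [h5]; exact ⟨w, hw, hh⟩) hv
      · exact h5
    have hcW' : Nat.card W' = Nat.card W := (Nat.card_congr ((h : V ≃ₗ[ZMod p] V).submoduleMap W).toEquiv).symm
    have hsq : Nat.card W * Nat.card W ≤ Nat.card V := by
      have h8 : Nat.card (W × W') ≤ Nat.card V := by
        refine Nat.card_le_card_of_injective (fun q : W × W' => (q.1 : V) + (q.2 : V)) ?_
        rintro ⟨x, y⟩ ⟨x', y'⟩ hxy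
        have hxy' : (x : V) + (y : V) = x' + y' := hxy
        have h9 : (x : V) - x' = y' - y := by
          rw [sub_eq_sub_iff_add_eq_add, hxy', add_comm]
        have h10 : (x : V) - x' ∈ W ⊓ W' := ⟨W.sub_mem x.2 x'.2, by rw [h9]; exact W'.sub_mem y'.2 y.2⟩
        rw [hdisj, Submodule.mem_bot] at h10
        have h11 : (y' : V) - y = 0 := by rw [← h9, h10]
        rw [sub_eq_zero] at h10 h11
        exact Prod.ext (Subtype.ext h10) (Subtype.ext h11.symm)
      rwa [Nat.card_prod, hcW'] at h8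
    have hWc : p ^ Module.finrank (ZMod p) W = Nat.card W := by
      rw [Module.natCard_eq_pow_finrank (K := ZMod p) (V := W), Nat.card_zmod]
    rw [hWc] at h4
    have hW2 : 2 ≤ Nat.card W := by
      haveI : Nontrivial W := Submodule.nontrivial_iff_ne_bot.2 h1
      exact Finite.one_lt_card
    have hle3 : Nat.card A ≤ Nat.card W - 1 := Nat.le_of_dvd (by omega) h4
    obtain ⟨m, hm⟩ : ∃ m, Nat.card W = m + 1 := ⟨Nat.card W - 1, by omega⟩
    rw [hm] at hle3 hsq
    rw [hcardH] at hle2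
    have h12 : Nat.card A * Nat.card A ≤ m * m := Nat.mul_le_mul (by omega) (by omega)
    have h13 : 1 ≤ m := by omega
    have h14 : (m + 1) * (m + 1) = m * m + 2 * m + 1 := by ring
    omega
  refine ⟨lt_of_le_of_ne hAC ?_, hna⟩
  intro heq
  apply hna
  rw [← heq]
  exact hAc

end Cfsg.Agent.S0685
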