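import Cfsg.Statements.S0687
import Mathlib
import Cfsg.Agent.H9_NearLin

set_option autoImplicit false
open Cfsg

namespace Cfsg.Agent.S0687

/-- In a linear group over the prime field that is regular on non-zero vectors and has no irreducible cyclic normal subgroup, a normal subgroup `N` minimal among the non-abelian normal subgroups centralising a maximal normal abelian subgroup `A` is irreducible on `V`, and its centraliser is `A`. -/
theorem result {p : ℕ} [Fact p.Prime] {V : Type*} [AddCommGroup V] [Module (ZMod p) V] [Finite V] (H : Subgroup (V ≃ₗ[ZMod p] V)) (hreg : ∀ v w : V, v ≠ 0 → w ≠ 0 → ∃! h : H, (h : V ≃ₗ[ZMod p] V) v = w) (hI : ∀ A : Subgroup H, A.Normal → IsCyclic A → ∃ W : Submodule (ZMod p) V, W ≠ ⊥ ∧ W ≠ ⊤ ∧ ∀ a ∈ A, ∀ v ∈ W, ((a : H) : V ≃ₗ[ZMod p] V) v ∈ W) (A : Subgroup H) (hAn : A.Normal) (hAc : IsMulCommutative A) (hAmax : ∀ B : Subgroup H, B.Normal → IsMulCommutative B → A ≤ B → B = A) (N : Subgroup H) (hNn : N.Normal) (hNle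 : N ≤ Subgroup.centralizer (A : Set H)) (hNna : ¬ IsMulCommutative N) (hNmin : ∀ M : Subgroup H, M.Normal → M ≤ N → ¬ IsMulCommutative M → M = N) : (∀ W : Submodule (ZMod p) V, (∀ n ∈ N, ∀ v ∈ W, ((n : H) : V ≃ₗ[ZMod p] V) v ∈ W) → W = ⊥ ∨ W = ⊤) ∧ Subgroup.centralizer (N : Set H) = A := by
  have htr : ∀ v w : V, v ≠ 0 → w ≠ 0 → ∃ h : H, (h : V ≃ₗ[ZMod p] V) v = w := by
    intro v w hv hw
    obtain ⟨h, hh, _⟩ := hreg v w hv hw
    exact ⟨h, hh⟩
  haveI hnt : Nontrivial V := by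
    obtain ⟨W, hW1, hW2, _⟩ := hI ⊥ inferInstance inferInstance
    by_contra hcon
    rw [not_nontrivial_iff_subsingleton] at hcon
    exact hW1 (Subsingleton.elim _ _)
  have hirr := H9.NearLin.irreducible_of_nonabelian hNn htr hNna
  refine ⟨hirr, ?_⟩
  haveI := hNn
  have hcomm := H9.NearLin.comm_centralizer (N := N) hirr
  refine hAmax _ inferInstance hcomm ?_
  rw [Subgroup.le_centralizer_iff]
  exact hNle

end Cfsg.Agent.S0687
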