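import Cfsg.Statements.S0688
import Cfsg.Agent.H24_NF
-- import your own Cfsg.Agent.* helpers here

set_option autoImplicit false
open Cfsg

namespace Cfsg.Agent.S0688

/-- Degrees of the soluble exceptional sharply doubly transitive groups: if a solvable linear group over the prime field is regular on the non-zero vectors of `V` and has no irreducible cyclic normal subgroup, then `V` has 25, 49, 121 or 529 elements. -/
theorem result {p : ℕ} [Fact p.Prime] {V : Type*} [AddCommGroup V] [Module (ZMod p) V] [Finite V] (H : Subgroup (V ≃ₗ[ZMod p] V)) (hreg : ∀ v w : V, v ≠ 0 → w ≠ 0 → ∃! h : H, (h : V ≃ₗ[ZMod p] V) v = w) (hI : ∀ A : Subgroup H, A.Normal → IsCyclic A → ∃ W : Submodule (ZMod p) V, W ≠ ⊥ ∧ W ≠ ⊤ ∧ ∀ a ∈ A, ∀ v ∈ W, ((a : H) : V ≃ₗ[ZMod p] V) v ∈ W) (hsolv : Group.IsSolvable H) : Nat.card V = 25 ∨ Nat.card V = 49 ∨ Nat.card V = 121 ∨ Nat.card V = 529 := by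
  have hfin : Finite (V ≃ₗ[ZMod p] V) := Finite.of_injective (fun f : V ≃ₗ[ZMod p] V => (f : V → V))
    (fun f g h => LinearEquiv.ext (fun v => congrFun h v))
  have hnt : Nontrivial V := by
    by_contra h
    rw [not_nontrivial_iff_subsingleton] at h
    obtain ⟨W, hW1, -, -⟩ := hI ⊥ inferInstance inferInstance
    exact hW1 (Subsingleton.elim _ _)
  rcases H24.NF.alt2 H.subtype H.subtype_injective (by
    intro v hv g hg
    obtain ⟨k, -, hk⟩ := hreg v v hv hv
    rw [hk g hg, hk 1 rfl]) (by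
    intro v w hv hw
    obtain ⟨k, hk, -⟩ := hreg v w hv hw
    exact ⟨k, hk⟩) hsolv with ⟨A, hA, hAc, hirr⟩ | ⟨A, P, h⟩
  · exfalso
    obtain ⟨W, hW1, hW2, hW3⟩ := hI A hA hAc
    rcases hirr W hW3 with h | h
    · exact hW1 h
    · exact hW2 h
  · rcases h.hq with h1 | h1 | h1 | h1
    · left; rw [h.cardV, h1]; norm_num
    · right; left; rw [h.cardV, h1]; norm_num
    · right; right; left; rw [h.cardV, h1]; norm_num
    · right; right; right; rw [h.cardV, h1]; norm_num

end Cfsg.Agent.S0688
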