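import Cfsg.Statements.S0691
import Cfsg.Agent.H27_NF2

set_option autoImplicit false
open Cfsg

namespace Cfsg.Agent.S0691

open Cfsg.Agent.H27NF

def gs : List T := [(2, 0, 0, 3), (0, 4, 1, 0), (1, 2, 1, 3)]

def gi : List T := [(3, 0, 0, 2), (0, 1, 4, 0), (3, 3, 4, 1)]

def L : List T :=
  [(1, 0, 0, 1), (2, 0, 0, 3), (0, 4, 1, 0), (1, 2, 1, 3), (4, 0, 0, 4), (0, 2, 2, 0), (2, 1, 2,
   4), (0, 3, 3, 0), (2, 4, 3, 4), (4, 2, 1, 2), (3, 3, 4, 1), (3, 0, 0, 2), (0, 1, 4, 0), (4, 3,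
   4, 2), (3, 1, 2, 1), (1, 4, 3, 3), (1, 3, 4, 3), (3, 2, 1, 1), (3, 4, 3, 1), (1, 1, 2, 3), (2,
   2, 1, 4), (2, 3, 4, 4), (4, 4, 3, 2), (4, 1, 2, 2)]

def W : List (List ℕ) :=
  [[], [0], [1], [2], [0, 0], [1, 0], [2, 0], [0, 1], [2, 1], [1, 2], [2, 2], [0, 0, 0], [1, 0,
   0], [2, 0, 0], [1, 2, 0], [2, 2, 0], [2, 0, 1], [2, 2, 1], [0, 1, 2], [2, 1, 2], [2, 2, 0, 0],
   [2, 1, 2, 0], [2, 2, 0, 1], [2, 0, 1, 2]]

lemma c1 : memT (1, 0, 0, 1) L = true := by decide +kernel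
lemma c2 : chkMul 5 gs L = true := by decide +kernel
lemma c3 : chkMul 5 gi L = true := by decide +kernel
lemma c4 : chkBd 5 L = true := by decide +kernel
lemma c5 : nodupT L = true := by decide +kernel
lemma c6 : W.map (ev 5 gs) = L := by decide +kernel
lemma c7 : chkFix 5 L = true := by decide +kernel
lemma c8 : L.length = 24 := by decide +kernel


/-- An exceptional sharply doubly transitive group of degree 5^2: the listed matrices generate a subgroup of GL(2,5) of order 24 acting regularly on the non-zero vectors. -/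
theorem result (A : Matrix.GeneralLinearGroup (Fin 2) (ZMod 5)) (B : Matrix.GeneralLinearGroup (Fin 2) (ZMod 5)) (C : Matrix.GeneralLinearGroup (Fin 2) (ZMod 5)) (hA : (A : Matrix (Fin 2) (Fin 2) (ZMod 5)) = !![2, 0; 0, -2]) (hB : (B : Matrix (Fin 2) (Fin 2) (ZMod 5)) = !![0, -1; 1, 0]) (hC : (C : Matrix (Fin 2) (Fin 2) (ZMod 5)) = !![1, 2; 1, -2]) : Nat.card (Subgroup.closure ({A, B, C} : Set (Matrix.GeneralLinearGroup (Fin 2) (ZMod 5)))) = 24 ∧ ∀ v w : Fin 2 → ZMod 5, v ≠ 0 → w ≠ 0 → ∃! h : Subgroup.closure ({A, B, C} : Set (Matrix.GeneralLinearGroup (Fin 2) (ZMod 5))), Matrix.mulVec ((h : Matrix.GeneralLinearGroup (Fin 2) (ZMod 5)) : Matrix (Fin 2) (Fin 2) (ZMod 5)) v = w := by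
  haveI : Fact (Nat.Prime 5) := ⟨by norm_num⟩
  have eA : (A : Matrix (Fin 2) (Fin 2) (ZMod 5)) = toM 5 (2, 0, 0, 3) := by
    rw [hA]; ext i j; fin_cases i <;> fin_cases j <;> rfl
  have eB : (B : Matrix (Fin 2) (Fin 2) (ZMod 5)) = toM 5 (0, 4, 1, 0) := by
    rw [hB]; ext i j; fin_cases i <;> fin_cases j <;> rfl
  have eC : (C : Matrix (Fin 2) (Fin 2) (ZMod 5)) = toM 5 (1, 2, 1, 3) := by
    rw [hC]; ext i j; fin_cases i <;> fin_cases j <;> rfl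
  have iA := inv_eq (gi := (3, 0, 0, 2)) eA (by decide)
  have iB := inv_eq (gi := (0, 1, 4, 0)) eB (by decide)
  have iC := inv_eq (gi := (3, 3, 4, 1)) eC (by decide)
  refine full gs gi L W {A, B, C} ?_ ?_ c1 c2 c3 c4 c5 c6 c7 c8
  · intro s hs
    simp only [Set.mem_insert_iff, Set.mem_singleton_iff] at hs
    rcases hs with rfl | rfl | rfl
    · exact ⟨⟨_, by simp [gs], eA⟩, ⟨_, by simp [gi], iA⟩⟩
    · exact ⟨⟨_, by simp [gs], eB⟩, ⟨_, by simp [gi], iB⟩⟩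
    · exact ⟨⟨_, by simp [gs], eC⟩, ⟨_, by simp [gi], iC⟩⟩
  · intro t ht
    simp only [gs, List.mem_cons, List.not_mem_nil, or_false] at ht
    rcases ht with rfl | rfl | rfl
    · exact ⟨A, by simp, eA⟩
    · exact ⟨B, by simp, eB⟩
    · exact ⟨C, by simp, eC⟩

end Cfsg.Agent.S0691
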