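import Cfsg.Statements.S0694
import Mathlib

set_option autoImplicit false
open Cfsg

namespace Cfsg.Agent.S0694

/-- geometric sum -/
def gs (q i : ℕ) : ℕ := ∑ j ∈ Finset.range i, q ^ j

theorem gs_succ (q i : ℕ) : gs q (i + 1) = gs q i + q ^ i := by
  unfold gs
  rw [Finset.sum_range_succ]

theorem gs_mul (d i : ℕ) : d * gs (d + 1) i + 1 = (d + 1) ^ i := by
  induction i with
  | zero => simp [gs]
  | succ i ih =>
    rw [gs_succ, pow_succ, ← ih]
    ring

theorem modeq_iff (d n i : ℕ) (hd : 0 < d) : (d + 1) ^ i ≡ 1 [MOD n * d] ↔ n ∣ gs (d + 1) i := by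
  rw [← gs_mul]
  constructor
  · intro h
    have h1 := (Nat.modEq_iff_dvd' (by omega)).mp h.symm
    rw [Nat.add_sub_cancel, mul_comm n d] at h1
    exact Nat.dvd_of_mul_dvd_mul_left hd h1
  · intro h
    refine ((Nat.modEq_iff_dvd' (by omega)).mpr ?_).symm
    rw [Nat.add_sub_cancel, mul_comm n d]
    exact Nat.mul_dvd_mul_left d h

theorem gs_add (q i j : ℕ) : gs q (i + j) = gs q i + q ^ i * gs q j := by
  induction j with
  | zero => simp [gs]
  | succ j ih => rw [← add_assoc, gs_succ, ih, gs_succ, mul_add, pow_add]; ring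

theorem gs_mod_two (q i : ℕ) (h : q % 2 = 1) : gs q i % 2 = i % 2 := by
  induction i with
  | zero => simp [gs]
  | succ i ih =>
    rw [gs_succ, Nat.add_mod, ih]
    have : q ^ i % 2 = 1 := by rw [Nat.pow_mod, h]; simp
    rw [this]
    omega

theorem val_eq (d i r : ℕ) (hr : r.Prime) (hi : 0 < i) (hd : 0 < d) (h1 : r ∣ d) (h2 : r = 2 → 4 ∣ d) :
    (gs (d + 1) i).factorization r = i.factorization r := by
  haveI : Fact r.Prime := ⟨hr⟩
  have hgs : gs (d + 1) i ≠ 0 := by
    intro h
    have := gs_mul d i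
    rw [h] at this
    have h3 : 1 < (d + 1) ^ i := Nat.one_lt_pow (by omega) (by omega)
    omega
  have hx : ¬ r ∣ d + 1 := by
    intro h
    have := (Nat.dvd_add_right h1).mp h
    exact hr.one_lt.ne' (Nat.dvd_one.mp this)
  have h3 : (d + 1) ^ i - 1 ^ i = d * gs (d + 1) i := by
    rw [one_pow, ← gs_mul, Nat.add_sub_cancel]
  have h4 : padicValNat r (d * gs (d + 1) i) = padicValNat r d + padicValNat r (gs (d + 1) i) :=
    padicValNat.mul (by omega) hgs
  rw [Nat.factorization_def _ hr, Nat.factorization_def _ hr]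
  rcases hr.eq_two_or_odd' with rfl | hodd
  · by_cases he : Even i
    · have h5 := padicValNat.pow_two_sub_pow (x := d + 1) (y := 1) (by omega) (by simpa using h1) hx (n := i)
        (by omega) he
      rw [h3, h4, Nat.add_sub_cancel] at h5
      have h6 : padicValNat 2 (d + 1 + 1) = 1 := by
        have h7 : 4 ∣ d := h2 rfl
        obtain ⟨c, rfl⟩ := h7
        have h8 : 4 * c + 1 + 1 = 2 * (2 * c + 1) := by ring
        rw [h8, padicValNat.mul (by norm_num) (by omega), padicValNat_self,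
          padicValNat.eq_zero_of_not_dvd (by omega)]
      omega
    · have h5 : ¬ 2 ∣ i := by rwa [even_iff_two_dvd] at he
      have h6 : ¬ 2 ∣ gs (d + 1) i := by
        have := gs_mod_two (d + 1) i (by omega)
        omega
      rw [padicValNat.eq_zero_of_not_dvd h5, padicValNat.eq_zero_of_not_dvd h6]
  · have h5 := padicValNat.pow_sub_pow (x := d + 1) (y := 1) hodd (by omega) (by simpa using h1) hx (n := i)
      (by omega)
    rw [h3, h4, Nat.add_sub_cancel] at h5
    omega

theorem dvd_iff (d n i : ℕ) (hd : 0 < d) (hn : 0 < n) (hi : 0 < i) (h1 : ∀ r : ℕ, r.Prime → r ∣ n → r ∣ d)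
    (h2 : 4 ∣ n → 4 ∣ d) : n ∣ gs (d + 1) i ↔ n ∣ i := by
  have hgs : gs (d + 1) i ≠ 0 := by
    intro h
    have := gs_mul d i
    rw [h] at this
    have h3 : 1 < (d + 1) ^ i := Nat.one_lt_pow (by omega) (by omega)
    omega
  rw [← Nat.factorization_prime_le_iff_dvd hn.ne' hgs, ← Nat.factorization_prime_le_iff_dvd hn.ne' hi.ne']
  refine forall_congr' fun r => ?_
  refine forall_congr' fun hr => ?_
  by_cases hrn : r ∣ n
  · by_cases h4 : r = 2 → 4 ∣ d
    · rw [val_eq d i r hr hi hd (h1 r hr hrn) h4]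
    · push Not at h4
      obtain ⟨rfl, h4⟩ := h4
      have h5 : ¬ 4 ∣ n := fun h => h4 (h2 h)
      have h6 : n.factorization 2 = 1 := by
        have h7 : n.factorization 2 ≤ 1 := by
          by_contra hc
          apply h5
          have : 2 ^ 2 ∣ n := (Nat.prime_two.pow_dvd_iff_le_factorization hn.ne').mpr (by omega)
          simpa using this
        have h8 : 1 ≤ n.factorization 2 := (Nat.prime_two.dvd_iff_one_le_factorization hn.ne').mp hrn
        omega
      rw [h6, ← Nat.prime_two.dvd_iff_one_le_factorization hgs, ← Nat.prime_two.dvd_iff_one_le_factorization hi.ne']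
      have h9 := gs_mod_two (d + 1) i (by have := h1 2 Nat.prime_two hrn; omega)
      omega
  · rw [Nat.factorization_eq_zero_of_not_dvd hrn]
    simp

theorem surj (q n : ℕ) (hn : 1 < n) (hc : Nat.Coprime n q) (h : ∀ i, 0 < i → i < n → ¬ n ∣ gs q i) (c : ℕ) :
    ∃ i, gs q i ≡ c [MOD n] := by
  haveI : NeZero n := ⟨by omega⟩
  let f : Fin n → ZMod n := fun i => (gs q i : ZMod n)
  have hinj : Function.Injective f := by
    have key : ∀ i j : ℕ, i < j → j < n → (gs q i : ZMod n) ≠ (gs q j : ZMod n) := by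
      intro i j hij hj he
      have h1 : j = i + (j - i) := by omega
      rw [h1, gs_add] at he
      push_cast at he
      have h2 : ((q ^ i * gs q (j - i) : ℕ) : ZMod n) = 0 := by
        push_cast
        have := he
        exact (left_eq_add.mp this)
      rw [ZMod.natCast_eq_zero_iff] at h2
      exact h (j - i) (by omega) (by omega) ((Nat.Coprime.pow_right i hc).dvd_of_dvd_mul_left h2)
    intro i j hij
    by_contra hne
    rcases lt_or_gt_of_ne (fun h => hne (Fin.ext h)) with h1 | h1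
    · exact key i j h1 j.2 hij
    · exact key j i h1 i.2 hij.symm
  have hbij : Function.Bijective f := by
    rw [Fintype.bijective_iff_injective_and_card]
    exact ⟨hinj, by rw [Fintype.card_fin, ZMod.card]⟩
  obtain ⟨i, hi⟩ := hbij.2 (c : ZMod n)
  exact ⟨i, (ZMod.natCast_eq_natCast_iff _ _ _).mp hi⟩

/-- The Dickson pair condition: for a prime power `q` and `n > 1`, (every prime factor of `n` divides `q - 1`, and `4 ∣ n → 4 ∣ q - 1`) holds exactly when `q ^ n ≡ 1` modulo `n * (q - 1)` but `q ^ i` is not, for `0 < i < n`. -/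
theorem result (q n : ℕ) (hq : IsPrimePow q) (hn : 1 < n) : ((∀ r : ℕ, r.Prime → r ∣ n → r ∣ q - 1) ∧ (4 ∣ n → 4 ∣ q - 1)) ↔ (q ^ n ≡ 1 [MOD n * (q - 1)] ∧ ∀ i : ℕ, 0 < i → i < n → ¬ q ^ i ≡ 1 [MOD n * (q - 1)]) := by
  have h1 := hq.one_lt
  obtain ⟨d, rfl⟩ : ∃ d, q = d + 1 := ⟨q - 1, by omega⟩
  have hd : 0 < d := by omega
  simp only [Nat.add_sub_cancel, modeq_iff _ _ _ hd]
  constructor
  · rintro ⟨h2, h3⟩
    refine ⟨(dvd_iff d n n hd (by omega) (by omega) h2 h3).mpr dvd_rfl, ?_⟩
    intro i hi hin h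
    have := Nat.le_of_dvd hi ((dvd_iff d n i hd (by omega) hi h2 h3).mp h)
    omega
  · rintro ⟨h2, h3⟩
    have hc : Nat.Coprime n (d + 1) := by
      rw [Nat.coprime_iff_gcd_eq_one]
      by_contra hne
      obtain ⟨r, hr, hrd⟩ := Nat.exists_prime_and_dvd hne
      have h4 := (hrd.trans (Nat.gcd_dvd_left _ _)).trans h2
      have h5 := hrd.trans (Nat.gcd_dvd_right _ _)
      have h6 := gs_mul d n
      have h7 : r ∣ (d + 1) ^ n := dvd_pow h5 (by omega)
      rw [← h6] at h7
      have h8 := (Nat.dvd_add_right (h4.mul_left d)).mp h7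
      exact hr.one_lt.ne' (Nat.dvd_one.mp h8)
    have hs := surj (d + 1) n hn hc h3
    have h2r : ∀ r : ℕ, r.Prime → r ∣ n → r ∣ d := by
      intro r hr hrn
      by_contra hrd
      haveI : Fact r.Prime := ⟨hr⟩
      -- choose c with d * c + 1 ≡ 0 mod r
      have hd0 : (d : ZMod r) ≠ 0 := by
        rwa [Ne, ZMod.natCast_eq_zero_iff]
      obtain ⟨i, hi⟩ := hs ((-(d : ZMod r)⁻¹).val)
      have h4 : (gs (d + 1) i : ZMod r) = -(d : ZMod r)⁻¹ := by
        have := (ZMod.natCast_eq_natCast_iff _ _ _).mpr (hi.of_dvd hrn)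
        rw [this, ZMod.natCast_val, ZMod.cast_id]
      have h5 := congrArg (Nat.cast (R := ZMod r)) (gs_mul d i)
      push_cast at h5
      rw [h4, mul_neg, mul_inv_cancel₀ hd0, neg_add_cancel] at h5
      have h6 : ((d + 1 : ℕ) : ZMod r) = 0 := by
        push_cast
        refine (pow_eq_zero_iff (n := i) ?_).mp h5.symm
        rintro rfl
        simp at h5
      rw [ZMod.natCast_eq_zero_iff] at h6
      have h7 : r ∣ Nat.gcd n (d + 1) := Nat.dvd_gcd hrn h6
      rw [hc] at h7
      exact hr.one_lt.ne' (Nat.dvd_one.mp h7)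
    refine ⟨h2r, ?_⟩
    intro h4
    by_contra h4d
    have h2d := h2r 2 Nat.prime_two (by omega)
    have hm : (d + 1) % 4 = 3 := by omega
    have h5 : ∀ i, gs (d + 1) i % 4 = 0 ∧ (d + 1) ^ i % 4 = 1 ∨ gs (d + 1) i % 4 = 1 ∧ (d + 1) ^ i % 4 = 3 := by
      intro i
      induction i with
      | zero => left; simp [gs]
      | succ i ih =>
        rw [gs_succ, pow_succ]
        rw [Nat.mul_mod ((d + 1) ^ i), hm]
        rcases ih with ⟨h6, h7⟩ | ⟨h6, h7⟩
        · right
          rw [h7]
          omega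
        · left
          rw [h7]
          omega
    obtain ⟨i, hi⟩ := hs 2
    have h6 := hi.of_dvd h4
    unfold Nat.ModEq at h6
    rcases h5 i with h7 | h7 <;> omega

end Cfsg.Agent.S0694
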