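import Cfsg.Statements.S0699
import Mathlib
import Cfsg.Agent.H9_NormalMT
import Cfsg.Agent.H9_Generous
import Cfsg.Agent.H9_Three

set_option autoImplicit false
open Cfsg

namespace Cfsg.Agent.S0699

/-- Wagner's Theorem: a non-trivial normal subgroup of a triply transitive permutation group of odd degree at least 5 is triply transitive. -/
theorem result {α : Type*} [Fintype α] [DecidableEq α] (G : Subgroup (Equiv.Perm α)) (hodd : Odd (Fintype.card α)) (h5 : 5 ≤ Fintype.card α) (hG : MulAction.IsMultiplyPretransitive G α 3) (N : Subgroup G) [N.Normal] (hN : N ≠ ⊥) : MulAction.IsMultiplyPretransitive N α 3 := by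
  classical
  have hNn : N.Normal := inferInstance
  have hN2 : MulAction.IsMultiplyPretransitive N α 2 := by
    rcases H9.NormalMT.jordan_normal 3 (by norm_num) (by omega) hG N hN with h | ⟨-, -, hsq, htr, hreg⟩
    · exact h
    · exfalso
      obtain ⟨a⟩ : Nonempty α := Fintype.card_pos_iff.1 (by omega)
      have e : N ≃ α := Equiv.ofBijective (fun n : N => n • a) ⟨by
        intro n n' h
        have : n'⁻¹ * n ∈ MulAction.stabilizer N a := by
          rw [MulAction.mem_stabilizer_iff, mul_smul, inv_smul_eq_iff]; exact h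
        rw [hreg, Subgroup.mem_bot] at this
        exact (inv_mul_eq_one.1 this).symm, fun x => htr.exists_smul_eq a x⟩
      have hpg : IsPGroup 2 N := fun g => ⟨1, by rw [pow_one]; exact Subtype.ext (hsq g g.2)⟩
      obtain ⟨m, hm⟩ := IsPGroup.iff_card.1 hpg
      rw [Nat.card_congr e, Nat.card_eq_fintype_card] at hm
      rw [hm] at hodd h5
      rcases Nat.eq_zero_or_pos m with h0 | h0
      · subst h0; norm_num at h5
      · rw [Nat.odd_pow_iff h0.ne'] at hodd
        exact absurd hodd (by decide)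
  have hG3 : ∀ a b c a' b' c' : α, a ≠ b → a ≠ c → b ≠ c → a' ≠ b' → a' ≠ c' → b' ≠ c' →
      ∃ g : G, g • a = a' ∧ g • b = b' ∧ g • c = c' := by
    intro a b c a' b' c' h1 h2 h3 h1' h2' h3'
    exact H9.Three.exists_three hG h1 h2 h3 h1' h2' h3'
  -- an involution of N fixing a point
  obtain ⟨t, ht, a, b, c, hab, hac, hbc, hta, htb, htc⟩ : ∃ t ∈ N, ∃ a b c : α, a ≠ b ∧ a ≠ c ∧ b ≠ c ∧
      t • a = a ∧ t • b = c ∧ t • c = b := by
    obtain ⟨a⟩ : Nonempty α := Fintype.card_pos_iff.1 (by omega)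
    haveI hNtr : MulAction.IsPretransitive N α := MulAction.isPretransitive_of_is_two_pretransitive
    have h1 : MulAction.IsPretransitive (MulAction.stabilizer N a) (SubMulAction.ofStabilizer N a) := by
      rw [← MulAction.is_one_pretransitive_iff]
      exact (SubMulAction.ofStabilizer.isMultiplyPretransitive (a := a)).1 hN2
    have hcard : Nat.card (SubMulAction.ofStabilizer N a) + 1 = Nat.card α := SubMulAction.nat_card_ofStabilizer_add_one_eq N a
    rw [Nat.card_eq_fintype_card (α := α)] at hcard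
    haveI : Nonempty (SubMulAction.ofStabilizer N a) := by
      apply (Nat.card_pos_iff.1 _).1
      omega
    obtain ⟨x⟩ := this
    have hdvd : Nat.card (SubMulAction.ofStabilizer N a) ∣ Nat.card (MulAction.stabilizer N a) := by
      have h2 := Subgroup.card_mul_index (MulAction.stabilizer (MulAction.stabilizer N a) x)
      rw [MulAction.index_stabilizer, MulAction.orbit_eq_univ, Set.ncard_univ] at h2
      exact ⟨_, by rw [← h2, mul_comm]⟩
    have h2dvd : 2 ∣ Nat.card (MulAction.stabilizer N a) := by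
      refine Dvd.dvd.trans ?_ hdvd
      obtain ⟨r, hr⟩ := hodd
      exact ⟨r, by omega⟩
    haveI : Fact (Nat.Prime 2) := ⟨Nat.prime_two⟩
    obtain ⟨t, ht⟩ := exists_prime_orderOf_dvd_card' (G := MulAction.stabilizer N a) 2 h2dvd
    have ht1 : t ≠ 1 := by
      rintro rfl
      rw [orderOf_one] at ht; omega
    have htt : t * t = 1 := by rw [← pow_two, ← ht, pow_orderOf_eq_one]
    obtain ⟨b, hb⟩ : ∃ b : α, (((t : N) : G) : Equiv.Perm α) b ≠ b := by
      by_contra hcon
      push Not at hcon
      apply ht1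
      apply Subtype.ext
      apply Subtype.ext
      apply Subtype.ext
      ext x
      exact hcon x
    have hta : (((t : N) : G) : Equiv.Perm α) a = a := t.2
    have htb : (((t : N) : G) : Equiv.Perm α) ((((t : N) : G) : Equiv.Perm α) b) = b :=
      congrArg (fun z : MulAction.stabilizer N a => (((z : N) : G) : Equiv.Perm α) b) htt
    refine ⟨((t : N) : G), (t : N).2, a, b, (((t : N) : G) : Equiv.Perm α) b, ?_, ?_, Ne.symm hb, hta, rfl, htb⟩
    · rintro rfl; exact hb hta
    · intro h
      rw [← h, hta] at htb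
      rw [← htb] at hb
      exact hb hta
  have hswap : ∀ a' b' c' : α, a' ≠ b' → a' ≠ c' → b' ≠ c' → ∃ n ∈ N, n • a' = a' ∧ n • b' = c' ∧ n • c' = b' := by
    intro a' b' c' h1 h2 h3
    obtain ⟨g, rfl, rfl, rfl⟩ := hG3 a b c a' b' c' hab hac hbc h1 h2 h3
    refine ⟨g * t * g⁻¹, hNn.conj_mem t ht g, ?_, ?_, ?_⟩
    · rw [mul_smul, inv_smul_smul, mul_smul, hta]
    · rw [mul_smul, inv_smul_smul, mul_smul, htb]
    · rw [mul_smul, inv_smul_smul, mul_smul, htc]
  -- N as a permutation group
  set M : Subgroup (Equiv.Perm α) := N.map G.subtype with hM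
  have hMmem : ∀ n ∈ N, (n : Equiv.Perm α) ∈ M := fun n hn => ⟨n, hn, rfl⟩
  have hgen : ∀ s : Finset α, s.card = 2 + 1 → ∀ σ : Equiv.Perm ↥s, ∃ g ∈ M, ∀ x : ↥s, g (x : α) = σ x := by
    intro s hs σ
    refine Equiv.Perm.swap_induction_on σ ⟨1, M.one_mem, fun x => rfl⟩ ?_
    rintro τ ⟨x, hx⟩ ⟨y, hy⟩ hxy ⟨g, hg, hgτ⟩
    have hxy' : x ≠ y := fun h => hxy (Subtype.ext h)
    obtain ⟨z, hz, hzx, hzy⟩ : ∃ z ∈ s, z ≠ x ∧ z ≠ y := by
      have : ((s.erase x).erase y).card = 1 := by
        rw [Finset.card_erase_of_mem (Finset.mem_erase.2 ⟨Ne.symm hxy', hy⟩), Finset.card_erase_of_mem hx, hs]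
      obtain ⟨z, hz⟩ := Finset.card_eq_one.1 this
      have hz' : z ∈ (s.erase x).erase y := by rw [hz]; simp
      rw [Finset.mem_erase, Finset.mem_erase] at hz'
      exact ⟨z, hz'.2.2, hz'.2.1, hz'.1⟩
    obtain ⟨n, hn, hnz, hnx, hny⟩ := hswap z x y hzx hzy hxy'
    refine ⟨(n : Equiv.Perm α) * g, M.mul_mem (hMmem n hn) hg, ?_⟩
    have hns : ∀ w (hw : w ∈ s), (n : Equiv.Perm α) w = ((Equiv.swap (⟨x, hx⟩ : ↥s) ⟨y, hy⟩) ⟨w, hw⟩ : ↥s) := by
      intro w hw
      by_cases h1 : w = x
      · subst h1; rw [Equiv.swap_apply_left]; exact hnx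
      by_cases h2 : w = y
      · subst h2; rw [Equiv.swap_apply_right]; exact hny
      have h3 : w = z := by
        have hsub : ({x, y, z} : Finset α) = s := by
          apply Finset.eq_of_subset_of_card_le
          · intro q hq
            simp only [Finset.mem_insert, Finset.mem_singleton] at hq
            rcases hq with rfl | rfl | rfl <;> assumption
          · rw [hs, Finset.card_insert_of_notMem (by simp [hxy', Ne.symm hzx]), Finset.card_pair (Ne.symm hzy)]
        rw [← hsub] at hw
        simp only [Finset.mem_insert, Finset.mem_singleton] at hw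
        tauto
      subst h3
      rw [Equiv.swap_apply_of_ne_of_ne (fun h => h1 (congrArg Subtype.val h)) (fun h => h2 (congrArg Subtype.val h))]
      exact hnz
    intro w
    rw [Equiv.Perm.mul_apply, hgτ w, hns _ (τ w).2]
    rfl
  refine H9.MultTrans2.multTrans_of_fixing (by norm_num) (by omega) ?_
  intro Γ hΓ x y hx hy
  have hΓ' : Γ.card = 2 := by rw [hΓ]
  by_contra hcon
  let L := fixingSubgroup M (Γ : Set α)
  have hL : ∀ m : M, m ∈ L ↔ ∀ z ∈ Γ, m • z = z := by
    intro m
    rw [mem_fixingSubgroup_iff]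
    simp
  have hnot : y ∉ MulAction.orbit L x := by
    rintro ⟨⟨⟨_, n, hn, rfl⟩, hm⟩, hmx⟩
    exact hcon ⟨⟨n, hn⟩, fun z hz => (hL _).1 hm z hz, hmx⟩
  have hxL : ∀ z : α, z ∉ Γ → Nat.card (MulAction.orbit L z) = Nat.card (MulAction.orbit L x) := by
    intro z hz
    obtain ⟨p, q, hpq, rfl⟩ := Finset.card_eq_two.1 hΓ'
    simp only [Finset.mem_insert, Finset.mem_singleton, not_or] at hx hz
    obtain ⟨g, hg1, hg2, hg3⟩ := hG3 p q x p q z hpq (Ne.symm hx.1) (Ne.symm hx.2) hpq (Ne.symm hz.1) (Ne.symm hz.2)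
    symm
    have hconj : ∀ (g : G), g • p = p → g • q = q → ∀ m : L, ∃ m' : L, ∀ w : α, m' • w = g • (m • (g⁻¹ • w)) := by
      rintro g hg1 hg2 ⟨⟨_, n, hn, rfl⟩, hm⟩
      have hg1' : g⁻¹ • p = p := by rw [inv_smul_eq_iff, hg1]
      have hg2' : g⁻¹ • q = q := by rw [inv_smul_eq_iff, hg2]
      have hmem : ((g * n * g⁻¹ : G) : Equiv.Perm α) ∈ M := hMmem _ (hNn.conj_mem n hn g)
      refine ⟨⟨⟨_, hmem⟩, ?_⟩, fun w => rfl⟩
      rw [hL]
      intro w hw
      change g • (n • (g⁻¹ • w)) = w
      have hn' := (hL _).1 hm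
      simp only [Finset.mem_insert, Finset.mem_singleton] at hw
      rcases hw with rfl | rfl
      · rw [hg1']
        have : n • w = w := hn' w (by simp)
        rw [this, hg1]
      · rw [hg2']
        have : n • w = w := hn' w (by simp)
        rw [this, hg2]
    refine Nat.card_congr ⟨fun w => ⟨g • (w : α), ?_⟩, fun w => ⟨g⁻¹ • (w : α), ?_⟩, ?_, ?_⟩
    · obtain ⟨w, m, rfl⟩ := w
      obtain ⟨m', hm'⟩ := hconj g hg1 hg2 m
      refine ⟨m', ?_⟩
      change m' • z = g • (m • x)
      rw [hm', ← hg3, inv_smul_smul]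
    · obtain ⟨w, m, rfl⟩ := w
      obtain ⟨m', hm'⟩ := hconj g⁻¹ (by rw [inv_smul_eq_iff, hg1]) (by rw [inv_smul_eq_iff, hg2]) m
      refine ⟨m', ?_⟩
      change m' • x = g⁻¹ • (m • z)
      rw [hm', inv_inv, hg3]
    · intro w; apply Subtype.ext; exact inv_smul_smul g _
    · intro w; apply Subtype.ext; exact smul_inv_smul g _
  -- some orbit has even length, hence all
  have heven : 2 ∣ Nat.card (MulAction.orbit L x) := by
    obtain ⟨i, hi⟩ := H9.Generous.main M (k := 2) (by omega) hgen Nat.prime_two le_rfl Γ hΓ'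
      (fun i => if i = 0 then x else y) (by intro i; split_ifs <;> assumption) (by
        intro i j hij
        have h01 : (i = 0 ∧ j = 1) ∨ (i = 1 ∧ j = 0) := by
          revert i j; decide
        rcases h01 with ⟨rfl, rfl⟩ | ⟨rfl, rfl⟩
        · exact hnot
        · intro h
          apply hnot
          have h' : x ∈ MulAction.orbit L y := h
          exact (MulAction.mem_orbit_symm).1 h')
    have : Nat.card (MulAction.orbit L (if i = 0 then x else y)) = Nat.card (MulAction.orbit L x) := by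
      split_ifs
      · rfl
      · exact hxL y hy
    rw [← this]; exact hi
  -- counting
  let X : SubMulAction L α :=
    { carrier := {z | z ∉ Γ}
      smul_mem' := by
        intro m z hz hmz
        apply hz
        have h1 := (hL _).1 (m⁻¹).2 _ hmz
        have h2 : ((m⁻¹ : L) : M) • ((m : M) • z) = z := by rw [Subgroup.coe_inv, inv_smul_smul]
        have h3 : ((m⁻¹ : L) : M) • ((m : M) • z) = (m : M) • z := h1
        have h4 : (m : M) • z = z := by rw [← h3, h2]
        have h5 : (m : M) • z ∈ Γ := hmz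
        rwa [h4] at h5 }
  haveI : Fintype X := Fintype.ofFinite X
  have hs := H9.MultTrans2.sum_card_stabilizer L X
  let x' : X := ⟨x, hx⟩
  have hst : ∀ z : X, Nat.card (MulAction.stabilizer L z) * Nat.card (MulAction.orbit L x) = Nat.card L := by
    intro z
    rw [← hxL z z.2]
    have h1 := MulAction.card_orbit_mul_card_stabilizer_eq_card_group L (z : α)
    rw [Nat.card_eq_fintype_card (α := L), ← h1, mul_comm, Nat.card_eq_fintype_card, ← Nat.card_eq_fintype_card (α := MulAction.stabilizer L (z : α))]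
    congr 1
    exact Nat.card_congr ⟨fun m => ⟨m.1, congrArg Subtype.val m.2⟩, fun m => ⟨m.1, Subtype.ext m.2⟩, fun _ => rfl, fun _ => rfl⟩
  have hfin : Fintype.card X * Nat.card L = Nat.card (MulAction.orbitRel.Quotient L X) * Nat.card L * Nat.card (MulAction.orbit L x) := by
    rw [← hs, Finset.sum_mul, Finset.sum_congr rfl (fun z _ => hst z), Finset.sum_const, Finset.card_univ, smul_eq_mul]
  have hLpos : 0 < Nat.card L := Nat.card_pos
  have hfin2 : Fintype.card X = Nat.card (MulAction.orbitRel.Quotient L X) * Nat.card (MulAction.orbit L x) := by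
    apply Nat.eq_of_mul_eq_mul_right hLpos
    rw [hfin]; ring
  have hX2 : 2 ∣ Fintype.card X := by rw [hfin2]; exact Dvd.dvd.mul_left heven _
  have hXc : Fintype.card X = Fintype.card α - 2 := by
    have : Fintype.card X = Fintype.card {z : α // z ∉ Γ} := Fintype.card_congr (Equiv.refl _)
    rw [this, Fintype.card_subtype_compl, Fintype.card_coe, hΓ']
  obtain ⟨r, hr⟩ := hodd
  omega

end Cfsg.Agent.S0699
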