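import Cfsg.Statements.S0701
-- import your own Cfsg.Agent.* helpers here

set_option autoImplicit false
open Cfsg

namespace Cfsg.Agent.S0701

theorem key {α : Type*} (G : Subgroup (Equiv.Perm α)) [MulAction.IsPretransitive G α] :
    ∀ c ∈ Subgroup.centralizer (G : Set (Equiv.Perm α)), ∀ a : α, c a = a → c = 1 := by
  intro c hc a hca
  ext x
  obtain ⟨g, rfl⟩ := MulAction.exists_smul_eq G a x
  have h := Subgroup.mem_centralizer_iff.1 hc g g.2
  have h1 := congrArg (fun σ : Equiv.Perm α => σ a) h
  simp only [Equiv.Perm.coe_mul, Function.comp_apply, hca] at h1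
  exact h1.symm

/-- The centraliser in the full symmetric group of a transitive permutation group `G` is semiregular, and it is transitive if and only if `G` is regular. -/
theorem result {α : Type*} (G : Subgroup (Equiv.Perm α)) [MulAction.IsPretransitive G α] : (∀ c ∈ Subgroup.centralizer (G : Set (Equiv.Perm α)), ∀ a : α, c a = a → c = 1) ∧ (MulAction.IsPretransitive (Subgroup.centralizer (G : Set (Equiv.Perm α))) α ↔ ∀ a : α, MulAction.stabilizer G a = ⊥) := by
  refine ⟨key G, ?_⟩
  constructor
  · intro ht a
    rw [eq_bot_iff]
    intro g hg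
    rw [MulAction.mem_stabilizer_iff] at hg
    rw [Subgroup.mem_bot]
    apply Subtype.ext
    ext x
    obtain ⟨⟨c, hc⟩, rfl⟩ := MulAction.exists_smul_eq (Subgroup.centralizer (G : Set (Equiv.Perm α))) a x
    have h := Subgroup.mem_centralizer_iff.1 hc g g.2
    have h1 := congrArg (fun σ : Equiv.Perm α => σ a) h
    simp only [Equiv.Perm.coe_mul, Function.comp_apply] at h1
    have hg' : (g : Equiv.Perm α) a = a := hg
    rw [hg'] at h1
    exact h1
  · intro hreg
    constructor
    intro a b
    -- define c (g • a) = g • b
    have hinj : Function.Injective (fun g : G => g • a) := by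
      intro g h hgh
      have : h⁻¹ * g ∈ MulAction.stabilizer G a := by
        rw [MulAction.mem_stabilizer_iff, mul_smul, inv_smul_eq_iff]
        exact hgh
      rw [hreg a, Subgroup.mem_bot] at this
      exact (inv_mul_eq_one.1 this).symm
    have hinjb : Function.Injective (fun g : G => g • b) := by
      intro g h hgh
      have : h⁻¹ * g ∈ MulAction.stabilizer G b := by
        rw [MulAction.mem_stabilizer_iff, mul_smul, inv_smul_eq_iff]
        exact hgh
      rw [hreg b, Subgroup.mem_bot] at this
      exact (inv_mul_eq_one.1 this).symm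
    let ea : G ≃ α := Equiv.ofBijective (fun g : G => g • a) ⟨hinj, fun x => MulAction.exists_smul_eq G a x⟩
    let eb : G ≃ α := Equiv.ofBijective (fun g : G => g • b) ⟨hinjb, fun x => MulAction.exists_smul_eq G b x⟩
    let c : Equiv.Perm α := ea.symm.trans eb
    have hc : ∀ g : G, c (g • a) = g • b := by
      intro g
      have : g • a = ea g := rfl
      rw [this]
      simp only [c, Equiv.trans_apply, Equiv.symm_apply_apply]
      rfl
    have hcc : c ∈ Subgroup.centralizer (G : Set (Equiv.Perm α)) := by
      rw [Subgroup.mem_centralizer_iff]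
      intro h hh
      ext x
      obtain ⟨g, rfl⟩ := MulAction.exists_smul_eq G a x
      simp only [Equiv.Perm.coe_mul, Function.comp_apply]
      rw [hc]
      have h2 : h (g • a) = ((⟨h, hh⟩ : G) * g) • a := by rw [mul_smul]; rfl
      rw [h2, hc, mul_smul]
      rfl
    refine ⟨⟨c, hcc⟩, ?_⟩
    have := hc 1
    rw [one_smul, one_smul] at this
    exact this

end Cfsg.Agent.S0701
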