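import Cfsg.Statements.S0702
import Mathlib
-- import your own Cfsg.Agent.* helpers here

set_option autoImplicit false
open Cfsg

namespace Cfsg.Agent.S0702

open MulAction in
theorem exists_rmul {G : Type*} [Group G] {α : Type*} [MulAction G α] [MulAction.IsPretransitive G α] (a : α)
    (n : G) (hn : ∀ s ∈ MulAction.stabilizer G a, n * s * n⁻¹ ∈ MulAction.stabilizer G a) :
    ∃ f : α → α, ∀ g : G, f (g • a) = g • n⁻¹ • a := by
  choose r hr using fun x => MulAction.exists_smul_eq G a x
  refine ⟨fun x => r x • n⁻¹ • a, fun g => ?_⟩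
  have h1 : (r (g • a))⁻¹ * g ∈ MulAction.stabilizer G a := by
    rw [MulAction.mem_stabilizer_iff, mul_smul, inv_smul_eq_iff, hr]
  have h2 := hn _ h1
  rw [MulAction.mem_stabilizer_iff] at h2
  change r (g • a) • n⁻¹ • a = g • n⁻¹ • a
  rw [mul_smul, mul_smul, mul_smul, smul_eq_iff_eq_inv_smul, inv_smul_eq_iff] at h2
  exact h2.symm

/-- For a transitive permutation group `G` on a finite set, the centraliser of `G` in the symmetric group is isomorphic to `N_G(G_ω)/G_ω`, and its orbit of `ω` is the set of fixed points of `G_ω`. -/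
theorem result {α : Type*} [Finite α] (G : Subgroup (Equiv.Perm α)) [MulAction.IsPretransitive G α] (a : α) : Nonempty (Subgroup.centralizer (G : Set (Equiv.Perm α)) ≃* Subgroup.normalizer ((MulAction.stabilizer G a : Subgroup G) : Set G) ⧸ (MulAction.stabilizer G a).subgroupOf (Subgroup.normalizer ((MulAction.stabilizer G a : Subgroup G) : Set G))) ∧ MulAction.orbit (Subgroup.centralizer (G : Set (Equiv.Perm α))) a = MulAction.fixedPoints (MulAction.stabilizer G a) α := by
  classical
  set S := MulAction.stabilizer G a with hS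
  set N := Subgroup.normalizer (S : Set G) with hN
  have hex : ∀ n : N, ∃ c : Equiv.Perm α, ∀ g : G, c (g • a) = g • (n : G)⁻¹ • a := by
    intro n
    obtain ⟨f, hf⟩ := exists_rmul a (n : G) (fun s hs => (Subgroup.mem_normalizer_iff.1 n.2 s).1 hs)
    obtain ⟨f', hf'⟩ := exists_rmul a (n⁻¹ : G) (fun s hs => (Subgroup.mem_normalizer_iff.1 (N.inv_mem n.2) s).1 hs)
    refine ⟨⟨f, f', ?_, ?_⟩, hf⟩
    · intro x
      obtain ⟨g, rfl⟩ := MulAction.exists_smul_eq G a x
      rw [hf, ← mul_smul, hf', ← mul_smul]
      simp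
    · intro x
      obtain ⟨g, rfl⟩ := MulAction.exists_smul_eq G a x
      rw [hf', ← mul_smul, hf, ← mul_smul]
      simp
  choose c hc using hex
  have hext : ∀ c d : Equiv.Perm α, (∀ g : G, c (g • a) = d (g • a)) → c = d := by
    intro c d h
    ext x
    obtain ⟨g, rfl⟩ := MulAction.exists_smul_eq G a x
    exact h g
  have hcmem : ∀ n, c n ∈ Subgroup.centralizer (G : Set (Equiv.Perm α)) := by
    intro n
    rw [Subgroup.mem_centralizer_iff]
    intro k hk
    apply hext
    intro g
    rw [Equiv.Perm.mul_apply, Equiv.Perm.mul_apply, hc]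
    have h1 : k (g • a) = ((⟨k, hk⟩ : G) * g) • a := by rw [mul_smul]; rfl
    rw [h1, hc, mul_smul]
    rfl
  let φ : N →* Subgroup.centralizer (G : Set (Equiv.Perm α)) := MonoidHom.mk' (fun n => ⟨c n, hcmem n⟩) (by
    intro n m
    apply Subtype.ext
    apply hext
    intro g
    change c (n * m) (g • a) = (c n * c m) (g • a)
    have h1 := hc n (g * (m : G)⁻¹)
    rw [mul_smul] at h1
    rw [Equiv.Perm.mul_apply, hc, hc, h1, ← mul_smul, ← mul_smul]
    simp [mul_assoc])
  have hφ : ∀ n, (φ n : Equiv.Perm α) = c n := fun _ => rfl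
  have hker : φ.ker = S.subgroupOf N := by
    ext n
    rw [MonoidHom.mem_ker, Subgroup.mem_subgroupOf]
    constructor
    · intro h
      have h1 : c n = 1 := congrArg Subtype.val h
      have h2 := hc n 1
      rw [h1, one_smul, one_smul] at h2
      have h3 : (n : G)⁻¹ ∈ S := h2.symm
      exact (S.inv_mem_iff).1 h3
    · intro h
      apply Subtype.ext
      apply hext
      intro g
      rw [hφ, hc]
      have h3 : (n : G)⁻¹ • a = a := S.inv_mem h
      rw [h3]; rfl
  have hcomm : ∀ d ∈ Subgroup.centralizer (G : Set (Equiv.Perm α)), ∀ (g : G) x, d (g • x) = g • d x := by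
    intro d hd g x
    rw [Subgroup.mem_centralizer_iff] at hd
    exact (Equiv.Perm.congr_fun (hd g g.2) x).symm
  have hsurj : Function.Surjective φ := by
    rintro ⟨d, hd⟩
    have hd' := hcomm d hd
    obtain ⟨g, hg⟩ := MulAction.exists_smul_eq G a (d a)
    have hgN : g⁻¹ ∈ N := by
      rw [Subgroup.mem_normalizer_iff]
      intro s
      change s • a = a ↔ (g⁻¹ * s * g⁻¹⁻¹) • a = a
      rw [inv_inv, mul_smul, mul_smul, hg, inv_smul_eq_iff, hg, ← hd']
      exact ⟨fun h => by rw [h], fun h => d.injective h⟩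
    refine ⟨⟨g⁻¹, hgN⟩, ?_⟩
    apply Subtype.ext
    apply hext
    intro k
    rw [hφ, hc]
    change k • (g⁻¹)⁻¹ • a = d (k • a)
    rw [inv_inv, hg, hd']
  constructor
  · refine ⟨((QuotientGroup.quotientKerEquivOfSurjective φ hsurj).symm.trans ?_)⟩
    exact QuotientGroup.quotientMulEquivOfEq hker
  · ext x
    constructor
    · rintro ⟨⟨d, hd⟩, rfl⟩
      rintro ⟨s, hs⟩
      change s • d a = d a
      rw [← hcomm d hd]
      congr 1
    · intro hx
      obtain ⟨g, rfl⟩ := MulAction.exists_smul_eq G a x
      have h1 : ∀ s ∈ S, g⁻¹ * s * g ∈ S := by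
        intro s hs
        change (g⁻¹ * s * g) • a = a
        rw [mul_smul, mul_smul, inv_smul_eq_iff]
        exact hx ⟨s, hs⟩
      have h2 : S.map (MulAut.conj g⁻¹).toMonoidHom = S := by
        apply Subgroup.eq_of_le_of_card_ge
        · rintro _ ⟨s, hs, rfl⟩
          have := h1 s hs
          simpa [MulAut.conj_apply] using this
        · rw [Subgroup.card_map_of_injective (MulAut.conj g⁻¹).injective]
      have hgN : g⁻¹ ∈ N := by
        rw [Subgroup.mem_normalizer_iff]
        intro s
        constructor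
        · intro hs
          have := h1 s hs
          simpa using this
        · intro hs
          rw [← h2] at hs
          obtain ⟨t, ht, hts⟩ := hs
          have : t = s := by
            apply (MulAut.conj g⁻¹).injective
            simpa [MulAut.conj_apply] using hts
          rwa [← this]
      refine ⟨φ ⟨g⁻¹, hgN⟩, ?_⟩
      change c ⟨g⁻¹, hgN⟩ a = g • a
      have := hc ⟨g⁻¹, hgN⟩ 1
      rw [one_smul, one_smul] at this
      rw [this]
      simp

end Cfsg.Agent.S0702
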