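import Cfsg.Statements.S0703
import Mathlib

set_option autoImplicit false
open Cfsg

namespace Cfsg.Agent.S0703

/-- An abelian transitive minimal normal subgroup `M` of a permutation group on a finite set is self-centralising in the symmetric group, regular, elementary abelian, and is the unique minimal normal subgroup. -/
theorem result {α : Type*} [Finite α] (G : Subgroup (Equiv.Perm α)) (M : Subgroup G) [M.Normal] (hM : M ≠ ⊥) (hmin : ∀ L : Subgroup G, L.Normal → L ≤ M → L = ⊥ ∨ L = M) (hab : IsMulCommutative M) (htrans : MulAction.IsPretransitive M α) : Subgroup.centralizer ((M.map G.subtype : Subgroup (Equiv.Perm α)) : Set (Equiv.Perm α)) = M.map G.subtype ∧ (∀ a : α, MulAction.stabilizer M a = ⊥) ∧ (∃ p : ℕ, p.Prime ∧ ∀ m ∈ M, m ^ p = 1) ∧ ∀ L : Subgroup G, L.Normal → L ≠ ⊥ → (∀ L' : Subgroup G, L'.Normal → L' ≤ L → L' = ⊥ ∨ L' = L) → L = M := by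
  classical
  -- centralizer of M in Sym is semiregular
  set C := Subgroup.centralizer ((M.map G.subtype : Subgroup (Equiv.Perm α)) : Set (Equiv.Perm α)) with hC
  have hCmem : ∀ c : Equiv.Perm α, c ∈ C ↔ ∀ m ∈ M, (m : Equiv.Perm α) * c = c * m := by
    intro c
    rw [hC, Subgroup.mem_centralizer_iff]
    constructor
    · intro h m hm
      exact h m ⟨m, hm, rfl⟩
    · rintro h _ ⟨m, hm, rfl⟩
      exact h m hm
  have hsemi : ∀ c ∈ C, ∀ a : α, c a = a → c = 1 := by
    intro c hc a hca
    ext x
    obtain ⟨⟨m, hm⟩, rfl⟩ := htrans.exists_smul_eq a x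
    have h1 := congrArg (fun σ : Equiv.Perm α => σ a) ((hCmem c).1 hc m hm)
    simp only [Equiv.Perm.coe_mul, Function.comp_apply, hca] at h1
    exact h1.symm
  have hMC : M.map G.subtype ≤ C := by
    rintro _ ⟨m, hm, rfl⟩
    rw [hCmem]
    intro m' hm'
    have := hab.is_comm.comm (⟨m', hm'⟩ : M) ⟨m, hm⟩
    exact congrArg (fun z : M => ((z : G) : Equiv.Perm α)) this
  have hne : Nonempty α := by
    by_contra h
    rw [not_nonempty_iff] at h
    exact hM (Subsingleton.elim _ _)
  have hreg : ∀ a : α, MulAction.stabilizer M a = ⊥ := by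
    intro a
    rw [eq_bot_iff]
    rintro ⟨m, hm⟩ h
    rw [Subgroup.mem_bot]
    have := hsemi m (hMC ⟨m, hm, rfl⟩) a h
    apply Subtype.ext
    apply Subtype.ext
    exact this
  have hCM : C = M.map G.subtype := by
    apply le_antisymm _ hMC
    intro c hc
    obtain ⟨a⟩ := hne
    obtain ⟨⟨m, hm⟩, hma⟩ := htrans.exists_smul_eq a (c a)
    have hma' : (m : Equiv.Perm α) a = c a := hma
    have h1 := hsemi ((m : Equiv.Perm α)⁻¹ * c) (C.mul_mem (C.inv_mem (hMC ⟨m, hm, rfl⟩)) hc) a (by
      rw [Equiv.Perm.mul_apply, ← hma']; simp)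
    rw [inv_mul_eq_one] at h1
    exact ⟨m, hm, h1⟩
  refine ⟨hCM, hreg, ?_, ?_⟩
  · -- exponent p
    have hMnt : Nontrivial M := by
      rw [Subgroup.nontrivial_iff_ne_bot]; exact hM
    have hcard : Nat.card M ≠ 1 := by
      have := Finite.one_lt_card (α := M)
      omega
    obtain ⟨p, hp, hpd⟩ := Nat.exists_prime_and_dvd hcard
    haveI : Fact p.Prime := ⟨hp⟩
    obtain ⟨x, hx⟩ := exists_prime_orderOf_dvd_card' p hpd
    let L : Subgroup G :=
      { carrier := {g | g ∈ M ∧ g ^ p = 1}
        one_mem' := ⟨M.one_mem, one_pow _⟩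
        mul_mem' := by
          rintro a b ⟨ha, ha'⟩ ⟨hb, hb'⟩
          refine ⟨M.mul_mem ha hb, ?_⟩
          have hc : Commute a b := congrArg Subtype.val (hab.is_comm.comm (⟨a, ha⟩ : M) ⟨b, hb⟩)
          rw [hc.mul_pow, ha', hb', one_mul]
        inv_mem' := by
          rintro a ⟨ha, ha'⟩
          exact ⟨M.inv_mem ha, by rw [inv_pow, ha', inv_one]⟩ }
    have hLn : L.Normal := ⟨by
      rintro a ⟨ha, ha'⟩ g
      refine ⟨‹M.Normal›.conj_mem a ha g, ?_⟩
      rw [conj_pow, ha']; simp⟩
    rcases hmin L hLn (fun g hg => hg.1) with h | h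
    · exfalso
      have hxL : (x : G) ∈ L := ⟨x.2, by
        have := pow_orderOf_eq_one x
        rw [hx] at this
        exact congrArg Subtype.val this⟩
      rw [h, Subgroup.mem_bot] at hxL
      have : x = 1 := Subtype.ext hxL
      rw [this, orderOf_one] at hx
      exact hp.one_lt.ne hx
    · exact ⟨p, hp, fun m hm => by rw [← h] at hm; exact hm.2⟩
  · intro L hL hLne hLmin
    -- L ⊓ M
    haveI := hL
    rcases hmin (L ⊓ M) inferInstance inf_le_right with h | h
    · exfalso
      -- L centralises M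
      have : L.map G.subtype ≤ C := by
        rintro _ ⟨l, hl, rfl⟩
        rw [hCmem]
        intro m hm
        have hcomm : m * l = l * m := by
          have hmem : m * l * m⁻¹ * l⁻¹ ∈ L ⊓ M := by
            constructor
            · exact L.mul_mem (hL.conj_mem l hl m) (L.inv_mem hl)
            · have : m * l * m⁻¹ * l⁻¹ = m * (l * m⁻¹ * l⁻¹) := by group
              rw [this]
              exact M.mul_mem hm (‹M.Normal›.conj_mem _ (M.inv_mem hm) l)
          rw [h, Subgroup.mem_bot] at hmem
          have h2 := mul_inv_eq_one.1 hmem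
          rw [mul_inv_eq_iff_eq_mul] at h2
          exact h2
        exact congrArg Subtype.val hcomm
      rw [hCM] at this
      have hle : L ≤ M := by
        intro l hl
        obtain ⟨m, hm, hml⟩ := this ⟨l, hl, rfl⟩
        have : m = l := Subtype.ext hml
        rw [← this]; exact hm
      rw [inf_eq_left.2 hle] at h
      exact hLne h
    · have hML : M ≤ L := by rw [← h]; exact inf_le_left
      rcases hLmin M inferInstance hML with h' | h'
      · exact absurd h' hM
      · exact h'.symm

end Cfsg.Agent.S0703
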