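import Cfsg.Statements.S0704
import Mathlib

set_option autoImplicit false
open Cfsg

namespace Cfsg.Agent.S0704

/-- `M` transitive: the centraliser in Sym is semiregular. -/
theorem semi {α : Type*} (G : Subgroup (Equiv.Perm α)) (M : Subgroup G)
    (htrans : MulAction.IsPretransitive M α) (c : Equiv.Perm α)
    (hc : ∀ m ∈ M, (m : Equiv.Perm α) * c = c * m) (a : α) (hca : c a = a) : c = 1 := by
  ext x
  obtain ⟨⟨m, hm⟩, rfl⟩ := htrans.exists_smul_eq a x
  have h1 := congrArg (fun σ : Equiv.Perm α => σ a) (hc m hm)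
  simp only [Equiv.Perm.coe_mul, Function.comp_apply, hca] at h1
  exact h1.symm

theorem comm_of_inf_bot {G : Type*} [Group G] (M N : Subgroup G) [hM : M.Normal] [hN : N.Normal]
    (h : M ⊓ N = ⊥) {m n : G} (hm : m ∈ M) (hn : n ∈ N) : m * n = n * m := by
  have hmem : m * n * m⁻¹ * n⁻¹ ∈ M ⊓ N := by
    constructor
    · have : m * n * m⁻¹ * n⁻¹ = m * (n * m⁻¹ * n⁻¹) := by group
      rw [this]
      exact M.mul_mem hm (hM.conj_mem _ (M.inv_mem hm) n)
    · exact N.mul_mem (hN.conj_mem n hn m) (N.inv_mem hn)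
  rw [h, Subgroup.mem_bot] at hmem
  have h2 := mul_inv_eq_one.1 hmem
  rw [mul_inv_eq_iff_eq_mul] at h2
  exact h2

theorem centralizer_eq {α : Type*} (G : Subgroup (Equiv.Perm α)) (M N : Subgroup G)
    (hcomm : ∀ m ∈ M, ∀ n ∈ N, m * n = n * m) (a : α)
    (hMt : MulAction.IsPretransitive M α) (hNt : MulAction.IsPretransitive N α) :
    Subgroup.centralizer ((M.map G.subtype : Subgroup (Equiv.Perm α)) : Set (Equiv.Perm α)) = N.map G.subtype := by
  apply le_antisymm
  · intro c hc
    rw [Subgroup.mem_centralizer_iff] at hc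
    have hc' : ∀ m ∈ M, (m : Equiv.Perm α) * c = c * m := fun m hm => hc m ⟨m, hm, rfl⟩
    obtain ⟨⟨n, hn⟩, hna⟩ := hNt.exists_smul_eq a (c a)
    have hna' : (n : Equiv.Perm α) a = c a := hna
    have h1 := semi G M hMt ((n : Equiv.Perm α)⁻¹ * c) (by
      intro m hm
      have h2 : (m : Equiv.Perm α) * (n : Equiv.Perm α) = n * m := congrArg Subtype.val (hcomm m hm n hn)
      have h3 : (m : Equiv.Perm α) * (n : Equiv.Perm α)⁻¹ = (n : Equiv.Perm α)⁻¹ * m := by
        rw [eq_inv_mul_iff_mul_eq, ← mul_assoc, ← h2, mul_inv_cancel_right]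
      rw [← mul_assoc, h3, mul_assoc, hc' m hm, mul_assoc]) a (by rw [Equiv.Perm.mul_apply, ← hna']; simp)
    rw [inv_mul_eq_one] at h1
    exact ⟨n, hn, h1⟩
  · rintro _ ⟨n, hn, rfl⟩
    rw [Subgroup.mem_centralizer_iff]
    rintro _ ⟨m, hm, rfl⟩
    exact congrArg Subtype.val (hcomm m hm n hn)

theorem reg_of {α : Type*} (G : Subgroup (Equiv.Perm α)) (M N : Subgroup G)
    (hcomm : ∀ m ∈ M, ∀ n ∈ N, m * n = n * m) 
    (hNt : MulAction.IsPretransitive N α) (a : α) : MulAction.stabilizer M a = ⊥ := by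
  rw [eq_bot_iff]
  rintro ⟨m, hm⟩ h
  rw [Subgroup.mem_bot]
  have := semi G N hNt m (fun n hn => congrArg Subtype.val (hcomm m hm n hn).symm) a h
  apply Subtype.ext
  apply Subtype.ext
  exact this

/-- Two distinct transitive minimal normal subgroups `M`, `N` of a permutation group are regular, non-abelian, isomorphic, each other's centraliser in the symmetric group, and the only minimal normal subgroups. -/
theorem result {α : Type*} (G : Subgroup (Equiv.Perm α)) (M N : Subgroup G) [M.Normal] [N.Normal] (hM : M ≠ ⊥) (hN : N ≠ ⊥) (hMmin : ∀ L : Subgroup G, L.Normal → L ≤ M → L = ⊥ ∨ L = M) (hNmin : ∀ L : Subgroup G, L.Normal → L ≤ N → L = ⊥ ∨ L = N) (hMN : M ≠ N) (hMt : MulAction.IsPretransitive M α) (hNt : MulAction.IsPretransitive N α) : (∀ a : α, MulAction.stabilizer M a = ⊥) ∧ (∀ a : α, MulAction.stabilizer N a = ⊥) ∧ ¬ IsMulCommutative M ∧ Nonempty (M ≃* N) ∧ Subgroup.centralizer ((M.map G.subtype : Subgroup (Equiv.Perm α)) : Set (Equiv.Perm α)) = N.map G.subtype ∧ Subgroup.centralizer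 ((N.map G.subtype : Subgroup (Equiv.Perm α)) : Set (Equiv.Perm α)) = M.map G.subtype ∧ ∀ L : Subgroup G, L.Normal → L ≠ ⊥ → (∀ L' : Subgroup G, L'.Normal → L' ≤ L → L' = ⊥ ∨ L' = L) → L = M ∨ L = N := by
  classical
  have hne : Nonempty α := by
    by_contra h
    rw [not_nonempty_iff] at h
    exact hM (Subsingleton.elim _ _)
  have hMNbot : M ⊓ N = ⊥ := by
    rcases hMmin (M ⊓ N) inferInstance inf_le_left with h | h
    · exact h
    · exfalso
      have h1 : M ≤ N := by rw [← h]; exact inf_le_right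
      rcases hNmin M inferInstance h1 with h2 | h2
      · exact hM h2
      · exact hMN h2
  have hcomm : ∀ m ∈ M, ∀ n ∈ N, m * n = n * m := fun m hm n hn => comm_of_inf_bot M N hMNbot hm hn
  have hcomm' : ∀ n ∈ N, ∀ m ∈ M, n * m = m * n := fun n hn m hm => (hcomm m hm n hn).symm
  obtain ⟨a₀⟩ := hne
  have hC1 := centralizer_eq G M N hcomm a₀ hMt hNt
  have hC2 := centralizer_eq G N M hcomm' a₀ hNt hMt
  have hMr := reg_of G M N hcomm hNt
  have hNr := reg_of G N M hcomm' hMt
  refine ⟨hMr, hNr, ?_, ?_, hC1, hC2, ?_⟩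
  · intro hab
    have hle : M ≤ N := by
      intro m hm
      have : (m : Equiv.Perm α) ∈ Subgroup.centralizer ((M.map G.subtype : Subgroup (Equiv.Perm α)) : Set (Equiv.Perm α)) := by
        rw [Subgroup.mem_centralizer_iff]
        rintro _ ⟨m', hm', rfl⟩
        exact congrArg (fun z : M => ((z : G) : Equiv.Perm α)) (hab.is_comm.comm (⟨m', hm'⟩ : M) ⟨m, hm⟩)
      rw [hC1] at this
      obtain ⟨n, hn, hnm⟩ := this
      have h1 : n = m := Subtype.ext hnm
      rw [← h1]; exact hn
    rcases hNmin M inferInstance hle with h2 | h2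
    · exact hM h2
    · exact hMN h2
  · -- isomorphism
    have hex : ∀ m : M, ∃ n : N, (n : G) • a₀ = (m⁻¹ : M) • a₀ := fun m => hNt.exists_smul_eq a₀ _
    choose f hf using hex
    have huniq : ∀ n n' : N, (n : G) • a₀ = (n' : G) • a₀ → n = n' := by
      intro n n' h
      have : n'⁻¹ * n ∈ MulAction.stabilizer N a₀ := by
        rw [MulAction.mem_stabilizer_iff, mul_smul, inv_smul_eq_iff]; exact h
      rw [hNr, Subgroup.mem_bot] at this
      exact (inv_mul_eq_one.1 this).symm
    have huniqM : ∀ n n' : M, (n : G) • a₀ = (n' : G) • a₀ → n = n' := by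
      intro n n' h
      have : n'⁻¹ * n ∈ MulAction.stabilizer M a₀ := by
        rw [MulAction.mem_stabilizer_iff, mul_smul, inv_smul_eq_iff]; exact h
      rw [hMr, Subgroup.mem_bot] at this
      exact (inv_mul_eq_one.1 this).symm
    have hf' : ∀ m : M, ((f m : N) : G) • a₀ = ((m : G)⁻¹) • a₀ := fun m => hf m
    have hmul : ∀ m m' : M, f (m * m') = f m * f m' := by
      intro m m'
      apply huniq
      rw [hf']
      simp only [Subgroup.coe_mul, mul_inv_rev]
      have h3 := hcomm' (f m : G) (f m).2 _ (M.inv_mem m'.2)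
      rw [mul_smul ((f m : N) : G), hf' m', ← mul_smul ((f m : N) : G), h3, mul_smul, mul_smul, hf' m]
    refine ⟨MulEquiv.ofBijective (MonoidHom.mk' f hmul) ⟨?_, ?_⟩⟩
    · intro m m' h
      have h' : f m = f m' := h
      have h1 := hf' m
      rw [h', hf' m'] at h1
      have := huniqM m'⁻¹ m⁻¹ (by simpa using h1)
      exact (inv_injective this).symm
    · intro n
      obtain ⟨m, hm⟩ := hMt.exists_smul_eq a₀ ((n : G) • a₀)
      refine ⟨m⁻¹, ?_⟩
      apply huniq
      rw [MonoidHom.mk'_apply, hf']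
      simp only [Subgroup.coe_inv, inv_inv]
      exact hm
  · intro L hL hLne hLmin
    by_contra hcon
    push Not at hcon
    haveI := hL
    have h1 : M ⊓ L = ⊥ := by
      rcases hMmin (M ⊓ L) inferInstance inf_le_left with h | h
      · exact h
      · exfalso
        have h1 : M ≤ L := by rw [← h]; exact inf_le_right
        rcases hLmin M inferInstance h1 with h2 | h2
        · exact hM h2
        · exact hcon.1 h2.symm
    have h2 : N ⊓ L = ⊥ := by
      rcases hNmin (N ⊓ L) inferInstance inf_le_left with h | h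
      · exact h
      · exfalso
        have h1 : N ≤ L := by rw [← h]; exact inf_le_right
        rcases hLmin N inferInstance h1 with h2 | h2
        · exact hN h2
        · exact hcon.2 h2.symm
    apply hLne
    rw [eq_bot_iff]
    intro l hl
    have m1 : (l : Equiv.Perm α) ∈ N.map G.subtype := by
      rw [← hC1, Subgroup.mem_centralizer_iff]
      rintro _ ⟨m, hm, rfl⟩
      exact congrArg Subtype.val (comm_of_inf_bot M L h1 hm hl)
    have m2 : (l : Equiv.Perm α) ∈ M.map G.subtype := by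
      rw [← hC2, Subgroup.mem_centralizer_iff]
      rintro _ ⟨m, hm, rfl⟩
      exact congrArg Subtype.val (comm_of_inf_bot N L h2 hm hl)
    obtain ⟨n, hn, hn'⟩ := m1
    obtain ⟨m, hm, hm'⟩ := m2
    have e1 : n = l := Subtype.ext hn'
    have e2 : m = l := Subtype.ext hm'
    subst e1
    subst e2
    rw [← hMNbot]
    exact ⟨hm, hn⟩

end Cfsg.Agent.S0704
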