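import Cfsg.Statements.S0707
import Mathlib

set_option autoImplicit false
open Cfsg

namespace Cfsg.Agent.S0707

/-- In a primitive permutation group, distinct points have distinct stabilisers unless the group is regular of prime degree. -/
theorem result {α : Type*} (G : Subgroup (Equiv.Perm α)) [MulAction.IsPreprimitive G α] (h : ¬ (Nat.card α).Prime ∨ ∃ a : α, MulAction.stabilizer G a ≠ ⊥) {a b : α} (hab : a ≠ b) : MulAction.stabilizer G a ≠ MulAction.stabilizer G b := by
  classical
  intro hst
  set B : Set α := {x | MulAction.stabilizer G x = MulAction.stabilizer G a} with hB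
  have hblock : MulAction.IsBlock G B := by
    rw [MulAction.isBlock_iff_smul_eq_of_mem]
    have key : ∀ (g : G) (x : α), x ∈ B → g • x ∈ B → ∀ y ∈ B, g • y ∈ B := by
      intro g x hx hgx y hy
      simp only [hB, Set.mem_setOf_eq] at hx hgx hy ⊢
      rw [MulAction.stabilizer_smul_eq_stabilizer_map_conj, hy, ← hx,
        ← MulAction.stabilizer_smul_eq_stabilizer_map_conj, hgx, hx]
    intro g x hx hgx
    apply Set.Subset.antisymm
    · rintro _ ⟨y, hy, rfl⟩
      exact key g x hx hgx y hy
    · intro y hy
      rw [Set.mem_smul_set_iff_inv_smul_mem]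
      exact key g⁻¹ (g • x) hgx (by rw [inv_smul_smul]; exact hx) y hy
  have haB : a ∈ B := rfl
  have hbB : b ∈ B := hst.symm
  have huniv : B = Set.univ := by
    rcases MulAction.IsPreprimitive.isTrivialBlock_of_isBlock hblock with h1 | h1
    · exact absurd (h1 haB hbB) hab
    · exact h1
  have hall : ∀ x : α, MulAction.stabilizer G x = MulAction.stabilizer G a := by
    intro x
    have : x ∈ B := by rw [huniv]; trivial
    exact this
  have hbot : MulAction.stabilizer G a = ⊥ := by
    rw [eq_bot_iff]
    intro g hg
    rw [Subgroup.mem_bot]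
    apply Subtype.ext
    ext x
    rw [← hall x] at hg
    exact hg
  rcases h with h | ⟨c, hc⟩
  · apply h
    haveI : Nontrivial α := ⟨a, b, hab⟩
    have hco := MulAction.IsPreprimitive.isCoatom_stabilizer_of_isPreprimitive G a
    rw [hbot] at hco
    have hsub : ∀ H : Subgroup G, H ≠ ⊥ → H = ⊤ := by
      intro H hH
      exact hco.2 H (bot_lt_iff_ne_bot.2 hH)
    haveI : Nontrivial G := by
      rw [← Subgroup.nontrivial_iff]
      exact ⟨⊥, ⊤, hco.1⟩
    haveI : IsSimpleGroup G := ⟨fun H _ => by
      by_cases hH : H = ⊥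
      · exact Or.inl hH
      · exact Or.inr (hsub H hH)⟩
    obtain ⟨g, hg⟩ := exists_ne (1 : G)
    have hcyc : IsCyclic G := by
      refine ⟨g, ?_⟩
      have := hsub (Subgroup.zpowers g) (by rwa [Ne, Subgroup.zpowers_eq_bot])
      intro x
      have hx : x ∈ Subgroup.zpowers g := by rw [this]; trivial
      exact hx
    letI : CommGroup G := IsCyclic.commGroup
    have hp := IsSimpleGroup.prime_card (α := G)
    have e : G ≃ α := Equiv.ofBijective (fun g : G => g • a) ⟨by
      intro g h hgh
      have : h⁻¹ * g ∈ MulAction.stabilizer G a := by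
        rw [MulAction.mem_stabilizer_iff, mul_smul, inv_smul_eq_iff]
        exact hgh
      rw [hbot, Subgroup.mem_bot] at this
      exact (inv_mul_eq_one.1 this).symm, fun x => MulAction.exists_smul_eq G a x⟩
    rwa [Nat.card_congr e] at hp
  · exact hc (by rw [hall, hbot])

end Cfsg.Agent.S0707
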