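import Cfsg.Statements.S0709

set_option autoImplicit false
open Cfsg

namespace Cfsg.Agent.S0709

/-- The hypotheses of the lemma, with the two stabilisers given by their members. -/
structure Dat {α : Type*} (t : ℕ) (q : ℕ → α) (G B H : Subgroup (Equiv.Perm α))
    (s : ℕ → Equiv.Perm α) : Prop where
  ht : 2 ≤ t
  hq : ∀ i j : ℕ, 1 ≤ i → i ≤ t → 1 ≤ j → j ≤ t → q i = q j → i = j
  hfix : ∀ g ∈ G, ∀ i : ℕ, 3 ≤ i → i ≤ t → g (q i) = q i
  h2 : ∀ a b c d : α, (∀ i, 3 ≤ i → i ≤ t → a ≠ q i ∧ b ≠ q i ∧ c ≠ q i ∧ d ≠ q i) →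
    a ≠ b → c ≠ d → ∃ g ∈ G, g a = c ∧ g b = d
  hs1 : s 1 ∈ G
  hs1q : s 1 (q 1) = q 2 ∧ s 1 (q 2) = q 1
  hsq : ∀ i : ℕ, 2 ≤ i → i + 1 ≤ t → s i (q i) = q (i + 1) ∧ s i (q (i + 1)) = q i ∧
    ∀ j : ℕ, 1 ≤ j → j ≤ t → j ≠ i → j ≠ i + 1 → s i (q j) = q j
  hB : ∀ x, x ∈ B ↔ x ∈ G ∧ x (q 2) = q 2
  hH : ∀ x, x ∈ H ↔ x ∈ G ∧ x (q 1) = q 1 ∧ x (q 2) = q 2
  hsq2 : ∀ i : ℕ, 1 ≤ i → i + 1 ≤ t → s i ^ 2 ∈ H
  hbraid : ∀ i : ℕ, 1 ≤ i → i + 2 ≤ t → (s i * s (i + 1)) ^ 3 ∈ H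
  hcomm : ∀ i j : ℕ, 1 ≤ i → i + 2 ≤ j → j + 1 ≤ t → (s i * s j) ^ 2 ∈ H ∧ (s j * s i) ^ 2 ∈ H
  hnorm : ∀ i : ℕ, 2 ≤ i → i + 1 ≤ t → ∀ g ∈ B, s i * g * (s i)⁻¹ ∈ B

/-- The chain of groups: `Gam 0 = B`, `Gam 1 = G`, and each next one adds the next `s i`. -/
def Gam {α : Type*} (B G : Subgroup (Equiv.Perm α)) (s : ℕ → Equiv.Perm α) :
    ℕ → Subgroup (Equiv.Perm α)
  | 0 => B
  | (k + 1) => Subgroup.closure ((G : Set (Equiv.Perm α)) ∪ {x | ∃ i : ℕ, 2 ≤ i ∧ i ≤ k + 1 ∧ x = s i})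

section
variable {α : Type*} {t : ℕ} {q : ℕ → α} {G B H : Subgroup (Equiv.Perm α)}
  {s : ℕ → Equiv.Perm α}

theorem Dat.BG (D : Dat t q G B H s) : B ≤ G := fun x hx => ((D.hB x).1 hx).1

theorem Dat.HB (D : Dat t q G B H s) : H ≤ B := fun _ hx =>
  (D.hB _).2 ⟨((D.hH _).1 hx).1, ((D.hH _).1 hx).2.2⟩

theorem G_le (k : ℕ) : G ≤ Gam B G s (k + 1) := fun x hx =>
  Subgroup.subset_closure (Or.inl hx)

theorem Dat.mono (D : Dat t q G B H s) (k : ℕ) : Gam B G s k ≤ Gam B G s (k + 1) := by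
  cases k with
  | zero => exact D.BG.trans (G_le 0)
  | succ k =>
    apply Subgroup.closure_mono
    rintro x (hx | ⟨i, h1, h2, rfl⟩)
    · exact Or.inl hx
    · exact Or.inr ⟨i, h1, by omega, rfl⟩

theorem Dat.H_le (D : Dat t q G B H s) (k : ℕ) : H ≤ Gam B G s k := by
  cases k with
  | zero => exact D.HB
  | succ k => exact (D.HB.trans D.BG).trans (G_le k)

theorem Dat.s_mem (D : Dat t q G B H s) {k i : ℕ} (h1 : 1 ≤ i) (h2 : i ≤ k) :
    s i ∈ Gam B G s k := by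
  obtain ⟨k, rfl⟩ : ∃ m, k = m + 1 := ⟨k - 1, by omega⟩
  rcases Nat.lt_or_ge i 2 with h | h
  · obtain rfl : i = 1 := by omega
    exact G_le k D.hs1
  · exact Subgroup.subset_closure (Or.inr ⟨i, h, h2, rfl⟩)

theorem Dat.one (D : Dat t q G B H s) : Gam B G s 1 = G := by
  apply le_antisymm
  · refine (Subgroup.closure_le _).2 ?_
    rintro x (hx | ⟨i, h1, h2, rfl⟩)
    · exact hx
    · have h3 : i ≤ 1 := h2
      omega
  · exact G_le 0

theorem Dat.conj_inv (D : Dat t q G B H s) {K : Subgroup (Equiv.Perm α)} (hK : H ≤ K) {i : ℕ}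
    (h1 : 1 ≤ i) (h2 : i + 1 ≤ t) (h : ∀ g ∈ K, s i * g * (s i)⁻¹ ∈ K) :
    ∀ g ∈ K, (s i)⁻¹ * g * s i ∈ K := by
  intro g hg
  have e : (s i)⁻¹ * g * s i = (s i ^ 2)⁻¹ * (s i * g * (s i)⁻¹) * (s i ^ 2) := by
    group
  rw [e]
  exact K.mul_mem (K.mul_mem (K.inv_mem (hK (D.hsq2 i h1 h2))) (h g hg)) (hK (D.hsq2 i h1 h2))

/-- `G = B ∪ B s₁ B`. -/
theorem Dat.dec_one (D : Dat t q G B H s) : ∀ g ∈ G, g ∈ B ∨ ∃ a ∈ B, ∃ b ∈ B, g = a * s 1 * b := by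
  intro g hg
  have ht := D.ht
  by_cases h : g (q 2) = q 2
  · exact Or.inl ((D.hB g).2 ⟨hg, h⟩)
  · right
    have hne : ∀ i j : ℕ, 1 ≤ i → i ≤ t → 1 ≤ j → j ≤ t → i ≠ j → q i ≠ q j :=
      fun i j a b c d e f => e (D.hq i j a b c d f)
    obtain ⟨b, hb, hb2, hb1⟩ := D.h2 (q 2) (q 1) (q 2) (g (q 2)) (by
      intro i h3 hi
      refine ⟨hne _ _ (by omega) (by omega) (by omega) hi (by omega),
        hne _ _ (by omega) (by omega) (by omega) hi (by omega),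
        hne _ _ (by omega) (by omega) (by omega) hi (by omega), ?_⟩
      intro e
      rw [← D.hfix g hg i h3 hi] at e
      exact hne 2 i (by omega) (by omega) (by omega) hi (by omega) (g.injective e))
      (hne _ _ (by omega) (by omega) (by omega) (by omega) (by omega)) (fun e => h e.symm)
    refine ⟨b, (D.hB b).2 ⟨hb, hb2⟩, (s 1)⁻¹ * b⁻¹ * g, (D.hB _).2 ⟨?_, ?_⟩, by group⟩
    · exact G.mul_mem (G.mul_mem (G.inv_mem D.hs1) (G.inv_mem hb)) hg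
    · rw [Equiv.Perm.mul_apply, Equiv.Perm.mul_apply, Equiv.Perm.inv_eq_iff_eq,
        Equiv.Perm.inv_eq_iff_eq, D.hs1q.2, hb1]

/-- `s j` conjugates `s i` into any subgroup with `H` and `s i`, for `j ≥ i + 2`. -/
theorem Dat.conj_s (D : Dat t q G B H s) {K : Subgroup (Equiv.Perm α)} (hK : H ≤ K) {i j : ℕ}
    (h1 : 1 ≤ i) (h2 : i + 2 ≤ j) (h3 : j + 1 ≤ t) (hs : s i ∈ K) :
    s j * s i * (s j)⁻¹ ∈ K := by
  have e : s j * s i * (s j)⁻¹ = (s j * s i) ^ 2 * (s i)⁻¹ * (s j ^ 2)⁻¹ := by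
    rw [pow_two, pow_two]; group
  rw [e]
  exact K.mul_mem (K.mul_mem (hK (D.hcomm i j h1 h2 h3).2) (K.inv_mem hs))
    (K.inv_mem (hK (D.hsq2 j (by omega) h3)))

theorem Dat.norm (D : Dat t q G B H s) (k j : ℕ) (h1 : k + 2 ≤ j) (h2 : j + 1 ≤ t) :
    ∀ g ∈ Gam B G s k, s j * g * (s j)⁻¹ ∈ Gam B G s k := by
  cases k with
  | zero => exact D.hnorm j h1 h2
  | succ k =>
    have hBG : ∀ g ∈ B, s j * g * (s j)⁻¹ ∈ Gam B G s (k + 1) := fun g hg =>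
      G_le k (D.BG (D.hnorm j (by omega) h2 g hg))
    have hmul : ∀ x y : Equiv.Perm α, s j * x * (s j)⁻¹ ∈ Gam B G s (k + 1) →
        s j * y * (s j)⁻¹ ∈ Gam B G s (k + 1) → s j * (x * y) * (s j)⁻¹ ∈ Gam B G s (k + 1) := by
      intro x y hx hy
      have e : s j * (x * y) * (s j)⁻¹ = (s j * x * (s j)⁻¹) * (s j * y * (s j)⁻¹) := by group
      rw [e]
      exact Subgroup.mul_mem _ hx hy
    intro g hg
    refine Subgroup.closure_induction (p := fun g _ => s j * g * (s j)⁻¹ ∈ Gam B G s (k + 1))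
      ?_ ?_ ?_ ?_ hg
    · rintro x (hx | ⟨i, h3, h4, rfl⟩)
      · rcases D.dec_one x hx with hx | ⟨a, ha, b, hb, rfl⟩
        · exact hBG x hx
        · exact hmul _ _ (hmul _ _ (hBG a ha)
            (D.conj_s (D.H_le _) (le_refl 1) (by omega) h2 (D.s_mem (le_refl 1) (by omega))))
            (hBG b hb)
      · exact D.conj_s (D.H_le _) (by omega) (by omega) h2 (D.s_mem (by omega) h4)
    · simp [Subgroup.one_mem]
    · intro x y _ _ hx hy
      exact hmul x y hx hy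
    · intro x _ hx
      have e : s j * x⁻¹ * (s j)⁻¹ = (s j * x * (s j)⁻¹)⁻¹ := by group
      rw [e]
      exact Subgroup.inv_mem _ hx

/-- `Γ_{k+1} = Γ_k ∪ Γ_k s_{k+1} Γ_k`. -/
theorem Dat.dec (D : Dat t q G B H s) (k : ℕ) : k + 2 ≤ t → ∀ g ∈ Gam B G s (k + 1),
    g ∈ Gam B G s k ∨ ∃ a ∈ Gam B G s k, ∃ b ∈ Gam B G s k, g = a * s (k + 1) * b := by
  induction k with
  | zero =>
    intro _ g hg
    rw [D.one] at hg
    exact D.dec_one g hg
  | succ k ih =>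
    intro hk
    have ih := ih (by omega)
    have hs2 : s (k + 2) ^ 2 ∈ Gam B G s (k + 1) := D.H_le _ (D.hsq2 (k + 2) (by omega) hk)
    have hn := D.norm k (k + 2) (le_refl _) hk
    have hn' := D.conj_inv (D.H_le k) (by omega : 1 ≤ k + 2) hk hn
    -- the inverse
    have hinv : (s (k + 2))⁻¹ = (s (k + 2) ^ 2)⁻¹ * s (k + 2) := by group
    -- `s g s`
    have key : ∀ g ∈ Gam B G s (k + 1), s (k + 2) * g * s (k + 2) ∈ Gam B G s (k + 1) ∨
        ∃ a ∈ Gam B G s (k + 1), ∃ b ∈ Gam B G s (k + 1),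
          s (k + 2) * g * s (k + 2) = a * s (k + 2) * b := by
      intro g hg
      rcases ih g hg with hg | ⟨a, ha, b, hb, rfl⟩
      · left
        have e : s (k + 2) * g * s (k + 2) = (s (k + 2) * g * (s (k + 2))⁻¹) * s (k + 2) ^ 2 := by
          rw [pow_two]; group
        rw [e]
        exact Subgroup.mul_mem _ (D.mono k (hn g hg)) hs2
      · right
        have hb3 := D.hbraid (k + 1) (by omega) (by omega)
        have hs1 : s (k + 1) ∈ Gam B G s (k + 1) := D.s_mem (by omega) (le_refl _)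
        refine ⟨(s (k + 2) * a * (s (k + 2))⁻¹) * (s (k + 1))⁻¹ * (s (k + 1) * s (k + 1 + 1)) ^ 3 *
          (s (k + 2) ^ 2)⁻¹, ?_, (s (k + 1))⁻¹ * ((s (k + 2))⁻¹ * b * s (k + 2)), ?_, ?_⟩
        · exact Subgroup.mul_mem _ (Subgroup.mul_mem _ (Subgroup.mul_mem _ (D.mono k (hn a ha))
            (Subgroup.inv_mem _ hs1)) (D.H_le _ hb3)) (Subgroup.inv_mem _ hs2)
        · exact Subgroup.mul_mem _ (Subgroup.inv_mem _ hs1) (D.mono k (hn' b hb))
        · show s (k + 2) * (a * s (k + 1) * b) * s (k + 2) =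
            (s (k + 2) * a * (s (k + 2))⁻¹) * (s (k + 1))⁻¹ * (s (k + 1) * s (k + 2)) ^ 3 *
              (s (k + 2) ^ 2)⁻¹ * s (k + 2) * ((s (k + 1))⁻¹ * ((s (k + 2))⁻¹ * b * s (k + 2)))
          rw [pow_succ, pow_two, pow_two]
          group
    intro g hg
    refine Subgroup.closure_induction (p := fun g _ => g ∈ Gam B G s (k + 1) ∨
      ∃ a ∈ Gam B G s (k + 1), ∃ b ∈ Gam B G s (k + 1), g = a * s (k + 1 + 1) * b)
      ?_ ?_ ?_ ?_ hg
    · rintro x (hx | ⟨i, h3, h4, rfl⟩)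
      · exact Or.inl (G_le k hx)
      · rcases Nat.lt_or_ge i (k + 2) with h | h
        · exact Or.inl (D.s_mem (by omega) (by omega))
        · obtain rfl : i = k + 2 := by omega
          exact Or.inr ⟨1, Subgroup.one_mem _, 1, Subgroup.one_mem _, by simp⟩
    · exact Or.inl (Subgroup.one_mem _)
    · rintro x y _ _ (hx | ⟨a, ha, b, hb, rfl⟩) (hy | ⟨c, hc, d, hd, rfl⟩)
      · exact Or.inl (Subgroup.mul_mem _ hx hy)
      · exact Or.inr ⟨x * c, Subgroup.mul_mem _ hx hc, d, hd, by group⟩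
      · exact Or.inr ⟨a, ha, b * y, Subgroup.mul_mem _ hb hy, by group⟩
      · rcases key (b * c) (Subgroup.mul_mem _ hb hc) with h | ⟨u, hu, v, hv, e⟩
        · left
          have e : a * s (k + 1 + 1) * b * (c * s (k + 1 + 1) * d) =
              a * (s (k + 2) * (b * c) * s (k + 2)) * d := by group
          rw [e]
          exact Subgroup.mul_mem _ (Subgroup.mul_mem _ ha h) hd
        · right
          refine ⟨a * u, Subgroup.mul_mem _ ha hu, v * d, Subgroup.mul_mem _ hv hd, ?_⟩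
          have e' : a * s (k + 1 + 1) * b * (c * s (k + 1 + 1) * d) =
              a * (s (k + 2) * (b * c) * s (k + 2)) * d := by group
          rw [e', e]
          group
    · rintro x _ (hx | ⟨a, ha, b, hb, rfl⟩)
      · exact Or.inl (Subgroup.inv_mem _ hx)
      · right
        refine ⟨b⁻¹ * (s (k + 2) ^ 2)⁻¹, Subgroup.mul_mem _ (Subgroup.inv_mem _ hb)
          (Subgroup.inv_mem _ hs2), a⁻¹, Subgroup.inv_mem _ ha, ?_⟩
        show (a * s (k + 2) * b)⁻¹ = b⁻¹ * (s (k + 2) ^ 2)⁻¹ * s (k + 2) * a⁻¹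
        group

theorem Dat.fixq (D : Dat t q G B H s) (k i : ℕ) (h1 : k + 2 ≤ i) (h2 : i ≤ t) :
    ∀ g ∈ Gam B G s k, g (q i) = q i := by
  cases k with
  | zero =>
    intro g hg
    have hg' := (D.hB g).1 hg
    rcases Nat.lt_or_ge i 3 with h | h
    · obtain rfl : i = 2 := by omega
      exact hg'.2
    · exact D.hfix g hg'.1 i h h2
  | succ k =>
    intro g hg
    refine Subgroup.closure_induction (p := fun g _ => g (q i) = q i) ?_ ?_ ?_ ?_ hg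
    · rintro x (hx | ⟨j, h3, h4, rfl⟩)
      · exact D.hfix x hx i (by omega) h2
      · exact (D.hsq j h3 (by omega)).2.2 i (by omega) h2 (by omega) (by omega)
    · rfl
    · intro x y _ _ hx hy
      rw [Equiv.Perm.mul_apply, hy, hx]
    · intro x _ hx
      rw [Equiv.Perm.inv_eq_iff_eq]
      exact hx.symm

theorem Dat.swap (D : Dat t q G B H s) (i : ℕ) (h1 : 1 ≤ i) (h2 : i + 1 ≤ t) :
    s i (q i) = q (i + 1) ∧ s i (q (i + 1)) = q i := by
  rcases Nat.lt_or_ge i 2 with h | h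
  · obtain rfl : i = 1 := by omega
    exact D.hs1q
  · exact ⟨(D.hsq i h h2).1, (D.hsq i h h2).2.1⟩

theorem Dat.stab (D : Dat t q G B H s) (k : ℕ) (hk : k + 2 ≤ t) :
    ∀ g ∈ Gam B G s (k + 1), g (q (k + 2)) = q (k + 2) → g ∈ Gam B G s k := by
  intro g hg h
  rcases D.dec k hk g hg with h' | ⟨a, ha, b, hb, rfl⟩
  · exact h'
  · exfalso
    rw [Equiv.Perm.mul_apply, Equiv.Perm.mul_apply, D.fixq k (k + 2) (le_refl _) hk b hb,
      (D.swap (k + 1) (by omega) hk).2] at h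
    have h3 := D.fixq k (k + 2) (le_refl _) hk a ha
    rw [← h3] at h
    have := D.hq (k + 1) (k + 2) (by omega) (by omega) (by omega) hk (a.injective (by rw [h]))
    omega

theorem Dat.ne (D : Dat t q G B H s) (i j : ℕ) (a : 1 ≤ i) (b : i ≤ t) (c : 1 ≤ j) (d : j ≤ t)
    (e : i ≠ j) : q i ≠ q j :=
  fun f => e (D.hq i j a b c d f)

theorem Dat.trans1 (D : Dat t q G B H s) (k : ℕ) : k + 2 ≤ t → ∀ a : α,
    (∀ i, k + 3 ≤ i → i ≤ t → a ≠ q i) → ∃ g ∈ Gam B G s (k + 1), g a = q (k + 2) := by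
  induction k with
  | zero =>
    intro hk a ha
    by_cases h : a = q 2
    · exact ⟨1, Subgroup.one_mem _, by simp [h]⟩
    · obtain ⟨g, hg, h1, -⟩ := D.h2 a (q 2) (q 2) (q 1) (fun i h3 hi => ⟨ha i h3 hi,
        D.ne _ _ (by omega) (by omega) (by omega) hi (by omega),
        D.ne _ _ (by omega) (by omega) (by omega) hi (by omega),
        D.ne _ _ (by omega) (by omega) (by omega) hi (by omega)⟩) h
        (D.ne _ _ (by omega) (by omega) (by omega) (by omega) (by omega))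
      exact ⟨g, G_le 0 hg, h1⟩
  | succ k ih =>
    intro hk a ha
    by_cases h : a = q (k + 3)
    · exact ⟨1, Subgroup.one_mem _, by simp [h]⟩
    · obtain ⟨g, hg, hga⟩ := ih (by omega) a (fun i h3 hi => by
        rcases Nat.lt_or_ge i (k + 4) with h' | h'
        · obtain rfl : i = k + 3 := by omega
          exact h
        · exact ha i h' hi)
      refine ⟨s (k + 2) * g, Subgroup.mul_mem _ (D.s_mem (by omega) (le_refl _)) (D.mono _ hg), ?_⟩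
      rw [Equiv.Perm.mul_apply, hga]
      exact (D.swap (k + 2) (by omega) hk).1

theorem Dat.transk (D : Dat t q G B H s) (k : ℕ) : k + 2 ≤ t → ∀ x y : Fin (k + 2) → α,
    Function.Injective x → Function.Injective y → (∀ m i, k + 3 ≤ i → i ≤ t → x m ≠ q i) →
    (∀ m i, k + 3 ≤ i → i ≤ t → y m ≠ q i) → ∃ g ∈ Gam B G s (k + 1), ∀ m, g (x m) = y m := by
  induction k with
  | zero =>
    intro hk x y hx hy hxa hya
    obtain ⟨g, hg, h1, h2⟩ := D.h2 (x 0) (x 1) (y 0) (y 1)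
      (fun i h3 hi => ⟨hxa 0 i h3 hi, hxa 1 i h3 hi, hya 0 i h3 hi, hya 1 i h3 hi⟩)
      (fun e => absurd (hx e) (by decide)) (fun e => absurd (hy e) (by decide))
    refine ⟨g, G_le 0 hg, ?_⟩
    intro m
    fin_cases m
    · exact h1
    · exact h2
  | succ k ih =>
    intro hk x y hx hy hxa hya
    have step : ∀ z : Fin (k + 3) → α, Function.Injective z →
        (∀ m i, k + 4 ≤ i → i ≤ t → z m ≠ q i) → ∃ g ∈ Gam B G s (k + 2),
          g (z (Fin.last (k + 2))) = q (k + 3) ∧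
          Function.Injective (fun m : Fin (k + 2) => g (z m.castSucc)) ∧
          ∀ (m : Fin (k + 2)) (i : ℕ), k + 3 ≤ i → i ≤ t → g (z m.castSucc) ≠ q i := by
      intro z hz hza
      obtain ⟨g, hg, hgz⟩ := D.trans1 (k + 1) hk (z (Fin.last (k + 2))) (hza _)
      refine ⟨g, hg, hgz, fun a b e => Fin.castSucc_injective _ (hz (g.injective e)), ?_⟩
      intro m i hi hit e
      rcases Nat.lt_or_ge i (k + 4) with h' | h'
      · obtain rfl : i = k + 3 := by omega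
        have h3 : g (z m.castSucc) = g (z (Fin.last (k + 2))) := e.trans hgz.symm
        have h4 := hz (g.injective h3)
        exact (Fin.castSucc_lt_last m).ne h4
      · have h3 : g (z m.castSucc) = g (q i) := by
          rw [e]; exact (D.fixq (k + 2) i (by omega) hit g hg).symm
        exact hza _ i h' hit (g.injective h3)
    obtain ⟨g₁, hg₁, hl₁, hi₁, ha₁⟩ := step x hx hxa
    obtain ⟨g₂, hg₂, hl₂, hi₂, ha₂⟩ := step y hy hya
    obtain ⟨g, hg, hgm⟩ := ih (by omega) _ _ hi₁ hi₂ ha₁ ha₂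
    refine ⟨g₂⁻¹ * g * g₁, Subgroup.mul_mem _ (Subgroup.mul_mem _ (Subgroup.inv_mem _ hg₂)
      (D.mono _ hg)) hg₁, ?_⟩
    intro m
    rw [Equiv.Perm.mul_apply, Equiv.Perm.mul_apply, Equiv.Perm.inv_eq_iff_eq]
    refine Fin.lastCases ?_ (fun m => ?_) m
    · rw [hl₁, hl₂]
      exact D.fixq (k + 1) (k + 3) (le_refl _) hk g hg
    · exact hgm m

theorem Dat.down (D : Dat t q G B H s) (k : ℕ) : k + 1 ≤ t → ∀ g ∈ Gam B G s k,
    (∀ i, 1 ≤ i → i ≤ t → g (q i) = q i) → g ∈ H := by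
  induction k with
  | zero =>
    intro hk g hg h
    exact (D.hH g).2 ⟨D.BG hg, h 1 (le_refl _) (by have := D.ht; omega), h 2 (by omega) D.ht⟩
  | succ k ih =>
    intro hk g hg h
    exact ih (by omega) g (D.stab k hk g hg (h (k + 2) (by omega) hk)) h

end

/-- Witt's Lemma for constructing transitive extensions. Points `q 1, …, q t` (`t ≥ 2`) of a finite set are given; `G` fixes `q i` for `i ≥ 3` and is doubly transitive on the remaining points; `s 1 ∈ G` swaps `q 1, q 2`; for `2 ≤ i ≤ t-1`, `s i` swaps `q i, q (i+1)` and fixes the other `q j`; with `H` the stabiliser of `q 1, q 2` in `G`: `s i ^ 2 ∈ H`, `(s i * s (i+1)) ^ 3 ∈ H`, `(s i * s j) ^ 2 ∈ H` for `j ≥ i + 2`, and `s i` (`i ≥ 2`) normalises the stabiliser of `q 2` in `G`. Then `G` and the `s i` generate a `t`-transitive group whose pointwise stabiliser of the `q`'s is `H`. -/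
theorem result {α : Type*} [Fintype α] [DecidableEq α] (t : ℕ) (ht : 2 ≤ t) (q : ℕ → α) (hq : ∀ i j : ℕ, 1 ≤ i → i ≤ t → 1 ≤ j → j ≤ t → q i = q j → i = j) (G : Subgroup (Equiv.Perm α)) (hfix : ∀ g ∈ G, ∀ i : ℕ, 3 ≤ i → i ≤ t → g (q i) = q i) (h2 : ∀ a b c d : α, (∀ i, 3 ≤ i → i ≤ t → a ≠ q i ∧ b ≠ q i ∧ c ≠ q i ∧ d ≠ q i) → a ≠ b → c ≠ d → ∃ g ∈ G, g a = c ∧ g b = d) (s : ℕ → Equiv.Perm α) (hs1 : s 1 ∈ G) (hs1q : s 1 (q 1) = q 2 ∧ s 1 (q 2) = q 1) (hsq : ∀ i : ℕ, 2 ≤ i → i + 1 ≤ t → s i (q i) = q (i + 1) ∧ s i (q (i + 1)) = q i ∧ ∀ j : ℕ, 1 ≤ j → j ≤ t → j ≠ i → j ≠ i + 1 → s i (q j) = q j) (H : Subgroup (Equiv.Perm α)) (hH : H = G ⊓ MulAction.stabilizer (Equiv.Perm α) (q 1) ⊓ MulAction.stabilizer (Equiv.Perm α) (q 2)) (hsq2 : ∀ i : ℕ, 1 ≤ i → i + 1 ≤ t → s i ^ 2 ∈ H) (hbraid : ∀ i : ℕ, 1 ≤ i → i + 2 ≤ t → (s i * s (i + 1)) ^ 3 ∈ H) (hcomm : ∀ i j : ℕ, 1 ≤ i → i + 2 ≤ j → j + 1 ≤ t → (s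 i * s j) ^ 2 ∈ H ∧ (s j * s i) ^ 2 ∈ H) (hnorm : ∀ i : ℕ, 2 ≤ i → i + 1 ≤ t → ∀ g ∈ G ⊓ MulAction.stabilizer (Equiv.Perm α) (q 2), s i * g * (s i)⁻¹ ∈ G ⊓ MulAction.stabilizer (Equiv.Perm α) (q 2)) : MulAction.IsMultiplyPretransitive ↥(Subgroup.closure ((G : Set (Equiv.Perm α)) ∪ {x | ∃ i : ℕ, 2 ≤ i ∧ i + 1 ≤ t ∧ x = s i})) α t ∧ Subgroup.closure ((G : Set (Equiv.Perm α)) ∪ {x | ∃ i : ℕ, 2 ≤ i ∧ i + 1 ≤ t ∧ x = s i}) ⊓ fixingSubgroup (Equiv.Perm α) {x | ∃ i : ℕ, 1 ≤ i ∧ i ≤ t ∧ x = q i} = H := by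
  have D : Dat t q G (G ⊓ MulAction.stabilizer (Equiv.Perm α) (q 2)) H s := by
    refine ⟨ht, hq, hfix, h2, hs1, hs1q, hsq, ?_, ?_, hsq2, hbraid, hcomm, hnorm⟩
    · intro x
      rw [Subgroup.mem_inf, MulAction.mem_stabilizer_iff]
      rfl
    · intro x
      rw [hH, Subgroup.mem_inf, Subgroup.mem_inf, MulAction.mem_stabilizer_iff,
        MulAction.mem_stabilizer_iff, and_assoc]
      rfl
  obtain ⟨k, rfl⟩ : ∃ k, t = k + 2 := ⟨t - 2, by omega⟩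
  have hset : {x : Equiv.Perm α | ∃ i : ℕ, 2 ≤ i ∧ i + 1 ≤ k + 2 ∧ x = s i} =
      {x | ∃ i : ℕ, 2 ≤ i ∧ i ≤ k + 1 ∧ x = s i} := by
    ext x
    constructor
    · rintro ⟨i, h1, h2, h3⟩
      exact ⟨i, h1, by omega, h3⟩
    · rintro ⟨i, h1, h2, h3⟩
      exact ⟨i, h1, by omega, h3⟩
  have hcl : Subgroup.closure ((G : Set (Equiv.Perm α)) ∪
      {x | ∃ i : ℕ, 2 ≤ i ∧ i + 1 ≤ k + 2 ∧ x = s i}) =
      Gam (G ⊓ MulAction.stabilizer (Equiv.Perm α) (q 2)) G s (k + 1) := by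
    rw [hset]; rfl
  refine ⟨?_, ?_⟩
  · rw [hcl]
    refine ⟨fun x y => ?_⟩
    obtain ⟨g, hg, hgm⟩ := D.transk k (le_refl _) x y x.injective y.injective
      (fun m i h3 hi => by omega) (fun m i h3 hi => by omega)
    refine ⟨⟨g, hg⟩, ?_⟩
    ext m
    exact hgm m
  · rw [hcl]
    apply le_antisymm
    · intro x hx
      refine D.down (k + 1) (le_refl _) x hx.1 ?_
      intro i h1 h2
      exact (mem_fixingSubgroup_iff (Equiv.Perm α)).1 hx.2 (q i) ⟨i, h1, h2, rfl⟩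
    · intro x hx
      refine ⟨D.H_le _ hx, ?_⟩
      show x ∈ fixingSubgroup _ _
      rw [mem_fixingSubgroup_iff]
      rintro _ ⟨i, h1, h2, rfl⟩
      have h := (D.hH x).1 hx
      show x (q i) = q i
      rcases Nat.lt_or_ge i 3 with h' | h'
      · interval_cases i
        · exact h.2.1
        · exact h.2.2
      · exact hfix x h.1 i h' h2

end Cfsg.Agent.S0709
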