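import Cfsg.Statements.S0714
import Mathlib

set_option autoImplicit false
open Cfsg

namespace Cfsg.Agent.S0714

variable {α : Type*} [Fintype α] [DecidableEq α] {K : Type*} [Field K]

/-- difference of two basis vectors -/
def dd (K : Type*) [Field K] {α : Type*} [DecidableEq α] (x y : α) : α → K := Pi.single x 1 - Pi.single y 1

theorem lem1 (W : Subrepresentation (Cfsg.permRep K (alternatingGroup α) α)) {f : α → K} (hf : f ∈ W.toSubmodule)
    {x y z w : α} (hxy : x ≠ y) (hxz : x ≠ z) (hxw : x ≠ w) (hyz : y ≠ z) (hyw : y ≠ w) (hzw : z ≠ w)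
    (h1 : f x ≠ f y) (h2 : f z = f w) : dd K x y ∈ W.toSubmodule := by
  have hg : Equiv.swap x y * Equiv.swap z w ∈ alternatingGroup α := by
    rw [Equiv.Perm.mem_alternatingGroup, Equiv.Perm.sign_mul, Equiv.Perm.sign_swap hxy, Equiv.Perm.sign_swap hzw]
    rfl
  have h3 := W.apply_mem_toSubmodule ⟨_, hg⟩ hf
  have h4 := W.toSubmodule.sub_mem hf h3
  have h5 : f - Cfsg.permRep K (alternatingGroup α) α ⟨_, hg⟩ f = (f x - f y) • dd K x y := by
    funext t
    change f t - f ((Equiv.swap x y * Equiv.swap z w)⁻¹ t) = (f x - f y) * ((Pi.single x 1 : α → K) t - (Pi.single y 1 : α → K) t)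
    rw [mul_inv_rev, Equiv.swap_inv, Equiv.swap_inv, Equiv.Perm.mul_apply]
    by_cases htx : t = x
    · subst htx
      rw [Equiv.swap_apply_left, Equiv.swap_apply_of_ne_of_ne hyz hyw]
      simp [hxy]
    by_cases hty : t = y
    · subst hty
      rw [Equiv.swap_apply_right, Equiv.swap_apply_of_ne_of_ne hxz hxw]
      simp [Ne.symm hxy]
    rw [Equiv.swap_apply_of_ne_of_ne htx hty]
    by_cases htz : t = z
    · subst htz
      rw [Equiv.swap_apply_left, h2]
      simp [htx, hty]
    by_cases htw : t = w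
    · subst htw
      rw [Equiv.swap_apply_right, h2]
      simp [htx, hty]
    rw [Equiv.swap_apply_of_ne_of_ne htz htw]
    simp [htx, hty]
  rw [h5] at h4
  exact (W.toSubmodule.smul_mem_iff (sub_ne_zero.2 h1)).1 h4

theorem lem1' (W : Subrepresentation (Cfsg.permRep K (alternatingGroup α) α)) {f : α → K} (hf : f ∈ W.toSubmodule)
    {x y z w : α} (hxy : x ≠ y) (hxz : x ≠ z) (hxw : x ≠ w) (hyz : y ≠ z) (hyw : y ≠ w) (hzw : z ≠ w)
    (h1 : f x ≠ f y) (h2 : f z = f w) : ∃ x y : α, x ≠ y ∧ dd K x y ∈ W.toSubmodule :=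
  ⟨x, y, hxy, lem1 W hf hxy hxz hxw hyz hyw hzw h1 h2⟩

theorem lem2 (hα : 5 ≤ Fintype.card α) (W : Subrepresentation (Cfsg.permRep K (alternatingGroup α) α))
    {x y : α} (hxy : x ≠ y) (h : dd K x y ∈ W.toSubmodule) (a b : α) : dd K a b ∈ W.toSubmodule := by
  by_cases hab : a = b
  · subst hab
    simp [dd]
  have h2 : MulAction.IsMultiplyPretransitive (alternatingGroup α) α 2 := by
    haveI := alternatingGroup.isMultiplyPretransitive α
    exact MulAction.isMultiplyPretransitive_of_le (n := Nat.card α - 2) (by rw [Nat.card_eq_fintype_card]; omega)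
      (by omega)
  rw [MulAction.is_two_pretransitive_iff] at h2
  obtain ⟨g, hg1, hg2⟩ := h2 hxy hab
  have h3 := W.apply_mem_toSubmodule g h
  have h4 : Cfsg.permRep K (alternatingGroup α) α g (dd K x y) = dd K a b := by
    funext t
    change (Pi.single x 1 : α → K) (g⁻¹ • t) - (Pi.single y 1 : α → K) (g⁻¹ • t) = (Pi.single a 1 : α → K) t - (Pi.single b 1 : α → K) t
    simp only [Pi.single_apply, inv_smul_eq_iff, hg1, hg2]
  rwa [h4] at h3

theorem lem3 [Nonempty α] (W : Subrepresentation (Cfsg.permRep K (alternatingGroup α) α))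
    (h : ∀ a b : α, dd K a b ∈ W.toSubmodule) : (Cfsg.permSumZero K (alternatingGroup α) α).toSubmodule ≤ W.toSubmodule := by
  intro f hf
  have hf' : ∑ x, f x = 0 := hf
  obtain ⟨a⟩ := ‹Nonempty α›
  have : f = ∑ x, f x • dd K x a := by
    funext t
    rw [Finset.sum_apply]
    simp only [dd, Pi.smul_apply, Pi.sub_apply, smul_eq_mul, mul_sub, Finset.sum_sub_distrib]
    rw [← Finset.sum_mul, hf', zero_mul, sub_zero]
    simp [Pi.single_apply]
  rw [this]
  exact W.toSubmodule.sum_mem (fun x _ => W.toSubmodule.smul_mem _ (h x a))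

theorem lem4 (hα : 5 ≤ Fintype.card α) (W : Subrepresentation (Cfsg.permRep K (alternatingGroup α) α))
    {f : α → K} (hf : f ∈ W.toSubmodule) {a b : α} (hab : f a ≠ f b) :
    ∃ x y : α, x ≠ y ∧ dd K x y ∈ W.toSubmodule := by
  have hab' : a ≠ b := fun h => hab (by rw [h])
  obtain ⟨t, ht1, ht2⟩ := Finset.exists_subset_card_eq (s := (Finset.univ \ {a, b} : Finset α)) (n := 3) (by
    rw [Finset.card_sdiff_of_subset (Finset.subset_univ _), Finset.card_univ, Finset.card_pair hab']; omega)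
  obtain ⟨c, d, e, hcd, hce, hde, rfl⟩ := Finset.card_eq_three.1 ht2
  have hc := ht1 (show c ∈ ({c, d, e} : Finset α) by simp)
  have hd := ht1 (show d ∈ ({c, d, e} : Finset α) by simp)
  have he := ht1 (show e ∈ ({c, d, e} : Finset α) by simp)
  simp only [Finset.mem_sdiff, Finset.mem_univ, true_and, Finset.mem_insert, Finset.mem_singleton, not_or] at hc hd he
  obtain ⟨hca, hcb⟩ := hc
  obtain ⟨hda, hdb⟩ := hd
  obtain ⟨hea, heb⟩ := he
  by_cases hfcd : f c = f d
  · exact lem1' W hf hab' (Ne.symm hca) (Ne.symm hda) (Ne.symm hcb) (Ne.symm hdb) hcd hab hfcd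
  -- the function h
  have hg : Equiv.swap a b * Equiv.swap c d ∈ alternatingGroup α := by
    rw [Equiv.Perm.mem_alternatingGroup, Equiv.Perm.sign_mul, Equiv.Perm.sign_swap hab', Equiv.Perm.sign_swap hcd]
    rfl
  obtain ⟨h, hh, hha, hhb, hhc, hhd, hhe⟩ : ∃ h ∈ W.toSubmodule, h a = f a - f b ∧ h b = -(f a - f b) ∧
      h c = f c - f d ∧ h d = -(f c - f d) ∧ h e = 0 := by
    refine ⟨_, W.toSubmodule.sub_mem hf (W.apply_mem_toSubmodule ⟨_, hg⟩ hf), ?_, ?_, ?_, ?_, ?_⟩
    · change f a - f ((Equiv.swap a b * Equiv.swap c d)⁻¹ a) = _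
      rw [mul_inv_rev, Equiv.swap_inv, Equiv.swap_inv, Equiv.Perm.mul_apply, Equiv.swap_apply_left,
        Equiv.swap_apply_of_ne_of_ne (Ne.symm hcb) (Ne.symm hdb)]
    · change f b - f ((Equiv.swap a b * Equiv.swap c d)⁻¹ b) = _
      rw [mul_inv_rev, Equiv.swap_inv, Equiv.swap_inv, Equiv.Perm.mul_apply, Equiv.swap_apply_right,
        Equiv.swap_apply_of_ne_of_ne (Ne.symm hca) (Ne.symm hda), neg_sub]
    · change f c - f ((Equiv.swap a b * Equiv.swap c d)⁻¹ c) = _
      rw [mul_inv_rev, Equiv.swap_inv, Equiv.swap_inv, Equiv.Perm.mul_apply,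
        Equiv.swap_apply_of_ne_of_ne hca hcb, Equiv.swap_apply_left]
    · change f d - f ((Equiv.swap a b * Equiv.swap c d)⁻¹ d) = _
      rw [mul_inv_rev, Equiv.swap_inv, Equiv.swap_inv, Equiv.Perm.mul_apply,
        Equiv.swap_apply_of_ne_of_ne hda hdb, Equiv.swap_apply_right, neg_sub]
    · change f e - f ((Equiv.swap a b * Equiv.swap c d)⁻¹ e) = _
      rw [mul_inv_rev, Equiv.swap_inv, Equiv.swap_inv, Equiv.Perm.mul_apply,
        Equiv.swap_apply_of_ne_of_ne hea heb, Equiv.swap_apply_of_ne_of_ne (Ne.symm hce) (Ne.symm hde), sub_self]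
  have hA : f a - f b ≠ 0 := sub_ne_zero.2 hab
  have hB : f c - f d ≠ 0 := sub_ne_zero.2 hfcd
  set A := f a - f b with hAdef
  set B := f c - f d with hBdef
  by_cases h1 : A = -A
  · refine lem1' W hh (x := c) (y := e) (z := a) (w := b) hce hca hcb hea heb hab' ?_ ?_
    · rw [hhc, hhe]; exact hB
    · rw [hha, hhb]; exact h1
  by_cases h2 : A = B
  · refine lem1' W hh (x := b) (y := e) (z := a) (w := c) (Ne.symm heb) (Ne.symm hab') (Ne.symm hcb) hea (Ne.symm hce) (Ne.symm hca) ?_ ?_
    · rw [hhb, hhe]; exact neg_ne_zero.2 hA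
    · rw [hha, hhc]; exact h2
  by_cases h3 : A = -B
  · refine lem1' W hh (x := b) (y := e) (z := a) (w := d) (Ne.symm heb) (Ne.symm hab') (Ne.symm hdb) hea (Ne.symm hde) (Ne.symm hda) ?_ ?_
    · rw [hhb, hhe]; exact neg_ne_zero.2 hA
    · rw [hha, hhd]; exact h3
  -- the function k
  have hg' : Equiv.swap c d * Equiv.swap d e ∈ alternatingGroup α := by
    rw [Equiv.Perm.mem_alternatingGroup, Equiv.Perm.sign_mul, Equiv.Perm.sign_swap hcd, Equiv.Perm.sign_swap hde]
    rfl
  obtain ⟨k, hk, hka, hkb, hkc, hkd, hke⟩ : ∃ k ∈ W.toSubmodule, k a = 0 ∧ k b = 0 ∧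
      k c = B ∧ k d = -B - B ∧ k e = B := by
    refine ⟨_, W.toSubmodule.sub_mem hh (W.apply_mem_toSubmodule ⟨_, hg'⟩ hh), ?_, ?_, ?_, ?_, ?_⟩
    · change h a - h ((Equiv.swap c d * Equiv.swap d e)⁻¹ a) = _
      rw [mul_inv_rev, Equiv.swap_inv, Equiv.swap_inv, Equiv.Perm.mul_apply,
        Equiv.swap_apply_of_ne_of_ne (Ne.symm hca) (Ne.symm hda), Equiv.swap_apply_of_ne_of_ne (Ne.symm hda) (Ne.symm hea), sub_self]
    · change h b - h ((Equiv.swap c d * Equiv.swap d e)⁻¹ b) = _
      rw [mul_inv_rev, Equiv.swap_inv, Equiv.swap_inv, Equiv.Perm.mul_apply,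
        Equiv.swap_apply_of_ne_of_ne (Ne.symm hcb) (Ne.symm hdb), Equiv.swap_apply_of_ne_of_ne (Ne.symm hdb) (Ne.symm heb), sub_self]
    · change h c - h ((Equiv.swap c d * Equiv.swap d e)⁻¹ c) = _
      rw [mul_inv_rev, Equiv.swap_inv, Equiv.swap_inv, Equiv.Perm.mul_apply,
        Equiv.swap_apply_left, Equiv.swap_apply_left, hhc, hhe, sub_zero]
    · change h d - h ((Equiv.swap c d * Equiv.swap d e)⁻¹ d) = _
      rw [mul_inv_rev, Equiv.swap_inv, Equiv.swap_inv, Equiv.Perm.mul_apply,
        Equiv.swap_apply_right, Equiv.swap_apply_of_ne_of_ne hcd hce, hhd, hhc]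
    · change h e - h ((Equiv.swap c d * Equiv.swap d e)⁻¹ e) = _
      rw [mul_inv_rev, Equiv.swap_inv, Equiv.swap_inv, Equiv.Perm.mul_apply,
        Equiv.swap_apply_of_ne_of_ne (Ne.symm hce) (Ne.symm hde), Equiv.swap_apply_right, hhe, hhd, zero_sub, neg_neg]
  by_cases h4 : B = -B - B
  · refine lem1' W hk (x := a) (y := e) (z := c) (w := d) (Ne.symm hea) (Ne.symm hca) (Ne.symm hda) (Ne.symm hce) (Ne.symm hde) hcd ?_ ?_
    · rw [hka, hke]; exact hB.symm
    · rw [hkc, hkd]; exact h4
  · refine lem1' W hk (x := c) (y := d) (z := a) (w := b) hcd hca hcb hda hdb hab' ?_ ?_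
    · rw [hkc, hkd]; exact h4
    · rw [hka, hkb]

/-- Over any field, the permutation module of the alternating group of degree at least 5 has exactly four invariant subspaces: zero, the constant functions, the functions with coordinate sum zero, and everything. -/
theorem result {α : Type*} [Fintype α] [DecidableEq α] (hα : 5 ≤ Fintype.card α) {K : Type*} [Field K] (W : Subrepresentation (Cfsg.permRep K (alternatingGroup α) α)) : W.toSubmodule = ⊥ ∨ W = Cfsg.permConstants K (alternatingGroup α) α ∨ W = Cfsg.permSumZero K (alternatingGroup α) α ∨ W.toSubmodule = ⊤ := by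
  classical
  haveI : Nonempty α := Fintype.card_pos_iff.1 (by omega)
  by_cases hconst : ∀ f ∈ W.toSubmodule, ∀ a b : α, f a = f b
  · by_cases hbot : W.toSubmodule = ⊥
    · exact Or.inl hbot
    · right; left
      obtain ⟨f, hf, hf0⟩ := (Submodule.ne_bot_iff _).1 hbot
      obtain ⟨a⟩ := ‹Nonempty α›
      have hfa : f a ≠ 0 := by
        intro h
        apply hf0
        funext x
        rw [hconst f hf x a, h]; rfl
      apply Subrepresentation.toSubmodule_injective
      apply le_antisymm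
      · intro g hg
        change g ∈ Submodule.span K {fun _ => (1:K)}
        rw [Submodule.mem_span_singleton]
        refine ⟨g a, ?_⟩
        funext x
        simp [hconst g hg x a]
      · change Submodule.span K {fun _ => (1:K)} ≤ W.toSubmodule
        rw [Submodule.span_singleton_le_iff_mem]
        have : (fun _ : α => (1:K)) = (f a)⁻¹ • f := by
          funext x
          simp [hconst f hf x a, hfa]
        rw [this]
        exact W.toSubmodule.smul_mem _ hf
  · push Not at hconst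
    obtain ⟨f, hf, a, b, hab⟩ := hconst
    obtain ⟨x, y, hxy, hd⟩ := lem4 hα W hf hab
    have hS := lem3 W (lem2 hα W hxy hd)
    by_cases hall : W.toSubmodule ≤ (Cfsg.permSumZero K (alternatingGroup α) α).toSubmodule
    · right; right; left
      exact Subrepresentation.toSubmodule_injective (le_antisymm hall hS)
    · right; right; right
      rw [SetLike.not_le_iff_exists] at hall
      obtain ⟨g, hg, hgs⟩ := hall
      have hgs' : ∑ x, g x ≠ 0 := hgs
      rw [eq_top_iff]
      intro u _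
      have : u = (u - ((∑ x, u x) / (∑ x, g x)) • g) + ((∑ x, u x) / (∑ x, g x)) • g := by simp
      rw [this]
      refine W.toSubmodule.add_mem (hS ?_) (W.toSubmodule.smul_mem _ hg)
      change ∑ x, (u - ((∑ x, u x) / (∑ x, g x)) • g) x = 0
      simp only [Pi.sub_apply, Pi.smul_apply, smul_eq_mul, Finset.sum_sub_distrib]
      rw [← Finset.mul_sum, div_mul_cancel₀ _ hgs', sub_self]

end Cfsg.Agent.S0714
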