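import Cfsg.Statements.S0716
import Mathlib
import Cfsg.Agent.H9_Comm3

set_option autoImplicit false
open Cfsg

namespace Cfsg.Agent.S0716

open Cfsg.Agent.H9.Comm Cfsg.Agent.H3.CharIrr Cfsg.Agent.H3.CharComplete Cfsg.Agent.H10.BlockKer

/-- (a) If all non-principal irreducible constituents of the permutation character of a transitive group have the same degree `f`, the character is multiplicity-free and all non-trivial subdegrees equal `f`. (b) A transitive group of rank at most 5 has multiplicity-free permutation character. -/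
theorem result {G : Type*} [Group G] [Fintype G] {Ω : Type*} [Fintype Ω] [MulAction G Ω] [MulAction.IsPretransitive G Ω] (a : Ω) : ((f : ℕ) → (∀ χ : G → ℂ, Cfsg.IsIrrCharacter G χ → χ ≠ (fun _ => 1) → Cfsg.classInner (fun g : G => (Nat.card (MulAction.fixedBy Ω g) : ℂ)) χ ≠ 0 → χ 1 = f) → (∀ χ : G → ℂ, Cfsg.IsIrrCharacter G χ → Cfsg.classInner (fun g : G => (Nat.card (MulAction.fixedBy Ω g) : ℂ)) χ = 0 ∨ Cfsg.classInner (fun g : G => (Nat.card (MulAction.fixedBy Ω g) : ℂ)) χ = 1) ∧ ∀ b : Ω, b ≠ a → Nat.card (MulAction.orbit (MulAction.stabilizer G a) b) = f) ∧ (Nat.card (MulAction.orbitRel.Quotient (MulAction.stabilizer G a) Ω) ≤ 5 → ∀ χ : G → ℂ, Cfsg.IsIrrCharacter G χ → Cfsg.classInner (fun g : G => (Nat.card (MulAction.fixedBy Ω g) : ℂ)) χ = 0 ∨ Cfsg.classInner (fun g : G => (Nat.card (MulAction.fixedBy Ω g) : ℂ)) χ = 1) := by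
  classical
  haveI : Nonempty Ω := ⟨a⟩
  haveI : Fintype (IrrCharacter G) := Fintype.ofFinite _
  have hconv : (∀ χ : IrrCharacter G, ml G Ω χ = 0 ∨ ml G Ω χ = 1) →
      ∀ χ : G → ℂ, Cfsg.IsIrrCharacter G χ → Cfsg.classInner (fun g : G => (Nat.card (MulAction.fixedBy Ω g) : ℂ)) χ = 0 ∨
        Cfsg.classInner (fun g : G => (Nat.card (MulAction.fixedBy Ω g) : ℂ)) χ = 1 := by
    intro h χ hχ
    have h1 := ml_spec (Ω := Ω) (⟨χ, hχ⟩ : IrrCharacter G)
    rcases h ⟨χ, hχ⟩ with h2 | h2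
    · left; rw [h2, Nat.cast_zero] at h1; exact h1
    · right; rw [h2, Nat.cast_one] at h1; exact h1
  constructor
  · intro f hf
    have h1 := equal_degrees (G := G) a f (fun χ hχ1 hχ2 => hf χ χ.2 (fun h => hχ1 (Subtype.ext h)) (fun h => by
      have h3 := ml_spec (Ω := Ω) χ
      have h4 : classInner (pch G Ω) (χ : G → ℂ) = 0 := h
      rw [h4] at h3
      exact hχ2 (by exact_mod_cast h3.symm)))
    exact ⟨hconv h1.1, h1.2⟩
  · intro hr
    apply hconv
    by_contra hcon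
    push Not at hcon
    obtain ⟨χ, hχ0, hχ1⟩ := hcon
    have hχt : χ ≠ triv G := by
      rintro rfl
      exact hχ1 ml_triv
    have h1 := rank_sum (G := G) a
    rw [← Finset.add_sum_erase _ _ (Finset.mem_univ (triv G)), ml_triv,
      ← Finset.add_sum_erase _ _ (Finset.mem_erase.2 ⟨hχt, Finset.mem_univ χ⟩)] at h1
    have h2 : 2 ≤ ml G Ω χ := by omega
    have h3 : 4 ≤ ml G Ω χ ^ 2 := by nlinarith
    have h4 : ∑ ψ ∈ (Finset.univ.erase (triv G)).erase χ, ml G Ω ψ ^ 2 = 0 := by omega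
    obtain ⟨f, -, hf⟩ := IsIrr.one_eq_nat χ.2
    have h5 := equal_degrees (G := G) a f (fun ψ hψ1 hψ2 => by
      by_cases hψ : ψ = χ
      · rw [hψ]; exact hf
      · exfalso
        have h6 := Finset.sum_eq_zero_iff.1 h4 ψ (Finset.mem_erase.2 ⟨hψ, Finset.mem_erase.2 ⟨hψ1, Finset.mem_univ _⟩⟩)
        exact hψ2 (pow_eq_zero_iff two_ne_zero |>.1 h6))
    rcases h5.1 χ with h6 | h6
    · exact hχ0 h6
    · exact hχ1 h6

end Cfsg.Agent.S0716
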