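import Cfsg.Statements.S0718
import Mathlib
import Cfsg.Agent.H9_Comm

set_option autoImplicit false
open Cfsg

namespace Cfsg.Agent.S0718

open Cfsg.Agent.H9.Comm Cfsg.Agent.H3.CharIrr Cfsg.Agent.H3.CharPerm

theorem mem_inv {G : Type*} [Group G] {Ω : Type*} [Fintype Ω] [MulAction G Ω] (S : (Ω → ℂ) →ₗ[ℂ] (Ω → ℂ)) :
    S ∈ ((Cfsg.permRep ℂ G Ω).linHom (Cfsg.permRep ℂ G Ω)).invariants ↔ Eqv (Cfsg.permRep ℂ G Ω) S := by
  have hlin : ∀ (g : G), ((Cfsg.permRep ℂ G Ω).linHom (Cfsg.permRep ℂ G Ω)) g S =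
      (Cfsg.permRep ℂ G Ω g) ∘ₗ S ∘ₗ (Cfsg.permRep ℂ G Ω g⁻¹) := fun g => rfl
  rw [Representation.mem_invariants]
  constructor
  · intro h g v
    have h1 := congrArg (fun R : (Ω → ℂ) →ₗ[ℂ] (Ω → ℂ) => R (Cfsg.permRep ℂ G Ω g v)) (h g)
    rw [hlin] at h1
    simp only [LinearMap.comp_apply] at h1
    rw [← h1]
    congr 2
    rw [← Module.End.mul_apply, ← map_mul, inv_mul_cancel, map_one, Module.End.one_apply]
  · intro h g
    rw [hlin]
    apply LinearMap.ext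
    intro v
    have h5 : Cfsg.permRep ℂ G Ω g (Cfsg.permRep ℂ G Ω g⁻¹ v) = v := by
      rw [← Module.End.mul_apply, ← map_mul, mul_inv_cancel, map_one, Module.End.one_apply]
    rw [LinearMap.comp_apply, LinearMap.comp_apply, ← h, h5]

/-- Multiplicity-freeness of the permutation character is equivalent to commutativity of the centraliser ring, i.e. of the algebra of `G`-equivariant endomorphisms of the complex permutation module. -/
theorem result {G : Type*} [Group G] [Fintype G] {Ω : Type*} [Fintype Ω] [MulAction G Ω] : (∀ χ : G → ℂ, Cfsg.IsIrrCharacter G χ → Cfsg.classInner (fun g : G => (Nat.card (MulAction.fixedBy Ω g) : ℂ)) χ = 0 ∨ Cfsg.classInner (fun g : G => (Nat.card (MulAction.fixedBy Ω g) : ℂ)) χ = 1) ↔ ∀ S T : (Ω → ℂ) →ₗ[ℂ] (Ω → ℂ), S ∈ ((Cfsg.permRep ℂ G Ω).linHom (Cfsg.permRep ℂ G Ω)).invariants → T ∈ ((Cfsg.permRep ℂ G Ω).linHom (Cfsg.permRep ℂ G Ω)).invariants → S ∘ₗ T = T ∘ₗ S := by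
  classical
  have hchar : (fun g : G => (Nat.card (MulAction.fixedBy Ω g) : ℂ)) = (Cfsg.permRep ℂ G Ω).character := by
    funext g
    exact (permRep_character g).symm
  constructor
  · intro h S T hS hT
    rw [mem_inv] at hS hT
    apply comm_of_mult (Cfsg.permRep ℂ G Ω) _ hS hT
    intro n ρ hρ
    have h1 := h ρ.character (isIrr_of_rep ρ hρ)
    rw [hchar, ← finrank_Hm] at h1
    rcases h1 with h1 | h1
    · have : Module.finrank ℂ (Hm ρ (Cfsg.permRep ℂ G Ω)) = 0 := by exact_mod_cast h1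
      omega
    · have : Module.finrank ℂ (Hm ρ (Cfsg.permRep ℂ G Ω)) = 1 := by exact_mod_cast h1
      omega
  · rintro h χ ⟨n, ρ, hρ, rfl⟩
    have h1 := mult_of_comm (Cfsg.permRep ℂ G Ω) (fun A B hA hB => h A B ((mem_inv A).2 hA) ((mem_inv B).2 hB)) ρ hρ
    rw [hchar, ← finrank_Hm]
    have h2 : Module.finrank ℂ (Hm ρ (Cfsg.permRep ℂ G Ω)) = 0 ∨ Module.finrank ℂ (Hm ρ (Cfsg.permRep ℂ G Ω)) = 1 := by omega
    rcases h2 with h2 | h2
    · left; rw [h2]; simp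
    · right; rw [h2]; simp

end Cfsg.Agent.S0718
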