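import Cfsg.Statements.S0720
import Mathlib
import Cfsg.Agent.H9_Deg2pE

set_option autoImplicit false
open Cfsg

namespace Cfsg.Agent.S0720

open Cfsg.Agent.H9.Deg2p Cfsg.Agent.H9.Comm

section
variable {G : Type*} [Group G] {Ω : Type*} [Fintype Ω] [MulAction G Ω]

theorem two_trans_of_rank [Finite G] [MulAction.IsPretransitive G Ω] (hΩ : 2 ≤ Fintype.card Ω) (a : Ω)
    (h : Nat.card (MulAction.orbitRel.Quotient (MulAction.stabilizer G a) Ω) = 2) : MulAction.IsMultiplyPretransitive G Ω 2 := by
  haveI := Fintype.ofFinite G
  rw [Cfsg.Agent.H3.CharPerm2.two_pretransitive_iff Ω (by rw [Nat.card_eq_fintype_card]; exact hΩ), ← rank_eq a]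
  exact h

theorem mono {H : Type*} [Group H] [MulAction H Ω] (f : H → G) (hf : ∀ (h : H) (x : Ω), f h • x = h • x) {n : ℕ}
    (hH : MulAction.IsMultiplyPretransitive H Ω n) : MulAction.IsMultiplyPretransitive G Ω n := by
  rw [MulAction.isMultiplyPretransitive_iff] at hH ⊢
  intro x y
  obtain ⟨g, hg⟩ := hH x y
  refine ⟨f g, ?_⟩
  rw [← hg]
  ext i
  exact hf g (x i)

theorem suborbit_two [Finite G] [FaithfulSMul G Ω] (hprim : MulAction.IsPreprimitive G Ω) {p : ℕ} (hp : p.Prime) (hΩ : Fintype.card Ω = 2 * p)
    (a b : Ω) (hb : b ≠ a) : 2 ≤ Nat.card (MulAction.orbit (MulAction.stabilizer G a) b) := by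
  classical
  haveI := hprim
  haveI : Nontrivial Ω := ⟨⟨b, a, hb⟩⟩
  haveI := Fintype.ofFinite G
  have hpos : ∀ b : Ω, 0 < Nat.card (MulAction.orbit (MulAction.stabilizer G a) b) := by
    intro b
    haveI : Nonempty (MulAction.orbit (MulAction.stabilizer G a) b) := ⟨⟨b, MulAction.mem_orbit_self b⟩⟩
    exact Nat.card_pos
  by_contra hlt
  have h1 : Nat.card (MulAction.orbit (MulAction.stabilizer G a) b) = 1 := by
    have := hpos b
    omega
  have h2 := Cfsg.Agent.S0719.suborbit_ne_one hprim a b hb h1
  haveI : Fintype (MulAction.orbitRel.Quotient (MulAction.stabilizer G a) Ω) := Fintype.ofFinite _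
  have ho := sum_orbits (Ω := Ω) (MulAction.stabilizer G a)
  have h3 : ∀ ω ∈ (Finset.univ : Finset (MulAction.orbitRel.Quotient (MulAction.stabilizer G a) Ω)), 1 ≤ Nat.card ω.orbit := by
    intro ω _hω
    clear _hω
    induction ω using Quotient.inductionOn'
    rename_i c
    have e : MulAction.orbitRel.Quotient.orbit (Quotient.mk'' c : MulAction.orbitRel.Quotient (MulAction.stabilizer G a) Ω) =
        MulAction.orbit (MulAction.stabilizer G a) c := MulAction.orbitRel.Quotient.orbit_mk c
    rw [e]
    exact hpos c
  have h4 : ∑ ω : MulAction.orbitRel.Quotient (MulAction.stabilizer G a) Ω, 1 = ∑ ω : MulAction.orbitRel.Quotient (MulAction.stabilizer G a) Ω, Nat.card ω.orbit := by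
    rw [ho, Finset.sum_const, Finset.card_univ, smul_eq_mul, mul_one, ← Nat.card_eq_fintype_card, h2]
  have h5 := (Finset.sum_eq_sum_iff_of_le h3).1 h4
  have hst : MulAction.stabilizer G a = ⊥ := by
    rw [eq_bot_iff]
    intro g hg
    rw [Subgroup.mem_bot]
    apply FaithfulSMul.eq_of_smul_eq_smul (α := Ω)
    intro c
    rw [one_smul]
    have h6 := h5 (Quotient.mk'' c) (Finset.mem_univ _)
    have e : MulAction.orbitRel.Quotient.orbit (Quotient.mk'' c : MulAction.orbitRel.Quotient (MulAction.stabilizer G a) Ω) =
        MulAction.orbit (MulAction.stabilizer G a) c := MulAction.orbitRel.Quotient.orbit_mk c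
    rw [e] at h6
    have h7 := Nat.card_eq_one_iff_unique.1 h6.symm
    have h8 : (⟨g • c, ⟨⟨g, hg⟩, rfl⟩⟩ : MulAction.orbit (MulAction.stabilizer G a) c) = ⟨c, MulAction.mem_orbit_self c⟩ :=
      h7.1.elim _ _
    exact congrArg Subtype.val h8
  have hcG : Nat.card G = 2 * p := by
    have h6 := (MulAction.stabilizer G a).card_mul_index
    rw [MulAction.index_stabilizer_of_transitive, hst, Subgroup.card_bot, one_mul, Nat.card_eq_fintype_card (α := Ω), hΩ] at h6
    exact h6.symm
  have hmax : IsCoatom (MulAction.stabilizer G a) := MulAction.IsPreprimitive.isCoatom_stabilizer_of_isPreprimitive G a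
  haveI : Fact (Nat.Prime 2) := ⟨Nat.prime_two⟩
  obtain ⟨g, hg⟩ := exists_prime_orderOf_dvd_card' (G := G) 2 (by rw [hcG]; exact dvd_mul_right _ _)
  have h6 : MulAction.stabilizer G a < Subgroup.zpowers g := by
    rw [hst, bot_lt_iff_ne_bot]
    intro h7
    rw [Subgroup.zpowers_eq_bot] at h7
    rw [h7, orderOf_one] at hg
    omega
  have h7 := hmax.2 _ h6
  have h8 : Nat.card (Subgroup.zpowers g) = Nat.card G := by rw [h7, Subgroup.card_top]
  rw [Nat.card_zpowers, hg, hcG] at h8
  have := hp.one_lt
  omega

end

/-- Wielandt's Theorem on primitive groups of degree `2p`: such a group is doubly transitive, or it has rank 3, `p = 2a² + 2a + 1`, and subdegrees `a(2a+1)` and `(a+1)(2a+1)`. -/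
theorem result {α : Type*} [Fintype α] [DecidableEq α] {p : ℕ} (hp : p.Prime) (hα : Fintype.card α = 2 * p) (G : Subgroup (Equiv.Perm α)) (hG : MulAction.IsPreprimitive G α) (a₀ : α) : MulAction.IsMultiplyPretransitive G α 2 ∨ (Nat.card (MulAction.orbitRel.Quotient (MulAction.stabilizer G a₀) α) = 3 ∧ ∃ a : ℕ, 0 < a ∧ p = 2 * a ^ 2 + 2 * a + 1 ∧ ∀ b : α, b ≠ a₀ → Nat.card (MulAction.orbit (MulAction.stabilizer G a₀) b) = a * (2 * a + 1) ∨ Nat.card (MulAction.orbit (MulAction.stabilizer G a₀) b) = (a + 1) * (2 * a + 1)) := by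
  classical
  haveI := Fact.mk hp
  haveI := hG
  have hp1 := hp.one_lt
  haveI : Fintype G := Fintype.ofFinite _
  haveI : MulAction.IsPretransitive G α := hG.toIsPretransitive
  have hα2 : 2 ≤ Fintype.card α := by omega
  by_cases hp2 : p = 2
  · left
    apply two_trans_of_rank hα2 a₀
    subst hp2
    haveI : Fintype (MulAction.orbitRel.Quotient (MulAction.stabilizer G a₀) α) := Fintype.ofFinite _
    have ho := sum_orbits (Ω := α) (MulAction.stabilizer G a₀)
    set q : MulAction.orbitRel.Quotient (MulAction.stabilizer G a₀) α := Quotient.mk'' a₀ with hq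
    have hqo : Nat.card q.orbit = 1 := by
      rw [hq, MulAction.orbitRel.Quotient.orbit_mk, Nat.card_coe_set_eq, Set.ncard_eq_one]
      refine ⟨a₀, ?_⟩
      ext y
      constructor
      · rintro ⟨g, rfl⟩
        exact g.2
      · rintro rfl
        exact MulAction.mem_orbit_self _
    rw [← Finset.add_sum_erase _ _ (Finset.mem_univ q), hqo, hα] at ho
    have hle : ∑ ω ∈ Finset.univ.erase q, 2 ≤ ∑ ω ∈ Finset.univ.erase q, Nat.card ω.orbit := by
      apply Finset.sum_le_sum
      intro ω hω
      have hne := Finset.ne_of_mem_erase hω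
      clear_value q
      revert hne
      induction ω using Quotient.inductionOn'
      rename_i c
      intro hne
      have e : MulAction.orbitRel.Quotient.orbit (Quotient.mk'' c : MulAction.orbitRel.Quotient (MulAction.stabilizer G a₀) α) =
          MulAction.orbit (MulAction.stabilizer G a₀) c := MulAction.orbitRel.Quotient.orbit_mk c
      rw [e]
      apply suborbit_two hG Nat.prime_two hα
      rintro rfl
      exact hne hq.symm
    rw [Finset.sum_const, smul_eq_mul, Finset.card_erase_of_mem (Finset.mem_univ _), Finset.card_univ] at hle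
    rw [Nat.card_eq_fintype_card]
    have h0 : (Finset.univ.erase q).card ≠ 0 := by
      intro h0
      rw [Finset.card_eq_zero] at h0
      rw [h0, Finset.sum_empty] at ho
      omega
    rw [Finset.card_erase_of_mem (Finset.mem_univ _), Finset.card_univ] at h0
    omega
  by_cases hfree : ∀ g : G, orderOf g = p → ∀ x : α, g • x ≠ x
  · -- the Sylow p-subgroup has order p
    have hcG := (MulAction.stabilizer G a₀).card_mul_index
    rw [MulAction.index_stabilizer_of_transitive, Nat.card_eq_fintype_card (α := α), hα] at hcG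
    have hst : ¬ p ∣ Nat.card (MulAction.stabilizer G a₀) := by
      intro h
      obtain ⟨g, hg⟩ := exists_prime_orderOf_dvd_card' (G := MulAction.stabilizer G a₀) p h
      exact hfree g (by rw [Subgroup.orderOf_coe]; exact hg) a₀ g.2
    have hpp : ¬ p ^ 2 ∣ Nat.card G := by
      intro h
      rw [← hcG, sq, mul_comm 2 p, mul_comm _ (p * 2), mul_assoc] at h
      have h1 := Nat.dvd_of_mul_dvd_mul_left hp.pos h
      rcases hp.dvd_mul.1 h1 with h2 | h2
      · exact hp2 ((Nat.prime_dvd_prime_iff_eq hp Nat.prime_two).1 h2)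
      · exact hst h2
    obtain ⟨z, hz⟩ := exists_prime_orderOf_dvd_card' (G := G) p (by rw [← hcG]; exact Dvd.dvd.mul_left (dvd_mul_left _ _) _)
    obtain ⟨htr, hmain⟩ := closure_main hG hα hp2 hz hfree hpp a₀
    set Γ := Subgroup.normalClosure ({z} : Set G) with hΓ
    rcases hmain with h | ⟨h, a, ha0, hpa, hsz⟩
    · left
      have h1 := two_trans_of_rank (G := Γ) hα2 a₀ h
      exact mono (fun g : Γ => (g : G)) (fun g x => rfl) h1
    · -- compare the suborbits
      let F : MulAction.orbitRel.Quotient (MulAction.stabilizer Γ a₀) α → MulAction.orbitRel.Quotient (MulAction.stabilizer G a₀) α :=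
        Quotient.map' (s₁ := MulAction.orbitRel (MulAction.stabilizer Γ a₀) α) (s₂ := MulAction.orbitRel (MulAction.stabilizer G a₀) α)
          id (by
            intro x y hxy
            rw [MulAction.orbitRel_apply] at hxy
            obtain ⟨g, hg⟩ := hxy
            change MulAction.orbitRel (MulAction.stabilizer G a₀) α x y
            rw [MulAction.orbitRel_apply]
            exact ⟨⟨((g : Γ) : G), g.2⟩, hg⟩)
      have hF : Function.Surjective F := by
        intro y
        induction y using Quotient.inductionOn'
        rename_i y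
        exact ⟨Quotient.mk'' y, rfl⟩
      have hle := Nat.card_le_card_of_surjective F hF
      rw [h] at hle
      have h1lt : 1 < Nat.card (MulAction.orbitRel.Quotient (MulAction.stabilizer G a₀) α) := by
        rw [Finite.one_lt_card_iff_nontrivial]
        haveI : Nontrivial α := Fintype.one_lt_card_iff_nontrivial.1 hα2
        obtain ⟨b, hb⟩ := exists_ne a₀
        refine ⟨⟨Quotient.mk'' b, Quotient.mk'' a₀, ?_⟩⟩
        intro heq
        have h5 : MulAction.orbitRel (MulAction.stabilizer G a₀) α b a₀ := Quotient.exact heq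
        rw [MulAction.orbitRel_apply] at h5
        obtain ⟨g, hg⟩ := h5
        exact hb (hg.symm.trans g.2)
      have h23 : Nat.card (MulAction.orbitRel.Quotient (MulAction.stabilizer G a₀) α) = 2 ∨
          Nat.card (MulAction.orbitRel.Quotient (MulAction.stabilizer G a₀) α) = 3 := by omega
      rcases h23 with h2 | h3
      · left; exact two_trans_of_rank hα2 a₀ h2
      · right
        refine ⟨h3, a, ha0, hpa, fun b hb => ?_⟩
        have hFinj : Function.Injective F := by
          have := (Nat.bijective_iff_surjective_and_card F).2 ⟨hF, by rw [h, h3]⟩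
          exact this.1
        have horb : MulAction.orbit (MulAction.stabilizer G a₀) b = MulAction.orbit (MulAction.stabilizer Γ a₀) b := by
          ext y
          constructor
          · intro hy
            have h4 : F (Quotient.mk'' y) = F (Quotient.mk'' b) := by
              apply Quotient.sound'
              rw [MulAction.orbitRel_apply]
              exact hy
            have h5 := hFinj h4
            have h6 : MulAction.orbitRel (MulAction.stabilizer Γ a₀) α y b := Quotient.exact h5
            rw [MulAction.orbitRel_apply] at h6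
            exact h6
          · rintro ⟨g, rfl⟩
            exact ⟨⟨((g : Γ) : G), g.2⟩, rfl⟩
        rw [horb]
        exact hsz b hb
  · left
    push Not at hfree
    obtain ⟨g, hg, x, hx⟩ := hfree
    have hgo : orderOf (g : Equiv.Perm α) = p := by rw [Subgroup.orderOf_coe]; exact hg
    have hsupp : (g : Equiv.Perm α).support.card < 2 * p := by
      rw [← hα, ← Finset.card_univ]
      apply Finset.card_lt_card
      rw [Finset.ssubset_univ_iff]
      intro h
      have : x ∈ (g : Equiv.Perm α).support := by rw [h]; exact Finset.mem_univ _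
      rw [Equiv.Perm.mem_support] at this
      exact this hx
    have hcyc := Equiv.Perm.isCycle_of_prime_order (σ := (g : Equiv.Perm α)) (by rw [hgo]; exact hp) (by rw [hgo]; exact hsupp)
    have hsc : (g : Equiv.Perm α).support.card = p := by rw [← hcyc.orderOf, hgo]
    have hA := Cfsg.Agent.S0713.result G hG hp (by omega) (by omega) hcyc hsc g.2
    have hAt := alternatingGroup.isMultiplyPretransitive α
    haveI : MulAction.IsMultiplyPretransitive (alternatingGroup α) α (Nat.card α - 2) := hAt
    have h2t : MulAction.IsMultiplyPretransitive (alternatingGroup α) α 2 := by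
      apply MulAction.isMultiplyPretransitive_of_le (n := Nat.card α - 2)
      · rw [Nat.card_eq_fintype_card]; omega
      · exact Nat.sub_le _ _
    exact mono (fun g : alternatingGroup α => (⟨g, hA g.2⟩ : G)) (fun g x => rfl) h2t

end Cfsg.Agent.S0720
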