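import Cfsg.Statements.S0722
import Mathlib.GroupTheory.GroupAction.Primitive

set_option autoImplicit false
open Cfsg

namespace Cfsg.Agent.S0722

/-- In a primitive group `H`, with `N` a minimal normal subgroup and `K` a point stabiliser, `K ⊓ N` is maximal among proper `K`-invariant subgroups of `N`. -/
theorem result {α : Type*} [Finite α] (H : Subgroup (Equiv.Perm α)) [MulAction.IsPreprimitive H α] (N : Subgroup H) [N.Normal] (hN : N ≠ ⊥) (hmin : ∀ M : Subgroup H, M.Normal → M ≤ N → M = ⊥ ∨ M = N) (a : α) (X : Subgroup H) (hX : X ≤ N) (hKX : MulAction.stabilizer H a ⊓ N ≤ X) (hinv : MulAction.stabilizer H a ≤ Subgroup.normalizer (X : Set H)) : X = MulAction.stabilizer H a ⊓ N ∨ X = N := by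
  classical
  rcases subsingleton_or_nontrivial α with hs | hnt
  · exact absurd (Subsingleton.elim _ _) hN
  have hco := MulAction.IsPreprimitive.isCoatom_stabilizer_of_isPreprimitive H a
  set K := MulAction.stabilizer H a with hK
  -- K ⊔ X
  have hmem : ∀ h : H, h ∈ K ⊔ X ↔ ∃ k ∈ K, ∃ x ∈ X, k * x = h := by
    intro h
    constructor
    · intro hh
      have hh' : h ∈ ((K ⊔ X : Subgroup H) : Set H) := hh
      rw [Subgroup.coe_mul_of_left_le_normalizer_right _ _ hinv] at hh'
      exact Set.mem_mul.1 hh'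
    · rintro ⟨k, hk, x, hx, rfl⟩
      exact Subgroup.mul_mem_sup hk hx
  by_cases h1 : K ⊔ X = ⊤
  · right
    apply le_antisymm hX
    intro n hn
    obtain ⟨k, hk, x, hx, hkx⟩ := (hmem n).1 (by rw [h1]; trivial)
    have hkN : k ∈ N := by
      have : k = n * x⁻¹ := by rw [← hkx, mul_inv_cancel_right]
      rw [this]; exact N.mul_mem hn (N.inv_mem (hX hx))
    rw [← hkx]
    exact X.mul_mem (hKX ⟨hk, hkN⟩) hx
  · left
    have h2 : K ⊔ X = K := by
      by_contra hne
      exact h1 (hco.2 _ (lt_of_le_of_ne le_sup_left (Ne.symm hne)))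
    have h3 : X ≤ K := by rw [← h2]; exact le_sup_right
    exact le_antisymm (le_inf h3 hX) hKX

end Cfsg.Agent.S0722
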