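import Cfsg.Statements.S0724
import Mathlib
-- import your own Cfsg.Agent.* helpers here

set_option autoImplicit false
open Cfsg

namespace Cfsg.Agent.S0724

theorem dvd_pow {α : Type*} [Fintype α] [DecidableEq α] (G : Subgroup (Equiv.Perm α)) (k : ℕ) :
    ∃ m : ℕ, ∑ᶠ g : G, (Nat.card (MulAction.fixedBy α (g : Equiv.Perm α)) : ℤ) ^ k = Nat.card G * m := by
  classical
  haveI : Fintype G := Fintype.ofFinite _
  have h1 := MulAction.sum_card_fixedBy_eq_card_orbits_mul_card_group G (Fin k → α)
  refine ⟨Fintype.card (Quotient (MulAction.orbitRel G (Fin k → α))), ?_⟩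
  rw [finsum_eq_sum_of_fintype, Nat.card_eq_fintype_card (α := G), mul_comm]
  rw [← Nat.cast_mul, ← h1]
  push_cast
  apply Finset.sum_congr rfl
  intro g _
  rw [← Nat.cast_pow]
  congr 1
  rw [← Nat.card_eq_fintype_card]
  have e : MulAction.fixedBy (Fin k → α) g ≃ (Fin k → MulAction.fixedBy α (g : Equiv.Perm α)) :=
    { toFun := fun x i => ⟨x.1 i, congrFun x.2 i⟩
      invFun := fun x => ⟨fun i => (x i).1, funext fun i => (x i).2⟩
      left_inv := fun x => rfl
      right_inv := fun x => rfl }
  rw [Nat.card_congr e, Nat.card_fun, Nat.card_fin]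

theorem dvd_poly {α : Type*} [Fintype α] [DecidableEq α] (G : Subgroup (Equiv.Perm α)) (P : Polynomial ℤ) :
    (Nat.card G : ℤ) ∣ ∑ᶠ g : G, P.eval (Nat.card (MulAction.fixedBy α (g : Equiv.Perm α)) : ℤ) := by
  classical
  haveI : Fintype G := Fintype.ofFinite _
  induction P using Polynomial.induction_on' with
  | add p q hp hq =>
    rw [finsum_eq_sum_of_fintype] at hp hq ⊢
    simp only [Polynomial.eval_add, Finset.sum_add_distrib]
    exact dvd_add hp hq
  | monomial n a =>
    obtain ⟨m, hm⟩ := dvd_pow G n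
    rw [finsum_eq_sum_of_fintype] at hm ⊢
    simp only [Polynomial.eval_monomial]
    rw [← Finset.mul_sum, hm]
    exact ⟨a * m, by ring⟩

/-- Blichfeldt's Theorem: if a finite set `L` of natural numbers contains the number of fixed points of every non-identity element of a permutation group `G` of degree `n`, then the order of `G` divides `∏ (n - l)` over `l ∈ L`. -/
theorem result {α : Type*} [Fintype α] [DecidableEq α] (G : Subgroup (Equiv.Perm α)) (L : Finset ℕ) (hL : ∀ g ∈ G, g ≠ 1 → Nat.card (MulAction.fixedBy α g) ∈ L) : Nat.card G ∣ ∏ l ∈ L, (Fintype.card α - l) := by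
  classical
  haveI : Fintype G := Fintype.ofFinite _
  by_cases hl : ∃ l ∈ L, Fintype.card α ≤ l
  · obtain ⟨l, hl, hle⟩ := hl
    rw [Finset.prod_eq_zero hl (by omega)]
    exact dvd_zero _
  · push Not at hl
    have h1 := dvd_poly G (∏ l ∈ L, (Polynomial.X - Polynomial.C (l : ℤ)))
    rw [finsum_eq_sum_of_fintype, Finset.sum_eq_single (1 : G)] at h1
    · rw [Polynomial.eval_prod] at h1
      simp only [Polynomial.eval_sub, Polynomial.eval_X, Polynomial.eval_C] at h1
      have h2 : (Nat.card (MulAction.fixedBy α ((1 : G) : Equiv.Perm α))) = Fintype.card α := by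
        rw [← Nat.card_eq_fintype_card]
        apply Nat.card_congr
        exact ⟨fun x => x.1, fun x => ⟨x, by simp⟩, fun x => rfl, fun x => rfl⟩
      rw [h2] at h1
      have h3 : ((∏ l ∈ L, (Fintype.card α - l) : ℕ) : ℤ) = ∏ l ∈ L, ((Fintype.card α : ℤ) - (l : ℤ)) := by
        rw [Nat.cast_prod]
        apply Finset.prod_congr rfl
        intro l hl'
        rw [Nat.cast_sub (hl l hl').le]
      rw [← h3] at h1
      exact Int.natCast_dvd_natCast.1 h1
    · intro g _ hg
      rw [Polynomial.eval_prod]
      apply Finset.prod_eq_zero (hL g g.2 (fun h => hg (Subtype.ext h)))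
      simp
    · intro h
      exact absurd (Finset.mem_univ _) h

end Cfsg.Agent.S0724
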