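import Cfsg.Statements.S0726
-- import your own Cfsg.Agent.* helpers here

set_option autoImplicit false
open Cfsg

namespace Cfsg.Agent.S0726

/-- The left and right regular permutation representations of a group are each other's centralisers in the symmetric group: the centraliser of the left regular image is the right regular image, and a transitive subgroup centralising the left regular image is the whole right regular image. -/
theorem result {G : Type*} [Group G] : Subgroup.centralizer ((MulAction.toPermHom G G).range : Set (Equiv.Perm G)) = (MulAction.toPermHom Gᵐᵒᵖ G).range ∧ ∀ H : Subgroup (Equiv.Perm G), H ≤ Subgroup.centralizer ((MulAction.toPermHom G G).range : Set (Equiv.Perm G)) → MulAction.IsPretransitive H G → H = (MulAction.toPermHom Gᵐᵒᵖ G).range := by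
  classical
  have key : ∀ c ∈ Subgroup.centralizer ((MulAction.toPermHom G G).range : Set (Equiv.Perm G)),
      ∀ x : G, c x = x * c 1 := by
    intro c hc x
    have h := Subgroup.mem_centralizer_iff.1 hc (MulAction.toPermHom G G x) ⟨x, rfl⟩
    have h1 := congrArg (fun σ : Equiv.Perm G => σ 1) h
    simp at h1
    exact h1.symm
  have h1 : Subgroup.centralizer ((MulAction.toPermHom G G).range : Set (Equiv.Perm G)) = (MulAction.toPermHom Gᵐᵒᵖ G).range := by
    ext c
    constructor
    · intro hc
      refine ⟨MulOpposite.op (c 1), ?_⟩
      ext x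
      simp [key c hc x]
    · rintro ⟨g, rfl⟩
      rw [Subgroup.mem_centralizer_iff]
      rintro _ ⟨h, rfl⟩
      ext x
      simp [mul_assoc]
  refine ⟨h1, ?_⟩
  intro H hH ht
  apply le_antisymm
  · rw [← h1]; exact hH
  · rintro _ ⟨g, rfl⟩
    obtain ⟨⟨σ, hσ⟩, hs⟩ := MulAction.exists_smul_eq H (1 : G) (g.unop)
    have : MulAction.toPermHom Gᵐᵒᵖ G g = σ := by
      ext x
      have hs' : σ 1 = g.unop := hs
      rw [key σ (hH hσ) x, hs']
      rfl
    rw [this]; exact hσ

end Cfsg.Agent.S0726
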