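import Cfsg.Statements.S0727
import Mathlib
import Cfsg.Agent.H9_ZassI

set_option autoImplicit false
open Cfsg

namespace Cfsg.Agent.S0727

/-- A sharply triply transitive permutation group of degree `2^f + 1` is isomorphic to the projective general linear group of degree 2 over the field with `2^f` elements. -/
theorem result {α : Type*} [Fintype α] [DecidableEq α] {f : ℕ} (hf : 1 ≤ f) (hα : Fintype.card α = 2 ^ f + 1) (G : Subgroup (Equiv.Perm α)) (h3 : MulAction.IsMultiplyPretransitive G α 3) (hsharp : ∀ x : Fin 3 ↪ α, MulAction.stabilizer G x = ⊥) : ∃ (F : Type) (_ : Field F) (_ : Fintype F), Fintype.card F = 2 ^ f ∧ Nonempty (G ≃* Matrix.ProjGenLinGroup (Fin 2) F) := by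
  classical
  have h1 : H9.ZassI.S3 G α := ⟨fun h1 h2 h3' h4 h5 h6 => H9.ZassI.three_trans h3 h1 h2 h3' h4 h5 h6,
    fun g a b c => H9.ZassI.sharp_three hsharp g a b c⟩
  have h2f : 2 ≤ 2 ^ f := by
    calc 2 = 2 ^ 1 := by norm_num
      _ ≤ 2 ^ f := Nat.pow_le_pow_right (by norm_num) hf
  obtain ⟨F, hF, hFf, hc, hiso⟩ := H9.ZassI.pgl_two h1 (by omega) (by
    rw [hα]
    have : Even (2 ^ f) := (Nat.even_pow).2 ⟨even_two, by omega⟩
    exact this.add_one)
  exact ⟨F, hF, hFf, by omega, hiso⟩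

end Cfsg.Agent.S0727
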