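import Cfsg.Statements.S0733
import Mathlib

set_option autoImplicit false
open Cfsg

namespace Cfsg.Agent.S0733

open scoped Pointwise in
theorem block_iff {G : Type*} [Group G] {X : Type*} [MulAction G X] {B : Set X} :
    MulAction.IsBlock G B ↔ ∀ g : G, (∃ x ∈ B, g • x ∈ B) → ∀ x, x ∈ B → g • x ∈ B ∧ g⁻¹ • x ∈ B := by
  rw [MulAction.isBlock_iff_smul_eq_of_nonempty]
  constructor
  · intro h g hg x hx
    obtain ⟨y, hy, hgy⟩ := hg
    have h1 : g • B = B := h ⟨g • y, ⟨y, hy, rfl⟩, hgy⟩
    constructor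
    · have : g • x ∈ g • B := ⟨x, hx, rfl⟩
      rwa [h1] at this
    · rw [← Set.mem_smul_set_iff_inv_smul_mem, h1]; exact hx
  · intro h g hg
    obtain ⟨_, ⟨y, hy, rfl⟩, hgy⟩ := hg
    have h1 := h g ⟨y, hy, hgy⟩
    ext x
    constructor
    · rintro ⟨z, hz, rfl⟩
      exact (h1 z hz).1
    · intro hx
      rw [Set.mem_smul_set_iff_inv_smul_mem]
      exact (h1 x hx).2

/-- A permutation group of affine type — generated by the translations of a finite vector space `V` over `ZMod p` together with a group `G₀` of linear automorphisms — is primitive on `V` if and only if `G₀` is irreducible on `V`. -/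
theorem result {p : ℕ} [Fact p.Prime] {V : Type*} [AddCommGroup V] [Module (ZMod p) V] [Finite V] [Nontrivial V] (G₀ : Subgroup (V ≃ₗ[ZMod p] V)) (G : Subgroup (Equiv.Perm V)) (hG : ∀ σ : Equiv.Perm V, σ ∈ G ↔ ∃ g ∈ G₀, ∃ b : V, ∀ x : V, σ x = (g : V ≃ₗ[ZMod p] V) x + b) : MulAction.IsPreprimitive G V ↔ ∀ W : Submodule (ZMod p) V, (∀ g ∈ G₀, ∀ v ∈ W, (g : V ≃ₗ[ZMod p] V) v ∈ W) → W = ⊥ ∨ W = ⊤ := by
  classical
  have htr : ∀ b : V, ∃ t : G, ∀ x : V, t • x = x + b := by
    intro b
    refine ⟨⟨Equiv.addRight b, (hG _).2 ⟨1, G₀.one_mem, b, fun x => rfl⟩⟩, fun x => rfl⟩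
  have hlin : ∀ g ∈ G₀, ∃ t : G, ∀ x : V, t • x = (g : V ≃ₗ[ZMod p] V) x := by
    intro g hg
    refine ⟨⟨(g : V ≃ₗ[ZMod p] V).toEquiv, (hG _).2 ⟨g, hg, 0, fun x => by simp⟩⟩, fun x => rfl⟩
  have hgen : ∀ t : G, ∃ g ∈ G₀, ∃ b : V, ∀ x : V, t • x = (g : V ≃ₗ[ZMod p] V) x + b := by
    intro t
    exact (hG _).1 t.2
  constructor
  · intro hprim W hW
    have hB : MulAction.IsBlock G (W : Set V) := by
      rw [block_iff]
      rintro t ⟨y, hy, hty⟩ x hx
      obtain ⟨g, hg, b, htb⟩ := hgen t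
      have hgy := hW g hg y hy
      have hb : b ∈ W := by
        have : b = t • y - (g : V ≃ₗ[ZMod p] V) y := by rw [htb]; abel
        rw [this]
        exact W.sub_mem hty hgy
      constructor
      · rw [htb]
        exact W.add_mem (hW g hg x hx) hb
      · have h1 : t⁻¹ • x = (g⁻¹ : V ≃ₗ[ZMod p] V) (x - b) := by
          rw [inv_smul_eq_iff, htb]
          have : (g : V ≃ₗ[ZMod p] V) ((g⁻¹ : V ≃ₗ[ZMod p] V) (x - b)) = x - b := by
            rw [← LinearEquiv.mul_apply, mul_inv_cancel]; rfl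
          rw [this]; abel
        rw [h1]
        exact hW _ (G₀.inv_mem hg) _ (W.sub_mem hx hb)
    rcases hprim.isTrivialBlock_of_isBlock hB with h | h
    · left
      rw [Submodule.eq_bot_iff]
      intro x hx
      exact h hx W.zero_mem
    · right
      exact SetLike.coe_injective (by rw [h]; rfl)
  · intro hirr
    haveI : MulAction.IsPretransitive G V := ⟨fun x y => by
      obtain ⟨t, ht⟩ := htr (y - x)
      exact ⟨t, by rw [ht]; abel⟩⟩
    apply MulAction.IsPreprimitive.of_isTrivialBlock_base (0 : V)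
    intro B h0 hB
    rw [block_iff] at hB
    have hadd : ∀ b ∈ B, ∀ x ∈ B, x + b ∈ B ∧ x - b ∈ B := by
      intro b hb x hx
      obtain ⟨t, ht⟩ := htr b
      have := hB t ⟨0, h0, by rw [ht, zero_add]; exact hb⟩ x hx
      rw [ht] at this
      refine ⟨this.1, ?_⟩
      have h2 : t⁻¹ • x = x - b := by rw [inv_smul_eq_iff, ht]; abel
      rw [← h2]; exact this.2
    let A : AddSubgroup V :=
      { carrier := B
        add_mem' := fun {a b} ha hb => (hadd b hb a ha).1
        zero_mem' := h0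
        neg_mem' := fun {a} ha => by
          have := (hadd a ha 0 h0).2
          simpa using this }
    have := hirr (AddSubgroup.toZModSubmodule p A) (by
      intro g hg v hv
      obtain ⟨t, ht⟩ := hlin g hg
      have h3 := hB t ⟨0, h0, by rw [ht, map_zero]; exact h0⟩ v hv
      rw [ht] at h3
      exact h3.1)
    rcases this with h | h
    · left
      intro x hx y hy
      have hx' : x ∈ AddSubgroup.toZModSubmodule p A := hx
      have hy' : y ∈ AddSubgroup.toZModSubmodule p A := hy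
      rw [h, Submodule.mem_bot] at hx' hy'
      rw [hx', hy']
    · right
      ext x
      simp only [Set.mem_univ, iff_true]
      have hx' : x ∈ AddSubgroup.toZModSubmodule p A := by rw [h]; trivial
      exact hx'

end Cfsg.Agent.S0733
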