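import Cfsg.Statements.S0734
import Mathlib

set_option autoImplicit false
open Cfsg

namespace Cfsg.Agent.S0734

open scoped Pointwise in
theorem block_iff {G : Type*} [Group G] {X : Type*} [MulAction G X] {B : Set X} :
    MulAction.IsBlock G B ↔ ∀ g : G, (∃ x ∈ B, g • x ∈ B) → ∀ x, x ∈ B → g • x ∈ B ∧ g⁻¹ • x ∈ B := by
  rw [MulAction.isBlock_iff_smul_eq_of_nonempty]
  constructor
  · intro h g hg x hx
    obtain ⟨y, hy, hgy⟩ := hg
    have h1 : g • B = B := h ⟨g • y, ⟨y, hy, rfl⟩, hgy⟩
    constructor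
    · have : g • x ∈ g • B := ⟨x, hx, rfl⟩
      rwa [h1] at this
    · rw [← Set.mem_smul_set_iff_inv_smul_mem, h1]; exact hx
  · intro h g hg
    obtain ⟨_, ⟨y, hy, rfl⟩, hgy⟩ := hg
    have h1 := h g ⟨y, hy, hgy⟩
    ext x
    constructor
    · rintro ⟨z, hz, rfl⟩
      exact (h1 z hz).1
    · intro hx
      rw [Set.mem_smul_set_iff_inv_smul_mem]
      exact (h1 x hx).2

/-- Higman's criterion for primitivity: a transitive action on a finite set is primitive if and only if every non-trivial orbital graph (edges = images of a fixed pair of distinct points) is connected. -/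
theorem result {G : Type*} [Group G] {Ω : Type*} [Finite Ω] [MulAction G Ω] [MulAction.IsPretransitive G Ω] [Nontrivial Ω] : MulAction.IsPreprimitive G Ω ↔ ∀ a b : Ω, a ≠ b → (SimpleGraph.fromRel fun x y : Ω => ∃ g : G, g • a = x ∧ g • b = y).Connected := by
  classical
  constructor
  · intro hprim a b hab
    set Γ := SimpleGraph.fromRel fun x y : Ω => ∃ g : G, g • a = x ∧ g • b = y with hΓ
    have hadj : ∀ (g : G) x y, Γ.Adj x y → Γ.Adj (g • x) (g • y) := by
      intro g x y h
      rw [hΓ, SimpleGraph.fromRel_adj] at h ⊢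
      refine ⟨fun h' => h.1 (MulAction.injective g h'), ?_⟩
      rcases h.2 with ⟨k, hk1, hk2⟩ | ⟨k, hk1, hk2⟩
      · left; exact ⟨g * k, by rw [mul_smul, hk1], by rw [mul_smul, hk2]⟩
      · right; exact ⟨g * k, by rw [mul_smul, hk1], by rw [mul_smul, hk2]⟩
    have hreach : ∀ (g : G) x y, Γ.Reachable x y → Γ.Reachable (g • x) (g • y) := by
      intro g x y h
      let φ : Γ →g Γ := ⟨fun x => g • x, fun {x y} h => hadj g x y h⟩
      exact h.map φ
    let B : Set Ω := {x | Γ.Reachable a x}
    have hB : MulAction.IsBlock G B := by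
      rw [block_iff]
      rintro g ⟨y, hy, hgy⟩ x hx
      have h1 : Γ.Reachable (g • a) (g • y) := hreach g _ _ hy
      have h2 : Γ.Reachable a (g • a) := SimpleGraph.Reachable.trans hgy h1.symm
      constructor
      · exact h2.trans (hreach g _ _ hx)
      · have h3 := hreach g⁻¹ _ _ h2
        rw [inv_smul_smul] at h3
        exact h3.symm.trans (hreach g⁻¹ _ _ hx)
    have hedge : Γ.Adj a b := by
      rw [hΓ, SimpleGraph.fromRel_adj]
      exact ⟨hab, Or.inl ⟨1, one_smul _ _, one_smul _ _⟩⟩
    rw [SimpleGraph.connected_iff]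
    refine ⟨?_, ⟨a⟩⟩
    rcases hprim.isTrivialBlock_of_isBlock hB with h | h
    · exact absurd (h (show a ∈ B from SimpleGraph.Reachable.refl a) (show b ∈ B from hedge.reachable)) hab
    · intro x y
      have hx : x ∈ B := by rw [h]; trivial
      have hy : y ∈ B := by rw [h]; trivial
      exact SimpleGraph.Reachable.trans (SimpleGraph.Reachable.symm hx) hy
  · intro hconn
    refine MulAction.IsPreprimitive.mk ?_
    intro B hB
    rw [block_iff] at hB
    by_cases hsub : B.Subsingleton
    · exact Or.inl hsub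
    right
    rw [Set.not_subsingleton_iff] at hsub
    obtain ⟨a, ha, b, hb, hab⟩ := hsub
    have hc := hconn a b hab
    have hstep : ∀ x y, (SimpleGraph.fromRel fun x y : Ω => ∃ g : G, g • a = x ∧ g • b = y).Adj x y → x ∈ B → y ∈ B := by
      intro x y h hx
      rw [SimpleGraph.fromRel_adj] at h
      rcases h.2 with ⟨k, rfl, rfl⟩ | ⟨k, rfl, rfl⟩
      · exact (hB k ⟨a, ha, hx⟩ b hb).1
      · exact (hB k ⟨b, hb, hx⟩ a ha).1
    ext x
    simp only [Set.mem_univ, iff_true]
    obtain ⟨w⟩ := hc.preconnected a x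
    have : ∀ (u v : Ω) (w : (SimpleGraph.fromRel fun x y : Ω => ∃ g : G, g • a = x ∧ g • b = y).Walk u v), u ∈ B → v ∈ B := by
      intro u v w
      induction w with
      | nil => exact id
      | cons h _ ih => exact fun hu => ih (hstep _ _ h hu)
    exact this a x w ha

end Cfsg.Agent.S0734
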