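import Cfsg.Statements.S0735
import Mathlib
import Cfsg.Agent.H9_HomogSub

set_option autoImplicit false
open Cfsg

namespace Cfsg.Agent.S0735

/-- A 2-homogeneous permutation group (transitive on 2-subsets) of even order is doubly transitive; a non-trivial 2-homogeneous group is primitive. -/
theorem result {α : Type*} [Fintype α] [DecidableEq α] (G : Subgroup (Equiv.Perm α)) (h2 : MulAction.IsPretransitive G (Set.powersetCard α 2)) (hα : 3 ≤ Fintype.card α) : (Even (Nat.card G) → MulAction.IsMultiplyPretransitive G α 2) ∧ (G ≠ ⊥ → MulAction.IsPreprimitive G α) := by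
  classical
  rw [H9.HomogSub.sub_iff] at h2
  have hpair : ∀ a b c d : α, a ≠ b → c ≠ d → ∃ g : G, (g • a = c ∧ g • b = d) ∨ (g • a = d ∧ g • b = c) := by
    intro a b c d hab hcd
    obtain ⟨g, hg⟩ := h2 {a, b} {c, d} (Finset.card_pair hab) (Finset.card_pair hcd)
    refine ⟨g, ?_⟩
    have h1 : g • a ∈ ({c, d} : Finset α) := by rw [← hg]; exact Finset.smul_mem_smul_finset (by simp)
    have h3 : g • b ∈ ({c, d} : Finset α) := by rw [← hg]; exact Finset.smul_mem_smul_finset (by simp)
    have h4 : g • a ≠ g • b := fun h => hab (MulAction.injective g h)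
    simp only [Finset.mem_insert, Finset.mem_singleton] at h1 h3
    rcases h1 with h1 | h1 <;> rcases h3 with h3 | h3
    · exact absurd (h1.trans h3.symm) h4
    · exact Or.inl ⟨h1, h3⟩
    · exact Or.inr ⟨h1, h3⟩
    · exact absurd (h1.trans h3.symm) h4
  constructor
  · intro heven
    haveI : Fact (Nat.Prime 2) := ⟨Nat.prime_two⟩
    obtain ⟨t, ht⟩ := exists_prime_orderOf_dvd_card' (G := G) 2 heven.two_dvd
    have ht1 : t ≠ 1 := by
      rintro rfl
      rw [orderOf_one] at ht; omega
    obtain ⟨a, ha⟩ : ∃ a : α, t • a ≠ a := by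
      by_contra hcon
      push Not at hcon
      apply ht1
      apply Subtype.ext
      ext x
      exact hcon x
    set b := t • a with hb
    have htb : t • b = a := by
      rw [hb, ← mul_smul, ← pow_two, ← ht, pow_orderOf_eq_one, one_smul]
    have hab : a ≠ b := fun h => ha h.symm
    -- every pair can be swapped
    have hswap : ∀ c d : α, c ≠ d → ∃ s : G, s • c = d ∧ s • d = c := by
      intro c d hcd
      obtain ⟨g, ⟨h1, h3⟩ | ⟨h1, h3⟩⟩ := hpair a b c d hab hcd
      · refine ⟨g * t * g⁻¹, ?_, ?_⟩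
        · rw [← h1, mul_smul, inv_smul_smul, mul_smul, ← hb, h3]
        · rw [← h3, mul_smul, inv_smul_smul, mul_smul, htb, h1]
      · refine ⟨g * t * g⁻¹, ?_, ?_⟩
        · rw [← h3, mul_smul, inv_smul_smul, mul_smul, htb, h1]
        · rw [← h1, mul_smul, inv_smul_smul, mul_smul, ← hb, h3]
    rw [MulAction.is_two_pretransitive_iff]
    intro c d c' d' hcd hcd'
    obtain ⟨g, h1 | h1⟩ := hpair c d c' d' hcd hcd'
    · exact ⟨g, h1⟩
    · obtain ⟨s, hs1, hs2⟩ := hswap c' d' hcd'
      exact ⟨s * g, by rw [mul_smul, h1.1, hs2], by rw [mul_smul, h1.2, hs1]⟩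
  · intro _
    have hex : ∀ a b : α, ∃ c, c ≠ a ∧ c ≠ b := by
      intro a b
      by_contra hcon
      push Not at hcon
      have : (Finset.univ : Finset α) ⊆ {a, b} := by
        intro c _
        simp only [Finset.mem_insert, Finset.mem_singleton]
        by_cases hc : c = a
        · exact Or.inl hc
        · exact Or.inr (hcon c hc)
      have h1 := Finset.card_le_card this
      rw [Finset.card_univ] at h1
      have := Finset.card_le_two (a := a) (b := b)
      omega
    have htr : MulAction.IsPretransitive G α := by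
      constructor
      intro a b
      by_cases hab : a = b
      · exact ⟨1, by rw [one_smul, hab]⟩
      obtain ⟨c, hca, hcb⟩ := hex a b
      obtain ⟨g, h1 | h1⟩ := hpair a c b c (Ne.symm hca) (Ne.symm hcb)
      · exact ⟨g, h1.1⟩
      · exact ⟨g * g, by rw [mul_smul, h1.1, h1.2]⟩
    refine ⟨?_⟩
    intro B hB
    by_contra hcon
    rw [MulAction.IsTrivialBlock] at hcon
    push Not at hcon
    obtain ⟨hns, hnu⟩ := hcon
    obtain ⟨a, ha, b, hb, hab⟩ := hns
    obtain ⟨c, hc⟩ := (Set.ne_univ_iff_exists_notMem _).1 hnu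
    have hac : a ≠ c := fun h => hc (h ▸ ha)
    obtain ⟨g, h1 | h1⟩ := hpair a b a c hab hac
    · have := hB.smul_eq_of_mem ha (by rw [h1.1]; exact ha)
      apply hc
      rw [← h1.2, ← this]
      exact Set.smul_mem_smul_set hb
    · have := hB.smul_eq_of_mem hb (by rw [h1.2]; exact ha)
      apply hc
      rw [← h1.1, ← this]
      exact Set.smul_mem_smul_set ha

end Cfsg.Agent.S0735
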