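import Cfsg.Statements.S0740
import Mathlib
import Cfsg.Agent.H9_Zass

set_option autoImplicit false
open Cfsg

namespace Cfsg.Agent.S0740

/-- In a finite Zassenhaus group any two points `a ≠ b` are swapped by an involution; every such involution has exactly one fixed point when the degree is odd and 0 or 2 fixed points when the degree is even; and if the two-point stabiliser has even order, some such involution has exactly 2 fixed points. -/
theorem result {G Ω : Type*} [Group G] [Finite G] [MulAction G Ω] [Fintype Ω] (hZ : Cfsg.IsZassenhausGroup G Ω) {a b : Ω} (hab : a ≠ b) : (∃ s : G, orderOf s = 2 ∧ s • a = b ∧ s • b = a) ∧ (∀ s : G, orderOf s = 2 → s • a = b → s • b = a → (Odd (Fintype.card Ω) → Nat.card (MulAction.fixedBy Ω s) = 1) ∧ (Even (Fintype.card Ω) → Nat.card (MulAction.fixedBy Ω s) = 0 ∨ Nat.card (MulAction.fixedBy Ω s) = 2)) ∧ (Even (Fintype.card Ω) → Even (Nat.card ↥(MulAction.stabilizer G a ⊓ MulAction.stabilizer G b)) → ∃ s : G, orderOf s = 2 ∧ s • a = b ∧ s • b = a ∧ Nat.card (MulAction.fixedBy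 Ω s) = 2) := by
  classical
  obtain ⟨hfaith, h2, h3, h4, h5⟩ := id hZ
  refine ⟨?_, ?_, ?_⟩
  · by_cases heven : Even (Nat.card ↥(MulAction.stabilizer G a ⊓ MulAction.stabilizer G b))
    · obtain ⟨s, h1, h2, h3, -⟩ := H9.Zass.exists_swap hZ hab heven
      exact ⟨s, h1, h2, h3⟩
    · obtain ⟨g, hg1, hg2⟩ : ∃ g : G, g • a = b ∧ g • b = a :=
        (MulAction.is_two_pretransitive_iff (G := G) (α := Ω)).1 h2 hab hab.symm
      have hg : g ^ 2 ∈ MulAction.stabilizer G a ⊓ MulAction.stabilizer G b := by
        constructor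
        · change g ^ 2 • a = a
          rw [pow_two, mul_smul, hg1, hg2]
        · change g ^ 2 • b = b
          rw [pow_two, mul_smul, hg2, hg1]
      have hodd : Odd (orderOf (g ^ 2)) := by
        have h6 : orderOf (⟨_, hg⟩ : ↥(MulAction.stabilizer G a ⊓ MulAction.stabilizer G b)) ∣ Nat.card ↥(MulAction.stabilizer G a ⊓ MulAction.stabilizer G b) := orderOf_dvd_natCard _
        rw [← Subgroup.orderOf_coe] at h6
        exact Odd.of_dvd_nat (Nat.not_even_iff_odd.1 heven) h6
      obtain ⟨k, hk⟩ := hodd
      have hs : g ^ orderOf (g ^ 2) = g * (g ^ 2) ^ k := by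
        rw [hk, ← pow_mul, ← pow_succ']
      have hk' : (g ^ 2) ^ k ∈ MulAction.stabilizer G a ⊓ MulAction.stabilizer G b := Subgroup.pow_mem _ hg k
      have hsa : g ^ orderOf (g ^ 2) • a = b := by
        rw [hs, mul_smul]
        have : (g ^ 2) ^ k • a = a := hk'.1
        rw [this, hg1]
      have hsb : g ^ orderOf (g ^ 2) • b = a := by
        rw [hs, mul_smul]
        have : (g ^ 2) ^ k • b = b := hk'.2
        rw [this, hg2]
      refine ⟨g ^ orderOf (g ^ 2), ?_, hsa, hsb⟩
      apply orderOf_eq_prime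
      · rw [← pow_mul, mul_comm, pow_mul, pow_orderOf_eq_one]
      · intro h
        rw [h, one_smul] at hsa
        exact hab hsa
  · intro s hs hsa hsb
    have hs1 : s ≠ 1 := by rintro rfl; rw [orderOf_one] at hs; omega
    have h6 := H9.Zass.card_fixedBy_le h3 hs1
    have h7 := H9.Zass.card_fixedBy_mod (Ω := Ω) (s := s) (by rw [← hs, pow_orderOf_eq_one])
    unfold Nat.ModEq at h7
    constructor
    · intro ho
      rw [Nat.odd_iff] at ho
      omega
    · intro ho
      rw [Nat.even_iff] at ho
      omega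
  · intro _ heven
    exact H9.Zass.exists_swap hZ hab heven

end Cfsg.Agent.S0740
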