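import Cfsg.Statements.S0741
import Mathlib
import Cfsg.Agent.H9_ZassB

set_option autoImplicit false
open Cfsg

namespace Cfsg.Agent.S0741

/-- If the two-point stabilisers of a finite Zassenhaus group of degree `n + 1` have even order `d`, then `2d ≥ n - 1`. -/
theorem result {G Ω : Type*} [Group G] [Finite G] [MulAction G Ω] [Fintype Ω] (hZ : Cfsg.IsZassenhausGroup G Ω) {a b : Ω} (hab : a ≠ b) (heven : Even (Nat.card ↥(MulAction.stabilizer G a ⊓ MulAction.stabilizer G b))) : Fintype.card Ω - 2 ≤ 2 * Nat.card ↥(MulAction.stabilizer G a ⊓ MulAction.stabilizer G b) := by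
  exact H9.ZassB.card_le (H9.ZassA.ZG.of_zass hZ) hab heven

end Cfsg.Agent.S0741
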