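import Cfsg.Statements.S0743
import Cfsg.Agent.H9_MultTrans2

set_option autoImplicit false
open Cfsg

namespace Cfsg.Agent.S0743

/-- Gleason's Lemma: let `p` be a prime and `1 ≤ k < n`; if every `k`-subset of the `n` points is exactly the fixed-point set of some `p`-subgroup of `G`, then `G` is `k`-transitive. -/
theorem result {α : Type*} [Fintype α] [DecidableEq α] (G : Subgroup (Equiv.Perm α)) {p k : ℕ} (hp : p.Prime) (hk : 1 ≤ k) (hkn : k < Fintype.card α) (h : ∀ s : Finset α, s.card = k → ∃ P : Subgroup G, IsPGroup p P ∧ MulAction.fixedPoints P α = (s : Set α)) : MulAction.IsMultiplyPretransitive G α k := by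
  classical
  haveI : Fact p.Prime := ⟨hp⟩
  refine H9.MultTrans2.multTrans_of_fixing hk hkn ?_
  intro t ht x y hx hy
  -- the pointwise stabiliser of t
  let H : Subgroup G := fixingSubgroup G (t : Set α)
  by_contra hcon
  have hnot : y ∉ MulAction.orbit H x := by
    rintro ⟨h, hh⟩
    exact hcon ⟨h, fun z hz => (mem_fixingSubgroup_iff G).1 h.2 z (by simpa using hz), hh⟩
  -- for each z ∉ t a p-subgroup of H with fixed points t ∪ {z}
  have key : ∀ z : α, z ∉ t → ∃ P : Subgroup H, IsPGroup p P ∧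
      ∀ w : α, (∀ q ∈ P, (q : G) • w = w) ↔ (w ∈ t ∨ w = z) := by
    intro z hz
    obtain ⟨P, hP, hfix⟩ := h (insert z t) (by rw [Finset.card_insert_of_notMem hz, ht]; omega)
    have hPH : P ≤ H := by
      intro q hq
      rw [mem_fixingSubgroup_iff]
      intro w hw
      have : w ∈ MulAction.fixedPoints P α := by
        rw [hfix]; simp only [Finset.coe_insert, Set.mem_insert_iff]; right; exact hw
      exact this ⟨q, hq⟩
    refine ⟨P.subgroupOf H, ?_, ?_⟩
    · exact hP.comap_of_injective _ (Subgroup.subtype_injective _)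
    · intro w
      have : w ∈ MulAction.fixedPoints P α ↔ w ∈ ((insert z t : Finset α) : Set α) := by rw [hfix]
      simp only [Finset.coe_insert, Set.mem_insert_iff, Finset.mem_coe] at this
      rw [or_comm, ← this]
      constructor
      · intro hw q
        exact hw ⟨q.1, hPH q.2⟩ q.2
      · rintro hw ⟨q, hqH⟩ hq
        exact hw ⟨q, hq⟩
  obtain ⟨Px, hPx, hPx2⟩ := key x hx
  obtain ⟨Py, hPy, hPy2⟩ := key y hy
  have hOt : ∀ w ∈ MulAction.orbit H x, w ∉ t := by
    rintro _ ⟨h, rfl⟩ hw
    have h1 : (h⁻¹ : H) • (h • x) = h • x := (mem_fixingSubgroup_iff G).1 (h⁻¹).2 _ (by simpa using hw)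
    rw [inv_smul_smul] at h1
    have hw' : (h • x) ∈ t := hw
    rw [← h1] at hw'
    exact hx hw'
  have hc1 := hPx.card_modEq_card_fixedPoints (MulAction.orbit H x)
  have hc2 := hPy.card_modEq_card_fixedPoints (MulAction.orbit H x)
  have e1 : Nat.card (MulAction.fixedPoints Px (MulAction.orbit H x)) = 1 := by
    rw [Nat.card_eq_one_iff_unique]
    constructor
    · constructor
      rintro ⟨⟨a, ha⟩, ha'⟩ ⟨⟨b, hb⟩, hb'⟩
      have h1 : a = x := by
        rcases (hPx2 a).1 (fun q hq => congrArg Subtype.val (ha' ⟨q, hq⟩)) with h | h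
        · exact absurd h (hOt a ha)
        · exact h
      have h2 : b = x := by
        rcases (hPx2 b).1 (fun q hq => congrArg Subtype.val (hb' ⟨q, hq⟩)) with h | h
        · exact absurd h (hOt b hb)
        · exact h
      subst h1; subst h2; rfl
    · refine ⟨⟨⟨x, MulAction.mem_orbit_self x⟩, ?_⟩⟩
      rintro ⟨q, hq⟩
      apply Subtype.ext
      exact (hPx2 x).2 (Or.inr rfl) q hq
  have e2 : Nat.card (MulAction.fixedPoints Py (MulAction.orbit H x)) = 0 := by
    rw [Nat.card_eq_zero]
    left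
    constructor
    rintro ⟨⟨a, ha⟩, ha'⟩
    rcases (hPy2 a).1 (fun q hq => congrArg Subtype.val (ha' ⟨q, hq⟩)) with h | h
    · exact absurd h (hOt a ha)
    · subst h; exact hnot ha
  rw [e1] at hc1
  rw [e2] at hc2
  have h3 : 1 ≡ 0 [MOD p] := hc1.symm.trans hc2
  have := (Nat.modEq_zero_iff_dvd).1 h3
  exact hp.one_lt.ne' (Nat.dvd_one.1 this)

end Cfsg.Agent.S0743
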