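import Cfsg.Statements.S0744
import Cfsg.Agent.H9_MultTrans2

set_option autoImplicit false
open Cfsg

namespace Cfsg.Agent.S0744

/-- If for some `k > 1` the pointwise stabilisers of all `(k-1)`-subsets have the same order `> 1` and those of all `k`-subsets have the same order, then the group is `(k-1)`-transitive. -/
theorem result {α : Type*} [Fintype α] [DecidableEq α] (G : Subgroup (Equiv.Perm α)) {k : ℕ} (hk : 1 < k) (hkn : k ≤ Fintype.card α) (l m : ℕ) (hl : 1 < l) (hkm1 : ∀ s : Finset α, s.card = k - 1 → Nat.card (fixingSubgroup G (s : Set α)) = l) (hkm : ∀ s : Finset α, s.card = k → Nat.card (fixingSubgroup G (s : Set α)) = m) : MulAction.IsMultiplyPretransitive G α (k - 1) := by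
  classical
  refine H9.MultTrans2.multTrans_of_fixing (by omega) (by omega) ?_
  intro t ht x y hx hy
  let H : Subgroup G := fixingSubgroup G (t : Set α)
  have hH : ∀ (h : H) (z : α), z ∈ t → (h : G) • z = z := fun h z hz =>
    (mem_fixingSubgroup_iff G).1 h.2 z (by simpa using hz)
  by_contra hcon
  have hnot : y ∉ MulAction.orbit H x := by
    rintro ⟨h, hh⟩
    exact hcon ⟨h, fun z hz => hH h z hz, hh⟩
  have hOt : ∀ w ∈ MulAction.orbit H x, w ∉ t := by
    rintro _ ⟨h, rfl⟩ hw
    have h1 : (h⁻¹ : H) • (h • x) = h • x := hH h⁻¹ _ hw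
    rw [inv_smul_smul] at h1
    have hw' : (h • x) ∈ t := hw
    rw [← h1] at hw'
    exact hx hw'
  -- stabiliser of z in H
  have hstab : ∀ z : α, z ∉ t → Nat.card (MulAction.stabilizer H z) = l := by
    intro z hz
    rw [← hkm1 (insert z t) (by rw [Finset.card_insert_of_notMem hz, ht]; omega)]
    refine Nat.card_congr ⟨fun h => ⟨h.1.1, ?_⟩, fun g => ⟨⟨g.1, ?_⟩, ?_⟩, fun _ => rfl, fun _ => rfl⟩
    · rw [mem_fixingSubgroup_iff]
      intro w hw
      rw [Finset.coe_insert, Set.mem_insert_iff] at hw
      rcases hw with rfl | hw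
      · exact h.2
      · exact hH h.1 w hw
    · rw [mem_fixingSubgroup_iff]
      intro w hw
      exact (mem_fixingSubgroup_iff G).1 g.2 w (by rw [Finset.coe_insert]; exact Or.inr hw)
    · exact (mem_fixingSubgroup_iff G).1 g.2 z (by rw [Finset.coe_insert]; exact Or.inl rfl)
  have hstab2 : ∀ z w : α, z ∉ t → w ∉ t → z ≠ w →
      Nat.card (MulAction.stabilizer (MulAction.stabilizer H z) w) = m := by
    intro z w hz hw hzw
    have hw' : w ∉ insert z t := by simp [hw, Ne.symm hzw]
    rw [← hkm (insert w (insert z t)) (by rw [Finset.card_insert_of_notMem hw', Finset.card_insert_of_notMem hz, ht]; omega)]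
    refine Nat.card_congr ⟨fun h => ⟨h.1.1.1, ?_⟩, fun g => ⟨⟨⟨g.1, ?_⟩, ?_⟩, ?_⟩, fun _ => rfl, fun _ => rfl⟩
    · rw [mem_fixingSubgroup_iff]
      intro u hu
      rw [Finset.coe_insert, Finset.coe_insert, Set.mem_insert_iff, Set.mem_insert_iff] at hu
      rcases hu with rfl | rfl | hu
      · exact h.2
      · exact h.1.2
      · exact hH h.1.1 u hu
    · rw [mem_fixingSubgroup_iff]
      intro u hu
      exact (mem_fixingSubgroup_iff G).1 g.2 u (by rw [Finset.coe_insert, Finset.coe_insert]; exact Or.inr (Or.inr hu))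
    · exact (mem_fixingSubgroup_iff G).1 g.2 z (by rw [Finset.coe_insert, Finset.coe_insert]; exact Or.inr (Or.inl rfl))
    · exact (mem_fixingSubgroup_iff G).1 g.2 w (by rw [Finset.coe_insert, Finset.coe_insert]; exact Or.inl rfl)
  haveI : Fintype (MulAction.orbit H x) := Fintype.ofFinite _
  -- count for x
  have c1 := H9.MultTrans2.sum_card_stabilizer (MulAction.stabilizer H x) (MulAction.orbit H x)
  have c2 := H9.MultTrans2.sum_card_stabilizer (MulAction.stabilizer H y) (MulAction.orbit H x)
  rw [hstab x hx] at c1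
  rw [hstab y hy] at c2
  set x' : MulAction.orbit H x := ⟨x, MulAction.mem_orbit_self x⟩ with hx'
  have e1 : ∀ w : MulAction.orbit H x, w ≠ x' → Nat.card (MulAction.stabilizer (MulAction.stabilizer H x) w) = m := by
    intro w hw
    rw [← hstab2 x w hx (hOt _ w.2) (fun h => hw (Subtype.ext h.symm))]
    refine Nat.card_congr ⟨fun h => ⟨h.1, congrArg Subtype.val h.2⟩, fun g => ⟨g.1, Subtype.ext g.2⟩, fun _ => rfl, fun _ => rfl⟩
  have e1' : Nat.card (MulAction.stabilizer (MulAction.stabilizer H x) x') = l := by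
    rw [← hstab x hx]
    refine Nat.card_congr ⟨fun h => h.1, fun g => ⟨g, Subtype.ext g.2⟩, fun _ => rfl, fun _ => rfl⟩
  have e2 : ∀ w : MulAction.orbit H x, Nat.card (MulAction.stabilizer (MulAction.stabilizer H y) w) = m := by
    intro w
    rw [← hstab2 y w hy (hOt _ w.2) (fun h => hnot (h ▸ w.2))]
    refine Nat.card_congr ⟨fun h => ⟨h.1, congrArg Subtype.val h.2⟩, fun g => ⟨g.1, Subtype.ext g.2⟩, fun _ => rfl, fun _ => rfl⟩
  rw [Finset.sum_congr rfl (fun w _ => e2 w), Finset.sum_const, Finset.card_univ, smul_eq_mul] at c2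
  rw [← Finset.add_sum_erase _ _ (Finset.mem_univ x'), e1',
    Finset.sum_congr rfl (fun w hw => e1 w (Finset.ne_of_mem_erase hw)), Finset.sum_const,
    Finset.card_erase_of_mem (Finset.mem_univ _), Finset.card_univ, smul_eq_mul] at c1
  -- l ∣ m
  have hpos : 0 < Fintype.card (MulAction.orbit H x) := Fintype.card_pos_iff.2 ⟨x'⟩
  have d1 : l ∣ (Fintype.card (MulAction.orbit H x) - 1) * m := by
    have : l ∣ l + (Fintype.card (MulAction.orbit H x) - 1) * m := ⟨_, by rw [c1, mul_comm]⟩
    exact (Nat.dvd_add_right (dvd_refl l)).1 this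
  have d2 : l ∣ Fintype.card (MulAction.orbit H x) * m := ⟨_, by rw [c2, mul_comm]⟩
  have d3 : l ∣ m := by
    have h3 : Fintype.card (MulAction.orbit H x) * m = (Fintype.card (MulAction.orbit H x) - 1) * m + m := by
      obtain ⟨c, hc⟩ : ∃ c, Fintype.card (MulAction.orbit H x) = c + 1 := ⟨_, (Nat.succ_pred_eq_of_pos hpos).symm⟩
      rw [hc, Nat.add_sub_cancel]; ring
    rw [h3] at d2
    exact (Nat.dvd_add_right d1).1 d2
  -- for s a (k-1)-set, the stabiliser of s fixes everything
  have hxt : (insert x t).card = k - 1 := by rw [Finset.card_insert_of_notMem hx, ht]; omega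
  have hl1 : Nat.card (fixingSubgroup G ((insert x t : Finset α) : Set α)) ≤ 1 := by
    have : (fixingSubgroup G ((insert x t : Finset α) : Set α)) = ⊥ := by
      rw [eq_bot_iff]
      intro g hg
      rw [Subgroup.mem_bot]
      apply Subtype.ext
      ext w
      by_cases hw : w ∈ insert x t
      · exact (mem_fixingSubgroup_iff G).1 hg w hw
      · have hc1 := hkm1 _ hxt
        have hc2 := hkm (insert w (insert x t)) (by rw [Finset.card_insert_of_notMem hw, hxt]; omega)
        have hle : fixingSubgroup G ((insert w (insert x t) : Finset α) : Set α) ≤ fixingSubgroup G ((insert x t : Finset α) : Set α) := by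
          intro q hq
          rw [mem_fixingSubgroup_iff] at hq ⊢
          intro z hz
          exact hq z (by rw [Finset.coe_insert]; exact Or.inr hz)
        have heq := Subgroup.eq_of_le_of_card_ge hle (by
          rw [hc1, hc2]
          have : 0 < m := by rw [← hc2]; exact Nat.card_pos
          exact Nat.le_of_dvd this d3)
        rw [← heq] at hg
        exact (mem_fixingSubgroup_iff G).1 hg w (by rw [Finset.coe_insert]; exact Or.inl rfl)
    rw [this]; simp
  rw [hkm1 _ hxt] at hl1
  omega

end Cfsg.Agent.S0744
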