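import Cfsg.Statements.S0756
import Mathlib
import Cfsg.Agent.H5_QuadBasis

set_option autoImplicit false
open Cfsg

namespace Cfsg.Agent.S0756

/-- Classification of symmetric bilinear forms over finite fields of odd characteristic: if B is non-degenerate symmetric on V of dimension n + 1 and α is a fixed non-square of F, there is an orthogonal basis b_0, ..., b_n with B(b_i, b_i) = 1 for i < n and B(b_n, b_n) ∈ {1, α}. -/
theorem result {F V : Type*} [Field F] [Finite F] [AddCommGroup V] [Module F V] [FiniteDimensional F V] (h2 : (2 : F) ≠ 0) (B : LinearMap.BilinForm F V) (hS : B.IsSymm) (hB : B.Nondegenerate) {n : ℕ} (hn : Module.finrank F V = n + 1) (α : F) (hα : ¬ IsSquare α) : ∃ b : Module.Basis (Fin (n + 1)) F V, (∀ i j, i ≠ j → B (b i) (b j) = 0) ∧ (∀ i, i ≠ Fin.last n → B (b i) (b i) = 1) ∧ (B (b (Fin.last n)) (b (Fin.last n)) = 1 ∨ B (b (Fin.last n)) (b (Fin.last n)) = α) := by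
  have := Fintype.ofFinite F
  set Q : QuadraticForm F V := LinearMap.BilinMap.toQuadraticMap B with hQdef
  have hQ : ∀ v, Q v = B v v := fun v => rfl
  have hpol : ∀ v w, QuadraticMap.polar Q v w = 2 * B v w := by
    intro v w
    rw [QuadraticMap.polar, hQ, hQ, hQ]
    have : B w v = B v w := hS.eq w v
    simp only [map_add, LinearMap.add_apply, this]
    ring
  have hn : (Cfsg.Agent.H5.Frm.ofQuad Q).Nondeg := by
    intro x hx
    apply hB.1
    intro y
    have := hx y
    rw [Cfsg.Agent.H5.Quad.ofQuad_B, hpol] at this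
    exact (mul_eq_zero.mp this).resolve_left h2
  obtain ⟨b, h3, h4, h5⟩ := Cfsg.Agent.H5.Quad.exists_orth_basis h2 hα n _ hn ‹Module.finrank F V = n + 1›
  refine ⟨b, ?_, ?_, ?_⟩
  · intro i j hij
    have := h3 i j hij
    rw [Cfsg.Agent.H5.Quad.ofQuad_B, hpol] at this
    exact (mul_eq_zero.mp this).resolve_left h2
  · exact h4
  · exact h5

end Cfsg.Agent.S0756
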