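import Cfsg.Statements.S0757
import Mathlib

set_option autoImplicit false
open Cfsg

namespace Cfsg.Agent.S0757

theorem discr_wss {F : Type*} [Field F] [Invertible (2 : F)] (n : ℕ) (w : Fin n → F) :
    QuadraticForm.discr' (QuadraticMap.weightedSumSquares F w) = ∏ i, w i := by
  classical
  have h : QuadraticForm.toMatrix' (QuadraticMap.weightedSumSquares F w) = Matrix.diagonal w := by
    ext i j
    rw [QuadraticForm.toMatrix', LinearMap.toMatrix₂'_apply, QuadraticMap.associated_apply]
    simp only [QuadraticMap.weightedSumSquares_apply, smul_eq_mul, Pi.add_apply, Module.End.smul_def]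
    rw [← Finset.sum_sub_distrib, ← Finset.sum_sub_distrib]
    by_cases hij : i = j
    · subst hij
      rw [Matrix.diagonal_apply_eq, Finset.sum_eq_single i]
      · rw [Pi.single_eq_same]
        have h0 : w i * ((1 + 1) * (1 + 1)) - w i * (1 * 1) - w i * (1 * 1) = (2 : F) • w i := by
          rw [smul_eq_mul]; ring
        rw [h0, QuadraticMap.half_moduleEnd_apply_eq_half_smul, smul_smul, invOf_mul_self, one_smul]
      · intro k _ hk
        simp [hk]
      · simp
    · rw [Matrix.diagonal_apply_ne _ hij, Finset.sum_eq_zero]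
      · simp
      · intro k _
        by_cases h1 : k = i
        · subst h1
          simp [hij]
        · simp [h1]
  rw [QuadraticForm.discr', h, Matrix.det_diagonal]

/-- The two diagonal forms Σ x_i^2 and Σ_(i<n) x_i^2 + α x_n^2 on F^(n+1), with α a non-square and 2 ≠ 0 in F, are inequivalent quadratic forms (so over a finite field of odd order there are exactly two classes of non-singular symmetric bilinear forms in each dimension). -/
theorem result {F : Type*} [Field F] (h2 : (2 : F) ≠ 0) (n : ℕ) (α : F) (hα : ¬ IsSquare α) : ¬ (QuadraticMap.weightedSumSquares F (fun _ : Fin (n + 1) => (1 : F))).Equivalent (QuadraticMap.weightedSumSquares F (fun i : Fin (n + 1) => if i = Fin.last n then α else (1 : F))) := by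
  classical
  rintro ⟨e⟩
  have : Invertible (2 : F) := invertibleOfNonzero h2
  set Q₁ := QuadraticMap.weightedSumSquares F (fun _ : Fin (n + 1) => (1 : F)) with hQ1
  set Q₂ := QuadraticMap.weightedSumSquares F (fun i : Fin (n + 1) => if i = Fin.last n then α else (1 : F)) with hQ2
  have hcomp : QuadraticMap.comp Q₂ (e.toLinearEquiv : (Fin (n + 1) → F) →ₗ[F] (Fin (n + 1) → F)) = Q₁ := by
    ext v
    exact e.map_app v
  have h := QuadraticForm.discr'_comp (Q := Q₂) (e.toLinearEquiv : (Fin (n + 1) → F) →ₗ[F] (Fin (n + 1) → F))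
  have d1 : QuadraticForm.discr' Q₁ = 1 := by rw [hQ1, discr_wss, Finset.prod_const_one]
  have d2 : QuadraticForm.discr' Q₂ = α := by
    rw [hQ2, discr_wss, Finset.prod_ite_eq']
    simp
  rw [hcomp, d1, d2] at h
  apply hα
  refine ⟨(LinearMap.toMatrix' (e.toLinearEquiv : (Fin (n + 1) → F) →ₗ[F] (Fin (n + 1) → F))).det⁻¹, ?_⟩
  have hd : (LinearMap.toMatrix' (e.toLinearEquiv : (Fin (n + 1) → F) →ₗ[F] (Fin (n + 1) → F))).det ≠ 0 := by
    intro h0
    rw [h0, zero_mul, zero_mul] at h
    exact one_ne_zero h
  field_simp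
  rw [h]
  ring

end Cfsg.Agent.S0757
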