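import Cfsg.Statements.S0758
import Mathlib
import Cfsg.Agent.H5_Quad

set_option autoImplicit false
open Cfsg

namespace Cfsg.Agent.S0758

/-- For a finite field F of odd order q and a non-square α: the form x² + y² is isotropic iff q ≡ 1 mod 4, and the form x² + α y² is isotropic iff q ≡ 3 mod 4. -/
theorem result {F : Type*} [Field F] [Fintype F] (h2 : (2 : F) ≠ 0) (α : F) (hα : ¬ IsSquare α) : ((∃ x y : F, (x ≠ 0 ∨ y ≠ 0) ∧ x ^ 2 + y ^ 2 = 0) ↔ Fintype.card F % 4 = 1) ∧ ((∃ x y : F, (x ≠ 0 ∨ y ≠ 0) ∧ x ^ 2 + α * y ^ 2 = 0) ↔ Fintype.card F % 4 = 3) := by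
  have hiff := FiniteField.isSquare_neg_one_iff (F := F)
  have hodd : Fintype.card F % 2 = 1 := by
    rw [← Nat.odd_iff]
    by_contra hcon
    have hc : CharP F 2 := Cfsg.Agent.H5.Quad.charP_two_of_even hcon
    exact h2 CharTwo.two_eq_zero
  have hα0 : α ≠ 0 := by
    rintro rfl
    exact hα ⟨0, by simp⟩
  have key1 : (∃ x y : F, (x ≠ 0 ∨ y ≠ 0) ∧ x ^ 2 + y ^ 2 = 0) ↔ IsSquare (-1 : F) := by
    constructor
    · rintro ⟨x, y, hxy, h⟩
      have hy : y ≠ 0 := by
        rintro rfl
        simp at h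
        simp [h] at hxy
      exact ⟨x / y, by field_simp; linear_combination -h⟩
    · rintro ⟨i, hi⟩
      exact ⟨i, 1, Or.inr one_ne_zero, by linear_combination -hi⟩
  have key2 : (∃ x y : F, (x ≠ 0 ∨ y ≠ 0) ∧ x ^ 2 + α * y ^ 2 = 0) ↔ ¬ IsSquare (-1 : F) := by
    constructor
    · rintro ⟨x, y, hxy, h⟩ ⟨i, hi⟩
      have hy : y ≠ 0 := by
        rintro rfl
        simp at h
        simp [h] at hxy
      apply hα
      refine ⟨i * x / y, ?_⟩
      field_simp
      linear_combination h + x ^ 2 * hi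
    · intro hns
      -- -α is a square
      have h3 : IsSquare (-α) := by
        classical
        rw [← quadraticChar_one_iff_isSquare (neg_ne_zero.mpr hα0), ← neg_one_mul, map_mul,
          quadraticChar_neg_one_iff_not_isSquare.mpr hns,
          quadraticChar_neg_one_iff_not_isSquare.mpr hα]
        norm_num
      obtain ⟨i, hi⟩ := h3
      exact ⟨i, 1, Or.inr one_ne_zero, by linear_combination -hi⟩
  rw [key1, key2, hiff]
  omega

end Cfsg.Agent.S0758
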