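import Cfsg.Statements.S0759
import Mathlib
import Cfsg.Agent.H5_Tens

set_option autoImplicit false
open Cfsg

namespace Cfsg.Agent.S0759


/-- the standard dot product form -/
noncomputable def dotB (F : Type*) [Field F] (n : ℕ) : LinearMap.BilinForm F (Fin n → F) :=
  Matrix.toBilin' (1 : Matrix (Fin n) (Fin n) F)

theorem dotB_apply {F : Type*} [Field F] (n : ℕ) (x y : Fin n → F) : dotB F n x y = ∑ i, x i * y i := by
  rw [dotB, Matrix.toBilin'_apply']
  simp [dotProduct]

/-- Type of the orthonormal form: over a finite field of odd order q and for m ≥ 1, the quadratic form Σ_(i<2m) x_i² on F^(2m) admits an m-dimensional subspace on which it vanishes identically if and only if it is not the case that q ≡ 3 (mod 4) and m is odd. -/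
theorem result {F : Type*} [Field F] [Fintype F] (h2 : (2 : F) ≠ 0) (m : ℕ) (hm : 1 ≤ m) : (∃ W : Submodule F (Fin (2 * m) → F), Module.finrank F W = m ∧ ∀ w ∈ W, ∑ i, w i ^ 2 = 0) ↔ ¬ (Fintype.card F % 4 = 3 ∧ Odd m) := by
  classical
  have hsymm : (dotB F (2 * m)).IsSymm := ⟨fun x y => by
    show dotB F (2 * m) x y = dotB F (2 * m) y x
    rw [dotB_apply, dotB_apply]
    exact Finset.sum_congr rfl fun i _ => mul_comm _ _⟩
  have hmat : LinearMap.BilinForm.toMatrix (Pi.basisFun F (Fin (2 * m))) (dotB F (2 * m)) = 1 := by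
    ext i j
    rw [LinearMap.BilinForm.toMatrix_apply, dotB_apply]
    simp [Matrix.one_apply, Pi.single_apply, eq_comm]
  have hnd : (dotB F (2 * m)).Nondegenerate := by
    refine (LinearMap.BilinForm.nondegenerate_iff_det_ne_zero (Pi.basisFun F (Fin (2 * m)))).2 ?_
    rw [hmat, Matrix.det_one]; exact one_ne_zero
  have h3 := H5.Tens.ts_iff h2 (H5.Tens.nd_qf h2 hsymm hnd) hm (Module.finrank_fin_fun F) (Pi.basisFun F (Fin (2 * m)))
  have h4 : (∃ W : Submodule F (Fin (2 * m) → F), Module.finrank F W = m ∧ ∀ w ∈ W, ∑ i, w i ^ 2 = 0) ↔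
      ∃ W : Submodule F (Fin (2 * m) → F), Module.finrank F W = m ∧ ∀ w ∈ W, H5.Tens.qf (dotB F (2 * m)) w = 0 := by
    have : ∀ w : Fin (2 * m) → F, H5.Tens.qf (dotB F (2 * m)) w = ∑ i, w i ^ 2 := by
      intro w
      rw [H5.Tens.qf_apply, dotB_apply]
      exact Finset.sum_congr rfl fun i _ => (sq _).symm
    simp only [this]
  rw [h4, h3, H5.Tens.gram_qf _ hsymm, hmat, Matrix.det_smul, Matrix.det_one, mul_one, Fintype.card_fin, pow_mul']
  have h5 : (2 : F) ^ m ≠ 0 := pow_ne_zero _ h2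
  have h6 : IsSquare ((-1 : F) ^ m * (2 ^ m) ^ 2) ↔ IsSquare ((-1 : F) ^ m) := by
    constructor
    · rintro ⟨r, hr⟩
      refine ⟨r / 2 ^ m, ?_⟩
      field_simp
      linear_combination hr
    · rintro ⟨r, hr⟩
      exact ⟨r * 2 ^ m, by rw [hr]; ring⟩
  rw [h6]
  rcases Nat.even_or_odd m with hm' | hm'
  · rw [hm'.neg_one_pow]
    simp [Nat.not_odd_iff_even.2 hm']
  · rw [hm'.neg_one_pow, FiniteField.isSquare_neg_one_iff]
    simp [hm']

end Cfsg.Agent.S0759
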