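import Cfsg.Statements.S0760
import Cfsg.Agent.H16_Quad1

set_option autoImplicit false
open Cfsg

namespace Cfsg.Agent.S0760

open Cfsg.Agent.H16.Quad

theorem aux {F V : Type*} [Field F] [AddCommGroup V] [Module F V] [FiniteDimensional F V] (Q : QuadraticForm F V) (hQ : (QuadraticMap.polarBilin Q).Nondegenerate) (W₁ W₂ : Submodule F V) (h₁ : ∀ w ∈ W₁, Q w = 0) (h₂ : ∀ w ∈ W₂, Q w = 0) (hmax₁ : ∀ W : Submodule F V, W₁ ≤ W → (∀ w ∈ W, Q w = 0) → W = W₁) (hle : Module.finrank F W₁ ≤ Module.finrank F W₂) :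
    Module.finrank F W₁ = Module.finrank F W₂ := by
  obtain ⟨σ, hσ⟩ := finrank_le_iff_exists_linearMap.1 hle
  obtain ⟨g, hg, hg2⟩ := witt_ext hQ W₁ (W₂.subtype.comp σ) (W₂.injective_subtype.comp hσ) (fun u => by
    rw [h₁ u u.2]; exact h₂ _ (σ u).2)
  have h3 := hmax₁ (W₂.comap g.toLinearMap) (by
    intro x hx
    have := hg2 ⟨x, hx⟩
    show g x ∈ W₂
    rw [this]; exact (σ ⟨x, hx⟩).2) (by
    intro w hw
    rw [← mem_OG.1 hg w]
    exact h₂ _ hw)
  rw [← h3]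
  exact LinearEquiv.finrank_eq (LinearEquiv.ofSubmodule' g W₂)

theorem result {F V : Type*} [Field F] [Finite F] [AddCommGroup V] [Module F V] [FiniteDimensional F V] (Q : QuadraticForm F V) (hQ : (QuadraticMap.polarBilin Q).Nondegenerate) (W₁ W₂ : Submodule F V) (h₁ : ∀ w ∈ W₁, Q w = 0) (h₂ : ∀ w ∈ W₂, Q w = 0) (hmax₁ : ∀ W : Submodule F V, W₁ ≤ W → (∀ w ∈ W, Q w = 0) → W = W₁) (hmax₂ : ∀ W : Submodule F V, W₂ ≤ W → (∀ w ∈ W, Q w = 0) → W = W₂) : Module.finrank F W₁ = Module.finrank F W₂ ∧ 2 * Module.finrank F W₁ ≤ Module.finrank F V := by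
  constructor
  · rcases le_total (Module.finrank F W₁) (Module.finrank F W₂) with h | h
    · exact aux Q hQ W₁ W₂ h₁ h₂ hmax₁ h
    · exact (aux Q hQ W₂ W₁ h₂ h₁ hmax₂ h).symm
  · have h3 : W₁ ≤ LinearMap.BilinForm.orthogonal (QuadraticMap.polarBilin Q) W₁ := by
      intro w hw
      rw [mem_orthogonal]
      intro n hn
      have := h₁ _ (W₁.add_mem hn hw)
      rw [H16.Quad.map_add, h₁ n hn, h₁ w hw] at this
      linear_combination this
    have h4 := Submodule.finrank_mono h3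
    rw [LinearMap.BilinForm.finrank_orthogonal hQ] at h4
    have := Submodule.finrank_le W₁
    omega

end Cfsg.Agent.S0760
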