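import Cfsg.Statements.S0761
import Mathlib

set_option autoImplicit false
open Cfsg

namespace Cfsg.Agent.S0761

/-- Hyperbolic partners: let B be a non-degenerate bilinear form on a finite-dimensional space, either alternating, or symmetric with 2 ≠ 0. If Z is a subspace on which B vanishes, x ∉ Z is isotropic and orthogonal to Z, then there is an isotropic y with B x y = 1 which is orthogonal to Z. -/
theorem result {F V : Type*} [Field F] [AddCommGroup V] [Module F V] [FiniteDimensional F V] (B : LinearMap.BilinForm F V) (hB : B.Nondegenerate) (hform : B.IsAlt ∨ (B.IsSymm ∧ (2 : F) ≠ 0)) (x : V) (Z : Submodule F V) (hxZ : x ∉ Z) (hx : B x x = 0) (hxz : ∀ z ∈ Z, B x z = 0) (hZ : ∀ z ∈ Z, ∀ z' ∈ Z, B z z' = 0) : ∃ y : V, B y y = 0 ∧ B x y = 1 ∧ ∀ z ∈ Z, B z y = 0 := by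
  classical
  have hrefl : B.IsRefl := by
    rcases hform with h | ⟨h, _⟩
    · exact h.isRefl
    · exact h.isRefl
  -- functional vanishing on Z, 1 on x
  obtain ⟨φ, hφ1, hφ2⟩ : ∃ φ : V →ₗ[F] F, φ x = 1 ∧ ∀ z ∈ Z, φ z = 0 := by
    obtain ⟨f, hfx, hfZ⟩ := Submodule.exists_le_ker_of_notMem (p := Z) (v := x) hxZ
    refine ⟨(f x)⁻¹ • f, ?_, ?_⟩
    · rw [LinearMap.smul_apply, smul_eq_mul, inv_mul_cancel₀ hfx]
    · intro z hz
      rw [LinearMap.smul_apply, show f z = 0 from hfZ hz, smul_zero]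
  -- representation
  obtain ⟨y0, hy0⟩ : ∃ y0, ∀ v, B v y0 = φ v := by
    have h1 := (LinearMap.BilinForm.toDual B hB).surjective φ
    obtain ⟨w, hw⟩ := h1
    rcases hform with h | ⟨h, _⟩
    · refine ⟨-w, fun v => ?_⟩
      rw [map_neg, ← hw]
      change -B v w = B w v
      exact LinearMap.IsAlt.neg h v w
    · refine ⟨w, fun v => ?_⟩
      rw [← hw]
      exact h.eq v w
  rcases hform with h | ⟨h, h2⟩
  · exact ⟨y0, h y0, by rw [hy0, hφ1], fun z hz => by rw [hy0, hφ2 z hz]⟩
  · refine ⟨y0 - (B y0 y0 / 2) • x, ?_, ?_, ?_⟩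
    · have e1 : B y0 x = 1 := by
        have := h.eq x y0
        rw [← this]
        change (RingHom.id F) (B x y0) = 1
        rw [RingHom.id_apply, hy0, hφ1]
      have e2 : B x y0 = 1 := by rw [hy0, hφ1]
      simp only [map_sub, map_smul, LinearMap.sub_apply, LinearMap.smul_apply, smul_eq_mul, e1, e2, hx]
      field_simp
      ring
    · rw [map_sub, map_smul, hy0, hφ1, hx, smul_zero, sub_zero]
    · intro z hz
      have : B z x = 0 := hrefl x z (hxz z hz)
      rw [map_sub, map_smul, hy0, hφ2 z hz, this, smul_zero, sub_zero]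

end Cfsg.Agent.S0761
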