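import Cfsg.Statements.S0763
import Mathlib
import Cfsg.Agent.H5_Quad

set_option autoImplicit false
open Cfsg

namespace Cfsg.Agent.S0763

/-- Binary quadratic forms in characteristic two over a finite field: if Q is a quadratic form on a 2-dimensional space whose polar form is non-degenerate, then either there are vectors v, w with Q v = Q w = 0 and polar value 1 (Q is xy in these coordinates), or there are v, w and μ with Q v = 1, Q w = μ, polar value 1 and x² + x + μ without roots in F (Q is x² + xy + μy²). -/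
theorem result {F V : Type*} [Field F] [Finite F] [CharP F 2] [AddCommGroup V] [Module F V] (Q : QuadraticForm F V) (h2 : Module.finrank F V = 2) (hQ : (QuadraticMap.polarBilin Q).Nondegenerate) : (∃ v w : V, LinearIndependent F ![v, w] ∧ Q v = 0 ∧ Q w = 0 ∧ QuadraticMap.polar Q v w = 1) ∨ (∃ (v w : V) (μ : F), LinearIndependent F ![v, w] ∧ (∀ x : F, x ^ 2 + x + μ ≠ 0) ∧ Q v = 1 ∧ Q w = μ ∧ QuadraticMap.polar Q v w = 1) := by
  classical
  have := Fintype.ofFinite F
  have hfd : FiniteDimensional F V := FiniteDimensional.of_finrank_pos (by omega)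
  have hnt : Nontrivial V := Module.nontrivial_of_finrank_pos (R := F) (by omega)
  have hnd := Cfsg.Agent.H5.Frm.nondeg_ofQuad hQ
  have h20 : (2 : F) = 0 := CharTwo.two_eq_zero
  have hself : ∀ v, QuadraticMap.polar Q v v = 0 := fun v => by
    rw [QuadraticMap.polar_self, nsmul_eq_mul, Nat.cast_ofNat, h20, zero_mul]
  have hsq : ∀ x : F, ∃ c, c * c = x := fun x => by
    obtain ⟨c, hc⟩ := FiniteField.isSquare_of_char_two (ringChar.eq_iff.mpr ‹CharP F 2›) x
    exact ⟨c, hc.symm⟩
  have hli : ∀ v w : V, QuadraticMap.polar Q v w = 1 → LinearIndependent F ![v, w] := by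
    intro v w hvw
    rw [LinearIndependent.pair_iff]
    intro a b hab
    have e1 : QuadraticMap.polar Q v (a • v + b • w) = 0 := by
      rw [hab, QuadraticMap.polar_zero_right]
    have e2 : QuadraticMap.polar Q w (a • v + b • w) = 0 := by
      rw [hab, QuadraticMap.polar_zero_right]
    rw [QuadraticMap.polar_add_right, QuadraticMap.polar_smul_right, QuadraticMap.polar_smul_right,
      hself, hvw, smul_zero, zero_add, smul_eq_mul, mul_one] at e1
    rw [QuadraticMap.polar_add_right, QuadraticMap.polar_smul_right, QuadraticMap.polar_smul_right,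
      hself, QuadraticMap.polar_comm, hvw, smul_zero, add_zero, smul_eq_mul, mul_one] at e2
    exact ⟨e2, e1⟩
  by_cases hs : ∃ v : V, v ≠ 0 ∧ Q v = 0
  · left
    obtain ⟨v, hv, hQv⟩ := hs
    obtain ⟨f, hp⟩ := Cfsg.Agent.H5.Frm.exists_partner hnd hv hQv
    exact ⟨v, f, hli v f hp.Buf, hp.Qu, hp.Qf, hp.Buf⟩
  · right
    push Not at hs
    obtain ⟨v0, hv0⟩ := exists_ne (0 : V)
    have hQ0 := hs v0 hv0
    obtain ⟨c, hc⟩ := hsq (Q v0)⁻¹
    have hQv : Q (c • v0) = 1 := by
      rw [QuadraticMap.map_smul, smul_eq_mul, hc, inv_mul_cancel₀ hQ0]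
    set v := c • v0
    have hv : v ≠ 0 := by
      intro h
      rw [h, QuadraticMap.map_zero] at hQv
      exact zero_ne_one hQv
    obtain ⟨w0, hw0⟩ : ∃ w, QuadraticMap.polar Q v w ≠ 0 := by
      by_contra hcon
      push Not at hcon
      exact hv (hnd v hcon)
    set w := (QuadraticMap.polar Q v w0)⁻¹ • w0
    have hvw : QuadraticMap.polar Q v w = 1 := by
      rw [QuadraticMap.polar_smul_right, smul_eq_mul, inv_mul_cancel₀ hw0]
    refine ⟨v, w, Q w, hli v w hvw, ?_, hQv, rfl, hvw⟩
    intro x
    have hne : x • v + w ≠ 0 := by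
      intro h
      have h1 := (LinearIndependent.pair_iff.mp (hli v w hvw)) x 1 (by rw [one_smul]; exact h)
      exact one_ne_zero h1.2
    have h2' := hs _ hne
    rw [QuadraticMap.map_add Q, QuadraticMap.map_smul, QuadraticMap.polar_smul_left, hvw, hQv] at h2'
    intro h3
    apply h2'
    rw [← h3]
    simp only [smul_eq_mul]
    ring

end Cfsg.Agent.S0763
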