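import Cfsg.Statements.S0767
import Mathlib
import Cfsg.Agent.H5_Symp

set_option autoImplicit false
open Cfsg

namespace Cfsg.Agent.S0767

/-- The root group of a point: T_v(c) T_v(d) = T_v(c + d), and for A in the symplectic group with A v = a v, the conjugate A T_v(c) A⁻¹ is again some T_v(d). -/
theorem result {F : Type*} [Field F] (m : ℕ) (v : Fin m ⊕ Fin m → F) : (∀ c d : F, Cfsg.sympTransvection m v c * Cfsg.sympTransvection m v d = Cfsg.sympTransvection m v (c + d)) ∧ ∀ (A : Matrix (Fin m ⊕ Fin m) (Fin m ⊕ Fin m) F) (a : F), A ∈ Matrix.symplecticGroup (Fin m) F → A.mulVec v = a • v → ∀ c : F, ∃ d : F, A * Cfsg.sympTransvection m v c * A⁻¹ = Cfsg.sympTransvection m v d := by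
  constructor
  · intro c d
    exact congrArg Subtype.val (H5.Symp.T_mul_T v c d)
  · intro A a hA hAv c
    have h := H5.Symp.conj_T (⟨A, hA⟩ : Matrix.symplecticGroup (Fin m) F) v c
    simp only at h
    rw [hAv, H5.Symp.T_smul] at h
    refine ⟨a ^ 2 * c, ?_⟩
    have h2 := congrArg Subtype.val h
    rw [Submonoid.coe_mul, Submonoid.coe_mul, SymplecticGroup.coe_inv'] at h2
    exact h2

end Cfsg.Agent.S0767
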