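import Cfsg.Statements.S0769
import Mathlib

set_option autoImplicit false
open Cfsg

namespace Cfsg.Agent.S0769

open Matrix

theorem main {F : Type*} [Field F] [Fintype F] {q : ℕ} (hF : Fintype.card F = q) (n : ℕ) : Nat.card {g : GL (Fin n) F // ∀ i j : Fin n, i < j → (g : Matrix (Fin n) (Fin n) F) i j = 0} = q ^ (n * (n - 1) / 2) * (q - 1) ^ n := by
  classical
  let mat : ((i : Fin n) → Fin i → F) × (Fin n → Fˣ) → Matrix (Fin n) (Fin n) F :=
    fun p i j => if h : j < i then p.1 i ⟨j, h⟩ else if j = i then (p.2 i : F) else 0
  have hlow : ∀ p, (mat p).BlockTriangular OrderDual.toDual := by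
    intro p i j hij
    have hij' : i < j := hij
    simp only [mat]
    rw [dif_neg (not_lt.mpr hij'.le), if_neg hij'.ne']
  have hdet : ∀ p, (mat p).det ≠ 0 := by
    intro p
    rw [Matrix.det_of_lowerTriangular _ (hlow p), Finset.prod_ne_zero_iff]
    intro i _
    simp [mat]
  have e : {g : GL (Fin n) F // ∀ i j : Fin n, i < j → (g : Matrix (Fin n) (Fin n) F) i j = 0} ≃
      ((i : Fin n) → Fin i → F) × (Fin n → Fˣ) :=
    { toFun := fun g => (fun i j => (g.1 : Matrix (Fin n) (Fin n) F) i ⟨j, by omega⟩,
        fun i => Units.mk0 ((g.1 : Matrix (Fin n) (Fin n) F) i i) (by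
          have h1 : (g.1 : Matrix (Fin n) (Fin n) F).BlockTriangular OrderDual.toDual :=
            fun i j hij => g.2 i j hij
          have h2 : (g.1 : Matrix (Fin n) (Fin n) F).det ≠ 0 := by
            have := g.1.det.ne_zero
            rwa [Matrix.GeneralLinearGroup.val_det_apply] at this
          rw [Matrix.det_of_lowerTriangular _ h1, Finset.prod_ne_zero_iff] at h2
          exact h2 i (Finset.mem_univ i)))
      invFun := fun p => ⟨Matrix.GeneralLinearGroup.mkOfDetNeZero _ (hdet p), fun i j hij =>
        hlow p hij⟩
      left_inv := fun g => by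
        apply Subtype.ext
        apply Units.ext
        ext i j
        change mat _ i j = _
        simp only [mat]
        by_cases h : j < i
        · rw [dif_pos h]
        · rw [dif_neg h]
          by_cases h2 : j = i
          · subst h2; rw [if_pos rfl]; rfl
          · rw [if_neg h2, g.2 i j (lt_of_le_of_ne (not_lt.mp h) (Ne.symm h2))]
      right_inv := fun p => by
        refine Prod.ext ?_ ?_
        · funext i j
          change mat p i ⟨j, by omega⟩ = p.1 i j
          simp only [mat]
          rw [dif_pos (show (⟨(j : ℕ), _⟩ : Fin n) < i from j.2)]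
        · funext i
          apply Units.ext
          change mat p i i = p.2 i
          simp [mat] }
  rw [Nat.card_congr e, Nat.card_prod, Nat.card_eq_fintype_card, Fintype.card_pi,
    Nat.card_eq_fintype_card, Fintype.card_fun, Fintype.card_units, hF, Fintype.card_fin]
  congr 1
  have h1 : ∀ i : Fin n, Fintype.card (Fin i → F) = q ^ (i : ℕ) := by
    intro i
    rw [Fintype.card_fun, hF, Fintype.card_fin]
  rw [Finset.prod_congr rfl (fun i _ => h1 i), Finset.prod_pow_eq_pow_sum]
  congr 1
  rw [Fin.sum_univ_eq_sum_range (fun i => i) n, Finset.sum_range_id]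

/-- Order of the Borel subgroup of GL_n(q): the invertible lower-triangular n × n matrices over a field with q elements number q^(n(n-1)/2) (q-1)^n (unitriangular part times the diagonal torus). -/
theorem result {F : Type*} [Field F] [Fintype F] {q : ℕ} (hF : Fintype.card F = q) (n : ℕ) : Nat.card {g : Matrix.GeneralLinearGroup (Fin n) F // ∀ i j : Fin n, i < j → (g : Matrix (Fin n) (Fin n) F) i j = 0} = q ^ (n * (n - 1) / 2) * (q - 1) ^ n := by
  exact main hF n

end Cfsg.Agent.S0769
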