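import Cfsg.Statements.S0770
import Mathlib

set_option autoImplicit false
open Cfsg

namespace Cfsg.Agent.S0770

open Matrix

theorem mem_T {F : Type*} [Field F] (n : ℕ) (t : GL (Fin n) F) :
    t ∈ (Units.map (Matrix.diagonalRingHom (Fin n) F).toMonoidHom).range ↔
      ∃ d : Fin n → F, (t : Matrix (Fin n) (Fin n) F) = Matrix.diagonal d := by
  classical
  constructor
  · rintro ⟨d, rfl⟩
    exact ⟨d.1, rfl⟩
  · rintro ⟨d, hd⟩
    have hdet : (t : Matrix (Fin n) (Fin n) F).det ≠ 0 := by
      have := t.det.ne_zero
      rwa [Matrix.GeneralLinearGroup.val_det_apply] at this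
    rw [hd, Matrix.det_diagonal, Finset.prod_ne_zero_iff] at hdet
    refine ⟨⟨d, fun i => (d i)⁻¹, ?_, ?_⟩, ?_⟩
    · funext i
      exact mul_inv_cancel₀ (hdet i (Finset.mem_univ i))
    · funext i
      exact inv_mul_cancel₀ (hdet i (Finset.mem_univ i))
    · apply Units.ext
      exact hd.symm

/-- For a field with at least 3 elements, an invertible matrix normalises the subgroup of invertible diagonal matrices of GL_n if and only if it is monomial (exactly one non-zero entry in each row). -/
theorem result {F : Type*} [Field F] (hF : ∃ a : F, a ≠ 0 ∧ a ≠ 1) (n : ℕ) (g : Matrix.GeneralLinearGroup (Fin n) F) : g ∈ Subgroup.normalizer ((Units.map (Matrix.diagonalRingHom (Fin n) F).toMonoidHom).range : Subgroup (Matrix.GeneralLinearGroup (Fin n) F)) ↔ ∀ i : Fin n, ∃! j : Fin n, (g : Matrix (Fin n) (Fin n) F) i j ≠ 0 := by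
  classical
  obtain ⟨a, ha0, ha1⟩ := hF
  have hrow : ∀ i, ∃ j, (g : Matrix (Fin n) (Fin n) F) i j ≠ 0 := by
    intro i
    by_contra hcon
    push Not at hcon
    have hdet : (g : Matrix (Fin n) (Fin n) F).det ≠ 0 := by
      have := g.det.ne_zero
      rwa [Matrix.GeneralLinearGroup.val_det_apply] at this
    exact hdet (Matrix.det_eq_zero_of_row_eq_zero i hcon)
  rw [Subgroup.mem_normalizer_iff]
  constructor
  · intro h i
    obtain ⟨k, hk⟩ := hrow i
    refine ⟨k, hk, ?_⟩
    intro l hl
    by_contra hlk
    -- the diagonal element with a at k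
    let d : Fin n → F := fun j => if j = k then a else 1
    have hd : ∀ j, d j ≠ 0 := by
      intro j
      simp only [d]
      split_ifs
      · exact ha0
      · exact one_ne_zero
    have hdd : (Matrix.diagonal d).det ≠ 0 := by
      rw [Matrix.det_diagonal, Finset.prod_ne_zero_iff]
      exact fun j _ => hd j
    obtain ⟨D, hD⟩ := (mem_T n _).mp ((h (Matrix.GeneralLinearGroup.mkOfDetNeZero _ hdd)).mp
      ((mem_T n _).mpr ⟨d, rfl⟩))
    have h1 : (g : Matrix (Fin n) (Fin n) F) * Matrix.diagonal d = Matrix.diagonal D * (g : Matrix (Fin n) (Fin n) F) := by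
      rw [← hD]
      change (g : Matrix (Fin n) (Fin n) F) * Matrix.diagonal d =
        (g * (Matrix.GeneralLinearGroup.mkOfDetNeZero _ hdd) * g⁻¹ * g : GL (Fin n) F).1
      rw [inv_mul_cancel_right]
      rfl
    have h2 := congrFun (congrFun h1 i) k
    have h3 := congrFun (congrFun h1 i) l
    rw [Matrix.mul_diagonal, Matrix.diagonal_mul, mul_comm] at h2 h3
    have h4 := mul_right_cancel₀ hk h2
    have h5 := mul_right_cancel₀ hl h3
    apply ha1
    have h6 : d k = a := by simp [d]
    have h7 : d l = 1 := by simp [d, hlk]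
    rw [← h6, h4, ← h5, h7]
  · intro h
    choose π hπ hπu using h
    have hz : ∀ i j, j ≠ π i → (g : Matrix (Fin n) (Fin n) F) i j = 0 := by
      intro i j hj
      by_contra hcon
      exact hj (hπu i j hcon)
    have hπinj : Function.Injective π := by
      intro i i' hii
      by_contra hne
      have hdet : (g : Matrix (Fin n) (Fin n) F).det ≠ 0 := by
        have := g.det.ne_zero
        rwa [Matrix.GeneralLinearGroup.val_det_apply] at this
      have hinj := Matrix.vecMul_injective_iff_isUnit.mpr
        ((Matrix.isUnit_iff_isUnit_det _).mpr (isUnit_iff_ne_zero.mpr hdet))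
      let c := (g : Matrix (Fin n) (Fin n) F) i (π i)
      let c' := (g : Matrix (Fin n) (Fin n) F) i' (π i)
      have h1 : (Pi.single i c' - Pi.single i' c : Fin n → F) ᵥ* (g : Matrix (Fin n) (Fin n) F) = 0 := by
        rw [Matrix.sub_vecMul, Matrix.single_vecMul, Matrix.single_vecMul]
        ext j
        simp only [Pi.sub_apply, Pi.smul_apply, Matrix.row_apply, Pi.zero_apply, smul_eq_mul]
        by_cases hj : j = π i
        · subst hj; simp only [c, c']; ring
        · rw [hz i j hj, hz i' j (by rw [← hii]; exact hj)]; simp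
      have h2 := hinj (h1.trans (Matrix.zero_vecMul _).symm)
      have h3 := congrFun h2 i
      rw [Pi.sub_apply, Pi.single_eq_same, Pi.single_eq_of_ne hne, sub_zero, Pi.zero_apply] at h3
      exact hπ i' (by rw [← hii]; exact h3)
    have hπbij : Function.Bijective π := Finite.injective_iff_bijective.mp hπinj
    let e := Equiv.ofBijective π hπbij
    intro t
    rw [mem_T, mem_T]
    constructor
    · rintro ⟨d, hd⟩
      refine ⟨fun i => d (π i), ?_⟩
      have h1 : (g : Matrix (Fin n) (Fin n) F) * Matrix.diagonal d =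
          Matrix.diagonal (fun i => d (π i)) * (g : Matrix (Fin n) (Fin n) F) := by
        ext i j
        rw [Matrix.mul_diagonal, Matrix.diagonal_mul]
        by_cases hj : j = π i
        · subst hj; rw [mul_comm]
        · rw [hz i j hj, zero_mul, mul_zero]
      rw [← hd] at h1
      have h2 : (g : Matrix (Fin n) (Fin n) F) * ((g⁻¹ : GL (Fin n) F) : Matrix (Fin n) (Fin n) F) = 1 := by
        rw [← Units.val_mul, mul_inv_cancel, Units.val_one]
      rw [Units.val_mul, Units.val_mul, h1, Matrix.mul_assoc, h2, Matrix.mul_one]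
    · rintro ⟨D, hD⟩
      refine ⟨fun j => D (e.symm j), ?_⟩
      have h1 : (g : Matrix (Fin n) (Fin n) F) * Matrix.diagonal (fun j => D (e.symm j)) =
          Matrix.diagonal D * (g : Matrix (Fin n) (Fin n) F) := by
        ext i j
        rw [Matrix.mul_diagonal, Matrix.diagonal_mul]
        by_cases hj : j = π i
        · have : e.symm j = i := by rw [hj]; exact e.symm_apply_apply i
          rw [this, mul_comm]
        · rw [hz i j hj, zero_mul, mul_zero]
      have h2 : (g : Matrix (Fin n) (Fin n) F) * (t : Matrix (Fin n) (Fin n) F) =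
          Matrix.diagonal D * (g : Matrix (Fin n) (Fin n) F) := by
        rw [← hD, ← Units.val_mul, ← Units.val_mul, inv_mul_cancel_right]
      exact g.isUnit.mul_left_cancel (h2.trans h1.symm)

end Cfsg.Agent.S0770
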