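import Cfsg.Statements.S0771
import Mathlib
import Cfsg.Agent.H5_GLpar
import Cfsg.Agent.H5_Concrete
import Cfsg.Agent.H5_FrmCnt

set_option autoImplicit false
open Cfsg

namespace Cfsg.Agent.S0771

open Matrix Cfsg.Agent.H5 Cfsg.Agent.H5.GLpar

theorem exists_tuple {F V : Type*} [Field F] [AddCommGroup V] [Module F V] [FiniteDimensional F V]
    {k : ℕ} (w y : Fin k → V) (hw : LinearIndependent F w) (hy : LinearIndependent F y) :
    ∃ g : V ≃ₗ[F] V, ∀ i, g (w i) = y i := by
  classical
  let W := Submodule.span F (Set.range w)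
  let Y := Submodule.span F (Set.range y)
  let φ : W ≃ₗ[F] Y := (Module.Basis.span hw).equiv (Module.Basis.span hy) (Equiv.refl _)
  obtain ⟨C, hC⟩ := Submodule.exists_isCompl W
  obtain ⟨D, hD⟩ := Submodule.exists_isCompl Y
  have h1 : Module.finrank F W = k := by
    rw [finrank_span_eq_card hw, Fintype.card_fin]
  have h2 : Module.finrank F Y = k := by
    rw [finrank_span_eq_card hy, Fintype.card_fin]
  have h3 := Submodule.finrank_add_eq_of_isCompl hC
  have h4 := Submodule.finrank_add_eq_of_isCompl hD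
  let ψ : C ≃ₗ[F] D := LinearEquiv.ofFinrankEq C D (by omega)
  refine ⟨((Submodule.prodEquivOfIsCompl W C hC).symm.trans (φ.prodCongr ψ)).trans
    (Submodule.prodEquivOfIsCompl Y D hD), fun i => ?_⟩
  have h5 : (Submodule.prodEquivOfIsCompl W C hC).symm (w i) =
      ((⟨w i, Submodule.subset_span ⟨i, rfl⟩⟩ : W), (0 : C)) := by
    rw [LinearEquiv.symm_apply_eq]
    simp
  have h6 : φ ⟨w i, Submodule.subset_span ⟨i, rfl⟩⟩ = ⟨y i, Submodule.subset_span ⟨i, rfl⟩⟩ := by
    have e1 : (Module.Basis.span hw) i = ⟨w i, Submodule.subset_span ⟨i, rfl⟩⟩ :=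
      Module.Basis.span_apply hw i
    have e2 : (Module.Basis.span hy) i = ⟨y i, Submodule.subset_span ⟨i, rfl⟩⟩ :=
      Module.Basis.span_apply hy i
    rw [← e1, ← e2]
    exact Module.Basis.equiv_apply _ _ _ _
  simp only [LinearEquiv.trans_apply, h5, LinearEquiv.prodCongr_apply, h6, map_zero]
  simp

theorem card_stab {F V : Type*} [Field F] [Fintype F] [AddCommGroup V] [Module F V]
    [FiniteDimensional F V] {q : ℕ} (hF : Fintype.card F = q) (n k : ℕ)
    (hk : k ≤ n) (hV : Module.finrank F V = n) (W : Submodule F V) (hW : Module.finrank F W = k)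
    (hcard : Nat.card (V ≃ₗ[F] V) = ∏ i : Fin n, (q ^ n - q ^ (i : ℕ))) :
    Nat.card (Frm.stab W) =
      q ^ (k * (n - k)) * (∏ i : Fin k, (q ^ k - q ^ (i : ℕ))) * ∏ i : Fin (n - k), (q ^ (n - k) - q ^ (i : ℕ)) := by
  classical
  have hq : 1 < q := by rw [← hF]; exact Fintype.one_lt_card
  have hfinV : Finite V := Module.finite_of_finite F
  let b := Module.finBasisOfFinrankEq F W hW
  let w : Fin k → V := fun i => (b i : V)
  have hw : LinearIndependent F w := b.linearIndependent.map' W.subtype (by simp)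
  have hsm : ∀ (g : V ≃ₗ[F] V) (v : Fin k → V), g • v = fun i => g (v i) := fun _ _ => rfl
  have hli : ∀ (g : V ≃ₗ[F] V) (y : Fin k → V), LinearIndependent F y →
      LinearIndependent F (fun i => g (y i)) := by
    intro g y hy
    exact hy.map' g.toLinearMap (LinearMap.ker_eq_bot.mpr g.injective)
  have hG := card_eq_card_orbit_mul (G := V ≃ₗ[F] V) w {v | LinearIndependent F v} (by
    intro y
    constructor
    · intro hy
      obtain ⟨g, hg⟩ := exists_tuple w y hw hy
      refine ⟨g, ?_⟩
      rw [hsm]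
      exact funext hg
    · rintro ⟨g, rfl⟩
      rw [hsm]
      exact hli g w hw)
  have hsmP : ∀ (g : Frm.stab W) (v : Fin k → V), g • v = fun i => g.1 (v i) := fun _ _ => rfl
  have hspan : ∀ y : Fin k → V, LinearIndependent F y → (∀ i, y i ∈ W) →
      Submodule.span F (Set.range y) = W := by
    intro y hy hyW
    apply Submodule.eq_of_le_of_finrank_eq
    · rw [Submodule.span_le]
      rintro _ ⟨i, rfl⟩
      exact hyW i
    · rw [finrank_span_eq_card hy, Fintype.card_fin, hW]
  have hstabmem : ∀ g : V ≃ₗ[F] V, (∀ i, g (w i) ∈ W) → g ∈ Frm.stab W := by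
    intro g hg
    have hle : W.map (g : V →ₗ[F] V) ≤ W := by
      rintro _ ⟨x, hx, rfl⟩
      change x ∈ W at hx
      change g x ∈ W
      rw [← hspan w hw (fun i => (b i).2)] at hx
      induction hx using Submodule.span_induction with
      | mem x hx =>
        obtain ⟨i, rfl⟩ := hx
        exact hg i
      | zero => rw [map_zero]; exact Submodule.zero_mem _
      | add x y _ _ hx hy => rw [map_add]; exact Submodule.add_mem _ hx hy
      | smul c x _ hx => rw [map_smul]; exact Submodule.smul_mem _ _ hx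
    have heq : W.map (g : V →ₗ[F] V) = W := by
      apply Submodule.eq_of_le_of_finrank_eq hle
      exact (g.submoduleMap W).finrank_eq.symm
    rw [Frm.mem_stab]
    intro v
    constructor
    · intro hv
      exact hle ⟨v, hv, rfl⟩
    · intro hv
      rw [← heq] at hv
      obtain ⟨x, hx, hxv⟩ := hv
      have := g.injective hxv
      rwa [← this]
  have hP := card_eq_card_orbit_mul (G := Frm.stab W) w
    {v | LinearIndependent F v ∧ ∀ i, v i ∈ W} (by
    intro y
    constructor
    · intro hy
      obtain ⟨g, hg⟩ := exists_tuple w y hw hy.1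
      refine ⟨⟨g, hstabmem g (fun i => by rw [hg]; exact hy.2 i)⟩, ?_⟩
      rw [hsmP]
      exact funext hg
    · rintro ⟨g, rfl⟩
      rw [hsmP]
      exact ⟨hli g.1 w hw, fun i => (Frm.mem_stab.mp g.2 _).mp (b i).2⟩)
  have hstab : Nat.card (MulAction.stabilizer (Frm.stab W) w) =
      Nat.card (MulAction.stabilizer (V ≃ₗ[F] V) w) := by
    refine Nat.card_congr
      { toFun := fun g => ⟨g.1.1, g.2⟩
        invFun := fun g => ⟨⟨g.1, hstabmem g.1 (fun i => by
          have h2 := congrFun (MulAction.mem_stabilizer_iff.mp g.2) i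
          change g.1 (w i) = w i at h2
          rw [h2]
          exact (b i).2)⟩, g.2⟩
        left_inv := fun g => rfl
        right_inv := fun g => rfl }
  have c1 : Nat.card {v : Fin k → V | LinearIndependent F v} =
      ∏ i : Fin k, (q ^ n - q ^ (i : ℕ)) := by
    have h2 := card_linearIndependent (K := F) (V := V) (k := k) (by rw [hV]; exact hk)
    rw [hV, hF] at h2
    exact h2
  have c2 : Nat.card {v : Fin k → V | LinearIndependent F v ∧ ∀ i, v i ∈ W} =
      ∏ i : Fin k, (q ^ k - q ^ (i : ℕ)) := by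
    have h2 := card_linearIndependent (K := F) (V := W) (k := k) (by rw [hW])
    rw [hW, hF] at h2
    rw [← h2]
    refine Nat.card_congr
      { toFun := fun v => ⟨fun i => ⟨v.1 i, v.2.2 i⟩, ?_⟩
        invFun := fun v => ⟨fun i => (v.1 i : V),
          v.2.map' W.subtype (by simp), fun i => (v.1 i).2⟩
        left_inv := fun v => rfl
        right_inv := fun v => rfl }
    exact LinearIndependent.of_comp W.subtype v.2.1
  rw [c1, hcard] at hG
  rw [hP, hstab, c2]
  rw [mul_comm (q ^ (k * (n - k))), mul_assoc]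
  congr 1
  -- solve for the stabiliser
  rw [Fin.prod_univ_eq_prod_range (fun i => q ^ n - q ^ i) n,
    Fin.prod_univ_eq_prod_range (fun i => q ^ n - q ^ i) k] at hG
  have h5 : Finset.range n = Finset.range (k + (n - k)) := by rw [Nat.add_sub_cancel' hk]
  rw [h5, Finset.prod_range_add] at hG
  have hpos : 0 < ∏ x ∈ Finset.range k, (q ^ n - q ^ x) := by
    apply Finset.prod_pos
    intro i hi
    rw [Finset.mem_range] at hi
    exact Nat.sub_pos_of_lt (Nat.pow_lt_pow_right hq (by omega))
  rw [← Nat.eq_of_mul_eq_mul_left hpos hG, Fin.prod_univ_eq_prod_range (fun i => q ^ (n - k) - q ^ i)]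
  have h6 : q ^ (k * (n - k)) = ∏ _i ∈ Finset.range (n - k), q ^ k := by
    rw [Finset.prod_const, Finset.card_range, pow_mul]
  rw [h6, ← Finset.prod_mul_distrib]
  refine Finset.prod_congr rfl (fun i _ => ?_)
  rw [Nat.mul_sub, ← pow_add, ← pow_add, Nat.add_sub_cancel' hk]

/-- Maximal parabolic of GL_n(q): the stabiliser of the coordinate subspace spanned by the first k basis vectors has order q^(k(n-k)) · |GL_k(q)| · |GL_(n-k)(q)| (unipotent radical of order q^(k(n-k)) and Levi complement GL_k × GL_(n-k)). -/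
theorem result {F : Type*} [Field F] [Fintype F] {q : ℕ} (hF : Fintype.card F = q) (n k : ℕ) (hk : k ≤ n) : Nat.card ↥(Cfsg.stabilizing (Cfsg.glToMat (Fin n) F) {v : Fin n → F | ∀ i : Fin n, k ≤ (i : ℕ) → v i = 0}) = q ^ (k * (n - k)) * (∏ i : Fin k, (q ^ k - q ^ (i : ℕ))) * ∏ i : Fin (n - k), (q ^ (n - k) - q ^ (i : ℕ)) := by
  have hE : Module.finrank F (Fin n → F) = n := Module.finrank_fin_fun F
  rw [← card_stab hF n k hk hE (E F n k) (finrank_E hk) (by
    rw [← Nat.card_congr (Cfsg.Agent.H5.Conc.glEquiv (Fin n) F).toEquiv, Matrix.card_GL_field, hF])]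
  exact Nat.card_congr (Cfsg.Agent.H5.Conc.subEquiv (Cfsg.Agent.H5.Conc.glEquiv (Fin n) F) _ _
    (fun g => Iff.rfl)).toEquiv

end Cfsg.Agent.S0771
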