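import Cfsg.Statements.S0773
import Mathlib
import Cfsg.Agent.H5_GLpar
import Cfsg.Agent.H5_Concrete

set_option autoImplicit false
open Cfsg

namespace Cfsg.Agent.S0773

open Cfsg.Agent.H5 Cfsg.Agent.H5.GLpar Matrix in
theorem nonconj {F : Type*} [Field F] (n k : ℕ) (hk0 : 0 < k) (hkn : k < n) (h2 : 2 * k ≠ n)
    (g : GL (Fin n) F) : (P F n k).map (MulAut.conj g).toMonoidHom ≠ P F n (n - k) := by
  intro h
  have hinj : Function.Injective ((g : Matrix (Fin n) (Fin n) F).mulVecLin) := by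
    have := Matrix.mulVec_injective_iff_isUnit.mpr g.isUnit
    exact this
  set U := (E F n k).map (g : Matrix (Fin n) (Fin n) F).mulVecLin
  have hU : Module.finrank F U = k := by
    have h1 := (Submodule.equivMapOfInjective _ hinj (E F n k)).finrank_eq
    rw [finrank_E hkn.le] at h1
    exact h1.symm
  have hinv : ∀ p ∈ P F n (n - k), ∀ v ∈ U, (p : Matrix (Fin n) (Fin n) F) *ᵥ v ∈ U := by
    intro p hp v hv
    rw [← h] at hp
    obtain ⟨x, hx, rfl⟩ := hp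
    obtain ⟨e, he, rfl⟩ := hv
    refine ⟨(x : Matrix (Fin n) (Fin n) F) *ᵥ e, (mem_P.mp hx e).mp he, ?_⟩
    change (g : Matrix (Fin n) (Fin n) F) *ᵥ ((x : Matrix (Fin n) (Fin n) F) *ᵥ e) =
      ((g * x * g⁻¹ : GL (Fin n) F) : Matrix (Fin n) (Fin n) F) *ᵥ ((g : Matrix (Fin n) (Fin n) F) *ᵥ e)
    rw [Matrix.mulVec_mulVec, Matrix.mulVec_mulVec, ← Units.val_mul, ← Units.val_mul,
      inv_mul_cancel_right]
  rcases invariant_subspaces hinv with h3 | h3 | h3
  · rw [h3, finrank_bot] at hU; omega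
  · rw [h3, finrank_E (by omega)] at hU; omega
  · rw [h3, finrank_top, Module.finrank_fin_fun] at hU; omega

/-- The stabilisers in GL_n(F), F finite, of the coordinate subspaces of dimensions k and n − k are isomorphic groups, but when 2k ≠ n (and 0 < k < n) no element of GL_n conjugates one onto the other. -/
theorem result {F : Type*} [Field F] [Finite F] (n k : ℕ) (hk0 : 0 < k) (hkn : k < n) (h2 : 2 * k ≠ n) : Nonempty (↥(Cfsg.stabilizing (Cfsg.glToMat (Fin n) F) {v : Fin n → F | ∀ i : Fin n, k ≤ (i : ℕ) → v i = 0}) ≃* ↥(Cfsg.stabilizing (Cfsg.glToMat (Fin n) F) {v : Fin n → F | ∀ i : Fin n, n - k ≤ (i : ℕ) → v i = 0})) ∧ ∀ g : Matrix.GeneralLinearGroup (Fin n) F, (Cfsg.stabilizing (Cfsg.glToMat (Fin n) F) {v : Fin n → F | ∀ i : Fin n, k ≤ (i : ℕ) → v i = 0}).map (MulAut.conj g).toMonoidHom ≠ Cfsg.stabilizing (Cfsg.glToMat (Fin n) F) {v : Fin n → F | ∀ i : Fin n, n - k ≤ (i : ℕ) → v i = 0} := by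
  refine ⟨⟨Cfsg.Agent.H5.Conc.subEquiv (Cfsg.Agent.H5.GLpar.psi n F) _ _
    (Cfsg.Agent.H5.GLpar.psi_mem hkn.le)⟩, fun g => nonconj n k hk0 hkn h2 g⟩

end Cfsg.Agent.S0773
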