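import Cfsg.Statements.S0774
import Mathlib
import Cfsg.Agent.S0769
import Cfsg.Agent.H5_Concrete
import Cfsg.Agent.H5_TS

set_option autoImplicit false
open Cfsg

namespace Cfsg.Agent.S0774

open Matrix Cfsg.Agent.H5 Cfsg.Agent.H5.Frm

/-- the coordinate subspaces -/
def E (F : Type*) [Field F] (m : ℕ) (k : Fin m) : Submodule F (Fin m ⊕ Fin m → F) where
  carrier := {v | (∀ i : Fin m, (k : ℕ) < (i : ℕ) → v (Sum.inl i) = 0) ∧ ∀ i : Fin m, v (Sum.inr i) = 0}
  add_mem' {a b} ha hb := ⟨fun i hi => by rw [Pi.add_apply, ha.1 i hi, hb.1 i hi, add_zero],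
    fun i => by rw [Pi.add_apply, ha.2 i, hb.2 i, add_zero]⟩
  zero_mem' := ⟨fun _ _ => rfl, fun _ => rfl⟩
  smul_mem' c a ha := ⟨fun i hi => by rw [Pi.smul_apply, ha.1 i hi, smul_zero],
    fun i => by rw [Pi.smul_apply, ha.2 i, smul_zero]⟩

/-- embedding into the first half -/
def emb (F : Type*) [Field F] (m : ℕ) : (Fin m → F) →ₗ[F] (Fin m ⊕ Fin m → F) where
  toFun x := Sum.elim x 0
  map_add' x y := by ext i; rcases i with i | i <;> simp
  map_smul' c x := by ext i; rcases i with i | i <;> simp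

theorem emb_inj (F : Type*) [Field F] (m : ℕ) : Function.Injective (emb F m) := by
  intro x y h
  funext i
  exact congrFun h (Sum.inl i)

theorem card_B {F : Type*} [Field F] [Fintype F] {q : ℕ} (hF : Fintype.card F = q) (m : ℕ) :
    Nat.card ↥(⨅ k : Fin m, (Conc.sympFrm m F).stabW (E F m k)) = q ^ (m ^ 2) * (q - 1) ^ m := by
  classical
  have hq : 1 < q := by rw [← hF]; exact Fintype.one_lt_card
  set A := Conc.sympFrm m F
  have hn : A.Nondeg := Conc.sympFrm_nondeg m F
  let e : Fin m → (Fin m ⊕ Fin m → F) := fun i => Pi.single (Sum.inl i) 1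
  let L := {g : GL (Fin m) F // ∀ i j : Fin m, i < j → (g : Matrix (Fin m) (Fin m) F) i j = 0}
  let ι : L → (Fin m → (Fin m ⊕ Fin m → F)) := fun M i => emb F m ((M.1 : Matrix (Fin m) (Fin m) F) i)
  have hιinj : Function.Injective ι := by
    intro M N h
    apply Subtype.ext
    apply Units.ext
    funext i
    exact emb_inj F m (congrFun h i)
  have hzero : ∀ x y : Fin m ⊕ Fin m → F, (∀ i, x (Sum.inr i) = 0) → (∀ i, y (Sum.inr i) = 0) →
      A.B x y = 0 := by
    intro x y hx hy
    rw [Conc.sympFrm_B, Conc.sympForm_eq]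
    simp [hx, hy]
  have hTS : ∀ M : L, A.IsTS (ι M) := by
    intro M
    refine ⟨?_, fun _ => rfl, fun i j => hzero _ _ (fun _ => rfl) (fun _ => rfl)⟩
    have h1 := Matrix.linearIndependent_rows_iff_isUnit.mpr M.1.isUnit
    exact h1.map' (emb F m) (LinearMap.ker_eq_bot.mpr (emb_inj F m))
  have heTS : A.IsTS e := by
    have h1 := hTS ⟨1, fun i j hij => by rw [Units.val_one, Matrix.one_apply_ne hij.ne]⟩
    have h2 : ι ⟨1, fun i j hij => by rw [Units.val_one, Matrix.one_apply_ne hij.ne]⟩ = e := by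
      funext i j
      rcases j with j | j
      · change (1 : Matrix (Fin m) (Fin m) F) i j = (Pi.single (Sum.inl i) 1 : Fin m ⊕ Fin m → F) (Sum.inl j)
        rw [Matrix.one_apply, Pi.single_apply]
        simp [eq_comm]
      · change (0 : F) = (Pi.single (Sum.inl i) 1 : Fin m ⊕ Fin m → F) (Sum.inr j)
        simp
    rw [h2] at h1
    exact h1
  have heE : ∀ k, e k ∈ E F m k := by
    intro k
    refine ⟨fun i hi => ?_, fun i => by simp [e]⟩
    simp only [e]
    rw [Pi.single_eq_of_ne]
    intro h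
    rw [Sum.inl.injEq] at h
    rw [h] at hi
    exact lt_irrefl _ hi
  set B := (⨅ k : Fin m, A.stabW (E F m k))
  have hBmem : ∀ g : A.isom, g ∈ B ↔ ∀ k, ∀ v, v ∈ E F m k ↔ g.1 v ∈ E F m k := by
    intro g
    rw [Subgroup.mem_iInf]
    exact forall_congr' (fun k => mem_stabW)
  -- a vector in E k is a combination of e i, i ≤ k
  have hcomb : ∀ k, ∀ v ∈ E F m k, v = ∑ i, v (Sum.inl i) • e i := by
    intro k v hv
    ext j
    rcases j with j | j
    · simp [e, Finset.sum_apply, Pi.single_apply]
    · rw [hv.2 j]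
      simp [e, Finset.sum_apply]
  let act : MulAction B (Fin m → (Fin m ⊕ Fin m → F)) :=
    { smul := fun g v => fun i => g.1.1 (v i)
      one_smul := fun v => rfl
      mul_smul := fun g h v => rfl }
  have hsm : ∀ (g : B) (v : Fin m → (Fin m ⊕ Fin m → F)), g • v = fun i => g.1.1 (v i) :=
    fun _ _ => rfl
  have horb := card_eq_card_orbit_mul (G := B) e (Set.range ι) (by
    intro y
    constructor
    · rintro ⟨M, rfl⟩
      obtain ⟨g, hg, hgi⟩ := witt_tuple hn e (ι M) heTS.1 (hTS M).1 (fun i j => by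
        rw [heTS.2.2, (hTS M).2.2]) (fun i => rfl)
      have hle : ∀ k, ∀ v ∈ E F m k, g v ∈ E F m k := by
        intro k v hv
        rw [hcomb k v hv, map_sum]
        refine Submodule.sum_mem _ (fun i _ => ?_)
        rw [map_smul, hgi]
        by_cases hik : (k : ℕ) < (i : ℕ)
        · rw [hv.1 i hik, zero_smul]; exact Submodule.zero_mem _
        · refine Submodule.smul_mem _ _ ⟨fun j hj => M.2 i j ?_, fun j => rfl⟩
          rw [Fin.lt_def]; omega
      refine ⟨⟨⟨g, hg⟩, ?_⟩, ?_⟩
      · rw [hBmem]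
        intro k v
        refine ⟨hle k v, fun hv => ?_⟩
        have heq : (E F m k).map (g : (Fin m ⊕ Fin m → F) →ₗ[F] (Fin m ⊕ Fin m → F)) = E F m k := by
          apply Submodule.eq_of_le_of_finrank_eq
          · rintro _ ⟨x, hx, rfl⟩
            exact hle k x hx
          · exact (g.submoduleMap _).finrank_eq.symm
        rw [← heq] at hv
        obtain ⟨x, hx, hxv⟩ := hv
        have := g.injective hxv
        rwa [← this]
      · rw [hsm]
        exact funext hgi
    · rintro ⟨g, rfl⟩
      rw [hsm]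
      have hgE := (hBmem g.1).mp g.2
      have h1 : ∀ i, g.1.1 (e i) ∈ E F m i := fun i => (hgE i _).mp (heE i)
      let N : Matrix (Fin m) (Fin m) F := Matrix.of (fun i j => g.1.1 (e i) (Sum.inl j))
      have hN : ∀ i, emb F m (N i) = g.1.1 (e i) := by
        intro i
        ext j
        rcases j with j | j
        · rfl
        · exact ((h1 i).2 j).symm
      have hNu : IsUnit N := by
        rw [← Matrix.linearIndependent_rows_iff_isUnit]
        have h2 := (isTS_isom heTS g.1.2).1
        have h3 : (fun i => g.1.1 (e i)) = emb F m ∘ (fun i => N i) := by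
          funext i
          exact (hN i).symm
        rw [h3] at h2
        exact LinearIndependent.of_comp _ h2
      refine ⟨⟨hNu.unit, fun i j hij => ?_⟩, ?_⟩
      · exact (h1 i).1 j hij
      · funext i
        exact hN i)
  have c1 : Nat.card (Set.range ι) = q ^ (m * (m - 1) / 2) * (q - 1) ^ m := by
    rw [← Nat.card_congr (Equiv.ofInjective ι hιinj)]
    exact Cfsg.Agent.S0769.main hF m
  have c2 : Nat.card (MulAction.stabilizer B e) = Nat.card (A.fixT e) := by
    refine Nat.card_congr
      { toFun := fun g => ⟨g.1.1, fun i => congrFun g.2 i⟩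
        invFun := fun g => ⟨⟨g.1, ?_⟩, ?_⟩
        left_inv := fun g => rfl
        right_inv := fun g => rfl }
    · rw [hBmem]
      intro k v
      have hfix : ∀ v ∈ E F m k, g.1.1 v = v := by
        intro v hv
        rw [hcomb k v hv, map_sum]
        refine Finset.sum_congr rfl (fun i _ => ?_)
        rw [map_smul, g.2 i]
      constructor
      · intro hv; rw [hfix v hv]; exact hv
      · intro hv
        have h1 := hfix _ hv
        have := g.1.1.injective h1
        rwa [this] at hv
    · exact funext g.2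
  have c3 : Nat.card (A.fixT e) = q ^ m * q ^ (m * (m - 1) / 2) := by
    have h2 := card_isom_eq_tsCard_mul hn heTS
    have hw : WittDec (0 + m) 0 A := by rw [zero_add]; exact Conc.sympFrm_wittDec m F
    rw [WittDec.card_isom 0 1 (fun A _ _ h' => card_isom_zero A h') (0 + m) A hn hw,
      WittDec.card_ts 0 m 0 A hn hw, ordProd_add, kt_zero, hF] at h2
    have h3 := tsProd_pos q q 0 hq m 0
    have h4 : ordProd q q 0 0 = 1 := by simp [ordProd]
    rw [h4, mul_one, mul_one] at h2
    have h5 := Nat.eq_of_mul_eq_mul_left h3 h2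
    rw [← h5, fixProd]
    congr 2
    simp
  rw [horb, c1, c2, c3]
  have h6 : q ^ (m ^ 2) = q ^ (m * (m - 1) / 2) * (q ^ m * q ^ (m * (m - 1) / 2)) := by
    rw [← pow_add, ← pow_add]
    congr 1
    have h7 : m * (m - 1) / 2 * 2 = m * (m - 1) := by
      apply Nat.div_mul_cancel
      rcases m with _ | m
      · simp
      · rw [Nat.add_sub_cancel, mul_comm]
        exact (Nat.even_mul_succ_self m).two_dvd
    rcases m with _ | m
    · simp
    · rw [Nat.add_sub_cancel] at h7 ⊢
      have : (m + 1) ^ 2 = (m + 1) * m + (m + 1) := by ring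
      omega
  rw [h6]
  ring

/-- Borel subgroup of the symplectic group: the elements of Sp_2m(q) stabilising each of the totally isotropic coordinate subspaces ⟨e_0, ..., e_k⟩ (k < m) form a subgroup of order q^(m²) (q − 1)^m. -/
theorem result {F : Type*} [Field F] [Fintype F] {q : ℕ} (hF : Fintype.card F = q) (m : ℕ) : Nat.card ↥(⨅ k : Fin m, Cfsg.stabilizing (Cfsg.spToMat m F) {v : Fin m ⊕ Fin m → F | (∀ i : Fin m, (k : ℕ) < (i : ℕ) → v (Sum.inl i) = 0) ∧ ∀ i : Fin m, v (Sum.inr i) = 0}) = q ^ (m ^ 2) * (q - 1) ^ m := by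
  rw [← card_B hF m]
  refine Nat.card_congr (Cfsg.Agent.H5.Conc.subEquiv (Cfsg.Agent.H5.Conc.spEquiv m F) _ _
    (fun g => ?_)).toEquiv
  rw [Subgroup.mem_iInf, Subgroup.mem_iInf]
  exact forall_congr' (fun k => by
    rw [Cfsg.Agent.H5.Frm.mem_stabW (A := Cfsg.Agent.H5.Conc.sympFrm m F) (W := E F m k)]
    exact Iff.rfl)

end Cfsg.Agent.S0774
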