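import Cfsg.Statements.S0775
import Mathlib
import Cfsg.Agent.H5_Concrete
import Cfsg.Agent.H5_TS

set_option autoImplicit false
open Cfsg

namespace Cfsg.Agent.S0775

open Cfsg.Agent.H5 Cfsg.Agent.H5.Frm in
theorem card_stab {F : Type*} [Field F] (m : ℕ) (W : Submodule F (Fin m ⊕ Fin m → F)) :
    Nat.card ↥(Cfsg.stabilizing (Cfsg.spToMat m F) (W : Set (Fin m ⊕ Fin m → F))) =
      Nat.card ((Conc.sympFrm m F).stabW W) := by
  refine Nat.card_congr (Conc.subEquiv (Conc.spEquiv m F) _ _ (fun g => ?_)).toEquiv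
  rw [mem_stabW]
  rfl

/-- Maximal parabolics of the symplectic group: if W is a k-dimensional subspace of F^(2m) on which the symplectic form vanishes identically, its stabiliser in Sp_2m(q) has order q^(k(k+1)/2 + 2k(m−k)) · |Sp_(2m−2k)(q)| · |GL_k(q)|. -/
theorem result {F : Type*} [Field F] [Fintype F] {q : ℕ} (hF : Fintype.card F = q) (m k : ℕ) (hk : k ≤ m) (W : Submodule F (Fin m ⊕ Fin m → F)) (hWk : Module.finrank F W = k) (hW : ∀ u ∈ W, ∀ v ∈ W, Cfsg.sympForm m F u v = 0) : Nat.card ↥(Cfsg.stabilizing (Cfsg.spToMat m F) (W : Set (Fin m ⊕ Fin m → F))) = q ^ (k * (k + 1) / 2 + 2 * k * (m - k)) * (q ^ ((m - k) ^ 2) * ∏ i ∈ Finset.range (m - k), (q ^ (2 * (i + 1)) - 1)) * ∏ i : Fin k, (q ^ k - q ^ (i : ℕ)) := by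
  have h0 : Cfsg.Agent.H5.Frm.WittDec (m - k + k) 0 (Cfsg.Agent.H5.Conc.sympFrm m F) := by
    rw [Nat.sub_add_cancel hk]
    exact Cfsg.Agent.H5.Conc.sympFrm_wittDec m F
  have h1 := Cfsg.Agent.H5.Frm.WittDec.card_stabW 0 k (m - k) (Cfsg.Agent.H5.Conc.sympFrm m F)
    (Cfsg.Agent.H5.Conc.sympFrm_nondeg m F) h0 1
    (fun A _ h h' => Cfsg.Agent.H5.Frm.card_isom_zero A h') hWk (fun v _ => rfl)
    (fun v hv w hw => by rw [Cfsg.Agent.H5.Conc.sympFrm_B]; exact hW v hv w hw)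
  have hq : 0 < q := by rw [← hF]; exact Fintype.card_pos
  rw [card_stab, h1, Cfsg.Agent.H5.Frm.kt_zero, hF, Cfsg.Agent.H5.Frm.ordProd_sp q _ hq,
    Cfsg.Agent.H5.Frm.fixProd]
  have e : q ^ (k * (k + 1) / 2 + 2 * k * (m - k)) =
      q ^ k * q ^ (2 * (m - k) * k + 0 * k + k * (k - 1) / 2) := by
    rw [← pow_add]
    congr 1
    have h2 : k * (k + 1) / 2 = k * (k - 1) / 2 + k := by
      have h1 : k * (k + 1) = k * (k - 1) + k * 2 := by
        rcases k with _ | k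
        · rfl
        · simp only [Nat.add_sub_cancel]
          ring_nf
      rw [h1, Nat.add_mul_div_right _ _ (by norm_num)]
    rw [h2]
    ring
  rw [e]
  ring

end Cfsg.Agent.S0775
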