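import Cfsg.Statements.S0776
import Mathlib
import Cfsg.Agent.H5_StabSub

set_option autoImplicit false
open Cfsg

namespace Cfsg.Agent.S0776

open Cfsg.Agent.H5 Cfsg.Agent.H5.Frm in
theorem main {F : Type*} [Field F] (m k : ℕ) (hk : k ≤ m) (W : Submodule F (Fin m ⊕ Fin m → F)) (hWk : Module.finrank F W = 2 * k) (hW : ∀ u ∈ W, (∀ v ∈ W, Cfsg.sympForm m F u v = 0) → u = 0) : Nonempty (↥(Cfsg.stabilizing (Cfsg.spToMat m F) (W : Set (Fin m ⊕ Fin m → F))) ≃* Matrix.symplecticGroup (Fin k) F × Matrix.symplecticGroup (Fin (m - k)) F) := by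
  have hn := Conc.sympFrm_nondeg m F
  have hnd : ((Conc.sympFrm m F).restrict W).Nondeg := by
    rintro ⟨u, hu⟩ h
    apply Subtype.ext
    apply hW u hu
    intro v hv
    have := h ⟨v, hv⟩
    rwa [restrict_B, Conc.sympFrm_B] at this
  have hfr := finrank_orth hn W
  rw [hWk, Module.finrank_fintype_fun_eq_card, Fintype.card_sum, Fintype.card_fin] at hfr
  obtain ⟨e2⟩ := stabW_mulEquiv hn hnd
  obtain ⟨e3⟩ := sp_mulEquiv hnd (fun _ => rfl) hWk
  obtain ⟨e4⟩ := sp_mulEquiv (nondeg_orth hn hnd) (fun _ => rfl)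
    (show Module.finrank F ((Conc.sympFrm m F).orth W) = 2 * (m - k) by omega)
  exact ⟨(Conc.subEquiv (Conc.spEquiv m F) _ ((Conc.sympFrm m F).stabW W) (fun g => by
    rw [mem_stabW]; rfl)).trans (e2.trans (MulEquiv.prodCongr e3 e4))⟩

/-- If W ≤ F^(2m) is a 2k-dimensional subspace on which the symplectic form is non-degenerate, then the stabiliser of W in Sp_2m(F) is isomorphic to Sp_2k(F) × Sp_(2m−2k)(F). -/
theorem result {F : Type*} [Field F] (m k : ℕ) (hk : k ≤ m) (W : Submodule F (Fin m ⊕ Fin m → F)) (hWk : Module.finrank F W = 2 * k) (hW : ∀ u ∈ W, (∀ v ∈ W, Cfsg.sympForm m F u v = 0) → u = 0) : Nonempty (↥(Cfsg.stabilizing (Cfsg.spToMat m F) (W : Set (Fin m ⊕ Fin m → F))) ≃* Matrix.symplecticGroup (Fin k) F × Matrix.symplecticGroup (Fin (m - k)) F) := by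
  exact main m k hk W hWk hW

end Cfsg.Agent.S0776
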