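import Cfsg.Statements.S0777
import Mathlib
import Cfsg.Agent.H5_WeylC

set_option autoImplicit false
open Cfsg

namespace Cfsg.Agent.S0777

/-- Weyl group of type C_m: for q ≥ 4 the diagonal matrices of Sp_2m(q) form a torus T ≅ (C_(q−1))^m (the elements stabilising every coordinate axis), and the normaliser of T in Sp_2m(q) has order 2^m · m! · (q − 1)^m. -/
theorem result {F : Type*} [Field F] [Fintype F] {q : ℕ} (hF : Fintype.card F = q) (hq : 4 ≤ q) (m : ℕ) : Nat.card ↥(Subgroup.normalizer (⨅ i : Fin m ⊕ Fin m, Cfsg.stabilizing (Cfsg.spToMat m F) ((Submodule.span F {(Pi.single i (1 : F) : Fin m ⊕ Fin m → F)} : Submodule F (Fin m ⊕ Fin m → F)) : Set (Fin m ⊕ Fin m → F)) : Set (Matrix.symplecticGroup (Fin m) F))) = 2 ^ m * Nat.factorial m * (q - 1) ^ m := by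
  have h := H5.WeylC.main (m := m) hF hq
  have e : ((H5.WeylC.T m F : Subgroup (Matrix.symplecticGroup (Fin m) F)) : Set (Matrix.symplecticGroup (Fin m) F)) = _ :=
    Subgroup.coe_iInf
  rw [e] at h
  exact h

end Cfsg.Agent.S0777
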