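import Cfsg.Statements.S0778
import Mathlib

set_option autoImplicit false
open Cfsg

namespace Cfsg.Agent.S0778

open Matrix in
theorem mem_diag {F : Type*} [Field F] (m : ℕ) (X : GL (Fin m) F) :
    Matrix.fromBlocks (X : Matrix (Fin m) (Fin m) F) 0 0 ((X⁻¹ : GL (Fin m) F) : Matrix (Fin m) (Fin m) F)ᵀ ∈
      Matrix.symplecticGroup (Fin m) F := by
  rw [SymplecticGroup.mem_iff, Matrix.J, Matrix.fromBlocks_transpose, Matrix.fromBlocks_multiply,
    Matrix.fromBlocks_multiply]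
  simp only [Matrix.transpose_transpose, Matrix.transpose_zero, Matrix.mul_zero, Matrix.zero_mul,
    add_zero, zero_add, Matrix.mul_neg, Matrix.mul_one, Matrix.neg_mul]
  have h1 : (X : Matrix (Fin m) (Fin m) F) * ((X⁻¹ : GL (Fin m) F) : Matrix (Fin m) (Fin m) F) = 1 := by
    rw [← Units.val_mul, mul_inv_cancel, Units.val_one]
  have h2 : ((X⁻¹ : GL (Fin m) F) : Matrix (Fin m) (Fin m) F)ᵀ * (X : Matrix (Fin m) (Fin m) F)ᵀ = 1 := by
    rw [← Matrix.transpose_mul, h1, Matrix.transpose_one]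
  rw [h1, h2, neg_zero]

/-- The elements of Sp_2m(F) stabilising both W = ⟨e_1..e_m⟩ and U = ⟨f_1..f_m⟩ form a subgroup isomorphic to GL_m(F) (block-diagonal matrices diag(X, X^(−ᵀ)) up to the sign convention of J), for m ≥ 1 or m = 0 alike. -/
theorem result {F : Type*} [Field F] (m : ℕ) : Nonempty (↥(Cfsg.stabilizing (Cfsg.spToMat m F) {v : Fin m ⊕ Fin m → F | ∀ i : Fin m, v (Sum.inr i) = 0} ⊓ Cfsg.stabilizing (Cfsg.spToMat m F) {v : Fin m ⊕ Fin m → F | ∀ i : Fin m, v (Sum.inl i) = 0}) ≃* Matrix.GeneralLinearGroup (Fin m) F) := by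
  classical
  open Matrix in
  have hmemW : ∀ g : Matrix.symplecticGroup (Fin m) F,
      g ∈ Cfsg.stabilizing (Cfsg.spToMat m F) {v : Fin m ⊕ Fin m → F | ∀ i : Fin m, v (Sum.inr i) = 0} ↔
      ∀ v : Fin m ⊕ Fin m → F, (∀ i : Fin m, v (Sum.inr i) = 0) ↔
        ∀ i : Fin m, (g.1 *ᵥ v) (Sum.inr i) = 0 := fun g => Iff.rfl
  have hmemU : ∀ g : Matrix.symplecticGroup (Fin m) F,
      g ∈ Cfsg.stabilizing (Cfsg.spToMat m F) {v : Fin m ⊕ Fin m → F | ∀ i : Fin m, v (Sum.inl i) = 0} ↔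
      ∀ v : Fin m ⊕ Fin m → F, (∀ i : Fin m, v (Sum.inl i) = 0) ↔
        ∀ i : Fin m, (g.1 *ᵥ v) (Sum.inl i) = 0 := fun g => Iff.rfl
  -- block diagonal elements act blockwise
  have hblock : ∀ (X Y : Matrix (Fin m) (Fin m) F) (v : Fin m ⊕ Fin m → F),
      Matrix.fromBlocks X 0 0 Y *ᵥ v = Sum.elim (X *ᵥ (v ∘ Sum.inl)) (Y *ᵥ (v ∘ Sum.inr)) := by
    intro X Y v
    rw [Matrix.fromBlocks_mulVec]
    simp
  have hinj : ∀ (X : GL (Fin m) F) (w : Fin m → F), (∀ i, w i = 0) ↔ ∀ i, ((X : Matrix (Fin m) (Fin m) F) *ᵥ w) i = 0 := by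
    intro X w
    constructor
    · intro h
      have : w = 0 := funext h
      rw [this, Matrix.mulVec_zero]
      intro i; rfl
    · intro h
      have h1 : (X : Matrix (Fin m) (Fin m) F) *ᵥ w = 0 := funext h
      have h2 : ((X⁻¹ : GL (Fin m) F) : Matrix (Fin m) (Fin m) F) *ᵥ ((X : Matrix (Fin m) (Fin m) F) *ᵥ w) = 0 := by
        rw [h1, Matrix.mulVec_zero]
      rw [Matrix.mulVec_mulVec, ← Units.val_mul, inv_mul_cancel, Units.val_one, Matrix.one_mulVec] at h2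
      intro i
      rw [h2]; rfl
  have hT : ∀ X : GL (Fin m) F, ∃ Y : GL (Fin m) F, (Y : Matrix (Fin m) (Fin m) F) =
      ((X⁻¹ : GL (Fin m) F) : Matrix (Fin m) (Fin m) F)ᵀ := by
    intro X
    refine ⟨⟨((X⁻¹ : GL (Fin m) F) : Matrix (Fin m) (Fin m) F)ᵀ, (X : Matrix (Fin m) (Fin m) F)ᵀ, ?_, ?_⟩, rfl⟩
    · rw [← Matrix.transpose_mul, ← Units.val_mul, mul_inv_cancel, Units.val_one, Matrix.transpose_one]
    · rw [← Matrix.transpose_mul, ← Units.val_mul, inv_mul_cancel, Units.val_one, Matrix.transpose_one]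
  have hex : ∀ X : GL (Fin m) F, ∃ g : ↥(Cfsg.stabilizing (Cfsg.spToMat m F) {v : Fin m ⊕ Fin m → F | ∀ i : Fin m, v (Sum.inr i) = 0} ⊓ Cfsg.stabilizing (Cfsg.spToMat m F) {v : Fin m ⊕ Fin m → F | ∀ i : Fin m, v (Sum.inl i) = 0}),
      g.1.1 = Matrix.fromBlocks (X : Matrix (Fin m) (Fin m) F) 0 0 ((X⁻¹ : GL (Fin m) F) : Matrix (Fin m) (Fin m) F)ᵀ := by
    intro X
    obtain ⟨Y, hY⟩ := hT X
    refine ⟨⟨⟨_, mem_diag m X⟩, ?_⟩, rfl⟩
    rw [Subgroup.mem_inf, hmemW, hmemU]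
    constructor
    · intro v
      rw [hblock, ← hY]
      exact hinj Y _
    · intro v
      rw [hblock]
      exact hinj X _
  choose φ0 hφ0 using hex
  let φ : GL (Fin m) F →* ↥(Cfsg.stabilizing (Cfsg.spToMat m F) {v : Fin m ⊕ Fin m → F | ∀ i : Fin m, v (Sum.inr i) = 0} ⊓ Cfsg.stabilizing (Cfsg.spToMat m F) {v : Fin m ⊕ Fin m → F | ∀ i : Fin m, v (Sum.inl i) = 0}) :=
    MonoidHom.mk' φ0 (by
      intro X Y
      apply Subtype.ext
      apply Subtype.ext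
      change (φ0 (X * Y)).1.1 = (φ0 X).1.1 * (φ0 Y).1.1
      rw [hφ0, hφ0, hφ0, Matrix.fromBlocks_multiply]
      simp only [Matrix.mul_zero, Matrix.zero_mul, add_zero, zero_add, Units.val_mul, _root_.mul_inv_rev,
        Matrix.transpose_mul])
  refine ⟨(MulEquiv.ofBijective φ ⟨?_, ?_⟩).symm⟩
  · intro X Y h
    have h1 : (φ0 X).1.1 = (φ0 Y).1.1 := congrArg (fun g => g.1.1) h
    rw [hφ0, hφ0, Matrix.fromBlocks_inj] at h1
    exact Units.ext h1.1
  · rintro ⟨g, hg⟩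
    rw [Subgroup.mem_inf, hmemW, hmemU] at hg
    -- blocks
    have hb1 : g.1.toBlocks₂₁ = 0 := by
      ext i j
      have := (hg.1 (Pi.single (.inl j) 1)).mp (fun i => by simp) i
      rw [Matrix.mulVec_single_one] at this
      exact this
    have hb2 : g.1.toBlocks₁₂ = 0 := by
      ext i j
      have := (hg.2 (Pi.single (.inr j) 1)).mp (fun i => by simp) i
      rw [Matrix.mulVec_single_one] at this
      exact this
    have hg1 : g.1 = Matrix.fromBlocks g.1.toBlocks₁₁ 0 0 g.1.toBlocks₂₂ := by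
      conv_lhs => rw [← Matrix.fromBlocks_toBlocks g.1]
      rw [hb1, hb2]
    have hsp := SymplecticGroup.mem_iff.mp g.2
    rw [hg1, Matrix.J, Matrix.fromBlocks_transpose, Matrix.fromBlocks_multiply,
      Matrix.fromBlocks_multiply, Matrix.fromBlocks_inj] at hsp
    simp only [Matrix.transpose_transpose, Matrix.transpose_zero, Matrix.mul_zero, Matrix.zero_mul,
      add_zero, zero_add, Matrix.mul_neg, Matrix.mul_one, Matrix.neg_mul, neg_inj, true_and,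
      and_true] at hsp
    -- a dᵀ = 1
    have h1 : g.1.toBlocks₁₁ * g.1.toBlocks₂₂ᵀ = 1 := hsp.1
    have h2 : g.1.toBlocks₂₂ᵀ * g.1.toBlocks₁₁ = 1 := mul_eq_one_comm.mp h1
    refine ⟨⟨g.1.toBlocks₁₁, g.1.toBlocks₂₂ᵀ, h1, h2⟩, ?_⟩
    apply Subtype.ext
    apply Subtype.ext
    change (φ0 _).1.1 = g.1
    refine (hφ0 _).trans ?_
    refine Eq.trans ?_ hg1.symm
    change Matrix.fromBlocks g.1.toBlocks₁₁ 0 0 (g.1.toBlocks₂₂ᵀ)ᵀ = _
    rw [Matrix.transpose_transpose]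

end Cfsg.Agent.S0778
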