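import Cfsg.Statements.S0779
import Mathlib
import Cfsg.Agent.H5_Unit

set_option autoImplicit false
open Cfsg

namespace Cfsg.Agent.S0779

/-- Unitary transvections: let |F| = q², h the standard Hermitian form Σ x_i y_i^q and v ≠ 0 with h(v, v) = 0. The linear map x ↦ x + c h(x, v) v is an isometry of h if and only if c = 0 or c^(q−1) = −1. -/
theorem result {F : Type*} [Field F] [Fintype F] {q : ℕ} (hF : Fintype.card F = q ^ 2) (n : ℕ) (v : Fin n → F) (hv : v ≠ 0) (hv0 : Cfsg.hermForm n F q v v = 0) (c : F) : (∀ x y : Fin n → F, Cfsg.hermForm n F q ((Cfsg.unitaryTransvection n q v c).mulVec x) ((Cfsg.unitaryTransvection n q v c).mulVec y) = Cfsg.hermForm n F q x y) ↔ (c = 0 ∨ c ^ (q - 1) = -1) := by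
  rw [Cfsg.Agent.H5.Unit.T_isometry_iff hF v hv hv0 c]
  have hq := Cfsg.Agent.H5.Fld.one_lt_q hF
  have h1 : c + c ^ q = c * (1 + c ^ (q - 1)) := by
    rw [mul_add, mul_one, ← pow_succ']
    congr 2
    omega
  rw [h1, mul_eq_zero, add_comm (1 : F), add_eq_zero_iff_eq_neg]

end Cfsg.Agent.S0779
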