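import Cfsg.Statements.S0783
import Mathlib
import Cfsg.Agent.H5_Cyc
import Cfsg.Agent.H5_Unit

set_option autoImplicit false
open Cfsg

namespace Cfsg.Agent.S0783

open Cfsg.Agent.H5 Cfsg.Agent.H5.Unit Matrix in
theorem scalar_center {F : Type*} [Field F] [Fintype F] {q : ℕ} (hF : Fintype.card F = q ^ 2)
    {n : ℕ} (hn : 2 ≤ n) (g : Cfsg.GU n F q) (hg : g ∈ Subgroup.center (Cfsg.GU n F q)) :
    ∃ c : F, (g.1 : Matrix (Fin n) (Fin n) F) = c • (1 : Matrix (Fin n) (Fin n) F) := by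
  obtain ⟨u, hu0, hu⟩ := Herm.exists_sing (Herm.hermFrm_isHerm hF n) (Conc.hermFrm_nondeg hF n)
    (by simp; omega)
  obtain ⟨f, hp⟩ := Frm.exists_partner (Conc.hermFrm_nondeg hF n) hu0 hu
  obtain ⟨c0, hc0, hc0'⟩ := exists_ker_ne hF
  set g' := Conc.guEquiv hF n g with hg'
  have hg'v : ∀ v, g'.1 v = (g.1 : Matrix (Fin n) (Fin n) F) *ᵥ v := fun v => rfl
  obtain ⟨c, hc⟩ := Frm.scalar_of_sing hp (Or.inr ⟨c0, hc0, by rw [Herm.tr_apply]; exact hc0'⟩) g'.2 (by
    intro v hv
    by_cases hv0 : v = 0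
    · exact ⟨0, by rw [hv0, map_zero, smul_zero]⟩
    have hvv : Cfsg.hermForm n F q v v = 0 := hv
    rw [Subgroup.mem_center_iff] at hg
    have h1 := hg (suHom n F q (T hF v hvv c0 hc0'))
    obtain ⟨x, hx⟩ : ∃ x, Cfsg.hermForm n F q x v ≠ 0 := by
      by_contra hcon
      push Not at hcon
      exact hv0 (Conc.hermFrm_nondeg hF n v (fun y => hcon y))
    have h2 := congrArg (fun z : Cfsg.GU n F q => (z.1 : Matrix (Fin n) (Fin n) F) *ᵥ x) h1
    have h3 : (mat (T hF v hvv c0 hc0') * (g.1 : Matrix (Fin n) (Fin n) F)) *ᵥ x =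
      ((g.1 : Matrix (Fin n) (Fin n) F) * mat (T hF v hvv c0 hc0')) *ᵥ x := h2
    rw [← Matrix.mulVec_mulVec, ← Matrix.mulVec_mulVec, T_apply, T_apply, mulVec_add, mulVec_smul,
      add_right_inj] at h3
    -- (c0 * h (g x) v) • v = (c0 * h x v) • g v
    have h4 : c0 * Cfsg.hermForm n F q x v ≠ 0 := mul_ne_zero hc0 hx
    refine ⟨(c0 * Cfsg.hermForm n F q x v)⁻¹ *
      (c0 * Cfsg.hermForm n F q ((g.1 : Matrix (Fin n) (Fin n) F) *ᵥ x) v), ?_⟩
    rw [hg'v, mul_smul, h3, smul_smul, inv_mul_cancel₀ h4, one_smul])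
  refine ⟨c, ?_⟩
  apply ext_mulVec
  intro x
  rw [← hg'v, hc, Matrix.smul_mulVec, Matrix.one_mulVec]

/-- PGU_n(q)/PSU_n(q) is cyclic of order (n, q+1): for n ≥ 2 and |F| = q² there is a surjective homomorphism from GU_n(q) onto the cyclic group of order gcd(n, q + 1) whose kernel is generated by the determinant-one elements together with the centre. -/
theorem result {F : Type*} [Field F] [Fintype F] {q : ℕ} (hF : Fintype.card F = q ^ 2) (n : ℕ) (hn : 2 ≤ n) : ∃ φ : ↥(Cfsg.GU n F q) →* Multiplicative (ZMod (Nat.gcd n (q + 1))), Function.Surjective φ ∧ φ.ker = (Matrix.GeneralLinearGroup.det : Matrix.GeneralLinearGroup (Fin n) F →* Fˣ).ker.subgroupOf (Cfsg.GU n F q) ⊔ Subgroup.center ↥(Cfsg.GU n F q) := by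
  have hne : NeZero n := ⟨by omega⟩
  have hK : Nat.card (powMonoidHom (q + 1) : Fˣ →* Fˣ).ker = q + 1 :=
    Cfsg.Agent.H5.Fld.card_norm_ker hF
  obtain ⟨ψ, hψ, hker⟩ := Cfsg.Agent.H5.Cyc.exists_quot
    (D := (powMonoidHom (q + 1) : Fˣ →* Fˣ).ker) n (q + 1) hK
  refine ⟨ψ.comp (Cfsg.Agent.H5.Unit.detGU n F hF),
    hψ.comp (Cfsg.Agent.H5.Unit.detGU_surjective hF (by omega)), ?_⟩
  apply le_antisymm
  · intro g hg
    rw [MonoidHom.mem_ker, MonoidHom.comp_apply, ← MonoidHom.mem_ker, hker] at hg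
    obtain ⟨u, hu⟩ := hg
    rw [powMonoidHom_apply] at hu
    have hu1 : ((u.1 : Fˣ) : F) ^ (q + 1) = 1 := by
      have := u.2
      rw [MonoidHom.mem_ker, powMonoidHom_apply] at this
      have := congrArg Units.val this
      simpa using this
    have hz0 : (Matrix.GeneralLinearGroup.scalar (Fin n) u.1) ∈ Cfsg.GU n F q := by
      refine Cfsg.Agent.H5.Unit.diag_mem_GU hF (fun _ => u.1) (fun _ => hu1) _ ?_
      rw [Matrix.GeneralLinearGroup.coe_scalar]
      rfl
    have hz : (⟨_, hz0⟩ : Cfsg.GU n F q) ∈ Subgroup.center (Cfsg.GU n F q) := by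
      rw [Subgroup.mem_center_iff]
      intro h
      apply Subtype.ext
      have h3 : Matrix.GeneralLinearGroup.scalar (Fin n) u.1 ∈
          Subgroup.center (GL (Fin n) F) := by
        rw [Matrix.GeneralLinearGroup.center_eq_range_scalar]
        exact ⟨_, rfl⟩
      rw [Subgroup.mem_center_iff] at h3
      exact h3 h.1
    have h5 : g = (g * (⟨_, hz0⟩ : Cfsg.GU n F q)⁻¹) * ⟨_, hz0⟩ := by
      rw [inv_mul_cancel_right]
    rw [h5]
    refine Subgroup.mul_mem_sup ?_ hz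
    rw [Subgroup.mem_subgroupOf, MonoidHom.mem_ker]
    change Matrix.GeneralLinearGroup.det (g.1 * (Matrix.GeneralLinearGroup.scalar (Fin n) u.1)⁻¹) = 1
    rw [map_mul, map_inv, mul_inv_eq_one]
    have h6 := congrArg Subtype.val hu
    change (u.1 ^ n : Fˣ) = Matrix.GeneralLinearGroup.det g.1 at h6
    rw [← h6]
    ext
    simp
  · rw [sup_le_iff]
    constructor
    · intro g hg
      rw [Subgroup.mem_subgroupOf, MonoidHom.mem_ker] at hg
      rw [MonoidHom.mem_ker, MonoidHom.comp_apply]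
      have : Cfsg.Agent.H5.Unit.detGU n F hF g = 1 := Subtype.ext hg
      rw [this, map_one]
    · intro g hg
      obtain ⟨c, hc⟩ := scalar_center hF hn g hg
      have hc0 : c ≠ 0 := by
        rintro rfl
        have h1 := g.1.det.ne_zero
        rw [Matrix.GeneralLinearGroup.val_det_apply, hc, zero_smul, Matrix.det_zero] at h1
        exact h1 rfl
      rw [MonoidHom.mem_ker, MonoidHom.comp_apply, ← MonoidHom.mem_ker, hker]
      have hcq : c ^ (q + 1) = 1 := by
        have h8 := g.2 (Pi.single 0 1) (Pi.single 0 1)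
        change Cfsg.hermForm n F q ((g.1 : Matrix (Fin n) (Fin n) F).mulVec _)
          ((g.1 : Matrix (Fin n) (Fin n) F).mulVec _) = _ at h8
        rw [hc, Matrix.smul_mulVec, Matrix.one_mulVec, Cfsg.Agent.H5.Unit.herm_smul_left,
          Cfsg.Agent.H5.Unit.herm_smul_right, ← mul_assoc, ← pow_succ'] at h8
        have h9 : Cfsg.hermForm n F q (Pi.single 0 1) (Pi.single 0 1) = 1 := by
          rw [Cfsg.Agent.H5.Conc.hermForm_single_left n 0 _
            (by have := Cfsg.Agent.H5.Fld.one_lt_q hF; omega)]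
          simp
        rwa [h9, mul_one] at h8
      have hcK : Units.mk0 c hc0 ∈ (powMonoidHom (q + 1) : Fˣ →* Fˣ).ker := by
        rw [MonoidHom.mem_ker, powMonoidHom_apply]
        ext
        simpa using hcq
      refine ⟨⟨_, hcK⟩, ?_⟩
      apply Subtype.ext
      ext
      change c ^ n = (g.1 : Matrix (Fin n) (Fin n) F).det
      rw [hc]
      simp

end Cfsg.Agent.S0783
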