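import Cfsg.Agent.H16_MatOm
import Cfsg.Statements.S0786
-- import your own Cfsg.Agent.* helpers here

set_option autoImplicit false
open Cfsg

namespace Cfsg.Agent.S0786

open Cfsg.Agent.H16.Quad Module in

/-- Generation by reflections: if F is finite, Q is a quadratic form on F^n with non-degenerate polar form, and (|F|, n) ≠ (2, 4), then the isometry group of Q is generated by the reflections r_v, Q(v) ≠ 0. -/
theorem result {F : Type*} [Field F] [Fintype F] {n : ℕ} (Q : QuadraticForm F (Fin n → F)) (hQ : (QuadraticMap.polarBilin Q).Nondegenerate) (h : Fintype.card F ≠ 2 ∨ n ≠ 4) : Subgroup.closure {g : ↥(Cfsg.isometryGroup F ⇑Q) | ∃ v : Fin n → F, Q v ≠ 0 ∧ ((g : Matrix.GeneralLinearGroup (Fin n) F) : Matrix (Fin n) (Fin n) F) = Cfsg.reflectionMatrix ⇑Q v} = ⊤ := by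
  rw [eq_top_iff]
  rintro g -
  have h' := card_cond (F := F) (ι := Fin n) (n := 4) (by rwa [Fintype.card_fin])
  obtain ⟨vs, hvs, e1, e2⟩ := iso_exists_list hQ h' g
  have key : ∀ ws : List (Fin n → F), (∀ w ∈ ws, Q w ≠ 0) → (toOG Q).symm (rpr Q ws) ∈ Subgroup.closure {g : ↥(Cfsg.isometryGroup F ⇑Q) | ∃ v : Fin n → F, Q v ≠ 0 ∧ ((g : Matrix.GeneralLinearGroup (Fin n) F) : Matrix (Fin n) (Fin n) F) = Cfsg.reflectionMatrix ⇑Q v} := by
    intro ws hws
    induction ws with
    | nil => rw [rpr_nil, map_one]; exact Subgroup.one_mem _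
    | cons w ws ih =>
      rw [rpr_cons, _root_.map_mul]
      refine Subgroup.mul_mem _ (Subgroup.subset_closure ⟨w, hws w List.mem_cons_self, symm_rf_coe Q w⟩)
        (ih fun v hv => hws v (List.mem_cons_of_mem _ hv))
  have := key vs hvs
  rwa [← e1, MulEquiv.symm_apply_apply] at this

end Cfsg.Agent.S0786
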