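import Cfsg.Agent.H16_Idx
import Cfsg.Statements.S0787
-- import your own Cfsg.Agent.* helpers here

set_option autoImplicit false
open Cfsg

namespace Cfsg.Agent.S0787

open Cfsg.Agent.H16.Quad Module in

/-- Existence and uniqueness of Ω: if F is finite, n ≥ 2, Q is a quadratic form on F^n with non-degenerate polar form and (|F|, n) ≠ (2, 4), then the group of isometries of determinant one has a unique subgroup of index 2. -/
theorem result {F : Type*} [Field F] [Fintype F] {n : ℕ} (hn : 2 ≤ n) (Q : QuadraticForm F (Fin n → F)) (hQ : (QuadraticMap.polarBilin Q).Nondegenerate) (h : Fintype.card F ≠ 2 ∨ n ≠ 4) : ∃! H : Subgroup ↥(Cfsg.specialIsometryGroup F ⇑Q), H.index = 2 := by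
  have h' := card_cond (F := F) (ι := Fin n) (n := 4) (by rwa [Fintype.card_fin])
  have hfr : 2 ≤ finrank F (Fin n → F) := by rw [Module.finrank_fin_fun]; exact hn
  obtain ⟨δ, θ, h3, h4, hdet, -⟩ := iso_chars hQ h'
  obtain ⟨SO, hSO⟩ : ∃ SO, SO = Cfsg.specialIsometryGroup F ⇑Q := ⟨_, rfl⟩
  have hmemSO : ∀ g, g ∈ SO ↔ ((g : Matrix.GeneralLinearGroup (Fin n) F) : Matrix (Fin n) (Fin n) F).det = 1 := by
    intro g
    rw [hSO]
    constructor
    · intro h; exact congrArg Units.val (MonoidHom.mem_ker.1 h)
    · intro h; exact MonoidHom.mem_ker.2 (Units.ext h)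
  have hΩSO : Cfsg.Omega F ⇑Q ≤ SO := by
    intro g hg
    rw [hmemSO, hdet, ((h4 g).1 hg).1]; simp
  rw [← hSO]
  have hidx0 : ((Cfsg.Omega F ⇑Q).subgroupOf SO).index = 2 ∧ ∀ H : Subgroup SO, H.index = 2 → Cfsg.Omega F ⇑Q ≤ H.map SO.subtype := by
    by_cases h2 : (2 : F) = 0
    · have hneg : (-1 : F) = 1 := by linear_combination -h2
      have htop : SO = ⊤ := by
        rw [Subgroup.eq_top_iff']
        intro g
        rw [hmemSO]
        rcases iso_det_sq hQ g with h | h
        · exact h
        · rw [h, hneg]
      constructor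
      · have h5 := Subgroup.relIndex_mul_index hΩSO
        rw [Omega_index_two hQ h2 (by omega) h'] at h5
        have h6 : SO.index = 1 := by rw [htop, Subgroup.index_top]
        rw [h6, mul_one] at h5
        exact h5
      · intro H hH
        apply comm_le_of_index_two
        rw [Subgroup.index_map_subtype, hH]
        have h6 : SO.index = 1 := by rw [htop, Subgroup.index_top]
        rw [h6]
    · obtain ⟨v0, hv0⟩ := exists_nonsing hQ (by omega)
      obtain ⟨r0, hr0⟩ := iso_exists_refl (Q := Q) v0
      have hSOi : SO.index = 2 := by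
        have : SO = δ.ker := by
          ext g
          rw [hmemSO, hdet, MonoidHom.mem_ker]
          rcases Int.units_eq_one_or (δ g) with h | h
          · simp [h]
          · rw [h]
            constructor
            · intro h5; exfalso; apply h2
              push_cast at h5
              linear_combination -h5
            · intro h5; exact absurd h5 (by decide)
        have hsurj : Function.Surjective δ := by
          intro a
          rcases Int.units_eq_one_or a with rfl | rfl
          · exact ⟨1, by simp⟩
          · exact ⟨r0, (h3 r0 v0 hv0 hr0).1⟩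
        rw [this, Subgroup.index_ker, MonoidHom.range_eq_top.2 hsurj]
        simp [Nat.card_eq_fintype_card]
      constructor
      · have h5 := Subgroup.relIndex_mul_index hΩSO
        rw [Omega_index_odd hQ h2 hfr, hSOi] at h5
        show (Cfsg.Omega F ⇑Q).relIndex SO = 2
        omega
      · intro H hH
        have hSOn : SO.Normal := Subgroup.normal_of_index_eq_two hSOi
        -- conjugation by a reflection preserves `H`
        have hrefl : ∀ u : Fin n → F, Q u ≠ 0 → ∃ r : Cfsg.isometryGroup F ⇑Q, r = (toOG Q).symm (rf Q u) ∧ r * r = 1 ∧ ∀ w, Q w ≠ 0 → r * (toOG Q).symm (rf Q w) ∈ SO := by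
          intro u hu
          refine ⟨_, rfl, by rw [← _root_.map_mul, rf_sq, map_one], fun w hw => ?_⟩
          rw [hmemSO]
          have e : (((toOG Q).symm (rf Q u) * (toOG Q).symm (rf Q w) : Cfsg.isometryGroup F ⇑Q) : Matrix.GeneralLinearGroup (Fin n) F).1 = Cfsg.reflectionMatrix ⇑Q u * Cfsg.reflectionMatrix ⇑Q w := by
            rw [← symm_rf_coe, ← symm_rf_coe]; rfl
          show ((((toOG Q).symm (rf Q u) * (toOG Q).symm (rf Q w) : Cfsg.isometryGroup F ⇑Q) : Matrix.GeneralLinearGroup (Fin n) F).1).det = 1
          rw [e, Matrix.det_mul, det_reflectionMatrix hu, det_reflectionMatrix hw]; ring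
        have key : ∀ (k : ℕ) (ws : List (Fin n → F)), ws.length = 2 * k → (∀ w ∈ ws, Q w ≠ 0) → ∀ t : Fin n → F, Q t ≠ 0 →
            ∃ hx : (toOG Q).symm (rpr Q ws) ∈ SO, (⟨_, hx⟩ : SO) ∈ H ↔ (⟨_, hSOn.conj_mem _ hx ((toOG Q).symm (rf Q t))⟩ : SO) ∈ H := by
          intro k
          induction k with
          | zero =>
            intro ws hw _ t ht
            have : ws = [] := List.length_eq_zero_iff.1 (by simpa using hw)
            subst this
            have hx : (toOG Q).symm (rpr Q ([] : List (Fin n → F))) ∈ SO := by rw [rpr_nil, map_one]; exact SO.one_mem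
            refine ⟨hx, ?_⟩
            have e1 : (⟨_, hx⟩ : SO) = 1 := Subtype.ext (by
              show (toOG Q).symm (rpr Q ([] : List (Fin n → F))) = 1
              rw [rpr_nil, map_one])
            have e2 : (⟨_, hSOn.conj_mem _ hx ((toOG Q).symm (rf Q t))⟩ : SO) = 1 := Subtype.ext (by
              show (toOG Q).symm (rf Q t) * (toOG Q).symm (rpr Q []) * ((toOG Q).symm (rf Q t))⁻¹ = 1
              rw [rpr_nil, map_one]; simp)
            rw [e1, e2]
          | succ k ih =>
            intro ws hw hws t ht
            match ws, hw, hws with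
            | [], hw, _ => simp at hw
            | [a], hw, _ => exact absurd hw (by simp only [List.length_cons, List.length_nil]; omega)
            | a :: b :: ws, hw, hws =>
              have ha := hws a (by simp)
              have hb := hws b (by simp)
              obtain ⟨hx1, hx2⟩ := ih ws (by simpa [mul_add] using hw) (fun w hw => hws w (by simp [hw])) t ht
              obtain ⟨ra, hra, hra2, hra3⟩ := hrefl a ha
              obtain ⟨rb, hrb, hrb2, hrb3⟩ := hrefl b hb
              obtain ⟨rt, hrt, hrt2, hrt3⟩ := hrefl t ht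
              have hab : ra * rb ∈ SO := by rw [hrb]; exact hra3 b hb
              have hta : rt * ra ∈ SO := by rw [hra]; exact hrt3 a ha
              have hprod : (toOG Q).symm (rpr Q (a :: b :: ws)) = (ra * rb) * (toOG Q).symm (rpr Q ws) := by
                rw [rpr_cons, rpr_cons, ← mul_assoc, _root_.map_mul, _root_.map_mul, hra, hrb]
              have hx : (toOG Q).symm (rpr Q (a :: b :: ws)) ∈ SO := by rw [hprod]; exact SO.mul_mem hab hx1
              refine ⟨hx, ?_⟩
              have ia : ra⁻¹ = ra := inv_eq_of_mul_eq_one_right hra2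
              have ib : rb⁻¹ = rb := inv_eq_of_mul_eq_one_right hrb2
              have it : rt⁻¹ = rt := inv_eq_of_mul_eq_one_right hrt2
              have e1 : (⟨_, hx⟩ : SO) = ⟨ra * rb, hab⟩ * ⟨_, hx1⟩ := Subtype.ext hprod
              have e2 : (⟨_, hSOn.conj_mem _ hx ((toOG Q).symm (rf Q t))⟩ : SO) =
                  (⟨rt * ra, hta⟩ * (⟨ra * rb, hab⟩)⁻¹ * (⟨rt * ra, hta⟩)⁻¹) * ⟨_, hSOn.conj_mem _ hx1 ((toOG Q).symm (rf Q t))⟩ := by
                apply Subtype.ext
                show (toOG Q).symm (rf Q t) * (toOG Q).symm (rpr Q (a :: b :: ws)) * ((toOG Q).symm (rf Q t))⁻¹ =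
                  ((rt * ra) * (ra * rb)⁻¹ * (rt * ra)⁻¹) * ((toOG Q).symm (rf Q t) * (toOG Q).symm (rpr Q ws) * ((toOG Q).symm (rf Q t))⁻¹)
                rw [hprod, ← hrt, mul_inv_rev, mul_inv_rev, ia, ib, it]
                have c1 : rt * ra * (rb * ra) * (ra * rt) = rt * ra * rb * rt := by
                  calc rt * ra * (rb * ra) * (ra * rt) = rt * ra * rb * (ra * ra) * rt := by group
                    _ = _ := by rw [hra2, mul_one]
                rw [c1]
                calc rt * (ra * rb * (toOG Q).symm (rpr Q ws)) * rt = rt * ra * rb * (1 : Cfsg.isometryGroup F ⇑Q) * (toOG Q).symm (rpr Q ws) * rt := by group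
                  _ = rt * ra * rb * (rt * rt) * (toOG Q).symm (rpr Q ws) * rt := by rw [hrt2]
                  _ = _ := by group
              have hHn : H.Normal := Subgroup.normal_of_index_eq_two hH
              rw [e1, e2, Subgroup.mul_mem_iff_of_index_two hH, Subgroup.mul_mem_iff_of_index_two hH, hx2,
                hHn.mem_comm_iff, ← mul_assoc, inv_mul_cancel, one_mul, H.inv_mem_iff]
        have hnorm : (H.map SO.subtype).Normal := by
          rw [← Subgroup.normalizer_eq_top_iff, eq_top_iff]
          have hgen : ∀ ws : List (Fin n → F), (∀ w ∈ ws, Q w ≠ 0) → (toOG Q).symm (rpr Q ws) ∈ Subgroup.normalizer (H.map SO.subtype : Set (Cfsg.isometryGroup F ⇑Q)) := by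
            intro ws
            induction ws with
            | nil => intro _; rw [rpr_nil, map_one]; exact Subgroup.one_mem _
            | cons a ws ih =>
              intro hws
              rw [rpr_cons, _root_.map_mul]
              refine Subgroup.mul_mem _ ?_ (ih fun w hw => hws w (List.mem_cons_of_mem _ hw))
              have ha := hws a List.mem_cons_self
              have hfwd : ∀ x ∈ H.map SO.subtype, (toOG Q).symm (rf Q a) * x * ((toOG Q).symm (rf Q a))⁻¹ ∈ H.map SO.subtype := by
                rintro _ ⟨⟨x, hxS⟩, hxH, rfl⟩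
                obtain ⟨vs, hvs, e1, e2⟩ := iso_exists_list hQ h' x
                have hev : Even vs.length := by
                  have := (hmemSO x).1 hxS
                  rwa [e2, det_prod_refl hvs, neg_one_pow_eq_one_iff_even (fun h => h2 (by linear_combination -h))] at this
                obtain ⟨k, hk⟩ := hev
                obtain ⟨hx, hx2⟩ := key k vs (by omega) hvs a ha
                have hxe : (toOG Q).symm (rpr Q vs) = x := by rw [← e1, MulEquiv.symm_apply_apply]
                simp only [hxe] at hx hx2
                exact ⟨_, hx2.1 hxH, rfl⟩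
              rw [Subgroup.mem_normalizer_iff]
              intro x
              refine ⟨hfwd x, fun hx => ?_⟩
              have h5 := hfwd _ hx
              have h6 : (toOG Q).symm (rf Q a) * (toOG Q).symm (rf Q a) = 1 := by rw [← _root_.map_mul, rf_sq, map_one]
              have h7 : ((toOG Q).symm (rf Q a))⁻¹ = (toOG Q).symm (rf Q a) := inv_eq_of_mul_eq_one_right h6
              rw [h7] at h5
              have h8 : (toOG Q).symm (rf Q a) * ((toOG Q).symm (rf Q a) * x * (toOG Q).symm (rf Q a)) * (toOG Q).symm (rf Q a) = x := by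
                calc _ = ((toOG Q).symm (rf Q a) * (toOG Q).symm (rf Q a)) * x * ((toOG Q).symm (rf Q a) * (toOG Q).symm (rf Q a)) := by group
                  _ = x := by rw [h6]; simp
              rwa [h8] at h5
          intro g _
          obtain ⟨vs, hvs, e1, e2⟩ := iso_exists_list hQ h' g
          have := hgen vs hvs
          rwa [← e1, MulEquiv.symm_apply_apply] at this
        apply comm_le_of_card_four
        rw [Subgroup.index_map_subtype, hH, hSOi]
  refine ⟨(Cfsg.Omega F ⇑Q).subgroupOf SO, hidx0.1, fun H hH => ?_⟩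
  have hle : (Cfsg.Omega F ⇑Q).subgroupOf SO ≤ H := by
    intro x hx
    obtain ⟨y, hy, hyx⟩ := hidx0.2 H hH (Subgroup.mem_subgroupOf.1 hx)
    have : y = x := Subtype.ext hyx
    rwa [← this]
  have h5 := Subgroup.relIndex_mul_index hle
  have hH2 : H.index = 2 := hH
  rw [hH2, hidx0.1] at h5
  have h6 : ((Cfsg.Omega F ⇑Q).subgroupOf SO).relIndex H = 1 := by omega
  exact le_antisymm (Subgroup.relIndex_eq_one.1 h6) hle

end Cfsg.Agent.S0787
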