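import Cfsg.Agent.H16_MatOm
import Cfsg.Statements.S0792
-- import your own Cfsg.Agent.* helpers here

set_option autoImplicit false
open Cfsg

namespace Cfsg.Agent.S0792

open Cfsg.Agent.H16.Quad Module in

/-- For q odd and Q with non-degenerate polar form on F^n, the determinant-one isometries form the subgroup generated by all products r_u r_v of two reflections (Q(u), Q(v) ≠ 0). -/
theorem result {F : Type*} [Field F] [Fintype F] (h2 : (2 : F) ≠ 0) {n : ℕ} (Q : QuadraticForm F (Fin n → F)) (hQ : (QuadraticMap.polarBilin Q).Nondegenerate) : Cfsg.specialIsometryGroup F ⇑Q = Subgroup.closure {g : ↥(Cfsg.isometryGroup F ⇑Q) | ∃ u v : Fin n → F, Q u ≠ 0 ∧ Q v ≠ 0 ∧ ((g : Matrix.GeneralLinearGroup (Fin n) F) : Matrix (Fin n) (Fin n) F) = Cfsg.reflectionMatrix ⇑Q u * Cfsg.reflectionMatrix ⇑Q v} := by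
  have h' : Nat.card F ≠ 2 ∨ finrank F (Fin n → F) ≠ 4 := Or.inl (card_ne_two_of h2)
  apply le_antisymm
  · intro g hg
    obtain ⟨vs, hvs, e1, e2⟩ := iso_exists_list hQ h' g
    have hdet : ((g : Matrix.GeneralLinearGroup (Fin n) F) : Matrix (Fin n) (Fin n) F).det = 1 := by
      have := MonoidHom.mem_ker.1 hg
      exact congrArg Units.val this
    rw [e2, det_prod_refl hvs, neg_one_pow_eq_one_iff_even (fun h => h2 (by linear_combination -h))] at hdet
    have key : ∀ (k : ℕ) (ws : List (Fin n → F)), ws.length = 2 * k → (∀ w ∈ ws, Q w ≠ 0) →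
        (toOG Q).symm (rpr Q ws) ∈ Subgroup.closure {g : ↥(Cfsg.isometryGroup F ⇑Q) | ∃ u v : Fin n → F, Q u ≠ 0 ∧ Q v ≠ 0 ∧ ((g : Matrix.GeneralLinearGroup (Fin n) F) : Matrix (Fin n) (Fin n) F) = Cfsg.reflectionMatrix ⇑Q u * Cfsg.reflectionMatrix ⇑Q v} := by
      intro k
      induction k with
      | zero =>
        intro ws hw _
        have : ws = [] := List.length_eq_zero_iff.1 (by simpa using hw)
        rw [this, rpr_nil, map_one]; exact Subgroup.one_mem _
      | succ k ih =>
        intro ws hw hws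
        match ws, hw, hws with
        | [], hw, _ => simp at hw
        | [a], hw, _ => exact absurd hw (by simp only [List.length_cons, List.length_nil]; omega)
        | a :: b :: ws, hw, hws =>
          rw [rpr_cons, rpr_cons, ← mul_assoc, _root_.map_mul]
          refine Subgroup.mul_mem _ (Subgroup.subset_closure ⟨a, b, hws a (by simp), hws b (by simp), ?_⟩)
            (ih ws (by simpa [mul_add] using hw) (fun w hw => hws w (by simp [hw])))
          rw [_root_.map_mul, ← symm_rf_coe, ← symm_rf_coe]; rfl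
    obtain ⟨k, hk⟩ := hdet
    have := key k vs (by omega) hvs
    rwa [← e1, MulEquiv.symm_apply_apply] at this
  · rw [Subgroup.closure_le]
    rintro g ⟨u, v, hu, hv, hg⟩
    apply MonoidHom.mem_ker.2
    apply Units.ext
    show ((g : Matrix.GeneralLinearGroup (Fin n) F) : Matrix (Fin n) (Fin n) F).det = 1
    rw [hg, Matrix.det_mul, det_reflectionMatrix hu, det_reflectionMatrix hv]; ring

end Cfsg.Agent.S0792
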