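import Cfsg.Agent.H16_Sieg
import Cfsg.Statements.S0794
-- import your own Cfsg.Agent.* helpers here

set_option autoImplicit false
open Cfsg

namespace Cfsg.Agent.S0794

open scoped commutatorElement in
open Cfsg.Agent.H16.Quad Module in

/-- For q odd, n ≥ 5 and Q with non-degenerate polar form: an isometry whose matrix is a Siegel transformation T_(u,v)(c) (u, v singular and orthogonal) is a commutator in the isometry group, so lies in Ω. -/
theorem result {F : Type*} [Field F] [Fintype F] (h2 : (2 : F) ≠ 0) {n : ℕ} (hn : 5 ≤ n) (Q : QuadraticForm F (Fin n → F)) (hQ : (QuadraticMap.polarBilin Q).Nondegenerate) (u v : Fin n → F) (hu : Q u = 0) (hv : Q v = 0) (huv : QuadraticMap.polar ⇑Q u v = 0) (c : F) (g : ↥(Cfsg.isometryGroup F ⇑Q)) (hg : ((g : Matrix.GeneralLinearGroup (Fin n) F) : Matrix (Fin n) (Fin n) F) = Cfsg.siegelMatrix ⇑Q u v c) : g ∈ commutatorSet ↥(Cfsg.isometryGroup F ⇑Q) ∧ g ∈ Cfsg.Omega F ⇑Q := by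
  have hfr : 5 ≤ finrank F (Fin n → F) := by rw [Module.finrank_fin_fun]; exact hn
  have h1 : toOG Q g = sg (u := u) (y := c • v) hu (by rw [polar_smul_right, huv, mul_zero]) :=
    toOG_ext fun w => by rw [hg, siegelMatrix_eq hu hv huv]; rfl
  suffices hcs : ∃ a b : OG Q, ⁅a, b⁆ = toOG Q g by
    obtain ⟨a, b, hab⟩ := hcs
    refine ⟨⟨(toOG Q).symm a, (toOG Q).symm b, ?_⟩, ?_⟩
    · rw [← map_commutatorElement, hab, MulEquiv.symm_apply_apply]
    · rw [mem_Omega_iff, ← hab, commutator_def]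
      exact Subgroup.commutator_mem_commutator (Subgroup.mem_top _) (Subgroup.mem_top _)
  rw [h1]
  by_cases hu0 : u = 0
  · exact ⟨1, 1, by rw [sg_trivial' _ _ hu0]; simp⟩
  by_cases hli : u ∈ Submodule.span F {v}
  · -- `c v` is a multiple of `u`
    obtain ⟨a, ha⟩ := Submodule.mem_span_singleton.1 hli
    have ha0 : a ≠ 0 := by rintro rfl; apply hu0; rw [← ha]; simp
    refine ⟨1, 1, ?_⟩
    rw [sg_trivial _ _ ⟨c * a⁻¹, ?_⟩]
    · simp
    · rw [← ha, smul_smul, mul_assoc, inv_mul_cancel₀ ha0, mul_one]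
  · obtain ⟨u', hu', huu', hvu'⟩ := exists_partner' hQ hu (by rw [polar_symm]; exact huv) hli
    have hu'v : QuadraticMap.polar Q u' v = 0 := by rw [polar_symm]; exact hvu'
    have hz : QuadraticMap.polar Q u ((-(c / 2)) • v) = 0 := by rw [polar_smul_right, huv, mul_zero]
    have hz' : QuadraticMap.polar Q u' ((-(c / 2)) • v) = 0 := by rw [polar_smul_right, hu'v, mul_zero]
    have h3 : QuadraticMap.polar Q u (((-1 : F) - 1) • ((-(c / 2)) • v)) = 0 := by
      rw [polar_smul_right, hz, mul_zero]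
    refine ⟨_, _, (sg_commutator hu hu' huu' hz hz' (neg_ne_zero.2 one_ne_zero) h3).trans (sg_congr rfl ?_)⟩
    rw [smul_smul]
    congr 1
    field_simp
    ring

end Cfsg.Agent.S0794
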