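import Cfsg.Agent.H16_Sieg
import Cfsg.Statements.S0795
-- import your own Cfsg.Agent.* helpers here

set_option autoImplicit false
open Cfsg

namespace Cfsg.Agent.S0795

open Cfsg.Agent.H16.Quad Module in

/-- Generation of Ω by root elements: for q odd, n ≥ 5 and Q with non-degenerate polar form on F^n, the commutator subgroup of the isometry group equals the subgroup generated by the isometries whose matrices are Siegel transformations T_(u,v)(c) with u, v singular and orthogonal. -/
theorem result {F : Type*} [Field F] [Fintype F] (h2 : (2 : F) ≠ 0) {n : ℕ} (hn : 5 ≤ n) (Q : QuadraticForm F (Fin n → F)) (hQ : (QuadraticMap.polarBilin Q).Nondegenerate) : Cfsg.Omega F ⇑Q = Subgroup.closure {g : ↥(Cfsg.isometryGroup F ⇑Q) | ∃ (u v : Fin n → F) (c : F), Q u = 0 ∧ Q v = 0 ∧ QuadraticMap.polar ⇑Q u v = 0 ∧ ((g : Matrix.GeneralLinearGroup (Fin n) F) : Matrix (Fin n) (Fin n) F) = Cfsg.siegelMatrix ⇑Q u v c} := by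
  have hfr : 5 ≤ finrank F (Fin n → F) := by rw [Module.finrank_fin_fun]; exact hn
  have key := commutator_eq_siegS hQ hfr
  ext g
  rw [mem_Omega_iff, key, siegS]
  have e : Subgroup.closure {g : ↥(Cfsg.isometryGroup F ⇑Q) | ∃ (u v : Fin n → F) (c : F), Q u = 0 ∧ Q v = 0 ∧ QuadraticMap.polar ⇑Q u v = 0 ∧ ((g : Matrix.GeneralLinearGroup (Fin n) F) : Matrix (Fin n) (Fin n) F) = Cfsg.siegelMatrix ⇑Q u v c} =
      (Subgroup.closure {g : OG Q | ∃ (u v : Fin n → F) (hu : Q u = 0) (_ : Q v = 0) (huv : QuadraticMap.polar Q u v = 0), g = sg hu huv}).comap (toOG Q).toMonoidHom := by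
    have h1 : ∀ (A : Set (OG Q)), (Subgroup.closure A).comap (toOG Q).toMonoidHom = Subgroup.closure ((toOG Q) ⁻¹' A) := by
      intro A
      have h2 : (Subgroup.closure A).comap (toOG Q).toMonoidHom = (Subgroup.closure A).map (toOG Q).symm.toMonoidHom :=
        Subgroup.comap_equiv_eq_map_symm' (toOG Q) _
      rw [h2, MonoidHom.map_closure]
      congr 1
      ext x
      constructor
      · rintro ⟨a, ha, rfl⟩
        show (toOG Q) ((toOG Q).symm a) ∈ A
        rwa [MulEquiv.apply_symm_apply]
      · intro hx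
        exact ⟨toOG Q x, hx, by simp⟩
    rw [h1]
    congr 1
    ext x
    constructor
    · rintro ⟨u, v, c, hu, hv, huv, hx⟩
      refine ⟨u, c • v, hu, by rw [H16.Quad.map_smul, hv, mul_zero], by rw [polar_smul_right, huv, mul_zero], ?_⟩
      apply toOG_ext
      intro w
      rw [hx, siegelMatrix_eq hu hv huv]
      rfl
    · rintro ⟨u, v, hu, hv, huv, hx⟩
      refine ⟨u, v, 1, hu, hv, huv, ?_⟩
      apply mat_ext
      intro w
      rw [siegelMatrix_eq hu hv huv, ← toOG_apply, hx]
      show siegel hu huv w = _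
      simp only [one_smul]
  rw [e]
  rfl

end Cfsg.Agent.S0795
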