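import Cfsg.Statements.S0796
import Mathlib

set_option autoImplicit false
open Cfsg

namespace Cfsg.Agent.S0796

/-- If G is finite and acts faithfully and primitively on X, H is the stabiliser of a point, A is a normal subgroup of H whose normal closure in G is G, then for every non-trivial normal subgroup K of G the quotient G ⧸ K is isomorphic to A ⧸ B for some normal subgroup B of A. -/
theorem result {G X : Type*} [Group G] [Finite G] [MulAction G X] [FaithfulSMul G X] (hprim : MulAction.IsPreprimitive G X) (x : X) (A : Subgroup G) (hA : A ≤ MulAction.stabilizer G x) (hAn : (A.subgroupOf (MulAction.stabilizer G x)).Normal) (hgen : Subgroup.normalClosure (A : Set G) = ⊤) (K : Subgroup G) [K.Normal] (hK : K ≠ ⊥) : ∃ (B : Subgroup A) (_ : B.Normal), Nonempty (G ⧸ K ≃* A ⧸ B) := by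
  have hq : MulAction.IsQuasiPreprimitive G X := inferInstance
  have hfix : MulAction.fixedPoints K X ≠ ⊤ := by
    intro h
    apply hK
    rw [eq_bot_iff]
    intro k hk
    rw [Subgroup.mem_bot]
    apply FaithfulSMul.eq_of_smul_eq_smul (α := X)
    intro y
    have hy : y ∈ MulAction.fixedPoints K X := by rw [h]; trivial
    rw [one_smul]
    exact hy ⟨k, hk⟩
  have hKt : MulAction.IsPretransitive K X :=
    hq.isPretransitive_of_normal hfix
  have hKA : (K ⊔ A) = ⊤ := by
    have hn : (K ⊔ A).Normal := by
      constructor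
      intro n hn g
      obtain ⟨k, hk⟩ := MulAction.exists_smul_eq K x (g • x)
      have hk' : (k : G) • x = g • x := hk
      set h : G := (k : G)⁻¹ * g with hh
      have hst : h ∈ MulAction.stabilizer G x := by
        rw [MulAction.mem_stabilizer_iff, hh, mul_smul, ← hk', inv_smul_smul]
      have hg : g = k * h := by rw [hh]; group
      -- conjugation by h preserves K ⊔ A
      have h1 : ∀ m ∈ K ⊔ A, h * m * h⁻¹ ∈ K ⊔ A := by
        intro m hm
        have : K ⊔ A ≤ (K ⊔ A).comap (MulAut.conj h).toMonoidHom := by
          rw [sup_le_iff]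
          constructor
          · intro y hy
            rw [Subgroup.mem_comap]
            exact Subgroup.mem_sup_left (Subgroup.Normal.conj_mem ‹K.Normal› y hy h)
          · intro y hy
            rw [Subgroup.mem_comap]
            have := hAn.conj_mem (⟨y, hA hy⟩ : MulAction.stabilizer G x) (by rw [Subgroup.mem_subgroupOf]; exact hy) ⟨h, hst⟩
            rw [Subgroup.mem_subgroupOf] at this
            exact Subgroup.mem_sup_right this
        exact this hm
      have h2 : (k : G) ∈ K ⊔ A := Subgroup.mem_sup_left k.2
      have := (K ⊔ A).mul_mem ((K ⊔ A).mul_mem h2 (h1 n hn)) ((K ⊔ A).inv_mem h2)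
      rw [hg]
      have h3 : (k : G) * h * n * ((k : G) * h)⁻¹ = (k : G) * (h * n * h⁻¹) * (k : G)⁻¹ := by group
      rw [h3]; exact this
    rw [eq_top_iff, ← hgen]
    exact Subgroup.normalClosure_le_normal (fun a ha => Subgroup.mem_sup_right ha)
  set f : A →* G ⧸ K := (QuotientGroup.mk' K).comp A.subtype with hf
  have hsurj : Function.Surjective f := by
    intro y
    obtain ⟨g, rfl⟩ := QuotientGroup.mk'_surjective K y
    have hg : g ∈ K ⊔ A := by rw [hKA]; trivial
    rw [Subgroup.mem_sup_of_normal_left] at hg
    obtain ⟨k, hk, a, ha, rfl⟩ := hg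
    refine ⟨⟨a, ha⟩, ?_⟩
    simp only [hf, MonoidHom.comp_apply, Subgroup.coe_subtype, map_mul]
    have : QuotientGroup.mk' K k = 1 := by
      rw [QuotientGroup.mk'_apply, QuotientGroup.eq_one_iff]; exact hk
    rw [this, one_mul]
  exact ⟨f.ker, inferInstance, ⟨(QuotientGroup.quotientKerEquivOfSurjective f hsurj).symm⟩⟩

end Cfsg.Agent.S0796
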