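import Cfsg.Agent.H16_Idx
import Cfsg.Statements.S0797
-- import your own Cfsg.Agent.* helpers here

set_option autoImplicit false
open Cfsg

namespace Cfsg.Agent.S0797

open Cfsg.Agent.H16.Quad Module in

/-- O^ε_2m(q) ≅ Ω.2² for q odd: if F is finite of odd characteristic, n ≥ 2 is even and Q has non-degenerate polar form on F^n, the isometry group of Q has exactly three subgroups of index 2. -/
theorem result {F : Type*} [Field F] [Fintype F] (h2 : (2 : F) ≠ 0) {n : ℕ} (hn : 2 ≤ n) (heven : Even n) (Q : QuadraticForm F (Fin n → F)) (hQ : (QuadraticMap.polarBilin Q).Nondegenerate) : Nat.card {H : Subgroup ↥(Cfsg.isometryGroup F ⇑Q) // H.index = 2} = 3 := by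
  classical
  have hfr : 2 ≤ finrank F (Fin n → F) := by rw [Module.finrank_fin_fun]; exact hn
  obtain ⟨δ, θ, h3, h4, -⟩ := iso_chars hQ (Or.inl (card_ne_two_of h2))
  obtain ⟨⟨v, hv, hv2⟩, w, hw, hw2⟩ := exists_both hQ h2 hfr
  obtain ⟨r, hr⟩ := iso_exists_refl (Q := Q) v
  obtain ⟨s, hs⟩ := iso_exists_refl (Q := Q) w
  obtain ⟨r1, r2⟩ := h3 r v hv hr
  obtain ⟨s1, s2⟩ := h3 s w hw hs
  have r3 : θ r = 1 := r2.2 hv2
  have s3 : θ s = -1 := by
    rcases Int.units_eq_one_or (θ s) with h | h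
    · exact absurd (s2.1 h) hw2
    · exact h
  have hidx : ∀ (f : Cfsg.isometryGroup F ⇑Q →* ℤˣ), (∃ x, f x = -1) → f.ker.index = 2 := by
    rintro f ⟨x, hx⟩
    have hsurj : Function.Surjective f := by
      intro a
      rcases Int.units_eq_one_or a with rfl | rfl
      · exact ⟨1, by simp⟩
      · exact ⟨x, hx⟩
    rw [Subgroup.index_ker, MonoidHom.range_eq_top.2 hsurj]
    simp [Nat.card_eq_fintype_card]
  -- membership in an index two subgroup only depends on the values
  have hdep : ∀ (H : Subgroup (Cfsg.isometryGroup F ⇑Q)), H.index = 2 → ∀ a b, δ a = δ b → θ a = θ b → (a ∈ H ↔ b ∈ H) := by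
    intro H hH a b h5 h6
    have h7 : a⁻¹ * b ∈ H := by
      apply comm_le_of_index_two hH
      have : a⁻¹ * b ∈ Cfsg.Omega F ⇑Q := by
        rw [h4, _root_.map_mul, _root_.map_mul, map_inv, map_inv, h5, h6]; simp
      exact this
    constructor
    · intro h8
      have := H.mul_mem h8 h7
      rwa [mul_inv_cancel_left] at this
    · intro h8
      have := H.mul_mem h8 (H.inv_mem h7)
      rwa [mul_inv_rev, inv_inv, mul_inv_cancel_left] at this
  have huniq : ∀ (H K : Subgroup (Cfsg.isometryGroup F ⇑Q)), H.index = 2 → K.index = 2 → (r ∈ H ↔ r ∈ K) → (s ∈ H ↔ s ∈ K) → H = K := by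
    intro H K hH hK h5 h6
    ext g
    rcases Int.units_eq_one_or (δ g) with h7 | h7 <;> rcases Int.units_eq_one_or (θ g) with h8 | h8
    · rw [hdep H hH g 1 (by simp [h7]) (by simp [h8]), hdep K hK g 1 (by simp [h7]) (by simp [h8])]
      simp [H.one_mem, K.one_mem]
    · rw [hdep H hH g (r * s) (by simp [h7, r1, s1]) (by simp [h8, r3, s3]), hdep K hK g (r * s) (by simp [h7, r1, s1]) (by simp [h8, r3, s3]),
        Subgroup.mul_mem_iff_of_index_two hH, Subgroup.mul_mem_iff_of_index_two hK, h5, h6]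
    · rw [hdep H hH g r (by simp [h7, r1]) (by simp [h8, r3]), hdep K hK g r (by simp [h7, r1]) (by simp [h8, r3]), h5]
    · rw [hdep H hH g s (by simp [h7, s1]) (by simp [h8, s3]), hdep K hK g s (by simp [h7, s1]) (by simp [h8, s3]), h6]
  have hnot : ∀ (H : Subgroup (Cfsg.isometryGroup F ⇑Q)), H.index = 2 → ¬ (r ∈ H ∧ s ∈ H) := by
    rintro H hH ⟨h5, h6⟩
    have : H = ⊤ := by
      rw [Subgroup.eq_top_iff']
      intro g
      rcases Int.units_eq_one_or (δ g) with h7 | h7 <;> rcases Int.units_eq_one_or (θ g) with h8 | h8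
      · exact (hdep H hH g 1 (by simp [h7]) (by simp [h8])).2 H.one_mem
      · exact (hdep H hH g (r * s) (by simp [h7, r1, s1]) (by simp [h8, r3, s3])).2 (H.mul_mem h5 h6)
      · exact (hdep H hH g r (by simp [h7, r1]) (by simp [h8, r3])).2 h5
      · exact (hdep H hH g s (by simp [h7, s1]) (by simp [h8, s3])).2 h6
    rw [this, Subgroup.index_top] at hH
    exact absurd hH (by decide)
  have i1 := hidx δ ⟨r, r1⟩
  have i2 := hidx θ ⟨s, s3⟩
  have i3 := hidx (δ * θ) ⟨r, by simp [r1, r3]⟩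
  have m1 : r ∉ δ.ker ∧ s ∉ δ.ker := by simp only [MonoidHom.mem_ker, r1, s1]; decide
  have m2 : r ∈ θ.ker ∧ s ∉ θ.ker := by simp only [MonoidHom.mem_ker, r3, s3]; decide
  have m3 : r ∉ (δ * θ).ker ∧ s ∈ (δ * θ).ker := by simp only [MonoidHom.mem_ker, MonoidHom.mul_apply, r1, r3, s1, s3]; decide
  have hset : {H : Subgroup (Cfsg.isometryGroup F ⇑Q) | H.index = 2} = {δ.ker, θ.ker, (δ * θ).ker} := by
    ext H
    simp only [Set.mem_setOf_eq, Set.mem_insert_iff, Set.mem_singleton_iff]
    constructor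
    · intro hH
      by_cases h5 : r ∈ H
      · have h6 : s ∉ H := fun h => hnot H hH ⟨h5, h⟩
        right; left
        exact huniq H _ hH i2 (by simp only [h5, m2.1]) (by simp only [h6, m2.2])
      · by_cases h6 : s ∈ H
        · right; right
          exact huniq H _ hH i3 (by simp only [h5, m3.1]) (by simp only [h6, m3.2])
        · left
          exact huniq H _ hH i1 (by simp only [h5, m1.1]) (by simp only [h6, m1.2])
    · rintro (rfl | rfl | rfl)
      · exact i1
      · exact i2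
      · exact i3
  have hcard : Nat.card {H : Subgroup (Cfsg.isometryGroup F ⇑Q) // H.index = 2} = Set.ncard {H : Subgroup (Cfsg.isometryGroup F ⇑Q) | H.index = 2} := rfl
  rw [hcard, hset, Set.ncard_eq_three]
  refine ⟨_, _, _, ?_, ?_, ?_, rfl⟩
  · intro h; rw [h] at m1; exact m1.1 m2.1
  · intro h; rw [h] at m1; exact m1.2 m3.2
  · intro h; rw [h] at m2; exact m3.1 m2.1

end Cfsg.Agent.S0797
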