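import Cfsg.Statements.S0799
import Mathlib
import Cfsg.Agent.H5_Dk6

set_option autoImplicit false
open Cfsg

namespace Cfsg.Agent.S0799

open Cfsg.Agent.H5 Cfsg.Agent.H5.SL2 Cfsg.Agent.H5.V4 Cfsg.Agent.H5.Dk
open scoped Pointwise

/-- Dickson's classification of the subgroups of PSL_2(q), q a power of the prime p, d = gcd(2, q − 1): every subgroup H is (a) cyclic or dihedral with k dividing (q+1)/d or (q−1)/d (cyclic of order k, or dihedral of order 2k), (b) isomorphic to a subgroup of the normaliser of a Sylow p-subgroup, (c) isomorphic to A_4, S_4 or A_5, or (d) isomorphic to PSL_2(K) or PGL_2(K) for a finite field K with |K|^m = q. -/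
theorem result {F : Type*} [Field F] [Fintype F] {q : ℕ} (hF : Fintype.card F = q) (p : ℕ) [Fact p.Prime] [CharP F p] (H : Subgroup (Matrix.ProjectiveSpecialLinearGroup (Fin 2) F)) : (∃ k : ℕ, (k ∣ (q + 1) / Nat.gcd 2 (q - 1) ∨ k ∣ (q - 1) / Nat.gcd 2 (q - 1)) ∧ ((IsCyclic H ∧ Nat.card H = k) ∨ Nonempty (H ≃* DihedralGroup k))) ∨ (∃ (P : Sylow p (Matrix.ProjectiveSpecialLinearGroup (Fin 2) F)) (K : Subgroup (Matrix.ProjectiveSpecialLinearGroup (Fin 2) F)), K ≤ Subgroup.normalizer ((P : Subgroup (Matrix.ProjectiveSpecialLinearGroup (Fin 2) F)) : Set (Matrix.ProjectiveSpecialLinearGroup (Fin 2) F)) ∧ Nonempty (H ≃* K)) ∨ Nonempty (H ≃* alternatingGroup (Fin 4)) ∨ Nonempty (H ≃* Equiv.Perm (Fin 4)) ∨ Nonempty (H ≃* alternatingGroup (Fin 5)) ∨ (∃ (K : Type) (_ : Field K) (_ : Fintype K) (m : ℕ), Fintype.card K ^ m = q ∧ (Nonempty (H ≃* Matrix.ProjectiveSpecialLinearGroup (Fin 2) K) ∨ Nonempty (H ≃* Matrix.ProjGenLinGroup (Fin 2) K))) := by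
  subst hF
  have hpp : p.Prime := Fact.out
  by_cases hp : p ∣ Nat.card H
  · obtain ⟨g, h | h | h | ⟨e, K0, hS, hc, ht⟩⟩ := hub p H hp
    · right; left
      refine ⟨UbS p, MulAut.conj g • H, ?_, ⟨Subgroup.equivSMul (MulAut.conj g) H⟩⟩
      intro x hx
      obtain ⟨s, rfl⟩ := π_surj x
      have h10 := h s hx
      rw [coe_UbS]
      have hsub : ∀ t : S F, t.1 1 0 = 0 → ∀ y ∈ Ub F, π t * y * (π t)⁻¹ ∈ Ub F := by
        intro t ht y hy
        obtain ⟨z, rfl⟩ := mem_Ub.mp hy
        rw [← map_mul, ← map_inv, ← map_mul, conj_u ht]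
        exact mem_Ub.mpr ⟨_, rfl⟩
      rw [Subgroup.mem_normalizer_iff]
      intro y
      constructor
      · exact hsub s h10 y
      · intro hy
        have h2 := hsub s⁻¹ (by rw [inv10, h10, neg_zero]) _ hy
        rw [map_inv] at h2
        have h3 : (π s)⁻¹ * (π s * y * (π s)⁻¹) * (π s)⁻¹⁻¹ = y := by group
        rw [h3] at h2
        exact h2
    · obtain ⟨-, k, hk, hk'⟩ := h
      exact Or.inl ⟨k, hk, Or.inr hk'⟩
    · right; right; right; right; left
      exact h.2.2
    · right; right; right; right; right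
      obtain ⟨L, _, _, ι, m, hι, hm⟩ := exists_model p K0
      refine ⟨L, inferInstance, inferInstance, m, hm, ?_⟩
      have eH : H ≃* (MulAut.conj g • H : Subgroup _) := Subgroup.equivSMul (MulAut.conj g) H
      rcases sub_final hS (by rw [← hc]; exact card_conj g H) ht ι hι with h1 | h1
      · left; obtain ⟨e1⟩ := h1; exact ⟨eH.trans e1⟩
      · right; obtain ⟨e1⟩ := h1; exact ⟨eH.trans e1⟩
  · letI : Fintype (FiniteField.Extension F p 2) := Fintype.ofFinite _
    classical
    rcases hub_coprime (K := FiniteField.Extension F p 2) p (hsp_ext p) H hp with h | h | h | h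
    · exact Or.inl h
    · exact Or.inr (Or.inr (Or.inl h))
    · exact Or.inr (Or.inr (Or.inr (Or.inl h)))
    · exact Or.inr (Or.inr (Or.inr (Or.inr (Or.inl h))))

end Cfsg.Agent.S0799
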