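import Cfsg.Statements.S0806
import Mathlib
import Cfsg.Agent.H5_DkL

set_option autoImplicit false
open Cfsg

namespace Cfsg.Agent.S0806

open Cfsg.Agent.H5 Cfsg.Agent.H5.SL2 Cfsg.Agent.H5.V4 Cfsg.Agent.H5.Dk
open scoped Pointwise

theorem bound {q d n m i P : ℕ} (hq : 2 ≤ q) (hd : 0 < d) (hP : d * P = q * (q - 1) * (q + 1)) (hi : i * n = P) (h : d * n ≤ q * (q - 1)) : q + 1 ≤ i := by
  by_contra hcon
  push Not at hcon
  have h1 : i * (d * n) = q * (q - 1) * (q + 1) := by rw [← hP, ← hi]; ring
  have h2 : i * (d * n) ≤ q * (q * (q - 1)) := Nat.mul_le_mul (by omega) h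
  have h3 : 0 < q * (q - 1) := Nat.mul_pos (by omega) (by omega)
  have h4 : q * (q - 1) * (q + 1) = q * (q * (q - 1)) + q * (q - 1) := by ring
  omega

/-- Minimal index (Galois): if q ∉ {2, 3, 5, 7, 9, 11} then every proper subgroup of PSL_2(q) has index ≥ q + 1, and some subgroup has index exactly q + 1. -/
theorem result {F : Type*} [Field F] [Fintype F] {q : ℕ} (hF : Fintype.card F = q) (hq : q ∉ ({2, 3, 5, 7, 9, 11} : Finset ℕ)) : (∀ H : Subgroup (Matrix.ProjectiveSpecialLinearGroup (Fin 2) F), H ≠ ⊤ → q + 1 ≤ H.index) ∧ ∃ H : Subgroup (Matrix.ProjectiveSpecialLinearGroup (Fin 2) F), H.index = q + 1 := by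
  subst hF
  have hq1 : 1 < Fintype.card F := Fintype.one_lt_card
  have hPS := card_PS_mul (F := F)
  have hdpos : 0 < Nat.gcd 2 (Fintype.card F - 1) := Nat.gcd_pos_of_pos_left _ (by norm_num)
  have hPpos : 0 < Nat.card (PS F) := Nat.card_pos
  have hcase : (Nat.gcd 2 (Fintype.card F - 1) = 1 ∧ (Fintype.card F = 4 ∨ Fintype.card F = 8 ∨ 16 ≤ Fintype.card F)) ∨ (Nat.gcd 2 (Fintype.card F - 1) = 2 ∧ 13 ≤ Fintype.card F) := by
    simp only [Finset.mem_insert, Finset.mem_singleton, not_or] at hq
    rcases DihPS.gcd_cases (F := F) with ⟨h1, h2⟩ | ⟨h1, h2⟩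
    · left
      refine ⟨h1, ?_⟩
      rcases even_cases h2 with h | h | h | h
      · omega
      · omega
      · omega
      · omega
    · right
      refine ⟨h1, ?_⟩
      omega
  set q := Fintype.card F with hqdef
  set d := Nat.gcd 2 (q - 1) with hddef
  have hq4 : 4 ≤ q := by omega
  have hd2 : d ≤ 2 := by omega
  have e1 : q * (q - 1) = q * q - q := by rw [Nat.mul_sub, mul_one]
  have hqq : q * 4 ≤ q * q := Nat.mul_le_mul_left _ hq4
  constructor
  · intro H hH
    apply bound (q := q) (d := d) (n := Nat.card H) (m := 0) (P := Nat.card (PS F)) (by omega) hdpos hPS H.index_mul_card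
    have hdivP : Nat.card H ∣ Nat.card (PS F) := Subgroup.card_subgroup_dvd_card H
    have hkb : ∀ k : ℕ, (k ∣ (q + 1) / d ∨ k ∣ (q - 1) / d) → d * k ≤ q + 1 := by
      intro k hk
      have h1 : k ≤ (q + 1) / d := by
        rcases hk with hk | hk
        · exact Nat.le_of_dvd (Nat.div_pos (by omega) hdpos) hk
        · have : 0 < (q - 1) / d := Nat.div_pos (by omega) hdpos
          exact (Nat.le_of_dvd this hk).trans (Nat.div_le_div_right (by omega))
      calc d * k ≤ d * ((q + 1) / d) := Nat.mul_le_mul_left _ h1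
        _ ≤ q + 1 := Nat.mul_div_le _ _
    rcases proper_list hqdef.symm hH with ⟨k, hk, h | ⟨⟨e⟩⟩⟩ | ⟨g, hg⟩ | ⟨⟨e⟩⟩ | ⟨⟨e⟩⟩ | ⟨⟨e⟩⟩ | ⟨L, _, _, m, hm, hmq, ⟨e⟩⟩ | ⟨L, _, _, m, hm, hodd, hmq, ⟨e⟩⟩
    · rw [h.2]
      have := hkb k hk
      omega
    · rw [Nat.card_congr e.toEquiv, card_dih]
      have := hkb k hk
      have h2 : d * (2 * k) = 2 * (d * k) := by ring
      rw [h2, e1]
      omega
    · rw [← card_Bb, ← card_conj g H]
      apply Nat.mul_le_mul_left
      exact Nat.le_of_dvd Nat.card_pos (Subgroup.card_dvd_of_le hg)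
    · rw [Nat.card_congr e.toEquiv, card_A4, e1]
      rcases hcase with ⟨h1, h2⟩ | ⟨h1, h2⟩
      · rw [h1]; omega
      · rw [h1]
        have : q * 13 ≤ q * q := Nat.mul_le_mul_left _ h2
        omega
    · rw [Nat.card_congr e.toEquiv, card_S4] at hdivP ⊢
      rw [e1]
      rcases hcase with ⟨h1, h2 | h2 | h2⟩ | ⟨h1, h2⟩
      · exfalso
        rw [h1, h2] at hPS
        omega
      · rw [h1, h2]; norm_num
      · rw [h1]
        have : q * 16 ≤ q * q := Nat.mul_le_mul_left _ h2
        omega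
      · rw [h1]
        have : q * 13 ≤ q * q := Nat.mul_le_mul_left _ h2
        omega
    · have hc5 : Nat.card H = 60 := by rw [Nat.card_congr e.toEquiv, card_A5]
      rw [hc5] at hdivP ⊢
      rw [e1]
      rcases hcase with ⟨h1, h2 | h2 | h2⟩ | ⟨h1, h2⟩
      · exfalso
        apply hH
        apply Subgroup.eq_top_of_card_eq
        rw [hc5]
        rw [h1, h2] at hPS
        have h3 : Nat.card (PS F) = 60 := by omega
        exact h3.symm
      · exfalso
        rw [h1, h2] at hPS
        omega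
      · rw [h1]
        have : q * 16 ≤ q * q := Nat.mul_le_mul_left _ h2
        omega
      · rw [h1]
        have : q * 13 ≤ q * q := Nat.mul_le_mul_left _ h2
        omega
    · have hl1 : 1 < Fintype.card L := Fintype.one_lt_card
      have h1 := card_PS_mul (F := L)
      have h2 : Nat.card (PS L) ≤ Fintype.card L * (Fintype.card L - 1) * (Fintype.card L + 1) := by
        rw [← h1]; exact Nat.le_mul_of_pos_left _ (Nat.gcd_pos_of_pos_left _ (by norm_num))
      rw [Nat.card_congr e.toEquiv]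
      set r := Fintype.card L
      have h3 : r * r ≤ q := by
        rw [← hmq, ← sq]; exact Nat.pow_le_pow_right (by omega) hm
      have h4 : r * r * (r * r - 1) ≤ q * (q - 1) := Nat.mul_le_mul h3 (by omega)
      have h5 : d * (r * (r - 1) * (r + 1)) ≤ r * r * (r * r - 1) := by
        have e2 : r * (r - 1) * (r + 1) = r * (r * r - 1) := by
          have : (r - 1) * (r + 1) = r * r - 1 := by rw [mul_comm, ← Nat.sq_sub_sq, one_pow, sq]
          rw [mul_assoc, this]
        rw [e2, mul_assoc r r]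
        exact Nat.mul_le_mul (by omega) le_rfl
      calc d * Nat.card (PS L) ≤ d * (r * (r - 1) * (r + 1)) := Nat.mul_le_mul_left _ h2
        _ ≤ _ := h5.trans h4
    · have hl1 : 1 < Fintype.card L := Fintype.one_lt_card
      rw [Nat.card_congr e.toEquiv, card_PGL2]
      set r := Fintype.card L
      have h3 : r * r ≤ q := by
        rw [← hmq, ← sq]; exact Nat.pow_le_pow_right (by omega) hm
      have h4 : r * r * (r * r - 1) ≤ q * (q - 1) := Nat.mul_le_mul h3 (by omega)
      have h5 : d * (r * (r - 1) * (r + 1)) ≤ r * r * (r * r - 1) := by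
        have e2 : r * (r - 1) * (r + 1) = r * (r * r - 1) := by
          have : (r - 1) * (r + 1) = r * r - 1 := by rw [mul_comm, ← Nat.sq_sub_sq, one_pow, sq]
          rw [mul_assoc, this]
        rw [e2, mul_assoc r r]
        exact Nat.mul_le_mul (by omega) le_rfl
      exact h5.trans h4
  · refine ⟨Bb F, ?_⟩
    have h1 := card_Bb (F := F)
    have h2 := (Bb F).index_mul_card
    rw [← h2] at hPS
    have h3 : (Bb F).index * (q * (q - 1)) = (q + 1) * (q * (q - 1)) := by
      rw [← h1]
      calc (Bb F).index * (d * Nat.card (Bb F)) = d * ((Bb F).index * Nat.card (Bb F)) := by ring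
        _ = q * (q - 1) * (q + 1) := hPS
        _ = (q + 1) * (d * Nat.card (Bb F)) := by rw [h1]; ring
    exact Nat.eq_of_mul_eq_mul_right (Nat.mul_pos (by omega) (by omega)) h3

end Cfsg.Agent.S0806
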