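import Cfsg.Statements.S0808
import Mathlib
import Cfsg.Agent.H5_V4e
import Cfsg.Agent.S0276

set_option autoImplicit false
open Cfsg

namespace Cfsg.Agent.S0808

open Cfsg.Agent.H5.V4 Cfsg.Agent.H5.SL2 Cfsg.Agent.H5.SL2Quat Cfsg.Agent.H5

theorem map_klein {G : Type*} [Group G] {a b : G} (h : IsCPair a b) (g : G) (h' : IsCPair (g * a * g⁻¹) (g * b * g⁻¹)) :
    klein h' = (klein h).map (MulAut.conj g).toMonoidHom := by
  ext x
  rw [mem_klein]
  constructor
  · intro hx
    refine ⟨g⁻¹ * x * g, ?_, ?_⟩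
    · change g⁻¹ * x * g ∈ klein h
      rw [mem_klein]
      rcases hx with rfl | rfl | rfl | rfl
      · left; group
      · right; left; group
      · right; right; left; group
      · right; right; right; group
    · change g * (g⁻¹ * x * g) * g⁻¹ = x; group
  · rintro ⟨y, hy, rfl⟩
    change g * y * g⁻¹ = 1 ∨ g * y * g⁻¹ = _ ∨ g * y * g⁻¹ = _ ∨ g * y * g⁻¹ = _
    rcases (mem_klein h y).mp hy with rfl | rfl | rfl | rfl
    · left; group
    · right; left; rfl
    · right; right; left; rfl
    · right; right; right; group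

/-- conjugacy of pairs -/
def R {F : Type*} [Field F] (p q : S F × S F) : Prop := ∃ g : S F, g * p.1 * g⁻¹ = q.1 ∧ g * p.2 * g⁻¹ = q.2

theorem R.trans {F : Type*} [Field F] {p q r : S F × S F} (h : R p q) (h' : R q r) : R p r := by
  obtain ⟨g, h1, h2⟩ := h
  obtain ⟨k, h3, h4⟩ := h'
  refine ⟨k * g, ?_, ?_⟩
  · rw [← h3, ← h1]; group
  · rw [← h4, ← h2]; group

theorem R.symm {F : Type*} [Field F] {p q : S F × S F} (h : R p q) : R q p := by
  obtain ⟨g, h1, h2⟩ := h
  refine ⟨g⁻¹, ?_, ?_⟩
  · rw [← h1]; group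
  · rw [← h2]; group

theorem R.pair {F : Type*} [Field F] [Fintype F] {p q : S F × S F} (h : R p q) (hp : IsPair p.1 p.2) : IsPair q.1 q.2 := by
  obtain ⟨g, h1, h2⟩ := h
  rw [← h1, ← h2]; exact hp.conj g

theorem sign_iff {F : Type*} [Field F] [Fintype F] {s t x y : S F} (h : IsPair s t) (hx : x = s ∨ x = -s) (hy : y = t ∨ y = -t) :
    R (s, t) (x, y) := by
  rcases hx with rfl | rfl <;> rcases hy with rfl | rfl
  · exact ⟨1, by simp, by simp⟩
  · exact ⟨x, h.sign1.1, h.sign1.2⟩
  · exact ⟨y, h.sign2.1, h.sign2.2⟩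
  · refine ⟨s * t, ?_, ?_⟩
    · calc s * t * s * (s * t)⁻¹ = s * (t * s * t⁻¹) * s⁻¹ := by group
        _ = -s := by rw [h.sign2.1]; simp
    · calc s * t * t * (s * t)⁻¹ = s * (t * t * t⁻¹) * s⁻¹ := by group
        _ = -t := by rw [h.sign2.2, h.sign1.2]

theorem card_orbit {F : Type*} [Field F] [Fintype F] (hF : Odd (Fintype.card F)) {s t : S F} (h : IsPair s t) :
    Nat.card (S F) = Nat.card {p : S F × S F // R (s, t) p} * 2 := by
  have h2 := two_ne_zero' hF
  have h1 := card_eq_card_orbit_mul (G := ConjAct (S F)) (X := S F × S F) (s, t) {p | R (s, t) p} (by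
    intro y
    constructor
    · rintro ⟨g, hg1, hg2⟩
      exact ⟨ConjAct.toConjAct g, Prod.ext hg1 hg2⟩
    · rintro ⟨g, rfl⟩; exact ⟨ConjAct.ofConjAct g, rfl, rfl⟩)
  have e1 : Nat.card (ConjAct (S F)) = Nat.card (S F) := rfl
  rw [e1] at h1
  rw [h1]
  congr 1
  have e2 : ((MulAction.stabilizer (ConjAct (S F)) ((s, t) : S F × S F) : Subgroup (ConjAct (S F))) : Set (ConjAct (S F))) =
      {ConjAct.toConjAct 1, ConjAct.toConjAct (-1)} := by
    ext g
    rw [SetLike.mem_coe, MulAction.mem_stabilizer_iff]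
    constructor
    · intro hg
      have h3 : ConjAct.ofConjAct g * s * (ConjAct.ofConjAct g)⁻¹ = s := congrArg Prod.fst hg
      have h4 : ConjAct.ofConjAct g * t * (ConjAct.ofConjAct g)⁻¹ = t := congrArg Prod.snd hg
      rcases h.cent hF (mul_inv_eq_iff_eq_mul.mp h3) (mul_inv_eq_iff_eq_mul.mp h4) with h5 | h5
      · left; exact congrArg ConjAct.toConjAct h5
      · right; exact congrArg ConjAct.toConjAct h5
    · rintro (rfl | rfl)
      · apply Prod.ext
        · change 1 * s * 1⁻¹ = s; simp
        · change 1 * t * 1⁻¹ = t; simp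
      · apply Prod.ext
        · change (-1) * s * (-1)⁻¹ = s; simp
        · change (-1) * t * (-1)⁻¹ = t; simp
  have e3 : Nat.card (MulAction.stabilizer (ConjAct (S F)) ((s, t) : S F × S F)) =
    ((MulAction.stabilizer (ConjAct (S F)) ((s, t) : S F × S F) : Subgroup (ConjAct (S F))) : Set (ConjAct (S F))).ncard := rfl
  rw [e3, e2]
  apply Set.ncard_pair
  intro h'
  exact neg_one_ne h2 (ConjAct.toConjAct.injective h').symm

/-- Conjugacy classes of four-groups in PSL_2(q), q odd: if q ≡ 3 or 5 (mod 8) all Klein four-subgroups are conjugate; if q ≡ 1 or 7 (mod 8) there are two Klein four-subgroups which are not conjugate, and every Klein four-subgroup is conjugate to one of them. -/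
theorem result {F : Type*} [Field F] [Fintype F] {q : ℕ} (hF : Fintype.card F = q) (hodd : Odd q) : ((q % 8 = 3 ∨ q % 8 = 5) → ∀ V W : Subgroup (Matrix.ProjectiveSpecialLinearGroup (Fin 2) F), IsKleinFour V → IsKleinFour W → ∃ g : Matrix.ProjectiveSpecialLinearGroup (Fin 2) F, W = V.map (MulAut.conj g).toMonoidHom) ∧ ((q % 8 = 1 ∨ q % 8 = 7) → ∃ V₁ V₂ : Subgroup (Matrix.ProjectiveSpecialLinearGroup (Fin 2) F), IsKleinFour V₁ ∧ IsKleinFour V₂ ∧ (¬ ∃ g : Matrix.ProjectiveSpecialLinearGroup (Fin 2) F, V₂ = V₁.map (MulAut.conj g).toMonoidHom) ∧ ∀ W : Subgroup (Matrix.ProjectiveSpecialLinearGroup (Fin 2) F), IsKleinFour W → (∃ g : Matrix.ProjectiveSpecialLinearGroup (Fin 2) F, W = V₁.map (MulAut.conj g).toMonoidHom) ∨ (∃ g : Matrix.ProjectiveSpecialLinearGroup (Fin 2) F, W = V₂.map (MulAut.conj g).toMonoidHom)) := by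
  have hF' : Odd (Fintype.card F) := by rw [hF]; exact hodd
  have h2 := two_ne_zero' hF'
  refine ⟨?_, ?_⟩
  · intro hq V W hV hW
    have hS : ∀ P : Sylow 2 (PS F), Nat.card P = 4 := fun P => (Cfsg.Agent.S0276.result hF hq P).card_four
    have key : ∀ V : Subgroup (PS F), IsKleinFour V → ∃ P : Sylow 2 (PS F), V = P := by
      intro V hV
      have hp : IsPGroup 2 V := IsPGroup.of_card (n := 2) (by rw [hV.card_four]; norm_num)
      obtain ⟨P, hP⟩ := hp.exists_le_sylow
      exact ⟨P, Subgroup.eq_of_le_of_card_ge hP (by rw [hS P, hV.card_four])⟩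
    obtain ⟨P, rfl⟩ := key V hV
    obtain ⟨Q, rfl⟩ := key W hW
    obtain ⟨g, hg⟩ := MulAction.exists_smul_eq (PS F) P Q
    exact ⟨g, by rw [← hg]; rfl⟩
  · intro hq
    have hsq : IsSquare (2 : F) := by
      rw [FiniteField.isSquare_two_iff, hF]; omega
    obtain ⟨ρ, hρ⟩ := hsq
    have hρ := hρ.symm
    have hswap : ∀ s t : S F, IsPair s t → R (s, t) (t, s) := by
      intro s t h
      obtain ⟨r, h1, h3⟩ := h.swap hF' hρ
      exact ⟨r, h1, h3⟩
    have hcyc : ∀ s t : S F, IsPair s t → R (s, t) (t, s * t) := by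
      intro s t h
      obtain ⟨r, h1, h3, -⟩ := h.cyc hF'
      exact ⟨r, h1, h3⟩
    -- all pairs over the same four-group are conjugate
    have hall : ∀ s t x y : S F, IsPair s t → ∀ (hc : IsCPair (π s) (π t)), IsPair x y → π x ∈ klein hc → π y ∈ klein hc →
        R (s, t) (x, y) := by
      intro s t x y h hc hxy hx hy
      have hst1 := hcyc s t h
      have hpt : IsPair t (s * t) := hst1.pair h
      have hst2 := hcyc t (s * t) hpt
      have hpt2 : IsPair (s * t) (t * (s * t)) := hst2.pair hpt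
      have hts : t * (s * t) = s := by
        calc t * (s * t) = (t * s) * t := by group
          _ = -(s * t) * t := by rw [h.st, neg_neg]
          _ = -(s * (t * t)) := by simp [mul_assoc]
          _ = s := by rw [h.tt]; simp
      rw [hts] at hpt2 hst2
      have hxx := hxy.toCPair h2
      have c1 : ∀ x s : S F, π x = π s → x = s ∨ x = -s := fun x s h => π_eq.mp h
      rcases (mem_klein hc _).mp hx with hx | hx | hx | hx
      · exact absurd hx hxx.a1
      · rcases (mem_klein hc _).mp hy with hy | hy | hy | hy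
        · exact absurd hy hxx.b1
        · exact absurd (hx.trans hy.symm) hxx.ne
        · exact sign_iff h (c1 _ _ hx) (c1 _ _ hy)
        · -- (s, st)
          rw [← map_mul] at hy
          have h5 : R (s, t) (s, s * t) := (hst1.trans hst2).trans (hswap _ _ hpt2)
          exact h5.trans (sign_iff (h5.pair h) (c1 _ _ hx) (c1 _ _ hy))
      · rcases (mem_klein hc _).mp hy with hy | hy | hy | hy
        · exact absurd hy hxx.b1
        · have h5 := hswap s t h
          exact h5.trans (sign_iff (h5.pair h) (c1 _ _ hx) (c1 _ _ hy))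
        · exact absurd (hx.trans hy.symm) hxx.ne
        · rw [← map_mul] at hy
          exact hst1.trans (sign_iff hpt (c1 _ _ hx) (c1 _ _ hy))
      · rw [← map_mul] at hx
        rcases (mem_klein hc _).mp hy with hy | hy | hy | hy
        · exact absurd hy hxx.b1
        · have h5 := hst1.trans hst2
          exact h5.trans (sign_iff hpt2 (c1 _ _ hx) (c1 _ _ hy))
        · have h5 := hst1.trans (hswap _ _ hpt)
          exact h5.trans (sign_iff (h5.pair h) (c1 _ _ hx) (c1 _ _ hy))
        · rw [← map_mul] at hy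
          exact absurd (hx.trans hy.symm) hxx.ne
    -- two orbits
    obtain ⟨s₁, t₁, hp1⟩ := exists_pair hF'
    have hcount := card_pairs hF'
    obtain ⟨s₂, t₂, hp2, hnR⟩ : ∃ s₂ t₂ : S F, IsPair s₂ t₂ ∧ ¬ R (s₁, t₁) (s₂, t₂) := by
      by_contra hcon
      push Not at hcon
      have h1 := card_orbit hF' hp1
      have h3 : Nat.card {p : S F × S F // R (s₁, t₁) p} = Nat.card {p : S F × S F // IsPair p.1 p.2} := by
        apply Nat.card_congr
        apply Equiv.subtypeEquivRight
        intro p
        exact ⟨fun h => h.pair hp1, fun h => hcon p.1 p.2 h⟩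
      rw [h3, hcount] at h1
      have : 0 < Nat.card (S F) := Nat.card_pos
      omega
    have hcov : ∀ s t : S F, IsPair s t → R (s₁, t₁) (s, t) ∨ R (s₂, t₂) (s, t) := by
      classical
      intro s t h
      by_contra hcon
      push Not at hcon
      have h1 := card_orbit hF' hp1
      have h3 := card_orbit hF' hp2
      have h4 := card_orbit hF' h
      let A : Set (S F × S F) := {p | R (s₁, t₁) p}
      let B : Set (S F × S F) := {p | R (s₂, t₂) p}
      let C : Set (S F × S F) := {p | R (s, t) p}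
      let T : Set (S F × S F) := {p | IsPair p.1 p.2}
      have hAB : Disjoint A B := Set.disjoint_left.mpr (fun p hA hB => hnR (hA.trans hB.symm))
      have hABC : Disjoint (A ∪ B) C := Set.disjoint_left.mpr (fun p hAB hC => by
        rcases hAB with hA | hB
        · exact hcon.1 (R.trans hA hC.symm)
        · exact hcon.2 (R.trans hB hC.symm))
      have hsub : (A ∪ B) ∪ C ⊆ T := by
        rintro p ((hA | hB) | hC)
        · exact R.pair hA hp1
        · exact R.pair hB hp2
        · exact R.pair hC h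
      have h5 := Set.ncard_le_ncard hsub (Set.toFinite _)
      rw [Set.ncard_union_eq hABC, Set.ncard_union_eq hAB] at h5
      have e1 : A.ncard = Nat.card {p : S F × S F // R (s₁, t₁) p} := rfl
      have e2 : B.ncard = Nat.card {p : S F × S F // R (s₂, t₂) p} := rfl
      have e3 : C.ncard = Nat.card {p : S F × S F // R (s, t) p} := rfl
      have e4 : T.ncard = Nat.card {p : S F × S F // IsPair p.1 p.2} := rfl
      rw [e1, e2, e3, e4, hcount] at h5
      have : 0 < Nat.card (S F) := Nat.card_pos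
      omega
    have hc1 := hp1.toCPair h2
    have hc2 := hp2.toCPair h2
    have hconj : ∀ s t s' t' : S F, ∀ (h : IsCPair (π s) (π t)) (h' : IsCPair (π s') (π t')), R (s, t) (s', t') →
        ∃ g : PS F, klein h' = (klein h).map (MulAut.conj g).toMonoidHom := by
      rintro s t s' t' h h' ⟨g, hg1, hg2⟩
      refine ⟨π g, ?_⟩
      simp only at hg1 hg2
      subst hg1; subst hg2
      have e1 : IsCPair (π g * π s * (π g)⁻¹) (π g * π t * (π g)⁻¹) := by
        simpa only [map_mul, map_inv] using h'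
      rw [← map_klein h (π g) e1]
      congr 1 <;> simp only [map_mul, map_inv]
    refine ⟨klein hc1, klein hc2, isKleinFour_klein _, isKleinFour_klein _, ?_, ?_⟩
    · rintro ⟨g, hg⟩
      obtain ⟨g, rfl⟩ := π_surj g
      -- pull back the second pair
      have hx : π (g⁻¹ * s₂ * g) ∈ klein hc1 := by
        have h1 : π s₂ ∈ klein hc2 := Or.inr (Or.inl rfl)
        rw [hg] at h1
        obtain ⟨y, hy, hy'⟩ := h1
        have hy' : π g * y * (π g)⁻¹ = π s₂ := hy'
        have : π (g⁻¹ * s₂ * g) = y := by rw [map_mul, map_mul, map_inv, ← hy']; group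
        rw [this]; exact hy
      have hy : π (g⁻¹ * t₂ * g) ∈ klein hc1 := by
        have h1 : π t₂ ∈ klein hc2 := Or.inr (Or.inr (Or.inl rfl))
        rw [hg] at h1
        obtain ⟨y, hy, hy'⟩ := h1
        have hy' : π g * y * (π g)⁻¹ = π t₂ := hy'
        have : π (g⁻¹ * t₂ * g) = y := by rw [map_mul, map_mul, map_inv, ← hy']; group
        rw [this]; exact hy
      have hp' : IsPair (g⁻¹ * s₂ * g) (g⁻¹ * t₂ * g) := by
        have := hp2.conj g⁻¹
        simpa using this
      have h3 := hall s₁ t₁ _ _ hp1 hc1 hp' hx hy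
      apply hnR
      refine h3.trans ⟨g, ?_, ?_⟩
      · simp only; group
      · simp only; group
    · intro W hW
      obtain ⟨a, b, ha, hb, hab⟩ := exists_cpair hW
      obtain ⟨s, rfl⟩ := π_surj a
      obtain ⟨t, rfl⟩ := π_surj b
      have hst := IsPair.of_cpair h2 hab
      rw [eq_klein hW ha hb hab]
      rcases hcov s t hst with h | h
      · left; exact hconj _ _ _ _ hc1 hab h
      · right; exact hconj _ _ _ _ hc2 hab h

end Cfsg.Agent.S0808
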