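import Cfsg.Statements.S0809
import Mathlib
import Cfsg.Agent.H5_V4b

set_option autoImplicit false
open Cfsg

namespace Cfsg.Agent.S0809

open Cfsg.Agent.H5.V4 Cfsg.Agent.H5.SL2 Cfsg.Agent.H5.SL2Quat

/-- In SL_2(q), q odd: any two subgroups of order 4 are conjugate, and the normaliser of a subgroup of order 4 has order 2(q − 1) if q ≡ 1 (mod 4) and 2(q + 1) if q ≡ 3 (mod 4); consequently all involutions of PSL_2(q) are conjugate. -/
theorem result {F : Type*} [Field F] [Fintype F] {q : ℕ} (hF : Fintype.card F = q) (hodd : Odd q) (A : Subgroup (Matrix.SpecialLinearGroup (Fin 2) F)) (hA : Nat.card A = 4) : (∀ B : Subgroup (Matrix.SpecialLinearGroup (Fin 2) F), Nat.card B = 4 → ∃ g : Matrix.SpecialLinearGroup (Fin 2) F, B = A.map (MulAut.conj g).toMonoidHom) ∧ (q % 4 = 1 → Nat.card ↥(Subgroup.normalizer (A : Set (Matrix.SpecialLinearGroup (Fin 2) F))) = 2 * (q - 1)) ∧ (q % 4 = 3 → Nat.card ↥(Subgroup.normalizer (A : Set (Matrix.SpecialLinearGroup (Fin 2) F))) = 2 * (q + 1)) ∧ (∀ x y : Matrix.ProjectiveSpecialLinearGroup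 (Fin 2) F, orderOf x = 2 → orderOf y = 2 → IsConj x y) := by
  have hF' : Odd (Fintype.card F) := by rw [hF]; exact hodd
  have h2 := two_ne_zero' hF'
  obtain ⟨t, htt, hm⟩ := order4 h2 A hA
  refine ⟨?_, ?_, ?_, ?_⟩
  · intro B hB
    obtain ⟨s, hss, hmB⟩ := order4 h2 B hB
    obtain ⟨g, hg⟩ := conj_of_sq hF' htt hss
    refine ⟨g, ?_⟩
    ext x
    rw [hmB]
    constructor
    · intro hx
      refine ⟨g⁻¹ * x * g, ?_, ?_⟩
      · change g⁻¹ * x * g ∈ A
        rw [hm]
        rcases hx with rfl | rfl | rfl | rfl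
        · left; group
        · right; left; simp
        · right; right; left; rw [hg]; group
        · right; right; right; rw [hg]
          calc g⁻¹ * -(g * t * g⁻¹) * g = -(g⁻¹ * (g * t * g⁻¹) * g) := by simp
            _ = -t := by congr 1; group
      · change g * (g⁻¹ * x * g) * g⁻¹ = x
        group
    · rintro ⟨y, hy, rfl⟩
      change y ∈ A at hy
      rw [hm] at hy
      change g * y * g⁻¹ = 1 ∨ g * y * g⁻¹ = -1 ∨ g * y * g⁻¹ = s ∨ g * y * g⁻¹ = -s
      rcases hy with rfl | rfl | rfl | rfl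
      · left; group
      · right; left; simp
      · right; right; left; rw [hg]
      · right; right; right; rw [hg]; simp
  · intro h
    rw [card_norm hF' A hA, (card_circle hF' one_ne_zero).1 (by rw [hF]; exact h), hF]
  · intro h
    rw [card_norm hF' A hA, (card_circle hF' one_ne_zero).2 (by rw [hF]; exact h), hF]
  · intro x y hx hy
    obtain ⟨s, rfl⟩ := π_surj x
    obtain ⟨r, rfl⟩ := π_surj y
    have hs := lift_inv h2 (g := s) (fun h => by rw [h] at hx; simp at hx) (by
      have := pow_orderOf_eq_one (π s); rw [hx, sq] at this; exact this)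
    have hr := lift_inv h2 (g := r) (fun h => by rw [h] at hy; simp at hy) (by
      have := pow_orderOf_eq_one (π r); rw [hy, sq] at this; exact this)
    obtain ⟨g, hg⟩ := conj_of_sq hF' hs hr
    rw [isConj_iff]
    refine ⟨π g, ?_⟩
    rw [hg, map_mul, map_mul, map_inv]

end Cfsg.Agent.S0809
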