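import Cfsg.Statements.S0810
import Mathlib
import Cfsg.Agent.H5_DkM
import Cfsg.Agent.S0804
import Cfsg.Agent.S0144
import Cfsg.Agent.H5_VD
import Cfsg.Agent.H5_FF

set_option autoImplicit false
open Cfsg

namespace Cfsg.Agent.S0810

open Cfsg.Agent.H5 Cfsg.Agent.H5.SL2 Cfsg.Agent.H5.V4 Cfsg.Agent.H5.Dk
open scoped Pointwise

theorem solv_dih {G : Type*} [Group G] {k : ℕ} (e : G ≃* DihedralGroup k) : Group.IsSolvable G := by
  have h1 : Group.IsSolvable (DihedralGroup k) := by
    let f : Multiplicative (ZMod k) →* DihedralGroup k :=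
      { toFun := fun i => DihedralGroup.r i.toAdd
        map_one' := rfl
        map_mul' := fun i j => by rw [DihedralGroup.r_mul_r]; rfl }
    let g : DihedralGroup k →* ℤˣ :=
      { toFun := fun x => match x with
          | .r _ => 1
          | .sr _ => -1
        map_one' := rfl
        map_mul' := by
          rintro (i | i) (j | j)
          · change (1 : ℤˣ) = 1 * 1; rfl
          · change (-1 : ℤˣ) = 1 * (-1); rfl
          · change (-1 : ℤˣ) = (-1) * 1; rfl
          · change (1 : ℤˣ) = (-1) * (-1); rfl }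
    apply Group.isSolvable_of_ker_le_range f g
    rintro (i | i) hi
    · exact ⟨Multiplicative.ofAdd i, rfl⟩
    · rw [MonoidHom.mem_ker] at hi
      have hi : (-1 : ℤˣ) = 1 := hi
      exact absurd hi (by decide)
  exact Group.isSolvable_of_isSolvable_injective (f := e.toMonoidHom) e.injective

theorem solv_Bs {F : Type*} [Field F] : Group.IsSolvable (Bs F) := by
  let f : Multiplicative F →* Bs F :=
    { toFun := fun x => ⟨u x.toAdd, by rw [mem_Bs]; simp⟩
      map_one' := Subtype.ext u_zero
      map_mul' := fun x y => Subtype.ext (u_mul _ _).symm }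
  let g : Bs F →* Fˣ :=
    { toFun := fun s => ⟨s.1.1 0 0, s.1.1 1 1, by
        have hd := det_eq s.1
        rw [mem_Bs.mp s.2, mul_zero, sub_zero] at hd
        exact hd, by
        have hd := det_eq s.1
        rw [mem_Bs.mp s.2, mul_zero, sub_zero] at hd
        rw [mul_comm]; exact hd⟩
      map_one' := Units.ext one00
      map_mul' := by
        intro s t
        apply Units.ext
        change (s.1 * t.1 : SL2.S F).1 0 0 = s.1.1 0 0 * t.1.1 0 0
        rw [mul00, mem_Bs.mp t.2]; ring }
  apply Group.isSolvable_of_ker_le_range f g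
  intro s hs
  rw [MonoidHom.mem_ker] at hs
  have h00 : s.1.1 0 0 = 1 := congrArg Units.val hs
  have hd := det_eq s.1
  rw [mem_Bs.mp s.2, mul_zero, sub_zero, h00, one_mul] at hd
  refine ⟨Multiplicative.ofAdd (s.1.1 0 1), Subtype.ext ?_⟩
  exact ext2 (by rw [h00]; rfl) rfl (by rw [mem_Bs.mp s.2]; rfl) (by rw [hd]; rfl)

theorem solv_Bb {F : Type*} [Field F] : Group.IsSolvable (Bb F) := by
  have := solv_Bs (F := F)
  exact Group.isSolvable_of_surjective (f := (π (F := F)).subgroupMap (Bs F)) (MonoidHom.subgroupMap_surjective _ _)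

theorem solv_of_equiv {G H : Type*} [Group G] [Group H] (e : G ≃* H) (h : Group.IsSolvable H) : Group.IsSolvable G :=
  Group.isSolvable_of_isSolvable_injective (f := e.toMonoidHom) e.injective

/-- `PSL_2(F)` is not commutative -/
theorem noncomm {F : Type*} [Field F] : ¬ ∀ a b : PS F, a * b = b * a := by
  intro h
  have h1 := h (π (u 1)) (π (l 1))
  rw [← map_mul, ← map_mul, π_eq] at h1
  rcases h1 with h1 | h1
  · have := congrArg (fun m : SL2.S F => m.1 0 0) h1
    simp [mul00] at this
  · have e00 := congrArg (fun m : SL2.S F => m.1 0 0) h1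
    have e01 := congrArg (fun m : SL2.S F => m.1 0 1) h1
    simp only [mul00, mul01, neg00, neg01, u00, u01, u10, u11, l00, l01, l10, l11] at e00 e01
    have h2 : (1 : F) = 0 := by linear_combination e00 - e01
    exact one_ne_zero h2

theorem not_solv {F : Type*} [Field F] [Fintype F] (h : 4 ≤ Fintype.card F) : ¬ Group.IsSolvable (PS F) := by
  intro hs
  have hsim : IsSimpleGroup (PS F) := Matrix.ProjectiveSpecialLinearGroup.rank_two_simple (by rw [Nat.card_eq_fintype_card]; exact h)
  exact noncomm (IsSimpleGroup.comm_iff_isSolvable.mpr hs)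

theorem not_solv_A5 {G : Type*} [Group G] (e : G ≃* alternatingGroup (Fin 5)) : ¬ Group.IsSolvable G := by
  intro hs
  have h1 : Group.IsSolvable (alternatingGroup (Fin 5)) := solv_of_equiv e.symm hs
  have h2 := IsSimpleGroup.comm_iff_isSolvable.mpr h1
  have h3 := h2 VD.eA VD.eB
  have h4 : (VD.eA * VD.eB) ^ 6 = 1 := by
    have hc : Commute VD.eA VD.eB := h3
    rw [hc.mul_pow]
    have ha : VD.eA ^ 6 = 1 := by
      rw [show 6 = 2 * 3 by norm_num, pow_mul, sq, VD.eA2, one_pow]
    have hb : VD.eB ^ 6 = 1 := by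
      rw [show 6 = 3 * 2 by norm_num, pow_mul, show VD.eB ^ 3 = VD.eB * VD.eB * VD.eB by rw [pow_succ, sq], VD.eB3, one_pow]
    rw [ha, hb, one_mul]
  have h5 := VD.eAB5
  apply VD.eAB_ne
  calc VD.eA * VD.eB = (VD.eA * VD.eB) ^ 6 * ((VD.eA * VD.eB) ^ 5)⁻¹ := by group
    _ = 1 := by rw [h4, h5]; group

theorem subfield_pow {p r k m : ℕ} (hp : p.Prime) (hr : r.Prime) (hm : 2 ≤ m) (h : k ^ m = p ^ r) : k = p := by
  have h1 : k ∣ p ^ r := by rw [← h]; exact dvd_pow_self k (by omega)
  obtain ⟨j, hj, rfl⟩ := (Nat.dvd_prime_pow hp).mp h1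
  rw [← pow_mul] at h
  have h2 := Nat.pow_right_injective hp.two_le h
  have h3 : m ∣ r := ⟨j, by rw [mul_comm]; exact h2.symm⟩
  rcases (Nat.dvd_prime hr).mp h3 with h4 | h4
  · omega
  · subst h4
    have : j = 1 := Nat.eq_of_mul_eq_mul_right (show 0 < m by omega) (by rw [one_mul]; exact h2)
    rw [this, pow_one]

theorem solv_PS_small {L : Type*} [Field L] [Fintype L] (h : Fintype.card L = 2 ∨ Fintype.card L = 3) : Group.IsSolvable (PS L) := by
  have h1 := card_PS_mul (F := L)
  rcases h with h | h
  · rw [h] at h1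
    have h2 : Nat.card (PS L) = 6 := by
      have : Nat.gcd 2 (2 - 1) = 1 := rfl
      rw [this] at h1; omega
    exact S0144.result 2 3 1 1 Nat.prime_two Nat.prime_three (by rw [h2]; norm_num)
  · rw [h] at h1
    have h2 : Nat.card (PS L) = 12 := by
      have : Nat.gcd 2 (3 - 1) = 2 := rfl
      rw [this] at h1; omega
    exact S0144.result 2 3 2 1 Nat.prime_two Nat.prime_three (by rw [h2]; norm_num)

theorem solv_PGL_small {L : Type*} [Field L] [Fintype L] (h : Fintype.card L = 2 ∨ Fintype.card L = 3) :
    Group.IsSolvable (Matrix.ProjGenLinGroup (Fin 2) L) := by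
  have h1 := card_PGL2 (L := L)
  have hfin : Finite (Matrix.ProjGenLinGroup (Fin 2) L) := inferInstanceAs (Finite (GL (Fin 2) L ⧸ _))
  rcases h with h | h
  · rw [h] at h1
    exact S0144.result 2 3 1 1 Nat.prime_two Nat.prime_three (by rw [h1]; norm_num)
  · rw [h] at h1
    exact S0144.result 2 3 3 1 Nat.prime_two Nat.prime_three (by rw [h1]; norm_num)

theorem finish {F : Type*} [Field F] [Fintype F] (h4 : 4 ≤ Fintype.card F) (h5 : Nat.card (PS F) = 60 ∨ ¬ 5 ∣ Fintype.card F * (Fintype.card F ^ 2 - 1))
    (hsub : ∀ k m : ℕ, 2 ≤ m → 2 ≤ k → k ^ m = Fintype.card F → k = 2 ∨ k = 3) :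
    Cfsg.IsMinimalSimple (PS F) := by
  refine ⟨Matrix.ProjectiveSpecialLinearGroup.rank_two_simple (by rw [Nat.card_eq_fintype_card]; exact h4), ?_, ?_⟩
  · intro h
    exact noncomm (isMulCommutative_iff.mp h)
  · intro H hH
    rcases proper_list rfl hH with ⟨k', hk', h | ⟨⟨e'⟩⟩⟩ | ⟨g, hg⟩ | ⟨⟨e'⟩⟩ | ⟨⟨e'⟩⟩ | ⟨⟨e'⟩⟩ | ⟨L, _, _, m, hm, hmq, ⟨e'⟩⟩ | ⟨L, _, _, m, hm, hodd, hmq, ⟨e'⟩⟩
    · have := h.1
      apply Group.isSolvable_of_comm
      intro a b
      have := IsCyclic.commGroup (α := H)
      obtain ⟨g, hg⟩ := h.1.exists_generator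
      obtain ⟨i, rfl⟩ := hg a
      obtain ⟨j, rfl⟩ := hg b
      change g ^ i * g ^ j = g ^ j * g ^ i
      rw [← zpow_add, ← zpow_add, add_comm]
    · exact solv_dih e'
    · have h1 := solv_Bb (F := F)
      have e1 : H ≃* (MulAut.conj g • H : Subgroup _) := Subgroup.equivSMul (MulAut.conj g) H
      apply solv_of_equiv e1
      exact Group.isSolvable_of_isSolvable_injective (f := Subgroup.inclusion hg) (Subgroup.inclusion_injective hg)
    · exact S0144.result 2 3 2 1 Nat.prime_two Nat.prime_three (by rw [Nat.card_congr e'.toEquiv, card_A4]; norm_num)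
    · exact S0144.result 2 3 3 1 Nat.prime_two Nat.prime_three (by rw [Nat.card_congr e'.toEquiv, card_S4]; norm_num)
    · exfalso
      rcases h5 with h5 | h5
      · apply hH
        apply Subgroup.eq_top_of_card_eq
        rw [Nat.card_congr e'.toEquiv, card_A5]
        exact h5.symm
      · apply h5
        exact (S0804.result (F := F) rfl).mp ⟨H, ⟨e'⟩⟩
    · exact solv_of_equiv e' (solv_PS_small (hsub _ m hm Fintype.one_lt_card hmq))
    · exact solv_of_equiv e' (solv_PGL_small (hsub _ m hm Fintype.one_lt_card hmq))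

theorem sub_false {F : Type*} [Field F] [Fintype F] (hms : Cfsg.IsMinimalSimple (PS F)) {p n r : ℕ} (hp : p.Prime) (hn : Fintype.card F = p ^ n)
    (hr : r ∣ n) (hr1 : r ≠ n) (hr0 : r ≠ 0) (hn0 : n ≠ 0) : p ^ r < 4 := by
  by_contra hcon
  push Not at hcon
  have : Fact p.Prime := ⟨hp⟩
  let K := GaloisField p r
  letI : Fintype K := Fintype.ofFinite K
  have hK : Fintype.card K = p ^ r := by
    rw [← Nat.card_eq_fintype_card, GaloisField.card p r hr0]
  obtain ⟨c, hc⟩ := hr
  have hc0 : c ≠ 0 := by rintro rfl; exact hn0 hc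
  obtain ⟨ι, -⟩ := FF.exists_embedding (F := F) (K := K) (q := p ^ r) (r := c) hK (by rw [hn, hc, pow_mul]) hc0
  have hlt : Fintype.card K < Fintype.card F := by
    rw [hK, hn]
    apply Nat.pow_lt_pow_right hp.one_lt
    have : r ≤ n := by rw [hc]; exact Nat.le_mul_of_pos_right _ (Nat.pos_of_ne_zero hc0)
    omega
  have hne : (ψ 1 ι).range ≠ ⊤ := by
    intro h
    have h1 : Nat.card (PS K) = Nat.card (PS F) := by
      rw [Nat.card_congr (ψe 1 ι).toEquiv, h, Subgroup.card_top]
    have h2 := card_PS_mul (F := K)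
    have h3 := card_PS_mul (F := F)
    rw [h1, gcd_sub (F := F) (L := K) (m := c) (by omega) (by rw [hK, hn, hc, pow_mul]), h3] at h2
    have hK1 : 1 < Fintype.card K := Fintype.one_lt_card
    have h4 : Fintype.card K * (Fintype.card K - 1) * (Fintype.card K + 1) < Fintype.card F * (Fintype.card F - 1) * (Fintype.card F + 1) := by
      apply Nat.mul_lt_mul_of_le_of_lt
      · exact Nat.mul_le_mul hlt.le (by omega)
      · omega
      · exact Nat.mul_pos (by omega) (by omega)
    omega
  exact not_solv (F := K) (by rw [hK]; exact hcon) (solv_of_equiv (ψe 1 ι) (hms.2.2 _ hne))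

/-- PSL_2(q) is minimal simple iff q is 2^r (r prime), 3^r (r an odd prime), a prime greater than 5 congruent to 2 or 3 mod 5, or 5. -/
theorem result {F : Type*} [Field F] [Fintype F] {q : ℕ} (hF : Fintype.card F = q) : Cfsg.IsMinimalSimple (Matrix.ProjectiveSpecialLinearGroup (Fin 2) F) ↔ ((∃ r : ℕ, r.Prime ∧ q = 2 ^ r) ∨ (∃ r : ℕ, r.Prime ∧ r ≠ 2 ∧ q = 3 ^ r) ∨ (q.Prime ∧ 5 < q ∧ (q % 5 = 2 ∨ q % 5 = 3)) ∨ q = 5) := by
  subst hF
  have hq1 : 1 < Fintype.card F := Fintype.one_lt_card
  obtain ⟨p, hp⟩ := CharP.exists F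
  have hpp : Fact p.Prime := ⟨CharP.char_is_prime F p⟩
  have hppr := hpp.out
  obtain ⟨n, hn, hqn⟩ := GL2.exists_card_eq (F := F) p
  constructor
  · intro hms
    have hge : 4 ≤ Fintype.card F := by
      by_contra hcon
      have h1 : Group.IsSolvable (PS F) := solv_PS_small (by omega)
      have := hms.1
      exact hms.2.1 (isMulCommutative_iff.mpr (IsSimpleGroup.comm_iff_isSolvable.mpr h1))
    have hA5 : 5 ∣ Fintype.card F * (Fintype.card F ^ 2 - 1) → Nat.card (PS F) = 60 := by
      intro h
      obtain ⟨H, ⟨e⟩⟩ := (S0804.result (F := F) rfl).mpr h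
      by_cases hH : H = ⊤
      · subst hH
        have : Nat.card (⊤ : Subgroup (PS F)) = 60 := by rw [Nat.card_congr e.toEquiv, card_A5]
        rwa [Subgroup.card_top] at this
      · exact absurd (hms.2.2 H hH) (not_solv_A5 e)
    rcases Nat.lt_or_ge 1 n with h1 | h1
    · -- proper subfields
      set r := n.minFac with hr
      have hrp : r.Prime := Nat.minFac_prime (by omega)
      obtain ⟨c, hc⟩ : r ∣ n := Nat.minFac_dvd n
      have hc0 : c ≠ 0 := by rintro rfl; omega
      have hcn : c ≠ n := by
        intro h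
        rw [h] at hc
        have h2 : 2 * n ≤ r * n := Nat.mul_le_mul_right _ hrp.two_le
        omega
      have h2 := sub_false hms hppr hqn (r := c) ⟨r, by rw [mul_comm]; exact hc⟩ hcn hc0 (by omega)
      have hc1 : c = 1 := by
        by_contra hne
        have h3 : 2 ^ 2 ≤ p ^ c := (Nat.pow_le_pow_left hppr.two_le 2).trans (Nat.pow_le_pow_right hppr.pos (by omega))
        omega
      rw [hc1, mul_one] at hc
      rw [hc1, pow_one] at h2
      have hp2 := hppr.two_le
      have : p = 2 ∨ p = 3 := by omega
      rcases this with h3 | h3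
      · left
        exact ⟨r, hrp, by rw [hqn, h3, hc]⟩
      · right; left
        refine ⟨r, hrp, ?_, by rw [hqn, h3, hc]⟩
        intro h4
        have hq9 : Fintype.card F = 9 := by rw [hqn, h3, hc, h4]; norm_num
        have h5 := hA5 (by rw [hq9]; norm_num)
        have h6 := card_PS_mul (F := F)
        rw [h5, hq9] at h6
        have : Nat.gcd 2 (9 - 1) = 2 := rfl
        rw [this] at h6
        omega
    · have hn1 : n = 1 := by omega
      rw [hn1, pow_one] at hqn
      right; right
      by_cases h5 : p = 5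
      · right; rw [hqn, h5]
      · left
        refine ⟨by rw [hqn]; exact hppr, ?_, ?_⟩
        · rw [hqn] at hge ⊢
          by_contra hcon
          have : p = 4 := by omega
          rw [this] at hppr
          exact absurd hppr (by norm_num)
        · by_contra hcon
          push Not at hcon
          have h6 : 5 ∣ Fintype.card F * (Fintype.card F ^ 2 - 1) := by
            have h7 : Fintype.card F % 5 = 0 ∨ Fintype.card F % 5 = 1 ∨ Fintype.card F % 5 = 4 := by omega
            rcases h7 with h7 | h7 | h7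
            · exact (Nat.dvd_of_mod_eq_zero h7).mul_right _
            · apply Dvd.dvd.mul_left
              have h8 : (Fintype.card F ^ 2) % 5 = 1 := by rw [Nat.pow_mod, h7]
              omega
            · apply Dvd.dvd.mul_left
              have h8 : (Fintype.card F ^ 2) % 5 = 1 := by rw [Nat.pow_mod, h7]
              omega
          have h9 := hA5 h6
          have h10 := card_PS_mul (F := F)
          rw [h9] at h10
          have hq6 : 6 ≤ Fintype.card F := by
            rw [hqn] at hge ⊢
            by_contra hcon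
            have : p = 4 := by omega
            rw [this] at hppr
            exact absurd hppr (by norm_num)
          have h11 : 6 * 5 * 7 ≤ Fintype.card F * (Fintype.card F - 1) * (Fintype.card F + 1) :=
            Nat.mul_le_mul (Nat.mul_le_mul hq6 (by omega)) (by omega)
          have h12 : Nat.gcd 2 (Fintype.card F - 1) ≤ 2 := Nat.gcd_le_left _ (by norm_num)
          have h13 : Nat.gcd 2 (Fintype.card F - 1) * 60 ≤ 2 * 60 := Nat.mul_le_mul_right _ h12
          omega
  · rintro (⟨r, hr, hq⟩ | ⟨r, hr, hr2, hq⟩ | ⟨hq, hq5, hqm⟩ | hq)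
    · apply finish
      · rw [hq]
        calc 4 = 2 ^ 2 := by norm_num
          _ ≤ 2 ^ r := Nat.pow_le_pow_right (by norm_num) hr.two_le
      · rcases hr.eq_two_or_odd' with h2 | h2
        · left
          have h3 := card_PS_mul (F := F)
          rw [hq, h2] at h3
          have : Nat.gcd 2 (2 ^ 2 - 1) = 1 := rfl
          rw [this] at h3
          omega
        · right
          obtain ⟨j, hj⟩ := h2
          have h4 : (2 ^ r) ^ 2 = 16 ^ j * 4 := by
            rw [hj, ← pow_mul, show (16 : ℕ) = 2 ^ 4 by norm_num, show (4 : ℕ) = 2 ^ 2 by norm_num, ← pow_mul, ← pow_add]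
            congr 1; ring
          intro h5
          rw [hq] at h5
          rcases Nat.prime_five.dvd_mul.mp h5 with h6 | h6
          · have := (Nat.prime_dvd_prime_iff_eq Nat.prime_five Nat.prime_two).mp (Nat.prime_five.dvd_of_dvd_pow h6)
            omega
          · have h7 : (16 ^ j * 4) % 5 = 4 := by
              rw [Nat.mul_mod, Nat.pow_mod]; norm_num
            rw [h4] at h6
            omega
      · intro k m hm hk h
        rw [hq] at h
        exact Or.inl (subfield_pow Nat.prime_two hr hm h)
    · apply finish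
      · rw [hq]
        calc 4 ≤ 3 ^ 2 := by norm_num
          _ ≤ 3 ^ r := Nat.pow_le_pow_right (by norm_num) hr.two_le
      · right
        obtain ⟨j, hj⟩ := hr.eq_two_or_odd'.resolve_left hr2
        have h4 : (3 ^ r) ^ 2 = 81 ^ j * 9 := by
          rw [hj, ← pow_mul, show (81 : ℕ) = 3 ^ 4 by norm_num, show (9 : ℕ) = 3 ^ 2 by norm_num, ← pow_mul, ← pow_add]
          congr 1; ring
        intro h5
        rw [hq] at h5
        rcases Nat.prime_five.dvd_mul.mp h5 with h6 | h6
        · have := (Nat.prime_dvd_prime_iff_eq Nat.prime_five Nat.prime_three).mp (Nat.prime_five.dvd_of_dvd_pow h6)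
          omega
        · have h7 : (81 ^ j * 9) % 5 = 4 := by
            rw [Nat.mul_mod, Nat.pow_mod]; norm_num
          rw [h4] at h6
          omega
      · intro k m hm hk h
        rw [hq] at h
        exact Or.inr (subfield_pow Nat.prime_three hr hm h)
    · apply finish
      · omega
      · right
        intro h5
        rcases Nat.prime_five.dvd_mul.mp h5 with h6 | h6
        · omega
        · have h8 : (Fintype.card F ^ 2) % 5 = 4 := by
            rw [Nat.pow_mod]
            rcases hqm with h | h <;> rw [h]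
          omega
      · intro k m hm hk h
        exfalso
        have h7 : k ∣ Fintype.card F := by rw [← h]; exact dvd_pow_self k (by omega)
        rcases (Nat.dvd_prime hq).mp h7 with h8 | h8
        · omega
        · rw [← h8] at h
          have h9 : k ^ 1 < k ^ m := Nat.pow_lt_pow_right (by omega) (by omega)
          rw [pow_one] at h9
          omega
    · apply finish
      · omega
      · left
        have h3 := card_PS_mul (F := F)
        rw [hq] at h3
        have : Nat.gcd 2 (5 - 1) = 2 := rfl
        rw [this] at h3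
        omega
      · intro k m hm hk h
        exfalso
        rw [hq] at h
        have h7 : k ∣ 5 := by rw [← h]; exact dvd_pow_self k (by omega)
        rcases (Nat.dvd_prime Nat.prime_five).mp h7 with h8 | h8
        · omega
        · rw [h8] at h
          have h9 : 5 ^ 1 < 5 ^ m := Nat.pow_lt_pow_right (by omega) (by omega)
          rw [pow_one] at h9
          omega

end Cfsg.Agent.S0810
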