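import Cfsg.Statements.S0811
import Mathlib
import Cfsg.Agent.H5_DkM

set_option autoImplicit false
open Cfsg

namespace Cfsg.Agent.S0811

open Cfsg.Agent.H5 Cfsg.Agent.H5.SL2 Cfsg.Agent.H5.V4 Cfsg.Agent.H5.Dk
open scoped Pointwise

theorem aux {q : ℕ} (h : 2 ≤ q) : q * (q - 1) = (q + 1) * (q - 2) + 2 := by
  obtain ⟨y, rfl⟩ : ∃ y, q = y + 2 := ⟨q - 2, by omega⟩
  rw [Nat.add_sub_cancel, show y + 2 - 1 = y + 1 by omega]; ring

/-- For q ∉ {2, 7, 9}, PSL_2(q) has a maximal subgroup isomorphic to the dihedral group of order 2(q + 1)/d, d = gcd(2, q − 1). -/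
theorem result {F : Type*} [Field F] [Fintype F] {q : ℕ} (hF : Fintype.card F = q) (hq : q ∉ ({2, 7, 9} : Finset ℕ)) : ∃ H : Subgroup (Matrix.ProjectiveSpecialLinearGroup (Fin 2) F), IsCoatom H ∧ Nonempty (H ≃* DihedralGroup ((q + 1) / Nat.gcd 2 (q - 1))) := by
  subst hF
  have hq1 : 1 < Fintype.card F := Fintype.one_lt_card
  have hPS := card_PS_mul (F := F)
  have hdpos : 0 < Nat.gcd 2 (Fintype.card F - 1) := Nat.gcd_pos_of_pos_left _ (by norm_num)
  have hPpos : 0 < Nat.card (PS F) := Nat.card_pos
  have hdc := DihPS.gcd_cases (F := F)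
  simp only [Finset.mem_insert, Finset.mem_singleton, not_or] at hq
  have hev : Fintype.card F % 2 = 0 → Fintype.card F = 2 ∨ Fintype.card F = 4 ∨ Fintype.card F = 8 ∨ 16 ≤ Fintype.card F := even_cases
  obtain ⟨H, ⟨e⟩⟩ := DihPS.exists_dihedral_add (F := F)
  refine ⟨H, ?_, ⟨e⟩⟩
  have hlist := fun M (hM : M ≠ ⊤) => proper_list (F := F) rfl (M := M) hM
  have hle := fun k => le_of_list (F := F) (k := k)
  have hBb := card_Bb (F := F)
  have hgs : ∀ (L : Type) [Field L] [Fintype L] (m : ℕ), 1 ≤ m → Fintype.card L ^ m = Fintype.card F → Nat.gcd 2 (Fintype.card L - 1) = Nat.gcd 2 (Fintype.card F - 1) :=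
    fun L _ _ m hm h => gcd_sub hm h
  set q := Fintype.card F with hqdef
  set d := Nat.gcd 2 (q - 1) with hddef
  set k := (q + 1) / d with hk
  have hdk : d * k = q + 1 := by
    rw [hk]
    apply Nat.mul_div_cancel'
    rcases hdc with h | h
    · rw [h.1]; exact one_dvd _
    · rw [h.1]; omega
  have hkpos : 0 < k := by
    rcases Nat.eq_zero_or_pos k with h | h
    · rw [h] at hdk; omega
    · exact h
  have hkne : NeZero k := ⟨by omega⟩
  have hcH : Nat.card H = 2 * k := by rw [Nat.card_congr e.toEquiv, card_dih]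
  have hq3 : 3 ≤ q := by omega
  have hqq : q * 3 ≤ q * q := Nat.mul_le_mul_left _ hq3
  have e1 : q * (q - 1) = q * q - q := by rw [Nat.mul_sub, mul_one]
  constructor
  · intro h
    rw [h, Subgroup.card_top] at hcH
    have hcH : Nat.card (PS F) = 2 * k := hcH
    rw [hcH] at hPS
    have h1 : d * (2 * k) = 2 * (q + 1) := by rw [← hdk]; ring
    rw [h1] at hPS
    have h2 := Nat.eq_of_mul_eq_mul_right (show 0 < q + 1 by omega) hPS
    omega
  · intro M hHM
    by_contra hM
    have hdivP : Nat.card M ∣ Nat.card (PS F) := Subgroup.card_subgroup_dvd_card M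
    have hdvd : 2 * k ∣ Nat.card M := by rw [← hcH]; exact Subgroup.card_dvd_of_le hHM.le
    have hne : Nat.card M ≠ 2 * k := by
      intro h
      have := Subgroup.eq_of_le_of_card_ge hHM.le (by rw [hcH, h])
      exact hHM.ne this
    have hMpos : 0 < Nat.card M := Nat.card_pos
    have hge : 2 * (2 * k) ≤ Nat.card M := by
      obtain ⟨c, hc⟩ := hdvd
      rw [hc] at hne hMpos ⊢
      have : 2 ≤ c := by
        by_contra hcon
        interval_cases c <;> omega
      calc 2 * (2 * k) = 2 * k * 2 := by ring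
        _ ≤ 2 * k * c := Nat.mul_le_mul_left _ this
    have hdq : ∀ n : ℕ, 2 * (q + 1) ∣ n → n ≤ q * q → q + 1 ∣ n := fun n h _ => (dvd_mul_left _ _).trans h
    have hsub : ∀ (L : Type) [Field L] [Fintype L] (m : ℕ), 2 ≤ m → Fintype.card L ^ m = q →
        ¬ (q + 1 ∣ Fintype.card L * (Fintype.card L - 1) * (Fintype.card L + 1)) := by
      intro L _ _ m hm hmq hd
      have hl1 : 1 < Fintype.card L := Fintype.one_lt_card
      rw [sq_sub_eq] at hd
      have hcop : Nat.Coprime (q + 1) (Fintype.card L) := by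
        rw [← hmq]
        have h1 : Fintype.card L ∣ Fintype.card L ^ m := dvd_pow_self _ (by omega)
        obtain ⟨c, hc⟩ := h1
        rw [hc, Nat.coprime_mul_left_add_left]
        exact Nat.coprime_one_left _
      have h2 := hcop.dvd_of_dvd_mul_left hd
      have h3 : Fintype.card L * Fintype.card L ≤ q := by
        rw [← hmq, ← sq]; exact Nat.pow_le_pow_right (by omega) hm
      have h4 : 1 < Fintype.card L * Fintype.card L := by nlinarith
      have := Nat.le_of_dvd (by omega) h2
      omega
    rcases hlist M hM with ⟨k', hk', h | ⟨⟨e'⟩⟩⟩ | ⟨g, hg⟩ | ⟨⟨e'⟩⟩ | ⟨⟨e'⟩⟩ | ⟨⟨e'⟩⟩ | ⟨L, _, _, m, hm, hmq, ⟨e'⟩⟩ | ⟨L, _, _, m, hm, hodd, hmq, ⟨e'⟩⟩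
    · have h1 := hle k' hk'
      rw [← hdk] at h1
      have h2 := Nat.le_of_mul_le_mul_left h1 hdpos
      rw [h.2] at hge
      omega
    · have h1 := hle k' hk'
      rw [← hdk] at h1
      have h2 := Nat.le_of_mul_le_mul_left h1 hdpos
      rw [Nat.card_congr e'.toEquiv, card_dih] at hge
      omega
    · have h1 : Nat.card M ∣ Nat.card (Bb F) := by
        rw [← card_conj g M]; exact Subgroup.card_dvd_of_le hg
      have h2 : d * (2 * k) ∣ q * (q - 1) := by
        rw [← hBb]; exact Nat.mul_dvd_mul_left _ (hdvd.trans h1)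
      have h3 : q + 1 ∣ q * (q - 1) := by
        have : d * (2 * k) = (q + 1) * 2 := by rw [← hdk]; ring
        rw [this] at h2
        exact (dvd_mul_right _ _).trans h2
      have h4 : q * (q - 1) = (q + 1) * (q - 2) + 2 := aux (by omega)
      rw [h4] at h3
      have h5 := (Nat.dvd_add_right (dvd_mul_right _ _)).mp h3
      have := Nat.le_of_dvd (by norm_num) h5
      omega
    · obtain ⟨φ, hφ⟩ := dih_in hHM.le e e'
      rw [Nat.card_congr e'.toEquiv, card_A4] at hge hdivP
      rcases dih_A4 φ hφ with h | h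
      · rw [h] at hdk
        rcases hdc with h1 | h1 <;> omega
      · rw [h] at hdk
        have h3 : q = 3 := by rcases hdc with h1 | h1 <;> omega
        apply hM
        apply Subgroup.eq_top_of_card_eq
        rw [Nat.card_congr e'.toEquiv, card_A4]
        have h4 : d = 2 := by rcases hdc with h1 | h1 <;> omega
        rw [h3, h4] at hPS
        have h5 : Nat.card (PS F) = 12 := by omega
        exact h5.symm
    · obtain ⟨φ, hφ⟩ := dih_in hHM.le e e'
      rw [Nat.card_congr e'.toEquiv, card_S4] at hge hdivP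
      have h := dih_S4 φ hφ
      rcases hdc with h1 | h1
      · rw [h1.1, one_mul] at hdk
        omega
      · rw [h1.1] at hdk hPS
        have : q = 3 ∨ q = 5 := by omega
        rcases this with h3 | h3
        · rw [h3] at hPS
          have h5 : Nat.card (PS F) = 12 := by omega
          rw [h5] at hdivP
          omega
        · rw [h3] at hPS
          have h5 : Nat.card (PS F) = 60 := by omega
          rw [h5] at hdivP
          omega
    · obtain ⟨φ, hφ⟩ := dih_in hHM.le e e'
      have hc5 : Nat.card M = 60 := by rw [Nat.card_congr e'.toEquiv, card_A5]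
      rw [hc5] at hge hdivP
      have hPne : Nat.card (PS F) ≠ 60 := by
        intro h
        apply hM
        apply Subgroup.eq_top_of_card_eq
        rw [hc5]; exact h.symm
      have h := dih_A5 φ hφ
      rcases hdc with h1 | h1
      · rw [h1.1, one_mul] at hdk
        have h2 : q = 4 := by omega
        rw [h1.1, h2] at hPS
        omega
      · rw [h1.1] at hdk hPS
        have : q = 3 ∨ q = 5 := by omega
        rcases this with h3 | h3
        · rw [h3] at hPS
          have h5 : Nat.card (PS F) = 12 := by omega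
          rw [h5] at hdivP
          omega
        · rw [h3] at hPS
          have h5 : Nat.card (PS F) = 60 := by omega
          exact hPne h5
    · have h1 := card_PS_mul (F := L)
      rw [hgs L m (by omega) hmq] at h1
      apply hsub L m hm hmq
      rw [← h1, ← Nat.card_congr e'.toEquiv]
      have h2 : d * (2 * k) ∣ d * Nat.card M := Nat.mul_dvd_mul_left _ hdvd
      have : d * (2 * k) = (q + 1) * 2 := by rw [← hdk]; ring
      rw [this] at h2
      exact (dvd_mul_right _ _).trans h2
    · apply hsub L m hm hmq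
      rw [← card_PGL2, ← Nat.card_congr e'.toEquiv]
      rcases hdc with h1 | h1
      · omega
      · rw [h1.1] at hdk
        rw [← hdk]; exact hdvd

end Cfsg.Agent.S0811
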