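import Cfsg.Statements.S0812
import Mathlib
import Cfsg.Agent.H5_DkM

set_option autoImplicit false
open Cfsg

namespace Cfsg.Agent.S0812

open Cfsg.Agent.H5 Cfsg.Agent.H5.SL2 Cfsg.Agent.H5.V4 Cfsg.Agent.H5.Dk
open scoped Pointwise

theorem pow_bound {r m : ℕ} (hr : 2 ≤ r) (hm : 2 ≤ m) (h : r ^ m - 1 ∣ r * r - 1) : m = 2 := by
  by_contra hcon
  have h1 : r * r < r ^ m := by
    rw [← sq]; exact Nat.pow_lt_pow_right (by omega) (by omega)
  have h2 : 4 ≤ r * r := Nat.mul_le_mul hr hr
  have := Nat.le_of_dvd (by omega) h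
  omega

theorem cop {r m : ℕ} (hr : 2 ≤ r) (hm : 2 ≤ m) : Nat.Coprime (r ^ m - 1) r := by
  have h1 : 1 < r ^ m := Nat.one_lt_pow (by omega) (by omega)
  have h2 : r ∣ r ^ m := dvd_pow_self _ (by omega)
  rw [Nat.coprime_iff_gcd_eq_one]
  have h3 : Nat.gcd (r ^ m - 1) r ∣ r ^ m := (Nat.gcd_dvd_right _ _).trans h2
  have h4 := Nat.dvd_sub h3 (Nat.gcd_dvd_left (r ^ m - 1) r)
  rw [Nat.sub_sub_self (by omega)] at h4
  exact Nat.dvd_one.mp h4

/-- For q ∉ {2, 3, 5, 7, 9, 11}, PSL_2(q) has a maximal subgroup isomorphic to the dihedral group of order 2(q − 1)/d, d = gcd(2, q − 1). -/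
theorem result {F : Type*} [Field F] [Fintype F] {q : ℕ} (hF : Fintype.card F = q) (hq : q ∉ ({2, 3, 5, 7, 9, 11} : Finset ℕ)) : ∃ H : Subgroup (Matrix.ProjectiveSpecialLinearGroup (Fin 2) F), IsCoatom H ∧ Nonempty (H ≃* DihedralGroup ((q - 1) / Nat.gcd 2 (q - 1))) := by
  subst hF
  have hq1 : 1 < Fintype.card F := Fintype.one_lt_card
  have hPS := card_PS_mul (F := F)
  have hdpos : 0 < Nat.gcd 2 (Fintype.card F - 1) := Nat.gcd_pos_of_pos_left _ (by norm_num)
  have hPpos : 0 < Nat.card (PS F) := Nat.card_pos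
  have hdc := DihPS.gcd_cases (F := F)
  simp only [Finset.mem_insert, Finset.mem_singleton, not_or] at hq
  have hev : Fintype.card F % 2 = 0 → Fintype.card F = 2 ∨ Fintype.card F = 4 ∨ Fintype.card F = 8 ∨ 16 ≤ Fintype.card F := even_cases
  have hchar : Fintype.card F % 2 = 0 → (2 : F) = 0 := by
    intro h
    have h3 := FiniteField.even_card_iff_char_two.mpr h
    have h4 : ((2 : ℕ) : F) = 0 := by
      rw [← h3]; exact ringChar.Nat.cast_ringChar
    exact_mod_cast h4
  obtain ⟨H, ⟨e⟩⟩ := DihPS.exists_dihedral_sub (F := F)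
  refine ⟨H, ?_, ⟨e⟩⟩
  have hlist := fun M (hM : M ≠ ⊤) => proper_list (F := F) rfl (M := M) hM
  have hle := fun k => le_of_list (F := F) (k := k)
  have hBb := card_Bb (F := F)
  have hgs : ∀ (L : Type) [Field L] [Fintype L] (m : ℕ), 1 ≤ m → Fintype.card L ^ m = Fintype.card F → Nat.gcd 2 (Fintype.card L - 1) = Nat.gcd 2 (Fintype.card F - 1) :=
    fun L _ _ m hm h => gcd_sub hm h
  set q := Fintype.card F with hqdef
  set d := Nat.gcd 2 (q - 1) with hddef
  set k := (q - 1) / d with hk
  have hdk : d * k = q - 1 := by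
    rw [hk]
    apply Nat.mul_div_cancel'
    rcases hdc with h | h
    · rw [h.1]; exact one_dvd _
    · rw [h.1]; omega
  have hkpos : 0 < k := by
    rcases Nat.eq_zero_or_pos k with h | h
    · rw [h] at hdk; omega
    · exact h
  have hkne : NeZero k := ⟨by omega⟩
  have hcH : Nat.card H = 2 * k := by rw [Nat.card_congr e.toEquiv, card_dih]
  have hq3 : 4 ≤ q := by omega
  constructor
  · intro h
    rw [h, Subgroup.card_top] at hcH
    have hcH : Nat.card (PS F) = 2 * k := hcH
    rw [hcH] at hPS
    have h1 : d * (2 * k) = 2 * (q - 1) := by rw [← hdk]; ring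
    rw [h1] at hPS
    have h2 : (q - 1) * 2 = (q - 1) * (q * (q + 1)) := by
      rw [mul_comm, hPS]; ring
    have h3 := Nat.eq_of_mul_eq_mul_left (show 0 < q - 1 by omega) h2
    have h4 : 4 * 5 ≤ q * (q + 1) := Nat.mul_le_mul hq3 (by omega)
    omega
  · intro M hHM
    by_contra hM
    have hdivP : Nat.card M ∣ Nat.card (PS F) := Subgroup.card_subgroup_dvd_card M
    have hdvd : 2 * k ∣ Nat.card M := by rw [← hcH]; exact Subgroup.card_dvd_of_le hHM.le
    have hne : Nat.card M ≠ 2 * k := by
      intro h
      have := Subgroup.eq_of_le_of_card_ge hHM.le (by rw [hcH, h])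
      exact hHM.ne this
    have hMpos : 0 < Nat.card M := Nat.card_pos
    have hge : 2 * (2 * k) ≤ Nat.card M := by
      obtain ⟨c, hc⟩ := hdvd
      rw [hc] at hne hMpos ⊢
      have : 2 ≤ c := by
        by_contra hcon
        interval_cases c <;> omega
      calc 2 * (2 * k) = 2 * k * 2 := by ring
        _ ≤ 2 * k * c := Nat.mul_le_mul_left _ this
    have hdge : d * (2 * (2 * k)) = 4 * (q - 1) := by rw [← hdk]; ring
    have hd2k : d * (2 * k) = 2 * (q - 1) := by rw [← hdk]; ring
    rcases hlist M hM with ⟨k', hk', h | ⟨⟨e'⟩⟩⟩ | ⟨g, hg⟩ | ⟨⟨e'⟩⟩ | ⟨⟨e'⟩⟩ | ⟨⟨e'⟩⟩ | ⟨L, _, _, m, hm, hmq, ⟨e'⟩⟩ | ⟨L, _, _, m, hm, hodd, hmq, ⟨e'⟩⟩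
    · have h1 := hle k' hk'
      rw [h.2] at hge
      have h2 := Nat.mul_le_mul_left d hge
      omega
    · have h1 := hle k' hk'
      rw [Nat.card_congr e'.toEquiv, card_dih] at hge
      have h2 := Nat.mul_le_mul_left d hge
      have h3 : d * (2 * k') = 2 * (d * k') := by ring
      omega
    · rcases hdc with h1 | h1
      · have h20 := hchar h1.2
        have hx : ∀ i : ZMod k, ((e.symm (DihedralGroup.sr i)) : PS F) * (e.symm (DihedralGroup.sr i)) = 1 := by
          intro i
          have : e.symm (DihedralGroup.sr i) * e.symm (DihedralGroup.sr i) = 1 := by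
            rw [← map_mul, DihedralGroup.sr_mul_self, map_one]
          exact congrArg Subtype.val this
        have hU : ∀ i : ZMod k, g * ((e.symm (DihedralGroup.sr i)) : PS F) * g⁻¹ ∈ Ub F := by
          intro i
          apply invol_Bb h20
          · apply hg
            rw [mem_conj]
            have : g⁻¹ * (g * ((e.symm (DihedralGroup.sr i)) : PS F) * g⁻¹) * g = e.symm (DihedralGroup.sr i) := by group
            rw [this]
            exact hHM.le (e.symm (DihedralGroup.sr i)).2
          · calc g * ((e.symm (DihedralGroup.sr i)) : PS F) * g⁻¹ * (g * ((e.symm (DihedralGroup.sr i)) : PS F) * g⁻¹) =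
                g * (((e.symm (DihedralGroup.sr i)) : PS F) * (e.symm (DihedralGroup.sr i))) * g⁻¹ := by group
              _ = 1 := by rw [hx]; group
        have h2 := Ub_sq h20 ((Ub F).mul_mem (hU 0) (hU 1))
        have h3 : (((e.symm (DihedralGroup.sr 0)) : PS F) * (e.symm (DihedralGroup.sr 1))) * (((e.symm (DihedralGroup.sr 0)) : PS F) * (e.symm (DihedralGroup.sr 1))) = 1 := by
          calc _ = g⁻¹ * (g * ((e.symm (DihedralGroup.sr 0)) : PS F) * g⁻¹ * (g * ((e.symm (DihedralGroup.sr 1)) : PS F) * g⁻¹) *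
              (g * ((e.symm (DihedralGroup.sr 0)) : PS F) * g⁻¹ * (g * ((e.symm (DihedralGroup.sr 1)) : PS F) * g⁻¹))) * g := by group
            _ = 1 := by rw [h2]; group
        have h4 : (e.symm (DihedralGroup.sr 0) * e.symm (DihedralGroup.sr 1)) * (e.symm (DihedralGroup.sr 0) * e.symm (DihedralGroup.sr 1)) = 1 :=
          Subtype.ext h3
        rw [← map_mul, ← map_mul, DihedralGroup.sr_mul_sr, sub_zero, ← map_one e.symm] at h4
        have h5 := e.symm.injective h4
        rw [← sq] at h5
        have h6 := orderOf_dvd_of_pow_eq_one h5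
        rw [DihedralGroup.orderOf_r_one] at h6
        have h7 := Nat.le_of_dvd (by norm_num) h6
        rw [h1.1, one_mul] at hdk
        omega
      · have h2 : Nat.card M ∣ Nat.card (Bb F) := by
          rw [← card_conj g M]; exact Subgroup.card_dvd_of_le hg
        have h3 : d * (2 * k) ∣ q * (q - 1) := by
          rw [← hBb]; exact Nat.mul_dvd_mul_left _ (hdvd.trans h2)
        rw [hd2k] at h3
        have h4 := Nat.dvd_of_mul_dvd_mul_right (show 0 < q - 1 by omega) h3
        omega
    · obtain ⟨φ, hφ⟩ := dih_in hHM.le e e'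
      rcases dih_A4 φ hφ with h | h <;> rw [h] at hdk <;> rcases hdc with h1 | h1 <;> rw [h1.1] at hdk <;> omega
    · obtain ⟨φ, hφ⟩ := dih_in hHM.le e e'
      rw [Nat.card_congr e'.toEquiv, card_S4] at hge hdivP
      have h := dih_S4 φ hφ
      rcases hdc with h1 | h1
      · rw [h1.1, one_mul] at hdk
        have h4 : q = 4 := by omega
        rw [h1.1, h4] at hPS
        omega
      · rw [h1.1] at hdk
        omega
    · obtain ⟨φ, hφ⟩ := dih_in hHM.le e e'
      have hc5 : Nat.card M = 60 := by rw [Nat.card_congr e'.toEquiv, card_A5]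
      have h := dih_A5 φ hφ
      rcases hdc with h1 | h1
      · rw [h1.1, one_mul] at hdk
        have h2 : q = 4 := by omega
        rw [h1.1, h2] at hPS
        apply hM
        apply Subgroup.eq_top_of_card_eq
        rw [hc5]
        have h5 : Nat.card (PS F) = 60 := by omega
        exact h5.symm
      · rw [h1.1] at hdk
        omega
    · have hl1 : 1 < Fintype.card L := Fintype.one_lt_card
      have h1 := card_PS_mul (F := L)
      rw [hgs L m (by omega) hmq, ← Nat.card_congr e'.toEquiv, sq_sub_eq] at h1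
      have h2 : 2 * (q - 1) ∣ Fintype.card L * (Fintype.card L * Fintype.card L - 1) := by
        rw [← h1, ← hd2k]; exact Nat.mul_dvd_mul_left _ hdvd
      have h3 : q - 1 ∣ Fintype.card L * Fintype.card L - 1 := by
        have h4 : q - 1 ∣ Fintype.card L * (Fintype.card L * Fintype.card L - 1) := (dvd_mul_left _ _).trans h2
        rw [← hmq] at h4 ⊢
        exact (cop hl1 hm).dvd_of_dvd_mul_left h4
      have hm2 : m = 2 := by
        rw [← hmq] at h3
        exact pow_bound hl1 hm h3
      subst hm2
      rw [sq] at hmq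
      rw [hmq] at h2
      have h5 : 2 ∣ Fintype.card L := Nat.dvd_of_mul_dvd_mul_right (show 0 < q - 1 by omega) h2
      have hqe : q % 2 = 0 := by
        rw [← hmq, Nat.mul_mod, Nat.mod_eq_zero_of_dvd h5]
      have hd1 : d = 1 := by
        rcases hdc with h | h
        · exact h.1
        · omega
      rw [hd1, one_mul] at hdk
      obtain ⟨p, hp⟩ := CharP.exists L
      have hpp : Fact p.Prime := ⟨CharP.char_is_prime L p⟩
      obtain ⟨φ, hφ⟩ := dih_in hHM.le e e'
      have hord : orderOf (φ (DihedralGroup.r 1)) = k := by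
        rw [orderOf_injective φ hφ, DihedralGroup.orderOf_r_one]
      have hcop : ¬ p ∣ orderOf (φ (DihedralGroup.r 1)) := by
        rw [hord, hdk]
        intro h
        obtain ⟨n, hn, hqn⟩ := GL2.exists_card_eq (F := L) p
        have h6 : p ∣ q := by
          rw [← hmq, hqn]
          exact (dvd_pow_self p (by omega)).mul_right _
        have h7 := Nat.dvd_sub h6 h
        rw [Nat.sub_sub_self (by omega)] at h7
        exact hpp.out.one_lt.ne' (Nat.dvd_one.mp h7)
      have h6 := order_PS p _ hcop
      have h7 := le_of_list h6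
      rw [hord, gcd_sub (F := F) (L := L) (m := 2) (by norm_num) (by rw [sq]; exact hmq)] at h7
      change d * k ≤ _ at h7
      rw [hd1, one_mul, hdk] at h7
      have h8 : Fintype.card L ≤ 2 := by
        by_contra hcon
        have : 3 * Fintype.card L ≤ Fintype.card L * Fintype.card L := Nat.mul_le_mul_right _ (by omega)
        omega
      have h9 : Fintype.card L = 2 := by omega
      rw [h9] at h1 hmq
      rw [hd1] at h1
      have h10 : 1 * Nat.card M = 2 * (2 * 2 - 1) := h1
      omega
    · have hl1 : 1 < Fintype.card L := Fintype.one_lt_card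
      have hcM : Nat.card M = Fintype.card L * (Fintype.card L * Fintype.card L - 1) := by
        rw [Nat.card_congr e'.toEquiv, card_PGL2, sq_sub_eq]
      have hd2 : d = 2 := by
        rcases hdc with h | h
        · omega
        · exact h.1
      rw [hd2] at hdk
      have h3 : q - 1 ∣ Fintype.card L * Fintype.card L - 1 := by
        have h4 : q - 1 ∣ Fintype.card L * (Fintype.card L * Fintype.card L - 1) := by
          rw [← hcM, ← hdk]; exact hdvd
        rw [← hmq] at h4 ⊢
        exact (cop hl1 hm).dvd_of_dvd_mul_left h4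
      have hm2 : m = 2 := by
        rw [← hmq] at h3
        exact pow_bound hl1 hm h3
      subst hm2
      rw [sq] at hmq
      obtain ⟨p, hp⟩ := CharP.exists L
      have hpp : Fact p.Prime := ⟨CharP.char_is_prime L p⟩
      obtain ⟨φ, hφ⟩ := dih_in hHM.le e e'
      have hord : orderOf (φ (DihedralGroup.r 1)) = k := by
        rw [orderOf_injective φ hφ, DihedralGroup.orderOf_r_one]
      obtain ⟨y, hy⟩ := sq_mem_PSL (φ (DihedralGroup.r 1))
      have hk2 : 2 ∣ k := by
        -- `r` odd, so `8 ∣ r² - 1`
        obtain ⟨z, hz⟩ : ∃ z, Fintype.card L = 2 * z + 1 := by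
          refine ⟨Fintype.card L / 2, ?_⟩
          have h5 : Fintype.card L % 2 = 1 := by
            rcases Nat.mod_two_eq_zero_or_one (Fintype.card L) with h | h
            · rw [← hmq, Nat.mul_mod, h] at hodd
              omega
            · exact h
          omega
        rw [← hmq, hz] at hdk
        have h6 : (2 * z + 1) * (2 * z + 1) = 4 * (z * (z + 1)) + 1 := by ring
        rw [h6, Nat.add_sub_cancel] at hdk
        exact ⟨z * (z + 1), by omega⟩
      obtain ⟨j, hj⟩ := hk2
      have hordy : orderOf y = j := by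
        rw [← orderOf_injective _ Matrix.ProjectiveSpecialLinearGroup.toPGL_injective y, hy,
          orderOf_pow_of_dvd (by norm_num) (by rw [hord, hj]; exact dvd_mul_right _ _), hord, hj, Nat.mul_div_cancel_left _ (by norm_num)]
      have hcop : ¬ p ∣ orderOf y := by
        rw [hordy]
        intro h
        obtain ⟨n, hn, hqn⟩ := GL2.exists_card_eq (F := L) p
        have h6 : p ∣ q := by
          rw [← hmq, hqn]
          exact (dvd_pow_self p (by omega)).mul_right _
        have h8 : p ∣ q - 1 := by
          rw [← hdk, hj]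
          exact (h.mul_left _).mul_left _
        have h7 := Nat.dvd_sub h6 h8
        rw [Nat.sub_sub_self (by omega)] at h7
        exact hpp.out.one_lt.ne' (Nat.dvd_one.mp h7)
      have h6 := order_PS p _ hcop
      have h7 := le_of_list h6
      rw [hordy, gcd_sub (F := F) (L := L) (m := 2) (by norm_num) (by rw [sq]; exact hmq)] at h7
      change d * j ≤ _ at h7
      rw [hd2] at h7
      have h8 : Fintype.card L ≤ 3 := by
        by_contra hcon
        have : 4 * Fintype.card L ≤ Fintype.card L * Fintype.card L := Nat.mul_le_mul_right _ (by omega)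
        omega
      have h9 : q ≤ 9 := by
        rw [← hmq]; exact Nat.mul_le_mul h8 h8
      omega

end Cfsg.Agent.S0812
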