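import Cfsg.Agent.H16_AutP3
import Cfsg.Statements.S0813
-- import your own Cfsg.Agent.* helpers here

set_option autoImplicit false
open Cfsg

namespace Cfsg.Agent.S0813

open Cfsg.Agent.H16.AutG Cfsg.Agent.H16.AutL in

/-- |Aut(PSL_n(q))|, q = p^f: for n ≥ 3 it is 2 f |PGL_n(q)|, and for n = 2 (q ≥ 4) it is f |PGL_2(q)|. -/
theorem result {F : Type*} [Field F] [Fintype F] (p f : ℕ) [Fact p.Prime] (hf : 1 ≤ f) (hF : Fintype.card F = p ^ f) (n : ℕ) (hn : 2 ≤ n) (h2 : n = 2 → 4 ≤ p ^ f) : Nat.card (MulAut (Matrix.ProjectiveSpecialLinearGroup (Fin n) F)) = (if n = 2 then 1 else 2) * f * Nat.card (Matrix.ProjGenLinGroup (Fin n) F) := by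
  have hfin : Finite (MulAut (Matrix.ProjectiveSpecialLinearGroup (Fin n) F)) := inferInstance
  have hcf : Nat.card (F ≃+* F) = f := Cfsg.Agent.H16.FAut.card_ringAut (p := p)
    (by rw [Nat.card_eq_fintype_card, hF]) hf
  split_ifs with h
  · obtain ⟨θ, h1, h3, -⟩ := exists_theta2 (F := F) h
    rw [card_of_theta θ h1, h3, card_Dd hn, hcf, one_mul]
  · obtain ⟨θ, h1, h3⟩ := exists_theta3 (F := F) (n := n) (by omega)
    rw [card_of_theta θ h1, h3, card_Dd hn, Nat.card_prod, hcf, card_iS (by omega)]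
    ring

end Cfsg.Agent.S0813
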