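import Cfsg.Statements.S0814
import Mathlib
import Cfsg.Agent.H5_Sp4e

set_option autoImplicit false
open Cfsg

namespace Cfsg.Agent.S0814

open Cfsg.Agent.H5.AutO Cfsg.Agent.H5.Sp4e Cfsg.Agent.H16.PSp Cfsg.Agent.H16.Gam in

/-- |Aut(PSp_2m(q))| = gcd(2, q−1) · f · |PSp_2m(q)| for q = p^f, m ≥ 2, (m, q) ≠ (2, 2), with an extra factor 2 exactly when m = 2 and p = 2. -/
theorem result {F : Type*} [Field F] [Fintype F] (p f : ℕ) [Fact p.Prime] (hf : 1 ≤ f) (hF : Fintype.card F = p ^ f) (m : ℕ) (hm : 2 ≤ m) (h22 : m = 2 → 3 ≤ p ^ f) : Nat.card (MulAut (Cfsg.PSp m F)) = (if m = 2 ∧ p = 2 then 2 else 1) * Nat.gcd 2 (p ^ f - 1) * f * Nat.card (Cfsg.PSp m F) := by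
  have h3 : Nat.card (F ≃+* F) = f := Cfsg.Agent.H16.FAut.card_ringAut (p := p)
    (by rw [Nat.card_eq_fintype_card, hF]) hf
  have hr := range_card (F := F) hm
  rw [h3] at hr
  have hcc := card_center (F := F) (show 1 ≤ m by omega)
  have hsp : Nat.card (Matrix.symplecticGroup (Fin m) F) =
      Nat.card (Subgroup.center (Matrix.symplecticGroup (Fin m) F)) * Nat.card (Cfsg.PSp m F) := by
    rw [← (Subgroup.center (Matrix.symplecticGroup (Fin m) F)).card_mul_index]
    rfl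
  have hfull : (fam hm F).Full → Nat.card (MulAut (Cfsg.PSp m F)) = Nat.card (Matrix.symplecticGroup (Fin m) F) * f := by
    intro h
    rw [← hr, MonoidHom.range_eq_top.mpr h, Subgroup.card_top]
  rcases two_dich hF hf with ⟨h4, h5⟩ | ⟨h4, h5⟩
  · have hg : Nat.gcd 2 (p ^ f - 1) = 1 := by
      subst h4
      have h6 : 2 ∣ 2 ^ f := dvd_pow_self 2 (by omega)
      have h7 : 0 < 2 ^ f := by positivity
      obtain ⟨k, hk⟩ := h6
      rw [hk, Nat.gcd_comm, ← Nat.coprime_iff_gcd_eq_one, Nat.coprime_two_right]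
      exact ⟨k - 1, by omega⟩
    rw [hcc.1 h5, one_mul] at hsp
    rw [hg, mul_one]
    by_cases hm2 : m = 2
    · subst hm2
      rw [if_pos ⟨rfl, h4⟩]
      have h8 := ((fam (le_refl 2) F).T).range.card_mul_index
      rw [index_two h5] at h8
      change _ = Nat.card (MulAut (Cfsg.PSp 2 F)) at h8
      rw [← h8, hr, hsp]
      ring
    · rw [if_neg (fun h => hm2 h.1), hfull (full hm (fun h => absurd h hm2)), hsp]
      ring
  · have hg : Nat.gcd 2 (p ^ f - 1) = 2 := by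
      have hodd : Odd (p ^ f) := ((Fact.out : p.Prime).odd_of_ne_two h4).pow
      exact Nat.gcd_eq_left (Nat.Odd.sub_odd hodd odd_one).two_dvd
    rw [hcc.2 h5] at hsp
    rw [hg, if_neg (fun h => h4 h.2), hfull (full hm (fun _ => h5)), hsp]
    ring

end Cfsg.Agent.S0814
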