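import Cfsg.Statements.S0816
import Mathlib
import Cfsg.Agent.H5_AutO

set_option autoImplicit false
open Cfsg

namespace Cfsg.Agent.S0816

open Cfsg.Agent.H5.AutO Cfsg.Agent.H16.POm in

/-- |Aut(PΩ_(2m+1)(q))| = 2 f · |PΩ_(2m+1)(q)| for q = p^f odd and m ≥ 3 (for the form quadFormOdd). -/
theorem result {F : Type*} [Field F] [Fintype F] (p f : ℕ) [Fact p.Prime] (hf : 1 ≤ f) (hF : Fintype.card F = p ^ f) (hodd : Odd p) (m : ℕ) (hm : 3 ≤ m) : Nat.card (MulAut (Cfsg.POmega F (Cfsg.quadFormOdd m F))) = 2 * f * Nat.card (Cfsg.POmega F (Cfsg.quadFormOdd m F)) := by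
  have h2 : (2 : F) ≠ 0 := two_ne_of_odd (by rw [hF]; exact hodd.pow)
  have h1 := card_odd h2 (good_odd (F := F) h2 hm) (m := m)
    (by simp only [Fintype.card_sum, Fintype.card_unit, Fintype.card_fin]; ring) (semi_odd h2 hm)
  have h3 : Nat.card (F ≃+* F) = f := Cfsg.Agent.H16.FAut.card_ringAut (p := p)
    (by rw [Nat.card_eq_fintype_card, hF]) hf
  rw [show (odO F h2 hm).Q = Cfsg.Agent.H16.Quad.oddQ F m from rfl, h3, iso_odd h2 hm,
    Cfsg.Agent.H16.Quad.coe_oddQ] at h1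
  apply Nat.eq_of_mul_eq_mul_left (show 0 < 2 by norm_num)
  rw [h1]
  ring

end Cfsg.Agent.S0816
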