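import Cfsg.Statements.S0817
import Mathlib
import Cfsg.Agent.H5_Tri6
import Cfsg.Agent.S0790

set_option autoImplicit false
open Cfsg

namespace Cfsg.Agent.S0817

open Cfsg.Agent.H5.AutO Cfsg.Agent.H16.POm in

/-- |Aut(PΩ⁺_2m(q))| for q = p^f, m ≥ 4: |PΩ⁺_2m(q)| times f, times 3 when m = 4, times 2 if p = 2, and times 8 or 4 if p is odd according as m(q−1)/2 is even or odd. -/
theorem result {F : Type*} [Field F] [Fintype F] (p f : ℕ) [Fact p.Prime] (hf : 1 ≤ f) (hF : Fintype.card F = p ^ f) (m : ℕ) (hm : 4 ≤ m) : Nat.card (MulAut (Cfsg.POmega F (Cfsg.quadFormPlus m F))) = (if m = 4 then 3 else 1) * (if p = 2 then 2 else (if Even (m * (p ^ f - 1) / 2) then 8 else 4)) * f * Nat.card (Cfsg.POmega F (Cfsg.quadFormPlus m F)) := by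
  have h1 := Cfsg.Agent.H5.Tri.card_aut_plus (F := F) hm
  have h3 : Nat.card (F ≃+* F) = f := Cfsg.Agent.H16.FAut.card_ringAut (p := p)
    (by rw [Nat.card_eq_fintype_card, hF]) hf
  have hQ := Cfsg.Agent.H16.Quad.nd_plusQ (F := F) m
  have hc : 5 ≤ Fintype.card (Fin m ⊕ Fin m) := by simp; omega
  have hfr : Module.finrank F (Fin m ⊕ Fin m → F) = 2 * m := by
    rw [Module.finrank_fintype_fun_eq_card]; simp; ring
  rw [show (odP F hm).Q = Cfsg.Agent.H16.Quad.plusQ F m from rfl, h3, Cfsg.Agent.H5.OmSim.card_iso_eq] at h1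
  rcases two_dich hF hf with ⟨h4, h5⟩ | ⟨h4, h5⟩
  · rw [Cfsg.Agent.H16.Quad.Omega_index_two hQ h5 (by omega) (Or.inr (by omega)),
      Cfsg.Agent.H5.OmSim.center_char_two hQ hc h5, Cfsg.Agent.H16.Quad.coe_plusQ] at h1
    rw [h1, if_pos h4]
    ring
  · rw [Cfsg.Agent.H16.Quad.Omega_index_odd hQ h5 (by omega)] at h1
    have hodd : Odd (p ^ f) := by
      have : Odd p := (Fact.out : p.Prime).odd_of_ne_two h4
      exact this.pow
    have hm1 := Cfsg.Agent.S0790.result (F := F) hF hodd m (by omega)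
    obtain ⟨j, hj⟩ := hodd
    have h6 : m * (p ^ f - 1) / 2 = m * j := by
      rw [hj, Nat.add_sub_cancel, show m * (2 * j) = 2 * (m * j) by ring]
      exact Nat.mul_div_cancel_left _ (by norm_num)
    have h7 : (p ^ f) ^ m % 4 = 1 ↔ Even (m * j) := by
      rw [Nat.even_mul, Nat.pow_mod, hj]
      rcases Nat.even_or_odd j with ⟨i, hi⟩ | ⟨i, hi⟩
      · have : (2 * j + 1) % 4 = 1 := by omega
        rw [this, one_pow]
        simp only [Nat.one_mod, true_iff]
        exact Or.inr ⟨i, hi⟩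
      · have : (2 * j + 1) % 4 = 3 := by omega
        rw [this]
        have h8 : ∀ l, 3 ^ (2 * l) % 4 = 1 ∧ 3 ^ (2 * l + 1) % 4 = 3 := by
          intro l
          induction l with
          | zero => exact ⟨rfl, rfl⟩
          | succ l ih =>
            rw [show 2 * (l + 1) = 2 * l + 1 + 1 by ring, pow_succ, pow_succ _ (2 * l + 1 + 1), pow_succ _ (2 * l + 1)]
            omega
        constructor
        · intro h
          left
          rcases Nat.even_or_odd m with h' | ⟨l, hl⟩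
          · exact h'
          · rw [hl, (h8 l).2] at h
            omega
        · rintro (⟨l, hl⟩ | ⟨l, hl⟩)
          · rw [hl, ← two_mul]
            exact (h8 l).1
          · omega
    rw [h6, if_neg h4]
    by_cases h8 : Even (m * j)
    · have h9 := hm1.2 (h7.2 h8)
      rw [← Cfsg.Agent.H16.Quad.coe_plusQ] at h9
      rw [Cfsg.Agent.H5.OmSim.center_two hQ hc h5 h9, Cfsg.Agent.H16.Quad.coe_plusQ] at h1
      rw [h1, if_pos h8]
      ring
    · have h9 := mt hm1.1 (fun h => h8 (h7.1 h))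
      rw [← Cfsg.Agent.H16.Quad.coe_plusQ] at h9
      rw [Cfsg.Agent.H5.OmSim.center_eq_bot hQ hc h9, Cfsg.Agent.H16.Quad.coe_plusQ] at h1
      rw [h1, if_neg h8]
      ring

end Cfsg.Agent.S0817
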