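import Cfsg.Statements.S0818
import Mathlib
import Cfsg.Agent.H5_AutO
import Cfsg.Agent.S0791

set_option autoImplicit false
open Cfsg

namespace Cfsg.Agent.S0818

open Cfsg.Agent.H5.AutO Cfsg.Agent.H16.POm in

/-- |Aut(PΩ⁻_2m(q))| for q = p^f, m ≥ 4 (form quadFormMinus (m−1) with anisotropic binary part): |PΩ⁻_2m(q)| times f, times 2 if p = 2, and times 4 or 8 if p is odd according as m(q−1)/2 is even or odd. -/
theorem result {F : Type*} [Field F] [Fintype F] (p f : ℕ) [Fact p.Prime] (hf : 1 ≤ f) (hF : Fintype.card F = p ^ f) (m : ℕ) (hm : 4 ≤ m) (a b : F) (hab : ∀ z₁ z₂ : F, z₁ ^ 2 + a * z₁ * z₂ + b * z₂ ^ 2 = 0 → z₁ = 0 ∧ z₂ = 0) : Nat.card (MulAut (Cfsg.POmega F (Cfsg.quadFormMinus (m - 1) F a b))) = (if p = 2 then 2 else (if Even (m * (p ^ f - 1) / 2) then 4 else 8)) * f * Nat.card (Cfsg.POmega F (Cfsg.quadFormMinus (m - 1) F a b)) := by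
  obtain ⟨k, rfl⟩ : ∃ k, m = k + 1 := ⟨m - 1, by omega⟩
  change Nat.card (MulAut (Cfsg.POmega F (Cfsg.quadFormMinus k F a b))) = (if p = 2 then 2 else (if Even ((k + 1) * (p ^ f - 1) / 2) then 4 else 8)) * f * Nat.card (Cfsg.POmega F (Cfsg.quadFormMinus k F a b))
  have hk : 3 ≤ k := by omega
  have h1 := card_even (good_minus (F := F) hab hk) (m := k + 1)
    (by simp only [Fintype.card_sum, Fintype.card_fin]; ring) (semi_minus hab hk)
  have h3 : Nat.card (F ≃+* F) = f := Cfsg.Agent.H16.FAut.card_ringAut (p := p)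
    (by rw [Nat.card_eq_fintype_card, hF]) hf
  have hQ := Cfsg.Agent.H16.Quad.nd_minusQ k hab
  have hc : 5 ≤ Fintype.card ((Fin k ⊕ Fin k) ⊕ Fin 2) := by simp; omega
  have hfr : Module.finrank F ((Fin k ⊕ Fin k) ⊕ Fin 2 → F) = 2 * (k + 1) := by
    rw [Module.finrank_fintype_fun_eq_card]; simp; ring
  rw [show (odM hab hk).Q = Cfsg.Agent.H16.Quad.minusQ F k a b from rfl, h3, Cfsg.Agent.H5.OmSim.card_iso_eq] at h1
  rcases two_dich hF hf with ⟨h4, h5⟩ | ⟨h4, h5⟩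
  · rw [Cfsg.Agent.H16.Quad.Omega_index_two hQ h5 (by omega) (Or.inr (by omega)),
      Cfsg.Agent.H5.OmSim.center_char_two hQ hc h5, Cfsg.Agent.H16.Quad.coe_minusQ] at h1
    rw [h1, if_pos h4]
    ring
  · rw [Cfsg.Agent.H16.Quad.Omega_index_odd hQ h5 (by omega)] at h1
    have hodd : Odd (p ^ f) := by
      have : Odd p := (Fact.out : p.Prime).odd_of_ne_two h4
      exact this.pow
    have hm1 := Cfsg.Agent.S0791.result (F := F) hF hodd (k + 1) (by omega) a b hab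
    change (∃ g : ↥(Cfsg.isometryGroup F (Cfsg.quadFormMinus k F a b)), g ∈ Cfsg.Omega F (Cfsg.quadFormMinus k F a b) ∧ ((g : Matrix.GeneralLinearGroup ((Fin k ⊕ Fin k) ⊕ Fin 2) F) : Matrix ((Fin k ⊕ Fin k) ⊕ Fin 2) ((Fin k ⊕ Fin k) ⊕ Fin 2) F) = -1) ↔ _ at hm1
    obtain ⟨j, hj⟩ := hodd
    have h6 : (k + 1) * (p ^ f - 1) / 2 = (k + 1) * j := by
      rw [hj, Nat.add_sub_cancel, show (k + 1) * (2 * j) = 2 * ((k + 1) * j) by ring]
      exact Nat.mul_div_cancel_left _ (by norm_num)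
    have h7 : (p ^ f) ^ (k + 1) % 4 = 3 ↔ Odd ((k + 1) * j) := by
      rw [Nat.odd_mul, Nat.pow_mod, hj]
      rcases Nat.even_or_odd j with ⟨i, hi⟩ | ⟨i, hi⟩
      · have : (2 * j + 1) % 4 = 1 := by omega
        rw [this, one_pow]
        simp only [Nat.one_mod, OfNat.one_ne_ofNat, false_iff, not_and]
        intro _ ⟨l, hl⟩
        omega
      · have : (2 * j + 1) % 4 = 3 := by omega
        rw [this]
        have h8 : ∀ l, 3 ^ (2 * l) % 4 = 1 ∧ 3 ^ (2 * l + 1) % 4 = 3 := by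
          intro l
          induction l with
          | zero => exact ⟨rfl, rfl⟩
          | succ l ih =>
            rw [show 2 * (l + 1) = 2 * l + 1 + 1 by ring, pow_succ, pow_succ _ (2 * l + 1 + 1), pow_succ _ (2 * l + 1)]
            omega
        constructor
        · intro h
          refine ⟨?_, ⟨i, hi⟩⟩
          rcases Nat.even_or_odd (k + 1) with ⟨l, hl⟩ | h'
          · rw [hl, ← two_mul, (h8 l).1] at h
            omega
          · exact h'
        · rintro ⟨⟨l, hl⟩, -⟩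
          rw [hl]
          exact (h8 l).2
    rw [h6, if_neg h4]
    by_cases h8 : Odd ((k + 1) * j)
    · have h9 := hm1.2 (h7.2 h8)
      rw [← Cfsg.Agent.H16.Quad.coe_minusQ] at h9
      rw [Cfsg.Agent.H5.OmSim.center_two hQ hc h5 h9, Cfsg.Agent.H16.Quad.coe_minusQ] at h1
      rw [h1, if_neg (Nat.not_even_iff_odd.mpr h8)]
      ring
    · have h9 := mt hm1.1 (fun h => h8 (h7.1 h))
      rw [← Cfsg.Agent.H16.Quad.coe_minusQ] at h9
      rw [Cfsg.Agent.H5.OmSim.center_eq_bot hQ hc h9, Cfsg.Agent.H16.Quad.coe_minusQ] at h1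
      rw [h1, if_pos (Nat.not_odd_iff_even.mp h8)]
      ring

end Cfsg.Agent.S0818
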