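import Cfsg.Statements.S0819
import Mathlib

set_option autoImplicit false
open Cfsg

namespace Cfsg.Agent.S0819

open Matrix Polynomial

theorem mem_center_of_scalar {F : Type*} [Field F] (s : Matrix.SpecialLinearGroup (Fin 3) F) (r : F)
    (h : (s : Matrix (Fin 3) (Fin 3) F) = Matrix.scalar (Fin 3) r) :
    s ∈ Subgroup.center (Matrix.SpecialLinearGroup (Fin 3) F) := by
  rw [Subgroup.mem_center_iff]
  intro g
  apply Subtype.ext
  rw [Matrix.SpecialLinearGroup.coe_mul, Matrix.SpecialLinearGroup.coe_mul, h]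
  exact ((Matrix.scalar_commute r (fun r' => mul_comm _ _) _).eq).symm

theorem pow_cases {F : Type*} [Field F] [Fintype F] (hF : Fintype.card F = 4)
    (M : Matrix (Fin 3) (Fin 3) F) (hdet : M.det = 1) :
    ∃ (k : ℕ) (r : F), (k = 63 ∨ k = 4 ∨ k = 3 ∨ k = 5) ∧ M ^ k = Matrix.scalar (Fin 3) r := by
  have h2 : CharP F 2 := charP_of_card_eq_prime_pow (f := 2) (by rw [hF]; norm_num)
  have h20 : (2 : F) = 0 := CharTwo.two_eq_zero
  have h2P : (2 : F[X]) = 0 := by
    have : (C (2 : F) : F[X]) = 2 := map_ofNat C 2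
    rw [← this, h20, map_zero]
  have hcube : ∀ x : F, x ≠ 0 → x ^ 3 = 1 := by
    intro x hx
    have := FiniteField.pow_card_sub_one_eq_one x hx
    rwa [hF] at this
  set P := M.charpoly with hP
  have hmon : P.Monic := Matrix.charpoly_monic M
  have hdeg : P.natDegree = 3 := by rw [hP, Matrix.charpoly_natDegree_eq_dim]; simp
  have hc0 : P.coeff 0 = 1 := by
    have := Matrix.det_eq_sign_charpoly_coeff M
    rw [hdet, Fintype.card_fin, ← hP] at this
    linear_combination this - h20
  have hCH : aeval M P = 0 := Matrix.aeval_self_charpoly M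
  have hexp : P = X ^ 3 + C (P.coeff 2) * X ^ 2 + C (P.coeff 1) * X + 1 := by
    conv_lhs => rw [P.as_sum_range_C_mul_X_pow, hdeg]
    have h3 : P.coeff 3 = 1 := by
      have := hmon.coeff_natDegree
      rwa [hdeg] at this
    simp only [Finset.sum_range_succ, Finset.sum_range_zero, h3, hc0, map_one]
    ring
  have hdvd : ∀ (k : ℕ) (r : F), P ∣ X ^ k + C r → M ^ k = Matrix.scalar (Fin 3) r := by
    rintro k r ⟨Q, hQ⟩
    have : aeval M (X ^ k + C r : F[X]) = 0 := by rw [hQ, map_mul, hCH, zero_mul]
    rw [map_add, map_pow, aeval_X, aeval_C] at this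
    have h5 : M ^ k = - algebraMap F (Matrix (Fin 3) (Fin 3) F) r := eq_neg_of_add_eq_zero_left this
    rw [h5, ← map_neg, CharTwo.neg_eq]
    rfl
  by_cases hroot : ∃ c, P.IsRoot c
  · obtain ⟨c, hc⟩ := hroot
    have hc' : c ^ 3 + P.coeff 2 * c ^ 2 + P.coeff 1 * c + 1 = 0 := by
      have := hc
      rw [hexp, IsRoot.def] at this
      simpa using this
    have hcne : c ≠ 0 := by
      rintro rfl
      simp at hc'
    have hc3 := hcube c hcne
    have hb : P.coeff 1 = P.coeff 2 * c := by
      have : c * (P.coeff 1 + P.coeff 2 * c) = 0 := by linear_combination hc' - hc3 - h20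
      rcases mul_eq_zero.mp this with h | h
      · exact absurd h hcne
      · linear_combination h - P.coeff 2 * c * h20
    set a := P.coeff 2 with ha
    have hfac : P = (X + C c) * (X ^ 2 + C (a + c) * X + C (c ^ 2)) := by
      rw [hexp, hb]
      have h6 : (1 : F[X]) = C (c ^ 3) := by rw [hc3, map_one]
      rw [h6]
      simp only [map_mul, map_add, map_pow]
      linear_combination (-(C c * X ^ 2) - (C c) ^ 2 * X) * h2P
    by_cases hu : a + c = 0
    · refine ⟨4, c ^ 4, by tauto, hdvd _ _ ?_⟩
      refine ⟨X + C c, ?_⟩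
      rw [hfac, hu]
      simp only [map_zero, map_pow]
      linear_combination (-(2 * C c * X ^ 3) - 2 * (C c) ^ 3 * X - (C c)^2 * X^2 + C c * X ^ 3 + (C c)^3 * X) * h2P
    · set v := (a + c) * c⁻¹ with hv
      have hvc : a + c = v * c := by rw [hv]; field_simp
      have hv0 : v ≠ 0 := by
        rw [hv]; exact mul_ne_zero hu (inv_ne_zero hcne)
      have hv3 := hcube v hv0
      by_cases hv1 : v = 1
      · refine ⟨3, c ^ 3, by tauto, hdvd _ _ ?_⟩
        refine ⟨1, ?_⟩
        rw [hfac, hvc, hv1]
        simp only [map_mul, map_pow, map_one]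
        linear_combination (-(C c * X ^ 2) - (C c) ^ 2 * X) * h2P
      · have hv2 : v ^ 2 + v + 1 = 0 := by
          have : (v - 1) * (v ^ 2 + v + 1) = 0 := by linear_combination hv3
          rcases mul_eq_zero.mp this with h | h
          · exact absurd (sub_eq_zero.mp h) hv1
          · exact h
        have hv2P : (C v : F[X]) ^ 2 + C v + 1 = 0 := by
          rw [← map_pow, ← map_add, ← map_one C, ← map_add, hv2, map_zero]
        refine ⟨5, c ^ 5, by tauto, hdvd _ _ ?_⟩
        refine ⟨X ^ 2 + C c * (C v) ^ 2 * X + C c ^ 2, ?_⟩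
        rw [hfac, hvc]
        simp only [map_mul, map_pow]
        linear_combination (-((C c)^2 * X^3 + (C c)^3 * X^2)) * h2P - (X + C c) * (C c * X^3 + (C v - 1) * (C c)^2 * X^2 + (C c)^3 * X) * hv2P
  · push Not at hroot
    have hirr : Irreducible P := by
      apply Polynomial.irreducible_of_degree_le_three_of_not_isRoot
      · rw [Finset.mem_Icc, hdeg]; omega
      · exact hroot
    have : Fact (Irreducible P) := ⟨hirr⟩
    have hP0 : P ≠ 0 := hmon.ne_zero
    have hfr : Module.finrank F (AdjoinRoot P) = 3 := by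
      rw [(AdjoinRoot.powerBasis hP0).finrank, AdjoinRoot.powerBasis_dim, hdeg]
    have : Module.Finite F (AdjoinRoot P) := (AdjoinRoot.powerBasis hP0).finite
    have : Finite (AdjoinRoot P) := Module.finite_of_finite F
    have := Fintype.ofFinite (AdjoinRoot P)
    have hcard : Fintype.card (AdjoinRoot P) = 64 := by
      rw [Module.card_eq_pow_finrank (K := F), hfr, hF]; norm_num
    have hr0 : AdjoinRoot.root P ≠ 0 := by
      intro h0
      have h1 := AdjoinRoot.eval₂_root P
      rw [h0, eval₂_at_zero] at h1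
      have : P.coeff 0 = 0 := (AdjoinRoot.of P).injective (by rw [h1, map_zero])
      rw [hc0] at this
      exact one_ne_zero this
    have h63 := FiniteField.pow_card_sub_one_eq_one _ hr0
    rw [hcard] at h63
    refine ⟨63, 1, Or.inl rfl, hdvd _ _ ?_⟩
    rw [← AdjoinRoot.mk_eq_zero, map_add, map_pow, AdjoinRoot.mk_X, h63, map_one, map_one]
    have : (2 : AdjoinRoot P) = 0 := by
      have : (AdjoinRoot.of P) (2 : F) = 2 := map_ofNat _ 2
      rw [← this, h20, map_zero]
    linear_combination this

/-- No element of PSL_3(4) has order 15. -/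
theorem result {F : Type*} [Field F] [Fintype F] (hF : Fintype.card F = 4) (g : Matrix.ProjectiveSpecialLinearGroup (Fin 3) F) : orderOf g ≠ 15 := by
  intro h15
  obtain ⟨s, rfl⟩ := QuotientGroup.mk_surjective g
  obtain ⟨k, r, hk, hr⟩ := pow_cases hF (s : Matrix (Fin 3) (Fin 3) F) s.2
  have h1 : s ^ k ∈ Subgroup.center (Matrix.SpecialLinearGroup (Fin 3) F) := by
    have h0 : ((s ^ k : Matrix.SpecialLinearGroup (Fin 3) F) : Matrix (Fin 3) (Fin 3) F) = Matrix.scalar (Fin 3) r := by
      rw [Matrix.SpecialLinearGroup.coe_pow]; exact hr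
    exact mem_center_of_scalar _ r h0
  rw [← QuotientGroup.eq_one_iff, QuotientGroup.mk_pow] at h1
  have h2 := orderOf_dvd_of_pow_eq_one h1
  rw [h15] at h2
  rcases hk with rfl | rfl | rfl | rfl <;> norm_num at h2

end Cfsg.Agent.S0819
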