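import Cfsg.Statements.S0839
import Mathlib

set_option autoImplicit false
open Cfsg

namespace Cfsg.Agent.S0839

open scoped LinearAlgebra.Projectivization in
theorem exists_SL_smul {F : Type*} [Field F] (n : ℕ) (b : Fin (n + 2) → F) (hb : b ≠ 0) :
    ∃ (s : Matrix.SpecialLinearGroup (Fin (n + 2)) F) (c : F), c ≠ 0 ∧
      (s : Matrix (Fin (n + 2)) (Fin (n + 2)) F).mulVec b = c • Pi.single 0 1 := by
  have : MulAction.IsPretransitive (Matrix.SpecialLinearGroup (Fin (n + 2)) F) (ℙ F (Fin (n + 2) → F)) :=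
    MulAction.isPretransitive_of_is_two_pretransitive
      (G := Matrix.SpecialLinearGroup (Fin (n + 2)) F) (α := ℙ F (Fin (n + 2) → F))
  have h1 : (Pi.single 0 1 : Fin (n + 2) → F) ≠ 0 := Pi.single_ne_zero_iff.2 one_ne_zero
  obtain ⟨s, hs⟩ := MulAction.exists_smul_eq (Matrix.SpecialLinearGroup (Fin (n + 2)) F)
    (Projectivization.mk F b hb) (Projectivization.mk F _ h1)
  have hs' : Projectivization.mk F (s • b) ((smul_ne_zero_iff_ne s).mpr hb) = Projectivization.mk F _ h1 := hs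
  rw [Projectivization.mk_eq_mk_iff] at hs'
  obtain ⟨c, hc⟩ := hs'
  exact ⟨s, c, c.ne_zero, hc.symm⟩

/-- Every transvection t ∈ SL_(n+2)(F) (rank(t − 1) = 1, (t − 1)² = 0) is conjugate in SL_(n+2)(F) to 1 + v·e_0ᵀ for some column vector v with v_0 = 0 (the group A of matrices that are the identity except in the first column below the diagonal); the dimension is written n + 2 ≥ 2. -/
theorem result {F : Type*} [Field F] (n : ℕ) (t : Matrix.SpecialLinearGroup (Fin (n + 2)) F) (ht : Cfsg.IsTransvection (t : Matrix (Fin (n + 2)) (Fin (n + 2)) F)) : ∃ (g : Matrix.SpecialLinearGroup (Fin (n + 2)) F) (v : Fin (n + 2) → F), v 0 = 0 ∧ ((g⁻¹ * t * g : Matrix.SpecialLinearGroup (Fin (n + 2)) F) : Matrix (Fin (n + 2)) (Fin (n + 2)) F) = 1 + Matrix.vecMulVec v (Pi.single 0 1) := by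
  obtain ⟨hr, hsq⟩ := ht
  set N : Matrix (Fin (n + 2)) (Fin (n + 2)) F := (t : Matrix (Fin (n + 2)) (Fin (n + 2)) F) - 1 with hN
  rw [Matrix.rank, finrank_eq_one_iff'] at hr
  obtain ⟨⟨a, x0, hx0⟩, ha, hspan⟩ := hr
  have hb : ∀ j, ∃ c : F, c • a = N.col j := by
    intro j
    obtain ⟨c, hc⟩ := hspan ⟨N.mulVec (Pi.single j 1), ⟨_, rfl⟩⟩
    refine ⟨c, ?_⟩
    have := congrArg Subtype.val hc
    simpa using this
  choose b hb using hb
  have hNab : N = Matrix.vecMulVec a b := by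
    ext i j
    have := congrFun (hb j) i
    rw [Matrix.vecMulVec_apply, mul_comm]
    simpa [Matrix.col_apply] using this.symm
  have ha0 : a ≠ 0 := by
    intro h; apply ha; subst h; rfl
  clear ha hspan
  have hb0 : b ≠ 0 := by
    intro h0
    rw [hNab, h0] at hx0
    apply ha0
    rw [← hx0]
    ext i
    simp [Matrix.mulVec, Matrix.vecMulVec, dotProduct]
  have hba : b ⬝ᵥ a = 0 := by
    rw [hNab, Matrix.vecMulVec_mul_vecMulVec] at hsq
    by_contra hne
    obtain ⟨i, hi⟩ := Function.ne_iff.mp ha0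
    obtain ⟨j, hj⟩ := Function.ne_iff.mp hb0
    have := congrFun (congrFun hsq i) j
    simp only [Matrix.vecMulVec_apply, Matrix.smul_apply, smul_eq_mul, Matrix.zero_apply, mul_eq_zero, Pi.smul_apply, Pi.zero_apply] at this hi hj
    tauto
  obtain ⟨s, c, hc, hs⟩ := exists_SL_smul n b hb0
  have hts : (1 : Matrix (Fin (n + 2)) (Fin (n + 2)) F) + N = t := by rw [hN]; abel
  -- g = sᵀ
  let g : Matrix.SpecialLinearGroup (Fin (n + 2)) F := s.transpose
  have hgc : (g : Matrix (Fin (n + 2)) (Fin (n + 2)) F) = (s : Matrix (Fin (n + 2)) (Fin (n + 2)) F).transpose := rfl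
  have hginv : ((g⁻¹ : Matrix.SpecialLinearGroup (Fin (n + 2)) F) : Matrix (Fin (n + 2)) (Fin (n + 2)) F) * (g : Matrix (Fin (n + 2)) (Fin (n + 2)) F) = 1 := by
    rw [← Matrix.SpecialLinearGroup.coe_mul, inv_mul_cancel, Matrix.SpecialLinearGroup.coe_one]
  have hginv' : (g : Matrix (Fin (n + 2)) (Fin (n + 2)) F) * ((g⁻¹ : Matrix.SpecialLinearGroup (Fin (n + 2)) F) : Matrix (Fin (n + 2)) (Fin (n + 2)) F) = 1 := by
    rw [← Matrix.SpecialLinearGroup.coe_mul, mul_inv_cancel, Matrix.SpecialLinearGroup.coe_one]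
  have hbg : Matrix.vecMul b (g : Matrix (Fin (n + 2)) (Fin (n + 2)) F) = c • Pi.single 0 1 := by
    rw [hgc, Matrix.vecMul_transpose, hs]
  refine ⟨g, c • Matrix.mulVec ((g⁻¹ : Matrix.SpecialLinearGroup (Fin (n + 2)) F) : Matrix (Fin (n + 2)) (Fin (n + 2)) F) a, ?_, ?_⟩
  · have h0 : (c • (Pi.single 0 1 : Fin (n + 2) → F)) ⬝ᵥ (Matrix.mulVec ((g⁻¹ : Matrix.SpecialLinearGroup (Fin (n + 2)) F) : Matrix (Fin (n + 2)) (Fin (n + 2)) F) a) = 0 := by
      rw [← hbg, ← Matrix.dotProduct_mulVec, Matrix.mulVec_mulVec, hginv', Matrix.one_mulVec, hba]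
    rw [smul_dotProduct, single_dotProduct, one_mul] at h0
    simpa using h0
  · rw [Matrix.SpecialLinearGroup.coe_mul, Matrix.SpecialLinearGroup.coe_mul, ← hts, Matrix.mul_add, Matrix.add_mul,
      Matrix.mul_one, hginv, hNab, Matrix.mul_vecMulVec, Matrix.vecMulVec_mul, hbg]
    congr 1
    ext i j
    simp only [Matrix.vecMulVec_apply, Pi.smul_apply, smul_eq_mul]
    ring

end Cfsg.Agent.S0839
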