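import Cfsg.Statements.S0820
import Mathlib
import Cfsg.Agent.S0839

set_option autoImplicit false
open Cfsg

namespace Cfsg.Agent.S0820

open Matrix

theorem conj_std {F : Type*} [Field F] (t : Matrix.SpecialLinearGroup (Fin 3) F)
    (ht : Cfsg.IsTransvection (t : Matrix (Fin 3) (Fin 3) F)) :
    ∃ g : Matrix.SpecialLinearGroup (Fin 3) F,
      ((g * t * g⁻¹ : Matrix.SpecialLinearGroup (Fin 3) F) : Matrix (Fin 3) (Fin 3) F) = !![1,0,0;1,1,0;0,0,1] := by
  obtain ⟨g, v, hv0, hg⟩ := Cfsg.Agent.S0839.result 1 t ht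
  have hgt : g⁻¹ * t * g ≠ 1 := by
    intro h
    have h1 : t = 1 := by
      have : t = g * (g⁻¹ * t * g) * g⁻¹ := by group
      rw [h] at this; rw [this]; group
    have := ht.1
    rw [h1] at this
    simp at this
  have hv : v 1 ≠ 0 ∨ v 2 ≠ 0 := by
    by_contra hcon
    push Not at hcon
    apply hgt
    apply Subtype.ext
    rw [hg, Matrix.SpecialLinearGroup.coe_one]
    have : v = 0 := by
      ext i; fin_cases i
      · exact hv0
      · exact hcon.1
      · exact hcon.2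
    rw [this]
    ext i j
    simp [Matrix.vecMulVec_apply]
  have key : ∃ h : Matrix.SpecialLinearGroup (Fin 3) F,
      (h : Matrix (Fin 3) (Fin 3) F) * (1 + Matrix.vecMulVec v (Pi.single 0 1)) = !![1,0,0;1,1,0;0,0,1] * (h : Matrix (Fin 3) (Fin 3) F) := by
    by_cases h1 : v 1 = 0
    · have h2 : v 2 ≠ 0 := by tauto
      refine ⟨⟨!![1,0,0;0,0,(v 2)⁻¹;0,-(v 2),0], ?_⟩, ?_⟩
      · rw [Matrix.det_fin_three]
        simp [h2]
      · ext i j
        fin_cases i <;> fin_cases j <;>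
          simp [Matrix.mul_apply, Fin.sum_univ_three, Matrix.vecMulVec_apply, hv0, h1, h2, Pi.single_apply, Matrix.one_apply]
    · refine ⟨⟨!![1,0,0;0,(v 1)⁻¹,0;0,-(v 2),v 1], ?_⟩, ?_⟩
      · rw [Matrix.det_fin_three]
        simp [h1]
      · ext i j
        fin_cases i <;> fin_cases j <;>
          simp [Matrix.mul_apply, Fin.sum_univ_three, Matrix.vecMulVec_apply, hv0, h1, Pi.single_apply, Matrix.one_apply] <;> ring
  obtain ⟨h, hh⟩ := key
  refine ⟨h * g⁻¹, ?_⟩
  have e1 : h * g⁻¹ * t * (h * g⁻¹)⁻¹ = h * (g⁻¹ * t * g) * h⁻¹ := by group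
  rw [e1, Matrix.SpecialLinearGroup.coe_mul, Matrix.SpecialLinearGroup.coe_mul, hg, hh, Matrix.mul_assoc,
    ← Matrix.SpecialLinearGroup.coe_mul, mul_inv_cancel, Matrix.SpecialLinearGroup.coe_one, Matrix.mul_one]

theorem lift_inv {F : Type*} [Field F] [Fintype F] (hF : Fintype.card F = 4) (x : Matrix.ProjectiveSpecialLinearGroup (Fin 3) F)
    (hx : orderOf x = 2) : ∃ s : Matrix.SpecialLinearGroup (Fin 3) F, QuotientGroup.mk s = x ∧
      Cfsg.IsTransvection (s : Matrix (Fin 3) (Fin 3) F) := by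
  obtain ⟨s, rfl⟩ := QuotientGroup.mk_surjective x
  have h2 : CharP F 2 := by
    exact charP_of_card_eq_prime_pow (f := 2) (by rw [hF]; norm_num)
  have hs2 : s ^ 2 ∈ Subgroup.center (Matrix.SpecialLinearGroup (Fin 3) F) := by
    rw [← QuotientGroup.eq_one_iff, QuotientGroup.mk_pow, ← hx]
    exact pow_orderOf_eq_one _
  have hs6 : (s ^ 3) ^ 2 = 1 := by
    rw [Matrix.SpecialLinearGroup.mem_center_iff] at hs2
    obtain ⟨r, hr, hrs⟩ := hs2
    rw [← pow_mul, mul_comm, pow_mul]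
    apply Subtype.ext
    rw [Matrix.SpecialLinearGroup.coe_pow, ← hrs, Matrix.SpecialLinearGroup.coe_one, ← map_pow]
    rw [Fintype.card_fin] at hr
    rw [hr, map_one]
  have hmk : (QuotientGroup.mk (s ^ 3) : Matrix.ProjectiveSpecialLinearGroup (Fin 3) F) = QuotientGroup.mk s := by
    rw [QuotientGroup.mk_pow, pow_succ]
    have : (QuotientGroup.mk s : Matrix.ProjectiveSpecialLinearGroup (Fin 3) F) ^ 2 = 1 := by
      rw [← hx]; exact pow_orderOf_eq_one _
    rw [this, one_mul]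
  refine ⟨s ^ 3, hmk, ?_⟩
  have hne : s ^ 3 ≠ 1 := by
    intro h
    rw [← hmk, h] at hx
    simp at hx
  set u := s ^ 3 with hu
  have hsq : ((u : Matrix (Fin 3) (Fin 3) F) - 1) * ((u : Matrix (Fin 3) (Fin 3) F) - 1) = 0 := by
    have h1 : (u : Matrix (Fin 3) (Fin 3) F) * (u : Matrix (Fin 3) (Fin 3) F) = 1 := by
      rw [← Matrix.SpecialLinearGroup.coe_mul, ← sq, hs6, Matrix.SpecialLinearGroup.coe_one]
    have h20 : (2 : F) = 0 := CharTwo.two_eq_zero
    have : ((u : Matrix (Fin 3) (Fin 3) F) - 1) * ((u : Matrix (Fin 3) (Fin 3) F) - 1) = (2 : F) • (1 - (u : Matrix (Fin 3) (Fin 3) F)) := by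
      rw [sub_mul, mul_sub, h1, two_smul]
      simp only [one_mul, mul_one]
      abel
    rw [this, h20, zero_smul]
  refine ⟨?_, hsq⟩
  set N := (u : Matrix (Fin 3) (Fin 3) F) - 1 with hN
  have hle : N.mulVecLin.range ≤ N.mulVecLin.ker := by
    rintro _ ⟨y, rfl⟩
    rw [LinearMap.mem_ker, Matrix.mulVecLin_apply, Matrix.mulVecLin_apply, Matrix.mulVec_mulVec, hsq, Matrix.zero_mulVec]
  have h3 := N.mulVecLin.finrank_range_add_finrank_ker
  rw [Module.finrank_fin_fun] at h3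
  have h4 := Submodule.finrank_mono hle
  have h5 : Module.finrank F N.mulVecLin.range ≠ 0 := by
    intro h0
    rw [Submodule.finrank_eq_zero, LinearMap.range_eq_bot] at h0
    have h6 : N = 0 := by
      ext i j
      have := congrFun (congrArg (fun f : (Fin 3 → F) →ₗ[F] (Fin 3 → F) => f (Pi.single j 1)) h0) i
      simpa using this
    apply hne
    apply Subtype.ext
    rw [Matrix.SpecialLinearGroup.coe_one]
    rw [hN, sub_eq_zero] at h6
    exact h6
  rw [Matrix.rank]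
  omega

/-- Any two elements of order 2 of PSL_3(4) are conjugate. -/
theorem result {F : Type*} [Field F] [Fintype F] (hF : Fintype.card F = 4) (x y : Matrix.ProjectiveSpecialLinearGroup (Fin 3) F) (hx : orderOf x = 2) (hy : orderOf y = 2) : IsConj x y := by
  obtain ⟨s, rfl, hs⟩ := lift_inv hF x hx
  obtain ⟨t, rfl, ht⟩ := lift_inv hF y hy
  obtain ⟨g, hg⟩ := conj_std s hs
  obtain ⟨h, hh⟩ := conj_std t ht
  have e : g * s * g⁻¹ = h * t * h⁻¹ := by
    apply Subtype.ext
    exact hg.trans hh.symm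
  have : IsConj s t := by
    rw [isConj_iff]
    refine ⟨h⁻¹ * g, ?_⟩
    have : h⁻¹ * g * s * (h⁻¹ * g)⁻¹ = h⁻¹ * (g * s * g⁻¹) * h := by group
    rw [this, e]; group
  exact MonoidHom.map_isConj (QuotientGroup.mk' _) this

end Cfsg.Agent.S0820
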