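import Cfsg.Statements.S0822
import Mathlib
import Cfsg.Agent.H5_E6
import Cfsg.Agent.H5_OmCard
import Cfsg.Agent.S0303
import Cfsg.Agent.S0301
import Cfsg.Agent.S0245
import Cfsg.Agent.S0246
import Cfsg.Agent.S0288

set_option autoImplicit false
open Cfsg

namespace Cfsg.Agent.S0822

theorem sp_map {F K : Type*} [Field F] [Field K] (e : F ≃+* K) {m : ℕ} (A : Matrix (Fin m ⊕ Fin m) (Fin m ⊕ Fin m) F)
    (hA : A ∈ Matrix.symplecticGroup (Fin m) F) : A.map e ∈ Matrix.symplecticGroup (Fin m) K := by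
  rw [SymplecticGroup.mem_iff] at hA ⊢
  have h1 := congrArg (fun M : Matrix (Fin m ⊕ Fin m) (Fin m ⊕ Fin m) F => M.map e) hA
  simp only [Matrix.map_mul] at h1
  have h2 : (Matrix.J (Fin m) F).map e = Matrix.J (Fin m) K := by
    rw [Matrix.J, Matrix.J, Matrix.fromBlocks_map]
    congr 1
    · ext i j; simp
    · ext i j
      rw [Matrix.map_apply, Matrix.neg_apply, Matrix.neg_apply, map_neg, Matrix.one_apply, Matrix.one_apply]
      split_ifs <;> simp
    · exact Matrix.map_one _ (map_zero e) (map_one e)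
    · ext i j; simp
  rw [h2] at h1
  rw [Matrix.transpose_map] at h1
  exact h1

open Cfsg.Agent.H5 in
theorem psp_congr {F K : Type*} [Field F] [Field K] (e : F ≃+* K) (m : ℕ) : Nonempty (Cfsg.PSp m F ≃* Cfsg.PSp m K) := by
  let E : Matrix.symplecticGroup (Fin m) F ≃* Matrix.symplecticGroup (Fin m) K :=
    { toFun := fun A => ⟨A.1.map e, sp_map e A.1 A.2⟩
      invFun := fun A => ⟨A.1.map e.symm, sp_map e.symm A.1 A.2⟩
      left_inv := fun A => by
        apply Subtype.ext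
        ext i j
        simp
      right_inv := fun A => by
        apply Subtype.ext
        ext i j
        simp
      map_mul' := fun A B => by
        apply Subtype.ext
        exact Matrix.map_mul }
  exact ⟨OmSim.quotCenterE E⟩

/-- PSU_4(2) ≅ PSp_4(3): with |F| = 4 and |K| = 3, the projective special unitary group of the standard Hermitian form on F^4 is isomorphic to PSp_4(K). -/
theorem result {F K : Type*} [Field F] [Fintype F] [Field K] [Fintype K] (hF : Fintype.card F = 4) (hK : Fintype.card K = 3) : Nonempty (Cfsg.PSU 4 F 2 ≃* Cfsg.PSp 2 K) := by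
  have hK3 : Fact (Nat.Prime 3) := ⟨by norm_num⟩
  have hK2 : Fact (Nat.Prime 2) := ⟨by norm_num⟩
  obtain ⟨e1⟩ := S0303.result (F := ZMod 2) (K := F) (q := 2) (ZMod.card 2) (by rw [hF]; norm_num) 1 1 H5.E6.hab2
  obtain ⟨e2⟩ := S0301.result (F := ZMod 3) (by rw [ZMod.card 3]; decide)
  obtain ⟨e3⟩ := psp_congr (ZMod.ringEquivOfPrime K (p := 3) (by norm_num) hK) 2
  -- Omega for minus type
  have hQ2 := H16.Quad.nd_minusQ (F := ZMod 2) 2 H5.E6.hab2
  have h20 : (2 : ZMod 2) = 0 := rfl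
  have hcen := H5.OmSim.center_char_two hQ2 (by decide) h20
  rw [Subgroup.card_eq_one] at hcen
  have e4 : Cfsg.POmega (ZMod 2) ⇑(H16.Quad.minusQ (ZMod 2) 2 1 1) ≃* Cfsg.Omega (ZMod 2) ⇑(H16.Quad.minusQ (ZMod 2) 2 1 1) :=
    (QuotientGroup.quotientMulEquivOfEq hcen).trans QuotientGroup.quotientBot
  have e5 : Cfsg.Omega (ZMod 2) ⇑(H16.Quad.minusQ (ZMod 2) 2 1 1) ≃* ↥(commutator (H16.Quad.OG H5.E6.Q2)) :=
    (H5.OmSim.omE _).trans (H5.E6.comE (H5.E6.ogCongr H5.E6.E2 H5.E6.Q2_E2))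
  have e6 : Cfsg.POmega (ZMod 3) ⇑(H16.Quad.oddQ (ZMod 3) 2) ≃* ↥(commutator (H16.Quad.OG H5.E6.Q3)) ⧸ Subgroup.center ↥(commutator (H16.Quad.OG H5.E6.Q3)) :=
    H5.OmSim.quotCenterE ((H5.OmSim.omE _).trans (H5.E6.comE (H5.E6.ogCongr H5.E6.E3 H5.E6.Q3_E3)))
  rw [← H16.Quad.coe_minusQ] at e1
  rw [← H16.Quad.coe_oddQ] at e2
  have c1 : Nat.card (Cfsg.PSp 2 (ZMod 3)) = 25920 := by
    have h1 := S0245.result (F := ZMod 3) (ZMod.card 3) 2
    have h2 := S0246.result (F := ZMod 3) (ZMod.card 3) 2 (by norm_num)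
    have h3 := Subgroup.card_mul_index (Subgroup.center (Matrix.symplecticGroup (Fin 2) (ZMod 3)))
    have h4 : Nat.gcd 2 (3 - 1) = 2 := by norm_num
    have h5 : 3 ^ (2 ^ 2) * ∏ i ∈ Finset.range 2, (3 ^ (2 * (i + 1)) - 1) = 51840 := by
      norm_num [Finset.prod_range_succ]
    rw [h1, h2, h4, h5] at h3
    have h6 : 2 * Nat.card (Cfsg.PSp 2 (ZMod 3)) = 51840 := h3
    omega
  have c2 : Nat.card (Cfsg.Omega (ZMod 2) ⇑(H16.Quad.minusQ (ZMod 2) 2 1 1)) = 25920 := by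
    have h1 := S0288.result (F := ZMod 2) (ZMod.card 2) 3 (by norm_num) 1 1 H5.E6.hab2
    have h2 := (Cfsg.Omega (ZMod 2) (Cfsg.quadFormMinus 2 (ZMod 2) 1 1)).card_mul_index
    have h3 : Nat.card (Cfsg.isometryGroup (ZMod 2) (Cfsg.quadFormMinus 2 (ZMod 2) 1 1)) = 51840 := by
      have e1 : Nat.card (Cfsg.isometryGroup (ZMod 2) (Cfsg.quadFormMinus 2 (ZMod 2) 1 1)) = _ := h1
      rw [e1]
      norm_num [Finset.prod_range_succ]
    rw [h3, ← H16.Quad.coe_minusQ, H16.Quad.Omega_index_two hQ2 h20 (by simp) (Or.inr (by simp))] at h2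
    omega
  obtain ⟨e7⟩ := H5.E6.main_iso' (by
    rw [← Nat.card_congr e6.toEquiv, Nat.card_congr e2.toEquiv, c1, ← Nat.card_congr e5.toEquiv, c2])
  exact ⟨e1.symm.trans (e4.trans (e5.trans (e7.symm.trans (e6.symm.trans (e2.trans e3)))))⟩

end Cfsg.Agent.S0822
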