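import Cfsg.Statements.S0823
import Mathlib
import Cfsg.Agent.H5_SmallIso
import Cfsg.Agent.H5_OmCard
import Cfsg.Agent.H16_Std
import Cfsg.Agent.S0286

set_option autoImplicit false
open Cfsg

namespace Cfsg.Agent.S0823


open Matrix QuadraticMap Cfsg.Agent.H16.Quad in
section

variable {F : Type*} [Field F] [Fintype F]

local notation "V" => (Unit ⊕ (Fin 1 ⊕ Fin 1) → F)

theorem cases3 (hF : Fintype.card F = 3) (a : F) : a = 0 ∨ a = 1 ∨ a = -1 := by
  have h := FiniteField.pow_card a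
  rw [hF] at h
  have h1 : a * ((a - 1) * (a + 1)) = 0 := by linear_combination h
  rcases mul_eq_zero.1 h1 with h | h
  · exact Or.inl h
  · rcases mul_eq_zero.1 h with h | h
    · exact Or.inr (Or.inl (sub_eq_zero.1 h))
    · exact Or.inr (Or.inr (eq_neg_of_add_eq_zero_left h))

theorem two_ne (hF : Fintype.card F = 3) : (2 : F) ≠ 0 := by
  intro h2
  have h3 : ringChar F = 2 := by
    have h4 := ringChar.dvd (R := F) (x := 2) (by exact_mod_cast h2)
    exact (Nat.prime_dvd_prime_iff_eq (CharP.char_is_prime F (ringChar F)) Nat.prime_two).1 h4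
  have h5 := FiniteField.even_card_iff_char_two.1 h3
  omega

/-- coordinates -/
def vv (a b c : F) : V := Sum.elim (fun _ => a) (Sum.elim (fun _ => b) (fun _ => c))

theorem vv_eta (v : V) : v = vv (v (.inl ())) (v (.inr (.inl 0))) (v (.inr (.inr 0))) := by
  ext (i | i | i)
  · rfl
  · have : i = 0 := Subsingleton.elim _ _
    subst this; rfl
  · have : i = 0 := Subsingleton.elim _ _
    subst this; rfl

theorem vv_inj {a b c a' b' c' : F} (h : (vv a b c : V) = vv a' b' c') : a = a' ∧ b = b' ∧ c = c' :=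
  ⟨congrFun h (.inl ()), congrFun h (.inr (.inl 0)), congrFun h (.inr (.inr 0))⟩

theorem Q_vv (a b c : F) : Cfsg.quadFormOdd 1 F (vv a b c) = a ^ 2 + b * c := by
  simp [Cfsg.quadFormOdd, vv]

theorem vv_smul (d a b c : F) : d • (vv a b c : V) = vv (d * a) (d * b) (d * c) := by
  ext (i | i | i) <;> rfl

theorem polar_vv (a b c a' b' c' : F) : polar (oddQ F 1) (vv a b c) (vv a' b' c') = 2 * a * a' + (b * c' + b' * c) := by
  rw [polar_oddQ]
  simp [vv]

/-- the four points -/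
def P4 : Fin 4 → V := ![vv 0 1 0, vv 0 0 1, vv 1 1 (-1), vv 1 (-1) 1]

theorem P4_ne (i : Fin 4) : (P4 i : V) ≠ 0 := by
  intro h
  have h0 : (0 : V) = vv 0 0 0 := vv_eta 0
  rw [h0] at h
  fin_cases i
  · exact one_ne_zero (vv_inj h).2.1
  · exact one_ne_zero (vv_inj h).2.2
  · exact one_ne_zero (vv_inj h).1
  · exact one_ne_zero (vv_inj h).1

theorem P4_sing (i : Fin 4) : Cfsg.quadFormOdd 1 F (P4 i) = 0 := by
  fin_cases i <;> simp [P4, Q_vv]

theorem list4 (hF : Fintype.card F = 3) (v : V) (hv : v ≠ 0) (hQ : Cfsg.quadFormOdd 1 F v = 0) :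
    ∃ i : Fin 4, ∃ c : F, c • v = P4 i := by
  rw [vv_eta v] at hQ hv ⊢
  rw [Q_vv] at hQ
  generalize v (.inl ()) = a at hQ hv ⊢
  generalize v (.inr (.inl 0)) = b at hQ hv ⊢
  generalize v (.inr (.inr 0)) = c at hQ hv ⊢
  by_cases ha : a = 0
  · subst ha
    rw [zero_pow two_ne_zero, zero_add] at hQ
    rcases mul_eq_zero.1 hQ with rfl | rfl
    · have hc : c ≠ 0 := by
        rintro rfl
        exact hv (vv_eta 0).symm
      exact ⟨1, c⁻¹, by rw [vv_smul]; simp [P4, inv_mul_cancel₀ hc]⟩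
    · have hb : b ≠ 0 := by
        rintro rfl
        exact hv (vv_eta 0).symm
      exact ⟨0, b⁻¹, by rw [vv_smul]; simp [P4, inv_mul_cancel₀ hb]⟩
  · have ha2 : a ^ 2 = 1 := by
      rcases cases3 hF a with h | h | h
      · exact absurd h ha
      · rw [h]; ring
      · rw [h]; ring
    have hbc : b * c = -1 := by linear_combination hQ - ha2
    rcases cases3 hF b with h | h | h
    · rw [h, zero_mul] at hbc
      exact absurd hbc.symm (neg_ne_zero.2 one_ne_zero)
    · have hc : c = -1 := by rw [h, one_mul] at hbc; exact hbc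
      rcases cases3 hF a with h' | h' | h'
      · exact absurd h' ha
      · exact ⟨2, 1, by rw [vv_smul, h, hc, h']; simp [P4]⟩
      · exact ⟨3, -1, by rw [vv_smul, h, hc, h']; simp [P4]⟩
    · have hc : c = 1 := by rw [h] at hbc; linear_combination -hbc
      rcases cases3 hF a with h' | h' | h'
      · exact absurd h' ha
      · exact ⟨3, 1, by rw [vv_smul, h, hc, h']; simp [P4]⟩
      · exact ⟨2, -1, by rw [vv_smul, h, hc, h']; simp [P4]⟩

theorem card_SO (hF : Fintype.card F = 3) : Nat.card ↥(Cfsg.specialIsometryGroup F ⇑(oddQ F 1)) = 24 := by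
  have h1 := S0286.result hF (by decide) 1
  rw [← coe_oddQ] at h1
  have h2 := two_ne hF
  have h3 := (Cfsg.specialIsometryGroup F ⇑(oddQ F 1)).card_mul_index
  have h4 : (Cfsg.specialIsometryGroup F ⇑(oddQ F 1)).index = 2 := by
    rw [Cfsg.specialIsometryGroup, Subgroup.index_ker, Nat.card_eq_two_iff]
    have hc : ((-1 : GL (Unit ⊕ (Fin 1 ⊕ Fin 1)) F) : Matrix (Unit ⊕ (Fin 1 ⊕ Fin 1)) (Unit ⊕ (Fin 1 ⊕ Fin 1)) F) = -1 := by
      rw [Units.val_neg, Units.val_one]
    have hneg : (-1 : GL (Unit ⊕ (Fin 1 ⊕ Fin 1)) F) ∈ Cfsg.isometryGroup F ⇑(oddQ F 1) := by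
      rw [mem_isometryGroup]
      intro v
      rw [hc, Matrix.neg_mulVec, Matrix.one_mulVec, QuadraticMap.map_neg]
    have hdet : (Matrix.GeneralLinearGroup.det.comp (Cfsg.isometryGroup F ⇑(oddQ F 1)).subtype) ⟨-1, hneg⟩ = -1 := by
      apply Units.ext
      show ((-1 : GL (Unit ⊕ (Fin 1 ⊕ Fin 1)) F) : Matrix (Unit ⊕ (Fin 1 ⊕ Fin 1)) (Unit ⊕ (Fin 1 ⊕ Fin 1)) F).det = -1
      rw [hc, Matrix.det_neg, Matrix.det_one]
      simp
      norm_num
    refine ⟨1, ⟨-1, ⟨⟨-1, hneg⟩, hdet⟩⟩, ?_, ?_⟩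
    · intro h
      have h5 : (1 : Fˣ) = -1 := congrArg Subtype.val h
      have h6 : (1 : F) = -1 := congrArg Units.val h5
      exact h2 (by linear_combination h6)
    · rw [Set.eq_univ_iff_forall]
      rintro ⟨_, g, rfl⟩
      rcases iso_det_sq (nd_oddQ h2 1) g with h5 | h5
      · left
        apply Subtype.ext
        apply Units.ext
        exact h5
      · right
        rw [Set.mem_singleton_iff]
        apply Subtype.ext
        apply Units.ext
        exact h5
  rw [h4, h1] at h3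
  simp at h3
  omega

/-- singular points -/
def X3 (F : Type*) [Field F] : Type _ := {p : Projectivization F (Unit ⊕ (Fin 1 ⊕ Fin 1) → F) // oddQ F 1 p.rep = 0}

theorem rep_iff {v : V} (hv : v ≠ 0) : oddQ F 1 (Projectivization.mk F v hv).rep = 0 ↔ oddQ F 1 v = 0 :=
  H5.OmSim.Q_rep_iff hv

theorem X3_le (hF : Fintype.card F = 3) : Nat.card (X3 F) ≤ 4 := by
  let f : Fin 4 → X3 F := fun i => ⟨Projectivization.mk F (P4 i) (P4_ne i), (rep_iff _).2 (by rw [oddQ_apply, P4_sing])⟩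
  have hf : Function.Surjective f := by
    rintro ⟨p, hp⟩
    obtain ⟨i, c, hc⟩ := list4 hF p.rep p.rep_nonzero (by rw [← oddQ_apply]; exact hp)
    refine ⟨i, ?_⟩
    apply Subtype.ext
    show Projectivization.mk F (P4 i) (P4_ne i) = p
    conv_rhs => rw [← Projectivization.mk_rep p]
    rw [Projectivization.mk_eq_mk_iff']
    exact ⟨c, hc⟩
  have := Nat.card_le_card_of_surjective f hf
  simpa using this

theorem smul_ne (g : OG (oddQ F 1)) {v : V} (hv : v ≠ 0) : g • v ≠ 0 := fun h => hv ((smul_eq_zero_iff_eq g).mp h)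

noncomputable instance act3 : MulAction (OG (oddQ F 1)) (X3 F) where
  smul g p := ⟨g • p.1, by
    obtain ⟨p, hp⟩ := p
    have h1 : p = Projectivization.mk F p.rep p.rep_nonzero := (Projectivization.mk_rep p).symm
    have : g • (Projectivization.mk F p.rep p.rep_nonzero) = Projectivization.mk F (g • p.rep) (smul_ne g p.rep_nonzero) := rfl
    show oddQ F 1 (g • p).rep = 0
    rw [h1, this, rep_iff]
    exact (mem_OG.1 g.2 _).trans hp⟩
  one_smul p := Subtype.ext (one_smul _ _)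
  mul_smul g h p := Subtype.ext (mul_smul _ _ _)

theorem fix_pt (g : OG (oddQ F 1)) (h : ∀ p : X3 F, g • p = p) (v : V) (hv : v ≠ 0) (hQ : Cfsg.quadFormOdd 1 F v = 0) :
    ∃ c : F, g.1 v = c • v := by
  have h1 := h ⟨Projectivization.mk F v hv, (rep_iff hv).2 (by rw [oddQ_apply, hQ])⟩
  have h2 : g • (Projectivization.mk F v hv) = Projectivization.mk F v hv := congrArg Subtype.val h1
  have h3 : g • (Projectivization.mk F v hv) = Projectivization.mk F (g • v) (smul_ne g hv) := rfl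
  rw [h3, Projectivization.mk_eq_mk_iff'] at h2
  obtain ⟨c, hc⟩ := h2
  exact ⟨c, hc.symm⟩

theorem scalar_of_fix (h2 : (2 : F) ≠ 0) (g : OG (oddQ F 1)) (h : ∀ p : X3 F, g • p = p) : ∃ c : F, ∀ v, g.1 v = c • v := by
  obtain ⟨a, ha⟩ := fix_pt g h (P4 0) (P4_ne 0) (P4_sing 0)
  obtain ⟨b, hb⟩ := fix_pt g h (P4 1) (P4_ne 1) (P4_sing 1)
  obtain ⟨c, hc⟩ := fix_pt g h (P4 2) (P4_ne 2) (P4_sing 2)
  obtain ⟨d, hd⟩ := fix_pt g h (P4 3) (P4_ne 3) (P4_sing 3)
  have ha' : g.1 (vv 0 1 0) = a • vv 0 1 0 := ha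
  have hb' : g.1 (vv 0 0 1) = b • vv 0 0 1 := hb
  have hc' : g.1 (vv 1 1 (-1)) = c • vv 1 1 (-1) := hc
  have hd' : g.1 (vv 1 (-1) 1) = d • vv 1 (-1) 1 := hd
  have e1 : (vv 1 1 (-1) : V) = vv 1 0 0 + vv 0 1 0 - vv 0 0 1 := by
    ext (i | i | i) <;> simp [vv]
  have e2 : (vv 1 (-1) 1 : V) = vv 1 0 0 - vv 0 1 0 + vv 0 0 1 := by
    ext (i | i | i) <;> simp [vv]
  have hs : ∀ x y z : F, (x • vv 1 0 0 + y • vv 0 1 0 + z • vv 0 0 1 : V) = vv x y z := by
    intro x y z
    ext (i | i | i) <;> simp [vv]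
  have f1 : g.1 (vv 1 0 0) = vv c (c - a) (b - c) := by
    have : (vv 1 0 0 : V) = vv 1 1 (-1) - vv 0 1 0 + vv 0 0 1 := by rw [e1]; abel
    rw [this, _root_.map_add, _root_.map_sub, hc', ha', hb']
    ext (i | i | i) <;> simp [vv] <;> ring
  have f2 : g.1 (vv 1 0 0) = vv d (a - d) (d - b) := by
    have : (vv 1 0 0 : V) = vv 1 (-1) 1 + vv 0 1 0 - vv 0 0 1 := by rw [e2]; abel
    rw [this, _root_.map_sub, _root_.map_add, hd', ha', hb']
    ext (i | i | i) <;> simp [vv] <;> ring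
  obtain ⟨g1, g2, g3⟩ := vv_inj (f1.symm.trans f2)
  have hca : c = a := by
    have : 2 * (c - a) = 0 := by rw [← g1] at g2; linear_combination g2
    exact sub_eq_zero.1 ((mul_eq_zero.1 this).resolve_left h2)
  have hcb : c = b := by
    have : 2 * (c - b) = 0 := by rw [← g1] at g3; linear_combination -g3
    exact sub_eq_zero.1 ((mul_eq_zero.1 this).resolve_left h2)
  refine ⟨c, fun v => ?_⟩
  rw [vv_eta v, ← hs, _root_.map_add, _root_.map_add, _root_.map_smul, _root_.map_smul, _root_.map_smul, f1, ha', hb', ← hca, ← hcb, sub_self]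
  ext (i | i | i) <;> simp [vv] <;> ring

theorem final (hF : Fintype.card F = 3) : Nonempty (↥(Cfsg.specialIsometryGroup F ⇑(oddQ F 1)) ≃* Equiv.Perm (Fin 4)) := by
  have h2 := two_ne hF
  let φ : ↥(Cfsg.specialIsometryGroup F ⇑(oddQ F 1)) →* Equiv.Perm (X3 F) :=
    (MulAction.toPermHom (OG (oddQ F 1)) (X3 F)).comp ((toOG (oddQ F 1)).toMonoidHom.comp (Subgroup.subtype _))
  have hφ : Function.Injective φ := by
    rw [injective_iff_map_eq_one]
    intro g hg
    have h1 : ∀ p : X3 F, toOG (oddQ F 1) g.1 • p = p := fun p => congrArg (fun s : Equiv.Perm (X3 F) => s p) hg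
    obtain ⟨c, hc⟩ := scalar_of_fix h2 _ h1
    have hM : ((g.1 : GL (Unit ⊕ (Fin 1 ⊕ Fin 1)) F) : Matrix (Unit ⊕ (Fin 1 ⊕ Fin 1)) (Unit ⊕ (Fin 1 ⊕ Fin 1)) F) = c • 1 := by
      apply mat_ext
      intro v
      rw [Matrix.smul_mulVec, Matrix.one_mulVec]
      exact hc v
    have hdet : ((g.1 : GL (Unit ⊕ (Fin 1 ⊕ Fin 1)) F) : Matrix (Unit ⊕ (Fin 1 ⊕ Fin 1)) (Unit ⊕ (Fin 1 ⊕ Fin 1)) F).det = 1 := by
      have h3 := (MonoidHom.mem_ker).1 g.2
      exact congrArg Units.val h3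
    rw [hM, Matrix.det_smul, Matrix.det_one, mul_one] at hdet
    have hc3 : c ^ 3 = 1 := by simpa using hdet
    have hc1 : c = 1 := by
      rcases cases3 hF c with h | h | h
      · rw [h] at hc3; norm_num at hc3
      · exact h
      · rw [h] at hc3
        exfalso
        exact h2 (by linear_combination -hc3)
    apply Subtype.ext
    apply Subtype.ext
    apply Units.ext
    rw [hM, hc1, one_smul]; rfl
  have hfinX : Finite (X3 F) := inferInstanceAs (Finite {p : Projectivization F (Unit ⊕ (Fin 1 ⊕ Fin 1) → F) // oddQ F 1 p.rep = 0})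
  have hX : Nat.card (X3 F) = 4 := by
    apply le_antisymm (X3_le hF)
    by_contra hlt
    push Not at hlt
    have h3 := Nat.card_le_card_of_injective φ hφ
    rw [card_SO hF, Nat.card_perm] at h3
    have h4 := Nat.factorial_le (show Nat.card (X3 F) ≤ 3 by omega)
    have : Nat.factorial 3 = 6 := rfl
    omega
  exact H5.SmallIso.perm_of_hom hX φ hφ (by rw [card_SO hF]; rfl)

end

/-- SO_3(3) ≅ S_4: the determinant-one isometries of the form x_0² + x_1y_1 over the field with 3 elements form a group isomorphic to the symmetric group on 4 letters. -/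
theorem result {F : Type*} [Field F] [Fintype F] (hF : Fintype.card F = 3) : Nonempty (↥(Cfsg.specialIsometryGroup F (Cfsg.quadFormOdd 1 F)) ≃* Equiv.Perm (Fin 4)) := by
  rw [← H16.Quad.coe_oddQ]
  exact final hF

end Cfsg.Agent.S0823
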