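import Cfsg.Statements.S0828
import Mathlib
import Cfsg.Agent.H5_Concrete
import Cfsg.Agent.H5_TS

set_option autoImplicit false
open Cfsg

namespace Cfsg.Agent.S0828

open Cfsg.Agent.H5 Cfsg.Agent.H5.Frm in
/-- number of totally singular planes through a given singular vector -/
theorem through {F : Type*} [Field F] [Fintype F] {σ : F →+* F} {ε : F} {t : F →+ F}
    {V : Type*} [AddCommGroup V] [Module F V] [FiniteDimensional F V] {A : Frm F σ ε t V}
    {u f : V} (hp : A.HPair u f) :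
    Nat.card {W : Submodule F V // Module.finrank F W = 2 ∧ u ∈ W ∧ (∀ v ∈ W, A.Q v = 0) ∧
      ∀ v ∈ W, ∀ w ∈ W, A.B v w = 0} * (Fintype.card F ^ 2 - Fintype.card F) =
      Fintype.card F * (A.restrict (A.perp2 u f)).tsCard 1 := by
  classical
  have hfin : Finite V := Module.finite_of_finite F
  have h1 := card_fiber_ts hp 1
  rw [pow_one] at h1
  rw [← h1]
  have hcons : ∀ x : Fin 1 → V, (Fin.cons u x : Fin 2 → V) = ![u, x 0] := by
    intro x
    funext i
    fin_cases i <;> rfl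
  have key : ∀ x : V, A.IsTS ![u, x] →
      Module.finrank F (Submodule.span F {u, x}) = 2 ∧ u ∈ Submodule.span F {u, x} ∧
      (∀ v ∈ Submodule.span F {u, x}, A.Q v = 0) ∧
        ∀ v ∈ Submodule.span F {u, x}, ∀ w ∈ Submodule.span F {u, x}, A.B v w = 0 := by
    intro x hx
    have hQx : A.Q x = 0 := hx.2.1 1
    have hBux : A.B u x = 0 := hx.2.2 0 1
    have hBxu : A.B x u = 0 := hx.2.2 1 0
    have hBxx : A.B x x = 0 := hx.2.2 1 1
    refine ⟨?_, Submodule.subset_span (by simp), ?_, ?_⟩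
    · have h2 := finrank_span_eq_card hx.1
      rw [Matrix.range_cons, Matrix.range_cons, Matrix.range_empty, Set.union_empty,
        Set.singleton_union, Fintype.card_fin] at h2
      exact h2
    · intro v hv
      obtain ⟨a, b, rfl⟩ := Submodule.mem_span_pair.mp hv
      rw [A.Q_add, A.Q_smul, A.Q_smul, hp.Qu, hQx, B_smul_smul, hBux]
      simp
    · intro v hv w hw
      obtain ⟨a, b, rfl⟩ := Submodule.mem_span_pair.mp hv
      obtain ⟨c, d, rfl⟩ := Submodule.mem_span_pair.mp hw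
      simp only [map_add, LinearMap.add_apply, B_smul_smul, hp.Buu, hBux, hBxu, hBxx, mul_zero,
        add_zero]
  have e : {x : Fin 1 → V // A.IsTS (Fin.cons u x : Fin 2 → V)} ≃
      Σ W : {W : Submodule F V // Module.finrank F W = 2 ∧ u ∈ W ∧ (∀ v ∈ W, A.Q v = 0) ∧
      ∀ v ∈ W, ∀ w ∈ W, A.B v w = 0}, {x : W.1 // (x : V) ∉ Submodule.span F {u}} := by
    have hni : ∀ x : V, LinearIndependent F ![u, x] → x ∉ Submodule.span F {u} := by
      intro x hx hmem
      obtain ⟨c, hc⟩ := Submodule.mem_span_singleton.mp hmem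
      have := (LinearIndependent.pair_iff.mp hx) c (-1) (by rw [hc, neg_smul, one_smul, add_neg_cancel])
      exact one_ne_zero (neg_eq_zero.mp this.2)
    have hin : ∀ x : V, x ∉ Submodule.span F {u} → LinearIndependent F ![u, x] := by
      intro x hx
      rw [LinearIndependent.pair_iff]
      intro a b hab
      have hb : b = 0 := by
        by_contra hb
        apply hx
        rw [Submodule.mem_span_singleton]
        refine ⟨-(b⁻¹ * a), ?_⟩
        have h3 : b • x = (-a) • u := by rw [neg_smul, eq_neg_iff_add_eq_zero, add_comm]; exact hab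
        calc (-(b⁻¹ * a)) • u = b⁻¹ • ((-a) • u) := by rw [smul_smul, mul_neg]
          _ = x := by rw [← h3, smul_smul, inv_mul_cancel₀ hb, one_smul]
      rw [hb, zero_smul, add_zero] at hab
      exact ⟨(smul_eq_zero.mp hab).resolve_right hp.u_ne, hb⟩
    exact
    { toFun := fun x => ⟨⟨_, key (x.1 0) (by rw [← hcons]; exact x.2)⟩,
        ⟨⟨x.1 0, Submodule.subset_span (by simp)⟩, hni _ (by
          have := x.2.1; rwa [hcons] at this)⟩⟩
      invFun := fun p => ⟨fun _ => (p.2.1 : V), by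
        rw [hcons]
        refine ⟨hin _ p.2.2, fun i => ?_, fun i j => ?_⟩
        · fin_cases i
          · exact hp.Qu
          · exact p.1.2.2.2.1 _ p.2.1.2
        · fin_cases i <;> fin_cases j
          · exact hp.Buu
          · exact p.1.2.2.2.2 _ p.1.2.2.1 _ p.2.1.2
          · exact p.1.2.2.2.2 _ p.2.1.2 _ p.1.2.2.1
          · exact p.1.2.2.2.2 _ p.2.1.2 _ p.2.1.2⟩
      left_inv := fun x => Subtype.ext (funext fun i => by
        have : i = 0 := Subsingleton.elim _ _
        subst this; rfl)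
      right_inv := fun p => by
        obtain ⟨⟨W, hW⟩, ⟨⟨x, hxW⟩, hx⟩⟩ := p
        have h2 : Submodule.span F {u, x} = W := by
          apply Submodule.eq_of_le_of_finrank_eq
          · rw [Submodule.span_le]
            rintro y (rfl | rfl)
            · exact hW.2.1
            · exact hxW
          · have h2 := finrank_span_eq_card (hin x hx)
            rw [Matrix.range_cons, Matrix.range_cons, Matrix.range_empty, Set.union_empty,
              Set.singleton_union, Fintype.card_fin] at h2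
            rw [h2, hW.1]
        refine Sigma.ext (Subtype.ext h2) ?_
        simp only
        have : ∀ (W' : Submodule F V) (hWW : W' = W) (hm : x ∈ W'),
            HEq (⟨⟨x, hm⟩, hx⟩ : {x : W' // (x : V) ∉ Submodule.span F {u}})
              (⟨⟨x, hxW⟩, hx⟩ : {x : W // (x : V) ∉ Submodule.span F {u}}) := by
          intro W' hWW hm
          subst hWW
          rfl
        exact this _ h2 _ }
  have hfin2 : Finite (Submodule F V) := Finite.of_injective (fun W : Submodule F V => (W : Set V))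
    SetLike.coe_injective
  have hfin3 : Fintype {W : Submodule F V // Module.finrank F W = 2 ∧ u ∈ W ∧
      (∀ v ∈ W, A.Q v = 0) ∧ ∀ v ∈ W, ∀ w ∈ W, A.B v w = 0} := Fintype.ofFinite _
  have h4 : ∀ W : {W : Submodule F V // Module.finrank F W = 2 ∧ u ∈ W ∧
      (∀ v ∈ W, A.Q v = 0) ∧ ∀ v ∈ W, ∀ w ∈ W, A.B v w = 0},
      Nat.card {x : W.1 // (x : V) ∉ Submodule.span F {u}} =
      Fintype.card F ^ 2 - Fintype.card F := by
    rintro ⟨W, hW⟩
    simp only
    have hFW : Fintype W := Fintype.ofFinite W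
    have c1 : Fintype.card W = Fintype.card F ^ 2 := by
      rw [Module.card_eq_pow_finrank (K := F), hW.1]
    have c2 : Fintype.card {x : W // (x : V) ∈ Submodule.span F {u}} = Fintype.card F := by
      have e3 : {x : W // (x : V) ∈ Submodule.span F {u}} ≃ Submodule.span F {u} :=
        { toFun := fun x => ⟨x.1.1, x.2⟩
          invFun := fun x => ⟨⟨x.1, by
            obtain ⟨c, hc⟩ := Submodule.mem_span_singleton.mp x.2
            rw [← hc]; exact W.smul_mem _ hW.2.1⟩, x.2⟩
          left_inv := fun x => rfl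
          right_inv := fun x => rfl }
      have hFs : Fintype (Submodule.span F {u}) := Fintype.ofFinite _
      rw [Fintype.card_congr e3, Module.card_eq_pow_finrank (K := F), finrank_span_singleton hp.u_ne,
        pow_one]
    rw [Nat.card_eq_fintype_card, Fintype.card_subtype_compl, c1, c2]
  rw [Nat.card_congr e, Nat.card_sigma, Finset.sum_congr rfl (fun W _ => h4 W), Finset.sum_const,
    Finset.card_univ, smul_eq_mul, Nat.card_eq_fintype_card]

/-- The symplectic generalised quadrangle over a field with q elements: the number of 2-dimensional subspaces of F^4 on which the symplectic form vanishes is (q + 1)(q² + 1), and every non-zero vector lies in exactly q + 1 of them. -/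
theorem result {F : Type*} [Field F] [Fintype F] {q : ℕ} (hF : Fintype.card F = q) : Nat.card {W : Submodule F (Fin 2 ⊕ Fin 2 → F) // Module.finrank F W = 2 ∧ ∀ u ∈ W, ∀ v ∈ W, Cfsg.sympForm 2 F u v = 0} = (q + 1) * (q ^ 2 + 1) ∧ ∀ v : Fin 2 ⊕ Fin 2 → F, v ≠ 0 → Nat.card {W : Submodule F (Fin 2 ⊕ Fin 2 → F) // Module.finrank F W = 2 ∧ v ∈ W ∧ ∀ u ∈ W, ∀ w ∈ W, Cfsg.sympForm 2 F u w = 0} = q + 1 := by
  have hq : 1 < q := by rw [← hF]; exact Fintype.one_lt_card
  constructor
  · have h := Cfsg.Agent.H5.Frm.WittDec.card_subspaces 0 2 0 (Cfsg.Agent.H5.Conc.sympFrm 2 F)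
      (Cfsg.Agent.H5.Conc.sympFrm_nondeg 2 F) (Cfsg.Agent.H5.Conc.sympFrm_wittDec 2 F)
    have e : Nat.card {W : Submodule F (Fin 2 ⊕ Fin 2 → F) // Module.finrank F W = 2 ∧
        ∀ u ∈ W, ∀ v ∈ W, Cfsg.sympForm 2 F u v = 0} =
        Nat.card {W : Submodule F (Fin 2 ⊕ Fin 2 → F) // Module.finrank F W = 2 ∧
          (∀ v ∈ W, (Cfsg.Agent.H5.Conc.sympFrm 2 F).Q v = 0) ∧
          ∀ v ∈ W, ∀ w ∈ W, (Cfsg.Agent.H5.Conc.sympFrm 2 F).B v w = 0} :=
      Nat.card_congr (Equiv.subtypeEquivRight (fun W =>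
        ⟨fun h => ⟨h.1, fun _ _ => rfl, fun v hv w hw => by
          rw [Cfsg.Agent.H5.Conc.sympFrm_B]; exact h.2 v hv w hw⟩,
         fun h => ⟨h.1, fun v hv w hw => by
          rw [← Cfsg.Agent.H5.Conc.sympFrm_B]; exact h.2.2 v hv w hw⟩⟩))
    rw [e]
    rw [Cfsg.Agent.H5.Frm.kt_zero, hF] at h
    simp only [Fin.prod_univ_two, Cfsg.Agent.H5.Frm.tsProd, Fin.val_zero, Fin.val_one, pow_zero,
      pow_one, mul_one, zero_add, add_zero] at h
    obtain ⟨r, rfl⟩ : ∃ r, q = r + 2 := ⟨q - 2, by omega⟩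
    have e1 : (r + 2) ^ 2 - 1 = r * r + 4 * r + 3 := by
      have : (r + 2) ^ 2 = r * r + 4 * r + 3 + 1 := by ring
      omega
    have e2 : (r + 2) ^ 2 - (r + 2) = r * r + 3 * r + 2 := by
      have : (r + 2) ^ 2 = r * r + 3 * r + 2 + (r + 2) := by ring
      omega
    have e3 : (r + 2) - 1 = r + 1 := rfl
    norm_num at h
    rw [e1, e2] at h
    apply Nat.eq_of_mul_eq_mul_right (show 0 < (r * r + 4 * r + 3) * (r * r + 3 * r + 2) by positivity)
    rw [h]
    ring
  · intro v hv
    obtain ⟨f, hp⟩ := Cfsg.Agent.H5.Frm.exists_partner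
      (Cfsg.Agent.H5.Conc.sympFrm_nondeg 2 F) hv rfl
    have h := through hp
    have e : Nat.card {W : Submodule F (Fin 2 ⊕ Fin 2 → F) // Module.finrank F W = 2 ∧ v ∈ W ∧
        ∀ u ∈ W, ∀ w ∈ W, Cfsg.sympForm 2 F u w = 0} =
        Nat.card {W : Submodule F (Fin 2 ⊕ Fin 2 → F) // Module.finrank F W = 2 ∧ v ∈ W ∧
          (∀ v ∈ W, (Cfsg.Agent.H5.Conc.sympFrm 2 F).Q v = 0) ∧
          ∀ v ∈ W, ∀ w ∈ W, (Cfsg.Agent.H5.Conc.sympFrm 2 F).B v w = 0} :=
      Nat.card_congr (Equiv.subtypeEquivRight (fun W =>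
        ⟨fun h => ⟨h.1, h.2.1, fun _ _ => rfl, fun v hv w hw => by
          rw [Cfsg.Agent.H5.Conc.sympFrm_B]; exact h.2.2 v hv w hw⟩,
         fun h => ⟨h.1, h.2.1, fun v hv w hw => by
          rw [← Cfsg.Agent.H5.Conc.sympFrm_B]; exact h.2.2.2 v hv w hw⟩⟩))
    rw [e]
    have hfr := Cfsg.Agent.H5.Frm.finrank_perp2 hp
    rw [Module.finrank_fintype_fun_eq_card, Fintype.card_sum, Fintype.card_fin] at hfr
    have hts : ((Cfsg.Agent.H5.Conc.sympFrm 2 F).restrict
        ((Cfsg.Agent.H5.Conc.sympFrm 2 F).perp2 v f)).tsCard 1 = q ^ 2 - 1 := by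
      have hwd : Cfsg.Agent.H5.Frm.WittDec 1 0 ((Cfsg.Agent.H5.Conc.sympFrm 2 F).restrict
        ((Cfsg.Agent.H5.Conc.sympFrm 2 F).perp2 v f)) := by
        have hnt : Nontrivial ((Cfsg.Agent.H5.Conc.sympFrm 2 F).perp2 v f) :=
          Module.nontrivial_of_finrank_pos (R := F) (by omega)
        obtain ⟨x, hx⟩ := exists_ne (0 : (Cfsg.Agent.H5.Conc.sympFrm 2 F).perp2 v f)
        obtain ⟨y, hxy⟩ := Cfsg.Agent.H5.Frm.exists_partner
          (Cfsg.Agent.H5.Frm.nondeg_perp2 (Cfsg.Agent.H5.Conc.sympFrm_nondeg 2 F) hp) hx rfl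
        have hfr2 := Cfsg.Agent.H5.Frm.finrank_perp2 hxy
        refine ⟨x, y, hxy, ?_, by omega⟩
        intro z _
        have : Subsingleton (((Cfsg.Agent.H5.Conc.sympFrm 2 F).restrict
        ((Cfsg.Agent.H5.Conc.sympFrm 2 F).perp2 v f)).perp2 x y) :=
          (Module.finrank_zero_iff (R := F)).mp (by omega)
        exact Subsingleton.elim _ _
      have := Cfsg.Agent.H5.Frm.WittDec.card_ts 0 1 0 _
        (Cfsg.Agent.H5.Frm.nondeg_perp2 (Cfsg.Agent.H5.Conc.sympFrm_nondeg 2 F) hp) hwd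
      rw [this, Cfsg.Agent.H5.Frm.kt_zero, hF]
      simp only [Cfsg.Agent.H5.Frm.tsProd, pow_zero, mul_one, zero_add, pow_one]
      obtain ⟨r, rfl⟩ : ∃ r, q = r + 2 := ⟨q - 2, by omega⟩
      have e3 : (r + 2) - 1 = r + 1 := rfl
      have : (r + 2) ^ 2 = (r + 1) * (1 + (r + 2)) + 1 := by ring
      rw [this, e3, Nat.add_sub_cancel]
    rw [hts, hF] at h
    obtain ⟨r, rfl⟩ : ∃ r, q = r + 2 := ⟨q - 2, by omega⟩
    have e1 : (r + 2) ^ 2 - 1 = r * r + 4 * r + 3 := by
      have : (r + 2) ^ 2 = r * r + 4 * r + 3 + 1 := by ring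
      omega
    have e2 : (r + 2) ^ 2 - (r + 2) = r * r + 3 * r + 2 := by
      have : (r + 2) ^ 2 = r * r + 3 * r + 2 + (r + 2) := by ring
      omega
    rw [e1, e2] at h
    apply Nat.eq_of_mul_eq_mul_right (show 0 < r * r + 3 * r + 2 by positivity)
    rw [h]
    ring

end Cfsg.Agent.S0828
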