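import Cfsg.Statements.S0830
import Mathlib
import Cfsg.Agent.H5_Herm
import Cfsg.Agent.H5_TS

set_option autoImplicit false
open Cfsg

namespace Cfsg.Agent.S0830

/-- The unitary quadrangle of PSU_5(q): with |F| = q², the number of 2-dimensional subspaces of F^5 on which the Hermitian form vanishes is (q³ + 1)(q⁵ + 1). -/
theorem result {F : Type*} [Field F] [Fintype F] {q : ℕ} (hF : Fintype.card F = q ^ 2) : Nat.card {W : Submodule F (Fin 5 → F) // Module.finrank F W = 2 ∧ ∀ u ∈ W, ∀ v ∈ W, Cfsg.hermForm 5 F q u v = 0} = (q ^ 3 + 1) * (q ^ 5 + 1) := by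
  have hq : 1 < q := Cfsg.Agent.H5.Fld.one_lt_q hF
  have hdec := Cfsg.Agent.H5.Herm.exists_wittDec' 5 (Cfsg.Agent.H5.Conc.hermFrm hF 5)
    (Cfsg.Agent.H5.Herm.hermFrm_isHerm hF 5) (Cfsg.Agent.H5.Conc.hermFrm_nondeg hF 5) (by simp)
  have h := Cfsg.Agent.H5.Frm.WittDec.card_subspaces 1 2 0 (Cfsg.Agent.H5.Conc.hermFrm hF 5)
      (Cfsg.Agent.H5.Conc.hermFrm_nondeg hF 5) hdec
  have e : Nat.card {W : Submodule F (Fin 5 → F) // Module.finrank F W = 2 ∧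
        ∀ u ∈ W, ∀ v ∈ W, Cfsg.hermForm 5 F q u v = 0} =
        Nat.card {W : Submodule F (Fin 5 → F) // Module.finrank F W = 2 ∧
          (∀ v ∈ W, (Cfsg.Agent.H5.Conc.hermFrm hF 5).Q v = 0) ∧
          ∀ v ∈ W, ∀ w ∈ W, (Cfsg.Agent.H5.Conc.hermFrm hF 5).B v w = 0} :=
      Nat.card_congr (Equiv.subtypeEquivRight (fun W =>
        ⟨fun h => ⟨h.1, fun v hv => h.2 v hv v hv, fun v hv w hw => h.2 w hw v hv⟩,
          fun h => ⟨h.1, fun v hv w hw => h.2.2 w hw v hv⟩⟩))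
  rw [e]
  rw [Cfsg.Agent.H5.Frm.kt_trace, hF] at h
  simp only [Fin.prod_univ_two, Cfsg.Agent.H5.Frm.tsProd, Fin.val_zero, Fin.val_one, pow_zero,
      pow_one, mul_one, zero_add, add_zero] at h
  obtain ⟨r, rfl⟩ : ∃ r, q = r + 2 := ⟨q - 2, by omega⟩
  norm_num at h
  have e1 : ((r + 2) ^ 2) ^ 2 - 1 = (r * r + 4 * r + 3) * ((r + 2) ^ 2 + 1) := by
    have : ((r + 2) ^ 2) ^ 2 = (r * r + 4 * r + 3) * ((r + 2) ^ 2 + 1) + 1 := by ring
    omega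
  have e2 : ((r + 2) ^ 2) ^ 2 - (r + 2) ^ 2 = (r + 2) ^ 2 * (r * r + 4 * r + 3) := by
    have : ((r + 2) ^ 2) ^ 2 = (r + 2) ^ 2 * (r * r + 4 * r + 3) + (r + 2) ^ 2 := by ring
    omega
  have e3 : (r + 2) ^ 2 - 1 = r * r + 4 * r + 3 := by
    have : (r + 2) ^ 2 = r * r + 4 * r + 3 + 1 := by ring
    omega
  rw [e1, e2, e3] at h
  apply Nat.eq_of_mul_eq_mul_right (show 0 < ((r * r + 4 * r + 3) * ((r + 2) ^ 2 + 1)) *
    ((r + 2) ^ 2 * (r * r + 4 * r + 3)) by positivity)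
  rw [h]
  ring

end Cfsg.Agent.S0830
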