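import Cfsg.Agent.H16_MaxStd
import Cfsg.Statements.S0831
-- import your own Cfsg.Agent.* helpers here

set_option autoImplicit false
open Cfsg

namespace Cfsg.Agent.S0831

open Cfsg.Agent.H16.Quad Module in

/-- The two families of maximal totally singular subspaces of the hyperbolic quadric: for the form Σ x_i y_i on F^(2m), m ≥ 1, and m-dimensional subspaces U, W, X on which it vanishes, the parities of m − dim(U ∩ W), m − dim(W ∩ X) and m − dim(U ∩ X) sum to an even number (so 'even codimension of the intersection' is an equivalence relation), and there exist two such subspaces meeting in codimension 1 (so there are exactly two classes). -/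
theorem result {F : Type*} [Field F] (m : ℕ) (hm : 1 ≤ m) : (∀ U W X : Submodule F (Fin m ⊕ Fin m → F), (Module.finrank F U = m ∧ ∀ w ∈ U, Cfsg.quadFormPlus m F w = 0) → (Module.finrank F W = m ∧ ∀ w ∈ W, Cfsg.quadFormPlus m F w = 0) → (Module.finrank F X = m ∧ ∀ w ∈ X, Cfsg.quadFormPlus m F w = 0) → Even ((m - Module.finrank F ↥(U ⊓ W)) + (m - Module.finrank F ↥(W ⊓ X)) + (m - Module.finrank F ↥(U ⊓ X)))) ∧ ∃ U W : Submodule F (Fin m ⊕ Fin m → F), (Module.finrank F U = m ∧ ∀ w ∈ U, Cfsg.quadFormPlus m F w = 0) ∧ (Module.finrank F W = m ∧ ∀ w ∈ W, Cfsg.quadFormPlus m F w = 0) ∧ Module.finrank F ↥(U ⊓ W) + 1 = m := by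
  have hQ := nd_plusQ (F := F) m
  constructor
  · intro U W X hU hW hX
    have h := parity_triple hQ ((isMax_iff m).1 hU) ((isMax_iff m).1 hW) ((isMax_iff m).1 hX)
    have h1 := Submodule.finrank_mono (inf_le_left : U ⊓ W ≤ U)
    have h2 := Submodule.finrank_mono (inf_le_left : U ⊓ X ≤ U)
    have h3 := Submodule.finrank_mono (inf_le_left : W ⊓ X ≤ W)
    rw [hU.1] at h h1 h2
    rw [hW.1] at h3
    rw [Nat.even_iff] at h ⊢
    omega
  · obtain ⟨k, rfl⟩ : ∃ k, m = k + 1 := ⟨m - 1, by omega⟩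
    have hyp := plusQ_hyp (F := F) (k + 1)
    obtain ⟨v, hv⟩ : ∃ v, plusQ F (k + 1) v ≠ 0 := ⟨_, by rw [hyp.Q_sub 0]; exact neg_ne_zero.2 one_ne_zero⟩
    have h0 := isMax_U0 (F := F) (k + 1)
    refine ⟨U0 F (k + 1), (U0 F (k + 1)).map (refl (plusQ F (k + 1)) v).toLinearMap, (isMax_iff _).2 h0,
      (isMax_iff _).2 (h0.map (refl_mem _ v)), ?_⟩
    have h1 := finrank_inf_map_refl hQ h0 h0 hv
    rw [inf_idem, finrank_U0] at h1
    have h2 := Submodule.finrank_mono (inf_le_left : U0 F (k + 1) ⊓ (U0 F (k + 1)).map (refl (plusQ F (k + 1)) v).toLinearMap ≤ U0 F (k + 1))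
    rw [finrank_U0] at h2
    omega

end Cfsg.Agent.S0831
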