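import Cfsg.Agent.H16_MaxStd
import Cfsg.Statements.S0832
-- import your own Cfsg.Agent.* helpers here

set_option autoImplicit false
open Cfsg

namespace Cfsg.Agent.S0832

open Cfsg.Agent.H16.Quad Module in

/-- For the form Σ x_i y_i on F^(2m) over a finite field, m ≥ 1: an (m−1)-dimensional subspace on which the form vanishes is contained in exactly two m-dimensional subspaces on which it vanishes. -/
theorem result {F : Type*} [Field F] [Finite F] (m : ℕ) (hm : 1 ≤ m) (U : Submodule F (Fin m ⊕ Fin m → F)) (hU : Module.finrank F U + 1 = m ∧ ∀ u ∈ U, Cfsg.quadFormPlus m F u = 0) : Nat.card {W : Submodule F (Fin m ⊕ Fin m → F) // Module.finrank F W = m ∧ (∀ w ∈ W, Cfsg.quadFormPlus m F w = 0) ∧ U ≤ W} = 2 := by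
  classical
  have hQ := nd_plusQ (F := F) m
  have hUs : ∀ u ∈ U, plusQ F m u = 0 := fun u hu => by rw [plusQ_apply]; exact hU.2 u hu
  have hiff : ∀ W : Submodule F (Fin m ⊕ Fin m → F), (finrank F W = m ∧ (∀ w ∈ W, Cfsg.quadFormPlus m F w = 0) ∧ U ≤ W) ↔
      IsMax (plusQ F m) W ∧ U ≤ W := fun W => by rw [← isMax_iff]; tauto
  have hset : {W : Submodule F (Fin m ⊕ Fin m → F) | finrank F W = m ∧ (∀ w ∈ W, Cfsg.quadFormPlus m F w = 0) ∧ U ≤ W} =
      {W | IsMax (plusQ F m) W ∧ U ≤ W} := Set.ext hiff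
  have hcard : Nat.card {W : Submodule F (Fin m ⊕ Fin m → F) // finrank F W = m ∧ (∀ w ∈ W, Cfsg.quadFormPlus m F w = 0) ∧ U ≤ W} =
      Set.ncard {W : Submodule F (Fin m ⊕ Fin m → F) | finrank F W = m ∧ (∀ w ∈ W, Cfsg.quadFormPlus m F w = 0) ∧ U ≤ W} := rfl
  rw [hcard, hset]
  -- one
  obtain ⟨W0, hW0, hU0⟩ : ∃ W0, IsMax (plusQ F m) W0 ∧ U ≤ W0 := by
    obtain ⟨g, hg, hle⟩ := ts_move hQ hUs (isMax_U0 m).1 (by rw [finrank_U0]; omega)
    refine ⟨(U0 F m).map (g⁻¹ : _ ≃ₗ[F] _).toLinearMap, (isMax_U0 m).map ((OG _).inv_mem hg), ?_⟩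
    intro u hu
    refine ⟨g u, hle ⟨u, hu, rfl⟩, ?_⟩
    show (g⁻¹ * g) u = u
    simp
  -- two
  obtain ⟨v, hvU, hv⟩ : ∃ v ∈ perp (plusQ F m) U, plusQ F m v ≠ 0 := by
    by_contra hcon
    push Not at hcon
    have h1 := ts_finrank_le hQ (U := perp (plusQ F m) U) hcon
    have h3 := finrank_add_finrank_perp hQ U
    rw [finrank_plus] at h1 h3
    omega
  have hW1 := hW0.map (refl_mem (plusQ F m) v)
  have hU1 : U ≤ W0.map (refl (plusQ F m) v).toLinearMap := by
    intro u hu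
    exact ⟨u, hU0 hu, refl_fix (mem_perp.1 hvU u hu)⟩
  obtain ⟨W1, hW1d⟩ : ∃ W1, W1 = W0.map (refl (plusQ F m) v).toLinearMap := ⟨_, rfl⟩
  have hpar := finrank_inf_map_refl hQ hW0 hW0 hv
  rw [← hW1d] at hW1 hU1 hpar
  have hne : W0 ≠ W1 := by
    intro h
    rw [← h] at hpar
    omega
  rw [Set.ncard_eq_two]
  refine ⟨W0, W1, hne, ?_⟩
  ext X
  simp only [Set.mem_setOf_eq, Set.mem_insert_iff, Set.mem_singleton_iff]
  constructor
  · rintro ⟨hX, hUX⟩
    by_contra hcon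
    push Not at hcon
    have htri := parity_triple hQ hW0 hW1 hX
    have hdim : ∀ A B : Submodule F (Fin m ⊕ Fin m → F), IsMax (plusQ F m) A → IsMax (plusQ F m) B → U ≤ A → U ≤ B → A ≠ B →
        finrank F (A ⊓ B : Submodule F _) + 1 = m := by
      intro A B hA hB hUA hUB hAB
      have h1 := Submodule.finrank_mono (le_inf hUA hUB)
      have h2 := hA.2
      have h3 := hB.2
      rw [finrank_plus] at h2 h3
      have h4 : A ⊓ B < A := by
        refine lt_of_le_of_ne inf_le_left fun h => hAB ?_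
        apply Submodule.eq_of_le_of_finrank_eq (inf_eq_left.1 h)
        omega
      have h5 := Submodule.finrank_lt_finrank_of_lt h4
      omega
    have h1 := hdim W0 W1 hW0 hW1 hU0 hU1 hne
    have h2 := hdim W1 X hW1 hX hU1 hUX (fun h => hcon.2 h.symm)
    have h3 := hdim W0 X hW0 hX hU0 hUX (fun h => hcon.1 h.symm)
    have h4 := hW0.2
    rw [finrank_plus] at h4
    rw [Nat.even_iff] at htri
    omega
  · rintro (rfl | rfl)
    · exact ⟨hW0, hU0⟩
    · exact ⟨hW1, hU1⟩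

end Cfsg.Agent.S0832
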