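import Cfsg.Statements.S0833
import Mathlib
import Cfsg.Agent.H5_Tens

set_option autoImplicit false
open Cfsg

namespace Cfsg.Agent.S0833

/-- If B₁, B₂ are non-degenerate alternating forms on U (dim 2k) and W (dim 2l), then B₁ ⊗ B₂ on U ⊗ W is symmetric, non-degenerate, and vanishes identically on some subspace of dimension 2kl (half of dim U ⊗ W). -/
theorem result {F U W : Type*} [Field F] [Fintype F] [AddCommGroup U] [Module F U] [FiniteDimensional F U] [AddCommGroup W] [Module F W] [FiniteDimensional F W] (B₁ : LinearMap.BilinForm F U) (B₂ : LinearMap.BilinForm F W) (h₁ : B₁.Nondegenerate) (h₂ : B₂.Nondegenerate) (hA₁ : B₁.IsAlt) (hA₂ : B₂.IsAlt) (k l : ℕ) (hU : Module.finrank F U = 2 * k) (hW : Module.finrank F W = 2 * l) : (B₁.tmul B₂).IsSymm ∧ (B₁.tmul B₂).Nondegenerate ∧ (∃ X : Submodule F (TensorProduct F U W), Module.finrank F X = 2 * k * l ∧ ∀ x ∈ X, ∀ y ∈ X, (B₁.tmul B₂) x y = 0) := by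
  refine ⟨H5.Tens.symm_of_alt hA₁ hA₂, H5.Tens.nd_tmul h₁ h₂, ?_⟩
  obtain ⟨L, hL1, hL2⟩ := H5.Tens.exists_lagr h₁ hA₁ hU
  obtain ⟨X, hX1, hX2⟩ := H5.Tens.exists_sub B₁ B₂ L hL2
  exact ⟨X, by rw [hX1, hL1, hW]; ring, hX2⟩

end Cfsg.Agent.S0833
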