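import Cfsg.Statements.S0836
import Mathlib
import Cfsg.Agent.H5_SL

set_option autoImplicit false
open Cfsg

namespace Cfsg.Agent.S0836

open Matrix Matrix.SpecialLinearGroup
open scoped commutatorElement

theorem comm_diag {F : Type*} [Field F] {ι : Type*} [Fintype ι] [DecidableEq ι] {i j : ι}
    (hij : i ≠ j) (x b : F) (hx : x ≠ 0) :
    ⁅diag2n hij x hx, transvection hij b⁆ = transvection hij ((x ^ 2 - 1) * b) := by
  rw [commutatorElement_def, mul_inv_eq_iff_eq_mul, mul_inv_eq_iff_eq_mul]
  apply Subtype.ext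
  simp only [coe_mul, diag2n_coe, transvection_coe, mul_add, add_mul, mul_one, one_mul,
    H5.SL.diagonal_mul_single, H5.SL.single_mul_diagonal, single_mul_single_of_ne _ _ _ _ hij.symm]
  simp only [↓reduceIte, hij.symm, add_zero, Matrix.zero_mul]
  rw [add_assoc, ← single_add]
  congr 2
  field_simp
  ring

/-- For i ≠ j and any scalar c, the elementary transvection 1 + c E_ij is a commutator ⁅g, h⁆ of two elements of SL_n(F) provided n ≥ 3, or n = 2 and F contains x ≠ 0 with x² ≠ 1. -/
theorem result {F : Type*} [Field F] (n : ℕ) (hn : 3 ≤ n ∨ (n = 2 ∧ ∃ x : F, x ≠ 0 ∧ x ^ 2 ≠ 1)) (i j : Fin n) (hij : i ≠ j) (c : F) (t : Matrix.SpecialLinearGroup (Fin n) F) (ht : (t : Matrix (Fin n) (Fin n) F) = Matrix.transvection i j c) : t ∈ commutatorSet (Matrix.SpecialLinearGroup (Fin n) F) := by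
  rcases hn with hn | ⟨rfl, x, hx, hx2⟩
  · have h := H5.SL.transvection_mem_commutatorSet (F := F) (ι := Fin n)
      (by simpa using (by omega : 2 < n)) hij c
    have : t = Matrix.SpecialLinearGroup.transvection hij c := Subtype.ext ht
    rw [this]; exact h
  · have : t = Matrix.SpecialLinearGroup.transvection hij c := Subtype.ext ht
    rw [this]
    refine ⟨diag2n hij x hx, Matrix.SpecialLinearGroup.transvection hij (c / (x ^ 2 - 1)), ?_⟩
    rw [comm_diag, mul_div_cancel₀]
    exact sub_ne_zero.mpr hx2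

end Cfsg.Agent.S0836
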