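import Cfsg.Statements.S0837
import Mathlib
import Cfsg.Agent.H5_StabSub

set_option autoImplicit false
open Cfsg

namespace Cfsg.Agent.S0837

open Cfsg.Agent.H5 Cfsg.Agent.H5.Frm in
theorem main {F : Type*} [Field F] [Fintype F] {q : ℕ} (hF : Fintype.card F = q ^ 2) (n k : ℕ) (hk : k ≤ n) (W : Submodule F (Fin n → F)) (hWk : Module.finrank F W = k) (hW : ∀ u ∈ W, (∀ v ∈ W, Cfsg.hermForm n F q u v = 0) → u = 0) : Nonempty (↥((Cfsg.stabilizing (Cfsg.glToMat (Fin n) F) (W : Set (Fin n → F))).subgroupOf (Cfsg.GU n F q)) ≃* ↥(Cfsg.GU k F q) × ↥(Cfsg.GU (n - k) F q)) := by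
  have hn := Conc.hermFrm_nondeg hF n
  have hA := Herm.hermFrm_isHerm hF n
  have hnd : ((Conc.hermFrm hF n).restrict W).Nondeg := by
    rintro ⟨u, hu⟩ h
    apply Subtype.ext
    apply hW u hu
    intro v hv
    have := h ⟨v, hv⟩
    rw [restrict_B] at this
    have h2 := (Conc.hermFrm hF n).refl this
    exact h2
  have hfr := finrank_orth hn W
  rw [hWk, Module.finrank_fintype_fun_eq_card, Fintype.card_fin] at hfr
  obtain ⟨e2⟩ := stabW_mulEquiv hn hnd
  obtain ⟨e3⟩ := gu_mulEquiv hF (hA.restrict W) hnd hWk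
  obtain ⟨e4⟩ := gu_mulEquiv hF (hA.restrict _) (nondeg_orth hn hnd)
    (show Module.finrank F ((Conc.hermFrm hF n).orth W) = n - k by omega)
  exact ⟨(Conc.subEquiv (Conc.guEquiv hF n) _ ((Conc.hermFrm hF n).stabW W) (fun g => by
    rw [mem_stabW]; rfl)).trans (e2.trans (MulEquiv.prodCongr e3 e4))⟩

/-- If W ≤ F^n (|F| = q²) is a k-dimensional subspace on which the Hermitian form Σ x_i y_i^q is non-degenerate, then the stabiliser of W in GU_n(q) is isomorphic to GU_k(q) × GU_(n−k)(q). -/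
theorem result {F : Type*} [Field F] [Fintype F] {q : ℕ} (hF : Fintype.card F = q ^ 2) (n k : ℕ) (hk : k ≤ n) (W : Submodule F (Fin n → F)) (hWk : Module.finrank F W = k) (hW : ∀ u ∈ W, (∀ v ∈ W, Cfsg.hermForm n F q u v = 0) → u = 0) : Nonempty (↥((Cfsg.stabilizing (Cfsg.glToMat (Fin n) F) (W : Set (Fin n → F))).subgroupOf (Cfsg.GU n F q)) ≃* ↥(Cfsg.GU k F q) × ↥(Cfsg.GU (n - k) F q)) := by
  exact main hF n k hk W hWk hW

end Cfsg.Agent.S0837
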