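import Cfsg.Statements.S0838
import Mathlib
import Cfsg.Agent.H5_Isom
import Cfsg.Agent.H5_QuadBasis

set_option autoImplicit false
open Cfsg

namespace Cfsg.Agent.S0838

open Cfsg.Agent.H5 Cfsg.Agent.H5.Frm Cfsg.Agent.H5.Quad in
theorem sim {F : Type*} [Field F] : ∀ (m : ℕ) {V V' : Type*} [AddCommGroup V] [Module F V]
    [FiniteDimensional F V] [AddCommGroup V'] [Module F V'] [FiniteDimensional F V']
    (A : Frm F (RingHom.id F) 1 (AddMonoidHom.id F) V)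
    (A' : Frm F (RingHom.id F) 1 (AddMonoidHom.id F) V'), WittDec m 1 A → WittDec m 1 A' →
    ∃ (c : F) (φ : V ≃ₗ[F] V'), c ≠ 0 ∧ ∀ v, A'.Q (φ v) = c * A.Q v := by
  intro m
  induction m with
  | zero =>
    intro V V' _ _ _ _ _ _ A A' h h'
    have hnt : Nontrivial V := Module.nontrivial_of_finrank_pos (R := F) (by rw [h.2]; omega)
    obtain ⟨v, hv⟩ := exists_ne (0 : V)
    have hQv : A.Q v ≠ 0 := fun h0 => hv (h.1 v h0)
    let φ : V ≃ₗ[F] V' := LinearEquiv.ofFinrankEq V V' (by rw [h.2, h'.2])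
    have hQv' : A'.Q (φ v) ≠ 0 := fun h0 => hv ((LinearEquiv.map_eq_zero_iff φ).mp (h'.1 _ h0))
    refine ⟨A'.Q (φ v) / A.Q v, φ, div_ne_zero hQv' hQv, ?_⟩
    intro w
    obtain ⟨a, rfl⟩ := (finrank_eq_one_iff_of_nonzero' v hv).mp h.2 w
    rw [map_smul, Q_smul', Q_smul']
    field_simp
  | succ m ih =>
    intro V V' _ _ _ _ _ _ A A' h h'
    obtain ⟨u, f, hp, h⟩ := h
    obtain ⟨u', f', hp', h'⟩ := h'
    obtain ⟨c, φ, hc, hφ⟩ := ih _ _ h h'
    let Φ : (F × F × A.perp2 u f) ≃ₗ[F] (F × F × A'.perp2 u' f') :=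
      LinearEquiv.prodCongr (LinearEquiv.refl F F)
        (LinearEquiv.prodCongr (LinearEquiv.smulOfNeZero F F c hc) φ)
    let Ψ := ((pairEquiv hp).symm.trans Φ).trans (pairEquiv hp')
    refine ⟨c, Ψ, hc, ?_⟩
    intro x
    obtain ⟨⟨a, b, w⟩, rfl⟩ := (pairEquiv hp).surjective x
    have hΨ : Ψ ((pairEquiv hp) (a, b, w)) = a • u' + (c * b) • f' + (φ w : V') := by
      change (pairEquiv hp') (Φ ((pairEquiv hp).symm ((pairEquiv hp) (a, b, w)))) = _
      rw [LinearEquiv.symm_apply_apply]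
      change (pairEquiv hp') (a, c • b, φ w) = _
      rw [pairEquiv_apply, smul_eq_mul]
    rw [hΨ, pairEquiv_apply, Q_pair hp', Q_pair hp]
    have := hφ w
    rw [restrict_Q, restrict_Q] at this
    rw [this]
    simp only [RingHom.id_apply, AddMonoidHom.id_apply]
    ring

/-- Over a finite field with 2 ≠ 0 and n odd: two quadratic forms Q₁, Q₂ on F^n with non-degenerate polar forms are similar — there are an invertible linear map g and a scalar c ≠ 0 with Q₂ (g v) = c · Q₁ v for all v. -/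
theorem result {F : Type*} [Field F] [Fintype F] (h2 : (2 : F) ≠ 0) {n : ℕ} (hn : Odd n) (Q₁ Q₂ : QuadraticForm F (Fin n → F)) (h₁ : (QuadraticMap.polarBilin Q₁).Nondegenerate) (h₂ : (QuadraticMap.polarBilin Q₂).Nondegenerate) : ∃ (g : (Fin n → F) ≃ₗ[F] (Fin n → F)) (c : F), c ≠ 0 ∧ ∀ v, Q₂ (g v) = c * Q₁ v := by
  have hdec : ∀ (Q : QuadraticForm F (Fin n → F)), (QuadraticMap.polarBilin Q).Nondegenerate →
      Cfsg.Agent.H5.Frm.WittDec (n / 2) 1 (Cfsg.Agent.H5.Frm.ofQuad Q) := by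
    intro Q hQ
    obtain ⟨m, a, ha, h⟩ := Cfsg.Agent.H5.Frm.exists_wittDec 2
      (fun A _ h3 => Cfsg.Agent.H5.Quad.exists_sing3 A h3) n (Cfsg.Agent.H5.Frm.ofQuad Q)
      (Cfsg.Agent.H5.Frm.nondeg_ofQuad hQ) (by simp)
    have h1 := Cfsg.Agent.H5.Frm.WittDec.finrank_eq m a _ h
    rw [Module.finrank_fin_fun] at h1
    obtain ⟨k, hk⟩ := hn
    have h2 : a = 1 := by omega
    subst h2
    have h3 : m = n / 2 := by omega
    subst h3
    exact h
  obtain ⟨c, φ, hc, hφ⟩ := sim _ _ _ (hdec Q₁ h₁) (hdec Q₂ h₂)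
  exact ⟨φ, c, hc, hφ⟩

end Cfsg.Agent.S0838
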