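import Cfsg.Statements.S0841
import Mathlib

set_option autoImplicit false
open Cfsg

namespace Cfsg.Agent.S0841

open scoped commutatorElement in
theorem comm_central {G : Type*} [Group G] (hG : commutator G ≤ Subgroup.center G) (x y : G) :
    ∀ g : G, g * (y⁻¹ * x⁻¹ * y * x) = (y⁻¹ * x⁻¹ * y * x) * g := by
  intro g
  have h1 : y⁻¹ * x⁻¹ * y * x ∈ commutator G := by
    have : y⁻¹ * x⁻¹ * y * x = ⁅y⁻¹, x⁻¹⁆ := by rw [commutatorElement_def]; group
    rw [this]
    exact Subgroup.commutator_mem_commutator (Subgroup.mem_top _) (Subgroup.mem_top _)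
  exact Subgroup.mem_center_iff.mp (hG h1) g

theorem aux {G : Type*} [Group G] (hG : commutator G ≤ Subgroup.center G) (x y : G) (n : ℕ) :
    y ^ n * x = x * y ^ n * (y⁻¹ * x⁻¹ * y * x) ^ n := by
  have hc := comm_central hG x y
  have h1 : y * x = x * y * (y⁻¹ * x⁻¹ * y * x) := by group
  induction n with
  | zero => simp
  | succ n ih =>
    calc y ^ (n + 1) * x = y ^ n * (y * x) := by rw [pow_succ]; group
      _ = y ^ n * (x * y * (y⁻¹ * x⁻¹ * y * x)) := by rw [← h1]
      _ = (y ^ n * x) * (y * (y⁻¹ * x⁻¹ * y * x)) := by group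
      _ = x * y ^ n * (y⁻¹ * x⁻¹ * y * x) ^ n * (y * (y⁻¹ * x⁻¹ * y * x)) := by rw [ih]
      _ = x * y ^ n * ((y⁻¹ * x⁻¹ * y * x) ^ n * y) * (y⁻¹ * x⁻¹ * y * x) := by group
      _ = x * y ^ n * (y * (y⁻¹ * x⁻¹ * y * x) ^ n) * (y⁻¹ * x⁻¹ * y * x) := by
        have h2 : Commute y ((y⁻¹ * x⁻¹ * y * x) ^ n) := Commute.pow_right (hc y) n
        rw [h2.eq]
      _ = _ := by rw [pow_succ, pow_succ]; group

/-- If the commutator subgroup of G lies in the centre, then for all x, y in G and every natural number n one has (x * y) ^ n = x ^ n * y ^ n * c ^ (n * (n - 1) / 2) with c = y⁻¹ * x⁻¹ * y * x. -/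
theorem result {G : Type*} [Group G] (hG : commutator G ≤ Subgroup.center G) (x y : G) (n : ℕ) : (x * y) ^ n = x ^ n * y ^ n * (y⁻¹ * x⁻¹ * y * x) ^ (n * (n - 1) / 2) := by
  have hc := comm_central hG x y
  have hcc : ∀ (g : G) (m : ℕ), (y⁻¹ * x⁻¹ * y * x) ^ m * g = g * (y⁻¹ * x⁻¹ * y * x) ^ m := by
    intro g m
    exact (Commute.pow_right (hc g) m).eq.symm
  induction n with
  | zero => simp
  | succ n ih =>
    have h2 : (n + 1) * (n + 1 - 1) / 2 = n + n * (n - 1) / 2 := by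
      have h3 : (n + 1) * (n + 1 - 1) = n * 2 + n * (n - 1) := by
        rcases n with _ | n
        · rfl
        · simp only [Nat.add_sub_cancel]; ring
      rw [h3, Nat.add_comm, Nat.add_mul_div_right _ _ (by norm_num), Nat.add_comm]
    rw [h2, pow_succ, ih]
    set c := y⁻¹ * x⁻¹ * y * x with hcdef
    calc x ^ n * y ^ n * c ^ (n * (n - 1) / 2) * (x * y)
        = x ^ n * y ^ n * (c ^ (n * (n - 1) / 2) * (x * y)) := by group
      _ = x ^ n * y ^ n * ((x * y) * c ^ (n * (n - 1) / 2)) := by rw [hcc]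
      _ = x ^ n * (y ^ n * x) * (y * c ^ (n * (n - 1) / 2)) := by group
      _ = x ^ n * (x * y ^ n * c ^ n) * (y * c ^ (n * (n - 1) / 2)) := by rw [aux hG x y n]
      _ = x ^ n * x * y ^ n * (c ^ n * y) * c ^ (n * (n - 1) / 2) := by group
      _ = x ^ n * x * y ^ n * (y * c ^ n) * c ^ (n * (n - 1) / 2) := by rw [hcc]
      _ = _ := by rw [pow_succ, pow_succ, pow_add]; group

end Cfsg.Agent.S0841
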