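import Cfsg.Statements.S0842
import Mathlib
import Cfsg.Agent.H4_QuatG3

set_option autoImplicit false
open Cfsg

namespace Cfsg.Agent.S0842

/-- Suppose a Sylow 2-subgroup S of the finite group G is generalized quaternion of order at least 16, and let D be the commutator subgroup of S, C its centralizer and N its normalizer in G. Then there is a subgroup K of odd order, contained in C and normalized by N, with K ⊔ S = N and K ⊔ (S ⊓ C) = C, and C has index 2 in N. -/
theorem result {G : Type*} [Group G] [Finite G] (S : Sylow 2 G) (n : ℕ) (e : (S : Subgroup G) ≃* QuaternionGroup (2 ^ (n + 2))) (D : Subgroup G) (hD : D = ⁅(S : Subgroup G), (S : Subgroup G)⁆) : ∃ K : Subgroup G, Odd (Nat.card K) ∧ K ≤ Subgroup.centralizer (D : Set G) ∧ Subgroup.normalizer (D : Set G) ≤ Subgroup.normalizer (K : Set G) ∧ K ⊔ (S : Subgroup G) = Subgroup.normalizer (D : Set G) ∧ K ⊔ ((S : Subgroup G) ⊓ Subgroup.centralizer (D : Set G)) = Subgroup.centralizer (D : Set G) ∧ ((Subgroup.centralizer (D : Set G)).subgroupOf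 (Subgroup.normalizer (D : Set G))).index = 2 := by
  obtain ⟨c, b, z, hcS, hbS, hzS, hz2, hu, hord, hbc, hcz, hbb, hall, hbn⟩ :=
    Cfsg.Agent.H4.QuatG.setup S (by omega) e
  have hDc : D = Subgroup.zpowers (c ^ 2) := by
    rw [hD]
    exact Cfsg.Agent.H4.QuatG.commutator_eq S hcS hbS hbc hbb hcz hall (by omega)
  obtain ⟨K, hK1, hK2, hK3, hK4, hK5, hK6, hSN⟩ := Cfsg.Agent.H4.QuatG.structC S (by omega) e hcS hbS hord hbc
    hall hbn D hDc _ rfl
  have hCN : Subgroup.centralizer (D : Set G) ≤ Subgroup.normalizer (D : Set G) :=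
    Subgroup.centralizer_le_normalizer _
  have hTC : Subgroup.zpowers c ≤ Subgroup.centralizer (D : Set G) := by
    rw [← hK5]; exact inf_le_right
  have hbC : b ∉ Subgroup.centralizer (D : Set G) := by
    intro h
    apply hbn
    rw [← hK5]
    exact ⟨hbS, h⟩
  have hCle : Subgroup.centralizer (D : Set G) ≤ K ⊔ (S : Subgroup G) := by
    intro x hx
    obtain ⟨k, hk, t, ht, rfl⟩ := hK4 x hx
    refine Subgroup.mul_mem _ (Subgroup.mem_sup_left hk) (Subgroup.mem_sup_right ?_)
    have : t ∈ (S : Subgroup G) ⊓ Subgroup.centralizer (D : Set G) := by rw [hK5]; exact ht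
    exact this.1
  refine ⟨K, hK1, hK2, hK3, ?_, ?_, hK6⟩
  · apply le_antisymm
    · exact sup_le (hK2.trans hCN) hSN
    · intro g hg
      by_cases hgC : g ∈ Subgroup.centralizer (D : Set G)
      · exact hCle hgC
      · have hbN : b ∈ Subgroup.normalizer (D : Set G) := hSN hbS
        have h1 := Subgroup.mul_mem_iff_of_index_two hK6
          (a := (⟨b, hbN⟩ : ↥(Subgroup.normalizer (D : Set G)))⁻¹) (b := ⟨g, hg⟩)
        have h2 : ((⟨b, hbN⟩ : ↥(Subgroup.normalizer (D : Set G)))⁻¹ * ⟨g, hg⟩) ∈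
            (Subgroup.centralizer (D : Set G)).subgroupOf (Subgroup.normalizer (D : Set G)) := by
          rw [h1, inv_mem_iff, Subgroup.mem_subgroupOf, Subgroup.mem_subgroupOf]
          exact ⟨fun h => absurd h hbC, fun h => absurd h hgC⟩
        rw [Subgroup.mem_subgroupOf] at h2
        have h3 : b⁻¹ * g ∈ K ⊔ (S : Subgroup G) := hCle h2
        have h4 : g = b * (b⁻¹ * g) := by group
        rw [h4]
        exact Subgroup.mul_mem _ (Subgroup.mem_sup_right hbS) h3
  · rw [hK5]
    apply le_antisymm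
    · exact sup_le hK2 hTC
    · intro x hx
      obtain ⟨k, hk, t, ht, rfl⟩ := hK4 x hx
      exact Subgroup.mul_mem _ (Subgroup.mem_sup_left hk) (Subgroup.mem_sup_right ht)

end Cfsg.Agent.S0842
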