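import Cfsg.Statements.S0843
import Mathlib
import Cfsg.Agent.H4_QuatG3

set_option autoImplicit false
open Cfsg

namespace Cfsg.Agent.S0843

/-- Suppose a Sylow 2-subgroup S of the finite group G is generalized quaternion of order at least 16; let D be the commutator subgroup of S and X the set of elements of the centralizer of D whose order is divisible by the order of D. Then D is contained in the cyclic subgroup generated by any element of X; an element of G conjugating some element of X into the centralizer of D normalizes D; and the normalizer of D maps X to itself under conjugation. -/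
theorem result {G : Type*} [Group G] [Finite G] (S : Sylow 2 G) (n : ℕ) (e : (S : Subgroup G) ≃* QuaternionGroup (2 ^ (n + 2))) (D : Subgroup G) (hD : D = ⁅(S : Subgroup G), (S : Subgroup G)⁆) : (∀ y : G, y ∈ Subgroup.centralizer (D : Set G) → Nat.card D ∣ orderOf y → D ≤ Subgroup.zpowers y) ∧ (∀ g y : G, y ∈ Subgroup.centralizer (D : Set G) → Nat.card D ∣ orderOf y → g * y * g⁻¹ ∈ Subgroup.centralizer (D : Set G) → g ∈ Subgroup.normalizer (D : Set G)) ∧ (∀ g y : G, g ∈ Subgroup.normalizer (D : Set G) → y ∈ Subgroup.centralizer (D : Set G) → Nat.card D ∣ orderOf y → g * y * g⁻¹ ∈ Subgroup.centralizer (D : Set G) ∧ Nat.card D ∣ orderOf (g * y * g⁻¹)) := by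
  obtain ⟨c, b, z, hcS, hbS, hzS, hz2, hu, hord, hbc, hcz, hbb, hall, hbn⟩ :=
    Cfsg.Agent.H4.QuatG.setup S (by omega) e
  have hf : Fact (Nat.Prime 2) := ⟨Nat.prime_two⟩
  have hDc : D = Subgroup.zpowers (c ^ 2) := by
    rw [hD]
    exact Cfsg.Agent.H4.QuatG.commutator_eq S hcS hbS hbc hbb hcz hall (by omega)
  obtain ⟨K, hK1, hK2, hK3, hK4, hK5, hK6, hSN⟩ := Cfsg.Agent.H4.QuatG.structC S (by omega) e hcS hbS hord hbc
    hall hbn D hDc _ rfl
  have hDcard : Nat.card D = 2 ^ (n + 2) := by
    rw [hDc, Nat.card_zpowers, orderOf_pow_of_dvd (by norm_num)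
      (by rw [hord, pow_succ]; exact Dvd.intro_left _ rfl),
      hord, pow_succ, Nat.mul_div_cancel _ (by norm_num)]
  have hTC : Subgroup.zpowers c ≤ Subgroup.centralizer (D : Set G) := by
    rw [← hK5]; exact inf_le_right
  have hDT : D ≤ Subgroup.zpowers c := by
    rw [hDc, Subgroup.zpowers_le]; exact Subgroup.pow_mem _ (Subgroup.mem_zpowers c) 2
  -- the central claim
  have key : ∀ y : G, y ∈ Subgroup.centralizer (D : Set G) → Nat.card D ∣ orderOf y →
      D ≤ Subgroup.zpowers y := by
    intro y hy hdvd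
    obtain ⟨m, hm⟩ := hdvd
    have hpos := orderOf_pos y
    have hm0 : 0 < m := by
      rcases Nat.eq_zero_or_pos m with h | h
      · rw [h] at hm; omega
      · exact h
    have hw : orderOf (y ^ m) = 2 ^ (n + 2) := by
      rw [orderOf_pow_of_dvd hm0.ne' ⟨Nat.card D, by rw [hm, mul_comm]⟩, hm, hDcard]
      exact Nat.mul_div_cancel _ hm0
    have hwC : y ^ m ∈ Subgroup.centralizer (D : Set G) := Subgroup.pow_mem _ hy m
    -- `y ^ m` is conjugate in `C` into `⟨c⟩`
    obtain ⟨x, hx, hxw⟩ : ∃ x ∈ Subgroup.centralizer (D : Set G), x * y ^ m * x⁻¹ ∈ Subgroup.zpowers c := by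
      set C := Subgroup.centralizer (D : Set G) with hC
      have hidxC : ¬ 2 ∣ ((Subgroup.zpowers c).subgroupOf C).index := by
        have h1 := Cfsg.Agent.H4.QuatG.index_odd S (by omega) e hord
        intro h2
        apply h1
        have h3 : (Subgroup.zpowers c).relIndex C ∣ (Subgroup.zpowers c).relIndex
            (Subgroup.centralizer ({c ^ (2 ^ (n + 2 - 1))} : Set G)) := by
          have hle : C ≤ Subgroup.centralizer ({c ^ (2 ^ (n + 2 - 1))} : Set G) := by
            rw [hC, hDc]; exact Cfsg.Agent.H4.QuatG.cent_le (by omega) c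
          rw [← Subgroup.relIndex_mul_relIndex _ _ _ hTC hle]
          exact Dvd.intro _ rfl
        exact h2.trans h3
      have hTp : IsPGroup 2 ((Subgroup.zpowers c).subgroupOf C) := by
        apply IsPGroup.of_card (n := n + 3)
        rw [Nat.card_congr (Subgroup.subgroupOfEquivOfLe hTC).toEquiv, Nat.card_zpowers, hord]
      have hwp : IsPGroup 2 (Subgroup.zpowers (⟨y ^ m, hwC⟩ : C)) := by
        apply IsPGroup.of_card (n := n + 2)
        rw [Nat.card_zpowers, ← Subgroup.orderOf_coe]; exact hw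
      obtain ⟨x, hx⟩ := Cfsg.Agent.H4.Util.exists_conj_le (hTp.toSylow hidxC) _ hwp
      have h1 := hx _ (Subgroup.mem_zpowers _)
      exact ⟨x, x.2, h1⟩
    have hDx : D = Subgroup.zpowers (x * y ^ m * x⁻¹) := by
      apply Cfsg.Agent.H12.Core.cyclic_eq_of_card_eq' (C := Subgroup.zpowers c) inferInstance hDT
      · rw [Subgroup.zpowers_le]; exact hxw
      · rw [hDcard, Nat.card_zpowers, Cfsg.Agent.H4.Inv.orderOf_conj, hw]
    intro d hd
    have h1 : x * d * x⁻¹ = d := by
      rw [Subgroup.mem_centralizer_iff] at hx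
      rw [← hx d hd]; group
    have h2 := hd
    rw [hDx] at h2
    obtain ⟨i, hi⟩ := Subgroup.mem_zpowers_iff.mp h2
    have h3 : d = (y ^ m) ^ i := by
      have h4 : x * (y ^ m) ^ i * x⁻¹ = x * d * x⁻¹ := by rw [h1, ← hi, conj_zpow]
      exact (mul_left_cancel (mul_right_cancel h4)).symm
    rw [h3]
    exact Subgroup.zpow_mem _ (Subgroup.pow_mem _ (Subgroup.mem_zpowers y) m) i
  refine ⟨key, ?_, ?_⟩
  · intro g y hy hdvd hgy
    have h1 := key y hy hdvd
    have h2 := key _ hgy (by rw [Cfsg.Agent.H4.Inv.orderOf_conj]; exact hdvd)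
    rw [Cfsg.Agent.H4.Util.mem_normalizer_iff_map]
    apply Cfsg.Agent.H12.Core.cyclic_eq_of_card_eq' (C := Subgroup.zpowers (g * y * g⁻¹)) inferInstance
    · rintro _ ⟨d, hd, rfl⟩
      obtain ⟨i, hi⟩ := Subgroup.mem_zpowers_iff.mp (h1 hd)
      refine Subgroup.mem_zpowers_iff.mpr ⟨i, ?_⟩
      rw [conj_zpow, hi]; simp
    · exact h2
    · exact Subgroup.card_map_of_injective (MulAut.conj g).injective
  · intro g y hg hy hdvd
    refine ⟨?_, by rw [Cfsg.Agent.H4.Inv.orderOf_conj]; exact hdvd⟩
    exact (Subgroup.mem_normalizer_iff.mp (Cfsg.Agent.H4.QuatG.normalizer_le_normalizer_centralizer D hg) y).mp hy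

end Cfsg.Agent.S0843
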