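import Cfsg.Statements.S0844
import Mathlib
import Cfsg.Agent.H4_QuatG

set_option autoImplicit false
open Cfsg

namespace Cfsg.Agent.S0844

/-- Suppose a Sylow 2-subgroup S of the finite group G is generalized quaternion of order at least 16. Then G has two non-principal irreducible characters χ₁ and χ₂ with χ₁ 1 = χ₂ 1 + 1 such that χ₁ g - χ₂ g = 1 for every element g whose order is not divisible by 4. -/
theorem result {G : Type*} [Group G] [Fintype G] (S : Sylow 2 G) (n : ℕ) (e : (S : Subgroup G) ≃* QuaternionGroup (2 ^ (n + 2))) : ∃ χ₁ χ₂ : G → ℂ, Cfsg.IsIrrCharacter G χ₁ ∧ Cfsg.IsIrrCharacter G χ₂ ∧ χ₁ ≠ (fun _ => 1) ∧ χ₂ ≠ (fun _ => 1) ∧ χ₁ 1 = χ₂ 1 + 1 ∧ ∀ g : G, ¬ 4 ∣ orderOf g → χ₁ g - χ₂ g = 1 := by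
  classical
  open Cfsg.Agent.H4.Exc Cfsg.Agent.H4.BS Cfsg.Agent.H3.CharIrr ComplexConjugate in
  haveI : Fintype (Cfsg.IrrCharacter G) := Fintype.ofFinite _
  obtain ⟨c, b, z, hcS, hbS, hzS, hz2, hu, hord, hbc, hcz, -, -, -⟩ :=
    Cfsg.Agent.H4.QuatG.setup S (by omega) e
  have hidx := Cfsg.Agent.H4.QuatG.index_odd S (by omega) e hord
  have hr : ∀ t : G, orderOf t = 2 → Commute t z → t = z := fun t ht hc =>
    Cfsg.Agent.H4.QuatG.eq_of_commute S hu ht hz2 hc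
  obtain ⟨D, hD1, hD2, hD3, ⟨g0, hD4⟩, hD5⟩ := Cfsg.Agent.H4.ZStar.build (by omega) hz2 hr hord hbc hcz
    hidx (k := 4) (by rw [pow_add]; exact Dvd.intro_left _ rfl) (by norm_num)
      (dvd_refl 4) _ Cfsg.Agent.H4.ZStar.orderOf_I_unit
  have hμ : ¬ ∀ g, D.μ g ^ 2 = 1 := by
    intro h
    have := orderOf_dvd_of_pow_eq_one (h g0)
    rw [hD4] at this
    norm_num at this
  obtain ⟨a, ha, ha1, e1, e2, e3, e4⟩ := D.exists_coeff
  rw [if_neg hμ] at e4
  rw [← Finset.add_sum_erase Finset.univ _ (Finset.mem_univ (Cfsg.Agent.H4.BS.triv G))] at e4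
  have ha1' : a (Cfsg.Agent.H4.BS.triv G) = 1 := ha1
  rw [ha1'] at e4
  have e5 : ∑ χ ∈ Finset.univ.erase (Cfsg.Agent.H4.BS.triv G), a χ ^ 2 = 2 := by linarith
  obtain ⟨hs1, hs2⟩ := Cfsg.Agent.H4.Exc.small_squares (Finset.univ.erase (Cfsg.Agent.H4.BS.triv G)) a (by rw [e5]; norm_num)
  rw [e5] at hs2
  have hs3 : ((Finset.univ.erase (Cfsg.Agent.H4.BS.triv G)).filter (fun χ => a χ ≠ 0)).card = 2 := by
    exact_mod_cast hs2
  obtain ⟨χ1, χ2, hne, hset⟩ := Finset.card_eq_two.mp hs3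
  have hmem1 : χ1 ∈ (Finset.univ.erase (Cfsg.Agent.H4.BS.triv G)).filter (fun χ => a χ ≠ 0) := by rw [hset]; simp
  have hmem2 : χ2 ∈ (Finset.univ.erase (Cfsg.Agent.H4.BS.triv G)).filter (fun χ => a χ ≠ 0) := by rw [hset]; simp
  rw [Finset.mem_filter, Finset.mem_erase] at hmem1 hmem2
  have hA1 : a χ1 = 1 ∨ a χ1 = -1 := by
    rcases hs1 χ1 (Finset.mem_erase.mpr hmem1.1) with h | h
    · exact absurd h hmem1.2
    · exact h
  have hA2 : a χ2 = 1 ∨ a χ2 = -1 := by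
    rcases hs1 χ2 (Finset.mem_erase.mpr hmem2.1) with h | h
    · exact absurd h hmem2.2
    · exact h
  have key : ∀ g : G, ¬ 4 ∣ orderOf g →
      1 + (a χ1 : ℂ) * (χ1 : G → ℂ) g + (a χ2 : ℂ) * (χ2 : G → ℂ) g = 0 := by
    intro g hg
    have h1 := Cfsg.Agent.H4.Exc.sum_A_zero D.c D.w g (fun x y hx h => by
      apply hg
      rw [← h, Cfsg.Agent.H4.Inv.orderOf_conj]
      exact D.four_of_w hx)
    have h2 : ∑ χ : Cfsg.IrrCharacter G, (a χ : ℂ) * (starRingEnd ℂ) ((χ : G → ℂ) g) = 0 := by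
      rw [← h1]
      exact Finset.sum_congr rfl fun χ _ => by rw [ha]
    rw [Cfsg.Agent.H4.BS.expand a ha1, hset, Finset.sum_pair hne] at h2
    have h3 := congrArg (starRingEnd ℂ) h2
    simp only [map_add, map_mul, map_zero, Complex.conj_conj, map_intCast] at h3
    have ht : ((Cfsg.Agent.H4.BS.triv G : Cfsg.IrrCharacter G) : G → ℂ) g = 1 := rfl
    rw [ht] at h3
    linear_combination h3
  have hk1 := key 1 (by rw [orderOf_one]; norm_num)
  obtain ⟨x1, hx1, hx1'⟩ := Cfsg.Agent.H3.CharIrr.IsIrr.one_eq_nat χ1.2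
  obtain ⟨x2, hx2, hx2'⟩ := Cfsg.Agent.H3.CharIrr.IsIrr.one_eq_nat χ2.2
  have hpos1 : (0 : ℝ) < ((χ1 : G → ℂ) 1).re := by rw [hx1']; simpa using hx1
  have hpos2 : (0 : ℝ) < ((χ2 : G → ℂ) 1).re := by rw [hx2']; simpa using hx2
  have hn1 : (χ1 : G → ℂ) ≠ fun _ => 1 := fun h => hmem1.1.1 (Subtype.ext h)
  have hn2 : (χ2 : G → ℂ) ≠ fun _ => 1 := fun h => hmem2.1.1 (Subtype.ext h)
  rcases hA1 with h1 | h1 <;> rcases hA2 with h2 | h2
  · exfalso
    rw [h1, h2] at hk1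
    have := congrArg Complex.re hk1
    simp only [Int.cast_one, one_mul, Complex.add_re, Complex.one_re, Complex.zero_re] at this
    linarith
  · refine ⟨χ2, χ1, χ2.2, χ1.2, hn2, hn1, ?_, ?_⟩
    · rw [h1, h2] at hk1
      push_cast at hk1
      linear_combination -hk1
    · intro g hg
      have := key g hg
      rw [h1, h2] at this
      push_cast at this
      linear_combination -this
  · refine ⟨χ1, χ2, χ1.2, χ2.2, hn1, hn2, ?_, ?_⟩
    · rw [h1, h2] at hk1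
      push_cast at hk1
      linear_combination -hk1
    · intro g hg
      have := key g hg
      rw [h1, h2] at this
      push_cast at this
      linear_combination -this
  · exfalso
    rw [h1, h2, hx1', hx2'] at hk1
    push_cast at hk1
    have h3 : ((1 : ℤ) : ℂ) = ((x1 + x2 : ℤ) : ℂ) := by push_cast; linear_combination hk1
    have h4 : (1 : ℤ) = x1 + x2 := by exact_mod_cast h3
    omega

end Cfsg.Agent.S0844
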