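import Cfsg.Statements.S0845
import Mathlib
import Cfsg.Agent.H4_QuatG

set_option autoImplicit false
open Cfsg

namespace Cfsg.Agent.S0845

/-- Suppose a Sylow 2-subgroup S of the finite group G is generalized quaternion of order at least 16. Then G has a normal subgroup M of even order such that G / M is non-abelian, that is, M does not contain the commutator subgroup of G. -/
theorem result {G : Type*} [Group G] [Finite G] (S : Sylow 2 G) (n : ℕ) (e : (S : Subgroup G) ≃* QuaternionGroup (2 ^ (n + 2))) : ∃ M : Subgroup G, M.Normal ∧ Even (Nat.card M) ∧ ¬ commutator G ≤ M := by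
  obtain ⟨c, b, z, hcS, hbS, hzS, hz2, hu, hord, hbc, hcz, -, -, -⟩ :=
    Cfsg.Agent.H4.QuatG.setup S (by omega) e
  have hI := Cfsg.Agent.H4.ZCor.isolated_of_unique S hz2 hzS hu
  obtain ⟨M, hM1, hM2, hM3⟩ : ∃ M : Subgroup G, M.Normal ∧ z ∈ M ∧ ∀ x ∈ M, x * x ∈ Cfsg.oddCore G := by
    let Q := G ⧸ Cfsg.oddCore G
    have hcen : ∀ x : Q, Commute (QuotientGroup.mk z : Q) x := by
      intro x
      obtain ⟨x, rfl⟩ := QuotientGroup.mk_surjective x
      have h1 := Cfsg.Agent.H4.ZStar.zstar hI x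
      rw [← QuotientGroup.eq_one_iff] at h1
      simp only [QuotientGroup.mk_mul, QuotientGroup.mk_inv] at h1
      exact mul_inv_eq_iff_eq_mul.mp (mul_inv_eq_one.mp h1)
    let W : Subgroup Q := Subgroup.zpowers (QuotientGroup.mk z)
    have hW : W.Normal := by
      refine ⟨fun n hn g => ?_⟩
      obtain ⟨k, rfl⟩ := Subgroup.mem_zpowers_iff.mp hn
      have : g * (QuotientGroup.mk z : Q) ^ k * g⁻¹ = (QuotientGroup.mk z : Q) ^ k := by
        rw [((hcen g).zpow_left k).symm.eq]; group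
      rw [this]; exact hn
    refine ⟨W.comap (QuotientGroup.mk' _), inferInstance, Subgroup.mem_zpowers _, ?_⟩
    intro x hx
    obtain ⟨k, hk⟩ := Subgroup.mem_zpowers_iff.mp (show (QuotientGroup.mk x : Q) ∈ W from hx)
    rw [← QuotientGroup.eq_one_iff, QuotientGroup.mk_mul, ← hk, ← zpow_add, ← two_mul, zpow_mul,
      ← QuotientGroup.mk_zpow, zpow_two, Cfsg.Agent.H4.Inv.mul_self hz2, QuotientGroup.mk_one, one_zpow]
  refine ⟨M, hM1, ?_, ?_⟩
  · have h1 : orderOf (⟨z, hM2⟩ : M) ∣ Nat.card M := orderOf_dvd_natCard _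
    rw [← Subgroup.orderOf_coe] at h1
    simp only at h1
    rw [hz2] at h1
    exact even_iff_two_dvd.mpr h1
  · intro hle
    have h1 : c * b * c⁻¹ * b⁻¹ ∈ commutator G := Subgroup.commutator_mem_commutator trivial trivial
    have h2 : c * b * c⁻¹ * b⁻¹ = c * c := by
      have : b * c⁻¹ * b⁻¹ = c := by
        calc b * c⁻¹ * b⁻¹ = (b * c * b⁻¹)⁻¹ := by group
          _ = c := by rw [hbc, inv_inv]
      calc c * b * c⁻¹ * b⁻¹ = c * (b * c⁻¹ * b⁻¹) := by group
        _ = c * c := by rw [this]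
    rw [h2] at h1
    have h3 := hM3 _ (hle h1)
    have h4 : c * c * (c * c) = c ^ 4 := by simp only [pow_succ, pow_zero, one_mul, mul_assoc]
    rw [h4] at h3
    have h5 : orderOf (⟨c ^ 4, h3⟩ : Cfsg.oddCore G) ∣ Nat.card (Cfsg.oddCore G) := orderOf_dvd_natCard _
    rw [← Subgroup.orderOf_coe] at h5
    simp only at h5
    have h6 : (2 : ℕ) ∣ orderOf (c ^ 4) := by
      rw [orderOf_pow_of_dvd (by norm_num) (by rw [hord, pow_add]; exact ⟨2 ^ n * 2, by ring⟩), hord]
      have : 2 ^ (n + 2 + 1) / 4 = 2 ^ (n + 1) := by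
        rw [show n + 2 + 1 = (n + 1) + 2 by ring, pow_add]; exact Nat.mul_div_cancel _ (by norm_num)
      rw [this, pow_succ]; exact Dvd.intro_left _ rfl
    have h7 : (Nat.card (Cfsg.oddCore G)).Coprime 2 := Cfsg.Agent.H11.Cores.pPrimeCore_coprime 2
    exact absurd (h7.symm.eq_one_of_dvd (h6.trans h5)) (by norm_num)

end Cfsg.Agent.S0845
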