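import Cfsg.Statements.S0846
import Mathlib
import Cfsg.Agent.H4_QuatG

set_option autoImplicit false
open Cfsg

namespace Cfsg.Agent.S0846

/-- Suppose a Sylow 2-subgroup S of the finite group G is generalized quaternion of order at least 16. Then every Sylow 2-subgroup of the subgroup generated by the involutions of G is cyclic. -/
theorem result {G : Type*} [Group G] [Finite G] (S : Sylow 2 G) (n : ℕ) (e : (S : Subgroup G) ≃* QuaternionGroup (2 ^ (n + 2))) (Q : Sylow 2 ↥(Subgroup.closure {g : G | orderOf g = 2})) : IsCyclic Q := by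
  obtain ⟨c, b, z, hcS, hbS, hzS, hz2, hu, hord, hbc, hcz, -, -, -⟩ :=
    Cfsg.Agent.H4.QuatG.setup S (by omega) e
  have hI := Cfsg.Agent.H4.ZCor.isolated_of_unique S hz2 hzS hu
  have hz := Cfsg.Agent.H4.Inv.mul_self hz2
  set O := Cfsg.oddCore G with hO
  have hOn : O.Normal := inferInstance
  -- the elements of the closure are in O or O z
  have key : ∀ x ∈ Subgroup.closure {g : G | orderOf g = 2}, x ∈ O ∨ x * z ∈ O := by
    intro x hx
    have hzc : ∀ g : G, z * g * z⁻¹ * g⁻¹ ∈ O := fun g => Cfsg.Agent.H4.ZStar.zstar hI g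
    induction hx using Subgroup.closure_induction with
    | mem t ht =>
      right
      obtain ⟨g, rfl⟩ := Cfsg.Agent.H4.QuatG.conj_of_invol S hu ht
      have h1 := O.inv_mem (hzc g)
      have h2 : (z * g * z⁻¹ * g⁻¹)⁻¹ = g * z * g⁻¹ * z := by
        have h3 := Cfsg.Agent.H4.Inv.inv_eq hz2
        calc (z * g * z⁻¹ * g⁻¹)⁻¹ = g * z * g⁻¹ * z⁻¹ := by group
          _ = _ := by rw [h3]
      rwa [h2] at h1
    | one => exact Or.inl O.one_mem
    | mul x y _ _ hx hy =>
      rcases hx with hx | hx <;> rcases hy with hy | hy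
      · exact Or.inl (O.mul_mem hx hy)
      · right; rw [mul_assoc]; exact O.mul_mem hx hy
      · right
        have h1 : z⁻¹ * y * z ∈ O := by
          have := hOn.conj_mem y hy z⁻¹
          rwa [inv_inv] at this
        have h2 := O.mul_mem hx h1
        have h3 : x * z * (z⁻¹ * y * z) = x * y * z := by group
        rwa [h3] at h2
      · left
        have h1 : z⁻¹ * (y * z) * z ∈ O := by
          have := hOn.conj_mem _ hy z⁻¹
          rwa [inv_inv] at this
        have h2 := O.mul_mem hx h1
        have h3 : x * z * (z⁻¹ * (y * z) * z) = x * y := by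
          calc x * z * (z⁻¹ * (y * z) * z) = x * y * (z * z) := by group
            _ = x * y := by rw [hz, mul_one]
        rwa [h3] at h2
    | inv x _ hx =>
      rcases hx with hx | hx
      · exact Or.inl (O.inv_mem hx)
      · right
        have h1 := O.inv_mem hx
        have h2 : z⁻¹⁻¹ * (x * z)⁻¹ * z⁻¹ ∈ O := by
          have := hOn.conj_mem _ h1 z
          rwa [inv_inv]
        have h3 : z⁻¹⁻¹ * (x * z)⁻¹ * z⁻¹ = x⁻¹ * z := by
          have h4 := Cfsg.Agent.H4.Inv.inv_eq hz2
          calc z⁻¹⁻¹ * (x * z)⁻¹ * z⁻¹ = x⁻¹ * z⁻¹ := by group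
            _ = _ := by rw [h4]
        rwa [h3] at h2
  -- 2-elements of O are trivial
  have hodd : ∀ x : G, x ∈ O → (∃ k, orderOf x = 2 ^ k) → x = 1 := by
    rintro x hx ⟨k, hk⟩
    have h5 : orderOf (⟨x, hx⟩ : O) ∣ Nat.card O := orderOf_dvd_natCard _
    rw [← Subgroup.orderOf_coe] at h5
    simp only at h5
    have h7 : (Nat.card O).Coprime 2 := Cfsg.Agent.H11.Cores.pPrimeCore_coprime 2
    rcases Nat.eq_zero_or_pos k with rfl | hk0
    · rw [pow_zero, orderOf_eq_one_iff] at hk; exact hk
    · exfalso
      rw [hk] at h5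
      exact absurd (h7.symm.eq_one_of_dvd ((dvd_pow_self 2 hk0.ne').trans h5)) (by norm_num)
  have h2el : ∀ q : (Q : Subgroup ↥(Subgroup.closure {g : G | orderOf g = 2})),
      ∃ k, orderOf ((q : ↥(Subgroup.closure {g : G | orderOf g = 2})) : G) = 2 ^ k := by
    intro q
    rw [Subgroup.orderOf_coe, Subgroup.orderOf_coe]
    exact (IsPGroup.iff_orderOf.mp Q.2) q
  by_cases htriv : ∀ q : (Q : Subgroup ↥(Subgroup.closure {g : G | orderOf g = 2})), q = 1
  · exact ⟨1, fun q => ⟨0, by rw [htriv q]; exact zpow_zero 1⟩⟩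
  · push Not at htriv
    obtain ⟨q, hq⟩ := htriv
    refine ⟨q, fun r => ?_⟩
    by_cases hr : r = 1
    · rw [hr]; exact ⟨0, zpow_zero q⟩
    · have hq1 : ((q : ↥(Subgroup.closure {g : G | orderOf g = 2})) : G) * z ∈ O := by
        rcases key _ (q : ↥(Subgroup.closure {g : G | orderOf g = 2})).2 with h | h
        · exfalso; apply hq
          exact Subtype.ext (Subtype.ext (hodd _ h (h2el q)))
        · exact h
      have hr1 : ((r : ↥(Subgroup.closure {g : G | orderOf g = 2})) : G) * z ∈ O := by
        rcases key _ (r : ↥(Subgroup.closure {g : G | orderOf g = 2})).2 with h | h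
        · exfalso; apply hr
          exact Subtype.ext (Subtype.ext (hodd _ h (h2el r)))
        · exact h
      have h1 := O.mul_mem hr1 (O.inv_mem hq1)
      have h2 : r * q⁻¹ = 1 := by
        apply Subtype.ext
        apply Subtype.ext
        refine hodd _ ?_ (h2el (r * q⁻¹))
        have h3 : ((r : ↥(Subgroup.closure {g : G | orderOf g = 2})) : G) * z *
            (((q : ↥(Subgroup.closure {g : G | orderOf g = 2})) : G) * z)⁻¹ =
            (((r * q⁻¹ : (Q : Subgroup ↥(Subgroup.closure {g : G | orderOf g = 2}))) :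
              ↥(Subgroup.closure {g : G | orderOf g = 2})) : G) := by
          simp only [Subgroup.coe_mul, Subgroup.coe_inv]
          group
        rw [h3] at h1
        exact h1
      rw [mul_inv_eq_one.mp h2]
      exact Subgroup.mem_zpowers q

end Cfsg.Agent.S0846
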