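import Cfsg.Statements.S0847
import Mathlib
import Cfsg.Agent.H4_QuatG

set_option autoImplicit false
open Cfsg

namespace Cfsg.Agent.S0847

/-- The Brauer–Suzuki Theorem in the case of order at least 16: if a Sylow 2-subgroup S of the finite group G is generalized quaternion of order at least 16 and G has no nontrivial normal subgroup of odd order, then the centre of G has order 2. -/
theorem result {G : Type*} [Group G] [Finite G] (S : Sylow 2 G) (n : ℕ) (e : (S : Subgroup G) ≃* QuaternionGroup (2 ^ (n + 2))) (hO : ∀ N : Subgroup G, N.Normal → Odd (Nat.card N) → N = ⊥) : Nat.card (Subgroup.center G) = 2 := by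
  obtain ⟨c, b, z, hcS, hbS, hzS, hz2, hu, hord, hbc, hcz, -, -, -⟩ :=
    Cfsg.Agent.H4.QuatG.setup S (by omega) e
  refine Cfsg.Agent.H4.ZCor.center_of_quaternion S (N := 2 ^ (n + 2)) ?_ e hz2 hzS hu hO
  have : 0 < 2 ^ n := by positivity
  rw [pow_add]; omega

end Cfsg.Agent.S0847
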