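import Cfsg.Statements.S0849
import Mathlib
import Cfsg.Agent.H3_CharInd

set_option autoImplicit false
open Cfsg

namespace Cfsg.Agent.S0849

/-- Let H be a subgroup of a finite group G and S a subset of H that is mapped to itself under conjugation by H, is disjoint from its conjugate by any element outside H, and is closed under inverses. Let φ be a class function of H vanishing on H away from S, and let u, v be involutions of G. Then the sum of the induced function of φ over all products a * b with a conjugate to u and b conjugate to v equals the index of H times the sum of φ (a * b) over such pairs with a and b in H. -/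
theorem result {G : Type*} [Group G] [Fintype G] (H : Subgroup G) (S : Set G) (hSH : S ⊆ H) (hHS : ∀ h ∈ H, ∀ s ∈ S, h * s * h⁻¹ ∈ S) (hTI : ∀ g : G, g ∉ H → ∀ s ∈ S, g * s * g⁻¹ ∉ S) (hinv : ∀ s ∈ S, s⁻¹ ∈ S) (φ : H → ℂ) (hφ : Cfsg.IsClassFunction H φ) (hφS : ∀ x : H, (x : G) ∉ S → φ x = 0) (u v : G) (hu : orderOf u = 2) (hv : orderOf v = 2) : ∑ᶠ p ∈ {p : G × G | IsConj u p.1 ∧ IsConj v p.2}, Cfsg.indFun H φ (p.1 * p.2) = (H.index : ℂ) * ∑ᶠ p ∈ {p : H × H | IsConj u (p.1 : G) ∧ IsConj v (p.2 : G)}, φ (p.1 * p.2) := by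
  classical
  have hu2 : u * u = 1 := by have := pow_orderOf_eq_one u; rwa [hu, sq] at this
  have hv2 : v * v = 1 := by have := pow_orderOf_eq_one v; rwa [hv, sq] at this
  have hinv2 : ∀ w a : G, w * w = 1 → IsConj w a → a * a = 1 := by
    intro w a hw ha
    obtain ⟨c, rfl⟩ := isConj_iff.mp ha
    calc c * w * c⁻¹ * (c * w * c⁻¹) = c * (w * w) * c⁻¹ := by group
      _ = 1 := by rw [hw]; group
  rw [finsum_mem_eq_toFinset_sum, finsum_mem_eq_toFinset_sum]
  obtain ⟨A, hA⟩ : ∃ A : Finset (G × G), A = ({p : G × G | IsConj u p.1 ∧ IsConj v p.2} : Set (G × G)).toFinset :=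
    ⟨_, rfl⟩
  obtain ⟨B, hB⟩ : ∃ B : Finset (H × H), B = ({p : H × H | IsConj u (p.1 : G) ∧ IsConj v (p.2 : G)} : Set (H × H)).toFinset :=
    ⟨_, rfl⟩
  rw [← hA, ← hB]
  have hAm : ∀ p : G × G, p ∈ A ↔ IsConj u p.1 ∧ IsConj v p.2 := by
    intro p; rw [hA, Set.mem_toFinset]; rfl
  have hBm : ∀ p : H × H, p ∈ B ↔ IsConj u (p.1 : G) ∧ IsConj v (p.2 : G) := by
    intro p; rw [hB, Set.mem_toFinset]; rfl
  have key : ∑ p ∈ A, Cfsg.extendByZero H φ (p.1 * p.2) = ∑ p ∈ B, φ (p.1 * p.2) := by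
    symm
    refine Finset.sum_bij_ne_zero (fun p _ _ => ((p.1 : G), (p.2 : G))) ?_ ?_ ?_ ?_
    · intro p hp _; rw [hAm]; exact (hBm p).mp hp
    · intro p _ _ q _ _ h
      have h1 := congrArg Prod.fst h
      have h2 := congrArg Prod.snd h
      exact Prod.ext (Subtype.ext h1) (Subtype.ext h2)
    · intro p hp hne
      have hpH : p.1 * p.2 ∈ H := by
        by_contra hcon
        exact hne (Cfsg.Agent.H3.CharInd.ext_not_mem H φ hcon)
      have hpS : p.1 * p.2 ∈ S := by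
        by_contra hcon
        apply hne
        rw [Cfsg.Agent.H3.CharInd.ext_mem H φ hpH]
        exact hφS _ hcon
      have h1 := hinv2 u p.1 hu2 ((hAm p).mp hp).1
      have h2 := hinv2 v p.2 hv2 ((hAm p).mp hp).2
      have h1' : p.1⁻¹ = p.1 := inv_eq_of_mul_eq_one_left h1
      have h2' : p.2⁻¹ = p.2 := inv_eq_of_mul_eq_one_left h2
      have hp1 : p.1 ∈ H := by
        by_contra hcon
        apply hTI p.1 hcon _ hpS
        have : p.1 * (p.1 * p.2) * p.1⁻¹ = (p.1 * p.2)⁻¹ := by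
          rw [h1', mul_inv_rev, h1', h2', ← mul_assoc p.1 p.1, h1, one_mul]
        rw [this]
        exact hinv _ hpS
      have hp2 : p.2 ∈ H := by
        have : p.2 = p.1⁻¹ * (p.1 * p.2) := by group
        rw [this]
        exact H.mul_mem (H.inv_mem hp1) hpH
      refine ⟨(⟨p.1, hp1⟩, ⟨p.2, hp2⟩), (hBm _).mpr ((hAm p).mp hp), ?_, rfl⟩
      rw [Cfsg.Agent.H3.CharInd.ext_mem H φ hpH] at hne
      exact hne
    · intro p _ _
      rw [← Cfsg.Agent.H3.CharInd.ext_coe H φ (p.1 * p.2)]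
      rfl
  rw [← key]
  simp only [Cfsg.indFun]
  rw [← Finset.mul_sum, Finset.sum_comm]
  have hx : ∀ x : G, ∑ p ∈ A, Cfsg.extendByZero H φ (x⁻¹ * (p.1 * p.2) * x) =
      ∑ p ∈ A, Cfsg.extendByZero H φ (p.1 * p.2) := by
    intro x
    refine Finset.sum_bij (fun p _ => (x⁻¹ * p.1 * x, x⁻¹ * p.2 * x)) ?_ ?_ ?_ ?_
    · intro p hp
      rw [hAm] at hp ⊢
      exact ⟨hp.1.trans (isConj_iff.mpr ⟨x⁻¹, by group⟩), hp.2.trans (isConj_iff.mpr ⟨x⁻¹, by group⟩)⟩
    · intro p _ q _ h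
      have h1 := congrArg Prod.fst h
      have h2 := congrArg Prod.snd h
      simp only [mul_left_inj, mul_right_inj] at h1 h2
      exact Prod.ext h1 h2
    · intro p hp
      refine ⟨(x * p.1 * x⁻¹, x * p.2 * x⁻¹), ?_, ?_⟩
      · rw [hAm] at hp ⊢
        exact ⟨hp.1.trans (isConj_iff.mpr ⟨x, rfl⟩), hp.2.trans (isConj_iff.mpr ⟨x, rfl⟩)⟩
      · ext <;> group
    · intro p _
      congr 1
      group
  rw [Finset.sum_congr rfl fun x _ => hx x, Finset.sum_const, Finset.card_univ, nsmul_eq_mul,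
    ← mul_assoc, ← Nat.card_eq_fintype_card (α := G), ← H.index_mul_card, Nat.cast_mul]
  have := Cfsg.Agent.H3.CharInd.cardH_ne_zero H
  field_simp

end Cfsg.Agent.S0849
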