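import Cfsg.Statements.S0850
import Cfsg.Agent.H3_FrobCount
import Cfsg.Agent.H3_CharInd

set_option autoImplicit false
open Cfsg

namespace Cfsg.Agent.S0850

open Cfsg.Agent.H3.CharInd Cfsg.Agent.H3.FrobCount in
theorem aux {G : Type*} [Group G] [Fintype G] (K : Subgroup G)
    (hTI : ∀ g : G, g ∉ Subgroup.normalizer (K : Set G) → ∀ k ∈ K, g * k * g⁻¹ ∈ K → k = 1)
    (hC : ∀ k ∈ K, k ≠ 1 → Subgroup.centralizer ({k} : Set G) ≤ K) :
    ∀ x ∈ Subgroup.normalizer (K : Set G), x ∉ K → ∀ g : G, g * x * g⁻¹ ∉ K := by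
  intro x hx hxK g hg
  set N := Subgroup.normalizer (K : Set G) with hN
  have hKN : K ≤ N := Subgroup.le_normalizer
  -- `K` is a Hall subgroup of `N`
  have hnorm : (K.subgroupOf N).Normal := Subgroup.normal_in_normalizer
  have h1 := hall_of_centralizer_le (K.subgroupOf N) (by
    intro k hk hk1 y hy
    rw [Subgroup.mem_subgroupOf] at hk ⊢
    apply hC k hk (fun h => hk1 (Subtype.ext h))
    rw [Subgroup.mem_centralizer_singleton_iff] at hy ⊢
    exact congrArg Subtype.val hy)
  have hcard : Nat.card (K.subgroupOf N) = Nat.card K :=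
    Nat.card_congr (Subgroup.subgroupOfEquivOfLe hKN).toEquiv
  rw [hcard] at h1
  -- the image of `x` in `N / K` has order dividing both
  have h2 : orderOf x ∣ Nat.card K := by
    have h3 : orderOf (g * x * g⁻¹) = orderOf x := by
      have := orderOf_injective (MulAut.conj g).toMonoidHom (MulAut.conj g).injective x
      simpa using this
    rw [← h3, ← Subgroup.orderOf_mk _ hg]
    exact orderOf_dvd_natCard _
  let q : N ⧸ K.subgroupOf N := QuotientGroup.mk ⟨x, hx⟩
  have h3 : orderOf q ∣ (K.subgroupOf N).index := orderOf_dvd_natCard q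
  have h4 : orderOf q ∣ Nat.card K := by
    refine (orderOf_map_dvd (QuotientGroup.mk' (K.subgroupOf N)) ⟨x, hx⟩).trans ?_
    rw [Subgroup.orderOf_mk]
    exact h2
  have h5 : orderOf q = 1 := Nat.eq_one_of_dvd_coprimes h1 h4 h3
  rw [orderOf_eq_one_iff] at h5
  have h6 : (⟨x, hx⟩ : N) ∈ K.subgroupOf N := (QuotientGroup.eq_one_iff _).mp h5
  exact hxK (Subgroup.mem_subgroupOf.mp h6)

theorem aux2 {G : Type*} [Group G] [Fintype G] (K N : Subgroup G)
    (hTI : ∀ g : G, g ∉ N → ∀ k ∈ K, g * k * g⁻¹ ∈ K → k = 1)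
    (key : ∀ x ∈ N, x ∉ K → ∀ g : G, g * x * g⁻¹ ∉ K) (ϑ : N → ℂ)
    (hϑ : Cfsg.IsClassFunction N ϑ) (hoff : ∀ x : N, (x : G) ∉ K → ϑ x = 0) (h1 : ϑ 1 = 0) (x : N) :
    Cfsg.indFun N ϑ x = ϑ x := by
  have hzero : ∀ (y : G), y ∉ K → Cfsg.extendByZero N ϑ y = 0 := by
    intro y hy
    by_cases hyN : y ∈ N
    · rw [Cfsg.Agent.H3.CharInd.ext_mem N ϑ hyN]; exact hoff ⟨y, hyN⟩ hy
    · rw [Cfsg.Agent.H3.CharInd.ext_not_mem N ϑ hyN]
  by_cases hxK : (x : G) ∈ K
  · by_cases hx1 : (x : G) = 1
    · have hx1' : x = 1 := Subtype.ext hx1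
      subst hx1'
      rw [Subgroup.coe_one, Cfsg.Agent.H3.CharInd.ind_one, h1, mul_zero]
    · have h2 : ∀ g : G, Cfsg.extendByZero N ϑ (g⁻¹ * x * g) =
          Cfsg.extendByZero N (fun _ => ϑ x) g := by
        intro g
        by_cases hg : g ∈ N
        · rw [Cfsg.Agent.H3.CharInd.ext_mem N _ hg,
            Cfsg.Agent.H3.CharInd.ext_mem N ϑ (N.mul_mem (N.mul_mem (N.inv_mem hg) x.2) hg)]
          have := hϑ x (⟨g, hg⟩ : N)⁻¹
          rw [← this]
          congr 1
          ext
          simp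
        · rw [Cfsg.Agent.H3.CharInd.ext_not_mem N _ hg]
          apply hzero
          intro hmem
          apply hx1
          apply hTI g⁻¹ (fun h => hg (by simpa using N.inv_mem h)) x hxK
          simpa using hmem
      simp only [Cfsg.indFun]
      rw [Finset.sum_congr rfl fun g _ => h2 g]
      have hfN : Fintype N := Fintype.ofFinite _
      rw [Cfsg.Agent.H3.CharInd.sum_ext, Finset.sum_const, Finset.card_univ, nsmul_eq_mul,
        Nat.card_eq_fintype_card]
      have : (Fintype.card N : ℂ) ≠ 0 := by exact_mod_cast Fintype.card_ne_zero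
      field_simp
  · rw [hoff x hxK]
    simp only [Cfsg.indFun]
    rw [Finset.sum_eq_zero, mul_zero]
    intro g _
    apply hzero
    have := key x x.2 hxK g⁻¹
    simpa using this

/-- Let K be a subgroup of the finite group G that meets each conjugate by an element outside its normalizer N trivially, is properly contained in N, and contains the centralizer of each of its non-identity elements (a T.I. subgroup with Frobenius normalizer). Then no element of N outside K is conjugate in G to an element of K, and for every class function ϑ of N that vanishes on N away from K and at the identity, the function induced from ϑ to G agrees with ϑ on all of N. -/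
theorem result {G : Type*} [Group G] [Fintype G] (K : Subgroup G) (hTI : ∀ g : G, g ∉ Subgroup.normalizer (K : Set G) → ∀ k ∈ K, g * k * g⁻¹ ∈ K → k = 1) (hlt : K < Subgroup.normalizer (K : Set G)) (hC : ∀ k ∈ K, k ≠ 1 → Subgroup.centralizer ({k} : Set G) ≤ K) : (∀ x ∈ Subgroup.normalizer (K : Set G), x ∉ K → ∀ g : G, g * x * g⁻¹ ∉ K) ∧ ∀ (ϑ : Subgroup.normalizer (K : Set G) → ℂ), Cfsg.IsClassFunction (Subgroup.normalizer (K : Set G)) ϑ → (∀ x : Subgroup.normalizer (K : Set G), (x : G) ∉ K → ϑ x = 0) → ϑ 1 = 0 → ∀ x : Subgroup.normalizer (K : Set G), Cfsg.indFun (Subgroup.normalizer (K : Set G)) ϑ x = ϑ x := by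
  have key := aux K hTI hC
  exact ⟨key, fun ϑ hϑ hoff h1 x => aux2 K _ hTI key ϑ hϑ hoff h1 x⟩

end Cfsg.Agent.S0850
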