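import Cfsg.Statements.S0851
import Cfsg.Agent.H3_CohTI

set_option autoImplicit false
open Cfsg

namespace Cfsg.Agent.S0851

/-- Let K be a subgroup of the finite group G that meets each conjugate by an element outside its normalizer N trivially, is properly contained in N, and contains the centralizer of each of its non-identity elements (a T.I. subgroup with Frobenius normalizer). Suppose K is abelian, let e be the index of K in N, and call an irreducible character of N relevant when it takes at some element of K a value different from its degree. Then either there is exactly one relevant character and K is an elementary abelian p-group of order e + 1 for some prime p, or there are a sign ε and an injective map f from the relevant characters to the irreducible characters of G such that inducing χ - ξ to G gives ε (f χ - f ξ) for all relevant χ and ξ. -/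
theorem result {G : Type*} [Group G] [Fintype G] (K : Subgroup G) (hTI : ∀ g : G, g ∉ Subgroup.normalizer (K : Set G) → ∀ k ∈ K, g * k * g⁻¹ ∈ K → k = 1) (hlt : K < Subgroup.normalizer (K : Set G)) (hC : ∀ k ∈ K, k ≠ 1 → Subgroup.centralizer ({k} : Set G) ≤ K) (hab : ∀ a ∈ K, ∀ b ∈ K, a * b = b * a) : (Nat.card {χ : Cfsg.IrrCharacter (Subgroup.normalizer (K : Set G)) // ∃ k : Subgroup.normalizer (K : Set G), (k : G) ∈ K ∧ (χ : ↥(Subgroup.normalizer (K : Set G)) → ℂ) k ≠ (χ : ↥(Subgroup.normalizer (K : Set G)) → ℂ) 1} = 1 ∧ ∃ p : ℕ, p.Prime ∧ Cfsg.IsElementaryAbelian p K ∧ Nat.card K = (K.subgroupOf (Subgroup.normalizer (K : Set G))).index + 1) ∨ ∃ (ε : ℂ) (f : {χ : Cfsg.IrrCharacter (Subgroup.normalizer (K : Set G)) // ∃ k : Subgroup.normalizer (K : Set G), (k : G) ∈ K ∧ (χ : ↥(Subgroup.normalizer (K : Set G)) → ℂ) k ≠ (χ : ↥(Subgroup.normalizer (K : Set G)) → ℂ) 1} → Cfsg.IrrCharacter G),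 (ε = 1 ∨ ε = -1) ∧ Function.Injective f ∧ ∀ χ ξ, Cfsg.indFun (Subgroup.normalizer (K : Set G)) ((χ.1 : ↥(Subgroup.normalizer (K : Set G)) → ℂ) - (ξ.1 : ↥(Subgroup.normalizer (K : Set G)) → ℂ)) = ε • ((f χ : G → ℂ) - (f ξ : G → ℂ)) := by
  classical
  right
  obtain ⟨N, hN⟩ : ∃ N : Subgroup G, N = Subgroup.normalizer (K : Set G) := ⟨_, rfl⟩
  have hKN : K ≤ N := by rw [hN]; exact Subgroup.le_normalizer
  rw [← hN] at hTI ⊢
  have hn : (K.subgroupOf N).Normal := by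
    refine ⟨fun x hx g => ?_⟩
    rw [Subgroup.mem_subgroupOf] at hx ⊢
    have hg : (g : G) ∈ Subgroup.normalizer (K : Set G) := by rw [← hN]; exact g.2
    exact (Subgroup.mem_normalizer_iff.mp hg _).mp hx
  have := Fintype.ofFinite N
  have := Fintype.ofFinite (K.subgroupOf N)
  have hrel : ∀ χ : {χ : Cfsg.IrrCharacter N // ∃ k : N, (k : G) ∈ K ∧ (χ : N → ℂ) k ≠ (χ : N → ℂ) 1},
      Cfsg.Agent.H3.CohTI.Rel (K.subgroupOf N) (χ.1 : N → ℂ) := by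
    intro χ
    obtain ⟨k, hk, hne⟩ := χ.2
    exact ⟨χ.1.2, k, hk, hne⟩
  have hC' := Cfsg.Agent.H3.CohTI.hC' K N hC
  have hdeg : ∀ χ : {χ : Cfsg.IrrCharacter N // ∃ k : N, (k : G) ∈ K ∧ (χ : N → ℂ) k ≠ (χ : N → ℂ) 1},
      (χ.1 : N → ℂ) 1 = ((K.subgroupOf N).index : ℂ) := by
    intro χ
    obtain ⟨θ, hθ, hθ1, hχ⟩ := Cfsg.Agent.H3.CohTI.rel_ind (K.subgroupOf N) hC' (hrel χ)
    have h1 : θ 1 = 1 := Cfsg.Agent.H3.CharMult.IsIrr.one_of_comm (fun a b => by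
      apply Subtype.ext
      apply Subtype.ext
      exact hab _ a.2 _ b.2) hθ
    rw [hχ, Cfsg.Agent.H3.CharInd.ind_one, h1, mul_one]
  by_cases hne : Nonempty {χ : Cfsg.IrrCharacter N // ∃ k : N, (k : G) ∈ K ∧ (χ : N → ℂ) k ≠ (χ : N → ℂ) 1}
  · obtain ⟨χ₀⟩ := hne
    have hcl : ∀ χ ξ : {χ : Cfsg.IrrCharacter N // ∃ k : N, (k : G) ∈ K ∧ (χ : N → ℂ) k ≠ (χ : N → ℂ) 1},
        Cfsg.IsClassFunction N ((χ.1 : N → ℂ) - (ξ.1 : N → ℂ)) := fun χ ξ =>
      Cfsg.Agent.H3.CharComplete.isClass_sub _ _ (Cfsg.Agent.H3.CharIrr.IsIrr.isClass χ.1.2)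
        (Cfsg.Agent.H3.CharIrr.IsIrr.isClass ξ.1.2)
    have hin : ∀ χ ξ χ' ξ' : {χ : Cfsg.IrrCharacter N // ∃ k : N, (k : G) ∈ K ∧ (χ : N → ℂ) k ≠ (χ : N → ℂ) 1},
        Cfsg.classInner (Cfsg.indFun N ((χ.1 : N → ℂ) - (ξ.1 : N → ℂ))) (Cfsg.indFun N ((χ'.1 : N → ℂ) - (ξ'.1 : N → ℂ))) =
          Cfsg.classInner ((χ.1 : N → ℂ) - (ξ.1 : N → ℂ)) ((χ'.1 : N → ℂ) - (ξ'.1 : N → ℂ)) := by
      intro χ ξ χ' ξ'
      have hoff : ∀ χ ξ : {χ : Cfsg.IrrCharacter N // ∃ k : N, (k : G) ∈ K ∧ (χ : N → ℂ) k ≠ (χ : N → ℂ) 1},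
          ∀ x : N, (x : G) ∉ (K : Set G) → ((χ.1 : N → ℂ) - (ξ.1 : N → ℂ)) x = 0 := by
        intro χ ξ x hx
        have hx' : x ∉ K.subgroupOf N := hx
        rw [Pi.sub_apply, Cfsg.Agent.H3.CohTI.rel_vanish _ hC' (hrel χ) hx',
          Cfsg.Agent.H3.CohTI.rel_vanish _ hC' (hrel ξ) hx', sub_self]
      exact Cfsg.Agent.H3.CharTI.ind_inner_of_TI' N (K : Set G) (fun g hg t ht hgt => hTI g hg t ht hgt) _ _
        (hcl χ' ξ') (hoff χ ξ) (hoff χ' ξ') (by rw [Pi.sub_apply, hdeg, hdeg, sub_self])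
    obtain ⟨ε, hε, μ, hμ, hinj, hτ⟩ := Cfsg.Agent.H3.Isom.isometry_lemma χ₀
      (fun χ => Cfsg.indFun N ((χ.1 : N → ℂ) - (χ₀.1 : N → ℂ)))
      (by
        beta_reduce
        rw [sub_self]
        exact Cfsg.Agent.H3.CharInd.ind_zero N)
      (fun χ => Cfsg.Agent.H3.CharInd.IsGen.ind (Cfsg.Agent.H3.CharComplete.IsGen.sub
        (Cfsg.Agent.H3.CharComplete.IsGen.of_irr χ.1.2) (Cfsg.Agent.H3.CharComplete.IsGen.of_irr χ₀.1.2)))
      (fun χ => by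
        rw [Cfsg.Agent.H3.CharInd.ind_one, Pi.sub_apply, hdeg, hdeg, sub_self, mul_zero])
      (fun χ hχ => by
        have hne : (χ.1 : N → ℂ) ≠ (χ₀.1 : N → ℂ) := fun h => hχ (Subtype.ext (Subtype.ext h))
        rw [hin, Cfsg.Agent.H3.Isom.ci_diff χ.1.2 χ₀.1.2 χ.1.2 χ₀.1.2]
        simp [hne, hne.symm]
        norm_num)
      (fun χ ξ hχ hξ hχξ => by
        have hne : (χ.1 : N → ℂ) ≠ (χ₀.1 : N → ℂ) := fun h => hχ (Subtype.ext (Subtype.ext h))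
        have hne' : (ξ.1 : N → ℂ) ≠ (χ₀.1 : N → ℂ) := fun h => hξ (Subtype.ext (Subtype.ext h))
        have hne'' : (χ.1 : N → ℂ) ≠ (ξ.1 : N → ℂ) := fun h => hχξ (Subtype.ext (Subtype.ext h))
        rw [hin, Cfsg.Agent.H3.Isom.ci_diff χ.1.2 χ₀.1.2 ξ.1.2 χ₀.1.2]
        simp [hne, hne'.symm, hne''])
    refine ⟨ε, fun χ => ⟨μ χ, hμ χ⟩, hε, fun χ ξ h => hinj (congrArg Subtype.val h), fun χ ξ => ?_⟩
    have h1 : (χ.1 : N → ℂ) - (ξ.1 : N → ℂ) = ((χ.1 : N → ℂ) - (χ₀.1 : N → ℂ)) - ((ξ.1 : N → ℂ) - (χ₀.1 : N → ℂ)) := by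
      funext x; simp only [Pi.sub_apply]; ring
    rw [h1, Cfsg.Agent.H3.CharInd.ind_sub]
    have h2 := hτ χ
    have h3 := hτ ξ
    beta_reduce at h2 h3
    rw [h2, h3]
    funext x; simp only [Pi.sub_apply, Pi.smul_apply, smul_eq_mul]; ring
  · rw [not_nonempty_iff] at hne
    exact ⟨1, fun χ => isEmptyElim χ, Or.inl rfl, fun χ => isEmptyElim χ, fun χ => isEmptyElim χ⟩

end Cfsg.Agent.S0851
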