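import Cfsg.Statements.S0856
import Cfsg.Agent.H3_Clifford2

set_option autoImplicit false
open Cfsg

namespace Cfsg.Agent.S0856

/-- Let N be a normal subgroup of the finite group G and φ, ϑ irreducible characters of N that are invariant under conjugation by G, such that the pointwise product φ * ϑ is irreducible and ϑ is the restriction of an irreducible character χ of G. Then multiplication by χ is a bijection from the set of irreducible characters of G having nonzero inner product with the function induced from φ onto the set of those having nonzero inner product with the function induced from φ * ϑ. -/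
theorem result {G : Type*} [Group G] [Fintype G] (N : Subgroup G) [hN : N.Normal] (φ ϑ : N → ℂ) (hφ : Cfsg.IsIrrCharacter N φ) (hϑ : Cfsg.IsIrrCharacter N ϑ) (hφinv : ∀ (g : G) (n : N), φ ⟨g * n * g⁻¹, hN.conj_mem (n : G) n.2 g⟩ = φ n) (hϑinv : ∀ (g : G) (n : N), ϑ ⟨g * n * g⁻¹, hN.conj_mem (n : G) n.2 g⟩ = ϑ n) (hprod : Cfsg.IsIrrCharacter N (φ * ϑ)) (χ : G → ℂ) (hχ : Cfsg.IsIrrCharacter G χ) (hext : ∀ n : N, χ n = ϑ n) : Set.BijOn (fun β : G → ℂ => β * χ) {β : G → ℂ | Cfsg.IsIrrCharacter G β ∧ Cfsg.classInner (Cfsg.indFun N φ) β ≠ 0} {ψ : G → ℂ | Cfsg.IsIrrCharacter G ψ ∧ Cfsg.classInner (Cfsg.indFun N (φ * ϑ)) ψ ≠ 0} := by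
  classical
  have hχc := Cfsg.Agent.H3.CharIrr.IsIrr.isCharacter hχ
  have hφc := Cfsg.Agent.H3.CharIrr.IsIrr.isCharacter hφ
  have : Fintype N := Fintype.ofFinite N
  have := Fintype.ofFinite (Cfsg.IrrCharacter G)
  have hN0 : (Nat.card N : ℂ) ≠ 0 := Cfsg.Agent.H3.CharInd.cardH_ne_zero N
  have hNG : (Nat.card N : ℂ) * N.index = Nat.card G := by exact_mod_cast N.card_mul_index
  have hϑχ : ϑ = fun n : N => χ n := funext fun n => (hext n).symm
  have hind : Cfsg.indFun N (φ * ϑ) = Cfsg.indFun N φ * χ := by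
    rw [hϑχ]
    exact Cfsg.Agent.H3.CharInd.ind_mul_res N φ χ (Cfsg.Agent.H3.CharIrr.IsIrr.isClass hχ)
  have hnorm : ∀ θ : N → ℂ, Cfsg.IsIrrCharacter N θ →
      (∀ (g : G) (n : N), θ ⟨g * n * g⁻¹, hN.conj_mem (n : G) n.2 g⟩ = θ n) →
      Cfsg.classInner (Cfsg.indFun N θ) (Cfsg.indFun N θ) = N.index := by
    intro θ hθ h
    have h1 := Cfsg.Agent.H3.Clifford.ci_ind_self hN hθ
    have h2 : Cfsg.Agent.H3.Clifford.inertia hN θ = ⊤ := by
      rw [eq_top_iff]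
      intro g _
      exact funext (h g)
    rw [h2, Nat.card_congr (Subgroup.topEquiv (G := G)).toEquiv, ← hNG] at h1
    exact mul_left_cancel₀ hN0 h1
  have hindc := Cfsg.Agent.H3.CharInd.IsChar.ind hφc
  obtain ⟨e, he, hesum⟩ := Cfsg.Agent.H3.CharMult.IsChar.eq_sum_nat hindc
  have hnn := Cfsg.Agent.H3.CharMult.IsChar.norm_eq_sum_sq he hindc
  have hn1 := hnorm φ hφ hφinv
  have hn2 := hnorm (φ * ϑ) hprod (fun g n => by
    simp only [Pi.mul_apply]; rw [hφinv g n, hϑinv g n])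
  have hbc : ∀ β : Cfsg.IrrCharacter G, Cfsg.IsCharacter G ((β : G → ℂ) * χ) := fun β =>
    Cfsg.Agent.H3.CharIrr.IsChar.mul (Cfsg.Agent.H3.CharIrr.IsIrr.isCharacter β.2) hχc
  choose M hM using fun β γ : Cfsg.IrrCharacter G =>
    Cfsg.Agent.H3.CharComplete.ci_char_nat (hbc β) (hbc γ)
  have hMpos : ∀ β, 1 ≤ M β β := by
    intro β
    rcases Nat.eq_zero_or_pos (M β β) with h | h
    · exfalso
      have h1 := hM β β
      rw [h] at h1
      have h2 := Cfsg.Agent.H3.CharIrr.ci_self_eq_zero (by rw [h1]; simp)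
      have h3 := congrFun h2 1
      rw [Pi.mul_apply, Pi.zero_apply, mul_eq_zero] at h3
      rcases h3 with h3 | h3
      · exact Cfsg.Agent.H3.CharIrr.IsIrr.one_ne_zero β.2 h3
      · exact Cfsg.Agent.H3.CharIrr.IsIrr.one_ne_zero hχ h3
    · exact h
  have hprodsum : Cfsg.indFun N φ * χ =
      ∑ β : Cfsg.IrrCharacter G, (e β : ℂ) • ((β : G → ℂ) * χ) := by
    rw [hesum, Finset.sum_mul]
    exact Finset.sum_congr rfl fun β _ => by rw [smul_mul_assoc]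
  have hdouble : ∑ β : Cfsg.IrrCharacter G, ∑ γ : Cfsg.IrrCharacter G, e β * e γ * M β γ =
      ∑ β : Cfsg.IrrCharacter G, e β ^ 2 := by
    have h1 : Cfsg.classInner (Cfsg.indFun N φ * χ) (Cfsg.indFun N φ * χ) =
        ((∑ β : Cfsg.IrrCharacter G, ∑ γ : Cfsg.IrrCharacter G, e β * e γ * M β γ : ℕ) : ℂ) := by
      rw [hprodsum, Cfsg.Agent.H3.CharIrr.ci_sum_left]
      push_cast
      refine Finset.sum_congr rfl fun β _ => ?_
      rw [Cfsg.Agent.H3.CharIrr.ci_smul_left, Cfsg.Agent.H3.CharIrr.ci_sum_right, Finset.mul_sum]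
      refine Finset.sum_congr rfl fun γ _ => ?_
      rw [Cfsg.Agent.H3.CharIrr.ci_smul_right, hM]
      simp only [map_natCast]; ring
    rw [hind, h1] at hn2
    rw [hnn] at hn1
    have := hn2.trans hn1.symm
    exact_mod_cast this
  -- termwise
  have hterm : ∀ β γ : Cfsg.IrrCharacter G, e β * e γ * M β γ = if β = γ then e β ^ 2 else 0 := by
    have hle : ∀ β γ : Cfsg.IrrCharacter G, (if β = γ then e β ^ 2 else 0) ≤ e β * e γ * M β γ := by
      intro β γ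
      split_ifs with h
      · subst h
        calc e β ^ 2 = e β * e β * 1 := by ring
          _ ≤ _ := Nat.mul_le_mul_left _ (hMpos β)
      · exact Nat.zero_le _
    have hsum2 : ∑ β : Cfsg.IrrCharacter G, ∑ γ : Cfsg.IrrCharacter G,
        (if β = γ then e β ^ 2 else 0) = ∑ β : Cfsg.IrrCharacter G, e β ^ 2 := by
      refine Finset.sum_congr rfl fun β _ => ?_
      rw [Finset.sum_ite_eq]; simp
    have h1 : ∀ β, ∑ γ : Cfsg.IrrCharacter G, (if β = γ then e β ^ 2 else 0) ≤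
        ∑ γ : Cfsg.IrrCharacter G, e β * e γ * M β γ := fun β =>
      Finset.sum_le_sum fun γ _ => hle β γ
    have h2 := (Finset.sum_eq_sum_iff_of_le (fun β _ => h1 β)).mp (hsum2.trans hdouble.symm)
    intro β γ
    have h3 := (Finset.sum_eq_sum_iff_of_le (fun γ _ => hle β γ)).mp (h2 β (Finset.mem_univ β))
    exact (h3 γ (Finset.mem_univ γ)).symm
  have hnat : ∀ β : Cfsg.IrrCharacter G, Cfsg.classInner (Cfsg.indFun N φ) (β : G → ℂ) ≠ 0 →
      e β ≠ 0 := fun β h h0 => h (by rw [he, h0]; simp)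
  have hMself : ∀ β : Cfsg.IrrCharacter G, e β ≠ 0 → M β β = 1 := by
    intro β hβ
    have h1 := hterm β β
    rw [if_pos rfl] at h1
    have h2 : e β * e β * M β β = e β * e β * 1 := by rw [h1]; ring
    exact Nat.eq_of_mul_eq_mul_left (Nat.mul_pos (Nat.pos_of_ne_zero hβ) (Nat.pos_of_ne_zero hβ)) h2
  have hMne : ∀ β γ : Cfsg.IrrCharacter G, e β ≠ 0 → e γ ≠ 0 → β ≠ γ → M β γ = 0 := by
    intro β γ hβ hγ hne
    have h1 := hterm β γ
    rw [if_neg hne] at h1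
    rcases Nat.mul_eq_zero.mp h1 with h2 | h2
    · rcases Nat.mul_eq_zero.mp h2 with h3 | h3
      · exact absurd h3 hβ
      · exact absurd h3 hγ
    · exact h2
  have hirr : ∀ β : Cfsg.IrrCharacter G, e β ≠ 0 → Cfsg.IsIrrCharacter G ((β : G → ℂ) * χ) := by
    intro β hβ
    apply Cfsg.Agent.H3.CharInd.IsChar.isIrr_of_norm (hbc β)
    rw [hM, hMself β hβ]; simp
  rw [hind]
  refine ⟨?_, ?_, ?_⟩
  · rintro β ⟨hβ, hβ0⟩
    have hb := hnat ⟨β, hβ⟩ hβ0
    refine ⟨hirr ⟨β, hβ⟩ hb, ?_⟩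
    change Cfsg.classInner (Cfsg.indFun N φ * χ) (β * χ) ≠ 0
    rw [hprodsum, Cfsg.Agent.H3.CharIrr.ci_sum_left]
    have h1 : ∀ γ : Cfsg.IrrCharacter G, Cfsg.classInner ((e γ : ℂ) • ((γ : G → ℂ) * χ)) (β * χ) =
        ((e γ * M γ ⟨β, hβ⟩ : ℕ) : ℂ) := by
      intro γ
      rw [Cfsg.Agent.H3.CharIrr.ci_smul_left]
      have := hM γ ⟨β, hβ⟩
      change Cfsg.classInner ((γ : G → ℂ) * χ) (β * χ) = _ at this
      rw [this]; push_cast; ring
    rw [Finset.sum_congr rfl fun γ _ => h1 γ, ← Nat.cast_sum]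
    have h2 : e ⟨β, hβ⟩ * M ⟨β, hβ⟩ ⟨β, hβ⟩ ≤
        ∑ γ : Cfsg.IrrCharacter G, e γ * M γ ⟨β, hβ⟩ :=
      Finset.single_le_sum (f := fun γ : Cfsg.IrrCharacter G => e γ * M γ ⟨β, hβ⟩)
        (fun _ _ => Nat.zero_le _) (Finset.mem_univ _)
    have h3 : 0 < e ⟨β, hβ⟩ * M ⟨β, hβ⟩ ⟨β, hβ⟩ :=
      Nat.mul_pos (Nat.pos_of_ne_zero hb) (hMpos _)
    exact_mod_cast (by omega :
      (∑ γ : Cfsg.IrrCharacter G, e γ * M γ ⟨β, hβ⟩) ≠ 0)
  · rintro β ⟨hβ, hβ0⟩ γ ⟨hγ, hγ0⟩ heq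
    by_contra hne
    have hb := hnat ⟨β, hβ⟩ hβ0
    have hg := hnat ⟨γ, hγ⟩ hγ0
    have h1 := hMne ⟨β, hβ⟩ ⟨γ, hγ⟩ hb hg (fun h => hne (congrArg Subtype.val h))
    have h2 := hM ⟨β, hβ⟩ ⟨γ, hγ⟩
    rw [h1] at h2
    have h3 : (β * χ) = γ * χ := heq
    change Cfsg.classInner (β * χ) (γ * χ) = _ at h2
    rw [← h3, Cfsg.Agent.H3.CharIrr.ci_irr_self (hirr ⟨β, hβ⟩ hb)] at h2
    simp at h2
  · rintro ψ ⟨hψ, hψ0⟩
    rw [hprodsum, Cfsg.Agent.H3.CharIrr.ci_sum_left] at hψ0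
    obtain ⟨β, _, hβ⟩ := Finset.exists_ne_zero_of_sum_ne_zero hψ0
    rw [Cfsg.Agent.H3.CharIrr.ci_smul_left] at hβ
    have hb : e β ≠ 0 := fun h => hβ (by rw [h]; simp)
    have h1 : (β : G → ℂ) * χ = ψ := by
      by_contra hne
      exact hβ (by rw [Cfsg.Agent.H3.CharIrr.ci_irr_ne (hirr β hb) hψ hne, mul_zero])
    exact ⟨β, ⟨β.2, by rw [he]; exact_mod_cast hb⟩, h1⟩

end Cfsg.Agent.S0856
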