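import Cfsg.Statements.S0857
import Mathlib
import Cfsg.Agent.H26_GoDown

set_option autoImplicit false
open Cfsg

namespace Cfsg.Agent.S0857

open Cfsg.Agent.H3.CharIrr Cfsg.Agent.H3.CharInd Cfsg.Agent.H3.CharMult Cfsg.Agent.H3.CharComplete Cfsg.Agent.H3.Clifford Cfsg.Agent.H10.Char Cfsg.Agent.H26.GoDown

open scoped ComplexConjugate


/-- Let L < K be normal subgroups of the finite group G with no normal subgroup of G strictly between them and with K / L abelian (the commutator subgroup of K lies in L). Let ϑ be an irreducible character of K invariant under conjugation by G. Then the restriction of ϑ to L is irreducible; or it equals e times an irreducible character of L with e ^ 2 equal to the index of L in K; or it is the sum of a family of pairwise distinct irreducible characters of L indexed by a set whose size is the index of L in K. -/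
theorem result {G : Type*} [Group G] [Fintype G] (K L : Subgroup G) [hK : K.Normal] [L.Normal] (hLK : L < K) (hchief : ∀ M : Subgroup G, M.Normal → L ≤ M → M ≤ K → M = L ∨ M = K) (hab : ⁅K, K⁆ ≤ L) (ϑ : K → ℂ) (hϑ : Cfsg.IsIrrCharacter K ϑ) (hinv : ∀ (g : G) (n : K), ϑ ⟨g * n * g⁻¹, hK.conj_mem (n : G) n.2 g⟩ = ϑ n) : Cfsg.IsIrrCharacter L (fun x : L => ϑ ⟨(x : G), hLK.le x.2⟩) ∨ (∃ (φ : L → ℂ) (e : ℕ), Cfsg.IsIrrCharacter L φ ∧ (fun x : L => ϑ ⟨(x : G), hLK.le x.2⟩) = (e : ℂ) • φ ∧ e ^ 2 = L.relIndex K) ∨ (∃ F : Finset (L → ℂ), (∀ φ ∈ F, Cfsg.IsIrrCharacter L φ) ∧ F.card = L.relIndex K ∧ (fun x : L => ϑ ⟨(x : G), hLK.le x.2⟩) = ∑ φ ∈ F, φ) := by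
  classical
  haveI hLn : (L.subgroupOf K).Normal := Subgroup.normal_subgroupOf
  haveI : Fintype K := Fintype.ofFinite _
  haveI : Fintype (L.subgroupOf K) := Fintype.ofFinite _
  haveI : Fintype L := Fintype.ofFinite _
  have hab' : ∀ a b : K, a * b * a⁻¹ * b⁻¹ ∈ L.subgroupOf K := fun a b => by
    rw [Subgroup.mem_subgroupOf]
    exact hab (Subgroup.commutator_mem_commutator a.2 b.2)
  obtain ⟨α, hα⟩ : ∃ α : G → K ≃* K, ∀ g k, (α g k : G) = g * k * g⁻¹ := ⟨fun g => cjEquiv hK g, fun g k => rfl⟩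
  have hαϑ : ∀ g k, ϑ (α g k) = ϑ k := by
    intro g k
    rw [← hinv g k]
    exact congrArg ϑ (Subtype.ext (hα g k))
  have hLnG : L.Normal := inferInstance
  have hαL : ∀ g, ∀ l ∈ L.subgroupOf K, α g l ∈ L.subgroupOf K := by
    intro g l hl
    rw [Subgroup.mem_subgroupOf] at hl ⊢
    rw [hα]; exact hLnG.conj_mem _ hl g
  obtain ⟨e, he⟩ : ∃ e : L ≃* L.subgroupOf K, ∀ l, (((e l : L.subgroupOf K) : K) : G) = l :=
    ⟨(Subgroup.subgroupOfEquivOfLe hLK.le).symm, fun l => rfl⟩
  have htr : (fun x : L => ϑ ⟨(x : G), hLK.le x.2⟩) = fun x : L => (fun y : L.subgroupOf K => ϑ y) (e x) := by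
    funext l
    exact congrArg ϑ (Subtype.ext (he l).symm)
  have hchar : ∀ W : Subgroup K, L.subgroupOf K ≤ W → (∀ g, ∀ w ∈ W, α g w ∈ W) → W = L.subgroupOf K ∨ W = ⊤ := by
    intro W hLW hW
    have hn : (W.map K.subtype).Normal := by
      constructor
      rintro _ ⟨w, hw, rfl⟩ g
      exact ⟨α g w, hW g w hw, hα g w⟩
    have h1 : L ≤ W.map K.subtype := by
      intro l hl
      exact ⟨⟨l, hLK.le hl⟩, hLW (Subgroup.mem_subgroupOf.2 hl), rfl⟩
    have h2 : W.map K.subtype ≤ K := Subgroup.map_subtype_le _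
    rcases hchief _ hn h1 h2 with h | h
    · left
      ext w
      rw [Subgroup.mem_subgroupOf, ← h]
      exact (Subgroup.mem_map_iff_mem K.subtype_injective).symm
    · right
      rw [eq_top_iff]
      intro w _
      have : (w : G) ∈ W.map K.subtype := by rw [h]; exact w.2
      exact (Subgroup.mem_map_iff_mem K.subtype_injective).1 this
  have hidx : (L.subgroupOf K).index = L.relIndex K := rfl
  -- stabilizer of ϑ under multiplication by linear characters
  obtain ⟨U, hU⟩ : ∃ U : Subgroup K, ∀ x, x ∈ U ↔ ∀ f : K →* ℂˣ, (∀ l ∈ L.subgroupOf K, f l = 1) →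
      (∀ y, (f y : ℂ) * ϑ y = ϑ y) → f x = 1 := by
    refine ⟨{ carrier := {x | ∀ f : K →* ℂˣ, (∀ l ∈ L.subgroupOf K, f l = 1) →
      (∀ y, (f y : ℂ) * ϑ y = ϑ y) → f x = 1}
              one_mem' := fun f _ _ => map_one f
              mul_mem' := fun {a b} ha hb f h1 h2 => by rw [map_mul, ha f h1 h2, hb f h1 h2, one_mul]
              inv_mem' := fun {a} ha f h1 h2 => by rw [map_inv, ha f h1 h2, inv_one] }, fun x => Iff.rfl⟩
  have hLU : L.subgroupOf K ≤ U := fun l hl => (hU l).2 fun f h1 _ => h1 l hl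
  have hUα : ∀ g, ∀ w ∈ U, α g w ∈ U := by
    intro g w hw
    rw [hU] at hw ⊢
    intro f h1 h2
    have := hw (f.comp (α g).toMonoidHom) (fun l hl => h1 _ (hαL g l hl)) (fun y => by
      have := h2 (α g y)
      rw [hαϑ] at this
      exact this)
    exact this
  rcases hchar U hLU hUα with hUL | hUt
  swap
  · left
    rw [htr]
    refine (isIrr_comp_iff (χ := fun y : L.subgroupOf K => ϑ y) e).2 ?_
    apply irr_of_stab (L.subgroupOf K) hϑ hab'
    intro f h1 h2
    ext x
    have : x ∈ U := by rw [hUt]; exact Subgroup.mem_top x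
    rw [(hU x).1 this f h1 h2]; rfl
  right
  -- ϑ vanishes off L
  have hvan : ∀ x : K, x ∉ L.subgroupOf K → ϑ x = 0 := by
    intro x hx
    rw [← hUL, hU] at hx
    push Not at hx
    obtain ⟨f, h1, h2, h3⟩ := hx
    by_contra hne
    apply h3
    apply Units.ext
    have := h2 x
    rw [Units.val_one]
    exact mul_right_cancel₀ hne (by rw [this, one_mul])
  have hnorm : classInner (fun y : L.subgroupOf K => ϑ y) (fun y : L.subgroupOf K => ϑ y) = ((L.relIndex K : ℕ) : ℂ) := by
    have h1 := ci_irr_self hϑ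
    rw [classInner] at h1 ⊢
    have h2 : ∑ g : K, ϑ g * conj (ϑ g) = ∑ y : L.subgroupOf K, ϑ y * conj (ϑ y) := by
      rw [← Finset.sum_filter_add_sum_filter_not Finset.univ (fun x : K => x ∈ L.subgroupOf K)]
      rw [Finset.sum_eq_zero (s := Finset.univ.filter (fun x : K => ¬ x ∈ L.subgroupOf K)), add_zero]
      · exact Finset.sum_subtype _ (fun x => by simp) _
      · intro x hx
        rw [hvan x (Finset.mem_filter.1 hx).2, zero_mul]
    rw [h2] at h1
    have h3 : (Nat.card K : ℂ) = (L.relIndex K : ℕ) * Nat.card (L.subgroupOf K) := by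
      rw [← hidx]; exact_mod_cast ((L.subgroupOf K).index_mul_card).symm
    have h4 : (Nat.card (L.subgroupOf K) : ℂ) ≠ 0 := by exact_mod_cast Nat.card_pos.ne'
    have h5 : (Nat.card K : ℂ) ≠ 0 := by exact_mod_cast Nat.card_pos.ne'
    have h6 : ∑ y : L.subgroupOf K, ϑ y * conj (ϑ y) = Nat.card K := by
      field_simp at h1
      rw [h1]
    rw [h6, h3]
    field_simp
  -- constituent
  haveI : Fintype (IrrCharacter (L.subgroupOf K)) := Fintype.ofFinite _
  obtain ⟨φ, hφ, hc⟩ := exists_constituent_res (H := L.subgroupOf K) hϑ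
  obtain ⟨n, hn, -⟩ := IsChar.eq_sum_nat (IsChar.res (IsIrr.isCharacter hϑ) (L.subgroupOf K))
  have hne := hn ⟨φ, hφ⟩
  have hcl := clifford hLn hϑ hφ hc
  rw [show classInner (fun n : L.subgroupOf K => ϑ n) φ = (n ⟨φ, hφ⟩ : ℂ) from hne] at hcl hc
  -- the inertia group
  have hLT : L.subgroupOf K ≤ inertia hLn φ := le_inertia hLn (IsIrr.isClass hφ)
  have hTn : ∀ t ∈ inertia hLn φ, ∀ k : K, k * t * k⁻¹ ∈ inertia hLn φ := by
    intro t ht k
    have : k * t * k⁻¹ = (k * t * k⁻¹ * t⁻¹) * t := by group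
    rw [this]
    exact Subgroup.mul_mem _ (hLT (hab' k t)) ht
  have hTα : ∀ g, ∀ w ∈ inertia hLn φ, α g w ∈ inertia hLn φ := by
    intro g t ht
    -- φ ∘ α is a constituent
    let αL : L.subgroupOf K ≃* L.subgroupOf K :=
      { toFun := fun l => ⟨α g l, hαL g l l.2⟩
        invFun := fun l => ⟨(α g).symm l, by
          have h1 := hαL g⁻¹ l l.2
          have h2 : α g⁻¹ l = (α g).symm l := by
            rw [MulEquiv.eq_symm_apply]
            apply Subtype.ext
            rw [hα, hα]; group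
          rwa [h2] at h1⟩
        left_inv := fun l => Subtype.ext (by simp)
        right_inv := fun l => Subtype.ext (by simp)
        map_mul' := fun a b => Subtype.ext (by simp) }
    have hψ : IsIrrCharacter (L.subgroupOf K) (fun l => φ (αL l)) := (isIrr_comp_iff αL).2 hφ
    have hψc : classInner (fun y : L.subgroupOf K => ϑ y) (fun l => φ (αL l)) ≠ 0 := by
      have h1 : classInner (fun y : L.subgroupOf K => ϑ y) (fun l => φ (αL l)) = classInner (fun y : L.subgroupOf K => ϑ y) φ := by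
        rw [classInner, classInner, ← Equiv.sum_comp αL.toEquiv (fun y : L.subgroupOf K => ϑ y * conj (φ y))]
        congr 1
        refine Finset.sum_congr rfl fun l _ => ?_
        show ϑ l * _ = ϑ (α g l) * _
        rw [hαϑ]; rfl
      rw [h1, show classInner (fun n : L.subgroupOf K => ϑ n) φ = (n ⟨φ, hφ⟩ : ℂ) from hne]
      exact hc
    obtain ⟨k, hk⟩ := eq_cj_of_constituents hLn hϑ hφ hψ (by
      rw [show classInner (fun n : L.subgroupOf K => ϑ n) φ = (n ⟨φ, hφ⟩ : ℂ) from hne]; exact hc) hψc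
    have hk' : ∀ l : L.subgroupOf K, φ (αL l) = φ ⟨k * l * k⁻¹, hLn.conj_mem _ l.2 k⟩ := fun l => congrFun hk l
    rw [mem_inertia]
    funext l
    obtain ⟨m, rfl⟩ := αL.surjective l
    rw [cj_apply]
    have h1 : (⟨α g t * (αL m : K) * (α g t)⁻¹, hLn.conj_mem _ (αL m).2 _⟩ : L.subgroupOf K) =
        αL ⟨t * m * t⁻¹, hLn.conj_mem _ m.2 t⟩ := by
      apply Subtype.ext
      show α g t * α g m * (α g t)⁻¹ = α g (t * m * t⁻¹)
      rw [map_mul, map_mul, map_inv]
    rw [h1, hk', hk']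
    have h2 := hTn t ht k
    rw [mem_inertia] at h2
    have h3 := congrFun h2 ⟨k * m * k⁻¹, hLn.conj_mem _ m.2 k⟩
    rw [cj_apply] at h3
    rw [← h3]
    refine congrArg φ (Subtype.ext ?_)
    show k * (t * m * t⁻¹) * k⁻¹ = k * t * k⁻¹ * (k * m * k⁻¹) * (k * t * k⁻¹)⁻¹
    group
  have hn0 : n ⟨φ, hφ⟩ ≠ 0 := by
    intro h0; rw [h0, Nat.cast_zero] at hc; exact hc rfl
  rcases hchar _ hLT hTα with hT | hT
  · -- free orbit
    right
    have hcard : (orb hLn φ).card = L.relIndex K := by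
      rw [card_orb_eq_index, hT]; rfl
    have hirr : ∀ ψ ∈ orb hLn φ, IsIrrCharacter (L.subgroupOf K) ψ := by
      intro ψ hψ
      obtain ⟨g, rfl⟩ := (mem_orb hLn φ ψ).1 hψ
      exact (cj_isIrr hLn g).2 hφ
    have hsq : (n ⟨φ, hφ⟩ : ℂ) ^ 2 * (L.relIndex K : ℕ) = (L.relIndex K : ℕ) := by
      refine Eq.trans ?_ hnorm
      conv_rhs => rw [hcl]
      rw [ci_smul_left, ci_smul_right, Complex.conj_natCast, ci_sum_left]
      have h1 : ∀ ψ ∈ orb hLn φ, classInner ψ (∑ ψ ∈ orb hLn φ, ψ) = 1 := by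
        intro ψ hψ
        rw [ci_sum_right, Finset.sum_eq_single ψ]
        · exact ci_irr_self (hirr ψ hψ)
        · intro χ hχ hne
          exact ci_irr_ne (hirr ψ hψ) (hirr χ hχ) (Ne.symm hne)
        · intro h; exact absurd hψ h
      rw [Finset.sum_congr rfl h1, Finset.sum_const, hcard, nsmul_eq_mul, mul_one]
      ring
    have hrel0 : ((L.relIndex K : ℕ) : ℂ) ≠ 0 := by
      rw [← hidx]; exact_mod_cast Subgroup.index_ne_zero_of_finite
    have h1 : (n ⟨φ, hφ⟩ : ℂ) ^ 2 = 1 := mul_right_cancel₀ hrel0 (by rw [hsq, one_mul])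
    have h2 : n ⟨φ, hφ⟩ = 1 := by
      have : (n ⟨φ, hφ⟩) ^ 2 = 1 := by exact_mod_cast h1
      exact (Nat.pow_eq_one.1 this).resolve_right two_ne_zero
    rw [h2, Nat.cast_one, one_smul] at hcl
    refine ⟨(orb hLn φ).image (fun ψ => fun l : L => ψ (e l)), ?_, ?_, ?_⟩
    · intro ψ hψ
      obtain ⟨ψ', hψ', rfl⟩ := Finset.mem_image.1 hψ
      exact (isIrr_comp_iff e).2 (hirr ψ' hψ')
    · rw [Finset.card_image_of_injective, hcard]
      intro a b hab
      funext y
      obtain ⟨l, rfl⟩ := e.surjective y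
      exact congrFun hab l
    · rw [htr, hcl, Finset.sum_image]
      · funext l
        simp only [Finset.sum_apply]
      · intro a _ b _ hab
        funext y
        obtain ⟨l, rfl⟩ := e.surjective y
        exact congrFun hab l
  · -- invariant
    left
    have hinvφ : ∀ g : K, cj hLn g φ = φ := fun g => by
      rw [← mem_inertia, hT]; exact Subgroup.mem_top g
    have hcl' := clifford_invariant hLn hϑ hφ (by
      rw [show classInner (fun n : L.subgroupOf K => ϑ n) φ = (n ⟨φ, hφ⟩ : ℂ) from hne]; exact hc) hinvφ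
    rw [show classInner (fun n : L.subgroupOf K => ϑ n) φ = (n ⟨φ, hφ⟩ : ℂ) from hne] at hcl'
    refine ⟨fun l => φ (e l), n ⟨φ, hφ⟩, (isIrr_comp_iff e).2 hφ, ?_, ?_⟩
    · rw [htr, hcl']; rfl
    · have h1 : (n ⟨φ, hφ⟩ : ℂ) ^ 2 = ((L.relIndex K : ℕ) : ℂ) := by
        rw [← hnorm]
        conv_rhs => rw [hcl']
        rw [ci_smul_left, ci_smul_right, Complex.conj_natCast, ci_irr_self hφ, mul_one, sq]
      exact_mod_cast h1

end Cfsg.Agent.S0857
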