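import Cfsg.Statements.S0859
import Cfsg.Agent.H3_RelM2

set_option autoImplicit false
open Cfsg

namespace Cfsg.Agent.S0859

/-- Let G be a finite solvable group and N a normal subgroup such that for every prime p every Sylow p-subgroup of N is abelian. Suppose every irreducible character of G is induced from an irreducible character of some subgroup containing N whose restriction to N is irreducible. Then every irreducible character of G is induced from a character of degree 1 of some subgroup. -/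
theorem result {G : Type*} [Group G] [Fintype G] [Group.IsSolvable G] (N : Subgroup G) [N.Normal] (hab : ∀ (p : ℕ) [Fact p.Prime] (P : Sylow p N), ∀ a ∈ P, ∀ b ∈ P, a * b = b * a) (hrel : ∀ χ : G → ℂ, Cfsg.IsIrrCharacter G χ → ∃ (H : Subgroup G) (hNH : N ≤ H) (ψ : H → ℂ), Cfsg.IsIrrCharacter H ψ ∧ Cfsg.indFun H ψ = χ ∧ Cfsg.IsIrrCharacter N (fun n : N => ψ ⟨(n : G), hNH n.2⟩)) (χ : G → ℂ) (hχ : Cfsg.IsIrrCharacter G χ) : ∃ (U : Subgroup G) (lam : U → ℂ), Cfsg.IsCharacter U lam ∧ lam 1 = 1 ∧ Cfsg.indFun U lam = χ := by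
  classical
  obtain ⟨H, hNH, ψ, hψ, hind, hψN⟩ := hrel χ hχ
  have hfH : Fintype H := Fintype.ofFinite _
  have hN : N.Normal := inferInstance
  have habs : Cfsg.Agent.H3.RelM.AbSyl N := by
    intro p hp Q hQ hQp a ha b hb
    have := Fact.mk hp
    have h1 : IsPGroup p (Q.subgroupOf N) := hQp.comap_of_injective N.subtype N.subtype_injective
    obtain ⟨P, hP⟩ := h1.exists_le_sylow
    have h2 := hab p P ⟨a, hQ ha⟩ (hP (Subgroup.mem_subgroupOf.mpr ha)) ⟨b, hQ hb⟩ (hP (Subgroup.mem_subgroupOf.mpr hb))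
    exact congrArg Subtype.val h2
  have h1 := Cfsg.Agent.H3.RelM.mon_of_abSyl (Nat.card H) H le_rfl inferInstance (N.subgroupOf H)
    (hN.subgroupOf H) (habs.subgroupOf H) ψ hψ ((Cfsg.Agent.H3.CharInd.isIrr_comp_iff (Subgroup.subgroupOfEquivOfLe hNH)).mpr hψN)
  have h2 := Cfsg.Agent.H3.Monomial.IsMon.ind h1
  rw [hind] at h2
  obtain ⟨U, lam, hU⟩ := h2
  exact ⟨U, fun h => (lam h : ℂ), Cfsg.Agent.H3.CharIrr.IsIrr.isCharacter (Cfsg.Agent.H3.CharInd.isIrr_of_hom_units lam), by simp, hU.symm⟩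

end Cfsg.Agent.S0859
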