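import Cfsg.Statements.S0861
import Cfsg.Agent.H3_GalProd
import Cfsg.Agent.H10_BlockHZ
import Cfsg.Agent.H10_BlockKn
import Cfsg.Agent.S0169
import Cfsg.Agent.H3_CharQuot
import Cfsg.Agent.H3_Extraspecial

set_option autoImplicit false
open Cfsg

namespace Cfsg.Agent.S0861

open Cfsg Cfsg.Agent.H3.CharIrr Cfsg.Agent.H3.CharComplete Cfsg.Agent.H3.CharGal Cfsg.Agent.H3.GalProd in
theorem aux {G : Type*} [Group G] [Fintype G] (g : G)
    (h0 : ∀ χ : IrrCharacter G, (χ : G → ℂ) g ≠ 0) :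
    Nat.card (IrrCharacter G) ≤ Nat.card (Subgroup.centralizer ({g} : Set G)) ∧
    (Nat.card (IrrCharacter G) = Nat.card (Subgroup.centralizer ({g} : Set G)) →
      ∀ χ : IrrCharacter G, ‖(χ : G → ℂ) g‖ = 1) := by
  classical
  have : NeZero (Nat.card G) := ⟨Nat.card_pos.ne'⟩
  have := Fintype.ofFinite (IrrCharacter G)
  have hpow : ∀ g : G, g ^ Nat.card G = 1 := fun g => pow_card_eq_one'
  let f : IrrCharacter G → Cyc (Nat.card G) := fun χ =>
    ⟨(χ : G → ℂ) g, IsChar.mem_cyc (IsIrr.isCharacter χ.2) g (hpow g)⟩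
  obtain ⟨h1, h2⟩ := card_le_sum_sq f (fun i => IsChar.isIntegral (IsIrr.isCharacter i.2) g)
    (fun i h => h0 i (congrArg Subtype.val h)) (fun σ => by
      obtain ⟨m, hm, hσ⟩ := gal_actsAs _ σ
      have hm' : (Nat.card G).Coprime m := hm.symm
      refine ⟨Equiv.ofBijective _ (isIrr_pow_iff hm'), fun i => ?_⟩
      apply Subtype.ext
      exact IsChar.gal (IsIrr.isCharacter i.2) g (hpow _) hσ (f i) rfl)
  have h3 := orth2 g g
  rw [if_pos (IsConj.refl g)] at h3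
  have h6 : (∑ χ : IrrCharacter G, (χ : G → ℂ) g * (starRingEnd ℂ) ((χ : G → ℂ) g)) =
      ((∑ χ : IrrCharacter G, ‖(χ : G → ℂ) g‖ ^ 2 : ℝ) : ℂ) := by
    push_cast
    refine Finset.sum_congr rfl fun g _ => ?_
    rw [Complex.mul_conj, Complex.normSq_eq_norm_sq]; push_cast; rfl
  rw [h6] at h3
  have h7 : (∑ χ : IrrCharacter G, ‖(χ : G → ℂ) g‖ ^ 2 : ℝ) =
      Nat.card (Subgroup.centralizer ({g} : Set G)) := by exact_mod_cast h3
  have h8 : ∑ i : IrrCharacter G, ‖(f i : ℂ)‖ ^ 2 = ∑ i : IrrCharacter G, ‖(i : G → ℂ) g‖ ^ 2 := rfl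
  rw [h8, h7, ← Nat.card_eq_fintype_card] at h1 h2
  exact ⟨by exact_mod_cast h1, fun h => h2 (by exact_mod_cast h)⟩

/-- Let P be a normal abelian Sylow p-subgroup of the finite group G and suppose some element g of P has centralizer exactly P. Then the number of irreducible characters of G is at most the order of P, and if equality holds then G / P is abelian (the commutator subgroup lies in P). -/
theorem result {G : Type*} [Group G] [Finite G] (p : ℕ) [Fact p.Prime] (P : Sylow p G) [(P : Subgroup G).Normal] (hab : ∀ a ∈ P, ∀ b ∈ P, a * b = b * a) (g : G) (hg : g ∈ P) (hC : Subgroup.centralizer ({g} : Set G) = P) : Nat.card (Cfsg.IrrCharacter G) ≤ Nat.card P ∧ (Nat.card (Cfsg.IrrCharacter G) = Nat.card P → commutator G ≤ P) := by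
  classical
  have := Fintype.ofFinite G
  have hp : p.Prime := Fact.out
  obtain ⟨M, hM⟩ := Cfsg.Agent.H10.BlockKn.exists_modular hp
  have := hM.2.1
  have h0 : ∀ χ : Cfsg.IrrCharacter G, (χ : G → ℂ) g ≠ 0 := by
    intro χ h
    have hk : ∃ k : ℕ, orderOf g = p ^ k := by
      obtain ⟨k, hk⟩ := (IsPGroup.iff_orderOf).mp P.isPGroup' ⟨g, hg⟩
      exact ⟨k, by rw [← hk, Subgroup.orderOf_mk]⟩
    have h1 := Cfsg.Agent.H10.BlockHZ.char_sub_mem hM
      (Cfsg.Agent.H3.CharIrr.IsIrr.isCharacter χ.2) (Commute.one_right g) hk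
      (by rw [orderOf_one]; exact hp.one_lt.ne' ∘ Nat.dvd_one.mp)
    rw [mul_one, h, zero_sub] at h1
    have h2 := Cfsg.Agent.H10.BlockLoc.ideal_neg h1
    rw [neg_neg] at h2
    obtain ⟨n, ρ, hρ, hρχ⟩ := χ.2
    have h3 : (χ : G → ℂ) 1 = ((Module.finrank ℂ (Fin n → ℂ) : ℕ) : ℂ) := by
      rw [← hρχ, Representation.char_one]
    rw [h3, Cfsg.Agent.H10.BlockLoc.ideal_natCast_iff hM] at h2
    have h4 := Cfsg.Agent.S0169.result ρ (P : Subgroup G) hab
    exact P.not_dvd_index (h2.trans h4)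
  obtain ⟨h1, h2⟩ := aux g h0
  have hcard : Nat.card (Subgroup.centralizer ({g} : Set G)) = Nat.card P := by rw [hC]
  rw [hcard] at h1 h2
  refine ⟨h1, fun heq => ?_⟩
  have hall := h2 heq
  intro x hx
  by_contra hxP
  have hy : (x : G ⧸ (P : Subgroup G)) ≠ 1 := fun h => hxP ((QuotientGroup.eq_one_iff x).mp h)
  have := Fintype.ofFinite (G ⧸ (P : Subgroup G))
  have := Fintype.ofFinite (Cfsg.IrrCharacter (G ⧸ (P : Subgroup G)))
  have h3 := Cfsg.Agent.H3.CharComplete.sum_one_mul (x : G ⧸ (P : Subgroup G))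
  rw [if_neg hy] at h3
  have h4 := Cfsg.Agent.H3.CharComplete.sum_sq (G := G ⧸ (P : Subgroup G))
  have h5 : ∀ χ : Cfsg.IrrCharacter (G ⧸ (P : Subgroup G)),
      (χ : G ⧸ (P : Subgroup G) → ℂ) (x : G ⧸ (P : Subgroup G)) =
      (χ : G ⧸ (P : Subgroup G) → ℂ) 1 := by
    intro χ
    have h6 := Cfsg.Agent.H3.CharQuot.IsIrr.inflate χ.2
    have h7 := hall ⟨_, h6⟩
    have h8 : (g : G ⧸ (P : Subgroup G)) = 1 := (QuotientGroup.eq_one_iff g).mpr hg
    obtain ⟨d, hd, hd'⟩ := Cfsg.Agent.H3.CharIrr.IsIrr.one_eq_nat χ.2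
    have h9 : (χ : G ⧸ (P : Subgroup G) → ℂ) 1 = 1 := by
      simp only [h8, hd', Complex.norm_natCast] at h7
      rw [hd']; exact_mod_cast h7
    have h10 := Cfsg.Agent.H3.Extraspecial.commutator_of_one
      (Cfsg.Agent.H3.CharIrr.IsIrr.isCharacter h6) (by simpa using h9) x hx
    simpa using h10
  rw [Finset.sum_congr rfl fun χ _ => by rw [h5 χ, ← sq], h4] at h3
  exact (Nat.cast_ne_zero.mpr (Nat.card_pos (α := G ⧸ (P : Subgroup G))).ne') h3

end Cfsg.Agent.S0861
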