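import Cfsg.Statements.S0863
import Mathlib
import Cfsg.Agent.H26_Ext3

set_option autoImplicit false
open Cfsg

namespace Cfsg.Agent.S0863

open Cfsg.Agent.H26.Ext1 Cfsg.Agent.H26.Ext2 Cfsg.Agent.H26.Ext3 Cfsg.Agent.H3.CharIrr Cfsg.Agent.H3.CharInd

/-- Let N be a normal subgroup of the finite group G with G / N solvable, and ϑ an irreducible character of N, invariant under conjugation by G, of degree d coprime to the index of N. Then ϑ is the restriction of an irreducible character of G if and only if the determinantal character of ϑ is the restriction of a character of G of degree 1. -/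
theorem result {G : Type*} [Group G] [Finite G] (N : Subgroup G) [hN : N.Normal] (hsolv : Group.IsSolvable (G ⧸ N)) (ϑ : N → ℂ) (hϑ : Cfsg.IsIrrCharacter N ϑ) (hinv : ∀ (g : G) (n : N), ϑ ⟨g * n * g⁻¹, hN.conj_mem (n : G) n.2 g⟩ = ϑ n) (d : ℕ) (hd : ϑ 1 = d) (hcop : Nat.Coprime N.index d) : (∃ χ : G → ℂ, Cfsg.IsIrrCharacter G χ ∧ (∀ n : N, χ n = ϑ n)) ↔ ∃ μ : G → ℂ, Cfsg.IsCharacter G μ ∧ μ 1 = 1 ∧ ∀ n : N, μ n = Cfsg.detChar ϑ n := by
  constructor
  · rintro ⟨χ, hχ, hext⟩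
    obtain ⟨f, hf⟩ := exists_detHom (IsIrr.isCharacter hχ)
    refine ⟨fun g => (f g : ℂ), IsIrr.isCharacter (isIrr_of_hom_units f), by simp, fun n => ?_⟩
    have h1 : (fun n : N => χ (N.subtype n)) = ϑ := funext hext
    rw [← h1, detChar_comp (IsIrr.isCharacter hχ), hf]
    rfl
  · rintro ⟨μ, hμ, hμ1, hμN⟩
    obtain ⟨f, hf⟩ := IsChar.hom_units_of_one hμ hμ1
    obtain ⟨Γ, _, _, π, j, ϑ', h⟩ := exists_liftD N ϑ hϑ hinv
    apply ext_of_lh h
    exact one_mem_of_coprime (index_mem h) (det_mem h hd f (fun n => by rw [← hf, hμN])) hcop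

end Cfsg.Agent.S0863
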