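import Cfsg.Statements.S0864
import Mathlib
import Cfsg.Agent.H26_Ext3

set_option autoImplicit false
open Cfsg

namespace Cfsg.Agent.S0864

open Cfsg.Agent.H26.Ext1 Cfsg.Agent.H26.Ext2 Cfsg.Agent.H26.Ext3 Cfsg.Agent.H3.CharIrr Cfsg.Agent.H3.CharInd

/-- Let N be a normal subgroup of the finite group G and λ a character of N of degree 1 invariant under conjugation by G. Suppose that for every prime p dividing the order of λ (in the group of functions under pointwise multiplication) there is a subgroup H containing N, of index prime to p and with the index of N in H a power of p, together with a character of H of degree 1 restricting to λ. Then λ is the restriction of a character of G of degree 1. -/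
theorem result {G : Type*} [Group G] [Finite G] (N : Subgroup G) [hN : N.Normal] (lam : N → ℂ) (hlam : Cfsg.IsCharacter N lam ∧ lam 1 = 1) (hinv : ∀ (g : G) (n : N), lam ⟨g * n * g⁻¹, hN.conj_mem (n : G) n.2 g⟩ = lam n) (hsyl : ∀ p : ℕ, p.Prime → p ∣ orderOf lam → ∃ (H : Subgroup G) (hNH : N ≤ H) (ν : H → ℂ), Nat.Coprime H.index p ∧ (∃ k : ℕ, N.relIndex H = p ^ k) ∧ Cfsg.IsCharacter H ν ∧ ν 1 = 1 ∧ ∀ n : N, ν ⟨(n : G), hNH n.2⟩ = lam n) : ∃ μ : G → ℂ, Cfsg.IsCharacter G μ ∧ μ 1 = 1 ∧ ∀ n : N, μ n = lam n := by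
  obtain ⟨f, hf⟩ := IsChar.hom_units_of_one hlam.1 hlam.2
  have hfinv : ∀ (g : G) (n : N), f ⟨g * n * g⁻¹, hN.conj_mem (n : G) n.2 g⟩ = f n := fun g n => by
    apply Units.ext; rw [← hf, ← hf, hinv]
  have hr : ∀ n, f n ^ orderOf lam = 1 := by
    intro n
    apply Units.ext
    rw [Units.val_pow_eq_pow_val, ← hf, ← Pi.pow_apply, pow_orderOf_eq_one]; rfl
  have h1 : (1 : ℤ) ∈ ExtExp N f := by
    apply one_mem_of
    intro p hp
    by_cases hd : p ∣ orderOf lam
    · obtain ⟨H, hNH, ν, hcop, -, hν, hν1, hext⟩ := hsyl p hp hd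
      obtain ⟨k, hk⟩ := IsChar.hom_units_of_one hν hν1
      have h2 := ext_of_subgroup N f hfinv H hNH k 1 (fun n => by
        rw [zpow_one]; apply Units.ext; rw [← hk, hext, hf])
      rw [one_mul] at h2
      refine ⟨H.index, h2, fun hd => ?_⟩
      have h1 : p ∣ H.index := Int.natCast_dvd_natCast.1 hd
      exact hp.one_lt.ne' (Nat.dvd_one.1 (by rw [← hcop.gcd_eq_one]; exact Nat.dvd_gcd h1 dvd_rfl))
    · exact ⟨orderOf lam, ext_orderOf hr, fun h => hd (Int.natCast_dvd_natCast.1 h)⟩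
  obtain ⟨μ, hμ⟩ := h1
  refine ⟨fun g => (μ g : ℂ), IsIrr.isCharacter (isIrr_of_hom_units μ), by simp, fun n => ?_⟩
  show (μ n : ℂ) = _
  rw [hμ n, zpow_one, hf]

end Cfsg.Agent.S0864
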