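import Cfsg.Statements.S0868
import Cfsg.Agent.H3_Clifford2

set_option autoImplicit false
open scoped ComplexConjugate
open Cfsg

namespace Cfsg.Agent.S0868

/-- Let N be a normal subgroup of the finite group G, χ an irreducible character of G whose restriction ϑ to N is irreducible, and ψ an irreducible character of G. Define η on G by η g = (1 / order of N) * Σ over n in N of ψ (n * g) * conj (χ (n * g)). Then: if the restriction of ψ to N has nonzero inner product with ϑ, η is an irreducible character of G; if that inner product is zero, η vanishes identically; and if ψ = χ then η is identically 1. -/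
theorem result {G : Type*} [Group G] [Fintype G] (N : Subgroup G) [N.Normal] [Fintype N] (χ : G → ℂ) (hχ : Cfsg.IsIrrCharacter G χ) (hχN : Cfsg.IsIrrCharacter N (fun n : N => χ n)) (ψ : G → ℂ) (hψ : Cfsg.IsIrrCharacter G ψ) (η : G → ℂ) (hη : η = fun g => (Nat.card N : ℂ)⁻¹ * ∑ n : N, ψ ((n : G) * g) * conj (χ ((n : G) * g))) : (Cfsg.classInner (fun n : N => ψ n) (fun n : N => χ n) ≠ 0 → Cfsg.IsIrrCharacter G η) ∧ (Cfsg.classInner (fun n : N => ψ n) (fun n : N => χ n) = 0 → η = 0) ∧ (ψ = χ → η = fun _ => 1) := by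
  classical
  have hN : N.Normal := inferInstance
  have hη' : η = Cfsg.Agent.H3.Clifford.avg N (ψ * fun g => (starRingEnd ℂ) (χ g)) := by
    rw [hη]; rfl
  have hχc := Cfsg.Agent.H3.CharIrr.IsIrr.isCharacter hχ
  have hψc := Cfsg.Agent.H3.CharIrr.IsIrr.isCharacter hψ
  have hηc : Cfsg.IsCharacter G η := by
    rw [hη']
    exact Cfsg.Agent.H3.Clifford.avg_isChar hN (Cfsg.Agent.H3.CharIrr.IsChar.mul hψc
      (Cfsg.Agent.H3.CharIrr.IsChar.conj hχc))
  have hη1 : η 1 = Cfsg.classInner (fun n : N => ψ n) (fun n : N => χ n) := by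
    rw [hη]; simp [Cfsg.classInner]
  refine ⟨fun hne => ?_, fun h0 => ?_, fun heq => ?_⟩
  · have hη0 : η ≠ 0 := fun h => hne (by rw [← hη1, h]; rfl)
    obtain ⟨β, hβ, hβ0⟩ := Cfsg.Agent.H3.CharInd.exists_constituent hηc hη0
    rw [hη', Cfsg.Agent.H3.Clifford.ci_avg_left] at hβ0
    rcases Cfsg.Agent.H3.Clifford.avg_irr hN hβ with hk | hk
    · rw [hk.avg_eq] at hβ0
      have hirr := Cfsg.Agent.H3.Clifford.gallagher_irr hN hχ hχN hβ hk
      have h1 : Cfsg.classInner (ψ * fun g => (starRingEnd ℂ) (χ g)) β =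
          Cfsg.classInner ψ (β * χ) := by
        simp only [Cfsg.classInner, Pi.mul_apply, map_mul]
        congr 1
        exact Finset.sum_congr rfl fun g _ => by ring
      rw [h1] at hβ0
      have h2 : ψ = β * χ := by
        by_contra hne2
        exact hβ0 (Cfsg.Agent.H3.CharIrr.ci_irr_ne hψ hirr hne2)
      have h3 : η = β := by
        rw [hη', h2]
        have h4 : (β * χ * fun g => (starRingEnd ℂ) (χ g)) =
            β * (χ * fun g => (starRingEnd ℂ) (χ g)) := by ring
        rw [h4]
        have h5 : Cfsg.Agent.H3.Clifford.avg N (β * (χ * fun g => (starRingEnd ℂ) (χ g))) =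
            β * Cfsg.Agent.H3.Clifford.avg N (χ * fun g => (starRingEnd ℂ) (χ g)) := by
          ext g
          simp only [Cfsg.Agent.H3.Clifford.avg, Pi.mul_apply]
          rw [Finset.sum_congr rfl (fun (n : N) _ => by rw [hk n n.2 g]), ← Finset.mul_sum]
          ring
        rw [h5, Cfsg.Agent.H3.Clifford.avg_norm_sq hN hχ hχN]
        ext g; simp
      rw [h3]; exact hβ
    · rw [hk, Cfsg.Agent.H3.CharIrr.ci_zero_right] at hβ0
      exact absurd rfl hβ0
  · exact Cfsg.Agent.H3.CharMult.IsChar.eq_zero_of_one hηc (by rw [hη1, h0])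
  · rw [hη', heq]
    exact Cfsg.Agent.H3.Clifford.avg_norm_sq hN hχ hχN

end Cfsg.Agent.S0868
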