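import Cfsg.Statements.S0869
import Mathlib

set_option autoImplicit false
open Cfsg

namespace Cfsg.Agent.S0869

theorem prod_aux {S : Type*} (R : AddSubgroup (S → ℤ)) (hmul : ∀ f ∈ R, ∀ g ∈ R, f * g ∈ R)
    (f : S → S → ℤ) (hf : ∀ x, f x ∈ R) (T : Finset S) :
    ∃ r ∈ R, ∏ x ∈ T, (1 - f x) = 1 - r := by
  classical
  induction T using Finset.induction_on with
  | empty => exact ⟨0, R.zero_mem, by simp⟩
  | insert x T hx ih =>
    obtain ⟨r, hr, h⟩ := ih
    refine ⟨r + f x - f x * r, R.sub_mem (R.add_mem hr (hf x)) (hmul _ (hf x) _ hr), ?_⟩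
    rw [Finset.prod_insert hx, h]; ring

/-- Let S be a nonempty finite type and R an additive subgroup of the integer-valued functions on S that is closed under pointwise multiplication. If the constant function 1 is not in R, then there exist a point x of S and a prime p such that p divides f x for every f in R. -/
theorem result {S : Type*} [Finite S] [Nonempty S] (R : AddSubgroup (S → ℤ)) (hmul : ∀ f ∈ R, ∀ g ∈ R, f * g ∈ R) (h1 : (1 : S → ℤ) ∉ R) : ∃ (x : S) (p : ℕ), p.Prime ∧ ∀ f ∈ R, (p : ℤ) ∣ f x := by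
  classical
  by_cases hall : ∀ x : S, ∃ f ∈ R, f x = 1
  · exfalso
    choose f hf hfx using hall
    have := Fintype.ofFinite S
    obtain ⟨r, hr, h⟩ := prod_aux R hmul f hf Finset.univ
    apply h1
    have h2 : ∏ x : S, (1 - f x) = 0 := by
      ext y
      rw [Finset.prod_apply]
      apply Finset.prod_eq_zero (Finset.mem_univ y)
      simp [hfx]
    rw [h2] at h
    have : (1 : S → ℤ) = r := by
      have h3 := h.symm
      exact sub_eq_zero.mp h3
    rw [this]; exact hr
  · push Not at hall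
    obtain ⟨x, hx⟩ := hall
    let I : AddSubgroup ℤ := R.map (Pi.evalAddMonoidHom (fun _ : S => ℤ) x)
    obtain ⟨n, hn⟩ := Int.subgroup_cyclic I
    have hn1 : n.natAbs ≠ 1 := by
      intro h
      have h3 : (1 : ℤ) ∈ I := by
        rw [hn, AddSubgroup.mem_closure_singleton]
        rcases Int.natAbs_eq n with h4 | h4
        · rw [h] at h4; exact ⟨1, by rw [h4]; simp⟩
        · rw [h] at h4; exact ⟨-1, by rw [h4]; simp⟩
      obtain ⟨f, hf, hfx⟩ := h3
      exact hx f hf hfx
    refine ⟨x, n.natAbs.minFac, Nat.minFac_prime hn1, fun f hf => ?_⟩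
    have h4 : f x ∈ I := ⟨f, hf, rfl⟩
    rw [hn, AddSubgroup.mem_closure_singleton] at h4
    obtain ⟨k, hk⟩ := h4
    rw [← hk, smul_eq_mul]
    have h5 : (n.natAbs.minFac : ℤ) ∣ n := by
      rw [← Int.dvd_natAbs]
      exact_mod_cast Nat.minFac_dvd _
    exact h5.mul_left k

end Cfsg.Agent.S0869
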