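import Cfsg.Statements.S0873
import Cfsg.Agent.H1_Coprime
import Cfsg.Agent.H3_CharInd

set_option autoImplicit false
open Cfsg

namespace Cfsg.Agent.S0873

/-- Let C be a normal subgroup of the finite group G of order prime to p and P a p-subgroup with C ⊔ P = G. Let λ be a character of C of degree 1 invariant under conjugation by G and equal to 1 at every element of C centralized by P. Then λ is identically 1. -/
theorem result {G : Type*} [Group G] [Finite G] (p : ℕ) [Fact p.Prime] (C P : Subgroup G) [hC : C.Normal] (hP : IsPGroup p P) (hcop : Nat.Coprime (Nat.card C) p) (hCP : C ⊔ P = ⊤) (lam : C → ℂ) (hlam : Cfsg.IsCharacter C lam ∧ lam 1 = 1) (hinv : ∀ (g : G) (c : C), lam ⟨g * c * g⁻¹, hC.conj_mem (c : G) c.2 g⟩ = lam c) (hker : ∀ c : C, (c : G) ∈ Subgroup.centralizer (P : Set G) → lam c = 1) : lam = fun _ => 1 := by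
  obtain ⟨f, hf⟩ := Cfsg.Agent.H3.CharInd.IsChar.hom_units_of_one hlam.1 hlam.2
  let K : Subgroup G := f.ker.map C.subtype
  have hKC : K ≤ C := by rintro _ ⟨x, _, rfl⟩; exact x.2
  have hmemK : ∀ c : C, (c : G) ∈ K ↔ lam c = 1 := by
    intro c
    constructor
    · rintro ⟨y, hy, hyc⟩
      have : y = c := Subtype.ext hyc
      subst this
      rw [hf, (show f y = 1 from hy)]; rfl
    · intro h
      refine ⟨c, ?_, rfl⟩
      rw [hf] at h
      exact Units.ext h
  have hPK : P ≤ Subgroup.normalizer (K : Set G) := by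
    have key : ∀ a : G, ∀ k ∈ K, a * k * a⁻¹ ∈ K := by
      intro a k hk
      have h1 := (hmemK ⟨k, hKC hk⟩).mp hk
      have h2 := hinv a ⟨k, hKC hk⟩
      rw [h1] at h2
      exact (hmemK ⟨a * k * a⁻¹, hC.conj_mem k (hKC hk) a⟩).mpr h2
    intro a _
    rw [Subgroup.mem_normalizer_iff]
    intro k
    refine ⟨key a k, fun h => ?_⟩
    have := key a⁻¹ _ h
    have h3 : a⁻¹ * (a * k * a⁻¹) * a⁻¹⁻¹ = k := by group
    rwa [h3] at this
  have hcop' : (Nat.card P).Coprime (Nat.card K) := by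
    obtain ⟨k, hk⟩ := (IsPGroup.iff_card (p := p)).mp hP
    rw [hk]
    apply Nat.Coprime.pow_left
    exact (hcop.coprime_dvd_left (Subgroup.card_dvd_of_le hKC)).symm
  have hsolv : Group.IsSolvable P := by
    have := hP.isNilpotent
    infer_instance
  funext c
  obtain ⟨d, hd, hcd⟩ := Cfsg.Agent.H1.Coprime.exists_mul_mem_centralizer hPK hcop' (Or.inl hsolv)
    (c : G) (fun a ha => by
      have h1 : (c : G)⁻¹ * (a * c * a⁻¹) ∈ C :=
        C.mul_mem (C.inv_mem c.2) (hC.conj_mem c c.2 a)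
      refine (hmemK ⟨_, h1⟩).mpr ?_
      have h2 := hinv a c
      rw [hf, hf] at h2
      have h3 : (⟨(c : G)⁻¹ * (a * c * a⁻¹), h1⟩ : C) = c⁻¹ * ⟨a * c * a⁻¹, hC.conj_mem c c.2 a⟩ := by
        ext; simp
      rw [h3, hf, map_mul, map_inv, Units.val_mul, h2]
      simp)
  have h1 := hker ⟨(c : G) * d, C.mul_mem c.2 (hKC hd)⟩ hcd
  have h2 := (hmemK ⟨d, hKC hd⟩).mp hd
  have h3 : (⟨(c : G) * d, C.mul_mem c.2 (hKC hd)⟩ : C) = c * ⟨d, hKC hd⟩ := rfl
  rw [h3, hf, map_mul, Units.val_mul, ← hf, ← hf, h2, mul_one] at h1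
  exact h1

end Cfsg.Agent.S0873
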