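import Cfsg.Statements.S0874
import Cfsg.Agent.H25_BrauerP

set_option autoImplicit false
open Cfsg

namespace Cfsg.Agent.S0874

open Cfsg.Agent.H25.BrauerP in
theorem result {G : Type*} [Group G] [Fintype G] (p : ℕ) (hp : p.Prime) : ∃ (m : ℤ) (l : List ((E : Subgroup G) × ((E → ℂ) × ℤ))), ¬ (p : ℤ) ∣ m ∧ (∀ t ∈ l, Cfsg.IsElementary p t.1 ∧ Cfsg.IsCharacter t.1 t.2.1) ∧ (fun _ : G => (m : ℂ)) = (l.map fun t => (t.2.2 : ℂ) • Cfsg.indFun t.1 t.2.1).sum := by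
  have : Fact p.Prime := ⟨hp⟩
  have h := prime_part_mem_VP (G := G) p
  have hset : ({v | ∃ (E : Subgroup G) (θ : E → ℂ), IsElementary p E ∧ IsCharacter E θ ∧
    v = indFun E θ} : Set (G → ℂ)) = {w | ∃ t ∈ {t : (E : Subgroup G) × (E → ℂ) | IsElementary p t.1 ∧ IsCharacter t.1 t.2}, w = indFun t.1 t.2} := by
    ext v
    constructor
    · rintro ⟨E, θ, h1, h2, h3⟩; exact ⟨⟨E, θ⟩, ⟨h1, h2⟩, h3⟩
    · rintro ⟨⟨E, θ⟩, ⟨h1, h2⟩, h3⟩; exact ⟨E, θ, h1, h2, h3⟩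
  rw [VP, hset] at h
  obtain ⟨l, hl, h2⟩ := closure_list _ h
  refine ⟨((Nat.card G / p ^ (Nat.card G).factorization p : ℕ) : ℤ), l, ?_, hl, ?_⟩
  · intro hdvd
    have h3 : p ∣ Nat.card G / p ^ (Nat.card G).factorization p := by exact_mod_cast hdvd
    exact Nat.not_dvd_ordCompl hp Nat.card_pos.ne' h3
  · rw [← h2]
    ext g
    rfl

end Cfsg.Agent.S0874
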