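import Cfsg.Statements.S0875
import Cfsg.Agent.H3_PiSection

set_option autoImplicit false
open Cfsg

namespace Cfsg.Agent.S0875

/-- Let G be a finite group of order m * n with m and n coprime, and g an element whose order is coprime to m. Every x in G factors uniquely as x = u * v with u, v commuting, the order of u coprime to n and the order of v coprime to m; let ϑ be the function on G equal to n at those x whose factor v is conjugate to g and equal to 0 elsewhere. Then ϑ is a linear combination of the irreducible characters of G with algebraic-integer coefficients. -/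
theorem result {G : Type*} [Group G] [Fintype G] (m n : ℕ) (hmn : Nat.card G = m * n) (hcop : Nat.Coprime m n) (g : G) (hg : Nat.Coprime (orderOf g) m) (ϑ : G → ℂ) (hϑ1 : ∀ x : G, (∃ v : G, IsConj v g ∧ (∃ u : G, x = u * v ∧ Commute u v ∧ Nat.Coprime (orderOf u) n ∧ Nat.Coprime (orderOf v) m)) → ϑ x = n) (hϑ0 : ∀ x : G, (¬ ∃ v : G, IsConj v g ∧ (∃ u : G, x = u * v ∧ Commute u v ∧ Nat.Coprime (orderOf u) n ∧ Nat.Coprime (orderOf v) m)) → ϑ x = 0) : ∃ c : Cfsg.IrrCharacter G → ℂ, (∀ χ, c χ ∈ Cfsg.AlgInt) ∧ ϑ = ∑ᶠ χ : Cfsg.IrrCharacter G, c χ • (χ : G → ℂ) := by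
  classical
  have hcl : Cfsg.IsClassFunction G ϑ := by
    intro x h
    by_cases hx : ∃ v : G, IsConj v g ∧ (∃ u : G, x = u * v ∧ Commute u v ∧
        Nat.Coprime (orderOf u) n ∧ Nat.Coprime (orderOf v) m)
    · obtain ⟨v, hv, u, rfl, hc, hu, hv'⟩ := hx
      have ho : ∀ w : G, orderOf (h * w * h⁻¹) = orderOf w := by
        intro w
        have := orderOf_injective (MulAut.conj h).toMonoidHom (MulAut.conj h).injective w
        simpa using this
      rw [hϑ1 (u * v) ⟨v, hv, u, rfl, hc, hu, hv'⟩]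
      apply hϑ1
      refine ⟨h * v * h⁻¹, ?_, h * u * h⁻¹, by group, ?_, by rwa [ho], by rwa [ho]⟩
      · exact (isConj_iff.mpr ⟨h⁻¹, by group⟩ : IsConj (h * v * h⁻¹) v).trans hv
      · change (h * u * h⁻¹) * (h * v * h⁻¹) = (h * v * h⁻¹) * (h * u * h⁻¹)
        calc (h * u * h⁻¹) * (h * v * h⁻¹) = h * (u * v) * h⁻¹ := by group
          _ = h * (v * u) * h⁻¹ := by rw [hc.eq]
          _ = _ := by group
    · rw [hϑ0 x hx]
      apply hϑ0
      rintro ⟨v, hv, u, hxe, hc, hu, hv'⟩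
      apply hx
      have ho : ∀ w : G, orderOf (h⁻¹ * w * h) = orderOf w := by
        intro w
        have := orderOf_injective (MulAut.conj h⁻¹).toMonoidHom (MulAut.conj h⁻¹).injective w
        simpa using this
      refine ⟨h⁻¹ * v * h, ?_, h⁻¹ * u * h, ?_, ?_, by rwa [ho], by rwa [ho]⟩
      · exact (isConj_iff.mpr ⟨h, by group⟩ : IsConj (h⁻¹ * v * h) v).trans hv
      · calc x = h⁻¹ * (h * x * h⁻¹) * h := by group
          _ = h⁻¹ * (u * v) * h := by rw [hxe]
          _ = _ := by group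
      · change (h⁻¹ * u * h) * (h⁻¹ * v * h) = (h⁻¹ * v * h) * (h⁻¹ * u * h)
        calc (h⁻¹ * u * h) * (h⁻¹ * v * h) = h⁻¹ * (u * v) * h := by group
          _ = h⁻¹ * (v * u) * h := by rw [hc.eq]
          _ = _ := by group
  have hI := Cfsg.Agent.H3.PiSection.section_intSpan m n hmn hcop g ϑ
    (fun u v hv hc hu hv' => hϑ1 _ ⟨v, hv, u, rfl, hc, hu, hv'⟩)
    (fun u v hv hc hu hv' => hϑ0 _ (by
      rintro ⟨v', hv'g, u', he, hc', hu', hv''⟩
      obtain ⟨-, h2⟩ := Cfsg.Agent.H3.PiSection.parts_unique (dvd_of_eq hmn) hcop he hc hc' hu hv'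
        hu' hv''
      exact hv (h2 ▸ hv'g))) hcl
  refine ⟨fun χ => Cfsg.classInner ϑ (χ : G → ℂ), fun χ => hI.2 χ χ.2, ?_⟩
  exact Cfsg.Agent.H3.CharComplete.expand_finsum ϑ hcl

end Cfsg.Agent.S0875
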