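import Cfsg.Statements.S0876
import Cfsg.Agent.H3_PiSection
import Cfsg.Agent.H10_BlockHZ
import Cfsg.Agent.H10_PPart
import Cfsg.Agent.S0875

set_option autoImplicit false
open Cfsg

namespace Cfsg.Agent.S0876

open Cfsg Cfsg.Agent.H3.CharIrr Cfsg.Agent.H3.CharComplete Cfsg.Agent.H3.PiSection in
/-- The section function. -/
theorem sec_aux {G : Type*} [Group G] [Finite G] (p : ℕ) (M : Ideal Cfsg.AlgInt)
    (hM : Cfsg.IsPModular p M) (x y : G) (hx : ¬ p ∣ orderOf x) (hy : ¬ p ∣ orderOf y)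
    (hne : ¬ IsConj x y) : ¬ ∀ χ : Cfsg.IrrCharacter G,
      Cfsg.MemLocalIdeal M ((χ : G → ℂ) x - (χ : G → ℂ) y) := by
  classical
  have := Fintype.ofFinite G
  have hp := hM.1
  have := Fact.mk hp
  have := hM.2.1
  intro hall
  obtain ⟨m, n, hmn, hm, hn⟩ : ∃ m n : ℕ, Nat.card G = m * n ∧ (∃ k, m = p ^ k) ∧ ¬ p ∣ n := by
    refine ⟨p ^ (Nat.card G).factorization p, Nat.card G / p ^ (Nat.card G).factorization p,
      (Nat.ordProj_mul_ordCompl_eq_self _ _).symm, ⟨_, rfl⟩, ?_⟩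
    exact Nat.not_dvd_ordCompl hp Nat.card_pos.ne'
  obtain ⟨k, hk⟩ := hm
  have hcop : m.Coprime n := by
    rw [hk]; exact ((Nat.Prime.coprime_iff_not_dvd hp).mpr hn).pow_left k
  have hreg : ∀ w : G, ¬ p ∣ orderOf w → (orderOf w).Coprime m := by
    intro w hw
    rw [hk]; exact ((Nat.Prime.coprime_iff_not_dvd hp).mpr hw).symm.pow_right k
  let ϑ : G → ℂ := fun z => if ∃ v : G, IsConj v x ∧ (∃ u : G, z = u * v ∧ Commute u v ∧
        Nat.Coprime (orderOf u) n ∧ Nat.Coprime (orderOf v) m) then n else 0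
  have hϑ : ∃ c : Cfsg.IrrCharacter G → ℂ, (∀ χ, c χ ∈ Cfsg.AlgInt) ∧
      ϑ = ∑ᶠ χ : Cfsg.IrrCharacter G, c χ • (χ : G → ℂ) := by
    apply Cfsg.Agent.S0875.result m n hmn hcop x (hreg x hx) ϑ
    · intro z hz; exact if_pos hz
    · intro z hz; exact if_neg hz
  obtain ⟨c, hc, hsum⟩ := hϑ
  have := Fintype.ofFinite (Cfsg.IrrCharacter G)
  rw [finsum_eq_sum_of_fintype] at hsum
  have h1 : ϑ x = n := if_pos ⟨x, IsConj.refl x, 1, by simp, Commute.one_left x, by simp, hreg x hx⟩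
  have h2 : ϑ y = 0 := by
    apply if_neg
    rintro ⟨v, hv, u, hyuv, hcomm, hu, hv'⟩
    have h3 : (1 : G) * y = u * v := by rw [one_mul]; exact hyuv
    obtain ⟨-, h4⟩ := parts_unique (dvd_of_eq hmn) hcop h3 (Commute.one_left y) hcomm (by simp)
      (hreg y hy) hu hv'
    rw [← h4] at hv
    exact hne hv.symm
  have h3 : ϑ x - ϑ y = ∑ χ : Cfsg.IrrCharacter G, c χ * ((χ : G → ℂ) x - (χ : G → ℂ) y) := by
    rw [hsum]
    simp only [Finset.sum_apply, Pi.smul_apply, smul_eq_mul]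
    rw [← Finset.sum_sub_distrib]
    exact Finset.sum_congr rfl fun χ _ => by ring
  have h4 : Cfsg.MemLocalIdeal M (ϑ x - ϑ y) := by
    rw [h3]
    apply Cfsg.Agent.H10.BlockLoc.ideal_sum
    intro χ _
    exact Cfsg.Agent.H10.BlockLoc.ideal_mul_left
      (Cfsg.Agent.H10.BlockLoc.memLocalRing_of_integral hM.2.1.ne_top (hc χ)) (hall χ)
  rw [h1, h2, sub_zero, Cfsg.Agent.H10.BlockLoc.ideal_natCast_iff hM] at h4
  exact hn h4

/-- Let G be a finite group, p a prime and M a maximal ideal of the ring of algebraic integers containing p. Let x, y be elements with p-parts a and b (so a⁻¹ * x and b⁻¹ * y are their p-regular parts). Then a⁻¹ * x and b⁻¹ * y are conjugate in G if and only if, for every irreducible character χ, the difference χ x - χ y lies in the local ideal at M. -/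
theorem result {G : Type*} [Group G] [Finite G] (p : ℕ) (M : Ideal Cfsg.AlgInt) (hM : Cfsg.IsPModular p M) (x y a b : G) (ha : Cfsg.IsPPart p x a) (hb : Cfsg.IsPPart p y b) : IsConj (a⁻¹ * x) (b⁻¹ * y) ↔ ∀ χ : Cfsg.IrrCharacter G, Cfsg.MemLocalIdeal M ((χ : G → ℂ) x - (χ : G → ℂ) y) := by
  classical
  have := Fintype.ofFinite G
  have hp := hM.1
  have := Fact.mk hp
  have := hM.2.1
  obtain ⟨x', hx1, hx2, hx3, hx4⟩ := ha
  obtain ⟨y', hy1, hy2, hy3, hy4⟩ := hb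
  have hx5 : a⁻¹ * x = x' := by rw [← hx1]; group
  have hy5 : b⁻¹ * y = y' := by rw [← hy1]; group
  rw [hx5, hy5]
  have hcx : ∀ χ : Cfsg.IrrCharacter G, Cfsg.MemLocalIdeal M ((χ : G → ℂ) x - (χ : G → ℂ) x') := by
    intro χ
    have := Cfsg.Agent.H10.BlockHZ.char_sub_mem hM
      (Cfsg.Agent.H3.CharIrr.IsIrr.isCharacter χ.2) hx2 hx3 hx4
    rwa [hx1] at this
  have hcy : ∀ χ : Cfsg.IrrCharacter G, Cfsg.MemLocalIdeal M ((χ : G → ℂ) y - (χ : G → ℂ) y') := by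
    intro χ
    have := Cfsg.Agent.H10.BlockHZ.char_sub_mem hM
      (Cfsg.Agent.H3.CharIrr.IsIrr.isCharacter χ.2) hy2 hy3 hy4
    rwa [hy1] at this
  constructor
  · intro hconj χ
    have h1 : (χ : G → ℂ) x' = (χ : G → ℂ) y' := by
      obtain ⟨c, hc⟩ := isConj_iff.mp hconj
      rw [← hc]
      exact (Cfsg.Agent.H3.CharIrr.IsIrr.isClass χ.2 x' c).symm
    have h2 := Cfsg.Agent.H10.BlockLoc.ideal_sub (hcx χ) (hcy χ)
    have h3 : (χ : G → ℂ) x - (χ : G → ℂ) x' - ((χ : G → ℂ) y - (χ : G → ℂ) y') =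
        (χ : G → ℂ) x - (χ : G → ℂ) y := by rw [h1]; ring
    rwa [h3] at h2
  · intro hall
    by_contra hne
    apply sec_aux p M hM x' y' hx4 hy4 hne
    intro χ
    have h2 := Cfsg.Agent.H10.BlockLoc.ideal_sub (hall χ)
      (Cfsg.Agent.H10.BlockLoc.ideal_sub (hcx χ) (hcy χ))
    have h3 : (χ : G → ℂ) x - (χ : G → ℂ) y - ((χ : G → ℂ) x - (χ : G → ℂ) x' -
        ((χ : G → ℂ) y - (χ : G → ℂ) y')) = (χ : G → ℂ) x' - (χ : G → ℂ) y' := by ring
    rwa [h3] at h2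

end Cfsg.Agent.S0876
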