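import Cfsg.Statements.S0880
import Cfsg.Agent.H3_Zass2
import Mathlib
import Cfsg.Agent.H24_Class

set_option autoImplicit false
open Cfsg

namespace Cfsg.Agent.S0880

/-- Let G be a finite simple Zassenhaus group on Ω with n points whose two-point stabilizer E has odd order less than n - 2. Then there are two elements of G, each fixing no point of Ω, that are not conjugate. -/
theorem result {G Ω : Type*} [Group G] [Finite G] [MulAction G Ω] [Fintype Ω] (hZ : Cfsg.IsZassenhausGroup G Ω) {a b : Ω} (hab : a ≠ b) [IsSimpleGroup G] (hodd : Odd (Nat.card ↥(MulAction.stabilizer G a ⊓ MulAction.stabilizer G b : Subgroup G))) (hlt : Nat.card ↥(MulAction.stabilizer G a ⊓ MulAction.stabilizer G b : Subgroup G) < Fintype.card Ω - 2) : ∃ x y : G, (∀ c : Ω, x • c ≠ c) ∧ (∀ c : Ω, y • c ≠ c) ∧ ¬ IsConj x y := by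
  classical
  by_contra hcon
  push Not at hcon
  obtain ⟨h, hh, h2⟩ := Cfsg.Agent.H3.Zass2.card_omega hZ hab
  obtain ⟨e, he⟩ : ∃ e, e = Nat.card (Cfsg.Agent.H3.Zass2.EE G a b) := ⟨_, rfl⟩
  have hG := Cfsg.Agent.H3.Zass2.card_G hZ hab hh
  have hD := Cfsg.Agent.H3.Zass2.card_fpf hZ hab hh
  have he1 := Cfsg.Agent.H3.Zass2.one_lt_card_E hZ hab
  have hodd' : Odd e := by rw [he]; exact hodd
  rw [← he] at hG he1
  have he3 : 3 ≤ e := by
    obtain ⟨k, hk⟩ := hodd'
    omega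
  obtain ⟨D, hDdef⟩ : ∃ D, D = Nat.card {g : G // ∀ c : Ω, g • c ≠ c} := ⟨_, rfl⟩
  rw [← hDdef] at hD
  have hlow : (h + 1) * (h * 3) ≤ Nat.card G := by
    rw [hG]; gcongr
  have hDpos : D ≠ 0 := by
    rintro rfl
    nlinarith
  rw [hDdef] at hDpos
  obtain ⟨⟨x, hx⟩⟩ : Nonempty {g : G // ∀ c : Ω, g • c ≠ c} := (Nat.card_pos_iff.mp (Nat.pos_of_ne_zero hDpos)).1
  have hclass : D = (Subgroup.centralizer ({x} : Set G)).index := by
    rw [← Cfsg.Agent.H24.Class.card_conjugatesOf x, hDdef]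
    refine Nat.card_congr (Equiv.subtypeEquivRight fun g => ?_)
    rw [Cfsg.Agent.H24.Class.mem_conj]
    refine ⟨fun hg => hcon x g hx hg, fun hg c hc => ?_⟩
    obtain ⟨y, rfl⟩ := isConj_iff.mp hg
    apply hx (y⁻¹ • c)
    rw [mul_smul, mul_smul] at hc
    calc x • y⁻¹ • c = y⁻¹ • (y • x • y⁻¹ • c) := by rw [inv_smul_smul]
      _ = y⁻¹ • c := by rw [hc]
  have hidx := (Subgroup.centralizer ({x} : Set G)).card_mul_index
  rw [← hclass] at hidx
  have hx1 : x ≠ 1 := by
    rintro rfl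
    exact hx a (one_smul G a)
  have hC1 : Nat.card (Subgroup.centralizer ({x} : Set G)) ≠ 1 := by
    intro h1
    have : Subgroup.centralizer ({x} : Set G) = ⊥ := Subgroup.card_eq_one.mp h1
    have hxm : x ∈ Subgroup.centralizer ({x} : Set G) := Subgroup.mem_centralizer_singleton_iff.mpr rfl
    rw [this, Subgroup.mem_bot] at hxm
    exact hx1 hxm
  have hC0 : 0 < Nat.card (Subgroup.centralizer ({x} : Set G)) := Nat.card_pos
  obtain ⟨c, hc⟩ : ∃ c, c = Nat.card (Subgroup.centralizer ({x} : Set G)) := ⟨_, rfl⟩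
  rw [← hc] at hidx hC1 hC0
  rcases Nat.lt_or_ge c 3 with h3 | h3
  · have : c = 2 := by omega
    rw [this] at hidx
    nlinarith
  · have h4 : 3 * D ≤ Nat.card G := by rw [← hidx]; exact Nat.mul_le_mul_right _ h3
    nlinarith

end Cfsg.Agent.S0880
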