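import Cfsg.Statements.S0883
import Cfsg.Agent.H3_Zass5
import Mathlib

set_option autoImplicit false
open Cfsg

namespace Cfsg.Agent.S0883

/-- Let G be a finite simple Zassenhaus group on Ω with h + 1 points whose two-point stabilizer E has odd order e with 2e < h - 1, and let H be the subgroup of the stabilizer of a consisting of the identity and the elements fixing no point other than a (given here as a subgroup of the stabilizer of order one less than the number of points whose non-identity elements fix only a; it is the Frobenius kernel of the stabilizer). If a non-identity element u of H is a product of two involutions of G, then u is an involution. -/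
theorem result {G Ω : Type*} [Group G] [Finite G] [MulAction G Ω] [Fintype Ω] (hZ : Cfsg.IsZassenhausGroup G Ω) {a b : Ω} (hab : a ≠ b) [IsSimpleGroup G] (h e : ℕ) (hh : Fintype.card Ω = h + 1) (he : Nat.card ↥(MulAction.stabilizer G a ⊓ MulAction.stabilizer G b : Subgroup G) = e) (hodd : Odd e) (hlt : 2 * e < h - 1) (H : Subgroup G) (hHa : H ≤ MulAction.stabilizer G a) (hHcard : Nat.card H + 1 = Fintype.card Ω) (hHfix : ∀ u ∈ H, u ≠ 1 → ∀ c : Ω, u • c = c → c = a) (u : G) (hu : u ∈ H) (hu1 : u ≠ 1) (x y : G) (hx : orderOf x = 2) (hy : orderOf y = 2) (hxy : x * y = u) : orderOf u = 2 := by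
  classical
  subst he
  have hx2 := Cfsg.Agent.H3.Zass5.sq_of_order hx
  have hy2 := Cfsg.Agent.H3.Zass5.sq_of_order hy
  have hxi : x⁻¹ = x := inv_eq_of_mul_eq_one_left hx2
  have hyi : y⁻¹ = y := inv_eq_of_mul_eq_one_left hy2
  have hua : u • a = a := hHa hu
  have huia : u⁻¹ • a = a := by rw [inv_smul_eq_iff, hua]
  -- `x` inverts `u`
  have hxu : x * u * x⁻¹ = u⁻¹ := by
    rw [← hxy, mul_inv_rev, hxi, hyi, ← mul_assoc, hx2, one_mul]
  have hxa : x • a = a := by
    apply hHfix u hu hu1
    have h1 : u = x⁻¹ * u⁻¹ * x := by rw [← hxu]; group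
    calc u • (x • a) = (x⁻¹ * u⁻¹ * x) • (x • a) := by rw [← h1]
      _ = x⁻¹ • u⁻¹ • (x * x) • a := by rw [mul_smul, mul_smul, mul_smul]
      _ = x • a := by rw [hx2, one_smul, huia, hxi]
  have hya : y • a = a := by
    have : y = x⁻¹ * u := by rw [← hxy]; group
    rw [this, mul_smul, hua, inv_smul_eq_iff, hxa]
  by_cases hev : Even h
  · have hmem : ∀ z : G, orderOf z = 2 → z • a = a → z ∈ H := by
      intro z hz hza
      rw [Cfsg.Agent.H3.Zass.mem_H_iff hZ a H hHa hHcard hHfix]
      refine ⟨hza, Or.inr fun c hc => ?_⟩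
      by_contra hca
      exact Cfsg.Agent.H3.Zass5.inv_fix hZ hab hodd hz hca hc hza
    have hxH := hmem x hx hxa
    have hyH := hmem y hy hya
    have hcen := Cfsg.Agent.H3.Zass5.inv_central hZ hab hodd hh hev hHa hHcard hHfix hxH hx
    have hyc : y ∈ Subgroup.centralizer ({x} : Set G) := by rw [hcen]; exact hyH
    have hcomm := Subgroup.mem_centralizer_singleton_iff.mp hyc
    apply Cfsg.Agent.H3.Zass5.order_of_sq _ hu1
    rw [← hxy]
    have : x * y * (x * y) = x * (y * x) * y := by group
    rw [this, hcomm]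
    have : x * (x * y) * y = (x * x) * (y * y) := by group
    rw [this, hx2, hy2, one_mul]
  · exfalso
    have h1 := Cfsg.Agent.H3.Zass5.inv_fix_card hZ hab hodd hh hx
    rw [if_neg hev, Finset.card_eq_zero, Finset.filter_eq_empty_iff] at h1
    exact h1 (Finset.mem_univ a) hxa

end Cfsg.Agent.S0883
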