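import Cfsg.Statements.S0888
import Mathlib
import Cfsg.Agent.H26_Ext3

set_option autoImplicit false
open Cfsg

namespace Cfsg.Agent.S0888

open Cfsg.Agent.H26.Ext1 Cfsg.Agent.H26.Ext2 Cfsg.Agent.H26.Ext3

/-- Let N be a normal subgroup of the finite group G and ϑ an irreducible character of N invariant under conjugation by G. Suppose that for every prime p there are a subgroup P containing N, of index prime to p and with the index of N in P a power of p, and an irreducible character of P restricting to ϑ. Then ϑ is the restriction of an irreducible character of G. -/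
theorem result {G : Type*} [Group G] [Finite G] (N : Subgroup G) [hN : N.Normal] (ϑ : N → ℂ) (hϑ : Cfsg.IsIrrCharacter N ϑ) (hinv : ∀ (g : G) (n : N), ϑ ⟨g * n * g⁻¹, hN.conj_mem (n : G) n.2 g⟩ = ϑ n) (hsyl : ∀ p : ℕ, p.Prime → ∃ (P : Subgroup G) (hNP : N ≤ P) (η : P → ℂ), Nat.Coprime P.index p ∧ (∃ k : ℕ, N.relIndex P = p ^ k) ∧ Cfsg.IsIrrCharacter P η ∧ ∀ n : N, η ⟨(n : G), hNP n.2⟩ = ϑ n) : ∃ χ : G → ℂ, Cfsg.IsIrrCharacter G χ ∧ ∀ n : N, χ n = ϑ n := by
  obtain ⟨Γ, _, _, π, j, ϑ', h⟩ := exists_liftD N ϑ hϑ hinv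
  apply ext_of_lh h
  apply one_mem_of
  intro p hp
  obtain ⟨P, hNP, η, hcop, -, hη, hext⟩ := hsyl p hp
  refine ⟨P.index, subgroup_mem h hNP hη hext, fun hd => ?_⟩
  have h1 : p ∣ P.index := Int.natCast_dvd_natCast.1 hd
  exact hp.one_lt.ne' (Nat.dvd_one.1 (by rw [← hcop.gcd_eq_one]; exact Nat.dvd_gcd h1 dvd_rfl))

end Cfsg.Agent.S0888
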