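import Cfsg.Statements.S0892
import Cfsg.Agent.H4_AnE

set_option autoImplicit false
open Cfsg

namespace Cfsg.Agent.S0892

/-- Let n ≥ 4 with n ≠ 6 and n ≠ 7, and let Γ be a finite group with a subgroup Z contained in both the centre and the commutator subgroup of Γ such that Γ / Z is isomorphic to the alternating group on n letters. Then Z has order at most 2. -/
theorem result (n : ℕ) (hn : 4 ≤ n) (h6 : n ≠ 6) (h7 : n ≠ 7) {Γ : Type*} [Group Γ] [Finite Γ] (Z : Subgroup Γ) [Z.Normal] (hZc : Z ≤ Subgroup.center Γ) (hZd : Z ≤ commutator Γ) (e : Γ ⧸ Z ≃* alternatingGroup (Fin n)) : Nat.card Z ≤ 2 := by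
  let π : Γ →* Equiv.Perm (Fin n) :=
    (alternatingGroup (Fin n)).subtype.comp (e.toMonoidHom.comp (QuotientGroup.mk' Z))
  have hπ : ∀ g, π g = ((e (QuotientGroup.mk' Z g) : alternatingGroup (Fin n)) : Equiv.Perm (Fin n)) := fun g => rfl
  have D : Cfsg.Agent.H4.AnA.Dat n Z π :=
  { ker := by
      intro g
      rw [hπ, ← QuotientGroup.eq_one_iff g]
      constructor
      · intro h
        have h1 : e (QuotientGroup.mk' Z g) = 1 := Subtype.ext h
        exact (map_eq_one_iff e e.injective).1 h1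
      · intro h
        have h1 : QuotientGroup.mk' Z g = 1 := h
        rw [h1, map_one]; rfl
    cen := fun z hz g => (Subgroup.mem_center_iff.1 (hZc hz) g)
    com := hZd
    surj := by
      intro σ hσ
      obtain ⟨g, hg⟩ := QuotientGroup.mk'_surjective Z (e.symm ⟨σ, hσ⟩)
      refine ⟨g, ?_⟩
      rw [hπ, hg, e.apply_symm_apply]
    rng := fun g => (e (QuotientGroup.mk' Z g)).2 }
  exact Cfsg.Agent.H4.AnA.main D hn h6 h7
end Cfsg.Agent.S0892
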