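import Cfsg.Statements.S0897
import Mathlib
import Cfsg.Agent.H26_Ext5
import Cfsg.Agent.H10_BlockKer

set_option autoImplicit false
open Cfsg

namespace Cfsg.Agent.S0897

open Cfsg.Agent.H26.Ext1 Cfsg.Agent.H26.Ext3 Cfsg.Agent.H26.Ext4 Cfsg.Agent.H26.Ext5 Cfsg.Agent.H3.CharIrr Cfsg.Agent.H3.CharInd Cfsg.Agent.H3.CharMult

/-- linear characters of subgroups of abelian groups extend -/
theorem ab_ext {A : Type*} [Group A] [Finite A] (hA : ∀ a b : A, a * b = b * a) (H : Subgroup A) (lam : H →* ℂˣ) :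
    ∃ L : A →* ℂˣ, ∀ h : H, L h = lam h := by
  classical
  haveI := Fintype.ofFinite A
  haveI : Fintype H := Fintype.ofFinite _
  obtain ⟨χ, hχ, hc⟩ := exists_constituent_ind (isIrr_of_hom_units lam)
  rw [constituent_ind_iff (IsIrr.isCharacter hχ)] at hc
  have h1 := IsIrr.one_of_comm hA hχ
  have h2 : (fun h : H => χ h) = fun h => (lam h : ℂ) := by
    apply IsChar.eq_of_degree (IsChar.res (IsIrr.isCharacter hχ) H) (isIrr_of_hom_units lam) hc
    simp [h1]
  obtain ⟨L, hL⟩ := IsChar.hom_units_of_one (IsIrr.isCharacter hχ) h1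
  refine ⟨L, fun h => Units.ext ?_⟩
  rw [← hL]
  exact congrFun h2 h


/-- Let N be a normal subgroup of the finite group G with the index of N a power of the prime p, and P a Sylow p-subgroup of G such that P ⊓ N lies in the centre of P and every character of degree 1 of P ⊓ N is the restriction of a character of degree 1 of P. Then every irreducible character of N invariant under conjugation by G is the restriction of an irreducible character of G. -/
theorem result {G : Type*} [Group G] [Fintype G] (p : ℕ) [Fact p.Prime] (N : Subgroup G) [hN : N.Normal] (hind : ∃ k : ℕ, N.index = p ^ k) (P : Sylow p G) (hcent : ∀ x ∈ (P : Subgroup G) ⊓ N, ∀ y ∈ (P : Subgroup G), x * y = y * x) (hlin : ∀ lam : ↥((P : Subgroup G) ⊓ N) → ℂ, Cfsg.IsCharacter ↥((P : Subgroup G) ⊓ N) lam → lam 1 = 1 → ∃ μ : ↥(P : Subgroup G) → ℂ, Cfsg.IsCharacter ↥(P : Subgroup G) μ ∧ μ 1 = 1 ∧ ∀ x : ↥((P : Subgroup G) ⊓ N), μ ⟨(x : G), x.2.1⟩ = lam x) (ϑ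 : N → ℂ) (hϑ : Cfsg.IsIrrCharacter N ϑ) (hinv : ∀ (g : G) (n : N), ϑ ⟨g * n * g⁻¹, hN.conj_mem (n : G) n.2 g⟩ = ϑ n) : ∃ χ : G → ℂ, Cfsg.IsIrrCharacter G χ ∧ ∀ n : N, χ n = ϑ n := by
  classical
  have hp : p.Prime := Fact.out
  obtain ⟨E, φ, hE, htop, hinvφ, m, hm, hin⟩ := detect (p := p) N hind ϑ hϑ hinv
  haveI : Fintype ↥(E ⊓ N) := Fintype.ofFinite _
  have hin' := hin
  obtain ⟨k, hk⟩ := hind
  obtain ⟨x, hxc, hxo, l, hxl⟩ := hE
  -- x lies in N
  have hxN : (x : G) ∈ N := by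
    apply Cfsg.Agent.H10.BlockKer.regular_mem hp ⟨k, hk⟩
    rw [Subgroup.orderOf_coe]
    exact (Nat.Prime.coprime_iff_not_dvd hp).1 hxo.symm
  -- the Sylow subgroup of E
  obtain ⟨S⟩ : Nonempty (Sylow p E) := inferInstance
  have hES : (S : Subgroup E) ⊔ Subgroup.zpowers x = ⊤ := by
    rw [← Subgroup.index_eq_one]
    have h1 : ((S : Subgroup E) ⊔ Subgroup.zpowers x).index ∣ p ^ l := by
      rw [← hxl]; exact Subgroup.index_dvd_of_le le_sup_right
    have h2 : ((S : Subgroup E) ⊔ Subgroup.zpowers x).index ∣ (S : Subgroup E).index := Subgroup.index_dvd_of_le le_sup_left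
    have h3 : ¬ p ∣ (S : Subgroup E).index := S.not_dvd_index
    obtain ⟨i, -, hi⟩ := (Nat.dvd_prime_pow hp).1 h1
    rcases Nat.eq_zero_or_pos i with rfl | hi0
    · rw [hi, pow_zero]
    · exact absurd ((by rw [hi]; exact dvd_pow_self p hi0.ne' : p ∣ _).trans h2) h3
  haveI : (Subgroup.zpowers x).Normal := ⟨fun a ha b => by
    have hac : a ∈ Subgroup.center E := (Subgroup.zpowers_le.2 hxc) ha
    have := Subgroup.mem_center_iff.1 hac b
    rw [this, mul_inv_cancel_right]; exact ha⟩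
  have hdec : ∀ e : E, ∃ s ∈ (S : Subgroup E), ∃ z ∈ Subgroup.zpowers x, s * z = e := fun e => by
    have h1 : e ∈ (S : Subgroup E) ⊔ Subgroup.zpowers x := by rw [hES]; exact Subgroup.mem_top _
    exact Subgroup.mem_sup_of_normal_right.1 h1
  have hzN : ∀ z ∈ Subgroup.zpowers x, (z : G) ∈ N := by
    intro z hz
    obtain ⟨i, rfl⟩ := hz
    rw [Subgroup.coe_zpow]; exact N.zpow_mem hxN i
  obtain ⟨T, hTdef⟩ : ∃ T : Subgroup G, T = (S : Subgroup E).map E.subtype := ⟨_, rfl⟩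
  have hTp : IsPGroup p T := by rw [hTdef]; exact S.isPGroup'.map _
  have hTE : T ≤ E := by rw [hTdef]; exact Subgroup.map_subtype_le _
  have hTN : T ⊔ N = ⊤ := by
    rw [eq_top_iff, ← htop]
    apply sup_le _ le_sup_right
    intro e he
    obtain ⟨s, hs, z, hz, hsz⟩ := hdec ⟨e, he⟩
    have : e = (s : G) * z := (congrArg Subtype.val hsz).symm
    rw [this]
    exact Subgroup.mul_mem _ (Subgroup.mem_sup_left (by rw [hTdef]; exact ⟨s, hs, rfl⟩)) (Subgroup.mem_sup_right (hzN z hz))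
  -- a conjugate of T lies in P
  obtain ⟨P', hP'⟩ := hTp.exists_le_sylow
  obtain ⟨g, hg⟩ := MulAction.exists_smul_eq G P P'
  have hTP : ∀ s ∈ T, g⁻¹ * s * g ∈ (P : Subgroup G) := by
    intro s hs
    have h1 : s ∈ (P' : Subgroup G) := hP' hs
    rw [← hg] at h1
    obtain ⟨y, hy, hyx⟩ := h1
    have h2 : s = g * y * g⁻¹ := hyx.symm
    rw [h2]
    have : g⁻¹ * (g * y * g⁻¹) * g = y := by group
    rw [this]; exact hy
  have hNc : ∀ n ∈ N, g⁻¹ * n * g ∈ N := fun n hn => by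
    have := hN.conj_mem n hn g⁻¹
    rwa [inv_inv] at this
  -- T ⊓ N is commutative with T
  have hTc : ∀ s ∈ T, s ∈ N → ∀ t ∈ T, s * t = t * s := by
    intro s hs hsN t ht
    have h1 := hcent (g⁻¹ * s * g) ⟨hTP s hs, hNc s hsN⟩ (g⁻¹ * t * g) (hTP t ht)
    have h2 : g⁻¹ * (s * t) * g = g⁻¹ * (t * s) * g := by
      calc g⁻¹ * (s * t) * g = (g⁻¹ * s * g) * (g⁻¹ * t * g) := by group
        _ = (g⁻¹ * t * g) * (g⁻¹ * s * g) := h1
        _ = _ := by group
    exact mul_left_cancel (mul_right_cancel h2)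
  have hDc : ∀ a b : ↥(E ⊓ N), a * b = b * a := by
    intro a b
    obtain ⟨s, hs, z, hz, hsz⟩ := hdec ⟨a, a.2.1⟩
    obtain ⟨s', hs', z', hz', hsz'⟩ := hdec ⟨b, b.2.1⟩
    have ea : (a : G) = (s : G) * z := (congrArg Subtype.val hsz).symm
    have eb : (b : G) = (s' : G) * z' := (congrArg Subtype.val hsz').symm
    have hsN : (s : G) ∈ N := by
      have : (s : G) = a * (z : G)⁻¹ := by rw [ea]; group
      rw [this]; exact N.mul_mem a.2.2 (N.inv_mem (hzN z hz))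
    have hss := hTc s (by rw [hTdef]; exact ⟨s, hs, rfl⟩) hsN s' (by rw [hTdef]; exact ⟨s', hs', rfl⟩)
    have hzc : ∀ y : E, y * z = z * y := Subgroup.mem_center_iff.1 ((Subgroup.zpowers_le.2 hxc) hz)
    have hz'c : ∀ y : E, y * z' = z' * y := Subgroup.mem_center_iff.1 ((Subgroup.zpowers_le.2 hxc) hz')
    have hcomm : s * s' = s' * s := Subtype.ext hss
    have h1 : (s * z) * (s' * z') = (s' * z') * (s * z) := by
      calc (s * z) * (s' * z') = s * (z * s') * z' := by group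
        _ = s * (s' * z) * z' := by rw [hzc s']
        _ = (s * s') * (z * z') := by group
        _ = (s' * s) * (z * z') := by rw [hcomm]
        _ = (s' * s) * (z' * z) := by rw [hz'c z]
        _ = s' * (s * z') * z := by group
        _ = s' * (z' * s) * z := by rw [hz'c s]
        _ = (s' * z') * (s * z) := by group
    apply Subtype.ext
    show (a : G) * b = b * a
    rw [ea, eb]
    exact congrArg Subtype.val h1
  have hφ1 := IsIrr.one_of_comm hDc φ.2
  obtain ⟨f, hf⟩ := IsChar.hom_units_of_one (IsIrr.isCharacter φ.2) hφ1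
  -- transport to P ⊓ N
  obtain ⟨H, hH⟩ : ∃ H : Subgroup ↥((P : Subgroup G) ⊓ N), H = (T.comap (MulAut.conj g).toMonoidHom).subgroupOf ((P : Subgroup G) ⊓ N) := ⟨_, rfl⟩
  have hHm : ∀ y : ↥((P : Subgroup G) ⊓ N), y ∈ H ↔ g * y * g⁻¹ ∈ T := by
    intro y
    rw [hH, Subgroup.mem_subgroupOf, Subgroup.mem_comap]
    rfl
  have hHD : ∀ y : H, g * (y : ↥((P : Subgroup G) ⊓ N)) * g⁻¹ ∈ E ⊓ N := fun y =>
    ⟨hTE ((hHm _).1 y.2), hN.conj_mem _ y.1.2.2 g⟩
  let lam : H →* ℂˣ :=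
    { toFun := fun y => f ⟨g * (y : ↥((P : Subgroup G) ⊓ N)) * g⁻¹, hHD y⟩
      map_one' := by
        rw [← map_one f]
        congr 1
        apply Subtype.ext
        simp
      map_mul' := fun a b => by
        rw [← map_mul f]
        congr 1
        apply Subtype.ext
        simp }
  obtain ⟨L, hL⟩ := ab_ext (A := ↥((P : Subgroup G) ⊓ N)) (fun a b => Subtype.ext (hcent a a.2 b b.2.1)) H lam
  obtain ⟨M, hM, hM1, hML⟩ := hlin (fun y => (L y : ℂ)) (IsIrr.isCharacter (isIrr_of_hom_units L)) (by simp)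
  obtain ⟨M', hM'⟩ := IsChar.hom_units_of_one hM hM1
  let c : T →* (P : Subgroup G) :=
    { toFun := fun s => ⟨g⁻¹ * s * g, hTP s s.2⟩
      map_one' := Subtype.ext (by simp)
      map_mul' := fun a b => Subtype.ext (by
        show g⁻¹ * ((a * b : T) : G) * g = (g⁻¹ * a * g) * (g⁻¹ * b * g)
        push_cast; group) }
  -- the cover
  obtain ⟨Γ, _, _, π, j, ϑ', h⟩ := exists_liftD N ϑ hϑ hinv
  have hTND : T ⊓ N ≤ E ⊓ N := fun y hy => ⟨hTE hy.1, hy.2⟩
  have key := ext_of_sub (D := E ⊓ N) h inf_le_right hTN hTND f (by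
    intro s hs d
    have hsE := hTE hs
    refine ⟨⟨s⁻¹ * d * s, ⟨E.mul_mem (E.mul_mem (E.inv_mem hsE) d.2.1) hsE, by
      have := hN.conj_mem _ d.2.2 s⁻¹
      rwa [inv_inv] at this⟩⟩, rfl, ?_⟩
    apply Units.ext
    rw [← hf, ← hf, ← hinvφ s⁻¹ (E.inv_mem hsE) d]
    exact congrArg (φ : ↥(E ⊓ N) → ℂ) (Subtype.ext (by simp))) m (by
    rw [← hin, classInner]
    congr 1
    refine Finset.sum_congr rfl fun d _ => ?_
    rw [mul_comm, ← IsChar.inv_eq_conj (IsIrr.isCharacter φ.2), hf, map_inv]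
    rfl) (M'.comp c) (by
    intro s hs hsN
    apply Units.ext
    show (M' (c ⟨s, hs⟩) : ℂ) = _
    have hy : g⁻¹ * s * g ∈ (P : Subgroup G) ⊓ N := ⟨hTP s hs, hNc s hsN⟩
    have h1 := hML ⟨g⁻¹ * s * g, hy⟩
    rw [hM'] at h1
    have hyH : (⟨g⁻¹ * s * g, hy⟩ : ↥((P : Subgroup G) ⊓ N)) ∈ H := by
      rw [hHm]
      have : g * (g⁻¹ * s * g) * g⁻¹ = s := by group
      rw [this]; exact hs
    have h2 := hL ⟨_, hyH⟩
    have h3 : (c ⟨s, hs⟩ : (P : Subgroup G)) = ⟨g⁻¹ * s * g, hy.1⟩ := rfl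
    rw [h3]
    refine h1.trans ?_
    rw [show ((L ⟨g⁻¹ * s * g, hy⟩ : ℂˣ) : ℂ) = ((lam ⟨_, hyH⟩ : ℂˣ) : ℂ) from by rw [← h2]]
    show ((f _ : ℂˣ) : ℂ) = _
    refine congrArg (fun z : ↥(E ⊓ N) => ((f z : ℂˣ) : ℂ)) (Subtype.ext ?_)
    show g * (g⁻¹ * s * g) * g⁻¹ = s
    group)
  apply ext_of_lh h
  refine one_mem_of_coprime key (index_mem h) ?_
  rw [hk]
  exact Nat.Coprime.pow_right _ ((Nat.Prime.coprime_iff_not_dvd hp).2 hm).symm

end Cfsg.Agent.S0897
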