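import Cfsg.Statements.S0900
import Cfsg.Agent.H3_Clifford2

set_option autoImplicit false
open Cfsg

namespace Cfsg.Agent.S0900

/-- Let N be a normal subgroup of the finite group G, χ an irreducible character of G and ϑ an irreducible character of N having nonzero inner product with the restriction of χ. Consider: (a) the restriction of χ to N is e • ϑ for a natural number e with e ^ 2 equal to the index of N; (b) χ vanishes outside N and ϑ is invariant under conjugation by G; (c) ϑ is invariant and every irreducible character of G having nonzero inner product with the function induced from ϑ equals χ. Then (a) ↔ (b) and (a) ↔ (c). -/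
theorem result {G : Type*} [Group G] [Fintype G] (N : Subgroup G) [hN : N.Normal] [Fintype N] (χ : G → ℂ) (hχ : Cfsg.IsIrrCharacter G χ) (ϑ : N → ℂ) (hϑ : Cfsg.IsIrrCharacter N ϑ) (hcon : Cfsg.classInner (fun n : N => χ n) ϑ ≠ 0) : ((∃ e : ℕ, (fun n : N => χ n) = (e : ℂ) • ϑ ∧ e ^ 2 = N.index) ↔ ((∀ g : G, g ∉ N → χ g = 0) ∧ ∀ (g : G) (n : N), ϑ ⟨g * n * g⁻¹, hN.conj_mem (n : G) n.2 g⟩ = ϑ n)) ∧ ((∃ e : ℕ, (fun n : N => χ n) = (e : ℂ) • ϑ ∧ e ^ 2 = N.index) ↔ (∀ (g : G) (n : N), ϑ ⟨g * n * g⁻¹, hN.conj_mem (n : G) n.2 g⟩ = ϑ n ∧ ∀ ψ : G → ℂ, Cfsg.IsIrrCharacter G ψ → Cfsg.classInner (Cfsg.indFun N ϑ) ψ ≠ 0 → ψ = χ)) := by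
  classical
  have hχc := Cfsg.Agent.H3.CharIrr.IsIrr.isCharacter hχ
  have hϑc := Cfsg.Agent.H3.CharIrr.IsIrr.isCharacter hϑ
  obtain ⟨e, he⟩ := Cfsg.Agent.H3.CharComplete.ci_char_nat
    (Cfsg.Agent.H3.CharInd.IsChar.res hχc N) hϑc
  have he0 : e ≠ 0 := by rintro rfl; exact hcon (by rw [he]; simp)
  have hNG : (Nat.card N : ℂ) * N.index = Nat.card G := by exact_mod_cast N.card_mul_index
  have hN0 : (Nat.card N : ℂ) ≠ 0 := Cfsg.Agent.H3.CharInd.cardH_ne_zero N
  -- invariance gives the restriction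
  have hres : (∀ (g : G) (n : N), ϑ ⟨g * n * g⁻¹, hN.conj_mem (n : G) n.2 g⟩ = ϑ n) →
      (fun n : N => χ n) = (e : ℂ) • ϑ := by
    intro h
    have := Cfsg.Agent.H3.Clifford.clifford_invariant hN hχ hϑ hcon (fun g => funext (h g))
    rw [he] at this
    exact this
  -- norm computation: χ vanishes off N iff |N| ⟨χ_N, χ_N⟩ = |G|
  have hnorm : (∀ g : G, g ∉ N → χ g = 0) ↔
      (Nat.card N : ℂ) * Cfsg.classInner (fun n : N => χ n) (fun n : N => χ n) = Nat.card G := by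
    have h1 := Cfsg.Agent.H3.CharIrr.ci_irr_self hχ
    rw [Cfsg.classInner] at h1
    have hG0 : (Nat.card G : ℂ) ≠ 0 := Cfsg.Agent.H3.CharIrr.card_cast_ne_zero
    have h2 : ∑ g : G, χ g * (starRingEnd ℂ) (χ g) = Nat.card G := by
      field_simp at h1; exact h1
    have h3 : (Nat.card N : ℂ) * Cfsg.classInner (fun n : N => χ n) (fun n : N => χ n) =
        ∑ g : G, if g ∈ N then χ g * (starRingEnd ℂ) (χ g) else 0 := by
      rw [Cfsg.classInner, ← mul_assoc, mul_inv_cancel₀ hN0, one_mul]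
      have h4 := Cfsg.Agent.H3.CharInd.sum_ext_mul N (fun n : N => χ n)
        (fun g => (starRingEnd ℂ) (χ g))
      rw [← h4]
      refine Finset.sum_congr rfl fun g _ => ?_
      by_cases hg : g ∈ N
      · rw [if_pos hg, Cfsg.Agent.H3.CharInd.ext_mem N _ hg]
      · rw [if_neg hg, Cfsg.Agent.H3.CharInd.ext_not_mem N _ hg, zero_mul]
    rw [h3, ← h2]
    constructor
    · intro h
      refine Finset.sum_congr rfl fun g _ => ?_
      by_cases hg : g ∈ N
      · rw [if_pos hg]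
      · rw [if_neg hg, h g hg, zero_mul]
    · intro h g hg
      have h5 : ∑ g : G, (χ g * (starRingEnd ℂ) (χ g) -
          if g ∈ N then χ g * (starRingEnd ℂ) (χ g) else 0) = 0 := by
        rw [Finset.sum_sub_distrib, h, sub_self]
      have h6 : ∑ g : G, (if g ∈ N then 0 else Complex.normSq (χ g)) = 0 := by
        have h7 : ((∑ g : G, (if g ∈ N then 0 else Complex.normSq (χ g)) : ℝ) : ℂ) = 0 := by
          rw [← h5]; push_cast
          refine Finset.sum_congr rfl fun g _ => ?_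
          by_cases hg : g ∈ N
          · simp [hg]
          · simp [hg, Complex.mul_conj]
        exact_mod_cast h7
      have h8 := (Finset.sum_eq_zero_iff_of_nonneg (fun i _ => by
        split_ifs
        · exact le_rfl
        · exact Complex.normSq_nonneg _)).mp h6 g (Finset.mem_univ g)
      rw [if_neg hg] at h8
      exact Complex.normSq_eq_zero.mp h8
  have hci : ∀ e' : ℕ, (fun n : N => χ n) = (e' : ℂ) • ϑ →
      Cfsg.classInner (fun n : N => χ n) (fun n : N => χ n) = (e' : ℂ) ^ 2 := by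
    intro e' h
    rw [h, Cfsg.Agent.H3.CharIrr.ci_smul_left, Cfsg.Agent.H3.CharIrr.ci_smul_right,
      Cfsg.Agent.H3.CharIrr.ci_irr_self hϑ]
    simp [sq]
  have heq : ∀ e' : ℕ, (fun n : N => χ n) = (e' : ℂ) • ϑ → e' = e := by
    intro e' h
    have h1 := he
    rw [h, Cfsg.Agent.H3.CharIrr.ci_smul_left, Cfsg.Agent.H3.CharIrr.ci_irr_self hϑ,
      mul_one] at h1
    exact_mod_cast h1
  have hinv : ∀ e' : ℕ, (fun n : N => χ n) = (e' : ℂ) • ϑ →
      ∀ (g : G) (n : N), ϑ ⟨g * n * g⁻¹, hN.conj_mem (n : G) n.2 g⟩ = ϑ n := by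
    intro e' h g n
    have he' := heq e' h
    have h1 := congrFun h ⟨g * n * g⁻¹, hN.conj_mem (n : G) n.2 g⟩
    have h2 := congrFun h n
    simp only [Pi.smul_apply, smul_eq_mul] at h1 h2
    rw [Cfsg.Agent.H3.CharIrr.IsIrr.isClass hχ (n : G) g, h2] at h1
    have : (e' : ℂ) ≠ 0 := by rw [he']; exact_mod_cast he0
    exact (mul_left_cancel₀ this h1).symm
  have hab : (∃ e : ℕ, (fun n : N => χ n) = (e : ℂ) • ϑ ∧ e ^ 2 = N.index) ↔
      ((∀ g : G, g ∉ N → χ g = 0) ∧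
        ∀ (g : G) (n : N), ϑ ⟨g * n * g⁻¹, hN.conj_mem (n : G) n.2 g⟩ = ϑ n) := by
    constructor
    · rintro ⟨e', h1, h2⟩
      refine ⟨?_, hinv e' h1⟩
      rw [hnorm, hci e' h1, ← hNG, ← h2]; push_cast; ring
    · rintro ⟨h1, h2⟩
      refine ⟨e, hres h2, ?_⟩
      have h3 := hnorm.mp h1
      rw [hci e (hres h2), ← hNG] at h3
      have h4 := mul_left_cancel₀ hN0 h3
      exact_mod_cast h4
  refine ⟨hab, ?_⟩
  have := Fintype.ofFinite (Cfsg.IrrCharacter G)
  have hind := Cfsg.Agent.H3.CharInd.IsChar.ind hϑc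
  obtain ⟨m, hm, hmsum⟩ := Cfsg.Agent.H3.CharMult.IsChar.eq_sum_nat hind
  have hnn := Cfsg.Agent.H3.CharMult.IsChar.norm_eq_sum_sq hm hind
  have hmχ : m ⟨χ, hχ⟩ = e := by
    have h1 := hm ⟨χ, hχ⟩
    have h2 := Cfsg.Agent.H3.CharInd.frobenius N ϑ χ (Cfsg.Agent.H3.CharIrr.IsIrr.isClass hχ)
    have h3 : Cfsg.classInner ϑ (fun n : N => χ n) = e := by
      rw [← Cfsg.Agent.H3.CharIrr.ci_conj_symm, he]; simp
    rw [h2, h3] at h1
    exact_mod_cast h1.symm
  have hindnorm : (∀ (g : G) (n : N), ϑ ⟨g * n * g⁻¹, hN.conj_mem (n : G) n.2 g⟩ = ϑ n) →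
      ∑ ψ : Cfsg.IrrCharacter G, m ψ ^ 2 = N.index := by
    intro h
    have h1 := Cfsg.Agent.H3.Clifford.ci_ind_self hN hϑ
    have h2 : Cfsg.Agent.H3.Clifford.inertia hN ϑ = ⊤ := by
      rw [eq_top_iff]
      intro g _
      exact funext (h g)
    rw [h2, hnn, Nat.card_congr (Subgroup.topEquiv (G := G)).toEquiv, ← hNG] at h1
    have h3 := mul_left_cancel₀ hN0 h1
    exact_mod_cast h3
  constructor
  · rintro ⟨e', h1, h2⟩
    have he' := heq e' h1
    subst he'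
    have hi := hinv e' h1
    intro g n
    refine ⟨hi g n, ?_⟩
    intro ψ hψ hψ0
    by_contra hne
    have h3 := hindnorm hi
    rw [← h2, ← Finset.add_sum_erase _ _ (Finset.mem_univ (⟨χ, hχ⟩ : Cfsg.IrrCharacter G)),
      hmχ] at h3
    have h4 : ∑ ψ ∈ Finset.univ.erase (⟨χ, hχ⟩ : Cfsg.IrrCharacter G), m ψ ^ 2 = 0 := by omega
    have h5 := (Finset.sum_eq_zero_iff.mp h4) ⟨ψ, hψ⟩ (by
      rw [Finset.mem_erase]
      exact ⟨fun h => hne (congrArg Subtype.val h), Finset.mem_univ _⟩)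
    have h6 : m ⟨ψ, hψ⟩ = 0 := by simpa using h5
    apply hψ0
    rw [hm ⟨ψ, hψ⟩, h6]; simp
  · intro h
    have hi : ∀ (g : G) (n : N), ϑ ⟨g * n * g⁻¹, hN.conj_mem (n : G) n.2 g⟩ = ϑ n :=
      fun g n => (h g n).1
    refine ⟨e, hres hi, ?_⟩
    have h3 := hindnorm hi
    rw [← Finset.add_sum_erase _ _ (Finset.mem_univ (⟨χ, hχ⟩ : Cfsg.IrrCharacter G)),
      hmχ] at h3
    have h4 : ∑ ψ ∈ Finset.univ.erase (⟨χ, hχ⟩ : Cfsg.IrrCharacter G), m ψ ^ 2 = 0 := by
      apply Finset.sum_eq_zero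
      intro ψ hψ
      rw [Finset.mem_erase] at hψ
      have h5 : Cfsg.classInner (Cfsg.indFun N ϑ) (ψ : G → ℂ) = 0 := by
        by_contra h6
        exact hψ.1 (Subtype.ext ((h 1 1).2 ψ ψ.2 h6))
      rw [hm ψ] at h5
      have : m ψ = 0 := by exact_mod_cast h5
      rw [this]; rfl
    omega

end Cfsg.Agent.S0900
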