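import Cfsg.Statements.S0901
import Cfsg.Agent.H10_RootLift

set_option autoImplicit false
open Cfsg

namespace Cfsg.Agent.S0901

/-- Let M be a maximal ideal of the ring of algebraic integers containing the prime p, and let U be the set of complex roots of unity of order prime to p. Then reduction modulo M is injective on U, and every algebraic integer not in M is congruent modulo M to an element of U (so U maps bijectively onto the nonzero residues). -/
theorem result (p : ℕ) [Fact p.Prime] (M : Ideal Cfsg.AlgInt) (hM : Cfsg.IsPModular p M) : (∀ ε₁ ε₂ : Cfsg.AlgInt, (∃ m : ℕ, ¬ p ∣ m ∧ (ε₁ : ℂ) ^ m = 1) → (∃ m : ℕ, ¬ p ∣ m ∧ (ε₂ : ℂ) ^ m = 1) → ε₁ - ε₂ ∈ M → ε₁ = ε₂) ∧ (∀ a : Cfsg.AlgInt, a ∉ M → ∃ ε : Cfsg.AlgInt, (∃ m : ℕ, ¬ p ∣ m ∧ (ε : ℂ) ^ m = 1) ∧ a - ε ∈ M) := by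
  constructor
  · rintro e1 e2 ⟨m1, hm1, h1⟩ ⟨m2, hm2, h2⟩ h
    have h1' : e1 ^ m1 = 1 := Subtype.ext h1
    have h2' : e2 ^ m2 = 1 := Subtype.ext h2
    refine Cfsg.Agent.H10.RootLift.root_unique hM (m := m1 * m2) ?_ ?_ ?_ h
    · intro hd
      rcases (Nat.Prime.dvd_mul hM.1).1 hd with h3 | h3
      · exact hm1 h3
      · exact hm2 h3
    · rw [pow_mul, h1', one_pow]
    · rw [mul_comm, pow_mul, h2', one_pow]
  · intro a ha
    obtain ⟨e, ⟨m, hm, he⟩, h⟩ := Cfsg.Agent.H10.RootLift.root_exists hM ha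
    exact ⟨e, ⟨m, hm, by exact_mod_cast congrArg Subtype.val he⟩, h⟩

end Cfsg.Agent.S0901
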