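import Cfsg.Statements.S0903
import Cfsg.Agent.H10_PPart

set_option autoImplicit false
open Cfsg

namespace Cfsg.Agent.S0903

/-- Let P be a p-subgroup of the finite group G, let c centralize P and let g, h ∈ G. The number of pairs (x, y) with x conjugate to g, y conjugate to h and x * y = c is congruent modulo p to the number of such pairs in which x and y both centralize P. (This is why the Brauer map on class sums is multiplicative.) -/
theorem result {G : Type*} [Group G] [Finite G] (p : ℕ) [Fact p.Prime] (P : Subgroup G) (hP : IsPGroup p P) (c : G) (hc : c ∈ Subgroup.centralizer (P : Set G)) (g h : G) : Nat.card {xy : G × G // IsConj g xy.1 ∧ IsConj h xy.2 ∧ xy.1 * xy.2 = c} ≡ Nat.card {xy : G × G // IsConj g xy.1 ∧ IsConj h xy.2 ∧ xy.1 * xy.2 = c ∧ xy.1 ∈ Subgroup.centralizer (P : Set G) ∧ xy.2 ∈ Subgroup.centralizer (P : Set G)} [MOD p] := by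
  classical
  set X := {xy : G × G // IsConj g xy.1 ∧ IsConj h xy.2 ∧ xy.1 * xy.2 = c} with hX
  have hcP : ∀ u : P, (u : G) * c * (u : G)⁻¹ = c := fun u => by
    rw [Subgroup.mem_centralizer_iff.1 hc u u.2, mul_inv_cancel_right]
  have hcj : ∀ (a x y : G), IsConj a x → IsConj a (y * x * y⁻¹) := fun a x y h' => h'.trans (isConj_iff.2 ⟨y, rfl⟩)
  let act : MulAction P X :=
    { smul := fun u x => ⟨((u : G) * x.1.1 * (u : G)⁻¹, (u : G) * x.1.2 * (u : G)⁻¹),
        hcj _ _ _ x.2.1, hcj _ _ _ x.2.2.1, by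
          show (u : G) * x.1.1 * (u : G)⁻¹ * ((u : G) * x.1.2 * (u : G)⁻¹) = c
          have e : (u : G) * x.1.1 * (u : G)⁻¹ * ((u : G) * x.1.2 * (u : G)⁻¹) = (u : G) * (x.1.1 * x.1.2) * (u : G)⁻¹ := by group
          rw [e, x.2.2.2, hcP]⟩
      one_smul := fun x => by
        apply Subtype.ext
        apply Prod.ext
        · show ((1 : P) : G) * x.1.1 * ((1 : P) : G)⁻¹ = x.1.1
          simp
        · show ((1 : P) : G) * x.1.2 * ((1 : P) : G)⁻¹ = x.1.2
          simp
      mul_smul := fun a b x => by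
        apply Subtype.ext
        apply Prod.ext
        · show ((a * b : P) : G) * x.1.1 * ((a * b : P) : G)⁻¹ = (a : G) * ((b : G) * x.1.1 * (b : G)⁻¹) * (a : G)⁻¹
          simp [mul_assoc]
        · show ((a * b : P) : G) * x.1.2 * ((a * b : P) : G)⁻¹ = (a : G) * ((b : G) * x.1.2 * (b : G)⁻¹) * (a : G)⁻¹
          simp [mul_assoc] }
  have h1 := @IsPGroup.card_modEq_card_fixedPoints p P _ hP _ X act _
  rw [Nat.card_congr (?_ : {xy : G × G // IsConj g xy.1 ∧ IsConj h xy.2 ∧ xy.1 * xy.2 = c ∧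
      xy.1 ∈ Subgroup.centralizer (P : Set G) ∧ xy.2 ∈ Subgroup.centralizer (P : Set G)} ≃ @MulAction.fixedPoints P X _ act)]
  · exact h1
  · refine
      { toFun := fun x => ⟨⟨x.1, x.2.1, x.2.2.1, x.2.2.2.1⟩, fun u => ?_⟩
        invFun := fun x => ⟨x.1.1, x.1.2.1, x.1.2.2.1, x.1.2.2.2, ?_, ?_⟩
        left_inv := fun x => rfl
        right_inv := fun x => rfl }
    · apply Subtype.ext
      apply Prod.ext
      · show (u : G) * x.1.1 * (u : G)⁻¹ = x.1.1
        rw [Subgroup.mem_centralizer_iff.1 x.2.2.2.2.1 u u.2, mul_inv_cancel_right]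
      · show (u : G) * x.1.2 * (u : G)⁻¹ = x.1.2
        rw [Subgroup.mem_centralizer_iff.1 x.2.2.2.2.2 u u.2, mul_inv_cancel_right]
    · rw [Subgroup.mem_centralizer_iff]
      intro u hu
      have h2 := congrArg (fun y : X => y.1.1) (x.2 ⟨u, hu⟩)
      have h3 : u * x.1.1.1 * u⁻¹ = x.1.1.1 := h2
      rwa [mul_inv_eq_iff_eq_mul] at h3
    · rw [Subgroup.mem_centralizer_iff]
      intro u hu
      have h2 := congrArg (fun y : X => y.1.2) (x.2 ⟨u, hu⟩)
      have h3 : u * x.1.1.2 * u⁻¹ = x.1.1.2 := h2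
      rwa [mul_inv_eq_iff_eq_mul] at h3

end Cfsg.Agent.S0903
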