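import Cfsg.Statements.S0904
import Cfsg.Agent.H10_BlockPS
import Cfsg.Agent.H10_BlockMono
import Cfsg.Agent.H10_BlockKn
import Cfsg.Agent.H26_Basic

set_option autoImplicit false
open Cfsg

namespace Cfsg.Agent.S0904

set_option linter.style.haveILetI false

open Cfsg.Agent.H3.CharIrr Cfsg.Agent.H3.CharComplete Cfsg.Agent.H3.CharInd
  Cfsg.Agent.H3.CharBasic Cfsg.Agent.H10.BlockLoc
  Cfsg.Agent.H10.Char Cfsg.Agent.H10.BlockAlg Cfsg.Agent.H10.BlockIdem Cfsg.Agent.H10.BlockNormal
  Cfsg.Agent.H10.BlockKer Cfsg.Agent.H10.BlockPS Cfsg.Agent.H10.PPart Cfsg.Agent.H10.BlockOrth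
open scoped ComplexConjugate

/-- no element of order `p` centralizes a Sylow `r`-subgroup -/
theorem aux {G : Type*} [Group G] [Fintype G] [IsSimpleGroup G] (p q r a b : ℕ) [hp : Fact p.Prime] (hq : q.Prime)
    [hr : Fact r.Prime] (hpr : p ≠ r) (hqr : q ≠ r) (hcard : Nat.card G = p ^ a * q ^ b * r)
    (s x : G) (hs : orderOf s = r) (hx : orderOf x = p) (hsx : s * x = x * s) : False := by
  classical
  haveI : Fintype (IrrCharacter G) := Fintype.ofFinite _
  obtain ⟨M, hM⟩ := Cfsg.Agent.H10.BlockKn.exists_modular hp.out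
  obtain ⟨M', hM'⟩ := Cfsg.Agent.H10.BlockKn.exists_modular hr.out
  haveI := hM.2.1
  haveI := hM'.2.1
  have hord : orderOf (s * x) = r * p := by
    have hcop : Nat.Coprime (orderOf s) (orderOf x) := by
      rw [hs, hx]; exact (Nat.coprime_primes hr.out hp.out).2 hpr.symm
    have hc : Commute s x := hsx
    rw [hc.orderOf_mul_eq_mul_orderOf_of_coprime hcop, hs, hx]
  have hna : ∃ a b : G, a * b ≠ b * a := by
    by_contra hcon
    push Not at hcon
    letI : CommGroup G := { (inferInstance : Group G) with mul_comm := hcon }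
    have h1 : (Nat.card G).Prime := IsSimpleGroup.prime_card
    have h2 : p ∣ Nat.card G := by rw [← hx]; exact orderOf_dvd_natCard x
    have h3 : r ∣ Nat.card G := by rw [← hs]; exact orderOf_dvd_natCard s
    have h4 := (Nat.prime_dvd_prime_iff_eq hp.out h1).1 h2
    have h5 := (Nat.prime_dvd_prime_iff_eq hr.out h1).1 h3
    exact hpr (h4.trans h5.symm)
  have h1 := weak_orth hM (principal_isPBlock (M := M) (G := G)) 1 (s * x)
    (by rw [orderOf_one]; exact fun h => hp.out.one_lt.ne' (Nat.dvd_one.1 h)) (by rw [hord]; exact dvd_mul_left _ _)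
  have h2 : ∀ χ : IrrCharacter G, ∃ c : ℂ, IsIntegral ℤ c ∧
      (if χ ∈ principalBlock M G then (χ : G → ℂ) 1 * conj ((χ : G → ℂ) (s * x)) else 0) =
        (if χ = triv G then 1 else 0) + q * c := by
    intro χ
    by_cases hχ : χ ∈ principalBlock M G
    · rw [if_pos hχ]
      by_cases ht : χ = triv G
      · refine ⟨0, isIntegral_zero, ?_⟩
        rw [if_pos ht, ht, triv_coe, triv_coe, map_one]; ring
      · rw [if_neg ht]
        have hdvd : charDegree (χ : G → ℂ) ∣ p ^ a * q ^ b * r := by
          rw [← hcard]; exact Cfsg.Agent.H26.Basic.cd_dvd_card χ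
        have hint : IsIntegral ℤ (conj ((χ : G → ℂ) (s * x))) := by
          rw [← IsChar.inv_eq_conj (isChar_of_irr χ.2)]
          exact IsChar.isIntegral (isChar_of_irr χ.2) _
        by_cases hqd : q ∣ charDegree (χ : G → ℂ)
        · obtain ⟨m, hm⟩ := hqd
          refine ⟨m * conj ((χ : G → ℂ) (s * x)), IsIntegral.mul (by exact_mod_cast isIntegral_algebraMap (R := ℤ) (A := ℂ) (x := (m : ℤ))) hint, ?_⟩
          rw [← charDegree_eq χ.2, hm]; push_cast; ring
        · refine ⟨0, isIntegral_zero, ?_⟩
          rw [mul_zero, add_zero]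
          by_cases hrd : r ∣ charDegree (χ : G → ℂ)
          · have hz : (χ : G → ℂ) (s * x) = 0 := by
              refine Cfsg.Agent.H10.BlockMono.vanish_of_degree hM' (D := ⊥) bot_le χ ?_ (x := s) ?_ ?_
              · rw [Subgroup.index_bot]
                have e1 : (Nat.card G).factorization r = 1 := by
                  rw [hcard, Nat.factorization_mul (mul_ne_zero (pow_ne_zero _ hp.out.ne_zero) (pow_ne_zero _ hq.ne_zero))
                    hr.out.ne_zero, Nat.factorization_mul (pow_ne_zero _ hp.out.ne_zero) (pow_ne_zero _ hq.ne_zero),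
                    hp.out.factorization_pow, hq.factorization_pow, Finsupp.add_apply, Finsupp.add_apply,
                    Finsupp.single_apply, Finsupp.single_apply, if_neg hpr, if_neg hqr, hr.out.factorization_self, zero_add, zero_add]
                have e2 : (charDegree (χ : G → ℂ)).factorization r ≤ (Nat.card G).factorization r :=
                  (Nat.factorization_le_iff_dvd (charDegree_pos χ.2).ne' Nat.card_pos.ne').2
                    (Cfsg.Agent.H26.Basic.cd_dvd_card χ) r
                have e3 : 0 < (charDegree (χ : G → ℂ)).factorization r :=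
                  hr.out.factorization_pos_of_dvd (charDegree_pos χ.2).ne' hrd
                omega
              · exact mk_ppart hsx ⟨1, by rw [hs, pow_one]⟩ (by
                  rw [hx]; exact fun h => hpr ((Nat.prime_dvd_prime_iff_eq hr.out hp.out).1 h).symm)
              · rw [Subgroup.mem_bot]
                intro h
                rw [h, orderOf_one] at hs
                exact hr.out.one_lt.ne hs
            rw [hz, map_zero, mul_zero]
          · exfalso
            apply ht
            have hpk : charDegree (χ : G → ℂ) ∣ p ^ a := by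
              have h3 : Nat.Coprime (charDegree (χ : G → ℂ)) (q ^ b * r) := by
                apply Nat.Coprime.mul_right
                · exact Nat.Coprime.pow_right b ((Nat.Prime.coprime_iff_not_dvd hq).2 hqd).symm
                · exact ((Nat.Prime.coprime_iff_not_dvd hr.out).2 hrd).symm
              rw [mul_assoc] at hdvd
              exact h3.dvd_of_dvd_mul_right hdvd
            obtain ⟨k, -, hk⟩ := (Nat.dvd_prime_pow hp.out).1 hpk
            have := triv_of_degree hM hna χ hχ k (by rw [← charDegree_eq χ.2, hk, Nat.cast_pow])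
            exact Subtype.ext this
    · refine ⟨0, isIntegral_zero, ?_⟩
      rw [if_neg hχ, if_neg]
      · ring
      · rintro rfl
        exact hχ triv_mem
  choose c hc hc2 using h2
  have h3 : (1 : ℂ) + q * ∑ χ, c χ = 0 := by
    rw [← h1, Finset.sum_congr rfl fun χ _ => hc2 χ, Finset.sum_add_distrib, ← Finset.mul_sum,
      Finset.sum_ite_eq' Finset.univ (triv G), if_pos (Finset.mem_univ _)]
  haveI : Fact q.Prime := ⟨hq⟩
  obtain ⟨M'', hM''⟩ := Cfsg.Agent.H10.BlockKn.exists_modular hq
  haveI := hM''.2.1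
  have h4 : MemLocalIdeal M'' ((q : ℂ) * ∑ χ, c χ) :=
    ideal_mul_right ((ideal_natCast_iff hM'' q).2 dvd_rfl)
      (ring_sum _ _ fun χ _ => memLocalRing_of_integral (Ideal.IsPrime.ne_top inferInstance) (hc χ))
  have h5 : (q : ℂ) * ∑ χ, c χ = -1 := by linear_combination h3
  rw [h5] at h4
  have h6 := ideal_neg h4
  rw [neg_neg] at h6
  exact one_notMem_ideal h6

/-- Let G be a finite simple group of order p ^ a * q ^ b * r with p, q, r distinct primes. Then every Sylow r-subgroup S of G satisfies C_G(S) = S. -/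
theorem result {G : Type*} [Group G] [Finite G] [IsSimpleGroup G] (p q r a b : ℕ) (hp : p.Prime) (hq : q.Prime) [Fact r.Prime] (hpq : p ≠ q) (hpr : p ≠ r) (hqr : q ≠ r) (hcard : Nat.card G = p ^ a * q ^ b * r) (S : Sylow r G) : Subgroup.centralizer (S : Set G) = (S : Subgroup G) := by
  haveI := Fintype.ofFinite G
  haveI : Fact p.Prime := ⟨hp⟩
  haveI : Fact q.Prime := ⟨hq⟩
  have hr := (Fact.out : r.Prime)
  have e1 : (Nat.card G).factorization r = 1 := by
    rw [hcard, Nat.factorization_mul (mul_ne_zero (pow_ne_zero _ hp.ne_zero) (pow_ne_zero _ hq.ne_zero))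
      hr.ne_zero, Nat.factorization_mul (pow_ne_zero _ hp.ne_zero) (pow_ne_zero _ hq.ne_zero),
      hp.factorization_pow, hq.factorization_pow, Finsupp.add_apply, Finsupp.add_apply,
      Finsupp.single_apply, Finsupp.single_apply, if_neg hpr, if_neg hqr, hr.factorization_self, zero_add, zero_add]
  have hS : Nat.card (S : Subgroup G) = r := by
    rw [S.card_eq_multiplicity, e1, pow_one]
  haveI : IsCyclic (S : Subgroup G) := isCyclic_of_prime_card hS
  have hSC : (S : Subgroup G) ≤ Subgroup.centralizer (S : Set G) := by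
    intro x hx
    rw [Subgroup.mem_centralizer_iff]
    intro y hy
    letI := IsCyclic.commGroup (α := (S : Subgroup G))
    exact congrArg Subtype.val (mul_comm (⟨y, hy⟩ : (S : Subgroup G)) ⟨x, hx⟩)
  apply le_antisymm _ hSC
  -- a generator of S
  obtain ⟨s, hs⟩ := exists_prime_orderOf_dvd_card' r (by rw [hS] : r ∣ Nat.card (S : Subgroup G))
  -- every element has r-power order
  have key : ∀ ℓ : ℕ, ℓ.Prime → ℓ ≠ r → ¬ ℓ ∣ Nat.card (Subgroup.centralizer (S : Set G)) := by
    intro ℓ hℓ hne hdvd
    haveI : Fact ℓ.Prime := ⟨hℓ⟩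
    obtain ⟨x, hx⟩ := exists_prime_orderOf_dvd_card' ℓ hdvd
    have h1 : (s : G) * x = x * s := (Subgroup.mem_centralizer_iff.1 x.2) s s.2
    have h2 : ℓ ∣ p ^ a * q ^ b * r := by
      rw [← hcard]; exact hdvd.trans (Subgroup.card_subgroup_dvd_card _)
    rcases (Nat.Prime.dvd_mul hℓ).1 h2 with h | h
    · rcases (Nat.Prime.dvd_mul hℓ).1 h with h | h
      · have h3 := (Nat.prime_dvd_prime_iff_eq hℓ hp).1 (hℓ.dvd_of_dvd_pow h)
        subst h3
        exact aux (G := G) ℓ q r a b hq hpr hqr hcard (s : G) (x : G) (by rw [Subgroup.orderOf_coe]; exact hs)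
          (by rw [Subgroup.orderOf_coe]; exact hx) h1
      · have h3 := (Nat.prime_dvd_prime_iff_eq hℓ hq).1 (hℓ.dvd_of_dvd_pow h)
        subst h3
        exact aux (G := G) ℓ p r b a hp hqr hpr (by rw [hcard]; ring) (s : G) (x : G) (by rw [Subgroup.orderOf_coe]; exact hs)
          (by rw [Subgroup.orderOf_coe]; exact hx) h1
    · exact hne ((Nat.prime_dvd_prime_iff_eq hℓ hr).1 h)
  have h3 : Nat.card (Subgroup.centralizer (S : Set G)) = r := by
    have h4 : Nat.card (Subgroup.centralizer (S : Set G)) ∣ Nat.card G := Subgroup.card_subgroup_dvd_card _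
    rw [hcard] at h4
    have h5 : Nat.Coprime (Nat.card (Subgroup.centralizer (S : Set G))) (p ^ a * q ^ b) := by
      apply Nat.Coprime.mul_right
      · exact Nat.Coprime.pow_right a ((Nat.Prime.coprime_iff_not_dvd hp).2 (key p hp hpr)).symm
      · exact Nat.Coprime.pow_right b ((Nat.Prime.coprime_iff_not_dvd hq).2 (key q hq hqr)).symm
    have h6 : Nat.card (Subgroup.centralizer (S : Set G)) ∣ r := h5.dvd_of_dvd_mul_left h4
    have h7 : r ∣ Nat.card (Subgroup.centralizer (S : Set G)) := by
      conv_lhs => rw [← hS]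
      exact Subgroup.card_dvd_of_le hSC
    exact Nat.dvd_antisymm h6 h7
  exact (Subgroup.eq_of_le_of_card_ge hSC (by rw [h3, hS])).ge

end Cfsg.Agent.S0904
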