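import Cfsg.Statements.S0906
import Cfsg.Agent.H10_BlockOrth

set_option autoImplicit false
open Cfsg

namespace Cfsg.Agent.S0906

/-- Let B be a block of the finite group G relative to a maximal ideal M of the algebraic integers containing the prime p. Then some element g represents a defect class of B: the idempotent coefficient of B at g is a local integer not in the local ideal at M, and the central characters of the members of B at g are not in the local ideal. -/
theorem result {G : Type*} [Group G] [Finite G] (p : ℕ) [Fact p.Prime] (M : Ideal Cfsg.AlgInt) (hM : Cfsg.IsPModular p M) (B : Set (Cfsg.IrrCharacter G)) (hB : Cfsg.IsPBlock M B) : ∃ g : G, Cfsg.IsDefectClass M B g := by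
  classical
  haveI := Fintype.ofFinite G
  haveI := hM.2.1
  haveI : Fintype (ConjClasses G) := Fintype.ofFinite _
  obtain ⟨χ, hχ⟩ := Cfsg.Agent.H10.BlockIdem.block_nonempty hB
  have h1 := Cfsg.Agent.H10.BlockIdem.om_eq_sum χ (Cfsg.Agent.H10.BlockIdem.eB B)
  rw [Cfsg.Agent.H10.BlockIdem.om_eB, if_pos hχ] at h1
  by_contra hcon
  push Not at hcon
  apply Cfsg.Agent.H10.BlockLoc.one_notMem_ideal (M := M)
  rw [h1]
  refine Cfsg.Agent.H10.BlockLoc.ideal_sum _ _ fun C _ => ?_
  set g := Cfsg.Agent.H10.BlockIdem.rep C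
  have hc := hcon g
  by_contra h2
  apply hc
  have hr := Cfsg.Agent.H10.BlockIdem.blockCoeff_mem (M := M) hB g
  have hr2 : MemLocalRing M (Cfsg.Agent.H10.BlockAlg.om χ (Cfsg.Agent.H10.BlockAlg.cs g)) :=
    Cfsg.Agent.H10.BlockIdem.om_cs_mem χ g
  refine ⟨hr, fun h3 => h2 (Cfsg.Agent.H10.BlockLoc.ideal_mul_right h3 hr2), ?_⟩
  intro ψ hψ h3
  apply h2
  refine Cfsg.Agent.H10.BlockLoc.ideal_mul_left hr ?_
  have h4 := Cfsg.Agent.H10.BlockIdem.om_sub_mem_of_sameBlock
    (Cfsg.Agent.H10.BlockIdem.block_sameBlock hB hχ hψ) (Cfsg.Agent.H10.BlockIdem.cs_mem_ZI (M := M) g)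
  rw [← Cfsg.Agent.H10.BlockAlg.om_cs] at h3
  have := Cfsg.Agent.H10.BlockLoc.ideal_add h4 h3
  rwa [sub_add_cancel] at this

end Cfsg.Agent.S0906
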