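import Cfsg.Statements.S0911
import Cfsg.Agent.H10_BlockMain

set_option autoImplicit false
open Cfsg

namespace Cfsg.Agent.S0911

/-- The min–max Theorem for defect classes. Let B be a block of the finite group G relative to a maximal ideal M of the algebraic integers containing the prime p, let g represent a defect class of B and let D be a Sylow p-subgroup of the centralizer of g (viewed in G). For any h: (a) if the idempotent coefficient of B at h is a local integer outside the local ideal, then some conjugate of D contains a Sylow p-subgroup of the centralizer of h; (b) if the central character of some member of B at h is outside the local ideal, then some conjugate of D is contained in a Sylow p-subgroup of the centralizer of h. -/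
theorem result {G : Type*} [Group G] [Finite G] (p : ℕ) [Fact p.Prime] (M : Ideal Cfsg.AlgInt) (hM : Cfsg.IsPModular p M) (B : Set (Cfsg.IrrCharacter G)) (hB : Cfsg.IsPBlock M B) (g : G) (hg : Cfsg.IsDefectClass M B g) (D : Sylow p (Subgroup.centralizer ({g} : Set G))) (h : G) : (Cfsg.MemLocalRing M (Cfsg.blockCoeff B h) → ¬ Cfsg.MemLocalIdeal M (Cfsg.blockCoeff B h) → ∃ (x : G) (Q : Sylow p (Subgroup.centralizer ({h} : Set G))), (Q : Subgroup (Subgroup.centralizer ({h} : Set G))).map (Subgroup.centralizer ({h} : Set G)).subtype ≤ ((D : Subgroup (Subgroup.centralizer ({g} : Set G))).map (Subgroup.centralizer ({g} : Set G)).subtype).map (MulAut.conj x).toMonoidHom) ∧ ((∃ χ ∈ B, ¬ Cfsg.MemLocalIdeal M (Cfsg.centralChar (χ : G → ℂ) h)) → ∃ (x : G) (Q : Sylow p (Subgroup.centralizer ({h} : Set G))), ((D : Subgroup (Subgroup.centralizer ({g} : Set G))).map (Subgroup.centralizer ({g} : Set G)).subtype).map (MulAut.conj x).toMonoidHom ≤ (Q : Subgroup (Subgroup.centralizer ({h} : Set G))).map (Subgroup.centralizer ({h} :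 Set G)).subtype) := by
  haveI := Fintype.ofFinite G
  haveI := hM.2.1
  set D' := (D : Subgroup (Subgroup.centralizer ({g} : Set G))).map (Subgroup.centralizer ({g} : Set G)).subtype with hD'
  have hDg : Cfsg.Agent.H10.BlockDefect.IsCSyl p g D' := ⟨D, rfl⟩
  have hDD : Cfsg.IsDefectGroup p M B D' := ⟨g, hg, hDg⟩
  constructor
  · intro _ hh
    obtain ⟨Q, hQ⟩ := Cfsg.Agent.H10.BlockDefect.exists_isCSyl (p := p) h
    obtain ⟨x, hx⟩ := Cfsg.Agent.H10.BlockDefect.le_defect_of_coeff hM hB hDD hh hQ.isPGroup
      hQ.mem_centralizer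
    obtain ⟨P, rfl⟩ := hQ
    exact ⟨x, P, hx⟩
  · rintro ⟨χ, hχ, hh⟩
    rw [← Cfsg.Agent.H10.BlockAlg.om_cs] at hh
    obtain ⟨h', hc, hh'⟩ := Cfsg.Agent.H10.BlockDefect.defect_centralizes hM hB hDD hχ hh
    obtain ⟨Q, hQ⟩ := Cfsg.Agent.H10.BlockDefect.exists_isCSyl (p := p) h
    obtain ⟨x, hx⟩ := Cfsg.Agent.H10.BlockDefect.le_conj_of_centralizes hc hQ hDg.isPGroup hh'
    obtain ⟨P, rfl⟩ := hQ
    refine ⟨x⁻¹, P, ?_⟩
    intro y hy
    rw [Cfsg.Agent.H10.BlockDefect.mem_conj_map] at hy
    have := hx hy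
    rw [Cfsg.Agent.H10.BlockDefect.mem_conj_map] at this
    simpa [mul_assoc] using this

end Cfsg.Agent.S0911
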