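import Cfsg.Statements.S0933
import Cfsg.Agent.S0932
import Cfsg.Agent.H10_BlockInd

set_option autoImplicit false
open Cfsg

namespace Cfsg.Agent.S0933

/-- Let H be a subgroup of the finite group G and ξ an irreducible character of H such that the induced function ξ^G is an irreducible character of G. Then, relative to any maximal ideal M of the algebraic integers containing the prime p, the block of ξ induces the block of ξ^G. -/
theorem result {G : Type*} [Group G] [Fintype G] (p : ℕ) [Fact p.Prime] (M : Ideal Cfsg.AlgInt) (hM : Cfsg.IsPModular p M) (H : Subgroup G) (ξ : Cfsg.IrrCharacter H) (hind : Cfsg.IsIrrCharacter G (Cfsg.indFun H (ξ : H → ℂ))) : Cfsg.IsInducedBlock M H (Cfsg.blockOf M (ξ : H → ℂ)) (Cfsg.blockOf M (Cfsg.indFun H (ξ : H → ℂ))) := by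
  classical
  haveI := hM.2.1
  haveI : Fintype H := Fintype.ofFinite H
  haveI : Fintype (ConjClasses G) := Fintype.ofFinite _
  let χ : IrrCharacter G := ⟨indFun H (ξ : H → ℂ), hind⟩
  apply Cfsg.Agent.H10.BlockInd.isInducedBlock_of_mem H (ξ := ξ) (χ := χ)
    (Cfsg.Agent.H10.BlockIdem.isPBlock_blockOf ξ) (Cfsg.Agent.H10.BlockIdem.isPBlock_blockOf χ)
    (Cfsg.Agent.H10.BlockIdem.mem_blockOf_self ξ) (Cfsg.Agent.H10.BlockIdem.mem_blockOf_self χ)
  intro z hz
  have key : ∀ g : G, Cfsg.Agent.H10.BlockAlg.om ξ (Cfsg.Agent.H10.BlockInd.truncZ H (Cfsg.Agent.H10.BlockAlg.cs g)) =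
      Cfsg.Agent.H10.BlockAlg.om χ (Cfsg.Agent.H10.BlockAlg.cs g) := by
    intro g
    rw [Cfsg.Agent.H10.BlockInd.om_truncZ_cs, Cfsg.Agent.H10.BlockAlg.om_cs]
    exact Cfsg.Agent.S0932.result H (ξ : H → ℂ) (Cfsg.Agent.H10.Char.isChar_of_irr ξ.2) g
  rw [Cfsg.Agent.H10.BlockInd.om_truncZ_eq_sum, Cfsg.Agent.H10.BlockIdem.om_eq_sum χ]
  rw [Finset.sum_congr rfl fun C _ => by rw [key], sub_self]
  exact Cfsg.Agent.H10.BlockLoc.ideal_zero

end Cfsg.Agent.S0933
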