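import Cfsg.Statements.S0936
import Cfsg.Agent.H10_BlockK

set_option autoImplicit false
open Cfsg

namespace Cfsg.Agent.S0936

/-- Brauer's Third Main Theorem. Let H be a subgroup of the finite group G and b a block of H (relative to a maximal ideal M of the algebraic integers containing the prime p) whose induced block in G is defined. Then b induces the principal block of G if and only if b is the principal block of H. -/
theorem result {G : Type*} [Group G] [Finite G] (p : ℕ) [Fact p.Prime] (M : Ideal Cfsg.AlgInt) (hM : Cfsg.IsPModular p M) (H : Subgroup G) (b : Set (Cfsg.IrrCharacter H)) (hdef : Cfsg.InducedBlockDefined M H b) : Cfsg.IsInducedBlock M H b (Cfsg.principalBlock M G) ↔ b = Cfsg.principalBlock M H := by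
  haveI := Fintype.ofFinite G
  haveI := Fintype.ofFinite H
  haveI := hM.2.1
  let χ : IrrCharacter G := ⟨fun _ => 1, Cfsg.Agent.H3.CharInd.isIrr_one⟩
  let ψ : IrrCharacter H := ⟨fun _ => 1, Cfsg.Agent.H3.CharInd.isIrr_one⟩
  have h1 : ∀ (K : Type _) [Group K], charDegree (fun _ : K => (1 : ℂ)) = 1 := by
    intro K _
    unfold charDegree
    simp
  have h0 : ∀ (K : Type _) [Group K] (B : Set (IrrCharacter K)),
      blockHeight p B (fun _ : K => (1 : ℂ)) = 0 := by
    intro K _ B
    unfold blockHeight
    rw [h1 K, Nat.factorization_one]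
    simp
  exact Cfsg.Agent.H10.BlockK.okuyama (χ := χ) (ψ := ψ) hM H (fun _ => rfl)
    (Cfsg.Agent.H10.BlockIdem.isPBlock_blockOf χ) (Cfsg.Agent.H10.BlockIdem.mem_blockOf_self χ)
    (Cfsg.Agent.H10.BlockIdem.isPBlock_blockOf ψ) (Cfsg.Agent.H10.BlockIdem.mem_blockOf_self ψ)
    (h0 G _) (h0 H _) hdef

end Cfsg.Agent.S0936
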