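import Cfsg.Statements.S0946
import Cfsg.Agent.H10_Homo

set_option autoImplicit false
open Cfsg

namespace Cfsg.Agent.S0946

/-- Let P be a Sylow 2-subgroup of the finite group G isomorphic to Z/2^m × Z/2^m with m ≥ 1. Then either P has a normal complement in G, or all involutions of G are conjugate. -/
theorem result {G : Type*} [Group G] [Finite G] (P : Sylow 2 G) (m : ℕ) (hm : 1 ≤ m) (e : (P : Subgroup G) ≃* Multiplicative (ZMod (2 ^ m) × ZMod (2 ^ m))) : (∃ N : Subgroup G, N.Normal ∧ Subgroup.IsComplement' N (P : Subgroup G)) ∨ ∀ s t : G, orderOf s = 2 → orderOf t = 2 → IsConj s t := by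
  have h := Cfsg.Agent.H10.Homo.R2.of_equiv hm e
  by_cases hr : (Subgroup.centralizer ((P : Subgroup G) : Set G)).relIndex (Subgroup.normalizer ((P : Subgroup G) : Set G)) = 1
  · left
    have hN : Subgroup.normalizer ((P : Subgroup G) : Set G) ≤ Subgroup.centralizer ((P : Subgroup G) : Set G) :=
      Subgroup.relIndex_eq_one.1 hr
    exact ⟨(MonoidHom.transferSylow P hN).ker, inferInstance, MonoidHom.ker_transferSylow_isComplement' P hN⟩
  · right
    exact Cfsg.Agent.H10.Homo.conj_of_relIndex P h hr

end Cfsg.Agent.S0946
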