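import Cfsg.Statements.S0948
import Cfsg.Agent.H10_BlockV4

set_option autoImplicit false
open Cfsg

namespace Cfsg.Agent.S0948

/-- Let the finite group G have a Sylow 2-subgroup P that is a Klein four-group, suppose all involutions of G are conjugate, and fix a maximal ideal M of the algebraic integers containing 2. Then the principal block consists of exactly four irreducible characters, the principal character and ζ₂, ζ₃, ζ₄, and there is a sign ε such that for every involution z: ζ₂ z = 1, ζ₃ z = ε, ζ₄ z = -1; moreover ζ₂ 1 ≡ 1, ζ₃ 1 ≡ ε, ζ₄ 1 ≡ -1 (mod 4), and 1 + ζ₂ y + ε ζ₃ y - ζ₄ y = 0 for every y of odd order. -/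
theorem result {G : Type*} [Group G] [Finite G] (M : Ideal Cfsg.AlgInt) (hM : Cfsg.IsPModular 2 M) (P : Sylow 2 G) (hP : IsKleinFour (P : Subgroup G)) (hone : ∀ s t : G, orderOf s = 2 → orderOf t = 2 → IsConj s t) : ∃ ζ₂ ζ₃ ζ₄ : Cfsg.IrrCharacter G, ∃ ε : ℤ, (ε = 1 ∨ ε = -1) ∧ (ζ₂ : G → ℂ) ≠ (fun _ => 1) ∧ (ζ₃ : G → ℂ) ≠ (fun _ => 1) ∧ ζ₂ ≠ ζ₃ ∧ ζ₂ ≠ ζ₄ ∧ ζ₃ ≠ ζ₄ ∧ Cfsg.principalBlock M G = {χ : Cfsg.IrrCharacter G | (χ : G → ℂ) = (fun _ => 1) ∨ χ = ζ₂ ∨ χ = ζ₃ ∨ χ = ζ₄} ∧ (∀ z : G, orderOf z = 2 → (ζ₂ : G → ℂ) z = 1 ∧ (ζ₃ : G → ℂ) z = (ε : ℂ) ∧ (ζ₄ : G → ℂ) z = -1) ∧ (4 : ℤ) ∣ (Cfsg.charDegree (ζ₂ : G → ℂ) : ℤ) - 1 ∧ (4 : ℤ) ∣ (Cfsg.charDegree (ζ₃ : G → ℂ) : ℤ) - ε ∧ (4 : ℤ) ∣ (Cfsg.charDegree (ζ₄ : G → ℂ) : ℤ) + 1 ∧ ∀ y : G, Odd (orderOf y) → 1 + (ζ₂ : G → ℂ) y + (ε : ℂ) * (ζ₃ : G → ℂ) y - (ζ₄ : G → ℂ) y =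 0 := by
  haveI := Fintype.ofFinite G
  haveI := hM.2.1
  obtain ⟨ζ₂, ζ₃, ζ₄, ε, hε, h2t, h3t, h4t, h23, h24, h34, hmem, hval, hd2, hd3, hd4, hrel⟩ :=
    Cfsg.Agent.H10.BlockV4.v4_structure hM P hP hone
  have htriv : ∀ χ : IrrCharacter G, χ = Cfsg.Agent.H10.BlockKer.triv G ↔ (χ : G → ℂ) = (fun _ => 1) := by
    intro χ
    constructor
    · rintro rfl; rfl
    · intro h; exact Subtype.ext h
  refine ⟨ζ₂, ζ₃, ζ₄, ε, hε, fun h => h2t ((htriv _).2 h), fun h => h3t ((htriv _).2 h), h23, h24, h34, ?_,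
    fun z hz => hval z (by rw [hz]), hd2, hd3, hd4, fun y hy => hrel y ?_⟩
  · ext χ
    rw [hmem, htriv]
    rfl
  · intro h
    exact (Nat.not_even_iff_odd.2 hy) (even_iff_two_dvd.2 h)

end Cfsg.Agent.S0948
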