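import Cfsg.Statements.S0959
import Cfsg.Agent.H10_BlockFMT2

set_option autoImplicit false
open Cfsg

namespace Cfsg.Agent.S0959

/-- Let B be a block of the finite group G with defect group D (relative to a maximal ideal M of the algebraic integers containing the prime p), and let P be a p-subgroup. Then there is an element g whose idempotent coefficient for B is a local integer outside the local ideal at M and which has a conjugate centralizing P, if and only if some conjugate of P is contained in D. -/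
theorem result {G : Type*} [Group G] [Finite G] (p : ℕ) [Fact p.Prime] (M : Ideal Cfsg.AlgInt) (hM : Cfsg.IsPModular p M) (B : Set (Cfsg.IrrCharacter G)) (hB : Cfsg.IsPBlock M B) (D : Subgroup G) (hD : Cfsg.IsDefectGroup p M B D) (P : Subgroup G) (hP : IsPGroup p P) : (∃ g : G, Cfsg.MemLocalRing M (Cfsg.blockCoeff B g) ∧ ¬ Cfsg.MemLocalIdeal M (Cfsg.blockCoeff B g) ∧ ∃ c : G, IsConj g c ∧ c ∈ Subgroup.centralizer (P : Set G)) ↔ ∃ x : G, P.map (MulAut.conj x).toMonoidHom ≤ D := by
  haveI := Fintype.ofFinite G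
  haveI := hM.2.1
  constructor
  · rintro ⟨g, _, hg, c, hc, hcP⟩
    have h1 : ¬ MemLocalIdeal M (blockCoeff B c) := by
      obtain ⟨x, hx⟩ := isConj_iff.1 hc
      haveI : Fintype (IrrCharacter G) := Fintype.ofFinite _
      rw [← hx, Cfsg.Agent.H10.BlockIdem.blockCoeff_class B]
      exact hg
    obtain ⟨x, hx⟩ := Cfsg.Agent.H10.BlockDefect.le_defect_of_coeff hM hB hD h1 hP hcP
    refine ⟨x⁻¹, ?_⟩
    intro y hy
    rw [Cfsg.Agent.H10.BlockDefect.mem_conj_map] at hy
    have h2 := hx hy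
    rw [Cfsg.Agent.H10.BlockDefect.mem_conj_map] at h2
    have e : x⁻¹ * (x⁻¹⁻¹ * y * x⁻¹) * x = y := by group
    rwa [e] at h2
  · rintro ⟨x, hx⟩
    obtain ⟨g, hg, hDg⟩ := Cfsg.Agent.H10.BlockDefect.isDefectGroup_iff.1 hD
    refine ⟨g, hg.1, hg.2.1, x⁻¹ * g * x, isConj_iff.2 ⟨x⁻¹, by group⟩, ?_⟩
    rw [Subgroup.mem_centralizer_iff]
    intro u hu
    have h3 : x * u * x⁻¹ ∈ D := hx (Cfsg.Agent.H10.BlockDefect.mem_conj_map.2 (by
      have : x⁻¹ * (x * u * x⁻¹) * x = u := by group
      rw [this]; exact hu))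
    have h4 := Subgroup.mem_centralizer_singleton_iff.1 (hDg.le h3)
    calc u * (x⁻¹ * g * x) = x⁻¹ * ((x * u * x⁻¹) * g) * x := by group
      _ = x⁻¹ * (g * (x * u * x⁻¹)) * x := by rw [h4]
      _ = x⁻¹ * g * x * u := by group

end Cfsg.Agent.S0959
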