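import Cfsg.Statements.S0966
import Cfsg.Agent.H10_BlockCov

set_option autoImplicit false
open Cfsg

namespace Cfsg.Agent.S0966

/-- Let N be a normal subgroup of p-power index in the finite group G and b a block of N relative to a maximal ideal M of the algebraic integers containing p. Then there is exactly one block B of G containing a character whose restriction to N has a constituent in b. -/
theorem result {G : Type*} [Group G] [Fintype G] (p : ℕ) [Fact p.Prime] (M : Ideal Cfsg.AlgInt) (hM : Cfsg.IsPModular p M) (N : Subgroup G) [N.Normal] [Fintype N] (hidx : ∃ k : ℕ, N.index = p ^ k) (b : Set (Cfsg.IrrCharacter N)) (hb : Cfsg.IsPBlock M b) : ∃! B : Set (Cfsg.IrrCharacter G), Cfsg.IsPBlock M B ∧ ∃ χ ∈ B, ∃ θ ∈ b, Cfsg.classInner (fun n : N => (χ : G → ℂ) n) (θ : N → ℂ) ≠ 0 := by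
  haveI := hM.2.1
  haveI : Fintype (IrrCharacter N) := Fintype.ofFinite _
  obtain ⟨θ, hθ⟩ := Cfsg.Agent.H10.BlockIdem.block_nonempty hb
  obtain ⟨χ, hχ, h1⟩ := Cfsg.Agent.H3.CharMult.exists_constituent_ind (H := N) θ.2
  rw [Cfsg.Agent.H3.CharInd.frobenius N (θ : N → ℂ) χ (Cfsg.Agent.H3.CharIrr.IsIrr.isClass hχ)] at h1
  have h2 : Cfsg.classInner (fun n : N => χ n) (θ : N → ℂ) ≠ 0 := by
    rw [← Cfsg.Agent.H3.CharIrr.ci_conj_symm]
    intro h
    apply h1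
    rwa [map_eq_zero] at h
  refine ⟨blockOf M χ, ⟨⟨⟨χ, hχ⟩, rfl⟩, ⟨χ, hχ⟩, Cfsg.Agent.H10.BlockIdem.mem_blockOf_self ⟨χ, hχ⟩, θ, hθ, h2⟩, ?_⟩
  rintro B' ⟨hB', h'⟩
  exact Cfsg.Agent.H10.BlockCov.covering_unique inferInstance hM hidx hB' ⟨⟨χ, hχ⟩, rfl⟩ hb h'
    ⟨⟨χ, hχ⟩, Cfsg.Agent.H10.BlockIdem.mem_blockOf_self ⟨χ, hχ⟩, θ, hθ, h2⟩

end Cfsg.Agent.S0966
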