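import Cfsg.Statements.S0973
import Cfsg.Agent.H10_BlockEFM

set_option autoImplicit false
open Cfsg

namespace Cfsg.Agent.S0973

/-- Let B be a block of the finite group G with defect group P (relative to a maximal ideal M of the algebraic integers containing p), and let L = P ⊔ C_G(P). Then (i) some block b of L with defect group P (viewed in L) induces B, and (ii) if b and b' are blocks of L both inducing B, there is n ∈ N_G(P) carrying b to b': for every θ ∈ b there is θ' ∈ b' with θ' x = θ (n x n⁻¹) for all x ∈ L. -/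
theorem result {G : Type*} [Group G] [Finite G] (p : ℕ) [Fact p.Prime] (M : Ideal Cfsg.AlgInt) (hM : Cfsg.IsPModular p M) (B : Set (Cfsg.IrrCharacter G)) (hB : Cfsg.IsPBlock M B) (P : Subgroup G) (hP : Cfsg.IsDefectGroup p M B P) : (∃ b : Set (Cfsg.IrrCharacter ↥(P ⊔ Subgroup.centralizer (P : Set G))), Cfsg.IsDefectGroup p M b (P.subgroupOf (P ⊔ Subgroup.centralizer (P : Set G))) ∧ Cfsg.IsInducedBlock M (P ⊔ Subgroup.centralizer (P : Set G)) b B) ∧ ∀ b b' : Set (Cfsg.IrrCharacter ↥(P ⊔ Subgroup.centralizer (P : Set G))), Cfsg.IsInducedBlock M (P ⊔ Subgroup.centralizer (P : Set G)) b B → Cfsg.IsInducedBlock M (P ⊔ Subgroup.centralizer (P : Set G)) b' B → ∃ n ∈ Subgroup.normalizer (P : Set G), ∀ θ ∈ b, ∃ θ' ∈ b', ∀ x : ↥(P ⊔ Subgroup.centralizer (P : Set G)), ∀ hx : n * (x : G) * n⁻¹ ∈ P ⊔ Subgroup.centralizer (P : Set G), (θ' : ↥(P ⊔ Subgroup.centralizer (P : Set G)) → ℂ) x = (θ : ↥(P ⊔ Subgroup.centralizer (P : Set G)) → ℂ) ⟨n * (x : G) * n⁻¹, hx⟩ := by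
  haveI := Fintype.ofFinite G
  haveI := hM.2.1
  have hPp := Cfsg.Agent.H10.BlockDefect.IsDefectGroup.isPGroup' hP
  set C : Subgroup G := P ⊔ Subgroup.centralizer (P : Set G) with hC
  haveI : Fintype C := Fintype.ofFinite _
  have hPC : P ≤ C := le_sup_left
  have hCC : Subgroup.centralizer (P : Set G) ≤ C := le_sup_right
  have hCN : C ≤ Subgroup.normalizer (P : Set G) :=
    sup_le Subgroup.le_normalizer (Cfsg.Agent.H10.BlockSMT2.centralizer_le_normalizer P)
  have hnorm : (C.subgroupOf (Subgroup.normalizer (P : Set G))).Normal := by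
    constructor
    intro x hx n
    rw [Subgroup.mem_subgroupOf] at hx ⊢
    have h1 : C.map (MulAut.conj (n : G)).toMonoidHom ≤ C := by
      rw [hC, Subgroup.map_sup]
      apply sup_le
      · refine le_trans ?_ le_sup_left
        intro y hy
        rw [Cfsg.Agent.H10.BlockDefect.mem_conj_map] at hy
        have h2 := (Subgroup.mem_normalizer_iff.1 n.2 _).1 hy
        have e : (n : G) * ((n : G)⁻¹ * y * n) * (n : G)⁻¹ = y := by group
        rwa [e] at h2
      · refine le_trans ?_ le_sup_right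
        intro y hy
        rw [Cfsg.Agent.H10.BlockDefect.mem_conj_map] at hy
        have h2 := Cfsg.Agent.H10.BlockFMT2.conj_mem_centralizer n.2 hy
        have e : (n : G) * ((n : G)⁻¹ * y * n) * (n : G)⁻¹ = y := by group
        rwa [e] at h2
    apply h1
    rw [Cfsg.Agent.H10.BlockDefect.mem_conj_map]
    have e : (n : G)⁻¹ * ((n * x * n⁻¹ : Subgroup.normalizer (P : Set G)) : G) * n = x := by
      simp only [Subgroup.coe_mul, Subgroup.coe_inv]; group
    rw [e]; exact hx
  constructor
  · obtain ⟨b, hb, hind⟩ := Cfsg.Agent.H10.BlockFMT.exists_inducing_of_le_defect P C hM hPp hPC hCC hCN hB hP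
      (x := 1) (by rw [Cfsg.Agent.H10.BlockDefect.conj_map_one])
    exact ⟨b, Cfsg.Agent.H10.BlockFMT2.defect_of_inducing hM hPp hPC hCN hB hP hind, hind⟩
  · intro b b' h h'
    exact Cfsg.Agent.H10.BlockEFM.extended_unique hM hPC hCC hCN hnorm hB hP h h'

end Cfsg.Agent.S0973
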