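import Cfsg.Statements.S0985
import Mathlib

set_option autoImplicit false
open Cfsg

namespace Cfsg.Agent.S0985

theorem card_modEq {P X : Type*} [Group P] [MulAction P X] [Finite X] (m : ℕ) (x₀ : X)
    (h0 : ∀ g : P, g • x₀ = x₀) (h : ∀ x, x ≠ x₀ → m ∣ Nat.card (MulAction.orbit P x)) : Nat.card X ≡ 1 [MOD m] := by
  classical
  haveI : Finite (MulAction.orbitRel.Quotient P X) := Quotient.finite _
  letI := Fintype.ofFinite (MulAction.orbitRel.Quotient P X)
  rw [Nat.card_congr (MulAction.selfEquivSigmaOrbits' P X), Nat.card_sigma]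
  rw [← Finset.add_sum_erase _ _ (Finset.mem_univ (Quotient.mk'' x₀ : MulAction.orbitRel.Quotient P X))]
  have h1 : Nat.card (MulAction.orbitRel.Quotient.orbit (Quotient.mk'' x₀ : MulAction.orbitRel.Quotient P X)) = 1 := by
    rw [MulAction.orbitRel.Quotient.orbit_mk]
    rw [Nat.card_eq_one_iff_unique]
    refine ⟨⟨?_⟩, ⟨⟨x₀, MulAction.mem_orbit_self _⟩⟩⟩
    rintro ⟨_, g, rfl⟩ ⟨_, k, rfl⟩
    apply Subtype.ext
    change g • x₀ = k • x₀
    rw [h0, h0]
  rw [h1]
  have h2 : m ∣ ∑ ω ∈ (Finset.univ.erase (Quotient.mk'' x₀ : MulAction.orbitRel.Quotient P X)), Nat.card (MulAction.orbitRel.Quotient.orbit ω) := by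
    apply Finset.dvd_sum
    intro ω hω
    induction ω using Quotient.inductionOn' with
    | h x =>
      rw [MulAction.orbitRel.Quotient.orbit_mk]
      apply h
      rintro rfl
      exact (Finset.mem_erase.1 hω).1 rfl
  obtain ⟨k, hk⟩ := h2
  rw [hk]
  unfold Nat.ModEq
  simp

/-- If the number of Sylow p-subgroups of a finite group is not congruent to 1 modulo p^k, then there are two distinct Sylow p-subgroups P and R such that the index of P ∩ R in P is at most p^(k-1). -/
theorem result {G : Type*} [Group G] [Finite G] (p k : ℕ) [Fact p.Prime] (h : ¬ Nat.card (Sylow p G) ≡ 1 [MOD p ^ k]) : ∃ P R : Sylow p G, P ≠ R ∧ ((R : Subgroup G).subgroupOf (P : Subgroup G)).index ≤ p ^ (k - 1) := by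
  classical
  have hp : p.Prime := Fact.out
  by_contra hcon
  push Not at hcon
  apply h
  obtain ⟨P⟩ : Nonempty (Sylow p G) := inferInstance
  apply card_modEq (P := (P : Subgroup G)) (p ^ k) P
  · intro g
    change (g : G) • P = P
    rw [Sylow.smul_eq_iff_mem_normalizer]
    exact Subgroup.le_normalizer g.2
  · intro R hR
    have hst : MulAction.stabilizer (P : Subgroup G) R = (R : Subgroup G).subgroupOf (P : Subgroup G) := by
      ext g
      rw [Subgroup.mem_subgroupOf, MulAction.mem_stabilizer_iff]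
      change (g : G) • R = R ↔ _
      rw [Sylow.smul_eq_iff_mem_normalizer]
      constructor
      · intro hg
        have h1 := P.2.inf_normalizer_sylow R
        have h2 : (g : G) ∈ (P : Subgroup G) ⊓ Subgroup.normalizer (R : Set G) := ⟨g.2, hg⟩
        rw [h1] at h2
        exact h2.2
      · intro hg
        exact Subgroup.le_normalizer hg
    have h1 : Nat.card (MulAction.orbit (P : Subgroup G) R) = ((R : Subgroup G).subgroupOf (P : Subgroup G)).index := by
      rw [← hst, MulAction.index_stabilizer]; rfl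
    rw [h1]
    have h2 := hcon P R hR.symm
    obtain ⟨j, hj⟩ := (P.2.index ((R : Subgroup G).subgroupOf (P : Subgroup G)))
    rw [hj] at h2 ⊢
    apply pow_dvd_pow
    have h3 := (Nat.pow_lt_pow_iff_right hp.one_lt).1 h2
    omega

end Cfsg.Agent.S0985
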