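import Cfsg.Statements.S0987
import Mathlib

set_option autoImplicit false
open Cfsg

namespace Cfsg.Agent.S0987

/-- in a group of order `q * r`, `q < r`, the Sylow `r` is unique -/
theorem two {G : Type*} [Group G] [Finite G] (q r : ℕ) (hq : q.Prime) [hr : Fact r.Prime] (hqr : q < r)
    (hG : Nat.card G = q * r) : Subsingleton (Sylow r G) := by
  obtain ⟨R⟩ : Nonempty (Sylow r G) := inferInstance
  have h1 : Nat.card (Sylow r G) = 1 := by
    have h2 := card_sylow_modEq_one r G
    have h3 := R.card_dvd_index
    have h4 : (R : Subgroup G).index = q := by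
      have h5 := R.card_eq_multiplicity
      have h6 : (Nat.card G).factorization r = 1 := by
        rw [hG, Nat.factorization_mul hq.ne_zero hr.out.ne_zero, Finsupp.add_apply,
          Nat.Prime.factorization_self hr.out, Nat.factorization_eq_zero_of_not_dvd]
        intro h
        have := (Nat.prime_dvd_prime_iff_eq hr.out hq).1 h
        omega
      rw [h6, pow_one] at h5
      have h7 := Subgroup.card_mul_index (R : Subgroup G)
      rw [h5, hG, mul_comm] at h7
      exact Nat.eq_of_mul_eq_mul_right hr.out.pos h7
    rw [h4] at h3
    rcases (Nat.dvd_prime hq).1 h3 with h | h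
    · exact h
    · exfalso
      rw [h] at h2
      unfold Nat.ModEq at h2
      rw [Nat.mod_eq_of_lt hqr, Nat.mod_eq_of_lt hr.out.one_lt] at h2
      rw [h2] at hq
      exact Nat.not_prime_one hq
  exact (Nat.card_eq_one_iff_unique.1 h1).1

/-- If a finite group has order pqr for primes p < q < r, then its Sylow r-subgroups are normal. -/
theorem result {G : Type*} [Group G] [Finite G] (p q r : ℕ) (hp : p.Prime) (hq : q.Prime) [Fact r.Prime] (hpq : p < q) (hqr : q < r) (hG : Nat.card G = p * q * r) (R : Sylow r G) : (R : Subgroup G).Normal := by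
  have hr : r.Prime := Fact.out
  haveI : Fact p.Prime := ⟨hp⟩
  have hmin : (Nat.card G).minFac = p := by
    have h1 : (Nat.card G).minFac.Prime := Nat.minFac_prime (by
      rw [hG]
      intro h
      have := Nat.eq_one_of_mul_eq_one_left h
      exact hr.one_lt.ne' this)
    have h2 : (Nat.card G).minFac ∣ p * q * r := by rw [← hG]; exact Nat.minFac_dvd _
    have h3 : (Nat.card G).minFac ≤ p := Nat.minFac_le_of_dvd hp.two_le (by rw [hG, mul_assoc]; exact dvd_mul_right _ _)
    rcases (Nat.Prime.dvd_mul h1).1 h2 with h | h
    · rcases (Nat.Prime.dvd_mul h1).1 h with h | h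
      · exact (Nat.prime_dvd_prime_iff_eq h1 hp).1 h
      · have := (Nat.prime_dvd_prime_iff_eq h1 hq).1 h
        omega
    · have := (Nat.prime_dvd_prime_iff_eq h1 hr).1 h
      omega
  obtain ⟨P⟩ : Nonempty (Sylow p G) := inferInstance
  have hPcard : Nat.card (P : Subgroup G) = p := by
    have h5 := P.card_eq_multiplicity
    have h6 : (Nat.card G).factorization p = 1 := by
      rw [hG, Nat.factorization_mul (Nat.mul_ne_zero hp.ne_zero hq.ne_zero) hr.ne_zero, Nat.factorization_mul hp.ne_zero hq.ne_zero,
        Finsupp.add_apply, Finsupp.add_apply,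
        Nat.Prime.factorization_self hp, Nat.factorization_eq_zero_of_not_dvd, Nat.factorization_eq_zero_of_not_dvd]
      · intro h
        have := (Nat.prime_dvd_prime_iff_eq hp hr).1 h
        omega
      · intro h
        have := (Nat.prime_dvd_prime_iff_eq hp hq).1 h
        omega
    rw [h6, pow_one] at h5
    exact h5
  have hPc : IsCyclic P := isCyclic_of_prime_card hPcard
  have hcompl := hPc.isComplement' hmin
  set K := (MonoidHom.transferSylow P (hPc.normalizer_le_centralizer hmin)).ker with hK
  have hKcard : Nat.card K = q * r := by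
    have h1 := hcompl.card_mul
    have h2 : Nat.card (P : Subgroup G) = p := hPcard
    have h3 : Nat.card K * p = (q * r) * p := by
      calc Nat.card K * p = Nat.card K * Nat.card (P : Subgroup G) := by rw [h2]
        _ = Nat.card G := h1
        _ = (q * r) * p := by rw [hG]; ring
    exact Nat.eq_of_mul_eq_mul_right hp.pos h3
  have hKidx : K.index = p := by
    have h1 := hcompl.symm.index_eq_card
    rw [h1]; exact hPcard
  have hRK : (R : Subgroup G) ≤ K := by
    have h1 : (K.subgroupOf (R : Subgroup G)).index ∣ p := by
      rw [← hKidx]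
      exact Subgroup.relIndex_dvd_index_of_normal _ _
    obtain ⟨j, hj⟩ := R.2.index (K.subgroupOf (R : Subgroup G))
    rw [← Subgroup.subgroupOf_eq_top, ← Subgroup.index_eq_one]
    rcases (Nat.dvd_prime hp).1 h1 with h | h
    · exact h
    · exfalso
      rw [hj] at h
      have h2 : r ∣ p := by
        rw [← h]
        apply dvd_pow_self
        rintro rfl
        rw [pow_zero] at h
        exact hp.one_lt.ne h
      have := (Nat.prime_dvd_prime_iff_eq hr hp).1 h2
      omega
  haveI := two (G := K) q r hq hqr hKcard
  have hchar : ((R.subtype hRK : Sylow r K) : Subgroup K).Characteristic := inferInstance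
  have := ConjAct.normal_of_characteristic_of_normal (H := K) (K := ((R.subtype hRK : Sylow r K) : Subgroup K))
  rw [Sylow.coe_subtype, Subgroup.subgroupOf_map_subtype, inf_of_le_left hRK] at this
  exact this

end Cfsg.Agent.S0987
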