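import Cfsg.Statements.S0988
import Mathlib
import Cfsg.Agent.H9_Small3
import Cfsg.Agent.H3_Burnside

set_option autoImplicit false
open Cfsg

namespace Cfsg.Agent.S0988

open Cfsg.Agent.H9.Small

theorem two_primes {G : Type*} [Group G] [Finite G] [IsSimpleGroup G] (hG : ¬ IsMulCommutative G) {s t a b : ℕ}
    (hs : s.Prime) (ht : t.Prime) (h : Nat.card G = s ^ a * t ^ b) : False := by
  have h1 := Cfsg.Agent.H3.Burnside.burnside _ G s t a b hs ht rfl h
  have h2 := (IsSimpleGroup.comm_iff_isSolvable (G := G)).2 h1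
  exact hG ⟨⟨h2⟩⟩

/-- for a prime `s` dividing `|G|` exactly once there is a prime `t ∣ |G|` dividing `s - 1` -/
theorem exists_dvd_sub_one {G : Type*} [Group G] [Finite G] [IsSimpleGroup G] (hG : ¬ IsMulCommutative G) {s : ℕ}
    [hs : Fact s.Prime] (m : ℕ) (h : Nat.card G = s ^ 1 * m) (hm : ¬ s ∣ m) :
    ∃ t : ℕ, t.Prime ∧ t ∣ Nat.card G ∧ t ∣ s - 1 := by
  let S : Sylow s G := default
  have hS := sylow_card S 1 m h hm
  rw [pow_one] at hS
  have hsG : s ∣ Nat.card G := by rw [h, pow_one]; exact dvd_mul_right _ _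
  have h1 := relIndex_centralizer_dvd S hS
  have h2 := relIndex_centralizer_ne_one hG hsG S
  obtain ⟨t, ht, htd⟩ := Nat.exists_prime_and_dvd h2
  refine ⟨t, ht, ?_, htd.trans h1⟩
  have h3 := card_centralizer_mul (S : Subgroup G)
  have h4 : t ∣ Nat.card (Subgroup.normalizer ((S : Subgroup G) : Set G)) := by
    rw [← h3]; exact dvd_mul_of_dvd_right htd _
  exact h4.trans (Subgroup.card_subgroup_dvd_card _)

theorem sq_case {G : Type*} [Group G] [Finite G] [IsSimpleGroup G] (hG : ¬ IsMulCommutative G) {p m : ℕ}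
    [hp : Fact p.Prime] (h : Nat.card G = p ^ 2 * m) (hm : ¬ p ∣ m) :
    ∃ s : ℕ, s.Prime ∧ s ∣ m ∧ (s ∣ p ^ 2 - 1 ∨ s ∣ p ^ 2 - p) := by
  classical
  let P : Sylow p G := default
  have hP := sylow_card P 2 m h hm
  have hpG : p ∣ Nat.card G := by rw [h]; exact dvd_mul_of_dvd_left (dvd_pow_self p two_ne_zero) _
  have hcomm : ∀ x ∈ (P : Subgroup G), ∀ y ∈ (P : Subgroup G), x * y = y * x := by
    intro x hx y hy
    have := IsPGroup.commutative_of_card_eq_prime_sq hP ⟨x, hx⟩ ⟨y, hy⟩
    exact congrArg Subtype.val this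
  have hPC : (P : Subgroup G) ≤ Subgroup.centralizer ((P : Subgroup G) : Set G) := by
    intro x hx
    rw [Subgroup.mem_centralizer_iff]
    intro y hy
    exact hcomm y hy x hx
  have h2 := relIndex_centralizer_ne_one hG hpG P
  obtain ⟨s, hs, hsd⟩ := Nat.exists_prime_and_dvd h2
  have hindex : (P : Subgroup G).index = m := by
    have h3 := Subgroup.card_mul_index (P : Subgroup G)
    rw [hP, h] at h3
    exact Nat.eq_of_mul_eq_mul_left (pow_pos hp.out.pos 2) h3
  have hsm : s ∣ m := by
    have h4 : (Subgroup.centralizer ((P : Subgroup G) : Set G)).relIndex (Subgroup.normalizer ((P : Subgroup G) : Set G)) ∣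
        (P : Subgroup G).relIndex (Subgroup.normalizer ((P : Subgroup G) : Set G)) :=
      Subgroup.relIndex_dvd_of_le_left _ hPC
    have h5 : (P : Subgroup G).relIndex (Subgroup.normalizer ((P : Subgroup G) : Set G)) ∣ (P : Subgroup G).index :=
      Subgroup.relIndex_dvd_index_of_le Subgroup.le_normalizer
    rw [hindex] at h5
    exact hsd.trans (h4.trans h5)
  refine ⟨s, hs, hsm, ?_⟩
  have hsp : s ≠ p := by rintro rfl; exact hm hsm
  -- element of order s in the automorphism group
  have key := Subgroup.card_dvd_of_injective _ (QuotientGroup.kerLift_injective (P : Subgroup G).normalizerMonoidHom)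
  rw [Subgroup.normalizerMonoidHom_ker] at key
  have hsA : s ∣ Nat.card (MulAut (P : Subgroup G)) := hsd.trans key
  haveI := Fact.mk hs
  obtain ⟨φ, hφ⟩ := exists_prime_orderOf_dvd_card' s hsA
  have hZ : IsPGroup s (Subgroup.zpowers φ) := by
    apply IsPGroup.of_card (n := 1)
    rw [Nat.card_zpowers, hφ, pow_one]
  have h6 := hZ.card_modEq_card_fixedPoints (P : Subgroup G)
  have hfix : ∀ x : (P : Subgroup G), x ∈ MulAction.fixedPoints (Subgroup.zpowers φ) (P : Subgroup G) ↔ φ x = x := by
    intro x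
    constructor
    · intro hx
      exact hx ⟨φ, Subgroup.mem_zpowers φ⟩
    · intro hx y
      have h7 : Subgroup.zpowers φ ≤ MulAction.stabilizer (MulAut (P : Subgroup G)) x :=
        (Subgroup.zpowers_le).2 hx
      exact h7 y.2
  let F : Subgroup (P : Subgroup G) :=
    { carrier := {x | φ x = x}
      mul_mem' := by
        intro a b ha hb
        simp only [Set.mem_setOf_eq, map_mul] at *
        rw [ha, hb]
      one_mem' := map_one φ
      inv_mem' := by
        intro a ha
        simp only [Set.mem_setOf_eq, map_inv] at *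
        rw [ha] }
  have hF : Nat.card (MulAction.fixedPoints (Subgroup.zpowers φ) (P : Subgroup G)) = Nat.card F := by
    apply Nat.card_congr
    exact Equiv.subtypeEquivRight (fun x => hfix x)
  rw [hF, hP] at h6
  have hFt : F ≠ ⊤ := by
    intro h7
    have : φ = 1 := by
      ext1 x
      have : x ∈ F := by rw [h7]; trivial
      exact this
    rw [this, orderOf_one] at hφ
    exact hs.one_lt.ne hφ
  have hFd : Nat.card F ∣ p ^ 2 := by rw [← hP]; exact Subgroup.card_subgroup_dvd_card F
  obtain ⟨i, hi, hFi⟩ := (Nat.dvd_prime_pow hp.out).1 hFd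
  have hF2 : Nat.card F ≠ p ^ 2 := by
    intro h7
    apply hFt
    apply Subgroup.eq_top_of_card_eq
    rw [h7, hP]
  have hi2 : i ≠ 2 := by rintro rfl; exact hF2 hFi
  have hle : Nat.card F ≤ p ^ 2 := Nat.le_of_dvd (pow_pos hp.out.pos 2) hFd
  have h8 : s ∣ p ^ 2 - Nat.card F := (Nat.modEq_iff_dvd' hle).1 h6.symm
  have hi' : i = 0 ∨ i = 1 := by omega
  rcases hi' with rfl | rfl
  · left; rwa [hFi, pow_zero] at h8
  · right; rwa [hFi, pow_one] at h8

theorem main {G : Type*} [Group G] [Finite G] [IsSimpleGroup G] (hG : ¬ IsMulCommutative G) {p q r : ℕ} (hp : p.Prime) (hq : q.Prime) (hr : r.Prime)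
    (hpq : p ≠ q) (hpr : p ≠ r) (hqr : q < r) (h : Nat.card G = p ^ 2 * q * r) : Nat.card G = 60 := by
  haveI := Fact.mk hp
  haveI := Fact.mk hq
  haveI := Fact.mk hr
  have hqr' : ¬ q ∣ r := fun h1 => by
    rcases (Nat.dvd_prime hr).1 h1 with h2 | h2
    · exact hq.one_lt.ne' h2
    · omega
  have hrq' : ¬ r ∣ q := fun h1 => by
    rcases (Nat.dvd_prime hq).1 h1 with h2 | h2
    · exact hr.one_lt.ne' h2
    · omega
  have hdiv : ∀ t : ℕ, t.Prime → t ∣ Nat.card G → t = p ∨ t = q ∨ t = r := by
    intro t ht h1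
    rw [h] at h1
    rcases ht.dvd_mul.1 h1 with h2 | h2
    · rcases ht.dvd_mul.1 h2 with h3 | h3
      · left; exact (Nat.prime_dvd_prime_iff_eq ht hp).1 (ht.dvd_of_dvd_pow h3)
      · right; left; exact (Nat.prime_dvd_prime_iff_eq ht hq).1 h3
    · right; right; exact (Nat.prime_dvd_prime_iff_eq ht hr).1 h2
  -- p < q
  obtain ⟨t, ht, htG, htq⟩ := exists_dvd_sub_one hG (s := q) (p ^ 2 * r) (by rw [h]; ring) (by
    intro h1
    rcases hq.dvd_mul.1 h1 with h2 | h2
    · exact hpq ((Nat.prime_dvd_prime_iff_eq hq hp).1 (hq.dvd_of_dvd_pow h2)).symm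
    · exact hqr' h2)
  have htle : t ≤ q - 1 := Nat.le_of_dvd (by have := hq.one_lt; omega) htq
  have hq1 := hq.one_lt
  have htp : t = p := by
    rcases hdiv t ht htG with h1 | h1 | h1 <;> omega
  subst htp
  have hpq1 : t < q := by omega
  obtain ⟨s, hs, hsm, hsd⟩ := sq_case (p := t) hG (m := q * r) (by rw [h]; ring) (by
    intro h1
    rcases hp.dvd_mul.1 h1 with h2 | h2
    · exact hpq ((Nat.prime_dvd_prime_iff_eq hp hq).1 h2)
    · exact hpr ((Nat.prime_dvd_prime_iff_eq hp hr).1 h2))
  have hsqr : s = q ∨ s = r := by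
    rcases hs.dvd_mul.1 hsm with h2 | h2
    · left; exact (Nat.prime_dvd_prime_iff_eq hs hq).1 h2
    · right; exact (Nat.prime_dvd_prime_iff_eq hs hr).1 h2
  have hst : t < s := by rcases hsqr with h1 | h1 <;> omega
  have ht1 := hp.one_lt
  have hs1 : s = t + 1 := by
    have h3 : s ∣ (t - 1) * (t + 1) ∨ s ∣ t * (t - 1) := by
      rcases hsd with h1 | h1
      · left
        have : t ^ 2 - 1 = (t - 1) * (t + 1) := by
          obtain ⟨u, rfl⟩ : ∃ u, t = u + 1 := ⟨t - 1, by omega⟩
          simp only [Nat.add_sub_cancel]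
          have : (u + 1) ^ 2 = u * (u + 1 + 1) + 1 := by ring
          omega
        rwa [this] at h1
      · right
        have : t ^ 2 - t = t * (t - 1) := by
          rw [Nat.mul_sub, mul_one, sq]
        rwa [this] at h1
    have hnt : ∀ u : ℕ, 0 < u → u ≤ t → ¬ s ∣ u := fun u hu hut h4 => by
      have := Nat.le_of_dvd hu h4
      omega
    rcases h3 with h4 | h4
    · rcases hs.dvd_mul.1 h4 with h5 | h5
      · exact absurd h5 (hnt _ (by omega) (by omega))
      · have := Nat.le_of_dvd (by omega) h5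
        omega
    · rcases hs.dvd_mul.1 h4 with h5 | h5
      · exact absurd h5 (hnt _ (by omega) le_rfl)
      · exact absurd h5 (hnt _ (by omega) (by omega))
  have ht2 : t = 2 := by
    rcases hp.eq_two_or_odd with h4 | h4
    · exact h4
    · rcases hs.eq_two_or_odd with h5 | h5 <;> omega
  subst ht2
  have hq3 : q = 3 := by
    rcases hsqr with h1 | h1
    · omega
    · exfalso; omega
  subst hq3
  -- |G| = 12 r
  have h12 : Nat.card G = r ^ 1 * 12 := by rw [h]; ring
  have hr12 : ¬ r ∣ 12 := by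
    intro h1
    have h2 := Nat.le_of_dvd (by norm_num) h1
    interval_cases r
    all_goals first
      | (exfalso; omega)
      | (exfalso; revert hr; decide)
  let R : Sylow r G := default
  obtain ⟨n, k, h1, h2, h3, h4, h5, h6, h7, -, h8, -⟩ := sylow_num hG 1 12 h12 hr12 one_ne_zero R
  have hn : n ≤ 12 := Nat.le_of_dvd (by norm_num) h2
  have hnr : r + 1 ≤ n := by
    by_contra hlt
    have h9 := Nat.div_add_mod n r
    rw [h3] at h9
    have h10 : n / r ≠ 0 := by
      intro h11
      rw [h11] at h9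
      omega
    have h11 : r ≤ r * (n / r) := Nat.le_mul_of_pos_right _ (Nat.pos_of_ne_zero h10)
    omega
  have hr11 : r ≤ 11 := by omega
  interval_cases n
  all_goals first
    | omega
    | skip
  all_goals
    interval_cases r
  all_goals first
    | omega
    | skip
  all_goals
    exfalso
    have hcR : Nat.card (R : Subgroup G) = 11 := by simpa using h6
    have hN : Nat.card (Subgroup.normalizer ((R : Subgroup G) : Set G)) = 11 := by
      rw [h7]; omega
    have hRN : (R : Subgroup G) = Subgroup.normalizer ((R : Subgroup G) : Set G) := by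
      apply Subgroup.eq_of_le_of_card_ge Subgroup.le_normalizer
      rw [hN, hcR]
    apply not_normalizer_le_centralizer hG (by rw [h12]; norm_num) R
    rw [← hRN]
    haveI : IsCyclic (R : Subgroup G) := isCyclic_of_prime_card (p := 11) hcR
    intro x hx
    rw [Subgroup.mem_centralizer_iff]
    intro y hy
    letI : CommGroup (R : Subgroup G) := IsCyclic.commGroup
    exact congrArg Subtype.val (mul_comm (⟨y, hy⟩ : (R : Subgroup G)) ⟨x, hx⟩)

/-- If a finite simple group has order p^2 * q * r with p, q and r prime, then its order is 60. -/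
theorem result {G : Type*} [Group G] [Finite G] [IsSimpleGroup G] (p q r : ℕ) (hp : p.Prime) (hq : q.Prime) (hr : r.Prime) (hG : Nat.card G = p ^ 2 * q * r) : Nat.card G = 60 := by
  have hnp : ¬ (Nat.card G).Prime := by
    rw [hG]
    intro h1
    rw [mul_assoc, sq, mul_assoc] at h1
    have h2 := Nat.prime_mul_iff.1 h1
    rcases h2 with ⟨-, h3⟩ | ⟨-, h3⟩
    · have h4 := Nat.eq_one_of_mul_eq_one_right h3
      exact hp.one_lt.ne' h4
    · exact hp.one_lt.ne' h3
  have hcomm := not_comm hnp
  by_cases h1 : p = q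
  · subst h1
    exact (two_primes hcomm hp hr (a := 3) (b := 1) (by rw [hG]; ring)).elim
  by_cases h2 : p = r
  · subst h2
    exact (two_primes hcomm hp hq (a := 3) (b := 1) (by rw [hG]; ring)).elim
  by_cases h3 : q = r
  · subst h3
    exact (two_primes hcomm hp hq (a := 2) (b := 2) (by rw [hG]; ring)).elim
  rcases Nat.lt_or_gt_of_ne h3 with h4 | h4
  · exact main hcomm hp hq hr h1 h2 h4 hG
  · exact main hcomm hp hr hq h2 h1 h4 (by rw [hG]; ring)

end Cfsg.Agent.S0988
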