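import Cfsg.Statements.S0989
import Mathlib
import Cfsg.Agent.H9_Small2

set_option autoImplicit false
open Cfsg

namespace Cfsg.Agent.S0989

/-- In the symmetric group on p or p + 1 letters, p a prime, the normalizer of a Sylow p-subgroup has order p * (p - 1). -/
theorem result {α : Type*} [Fintype α] [DecidableEq α] (p : ℕ) [Fact p.Prime] (hα : Fintype.card α = p ∨ Fintype.card α = p + 1) (P : Sylow p (Equiv.Perm α)) : Nat.card ↥(Subgroup.normalizer ((P : Subgroup (Equiv.Perm α)) : Set (Equiv.Perm α))) = p * (p - 1) := by
  have hp : p.Prime := Fact.out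
  have := hp.two_le
  exact H9.Small.card_normalizer_perm (by omega) (P : Subgroup (Equiv.Perm α)) (H9.Small.sylow_perm_card (by omega) (by omega) P)

end Cfsg.Agent.S0989
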