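import Cfsg.Statements.S0990
import Mathlib

set_option autoImplicit false
open Cfsg

namespace Cfsg.Agent.S0990

theorem key {G : Type*} [Group G] [Finite G] (A : Subgroup G) [A.Normal] {p : ℕ} [Fact p.Prime] (P : Sylow p G)
    (hPA : (P : Subgroup G) ≤ A) (hA : A.index = 2) :
    2 * Nat.card ↥(Subgroup.normalizer ((((P : Subgroup G).subgroupOf A : Subgroup ↥A) : Set ↥A))) =
      Nat.card ↥(Subgroup.normalizer ((P : Subgroup G) : Set G)) := by
  have htop : Subgroup.normalizer ((P : Subgroup G) : Set G) ⊔ A = ⊤ := P.normalizer_sup_eq_top' hPA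
  set N := Subgroup.normalizer ((P : Subgroup G) : Set G) with hN
  have h1 : A.relIndex N = 2 := by
    rw [← Subgroup.relIndex_sup_right, htop, Subgroup.relIndex_top_right, hA]
  have h2 : Nat.card (A.subgroupOf N) * A.relIndex N = Nat.card N := Subgroup.card_mul_index _
  rw [h1] at h2
  rw [← h2, mul_comm]
  congr 1
  -- both are the intersection
  have h3 : Subgroup.normalizer ((((P : Subgroup G).subgroupOf A : Subgroup ↥A) : Set ↥A)) = N.subgroupOf A := by
    ext x
    rw [Subgroup.mem_subgroupOf, hN, Subgroup.mem_normalizer_iff, Subgroup.mem_normalizer_iff]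
    constructor
    · intro h y
      constructor
      · intro hy
        have := (h ⟨y, hPA hy⟩).1 hy
        exact this
      · intro hy
        have hyA : y ∈ A := by
          have h4 := hPA hy
          have h5 := (inferInstance : A.Normal).conj_mem _ h4 (x : G)⁻¹
          have h6 : (x : G)⁻¹ * ((x : G) * y * (x : G)⁻¹) * ((x : G)⁻¹)⁻¹ = y := by group
          rwa [h6] at h5
        exact (h ⟨y, hyA⟩).2 hy
    · intro h y
      exact h y
  rw [h3]
  have e1 : Nat.card (N.subgroupOf A) = Nat.card (N ⊓ A : Subgroup G) := by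
    rw [← Subgroup.subgroupOf_map_subtype]
    exact (Subgroup.card_map_of_injective A.subtype_injective).symm
  have e2 : Nat.card (A.subgroupOf N) = Nat.card (A ⊓ N : Subgroup G) := by
    rw [← Subgroup.subgroupOf_map_subtype]
    exact (Subgroup.card_map_of_injective N.subtype_injective).symm
  rw [e1, e2, inf_comm]

/-- Let p be an odd prime and P a Sylow p-subgroup of the symmetric group on a finite set with at least two elements. Then P is contained in the alternating group, and twice the order of the normalizer of P inside the alternating group equals the order of the normalizer of P in the symmetric group. -/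
theorem result {α : Type*} [Fintype α] [DecidableEq α] (hα : 2 ≤ Fintype.card α) (p : ℕ) [Fact p.Prime] (hp : p ≠ 2) (P : Sylow p (Equiv.Perm α)) : (P : Subgroup (Equiv.Perm α)) ≤ alternatingGroup α ∧ 2 * Nat.card ↥(Subgroup.normalizer ((((P : Subgroup (Equiv.Perm α)).subgroupOf (alternatingGroup α) : Subgroup ↥(alternatingGroup α)) : Set ↥(alternatingGroup α)))) = Nat.card ↥(Subgroup.normalizer ((P : Subgroup (Equiv.Perm α)) : Set (Equiv.Perm α))) := by
  classical
  haveI : Nontrivial α := Fintype.one_lt_card_iff_nontrivial.1 (by omega)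
  have hPA : (P : Subgroup (Equiv.Perm α)) ≤ alternatingGroup α := by
    intro x hx
    rw [Equiv.Perm.mem_alternatingGroup]
    obtain ⟨k, hk⟩ := P.2 ⟨x, hx⟩
    have h1 : x ^ p ^ k = 1 := congrArg Subtype.val hk
    have hodd : Odd (p ^ k) := (Nat.Prime.odd_of_ne_two Fact.out hp).pow
    have h2 : (Equiv.Perm.sign x) ^ (p ^ k) = 1 := by rw [← map_pow, h1, map_one]
    rcases Int.units_eq_one_or (Equiv.Perm.sign x) with h | h
    · exact h
    · rw [h, hodd.neg_one_pow] at h2
      exact absurd h2 (by decide)
  exact ⟨hPA, key _ P hPA (by rw [alternatingGroup.index_eq_two])⟩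

end Cfsg.Agent.S0990
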