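import Cfsg.Statements.S0992
import Mathlib
import Cfsg.Agent.H9_Small3

set_option autoImplicit false
open Cfsg

namespace Cfsg.Agent.S0992

/-- Let G be a non-abelian finite simple group of even order not divisible by 8, and T a Sylow 2-subgroup. Then T is a Klein four-group and the centralizer of T has index 3 in the normalizer of T. -/
theorem result {G : Type*} [Group G] [Finite G] [IsSimpleGroup G] (hG : ¬ IsMulCommutative G) (h2 : Even (Nat.card G)) (h8 : ¬ 8 ∣ Nat.card G) (T : Sylow 2 G) : IsKleinFour ↥(T : Subgroup G) ∧ (Subgroup.centralizer ((T : Subgroup G) : Set G)).relIndex (Subgroup.normalizer ((T : Subgroup G) : Set G)) = 3 := by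
  classical
  haveI : Fact (Nat.Prime 2) := ⟨Nat.prime_two⟩
  have hmin : (Nat.card G).minFac = 2 := (Nat.minFac_eq_two_iff _).2 h2.two_dvd
  have hnc : ¬ IsCyclic T := fun h => H9.Small.not_normalizer_le_centralizer hG h2.two_dvd T (h.normalizer_le_centralizer hmin)
  have hTcard : Nat.card (T : Subgroup G) = 4 := by
    have h1 := T.card_eq_multiplicity
    have h3 : (Nat.card G).factorization 2 < 3 := by
      by_contra hlt
      push Not at hlt
      exact h8 ((Nat.prime_two.pow_dvd_iff_le_factorization Nat.card_pos.ne').2 hlt)
    have h4 : (Nat.card G).factorization 2 = 2 := by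
      rcases (show (Nat.card G).factorization 2 = 0 ∨ (Nat.card G).factorization 2 = 1 ∨ (Nat.card G).factorization 2 = 2 by omega) with h | h | h
      · exfalso
        have := (Nat.prime_two.dvd_iff_one_le_factorization Nat.card_pos.ne').1 h2.two_dvd
        omega
      · exfalso
        rw [h, pow_one] at h1
        exact hnc (isCyclic_of_prime_card h1)
      · exact h
    rw [h1, h4]; rfl
  constructor
  · have hsq : ∀ x : (T : Subgroup G), x ^ 2 = 1 := by
      intro x
      have h3 : orderOf x ∣ 4 := by rw [← hTcard]; exact orderOf_dvd_natCard x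
      have h4 : orderOf x ≠ 4 := by
        intro h
        exact hnc (isCyclic_of_orderOf_eq_card x (by rw [h, hTcard]))
      have h5 : orderOf x ≤ 4 := Nat.le_of_dvd (by norm_num) h3
      have h6 : orderOf x ∣ 2 := by
        have h7 : orderOf x = 1 ∨ orderOf x = 2 := by
          have h8 : 0 < orderOf x := orderOf_pos x
          rcases (show orderOf x = 1 ∨ orderOf x = 2 ∨ orderOf x = 3 by omega) with h | h | h
          · exact Or.inl h
          · exact Or.inr h
          · rw [h] at h3; omega
        rcases h7 with h | h <;> rw [h] <;> decide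
      exact orderOf_dvd_iff_pow_eq_one.1 h6
    refine ⟨hTcard, ?_⟩
    have h3 : Monoid.exponent (T : Subgroup G) ∣ 2 := Monoid.exponent_dvd_of_forall_pow_eq_one hsq
    rcases (Nat.dvd_prime Nat.prime_two).1 h3 with h | h
    · exfalso
      rw [Monoid.exp_eq_one_iff] at h
      have := Finite.card_le_one_iff_subsingleton.2 h
      omega
    · exact h
  · have h1 := H9.Small.relIndex_centralizer_ne_one hG h2.two_dvd T
    have key := Subgroup.card_dvd_of_injective _ (QuotientGroup.kerLift_injective (T : Subgroup G).normalizerMonoidHom)
    rw [Subgroup.normalizerMonoidHom_ker, ← Subgroup.index, ← Subgroup.relIndex] at key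
    have h3 : Nat.card (MulAut (T : Subgroup G)) ∣ 24 := by
      have h4 := Subgroup.card_dvd_of_injective (MulAut.toPerm (T : Subgroup G)) (fun a b h => by
        ext x; exact congrArg Subtype.val (Equiv.congr_fun h x))
      rw [Nat.card_perm, hTcard] at h4
      exact h4
    have h4 := key.trans h3
    set r := (Subgroup.centralizer ((T : Subgroup G) : Set G)).relIndex (Subgroup.normalizer ((T : Subgroup G) : Set G)) with hr
    have hodd : ¬ 2 ∣ r := by
      intro h5
      have h6 : r ∣ (T : Subgroup G).index := by
        have h7 : (T : Subgroup G).relIndex (Subgroup.normalizer ((T : Subgroup G) : Set G)) ∣ (T : Subgroup G).index :=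
          ⟨_, (Subgroup.relIndex_mul_index Subgroup.le_normalizer).symm⟩
        refine dvd_trans ?_ h7
        apply Subgroup.relIndex_dvd_of_le_left
        intro x hx
        rw [Subgroup.mem_centralizer_iff]
        intro y hy
        have := (IsPGroup.isMulCommutative_of_card_eq_prime_sq (p := 2) (G := (T : Subgroup G)) (by rw [hTcard]; rfl)).is_comm.comm ⟨y, hy⟩ ⟨x, hx⟩
        exact congrArg Subtype.val this
      exact T.not_dvd_index (h5.trans h6)
    have hle : r ≤ 24 := Nat.le_of_dvd (by norm_num) h4
    clear_value r
    interval_cases r <;> omega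

end Cfsg.Agent.S0992
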