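import Cfsg.Statements.S0995
import Mathlib
import Cfsg.Agent.H9_CountP

set_option autoImplicit false
open Cfsg

namespace Cfsg.Agent.S0995

/-- Let G be a finite perfect group containing an element z of prime order p whose centralizer is the cyclic group it generates. Let t be the number of conjugacy classes of elements of order p. Then t divides p - 1, the number of Sylow p-subgroups has the form 1 + n * p, and |G| * t = (p - 1) * p * (1 + n * p). -/
theorem result {G : Type*} [Group G] [Finite G] (hperf : commutator G = ⊤) (p : ℕ) [Fact p.Prime] (z : G) (hz : orderOf z = p) (hC : Subgroup.centralizer ({z} : Set G) = Subgroup.zpowers z) : ∃ n t : ℕ, t = Nat.card {c : ConjClasses G // ∃ g : G, ConjClasses.mk g = c ∧ orderOf g = p} ∧ t ∣ p - 1 ∧ Nat.card (Sylow p G) = 1 + n * p ∧ Nat.card G * t = (p - 1) * p * (1 + n * p) := by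
  classical
  have hp : p.Prime := Fact.out
  obtain ⟨⟨P, hP⟩, -, hcount⟩ := H9.CountP.main z hz hC
  have hPc : Nat.card (P : Subgroup G) = p := by rw [hP, Nat.card_zpowers, hz]
  have h1 := card_sylow_modEq_one p G
  obtain ⟨n, hn⟩ : ∃ n, Nat.card (Sylow p G) = 1 + n * p := by
    have h2 : 1 ≤ Nat.card (Sylow p G) := Nat.card_pos
    have h3 := (Nat.modEq_iff_dvd' h2).1 h1.symm
    obtain ⟨k, hk⟩ := h3
    exact ⟨k, by rw [mul_comm k p, ← hk]; omega⟩
  refine ⟨n, _, rfl, ?_, hn, ?_⟩
  · -- |N(P)| = p * e
    set t := Nat.card {c : ConjClasses G // ∃ g : G, ConjClasses.mk g = c ∧ orderOf g = p} with ht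
    have h2 := Subgroup.card_mul_index (Subgroup.normalizer ((P : Subgroup G) : Set G))
    have h3 : (Subgroup.normalizer ((P : Subgroup G) : Set G)).index = Nat.card (Sylow p G) := (Sylow.card_eq_index_normalizer P).symm
    obtain ⟨e, he⟩ : p ∣ Nat.card (Subgroup.normalizer ((P : Subgroup G) : Set G)) := by
      have := Subgroup.card_dvd_of_le (Subgroup.le_normalizer (H := (P : Subgroup G)))
      rwa [hPc] at this
    rw [h3, he] at h2
    rw [← h2] at hcount
    have h4 : 0 < p * Nat.card (Sylow p G) := Nat.mul_pos hp.pos Nat.card_pos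
    have h5 : (p * Nat.card (Sylow p G)) * (e * t) = (p * Nat.card (Sylow p G)) * (p - 1) := by
      calc (p * Nat.card (Sylow p G)) * (e * t) = p * e * Nat.card (Sylow p G) * t := by ring
        _ = (p - 1) * p * Nat.card (Sylow p G) := hcount
        _ = (p * Nat.card (Sylow p G)) * (p - 1) := by ring
    have h6 := Nat.eq_of_mul_eq_mul_left h4 h5
    exact ⟨e, by rw [← h6, mul_comm]⟩
  · rw [hcount, hn]

end Cfsg.Agent.S0995
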