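import Cfsg.Statements.S1009
import Mathlib

set_option autoImplicit false
open Cfsg

open scoped Pointwise

namespace Cfsg.Agent.S1009

/-- Brodkey's Theorem: if a finite group has abelian Sylow p-subgroups, then there are two Sylow p-subgroups whose intersection equals the intersection of all Sylow p-subgroups. -/
theorem result {G : Type*} [Group G] [Finite G] (p : ℕ) [Fact p.Prime] (hab : ∀ P : Sylow p G, IsMulCommutative ↥(P : Subgroup G)) : ∃ P Q : Sylow p G, (P : Subgroup G) ⊓ (Q : Subgroup G) = ⨅ R : Sylow p G, (R : Subgroup G) := by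
  classical
  obtain ⟨⟨P, Q⟩, -, hmin⟩ := Set.exists_min_image (Set.univ : Set (Sylow p G × Sylow p G))
    (fun x => Nat.card ↥((x.1 : Subgroup G) ⊓ (x.2 : Subgroup G))) (Set.toFinite _) ⟨⟨default, default⟩, trivial⟩
  refine ⟨P, Q, ?_⟩
  apply le_antisymm
  swap
  · exact le_inf (iInf_le _ P) (iInf_le _ Q)
  apply le_iInf
  intro R
  set D : Subgroup G := (P : Subgroup G) ⊓ (Q : Subgroup G) with hD
  set C := Subgroup.centralizer (D : Set G) with hC
  have hPC : (P : Subgroup G) ≤ C := by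
    intro x hx
    rw [hC, Subgroup.mem_centralizer_iff]
    intro y hy
    exact congrArg Subtype.val ((hab P).is_comm.comm ⟨y, hy.1⟩ ⟨x, hx⟩)
  have hQC : (Q : Subgroup G) ≤ C := by
    intro x hx
    rw [hC, Subgroup.mem_centralizer_iff]
    intro y hy
    exact congrArg Subtype.val ((hab Q).is_comm.comm ⟨y, hy.2⟩ ⟨x, hx⟩)
  obtain ⟨S, hS⟩ := (R.2.comap_subtype (K := C)).exists_le_sylow
  obtain ⟨c, hc⟩ := MulAction.exists_smul_eq C (P.subtype hPC) S
  have key : ∀ x : G, x ∈ (R : Subgroup G) → x ∈ C → (c : G)⁻¹ * x * c ∈ (P : Subgroup G) := by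
    intro x hx hxC
    have h1 : (⟨x, hxC⟩ : C) ∈ (S : Subgroup C) := hS hx
    rw [← hc] at h1
    have h2 : (⟨x, hxC⟩ : C) ∈ (MulAut.conj c • ((P.subtype hPC : Sylow p C) : Subgroup C)) := h1
    rw [Subgroup.mem_pointwise_smul_iff_inv_smul_mem] at h2
    have h3 : ((MulAut.conj c)⁻¹ • (⟨x, hxC⟩ : C)) = c⁻¹ * ⟨x, hxC⟩ * c := by
      simp [MulAut.smul_def]
    rw [h3] at h2
    exact h2
  have hcD : ∀ x : G, (c : G)⁻¹ * x * c ∈ D → x ∈ D := by
    intro x hx
    have h1 := (Subgroup.mem_centralizer_iff.1 c.2) _ hx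
    have h2 : x = (c : G)⁻¹ * x * c := by
      have h3 : (c : G) * ((c : G)⁻¹ * x * c) = x * c := by group
      rw [← h1] at h3
      exact (mul_right_cancel h3).symm
    rw [h2]; exact hx
  have hle : (R : Subgroup G) ⊓ ((c : G) • Q : Sylow p G) ≤ D := by
    rintro x ⟨hxR, hxQ⟩
    have h1 : x ∈ (MulAut.conj (c : G) • (Q : Subgroup G)) := hxQ
    rw [Subgroup.mem_pointwise_smul_iff_inv_smul_mem] at h1
    have h3 : ((MulAut.conj (c : G))⁻¹ • x) = (c : G)⁻¹ * x * c := by
      simp [MulAut.smul_def]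
    rw [h3] at h1
    have hxC : x ∈ C := by
      have h4 := hQC h1
      have h5 : x = (c : G) * ((c : G)⁻¹ * x * c) * (c : G)⁻¹ := by group
      rw [h5]
      exact C.mul_mem (C.mul_mem c.2 h4) (C.inv_mem c.2)
    exact hcD x ⟨key x hxR hxC, h1⟩
  have h2 := hmin (R, (c : G) • Q) trivial
  have h3 := Subgroup.eq_of_le_of_card_ge hle h2
  rw [← h3]
  exact inf_le_left

end Cfsg.Agent.S1009
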