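import Cfsg.Statements.S1012
import Mathlib
import Cfsg.Agent.H9_Small3

set_option autoImplicit false
open Cfsg

namespace Cfsg.Agent.S1012

/-- A group of order 24 containing no element of order 6 is isomorphic to the symmetric group of degree 4. -/
theorem result {G : Type*} [Group G] [Finite G] (h : Nat.card G = 24) (h6 : ∀ g : G, orderOf g ≠ 6) : Nonempty (G ≃* Equiv.Perm (Fin 4)) := by
  classical
  haveI : Fact (Nat.Prime 3) := ⟨Nat.prime_three⟩
  haveI : Fact (Nat.Prime 2) := ⟨Nat.prime_two⟩
  obtain ⟨P⟩ : Nonempty (Sylow 3 G) := inferInstance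
  have hc : Nat.card G = 3 ^ 1 * 8 := by rw [h]; norm_num
  have hP := H9.Small.sylow_card P 1 8 hc (by norm_num)
  rw [pow_one] at hP
  have hPidx : (P : Subgroup G).index = 8 := by
    have h1 := Subgroup.card_mul_index (P : Subgroup G)
    rw [hP, h] at h1; omega
  -- no involution commutes with an element of order 3
  have hno : ∀ x y : G, orderOf x = 2 → orderOf y = 3 → ¬ Commute x y := by
    intro x y hx hy hxy
    apply h6 (x * y)
    rw [hxy.orderOf_mul_eq_mul_orderOf_of_coprime (by rw [hx, hy]; norm_num), hx, hy]
  obtain ⟨z, hzP⟩ := exists_prime_orderOf_dvd_card' (G := (P : Subgroup G)) 3 (by rw [hP])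
  have hz : orderOf (z : G) = 3 := by rw [Subgroup.orderOf_coe]; exact hzP
  have hn3 : Nat.card (Sylow 3 G) = 4 := by
    have h1 := card_sylow_modEq_one 3 G
    have h2 := P.card_dvd_index
    rw [hPidx] at h2
    have h3 : Nat.card (Sylow 3 G) ≠ 1 := by
      intro h3
      rw [Sylow.card_eq_index_normalizer P, Subgroup.index_eq_one] at h3
      have h4 := H9.Small.relIndex_centralizer_dvd' (p := 3) (P : Subgroup G) hP
      have h5 := H9.Small.card_centralizer_mul (P : Subgroup G)
      have h3' : Subgroup.normalizer ((P : Subgroup G) : Set G) = ⊤ := h3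
      rw [h3', Subgroup.card_top, h] at h5
      rw [h3'] at h4
      have h6' : 2 ∣ Nat.card (Subgroup.centralizer ((P : Subgroup G) : Set G)) := by
        rcases (Nat.dvd_prime Nat.prime_two).1 h4 with h7 | h7
        · rw [h7] at h5; omega
        · rw [h7] at h5; omega
      obtain ⟨x, hx⟩ := exists_prime_orderOf_dvd_card' (G := Subgroup.centralizer ((P : Subgroup G) : Set G)) 2 h6'
      have hx' : orderOf (x : G) = 2 := by rw [Subgroup.orderOf_coe]; exact hx
      exact hno x z hx' hz ((Subgroup.mem_centralizer_iff.1 x.2 z z.2).symm)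
    have h4 : Nat.card (Sylow 3 G) ≤ 8 := Nat.le_of_dvd (by norm_num) h2
    have h5 : 0 < Nat.card (Sylow 3 G) := Nat.card_pos
    unfold Nat.ModEq at h1
    generalize Nat.card (Sylow 3 G) = n at *
    interval_cases n <;> omega
  -- the action on the Sylow 3-subgroups
  let f := MulAction.toPermHom G (Sylow 3 G)
  have hN : Nat.card (Subgroup.normalizer ((P : Subgroup G) : Set G)) = 6 := by
    have h1 := Subgroup.card_mul_index (Subgroup.normalizer ((P : Subgroup G) : Set G))
    have h2 : (Subgroup.normalizer ((P : Subgroup G) : Set G)).index = 4 := by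
      rw [← hn3]; exact (Sylow.card_eq_index_normalizer P).symm
    rw [h2, h] at h1; omega
  have hKN : f.ker ≤ Subgroup.normalizer ((P : Subgroup G) : Set G) := by
    intro x hx
    have h1 : x • P = P := Equiv.congr_fun (MonoidHom.mem_ker.1 hx) P
    exact Sylow.smul_eq_iff_mem_normalizer.1 h1
  have hK6 : Nat.card f.ker ∣ 6 := by rw [← hN]; exact Subgroup.card_dvd_of_le hKN
  have hK1 : Nat.card f.ker = 1 := by
    have hle := Nat.le_of_dvd (by norm_num) hK6
    have h3K : ¬ 3 ∣ Nat.card f.ker := by
      intro h3
      obtain ⟨Q, hQ⟩ : ∃ Q : Sylow 3 G, Q ≠ P := by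
        haveI : Nontrivial (Sylow 3 G) := by rw [← Finite.one_lt_card_iff_nontrivial, hn3]; norm_num
        exact exists_ne P
      have hQc := H9.Small.sylow_card Q 1 8 hc (by norm_num)
      rw [pow_one] at hQc
      have h1 := H7.Simple.sylow_le_of_dvd P hP f.ker h3
      have h2 := H7.Simple.sylow_le_of_dvd Q hQc f.ker h3
      obtain ⟨n, k, a1, a2, -, a3, a4⟩ := H9.Small.two_sylow 1 8 hc (by norm_num) f.ker P Q h1 h2 hQ.symm
      have hk : k ≠ 0 := by rintro rfl; simp at a4
      have : 4 ≤ n := by omega
      have : 4 * 1 ≤ n * k := Nat.mul_le_mul this (Nat.pos_of_ne_zero hk)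
      omega
    have h2K : Nat.card f.ker ≠ 2 := by
      intro h2
      obtain ⟨x, hx⟩ := exists_prime_orderOf_dvd_card' (G := f.ker) 2 (by rw [h2])
      have hx' : orderOf (x : G) = 2 := by rw [Subgroup.orderOf_coe]; exact hx
      apply hno x z hx' hz
      -- x is central
      have hconj : (z : G) * x * (z : G)⁻¹ ∈ f.ker := (inferInstance : f.ker.Normal).conj_mem _ x.2 _
      have h5 : ∀ y : f.ker, y = 1 ∨ y = x := by
        intro y
        by_contra hcon
        push Not at hcon
        have h7 : ({1, x, y} : Finset f.ker).card ≤ Nat.card f.ker := by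
          letI := Fintype.ofFinite f.ker
          rw [Nat.card_eq_fintype_card]
          exact Finset.card_le_univ _
        have hx1 : (1 : f.ker) ≠ x := by
          intro h8; rw [← h8, orderOf_one] at hx; omega
        rw [Finset.card_eq_three.2 ⟨1, x, y, hx1, hcon.1.symm, hcon.2.symm, rfl⟩, h2] at h7
        omega
      rcases h5 ⟨_, hconj⟩ with h7 | h7
      · exfalso
        have h8 := congrArg Subtype.val h7
        simp only [Subgroup.coe_one] at h8
        have h9 : (x : G) = 1 := by
          have : (x : G) = (z : G)⁻¹ * ((z : G) * x * (z : G)⁻¹) * z := by group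
          rw [this, h8]; group
        rw [h9, orderOf_one] at hx'
        omega
      · have h8 := congrArg Subtype.val h7
        simp only at h8
        have h9 : (z : G) * x = x * z := by
          calc (z : G) * x = ((z : G) * x * (z : G)⁻¹) * z := by group
            _ = x * z := by rw [h8]
        exact h9.symm
    have hpos : 0 < Nat.card f.ker := Nat.card_pos
    generalize Nat.card f.ker = n at *
    interval_cases n <;> omega
  have hinj : Function.Injective f := by
    rw [← MonoidHom.ker_eq_bot_iff]
    exact Subgroup.card_eq_one.1 hK1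
  have hcardperm : Nat.card (Equiv.Perm (Sylow 3 G)) = 24 := by rw [Nat.card_perm, hn3]; rfl
  have hbij : Function.Bijective f := by
    rw [Nat.bijective_iff_injective_and_card]
    exact ⟨hinj, by rw [h, hcardperm]⟩
  have e : Sylow 3 G ≃ Fin 4 := by
    have := Finite.equivFin (Sylow 3 G)
    rw [hn3] at this
    exact this
  exact ⟨(MulEquiv.ofBijective f hbij).trans e.permCongrHom⟩

end Cfsg.Agent.S1012
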