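import Cfsg.Statements.S1013
import Mathlib
import Cfsg.Agent.H9_Small3

set_option autoImplicit false
open Cfsg

namespace Cfsg.Agent.S1013

/-- Let G be a transitive permutation group of prime degree p having more than one Sylow p-subgroup, and suppose a Sylow p-subgroup P has prime index in its normalizer. Then G is simple. -/
theorem result {α : Type*} [Fintype α] [DecidableEq α] {p : ℕ} [Fact p.Prime] (hα : Fintype.card α = p) (G : Subgroup (Equiv.Perm α)) [MulAction.IsPretransitive ↥G α] (P : Sylow p ↥G) (hn : 1 < Nat.card (Sylow p ↥G)) (ht : (((P : Subgroup ↥G).subgroupOf (Subgroup.normalizer ((P : Subgroup ↥G) : Set ↥G))).index).Prime) : IsSimpleGroup ↥G := by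
  classical
  have hp : p.Prime := Fact.out
  have hP := H9.Burnside.sylow_card (p := p) hα P
  set N := Subgroup.normalizer ((P : Subgroup G) : Set G) with hN
  have h1 := Subgroup.card_mul_index ((P : Subgroup G).subgroupOf N)
  rw [Nat.card_congr (Subgroup.subgroupOfEquivOfLe Subgroup.le_normalizer).toEquiv, hP] at h1
  set r := ((P : Subgroup G).subgroupOf N).index with hr
  have h2 := Subgroup.card_mul_index N
  have hidx : N.index ≠ 1 := by
    have : N.index = Nat.card (Sylow p G) := (Sylow.card_eq_index_normalizer P).symm
    omega
  haveI : Nontrivial G := by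
    by_contra hcon
    rw [not_nontrivial_iff_subsingleton] at hcon
    haveI := hcon
    have : Subsingleton (Sylow p G) := ⟨fun A B => Sylow.ext (Subsingleton.elim _ _)⟩
    have := Finite.card_le_one_iff_subsingleton.2 this
    omega
  apply H7.Simple.simple_of_sylow (G := G) p r ht P hP
  · exact h1.symm
  · intro h3
    rw [← h2, ← h1] at h3
    have h4 : 0 < p * r := Nat.mul_pos hp.pos ht.pos
    have : N.index = 1 := by
      have h5 : p * r * N.index = p * r * 1 := by rw [h3, mul_one]
      exact Nat.eq_of_mul_eq_mul_left h4 h5
    exact hidx this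
  · intro M hM hMb
    haveI := H9.PermIndex.transitive_of_normal (p := p) hα M hMb
    have hne : Nonempty α := Fintype.card_pos_iff.1 (by rw [hα]; exact hp.pos)
    obtain ⟨a⟩ := hne
    have := MulAction.index_stabilizer_of_transitive M a
    rw [Nat.card_eq_fintype_card (α := α), hα] at this
    rw [← this]
    exact Subgroup.index_dvd_card _

end Cfsg.Agent.S1013
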