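import Cfsg.Statements.S1014
import Mathlib
import Cfsg.Agent.H9_Small3

set_option autoImplicit false
open Cfsg

namespace Cfsg.Agent.S1014

/-- No finite simple group has order 1104 = 2^4 * 3 * 23. -/
theorem result {G : Type*} [Group G] [Finite G] [IsSimpleGroup G] : Nat.card G ≠ 1104 := by
  intro hcard
  have hG : ¬ IsMulCommutative G := H9.Small.not_comm (by rw [hcard]; norm_num)
  haveI : Fact (Nat.Prime 23) := ⟨by norm_num⟩
  obtain ⟨P⟩ : Nonempty (Sylow 23 G) := inferInstance
  obtain ⟨n, k, -, hnm, hn1, hn2, hnk, hP, hN, hidx, hNt, -⟩ := H9.Small.sylow_num hG 1 48 (by rw [hcard]; norm_num) (by norm_num) one_ne_zero P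
  have h12 : n = 24 := by
    have hle : n ≤ 48 := Nat.le_of_dvd (by norm_num) hnm
    interval_cases n <;> omega
  subst h12
  have hk9 : k = 2 := by omega
  have h1 := H9.Small.two_mul_card_normalizer_dvd hG (p := 23) (by norm_num) (P : Subgroup G) (by rw [hP]; rfl) _ hNt (by omega)
  rw [hN, hk9] at h1
  norm_num at h1

end Cfsg.Agent.S1014
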