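import Cfsg.Statements.S1015
import Mathlib
import Cfsg.Agent.H9_Small3
import Cfsg.Agent.S0985

set_option autoImplicit false
open Cfsg

namespace Cfsg.Agent.S1015

/-- No finite simple group has order 1200 = 2^4 * 3 * 5^2. -/
theorem result {G : Type*} [Group G] [Finite G] [IsSimpleGroup G] : Nat.card G ≠ 1200 := by
  intro hcard
  have hG : ¬ IsMulCommutative G := H9.Small.not_comm (by rw [hcard]; norm_num)
  haveI : Fact (Nat.Prime 5) := ⟨by norm_num⟩
  obtain ⟨P⟩ : Nonempty (Sylow 5 G) := inferInstance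
  obtain ⟨n, k, hn0, hnm, hn1, hn2, hnk, hP, hN, hidx, hNt, hfac⟩ := H9.Small.sylow_num hG 2 48 (by rw [hcard]; norm_num) (by norm_num) two_ne_zero P
  have h12 : n = 6 ∨ n = 16 := by
    have hle : n ≤ 48 := Nat.le_of_dvd (by norm_num) hnm
    interval_cases n <;> omega
  rcases h12 with rfl | rfl
  · rw [hcard] at hfac
    norm_num [Nat.factorial] at hfac
  obtain ⟨P1, R, hPR, hle⟩ := S0985.result (G := G) 5 2 (by rw [← hn0]; decide)
  have hc : Nat.card G = 5 ^ 2 * 48 := by rw [hcard]; norm_num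
  have hP1 := H9.Small.sylow_card P1 2 48 hc (by norm_num)
  have hR1 := H9.Small.sylow_card R 2 48 hc (by norm_num)
  set D : Subgroup G := (P1 : Subgroup G) ⊓ (R : Subgroup G) with hD
  have hDcard : Nat.card D * ((R : Subgroup G).subgroupOf (P1 : Subgroup G)).index = 25 := by
    have h1 := Subgroup.card_mul_index ((R : Subgroup G).subgroupOf (P1 : Subgroup G))
    rw [hP1] at h1
    have h2 : Nat.card ((R : Subgroup G).subgroupOf (P1 : Subgroup G)) = Nat.card D := by
      rw [hD, inf_comm, ← Subgroup.subgroupOf_map_subtype]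
      exact (Subgroup.card_map_of_injective (Subgroup.subtype_injective _)).symm
    rw [← h2]; exact h1
  have hD5 : 5 ≤ Nat.card D := by
    by_contra hlt
    push Not at hlt
    have : Nat.card D * ((R : Subgroup G).subgroupOf (P1 : Subgroup G)).index ≤ 4 * 5 :=
      Nat.mul_le_mul (by omega) (by simpa using hle)
    omega
  have hcomm1 : ∀ x ∈ (P1 : Subgroup G), ∀ y ∈ (P1 : Subgroup G), x * y = y * x := by
    intro x hx y hy
    have := (IsPGroup.isMulCommutative_of_card_eq_prime_sq (p := 5) hP1).is_comm.comm ⟨x, hx⟩ ⟨y, hy⟩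
    exact congrArg Subtype.val this
  have hcomm2 : ∀ x ∈ (R : Subgroup G), ∀ y ∈ (R : Subgroup G), x * y = y * x := by
    intro x hx y hy
    have := (IsPGroup.isMulCommutative_of_card_eq_prime_sq (p := 5) hR1).is_comm.comm ⟨x, hx⟩ ⟨y, hy⟩
    exact congrArg Subtype.val this
  have hM := H9.Small.normalizer_ne_top' D (by
    intro h; rw [h, Subgroup.card_bot] at hD5; omega) (by
    intro h
    have h1 : Nat.card D ≤ 25 := Nat.le_of_dvd (by norm_num) ⟨_, hDcard.symm⟩
    rw [h, Subgroup.card_top, hcard] at h1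
    omega)
  obtain ⟨n', k', h1, h2, -, h4, h5⟩ := H9.Small.two_sylow 2 48 hc (by norm_num) (Subgroup.normalizer (D : Set G)) P1 R
    (H9.Small.le_normalizer_of_comm _ _ inf_le_left hcomm1) (H9.Small.le_normalizer_of_comm _ _ inf_le_right hcomm2) hPR
  have h6 := H9.Small.two_mul_card_dvd hG _ hM
  have h7 : (Subgroup.normalizer (D : Set G)).index ≤ 8 := by
    by_contra hlt
    push Not at hlt
    have hn'6 : 6 ≤ n' := by omega
    have hk' : k' ≠ 0 := by rintro rfl; simp at h5
    have h8 : 6 * 9 ≤ n' * k' * (Subgroup.normalizer (D : Set G)).index :=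
      Nat.mul_le_mul (by nlinarith [Nat.pos_of_ne_zero hk']) hlt
    omega
  rw [hcard] at h6
  have h9 : 2 * 1200 ∣ (8).factorial := h6.trans (Nat.factorial_dvd_factorial h7)
  norm_num [Nat.factorial] at h9

end Cfsg.Agent.S1015
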