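import Cfsg.Statements.S1022
import Cfsg.Agent.H13_Ord1022

set_option autoImplicit false
open Cfsg

namespace Cfsg.Agent.S1022

/-- No finite simple group has order 459648 = 2^7 * 3^3 * 7 * 19. -/
theorem result {G : Type*} [Group G] [Finite G] [IsSimpleGroup G] : Nat.card G ≠ 459648 := by
  exact Cfsg.Agent.H13.Ord1022.main

end Cfsg.Agent.S1022
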