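import Cfsg.Statements.S1026
import Cfsg.Agent.H6_ChevAll
import Cfsg.Agent.H6_ChevG

set_option autoImplicit false
open Cfsg

namespace Cfsg.Agent.S1026

/-- Every element of `U` has a unique expression `∏_{r ∈ Φ⁺} x_r(t_r)`, the product over the positive roots in increasing index order (the coefficient family `t`, supported on the positive roots, exists and is unique); and conversely every such ordered product is the matrix of an element of `U`. -/
theorem result {F : Type*} [Field F] (D : Cfsg.Lie.ChevalleyDatum) (hD : D ∈ [Cfsg.Lie.chevG2, Cfsg.Lie.chevB2, Cfsg.Lie.chevD4, Cfsg.Lie.chevF4, Cfsg.Lie.chevE6, Cfsg.Lie.chevE7, Cfsg.Lie.chevE8]) :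
    (∀ g : GL D.Idx F, g ∈ D.posUnipotent F →
      ∃! t : ℕ → F, (∀ r, ¬ D.IsPosRoot r → t r = 0) ∧
        (g : Matrix D.Idx D.Idx F) = D.wordMat F (D.posRoots.map fun r => (r, t r))) ∧
    (∀ t : ℕ → F, ∃ g : GL D.Idx F, g ∈ D.posUnipotent F ∧
      (g : Matrix D.Idx D.Idx F) = D.wordMat F (D.posRoots.map fun r => (r, t r))) := by
  obtain ⟨m⟩ := Cfsg.Agent.H6.Chev.exists_model hD
  rw [m.posRoots_eq]
  have hmem : ∀ r, r ∈ List.range' m.N m.N ↔ D.IsPosRoot r := by
    intro r
    rw [List.mem_range'_1]
    have h := m.nroots_eq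
    constructor
    · intro h1; exact (m.pos_iff r (by omega)).2 h1.1
    · intro h1
      have := (m.pos_iff r h1.1).1 h1
      have := h1.1
      omega
  constructor
  · intro g hg
    rw [m.pos_eq_UL] at hg
    obtain ⟨t, ht⟩ := m.good_pos.exists_nf hg
    classical
    refine ⟨fun r => if D.IsPosRoot r then t r else 0, ⟨fun r hr => if_neg hr, ?_⟩, ?_⟩
    · rw [← m.coe_word]
      congr 1
      rw [ht]
      apply Cfsg.Agent.H6.Chev.Model.nf_congr
      intro r hr
      simp only [(hmem r).1 hr, if_true]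
    · rintro u ⟨hu1, hu2⟩
      rw [← m.coe_word] at hu2
      have hu3 : g = m.nf (List.range' m.N m.N) u := Units.ext hu2
      rw [ht] at hu3
      have h1 := m.good_pos.nf_inj hu3
      funext r
      by_cases hr : D.IsPosRoot r
      · simp only [hr, if_true]
        exact (h1 r ((hmem r).2 hr)).symm
      · simp only [hr, if_false]
        exact hu1 r hr
  · intro t
    refine ⟨m.nf (List.range' m.N m.N) t, ?_, ?_⟩
    · rw [m.pos_eq_UL]; exact Cfsg.Agent.H6.Chev.Model.nf_mem _ _
    · exact m.coe_word _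

end Cfsg.Agent.S1026
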