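import Cfsg.Statements.S1045
import Cfsg.Agent.H6_ChevAll
import Cfsg.Agent.H6_ChevP

set_option autoImplicit false
open Cfsg

namespace Cfsg.Agent.S1045

/-- For a fundamental root `p`, the subgroup `U_p` generated by the `X_s`, `s` positive and `s ≠ p`, is normalised by `X_p` and `X_{-p}`, and `U = U_p ⊔ X_p`. -/
theorem result {F : Type*} [Field F] (D : Cfsg.Lie.ChevalleyDatum) (hD : D ∈ [Cfsg.Lie.chevG2, Cfsg.Lie.chevB2, Cfsg.Lie.chevD4, Cfsg.Lie.chevF4, Cfsg.Lie.chevE6, Cfsg.Lie.chevE7, Cfsg.Lie.chevE8]) (i : ℕ) (hi : i < D.rank) :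
    D.rootSubgroup F (D.simple i) ⊔ D.rootSubgroup F (D.neg (D.simple i)) ≤
        Subgroup.normalizer (Subgroup.closure {g : GL D.Idx F | ∃ (s : ℕ) (t : F), D.IsPosRoot s ∧ s ≠ D.simple i ∧
          (g : Matrix D.Idx D.Idx F) = D.x F s t} : Set (GL D.Idx F)) ∧
      Subgroup.closure {g : GL D.Idx F | ∃ (s : ℕ) (t : F), D.IsPosRoot s ∧ s ≠ D.simple i ∧
          (g : Matrix D.Idx D.Idx F) = D.x F s t} ⊔ D.rootSubgroup F (D.simple i) = D.posUnipotent F := by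
  obtain ⟨m⟩ := Cfsg.Agent.H6.Chev.exists_model hD
  have e : Subgroup.closure {g : GL D.Idx F | ∃ (s : ℕ) (t : F), D.IsPosRoot s ∧ s ≠ D.simple i ∧
      (g : Matrix D.Idx D.Idx F) = D.x F s t} = m.Up F ⟨i, hi⟩ := by
    have h1 : {g : GL D.Idx F | ∃ (s : ℕ) (t : F), D.IsPosRoot s ∧ s ≠ D.simple i ∧
      (g : Matrix D.Idx D.Idx F) = D.x F s t} = {g : GL D.Idx F | ∃ (s : ℕ) (t : F),
        (D.IsPosRoot s ∧ s ≠ D.simple i) ∧ (g : Matrix D.Idx D.Idx F) = D.x F s t} := by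
      ext g; simp only [and_assoc]
    rw [h1, m.closure_eq_gen]
    apply m.gen_congr
    intro r hr
    rw [m.pos_iff r hr]
    rfl
  rw [e]
  constructor
  · apply sup_le
    · intro g hg
      obtain ⟨t, rfl⟩ := m.mem_rootSubgroup.1 hg
      exact m.X_norm_Up (m.simple_ge i hi) ⟨i, hi⟩ t
    · intro g hg
      obtain ⟨t, rfl⟩ := m.mem_rootSubgroup.1 hg
      exact m.X_neg_norm_Up ⟨i, hi⟩ t
  · apply le_antisymm
    · apply sup_le (m.Up_le_U ⟨i, hi⟩)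
      intro g hg
      obtain ⟨t, rfl⟩ := m.mem_rootSubgroup.1 hg
      exact m.X_mem_pos (m.simple_ge i hi) t
    · intro g hg
      obtain ⟨v, hv, t, rfl⟩ := m.exists_Up_mul ⟨i, hi⟩ hg
      exact mul_mem (Subgroup.mem_sup_left hv) (Subgroup.mem_sup_right (m.mem_rootSubgroup.2 ⟨t, rfl⟩))

end Cfsg.Agent.S1045
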