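import Cfsg.Statements.S1047
import Cfsg.Agent.H6_ChevAll
import Cfsg.Agent.H6_ChevT

set_option autoImplicit false
open Cfsg

namespace Cfsg.Agent.S1047

/-- `P_J = ⟨H, X_r : r ∈ Φ⁺ ∪ Φ_J⟩`. -/
theorem result {F : Type*} [Field F] (D : Cfsg.Lie.ChevalleyDatum) (hD : D ∈ [Cfsg.Lie.chevG2, Cfsg.Lie.chevB2, Cfsg.Lie.chevD4, Cfsg.Lie.chevF4, Cfsg.Lie.chevE6, Cfsg.Lie.chevE7, Cfsg.Lie.chevE8]) (J : Set ℕ) :
    D.parabolicSubgroup F J = D.diagonalSubgroup F ⊔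
      Subgroup.closure {g : GL D.Idx F | ∃ (r : ℕ) (t : F), (D.IsPosRoot r ∨ D.InRootSub J r) ∧ (g : Matrix D.Idx D.Idx F) = D.x F r t} := by
  obtain ⟨m⟩ := Cfsg.Agent.H6.Chev.exists_model hD
  rw [m.closure_eq_gen, m.parabolic_eq]
  congr 1
  apply m.gen_congr
  intro r hr
  rw [m.pos_iff r hr]

end Cfsg.Agent.S1047
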