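import Cfsg.Statements.S1052
import Cfsg.Agent.H6_ChevPerf

set_option autoImplicit false
open Cfsg

namespace Cfsg.Agent.S1052

/-- `G = G'` for every type G₂, B₂, D₄, F₄, E₆, E₇, E₈ over every field, except G₂ and B₂ over the field with two elements. -/
theorem result {F : Type*} [Field F] (D : Cfsg.Lie.ChevalleyDatum) (hD : D ∈ [Cfsg.Lie.chevG2, Cfsg.Lie.chevB2, Cfsg.Lie.chevD4, Cfsg.Lie.chevF4, Cfsg.Lie.chevE6, Cfsg.Lie.chevE7, Cfsg.Lie.chevE8]) (h2 : D = Cfsg.Lie.chevG2 ∨ D = Cfsg.Lie.chevB2 → ∃ a : F, a ≠ 0 ∧ a ≠ 1) :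
    commutator ↥(D.group F) = ⊤ := by
  simp only [List.mem_cons, List.not_mem_nil, or_false] at hD
  rcases hD with rfl | rfl | rfl | rfl | rfl | rfl | rfl
  · exact Cfsg.Agent.H6.Chev.perfect_G2 F (h2 (Or.inl rfl))
  · exact Cfsg.Agent.H6.Chev.perfect_B2 F (h2 (Or.inr rfl))
  · exact Cfsg.Agent.H6.Chev.perfect_D4 F
  · exact Cfsg.Agent.H6.Chev.perfect_F4 F
  · exact Cfsg.Agent.H6.Chev.perfect_E6 F
  · exact Cfsg.Agent.H6.Chev.perfect_E7 F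
  · exact Cfsg.Agent.H6.Chev.perfect_E8 F

end Cfsg.Agent.S1052
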