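import Cfsg.Statements.S1057
import Cfsg.Agent.H7_G2c
import Cfsg.Agent.S1059

set_option autoImplicit false
open Cfsg

namespace Cfsg.Agent.S1057


open H7

/-- change of field -/
noncomputable def suHom' {F F' : Type*} [Field F] [Field F'] (σ : F ≃+* F') (n q : ℕ) :
    Cfsg.SU n F q →* Cfsg.SU n F' q :=
    ((Matrix.SpecialLinearGroup.map (σ : F →+* F')).comp (Cfsg.SU n F q).subtype).codRestrict _ (by
    intro g u v
    obtain ⟨u', rfl⟩ : ∃ u' : Fin n → F, u = fun i => σ (u' i) := ⟨fun i => σ.symm (u i), by ext i; simp⟩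
    obtain ⟨v', rfl⟩ : ∃ v' : Fin n → F, v = fun i => σ (v' i) := ⟨fun i => σ.symm (v i), by ext i; simp⟩
    have h1 : ∀ x y : Fin n → F, Cfsg.hermForm n F' q (fun i => σ (x i)) (fun i => σ (y i)) =
        σ (Cfsg.hermForm n F q x y) := by
      intro x y
      unfold Cfsg.hermForm
      rw [map_sum]
      exact Finset.sum_congr rfl fun i _ => by rw [map_mul, map_pow]
    have h2 : ∀ x : Fin n → F, (((H5.Unit.mat g).map σ).mulVec (fun i => σ (x i))) =
        fun i => σ (((H5.Unit.mat g).mulVec x) i) := by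
      intro x
      ext i
      simp only [Matrix.mulVec, dotProduct, Matrix.map_apply, map_sum, map_mul]
    have h3 : Cfsg.hermForm n F q ((H5.Unit.mat g).mulVec u') ((H5.Unit.mat g).mulVec v') =
      Cfsg.hermForm n F q u' v' := g.2 u' v'
    change Cfsg.hermForm n F' q (((H5.Unit.mat g).map σ).mulVec (fun i => σ (u' i)))
      (((H5.Unit.mat g).map σ).mulVec (fun i => σ (v' i))) = _
    rw [h2, h2, h1, h1, h3])

theorem suHom'_mat {F F' : Type*} [Field F] [Field F'] (σ : F ≃+* F') (n q : ℕ) (g : Cfsg.SU n F q) :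
    H5.Unit.mat (suHom' σ n q g) = (H5.Unit.mat g).map σ := rfl

theorem su_equiv {F F' : Type*} [Field F] [Field F'] (σ : F ≃+* F') (n q : ℕ) :
    Nonempty (Cfsg.SU n F q ≃* Cfsg.SU n F' q) := by
  refine ⟨MulEquiv.ofBijective (suHom' σ n q) ⟨?_, ?_⟩⟩
  · intro a b h
    have h1 := congrArg H5.Unit.mat h
    apply Subtype.ext
    apply Subtype.ext
    refine Matrix.ext fun i j => ?_
    have := congrFun (congrFun h1 i) j
    exact σ.injective this
  · intro b
    refine ⟨suHom' σ.symm n q b, ?_⟩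
    apply Subtype.ext
    apply Subtype.ext
    refine Matrix.ext fun i j => ?_
    change σ (σ.symm (H5.Unit.mat b i j)) = _
    rw [RingEquiv.apply_symm_apply]


/-- G₂(2)′ ≅ PSU₃(3). -/
theorem result {F K : Type*} [Field F] [Fintype F] [Field K] [Fintype K] (hF : Fintype.card F = 2) (hK : Fintype.card K = 9) :
    Nonempty (↥(commutator ↥(Cfsg.Lie.chevG2.group F)) ≃* Cfsg.PSU 3 K 3) := by
  have hK' : Fintype.card K = 3 ^ 2 := by rw [hK]; norm_num
  have hcard : Nat.card (Cfsg.Lie.chevG2.group (ZMod 2)) = 12096 := by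
    have h := Cfsg.Agent.S1059.result (F := ZMod 2) (q := 2) rfl
    simpa using h
  obtain ⟨e1⟩ := H7.G22.main hcard hF
  let σ : H7.GF9 ≃+* K := FiniteField.ringEquivOfCardEq (by rw [hK]; rfl)
  obtain ⟨e2⟩ := su_equiv σ 3 3
  have hc : Subgroup.center (Cfsg.SU 3 K 3) = ⊥ := by
    have h1 := H5.Unit.card_center_SU hK' (n := 3) (by norm_num)
    exact Subgroup.card_eq_one.1 (h1.trans (by decide))
  let e3 : Cfsg.SU 3 K 3 ≃* Cfsg.PSU 3 K 3 :=
    ((QuotientGroup.quotientMulEquivOfEq hc).trans QuotientGroup.quotientBot).symm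
  exact ⟨(e1.trans e2).trans e3⟩

end Cfsg.Agent.S1057
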