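import Cfsg.Statements.S1060
import Cfsg.Agent.H6_ChevOrd

set_option autoImplicit false
open Cfsg

namespace Cfsg.Agent.S1060

/-- `gcd(2, q-1) · |B₂(q)| = q⁴ (q² - 1)(q⁴ - 1)`. -/
theorem result {F : Type*} [Field F] [Fintype F] {q : ℕ} (hq : Fintype.card F = q) : Nat.gcd 2 (q - 1) * Nat.card ↥(Cfsg.Lie.chevB2.group F) = q ^ 4 * (q ^ 2 - 1) * (q ^ 4 - 1) := by
  have h := Cfsg.Agent.H6.Chev.card_final Cfsg.Agent.H6.Chev.modelB2 hq (Cfsg.Agent.H6.Chev.torB2' hq)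
    (Cfsg.Agent.H6.Chev.ordB2 (Cfsg.Agent.H6.Chev.one_le_q hq))
  rw [h]
  have hN : Cfsg.Agent.H6.Chev.modelB2.N = 4 := rfl
  rw [hN]
  simp only [mul_assoc]

end Cfsg.Agent.S1060
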