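import Cfsg.Statements.S1075
import Cfsg.Agent.H7_Ree3c
import Cfsg.Agent.S1069
import Cfsg.Agent.H9_FieldCongr

set_option autoImplicit false
open Cfsg

namespace Cfsg.Agent.S1075

/-- The derived subgroup of ²G₂(3) (θ = identity over the field with three elements) has order 504 = 1512/3 and is isomorphic to PSL₂ over the field with eight elements. -/
theorem result {L : Type*} [Field L] [Fintype L] (hL : Fintype.card L = 8) :
    Nat.card ↥(commutator ↥(Cfsg.Lie.twistedG2 (ZMod 3) 1)) = 504 ∧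
      Nonempty (↥(commutator ↥(Cfsg.Lie.twistedG2 (ZMod 3) 1)) ≃* Matrix.ProjectiveSpecialLinearGroup (Fin 2) L) := by
  have hc : Nat.card ↥(Cfsg.Lie.twistedG2 (ZMod 3) 1) = 1512 := by
    have h := Cfsg.Agent.S1069.result (K := ZMod 3) (m := 0) (by rfl)
    simpa using h
  obtain ⟨h1, ⟨e⟩⟩ := H7.Ree3.main hc hL
  refine ⟨h1, ?_⟩
  let σ : L ≃+* H7.GF8.GF := FiniteField.ringEquivOfCardEq (by rw [hL, H7.GF8.card_GF])
  obtain ⟨e1⟩ := Cfsg.Agent.H9.FieldCongr.psl (n := 2) σ
  have hz : Subgroup.center (Matrix.SpecialLinearGroup (Fin 2) H7.GF8.GF) = ⊥ := by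
    rw [eq_bot_iff]
    intro A hA
    rw [Matrix.SpecialLinearGroup.mem_center_iff] at hA
    obtain ⟨c, hc, hA⟩ := hA
    have hs : ∀ c : H7.GF8.GF, c * c = 1 → c = 1 := by decide +kernel
    have hc0 : c = 1 := by
      apply hs
      rw [Fintype.card_fin, pow_two] at hc
      exact hc
    rw [Subgroup.mem_bot]
    apply Subtype.ext
    rw [← hA, hc0]
    simp
  let e2 : Matrix.ProjectiveSpecialLinearGroup (Fin 2) H7.GF8.GF ≃* Matrix.SpecialLinearGroup (Fin 2) H7.GF8.GF :=
    (QuotientGroup.quotientMulEquivOfEq hz).trans QuotientGroup.quotientBot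
  exact ⟨(e.trans e2.symm).trans e1.symm⟩

end Cfsg.Agent.S1075
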