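import Cfsg.Statements.S1076
import Cfsg.Agent.H6_ChevAll
import Cfsg.Agent.H6_ChevF2

set_option autoImplicit false
open Cfsg

namespace Cfsg.Agent.S1076

/-- `h_r(t₁) h_r(t₂) = h_r(t₁ t₂)` for non-zero `t₁, t₂` (the third family of defining relations), as a matrix identity. -/
theorem result {F : Type*} [Field F] (D : Cfsg.Lie.ChevalleyDatum) (hD : D ∈ [Cfsg.Lie.chevG2, Cfsg.Lie.chevB2, Cfsg.Lie.chevD4, Cfsg.Lie.chevF4, Cfsg.Lie.chevE6, Cfsg.Lie.chevE7, Cfsg.Lie.chevE8]) (r : ℕ) (hr : r < D.nroots) (t₁ t₂ : F) (h₁ : t₁ ≠ 0) (h₂ : t₂ ≠ 0) :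
    D.hMat F r t₁ * D.hMat F r t₂ = D.hMat F r (t₁ * t₂) := by
  obtain ⟨m⟩ := Cfsg.Agent.H6.Chev.exists_model hD
  have e : ∀ t : F, (ht : t ≠ 0) → D.hMat F r t =
      ((m.dmHom (Cfsg.Agent.H6.Chev.Model.hc D r (Units.mk0 t ht)) : GL D.Idx F) : Matrix D.Idx D.Idx F) := by
    intro t ht
    rw [← m.hh_eq hr, m.coe_hh, Units.val_mk0]
  rw [e t₁ h₁, e t₂ h₂, e (t₁ * t₂) (mul_ne_zero h₁ h₂), ← Units.val_mul, ← map_mul]
  congr 2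
  ext j
  simp only [Cfsg.Agent.H6.Chev.Model.hc, Pi.mul_apply, ← mul_zpow]
  congr 2
  ext
  simp

end Cfsg.Agent.S1076
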