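import Cfsg.Statements.S1081
import Cfsg.Agent.H6_ChevGA3

set_option autoImplicit false
open Cfsg

namespace Cfsg.Agent.S1081

/-- Graph automorphisms: for E₆ with ρ = (p₁ p₆)(p₃ p₅) and for D₄ with ρ the 3-cycle on the outer nodes there is a group automorphism sending `x_p(t) ↦ x_{ρ(p)}(t)` and `x_{-p}(t) ↦ x_{-ρ(p)}(t)` for every fundamental root `p`. -/
theorem result {F : Type*} [Field F] (p : Cfsg.Lie.ChevalleyDatum × List ℕ)
    (hp : p ∈ [(Cfsg.Lie.chevE6, [5, 1, 4, 3, 2, 0]), (Cfsg.Lie.chevD4, [2, 1, 3, 0]), (Cfsg.Lie.chevD4, [3, 1, 0, 2])]) :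
    ∃ α : ↥(p.1.group F) ≃* ↥(p.1.group F), ∀ (g : ↥(p.1.group F)) (i : ℕ) (t : F), i < p.1.rank →
      (((g : GL p.1.Idx F) : Matrix p.1.Idx p.1.Idx F) = p.1.x F (p.1.simple i) t →
        ((α g : GL p.1.Idx F) : Matrix p.1.Idx p.1.Idx F) = p.1.x F (p.1.simple (p.2.getD i 0)) t) ∧
      (((g : GL p.1.Idx F) : Matrix p.1.Idx p.1.Idx F) = p.1.x F (p.1.neg (p.1.simple i)) t →
        ((α g : GL p.1.Idx F) : Matrix p.1.Idx p.1.Idx F) = p.1.x F (p.1.neg (p.1.simple (p.2.getD i 0))) t) := by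
  simp only [List.mem_cons, List.not_mem_nil, or_false] at hp
  rcases hp with rfl | rfl | rfl
  · obtain ⟨α, hα⟩ := Cfsg.Agent.H6.Chev.gaE6 (F := F)
    refine ⟨α, fun g i t hi => ?_⟩
    have key : ∀ r < Cfsg.Lie.chevE6.nroots, Cfsg.Agent.H6.Chev.Tab.eps Cfsg.Agent.H6.Chev.gaE6E r = 1 →
        (((g : GL Cfsg.Lie.chevE6.Idx F) : Matrix Cfsg.Lie.chevE6.Idx Cfsg.Lie.chevE6.Idx F) = Cfsg.Lie.chevE6.x F r t →
        ((α g : GL Cfsg.Lie.chevE6.Idx F) : Matrix Cfsg.Lie.chevE6.Idx Cfsg.Lie.chevE6.Idx F) =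
          Cfsg.Lie.chevE6.x F (Cfsg.Agent.H6.Chev.Tab.rho Cfsg.Agent.H6.Chev.gaE6R r) t) := by
      intro r hr he hg
      have h1 := hα r hr t
      rw [he, Int.cast_one, one_mul] at h1
      exact Cfsg.Agent.H6.Chev.ga_apply Cfsg.Agent.H6.Chev.modelE6 α h1 g hg
    change i < 6 at hi
    interval_cases i
    all_goals exact ⟨key _ (by decide) (by decide +kernel), key _ (by decide) (by decide +kernel)⟩
  · obtain ⟨α, hα⟩ := Cfsg.Agent.H6.Chev.gaD4a (F := F)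
    refine ⟨α, fun g i t hi => ?_⟩
    have key : ∀ r < Cfsg.Lie.chevD4.nroots, Cfsg.Agent.H6.Chev.Tab.eps Cfsg.Agent.H6.Chev.gaD4aE r = 1 →
        (((g : GL Cfsg.Lie.chevD4.Idx F) : Matrix Cfsg.Lie.chevD4.Idx Cfsg.Lie.chevD4.Idx F) = Cfsg.Lie.chevD4.x F r t →
        ((α g : GL Cfsg.Lie.chevD4.Idx F) : Matrix Cfsg.Lie.chevD4.Idx Cfsg.Lie.chevD4.Idx F) =
          Cfsg.Lie.chevD4.x F (Cfsg.Agent.H6.Chev.Tab.rho Cfsg.Agent.H6.Chev.gaD4aR r) t) := by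
      intro r hr he hg
      have h1 := hα r hr t
      rw [he, Int.cast_one, one_mul] at h1
      exact Cfsg.Agent.H6.Chev.ga_apply Cfsg.Agent.H6.Chev.modelD4 α h1 g hg
    change i < 4 at hi
    interval_cases i
    all_goals exact ⟨key _ (by decide) (by decide +kernel), key _ (by decide) (by decide +kernel)⟩
  · obtain ⟨α, hα⟩ := Cfsg.Agent.H6.Chev.gaD4b (F := F)
    refine ⟨α, fun g i t hi => ?_⟩
    have key : ∀ r < Cfsg.Lie.chevD4.nroots, Cfsg.Agent.H6.Chev.Tab.eps Cfsg.Agent.H6.Chev.gaD4bE r = 1 →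
        (((g : GL Cfsg.Lie.chevD4.Idx F) : Matrix Cfsg.Lie.chevD4.Idx Cfsg.Lie.chevD4.Idx F) = Cfsg.Lie.chevD4.x F r t →
        ((α g : GL Cfsg.Lie.chevD4.Idx F) : Matrix Cfsg.Lie.chevD4.Idx Cfsg.Lie.chevD4.Idx F) =
          Cfsg.Lie.chevD4.x F (Cfsg.Agent.H6.Chev.Tab.rho Cfsg.Agent.H6.Chev.gaD4bR r) t) := by
      intro r hr he hg
      have h1 := hα r hr t
      rw [he, Int.cast_one, one_mul] at h1
      exact Cfsg.Agent.H6.Chev.ga_apply Cfsg.Agent.H6.Chev.modelD4 α h1 g hg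
    change i < 4 at hi
    interval_cases i
    all_goals exact ⟨key _ (by decide) (by decide +kernel), key _ (by decide) (by decide +kernel)⟩

end Cfsg.Agent.S1081
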