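import Cfsg.Statements.S1082
import Cfsg.Agent.H6_OrtD4
import Cfsg.Agent.S1077
import Cfsg.Agent.S1054

set_option autoImplicit false
open Cfsg

namespace Cfsg.Agent.S1082

/-- D₄(F) ≅ PΩ₈⁺(F), the commutator subgroup of the orthogonal group of `Σ xᵢ yᵢ` modulo its centre. -/
theorem result {F : Type*} [Field F] : Nonempty (↥(Cfsg.Lie.chevD4.group F) ≃* Cfsg.POmega F (Cfsg.quadFormPlus 4 F)) := by
  obtain ⟨θ, hθ, hker, _⟩ := Cfsg.Agent.S1077.result (K := F) Cfsg.Lie.chevD4 (by simp)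
  have hs : IsSimpleGroup ↥(Cfsg.Lie.chevD4.group F) := (Cfsg.Agent.S1054.result Cfsg.Lie.chevD4 (by simp)).1
  obtain ⟨f, hf⟩ := Cfsg.Agent.H6.MR.repD4.exists_hom F
  have hcomm : commutator (Cfsg.Agent.H16.Quad.OG (Cfsg.Agent.H16.Quad.plusQ F 4)) = (Cfsg.Agent.H6.Ort.framePlus F 4).H :=
    le_antisymm ((Cfsg.Agent.H6.Ort.framePlus F 4).commutator_le (by norm_num))
      ((Cfsg.Agent.H6.Ort.framePlus F 4).H_le_of' (by norm_num) rfl)
  have h := Cfsg.Agent.H6.Ort.assemble (Cfsg.Agent.H6.Ort.framePlus F 4) θ hθ hker (by norm_num) hcomm f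
    (Cfsg.Agent.H6.Ort.range_D4 f hf)
  rw [Cfsg.Agent.H16.Quad.coe_plusQ] at h
  exact h

end Cfsg.Agent.S1082
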