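import Cfsg.Statements.S1083
import Cfsg.Agent.H6_OrtB2
import Cfsg.Agent.S1077
import Cfsg.Agent.S1056

set_option autoImplicit false
open Cfsg

namespace Cfsg.Agent.S1083

/-- B₂(F) ≅ PΩ₅(F) for the form `x₀² + x₁y₁ + x₂y₂`, over every field with more than two elements. -/
theorem result {F : Type*} [Field F] (hF : ∃ a : F, a ≠ 0 ∧ a ≠ 1) :
    Nonempty (↥(Cfsg.Lie.chevB2.group F) ≃* Cfsg.POmega F (Cfsg.quadFormOdd 2 F)) := by
  obtain ⟨θ, hθ, hker, _⟩ := Cfsg.Agent.S1077.result (K := F) Cfsg.Lie.chevB2 (by simp)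
  have hs : IsSimpleGroup ↥(Cfsg.Lie.chevB2.group F) := (Cfsg.Agent.S1056.result hF).1
  obtain ⟨f, hf⟩ := Cfsg.Agent.H6.PM.repB2.exists_hom (F := F)
  obtain ⟨c, hc0, hc1⟩ := hF
  have hcomm : commutator (Cfsg.Agent.H16.Quad.OG (Cfsg.Agent.H16.Quad.oddQ F 2)) = (Cfsg.Agent.H6.Ort.frameOdd F 2).H :=
    le_antisymm ((Cfsg.Agent.H6.Ort.frameOdd F 2).commutator_le le_rfl)
      ((Cfsg.Agent.H6.Ort.frameOdd F 2).H_le_of c hc0 hc1)
  have h := Cfsg.Agent.H6.Ort.assemble (Cfsg.Agent.H6.Ort.frameOdd F 2) θ hθ hker le_rfl hcomm f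
    (Cfsg.Agent.H6.Ort.range_B2 f hf)
  rw [Cfsg.Agent.H16.Quad.coe_oddQ] at h
  exact h

end Cfsg.Agent.S1083
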