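import Cfsg.Statements.S1086
import Cfsg.Agent.H6_TwE6

set_option autoImplicit false
open Cfsg

namespace Cfsg.Agent.S1086

/-- |U¹| = |G¹ ∩ U| = q ^ 36 for ²E₆(q). -/
theorem result {K : Type*} [Field K] [Fintype K] {q : ℕ} (hq : IsPrimePow q) (hK : Fintype.card K = q ^ 2) :
    Nat.card ↥(Cfsg.Lie.chevE6.posUnipotent K ⊓ Cfsg.Lie.twistedE6 K q) = q ^ 36 := by
  obtain ⟨φ, _, _, P, hP, hc⟩ := Cfsg.Agent.H6.Chev.exists_pE6 hq hK
  rw [← hP]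
  have h := P.card_U1 (d := 1) one_pos Cfsg.Agent.H6.Chev.hkkE6 hc
  have hN : Cfsg.Agent.H6.Chev.modelE6.N / 1 = 36 := by
    have h1 := Cfsg.Agent.H6.Chev.modelE6.nroots_eq
    have h2 := Cfsg.Agent.H6.Chev.baseE6.nroots
    have h3 : Cfsg.Agent.H6.Chev.tabE6.n = 72 := rfl
    omega
  rwa [hN] at h

end Cfsg.Agent.S1086
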