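import Cfsg.Statements.S1088
import Cfsg.Agent.H6_TwD4

set_option autoImplicit false
open Cfsg

namespace Cfsg.Agent.S1088

/-- |U¹| = |G¹ ∩ U| = q ^ 12 for ³D₄(q). -/
theorem result {K : Type*} [Field K] [Fintype K] {q : ℕ} (hq : IsPrimePow q) (hK : Fintype.card K = q ^ 3) :
    Nat.card ↥(Cfsg.Lie.chevD4.posUnipotent K ⊓ Cfsg.Lie.twistedD4 K q) = q ^ 12 := by
  obtain ⟨φ, _, _, P, hP, hc⟩ := Cfsg.Agent.H6.Chev.exists_pD4 hq hK
  rw [← hP]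
  have h := P.card_U1 (d := 1) one_pos Cfsg.Agent.H6.Chev.hkkD4 hc
  have hN : Cfsg.Agent.H6.Chev.modelD4.N / 1 = 12 := by
    have h1 := Cfsg.Agent.H6.Chev.modelD4.nroots_eq
    have h2 := Cfsg.Agent.H6.Chev.baseD4.nroots
    have h3 : Cfsg.Agent.H6.Chev.tabD4.n = 24 := rfl
    omega
  rwa [hN] at h

end Cfsg.Agent.S1088
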