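import Cfsg.Statements.S1096
import Cfsg.Agent.H6_ChevAll
import Cfsg.Agent.H6_ChevF2

set_option autoImplicit false
open Cfsg

namespace Cfsg.Agent.S1096

/-- `n_p h_{p_j}(t) n_p⁻¹ = h_{w_p(p_j)}(t)` for fundamental `p`, `p_j` and `t ≠ 0`, stated as `n_p h_{p_j}(t) = h_{w_p(p_j)}(t) n_p`. -/
theorem result {F : Type*} [Field F] (D : Cfsg.Lie.ChevalleyDatum) (hD : D ∈ [Cfsg.Lie.chevG2, Cfsg.Lie.chevB2, Cfsg.Lie.chevD4, Cfsg.Lie.chevF4, Cfsg.Lie.chevE6, Cfsg.Lie.chevE7, Cfsg.Lie.chevE8]) (i j : ℕ) (hi : i < D.rank) (hj : j < D.rank) (t : F) (ht : t ≠ 0) :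
    D.nMat F (D.simple i) 1 * D.hMat F (D.simple j) t = D.hMat F (D.reflectRoot i (D.simple j)) t * D.nMat F (D.simple i) 1 := by
  obtain ⟨m⟩ := Cfsg.Agent.H6.Chev.exists_model hD
  have h1 := m.hh_eq (m.simple_lt j hj) (Units.mk0 t ht)
  have h2 := m.hh_eq (m.refl_lt i hi _ (m.simple_lt j hj)) (Units.mk0 t ht)
  rw [Units.val_mk0] at h1 h2
  have h3 : m.n F i * m.hh (D.simple j) t = m.hh (D.reflectRoot i (D.simple j)) t * m.n F i := by
    rw [h1, h2, m.n_dm _ hi]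
    congr 1
    exact m.dm_congr fun k hk => m.refC_hc hi (m.simple_lt j hj) _ hk
  have h4 := congrArg (fun g : GL D.Idx F => (g : Matrix D.Idx D.Idx F)) h3
  simp only [Units.val_mul, m.coe_hh, Cfsg.Agent.H6.Chev.Model.n, m.coe_nn] at h4
  exact h4

end Cfsg.Agent.S1096
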