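import Cfsg.Statements.S1099
import Cfsg.Agent.H6_ChevGA3

set_option autoImplicit false
open Cfsg

namespace Cfsg.Agent.S1099

/-- Graph automorphism of G₂ in characteristic 3 (K perfect): `x_a(t) ↦ x_b(t³)`, `x_b(t) ↦ x_a(t)`, `x_{-a}(t) ↦ x_{-b}(t³)`, `x_{-b}(t) ↦ x_{-a}(t)` extend to an automorphism of the group. -/
theorem result {K : Type*} [Field K] [CharP K 3] (hperf : ∀ x : K, ∃ y : K, y ^ 3 = x) :
    ∃ α : ↥(Cfsg.Lie.chevG2.group K) ≃* ↥(Cfsg.Lie.chevG2.group K), ∀ (g : ↥(Cfsg.Lie.chevG2.group K)) (t : K),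
      (((g : GL Cfsg.Lie.chevG2.Idx K) : Matrix _ _ K) = Cfsg.Lie.chevG2.x K Cfsg.Lie.g2a t →
        ((α g : GL Cfsg.Lie.chevG2.Idx K) : Matrix _ _ K) = Cfsg.Lie.chevG2.x K Cfsg.Lie.g2b (t ^ 3)) ∧
      (((g : GL Cfsg.Lie.chevG2.Idx K) : Matrix _ _ K) = Cfsg.Lie.chevG2.x K Cfsg.Lie.g2b t →
        ((α g : GL Cfsg.Lie.chevG2.Idx K) : Matrix _ _ K) = Cfsg.Lie.chevG2.x K Cfsg.Lie.g2a t) ∧
      (((g : GL Cfsg.Lie.chevG2.Idx K) : Matrix _ _ K) = Cfsg.Lie.chevG2.x K Cfsg.Lie.g2ma t →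
        ((α g : GL Cfsg.Lie.chevG2.Idx K) : Matrix _ _ K) = Cfsg.Lie.chevG2.x K Cfsg.Lie.g2mb (t ^ 3)) ∧
      (((g : GL Cfsg.Lie.chevG2.Idx K) : Matrix _ _ K) = Cfsg.Lie.chevG2.x K Cfsg.Lie.g2mb t →
        ((α g : GL Cfsg.Lie.chevG2.Idx K) : Matrix _ _ K) = Cfsg.Lie.chevG2.x K Cfsg.Lie.g2ma t) := by
  obtain ⟨α, hα⟩ := Cfsg.Agent.H6.Chev.gaG2 hperf
  refine ⟨α, fun g t => ?_⟩
  have key : ∀ r < Cfsg.Lie.chevG2.nroots,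
        (((g : GL Cfsg.Lie.chevG2.Idx K) : Matrix Cfsg.Lie.chevG2.Idx Cfsg.Lie.chevG2.Idx K) = Cfsg.Lie.chevG2.x K r t →
        ((α g : GL Cfsg.Lie.chevG2.Idx K) : Matrix Cfsg.Lie.chevG2.Idx Cfsg.Lie.chevG2.Idx K) =
          Cfsg.Lie.chevG2.x K (Cfsg.Agent.H6.Chev.Tab.rho Cfsg.Agent.H6.Chev.gaG2R r) (t ^ Cfsg.Agent.H6.Chev.Tab.lm 3 Cfsg.Agent.H6.Chev.gaG2L r)) :=
    fun r hr hg => Cfsg.Agent.H6.Chev.ga_apply Cfsg.Agent.H6.Chev.modelG2 α (hα r hr t) g hg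
  have k1 : ∀ x : K, x ^ 1 = x := fun x => pow_one x
  refine ⟨key _ (by decide), ?_, key _ (by decide), ?_⟩
  · intro hg
    rw [← k1 t]
    exact key _ (by decide) hg
  · intro hg
    rw [← k1 t]
    exact key _ (by decide) hg

end Cfsg.Agent.S1099
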