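import Cfsg.Statements.S1100
import Cfsg.Agent.H6_ChevAll
import Cfsg.Agent.H6_ChevS

set_option autoImplicit false
open Cfsg

namespace Cfsg.Agent.S1100

/-- Canonical form `g = b n_w u` (`b ∈ B`, `u ∈ U_w⁻ = ⟨X_r : r > 0, n_w X_r n_w⁻¹ ≤ V⟩`): such a decomposition exists for every element of the group; the coset `n_w H` is determined by `g`; and for a fixed representative `n_w` the factors `b`, `u` are unique. -/
theorem result {F : Type*} [Field F] (D : Cfsg.Lie.ChevalleyDatum) (hD : D ∈ [Cfsg.Lie.chevG2, Cfsg.Lie.chevB2, Cfsg.Lie.chevD4, Cfsg.Lie.chevF4, Cfsg.Lie.chevE6, Cfsg.Lie.chevE7, Cfsg.Lie.chevE8]) :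
    (∀ g ∈ D.group F, ∃ b ∈ D.borelSubgroup F, ∃ n ∈ D.monomialSubgroup F,
      ∃ u ∈ Subgroup.closure {x : GL D.Idx F | ∃ (r : ℕ) (t : F), D.IsPosRoot r ∧
            (D.rootSubgroup F r).map (MulAut.conj n).toMonoidHom ≤ D.negUnipotent F ∧ (x : Matrix D.Idx D.Idx F) = D.x F r t},
        g = b * n * u) ∧
    (∀ (b b' n n' u u' : GL D.Idx F), b ∈ D.borelSubgroup F → b' ∈ D.borelSubgroup F →
      n ∈ D.monomialSubgroup F → n' ∈ D.monomialSubgroup F →
      u ∈ Subgroup.closure {x : GL D.Idx F | ∃ (r : ℕ) (t : F), D.IsPosRoot r ∧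
            (D.rootSubgroup F r).map (MulAut.conj n).toMonoidHom ≤ D.negUnipotent F ∧ (x : Matrix D.Idx D.Idx F) = D.x F r t} →
      u' ∈ Subgroup.closure {x : GL D.Idx F | ∃ (r : ℕ) (t : F), D.IsPosRoot r ∧
            (D.rootSubgroup F r).map (MulAut.conj n').toMonoidHom ≤ D.negUnipotent F ∧ (x : Matrix D.Idx D.Idx F) = D.x F r t} →
      b * n * u = b' * n' * u' → n⁻¹ * n' ∈ D.diagonalSubgroup F ∧ (n = n' → b = b' ∧ u = u')) := by
  obtain ⟨m⟩ := Cfsg.Agent.H6.Chev.exists_model hD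
  constructor
  · intro g hg
    obtain ⟨b, hb, n, hn, w, hw, hact, u, hu, rfl⟩ := m.exists_bruhat' hg
    refine ⟨b, hb, n, hn, u, ?_, rfl⟩
    rw [m.closure_eq_Uw hact]
    exact hu
  · intro b b' n n' u u' hb hb' hn hn' hu hu' he
    obtain ⟨w, hw, hact⟩ := m.acts_N hn
    obtain ⟨w', hw', hact'⟩ := m.acts_N hn'
    rw [m.closure_eq_Uw hact] at hu
    rw [m.closure_eq_Uw hact'] at hu'
    refine ⟨m.bruhat_unique_N hb hb' hn hn' (Cfsg.Agent.H6.Chev.Model.U_le_B (m.Uw_le_U _ hu))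
      (Cfsg.Agent.H6.Chev.Model.U_le_B (m.Uw_le_U _ hu')) he, ?_⟩
    rintro rfl
    have hww := m.acts_unique hact hact'
    subst hww
    exact m.bruhat_unique hb hb' hact hu hu' he

end Cfsg.Agent.S1100
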