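import Cfsg.Statements.S1112
import Cfsg.Agent.H6_TwPfF4

set_option autoImplicit false
open Cfsg

namespace Cfsg.Agent.S1112

theorem aux {m : ℕ} (hm : 1 ≤ m) : 2 < 2 ^ (2 * m + 1) := by
  have h : 2 ^ 1 < 2 ^ (2 * m + 1) := Nat.pow_lt_pow_right (by norm_num) (by omega)
  omega

/-- ²F₄(2^(2m+1)) (m ≥ 1) equals its derived subgroup. -/
theorem result {K : Type*} [Field K] [Fintype K] {m : ℕ} (hK : Fintype.card K = 2 ^ (2 * m + 1)) (hm : 1 ≤ m) : commutator ↥(Cfsg.Lie.twistedF4 K (2 ^ m)) = ⊤ := by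
  obtain ⟨h2, φ, hperf, hφ, hφ2, P, hP, hc⟩ := Cfsg.Agent.H6.Chev.exists_pF4 hK
  have hq : Nat.card K = 2 ^ (2 * m + 1) := by rw [Nat.card_eq_fintype_card, hK]
  rw [← hP]
  exact Cfsg.Agent.H6.Chev.f4_perfect φ hperf hφ2 hφ (by rw [hq]; exact aux hm) P hP

end Cfsg.Agent.S1112
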