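import Cfsg.Statements.S1114
import Cfsg.Agent.H6_TwHG2

set_option autoImplicit false
open Cfsg

namespace Cfsg.Agent.S1114

theorem aux (m : ℕ) : 3 ^ (2 * m + 1) % 8 = 3 := by
  induction m with
  | zero => rfl
  | succ k ih =>
    have : 3 ^ (2 * (k + 1) + 1) = 3 ^ (2 * k + 1) * 9 := by ring
    rw [this, Nat.mul_mod, ih]

/-- `|H¹| = |G¹ ∩ H|`: `|H¹| = 3 ^ (2 * m + 1) - 1` for ²G₂(3^(2m+1)). -/
theorem result {K : Type*} [Field K] [Fintype K] {m : ℕ} (hK : Fintype.card K = 3 ^ (2 * m + 1)) :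
    Nat.card ↥(Cfsg.Lie.chevG2.diagonalSubgroup K ⊓ Cfsg.Lie.twistedG2 K (3 ^ m)) = 3 ^ (2 * m + 1) - 1 := by
  obtain ⟨h3, φ, hperf, hφ, hφ2, P, hP, hc⟩ := Cfsg.Agent.H6.Chev.exists_pG2 hK
  have hq : Nat.card K = 3 ^ (2 * m + 1) := by rw [Nat.card_eq_fintype_card, hK]
  have ha := aux m
  have h1 := Cfsg.Agent.H6.Chev.g2_card_H φ hperf hφ2 hφ (by rw [hq]; omega) (by rw [hq]; omega) P hP
  rw [← hP, h1, hq]

end Cfsg.Agent.S1114
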