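import Cfsg.Statements.S1116
import Cfsg.Agent.H6_TwPf2

set_option autoImplicit false
open Cfsg

namespace Cfsg.Agent.S1116

theorem aux (m : ℕ) : 3 ^ (2 * m + 1) % 8 = 3 := by
  induction m with
  | zero => rfl
  | succ k ih =>
    have : 3 ^ (2 * (k + 1) + 1) = 3 ^ (2 * k + 1) * 9 := by ring
    rw [this, Nat.mul_mod, ih]

theorem aux2 {m : ℕ} (hm : 1 ≤ m) : 1 < 3 ^ m ∧ 3 * 3 ^ m + 0 < 3 ^ (2 * m + 1) := by
  refine ⟨Nat.one_lt_pow (by omega) (by norm_num), ?_⟩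
  have : 3 * 3 ^ m = 3 ^ (m + 1) := by ring
  rw [this]
  exact Nat.pow_lt_pow_right (by norm_num) (by omega)

/-- ²G₂(3^(2m+1)) (m ≥ 1) equals its derived subgroup. -/
theorem result {K : Type*} [Field K] [Fintype K] {m : ℕ} (hK : Fintype.card K = 3 ^ (2 * m + 1)) (hm : 1 ≤ m) : commutator ↥(Cfsg.Lie.twistedG2 K (3 ^ m)) = ⊤ := by
  obtain ⟨h3, φ, hperf, hφ, hφ2, P, hP, hc⟩ := Cfsg.Agent.H6.Chev.exists_pG2 hK
  have hq : Nat.card K = 3 ^ (2 * m + 1) := by rw [Nat.card_eq_fintype_card, hK]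
  have ha := aux m
  have h1 := Cfsg.Agent.H6.Chev.g2_perfect φ hperf hφ2 hφ (aux2 hm).1 (by rw [hq]; exact (aux2 hm).2) (by rw [hq]; omega)
    (by rw [hq]; omega) P hP
  rw [← hP]
  exact h1

end Cfsg.Agent.S1116
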