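import Cfsg.Statements.S1141
import Mathlib
import Cfsg.Agent.H19_U3d

set_option autoImplicit false
open Cfsg

namespace Cfsg.Agent.S1141

open Cfsg.Agent.H19.U3 Cfsg.Agent.H5 Cfsg.Agent.H5.Unit

theorem gen_fixed {F : Type*} [Field F] [Fintype F] {q : ℕ} (hF : Fintype.card F = q ^ 2) : ∃ μ : Fˣ, (μ : F) ^ q = μ ∧
    (∀ γ : F, γ ≠ 0 → γ ^ q = γ → ∃ k : ℕ, γ = (μ : F) ^ k) ∧ orderOf μ = q - 1 := by
  classical
  have hq1 : 1 < q := Fld.one_lt_q hF
  obtain ⟨ζ, hζ⟩ := IsCyclic.exists_generator (α := Fˣ)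
  have ho : orderOf ζ = q ^ 2 - 1 := by
    rw [orderOf_eq_card_of_forall_mem_zpowers hζ, Nat.card_eq_fintype_card, Fintype.card_units, hF]
  have hsq : q ^ 2 - 1 = (q - 1) * (q + 1) := by
    have := Nat.sq_sub_sq q 1
    rw [one_pow] at this
    rw [this, mul_comm]
  have hom : orderOf (ζ ^ (q + 1)) = q - 1 := by
    rw [orderOf_pow, ho, hsq, Nat.gcd_mul_left_left, Nat.mul_div_cancel _ (by omega)]
  refine ⟨ζ ^ (q + 1), ?_, ?_, hom⟩
  · rw [← Units.val_pow_eq_pow_val]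
    congr 1
    have h1 : (ζ ^ (q + 1)) ^ (q - 1) = 1 := by rw [← hom]; exact pow_orderOf_eq_one _
    calc (ζ ^ (q + 1)) ^ q = (ζ ^ (q + 1)) ^ (q - 1 + 1) := by congr 1; omega
      _ = ζ ^ (q + 1) := by rw [pow_succ, h1, one_mul]
  · intro γ hγ hγq
    obtain ⟨k, hk⟩ := (mem_powers_iff_mem_zpowers (x := ζ)).2 (hζ (Units.mk0 γ hγ))
    have hk' : ζ ^ k = Units.mk0 γ hγ := hk
    have h1 : (Units.mk0 γ hγ) ^ (q - 1) = 1 := by
      apply Units.ext
      rw [Units.val_pow_eq_pow_val, Units.val_mk0, Units.val_one]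
      have h2 : γ ^ (q - 1) * γ = 1 * γ := by
        rw [← pow_succ, one_mul]
        conv_rhs => rw [← hγq]
        congr 1; omega
      exact mul_right_cancel₀ hγ h2
    rw [← hk', ← pow_mul] at h1
    have h2 := orderOf_dvd_of_pow_eq_one h1
    rw [ho, hsq, mul_comm k] at h2
    have h3 : q + 1 ∣ k := Nat.dvd_of_mul_dvd_mul_left (by omega) h2
    obtain ⟨l, rfl⟩ := h3
    refine ⟨l, ?_⟩
    have h4 := congrArg Units.val hk'
    rw [Units.val_mk0] at h4
    rw [← h4, pow_mul, Units.val_pow_eq_pow_val]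

theorem suz {F : Type*} [Field F] [Fintype F] {n : ℕ} (hn : 2 ≤ n) (hF : Fintype.card F = (2 ^ n) ^ 2) {S : Type*} [Group S] [Finite S]
    (c : Coord S F (2 ^ n)) : Nat.card (Subgroup.center S) = 2 ^ n ∧ Cfsg.IsSuzukiTwoGroup S := by
  classical
  have h2 := two_eq_zero (by omega : n ≠ 0) hF
  have hq := q_pos hF
  have hq4 : 4 ≤ 2 ^ n := by
    calc 4 = 2 ^ 2 := by norm_num
      _ ≤ 2 ^ n := Nat.pow_le_pow_right (by norm_num) hn
  have hqe : ∃ r, 2 ^ n = 2 * r := by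
    obtain ⟨k, rfl⟩ := Nat.exists_eq_succ_of_ne_zero (by omega : n ≠ 0)
    exact ⟨2 ^ k, by rw [pow_succ]; ring⟩
  obtain ⟨r, hr⟩ := hqe
  obtain ⟨q, hqq⟩ : ∃ q, q = 2 ^ n := ⟨_, rfl⟩
  rw [← hqq] at hF c hq hq4 hr ⊢
  have hinv : ∀ x : S, x * x = 1 ↔ c.a x = 0 := by
    intro x
    constructor
    · intro h
      have h3 := (c.sq h2 x).2
      rw [h, c.one_b hF] at h3
      rcases mul_eq_zero.1 h3.symm with h4 | h4
      · exact h4
      · exact (pow_eq_zero_iff (by omega)).1 h4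
    · intro h
      apply c.inj
      · rw [(c.sq h2 x).1, c.one_a]
      · rw [(c.sq h2 x).2, h, zero_mul, c.one_b hF]
  have hcb : ∀ x : S, c.a x = 0 → (c.b x = 0 ↔ x = 1) := by
    intro x hx
    constructor
    · intro h
      exact c.inj _ _ (by rw [hx, c.one_a]) (by rw [h, c.one_b hF])
    · rintro rfl
      exact c.one_b hF
  refine ⟨?_, inferInstance, ?_, ?_, ?_, ?_⟩
  · -- the centre
    have hexz : ∀ β : {β : F // β ^ q = β}, ∃ x : S, c.a x = 0 ∧ c.b x = β := fun β => c.exists_z h2 β.2 hq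
    have e : Subgroup.center S ≃ {β : F // β ^ q = β} := by
      refine Equiv.ofBijective (fun x => ⟨c.b x, c.fixed_of_a h2 ((c.mem_center_iff hF h2 x).1 x.2)⟩) ⟨?_, ?_⟩
      · intro x y hxy
        apply Subtype.ext
        apply c.inj
        · rw [(c.mem_center_iff hF h2 x).1 x.2, (c.mem_center_iff hF h2 y).1 y.2]
        · exact congrArg Subtype.val hxy
      · intro β
        obtain ⟨x, hx1, hx2⟩ := hexz β
        exact ⟨⟨x, (c.mem_center_iff hF h2 x).2 hx1⟩, Subtype.ext hx2⟩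
    rw [Nat.card_congr e, Frm.card_fixed_frob hF]
  · exact IsPGroup.of_card (n := n * 3) (by rw [c.card hF h2, hqq, ← pow_mul])
  · -- not abelian
    obtain ⟨w, hw⟩ := exists_not_fixed hF
    obtain ⟨x, hx⟩ := c.exists_a hF h2 1
    obtain ⟨y, hy⟩ := c.exists_a hF h2 w
    refine ⟨x, y, fun h => hw ?_⟩
    have := (c.comm_iff h2 x y).1 h
    rw [hx, hy, one_mul, one_pow, mul_one] at this
    exact this
  · -- two involutions
    obtain ⟨μ, hμ, -, ho⟩ := gen_fixed hF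
    obtain ⟨x, hx1, hx2⟩ := c.exists_z h2 (β := 1) (one_pow _) hq
    obtain ⟨y, hy1, hy2⟩ := c.exists_z h2 hμ hq
    refine ⟨x, y, ?_, ?_, (hinv x).2 hx1, ?_, (hinv y).2 hy1⟩
    · rintro rfl
      have h3 : (μ : F) = 1 := by rw [← hy2, hx2]
      have h4 : μ = 1 := Units.ext h3
      rw [h4, orderOf_one] at ho
      omega
    · intro h
      have := (hcb x hx1).2 h
      rw [hx2] at this
      exact one_ne_zero this
    · intro h
      have := (hcb y hy1).2 h
      rw [hy2] at this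
      exact μ.ne_zero this
  · obtain ⟨μ, hμ, hgen, ho⟩ := gen_fixed hF
    obtain ⟨φ, hφa, hφb⟩ := c.exists_aut hF (μ : F) μ.ne_zero (RingEquiv.refl F)
    have hpa : ∀ (k : ℕ) (x : S), c.a ((φ ^ k) x) = (μ : F) ^ k * c.a x := by
      intro k
      induction k with
      | zero => intro x; simp
      | succ k ih =>
        intro x
        rw [pow_succ, MulAut.mul_apply, ih, hφa, pow_succ, RingEquiv.refl_apply]; ring
    have hpb : ∀ (k : ℕ) (x : S), c.b ((φ ^ k) x) = (μ : F) ^ (2 * k) * c.b x := by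
      intro k
      induction k with
      | zero => intro x; simp
      | succ k ih =>
        intro x
        rw [pow_succ, MulAut.mul_apply, ih, hφb, hμ, RingEquiv.refl_apply]; ring
    refine ⟨Subgroup.zpowers φ, inferInstance, ?_⟩
    intro x y hx hxx hy hyy
    have hax := (hinv x).1 hxx
    have hay := (hinv y).1 hyy
    have hbx : c.b x ≠ 0 := fun h => hx ((hcb x hax).1 h)
    have hby : c.b y ≠ 0 := fun h => hy ((hcb y hay).1 h)
    have hfx := c.fixed_of_a h2 hax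
    have hfy := c.fixed_of_a h2 hay
    obtain ⟨l, hl⟩ := hgen (c.b y / c.b x) (div_ne_zero hby hbx) (by rw [div_pow, hfx, hfy])
    have hll : (μ : F) ^ (2 * (r * l)) = (μ : F) ^ l := by
      rw [← mul_assoc, ← hr, pow_mul, hμ]
    refine ⟨⟨φ ^ (r * l), Subgroup.npow_mem_zpowers _ _⟩, ?_, ?_⟩
    · show (φ ^ (r * l)) x = y
      apply c.inj
      · rw [hpa, hax, hay, mul_zero]
      · rw [hpb, hll, ← hl, div_mul_cancel₀ _ hbx]
    · rintro ⟨k, hk⟩ hkx
      obtain ⟨i, hi⟩ := (mem_powers_iff_mem_zpowers (x := φ)).2 hk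
      have hi' : φ ^ i = k := hi
      subst hi'
      apply Subtype.ext
      show φ ^ i = φ ^ (r * l)
      have h3 : (φ ^ i) x = y := hkx
      have h4 := hpb i x
      rw [h3] at h4
      have h5 : (μ : F) ^ (2 * i) = (μ : F) ^ (2 * (r * l)) := by
        rw [hll, ← hl, eq_div_iff hbx, h4]
      have h6 : μ ^ (2 * i) = μ ^ (2 * (r * l)) := Units.ext (by rw [Units.val_pow_eq_pow_val, Units.val_pow_eq_pow_val, h5])
      have h7 : μ ^ i = μ ^ (r * l) := by
        rw [pow_eq_pow_iff_modEq, ho] at h6 ⊢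
        exact Nat.ModEq.cancel_left_of_coprime (by
          rw [Nat.gcd_comm, ← Nat.coprime_iff_gcd_eq_one, Nat.coprime_two_left, Nat.odd_iff]; omega) h6
      have h8 : (μ : F) ^ i = (μ : F) ^ (r * l) := by
        rw [← Units.val_pow_eq_pow_val, h7, Units.val_pow_eq_pow_val]
      ext z
      apply c.inj
      · rw [hpa, hpa, h8]
      · rw [hpb, hpb, h5]

/-- Let `q = 2^n ≥ 4` and `|F| = q²`. A Sylow 2-subgroup `S` of `PSU₃(q)` has order `q³`, its centre has order `q`, and `S` is a Suzuki 2-group. -/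
theorem result {F : Type*} [Field F] [Fintype F] {n : ℕ} (hn : 2 ≤ n)
    (hF : Fintype.card F = (2 ^ n) ^ 2) (S : Sylow 2 (Cfsg.PSU 3 F (2 ^ n))) :
    Nat.card S = (2 ^ n) ^ 3 ∧ Nat.card (Subgroup.center ↥(S : Subgroup (Cfsg.PSU 3 F (2 ^ n)))) = 2 ^ n ∧
      Cfsg.IsSuzukiTwoGroup ↥(S : Subgroup (Cfsg.PSU 3 F (2 ^ n))) := by
  classical
  haveI : Fact (Nat.Prime 2) := ⟨Nat.prime_two⟩
  have hn0 : n ≠ 0 := by omega
  have hk : Odd (Nat.card (QuotientGroup.mk' (Subgroup.center (Cfsg.SU 3 F (2 ^ n)))).ker) := by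
    rw [QuotientGroup.ker_mk', card_center_SU hF (by norm_num)]
    have h1 : Nat.gcd 3 (2 ^ n + 1) ∣ 3 := Nat.gcd_dvd_left _ _
    rcases (Nat.dvd_prime Nat.prime_three).1 h1 with h | h
    · rw [h]; exact odd_one
    · rw [h]; decide
  obtain ⟨P, ⟨e⟩⟩ := sylow_equiv_of_surj (QuotientGroup.mk' (Subgroup.center (Cfsg.SU 3 F (2 ^ n)))) (QuotientGroup.mk'_surjective _) hk S
  obtain ⟨c⟩ := exists_coord hn0 hF P
  have c' := c.congr e
  have hfin : Finite ↥(S : Subgroup (Cfsg.PSU 3 F (2 ^ n))) := inferInstance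
  exact ⟨c'.card hF (two_eq_zero hn0 hF), suz hn hF c'⟩

end Cfsg.Agent.S1141
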