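import Cfsg.Statements.S1152
import Cfsg.Agent.H6_Ree7

set_option autoImplicit false
open Cfsg

namespace Cfsg.Agent.S1152

/-- In the small Ree group ²G₂(q), q = 3^(2m+1), realised as G¹ inside the Chevalley group G₂ over the field with q elements (θ the 3^m-th power map), with H¹ = G¹ ∩ H and U¹ = G¹ ∩ U the intersections with the ambient diagonal and positive unipotent subgroups: for an involution `a ∈ H¹`, the centraliser of `a` in `G¹` is isomorphic to `Z₂ × PSL₂(q)`; and the Sylow 2-subgroups of `G¹` are elementary abelian of order 8. -/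
theorem result {K : Type*} [Field K] [Fintype K] {m : ℕ} (hK : Fintype.card K = 3 ^ (2 * m + 1))
    (a : ↥(Cfsg.Lie.twistedG2 K (3 ^ m))) (haH : (a : GL Cfsg.Lie.chevG2.Idx K) ∈ Cfsg.Lie.chevG2.diagonalSubgroup K) (ha1 : a ≠ 1) (ha2 : a * a = 1) :
    Nonempty (↥(Subgroup.centralizer {a}) ≃* Multiplicative (ZMod 2) × Matrix.ProjectiveSpecialLinearGroup (Fin 2) K) ∧
      ∀ S : Sylow 2 ↥(Cfsg.Lie.twistedG2 K (3 ^ m)), Nat.card S = 8 ∧ ∀ x ∈ S, x * x = 1 := by
  obtain ⟨R, hφ, hU, hH, hB⟩ := Cfsg.Agent.H6.Ree.exists_RG hK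
  obtain ⟨s, hs⟩ := (hH a).1 haH
  have ha : a = R.a := by
    rw [hs, R.a_def]
    rw [hs, ← map_mul, ← map_one R.h] at ha2
    have h1 := congrArg Units.val (R.hinj ha2)
    rw [Units.val_mul, Units.val_one, ← pow_two] at h1
    rcases sq_eq_one_iff.1 h1 with h2 | h2
    · exfalso
      apply ha1
      have : s = 1 := Units.ext h2
      rw [hs, this, map_one]
    · congr 1
      exact Units.ext (by rw [h2]; simp)
  subst ha
  obtain ⟨e, -⟩ := R.exists_cen_equiv hK
  exact ⟨⟨e.symm⟩, fun S => R.sylow2 hK S⟩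

end Cfsg.Agent.S1152
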