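import Cfsg.Statements.S1160
import Cfsg.Agent.H6_HT

set_option autoImplicit false
open Cfsg

namespace Cfsg.Agent.S1160

/-- Let `p ≠ 2` be prime and `P` a finite `p`-group acting faithfully by additive automorphisms on a finite elementary abelian `q`-group `E` (`q` prime), such that `|P_a|` is the same for all `a ≠ 0`. Then `P` is cyclic and every non-identity element of `P` fixes only `0`. -/
theorem result {P E : Type*} [Group P] [Finite P]
    [AddCommGroup E] [Finite E] [DistribMulAction P E] [FaithfulSMul P E]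
    {p q : ℕ} [Fact p.Prime] (hp2 : p ≠ 2) (hP : IsPGroup p P) (hq : q.Prime) (hE : ∀ e : E, q • e = 0)
    (hconst : ∀ a b : E, a ≠ 0 → b ≠ 0 →
      Nat.card (MulAction.stabilizer P a) = Nat.card (MulAction.stabilizer P b)) :
    IsCyclic P ∧ ∀ g : P, g ≠ 1 → ∀ a : E, g • a = a → a = 0 := by

  classical
  have hpp : p.Prime := Fact.out
  rcases subsingleton_or_nontrivial E with hE1 | hE1
  · -- trivial module
    have h1 : ∀ g : P, g = 1 := fun g => H6.HT.eq_one_of_fix (E := E) fun a => Subsingleton.elim _ _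
    have : Subsingleton P := ⟨fun a b => by rw [h1 a, h1 b]⟩
    exact ⟨inferInstance, fun g hg => absurd (h1 g) hg⟩
  by_cases hpq : p = q
  · -- a fixed point
    subst hpq
    have hpE : p ∣ Nat.card E := by
      obtain ⟨a, ha⟩ := exists_ne (0 : E)
      have h1 : addOrderOf a = p := addOrderOf_eq_prime (hE a) ha
      rw [← h1]
      exact addOrderOf_dvd_natCard a
    obtain ⟨a, ha, ha0⟩ := hP.exists_fixed_point_of_prime_dvd_card_of_fixed_point E hpE (a := (0 : E)) (fun g => smul_zero g)
    have hst : MulAction.stabilizer P a = ⊤ := by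
      rw [eq_top_iff]; intro g _; exact ha g
    have h1 : ∀ g : P, g = 1 := by
      intro g
      refine H6.HT.eq_one_of_fix (E := E) fun b => ?_
      by_cases hb : b = 0
      · rw [hb, smul_zero]
      · have h2 := hconst a b (Ne.symm ha0) hb
        rw [hst, Subgroup.card_top] at h2
        have h3 : MulAction.stabilizer P b = ⊤ := Subgroup.eq_top_of_card_eq _ h2.symm
        have h4 : g ∈ MulAction.stabilizer P b := by rw [h3]; trivial
        exact h4
    have : Subsingleton P := ⟨fun a b => by rw [h1 a, h1 b]⟩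
    exact ⟨inferInstance, fun g hg => absurd (h1 g) hg⟩
  have hp0 : ∀ a : E, p • a = 0 → a = 0 := by
    intro a ha
    have h1 : addOrderOf a ∣ p := addOrderOf_dvd_of_nsmul_eq_zero ha
    have h2 : addOrderOf a ∣ q := addOrderOf_dvd_of_nsmul_eq_zero (hE a)
    have h3 : addOrderOf a ∣ 1 := by
      have := Nat.dvd_gcd h1 h2
      rwa [(Nat.coprime_primes hpp hq).2 hpq] at this
    exact AddMonoid.addOrderOf_eq_one_iff.1 (Nat.dvd_one.1 h3)
  have hcyc := H6.HT.main_cyclic hp2 hP hp0 hconst
  refine ⟨hcyc, ?_⟩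
  intro g hg a hga
  by_contra ha
  -- an element of order `p` in `⟨g⟩`
  obtain ⟨k, hk⟩ := IsPGroup.iff_orderOf.1 hP g
  have hk0 : k ≠ 0 := by
    rintro rfl
    rw [pow_zero, orderOf_eq_one_iff] at hk
    exact hg hk
  obtain ⟨j, rfl⟩ : ∃ j, k = j + 1 := ⟨k - 1, by omega⟩
  have hc1 : g ^ p ^ j ≠ 1 := by
    intro h
    have h1 := orderOf_dvd_of_pow_eq_one h
    rw [hk] at h1
    have := (Nat.pow_dvd_pow_iff_le_right hpp.one_lt).1 h1
    omega
  have hcp : (g ^ p ^ j) ^ p = 1 := by rw [← pow_mul, ← pow_succ, ← hk, pow_orderOf_eq_one]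
  have hcZ : g ^ p ^ j ∈ Subgroup.center P := by
    rw [Subgroup.mem_center_iff]
    intro x
    let _ := hcyc.commGroup
    exact mul_comm _ _
  apply ha
  refine H6.HT.central_free hp0 hconst hcZ hcp hc1 (a := a) ?_
  have h1 : Subgroup.zpowers g ≤ MulAction.stabilizer P a := by rw [Subgroup.zpowers_le]; exact hga
  exact h1 (pow_mem (Subgroup.mem_zpowers g) _)

end Cfsg.Agent.S1160
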