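import Cfsg.Statements.S1168
import Cfsg.Agent.H6_Fld2

set_option autoImplicit false
open Cfsg

namespace Cfsg.Agent.S1168

/-- For a finite field `F` of characteristic 2: if `q : F → F` is quadratic over the prime field, i.e. `(x, y) ↦ q (x + y) + q x + q y` is additive in each variable, then `q x = Σ c_{σ,τ} σ(x) τ(x)` for some coefficients indexed by pairs of field automorphisms. -/
theorem result {F : Type*} [Field F] [Fintype F] [CharP F 2]
    (q : F → F)
    (hq : ∀ x y z : F, q (x + y + z) + q (x + y) + q (x + z) + q (y + z) + q x + q y + q z = 0) :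
    ∃ (s : Finset ((F ≃+* F) × (F ≃+* F))) (c : (F ≃+* F) × (F ≃+* F) → F),
      ∀ x : F, q x = ∑ p ∈ s, c p * (p.1 x * p.2 x) := by
  classical
  have := H6.Fld2.fin_aut (F := F)
  have : Fintype (F ≃+* F) := Fintype.ofFinite _
  let _ : Algebra (ZMod 2) F := ZMod.algebra F 2
  have h2 : ∀ x : F, x + x = 0 := CharTwo.add_self_eq_zero
  have h0 : q 0 = 0 := by
    have h := hq 0 0 0
    simp only [h2, zero_add] at h
    exact h
  have hsub : ∀ x y : F, x - y = x + y := CharTwo.sub_eq_add
  have hpol : ∀ x y : F, QuadraticMap.polar q x y = q (x + y) + q x + q y := by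
    intro x y
    rw [QuadraticMap.polar, hsub, hsub]
  have hzm : ∀ a : ZMod 2, a = 0 ∨ a = 1 := by decide
  let Q : QuadraticMap (ZMod 2) F F := QuadraticMap.ofPolar q
    (by
      intro a x
      rcases hzm a with rfl | rfl
      · simp [h0]
      · simp)
    (by
      intro x x' y
      rw [hpol, hpol, hpol]
      have h := hq x x' y
      have e : q (x + x' + y) + q (x + x') + q y = (q (x + y) + q x + q y) + (q (x' + y) + q x' + q y) +
         (q (x + x' + y) + q (x + x') + q (x + y) + q (x' + y) + q x + q x' + q y)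
          - ((q (x + y) + q (x + y)) + (q (x' + y) + q (x' + y)) + (q x + q x) + (q x' + q x') + (q y + q y)) := by
        ring
      rw [e, h]
      simp only [h2]
      ring)
    (by
      intro a x y
      rcases hzm a with rfl | rfl
      · rw [hpol]; simp [h0, h2]
      · simp)
  obtain ⟨B, hB⟩ := LinearMap.BilinMap.toQuadraticMap_surjective Q
  let B' : F →+ F →+ F := AddMonoidHom.mk' (fun x => (B x).toAddMonoidHom) (by
    intro x y
    ext z
    simp)
  obtain ⟨c, hc⟩ := H6.Fld2.biadd_map' B'
  refine ⟨Finset.univ, c, fun x => ?_⟩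
  rw [← hc x x]
  have h := DFunLike.congr_fun hB x
  exact h.symm

end Cfsg.Agent.S1168
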