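import Cfsg.Statements.S1176
import Mathlib
import Cfsg.Agent.H4_Iso

set_option autoImplicit false
open Cfsg

namespace Cfsg.Agent.S1176

open Cfsg.Agent.H4.Inv Cfsg.Agent.H4.Iso
open scoped commutatorElement

/-- Let x₀ be an involution of the finite group G and D its conjugacy class. Assume (a) for each x ∈ D the subgroup W(x) generated by the members of D commuting with x is a 2-group of nilpotency class at most 2, and (b) the product of two distinct commuting members of D again lies in D. Then for all x, y ∈ D, if xy has even order greater than 2, its order is 4. -/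
theorem result {G : Type*} [Group G] [Finite G] (x₀ : G) (hx₀ : orderOf x₀ = 2) (ha : ∀ x : G, IsConj x₀ x → IsPGroup 2 ↥(Subgroup.closure {y : G | IsConj x₀ y ∧ Commute y x}) ∧ ⁅⁅Subgroup.closure {y : G | IsConj x₀ y ∧ Commute y x}, Subgroup.closure {y : G | IsConj x₀ y ∧ Commute y x}⁆, Subgroup.closure {y : G | IsConj x₀ y ∧ Commute y x}⁆ = ⊥) (hb : ∀ x y : G, IsConj x₀ x → IsConj x₀ y → x ≠ y → Commute x y → IsConj x₀ (x * y)) (x y : G) (hx : IsConj x₀ x) (hy : IsConj x₀ y) (heven : Even (orderOf (x * y))) (hgt : 2 < orderOf (x * y)) : orderOf (x * y) = 4 := by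
  have ho : ∀ a : G, IsConj x₀ a → orderOf a = 2 := by
    intro a h
    obtain ⟨c, hc⟩ := isConj_iff.mp h
    rw [← hc, orderOf_conj]; exact hx₀
  have hx2 := ho x hx
  have hy2 := ho y hy
  obtain ⟨h1, h2, h3⟩ := even_central hx2 hy2 (orderOf_pos _).ne' heven
  set z := (x * y) ^ (orderOf (x * y) / 2) with hz
  have hz1 : z ≠ 1 := ne_one h1
  have hxz : IsConj x₀ (x * z) := by
    rcases mul_central_conj hx2 hy2 heven with h | h
    · exact hx.trans h
    · exact hy.trans h
  have hzD : IsConj x₀ z := by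
    have h4 := hb x (x * z) hx hxz (by
      intro h; apply hz1
      exact (mul_left_cancel ((mul_one x).trans h)).symm) (Commute.mul_right (Commute.refl x) h2.symm)
    rwa [← mul_assoc, mul_self hx2, one_mul] at h4
  obtain ⟨-, hcl⟩ := ha z hzD
  set W := Subgroup.closure {y : G | IsConj x₀ y ∧ Commute y z} with hW
  have hxW : x ∈ W := Subgroup.subset_closure ⟨hx, h2.symm⟩
  have hyW : y ∈ W := Subgroup.subset_closure ⟨hy, h3.symm⟩
  have hc1 : ⁅x, y⁆ ∈ ⁅W, W⁆ := Subgroup.commutator_mem_commutator hxW hyW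
  have hc2 : ⁅⁅x, y⁆, x⁆ ∈ ⁅⁅W, W⁆, W⁆ := Subgroup.commutator_mem_commutator hc1 hxW
  rw [hcl, Subgroup.mem_bot, commutatorElement_eq_one_iff_mul_comm] at hc2
  have hxy : ⁅x, y⁆ = (x * y) ^ 2 := by
    rw [commutatorElement_def, inv_eq hx2, inv_eq hy2, pow_two]; group
  rw [hxy] at hc2
  have hinv := conj_mul_zpow hx2 hy2 2
  have e2 : (x * y) ^ (2:ℤ) = (x * y) ^ 2 := by rw [← zpow_natCast]; rfl
  rw [e2] at hinv
  have h4 : (x * y) ^ 4 = 1 := by
    have h5 : x * (x * y) ^ 2 * x⁻¹ = (x * y) ^ 2 := by rw [← hc2, mul_inv_cancel_right]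
    rw [h5] at hinv
    have h6 : (x * y) ^ 2 * (x * y) ^ 2 = 1 := by
      nth_rewrite 1 [hinv]
      rw [inv_mul_cancel]
    rw [← h6, ← pow_add]
  have h5 := orderOf_dvd_of_pow_eq_one h4
  obtain ⟨m, hm⟩ := heven
  have h6 : orderOf (x * y) ≤ 4 := Nat.le_of_dvd (by norm_num) h5
  interval_cases h : orderOf (x * y)
  · omega
  · rfl

end Cfsg.Agent.S1176
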