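import Cfsg.Statements.S1177
import Mathlib

set_option autoImplicit false
open Cfsg

namespace Cfsg.Agent.S1177

/-- Let A be a nontrivial elementary abelian 2-subgroup of a finite group G which is a T.I. set (each conjugate of A meets A trivially or equals A) and which does not commute elementwise with any conjugate of A other than A itself. Then for every a ∈ A, a ≠ 1, every conjugate of A contained in C_G(a) is equal to A (A is weakly closed in C_G(a)). -/
theorem result {G : Type*} [Group G] [Finite G] (A : Subgroup G) (hA : Cfsg.IsElementaryAbelian 2 A) (hA1 : A ≠ ⊥) (hTI : ∀ g : G, A.map (MulAut.conj g).toMonoidHom ⊓ A = ⊥ ∨ A.map (MulAut.conj g).toMonoidHom = A) (hb : ∀ g : G, (∀ a ∈ A, ∀ b ∈ A.map (MulAut.conj g).toMonoidHom, a * b = b * a) → A.map (MulAut.conj g).toMonoidHom = A) (a : G) (ha : a ∈ A) (ha1 : a ≠ 1) (g : G) (hg : A.map (MulAut.conj g).toMonoidHom ≤ Subgroup.centralizer ({a} : Set G)) : A.map (MulAut.conj g).toMonoidHom = A := by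
  by_contra hne
  set B := A.map (MulAut.conj g).toMonoidHom with hB
  have hmemmap : ∀ (H : Subgroup G) (g x : G), x ∈ H.map (MulAut.conj g).toMonoidHom ↔ g⁻¹ * x * g ∈ H := by
    intro H g x
    constructor
    · rintro ⟨y, hy, rfl⟩
      simpa [mul_assoc] using hy
    · intro h
      exact ⟨g⁻¹ * x * g, h, by simp [mul_assoc]⟩
  have hinf : B ⊓ A = ⊥ := by
    rcases hTI g with h | h
    · exact h
    · exact absurd h hne
  have hcomA : ∀ x ∈ A, ∀ y ∈ A, x * y = y * x := fun x hx y hy =>
    congrArg (fun x : A => (x : G)) (hA.1.1.1 ⟨x, hx⟩ ⟨y, hy⟩)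
  have hsqA : ∀ x ∈ A, x * x = 1 := by
    intro x hx
    have := hA.2 x hx
    rwa [pow_two] at this
  have hsqB : ∀ x ∈ B, x * x = 1 := by
    intro x hx
    have h1 := hsqA _ ((hmemmap A g x).mp hx)
    calc x * x = g * (g⁻¹ * x * g * (g⁻¹ * x * g)) * g⁻¹ := by group
      _ = 1 := by rw [h1]; group
  -- every b in B normalizes A
  have hBA : ∀ b ∈ B, ∀ x ∈ A, b * x * b⁻¹ ∈ A := by
    intro b hb' x hx
    have hba : b * a * b⁻¹ = a := by
      have := hg hb'
      rw [Subgroup.mem_centralizer_singleton_iff] at this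
      rw [this, mul_inv_cancel_right]
    rcases hTI b with h | h
    · exfalso
      have : a ∈ A.map (MulAut.conj b).toMonoidHom ⊓ A := by
        refine ⟨(hmemmap A b a).mpr ?_, ha⟩
        have e : b⁻¹ * a * b = a := by
          calc b⁻¹ * a * b = b⁻¹ * (b * a * b⁻¹) * b := by rw [hba]
            _ = a := by group
        rw [e]; exact ha
      rw [h, Subgroup.mem_bot] at this
      exact ha1 this
    · have : b * x * b⁻¹ ∈ A.map (MulAut.conj b).toMonoidHom := by
        rw [hmemmap]
        have e : b⁻¹ * (b * x * b⁻¹) * b = x := by group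
        rw [e]; exact hx
      rwa [h] at this
  -- if x ∈ A commutes with a nontrivial b ∈ B then it commutes with B
  have hkey : ∀ x ∈ A, ∀ b ∈ B, b ≠ 1 → x * b = b * x → ∀ b' ∈ B, x * b' = b' * x := by
    intro x hx b hbB hb1 hxb b' hb'
    have hxBx : x * b' * x⁻¹ ∈ B := by
      -- conjugating to A
      set x' := g⁻¹ * x * g with hx'
      rcases hTI x' with h | h
      · exfalso
        have : g⁻¹ * b * g ∈ A.map (MulAut.conj x').toMonoidHom ⊓ A := by
          refine ⟨(hmemmap A x' _).mpr ?_, (hmemmap A g b).mp hbB⟩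
          have e : x'⁻¹ * (g⁻¹ * b * g) * x' = g⁻¹ * b * g := by
            calc x'⁻¹ * (g⁻¹ * b * g) * x' = g⁻¹ * (x⁻¹ * (b * x)) * g := by rw [hx']; group
              _ = g⁻¹ * b * g := by rw [← hxb]; group
          rw [e]
          exact (hmemmap A g b).mp hbB
        rw [h, Subgroup.mem_bot] at this
        apply hb1
        calc b = g * (g⁻¹ * b * g) * g⁻¹ := by group
          _ = 1 := by rw [this]; group
      · have h2 : x' * (g⁻¹ * b' * g) * x'⁻¹ ∈ A.map (MulAut.conj x').toMonoidHom := by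
          rw [hmemmap]
          have e : x'⁻¹ * (x' * (g⁻¹ * b' * g) * x'⁻¹) * x' = g⁻¹ * b' * g := by group
          rw [e]; exact (hmemmap A g b').mp hb'
        rw [h] at h2
        rw [hB, hmemmap]
        have e : g⁻¹ * (x * b' * x⁻¹) * g = x' * (g⁻¹ * b' * g) * x'⁻¹ := by rw [hx']; group
        rw [e]; exact h2
    have h3 : x * b' * x⁻¹ * b'⁻¹ ∈ B ⊓ A := by
      refine ⟨B.mul_mem hxBx (B.inv_mem hb'), ?_⟩
      have e : x * b' * x⁻¹ * b'⁻¹ = x * (b' * x⁻¹ * b'⁻¹) := by group
      rw [e]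
      exact A.mul_mem hx (hBA b' hb' _ (A.inv_mem hx))
    rw [hinf, Subgroup.mem_bot] at h3
    calc x * b' = (x * b' * x⁻¹ * b'⁻¹) * b' * x := by group
      _ = b' * x := by rw [h3, one_mul]
  -- some x in A does not commute with B
  have hx : ∃ x ∈ A, ¬ ∀ b ∈ B, x * b = b * x := by
    by_contra h
    push Not at h
    exact hne (hb g h)
  obtain ⟨x, hxA, hx⟩ := hx
  set C : Subgroup G := A ⊓ Subgroup.centralizer (B : Set G) with hC
  have hCA : C < A := by
    refine lt_of_le_of_ne inf_le_left ?_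
    intro h
    apply hx
    intro b hbB
    have : x ∈ C := by rw [h]; exact hxA
    exact (Subgroup.mem_centralizer_iff.mp this.2 b hbB).symm
  have hinj : ∀ b ∈ B, ∀ b' ∈ B, x * (b * x * b⁻¹) = x * (b' * x * b'⁻¹) → b = b' := by
    intro b hbB b' hbB' h
    have h1 := mul_left_cancel h
    by_contra hbb
    apply hx
    apply hkey x hxA (b'⁻¹ * b) (B.mul_mem (B.inv_mem hbB') hbB)
    · intro h2
      apply hbb
      rw [inv_mul_eq_one] at h2
      exact h2.symm
    · calc x * (b'⁻¹ * b) = b'⁻¹ * (b' * x * b'⁻¹) * b := by group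
        _ = b'⁻¹ * (b * x * b⁻¹) * b := by rw [h1]
        _ = b'⁻¹ * b * x := by group
  have hmem : ∀ b ∈ B, x * (b * x * b⁻¹) ∈ C := by
    intro b hbB
    refine ⟨A.mul_mem hxA (hBA b hbB x hxA), ?_⟩
    by_cases hb1 : b = 1
    · subst hb1
      have : x * (1 * x * 1⁻¹) = 1 := by simpa using hsqA x hxA
      rw [this]; exact Subgroup.one_mem _
    · refine Subgroup.mem_centralizer_iff.mpr ?_
      intro b' hb'
      symm
      apply hkey _ (A.mul_mem hxA (hBA b hbB x hxA)) b hbB hb1 _ b' hb'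
      have hb2 : b * b = 1 := hsqB b hbB
      have hb3 : b⁻¹ = b := inv_eq_of_mul_eq_one_left hb2
      have hcc := hcomA x hxA (b * x * b⁻¹) (hBA b hbB x hxA)
      calc x * (b * x * b⁻¹) * b = (b * x * b⁻¹) * x * b := by rw [hcc]
        _ = b * x * (b⁻¹ * x * b) := by group
        _ = b * x * (b * x * b⁻¹) := by rw [hb3]
        _ = b * (x * (b * x * b⁻¹)) := by group
  have hcard1 : Nat.card B ≤ Nat.card C :=
    Nat.card_le_card_of_injective (fun b : B => (⟨x * (b * x * (b : G)⁻¹), hmem b b.2⟩ : C))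
      (fun b b' h => Subtype.ext (hinj b b.2 b' b'.2 (congrArg Subtype.val h)))
  have hcard2 : Nat.card B = Nat.card A :=
    Nat.card_congr (A.equivMapOfInjective _ (MulAut.conj g).injective).symm.toEquiv
  have hcard3 : Nat.card C < Nat.card A := by
    have h1 := Subgroup.card_dvd_of_le hCA.le
    refine lt_of_le_of_ne (Nat.le_of_dvd Nat.card_pos h1) ?_
    intro h2
    exact hCA.ne (Subgroup.eq_of_le_of_card_ge hCA.le h2.ge)
  omega

end Cfsg.Agent.S1177
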