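import Cfsg.Statements.S1178
import Mathlib

set_option autoImplicit false
open Cfsg

namespace Cfsg.Agent.S1178

/-- Let A be a subgroup of a Sylow 2-subgroup S of the finite group G which is weakly closed in S. If a conjugate g A g⁻¹ commutes elementwise with A, then g A g⁻¹ = A. -/
theorem result {G : Type*} [Group G] [Finite G] (S : Sylow 2 G) (A : Subgroup G) (hW : Cfsg.IsWeaklyClosed A (S : Subgroup G)) (g : G) (hc : ∀ a ∈ A, ∀ b ∈ A.map (MulAut.conj g).toMonoidHom, a * b = b * a) : A.map (MulAut.conj g).toMonoidHom = A := by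
  obtain ⟨hAS, hwc⟩ := hW
  have hA2 : IsPGroup 2 A := S.2.to_le hAS
  have hB2 : IsPGroup 2 (A.map (MulAut.conj g).toMonoidHom) := hA2.map _
  have hnorm : A ≤ Subgroup.normalizer ((A.map (MulAut.conj g).toMonoidHom : Subgroup G) : Set G) := by
    refine le_trans ?_ (Subgroup.centralizer_le_normalizer _)
    intro a ha
    rw [Subgroup.mem_centralizer_iff]
    intro b hb
    exact (hc a ha b hb).symm
  have hAB := IsPGroup.to_sup_of_normal_right' hA2 hB2 hnorm
  obtain ⟨Q, hQ⟩ := hAB.exists_le_sylow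
  obtain ⟨a, ha⟩ := MulAction.exists_smul_eq G S Q
  have mem : ∀ y : G, y ∈ Q → a⁻¹ * y * a ∈ (S : Subgroup G) := by
    intro y hy
    rw [← ha] at hy
    change y ∈ ((a • S : Sylow 2 G) : Subgroup G) at hy
    rw [Sylow.coe_subgroup_smul, Subgroup.mem_pointwise_smul_iff_inv_smul_mem, ← map_inv,
      MulAut.smul_def, MulAut.conj_apply, inv_inv] at hy
    exact hy
  have h1 : A.map (MulAut.conj a⁻¹).toMonoidHom = A := by
    apply hwc
    rintro _ ⟨y, hy, rfl⟩
    have := mem y (hQ (Subgroup.mem_sup_left hy))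
    simpa using this
  have h2 : A.map (MulAut.conj (a⁻¹ * g)).toMonoidHom = A := by
    apply hwc
    rintro _ ⟨y, hy, rfl⟩
    have h3 : g * y * g⁻¹ ∈ A.map (MulAut.conj g).toMonoidHom := ⟨y, hy, by simp⟩
    have := mem _ (hQ (Subgroup.mem_sup_right h3))
    simpa [mul_assoc] using this
  -- elementwise
  have e1 : ∀ y, y ∈ A ↔ a * y * a⁻¹ ∈ A := by
    intro y
    constructor
    · intro hy
      rw [← h1] at hy
      obtain ⟨w, hw, hw2⟩ := hy
      simp only [MulEquiv.toMonoidHom_eq_coe, MonoidHom.coe_coe, MulAut.conj_apply, inv_inv] at hw2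
      have : a * y * a⁻¹ = w := by rw [← hw2]; group
      rw [this]; exact hw
    · intro hy
      rw [← h1]
      exact ⟨_, hy, by simp only [MulEquiv.toMonoidHom_eq_coe, MonoidHom.coe_coe, MulAut.conj_apply, inv_inv]; group⟩
  apply le_antisymm
  · rintro _ ⟨y, hy, rfl⟩
    have h3 : (MulAut.conj (a⁻¹ * g)).toMonoidHom y ∈ A := by
      rw [← h2]; exact ⟨y, hy, rfl⟩
    simp only [MulEquiv.toMonoidHom_eq_coe, MonoidHom.coe_coe, MulAut.conj_apply] at h3 ⊢
    have h4 := (e1 _).mp h3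
    have : a * (a⁻¹ * g * y * (a⁻¹ * g)⁻¹) * a⁻¹ = g * y * g⁻¹ := by group
    rwa [this] at h4
  · intro y hy
    have h3 : a⁻¹ * y * a ∈ A := by
      rw [e1]
      have : a * (a⁻¹ * y * a) * a⁻¹ = y := by group
      rwa [this]
    rw [← h2] at h3
    obtain ⟨w, hw, hw2⟩ := h3
    refine ⟨w, hw, ?_⟩
    simp only [MulEquiv.toMonoidHom_eq_coe, MonoidHom.coe_coe, MulAut.conj_apply] at hw2 ⊢
    have := congrArg (fun v => a * v * a⁻¹) hw2
    calc g * w * g⁻¹ = a * (a⁻¹ * g * w * (a⁻¹ * g)⁻¹) * a⁻¹ := by group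
      _ = a * (a⁻¹ * y * a) * a⁻¹ := this
      _ = y := by group

end Cfsg.Agent.S1178
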