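import Cfsg.Statements.S1242
import Mathlib
import Cfsg.Agent.H4_Transfer

set_option autoImplicit false
open Cfsg

namespace Cfsg.Agent.S1242

open Cfsg.Agent.H4.Transfer
open scoped commutatorElement

theorem pResidual_normal (p : ℕ) (G : Type*) [Group G] : (Cfsg.pResidual p G).Normal := by
  constructor
  intro n hn g
  unfold Cfsg.pResidual at hn ⊢
  induction hn using Subgroup.closure_induction with
  | mem x hx =>
    apply Subgroup.subset_closure
    have := orderOf_injective (MulAut.conj g).toMonoidHom (MulAut.conj g).injective x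
    simp only [MulEquiv.toMonoidHom_eq_coe, MonoidHom.coe_coe, MulAut.conj_apply] at this
    change Nat.Coprime _ _
    rw [this]
    exact hx
  | one => simpa using Subgroup.one_mem _
  | mul a b _ _ iha ihb =>
    have : g * (a * b) * g⁻¹ = (g * a * g⁻¹) * (g * b * g⁻¹) := by group
    rw [this]
    exact Subgroup.mul_mem _ iha ihb
  | inv a _ iha =>
    have : g * a⁻¹ * g⁻¹ = (g * a * g⁻¹)⁻¹ := by group
    rw [this]
    exact Subgroup.inv_mem _ iha

/-- decomposition of an element into a `p`-part and a `p'`-part -/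
theorem decomp {G : Type*} [Group G] [Finite G] (p : ℕ) [hp : Fact p.Prime] (x : G) :
    ∃ a b : ℤ, x = x ^ a * x ^ b ∧ (∃ k, orderOf (x ^ a) = p ^ k) ∧
      Nat.Coprime (orderOf (x ^ b)) p := by
  obtain ⟨k, m, hm, hkm⟩ := Nat.exists_eq_pow_mul_and_not_dvd (orderOf_pos x).ne' p hp.out.ne_one
  have hcop : Nat.Coprime (p ^ k) m := Nat.Coprime.pow_left k ((Nat.Prime.coprime_iff_not_dvd hp.out).mpr hm)
  have hb := Nat.gcd_eq_gcd_ab (p ^ k) m
  rw [hcop] at hb
  refine ⟨m * Nat.gcdB (p ^ k) m, (p ^ k : ℕ) * Nat.gcdA (p ^ k) m, ?_, ?_, ?_⟩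
  · rw [← zpow_add, add_comm, ← hb]; simp
  · have : orderOf (x ^ ((m : ℤ) * Nat.gcdB (p ^ k) m)) ∣ p ^ k := by
      apply orderOf_dvd_of_pow_eq_one
      rw [← zpow_natCast, ← zpow_mul]
      have e : (m : ℤ) * Nat.gcdB (p ^ k) m * ((p ^ k : ℕ) : ℤ) =
        ((orderOf x : ℕ) : ℤ) * Nat.gcdB (p ^ k) m := by rw [hkm]; push_cast; ring
      rw [e, zpow_mul, zpow_natCast, pow_orderOf_eq_one, one_zpow]
    obtain ⟨j, -, hj⟩ := (Nat.dvd_prime_pow hp.out).mp this
    exact ⟨j, hj⟩
  · have : orderOf (x ^ (((p ^ k : ℕ) : ℤ) * Nat.gcdA (p ^ k) m)) ∣ m := by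
      apply orderOf_dvd_of_pow_eq_one
      rw [← zpow_natCast, ← zpow_mul]
      have e : ((p ^ k : ℕ) : ℤ) * Nat.gcdA (p ^ k) m * (m : ℤ) =
        ((orderOf x : ℕ) : ℤ) * Nat.gcdA (p ^ k) m := by rw [hkm]; push_cast; ring
      rw [e, zpow_mul, zpow_natCast, pow_orderOf_eq_one, one_zpow]
    exact Nat.Coprime.coprime_dvd_left this
      ((Nat.Prime.coprime_iff_not_dvd hp.out).mpr hm).symm

theorem main {G : Type*} [Group G] [Finite G] {p : ℕ} [Fact p.Prime] (H : Subgroup G)
    (hidx : Nat.Coprime p H.index)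
    (hfus : ∀ g ∈ H, (∃ k : ℕ, orderOf g = p ^ k) → ∀ a : G, a * g * a⁻¹ ∈ H →
      ∃ h ∈ H, h * g * h⁻¹ = a * g * a⁻¹) :
    (Cfsg.pResidual p G ⊔ commutator G) ⊓ H =
      (Cfsg.pResidual p ↥H ⊔ commutator ↥H).map H.subtype := by
  set L := Cfsg.pResidual p ↥H ⊔ commutator ↥H with hL
  haveI := pResidual_normal p H
  haveI : L.Normal := by rw [hL]; infer_instance
  letI : CommGroup (H ⧸ L) :=
    { (inferInstance : Group (H ⧸ L)) with
      mul_comm := by
        intro a b
        obtain ⟨a, rfl⟩ := QuotientGroup.mk_surjective a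
        obtain ⟨b, rfl⟩ := QuotientGroup.mk_surjective b
        rw [← QuotientGroup.mk_mul, ← QuotientGroup.mk_mul, eq_comm, QuotientGroup.eq]
        have h1 : ⁅a⁻¹, b⁻¹⁆ ∈ commutator H :=
          Subgroup.commutator_mem_commutator (Subgroup.mem_top _) (Subgroup.mem_top _)
        have e : (b * a)⁻¹ * (a * b) = ⁅a⁻¹, b⁻¹⁆ := by
          rw [commutatorElement_def]; group
        rw [e]
        exact Subgroup.mem_sup_right h1 }
  let ϕ : H →* H ⧸ L := QuotientGroup.mk' L
  have hϕ : ∀ x : H, ϕ x = 1 ↔ x ∈ L := fun x => QuotientGroup.eq_one_iff x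
  -- every element of the quotient has p-power order
  have hp' : ∀ x : H, Nat.Coprime (orderOf x) p → ϕ x = 1 := fun x hx =>
    (hϕ x).mpr (Subgroup.mem_sup_left (Subgroup.subset_closure hx))
  have hpow : ∀ x : H ⧸ L, ∃ k, orderOf x = p ^ k := by
    intro x
    obtain ⟨x, rfl⟩ := QuotientGroup.mk_surjective x
    obtain ⟨a, b, hab, ⟨k, hk⟩, hb⟩ := decomp p x
    have h1 : (QuotientGroup.mk x : H ⧸ L) = ϕ (x ^ a) := by
      change ϕ x = _
      conv_lhs => rw [hab]
      rw [map_mul, hp' _ hb, mul_one]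
    rw [h1]
    have h2 := orderOf_map_dvd ϕ (x ^ a)
    rw [hk] at h2
    obtain ⟨j, -, hj⟩ := (Nat.dvd_prime_pow Fact.out).mp h2
    exact ⟨j, hj⟩
  let V := MonoidHom.transfer ϕ
  -- V kills O^p(G) and G'
  have hV : ∀ g ∈ Cfsg.pResidual p G ⊔ commutator G, V g = 1 := by
    have h1 : Cfsg.pResidual p G ⊔ commutator G ≤ V.ker := by
      apply sup_le
      · unfold Cfsg.pResidual
        rw [Subgroup.closure_le]
        intro g hg
        rw [SetLike.mem_coe, MonoidHom.mem_ker]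
        obtain ⟨k, hk⟩ := hpow (V g)
        have h2 : orderOf (V g) ∣ orderOf g := orderOf_map_dvd V g
        rw [← orderOf_eq_one_iff]
        exact Nat.eq_one_of_dvd_coprimes (a := p ^ k) (b := orderOf g)
          (Nat.Coprime.pow_left k (Nat.Coprime.symm hg)) (by rw [hk]) h2
      · intro g hg
        exact map_eq_one_of_mem_commutator V hg
    intro g hg
    exact h1 hg
  apply le_antisymm
  · rintro x ⟨hx1, hx2⟩
    obtain ⟨a, b, hab, ⟨k, hk⟩, hb⟩ := decomp p (⟨x, hx2⟩ : H)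
    have hx3 : V x = 1 := hV x hx1
    -- the p'-part lies in L
    have hbL : (⟨x, hx2⟩ : H) ^ b ∈ L := (hϕ _).mp (hp' _ hb)
    have hVb : V (x ^ b) = 1 := by
      apply hV
      apply Subgroup.mem_sup_left
      apply Subgroup.subset_closure
      change Nat.Coprime _ _
      have : orderOf (x ^ b) = orderOf ((⟨x, hx2⟩ : H) ^ b) := by
        rw [← Subgroup.orderOf_coe]; simp
      rw [this]; exact hb
    have hVa : V (x ^ a) = 1 := by
      have h1 : x = x ^ a * x ^ b := by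
        have := congrArg (Subtype.val) hab
        simpa using this
      rw [h1, map_mul, hVb, mul_one] at hx3
      exact hx3
    have hVa2 : V (x ^ a) = ϕ ((⟨x, hx2⟩ : H) ^ a) ^ H.index := by
      have hxa : x ^ a ∈ H := H.zpow_mem hx2 a
      have e0 : (⟨x, hx2⟩ : H) ^ a = ⟨x ^ a, hxa⟩ := by ext; simp
      rw [e0]
      apply transfer_eq_pow' ϕ (x ^ a) hxa
      intro n g₀ h
      have hpn : ∃ k, orderOf ((x ^ a) ^ n) = p ^ k := by
        have h1 : orderOf ((x ^ a) ^ n) ∣ p ^ k := by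
          rw [← hk, e0, ← Subgroup.orderOf_coe]
          exact orderOf_pow_dvd n
        obtain ⟨j, -, hj⟩ := (Nat.dvd_prime_pow Fact.out).mp h1
        exact ⟨j, hj⟩
      obtain ⟨c, hc, hc2⟩ := hfus _ (H.pow_mem hxa n) hpn g₀⁻¹ (by simpa using h)
      rw [inv_inv] at hc2
      have e1 : (⟨g₀⁻¹ * (x ^ a) ^ n * g₀, h⟩ : H) = ⟨c, hc⟩ * ⟨x ^ a, hxa⟩ ^ n * (⟨c, hc⟩ : H)⁻¹ := by
        ext
        simpa using hc2.symm
      rw [e1, map_mul, map_mul, map_inv, map_pow, mul_comm (ϕ ⟨c, hc⟩), mul_inv_cancel_right]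
    rw [hVa] at hVa2
    have haL : (⟨x, hx2⟩ : H) ^ a ∈ L := by
      rw [← hϕ, ← orderOf_eq_one_iff]
      obtain ⟨j, hj⟩ := hpow (ϕ ((⟨x, hx2⟩ : H) ^ a))
      exact Nat.eq_one_of_dvd_coprimes (a := p ^ j) (b := H.index)
        (Nat.Coprime.pow_left j hidx) (by rw [hj]) (orderOf_dvd_of_pow_eq_one hVa2.symm)
    refine ⟨⟨x, hx2⟩, ?_, rfl⟩
    rw [SetLike.mem_coe, hab]
    exact L.mul_mem haL hbL
  · rw [hL, Subgroup.map_sup]
    refine le_inf (sup_le_sup ?_ ?_) (sup_le ?_ ?_)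
    · unfold Cfsg.pResidual
      rw [MonoidHom.map_closure, Subgroup.closure_le]
      rintro _ ⟨y, hy, rfl⟩
      apply Subgroup.subset_closure
      change Nat.Coprime (orderOf (y : G)) p
      rw [Subgroup.orderOf_coe]
      exact hy
    · rw [commutator_def, Subgroup.map_commutator]
      exact Subgroup.commutator_mono le_top le_top
    · rintro _ ⟨y, -, rfl⟩; exact y.2
    · rintro _ ⟨y, -, rfl⟩; exact y.2

/-- Let G be a finite group, p a prime and H a subgroup of index prime to p such that any two elements of H of p-power order that are conjugate in G are conjugate in H. Then (O^p(G)·G') ∩ H = O^p(H)·H', where O^p denotes the subgroup generated by the elements of order prime to p. -/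
theorem result {G : Type*} [Group G] [Finite G] {p : ℕ} [Fact p.Prime] (H : Subgroup G) (hidx : Nat.Coprime p H.index) (hfus : ∀ g ∈ H, (∃ k : ℕ, orderOf g = p ^ k) → ∀ a : G, a * g * a⁻¹ ∈ H → ∃ h ∈ H, h * g * h⁻¹ = a * g * a⁻¹) : (Cfsg.pResidual p G ⊔ commutator G) ⊓ H = (Cfsg.pResidual p ↥H ⊔ commutator ↥H).map H.subtype := by
  exact main H hidx hfus

end Cfsg.Agent.S1242
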