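import Cfsg.Statements.S1183
import Mathlib
import Cfsg.Agent.S1242
import Cfsg.Agent.H4_Iso
import Cfsg.Agent.H4_Util

set_option autoImplicit false
open Cfsg

namespace Cfsg.Agent.S1183

open Cfsg.Agent.H4.Iso Cfsg.Agent.H4.Util

/-- the centralizer of an isolated involution has odd index -/
theorem odd_index {G : Type*} [Group G] [Finite G] {z : G} (hz : Cfsg.IsIsolatedInvolution z) :
    Odd (Subgroup.centralizer ({z} : Set G)).index := by
  -- a Sylow 2-subgroup containing z is in C
  obtain ⟨S, hS⟩ := (zpowers_isPGroup (p := 2) (k := 1) (x := z) (by rw [hz.1, pow_one])).exists_le_sylow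
  have hzS : z ∈ (S : Subgroup G) := hS (Subgroup.mem_zpowers z)
  have hSC : (S : Subgroup G) ≤ Subgroup.centralizer ({z} : Set G) := by
    intro s hs
    rw [Subgroup.mem_centralizer_singleton_iff]
    have h1 := eq_of_mem_pGroup hz s S S.2 hzS (S.mul_mem (S.mul_mem hs hzS) (S.inv_mem hs))
    exact mul_inv_eq_iff_eq_mul.mp h1
  have h1 := Subgroup.index_dvd_of_le hSC
  have h2 : ¬ 2 ∣ (S : Subgroup G).index := Sylow.not_dvd_index S
  rw [← Nat.not_even_iff_odd, even_iff_two_dvd]
  exact fun h => h2 (h.trans h1)

/-- Let z be an isolated involution of the finite group G and C = C_G(z). Then the subgroup of G generated by its elements of odd order is all of G if and only if the subgroup of C generated by its elements of odd order is all of C. -/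
theorem result {G : Type*} [Group G] [Finite G] (z : G) (hz : Cfsg.IsIsolatedInvolution z) : Cfsg.pResidual 2 G = ⊤ ↔ Cfsg.pResidual 2 ↥(Subgroup.centralizer ({z} : Set G)) = ⊤ := by
  set C := Subgroup.centralizer ({z} : Set G) with hC
  have hN := Cfsg.Agent.S1242.pResidual_normal 2 C
  constructor
  · intro hG
    have hm := Cfsg.Agent.S1242.main (p := 2) C (by
      rw [Nat.coprime_two_left]; exact odd_index hz) (by
      intro g hg _ a ha
      have hgz : Commute g z := Subgroup.mem_centralizer_singleton_iff.mp hg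
      have haz : Commute (a * g * a⁻¹) z := Subgroup.mem_centralizer_singleton_iff.mp ha
      obtain ⟨c, -, hc1, hc2⟩ := centralizer_controls hz ⊤ (by
        rw [Subgroup.mem_normalizer_iff]; intro h; simp) g (a * g * a⁻¹) hgz haz a
        (Subgroup.mem_top _) rfl
      exact ⟨c, Subgroup.mem_centralizer_singleton_iff.mpr hc1, hc2⟩)
    rw [hG, top_sup_eq, top_inf_eq] at hm
    have h1 : Cfsg.pResidual 2 C ⊔ commutator C = ⊤ := by
      apply Subgroup.map_injective C.subtype_injective
      rw [← hm, ← MonoidHom.range_eq_map, Subgroup.range_subtype]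
    -- quotient is a perfect 2-group
    haveI := hN
    set R := Cfsg.pResidual 2 C with hR
    have hpow : IsPGroup 2 (C ⧸ R) := by
      rw [IsPGroup.iff_orderOf]
      intro x
      obtain ⟨x, rfl⟩ := QuotientGroup.mk_surjective x
      obtain ⟨a, b, hab, ⟨k, hk⟩, hb⟩ := Cfsg.Agent.S1242.decomp 2 x
      have hb1 : (QuotientGroup.mk (x ^ b) : C ⧸ R) = 1 :=
        (QuotientGroup.eq_one_iff _).mpr (Subgroup.subset_closure hb)
      have h2 : (QuotientGroup.mk x : C ⧸ R) = QuotientGroup.mk (x ^ a) := by
        conv_lhs => rw [hab]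
        rw [QuotientGroup.mk_mul, hb1, mul_one]
      rw [h2]
      have h3 := orderOf_map_dvd (QuotientGroup.mk' R) (x ^ a)
      rw [hk] at h3
      obtain ⟨j, -, hj⟩ := (Nat.dvd_prime_pow Nat.prime_two).mp h3
      exact ⟨j, hj⟩
    have hnil : Group.IsNilpotent (C ⧸ R) := hpow.isNilpotent
    have hsolv : Group.IsSolvable (C ⧸ R) := inferInstance
    have hperf : commutator (C ⧸ R) = ⊤ := by
      have h4 : (commutator C).map (QuotientGroup.mk' R) = commutator (C ⧸ R) := by
        rw [commutator_def, commutator_def, Subgroup.map_commutator,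
          Subgroup.map_top_of_surjective _ (QuotientGroup.mk'_surjective R)]
      rw [← h4]
      have h5 : (R ⊔ commutator C).map (QuotientGroup.mk' R) = ⊤ := by
        rw [h1, Subgroup.map_top_of_surjective _ (QuotientGroup.mk'_surjective R)]
      rw [Subgroup.map_sup, QuotientGroup.map_mk'_self, bot_sup_eq] at h5
      exact h5
    by_contra hne
    have hnt : Nontrivial (C ⧸ R) := by
      rw [← not_subsingleton_iff_nontrivial]
      intro hs
      exact hne (QuotientGroup.subgroup_eq_top_of_subsingleton R hs)
    have := IsSolvable.commutator_lt_top_of_nontrivial (C ⧸ R)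
    exact this.ne hperf
  · intro hCt
    rw [eq_top_iff]
    intro g _
    obtain ⟨k, ⟨⟨hk1, hk2⟩, hk3⟩, -⟩ := existsUnique_inverted hz g
    have h1 : k ∈ Cfsg.pResidual 2 G := Subgroup.subset_closure (by
      change Nat.Coprime _ _
      rw [Nat.coprime_two_right]; exact hk1)
    have h2 : C ≤ Cfsg.pResidual 2 G := by
      intro c hc
      have h3 : (⟨c, hc⟩ : C) ∈ Cfsg.pResidual 2 C := by rw [hCt]; exact Subgroup.mem_top _
      have h4 : (Cfsg.pResidual 2 C).map C.subtype ≤ Cfsg.pResidual 2 G := by
        unfold Cfsg.pResidual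
        rw [MonoidHom.map_closure, Subgroup.closure_le]
        rintro _ ⟨y, hy, rfl⟩
        apply Subgroup.subset_closure
        change Nat.Coprime (orderOf (y : G)) 2
        rw [Subgroup.orderOf_coe]
        exact hy
      exact h4 ⟨_, h3, rfl⟩
    have h3 := h2 hk3
    have e : g = k * (g⁻¹ * k)⁻¹ := by group
    rw [e]
    exact Subgroup.mul_mem _ h1 (Subgroup.inv_mem _ h3)

end Cfsg.Agent.S1183
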