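import Cfsg.Statements.S1225
import Mathlib
import Cfsg.Agent.H4_SE

set_option autoImplicit false
open Cfsg

namespace Cfsg.Agent.S1225

open Cfsg.Agent.H4.SE

/-- Let H be a strongly embedded subgroup of the finite group G, u an involution outside H and D = H ∩ uHu⁻¹. Then any two involutions of H are conjugate by an element of D, and any two involutions of G are conjugate in G. -/
theorem result {G : Type*} [Group G] [Finite G] (H : Subgroup G) (hH : Cfsg.IsStronglyEmbedded H) (u : G) (hu : orderOf u = 2) (huH : u ∉ H) (s t : G) (hs : orderOf s = 2) (hsH : s ∈ H) (ht : orderOf t = 2) (htH : t ∈ H) : (∃ d ∈ (H ⊓ H.map (MulAut.conj u).toMonoidHom), d * s * d⁻¹ = t) ∧ ∀ a b : G, orderOf a = 2 → orderOf b = 2 → IsConj a b := by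
  have hne : (QuotientGroup.mk 1 : G ⧸ H) ≠ QuotientGroup.mk u := by
    intro h
    rw [QuotientGroup.eq] at h
    exact huH (by simpa using h)
  have hfix : ∀ t ∈ H, t • (QuotientGroup.mk 1 : G ⧸ H) = QuotientGroup.mk 1 := by
    intro t ht
    rw [smul_mk_eq_iff]
    simpa using ht
  refine ⟨?_, fun a b ha hb => isConj_invol hH ha hb⟩
  obtain ⟨d, hd1, hd2, hd3⟩ := conj_two_point hH hne hs ht (hfix s hsH) (hfix t htH)
  rw [smul_mk_eq_iff] at hd1 hd2
  refine ⟨d, ?_, hd3⟩
  rw [mem_inf_conj]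
  exact ⟨by simpa using hd1, hd2⟩

end Cfsg.Agent.S1225
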