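import Cfsg.Statements.S1227
import Mathlib
import Cfsg.Agent.H4_Elab2

set_option autoImplicit false
open Cfsg

namespace Cfsg.Agent.S1227

open Cfsg.Agent.H4.Elab Cfsg.Agent.H4.Elab2

/-- Let G be a finite group with a Sylow 2-subgroup T that is neither cyclic nor normal, such that the centralizer of every involution is an elementary abelian 2-group; put H = N_G(T), let u be an involution outside H and D = H ∩ uHu⁻¹. Then u inverts every element of D, |H| = |T|·(|T| − 1), and D is a complement to T in H. -/
theorem result {G : Type*} [Group G] [Finite G] (T : Sylow 2 G) (hnc : ¬ IsCyclic (T : Subgroup G)) (hnn : ¬ (T : Subgroup G).Normal) (hC : ∀ t : G, orderOf t = 2 → IsMulCommutative (Subgroup.centralizer ({t} : Set G)) ∧ ∀ c ∈ Subgroup.centralizer ({t} : Set G), c ^ 2 = 1) (u : G) (hu : orderOf u = 2) (huH : u ∉ Subgroup.normalizer ((T : Subgroup G) : Set G)) : (∀ d ∈ Subgroup.normalizer ((T : Subgroup G) : Set G) ⊓ (Subgroup.normalizer ((T : Subgroup G) : Set G)).map (MulAut.conj u).toMonoidHom, u * d * u⁻¹ =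 d⁻¹) ∧ Nat.card (Subgroup.normalizer ((T : Subgroup G) : Set G)) = Nat.card T * (Nat.card T - 1) ∧ Subgroup.IsComplement' ((Subgroup.normalizer ((T : Subgroup G) : Set G) ⊓ (Subgroup.normalizer ((T : Subgroup G) : Set G)).map (MulAut.conj u).toMonoidHom).subgroupOf (Subgroup.normalizer ((T : Subgroup G) : Set G))) ((T : Subgroup G).subgroupOf (Subgroup.normalizer ((T : Subgroup G) : Set G))) := by
  have hC' : Hyp G := hC
  refine ⟨inverts T hC' hnn hu huH, card_HH T hC' hnn, ?_⟩
  set H := Subgroup.normalizer ((T : Subgroup G) : Set G) with hH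
  set D := H ⊓ H.map (MulAut.conj u).toMonoidHom with hD
  have hDH : D ≤ H := inf_le_left
  have hTH : (T : Subgroup G) ≤ H := Subgroup.le_normalizer
  apply Subgroup.isComplement'_of_card_mul_and_disjoint
  · rw [Nat.card_congr (Subgroup.subgroupOfEquivOfLe hDH).toEquiv,
      Nat.card_congr (Subgroup.subgroupOfEquivOfLe hTH).toEquiv, mul_comm]
    have h1 := card_HH T hC' hnn
    have h2 := card_DD T hC' hnn huH
    change Nat.card (T : Subgroup G) * Nat.card (DD T u) = Nat.card (HH T)
    rw [h1, h2]
  · rw [Subgroup.disjoint_def]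
    intro x hx1 hx2
    rw [Subgroup.mem_subgroupOf] at hx1 hx2
    exact Subtype.ext (T_inf_DD T hC' hnn huH hx2 hx1)

end Cfsg.Agent.S1227
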