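import Cfsg.Statements.S1231
import Mathlib
import Cfsg.Agent.H4_SE2

set_option autoImplicit false
open Cfsg

namespace Cfsg.Agent.S1231

open Cfsg.Agent.H4.SE Cfsg.Agent.H4.SE2 Cfsg.Agent.H4.Util

theorem prank_mono {G : Type*} [Group G] {p k : ℕ} {X Y : Subgroup G} (h : X ≤ Y)
    (hY : Cfsg.PRankLE p k Y) : Cfsg.PRankLE p k X := by
  intro A hA hAp
  have h1 := hY (A.map (Subgroup.inclusion h)) (by
    refine ⟨⟨?_⟩⟩
    rintro ⟨_, a, ha, rfl⟩ ⟨_, b, hb, rfl⟩
    apply Subtype.ext
    have := congrArg (fun x : A => Subgroup.inclusion h (x : X)) (hA.1.1 ⟨a, ha⟩ ⟨b, hb⟩)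
    exact this) (by
    rintro _ ⟨a, ha, rfl⟩
    rw [← map_pow, hAp a ha, map_one])
  have h2 : Nat.card (A.map (Subgroup.inclusion h)) = Nat.card A :=
    Nat.card_congr (A.equivMapOfInjective _ (Subgroup.inclusion_injective h)).symm.toEquiv
  rwa [h2] at h1

theorem prank_equiv {G H : Type*} [Group G] [Group H] (e : G ≃* H) {p k : ℕ}
    (hH : Cfsg.PRankLE p k H) : Cfsg.PRankLE p k G := by
  intro A hA hAp
  have h1 := hH (A.map e.toMonoidHom) (by
    refine ⟨⟨?_⟩⟩
    rintro ⟨_, a, ha, rfl⟩ ⟨_, b, hb, rfl⟩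
    apply Subtype.ext
    have := congrArg (fun x : A => e (x : G)) (hA.1.1 ⟨a, ha⟩ ⟨b, hb⟩)
    simp only [Subgroup.coe_mul, map_mul] at this
    exact this) (by
    rintro _ ⟨a, ha, rfl⟩
    rw [← map_pow, hAp a ha, map_one])
  have h2 : Nat.card (A.map e.toMonoidHom) = Nat.card A :=
    Nat.card_congr (A.equivMapOfInjective e.toMonoidHom e.injective).symm.toEquiv
  rwa [h2] at h1

/-- Let H be a subgroup of the finite group G, p a prime, k ≥ 1, and P a Sylow p-subgroup of H whose p-rank is at least k. Then N_G(X) ≤ H for every subgroup X of P of p-rank at least k if and only if H ∩ gHg⁻¹ has p-rank less than k for every g ∉ H. -/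
theorem result {G : Type*} [Group G] [Finite G] {p : ℕ} [Fact p.Prime] (k : ℕ) (hk : 1 ≤ k) (H : Subgroup G) (P : Sylow p ↥H) (hP : ¬ Cfsg.PRankLE p (k - 1) ↥(P : Subgroup ↥H)) : (∀ X : Subgroup G, X ≤ (P : Subgroup ↥H).map H.subtype → ¬ Cfsg.PRankLE p (k - 1) ↥X → Subgroup.normalizer (X : Set G) ≤ H) ↔ (∀ g : G, g ∉ H → Cfsg.PRankLE p (k - 1) ↥(H ⊓ H.map (MulAut.conj g).toMonoidHom)) := by
  constructor
  · intro hN g hg
    by_contra hcon
    apply hg
    set D := (H ⊓ H.map (MulAut.conj g).toMonoidHom) with hD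
    unfold Cfsg.PRankLE at hcon
    push Not at hcon
    obtain ⟨A, hA, hAp, hlt⟩ := hcon
    set R : Subgroup G := A.map D.subtype with hR
    have hRD : R ≤ D := Subgroup.map_subtype_le _
    have hRp : IsPGroup p R := by
      rintro ⟨_, a, ha, rfl⟩
      refine ⟨1, Subtype.ext ?_⟩
      have := congrArg (fun x : D => (x : G)) (hAp a ha)
      simpa using this
    have hgR : ¬ Cfsg.PRankLE p (k - 1) R := by
      intro h
      have h2 := prank_equiv (A.equivMapOfInjective D.subtype D.subtype_injective) h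
      have h3 := h2 ⊤ ⟨⟨by
        rintro ⟨a, -⟩ ⟨b, -⟩
        exact Subtype.ext (hA.1.1 a b)⟩⟩ (by
        rintro ⟨a, ha⟩ -
        exact Subtype.ext (hAp a ha))
      rw [Subgroup.card_top] at h3
      omega
    refine mem_of_good (p := p) (fun X => ¬ Cfsg.PRankLE p (k - 1) X) ?_ ?_ H P hN g _ R rfl hRp hgR
      (hRD.trans inf_le_left) (hRD.trans inf_le_right)
    · intro X Y hXY hX hY
      exact hX (prank_mono hXY hY)
    · intro X g hX h
      exact hX (prank_equiv (X.equivMapOfInjective _ (MulAut.conj g).injective) h)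
  · intro h X hX hgX n hn
    by_contra hnH
    apply hgX
    have hXH : X ≤ H := hX.trans (Subgroup.map_subtype_le _)
    refine prank_mono ?_ (h n hnH)
    refine le_inf hXH ?_
    intro x hx
    rw [mem_conj_map]
    have hinv := Subgroup.inv_mem _ hn
    have := (Subgroup.mem_normalizer_iff.mp hinv x).mp hx
    rw [inv_inv] at this
    exact hXH this

end Cfsg.Agent.S1231
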