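import Cfsg.Statements.S1236
import Mathlib
import Cfsg.Agent.HL_QD4
import Cfsg.Agent.H4_DihF

set_option autoImplicit false
open Cfsg

namespace Cfsg.Agent.S1236

theorem card_sq_le {Q : Type*} [Group Q] [Finite Q] (K : Subgroup Q) (hK : IsCyclic K) (W : Subgroup Q)
    (hW : ∀ w ∈ W, w ∈ K → w * w = 1) : Nat.card (W.subgroupOf K) ≤ 2 := by
  classical
  haveI := Fintype.ofFinite K
  have h1 : (Finset.univ.filter fun a : K => a ^ 2 = 1).card ≤ 2 := IsCyclic.card_pow_eq_one_le (by norm_num)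
  have h2 : Nat.card (W.subgroupOf K) ≤ (Finset.univ.filter fun a : K => a ^ 2 = 1).card := by
    rw [← Fintype.card_coe, ← Nat.card_eq_fintype_card]
    refine Nat.card_le_card_of_injective (fun w => ⟨w.1, ?_⟩) ?_
    · rw [Finset.mem_filter]
      refine ⟨Finset.mem_univ _, ?_⟩
      apply Subtype.ext
      rw [pow_two]
      exact hW _ (Subgroup.mem_subgroupOf.mp w.2) w.1.2
    · intro a b hab
      have h3 := congrArg Subtype.val hab
      exact Subtype.ext h3
  exact h2.trans h1

theorem card_le {Q : Type*} [Group Q] [Finite Q] (K : Subgroup Q) (hK : IsCyclic K) (hi : K.index = 2) (W : Subgroup Q)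
    (hW : ∀ w ∈ W, w ∈ K → w * w = 1) : Nat.card W ≤ 4 := by
  have h1 := card_sq_le K hK W hW
  have h2 : Nat.card (K.subgroupOf W) = Nat.card (W.subgroupOf K) := by
    rw [← Subgroup.inf_subgroupOf_right, ← Subgroup.inf_subgroupOf_right W K,
      Nat.card_congr (Subgroup.subgroupOfEquivOfLe (inf_le_right : K ⊓ W ≤ W)).toEquiv,
      Nat.card_congr (Subgroup.subgroupOfEquivOfLe (inf_le_right : W ⊓ K ≤ K)).toEquiv, inf_comm]
  have h3 := Subgroup.card_mul_index (K.subgroupOf W)
  haveI : K.Normal := Subgroup.normal_of_index_eq_two hi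
  have h4 : (K.subgroupOf W).index ≤ 2 := by
    have : K.relIndex W ∣ K.index := Subgroup.relIndex_dvd_index_of_normal K W
    rw [hi] at this
    exact Nat.le_of_dvd (by norm_num) this
  rw [← h3, h2]
  calc _ ≤ 2 * 2 := Nat.mul_le_mul h1 h4
    _ = 4 := by norm_num

theorem main {R : Type*} [Group R] [Finite R] (t : R) (ht : orderOf t = 2) [(Subgroup.zpowers t).Normal]
    (K : Subgroup (R ⧸ Subgroup.zpowers t)) (hK : IsCyclic K) (hi : K.index = 2)
    (hc : ∀ a, a ∉ K → ∀ k ∈ K, a * k = k * a → k * k = 1)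
    (A : Subgroup R) (hA : Cfsg.IsElementaryAbelian 2 A) (hA8 : Nat.card A = 8) (htA : t ∈ A) :
    Subgroup.centralizer (A : Set R) = A := by
  set T := Subgroup.zpowers t with hT
  have hTA : T ≤ A := by rw [hT, Subgroup.zpowers_le]; exact htA
  have hcomm : ∀ a ∈ A, ∀ b ∈ A, a * b = b * a := fun a ha b hb =>
    congrArg Subtype.val (hA.1.is_comm.comm (⟨a, ha⟩ : A) ⟨b, hb⟩)
  set B := A.map (QuotientGroup.mk' T) with hB
  have hBcard : Nat.card B = 4 := by
    have h1 := Subgroup.card_mul_index ((QuotientGroup.mk' T).comp A.subtype).ker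
    rw [Subgroup.index_ker, MonoidHom.range_comp, Subgroup.range_subtype] at h1
    have h2 : Nat.card ((QuotientGroup.mk' T).comp A.subtype).ker = 2 := by
      have h3 : ((QuotientGroup.mk' T).comp A.subtype).ker = T.subgroupOf A := by
        ext x
        rw [MonoidHom.mem_ker, Subgroup.mem_subgroupOf]
        exact QuotientGroup.eq_one_iff _
      rw [h3, Nat.card_congr (Subgroup.subgroupOfEquivOfLe hTA).toEquiv, hT, Nat.card_zpowers, ht]
    rw [h2, hA8] at h1
    have h4 : 2 * Nat.card B = 8 := h1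
    omega
  have hBsq : ∀ w ∈ B, w * w = 1 := by
    rintro _ ⟨a, ha, rfl⟩
    rw [← map_mul, ← pow_two, hA.2 a ha, map_one]
  have hBK : ¬ B ≤ K := by
    intro hle
    have h1 := card_sq_le K hK B (fun w hw _ => hBsq w hw)
    rw [Nat.card_congr (Subgroup.subgroupOfEquivOfLe hle).toEquiv, hBcard] at h1
    omega
  obtain ⟨b, hbB, hbK⟩ := SetLike.not_le_iff_exists.mp hBK
  have hBcent : B ≤ Subgroup.centralizer {b} := by
    obtain ⟨a, ha, rfl⟩ := hbB
    rintro _ ⟨c, hc', rfl⟩
    rw [Subgroup.mem_centralizer_singleton_iff, ← map_mul, ← map_mul, hcomm c hc' a ha]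
  have hle4 := card_le K hK hi (Subgroup.centralizer {b}) (by
    intro w hw hwK
    rw [Subgroup.mem_centralizer_singleton_iff] at hw
    exact hc b hbK w hwK hw.symm)
  have hBe : B = Subgroup.centralizer {b} := Subgroup.eq_of_le_of_card_ge hBcent (by rw [hBcard]; exact hle4)
  apply le_antisymm
  · intro g hg
    have h1 : QuotientGroup.mk' T g ∈ B := by
      rw [hBe]
      obtain ⟨a, ha, rfl⟩ := hbB
      rw [Subgroup.mem_centralizer_singleton_iff, ← map_mul, ← map_mul]
      rw [Subgroup.mem_centralizer_iff] at hg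
      rw [hg a ha]
    obtain ⟨a, ha, hag⟩ := h1
    have h2 : a⁻¹ * g ∈ T := QuotientGroup.eq.mp hag
    have h3 := A.mul_mem ha (hTA h2)
    rwa [mul_inv_cancel_left] at h3
  · intro a ha
    rw [Subgroup.mem_centralizer_iff]
    intro b hb
    exact hcomm b hb a ha

theorem dih {Q : Type*} [Group Q] [Finite Q] {m : ℕ} (hm : 2 ≤ m) (e : Q ≃* DihedralGroup m) :
    ∃ K : Subgroup Q, IsCyclic K ∧ K.index = 2 ∧ ∀ a, a ∉ K → ∀ k ∈ K, a * k = k * a → k * k = 1 := by
  haveI : NeZero m := ⟨by omega⟩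
  have hmem : ∀ i : ZMod m, DihedralGroup.r i ∈ Subgroup.zpowers (DihedralGroup.r 1 : DihedralGroup m) := by
    intro i
    refine ⟨(i.val : ℤ), ?_⟩
    show (DihedralGroup.r 1 : DihedralGroup m) ^ ((i.val : ℕ) : ℤ) = _
    rw [zpow_natCast, DihedralGroup.r_one_pow, ZMod.natCast_zmod_val]
  have hmem' : ∀ x ∈ Subgroup.zpowers (DihedralGroup.r 1 : DihedralGroup m), ∃ i, x = DihedralGroup.r i := by
    rintro _ ⟨k, rfl⟩
    exact ⟨(k : ZMod m), by simp⟩
  have hidx : (Subgroup.zpowers (DihedralGroup.r 1 : DihedralGroup m)).index = 2 := by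
    have h1 := Subgroup.card_mul_index (Subgroup.zpowers (DihedralGroup.r 1 : DihedralGroup m))
    rw [Nat.card_zpowers, DihedralGroup.orderOf_r_one, DihedralGroup.nat_card] at h1
    have h2 : 0 < m := by omega
    rw [mul_comm 2 m] at h1
    exact Nat.eq_of_mul_eq_mul_left h2 h1
  refine ⟨(Subgroup.zpowers (DihedralGroup.r 1 : DihedralGroup m)).comap e.toMonoidHom, ?_, ?_, ?_⟩
  · have e2 : (Subgroup.zpowers (DihedralGroup.r 1 : DihedralGroup m)).comap e.toMonoidHom ≃* Subgroup.zpowers (DihedralGroup.r 1 : DihedralGroup m) :=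
      { toFun := fun x => ⟨e x.1, x.2⟩
        invFun := fun y => ⟨e.symm y.1, by
          have : e (e.symm y.1) ∈ Subgroup.zpowers (DihedralGroup.r 1 : DihedralGroup m) := by
            rw [MulEquiv.apply_symm_apply]; exact y.2
          exact this⟩
        left_inv := fun x => Subtype.ext (e.symm_apply_apply _)
        right_inv := fun y => Subtype.ext (e.apply_symm_apply _)
        map_mul' := fun x y => Subtype.ext (map_mul e _ _) }
    exact isCyclic_of_surjective e2.symm.toMonoidHom e2.symm.surjective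
  · rw [Subgroup.index_comap_of_surjective _ e.surjective, hidx]
  · intro a ha k hk hak
    obtain ⟨i, hi⟩ := hmem' _ hk
    change e k = _ at hi
    have ha' : ∃ j, e a = DihedralGroup.sr j := by
      rcases h : e a with j | j
      · exfalso; apply ha
        have h2 : e a ∈ Subgroup.zpowers (DihedralGroup.r 1 : DihedralGroup m) := by
          rw [h]; exact hmem j
        exact h2
      · exact ⟨j, rfl⟩
    obtain ⟨j, hj⟩ := ha'
    have h1 : e a * e k = e k * e a := by rw [← map_mul, ← map_mul, hak]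
    rw [hi, hj, DihedralGroup.sr_mul_r, DihedralGroup.r_mul_sr] at h1
    have h2 := DihedralGroup.sr.inj h1
    apply e.injective
    rw [map_mul, map_one, hi, DihedralGroup.r_mul_r, DihedralGroup.one_def]
    congr 1
    linear_combination h2

open Cfsg.Agent.HL.QD in
theorem qd {Q : Type*} [Group Q] [Finite Q] (hQ : Cfsg.IsQuasiDihedral Q) :
    ∃ K : Subgroup Q, IsCyclic K ∧ K.index = 2 ∧ ∀ a, a ∉ K → ∀ k ∈ K, a * k = k * a → k * k = 1 := by
  obtain ⟨n, x, y, d⟩ := exists_D hQ
  have hn := d.hn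
  refine ⟨Subgroup.zpowers x, inferInstance, index_M1 d, ?_⟩
  intro a ha k hk hak
  have hk' : ∃ i, k = e n x i := by
    rcases cases d k with h1 | ⟨i, h1⟩
    · exact h1
    · exfalso
      have h2 : f n x y i * (e n x i)⁻¹ ∈ Subgroup.zpowers x := Subgroup.mul_mem _ (by rw [← h1]; exact hk) (Subgroup.inv_mem _ (e_mem i))
      have h3 : y ∈ Subgroup.zpowers x := by
        have h4 : f n x y i = e n x i * y := rfl
        have h5 := Subgroup.mul_mem _ (Subgroup.inv_mem _ (e_mem (n := n) (x := x) i)) (by rw [← h1]; exact hk : f n x y i ∈ Subgroup.zpowers x)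
        rwa [h4, inv_mul_cancel_left] at h5
      exact y_not d h3
  obtain ⟨i, rfl⟩ := hk'
  rcases cases d a with ⟨j, rfl⟩ | ⟨j, rfl⟩
  · exact absurd (e_mem j) ha
  · rw [f_e d, e_f d] at hak
    have h1 := (f_inj d).mp hak
    have h2 : i = c n * i := by linear_combination -h1
    rw [e_add d, e_eq_one d]
    rcases one_sub_c_mul hn h2 with rfl | rfl
    · rw [add_zero]
    · exact hh (by omega)

/-- Let R be a finite group, t a central involution of R such that R ⧸ ⟨t⟩ is dihedral (of order ≥ 4) or quasi-dihedral, and A ≤ R an elementary abelian subgroup of order 8 containing t. Then C_R(A) = A. -/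
theorem result {R : Type*} [Group R] [Finite R] (t : R) (ht : orderOf t = 2) (htz : t ∈ Subgroup.center R) [(Subgroup.zpowers t).Normal] (hq : (∃ m : ℕ, 2 ≤ m ∧ Nonempty (R ⧸ Subgroup.zpowers t ≃* DihedralGroup m)) ∨ Cfsg.IsQuasiDihedral (R ⧸ Subgroup.zpowers t)) (A : Subgroup R) (hA : Cfsg.IsElementaryAbelian 2 A) (hA8 : Nat.card A = 8) (htA : t ∈ A) : Subgroup.centralizer (A : Set R) = A := by
  obtain ⟨K, h1, h2, h3⟩ : ∃ K : Subgroup (R ⧸ Subgroup.zpowers t), IsCyclic K ∧ K.index = 2 ∧ ∀ a, a ∉ K → ∀ k ∈ K, a * k = k * a → k * k = 1 := by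
    rcases hq with ⟨m, hm, ⟨e⟩⟩ | hq
    · exact dih hm e
    · exact qd hq
  exact main t ht K h1 h2 h3 A hA hA8 htA

end Cfsg.Agent.S1236
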