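import Cfsg.Statements.S1241
import Mathlib
import Cfsg.Agent.H4_Transfer

set_option autoImplicit false
open Cfsg

namespace Cfsg.Agent.S1241

open Cfsg.Agent.H4.Transfer
open scoped commutatorElement

/-- Let G be a finite group, p a prime, H a subgroup of index prime to p, K a subgroup of H normal in H with H/K commutative, and g ∈ H ∖ K an element of p-power order such that for all integers m and all a ∈ G with a g^m a⁻¹ ∈ H one has a g^m a⁻¹ ∈ g^m K. Then g ∉ G'. -/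
theorem result {G : Type*} [Group G] [Finite G] {p : ℕ} [Fact p.Prime] (H K : Subgroup G) (hHK : K ≤ H) (hKn : (K.subgroupOf H).Normal) (hab : ∀ x ∈ H, ∀ y ∈ H, x * y * x⁻¹ * y⁻¹ ∈ K) (hidx : Nat.Coprime p H.index) (g : G) (hgH : g ∈ H) (hgK : g ∉ K) (hgp : ∃ k : ℕ, orderOf g = p ^ k) (hctrl : ∀ (m : ℤ) (a : G), a * g ^ m * a⁻¹ ∈ H → (a * g ^ m * a⁻¹) * (g ^ m)⁻¹ ∈ K) : g ∉ commutator G := by
  haveI := hKn
  letI : CommGroup (H ⧸ K.subgroupOf H) :=
    { (inferInstance : Group (H ⧸ K.subgroupOf H)) with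
      mul_comm := by
        intro a b
        obtain ⟨a, rfl⟩ := QuotientGroup.mk_surjective a
        obtain ⟨b, rfl⟩ := QuotientGroup.mk_surjective b
        rw [← QuotientGroup.mk_mul, ← QuotientGroup.mk_mul, eq_comm, QuotientGroup.eq,
          Subgroup.mem_subgroupOf]
        have h1 := hab _ (H.inv_mem a.2) _ (H.inv_mem b.2)
        simp only [inv_inv] at h1
        have e : (((b * a)⁻¹ * (a * b) : H) : G) = (a : G)⁻¹ * (b : G)⁻¹ * a * b := by
          push_cast; group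
        rw [e]
        exact h1 }
  intro hcomm
  let ϕ : H →* H ⧸ K.subgroupOf H := QuotientGroup.mk' (K.subgroupOf H)
  have h1 : MonoidHom.transfer ϕ g = 1 := map_eq_one_of_mem_commutator _ hcomm
  have h2 : MonoidHom.transfer ϕ g = ϕ ⟨g, hgH⟩ ^ H.index := by
    apply transfer_eq_pow' ϕ g hgH
    intro k g₀ h
    rw [← map_pow]
    change (QuotientGroup.mk _ : H ⧸ K.subgroupOf H) = QuotientGroup.mk _
    rw [QuotientGroup.eq, Subgroup.mem_subgroupOf]
    have h3 := hctrl k g₀⁻¹ (by simpa using h)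
    simp only [inv_inv, zpow_natCast] at h3
    have e : (((⟨g₀⁻¹ * g ^ k * g₀, h⟩ : H)⁻¹ * (⟨g, hgH⟩ : H) ^ k : H) : G) =
        (g ^ k)⁻¹ * (g₀⁻¹ * g ^ k * g₀ * (g ^ k)⁻¹)⁻¹ * (g ^ k) := by
      push_cast; group
    rw [e]
    have h4 : (⟨(g₀⁻¹ * g ^ k * g₀ * (g ^ k)⁻¹)⁻¹, hHK (K.inv_mem h3)⟩ : H) ∈ K.subgroupOf H := by
      rw [Subgroup.mem_subgroupOf]; exact K.inv_mem h3
    have h5 := hKn.conj_mem _ h4 ((⟨g, hgH⟩ : H) ^ k)⁻¹
    rw [Subgroup.mem_subgroupOf] at h5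
    simpa using h5
  rw [h1] at h2
  -- order of ϕ g divides p^k and index
  obtain ⟨k, hk⟩ := hgp
  have h3 : orderOf (ϕ ⟨g, hgH⟩) ∣ H.index := orderOf_dvd_of_pow_eq_one h2.symm
  have h4 : orderOf (ϕ ⟨g, hgH⟩) ∣ p ^ k := by
    rw [← hk]
    apply orderOf_dvd_of_pow_eq_one
    rw [← map_pow]
    have : (⟨g, hgH⟩ : H) ^ orderOf g = 1 := Subtype.ext (by simpa using pow_orderOf_eq_one g)
    rw [this, map_one]
  have h5 : orderOf (ϕ ⟨g, hgH⟩) = 1 :=
    Nat.eq_one_of_dvd_coprimes (Nat.Coprime.pow_left k hidx) h4 h3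
  rw [orderOf_eq_one_iff] at h5
  have h6 := (QuotientGroup.eq_one_iff (N := K.subgroupOf H) (⟨g, hgH⟩ : H)).mp h5
  rw [Subgroup.mem_subgroupOf] at h6
  exact hgK h6

end Cfsg.Agent.S1241
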