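import Cfsg.Statements.S1243
import Mathlib
import Cfsg.Agent.H4_Util

set_option autoImplicit false
open Cfsg

namespace Cfsg.Agent.S1243

open Cfsg.Agent.H4.Util

/-- Let T be a Sylow p-subgroup of the finite group G and W ≤ T a subgroup weakly closed in T. If d and g d g⁻¹ both centralize W, then g d g⁻¹ = h d h⁻¹ for some h ∈ N_G(W). -/
theorem result {G : Type*} [Group G] [Finite G] {p : ℕ} [Fact p.Prime] (T : Sylow p G) (W : Subgroup G) (hW : Cfsg.IsWeaklyClosed W (T : Subgroup G)) (d g : G) (hd : d ∈ Subgroup.centralizer (W : Set G)) (hgd : g * d * g⁻¹ ∈ Subgroup.centralizer (W : Set G)) : ∃ h ∈ Subgroup.normalizer (W : Set G), h * d * h⁻¹ = g * d * g⁻¹ := by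
  set C := Subgroup.centralizer ({g * d * g⁻¹} : Set G) with hC
  obtain ⟨hWT, hwc⟩ := hW
  set W' := W.map (MulAut.conj g).toMonoidHom with hW'
  have hWC : W ≤ C := by
    intro w hw
    rw [hC, Subgroup.mem_centralizer_singleton_iff]
    rw [Subgroup.mem_centralizer_iff] at hgd
    exact hgd w hw
  have hW'C : W' ≤ C := by
    rintro _ ⟨w, hw, rfl⟩
    rw [hC, Subgroup.mem_centralizer_singleton_iff]
    rw [Subgroup.mem_centralizer_iff] at hd
    have h1 : Commute w d := hd w hw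
    have h2 := h1.map (MulAut.conj g).toMonoidHom
    exact h2
  have hWp : IsPGroup p W := T.2.to_le hWT
  have hW'p : IsPGroup p W' := hWp.map _
  -- Sylow in C
  obtain ⟨P, hP⟩ := (hWp.comap_of_injective C.subtype C.subtype_injective).exists_le_sylow
  obtain ⟨c, hc⟩ := exists_conj_le P _ (hW'p.comap_of_injective C.subtype C.subtype_injective)
  -- P in a Sylow of G
  obtain ⟨a, ha⟩ := exists_conj_le T _ ((P.2).map C.subtype)
  have h1 : W.map (MulAut.conj a).toMonoidHom = W := by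
    apply hwc
    rintro _ ⟨y, hy, rfl⟩
    have h2 : (⟨y, hWC hy⟩ : C) ∈ (P : Subgroup C) := hP (by
      rw [Subgroup.mem_comap]; exact hy)
    exact ha _ ⟨_, h2, rfl⟩
  have h2 : W.map (MulAut.conj (a * (c * g))).toMonoidHom = W := by
    apply hwc
    rintro _ ⟨y, hy, rfl⟩
    have hy' : g * y * g⁻¹ ∈ W' := ⟨y, hy, by simp⟩
    have h3 := hc (⟨g * y * g⁻¹, hW'C hy'⟩ : C) (by rw [Subgroup.mem_comap]; exact hy')
    have := ha _ ⟨_, h3, rfl⟩
    have e : (MulAut.conj (a * (c * g))).toMonoidHom y =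
      a * (C.subtype (c * (⟨g * y * g⁻¹, hW'C hy'⟩ : C) * c⁻¹)) * a⁻¹ := by
      simp [mul_assoc]
    rw [e]
    exact this
  have e1 : a ∈ Subgroup.normalizer (W : Set G) := mem_normalizer_iff_map.mpr h1
  have e2 : a * (c * g) ∈ Subgroup.normalizer (W : Set G) := mem_normalizer_iff_map.mpr h2
  have hnorm : (c : G) * g ∈ Subgroup.normalizer (W : Set G) := by
    have := Subgroup.mul_mem _ (Subgroup.inv_mem _ e1) e2
    rwa [inv_mul_cancel_left] at this
  refine ⟨c * g, hnorm, ?_⟩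
  have hcc : (c : G) * (g * d * g⁻¹) = (g * d * g⁻¹) * c :=
    Subgroup.mem_centralizer_singleton_iff.mp c.2
  calc (c : G) * g * d * (c * g)⁻¹ = c * (g * d * g⁻¹) * (c : G)⁻¹ := by group
    _ = g * d * g⁻¹ := by rw [hcc]; group

end Cfsg.Agent.S1243
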