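import Cfsg.Statements.S1244
import Mathlib
import Cfsg.Agent.H4_Transfer
import Cfsg.Agent.H4_Util

set_option autoImplicit false
open Cfsg

namespace Cfsg.Agent.S1244

open Cfsg.Agent.H4.Transfer Cfsg.Agent.H4.Util

/-- the subgroup of elements of square one in an abelian subgroup -/
def om {G : Type*} [Group G] (S : Subgroup G) (hS : IsMulCommutative S) : Subgroup G where
  carrier := {x | x ∈ S ∧ x ^ 2 = 1}
  one_mem' := ⟨S.one_mem, one_pow 2⟩
  mul_mem' := by
    rintro a b ⟨ha, ha2⟩ ⟨hb, hb2⟩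
    refine ⟨S.mul_mem ha hb, ?_⟩
    have hc : Commute a b := congrArg Subtype.val (hS.1.1 ⟨a, ha⟩ ⟨b, hb⟩)
    rw [hc.mul_pow, ha2, hb2, one_mul]
  inv_mem' := by
    rintro a ⟨ha, ha2⟩
    exact ⟨S.inv_mem ha, by rw [inv_pow, ha2, inv_one]⟩

theorem om_card_le {G : Type*} [Group G] [Finite G] (S : Subgroup G) (hS : IsMulCommutative S)
    (r : ℕ) (h : Cfsg.PRankLE 2 r S) : Nat.card (om S hS) ≤ 2 ^ r := by
  have hle : om S hS ≤ S := fun x hx => hx.1
  have h1 := h ((om S hS).subgroupOf S) ⟨⟨fun a b => Subtype.ext (hS.1.1 a.1 b.1)⟩⟩ (by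
    rintro ⟨a, ha⟩ ha2
    rw [Subgroup.mem_subgroupOf] at ha2
    exact Subtype.ext (by simpa using ha2.2))
  rwa [Nat.card_congr (Subgroup.subgroupOfEquivOfLe hle).toEquiv] at h1

theorem om_card_gt {G : Type*} [Group G] [Finite G] (S : Subgroup G) (hS : IsMulCommutative S)
    (r : ℕ) (h : ¬ Cfsg.PRankLE 2 r S) : 2 ^ r < Nat.card (om S hS) := by
  unfold Cfsg.PRankLE at h
  push Not at h
  obtain ⟨A, hA, hA2, hlt⟩ := h
  refine lt_of_lt_of_le hlt ?_
  have hcm : Nat.card (A.map S.subtype) = Nat.card A :=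
    Nat.card_congr (A.equivMapOfInjective S.subtype S.subtype_injective).symm.toEquiv
  rw [← hcm]
  apply Nat.le_of_dvd Nat.card_pos
  apply Subgroup.card_dvd_of_le
  rintro _ ⟨a, ha, rfl⟩
  exact ⟨a.2, by simpa using congrArg Subtype.val (hA2 a ha)⟩

theorem om_pGroup {G : Type*} [Group G] (S : Subgroup G) (hS : IsMulCommutative S) :
    IsPGroup 2 (om S hS) := by
  intro x
  exact ⟨1, by ext; simpa using x.2.2⟩

/-- Let G be a finite group with no subgroup of index 2 whose Sylow 2-subgroup S is commutative, and let R ≤ S be a subgroup whose 2-rank is exactly one less than the 2-rank r of S. Then every involution of S is conjugate, by an element of N_G(S), to an element of R. -/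
theorem result {G : Type*} [Group G] [Finite G] (hG : ∀ H : Subgroup G, H.index ≠ 2) (S : Sylow 2 G) (hS : IsMulCommutative (S : Subgroup G)) (r : ℕ) (hr1 : 1 ≤ r) (hSr : Cfsg.PRankLE 2 r (S : Subgroup G) ∧ ¬ Cfsg.PRankLE 2 (r - 1) (S : Subgroup G)) (R : Subgroup G) (hRS : R ≤ S) (hRr : Cfsg.PRankLE 2 (r - 1) R ∧ (r = 1 ∨ ¬ Cfsg.PRankLE 2 (r - 2) R)) (t : G) (ht : orderOf t = 2) (htS : t ∈ S) : ∃ n ∈ Subgroup.normalizer ((S : Subgroup G) : Set G), n * t * n⁻¹ ∈ R := by
  by_contra hno
  push Not at hno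
  have hRc : IsMulCommutative R := ⟨⟨fun a b => by
    have h := congrArg (fun x : (S : Subgroup G) => (x : G)) (hS.1.1 ⟨a, hRS a.2⟩ ⟨b, hRS b.2⟩)
    exact Subtype.ext h⟩⟩
  set E := om (S : Subgroup G) hS with hE
  set R0 := om R hRc with hR0
  have hR0E : R0 ≤ E := fun x hx => ⟨hRS hx.1, hx.2⟩
  -- orders
  obtain ⟨a, ha⟩ := (IsPGroup.iff_card (p := 2)).mp (om_pGroup (S : Subgroup G) hS)
  obtain ⟨b, hb⟩ := (IsPGroup.iff_card (p := 2)).mp (om_pGroup R hRc)
  have hab : a ≤ b + 1 := by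
    have h1 := om_card_le (S : Subgroup G) hS r hSr.1
    rw [ha] at h1
    have h2 : a ≤ r := (Nat.pow_le_pow_iff_right (by norm_num)).mp h1
    rcases hRr.2 with h3 | h3
    · omega
    · have h4 := om_card_gt R hRc (r - 2) h3
      rw [hb] at h4
      have h5 : r - 2 < b := (Nat.pow_lt_pow_iff_right (by norm_num)).mp h4
      omega
  -- the action
  have htE : t ∈ E := ⟨htS, by rw [← ht]; exact pow_orderOf_eq_one t⟩
  letI : CommGroup (S : Subgroup G) :=
    { (inferInstance : Group (S : Subgroup G)) with mul_comm := hS.1.1 }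
  classical
  let N := Subgroup.normalizer ((S : Subgroup G) : Set G)
  let φ := (S : Subgroup G).normalizerMonoidHom
  let Γ := φ.range
  let t' : (S : Subgroup G) := ⟨t, htS⟩
  haveI : Fintype (MulAction.orbit Γ t') := Fintype.ofFinite _
  let O : Finset (S : Subgroup G) := (MulAction.orbit Γ t').toFinset
  let p : (S : Subgroup G) := ∏ o ∈ O, o
  have hconj : ∀ (n : N) (s : (S : Subgroup G)), ((φ n s : (S : Subgroup G)) : G) = n * s * (n : G)⁻¹ := by
    intro n s
    rfl
  -- p is fixed by N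
  have hpfix : ∀ n : N, φ n p = p := by
    intro n
    change φ n (∏ o ∈ O, o) = ∏ o ∈ O, o
    rw [map_prod]
    apply Finset.prod_bij (fun o _ => φ n o)
    · intro o ho
      rw [Set.mem_toFinset] at ho ⊢
      have : φ n o = (⟨φ n, n, rfl⟩ : Γ) • o := rfl
      rw [this]
      exact (MulAction.orbitRel_apply.mp (MulAction.orbitRel_apply.mpr (by
        obtain ⟨γ, rfl⟩ := ho
        exact ⟨⟨φ n, n, rfl⟩ * γ, by simp [mul_smul]⟩)))
    · intro o _ o' _ h
      exact (φ n).injective h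
    · intro o ho
      rw [Set.mem_toFinset] at ho
      refine ⟨(φ n)⁻¹ o, ?_, by simp⟩
      rw [Set.mem_toFinset]
      obtain ⟨γ, rfl⟩ := ho
      exact ⟨(⟨φ n, n, rfl⟩ : Γ)⁻¹ * γ, by simp [mul_smul]; rfl⟩
    · intro o _
      rfl
  -- O has odd order
  have hOodd : Odd O.card := by
    rw [Set.toFinset_card, ← Nat.card_eq_fintype_card, Nat.card_coe_set_eq, ← MulAction.index_stabilizer]
    have h1 : (MulAction.stabilizer Γ t').index ∣ Nat.card Γ := Subgroup.index_dvd_card _
    have h2 : Nat.card Γ ∣ ((S : Subgroup G).subgroupOf N).index := by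
      have h3 : φ.ker.index = Nat.card φ.range := Subgroup.index_ker φ
      change Nat.card φ.range ∣ _
      rw [← h3]
      apply Subgroup.index_dvd_of_le
      intro x hx
      rw [Subgroup.mem_subgroupOf] at hx
      rw [MonoidHom.mem_ker]
      ext s
      rw [hconj]
      have hc : (x : G) * s = s * x := congrArg Subtype.val (hS.1.1 ⟨x, hx⟩ s)
      rw [hc, mul_inv_cancel_right]
      rfl
    have h4 : ((S : Subgroup G).subgroupOf N).index ∣ (S : Subgroup G).index :=
      Subgroup.relIndex_dvd_index_of_le Subgroup.le_normalizer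
    have h5 : ¬ 2 ∣ (S : Subgroup G).index := Sylow.not_dvd_index S
    rw [← Nat.not_even_iff_odd, even_iff_two_dvd]
    exact fun h => h5 (h.trans (h1.trans (h2.trans h4)))
  -- elements of O lie in E \ R0
  have hOE : ∀ o ∈ O, (o : G) ∈ E ∧ (o : G) ∉ R0 := by
    intro o ho
    rw [Set.mem_toFinset] at ho
    obtain ⟨⟨γ, n, rfl⟩, rfl⟩ := ho
    have e : (((⟨φ n, n, rfl⟩ : Γ) • t' : (S : Subgroup G)) : G) = n * t * (n : G)⁻¹ := rfl
    simp only
    refine ⟨⟨Subtype.prop _, ?_⟩, ?_⟩
    · rw [e, conj_pow, htE.2]; group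
    · rw [e]
      intro h
      exact hno n n.2 h.1
  -- the product of an odd number of elements outside R0
  have hidx : (R0.subgroupOf E).index ≤ 2 := by
    have h1 := Subgroup.card_mul_index (R0.subgroupOf E)
    rw [Nat.card_congr (Subgroup.subgroupOfEquivOfLe hR0E).toEquiv] at h1
    rw [hb, ha] at h1
    have h2 : 2 ^ b * (R0.subgroupOf E).index ≤ 2 ^ b * 2 := by
      rw [h1, ← pow_succ]
      exact Nat.pow_le_pow_right (by norm_num) hab
    exact Nat.le_of_mul_le_mul_left h2 (by positivity)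
  have hmul : ∀ x y : G, x ∈ E → y ∈ E → x ∉ R0 → y ∉ R0 → x * y ∈ R0 := by
    intro x y hx hy hx0 hy0
    have h2 : (R0.subgroupOf E).index = 2 := by
      have h1 : (R0.subgroupOf E).index ≠ 1 := by
        intro h
        rw [Subgroup.index_eq_one, Subgroup.subgroupOf_eq_top] at h
        exact hx0 (h hx)
      have h0 : (R0.subgroupOf E).index ≠ 0 := Subgroup.index_ne_zero_of_finite
      omega
    have h3 := (Subgroup.mul_mem_iff_of_index_two h2 (a := ⟨x, hx⟩) (b := ⟨y, hy⟩)).mpr (by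
      simp only [Subgroup.mem_subgroupOf]
      exact iff_of_false hx0 hy0)
    simpa [Subgroup.mem_subgroupOf] using h3
  have hprod : ∀ T : Finset (S : Subgroup G), (∀ o ∈ T, (o : G) ∈ E ∧ (o : G) ∉ R0) →
      ((∏ o ∈ T, o : (S : Subgroup G)) : G) ∈ E ∧
      (((∏ o ∈ T, o : (S : Subgroup G)) : G) ∈ R0 ↔ Even T.card) := by
    intro T
    induction T using Finset.induction_on with
    | empty => intro _; simp [E.one_mem, R0.one_mem]
    | insert x T hxT ih =>
      intro hT
      obtain ⟨h1, h2⟩ := ih (fun o ho => hT o (Finset.mem_insert_of_mem ho))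
      obtain ⟨hx1, hx2⟩ := hT x (Finset.mem_insert_self x T)
      rw [Finset.prod_insert hxT, Finset.card_insert_of_notMem hxT, Nat.even_add_one]
      have e : ((x * ∏ o ∈ T, o : (S : Subgroup G)) : G) = (x : G) * ((∏ o ∈ T, o : (S : Subgroup G)) : G) := rfl
      rw [e]
      refine ⟨E.mul_mem hx1 h1, ?_⟩
      rw [← h2]
      constructor
      · intro h3 h4
        apply hx2
        have := R0.mul_mem h3 (R0.inv_mem h4)
        rwa [mul_inv_cancel_right] at this
      · intro h3
        exact hmul _ _ hx1 h1 hx2 h3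
  obtain ⟨-, hp2⟩ := hprod O hOE
  have hp1 : (p : G) ≠ 1 := by
    intro h
    have h1 : ((∏ o ∈ O, o : (S : Subgroup G)) : G) ∈ R0 := by
      change (p : G) ∈ R0
      rw [h]; exact R0.one_mem
    exact (Nat.not_even_iff_odd.mpr hOodd) (hp2.mp h1)
  obtain ⟨K, hK⟩ := exists_index_two_of_central S hS (p : G) p.2 hp1 (by
    intro n hn
    have := congrArg Subtype.val (hpfix ⟨n, hn⟩)
    rw [hconj] at this
    exact mul_inv_eq_iff_eq_mul.mp this)
  exact hG K hK

end Cfsg.Agent.S1244
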