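import Cfsg.Statements.S1246
import Mathlib
import Cfsg.Agent.H11_Local
import Cfsg.Agent.H13_Syl

set_option autoImplicit false
open Cfsg

namespace Cfsg.Agent.S1246

open Subgroup Cfsg.Agent.H11.Local Cfsg.Agent.H11.Components Cfsg.Agent.H11.Cores Cfsg.Agent.H11.FStar
  Cfsg.Agent.H11.AxB in
theorem step {G : Type*} [Group G] [Finite G] (p : ℕ) [hp : Fact p.Prime] {V W : Subgroup G} (hVW : V ≤ W)
    (hW : IsPGroup p W) (hn : W ≤ normalizer (V : Set G))
    (h : generalizedFittingSubgroup ↥(centralizer (V : Set G)) = pCore p ↥(centralizer (V : Set G))) :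
    generalizedFittingSubgroup ↥(centralizer (W : Set G)) = pCore p ↥(centralizer (W : Set G)) := by
  set H := centralizer (V : Set G) with hH
  set C := centralizer (W : Set G) with hC
  have hCH : C ≤ H := centralizer_le hVW
  set Q := (pCore p H).map H.subtype with hQ
  have hQp : IsPGroup p Q := (pCore_isPGroup p).map _
  have hHQ : H ≤ normalizer (Q : Set G) :=
    le_trans le_normalizer (le_normalizer_map_subtype_of_characteristic H (pCore p H))
  have hWQ : W ≤ normalizer (Q : Set G) := by
    refine le_trans (hn.trans ?_) (le_normalizer_map_subtype_of_characteristic H (pCore p H))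
    intro g hg
    rw [mem_normalizer_iff]
    intro x
    rw [hH]
    constructor
    · intro hx
      rw [mem_centralizer_iff] at hx ⊢
      intro v hv
      have h1 : g⁻¹ * v * g ∈ V := by
        have := (mem_normalizer_iff.mp (inv_mem hg) v).mp hv
        simpa using this
      have h2 := hx _ h1
      calc v * (g * x * g⁻¹) = g * ((g⁻¹ * v * g) * x) * g⁻¹ := by group
        _ = g * (x * (g⁻¹ * v * g)) * g⁻¹ := by rw [h2]
        _ = g * x * g⁻¹ * v := by group
    · intro hx
      rw [mem_centralizer_iff] at hx ⊢
      intro v hv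
      have h1 : g * v * g⁻¹ ∈ V := (mem_normalizer_iff.mp hg v).mp hv
      have h2 := hx _ h1
      have h3 : g * (v * x) * g⁻¹ = g * (x * v) * g⁻¹ := by
        calc g * (v * x) * g⁻¹ = (g * v * g⁻¹) * (g * x * g⁻¹) := by group
          _ = (g * x * g⁻¹) * (g * v * g⁻¹) := h2
          _ = g * (x * v) * g⁻¹ := by group
      exact mul_left_cancel (mul_right_cancel h3)
  have key : ∀ X : Subgroup G, X ≤ C → X ≤ Subgroup.closure {g : G | g ∈ X ∧ (orderOf g).Coprime p} →
      ⁅X, (pCore p C).map C.subtype⁆ = ⊥ → X = ⊥ := by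
    intro X hXC hX hXO
    have h1 : ⁅X, Q⁆ = ⊥ := by
      apply commutator_eq_bot_of_AxB p X W Q hX hW
      · rw [commutator_eq_bot_iff_le_centralizer]; exact hXC
      · exact hQp
      · exact (hXC.trans hCH).trans hHQ
      · exact hWQ
      · rw [eq_bot_iff, ← hXO]
        apply commutator_mono le_rfl
        apply le_map_pCore p inf_le_right (hQp.to_le inf_le_left)
        refine le_trans ?_ inf_normalizer_le_normalizer_inf
        exact le_inf (hCH.trans hHQ) le_normalizer
    rw [commutator_eq_bot_iff_le_centralizer] at h1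
    have hXH : X ≤ H := hXC.trans hCH
    have h2 : X.subgroupOf H ≤ pCore p H := by
      rw [← h]
      refine le_trans ?_ (centralizer_generalizedFitting_le (G := H))
      rw [h]
      intro x hx
      rw [mem_centralizer_iff]
      intro y hy
      have h3 := mem_centralizer_iff.mp (h1 hx) (y : G) ⟨y, hy, rfl⟩
      exact Subtype.ext h3
    have h3 : IsPGroup p X := by
      have h4 : IsPGroup p (X.subgroupOf H) := (pCore_isPGroup p).to_le h2
      exact h4.of_equiv (subgroupOfEquivOfLe hXH)
    rw [eq_bot_iff]
    refine hX.trans ?_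
    rw [closure_le]
    rintro g ⟨hg, hgo⟩
    obtain ⟨k, hk⟩ := h3 ⟨g, hg⟩
    have hk' : g ^ p ^ k = 1 := congrArg Subtype.val hk
    have h4 : orderOf g ∣ p ^ k := orderOf_dvd_of_pow_eq_one hk'
    have h5 : orderOf g = 1 := Nat.Coprime.eq_one_of_dvd (Nat.Coprime.pow_right k hgo) h4
    rw [orderOf_eq_one_iff] at h5
    rw [h5]; exact one_mem _
  apply generalizedFitting_eq_pCore_of
  · have := key _ (map_subtype_le _) (map_layer_le_closure p _) (commutator_map_layer_pCore p _)
    rwa [map_eq_bot_iff_of_injective _ (subtype_injective _)] at this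
  · intro q hq hne
    haveI := Fact.mk hq
    have h1 : IsPGroup q ↥((pCore q C).map C.subtype) := (pCore_isPGroup q).map _
    have := key _ (map_subtype_le _) (le_closure_of_isPGroup_ne p q hne h1)
      (commutator_map_pCore_pCore p q hne _)
    rwa [map_eq_bot_iff_of_injective _ (subtype_injective _)] at this

open Subgroup Cfsg.Agent.H11.Local Cfsg.Agent.H11.Components Cfsg.Agent.H11.Cores Cfsg.Agent.H11.FStar in
theorem isP_iff {G : Type*} [Group G] [Finite G] (p : ℕ) [hp : Fact p.Prime] :
    IsPGroup p ↥(generalizedFittingSubgroup G) ↔ generalizedFittingSubgroup G = pCore p G := by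
  constructor
  · intro h
    apply le_antisymm
    · haveI : (generalizedFittingSubgroup G).Normal := inferInstance
      exact le_pCore p h
    · exact (pCore_le_fittingSubgroup p).trans fitting_le_generalizedFitting
  · intro h
    rw [h]; exact pCore_isPGroup p

/-- Let V ≤ U be p-subgroups of the finite group G. If the generalized Fitting subgroup of C_G(V) is a p-group, then so is that of C_G(U). -/
theorem result {G : Type*} [Group G] [Finite G] {p : ℕ} [Fact p.Prime] (U V : Subgroup G) (hVU : V ≤ U) (hU : IsPGroup p U) (hV : IsPGroup p ↥(Cfsg.generalizedFittingSubgroup ↥(Subgroup.centralizer (V : Set G)))) : IsPGroup p ↥(Cfsg.generalizedFittingSubgroup ↥(Subgroup.centralizer (U : Set G))) := by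
  rw [isP_iff] at hV ⊢
  have main : ∀ (n : ℕ) (V : Subgroup G), V ≤ U → Nat.card U - Nat.card V = n →
      Cfsg.generalizedFittingSubgroup ↥(Subgroup.centralizer (V : Set G)) = Cfsg.pCore p ↥(Subgroup.centralizer (V : Set G)) →
      Cfsg.generalizedFittingSubgroup ↥(Subgroup.centralizer (U : Set G)) = Cfsg.pCore p ↥(Subgroup.centralizer (U : Set G)) := by
    intro n
    induction n using Nat.strong_induction_on with
    | _ n ih =>
      intro V hVU hn hV
      by_cases hlt : V = U
      · rw [← hlt]; exact hV
      · have h1 := Cfsg.Agent.H13.Syl.lt_normalizer_of_lt hU (lt_of_le_of_ne hVU hlt)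
        have hVW : V ≤ U ⊓ Subgroup.normalizer (V : Set G) := le_inf hVU Subgroup.le_normalizer
        have hne : V ≠ U ⊓ Subgroup.normalizer (V : Set G) := h1.ne
        have hlt2 : Nat.card V < Nat.card (U ⊓ Subgroup.normalizer (V : Set G) : Subgroup G) :=
          Cfsg.Agent.H11.Cores.card_lt_card (lt_of_le_of_ne hVW hne)
        have hle : Nat.card (U ⊓ Subgroup.normalizer (V : Set G) : Subgroup G) ≤ Nat.card U :=
          Cfsg.Agent.H11.Cores.card_le_card inf_le_left
        exact ih _ (by omega) _ inf_le_left rfl (step p hVW (hU.to_le inf_le_left) inf_le_right hV)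
  exact main _ V hVU rfl hV

end Cfsg.Agent.S1246
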