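import Cfsg.Statements.S1247
import Mathlib
import Cfsg.Agent.H11_Local
import Cfsg.Agent.H2_Basic

set_option autoImplicit false
open Cfsg

namespace Cfsg.Agent.S1247

universe u
open scoped commutatorElement

section
open Subgroup Cfsg.Agent.H11.Local Cfsg.Agent.H11.Components Cfsg.Agent.H11.Cores Cfsg.Agent.H11.FStar
  Cfsg.Agent.H11.AxB

variable {A : Type u} [Group A] [Finite A]

/-- the subgroup `E(A) O_{r'}(F(A))` -/
def Dd (A : Type u) [Group A] (r : ℕ) : Subgroup A :=
  layer A ⊔ ⨆ s : {s : ℕ // s.Prime ∧ s ≠ r}, pCore (s : ℕ) A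

theorem Dd_comm (r : ℕ) [hr : Fact r.Prime] : Dd A r ≤ centralizer (pCore r A : Set A) := by
  apply sup_le
  · rw [← commutator_eq_bot_iff_le_centralizer, eq_bot_iff, ← commutator_layer_fitting (G := A)]
    exact commutator_mono le_rfl (pCore_le_fittingSubgroup r)
  · apply iSup_le
    rintro ⟨s, hs, hsr⟩
    rw [← commutator_eq_bot_iff_le_centralizer]
    exact commutator_eq_bot_of_disjoint (disjoint_pCore hs hr.out hsr)

theorem le_Dd_sup (r : ℕ) [hr : Fact r.Prime] : generalizedFittingSubgroup A ≤ Dd A r ⊔ pCore r A := by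
  apply sup_le
  · exact le_sup_left.trans le_sup_left
  · rw [fittingSubgroup_eq_iSup_pCore]
    apply iSup_le
    rintro ⟨s, hs⟩
    rcases eq_or_ne s r with rfl | hne
    · exact le_sup_right
    · refine le_trans ?_ le_sup_left
      refine le_trans ?_ le_sup_right
      exact le_iSup (fun s : {s : ℕ // s.Prime ∧ s ≠ r} => pCore (s : ℕ) A) ⟨s, hs, hne⟩

theorem mem_Dd (r : ℕ) [hr : Fact r.Prime] {f : A} (hf : f ∈ generalizedFittingSubgroup A)
    (ho : (orderOf f).Coprime r) : f ∈ Dd A r := by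
  obtain ⟨d, hd, o, ho', rfl⟩ := Subgroup.mem_sup_of_normal_right.mp (le_Dd_sup r hf)
  have hc : Commute d o := (mem_centralizer_iff.mp (Dd_comm r hd) o ho').symm
  obtain ⟨k, hk⟩ := pCore_isPGroup r ⟨o, ho'⟩
  have hk' : o ^ r ^ k = 1 := congrArg Subtype.val hk
  have h1 : o ^ orderOf (d * o) ∈ Dd A r := by
    have h2 := pow_orderOf_eq_one (d * o)
    rw [hc.mul_pow] at h2
    rw [eq_inv_of_mul_eq_one_right h2]
    exact inv_mem (pow_mem hd _)
  have h2 : o ^ r ^ k ∈ Dd A r := by rw [hk']; exact one_mem _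
  have h3 : Nat.gcd (orderOf (d * o)) (r ^ k) = 1 := Nat.Coprime.pow_right k ho
  have h4 : o ∈ Dd A r := by
    have h5 := Nat.gcd_eq_gcd_ab (orderOf (d * o)) (r ^ k)
    rw [h3] at h5
    have h6 : o = (o ^ orderOf (d * o)) ^ (Nat.gcdA (orderOf (d * o)) (r ^ k)) *
        (o ^ r ^ k) ^ (Nat.gcdB (orderOf (d * o)) (r ^ k)) := by
      rw [← zpow_natCast, ← zpow_natCast, ← zpow_mul, ← zpow_mul, ← zpow_add, ← h5]
      simp
    rw [h6]
    exact mul_mem (zpow_mem h1 _) (zpow_mem h2 _)
  exact mul_mem hd h4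

theorem mem_pCore (r : ℕ) [hr : Fact r.Prime] {a : A} (ha : a ∈ fittingSubgroup A) (ho : ∃ k, orderOf a = r ^ k) :
    a ∈ pCore r A := by
  obtain ⟨k, hk⟩ := ho
  have h1 : IsPGroup r (zpowers (⟨a, ha⟩ : fittingSubgroup A)) := by
    rw [IsPGroup.iff_card]
    exact ⟨k, by rw [Nat.card_zpowers, ← Subgroup.orderOf_coe]; exact hk⟩
  obtain ⟨P, hP⟩ := h1.exists_le_sylow
  have hnil : Group.IsNilpotent ↥(fittingSubgroup A) := inferInstance
  have hPn : (P : Subgroup ↥(fittingSubgroup A)).Normal :=
    P.normal_of_normalizerCondition (Group.normalizerCondition_of_isNilpotent)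
  have h2 : ((P : Subgroup ↥(fittingSubgroup A)).map (fittingSubgroup A).subtype).IsSubnormal :=
    Subgroup.IsSubnormal.trans' hPn.isSubnormal (inferInstance : (fittingSubgroup A).Normal).isSubnormal
  exact le_pCore_of_isSubnormal r h2 (P.isPGroup'.map _) ⟨⟨a, ha⟩, hP (mem_zpowers _), rfl⟩

/-- elements of `O_r(A)` centralizing `S ∩ O_r(A)` centralize `S` -/
theorem cent_S {S : Subgroup A} (hE : layer A ≤ S) (hSF : S ≤ generalizedFittingSubgroup A) (r : ℕ)
    [hr : Fact r.Prime] {x : A} (hx : x ∈ pCore r A) (hc : ∀ s ∈ S ⊓ pCore r A, Commute x s) :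
    x ∈ centralizer (S : Set A) := by
  rw [mem_centralizer_iff]
  intro s hs
  obtain ⟨e, he, f, hf, rfl⟩ := Subgroup.mem_sup_of_normal_right.mp (hSF hs)
  have hfS : f ∈ S := (mul_mem_cancel_left (hE he)).mp hs
  have hex : Commute x e := by
    have := mem_centralizer_iff.mp (Dd_comm r (mem_sup_left he : e ∈ Dd A r)) x hx
    exact this
  have hfx : Commute x f := by
    obtain ⟨a, ha, b, hb, hab, -, hao, hbo⟩ := Cfsg.Agent.H2.Basic.exists_p_decomp r f
    have haf : a ∈ fittingSubgroup A := zpowers_le.mpr hf ha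
    have hbf : b ∈ fittingSubgroup A := zpowers_le.mpr hf hb
    have haS : a ∈ S := zpowers_le.mpr hfS ha
    have h1 : Commute x a := hc a ⟨haS, mem_pCore r haf hao⟩
    have h2 : Commute x b :=
      mem_centralizer_iff.mp (Dd_comm r (mem_Dd r (fitting_le_generalizedFitting hbf) hbo)) x hx
    rw [← hab]
    exact h1.mul_right h2
  exact (hex.mul_right hfx).symm

/-- A `p`-subgroup normalized by `S` centralizes `E(A) O_{p'}(F(A))`. -/
theorem mainA {S : Subgroup A} (hE : layer A ≤ S) (hSF : S ≤ generalizedFittingSubgroup A)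
    (hSC : generalizedFittingSubgroup A ⊓ centralizer (S : Set A) ≤ S) (p : ℕ) [hp : Fact p.Prime]
    {Y : Subgroup A} (hY : IsPGroup p Y) (hSY : S ≤ normalizer (Y : Set A)) :
    Y ≤ centralizer (Dd A p : Set A) := by
  -- the layer
  have hlayer : ⁅layer A, Y⁆ = ⊥ := by
    apply commutator_eq_bot_of_perfect layer_perfect
    have h1 : ⁅layer A, Y⁆ ≤ Y ⊓ layer A := by
      apply le_inf
      · rw [commutator_le]
        intro e he y hy
        rw [commutatorElement_def]
        have := (mem_normalizer_iff.mp (hSY (hE he)) y).mp hy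
        exact mul_mem this (inv_mem hy)
      · exact commutator_le_left _ _
    have h2 : Y ⊓ layer A ≤ pCore p A := by
      have h3 : ((Y ⊓ layer A).subgroupOf (layer A)).Normal := by
        rw [normal_subgroupOf_iff_le_normalizer inf_le_right]
        refine le_trans ?_ inf_normalizer_le_normalizer_inf
        exact le_inf (hE.trans hSY) le_normalizer
      have h4 : (Y ⊓ layer A).IsSubnormal :=
        Subgroup.IsSubnormal.trans inf_le_right h3.isSubnormal (inferInstance : (layer A).Normal).isSubnormal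
      exact le_pCore_of_isSubnormal p h4 (hY.to_le inf_le_left)
    rw [eq_bot_iff, ← commutator_layer_fitting (G := A), commutator_comm (layer A) (fittingSubgroup A)]
    exact commutator_mono ((h1.trans h2).trans (pCore_le_fittingSubgroup p)) le_rfl
  rw [le_centralizer_iff]
  apply sup_le
  · rw [← commutator_eq_bot_iff_le_centralizer]; exact hlayer
  · apply iSup_le
    rintro ⟨r, hr, hrp⟩
    haveI : Fact r.Prime := ⟨hr⟩
    rw [le_centralizer_iff]
    intro y hy
    rw [mem_centralizer_iff]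
    intro x hx
    have hyo : (orderOf y).Coprime r := by
      obtain ⟨k, hk⟩ := hY ⟨y, hy⟩
      have hk' : y ^ p ^ k = 1 := congrArg Subtype.val hk
      exact Nat.Coprime.coprime_dvd_left (orderOf_dvd_of_pow_eq_one hk')
        (Nat.Coprime.pow_left k ((Nat.coprime_primes hp.out hr).mpr (Ne.symm hrp)))
    have hn : (pCore r A).Normal := inferInstance
    have hcs : ∀ s ∈ S ⊓ pCore r A, Commute y s := by
      rintro s ⟨hs, hsr⟩
      have h1 : ⁅y, s⁆ ∈ Y := by
        rw [commutatorElement_def]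
        have h2 := (mem_normalizer_iff.mp (hSY hs) y⁻¹).mp (inv_mem hy)
        have h3 : y * s * y⁻¹ * s⁻¹ = y * (s * y⁻¹ * s⁻¹) := by group
        rw [h3]
        exact mul_mem hy h2
      have h2 : ⁅y, s⁆ ∈ pCore r A := by
        rw [commutatorElement_def]
        exact mul_mem (hn.conj_mem s hsr y) (inv_mem hsr)
      have h3 : Disjoint Y (pCore r A) := by
        rw [disjoint_iff, eq_bot_iff]
        rintro z ⟨hz1, hz2⟩
        obtain ⟨k, hk⟩ := hY ⟨z, hz1⟩
        obtain ⟨l, hl⟩ := pCore_isPGroup r ⟨z, hz2⟩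
        have hk' : z ^ p ^ k = 1 := congrArg Subtype.val hk
        have hl' : z ^ r ^ l = 1 := congrArg Subtype.val hl
        have h4 : orderOf z = 1 := Nat.eq_one_of_dvd_coprimes
          (Nat.Coprime.pow k l ((Nat.coprime_primes hp.out hr).mpr (Ne.symm hrp)))
          (orderOf_dvd_of_pow_eq_one hk') (orderOf_dvd_of_pow_eq_one hl')
        rw [mem_bot]; exact orderOf_eq_one_iff.mp h4
      have h4 := disjoint_def.mp h3 h1 h2
      exact commutatorElement_eq_one_iff_commute.mp h4
    refine ((commute_of_AxB r y hyo (S ⊓ pCore r A) ((pCore_isPGroup r).to_le inf_le_right) hcs (pCore r A)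
      (pCore_isPGroup r) ?_ ?_ ?_) x hx).symm
    · rw [normalizer_eq_top]; trivial
    · rw [normalizer_eq_top]; exact le_top
    · intro z hz hzc
      have h1 := cent_S hE hSF r hz hzc
      have h2 : z ∈ S := hSC ⟨(pCore_le_fittingSubgroup r).trans fitting_le_generalizedFitting hz, h1⟩
      exact hcs z ⟨h2, hz⟩

/-- the centre of `O_r(A)` lies in `S` -/
theorem center_le {S : Subgroup A} (hSF : S ≤ generalizedFittingSubgroup A)
    (hSC : generalizedFittingSubgroup A ⊓ centralizer (S : Set A) ≤ S) (r : ℕ) [hr : Fact r.Prime] :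
    (center (pCore r A)).map (pCore r A).subtype ≤ S := by
  rintro _ ⟨z, hz, rfl⟩
  apply hSC
  refine ⟨(pCore_le_fittingSubgroup r).trans fitting_le_generalizedFitting z.2, mem_centralizer_iff.mpr ?_⟩
  intro s hs
  have h1 := le_Dd_sup r (hSF hs)
  have h2 : Dd A r ⊔ pCore r A ≤ centralizer ({(z : A)} : Set A) := by
    apply sup_le
    · intro d hd
      rw [mem_centralizer_singleton_iff]
      exact (mem_centralizer_iff.mp (Dd_comm r hd) z z.2).symm
    · intro d hd
      rw [mem_centralizer_singleton_iff]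
      exact congrArg Subtype.val (mem_center_iff.mp hz ⟨d, hd⟩)
  exact mem_centralizer_singleton_iff.mp (h2 h1)

end

section
open Subgroup Cfsg.Agent.H11.Local Cfsg.Agent.H11.Components Cfsg.Agent.H11.Cores Cfsg.Agent.H11.FStar
  Cfsg.Agent.H11.AxB

variable {G : Type u} [Group G] [Finite G] [IsSimpleGroup G]

theorem normalizer_eq {A : Subgroup G} (hA : IsCoatom A) {Z : Subgroup A} [Z.Normal] (hZ : Z ≠ ⊥) :
    normalizer ((Z.map A.subtype : Subgroup G) : Set G) = A := by
  have h1 : A ≤ normalizer ((Z.map A.subtype : Subgroup G) : Set G) := by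
    have h2 : ((Z.map A.subtype).subgroupOf A).Normal := by
      have : (Z.map A.subtype).subgroupOf A = Z := by
        rw [subgroupOf, comap_map_eq_self_of_injective A.subtype_injective]
      rw [this]; infer_instance
    exact (normal_subgroupOf_iff_le_normalizer (map_subtype_le Z)).mp h2
  have h2 : normalizer ((Z.map A.subtype : Subgroup G) : Set G) ≠ ⊤ := by
    intro h
    have h3 : (Z.map A.subtype).Normal := normalizer_eq_top_iff.mp h
    rcases h3.eq_bot_or_eq_top with h4 | h4
    · exact hZ ((map_eq_bot_iff_of_injective _ A.subtype_injective).mp h4)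
    · apply hA.1
      rw [eq_top_iff, ← h4]
      exact map_subtype_le Z
  exact (hA.le_iff_eq h2).1 h1

theorem cent_le {A : Subgroup G} (hA : IsCoatom A) {Z : Subgroup A} [Z.Normal] (hZ : Z ≠ ⊥) {x : G}
    (hx : ∀ z ∈ Z, Commute x (z : G)) : x ∈ A := by
  rw [← normalizer_eq hA hZ]
  apply centralizer_le_normalizer
  rw [mem_centralizer_iff]
  rintro _ ⟨z, hz, rfl⟩
  exact (hx z hz).symm

theorem mainB {A : Subgroup G} (hA : IsCoatom A) {S : Subgroup A} (hE : layer A ≤ S)
    (hSF : S ≤ generalizedFittingSubgroup A)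
    (hSC : generalizedFittingSubgroup A ⊓ centralizer (S : Set A) ≤ S) (p : ℕ) [hp : Fact p.Prime]
    (hpA : pCore p A ≠ ⊥) {P : Subgroup G} (hP : IsPGroup p P) (hSP : S.map A.subtype ≤ normalizer (P : Set G)) :
    ∀ x ∈ P, ∀ y ∈ Dd A p, Commute x (y : G) := by
  -- `Y = P ∩ A`
  have hY := mainA hE hSF hSC p (Y := P.subgroupOf A) (by
      intro x
      obtain ⟨k, hk⟩ := hP ⟨(x : A), x.2⟩
      exact ⟨k, Subtype.ext (Subtype.ext (by simpa using congrArg Subtype.val hk))⟩) (by
      intro s hs
      have h1 := mem_normalizer_iff.mp (hSP ⟨s, hs, rfl⟩)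
      rw [mem_normalizer_iff]
      intro x
      rw [mem_subgroupOf, mem_subgroupOf]
      exact h1 x)
  have hYc : ∀ x ∈ P, x ∈ A → ∀ y ∈ Dd A p, Commute x (y : G) := by
    intro x hx hxA y hy
    have h1 := mem_centralizer_iff.mp (hY (show (⟨x, hxA⟩ : A) ∈ P.subgroupOf A from hx)) y hy
    exact (congrArg Subtype.val h1).symm
  -- the centre of `O_p(A)`
  haveI hZn : ((center (pCore p A)).map (pCore p A).subtype).Normal := inferInstance
  have hZ1 : (center (pCore p A)).map (pCore p A).subtype ≠ ⊥ := by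
    intro h
    rw [map_eq_bot_iff_of_injective _ (subtype_injective _)] at h
    haveI : Nontrivial (pCore p A) := (nontrivial_iff_ne_bot _).mpr hpA
    have h2 := (pCore_isPGroup (G := A) p).center_nontrivial
    rw [nontrivial_iff_ne_bot] at h2
    exact h2 h
  have hZS := center_le hSF hSC p
  have key : ∀ a ∈ S, a ∈ Dd A p → (orderOf (a : G)).Coprime p → ∀ x ∈ P, Commute (a : G) x := by
    intro a haS haD hao
    refine commute_of_AxB p (a : G) hao (((center (pCore p A)).map (pCore p A).subtype).map A.subtype) ?_ ?_ P hP ?_ ?_ ?_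
    · exact (((pCore_isPGroup (G := A) p).to_subgroup _).map _).map _
    · rintro _ ⟨_, ⟨z, hz, rfl⟩, rfl⟩
      have h1 := mem_centralizer_iff.mp (Dd_comm p haD) z z.2
      exact (congrArg Subtype.val h1).symm
    · exact hSP ⟨a, haS, rfl⟩
    · exact (map_mono hZS).trans hSP
    · intro x hx hxc
      refine (hYc x hx ?_ a haD).symm
      apply cent_le hA hZ1
      intro z hz
      exact hxc _ ⟨z, hz, rfl⟩
  have keyE : ∀ x ∈ P, ∀ e ∈ layer A, Commute x (e : G) := by
    intro x hx e he
    have h1 : (layer A).map A.subtype ≤ centralizer ({x} : Set G) := by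
      refine (map_layer_le_closure p A).trans ?_
      rw [closure_le]
      rintro _ ⟨⟨a, ha, rfl⟩, hao⟩
      rw [SetLike.mem_coe, mem_centralizer_singleton_iff]
      exact key a (hE ha) (mem_sup_left ha) hao x hx
    exact (mem_centralizer_singleton_iff.mp (h1 ⟨e, he, rfl⟩)).symm
  have keyr : ∀ (r : ℕ) [Fact r.Prime], r ≠ p → ∀ x ∈ P,
      ∀ z ∈ (center (pCore r A)).map (pCore r A).subtype, Commute x (z : G) := by
    intro r hr hrp x hx z hz
    refine (key z (center_le hSF hSC r hz) ?_ ?_ x hx).symm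
    · obtain ⟨z, hz', rfl⟩ := hz
      refine mem_sup_right ?_
      exact (le_iSup (fun s : {s : ℕ // s.Prime ∧ s ≠ p} => pCore (s : ℕ) A) ⟨r, hr.out, hrp⟩) z.2
    · obtain ⟨z, hz', rfl⟩ := hz
      obtain ⟨k, hk⟩ := pCore_isPGroup r z
      have hk' : ((z : A) : G) ^ r ^ k = 1 := congrArg (fun w : pCore r A => ((w : A) : G)) hk
      exact Nat.Coprime.coprime_dvd_left (orderOf_dvd_of_pow_eq_one hk')
        (Nat.Coprime.pow_left k ((Nat.coprime_primes hr.out hp.out).mpr hrp))
  by_cases hEb : layer A = ⊥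
  · by_cases hrb : ∀ r : ℕ, r.Prime → r ≠ p → pCore r A = ⊥
    · intro x _ y hy
      have h1 : Dd A p = ⊥ := by
        rw [Dd, hEb, bot_sup_eq, eq_bot_iff]
        apply iSup_le
        rintro ⟨r, hr, hrp⟩
        exact (hrb r hr hrp).le
      rw [h1, mem_bot] at hy
      rw [hy]; exact Commute.one_right x
    · push Not at hrb
      obtain ⟨r, hr, hrp, hne⟩ := hrb
      haveI : Fact r.Prime := ⟨hr⟩
      intro x hx y hy
      refine hYc x hx ?_ y hy
      haveI hZn' : ((center (pCore r A)).map (pCore r A).subtype).Normal := inferInstance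
      refine cent_le hA (Z := (center (pCore r A)).map (pCore r A).subtype) ?_ (keyr r hrp x hx)
      intro h
      rw [map_eq_bot_iff_of_injective _ (subtype_injective _)] at h
      haveI : Nontrivial (pCore r A) := (nontrivial_iff_ne_bot _).mpr hne
      have h2 := (pCore_isPGroup (G := A) r).center_nontrivial
      rw [nontrivial_iff_ne_bot] at h2
      exact h2 h
  · intro x hx y hy
    exact hYc x hx (cent_le hA hEb (keyE x hx)) y hy

end

/-- Let G be a non-abelian finite simple group, A a maximal subgroup, F = F*(A) its generalized Fitting subgroup (viewed in G), and S ≤ F a subgroup subnormal in F with C_F(S) ≤ S. Let B be any subgroup of G containing S. Then (a) for every prime q not dividing |F(A)|, O_q(B) ∩ A = 1; and (b) for every prime p dividing |F(A)|, O_p(B) commutes elementwise with the subgroup of F generated by its elements of order prime to p. -/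
theorem result {G : Type*} [Group G] [Finite G] [IsSimpleGroup G] (hna : ¬ IsMulCommutative G) (A : Subgroup G) (hA : IsCoatom A) (S : Subgroup G) (hSF : S ≤ (Cfsg.generalizedFittingSubgroup ↥A).map A.subtype) (hSsn : (S.subgroupOf ((Cfsg.generalizedFittingSubgroup ↥A).map A.subtype)).IsSubnormal) (hSC : (Cfsg.generalizedFittingSubgroup ↥A).map A.subtype ⊓ Subgroup.centralizer (S : Set G) ≤ S) (B : Subgroup G) (hSB : S ≤ B) : (∀ q : ℕ, q.Prime → ¬ q ∣ Nat.card (Cfsg.fittingSubgroup ↥A) → (Cfsg.pCore q ↥B).map B.subtype ⊓ A = ⊥) ∧ (∀ p : ℕ, p.Prime → p ∣ Nat.card (Cfsg.fittingSubgroup ↥A) → ∀ x ∈ (Cfsg.pCore p ↥B).map B.subtype, ∀ y ∈ (Cfsg.pResidual p ↥(Cfsg.generalizedFittingSubgroup ↥A)).map ((Cfsg.generalizedFittingSubgroup ↥A).subtype) , x * (A.subtype y) = (A.subtype y) * x) := by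
  have hFle : (Cfsg.generalizedFittingSubgroup ↥A).map A.subtype ≤ A := Subgroup.map_subtype_le _
  have hSA : S ≤ A := hSF.trans hFle
  obtain ⟨S', hS'⟩ : ∃ S' : Subgroup A, S' = S.subgroupOf A := ⟨_, rfl⟩
  have hS'm : S'.map A.subtype = S := by rw [hS']; exact Subgroup.map_subgroupOf_eq_of_le hSA
  have hSF' : S' ≤ Cfsg.generalizedFittingSubgroup ↥A := by
    rw [← Subgroup.map_le_map_iff_of_injective A.subtype_injective, hS'm]; exact hSF
  have hSC' : Cfsg.generalizedFittingSubgroup ↥A ⊓ Subgroup.centralizer (S' : Set A) ≤ S' := by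
    rintro x ⟨hx1, hx2⟩
    rw [hS', Subgroup.mem_subgroupOf]
    apply hSC
    refine ⟨⟨x, hx1, rfl⟩, Subgroup.mem_centralizer_iff.mpr ?_⟩
    intro s hs
    have h1 : (⟨s, hSA hs⟩ : A) ∈ S' := by rw [hS']; exact hs
    exact congrArg Subtype.val (Subgroup.mem_centralizer_iff.mp hx2 _ h1)
  have hsub : S'.IsSubnormal := by
    refine Subgroup.IsSubnormal.trans hSF' ?_
      (inferInstance : (Cfsg.generalizedFittingSubgroup ↥A).Normal).isSubnormal
    have h1 := hSsn.comap (A.subtype.subgroupMap (Cfsg.generalizedFittingSubgroup ↥A))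
    convert h1 using 1
    rw [hS']
    rfl
  have hE : Cfsg.layer ↥A ≤ S' := by
    rw [Cfsg.Agent.H11.Components.layer_le_iff]
    intro K hK
    rcases Cfsg.Agent.H11.Components.le_or_commutator_eq_bot hK hsub with h | h
    · exact h
    · rw [Subgroup.commutator_eq_bot_iff_le_centralizer] at h
      exact (le_inf (Cfsg.Agent.H11.FStar.le_generalizedFitting_of_isComponent hK) h).trans hSC'
  have hBn : ∀ q : ℕ, S'.map A.subtype ≤ Subgroup.normalizer (((Cfsg.pCore q ↥B).map B.subtype : Subgroup G) : Set G) := by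
    intro q
    rw [hS'm]
    refine hSB.trans (le_trans Subgroup.le_normalizer ?_)
    exact Cfsg.Agent.H11.Cores.le_normalizer_map_subtype_of_characteristic B (Cfsg.pCore q ↥B)
  constructor
  · intro q hq hqd
    haveI : Fact q.Prime := ⟨hq⟩
    obtain ⟨P, hP⟩ : ∃ P : Subgroup G, P = (Cfsg.pCore q ↥B).map B.subtype := ⟨_, rfl⟩
    have hPp : IsPGroup q P := by rw [hP]; exact (Cfsg.Agent.H11.Cores.pCore_isPGroup q).map _
    have hSP : S'.map A.subtype ≤ Subgroup.normalizer (P : Set G) := by rw [hP]; exact hBn q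
    have hYp : IsPGroup q (P.subgroupOf A) := by
      intro x
      obtain ⟨k, hk⟩ := hPp ⟨(x : A), x.2⟩
      exact ⟨k, Subtype.ext (Subtype.ext (by simpa using congrArg Subtype.val hk))⟩
    have hY := mainA hE hSF' hSC' q hYp (by
      intro s hs
      have h1 := Subgroup.mem_normalizer_iff.mp (hSP ⟨s, hs, rfl⟩)
      rw [Subgroup.mem_normalizer_iff]
      intro x
      rw [Subgroup.mem_subgroupOf, Subgroup.mem_subgroupOf]
      exact h1 x)
    have hq0 : Cfsg.pCore q ↥A = ⊥ := by
      by_contra hne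
      apply hqd
      obtain ⟨n, hn⟩ := IsPGroup.iff_card.mp (Cfsg.Agent.H11.Cores.pCore_isPGroup (G := A) q)
      have h2 : n ≠ 0 := by
        rintro rfl
        rw [pow_zero, Subgroup.card_eq_one] at hn
        exact hne hn
      refine Dvd.dvd.trans ?_ (Subgroup.card_dvd_of_le (Cfsg.Agent.H11.Cores.pCore_le_fittingSubgroup (G := A) q))
      rw [hn]
      exact dvd_pow_self q h2
    have hY2 : P.subgroupOf A ≤ Cfsg.fittingSubgroup ↥A := by
      refine le_trans ?_ Cfsg.Agent.H11.FStar.centralizer_generalizedFitting_le_fitting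
      refine hY.trans (Subgroup.centralizer_le ?_)
      have := le_Dd_sup (A := A) q
      rw [hq0, sup_bot_eq] at this
      exact this
    have hY3 : P.subgroupOf A = ⊥ := by
      obtain ⟨n, hn⟩ := IsPGroup.iff_card.mp hYp
      rcases Nat.eq_zero_or_pos n with h | h
      · rw [h, pow_zero] at hn
        exact Subgroup.card_eq_one.mp hn
      · exfalso
        apply hqd
        refine Dvd.dvd.trans ?_ (Subgroup.card_dvd_of_le hY2)
        rw [hn]
        exact dvd_pow_self q h.ne'
    rw [← hP, eq_bot_iff]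
    rintro x ⟨hx1, hx2⟩
    have h1 : (⟨x, hx2⟩ : A) ∈ P.subgroupOf A := hx1
    rw [hY3, Subgroup.mem_bot] at h1
    exact congrArg Subtype.val h1
  · intro p hp hpd x hx y hy
    haveI : Fact p.Prime := ⟨hp⟩
    have hpA : Cfsg.pCore p ↥A ≠ ⊥ := by
      intro hb
      obtain ⟨a, ha⟩ := exists_prime_orderOf_dvd_card' p hpd
      have h1 : (a : A) ∈ Cfsg.pCore p ↥A := mem_pCore p a.2 ⟨1, by rw [Subgroup.orderOf_coe, ha, pow_one]⟩
      rw [hb, Subgroup.mem_bot] at h1
      have h2 : a = 1 := Subtype.ext h1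
      rw [h2, orderOf_one] at ha
      exact hp.one_lt.ne ha
    have hyD : y ∈ Dd A p := by
      have h1 : (Cfsg.pResidual p ↥(Cfsg.generalizedFittingSubgroup ↥A)).map
          ((Cfsg.generalizedFittingSubgroup ↥A).subtype) ≤ Dd A p := by
        rw [Subgroup.map_le_iff_le_comap, Cfsg.pResidual, Subgroup.closure_le]
        intro g hg
        have hg' : (orderOf g).Coprime p := hg
        rw [← Subgroup.orderOf_coe] at hg'
        exact mem_Dd p g.2 hg'
      exact h1 hy
    exact mainB hA hE hSF' hSC' p hpA ((Cfsg.Agent.H11.Cores.pCore_isPGroup p).map _) (hBn p) x hx y hyD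

end Cfsg.Agent.S1247
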