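import Cfsg.Statements.S1248
import Mathlib
import Cfsg.Agent.H19_U3d
import Cfsg.Agent.H5_Unit

set_option autoImplicit false
open Cfsg

namespace Cfsg.Agent.S1248

open Cfsg.Agent.H19.U3 Cfsg.Agent.H5
open scoped commutatorElement

theorem main {S : Type*} [Group S] [Finite S] {F : Type*} [Field F] [Fintype F] (hF : Fintype.card F = 4 ^ 2) (h2 : (2 : F) = 0)
    (c : Coord S F 4) : Nat.card S = 64 ∧ IsKleinFour (Subgroup.center S) ∧
      Subgroup.center S = Subgroup.closure {x : S | orderOf x = 2} ∧ Subgroup.center S = commutator S ∧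
      Nat.card (S ⧸ Subgroup.center S) = 16 ∧ ∀ x : S ⧸ Subgroup.center S, x ^ 2 = 1 := by
  classical
  have hcard : Nat.card S = 64 := by rw [c.card hF h2]; norm_num
  -- the homomorphism `a`
  let A : S →* Multiplicative F :=
    { toFun := fun x => Multiplicative.ofAdd (c.a x)
      map_one' := by rw [c.one_a]; rfl
      map_mul' := fun x y => by rw [c.mul_a]; rfl }
  have hA : Function.Surjective A := by
    intro α
    obtain ⟨x, hx⟩ := c.exists_a hF h2 (Multiplicative.toAdd α)
    exact ⟨x, congrArg Multiplicative.ofAdd hx⟩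
  have hker : A.ker = Subgroup.center S := by
    ext x
    rw [MonoidHom.mem_ker, c.mem_center_iff hF h2]
    exact ofAdd_eq_one
  have hidx : (Subgroup.center S).index = 16 := by
    rw [← hker, Subgroup.index_ker, MonoidHom.range_eq_top.mpr hA, Nat.card_congr Subgroup.topEquiv.toEquiv]
    rw [Nat.card_congr Multiplicative.toAdd, Nat.card_eq_fintype_card, hF]
    norm_num
  have hZ : Nat.card (Subgroup.center S) = 4 := by
    have := Subgroup.card_mul_index (Subgroup.center S)
    rw [hidx, hcard] at this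
    omega
  have hsq : ∀ x : S, x ∈ Subgroup.center S → x * x = 1 := by
    intro x hx
    have hx' := (c.mem_center_iff hF h2 x).mp hx
    obtain ⟨h3, h4⟩ := c.sq h2 x
    apply c.inj
    · rw [h3, c.one_a]
    · rw [h4, c.one_b hF, hx', zero_mul]
  have hsq' : ∀ x : S, x * x = 1 → x ∈ Subgroup.center S := by
    intro x hx
    rw [c.mem_center_iff hF h2]
    have h4 := (c.sq h2 x).2
    rw [hx, c.one_b hF] at h4
    rcases mul_eq_zero.mp h4.symm with h5 | h5
    · exact h5
    · exact pow_eq_zero_iff (by norm_num) |>.mp h5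
  have hKlein : IsKleinFour (Subgroup.center S) := by
    refine ⟨hZ, ?_⟩
    apply Nat.dvd_antisymm
    · apply Monoid.exponent_dvd_of_forall_pow_eq_one
      intro x
      apply Subtype.ext
      rw [pow_two]
      exact hsq _ x.2
    · obtain ⟨x, hx⟩ : ∃ x : Subgroup.center S, x ≠ 1 := by
        haveI : Nontrivial (Subgroup.center S) := by
          rw [← Finite.one_lt_card_iff_nontrivial, hZ]; norm_num
        exact exists_ne 1
      have h1 : orderOf x = 2 := orderOf_eq_prime (by rw [pow_two]; exact Subtype.ext (hsq _ x.2)) hx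
      rw [← h1]
      exact Monoid.order_dvd_exponent x
  have hclos : Subgroup.center S = Subgroup.closure {x : S | orderOf x = 2} := by
    apply le_antisymm
    · intro x hx
      by_cases h1 : x = 1
      · rw [h1]; exact Subgroup.one_mem _
      · apply Subgroup.subset_closure
        exact orderOf_eq_prime (by rw [pow_two]; exact hsq x hx) h1
    · rw [Subgroup.closure_le]
      intro x hx
      apply hsq'
      rw [← pow_two, ← (hx : orderOf x = 2), pow_orderOf_eq_one]
  have hcomm : Subgroup.center S = commutator S := by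
    apply le_antisymm
    · intro x hx
      have hx' := (c.mem_center_iff hF h2 x).mp hx
      have hβ := c.fixed_of_a h2 hx'
      obtain ⟨w, hw⟩ := exists_not_fixed hF
      have he : w + w ^ 4 ≠ 0 := fun h => hw (eq_of_add h2 h).symm
      have heK : (w + w ^ 4) ^ 4 = w + w ^ 4 := by rw [add_q hF, q_q hF]; ring
      obtain ⟨u, hu⟩ := c.exists_a hF h2 1
      obtain ⟨v, hv⟩ := c.exists_a hF h2 (c.b x / (w + w ^ 4) * w)
      have h5 : ⁅u, v⁆ = x := by
        rw [commutatorElement_def]
        have h6 : u * v = x * (v * u) := by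
          apply c.inj
          · rw [c.mul_a, c.mul_a, c.mul_a, hx', hu, hv]; ring
          · rw [c.mul_b, c.mul_b, c.mul_b, hx', hu, hv, mul_pow, div_pow, heK, hβ]
            have h7 : c.b x = c.b x / (w + w ^ 4) * (w + w ^ 4) := (div_mul_cancel₀ _ he).symm
            have h8 : c.b x / (w + w ^ 4) * w + c.b x / (w + w ^ 4) * w = 0 := add_self h2 _
            linear_combination (-1 : F) * h7 - h8
        rw [h6]; group
      rw [← h5]
      exact Subgroup.commutator_mem_commutator (Subgroup.mem_top _) (Subgroup.mem_top _)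
    · rw [commutator_def, Subgroup.commutator_le]
      intro x _ y _
      rw [c.mem_center_iff hF h2, commutatorElement_def, c.mul_a, c.mul_a, c.mul_a, c.inv_a, c.inv_a]
      ring
  refine ⟨hcard, hKlein, hclos, hcomm, hidx, ?_⟩
  intro x
  obtain ⟨x, rfl⟩ := QuotientGroup.mk'_surjective _ x
  rw [← map_pow, QuotientGroup.mk'_apply, QuotientGroup.eq_one_iff, c.mem_center_iff hF h2, pow_two]
  exact (c.sq h2 x).1

/-- Let F be a field with 16 elements and S a Sylow 2-subgroup of PSU(3) over F (the unitary group U₃(4)). Then |S| = 64; the centre Z(S) is a Klein four-group and coincides with the subgroup generated by the involutions of S and with the derived subgroup; and every element of S ⧸ Z(S) squares to the identity, S ⧸ Z(S) having order 16. -/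
theorem result {F : Type*} [Field F] [Fintype F] (hF : Fintype.card F = 16) (S : Sylow 2 (Cfsg.PSU 3 F 4)) : Nat.card S = 64 ∧ IsKleinFour (Subgroup.center (S : Subgroup (Cfsg.PSU 3 F 4))) ∧ Subgroup.center (S : Subgroup (Cfsg.PSU 3 F 4)) = Subgroup.closure {x : (S : Subgroup (Cfsg.PSU 3 F 4)) | orderOf x = 2} ∧ Subgroup.center (S : Subgroup (Cfsg.PSU 3 F 4)) = commutator (S : Subgroup (Cfsg.PSU 3 F 4)) ∧ Nat.card ((S : Subgroup (Cfsg.PSU 3 F 4)) ⧸ Subgroup.center (S : Subgroup (Cfsg.PSU 3 F 4))) = 16 ∧ ∀ x : (S : Subgroup (Cfsg.PSU 3 F 4)) ⧸ Subgroup.center (S : Subgroup (Cfsg.PSU 3 F 4)), x ^ 2 = 1 := by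
  haveI : Fact (Nat.Prime 2) := ⟨Nat.prime_two⟩
  have hF' : Fintype.card F = 4 ^ 2 := by rw [hF]; norm_num
  have hF'' : Fintype.card F = (2 ^ 2) ^ 2 := by rw [hF]; norm_num
  have h2 : (2 : F) = 0 := Cfsg.Agent.H19.U3.two_eq_zero (n := 2) (by norm_num) hF''
  obtain ⟨P, ⟨e⟩⟩ := Cfsg.Agent.H19.U3.sylow_equiv_of_surj (QuotientGroup.mk' (Subgroup.center (Cfsg.SU 3 F 4)))
    (QuotientGroup.mk'_surjective _) (by
      rw [QuotientGroup.ker_mk', Cfsg.Agent.H5.Unit.card_center_SU hF' (by norm_num)]
      decide) S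
  obtain ⟨c⟩ := Cfsg.Agent.H19.U3.exists_coord (n := 2) (by norm_num) hF'' P
  exact main hF' h2 (c.congr e)

end Cfsg.Agent.S1248
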