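import Cfsg.Statements.S1254
import Mathlib
import Cfsg.Agent.H4_DihG

set_option autoImplicit false
open Cfsg

namespace Cfsg.Agent.S1254

/-- Let X be a finite group whose Sylow 2-subgroup S is dihedral (of order at least 4). Then X has a normal 2-complement if and only if, for every Klein four-subgroup U ≤ S, the normalizer N_X(U) is generated by C_X(U) and N_S(U). -/
theorem result {X : Type*} [Group X] [Finite X] (S : Sylow 2 X) (m : ℕ) (hm : 2 ≤ m) (eS : (S : Subgroup X) ≃* DihedralGroup m) : Cfsg.HasNormalPComplement 2 X ↔ ∀ U : Subgroup X, U ≤ S → IsKleinFour U → Subgroup.normalizer (U : Set X) = Subgroup.centralizer (U : Set X) ⊔ ((S : Subgroup X) ⊓ Subgroup.normalizer (U : Set X)) := by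
  haveI : Fact (Nat.Prime 2) := ⟨Nat.prime_two⟩
  obtain ⟨n, ρ, σ, D, hcard⟩ := Cfsg.Agent.H4.DihF.exists_DS S.isPGroup' hm eS
  constructor
  · intro hnpc U hUS hU
    obtain ⟨N, hN, hc⟩ := (Cfsg.Agent.H2.Basic.npc_iff_sylow S).mp hnpc
    apply le_antisymm
    · intro g hg
      have hg' := Subgroup.mem_normalizer_iff.mp hg
      obtain ⟨⟨⟨a, ha⟩, ⟨s, hs⟩⟩, has⟩ := hc.2 g
      have has : a * s = g := has
      have hconj : ∀ u ∈ U, g * u * g⁻¹ = s * u * s⁻¹ := by
        intro u hu
        have h1 : g * u * g⁻¹ ∈ (S : Subgroup X) := hUS ((hg' u).mp hu)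
        have h2 : s * u * s⁻¹ ∈ (S : Subgroup X) := (S : Subgroup X).mul_mem ((S : Subgroup X).mul_mem hs (hUS hu)) ((S : Subgroup X).inv_mem hs)
        have h3 : g * u * g⁻¹ * (s * u * s⁻¹)⁻¹ ∈ (S : Subgroup X) := (S : Subgroup X).mul_mem h1 ((S : Subgroup X).inv_mem h2)
        have h4 : g * u * g⁻¹ * (s * u * s⁻¹)⁻¹ ∈ N := by
          have h5 : g * u * g⁻¹ * (s * u * s⁻¹)⁻¹ = a * ((s * u * s⁻¹) * a⁻¹ * (s * u * s⁻¹)⁻¹) := by
            rw [← has]; group
          rw [h5]
          exact N.mul_mem ha (hN.conj_mem _ (N.inv_mem ha) _)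
        have h5 : g * u * g⁻¹ * (s * u * s⁻¹)⁻¹ = 1 := by
          have := hc.disjoint.le_bot (Subgroup.mem_inf.mpr ⟨h4, h3⟩)
          exact Subgroup.mem_bot.mp this
        exact mul_inv_eq_one.mp h5
      have hsN : s ∈ Subgroup.normalizer (U : Set X) := by
        apply Cfsg.Agent.H4.DihF.mem_norm
        intro u hu
        rw [← hconj u hu]
        exact (hg' u).mp hu
      have haC : a ∈ Subgroup.centralizer (U : Set X) := by
        rw [Subgroup.mem_centralizer_iff]
        intro v hv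
        have h1 : s⁻¹ * v * s ∈ U := by
          have := (Subgroup.mem_normalizer_iff.mp ((Subgroup.normalizer (U : Set X)).inv_mem hsN) v).mp hv
          rwa [inv_inv] at this
        have h2 := hconj _ h1
        rw [← has] at h2
        have h3 : a * v * a⁻¹ = v := by
          calc a * v * a⁻¹ = a * s * (s⁻¹ * v * s) * (a * s)⁻¹ := by group
            _ = s * (s⁻¹ * v * s) * s⁻¹ := h2
            _ = v := by group
        rw [mul_inv_eq_iff_eq_mul] at h3
        exact h3.symm
      rw [← has]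
      exact Subgroup.mul_mem_sup haC (Subgroup.mem_inf.mpr ⟨hs, hsN⟩)
    · rw [sup_le_iff]
      exact ⟨Cfsg.Agent.H4.DihF.cent_le_norm U, inf_le_right⟩
  · intro H
    apply Cfsg.Agent.H2.Fusion3.npc_of_frobenius_sylow S
    intro Q hQS g hg ho
    by_cases hK : IsKleinFour Q
    · exact Cfsg.Agent.H4.DihF.cent_of_sup S.isPGroup' (H Q hQS hK) hg ho
    · exact D.cent hQS hg ho hK

end Cfsg.Agent.S1254
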