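import Cfsg.Statements.S1256
import Mathlib
import Cfsg.Agent.H4_DihG

set_option autoImplicit false
open Cfsg

namespace Cfsg.Agent.S1256

/-- Let X be a finite group whose Sylow 2-subgroup S is dihedral of order 2m ≥ 4. If |S| = 4, any two Klein four-subgroups of X are conjugate; if |S| > 4, there are Klein four-subgroups U₁, U₂ of X that are not conjugate, and every Klein four-subgroup of X is conjugate to U₁ or to U₂. -/
theorem result {X : Type*} [Group X] [Finite X] (S : Sylow 2 X) (m : ℕ) (hm : 2 ≤ m) (eS : (S : Subgroup X) ≃* DihedralGroup m) : (Nat.card S = 4 → ∀ U V : Subgroup X, IsKleinFour U → IsKleinFour V → (∃ x : X, U.map (MulAut.conj x).toMonoidHom = V)) ∧ (4 < Nat.card S → ∃ U₁ U₂ : Subgroup X, IsKleinFour U₁ ∧ IsKleinFour U₂ ∧ ¬ (∃ x : X, U₁.map (MulAut.conj x).toMonoidHom = U₂) ∧ ∀ V : Subgroup X, IsKleinFour V → (∃ x : X, V.map (MulAut.conj x).toMonoidHom = U₁) ∨ (∃ x : X, V.map (MulAut.conj x).toMonoidHom = U₂)) := by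
  haveI : Fact (Nat.Prime 2) := ⟨Nat.prime_two⟩
  obtain ⟨n, ρ, σ, D, hcard⟩ := Cfsg.Agent.H4.DihF.exists_DS S.isPGroup' hm eS
  have hKp : ∀ U : Subgroup X, IsKleinFour U → IsPGroup 2 U := fun U hU =>
    IsPGroup.of_card (n := 2) (by rw [IsKleinFour.card_four]; norm_num)
  constructor
  · intro h4 U V hU hV
    have key : ∀ U : Subgroup X, IsKleinFour U → ∃ P : Sylow 2 X, (P : Subgroup X) = U := by
      intro U hU
      obtain ⟨P, hP⟩ := (hKp U hU).exists_le_sylow
      refine ⟨P, (Subgroup.eq_of_le_of_card_ge hP ?_).symm⟩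
      rw [IsKleinFour.card_four (G := U), ← h4]
      exact (Nat.card_congr (Sylow.equiv P S).toEquiv).le
    obtain ⟨P, rfl⟩ := key U hU
    obtain ⟨Q, rfl⟩ := key V hV
    obtain ⟨x, hx⟩ := MulAction.exists_smul_eq X P Q
    exact ⟨x, congrArg (fun R : Sylow 2 X => (R : Subgroup X)) hx⟩
  · intro h4
    have hn2 : 2 ≤ n := by
      by_contra hlt
      have : n + 1 ≤ 2 := by omega
      have h5 : 2 ^ (n + 1) ≤ 2 ^ 2 := Nat.pow_le_pow_right (by norm_num) this
      rw [← hcard] at h5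
      omega
    refine ⟨D.V 0, D.V 1, D.V_klein 0, D.V_klein 1, fun ⟨x, hx⟩ => D.not_conj hn2 hx, ?_⟩
    intro V hV
    obtain ⟨g, hg⟩ := Cfsg.Agent.H4.Util.exists_conj_le S V (hKp V hV)
    have hVS : V.map (MulAut.conj g).toMonoidHom ≤ S := by
      rintro _ ⟨v, hv, rfl⟩
      exact hg v hv
    have hK : IsKleinFour (V.map (MulAut.conj g).toMonoidHom) := by
      have e := V.equivMapOfInjective (MulAut.conj g).toMonoidHom (MulAut.conj g).injective
      exact ⟨by rw [← Nat.card_congr e.toEquiv]; exact IsKleinFour.card_four, by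
        rw [← Monoid.exponent_eq_of_mulEquiv e]; exact IsKleinFour.exponent_two⟩
    obtain ⟨i, hi⟩ := D.eq_V hVS hK
    have hcomp : ∀ x : X, V.map (MulAut.conj (x * g)).toMonoidHom = (V.map (MulAut.conj g).toMonoidHom).map (MulAut.conj x).toMonoidHom := by
      intro x
      rw [Subgroup.map_map]
      congr 1
      ext y
      simp
    rcases D.conj_V i with ⟨x, hx⟩ | ⟨x, hx⟩
    · left
      exact ⟨x * g, by rw [hcomp, hi, hx]⟩
    · right
      exact ⟨x * g, by rw [hcomp, hi, hx]⟩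

end Cfsg.Agent.S1256
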