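import Cfsg.Statements.S1263
import Mathlib
import Cfsg.Agent.H11_FStar

set_option autoImplicit false
open Cfsg

namespace Cfsg.Agent.S1263

/-- For a finite group G, Z(E(G)) is the subgroup generated by the centres Z(L) of the components L of G (all viewed as subgroups of G). -/
theorem result {G : Type*} [Group G] [Finite G] : (Subgroup.center ↥(Cfsg.layer G)).map (Cfsg.layer G).subtype = ⨆ L : {K : Subgroup G // Cfsg.IsComponent K}, (Subgroup.center ↥(L : Subgroup G)).map (L : Subgroup G).subtype := by
  classical
  let ι := {K : Subgroup G // Cfsg.IsComponent K}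
  haveI : Fintype ι := Fintype.ofFinite ι
  let H : ι → Subgroup G := fun i => (i : Subgroup G)
  have hcomm : Pairwise fun i j : ι => ∀ x y : G, x ∈ H i → y ∈ H j → Commute x y := by
    intro i j hij x y hx hy
    have h1 := H11.Components.commutator_eq_bot_of_ne i.2 j.2 (fun h => hij (Subtype.ext h))
    have h2 := Subgroup.commutator_mem_commutator hx hy
    rw [h1, Subgroup.mem_bot] at h2
    exact commutatorElement_eq_one_iff_commute.mp h2
  have hsup : Cfsg.layer G = ⨆ i, H i := by
    rw [Cfsg.layer, sSup_eq_iSup']; rfl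
  apply le_antisymm
  · rintro _ ⟨z, hz, rfl⟩
    have hz1 : (z : G) ∈ ⨆ i, H i := hsup ▸ z.2
    rw [← Subgroup.noncommPiCoprod_range (hcomm := hcomm)] at hz1
    obtain ⟨f, hf⟩ := hz1
    have hfi : ∀ i, f i ∈ Subgroup.center (H i) := by
      intro i
      rw [Subgroup.mem_center_iff]
      intro x
      have h1 : Subgroup.noncommPiCoprod hcomm (Pi.mulSingle i x) = (x : G) :=
        Subgroup.noncommPiCoprod_mulSingle i x
      have h2 : (x : G) * z = z * x := by
        have hxE : (x : G) ∈ Cfsg.layer G := hsup ▸ (le_iSup H i) x.2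
        exact congrArg Subtype.val (Subgroup.mem_center_iff.mp hz ⟨x, hxE⟩)
      have h3 : Subgroup.noncommPiCoprod hcomm (Pi.mulSingle i x * f * (Pi.mulSingle i x)⁻¹ * f⁻¹) = 1 := by
        rw [map_mul, map_mul, map_mul, map_inv, map_inv, h1, hf]
        show (x : G) * z * (x : G)⁻¹ * (z : G)⁻¹ = 1
        rw [h2]; group
      have h4 : Pi.mulSingle i x * f * (Pi.mulSingle i x)⁻¹ * f⁻¹ = Pi.mulSingle i (x * f i * x⁻¹ * (f i)⁻¹) := by
        funext j
        rcases eq_or_ne j i with rfl | hj
        · simp
        · simp [Pi.mulSingle_eq_of_ne hj]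
      rw [h4, Subgroup.noncommPiCoprod_mulSingle] at h3
      have h5 : x * f i * x⁻¹ * (f i)⁻¹ = 1 := Subtype.ext h3
      have h6 := mul_inv_eq_one.mp h5
      calc x * f i = x * f i * x⁻¹ * x := by group
        _ = f i * x := by rw [h6]
    show (z : G) ∈ _
    rw [← hf]
    have hfp : Subgroup.noncommPiCoprod hcomm f = (Finset.univ.noncommProd (fun i => (f i : G))
      (fun i _ j _ hij => hcomm hij _ _ (f i).2 (f j).2)) := rfl
    rw [hfp]
    apply Subgroup.noncommProd_mem
    intro i _
    exact (le_iSup (fun L : ι => (Subgroup.center ↥(L : Subgroup G)).map (L : Subgroup G).subtype) i)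
      ⟨f i, hfi i, rfl⟩
  · apply iSup_le
    intro L
    rintro _ ⟨z, hz, rfl⟩
    have hzE : (z : G) ∈ Cfsg.layer G := H11.Components.le_layer L.2 z.2
    refine ⟨⟨z, hzE⟩, ?_, rfl⟩
    rw [SetLike.mem_coe, Subgroup.mem_center_iff]
    intro x
    ext
    have hcent : Cfsg.layer G ≤ Subgroup.centralizer {(z : G)} := by
      rw [H11.Components.layer_le_iff]
      intro K hK
      by_cases h : K = L
      · intro k hk
        rw [Subgroup.mem_centralizer_singleton_iff]
        subst h
        exact congrArg Subtype.val (Subgroup.mem_center_iff.mp hz ⟨k, hk⟩)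
      · intro k hk
        rw [Subgroup.mem_centralizer_singleton_iff]
        have h1 := H11.Components.commutator_eq_bot_of_ne hK L.2 h
        have h2 := Subgroup.commutator_mem_commutator hk z.2
        rw [h1, Subgroup.mem_bot, commutatorElement_eq_one_iff_mul_comm] at h2
        exact h2
    exact Subgroup.mem_centralizer_singleton_iff.mp (hcent x.2)

end Cfsg.Agent.S1263
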