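import Cfsg.Statements.S1264
import Mathlib
import Cfsg.Agent.H11_FStar

set_option autoImplicit false
open Cfsg

namespace Cfsg.Agent.S1264

/-- Let G be finite, C = C_G(F(G)) the centralizer of the Fitting subgroup, and N a solvable subgroup of C normalized by C. Then N ≤ Z(F(G)). -/
theorem result {G : Type*} [Group G] [Finite G] (N : Subgroup G) (hN : N ≤ Subgroup.centralizer (Cfsg.fittingSubgroup G : Set G)) (hnorm : Subgroup.centralizer (Cfsg.fittingSubgroup G : Set G) ≤ Subgroup.normalizer (N : Set G)) (hsolv : Group.IsSolvable ↥N) : N ≤ (Subgroup.center ↥(Cfsg.fittingSubgroup G)).map (Cfsg.fittingSubgroup G).subtype := by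
  have hnN : (N.subgroupOf (Subgroup.centralizer (Cfsg.fittingSubgroup G : Set G))).Normal := by
    rw [Subgroup.normal_subgroupOf_iff_le_normalizer hN]; exact hnorm
  have hsub : N.IsSubnormal := Subgroup.IsSubnormal.trans hN hnN.isSubnormal
    (inferInstance : (Subgroup.centralizer (Cfsg.fittingSubgroup G : Set G)).Normal).isSubnormal
  have h1 := H11.Components.commutator_layer_eq_bot_of_solvable hsolv hsub
  have h2 : N ≤ Subgroup.centralizer (Cfsg.generalizedFittingSubgroup G : Set G) := by
    rw [Subgroup.le_centralizer_iff]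
    apply sup_le
    · rwa [Subgroup.commutator_eq_bot_iff_le_centralizer] at h1
    · rwa [Subgroup.le_centralizer_iff]
  have h3 := h2.trans H11.FStar.centralizer_generalizedFitting_le_fitting
  intro x hx
  refine ⟨⟨x, h3 hx⟩, ?_, rfl⟩
  rw [SetLike.mem_coe, Subgroup.mem_center_iff]
  intro y
  ext
  exact Subgroup.mem_centralizer_iff.mp (hN hx) y y.2

end Cfsg.Agent.S1264
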