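import Cfsg.Statements.S1279
import Cfsg.Agent.H11_Bal5

set_option autoImplicit false
open Cfsg

namespace Cfsg.Agent.S1279

/-- Let A be a noncyclic elementary abelian p-subgroup of the finite group G such that C_G(a) is solvable for every non-identity a ∈ A. Then a ↦ O_{p'}(C_G(a)) is a solvable A-signalizer functor on G. -/
theorem result {G : Type*} [Group G] [Finite G] (p : ℕ) [Fact p.Prime] (A : Subgroup G) (hA : Cfsg.IsElementaryAbelian p A) (hA2 : p ^ 2 ≤ Nat.card ↥A) (hsolv : ∀ a ∈ A, a ≠ 1 → Group.IsSolvable ↥(Subgroup.centralizer ({a} : Set G))) : Cfsg.IsSolvableSignalizerFunctor p A (fun a => Cfsg.centralizerPPrimeCore p a) := by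
  have hAc := H11.Bal.ea_comm hA
  have hAo := H11.Bal.ea_order hA
  have hp : p.Prime := Fact.out
  refine ⟨⟨fun a ha ha1 => H11.Bal.cPC_le p a, fun a ha ha1 => ?_, fun a ha ha1 b hb x hx => ?_,
    fun a ha ha1 b hb hb1 => ?_⟩, fun a ha ha1 => ?_⟩
  · exact (Nat.Prime.coprime_iff_not_dvd hp).mp (H11.Bal.cPC_coprime p a).symm
  · have h1 : b ∈ Subgroup.centralizer ({a} : Set G) :=
      Subgroup.mem_centralizer_singleton_iff.mpr (hAc b hb a ha)
    exact (Subgroup.mem_normalizer_iff.mp (H11.Bal.cPC_normal p a h1) x).mp hx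
  · have hz : Subgroup.zpowers a ≤ A := Subgroup.zpowers_le.mpr ha
    have hE := H11.Bal.isElementaryAbelian_mono hA hz
    have hcard : Nat.card (Subgroup.zpowers a) = p ^ 1 := by
      rw [Nat.card_zpowers, hAo a ha ha1, pow_one]
    apply H11.Bal.kbal_main p le_rfl hE hcard _ inf_le_right _
    · intro K hK
      exfalso
      haveI := hsolv b hb hb1
      have h1 : Group.IsSolvable (↥(Subgroup.centralizer ({b} : Set G)) ⧸
          Cfsg.pPrimeCore p ↥(Subgroup.centralizer ({b} : Set G))) := inferInstance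
      exact H11.Components.not_isSolvable_of_isComponent hK inferInstance
    · rw [Subgroup.zpowers_le, Subgroup.mem_centralizer_singleton_iff]
      exact hAc a ha b hb
    · refine le_trans inf_le_left ?_
      unfold Cfsg.signalizerDelta
      rw [le_iInf_iff]
      rintro ⟨x, hx, hx1⟩
      exact (H11.Bal.cPC_eq_of_mem (hAo a ha ha1) hx hx1).ge
  · exact H11.Cores.isSolvable_of_le (H11.Bal.cPC_le p a) (hsolv a ha ha1)

end Cfsg.Agent.S1279
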