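import Cfsg.Statements.S1281
import Cfsg.Agent.H11_SF2

set_option autoImplicit false
open Cfsg

namespace Cfsg.Agent.S1281

/-- Let θ be a solvable A-signalizer functor on the finite group G (A a noncyclic elementary abelian p-subgroup) and N a normal subgroup of order prime to p. Then for all non-identity a, b ∈ A, the image of θ a in G / N meets the centralizer of the image of b inside the image of θ b. -/
theorem result {G : Type*} [Group G] [Finite G] (p : ℕ) [Fact p.Prime] (A : Subgroup G) (hA : Cfsg.IsElementaryAbelian p A) (hA2 : p ^ 2 ≤ Nat.card ↥A) (θ : G → Subgroup G) (hθ : Cfsg.IsSolvableSignalizerFunctor p A θ) (N : Subgroup G) [N.Normal] (hN : ¬ p ∣ Nat.card ↥N) (a b : G) (ha : a ∈ A) (ha1 : a ≠ 1) (hb : b ∈ A) (hb1 : b ≠ 1) : (θ a).map (QuotientGroup.mk' N) ⊓ Subgroup.centralizer {QuotientGroup.mk' N b} ≤ (θ b).map (QuotientGroup.mk' N) := by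
  have hp : p.Prime := Fact.out
  rintro y ⟨⟨x, hx, rfl⟩, hy⟩
  have hz : Subgroup.zpowers b ≤ A := Subgroup.zpowers_le.mpr hb
  have hF := H11.SF.theta_mem hθ ha ha1
  have hAθ := H11.SF.family_normalizer hF
  have hxθ : x ∈ θ a := hx
  have hcomm : ∀ c ∈ Subgroup.zpowers b, c * x * c⁻¹ * x⁻¹ ∈ N := by
    intro c hc
    have h1 : QuotientGroup.mk' N x ∈ Subgroup.centralizer {QuotientGroup.mk' N b} := hy
    have h2 : QuotientGroup.mk' N c ∈ Subgroup.zpowers (QuotientGroup.mk' N b) := by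
      obtain ⟨n, rfl⟩ := hc
      exact ⟨n, (map_zpow _ _ _).symm⟩
    rw [H11.Bal.centralizer_singleton_eq, Subgroup.mem_centralizer_iff] at h1
    have h3 := h1 _ h2
    rw [← QuotientGroup.ker_mk' N, MonoidHom.mem_ker, map_mul, map_mul, map_mul, map_inv, map_inv,
      h3]
    group
  have hNθ : θ a ≤ Subgroup.normalizer ((θ a ⊓ N : Subgroup G) : Set G) := by
    refine le_trans (le_inf Subgroup.le_normalizer ?_) Subgroup.inf_normalizer_le_normalizer_inf
    rw [Subgroup.normalizer_eq_top]; exact le_top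
  have hNA : Subgroup.zpowers b ≤ Subgroup.normalizer ((θ a ⊓ N : Subgroup G) : Set G) := by
    refine le_trans (le_inf (hz.trans hAθ) ?_) Subgroup.inf_normalizer_le_normalizer_inf
    rw [Subgroup.normalizer_eq_top]; exact le_top
  obtain ⟨c, hc, hcN⟩ := H1.Coprime.fixed_points_quotient (Subgroup.zpowers b) (θ a)
    (hz.trans hAθ) (H11.SF.coprime_of_not_dvd ((H11.Bal.ea_isPGroup hA).to_le hz) hF.2.1)
    (Or.inr hF.1) (θ a ⊓ N) inf_le_left hNθ hNA x hxθ (fun c hc => by
      refine ⟨?_, hcomm c hc⟩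
      show c * x * c⁻¹ * x⁻¹ ∈ θ a
      exact mul_mem ((Subgroup.mem_normalizer_iff.mp (hAθ (hz hc)) x).mp hxθ) (inv_mem hxθ))
  rw [← H11.Bal.centralizer_singleton_eq] at hc
  refine ⟨c, hθ.1.2.2.2 a ha ha1 b hb hb1 hc, ?_⟩
  have h4 : x⁻¹ * c ∈ N := hcN.2
  exact (QuotientGroup.eq.mpr h4).symm

end Cfsg.Agent.S1281
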