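import Cfsg.Statements.S1286
import Mathlib

set_option autoImplicit false
open Cfsg

namespace Cfsg.Agent.S1286

abbrev X := Equiv.Perm (Fin 5)

def s : X := Equiv.swap 0 1
def t : X := Equiv.swap 2 3
def c1 : X := Equiv.swap 2 3 * Equiv.swap 3 4
def c2 : X := Equiv.swap 0 1 * Equiv.swap 1 4

def A : Subgroup X where
  carrier := {x | x = 1 ∨ x = s ∨ x = t ∨ x = s * t}
  mul_mem' := by
    have : ∀ x y : X, (x = 1 ∨ x = s ∨ x = t ∨ x = s * t) → (y = 1 ∨ y = s ∨ y = t ∨ y = s * t) →
      (x * y = 1 ∨ x * y = s ∨ x * y = t ∨ x * y = s * t) := by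
      rintro x y (rfl | rfl | rfl | rfl) (rfl | rfl | rfl | rfl) <;> decide
    intro x y hx hy; exact this x y hx hy
  one_mem' := Or.inl rfl
  inv_mem' := by
    have : ∀ x : X, (x = 1 ∨ x = s ∨ x = t ∨ x = s * t) →
      (x⁻¹ = 1 ∨ x⁻¹ = s ∨ x⁻¹ = t ∨ x⁻¹ = s * t) := by
      rintro x (rfl | rfl | rfl | rfl) <;> decide
    intro x hx; exact this x hx

theorem mem_A {x : X} : x ∈ A ↔ x = 1 ∨ x = s ∨ x = t ∨ x = s * t := Iff.rfl

def C1 : Subgroup X where
  carrier := {x | x = 1 ∨ x = c1 ∨ x = c1 * c1}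
  mul_mem' := by
    have : ∀ x y : X, (x = 1 ∨ x = c1 ∨ x = c1 * c1) → (y = 1 ∨ y = c1 ∨ y = c1 * c1) →
      (x * y = 1 ∨ x * y = c1 ∨ x * y = c1 * c1) := by
      rintro x y (rfl | rfl | rfl) (rfl | rfl | rfl) <;> decide
    intro x y hx hy; exact this x y hx hy
  one_mem' := Or.inl rfl
  inv_mem' := by
    have : ∀ x : X, (x = 1 ∨ x = c1 ∨ x = c1 * c1) → (x⁻¹ = 1 ∨ x⁻¹ = c1 ∨ x⁻¹ = c1 * c1) := by
      rintro x (rfl | rfl | rfl) <;> decide
    intro x hx; exact this x hx

def C2 : Subgroup X where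
  carrier := {x | x = 1 ∨ x = c2 ∨ x = c2 * c2}
  mul_mem' := by
    have : ∀ x y : X, (x = 1 ∨ x = c2 ∨ x = c2 * c2) → (y = 1 ∨ y = c2 ∨ y = c2 * c2) →
      (x * y = 1 ∨ x * y = c2 ∨ x * y = c2 * c2) := by
      rintro x y (rfl | rfl | rfl) (rfl | rfl | rfl) <;> decide
    intro x y hx hy; exact this x y hx hy
  one_mem' := Or.inl rfl
  inv_mem' := by
    have : ∀ x : X, (x = 1 ∨ x = c2 ∨ x = c2 * c2) → (x⁻¹ = 1 ∨ x⁻¹ = c2 ∨ x⁻¹ = c2 * c2) := by
      rintro x (rfl | rfl | rfl) <;> decide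
    intro x hx; exact this x hx

theorem mem_C1 {x : X} : x ∈ C1 ↔ x = 1 ∨ x = c1 ∨ x = c1 * c1 := Iff.rfl
theorem mem_C2 {x : X} : x ∈ C2 ↔ x = 1 ∨ x = c2 ∨ x = c2 * c2 := Iff.rfl

def θ (a : X) : Subgroup X := if a = s then C1 else if a = t then C2 else ⊥

theorem θs : θ s = C1 := if_pos rfl
theorem θt : θ t = C2 := by unfold θ; rw [if_neg (by decide), if_pos rfl]
theorem θst : θ (s * t) = ⊥ := by unfold θ; rw [if_neg (by decide), if_neg (by decide)]

theorem cube1 {x : X} (hx : x ∈ C1) : x ^ 3 = 1 := by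
  rcases mem_C1.mp hx with rfl | rfl | rfl <;> decide

theorem cube2 {x : X} (hx : x ∈ C2) : x ^ 3 = 1 := by
  rcases mem_C2.mp hx with rfl | rfl | rfl <;> decide

theorem odd_of_cube {H : Subgroup X} (h : ∀ x ∈ H, x ^ 3 = 1) : ¬ 2 ∣ Nat.card H := by
  intro hd
  obtain ⟨x, hx⟩ := exists_prime_orderOf_dvd_card' 2 hd
  have h1 : x ^ 3 = 1 := Subtype.ext (h x x.2)
  have h2 : orderOf x ∣ 3 := orderOf_dvd_of_pow_eq_one h1
  rw [hx] at h2
  exact absurd h2 (by decide)

theorem cases_A {a : X} (ha : a ∈ A) (h1 : a ≠ 1) : a = s ∨ a = t ∨ a = s * t := by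
  rcases mem_A.mp ha with h | h | h | h
  · exact absurd h h1
  · exact Or.inl h
  · exact Or.inr (Or.inl h)
  · exact Or.inr (Or.inr h)

theorem sf : Cfsg.IsSignalizerFunctor 2 A θ := by
  refine ⟨?_, ?_, ?_, ?_⟩
  · intro a ha h1
    rcases cases_A ha h1 with rfl | rfl | rfl
    · rw [θs]; intro x hx
      rw [Subgroup.mem_centralizer_singleton_iff]
      rcases mem_C1.mp hx with rfl | rfl | rfl <;> decide
    · rw [θt]; intro x hx
      rw [Subgroup.mem_centralizer_singleton_iff]
      rcases mem_C2.mp hx with rfl | rfl | rfl <;> decide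
    · rw [θst]; exact bot_le
  · intro a ha h1
    rcases cases_A ha h1 with rfl | rfl | rfl
    · rw [θs]; exact odd_of_cube fun x hx => cube1 hx
    · rw [θt]; exact odd_of_cube fun x hx => cube2 hx
    · rw [θst, Subgroup.card_bot]; decide
  · intro a ha h1 b hb x hx
    rcases cases_A ha h1 with rfl | rfl | rfl
    · rw [θs] at hx ⊢
      rcases mem_A.mp hb with rfl | rfl | rfl | rfl <;> rcases mem_C1.mp hx with rfl | rfl | rfl <;>
        (rw [mem_C1]; decide)
    · rw [θt] at hx ⊢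
      rcases mem_A.mp hb with rfl | rfl | rfl | rfl <;> rcases mem_C2.mp hx with rfl | rfl | rfl <;>
        (rw [mem_C2]; decide)
    · rw [θst] at hx ⊢
      rw [Subgroup.mem_bot] at hx ⊢
      rw [hx]; group
  · intro a ha h1 b hb h2
    rcases cases_A ha h1 with rfl | rfl | rfl
    · rw [θs]
      rintro x ⟨hx, hxb⟩
      have hxb' := Subgroup.mem_centralizer_singleton_iff.mp hxb
      rcases cases_A hb h2 with rfl | rfl | rfl
      · rw [θs]; exact hx
      · rcases mem_C1.mp hx with rfl | rfl | rfl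
        · exact one_mem _
        · exact absurd hxb' (by decide)
        · exact absurd hxb' (by decide)
      · rcases mem_C1.mp hx with rfl | rfl | rfl
        · exact one_mem _
        · exact absurd hxb' (by decide)
        · exact absurd hxb' (by decide)
    · rw [θt]
      rintro x ⟨hx, hxb⟩
      have hxb' := Subgroup.mem_centralizer_singleton_iff.mp hxb
      rcases cases_A hb h2 with rfl | rfl | rfl
      · rcases mem_C2.mp hx with rfl | rfl | rfl
        · exact one_mem _
        · exact absurd hxb' (by decide)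
        · exact absurd hxb' (by decide)
      · rw [θt]; exact hx
      · rcases mem_C2.mp hx with rfl | rfl | rfl
        · exact one_mem _
        · exact absurd hxb' (by decide)
        · exact absurd hxb' (by decide)
    · rw [θst]
      rintro x ⟨hx, -⟩
      have hx' : x = 1 := Subgroup.mem_bot.mp hx
      rw [hx']; exact one_mem _

theorem sol (a : X) : Group.IsSolvable (θ a) := by
  have h1 : ∀ H : Subgroup X, (∀ x ∈ H, ∀ y ∈ H, x * y = y * x) → Group.IsSolvable H := by
    intro H h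
    letI : CommGroup H := { (inferInstance : Group H) with
      mul_comm := fun a b => Subtype.ext (h a a.2 b b.2) }
    infer_instance
  unfold θ
  by_cases ha : a = s
  · rw [if_pos ha]
    apply h1
    intro x hx y hy
    rcases mem_C1.mp hx with rfl | rfl | rfl <;> rcases mem_C1.mp hy with rfl | rfl | rfl <;> decide
  rw [if_neg ha]
  by_cases ha2 : a = t
  · rw [if_pos ha2]
    apply h1
    intro x hx y hy
    rcases mem_C2.mp hx with rfl | rfl | rfl <;> rcases mem_C2.mp hy with rfl | rfl | rfl <;> decide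
  · rw [if_neg ha2]
    apply h1
    intro x hx y hy
    rw [Subgroup.mem_bot] at hx hy
    rw [hx, hy]

/-- There exist a finite group X, an elementary abelian subgroup A of order 4 and a solvable A-signalizer functor θ on X for the prime 2 which is not complete. -/
theorem result : ∃ (X : Type) (_ : Group X) (_ : Finite X) (A : Subgroup X) (θ : X → Subgroup X), Cfsg.IsElementaryAbelian 2 A ∧ Nat.card ↥A = 4 ∧ Cfsg.IsSolvableSignalizerFunctor 2 A θ ∧ ¬ Cfsg.IsCompleteSignalizerFunctor 2 A θ := by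
  refine ⟨X, inferInstance, inferInstance, A, θ, ⟨⟨⟨?_⟩⟩, ?_⟩, ?_, ⟨sf, fun a _ _ => sol a⟩, ?_⟩
  · rintro ⟨x, hx⟩ ⟨y, hy⟩
    apply Subtype.ext
    change x * y = y * x
    rcases mem_A.mp hx with rfl | rfl | rfl | rfl <;> rcases mem_A.mp hy with rfl | rfl | rfl | rfl <;>
      decide
  · intro a ha
    rcases mem_A.mp ha with rfl | rfl | rfl | rfl <;> decide
  · have h : Nat.card A = Nat.card ({1, s, t, s * t} : Finset X) := by
      apply Nat.card_congr
      refine Equiv.subtypeEquivRight ?_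
      intro x
      rw [mem_A]
      simp
    rw [h, Nat.card_eq_fintype_card, Fintype.card_coe]
    decide
  · rintro ⟨-, K, -, hK, hθ⟩
    have hs := hθ s (Or.inr (Or.inl rfl)) (by decide)
    have ht := hθ t (Or.inr (Or.inr (Or.inl rfl))) (by decide)
    rw [θs] at hs
    rw [θt] at ht
    have h1 : c1 ∈ K := by
      have : c1 ∈ K ⊓ Subgroup.centralizer {s} := by rw [hs]; exact Or.inr (Or.inl rfl)
      exact this.1
    have h2 : c2 ∈ K := by
      have : c2 ∈ K ⊓ Subgroup.centralizer {t} := by rw [ht]; exact Or.inr (Or.inl rfl)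
      exact this.1
    have h3 : c1 * c1 * c2 * c1 * c2 ∈ K :=
      K.mul_mem (K.mul_mem (K.mul_mem (K.mul_mem h1 h1) h2) h1) h2
    apply hK
    have h4 : orderOf (c1 * c1 * c2 * c1 * c2) = 2 :=
      orderOf_eq_prime (by decide) (by decide)
    have h5 : orderOf (⟨_, h3⟩ : K) = 2 := by rw [← Subgroup.orderOf_coe]; exact h4
    rw [← h5]; exact orderOf_dvd_natCard _

end Cfsg.Agent.S1286
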