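import Cfsg.Statements.S1289
import Cfsg.Agent.H11_PComp3

set_option autoImplicit false
open Cfsg

namespace Cfsg.Agent.S1289

/-- A p-component K of the finite group X is subnormal, perfect, of order divisible by p, and minimal among the subnormal perfect subgroups of X of order divisible by p. -/
theorem result {X : Type*} [Group X] [Finite X] (p : ℕ) [Fact p.Prime] (K : Subgroup X) (hK : Cfsg.IsPComponent p K) : K.IsSubnormal ∧ ⁅K, K⁆ = K ∧ p ∣ Nat.card ↥K ∧ ∀ H : Subgroup X, H ≤ K → H.IsSubnormal → ⁅H, H⁆ = H → p ∣ Nat.card ↥H → H = K := by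
  refine ⟨hK.1, H11.PComp.perfect hK, H11.PComp.dvd_card hK, fun H hHK hH hperf hdvd => ?_⟩
  apply hK.2.2 H hH hHK
  have h1 : ((H.map (H11.PComp.pr p X)).subgroupOf (K.map (H11.PComp.pr p X))).IsSubnormal :=
    (hH.map (H11.PComp.pr_surjective p)).subgroupOf
  have hle : H.map (H11.PComp.pr p X) ≤ K.map (H11.PComp.pr p X) := Subgroup.map_mono hHK
  rcases H11.Components.IsQuasisimple.isSubnormal_eq_top_or_le_center hK.2.1.2 _ h1 with h2 | h2
  · exact le_antisymm hle (Subgroup.subgroupOf_eq_top.mp h2)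
  · exfalso
    have h3 : ⁅H.map (H11.PComp.pr p X), H.map (H11.PComp.pr p X)⁆ = ⊥ := by
      rw [eq_bot_iff, Subgroup.commutator_le]
      intro a ha b hb
      rw [Subgroup.mem_bot, commutatorElement_eq_one_iff_mul_comm]
      have h4 := h2 (x := ⟨a, hle ha⟩) (Subgroup.mem_subgroupOf.mpr ha)
      have h5 := Subgroup.mem_center_iff.mp h4 ⟨b, hle hb⟩
      exact (congrArg Subtype.val h5).symm
    rw [← Subgroup.map_commutator, hperf, Subgroup.map_eq_bot_iff, H11.PComp.pr_ker] at h3
    have h6 : (Nat.card H).Coprime p :=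
      Nat.Coprime.coprime_dvd_left (Subgroup.card_dvd_of_le h3) (H11.Cores.pPrimeCore_coprime p)
    have hp : p.Prime := Fact.out
    exact ((Nat.Prime.coprime_iff_not_dvd hp).mp h6.symm) hdvd

end Cfsg.Agent.S1289
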