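import Cfsg.Statements.S1297
import Cfsg.Agent.H11_Bal4

set_option autoImplicit false
open Cfsg

namespace Cfsg.Agent.S1297

theorem loc {K : Type*} [Group K] (h : Cfsg.IsLocallyBalanced K) :
    Cfsg.IsLocallyKBalanced 2 1 K := by
  intro H hH A hA hA2
  have hne : A ≠ ⊥ := by
    rintro rfl
    rw [Subgroup.card_bot] at hA2
    omega
  obtain ⟨⟨a, haA⟩, ha1⟩ := Subgroup.ne_bot_iff_exists_ne_one.mp hne
  have ha1' : a ≠ 1 := fun h => ha1 (Subtype.ext h)
  have h2 := h H hH a (orderOf_eq_prime (hA.2 a haA) ha1')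
  rw [eq_bot_iff, ← h2]
  exact H11.Bal.signalizerDelta_le 2 haA ha1'

/-- Let G be finite. Suppose that for every involution x, writing C = C_G(x), every component K of C / O(C) has K / Z(K) locally balanced. Then G is balanced. -/
theorem result {G : Type*} [Group G] [Finite G] (h : ∀ x : G, orderOf x = 2 → ∀ K : Subgroup (↥(Subgroup.centralizer ({x} : Set G)) ⧸ Cfsg.oddCore ↥(Subgroup.centralizer ({x} : Set G))), Cfsg.IsComponent K → Cfsg.IsLocallyBalanced (↥K ⧸ Subgroup.center ↥K)) : Cfsg.IsBalanced G := by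
  have key : ∀ x y : G, orderOf x = 2 → orderOf y = 2 → x * y = y * x →
      Cfsg.centralizerPPrimeCore 2 x ⊓ Subgroup.centralizer {y} ≤
        Cfsg.centralizerPPrimeCore 2 y ⊓ Subgroup.centralizer {x} := by
    intro x y hx hy hxy
    refine le_inf ?_ (inf_le_left.trans (H11.Bal.cPC_le 2 x))
    have hA : Cfsg.IsElementaryAbelian 2 (Subgroup.zpowers x) := by
      refine ⟨inferInstance, ?_⟩
      rintro _ ⟨n, rfl⟩
      show (x ^ n) ^ 2 = 1
      rw [← zpow_natCast, ← zpow_mul, mul_comm, zpow_mul, zpow_natCast, ← hx, pow_orderOf_eq_one,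
        one_zpow]
    have hA2 : Nat.card (Subgroup.zpowers x) = 2 ^ 1 := by
      rw [Nat.card_zpowers, hx, pow_one]
    apply H11.Bal.kbal_main 2 le_rfl hA hA2 _ inf_le_right _
    · intro K hK
      exact Or.inr (loc (h y hy K hK))
    · rw [Subgroup.zpowers_le, Subgroup.mem_centralizer_singleton_iff]
      exact hxy
    · refine le_trans inf_le_left ?_
      unfold Cfsg.signalizerDelta
      rw [le_iInf_iff]
      rintro ⟨a, ha, ha1⟩
      exact (H11.Bal.cPC_eq_of_mem hx ha ha1).ge
  intro x y hx hy hxy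
  exact le_antisymm (key x y hx hy hxy) (key y x hy hx hxy.symm)

end Cfsg.Agent.S1297
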