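import Cfsg.Statements.S1299
import Cfsg.Agent.H11_Cover
import Cfsg.Agent.H11_Bal3
import Cfsg.Agent.H11_Conn

set_option autoImplicit false
open Cfsg

namespace Cfsg.Agent.S1299

open Subgroup Cfsg.Agent.H11.Bal Cfsg.Agent.H11.Conn Cfsg.Agent.H11.Cover in
theorem main {G : Type*} [Group G] [Finite G] (p k : ℕ) [hpf : Fact p.Prime] (hbal : Cfsg.IsKBalanced p k G)
    (A : Subgroup G) (hA : Cfsg.IsElementaryAbelian p A) (hAk : p ^ (k + 2) ≤ Nat.card ↥A)
    (hsolv : ∀ a ∈ A, a ≠ 1 → Group.IsSolvable ↥(Cfsg.centralizerPPrimeCore p a)) :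
    Cfsg.IsSignalizerFunctor p A (fun a => ⨆ D : {D : Subgroup G // D ≤ A ∧ Nat.card ↥D = p ^ k},
      Cfsg.signalizerDelta p (D : Subgroup G) ⊓ Subgroup.centralizer {a}) := by
  classical
  have hpp := hpf.out
  have hord : ∀ a ∈ A, a ≠ 1 → orderOf a = p := fun a ha h1 => orderOf_eq_prime (hA.2 a ha) h1
  have hA2 : p ^ 2 ≤ Nat.card A :=
    le_trans (Nat.pow_le_pow_right hpp.pos (by omega)) hAk
  have hApg : IsPGroup p A := ea_pgroup hA
  -- balance
  have kb1 : ∀ D : Subgroup G, D ≤ A → Nat.card D = p ^ k → ∀ a ∈ A, a ≠ 1 →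
      signalizerDelta p D ⊓ centralizer {a} ≤ centralizerPPrimeCore p a := by
    intro D hDA hD a ha h1
    exact hbal D (ea_mono hA hDA) hD a (hord a ha h1) (fun d hd => ea_comm' hA (hDA hd) ha)
  have kb : ∀ D : Subgroup G, D ≤ A → Nat.card D = p ^ k → ∀ E : Subgroup G, E ≤ A →
      signalizerDelta p D ⊓ centralizer (E : Set G) ≤ signalizerDelta p E := by
    intro D hDA hD E hEA
    apply le_iInf
    rintro ⟨e, he, he1⟩
    refine le_trans (inf_le_inf_left _ ?_) (kb1 D hDA hD e (hEA he) he1)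
    exact centralizer_le (Set.singleton_subset_iff.mpr he)
  -- invariance
  have hinv : ∀ D : Subgroup G, D ≤ A → ∀ a ∈ A,
      A ≤ normalizer ((signalizerDelta p D ⊓ centralizer {a} : Subgroup G) : Set G) := by
    intro D hDA a ha x hx
    have hcore : ∀ g : G, g ∈ centralizer (D : Set G) → ∀ y ∈ signalizerDelta p D, g * y * g⁻¹ ∈ signalizerDelta p D := by
      intro g hg y hy
      unfold signalizerDelta at hy ⊢
      rw [Subgroup.mem_iInf] at hy ⊢
      rintro ⟨d, hd, hd1⟩
      have h1 := hy ⟨d, hd, hd1⟩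
      rw [cPC_eq] at h1 ⊢
      have h2 : g ∈ centralizer ({d} : Set G) :=
        (centralizer_le (Set.singleton_subset_iff.mpr hd)) hg
      exact (Subgroup.mem_normalizer_iff.mp ((normalizer_le_normalizer_OO p _) (le_normalizer h2)) y).mp h1
    have hxD : x ∈ centralizer (D : Set G) := by
      rw [mem_centralizer_iff]
      exact fun d hd => ea_comm' hA (hDA hd) hx
    have hxa : x ∈ centralizer ({a} : Set G) := mem_centralizer_singleton_iff.mpr (ea_comm' hA hx ha)
    rw [Subgroup.mem_normalizer_iff]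
    intro y
    constructor
    · rintro ⟨h1, h2⟩
      exact ⟨hcore x hxD y h1, (Subgroup.mem_normalizer_iff.mp (le_normalizer hxa) y).mp h2⟩
    · rintro ⟨h1, h2⟩
      refine ⟨?_, (Subgroup.mem_normalizer_iff.mp (le_normalizer hxa) y).mpr h2⟩
      have h3 := hcore x⁻¹ (inv_mem hxD) _ h1
      have h4 : x⁻¹ * (x * y * x⁻¹) * x⁻¹⁻¹ = y := by group
      rwa [h4] at h3
  set θ : G → Subgroup G := fun a => ⨆ D : {D : Subgroup G // D ≤ A ∧ Nat.card ↥D = p ^ k},
      signalizerDelta p (D : Subgroup G) ⊓ centralizer {a} with hθ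
  have hθcore : ∀ a ∈ A, a ≠ 1 → θ a ≤ centralizerPPrimeCore p a := fun a ha h1 =>
    iSup_le fun D => kb1 D D.2.1 D.2.2 a ha h1
  have hθC : ∀ a, θ a ≤ centralizer {a} := fun a => iSup_le fun D => inf_le_right
  have hθp : ∀ a ∈ A, a ≠ 1 → ¬ p ∣ Nat.card (θ a) := by
    intro a ha h1 h2
    have h3 := h2.trans (card_dvd_of_le (hθcore a ha h1))
    rw [cPC_eq] at h3
    exact ((Nat.Prime.coprime_iff_not_dvd hpp).mp (OO_coprime p _).symm) h3
  have hθs : ∀ a ∈ A, a ≠ 1 → Group.IsSolvable (θ a) := by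
    intro a ha h1
    haveI := hsolv a ha h1
    exact Group.isSolvable_of_isSolvable_injective (f := Subgroup.inclusion (hθcore a ha h1))
      (Subgroup.inclusion_injective _)
  have hθA : ∀ a ∈ A, A ≤ normalizer (θ a : Set G) := by
    intro a ha x hx
    rw [Subgroup.mem_normalizer_iff]
    have key : ∀ g ∈ A, ∀ y ∈ θ a, g * y * g⁻¹ ∈ θ a := by
      intro g hg y hy
      have h3 : θ a ≤ (θ a).comap (MulAut.conj g).toMonoidHom := by
        apply iSup_le
        intro D y hy
        exact (le_iSup (fun D : {D : Subgroup G // D ≤ A ∧ Nat.card ↥D = p ^ k} =>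
          signalizerDelta p (D : Subgroup G) ⊓ centralizer {a}) D)
          ((Subgroup.mem_normalizer_iff.mp (hinv D D.2.1 a ha hg) y).mp hy)
      exact h3 hy
    intro h
    refine ⟨key x hx h, fun hh => ?_⟩
    have h1 := key x⁻¹ (inv_mem hx) _ hh
    have h2 : x⁻¹ * (x * h * x⁻¹) * x⁻¹⁻¹ = h := by group
    rwa [h2] at h1
  -- subgroups of rank k
  have hApk : Nat.card A = Nat.card A := rfl
  have hex : ∀ B : Subgroup G, B ≤ A → p ^ k ≤ Nat.card B → ∃ E ≤ B, Nat.card E = p ^ k := by
    intro B hBA hB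
    exact exists_sub (hApg.to_le hBA) hB
  have hcardB : ∀ B : HP p A, p ^ k ≤ Nat.card (B : Subgroup G) := by
    rintro ⟨B, hBA, hB⟩
    have h1 : Nat.card B * B.relIndex A = Nat.card A := by
      have := relIndex_mul_relIndex _ _ _ (bot_le (a := B)) hBA
      rwa [relIndex_bot_left, relIndex_bot_left] at this
    have h2 : p ^ (k + 2) ≤ Nat.card B * p := by
      rw [← h1] at hAk
      exact hAk.trans (Nat.mul_le_mul_left _ hB)
    have h3 : p ^ (k + 2) = p ^ k * p * p := by ring
    rw [h3] at h2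
    have h4 := Nat.le_of_mul_le_mul_right h2 hpp.pos
    exact (Nat.le_mul_of_pos_right _ hpp.pos).trans h4
  have hcardBB : ∀ B B' : HP p A, p ^ k ≤ Nat.card ((B : Subgroup G) ⊓ B' : Subgroup G) := by
    rintro ⟨B, hBA, hB⟩ ⟨B', hB'A, hB'⟩
    have h1 : Nat.card (B ⊓ B' : Subgroup G) * (B ⊓ B').relIndex A = Nat.card A := by
      have := relIndex_mul_relIndex _ _ _ (bot_le (a := B ⊓ B')) (inf_le_left.trans hBA)
      rwa [relIndex_bot_left, relIndex_bot_left] at this
    have h5 : (B ⊓ B').relIndex A ≤ p * p := (relIndex_inf_le).trans (Nat.mul_le_mul hB hB')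
    have h2 : p ^ (k + 2) ≤ Nat.card (B ⊓ B' : Subgroup G) * (p * p) := by
      rw [← h1] at hAk
      exact hAk.trans (Nat.mul_le_mul_left _ h5)
    have h3 : p ^ (k + 2) = p ^ k * (p * p) := by ring
    rw [h3] at h2
    exact Nat.le_of_mul_le_mul_right h2 (Nat.mul_pos hpp.pos hpp.pos)
  choose E hEB hEc using fun B : HP p A => hex B B.2.1 (hcardB B)
  have hEA : ∀ B, E B ≤ A := fun B => (hEB B).trans B.2.1
  have hCB : ∀ B : HP p A, centralizer ((B : Subgroup G) : Set G) ≤ centralizer (E B : Set G) :=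
    fun B => centralizer_le (hEB B)
  -- the main claim
  have hcov : ∀ a ∈ A, a ≠ 1 → ∀ B : HP p A, θ a ⊓ centralizer ((B : Subgroup G) : Set G) ≤
      signalizerDelta p (E B) := by
    intro a ha h1 B
    refine (cover p A hA hA2 _ (θ a) le_rfl (hθp a ha h1) (hθs a ha h1) (hθA a ha)
      (fun B => (signalizerDelta p (E B) ⊓ centralizer {a}) ⊓ centralizer ((B : Subgroup G) : Set G))
      ?_ ?_ ?_ B).trans (inf_le_left.trans inf_le_left)
    · intro B
      exact inf_le_inf_right _ (le_iSup (fun D : {D : Subgroup G // D ≤ A ∧ Nat.card ↥D = p ^ k} =>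
          signalizerDelta p (D : Subgroup G) ⊓ centralizer {a}) ⟨E B, hEA B, hEc B⟩)
    · intro B B'
      obtain ⟨F, hF, hFc⟩ := hex ((B : Subgroup G) ⊓ B') (inf_le_left.trans B.2.1) (hcardBB B B')
      have hFA : F ≤ A := hF.trans (inf_le_left.trans B.2.1)
      refine ⟨signalizerDelta p F ⊓ centralizer {a},
        le_iSup (fun D : {D : Subgroup G // D ≤ A ∧ Nat.card ↥D = p ^ k} =>
          signalizerDelta p (D : Subgroup G) ⊓ centralizer {a}) ⟨F, hFA, hFc⟩, hinv F hFA a ha, ?_, ?_, ?_⟩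
      · refine le_inf ?_ (inf_le_left.trans inf_le_right)
        refine le_trans (le_inf (inf_le_left.trans inf_le_left) (inf_le_right.trans ?_))
          (kb (E B) (hEA B) (hEc B) F hFA)
        exact centralizer_le (hF.trans inf_le_left)
      · refine le_inf ?_ (inf_le_left.trans inf_le_right)
        refine le_trans (le_inf (inf_le_left.trans inf_le_left) (inf_le_right.trans ?_))
          (kb (E B') (hEA B') (hEc B') F hFA)
        exact centralizer_le (hF.trans inf_le_right)
      · intro B''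
        refine le_inf (le_inf ?_ (inf_le_left.trans inf_le_right)) inf_le_right
        exact le_trans (le_inf (inf_le_left.trans inf_le_left) (inf_le_right.trans (hCB B'')))
          (kb F hFA hFc (E B'') (hEA B''))
    · apply iSup_le
      rintro ⟨D, hDA, hDc⟩
      have hXle : signalizerDelta p D ⊓ centralizer {a} ≤ θ a :=
        le_iSup (fun D : {D : Subgroup G // D ≤ A ∧ Nat.card ↥D = p ^ k} =>
          signalizerDelta p (D : Subgroup G) ⊓ centralizer {a}) ⟨D, hDA, hDc⟩
      have h4 := Cfsg.Agent.S1324.result p A (signalizerDelta p D ⊓ centralizer {a}) hA hA2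
        (fun h => hθp a ha h1 (h.trans (card_dvd_of_le hXle))) (hinv D hDA a ha)
      change signalizerDelta p D ⊓ centralizer {a} ≤ _
      rw [h4]
      apply iSup_mono
      intro B
      refine le_inf (le_inf ?_ (inf_le_left.trans inf_le_right)) inf_le_right
      exact le_trans (le_inf (inf_le_left.trans inf_le_left) (inf_le_right.trans (hCB B)))
        (kb D hDA hDc (E B) (hEA B))
  refine ⟨fun a _ _ => hθC a, hθp, ?_, ?_⟩
  · intro a ha _ b hb x hx
    exact (Subgroup.mem_normalizer_iff.mp (hθA a ha hb) x).mp hx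
  · intro a ha ha1 b hb hb1
    have hAN : A ≤ normalizer ((θ a ⊓ centralizer {b} : Subgroup G) : Set G) := by
      refine le_trans (le_inf (hθA a ha) ?_) Subgroup.inf_normalizer_le_normalizer_inf
      refine le_trans ?_ le_normalizer
      intro x hx
      exact mem_centralizer_singleton_iff.mpr (ea_comm' hA hx hb)
    have h4 := Cfsg.Agent.S1324.result p A (θ a ⊓ centralizer {b}) hA hA2
        (fun h => hθp a ha ha1 (h.trans (card_dvd_of_le inf_le_left))) hAN
    rw [h4]
    apply iSup_le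
    intro B
    refine le_trans (le_inf ?_ (inf_le_left.trans inf_le_right))
      (le_iSup (fun D : {D : Subgroup G // D ≤ A ∧ Nat.card ↥D = p ^ k} =>
          signalizerDelta p (D : Subgroup G) ⊓ centralizer {b}) ⟨E B, hEA B, hEc B⟩)
    exact le_trans (inf_le_inf_right _ inf_le_left) (hcov a ha ha1 B)

/-- Let G be finite and k-balanced for the prime p (k ≥ 1), A an elementary abelian p-subgroup of order at least p^(k+2) such that O_{p'}(C_G(a)) is solvable for every non-identity a ∈ A. For a ∈ A put θ a = the subgroup generated by the Δ_G(D) ∩ C_G(a) over the subgroups D ≤ A of order p^k. Then θ is an A-signalizer functor. -/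
theorem result {G : Type*} [Group G] [Finite G] (p k : ℕ) [Fact p.Prime] (hk : 1 ≤ k) (hbal : Cfsg.IsKBalanced p k G) (A : Subgroup G) (hA : Cfsg.IsElementaryAbelian p A) (hAk : p ^ (k + 2) ≤ Nat.card ↥A) (hsolv : ∀ a ∈ A, a ≠ 1 → Group.IsSolvable ↥(Cfsg.centralizerPPrimeCore p a)) : Cfsg.IsSignalizerFunctor p A (fun a => ⨆ D : {D : Subgroup G // D ≤ A ∧ Nat.card ↥D = p ^ k}, Cfsg.signalizerDelta p (D : Subgroup G) ⊓ Subgroup.centralizer {a}) := by
  exact main p k hbal A hA hAk hsolv

end Cfsg.Agent.S1299
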