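import Cfsg.Statements.S1300
import Mathlib
import Cfsg.Agent.H11_TI

set_option autoImplicit false
open Cfsg

namespace Cfsg.Agent.S1300

/-- For a finite group G, balance in the sense of commuting involutions is the same as 1-balance for the prime 2. -/
theorem result {G : Type*} [Group G] [Finite G] : Cfsg.IsBalanced G ↔ Cfsg.IsKBalanced 2 1 G := by
  constructor
  · intro h A hA hcard b hb hab
    -- `A = {1, a}`
    have hA1 : A ≠ ⊥ := by
      rintro rfl
      rw [Subgroup.card_bot] at hcard
      norm_num at hcard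
    obtain ⟨⟨a, haA⟩, ha1'⟩ := Subgroup.ne_bot_iff_exists_ne_one.mp hA1
    have ha1 : a ≠ 1 := fun h => ha1' (Subtype.ext h)
    have ha2 : orderOf a = 2 := orderOf_eq_prime (hA.2 a haA) ha1
    intro x hx
    have h1 : x ∈ Cfsg.centralizerPPrimeCore 2 a := by
      have h0 : x ∈ Cfsg.signalizerDelta 2 A := hx.1
      rw [Cfsg.signalizerDelta, Subgroup.mem_iInf] at h0
      exact h0 ⟨a, haA, ha1⟩
    have h2 : x ∈ Cfsg.centralizerPPrimeCore 2 a ⊓ Subgroup.centralizer {b} := ⟨h1, hx.2⟩
    rw [h a b ha2 hb (hab a haA)] at h2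
    exact h2.1
  · intro h x y hx hy hxy
    have key : ∀ x y : G, orderOf x = 2 → orderOf y = 2 → x * y = y * x →
        Cfsg.centralizerPPrimeCore 2 x ⊓ Subgroup.centralizer {y} ≤
          Cfsg.centralizerPPrimeCore 2 y ⊓ Subgroup.centralizer {x} := by
      intro x y hx hy hxy z hz
      have hx2 : x ^ 2 = 1 := by rw [← hx]; exact pow_orderOf_eq_one x
      have hmem : ∀ a ∈ Subgroup.zpowers x, a ≠ 1 → a = x := by
        intro a ha ha1
        obtain ⟨k, rfl⟩ := Subgroup.mem_zpowers_iff.mp ha
        rcases Int.even_or_odd k with ⟨m, hm⟩ | ⟨m, hm⟩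
        · exfalso; apply ha1
          have : x ^ k = (x ^ (2 : ℤ)) ^ m := by rw [← zpow_mul, hm]; congr 1; ring
          rw [this]
          have h2 : x ^ (2 : ℤ) = 1 := by exact_mod_cast hx2
          rw [h2, one_zpow]
        · have : x ^ k = (x ^ (2 : ℤ)) ^ m * x := by rw [← zpow_mul, hm, zpow_add, zpow_one]
          rw [this]
          have h2 : x ^ (2 : ℤ) = 1 := by exact_mod_cast hx2
          rw [h2, one_zpow, one_mul]
      refine ⟨h (Subgroup.zpowers x) ⟨inferInstance, ?_⟩ (by rw [Nat.card_zpowers, hx]; norm_num) y hy ?_ ⟨?_, hz.2⟩, ?_⟩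
      · intro a ha
        by_cases ha1 : a = 1
        · rw [ha1, one_pow]
        · rw [hmem a ha ha1]; exact hx2
      · intro a ha
        by_cases ha1 : a = 1
        · rw [ha1, one_mul, mul_one]
        · rw [hmem a ha ha1]; exact hxy
      · show z ∈ Cfsg.signalizerDelta 2 (Subgroup.zpowers x)
        rw [Cfsg.signalizerDelta, Subgroup.mem_iInf]
        rintro ⟨a, ha, ha1⟩
        show z ∈ Cfsg.centralizerPPrimeCore 2 a
        have := hmem a ha ha1
        subst this
        exact hz.1
      · obtain ⟨w, _, hw⟩ := hz.1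
        rw [← hw]; exact w.2
    exact le_antisymm (key x y hx hy hxy) (key y x hy hx hxy.symm)

end Cfsg.Agent.S1300
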