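import Cfsg.Statements.S1302
import Cfsg.Agent.H12_Trans1
import Cfsg.Agent.H18_Cyc
import Cfsg.Agent.H22_Coprime3

set_option autoImplicit false
open Cfsg

namespace Cfsg.Agent.S1302

universe u

open scoped commutatorElement in
open Subgroup in
theorem class_two {X : Type u} [Group X] [Finite X] {p : ℕ} [hp : Fact p.Prime] (hp2 : p ≠ 2)
    {E Q U : Subgroup X} (hU : IsPGroup p U) (hUU : ⁅U, U⁆ ≤ centralizer (U : Set X))
    (hE : IsPGroup p E) (hQ : (Nat.card Q).Coprime p) (hEQ : E ≤ normalizer (Q : Set X))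
    (hEU : E ≤ normalizer (U : Set X)) (hQU : Q ≤ normalizer (U : Set X))
    (hC : ∀ x ∈ U, x ^ p = 1 → x ∈ centralizer (E : Set X) → x ∈ centralizer (Q : Set X)) :
    Q ≤ centralizer (U : Set X) := by
  have hodd : ∃ k, p * (p - 1) / 2 = p * k := by
    obtain ⟨k, hk⟩ := hp.out.odd_of_ne_two hp2
    refine ⟨k, ?_⟩
    have h1 : p - 1 = 2 * k := by omega
    rw [h1, show p * (2 * k) = (p * k) * 2 by ring, Nat.mul_div_cancel _ (by norm_num)]
  have hmulp : ∀ x ∈ U, ∀ y ∈ U, x ^ p = 1 → y ^ p = 1 → (x * y) ^ p = 1 := by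
    intro x hx y hy hxp hyp
    have hcm : ⁅y, x⁆ ∈ centralizer (U : Set X) := hUU (commutator_mem_commutator hy hx)
    have hc : y * x = ⁅y, x⁆ * (x * y) := by rw [commutatorElement_def]; group
    have hcx : Commute ⁅y, x⁆ x := (mem_centralizer_iff.mp hcm x hx).symm
    have hcy : Commute ⁅y, x⁆ y := (mem_centralizer_iff.mp hcm y hy).symm
    have h1 := Cfsg.Agent.H18.Cyc.mul_pow_class_two hc hcx hcy p
    have h2 := Cfsg.Agent.H18.Cyc.pow_mul_comm_aux hc hcx hcy p
    rw [hyp, one_mul, mul_one] at h2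
    have h3 : ⁅y, x⁆ ^ p = 1 := by
      have := mul_eq_right.mp h2.symm
      exact this
    obtain ⟨k, hk⟩ := hodd
    rw [h1, hxp, hyp, hk, pow_mul, h3, one_pow, one_mul, one_mul]
  let W : Subgroup X :=
    { carrier := {x | x ∈ U ∧ x ^ p = 1}
      one_mem' := ⟨one_mem _, one_pow p⟩
      mul_mem' := by
        rintro x y ⟨hx, hx'⟩ ⟨hy, hy'⟩
        exact ⟨mul_mem hx hy, hmulp x hx y hy hx' hy'⟩
      inv_mem' := by
        rintro x ⟨hx, hx'⟩
        exact ⟨inv_mem hx, by rw [inv_pow, hx', inv_one]⟩ }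
  have hWm : ∀ x, x ∈ W ↔ (x ∈ U ∧ x ^ p = 1) := fun x => Iff.rfl
  have hWU : W ≤ U := fun x hx => hx.1
  have hNW : ∀ K : Subgroup X, K ≤ normalizer (U : Set X) → K ≤ normalizer (W : Set X) := by
    intro K hK g hg
    rw [Subgroup.mem_normalizer_iff]
    intro h
    rw [hWm, hWm, conj_pow]
    have h1 := Subgroup.mem_normalizer_iff.mp (hK hg) h
    constructor
    · rintro ⟨h2, h3⟩
      exact ⟨h1.mp h2, by rw [h3]; group⟩
    · rintro ⟨h2, h3⟩
      refine ⟨h1.mpr h2, ?_⟩
      have h4 : h ^ p = g⁻¹ * (g * h ^ p * g⁻¹) * g := by group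
      rw [h4, h3]; group
  have h1 : Q ≤ centralizer (W : Set X) := by
    apply Cfsg.Agent.H22.BaerPQ.class_two_pq_int hp2 (hU.to_le hWU)
      ((commutator_mono hWU hWU).trans (hUU.trans (centralizer_le hWU))) hE hQ hEQ (hNW E hEU) (hNW Q hQU)
    rintro x ⟨hx, hx'⟩
    exact hC x hx.1 hx.2 hx'
  apply Cfsg.Agent.H22.Coprime3.omega_one hp2 hQU hU hQ
  intro x hx hxp a ha
  exact (mem_centralizer_iff.mp (h1 ha) x ⟨hx, hxp⟩).symm

open scoped commutatorElement in
open Subgroup Cfsg.Agent.H12 in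
/-- the odd case -/
theorem lemA_odd' {X : Type u} [Group X] [Finite X] {p : ℕ} [hp : Fact p.Prime]
    (hp2 : p ≠ 2) {P E Q : Subgroup X} (hP : IsPGroup p P) (hE : IsPGroup p E)
    (hQ : (Nat.card Q).Coprime p) (hEQ : E ≤ normalizer (Q : Set X)) (hEP : E ≤ normalizer (P : Set X))
    (hQP : Q ≤ normalizer (P : Set X))
    (hC : ∀ x ∈ P, x ^ p = 1 → x ∈ centralizer (E : Set X) → x ∈ centralizer (Q : Set X)) :
    Q ≤ centralizer (P : Set X) := by
  obtain ⟨H, hH1, hH2, hH3, hH4⟩ := Cfsg.Agent.H2.Critical.exists_critical (P := P) hP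
  haveI := hH1
  set U := H.map P.subtype with hU
  have hUP : U ≤ P := map_subtype_le _
  have hUp : IsPGroup p U := hP.to_le hUP
  have hNU : normalizer (P : Set X) ≤ normalizer (U : Set X) :=
    Cfsg.Agent.H11.Cores.le_normalizer_map_subtype_of_characteristic P H
  have hUU : ⁅U, U⁆ ≤ centralizer (U : Set X) := by
    rw [hU, ← map_commutator]
    have h1 : ⁅H, H⁆ ≤ centralizer (H : Set P) :=
      (commutator_mono le_rfl le_top).trans (hH3.trans inf_le_right)
    rintro _ ⟨x, hx, rfl⟩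
    rw [mem_centralizer_iff]
    rintro _ ⟨y, hy, rfl⟩
    exact congrArg Subtype.val ((mem_centralizer_iff.mp (h1 hx)) y hy)
  have h2 : Q ≤ centralizer (U : Set X) :=
    class_two hp2 hUp hUU hE hQ hEQ (hEP.trans hNU) (hQP.trans hNU) (fun x hx => hC x (hUP hx))
  haveI : Group.IsNilpotent P := hP.isNilpotent
  apply BG1.coprime_trivial_of_centralizer P Q inferInstance hQP (Trans.coprime_of_isPGroup hP hQ)
  have h3 : U ≤ P ⊓ centralizer (Q : Set X) := le_inf hUP (le_centralizer_iff.mp h2)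
  refine (inf_le_inf_left P (centralizer_le h3)).trans (le_trans ?_ h3)
  rintro x ⟨hx1, hx2⟩
  refine ⟨⟨x, hx1⟩, hH4 ?_, rfl⟩
  show (⟨x, hx1⟩ : P) ∈ centralizer (H : Set P)
  rw [mem_centralizer_iff]
  intro y hy
  exact Subtype.ext ((mem_centralizer_iff.mp hx2) y (mem_map_of_mem P.subtype hy))

open scoped commutatorElement in
open Subgroup Cfsg.Agent.H12 in
theorem main {X : Type u} [Group X] [Finite X] {p : ℕ} [hp : Fact p.Prime] (hp2 : p ≠ 2)
    (hc : IsPConstrained p X) {E Q : Subgroup X} (hE : IsPGroup p E)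
    (hfull : ∀ x ∈ centralizer (E : Set X), orderOf x = p → x ∈ E)
    (hQ : (Nat.card Q).Coprime p) (hEQ : E ≤ normalizer (Q : Set X)) : Q ≤ pPrimeCore p X := by
  haveI : (pPrimeCore p X).Normal := Cfsg.Agent.H1.Nilp.pPrimeCore_normal p
  set O := pPrimeCore p X with hO
  set π := QuotientGroup.mk' O with hπ
  have hπs : Function.Surjective π := QuotientGroup.mk'_surjective O
  have hOc : (Nat.card O).Coprime p := Cfsg.Agent.H1.Nilp.pPrimeCore_coprime p
  set P := pCore p (X ⧸ O) with hP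
  haveI hPn : P.Normal := Cfsg.Agent.H1.Nilp.pCore_normal p
  have hPp : IsPGroup p P := Cfsg.Agent.H1.Nilp.pCore_isPGroup p
  have hcen := Trans.centralizer_pCore_quotient_le hc
  have hEs : Group.IsSolvable E := by haveI := hE.isNilpotent; infer_instance
  -- fixed points
  have hfix : ∀ x ∈ P, x ^ p = 1 → x ∈ centralizer (E.map π : Set (X ⧸ O)) → x ∈ E.map π := by
    rintro x' hx1 hxp hx2
    obtain ⟨x, rfl⟩ := hπs x'
    obtain ⟨d, hd, hxd⟩ := Cfsg.Agent.H1.Coprime.exists_mul_mem_centralizer (A := E) (D := O)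
      (Core.le_normalizer_of_normal _ _) (Trans.coprime_of_isPGroup hE hOc).symm (Or.inl hEs) x (by
        intro a ha
        rw [← QuotientGroup.eq_one_iff]
        change π (x⁻¹ * (a * x * a⁻¹)) = 1
        have h1 := (mem_centralizer_iff.mp hx2) (π a) (mem_map_of_mem π ha)
        rw [map_mul, map_mul, map_mul, map_inv, map_inv, h1]; group)
    set y := x * d with hy
    have hπy : π y = π x := by
      have : π d = 1 := (QuotientGroup.eq_one_iff d).mpr hd
      rw [hy, map_mul, this, mul_one]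
    obtain ⟨a, ha, b, hb, hab, habc, ⟨k, hk⟩, hbc⟩ := Cfsg.Agent.H2.Basic.exists_p_decomp p y
    -- π b = 1
    have hb1 : π b = 1 := by
      have h1 : π b ∈ P := by
        obtain ⟨j, rfl⟩ := hb
        change π (y ^ j) ∈ P
        rw [map_zpow, hπy]
        exact Subgroup.zpow_mem _ hx1 j
      obtain ⟨j, hj⟩ := hPp ⟨π b, h1⟩
      have h2 : π b ^ p ^ j = 1 := congrArg Subtype.val hj
      have h3 : orderOf (π b) ∣ p ^ j := orderOf_dvd_of_pow_eq_one h2
      have h4 : orderOf (π b) ∣ orderOf b := orderOf_map_dvd π b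
      have h5 : orderOf (π b) ∣ Nat.gcd (orderOf b) (p ^ j) := Nat.dvd_gcd h4 h3
      rw [(hbc.pow_right j : Nat.Coprime _ _), Nat.dvd_one, orderOf_eq_one_iff] at h5
      exact h5
    have hπa : π a = π x := by rw [← hπy, ← hab, map_mul, hb1, mul_one]
    -- `a ^ p = 1`
    have hap : a ^ p = 1 := by
      have h1 : a ^ p ∈ O := by
        rw [← QuotientGroup.eq_one_iff]
        change π (a ^ p) = 1
        rw [map_pow, hπa, hxp]
      have h2 : orderOf (a ^ p) ∣ Nat.card O := Subgroup.orderOf_dvd_natCard _ h1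
      have h3 : orderOf (a ^ p) ∣ p ^ k := by
        rw [← hk]; exact orderOf_pow_dvd p
      have h4 : orderOf (a ^ p) ∣ Nat.gcd (Nat.card O) (p ^ k) := Nat.dvd_gcd h2 h3
      rw [(hOc.pow_right k : Nat.Coprime _ _), Nat.dvd_one, orderOf_eq_one_iff] at h4
      exact h4
    have haE : a ∈ E := by
      by_cases ha1 : a = 1
      · rw [ha1]; exact one_mem _
      · exact hfull a ((zpowers_le.mpr hxd) ha) (orderOf_eq_prime hap ha1)
    exact ⟨a, haE, hπa⟩
  have hEQ' : E.map π ≤ normalizer (Q.map π : Set (X ⧸ O)) := (map_mono hEQ).trans (le_normalizer_map π)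
  have hQc : (Nat.card (Q.map π)).Coprime p := Nat.Coprime.coprime_dvd_left (Subgroup.card_map_dvd _ π) hQ
  have hPQ : P ⊓ Q.map π = ⊥ := Puig.inf_eq_bot_of_coprime' hPp hQc
  have hC : ∀ x ∈ P, x ^ p = 1 → x ∈ centralizer (E.map π : Set (X ⧸ O)) →
      x ∈ centralizer (Q.map π : Set (X ⧸ O)) := by
    intro x hx hxp hxc
    have hxE := hfix x hx hxp hxc
    rw [mem_centralizer_iff]
    intro q hq
    have h1 : ⁅x, q⁆ ∈ P ⊓ Q.map π := by
      constructor
      · rw [commutatorElement_def, mul_assoc, mul_assoc]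
        refine P.mul_mem hx ?_
        rw [← mul_assoc]
        exact hPn.conj_mem _ (P.inv_mem hx) q
      · rw [commutatorElement_def]
        exact (Q.map π).mul_mem (((Subgroup.mem_normalizer_iff.mp (hEQ' hxE)) q).mp hq) ((Q.map π).inv_mem hq)
    rw [hPQ, mem_bot, commutatorElement_eq_one_iff_mul_comm] at h1
    exact h1.symm
  have h1 := lemA_odd' hp2 hPp (hE.map π) hQc hEQ' (Core.le_normalizer_of_normal _ _)
    (Core.le_normalizer_of_normal _ _) hC
  have h2 : Q.map π ≤ P ⊓ Q.map π := le_inf (h1.trans hcen) le_rfl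
  rw [hPQ, le_bot_iff, Subgroup.map_eq_bot_iff, QuotientGroup.ker_mk'] at h2
  exact h2

/-- Let X be a finite p-constrained group, p an odd prime, and A an abelian p-subgroup of X containing every element of order p of C_X(A). Then every subgroup of X of order prime to p that is normalized by A lies in O_{p'}(X). -/
theorem result {X : Type*} [Group X] [Finite X] (p : ℕ) [Fact p.Prime] (hp : p ≠ 2) (hX : Cfsg.IsPConstrained p X) (A : Subgroup X) (hA : IsMulCommutative ↥A) (hAp : IsPGroup p ↥A) (hΩ : ∀ x ∈ Subgroup.centralizer (A : Set X), orderOf x = p → x ∈ A) (Q : Subgroup X) (hQ : ¬ p ∣ Nat.card ↥Q) (hAQ : A ≤ Subgroup.normalizer (Q : Set X)) : Q ≤ Cfsg.pPrimeCore p X := by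
  have hp' := Fact.out (p := p.Prime)
  exact main hp hX hAp hΩ (((Nat.Prime.coprime_iff_not_dvd hp').mpr hQ).symm) hAQ

end Cfsg.Agent.S1302
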