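import Cfsg.Statements.S1303
import Cfsg.Agent.H15_SL23
import Cfsg.Agent.H2_PCons
import Cfsg.Agent.H11_Cores

set_option autoImplicit false
open Cfsg

namespace Cfsg.Agent.S1303

abbrev X := Matrix.SpecialLinearGroup (Fin 2) (ZMod 3)

theorem dec : ∀ a b c d : ZMod 3, a * d - b * c = 1 → a * a + b * c = 1 → a * b + b * d = 0 →
    c * a + d * c = 0 → c * b + d * d = 1 → b = 0 ∧ c = 0 ∧ a = d := by decide

theorem invol (t : X) (ht : t * t = 1) : t ∈ Subgroup.center X := by
  have hdet := t.2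
  rw [Matrix.det_fin_two] at hdet
  have h := congrArg (fun z : X => (z : Matrix (Fin 2) (Fin 2) (ZMod 3))) ht
  simp only [Matrix.SpecialLinearGroup.coe_mul, Matrix.SpecialLinearGroup.coe_one] at h
  have h00 := congrFun (congrFun h 0) 0
  have h01 := congrFun (congrFun h 0) 1
  have h10 := congrFun (congrFun h 1) 0
  have h11 := congrFun (congrFun h 1) 1
  simp [Matrix.mul_apply, Fin.sum_univ_two] at h00 h01 h10 h11
  obtain ⟨h1, h2, h3⟩ := dec _ _ _ _ hdet h00 h01 h10 h11
  rw [Subgroup.mem_center_iff]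
  intro g
  apply Subtype.ext
  ext i j
  fin_cases i <;> fin_cases j <;>
    simp [Matrix.mul_apply, Fin.sum_univ_two, h1, h2, h3, mul_comm]

theorem core_bot : Cfsg.pPrimeCore 2 X = ⊥ := by
  haveI := Fact.mk Nat.prime_two
  have hc : (Nat.card ↥(Cfsg.pPrimeCore 2 X)).Coprime 2 := Cfsg.Agent.H11.Cores.pPrimeCore_coprime 2
  rcases Cfsg.Agent.H15.SL23.normal_cases _ (inferInstance : (Cfsg.pPrimeCore 2 X).Normal) with h | h | h | h
  · exact h
  · rw [h, Subgroup.card_top, Cfsg.Agent.H2.SL23.card_sl] at hc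
    exact absurd hc (by decide)
  · rw [h, Cfsg.Agent.H15.SL23.card_center] at hc
    exact absurd hc (by decide)
  · rw [h, Cfsg.Agent.H15.SL23.card_Q] at hc
    exact absurd hc (by decide)

/-- The group X = SL(2, 3): it is 2-constrained, O_{2'}(X) = 1, its centre A = Z(X) contains every involution of X = C_X(A), and X has a subgroup of order 3 (normalized by A) not contained in O_{2'}(X). -/
theorem result : Cfsg.IsPConstrained 2 (Matrix.SpecialLinearGroup (Fin 2) (ZMod 3)) ∧ Cfsg.pPrimeCore 2 (Matrix.SpecialLinearGroup (Fin 2) (ZMod 3)) = ⊥ ∧ (∀ t : Matrix.SpecialLinearGroup (Fin 2) (ZMod 3), orderOf t = 2 → t ∈ Subgroup.center (Matrix.SpecialLinearGroup (Fin 2) (ZMod 3))) ∧ ∃ Q : Subgroup (Matrix.SpecialLinearGroup (Fin 2) (ZMod 3)), Nat.card ↥Q = 3 ∧ ¬ (Q ≤ Cfsg.pPrimeCore 2 (Matrix.SpecialLinearGroup (Fin 2) (ZMod 3))) := by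
  haveI := Fact.mk Nat.prime_two
  haveI : Fact (Nat.Prime 3) := ⟨Nat.prime_three⟩
  refine ⟨?_, core_bot, ?_, ?_⟩
  · rw [Cfsg.Agent.H2.PCons.pc_iff_of_bot core_bot]
    have hQn : (Cfsg.Agent.H15.SL23.Q).Normal := by
      rw [← Cfsg.Agent.H15.SL23.comm_eq]; infer_instance
    have hQp : IsPGroup 2 Cfsg.Agent.H15.SL23.Q :=
      IsPGroup.of_card (n := 3) (by rw [Cfsg.Agent.H15.SL23.card_Q]; norm_num)
    have hZp : IsPGroup 2 (Subgroup.center X) :=
      IsPGroup.of_card (n := 1) (by rw [Cfsg.Agent.H15.SL23.card_center]; norm_num)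
    have hQle : Cfsg.Agent.H15.SL23.Q ≤ Cfsg.pCore 2 X := Cfsg.Agent.H11.Cores.le_pCore 2 hQp
    have hZle : Subgroup.center X ≤ Cfsg.pCore 2 X :=
      Cfsg.Agent.H11.Cores.le_pCore 2 hZp
    haveI : (Subgroup.centralizer (Cfsg.pCore 2 X : Set X)).Normal := inferInstance
    rcases Cfsg.Agent.H15.SL23.normal_cases _ this with h | h | h | h
    · rw [h]; exact bot_le
    · exfalso
      have h1 : Cfsg.Agent.H15.SL23.Q ≤ Subgroup.center X := by
        intro q hq
        rw [Subgroup.mem_center_iff]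
        intro g
        have hg : g ∈ Subgroup.centralizer (Cfsg.pCore 2 X : Set X) := by rw [h]; trivial
        exact ((Subgroup.mem_centralizer_iff.mp hg) q (hQle hq)).symm
      have h2 := Subgroup.card_le_of_le h1
      rw [Cfsg.Agent.H15.SL23.card_Q, Cfsg.Agent.H15.SL23.card_center] at h2
      omega
    · rw [h]; exact hZle
    · rw [h]; exact hQle
  · intro t ht
    apply invol
    have := pow_orderOf_eq_one t
    rwa [ht, pow_two] at this
  · obtain ⟨P⟩ : Nonempty (Sylow 3 X) := inferInstance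
    have h3 : 3 ∣ Nat.card X := by rw [Cfsg.Agent.H2.SL23.card_sl]; norm_num
    obtain ⟨x, hx⟩ := exists_prime_orderOf_dvd_card' 3 h3
    refine ⟨Subgroup.zpowers x, by rw [Nat.card_zpowers, hx], ?_⟩
    rw [core_bot]
    intro hle
    have h1 := Subgroup.card_le_of_le hle
    rw [Nat.card_zpowers, hx, Subgroup.card_bot] at h1
    omega

end Cfsg.Agent.S1303
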