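import Cfsg.Statements.S1305
import Cfsg.Agent.H11_Sub
import Cfsg.Agent.H12_Narrow3

set_option autoImplicit false
open Cfsg

namespace Cfsg.Agent.S1305

open Subgroup Cfsg.Agent.H11.Cores Cfsg.Agent.H11.Components Cfsg.Agent.H13.Syl
  Cfsg.Agent.H11.PComp Cfsg.Agent.H11.Bal Cfsg.Agent.H11.CompOf Cfsg.Agent.H11.Sub
open scoped commutatorElement

/-- elementary abelian subgroups inside a subgroup -/
theorem rank_le {G : Type*} [Group G] {M : Subgroup G} {k : ℕ}
    (h : ∀ B' : Subgroup G, B' ≤ M → Cfsg.IsElementaryAbelian 2 B' → Nat.card ↥B' ≤ 2 ^ k) :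
    Cfsg.PRankLE 2 k ↥M := by
  intro A hA hAp
  have h1 := h (A.map M.subtype) (map_subtype_le A) ⟨⟨⟨by
    rintro ⟨_, a, ha, rfl⟩ ⟨_, b, hb, rfl⟩
    apply Subtype.ext
    have := congrArg (fun z : A => ((z : M) : G)) (hA.1.1 ⟨a, ha⟩ ⟨b, hb⟩)
    exact this⟩⟩, by
    rintro _ ⟨a, ha, rfl⟩
    rw [← map_pow, hAp a ha, map_one]⟩
  have h2 : Nat.card (A.map M.subtype) = Nat.card A :=
    Nat.card_congr (A.equivMapOfInjective _ (subtype_injective M)).symm.toEquiv
  rwa [h2] at h1

theorem not_rank {G : Type*} [Group G] {M E : Subgroup G} {k : ℕ} (hEM : E ≤ M)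
    (hE : Cfsg.IsElementaryAbelian 2 E) (h : Cfsg.PRankLE 2 k ↥M) : Nat.card E ≤ 2 ^ k := by
  have h1 := h (E.subgroupOf M) ⟨⟨by
    rintro ⟨a, ha⟩ ⟨b, hb⟩
    apply Subtype.ext
    apply Subtype.ext
    have := congrArg (fun z : E => (z : G)) (hE.1.1.1 ⟨a, mem_subgroupOf.mp ha⟩ ⟨b, mem_subgroupOf.mp hb⟩)
    exact this⟩⟩ (by
    intro a ha
    apply Subtype.ext
    exact hE.2 a (mem_subgroupOf.mp ha))
  rwa [Nat.card_congr (subgroupOfEquivOfLe hEM).toEquiv] at h1

/-- transfer of an elementary abelian subgroup along an injective homomorphism -/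
theorem pull {G : Type*} [Group G] {D K : Subgroup G} (φ : D →* G) (hφ : Function.Injective φ)
    (hr : K = φ.range) {E : Subgroup G} (hEK : E ≤ K) (hE : Cfsg.IsElementaryAbelian 2 E) :
    ∃ F : Subgroup G, F ≤ D ∧ Cfsg.IsElementaryAbelian 2 F ∧ Nat.card F = Nat.card E := by
  refine ⟨(E.comap φ).map D.subtype, map_subtype_le _, ⟨⟨⟨?_⟩⟩, ?_⟩, ?_⟩
  · rintro ⟨_, a, ha, rfl⟩ ⟨_, b, hb, rfl⟩
    apply Subtype.ext
    have h1 : φ (a * b) = φ (b * a) := by
      rw [map_mul, map_mul]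
      exact congrArg (fun z : E => (z : G)) (hE.1.1.1 ⟨_, ha⟩ ⟨_, hb⟩)
    have h2 := congrArg Subtype.val (hφ h1)
    exact h2
  · rintro _ ⟨a, ha, rfl⟩
    have h1 : φ (a ^ 2) = φ 1 := by rw [map_pow, map_one]; exact hE.2 _ ha
    exact congrArg Subtype.val (hφ h1)
  · rw [Nat.card_congr ((E.comap φ).equivMapOfInjective _ (subtype_injective D)).symm.toEquiv]
    have h2 : (E.comap φ).map φ = E := by
      rw [map_comap_eq, ← hr, inf_eq_right.mpr hEK]
    conv_rhs => rw [← h2]
    exact Nat.card_congr ((E.comap φ).equivMapOfInjective φ hφ).toEquiv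

theorem diag_contra {G : Type*} [Group G] [Finite G] {a b : G} {K D B : Subgroup G} {k : ℕ}
    (ha : orderOf a = 2) (haB : a ∈ B) (hbB : b ∈ B) (hBel : Cfsg.IsElementaryAbelian 2 B)
    (hBK : B ≤ centralizer (K : Set G))
    (hk : Nat.card B = 2 ^ k) (hKne : K ≠ ⊥) (hKperf : ⁅K, K⁆ = K) (hrk : ¬ Cfsg.PRankLE 2 1 ↥K)
    (hD : Cfsg.IsComponentOf D (centralizer ({b} : Set G)))
    (haD : a ∉ normalizer (D : Set G)) (φ : D →* G) (hφ : ∀ l : D, φ l = ((l : G) * a) ^ 2)
    (hφi : Function.Injective φ) (hφr : K = φ.range)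
    (hrank : Cfsg.PRankLE 2 k ↥(centralizer ({b} : Set G) ⊓ centralizer (D : Set G))) : False := by
  classical
  have hcomB : ∀ x ∈ B, ∀ y ∈ B, x * y = y * x := fun x hx y hy =>
    congrArg Subtype.val (hBel.1.1.1 ⟨x, hx⟩ ⟨y, hy⟩)
  have haa : a * a = 1 := by rw [← pow_two, ← ha]; exact pow_orderOf_eq_one a
  have hainv : a⁻¹ = a := by rw [inv_eq_iff_mul_eq_one]; exact haa
  have hBb : B ≤ centralizer ({b} : Set G) := by
    intro c hc
    rw [mem_centralizer_singleton_iff]; exact hcomB c hc b hbB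
  have hcmp : ∀ c ∈ B, Cfsg.IsComponentOf (cj c D) (centralizer ({b} : Set G)) := by
    intro c hc
    have := isComponentOf_cj hD c
    rwa [cj_eq_of_mem (hBb hc)] at this
  have hDa := hcmp a haB
  have hne : cj a D ≠ D := fun h => haD (mem_normalizer_iff_cj.mpr h)
  have hcomDa : ⁅D, cj a D⁆ = ⊥ := commutator_of_ne hD hDa hne.symm
  have hDac : cj a D ≤ centralizer (D : Set G) := by
    rw [← commutator_eq_bot_iff_le_centralizer, commutator_comm]; exact hcomDa
  have hφ' : ∀ l : D, φ l = (l : G) * (a * l * a⁻¹) := by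
    intro l
    rw [hφ, pow_two, hainv]; group
  have hmemDa : ∀ l ∈ D, a * l * a⁻¹ ∈ cj a D := fun l hl => conj_mem_cj hl
  have hcja : cj a (cj a D) = D := by rw [← cj_mul, haa, cj_one]
  -- K ≤ D ⊔ D^a
  have hKX : K ≤ D ⊔ cj a D := by
    rw [hφr]
    rintro _ ⟨l, rfl⟩
    rw [hφ']
    exact mul_mem (mem_sup_left l.2) (mem_sup_right (hmemDa l l.2))
  -- B permutes {D, D^a}
  have hperm : ∀ c ∈ B, cj c D = D ∨ cj c D = cj a D := by
    intro c hc
    by_contra hcon
    push Not at hcon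
    obtain ⟨h1, h2⟩ := hcon
    have hca : cj c (cj a D) = cj a (cj c D) := by
      rw [← cj_mul, ← cj_mul, hcomB c hc a haB]
    have h3 : cj c (cj a D) ≠ D := by
      intro h
      rw [hca] at h
      apply h2
      have := congrArg (cj a) h
      rwa [← cj_mul, haa, cj_one] at this
    have h4 : cj c (cj a D) ≠ cj a D := by
      intro h
      rw [hca] at h
      exact h1 (cj_inj h)
    have hC2 : Cfsg.IsComponentOf (cj c (cj a D)) (centralizer ({b} : Set G)) := by
      rw [← cj_mul]; exact hcmp _ (mul_mem hc haB)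
    have hY : cj c D ⊔ cj c (cj a D) ≤ centralizer ((D ⊔ cj a D : Subgroup G) : Set G) := by
      rw [le_centralizer_iff]
      apply sup_le
      · rw [le_centralizer_iff]
        apply sup_le
        · rw [← commutator_eq_bot_iff_le_centralizer]; exact commutator_of_ne (hcmp c hc) hD h1
        · rw [← commutator_eq_bot_iff_le_centralizer]; exact commutator_of_ne hC2 hD h3
      · rw [le_centralizer_iff]
        apply sup_le
        · rw [← commutator_eq_bot_iff_le_centralizer]; exact commutator_of_ne (hcmp c hc) hDa h2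
        · rw [← commutator_eq_bot_iff_le_centralizer]; exact commutator_of_ne hC2 hDa h4
    have hKY : K ≤ cj c D ⊔ cj c (cj a D) := by
      have h5 : cj c K = K := cj_eq_of_mem_normalizer ((centralizer_le_normalizer _) (hBK hc))
      rw [← h5, ← cj_sup]
      exact cj_mono hKX
    apply hKne
    rw [← hKperf, eq_bot_iff]
    have h6 : ⁅D ⊔ cj a D, cj c D ⊔ cj c (cj a D)⁆ = ⊥ := by
      rw [commutator_comm, commutator_eq_bot_iff_le_centralizer]; exact hY
    rw [← h6]
    exact commutator_mono hKX hKY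
  set B₁ : Subgroup G := B ⊓ normalizer (D : Set G) with hB₁
  have hB₁card : Nat.card B ≤ 2 * Nat.card B₁ := by
    have hle : B ≤ zpowers a ⊔ B₁ := by
      intro c hc
      rcases hperm c hc with h | h
      · exact mem_sup_right ⟨hc, mem_normalizer_iff_cj.mpr h⟩
      · have h1 : a⁻¹ * c ∈ B₁ := by
          refine ⟨B.mul_mem (B.inv_mem haB) hc, mem_normalizer_iff_cj.mpr ?_⟩
          rw [cj_mul, h, cj_inv_cj]
        have h2 : c = a * (a⁻¹ * c) := by group
        rw [h2]
        exact mul_mem (mem_sup_left (mem_zpowers a)) (mem_sup_right h1)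
    have hn : zpowers a ≤ normalizer (B₁ : Set G) := by
      have : zpowers a ≤ centralizer (B₁ : Set G) := by
        rw [zpowers_le, mem_centralizer_iff]
        intro c hc
        exact hcomB c hc.1 a haB
      exact this.trans (centralizer_le_normalizer _)
    have h3 := Cfsg.Agent.H1.Basic.card_sup_mul_card_inf hn
    have h4 := card_le_of_le hle
    have h5 : 0 < Nat.card (zpowers a ⊓ B₁ : Subgroup G) := Nat.card_pos
    rw [Nat.card_zpowers, ha] at h3
    calc Nat.card B ≤ Nat.card (zpowers a ⊔ B₁ : Subgroup G) := h4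
      _ ≤ Nat.card (zpowers a ⊔ B₁ : Subgroup G) * Nat.card (zpowers a ⊓ B₁ : Subgroup G) :=
        Nat.le_mul_of_pos_right _ h5
      _ = 2 * Nat.card B₁ := h3
  -- B₁ centralizes D
  have hB₁D : B₁ ≤ centralizer (D : Set G) := by
    have hDperf : ⁅D, D⁆ = D := by
      haveI := (isQuasisimple_of hD).1
      exact commutator_eq_self
    rw [le_centralizer_iff, ← commutator_eq_bot_iff_le_centralizer]
    apply commutator_eq_bot_of_perfect hDperf
    have h1 : ⁅D, B₁⁆ ≤ centralizer (D : Set G) := by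
      rw [commutator_le]
      intro d hd c hc
      have hcD : c * d⁻¹ * c⁻¹ ∈ D := (Subgroup.mem_normalizer_iff.mp hc.2 _).mp (inv_mem hd)
      have hcd : c * d * c⁻¹ ∈ D := (Subgroup.mem_normalizer_iff.mp hc.2 _).mp hd
      have hca : c * a = a * c := hcomB c hc.1 a haB
      have h2 : c * φ ⟨d, hd⟩ = φ ⟨d, hd⟩ * c := by
        have h3 : φ ⟨d, hd⟩ ∈ K := by rw [hφr]; exact ⟨_, rfl⟩
        exact (mem_centralizer_iff.mp (hBK hc.1) _ h3).symm
      rw [hφ'] at h2
      simp only at h2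
      -- ⁅d, c⁆ = d * (c d⁻¹ c⁻¹)
      have h4 : (a * (c * d⁻¹ * c⁻¹) * a⁻¹)⁻¹ = a * (c * d * c⁻¹) * a⁻¹ := by group
      have h5 : (c * d * c⁻¹) * (a * (c * d * c⁻¹) * a⁻¹) = d * (a * d * a⁻¹) := by
        have h6 : a * (c * d * c⁻¹) * a⁻¹ = c * (a * d * a⁻¹) * c⁻¹ := by
          calc a * (c * d * c⁻¹) * a⁻¹ = (a * c) * d * (a * c)⁻¹ := by group
            _ = (c * a) * d * (c * a)⁻¹ := by rw [hca]
            _ = c * (a * d * a⁻¹) * c⁻¹ := by group
        rw [h6]
        calc (c * d * c⁻¹) * (c * (a * d * a⁻¹) * c⁻¹) = c * (d * (a * d * a⁻¹)) * c⁻¹ := by group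
          _ = d * (a * d * a⁻¹) * c * c⁻¹ := by rw [h2]
          _ = d * (a * d * a⁻¹) := by group
      -- d⁻¹ (c d c⁻¹) = (a d a⁻¹) (a (c d c⁻¹) a⁻¹)⁻¹ ∈ D^a
      have h7 : (c * d * c⁻¹)⁻¹ * d = (a * (c * d * c⁻¹) * a⁻¹) * (a * d * a⁻¹)⁻¹ := by
        calc (c * d * c⁻¹)⁻¹ * d = (c * d * c⁻¹)⁻¹ * (d * (a * d * a⁻¹)) * (a * d * a⁻¹)⁻¹ := by group
          _ = (c * d * c⁻¹)⁻¹ * ((c * d * c⁻¹) * (a * (c * d * c⁻¹) * a⁻¹)) * (a * d * a⁻¹)⁻¹ := by
            rw [h5]
          _ = _ := by group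
      have h8 : (c * d * c⁻¹)⁻¹ * d ∈ centralizer (D : Set G) := by
        rw [h7]
        exact hDac (mul_mem (hmemDa _ hcd) (inv_mem (hmemDa _ hd)))
      have h9 : ⁅d, c⁆ = d * ((c * d * c⁻¹)⁻¹ * d) * d⁻¹ := by
        rw [commutatorElement_def]; group
      rw [h9]
      have h10 := mem_centralizer_iff.mp h8 d hd
      have h11 : d * ((c * d * c⁻¹)⁻¹ * d) * d⁻¹ = (c * d * c⁻¹)⁻¹ * d := by
        rw [h10]; group
      rw [h11]; exact h8
    rw [commutator_eq_bot_iff_le_centralizer]; exact h1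
  have hB₁Da : B₁ ≤ centralizer ((cj a D : Subgroup G) : Set G) := by
    intro c hc
    rw [← cj_centralizer, mem_cj]
    have : a⁻¹ * c * a = c := by
      have := hcomB c hc.1 a haB
      rw [mul_assoc, this]; group
    rw [this]; exact hB₁D hc
  -- rank two subgroup
  obtain ⟨E, hED, hEe, hEc⟩ : ∃ E : Subgroup G, E ≤ cj a D ∧ Cfsg.IsElementaryAbelian 2 E ∧
      2 < Nat.card E := by
    unfold Cfsg.PRankLE at hrk
    push Not at hrk
    obtain ⟨A, hA, hAp, hAc⟩ := hrk
    have hE₀ : Cfsg.IsElementaryAbelian 2 (A.map K.subtype) := ⟨⟨⟨by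
      rintro ⟨_, a, ha, rfl⟩ ⟨_, b, hb, rfl⟩
      apply Subtype.ext
      have := congrArg (fun z : A => ((z : K) : G)) (hA.1.1 ⟨a, ha⟩ ⟨b, hb⟩)
      exact this⟩⟩, by
      rintro _ ⟨a, ha, rfl⟩
      rw [← map_pow, hAp a ha, map_one]⟩
    obtain ⟨F, hF1, hF2, hF3⟩ := pull φ hφi hφr (map_subtype_le A) hE₀
    refine ⟨cj a F, cj_mono hF1, ⟨⟨⟨?_⟩⟩, ?_⟩, ?_⟩
    · rintro ⟨_, x, hx, rfl⟩ ⟨_, y, hy, rfl⟩
      apply Subtype.ext
      have := congrArg (fun z : F => MulAut.conj a (z : G)) (hF2.1.1.1 ⟨x, hx⟩ ⟨y, hy⟩)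
      simp only [Subgroup.coe_mul, map_mul] at this
      exact this
    · rintro _ ⟨x, hx, rfl⟩
      have := congrArg (MulAut.conj a) (hF2.2 x hx)
      rw [map_pow, map_one] at this
      exact this
    · rw [card_cj, hF3, Nat.card_congr (A.equivMapOfInjective _ (subtype_injective K)).symm.toEquiv]
      rwa [pow_one] at hAc
  have hinf : B₁ ⊓ E = ⊥ := by
    rw [eq_bot_iff]
    rintro x ⟨hx1, hx2⟩
    rw [mem_bot]
    have hxa : x * a = a * x := hcomB x hx1.1 a haB
    have hxD : x ∈ D := by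
      have h1 : a * x * a⁻¹ ∈ cj a (cj a D) := conj_mem_cj (hED hx2)
      rw [hcja, ← hxa] at h1
      have h2 : x * a * a⁻¹ = x := by group
      rwa [h2] at h1
    have h3 : φ ⟨x, hxD⟩ = φ 1 := by
      rw [hφ, map_one]
      simp only
      rw [(show Commute x a from hxa).mul_pow, pow_two a, haa, mul_one]
      exact hEe.2 x hx2
    exact congrArg Subtype.val (hφi h3)
  have hB₁E : B₁ ≤ centralizer (E : Set G) :=
    hB₁Da.trans (centralizer_le (SetLike.coe_subset_coe.mpr hED))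
  have hB₁el : Cfsg.IsElementaryAbelian 2 B₁ := ⟨⟨⟨by
    rintro ⟨x, hx⟩ ⟨y, hy⟩
    exact Subtype.ext (hcomB x hx.1 y hy.1)⟩⟩, fun x hx => hBel.2 x hx.1⟩
  have hsup := Cfsg.Agent.H12.Narrow.ea_sup hB₁E hB₁el hEe
  have hle : B₁ ⊔ E ≤ centralizer ({b} : Set G) ⊓ centralizer (D : Set G) :=
    sup_le (le_inf (inf_le_left.trans hBb) hB₁D) (le_inf (hED.trans hDa.1) (hED.trans hDac))
  have h1 := not_rank hle hsup hrank
  have h2 := Cfsg.Agent.H1.Basic.card_sup_mul_card_inf (hB₁E.trans (centralizer_le_normalizer _))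
  rw [hinf, card_bot, mul_one] at h2
  rw [h2] at h1
  have h3 : 0 < Nat.card B₁ := Nat.card_pos
  rw [hk] at hB₁card
  nlinarith

/-- Let G be a finite group of component type with the B-property and no nontrivial normal subgroup of odd order. Let a be an involution and K a component of C_G(a) such that (a) |K| is maximal among the orders of components of centralizers of involutions of G, (b) subject to (a) the 2-rank of the centralizer of K in C_G(a) is as large as possible, and (c) K has 2-rank at least 2. If B is an elementary abelian 2-subgroup of that centralizer of the largest possible order, then K is a component of C_G(b) for every non-identity b ∈ B. -/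
theorem result {G : Type*} [Group G] [Finite G] (hO : Cfsg.oddCore G = ⊥) (hB : Cfsg.HasBProperty G) (hct : Cfsg.IsComponentType G) (a : G) (ha : orderOf a = 2) (K : Subgroup G) (hKa : K ≤ Subgroup.centralizer ({a} : Set G)) (hK : Cfsg.IsComponent (K.subgroupOf (Subgroup.centralizer ({a} : Set G)))) (hmax : ∀ y : G, orderOf y = 2 → ∀ K' : Subgroup G, K' ≤ Subgroup.centralizer ({y} : Set G) → Cfsg.IsComponent (K'.subgroupOf (Subgroup.centralizer ({y} : Set G))) → Nat.card ↥K' ≤ Nat.card ↥K ∧ (Nat.card ↥K' = Nat.card ↥K → ∀ k : ℕ, Cfsg.PRankLE 2 k ↥(Subgroup.centralizer ({a} : Set G) ⊓ Subgroup.centralizer (K : Set G)) → Cfsg.PRankLE 2 k ↥(Subgroup.centralizer ({y} : Set G) ⊓ Subgroup.centralizer (K' : Set G)))) (hrk : ¬ Cfsg.PRankLE 2 1 ↥K) (B : Subgroup G) (hBle : B ≤ Subgroup.centralizer ({a} : Set G) ⊓ Subgroup.centralizer (K : Set G)) (hBel : Cfsg.IsElementaryAbelian 2 B) (hBmax : ∀ B' : Subgroup G, B' ≤ Subgroup.centralizer ({a} : Set G) ⊓ Subgroup.centralizer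 (K : Set G) → Cfsg.IsElementaryAbelian 2 B' → Nat.card ↥B' ≤ Nat.card ↥B) (b : G) (hb : b ∈ B) (hb1 : b ≠ 1) : K ≤ Subgroup.centralizer ({b} : Set G) ∧ Cfsg.IsComponent (K.subgroupOf (Subgroup.centralizer ({b} : Set G))) := by
  classical
  haveI : Fact (Nat.Prime 2) := ⟨Nat.prime_two⟩
  have hKc : Cfsg.IsComponentOf K (centralizer ({a} : Set G)) := ⟨hKa, hK⟩
  -- basic facts
  have hcomB : ∀ x ∈ B, ∀ y ∈ B, x * y = y * x := fun x hx y hy =>
    congrArg Subtype.val (hBel.1.1.1 ⟨x, hx⟩ ⟨y, hy⟩)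
  have hBK : B ≤ centralizer (K : Set G) := hBle.trans inf_le_right
  have hBa : B ≤ centralizer ({a} : Set G) := hBle.trans inf_le_left
  have haK : a ∈ centralizer (K : Set G) := by
    rw [mem_centralizer_iff]
    intro l hl
    exact mem_centralizer_singleton_iff.mp (hKa hl)
  have haB : a ∈ B := by
    have h1 : B ≤ centralizer (zpowers a : Set G) := by
      rw [← centralizer_singleton_eq]; exact hBa
    have hE : Cfsg.IsElementaryAbelian 2 (B ⊔ zpowers a) :=
      Cfsg.Agent.H12.Narrow.ea_sup h1 hBel (Cfsg.Agent.H12.Narrow.ea_zpowers (by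
        rw [← ha]; exact pow_orderOf_eq_one a))
    have h2 := hBmax _ (sup_le hBle (zpowers_le.mpr (show a ∈ centralizer ({a} : Set G) ⊓ centralizer (K : Set G)
      from ⟨mem_centralizer_singleton_iff.mpr rfl, haK⟩))) hE
    have h3 := Subgroup.eq_of_le_of_card_ge (le_sup_left : B ≤ B ⊔ zpowers a) h2
    rw [h3]; exact mem_sup_right (mem_zpowers a)
  have hbo : orderOf b = 2 := orderOf_eq_prime (hBel.2 b hb) hb1
  have hKb : K ≤ centralizer ({b} : Set G) := by
    intro k hk
    rw [mem_centralizer_singleton_iff]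
    exact mem_centralizer_iff.mp (hBK hb) k hk
  have hd : 2 ∣ Nat.card K := by
    by_contra hnd
    apply hrk
    intro A hA hAp
    have h1 : A = ⊥ := by
      rw [eq_bot_iff]
      intro x hx
      rw [mem_bot]
      have h2 : orderOf x ∣ 2 := orderOf_dvd_of_pow_eq_one (hAp x hx)
      rcases (Nat.dvd_prime Nat.prime_two).mp h2 with h3 | h3
      · exact orderOf_eq_one_iff.mp h3
      · exfalso; apply hnd; rw [← h3]; exact orderOf_dvd_natCard x
    rw [h1, card_bot]; norm_num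
  obtain ⟨hR, hKl⟩ := le_layer_of_B hO hB ha hbo (hcomB a haB b hb) hKc hKb hd
  have haC : a ∈ centralizer ({b} : Set G) := by
    rw [mem_centralizer_singleton_iff]; exact hcomB a haB b hb
  obtain ⟨D, hD, h⟩ := dichotomy_in haC ha hR hKl
  have hDmax := hmax b hbo D hD.1 hD.2
  rcases h with ⟨-, hKD⟩ | ⟨haD, φ, hφ, hφk, hφr⟩
  · have : K = D := Subgroup.eq_of_le_of_card_ge hKD hDmax.1
    rw [this]; exact hD
  exfalso
  have hBp : IsPGroup 2 B := fun e => ⟨1, by rw [pow_one]; exact Subtype.ext (hBel.2 e e.2)⟩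
  obtain ⟨k, hk⟩ := hBp.exists_card_eq
  have hcardle : Nat.card K ≤ Nat.card D := by
    rw [hφr]
    exact Nat.card_le_card_of_surjective φ.rangeRestrict φ.rangeRestrict_surjective
  have hcard : Nat.card D = Nat.card K := le_antisymm hDmax.1 hcardle
  have hφi : Function.Injective φ := by
    have h1 : Function.Surjective φ.rangeRestrict := φ.rangeRestrict_surjective
    have h2 : Function.Injective φ.rangeRestrict := by
      have h3 := (Nat.bijective_iff_surjective_and_card φ.rangeRestrict).mpr ⟨h1, by rw [← hφr]; exact hcard⟩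
      exact h3.1
    exact φ.rangeRestrict_injective_iff.mp h2
  have hrank := hDmax.2 hcard k (rank_le fun B' h1 h2 => by rw [← hk]; exact hBmax B' h1 h2)
  have hq := isQuasisimple_of hKc
  exact diag_contra ha haB hb hBel hBK hk (by
    rintro rfl
    exact IsQuasisimple.not_isMulCommutative hq ⟨⟨fun a b => Subsingleton.elim _ _⟩⟩) (by haveI := hq.1; exact commutator_eq_self)
    hrk hD haD φ hφ hφi hφr hrank

end Cfsg.Agent.S1305
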