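import Cfsg.Statements.S1306
import Cfsg.Agent.H11_CompOf

set_option autoImplicit false
open Cfsg

namespace Cfsg.Agent.S1306

open Subgroup Cfsg.Agent.H13.Syl Cfsg.Agent.H11.CompOf

/-- Let G be finite, x an involution and L ≤ C_G(x) a component of C_G(x). Suppose L is a component of C_G(y) for every involution y ∈ C_G(L), and ⁅L, g L g⁻¹⁆ ≠ 1 whenever g L g⁻¹ ≠ L. Then L is a standard subgroup of G. -/
theorem result {G : Type*} [Group G] [Finite G] (x : G) (hx : orderOf x = 2) (L : Subgroup G) (hLx : L ≤ Subgroup.centralizer ({x} : Set G)) (hL : Cfsg.IsComponent (L.subgroupOf (Subgroup.centralizer ({x} : Set G)))) (hne : ∀ y : G, orderOf y = 2 → y ∈ Subgroup.centralizer (L : Set G) → L ≤ Subgroup.centralizer ({y} : Set G) ∧ Cfsg.IsComponent (L.subgroupOf (Subgroup.centralizer ({y} : Set G)))) (hnc : ∀ g : G, L.map (MulAut.conj g).toMonoidHom ≠ L → ⁅L, L.map (MulAut.conj g).toMonoidHom⁆ ≠ ⊥) : Cfsg.IsStandardSubgroup L := by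
  classical
  have key : ∀ g : G, 2 ∣ Nat.card ↥(centralizer (L : Set G) ⊓ cj g (centralizer (L : Set G))) →
      cj g L = L := by
    intro g hd
    haveI : Fact (Nat.Prime 2) := ⟨Nat.prime_two⟩
    obtain ⟨y, hy⟩ := exists_prime_orderOf_dvd_card' 2 hd
    have hyG : orderOf (y : G) = 2 := by rw [Subgroup.orderOf_coe]; exact hy
    have hy1 : (y : G) ∈ centralizer (L : Set G) := y.2.1
    obtain ⟨z, hz, hzy⟩ := y.2.2
    have hzy' : g * z * g⁻¹ = y := hzy
    have hzo : orderOf z = 2 := by
      rw [← hyG, ← hzy']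
      have := (MulAut.conj g).orderOf_eq z
      rw [MulAut.conj_apply] at this
      exact this.symm
    have h1 := hne _ hyG hy1
    have h2 := isComponentOf_cj (hne _ hzo hz) g
    rw [cj_centralizer_singleton, hzy'] at h2
    by_contra hcon
    apply hnc g hcon
    exact commutator_of_ne h1 h2 (Ne.symm hcon)
  refine ⟨isQuasisimple_of (K := L) (H := centralizer ({x} : Set G)) ⟨hLx, hL⟩, ⟨?_, ?_⟩, hnc, ?_⟩
  · have hxL : x ∈ centralizer (L : Set G) := by
      rw [mem_centralizer_iff]
      intro l hl
      exact mem_centralizer_singleton_iff.mp (hLx hl)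
    rw [even_iff_two_dvd, ← hx, ← Subgroup.orderOf_mk x hxL]
    exact orderOf_dvd_natCard _
  · intro g hg
    by_contra hodd
    rw [Nat.not_odd_iff_even, even_iff_two_dvd] at hodd
    have h1 := key g hodd
    apply hg
    rw [mem_normalizer_iff_cj, cj_centralizer, h1]
  · ext g
    rw [mem_normalizer_iff_cj, mem_normalizer_iff_cj]
    constructor
    · intro h; rw [cj_centralizer, h]
    · intro h
      apply key
      rw [h, inf_idem]
      have hxL : x ∈ centralizer (L : Set G) := by
        rw [mem_centralizer_iff]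
        intro l hl
        exact mem_centralizer_singleton_iff.mp (hLx hl)
      rw [← hx, ← Subgroup.orderOf_mk x hxL]
      exact orderOf_dvd_natCard _

end Cfsg.Agent.S1306
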