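import Cfsg.Statements.S1316
import Mathlib
import Cfsg.Agent.H11_FStar

set_option autoImplicit false
open Cfsg

namespace Cfsg.Agent.S1316

/-- For a finite group X, E(X) equals the intersection of the derived series of F*(X) (its last term). -/
theorem result {X : Type*} [Group X] [Finite X] : (⨅ n : ℕ, (derivedSeries ↥(Cfsg.generalizedFittingSubgroup X) n).map (Cfsg.generalizedFittingSubgroup X).subtype) = Cfsg.layer X := by
  set S := Cfsg.generalizedFittingSubgroup X with hS
  apply le_antisymm
  · -- F*(X) / E(X) is solvable
    let E : Subgroup S := (Cfsg.layer X).subgroupOf S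
    have hEn : E.Normal := Subgroup.normal_subgroupOf
    let φ : Cfsg.fittingSubgroup X →* S ⧸ E :=
      (QuotientGroup.mk' E).comp (Subgroup.inclusion H11.FStar.fitting_le_generalizedFitting)
    have hφ : Function.Surjective φ := by
      intro y
      obtain ⟨x, rfl⟩ := QuotientGroup.mk'_surjective E y
      have hx : (x : X) ∈ Cfsg.layer X ⊔ Cfsg.fittingSubgroup X := x.2
      rw [Subgroup.mem_sup_of_normal_left] at hx
      obtain ⟨e, he, f, hf, hef⟩ := hx
      refine ⟨⟨f, hf⟩, ?_⟩
      have heS : e ∈ S := H11.FStar.layer_le_generalizedFitting he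
      have hxe : x = ⟨e, heS⟩ * Subgroup.inclusion H11.FStar.fitting_le_generalizedFitting ⟨f, hf⟩ := by
        ext; exact hef.symm
      show QuotientGroup.mk' E _ = QuotientGroup.mk' E x
      rw [hxe, map_mul]
      have : QuotientGroup.mk' E ⟨e, heS⟩ = 1 := by
        rw [← MonoidHom.mem_ker, QuotientGroup.ker_mk']; exact he
      rw [this, one_mul]
    haveI : Group.IsSolvable ↥(Cfsg.fittingSubgroup X) := inferInstance
    have hsol : Group.IsSolvable (S ⧸ E) := Group.isSolvable_of_surjective hφ
    obtain ⟨n, hn⟩ := hsol.solvable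
    refine (iInf_le _ n).trans ?_
    have h1 := map_derivedSeries_le_derivedSeries (QuotientGroup.mk' E) n
    rw [hn, le_bot_iff, Subgroup.map_eq_bot_iff, QuotientGroup.ker_mk'] at h1
    rintro _ ⟨y, hy, rfl⟩
    exact h1 hy
  · apply le_iInf
    intro n
    induction n with
    | zero =>
      rw [derivedSeries_zero, ← MonoidHom.range_eq_map, Subgroup.range_subtype]
      exact H11.FStar.layer_le_generalizedFitting
    | succ n ih =>
      rw [derivedSeries_succ, Subgroup.map_commutator, ← H11.Components.layer_perfect]
      exact Subgroup.commutator_mono ih ih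

end Cfsg.Agent.S1316
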