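import Cfsg.Statements.S1318
import Mathlib
import Cfsg.Agent.H11_FStar

set_option autoImplicit false
open Cfsg

namespace Cfsg.Agent.S1318

/-- Let X be finite and S ≤ F*(X) a subgroup subnormal in F*(X). Then F(S) = F(X) ∩ S (inside X) and S = F(S)E(S). -/
theorem result {X : Type*} [Group X] [Finite X] (S : Subgroup X) (hS : S ≤ Cfsg.generalizedFittingSubgroup X) (hsn : (S.subgroupOf (Cfsg.generalizedFittingSubgroup X)).IsSubnormal) : (Cfsg.fittingSubgroup ↥S).map S.subtype = Cfsg.fittingSubgroup X ⊓ S ∧ Cfsg.fittingSubgroup ↥S ⊔ Cfsg.layer ↥S = ⊤ := by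
  have hsub : S.IsSubnormal := Subgroup.IsSubnormal.trans hS hsn
    (inferInstance : (Cfsg.generalizedFittingSubgroup X).Normal).isSubnormal
  refine ⟨H11.Cores.map_fittingSubgroup_of_isSubnormal hsub, ?_⟩
  rw [sup_comm]
  exact H11.FStar.layer_sup_fitting_eq_top_of_isSubnormal hsub hS

end Cfsg.Agent.S1318
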