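import Cfsg.Statements.S1319
import Mathlib
import Cfsg.Agent.H11_FStar

set_option autoImplicit false
open Cfsg

namespace Cfsg.Agent.S1319

/-- Let A be a subnormal subgroup of the finite group X with E(A) = A. Then A ≤ E(X) and A is normal in E(X). -/
theorem result {X : Type*} [Group X] [Finite X] (A : Subgroup X) (hsn : A.IsSubnormal) (hA : Cfsg.layer ↥A = ⊤) : A ≤ Cfsg.layer X ∧ (A.subgroupOf (Cfsg.layer X)).Normal := by
  have hle : A ≤ Cfsg.layer X := by
    have h := H11.Components.map_layer_le_of_isSubnormal hsn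
    rw [hA, ← MonoidHom.range_eq_map, Subgroup.range_subtype] at h
    exact h
  refine ⟨hle, ?_⟩
  have h1 := H11.Components.map_layer_eq_sSup_of_isSubnormal hsn
  rw [hA, ← MonoidHom.range_eq_map, Subgroup.range_subtype] at h1
  rw [Subgroup.normal_subgroupOf_iff_le_normalizer hle]
  rw [h1]
  exact H11.FStar.layer_le_normalizer_sSup (fun K hK => hK.1)

end Cfsg.Agent.S1319
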