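import Cfsg.Statements.S1321
import Mathlib
import Cfsg.Agent.H11_FStar

set_option autoImplicit false
open Cfsg

namespace Cfsg.Agent.S1321

/-- Let X be finite and U ≤ X. Then E(X) is generated by C_{E(X)}(U) together with ⁅E(X), U⁆ (indeed it is their product, ⁅E(X), U⁆ being normal in E(X)). -/
theorem result {X : Type*} [Group X] [Finite X] (U : Subgroup X) : Cfsg.layer X = (Cfsg.layer X ⊓ Subgroup.centralizer (U : Set X)) ⊔ ⁅Cfsg.layer X, U⁆ ∧ ⁅Cfsg.layer X, U⁆ ≤ Cfsg.layer X := by
  set E := Cfsg.layer X with hE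
  have hEU : ⁅E, U⁆ ≤ E := Subgroup.commutator_le_left E U
  refine ⟨?_, hEU⟩
  apply le_antisymm _ (sup_le inf_le_left hEU)
  have hn : (⁅E, U⁆.subgroupOf E).Normal := by
    rw [Subgroup.normal_subgroupOf_iff_le_normalizer hEU]
    exact Subgroup.normalizer_commutator_ge_left E U
  have hsub : (⁅E, U⁆).IsSubnormal := Subgroup.IsSubnormal.trans hEU hn.isSubnormal
    (inferInstance : E.Normal).isSubnormal
  rw [H11.Components.layer_le_iff]
  intro K hK
  rcases H11.Components.le_or_commutator_eq_bot hK hsub with h | h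
  · exact h.trans le_sup_right
  · refine le_trans (le_inf (H11.Components.le_layer hK) ?_) le_sup_left
    rw [← Subgroup.commutator_eq_bot_iff_le_centralizer]
    apply H11.Components.commutator_eq_bot_of_perfect (H11.Components.IsComponent.perfect hK)
    rw [Subgroup.commutator_comm, eq_bot_iff, ← h]
    exact Subgroup.commutator_mono le_rfl (Subgroup.commutator_mono (H11.Components.le_layer hK) le_rfl)

end Cfsg.Agent.S1321
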