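import Cfsg.Statements.S1328
import Cfsg.Agent.H11_Sub
import Cfsg.Agent.H11_FStar

set_option autoImplicit false
open Cfsg

namespace Cfsg.Agent.S1328

open Subgroup Cfsg.Agent.H11.Cores Cfsg.Agent.H11.Components Cfsg.Agent.H13.Syl
  Cfsg.Agent.H11.Bal Cfsg.Agent.H11.CompOf Cfsg.Agent.H11.FStar Cfsg.Agent.H11.Sub
open scoped commutatorElement

universe u

theorem OO_map_inj {W G : Type u} [Group W] [Group G] [Finite G] [Finite W] (f : W →* G) (hf : Function.Injective f)
    (p : ℕ) [Fact p.Prime] (K : Subgroup W) : (OO p K).map f = OO p (K.map f) := by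
  let e : K ≃* ↥(K.map f) := K.equivMapOfInjective f hf
  have h1 : (Cfsg.pPrimeCore p K).map e.toMonoidHom = Cfsg.pPrimeCore p ↥(K.map f) :=
    map_equiv_pPrimeCore (p := p) e
  unfold OO
  rw [← h1, Subgroup.map_map, Subgroup.map_map]
  rfl

/-- the situation inside one group -/
theorem main {W : Type*} [Group W] [Finite W] (hO : Cfsg.pPrimeCore 2 W = ⊥) {t : W}
    (ht : orderOf t = 2) {Y : Subgroup W} (hY1 : Y ≠ ⊥) (hY : Y ≤ Cfsg.centralizerPPrimeCore 2 t) :
    ∃ L : Subgroup W, Cfsg.IsComponent L ∧ t ∈ normalizer (L : Set W) ∧ Y ≤ normalizer (L : Set W) ∧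
      t ∉ centralizer (L : Set W) ∧ ¬ Y ≤ centralizer (L : Set W) := by
  haveI : Fact (Nat.Prime 2) := ⟨Nat.prime_two⟩
  obtain ⟨L, hL, hYL⟩ : ∃ L : Subgroup W, Cfsg.IsComponent L ∧ ¬ Y ≤ centralizer (L : Set W) := by
    by_contra hcon
    push Not at hcon
    have h1 : Cfsg.layer W ≤ centralizer (Y : Set W) := by
      rw [layer_le_iff]
      intro K hK
      rw [le_centralizer_iff]; exact hcon K hK
    have h2 : Y ≤ centralizer (Cfsg.pCore 2 W : Set W) := hY.trans (cPC_le_centralizer_pCore 2 ht)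
    have h3 : Cfsg.fittingSubgroup W ≤ Cfsg.pCore 2 W := by
      rw [fittingSubgroup_eq_iSup_pCore]
      apply iSup_le
      rintro ⟨q, hq⟩
      by_cases h : q = 2
      · subst h; exact le_rfl
      · haveI : Fact q.Prime := ⟨hq⟩
        have h4 : Cfsg.pCore q W ≤ Cfsg.pPrimeCore 2 W := by
          apply le_pPrimeCore
          obtain ⟨n, hn⟩ := (pCore_isPGroup (G := W) q).exists_card_eq
          show (Nat.card (Cfsg.pCore q W)).Coprime 2
          rw [hn]
          exact Nat.Coprime.pow_left n ((Nat.coprime_primes hq Nat.prime_two).mpr h)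
        change Cfsg.pCore q W ≤ _
        refine h4.trans ?_
        rw [hO]; exact bot_le
    have h5 : Y ≤ centralizer (Cfsg.generalizedFittingSubgroup W : Set W) := by
      rw [le_centralizer_iff, Cfsg.generalizedFittingSubgroup]
      exact sup_le h1 (h3.trans (le_centralizer_iff.mp h2))
    have h6 : Y ≤ Cfsg.pCore 2 W := (h5.trans centralizer_generalizedFitting_le_fitting).trans h3
    apply hY1
    have h7 : (Nat.card Y).Coprime 2 :=
      Nat.Coprime.coprime_dvd_left (card_dvd_of_le hY) (cPC_coprime 2 t)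
    rw [eq_bot_iff, ← Cfsg.Agent.H1.Basic.disjoint_of_coprime_card (H := Y) (K := Cfsg.pCore 2 W) (by
      obtain ⟨n, hn⟩ := (pCore_isPGroup (G := W) 2).exists_card_eq
      rw [hn]; exact h7.pow_right n)]
    exact le_inf le_rfl h6
  have h8 : ⁅L, zpowers t⁆ = L := by
    by_contra hne
    have h9 := commute_of_commutator_ne 2 hO ht hL hne
    apply hYL
    rw [commutator_eq_bot_iff_le_centralizer, le_centralizer_iff] at h9
    exact hY.trans h9
  refine ⟨L, hL, ?_, hY.trans (cPC_le_normalizer 2 hO ht hL), ?_, hYL⟩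
  · rw [← zpowers_le]
    exact le_normalizer_iff_commutator_le_left.mpr h8.le
  · intro h
    have h9 : ⁅L, zpowers t⁆ = ⊥ := by
      rw [commutator_comm, commutator_eq_bot_iff_le_centralizer, zpowers_le]; exact h
    rw [h8] at h9
    exact IsComponent.ne_bot hL h9

/-- Let G be finite, H ≤ G with O(H) = 1, t an involution of G normalizing H, and Y a nontrivial subgroup of O(C_H(t)). Then some component E of H is normalized by t and by Y and centralized by neither t nor Y. -/
theorem result {G : Type*} [Group G] [Finite G] (H : Subgroup G) (hO : Cfsg.oddCore ↥H = ⊥) (t : G) (ht : orderOf t = 2) (htH : t ∈ Subgroup.normalizer (H : Set G)) (Y : Subgroup G) (hY1 : Y ≠ ⊥) (hY : Y ≤ (Cfsg.oddCore ↥(H ⊓ Subgroup.centralizer ({t} : Set G))).map (H ⊓ Subgroup.centralizer ({t} : Set G)).subtype) : ∃ E : Subgroup ↥H, Cfsg.IsComponent E ∧ (E.map H.subtype).map (MulAut.conj t).toMonoidHom = E.map H.subtype ∧ Y ≤ Subgroup.normalizer ((E.map H.subtype : Subgroup G) : Set G) ∧ ¬ (t ∈ Subgroup.centralizer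 ((E.map H.subtype : Subgroup G) : Set G)) ∧ ¬ (Y ≤ Subgroup.centralizer ((E.map H.subtype : Subgroup G) : Set G)) := by
  classical
  haveI : Fact (Nat.Prime 2) := ⟨Nat.prime_two⟩
  set W : Subgroup G := H ⊔ zpowers t with hW
  have hHW : H ≤ W := le_sup_left
  have htW : t ∈ W := mem_sup_right (mem_zpowers t)
  have hWn : W ≤ normalizer (H : Set G) := sup_le le_normalizer (zpowers_le.mpr htH)
  haveI hHn : (H.subgroupOf W).Normal := normal_subgroupOf_of_le_normalizer hWn
  let t' : W := ⟨t, htW⟩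
  have ht' : orderOf t' = 2 := by rw [← Subgroup.orderOf_coe]; exact ht
  -- elements of W
  have hWel : ∀ w : W, ∃ n : ℤ, (w * t' ^ n) ∈ H.subgroupOf W := by
    rintro ⟨w, hw⟩
    rw [hW, Cfsg.Agent.H1.Basic.mem_sup_iff_of_le_normalizer (zpowers_le.mpr htH)] at hw
    obtain ⟨h, hh, k, ⟨n, rfl⟩, rfl⟩ := hw
    refine ⟨-n, ?_⟩
    rw [mem_subgroupOf]
    change h * t ^ n * t ^ (-n) ∈ H
    rw [mul_assoc, ← zpow_add, add_neg_cancel, zpow_zero, mul_one]
    exact hh
  let f : W →* (W ⧸ H.subgroupOf W) := QuotientGroup.mk' _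
  have hgen : ∀ q : W ⧸ H.subgroupOf W, q ∈ zpowers (f t') := by
    intro q
    obtain ⟨w, rfl⟩ := QuotientGroup.mk'_surjective _ q
    obtain ⟨n, hn⟩ := hWel w
    have h1 : f (w * t' ^ n) = 1 := (QuotientGroup.eq_one_iff _).mpr hn
    rw [map_mul, map_zpow] at h1
    have h2 : f w = (f t') ^ (-n) := by rw [zpow_neg]; exact eq_inv_of_mul_eq_one_left h1
    exact ⟨-n, h2.symm⟩
  have hcardq : Nat.card (W ⧸ H.subgroupOf W) ∣ 2 := by
    have h1 : zpowers (f t') = ⊤ := by rw [eq_top_iff]; intro q _; exact hgen q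
    rw [← Subgroup.card_top, ← h1, Nat.card_zpowers, ← ht']
    exact orderOf_map_dvd f t'
  -- O(W) = 1
  have hOW : Cfsg.pPrimeCore 2 W = ⊥ := by
    set N := Cfsg.pPrimeCore 2 W with hN
    have hNc : (Nat.card N).Coprime 2 := pPrimeCore_coprime 2
    have hle : N ≤ H.subgroupOf W := by
      intro x hx
      have h1 : orderOf (f x) ∣ 2 := (_root_.orderOf_dvd_natCard _).trans hcardq
      have h2 : orderOf (f x) ∣ Nat.card N := by
        refine (orderOf_map_dvd f x).trans ?_
        rw [← Subgroup.orderOf_mk x hx]; exact orderOf_dvd_natCard _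
      have h3 : orderOf (f x) = 1 := Nat.eq_one_of_dvd_coprimes hNc h2 h1
      rw [orderOf_eq_one_iff] at h3
      exact (QuotientGroup.eq_one_iff _).mp h3
    have hcop : (Nat.card ((N.map W.subtype).subgroupOf H)).Coprime 2 := by
      rw [Nat.card_congr (subgroupOfEquivOfLe (show N.map W.subtype ≤ H by
        rintro _ ⟨x, hx, rfl⟩; exact mem_subgroupOf.mp (hle hx))).toEquiv,
        Nat.card_congr (N.equivMapOfInjective _ (subtype_injective W)).symm.toEquiv]
      exact hNc
    have hnor : ((N.map W.subtype).subgroupOf H).Normal := by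
      have h1 : W ≤ normalizer ((N.map W.subtype : Subgroup G) : Set G) := by
        have := Subgroup.le_normalizer_map (H := N) W.subtype
        rw [Subgroup.normalizer_eq_top, ← MonoidHom.range_eq_map, range_subtype] at this
        exact this
      exact normal_subgroupOf_of_le_normalizer (hHW.trans h1)
    have h5 : (N.map W.subtype).subgroupOf H ≤ Cfsg.oddCore ↥H := le_pPrimeCore 2 hcop
    rw [hO] at h5
    rw [eq_bot_iff]
    intro x hx
    rw [mem_bot]
    have hxH : (x : G) ∈ H := mem_subgroupOf.mp (hle hx)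
    have h6 : (⟨x, hxH⟩ : H) ∈ (N.map W.subtype).subgroupOf H := mem_subgroupOf.mpr ⟨x, hx, rfl⟩
    have h7 := mem_bot.mp (h5 h6)
    exact Subtype.ext (congrArg (fun z : H => (z : G)) h7)
  -- Y inside W
  have hYle : Y ≤ H ⊓ centralizer ({t} : Set G) := hY.trans (map_subtype_le _)
  have hYW : Y ≤ W := hYle.trans (inf_le_left.trans hHW)
  have hYcore : Y.subgroupOf W ≤ Cfsg.centralizerPPrimeCore 2 t' := by
    have h1 : (H.subgroupOf W ⊓ centralizer ({t'} : Set W)).map W.subtype =
        H ⊓ centralizer ({t} : Set G) := by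
      ext x
      constructor
      · rintro ⟨y, ⟨hy1, hy2⟩, rfl⟩
        refine ⟨mem_subgroupOf.mp hy1, ?_⟩
        have h2 := mem_centralizer_singleton_iff.mp hy2
        exact mem_centralizer_singleton_iff.mpr (congrArg (fun z : W => (z : G)) h2)
      · rintro ⟨hx1, hx2⟩
        refine ⟨⟨x, hHW hx1⟩, ⟨mem_subgroupOf.mpr hx1, ?_⟩, rfl⟩
        have h2 := mem_centralizer_singleton_iff.mp hx2
        exact mem_centralizer_singleton_iff.mpr (Subtype.ext h2)
    have h2 : Y ≤ (OO 2 (H.subgroupOf W ⊓ centralizer ({t'} : Set W))).map W.subtype := by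
      rw [OO_map_inj W.subtype (subtype_injective W), h1]; exact hY
    have h3 : Y.subgroupOf W ≤ OO 2 (H.subgroupOf W ⊓ centralizer ({t'} : Set W)) := by
      intro y hy
      obtain ⟨z, hz, hzy⟩ := h2 (mem_subgroupOf.mp hy)
      have : z = y := Subtype.ext hzy
      rwa [← this]
    refine h3.trans ?_
    rw [cPC_eq]
    apply le_OO 2 ((OO_le _ _).trans inf_le_right) (OO_coprime 2 _)
    refine le_trans ?_ (normalizer_le_normalizer_OO 2 _)
    refine le_trans ?_ (Subgroup.inf_normalizer_le_normalizer_inf)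
    refine le_inf ?_ le_normalizer
    rw [Subgroup.normalizer_eq_top]; exact le_top
  have hY1' : Y.subgroupOf W ≠ ⊥ := by
    intro h
    apply hY1
    rw [← map_subgroupOf_eq_of_le hYW, h, Subgroup.map_bot]
  obtain ⟨L, hL, h1, h2, h3, h4⟩ := main hOW ht' hY1' hYcore
  -- L ≤ H
  have hLH : L ≤ H.subgroupOf W := by
    have hperf := IsComponent.perfect hL
    have hc : ∀ a b : W, f ⁅a, b⁆ = 1 := by
      intro a b
      rw [map_commutatorElement, commutatorElement_eq_one_iff_mul_comm]
      obtain ⟨i, hi⟩ := hgen (f a)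
      obtain ⟨j, hj⟩ := hgen (f b)
      rw [← hi, ← hj]
      exact (Commute.zpow_zpow_self (f t') i j).eq
    rw [← hperf, commutator_le]
    intro a _ b _
    exact (QuotientGroup.eq_one_iff _).mp (hc a b)
  have hLof : Cfsg.IsComponentOf (L.map W.subtype) W := by
    refine ⟨map_subtype_le L, ?_⟩
    rw [Subgroup.subgroupOf, comap_map_eq_self_of_injective (subtype_injective W)]
    exact hL
  have hLH' : L.map W.subtype ≤ H := by
    rintro _ ⟨x, hx, rfl⟩; exact mem_subgroupOf.mp (hLH hx)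
  have hLofH := mono_of hLof hLH' hHW
  refine ⟨(L.map W.subtype).subgroupOf H, hLofH.2, ?_⟩
  rw [map_subgroupOf_eq_of_le hLH']
  refine ⟨?_, ?_, ?_, ?_⟩
  · exact mem_normalizer_iff_cj.mp ((normalizer_map_subtype_iff L t').mpr h1)
  · intro y hy
    exact (normalizer_map_subtype_iff L ⟨y, hYW hy⟩).mpr (h2 (mem_subgroupOf.mpr hy))
  · intro h
    apply h3
    rw [mem_centralizer_iff]
    intro l hl
    exact Subtype.ext (mem_centralizer_iff.mp h l ⟨l, hl, rfl⟩)
  · intro h
    apply h4
    intro y hy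
    rw [mem_centralizer_iff]
    intro l hl
    exact Subtype.ext (mem_centralizer_iff.mp (h (mem_subgroupOf.mp hy)) l ⟨l, hl, rfl⟩)

end Cfsg.Agent.S1328
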