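import Cfsg.Statements.S1331
import Cfsg.Agent.H11_SF2

set_option autoImplicit false
open Cfsg

namespace Cfsg.Agent.S1331

/-- Let θ be a solvable A-signalizer functor on the finite group G for the prime p, A elementary abelian of rank at least 3, X a member of the family of θ, and B ≤ A with |B| ≥ p². Then X is generated by the subgroups X ∩ ⋂_{d ∈ D, d ≠ 1} θ d, D ranging over the subgroups of index p in B. -/
theorem result {G : Type*} [Group G] [Finite G] (p : ℕ) [Fact p.Prime] (A : Subgroup G) (hA : Cfsg.IsElementaryAbelian p A) (hA3 : p ^ 3 ≤ Nat.card ↥A) (θ : G → Subgroup G) (hθ : Cfsg.IsSolvableSignalizerFunctor p A θ) (X : Subgroup G) (hX : X ∈ Cfsg.signalizerFamily p A θ) (B : Subgroup G) (hB : B ≤ A) (hB2 : p ^ 2 ≤ Nat.card ↥B) : X = ⨆ D : {D : Subgroup G // D ≤ B ∧ D.relIndex B = p}, X ⊓ Cfsg.signalizerInf (D : Subgroup G) θ := by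
  have hp : p.Prime := Fact.out
  apply le_antisymm
  · have hBE := H11.Bal.isElementaryAbelian_mono hA hB
    apply H11.SF.le_of_hyperplanes hBE hX.2.1 (hB.trans (H11.SF.family_normalizer hX))
    intro D hDB hDi
    -- choose a subgroup of index exactly `p` inside `D`
    have hex : ∃ D' : Subgroup G, D' ≤ D ∧ D'.relIndex B = p := by
      obtain ⟨n, hn⟩ := (H11.Bal.ea_isPGroup hBE).exists_card_eq
      have hn2 : 2 ≤ n := by
        rw [hn] at hB2
        exact (Nat.pow_le_pow_iff_right hp.one_lt).mp hB2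
      have h1 : p ^ (n - 1) ≤ Nat.card D := by
        have h2 := H11.SF.card_eq_mul_relIndex hDB
        rw [hn] at h2
        have h3 : p ^ n = p ^ (n - 1) * p := by
          rw [← pow_succ]; congr 1; omega
        have h4 : p ^ (n - 1) * p ≤ Nat.card D * p := by
          rw [← h3, ← h2]
          exact Nat.mul_le_mul_left _ hDi
        exact Nat.le_of_mul_le_mul_right h4 hp.pos
      obtain ⟨D', hD', hc⟩ := H11.Bal.exists_sub_card
        (H11.Bal.ea_isPGroup (H11.Bal.isElementaryAbelian_mono hBE hDB)) h1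
      refine ⟨D', hD', ?_⟩
      have h2 := H11.SF.card_eq_mul_relIndex (hD'.trans hDB)
      rw [hn, hc] at h2
      have h3 : p ^ n = p ^ (n - 1) * p := by
        rw [← pow_succ]; congr 1; omega
      rw [h3] at h2
      exact Nat.eq_of_mul_eq_mul_left (pow_pos hp.pos _) h2
    obtain ⟨D', hD', hi⟩ := hex
    refine le_trans ?_ (le_iSup (fun D : {D : Subgroup G // D ≤ B ∧ D.relIndex B = p} =>
      X ⊓ Cfsg.signalizerInf (D : Subgroup G) θ) ⟨D', hD'.trans hDB, hi⟩)
    refine le_inf inf_le_left ?_
    refine le_trans (inf_le_inf_left X (Subgroup.centralizer_le hD')) ?_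
    exact H11.SF.family_cap_inf hX (hD'.trans (hDB.trans hB))
  · exact iSup_le (fun D => inf_le_left)

end Cfsg.Agent.S1331
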