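import Cfsg.Statements.S1336
import Cfsg.Agent.H11_PT4
import Cfsg.Agent.H17_StrEmb

set_option autoImplicit false
open Cfsg

namespace Cfsg.Agent.S1336

open Subgroup Cfsg.Agent.H13.Syl

/-- the adjacency relation -/
def RR {G : Type*} [Group G] (p : ℕ) (A B : Subgroup G) : Prop :=
  Cfsg.IsElementaryAbelian p A ∧ p ^ 1 ≤ Nat.card ↥A ∧ Cfsg.IsElementaryAbelian p B ∧
        p ^ 1 ≤ Nat.card ↥B ∧ ∀ a ∈ A, ∀ b ∈ B, a * b = b * a

theorem RR.symm {G : Type*} [Group G] {p : ℕ} {A B : Subgroup G} (h : RR p A B) : RR p B A :=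
  ⟨h.2.2.1, h.2.2.2.1, h.1, h.2.1, fun b hb a ha => (h.2.2.2.2 a ha b hb).symm⟩

abbrev Cn {G : Type*} [Group G] (p : ℕ) (A B : Subgroup G) : Prop := Relation.ReflTransGen (RR p) A B

theorem Cn.symm {G : Type*} [Group G] {p : ℕ} {A B : Subgroup G} (h : Cn p A B) : Cn p B A := by
  induction h with
  | refl => exact .refl
  | tail _ h2 ih => exact Relation.ReflTransGen.head h2.symm ih

theorem RR.cj {G : Type*} [Group G] {p : ℕ} {A B : Subgroup G} (h : RR p A B) (g : G) :
    RR p (cj g A) (cj g B) := by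
  have key : ∀ C : Subgroup G, Cfsg.IsElementaryAbelian p C → Cfsg.IsElementaryAbelian p (H13.Syl.cj g C) := by
    intro C hC
    refine ⟨⟨⟨?_⟩⟩, ?_⟩
    · rintro ⟨_, a, ha, rfl⟩ ⟨_, b, hb, rfl⟩
      apply Subtype.ext
      have := congrArg (fun z : C => MulAut.conj g (z : G)) (hC.1.1.1 ⟨a, ha⟩ ⟨b, hb⟩)
      simp only [Subgroup.coe_mul, map_mul] at this
      exact this
    · rintro _ ⟨a, ha, rfl⟩
      have := congrArg (MulAut.conj g) (hC.2 a ha)
      rw [map_pow, map_one] at this
      exact this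
  refine ⟨key A h.1, by rw [card_cj]; exact h.2.1, key B h.2.2.1, by rw [card_cj]; exact h.2.2.2.1, ?_⟩
  rintro _ ⟨a, ha, rfl⟩ _ ⟨b, hb, rfl⟩
  have := congrArg (MulAut.conj g) (h.2.2.2.2 a ha b hb)
  simp only [map_mul] at this
  exact this

theorem Cn.cj {G : Type*} [Group G] {p : ℕ} {A B : Subgroup G} (h : Cn p A B) (g : G) :
    Cn p (H13.Syl.cj g A) (H13.Syl.cj g B) := by
  induction h with
  | refl => exact .refl
  | tail _ h2 ih => exact Relation.ReflTransGen.tail ih (h2.cj g)

theorem ea_zpowers {G : Type*} [Group G] {p : ℕ} {x : G} (hx : orderOf x = p) :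
    Cfsg.IsElementaryAbelian p (zpowers x) := by
  refine ⟨inferInstance, ?_⟩
  intro a ha
  obtain ⟨k, rfl⟩ := mem_zpowers_iff.1 ha
  rw [← zpow_natCast, ← zpow_mul, mul_comm, zpow_mul, zpow_natCast, ← hx, pow_orderOf_eq_one, one_zpow]

/-- in a `p`-subgroup everything is connected -/
theorem cn_pgroup {G : Type*} [Group G] [Finite G] {p : ℕ} [hp : Fact p.Prime] {Q A B : Subgroup G}
    (hQ : IsPGroup p Q) (hA : A ≤ Q) (hB : B ≤ Q) (hAe : Cfsg.IsElementaryAbelian p A)
    (hA1 : p ^ 1 ≤ Nat.card ↥A) (hBe : Cfsg.IsElementaryAbelian p B) (hB1 : p ^ 1 ≤ Nat.card ↥B) :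
    Cn p A B := by
  have hQne : Q ≠ ⊥ := by
    rintro rfl
    have : A = ⊥ := le_bot_iff.mp hA
    rw [this, Subgroup.card_bot, pow_one] at hA1
    exact absurd hA1 (not_le.mpr hp.out.one_lt)
  obtain ⟨y, hyQ, hyp, hyc⟩ := Cfsg.Agent.H11.PT.exists_central_order hQ hQne
  have hz : Cfsg.IsElementaryAbelian p (zpowers y) := ea_zpowers hyp
  have hz1 : p ^ 1 ≤ Nat.card ↥(zpowers y) := by rw [Nat.card_zpowers, hyp, pow_one]
  have hc : ∀ a ∈ Q, ∀ b ∈ zpowers y, a * b = b * a := by
    intro a ha b hb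
    have hb' : b ∈ centralizer (Q : Set G) := (zpowers_le.mpr hyc) hb
    exact mem_centralizer_iff.mp hb' a ha
  refine Relation.ReflTransGen.head (b := zpowers y)
    ⟨hAe, hA1, hz, hz1, fun a ha b hb => hc a (hA ha) b hb⟩ (Relation.ReflTransGen.single
    ⟨hz, hz1, hBe, hB1, fun a ha b hb => (hc b (hB hb) a ha).symm⟩)

theorem dvd_of_order {G : Type*} [Group G] [Finite G] {p : ℕ} {H : Subgroup G} {x : G} (hx : x ∈ H)
    (hxp : orderOf x = p) : p ∣ Nat.card H := by
  rw [← hxp, ← Subgroup.orderOf_mk x hx]; exact orderOf_dvd_natCard _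

theorem order_conj {G : Type*} [Group G] (g x : G) : orderOf (g * x * g⁻¹) = orderOf x := by
  have := (MulAut.conj g).orderOf_eq x
  rwa [MulAut.conj_apply] at this

/-- Let G be finite and p prime. Then G has a proper subgroup H with p ∣ |H| and p ∤ |H ∩ gHg⁻¹| for every g ∉ H (a strongly p-embedded subgroup) if and only if G is not 1-connected for p. -/
theorem result {G : Type*} [Group G] [Finite G] (p : ℕ) [Fact p.Prime] : (∃ H : Subgroup G, H ≠ ⊤ ∧ p ∣ Nat.card ↥H ∧ ∀ g : G, g ∉ H → ¬ p ∣ Nat.card ↥(H ⊓ H.map (MulAut.conj g).toMonoidHom)) ↔ ¬ Cfsg.IsKConnected p 1 G := by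
  classical
  constructor
  · rintro ⟨H, hne, hdvd, hI⟩ hconn
    obtain ⟨t, ht⟩ := exists_prime_orderOf_dvd_card' p hdvd
    have htG : orderOf (t : G) = p := by rw [Subgroup.orderOf_coe]; exact ht
    obtain ⟨g, hg⟩ : ∃ g : G, g ∉ H := by
      by_contra hcon
      push Not at hcon
      exact hne (eq_top_iff.mpr fun x _ => hcon x)
    have hchain := hconn (zpowers (t : G)) (zpowers (g * t * g⁻¹)) (ea_zpowers htG)
      (by rw [Nat.card_zpowers, htG, pow_one]) (ea_zpowers (by rw [order_conj, htG]))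
      (by rw [Nat.card_zpowers, order_conj, htG, pow_one])
    have hle : ∀ B : Subgroup G, Cn p (zpowers (t : G)) B → B ≤ H := by
      intro B hB
      induction hB with
      | refl => exact zpowers_le.mpr t.2
      | @tail A B _ h2 ih =>
        intro b hb
        by_contra hbH
        obtain ⟨hA, hA1, -, -, hc⟩ := h2
        have h3 : 1 < Nat.card A := lt_of_lt_of_le (Fact.out : p.Prime).one_lt (by rw [pow_one] at hA1; exact hA1)
        haveI := Finite.one_lt_card_iff_nontrivial.mp h3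
        obtain ⟨a, ha1⟩ := exists_ne (1 : A)
        have hao : orderOf (a : G) = p := by
          apply orderOf_eq_prime (hA.2 a a.2)
          intro h; exact ha1 (Subtype.ext h)
        apply hI b hbH
        apply dvd_of_order (x := (a : G)) _ hao
        refine ⟨ih a.2, ⟨a, ih a.2, ?_⟩⟩
        change b * a * b⁻¹ = a
        rw [← hc a a.2 b hb]; group
    have h5 := hle _ hchain (mem_zpowers _)
    apply hI g hg
    exact dvd_of_order (x := g * t * g⁻¹) ⟨h5, ⟨t, t.2, rfl⟩⟩ (by rw [order_conj, htG])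
  · intro hn
    have hn' : ¬ ∀ E E' : Subgroup G, Cfsg.IsElementaryAbelian p E → p ^ 1 ≤ Nat.card ↥E →
      Cfsg.IsElementaryAbelian p E' → p ^ 1 ≤ Nat.card ↥E' → Cn p E E' := hn
    push Not at hn'
    obtain ⟨E, E', hE, hE1, hE', hE'1, hEE'⟩ := hn'
    let H : Subgroup G :=
      { carrier := {g | Cn p E (cj g E)}
        mul_mem' := by
          intro a b ha hb
          change Cn p E (cj (a * b) E)
          rw [cj_mul]
          exact Relation.ReflTransGen.trans ha (Cn.cj hb a)
        one_mem' := by change Cn p E (cj 1 E); rw [cj_one]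
        inv_mem' := by
          intro a ha
          change Cn p E (cj a⁻¹ E)
          have := Cn.cj (Cn.symm ha) a⁻¹
          rwa [cj_inv_cj] at this }
    have hmem : ∀ g, g ∈ H ↔ Cn p E (cj g E) := fun g => Iff.rfl
    have hEH : E ≤ H := by
      intro e he
      rw [hmem, cj_eq_of_mem he]
    have hEp : IsPGroup p E := fun e => ⟨1, by rw [pow_one]; exact Subtype.ext (hE.2 e e.2)⟩
    have hE'p : IsPGroup p E' := fun e => ⟨1, by rw [pow_one]; exact Subtype.ext (hE'.2 e e.2)⟩
    refine ⟨H, ?_, ?_, ?_⟩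
    · intro htop
      apply hEE'
      obtain ⟨Q, hEQ, hQ⟩ := exists_isSylIn_ge hEp (le_top : E ≤ ⊤)
      obtain ⟨x, -, hx⟩ := hQ.exists_conj_le hE'p le_top
      have h1 : Cn p E (cj x E') := by
        apply cn_pgroup hQ.2.1 hEQ hx hE hE1
        · have := (RR.cj (G := G) (p := p) (A := E') (B := E') ⟨hE', hE'1, hE', hE'1, ?_⟩ x)
          · exact this.1
          · intro a ha b hb
            have := hE'.1.1.1 ⟨a, ha⟩ ⟨b, hb⟩
            exact congrArg Subtype.val this
        · rw [card_cj]; exact hE'1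
      have h2 := Cn.cj h1 x⁻¹
      rw [cj_inv_cj] at h2
      have h3 : x⁻¹ ∈ H := by rw [htop]; trivial
      exact Relation.ReflTransGen.trans ((hmem _).mp h3) h2
    · have h3 : 1 < Nat.card E := lt_of_lt_of_le (Fact.out : p.Prime).one_lt (by rw [pow_one] at hE1; exact hE1)
      haveI := Finite.one_lt_card_iff_nontrivial.mp h3
      obtain ⟨a, ha1⟩ := exists_ne (1 : E)
      have hao : orderOf (a : G) = p := by
        apply orderOf_eq_prime (hE.2 a a.2)
        intro h; exact ha1 (Subtype.ext h)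
      exact dvd_of_order (hEH a.2) hao
    · intro g hg hd
      apply hg
      obtain ⟨s, hs⟩ := exists_prime_orderOf_dvd_card' p hd
      have hsG : orderOf (s : G) = p := by rw [Subgroup.orderOf_coe]; exact hs
      have key : ∀ x ∈ H, orderOf x = p → Cn p E (zpowers x) := by
        intro x hxH hxp
        obtain ⟨Q, hEQ, hQ⟩ := exists_isSylIn_ge hEp hEH
        have hxp' : IsPGroup p (zpowers x) := by
          have h := (ea_zpowers hxp).2
          exact fun e => ⟨1, by rw [pow_one]; exact Subtype.ext (h e e.2)⟩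
        obtain ⟨h, hh, hx⟩ := hQ.exists_conj_le hxp' (zpowers_le.mpr hxH)
        have hR : RR p (zpowers x) (zpowers x) := ⟨ea_zpowers hxp, by rw [Nat.card_zpowers, hxp, pow_one],
          ea_zpowers hxp, by rw [Nat.card_zpowers, hxp, pow_one], by
            intro a ha b hb
            have := (ea_zpowers hxp).1.1.1 ⟨a, ha⟩ ⟨b, hb⟩
            exact congrArg Subtype.val this⟩
        have h1 : Cn p E (cj h (zpowers x)) :=
          cn_pgroup hQ.2.1 hEQ hx hE hE1 (hR.cj h).1 (hR.cj h).2.1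
        have h2 := Cn.cj h1 h⁻¹
        rw [cj_inv_cj] at h2
        exact Relation.ReflTransGen.trans ((hmem _).mp (inv_mem hh)) h2
      have h1 := key _ s.2.1 hsG
      obtain ⟨m, hm, hms⟩ := s.2.2
      have hms' : g * m * g⁻¹ = s := hms
      have h2 := key m hm (by rw [← hsG, ← hms', order_conj])
      have h3 := Cn.cj h2 g
      have h4 : cj g (zpowers m) = zpowers (s : G) := by
        change (zpowers m).map (MulAut.conj g).toMonoidHom = _
        rw [MonoidHom.map_zpowers]
        congr 1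
      rw [h4] at h3
      rw [hmem]
      exact Relation.ReflTransGen.trans h1 (Cn.symm h3)

end Cfsg.Agent.S1336
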