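import Cfsg.Statements.S1338
import Cfsg.Agent.H11_Conn
import Cfsg.Agent.S0122

set_option autoImplicit false
open Cfsg

namespace Cfsg.Agent.S1338

/-- A finite 3-group of 3-rank at least 4 is 2-connected for the prime 3: its commuting graph on elementary abelian subgroups of order ≥ 9 is connected. -/
theorem result {P : Type*} [Group P] [Finite P] (hP : IsPGroup 3 P) (hrk : ¬ Cfsg.PRankLE 3 3 P) : Cfsg.IsKConnected 3 2 P := by
  classical
  haveI : Fact (Nat.Prime 3) := ⟨Nat.prime_three⟩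
  unfold PRankLE at hrk
  push Not at hrk
  obtain ⟨A, hAc, hA3, hcard⟩ := hrk
  have hAe : IsElementaryAbelian 3 A := ⟨hAc, hA3⟩
  have h1 := Cfsg.Agent.H11.Conn.card_of_lt (hP.to_subgroup A) hcard
  obtain ⟨W, hWA, hWc⟩ := Cfsg.Agent.H11.Conn.exists_sub (hP.to_subgroup A) h1
  obtain ⟨E, hEn, hEe, hEc⟩ := Cfsg.Agent.S0122.result (p := 3) (by decide) hP W
    (Cfsg.Agent.H11.Conn.ea_mono hAe hWA) hWc
  refine Cfsg.Agent.H11.Conn.conn_two hP hEe (fun x hx => ?_)
  have h2 := Cfsg.Agent.H11.Conn.card_fix_three hEe hx (by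
    rw [Subgroup.normalizer_eq_top E]; trivial)
  have h3 : IsPGroup 3 (E ⊓ Subgroup.centralizer ({x} : Set P) : Subgroup P) := hP.to_subgroup _
  refine Cfsg.Agent.H11.Conn.card_of_lt h3 ?_
  by_contra hcon
  push Not at hcon
  rw [hEc] at h2
  have h4 := Nat.pow_le_pow_left hcon 3
  omega

end Cfsg.Agent.S1338
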