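import Cfsg.Statements.S1395
import Cfsg.Agent.H12_BG7d

set_option autoImplicit false
open Cfsg

namespace Cfsg.Agent.S1395

/-- Let G be a minimal simple group of odd order, A a subgroup satisfying the transitivity hypothesis with K = O_{π(A)'}(C_G(A)), q a prime not dividing the order of A, and P a proper subgroup all of whose prime divisors divide the order of A, containing A as a subnormal subgroup, such that any two maximal A-invariant q-subgroups are conjugate under K. Then (a) K ∩ C_G(P) = O_{π(A)'}(C_G(P)); (b) any two maximal P-invariant q-subgroups are conjugate under O_{π(A)'}(C_G(P)); (c) every maximal P-invariant q-subgroup is a maximal A-invariant q-subgroup; (d) for every maximal P-invariant q-subgroup Q, P ∩ N_G(P)' ≤ N_G(Q)' and N_G(P) is generated by O_{π(A)'}(C_G(P)) and N_G(P) ∩ N_G(Q). -/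
theorem result {G : Type*} [Group G] [Finite G] (hG : Cfsg.IsMinSimpleOddOrder G)
    (A : Subgroup G) (hA : Cfsg.TransitivityHypothesis A) (q : ℕ) (hq : q.Prime) (hqA : ¬ q ∣ Nat.card A)
    (P : Subgroup G) (hP : P ≠ ⊤) (hPπ : (∀ r : ℕ, r.Prime → r ∣ Nat.card P → r ∣ Nat.card A)) (hAP : A ≤ P) (hsn : (A.subgroupOf P).IsSubnormal)
    (htr : ∀ Q₁ ∈ Cfsg.maxInvSubgroups ⊤ A {q}, ∀ Q₂ ∈ Cfsg.maxInvSubgroups ⊤ A {q}, ∃ k ∈ Cfsg.piCoreOf (Cfsg.primesNotDvd (Nat.card A)) (Subgroup.centralizer (A : Set G)), Q₂ = Q₁.map (MulAut.conj k).toMonoidHom) :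
    Cfsg.piCoreOf (Cfsg.primesNotDvd (Nat.card A)) (Subgroup.centralizer (A : Set G)) ⊓ Subgroup.centralizer (P : Set G) = Cfsg.piCoreOf (Cfsg.primesNotDvd (Nat.card A)) (Subgroup.centralizer (P : Set G)) ∧
      (∀ Q₁ ∈ Cfsg.maxInvSubgroups ⊤ P {q}, ∀ Q₂ ∈ Cfsg.maxInvSubgroups ⊤ P {q}, ∃ k ∈ Cfsg.piCoreOf (Cfsg.primesNotDvd (Nat.card A)) (Subgroup.centralizer (P : Set G)), Q₂ = Q₁.map (MulAut.conj k).toMonoidHom) ∧
      Cfsg.maxInvSubgroups ⊤ P {q} ⊆ Cfsg.maxInvSubgroups ⊤ A {q} ∧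
      ∀ Q ∈ Cfsg.maxInvSubgroups ⊤ P {q},
        P ⊓ ⁅Subgroup.normalizer (P : Set G), Subgroup.normalizer (P : Set G)⁆ ≤ ⁅Subgroup.normalizer (Q : Set G), Subgroup.normalizer (Q : Set G)⁆ ∧
        Subgroup.normalizer (P : Set G) = Cfsg.piCoreOf (Cfsg.primesNotDvd (Nat.card A)) (Subgroup.centralizer (P : Set G)) ⊔ (Subgroup.normalizer (P : Set G) ⊓ Subgroup.normalizer (Q : Set G)) := by
  haveI : Fact q.Prime := ⟨hq⟩
  have hpi : Cfsg.primesNotDvd (Nat.card P) = Cfsg.primesNotDvd (Nat.card A) :=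
    H12.BG7.primesNotDvd_eq hPπ (fun r _ h => h.trans (Subgroup.card_dvd_of_le hAP))
  have hA' : H12.BG7.Pack A A q := ⟨hA, rfl, fun Q₁ Q₂ h1 h2 =>
    htr Q₁ (H12.Trans.maxInv_iff.mpr h1) Q₂ (H12.Trans.maxInv_iff.mpr h2),
    fun Q hQ => hQ⟩
  have e : (A.subgroupOf P).map P.subtype = A := by
    rw [Subgroup.subgroupOf_map_subtype, inf_eq_left.mpr hAP]
  have hpack : H12.BG7.Pack A P q := by
    apply H12.BG7.subnormal_pack hG hqA hP hPπ _ hsn
    · rw [e]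
    · rw [e]; exact hA'
  have hO : H12.BG7.O' P (Subgroup.centralizer (P : Set G)) =
      Cfsg.piCoreOf (Cfsg.primesNotDvd (Nat.card A)) (Subgroup.centralizer (P : Set G)) := by
    rw [H12.BG7.O', hpi]
  refine ⟨?_, ?_, ?_, ?_⟩
  · rw [← hO]; exact H12.BG7.K_inf hG hA hAP hpi
  · intro Q₁ h1 Q₂ h2
    obtain ⟨k, hk, hk'⟩ := hpack.tr Q₁ Q₂ (H12.Trans.maxInv_iff.mp h1) (H12.Trans.maxInv_iff.mp h2)
    rw [hO] at hk
    exact ⟨k, hk, hk'⟩
  · intro Q hQ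
    exact H12.Trans.maxInv_iff.mpr (hpack.sub Q (H12.Trans.maxInv_iff.mp hQ))
  · intro Q hQ
    rw [← hO]
    exact H12.BG7.pack_frattini hpack.tr (H12.Trans.maxInv_iff.mp hQ)

end Cfsg.Agent.S1395
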