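import Cfsg.Statements.S1398
import Cfsg.Agent.H12_BG9c

set_option autoImplicit false
open Cfsg

namespace Cfsg.Agent.S1398

/-- Let G be a minimal simple group of odd order, M a maximal subgroup, p a prime, and B a noncyclic elementary abelian p-subgroup of M. If C_G(b) ≤ M for every non-identity b ∈ B, or if every subgroup of G of order coprime to p normalized by B is contained in M, then M is the only maximal subgroup of G containing B. -/
theorem result {G : Type*} [Group G] [Finite G] (hG : Cfsg.IsMinSimpleOddOrder G)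
    (M : Subgroup G) (hM : IsCoatom M) (p : ℕ) [Fact p.Prime] (B : Subgroup G) (hBM : B ≤ M)
    (hBe : Cfsg.IsElementaryAbelian p B) (hBnc : ¬ IsCyclic B)
    (h : (∀ b ∈ B, b ≠ 1 → Subgroup.centralizer ({b} : Set G) ≤ M) ∨
      ∀ Y ∈ Cfsg.invSubgroups ⊤ B (Cfsg.primesNotDvd p), Y ≤ M) :
    Cfsg.InUniqueMaximal B := by
  have hBc := Cfsg.Agent.H12.BG9.lt_card_of_not_isCyclic hBe hBnc
  rcases h with h | h
  · exact Cfsg.Agent.H12.BG9.thm91' hG hM hBM hBe hBc h
  · have hBne : B ≠ ⊥ := by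
      rintro rfl
      exact hBnc inferInstance
    refine Cfsg.Agent.H12.BG9.inU_iff.2 ⟨M, hM, hBM,
      Cfsg.Agent.H12.BG9.thm91 hG hM hBM (Cfsg.Agent.H12.SCN.isPGroup_ea hBe) hBne ?_⟩
    intro Y hY hBY
    exact h Y (Cfsg.Agent.H12.BG7.mem_invSubgroups.mpr ⟨le_top, hY, hBY⟩)

end Cfsg.Agent.S1398
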