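import Cfsg.Statements.S1414
import Cfsg.Agent.H12_BG10f

set_option autoImplicit false
open Cfsg

namespace Cfsg.Agent.S1414

/-- Let G be a minimal simple group of odd order, M a maximal subgroup, β(M) the set of ideal primes in α(M), and M_β = O_{β(M)}(M). Then M_β is a Hall β(M)-subgroup of M and of G; M' and M_σ each have a nilpotent Hall β(M)'-subgroup; and for each prime p dividing the order of M with p ∉ β(M), both M' and M_σ have normal p-complements and every prime dividing the index of O_{p'}(M) in M is at most p. -/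
theorem result {G : Type*} [Group G] [Finite G] (hG : Cfsg.IsMinSimpleOddOrder G)
    (M : Subgroup G) (hM : IsCoatom M) :
    Cfsg.IsPiHallOf (Cfsg.beta M) (Cfsg.piCoreOf (Cfsg.beta M) M) M ∧ Cfsg.IsPiHall (Cfsg.beta M) (Cfsg.piCoreOf (Cfsg.beta M) M) ∧
      (∃ H : Subgroup G, Cfsg.IsPiHallOf {q | q.Prime ∧ q ∉ Cfsg.beta M} H ⁅M, M⁆ ∧ Group.IsNilpotent H) ∧
      (∃ H : Subgroup G, Cfsg.IsPiHallOf {q | q.Prime ∧ q ∉ Cfsg.beta M} H (Cfsg.sigmaCore M) ∧ Group.IsNilpotent H) ∧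
      ∀ p : ℕ, p.Prime → p ∣ Nat.card M → p ∉ Cfsg.beta M →
        Cfsg.HasNormalPComplement p ↥⁅M, M⁆ ∧ Cfsg.HasNormalPComplement p ↥(Cfsg.sigmaCore M) ∧
        ∀ q : ℕ, q.Prime → q ∣ (Cfsg.pPrimeCore p ↥M).index → q ≤ p := by
  have hs := H12.BG10.sigmaCore_le_commutator hG hM
  have hMs : Group.IsSolvable M := H12.BG7.solvable_of_ne_top hG hM.1
  refine ⟨(H12.BG10.betaCore_eq hG hM).2, H12.BG10.betaCore_hall hG hM, ?_, ?_, ?_⟩
  · have h1 : Group.IsSolvable ↥⁅M, M⁆ := H12.BG1.isSolvable_of_le (Subgroup.commutator_le_self M) hMs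
    obtain ⟨H, hH⟩ := H12.Hall.exists_hall h1 {q | q.Prime ∧ q ∉ Cfsg.beta M}
    exact ⟨H, hH, (H12.BG10.hall_beta_of_le hG hM le_rfl).2 H hH⟩
  · have h1 : Group.IsSolvable ↥(Cfsg.sigmaCore M) := H12.BG1.isSolvable_of_le (H12.BG10.sigmaCore_le M) hMs
    obtain ⟨H, hH⟩ := H12.Hall.exists_hall h1 {q | q.Prime ∧ q ∉ Cfsg.beta M}
    exact ⟨H, hH, (H12.BG10.hall_beta_of_le hG hM hs).2 H hH⟩
  · intro p hp hpM hpb
    have : Fact p.Prime := ⟨hp⟩
    refine ⟨H12.BG10.npc_commutator hG hM hpb, H12.BG10.npc_sub hs (H12.BG10.npc_commutator hG hM hpb), ?_⟩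
    exact (H12.BG10.pstr_max hG hM hpM hpb).1

end Cfsg.Agent.S1414
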