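import Cfsg.Statements.S1441
import Cfsg.Agent.H12_BG1

set_option autoImplicit false
open Cfsg

namespace Cfsg.Agent.S1441

/-- Let G be a finite group, H a solvable subgroup and A a subgroup normalizing H. Suppose there is a chain H = H₀ ≥ H₁ ≥ ⋯ ≥ H_n = 1 of subgroups normal in H and normalized by A such that A acts trivially on each factor H_{i-1}/H_i (that is, [H_{i-1}, A] ≤ H_i). Then every prime dividing the index of C_A(H) in A divides the order of H. -/
theorem result {G : Type*} [Group G] [Finite G] (H A : Subgroup G) (hH : Group.IsSolvable H) (hA : (A ≤ Subgroup.normalizer (H : Set G)))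
    (n : ℕ) (c : Fin (n + 1) → Subgroup G) (hc0 : c 0 = H) (hcn : c (Fin.last n) = ⊥) (hanti : Antitone c)
    (hcN : ∀ i, H ≤ Subgroup.normalizer ((c i : Subgroup G) : Set G)) (hcA : ∀ i, A ≤ Subgroup.normalizer ((c i : Subgroup G) : Set G))
    (htriv : ∀ i : Fin n, ⁅c i.castSucc, A⁆ ≤ c i.succ) :
    ∀ p : ℕ, p.Prime → p ∣ (A ⊓ Subgroup.centralizer (H : Set G)).relIndex A → p ∣ Nat.card H := by
  intro p hp hdvd
  by_contra hpH
  haveI := Fact.mk hp
  obtain ⟨P, hP⟩ := H13.Syl.exists_isSylIn (p := p) A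
  have hcop : (Nat.card P).Coprime (Nat.card H) := by
    obtain ⟨k, hk⟩ := IsPGroup.iff_card.mp hP.isPGroup
    rw [hk]
    exact Nat.Coprime.pow_left _ ((Nat.Prime.coprime_iff_not_dvd hp).mpr hpH)
  have h1 : P ≤ Subgroup.centralizer (H : Set G) := by
    refine H12.BG1.le_centralizer_of_stabilizes_chain hH (hP.le.trans hA) hcop n
      (fun i => if h : i < n + 1 then c ⟨i, h⟩ else ⊥) ?_ ?_ ?_
    · simp only [Nat.zero_lt_succ, dite_true]; exact hc0
    · simp only [Nat.lt_succ_self, dite_true]; exact hcn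
    · intro i hi
      have h2 : i < n + 1 := by omega
      have h3 : i + 1 < n + 1 := by omega
      simp only [h2, h3, dite_true]
      exact (Subgroup.commutator_mono le_rfl hP.le).trans (htriv ⟨i, hi⟩)
  have h2 : P ≤ A ⊓ Subgroup.centralizer (H : Set G) := le_inf hP.le h1
  exact hP.not_dvd (dvd_trans hdvd (Subgroup.relIndex_dvd_of_le_left _ h2))

end Cfsg.Agent.S1441
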