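import Cfsg.Statements.S1458
import Cfsg.Agent.H12_ZJ5

set_option autoImplicit false
open Cfsg

namespace Cfsg.Agent.S1458

/-- Let G be a solvable group of odd order, p a prime and S a Sylow p-subgroup of G. Then the subgroup generated by the centre of the Thompson subgroup of S and O_{p'}(G) is normal in G. -/
theorem result {G : Type*} [Group G] [Finite G] [Group.IsSolvable G] (hodd : Odd (Nat.card G)) (p : ℕ) [Fact p.Prime] (S : Sylow p G) :
    (Cfsg.centerThompsonOf p (S : Subgroup G) ⊔ Cfsg.pPrimeCore p G).Normal := by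
  classical
  set O := Cfsg.pPrimeCore p G with hO
  haveI hOn : O.Normal := H1.Nilp.pPrimeCore_normal p
  by_cases hp2 : p = 2
  · have h1 : (S : Subgroup G) = ⊥ := by
      obtain ⟨k, hk⟩ := IsPGroup.iff_card.mp S.2
      have h2 : Odd (Nat.card (S : Subgroup G)) := Odd.of_dvd_nat hodd (Subgroup.card_subgroup_dvd_card _)
      rw [hk, hp2] at h2
      have h3 : k = 0 := by
        by_contra h
        rw [Nat.odd_pow_iff h] at h2
        exact absurd h2 (by decide)
      rw [h3, pow_zero] at hk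
      exact Subgroup.eq_bot_of_card_eq _ hk
    have h2 : Cfsg.centerThompsonOf p (S : Subgroup G) = ⊥ := by
      rw [← H12.ZJ.ZJJ_p, eq_bot_iff]
      exact (H12.ZJ.ZJJ_le p _).trans h1.le
    rw [h2, bot_sup_eq]
    exact hOn
  have hOc : (Nat.card O).Coprime p := H1.Nilp.pPrimeCore_coprime p
  set π := QuotientGroup.mk' O with hπ
  have hsurj : Function.Surjective π := QuotientGroup.mk'_surjective O
  haveI : Group.IsSolvable (G ⧸ O) := Group.isSolvable_of_surjective hsurj
  have hodd' : Odd (Nat.card (G ⧸ O)) := Odd.of_dvd_nat hodd (Subgroup.card_quotient_dvd_card O)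
  have hO1 : Cfsg.pPrimeCore p (G ⧸ O) = ⊥ := H11.Cores.pPrimeCore_quotient p
  set S' := S.mapSurjective hsurj with hS'
  have hS'e : (S' : Subgroup (G ⧸ O)) = (S : Subgroup G).map π := rfl
  have hinj : ∀ x ∈ (S : Subgroup G), π x = 1 → x = 1 := by
    intro x hx h
    have h1 : x ∈ (S : Subgroup G) ⊓ O := ⟨hx, (QuotientGroup.eq_one_iff x).mp h⟩
    rw [H12.Puig.inf_eq_bot_of_coprime' S.2 hOc] at h1
    exact h1
  have hinj' : Function.Injective (π.comp (S : Subgroup G).subtype) := by
    rw [injective_iff_map_eq_one]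
    intro x hx
    exact Subtype.ext (hinj x x.2 hx)
  have h1 : Cfsg.centerThompsonOf p (S' : Subgroup (G ⧸ O)) = (Cfsg.centerThompsonOf p (S : Subgroup G)).map π := by
    rw [Cfsg.centerThompsonOf, Cfsg.centerThompsonOf, hS'e, H2.Thompson.thompsonOf_map π _ hinj',
      ← H12.Puig.map_inf_centralizer π (fun x hx h => hinj x (H2.Thompson.thompsonOf_le _ hx) h)]
  have h2 : (Cfsg.centerThompsonOf p (S' : Subgroup (G ⧸ O))).Normal := by
    rw [← H12.ZJ.ZJJ_p]
    refine H12.ZJ.zj_normal hp2 (H12.ZJ.dvd_p_aux (Fact.out : p.Prime) hp2) dvd_rfl (H13.Syl.isSylIn_sylow_top S')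
      le_rfl (fun x _ g h => h) ?_ ?_
    · intro P _ hP A _ hAc hPA a ha
      refine H12.PStab.mem_pCore_of_stab hodd' hp2 hP (fun x hx => ?_)
      exact H12.PStab.quad_of_abelian ⟨⟨fun a b => Subtype.ext (hAc a a.2 b b.2)⟩⟩ hPA ha hx
    · exact H22.PSolv.centralizer_pCore_le (H22.PSolv.isPSolvable_of_isSolvable inferInstance) hO1
  rw [h1] at h2
  have h3 := h2.comap π
  rw [QuotientGroup.comap_map_mk', sup_comm] at h3
  exact h3

end Cfsg.Agent.S1458
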