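import Cfsg.Statements.S1463
import Cfsg.Agent.H24_Quad
-- import your own Cfsg.Agent.* helpers here

set_option autoImplicit false
open scoped MatrixGroups
open Cfsg

namespace Cfsg.Agent.S1463

/-- Let F be a field of odd characteristic p and H a finite subgroup of odd order of GL(2, F) that leaves no 1-dimensional subspace of F² invariant. Then p does not divide the order of H. -/
theorem result {F : Type*} [Field F] (p : ℕ) [Fact p.Prime] [CharP F p] (hp : p ≠ 2)
    (H : Subgroup (GL (Fin 2) F)) [Finite H] (hodd : Odd (Nat.card H))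
    (hirr : ∀ v : Fin 2 → F, v ≠ 0 → ∃ g ∈ H, (g : Matrix (Fin 2) (Fin 2) F).mulVec v ∉ Submodule.span F {v}) :
    ¬ p ∣ Nat.card H := by
  intro hdvd
  classical
  -- the finite `H`-invariant lattice
  set f : H × Fin 2 → (Fin 2 → F) := fun z => (z.1.1 : Matrix (Fin 2) (Fin 2) F).mulVec (Pi.single z.2 1) with hf
  set V : AddSubgroup (Fin 2 → F) := AddSubgroup.closure (Set.range f) with hV
  have hchar : ∀ v : Fin 2 → F, p • v = 0 := by
    intro v
    rw [← Nat.cast_smul_eq_nsmul F, CharP.cast_eq_zero, zero_smul]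
  have hpV : ∀ v : V, p • v = 0 := fun v => Subtype.ext (hchar v.1)
  haveI hVfin : Finite V := by
    haveI : AddGroup.FG V := by
      rw [AddGroup.fg_iff_addSubgroup_fg]
      exact (AddSubgroup.fg_iff _).2 ⟨Set.range f, hV.symm, Set.finite_range f⟩
    apply AddCommGroup.finite_of_fg_torsion
    intro v
    exact isOfFinAddOrder_iff_nsmul_eq_zero.2 ⟨p, (Fact.out : p.Prime).pos, hpV v⟩
  have hinv : ∀ g ∈ H, ∀ v ∈ V, (g : Matrix (Fin 2) (Fin 2) F).mulVec v ∈ V := by
    intro g hg v hv
    rw [hV] at hv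
    induction hv using AddSubgroup.closure_induction with
    | mem v hv =>
      obtain ⟨⟨h, i⟩, rfl⟩ := hv
      apply AddSubgroup.subset_closure
      refine ⟨(⟨g, hg⟩ * h, i), ?_⟩
      simp only [hf]
      rw [Matrix.mulVec_mulVec]
      rfl
    | zero => rw [Matrix.mulVec_zero]; exact V.zero_mem
    | add a b _ _ ha hb => rw [Matrix.mulVec_add]; exact V.add_mem ha hb
    | neg a _ ha => rw [Matrix.mulVec_neg]; exact V.neg_mem ha
  have hone : ∀ i : Fin 2, (Pi.single i 1 : Fin 2 → F) ∈ V := by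
    intro i
    apply AddSubgroup.subset_closure
    refine ⟨(1, i), ?_⟩
    simp only [hf]
    show (((1 : GL (Fin 2) F)) : Matrix (Fin 2) (Fin 2) F).mulVec _ = _
    rw [Units.val_one, Matrix.one_mulVec]
  let θ : H →* AddMonoid.End V :=
    { toFun := fun g =>
        { toFun := fun v => ⟨(g.1 : Matrix (Fin 2) (Fin 2) F).mulVec v.1, hinv g.1 g.2 v.1 v.2⟩
          map_zero' := Subtype.ext (by show (g.1 : Matrix (Fin 2) (Fin 2) F).mulVec 0 = 0; exact Matrix.mulVec_zero _)
          map_add' := fun a b => Subtype.ext (by show (g.1 : Matrix (Fin 2) (Fin 2) F).mulVec (a.1 + b.1) = _; exact Matrix.mulVec_add _ a.1 b.1) }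
      map_one' := by
        apply AddMonoidHom.ext
        intro v
        apply Subtype.ext
        show (((1 : GL (Fin 2) F)) : Matrix (Fin 2) (Fin 2) F).mulVec v.1 = v.1
        rw [Units.val_one, Matrix.one_mulVec]
      map_mul' := fun a b => by
        apply AddMonoidHom.ext
        intro v
        apply Subtype.ext
        show ((a.1 * b.1 : GL (Fin 2) F) : Matrix (Fin 2) (Fin 2) F).mulVec v.1 =
          (a.1 : Matrix (Fin 2) (Fin 2) F).mulVec ((b.1 : Matrix (Fin 2) (Fin 2) F).mulVec v.1)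
        rw [Units.val_mul, Matrix.mulVec_mulVec] }
  have hθv : ∀ (g : H) (v : V), ((θ g v : V) : Fin 2 → F) = (g.1 : Matrix (Fin 2) (Fin 2) F).mulVec v.1 := fun _ _ => rfl
  have hθ : Function.Injective θ := by
    rw [injective_iff_map_eq_one]
    intro g hg
    apply Subtype.ext
    apply Units.ext
    apply Matrix.ext_of_mulVec_single
    intro i
    have h1 := hθv g ⟨_, hone i⟩
    rw [hg] at h1
    rw [← h1]
    show Pi.single i 1 = (((1 : GL (Fin 2) F)) : Matrix (Fin 2) (Fin 2) F).mulVec _
    rw [Units.val_one, Matrix.one_mulVec]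
  -- a quadratic element
  obtain ⟨x, hx⟩ := exists_prime_orderOf_dvd_card' p hdvd
  have hxO : x ∈ Cfsg.pCore p H := by
    refine H24.Quad.quad_mem hp hpV hodd θ hθ x ?_
    have hnil : IsNilpotent ((x.1 : Matrix (Fin 2) (Fin 2) F) - 1) := by
      refine ⟨p, ?_⟩
      rw [sub_pow_char_of_commute p (Commute.one_right _), one_pow, ← Units.val_pow_eq_pow_val]
      have h1 : x.1 ^ p = 1 := by
        have := pow_orderOf_eq_one x
        rw [hx] at this
        exact congrArg Subtype.val this
      rw [h1, Units.val_one, sub_self]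
    have hsq := H24.Quad.sq_zero _ hnil
    intro v
    apply Subtype.ext
    have h1 : ((θ x v - v : V) : Fin 2 → F) = ((x.1 : Matrix (Fin 2) (Fin 2) F) - 1).mulVec v.1 := by
      rw [Matrix.sub_mulVec, Matrix.one_mulVec]
      rfl
    have h2 : (x.1 : Matrix (Fin 2) (Fin 2) F).mulVec (((x.1 : Matrix (Fin 2) (Fin 2) F) - 1).mulVec v.1) =
        ((x.1 : Matrix (Fin 2) (Fin 2) F) - 1).mulVec v.1 := by
      have h3 : ((x.1 : Matrix (Fin 2) (Fin 2) F) - 1).mulVec (((x.1 : Matrix (Fin 2) (Fin 2) F) - 1).mulVec v.1) = 0 := by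
        rw [Matrix.mulVec_mulVec, hsq, Matrix.zero_mulVec]
      rw [Matrix.sub_mulVec, Matrix.one_mulVec, sub_eq_zero] at h3
      exact h3
    rw [hθv, h1]
    exact h2
  -- the fixed vector of the `p`-core
  set P := Cfsg.pCore p H with hP
  have hPp : IsPGroup p P := H11.Cores.pCore_isPGroup p
  have hPn : P.Normal := inferInstance
  letI : MulAction P V :=
    { smul := fun g v => θ g.1 v
      one_smul := fun v => by
        show θ (1 : H) v = v
        rw [map_one]; rfl
      mul_smul := fun a b v => by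
        show θ (a.1 * b.1) v = θ a.1 (θ b.1 v)
        rw [map_mul]; rfl }
  have hsm : ∀ (g : P) (v : V), g • v = θ g.1 v := fun _ _ => rfl
  have hcard : p ∣ Nat.card V := by
    have h1 : (⟨_, hone 0⟩ : V) ≠ 0 := by
      intro h
      have h2 := congrArg (fun v : V => v.1 0) h
      simp at h2
    have h2 : addOrderOf (⟨_, hone 0⟩ : V) = p := by
      apply addOrderOf_eq_prime (hpV _) h1
    rw [← h2]
    exact addOrderOf_dvd_natCard _
  obtain ⟨v, hv, hv0⟩ := hPp.exists_fixed_point_of_prime_dvd_card_of_fixed_point V hcard (a := 0) (by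
    intro g
    rw [hsm, map_zero])
  have hv1 : v.1 ≠ 0 := fun h => hv0 (Subtype.ext h.symm)
  have hfix : ∀ g ∈ P, (g.1 : Matrix (Fin 2) (Fin 2) F).mulVec v.1 = v.1 := by
    intro g hg
    have := congrArg Subtype.val (hv ⟨g, hg⟩)
    exact this
  obtain ⟨g, hg, hgv⟩ := hirr v.1 hv1
  set w := (g : Matrix (Fin 2) (Fin 2) F).mulVec v.1 with hw
  have hfixw : ∀ k ∈ P, (k.1 : Matrix (Fin 2) (Fin 2) F).mulVec w = w := by
    intro k hk
    have h1 := hfix _ (hPn.conj_mem k hk (⟨g, hg⟩⁻¹ : H))
    have h2 : (k.1 : Matrix (Fin 2) (Fin 2) F).mulVec w = (g : Matrix (Fin 2) (Fin 2) F).mulVec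
        ((((⟨g, hg⟩⁻¹ : H) * k * (⟨g, hg⟩⁻¹ : H)⁻¹ : H).1 : Matrix (Fin 2) (Fin 2) F).mulVec v.1) := by
      rw [hw, Matrix.mulVec_mulVec, Matrix.mulVec_mulVec]
      congr 1
      rw [← Units.val_mul, ← Units.val_mul]
      congr 1
      show k.1 * g = g * (g⁻¹ * k.1 * g⁻¹⁻¹)
      group
    rw [h2, h1]
  -- `x` fixes a basis
  have hli : LinearIndependent F ![v.1, w] := by
    rw [LinearIndependent.pair_iff]
    intro s t hst
    by_cases ht : t = 0
    · subst ht
      rw [zero_smul, add_zero] at hst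
      exact ⟨(smul_eq_zero.1 hst).resolve_right hv1, rfl⟩
    · exfalso
      apply hgv
      rw [Submodule.mem_span_singleton]
      refine ⟨- (t⁻¹ * s), ?_⟩
      have h1 : t • w = - (s • v.1) := eq_neg_of_add_eq_zero_right hst
      have h2 : w = t⁻¹ • (t • w) := by rw [smul_smul, inv_mul_cancel₀ ht, one_smul]
      rw [h2, h1, smul_neg, smul_smul, neg_smul]
  have hspan : Submodule.span F (Set.range ![v.1, w]) = ⊤ := by
    apply LinearIndependent.span_eq_top_of_card_eq_finrank' hli
    simp
  have hx1 : x = 1 := by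
    apply Subtype.ext
    apply Units.ext
    apply Matrix.ext_of_mulVec_single
    intro i
    have h1 : (Pi.single i 1 : Fin 2 → F) ∈ Submodule.span F (Set.range ![v.1, w]) := by
      rw [hspan]; trivial
    have h2 : ∀ u ∈ Submodule.span F (Set.range ![v.1, w]), (x.1 : Matrix (Fin 2) (Fin 2) F).mulVec u = u := by
      intro u hu
      induction hu using Submodule.span_induction with
      | mem u hu =>
        obtain ⟨i, rfl⟩ := hu
        fin_cases i
        · exact hfix x hxO
        · exact hfixw x hxO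
      | zero => exact Matrix.mulVec_zero _
      | add a b _ _ ha hb => rw [Matrix.mulVec_add, ha, hb]
      | smul c a _ ha => rw [Matrix.mulVec_smul, ha]
    rw [h2 _ h1]
    show _ = (((1 : GL (Fin 2) F)) : Matrix (Fin 2) (Fin 2) F).mulVec _
    rw [Units.val_one, Matrix.one_mulVec]
  rw [hx1, orderOf_one] at hx
  exact (Fact.out : p.Prime).one_lt.ne hx

end Cfsg.Agent.S1463
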