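import Cfsg.Statements.S1464
import Cfsg.Agent.H12_PStab4

set_option autoImplicit false
open Cfsg

namespace Cfsg.Agent.S1464

/-- Let p be an odd prime and G a solvable group of odd order, P a p-subgroup with O_{p'}(G)P normal in G, and A a p-subgroup of N_G(P) with [[P, A], A] = 1. Then the image of A in the quotient N_G(P)/C_G(P) is contained in the p-core of that quotient. -/
theorem result {G : Type*} [Group G] [Finite G] [Group.IsSolvable G] (hodd : Odd (Nat.card G)) (p : ℕ) [Fact p.Prime] (hp : p ≠ 2) (P A : Subgroup G) (hP : IsPGroup p P) (hPn : (Cfsg.pPrimeCore p G ⊔ P).Normal)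
    (hA : IsPGroup p A) (hAN : A ≤ Subgroup.normalizer (P : Set G)) (hquad : ⁅⁅P, A⁆, A⁆ = ⊥) :
    (A.subgroupOf (Subgroup.normalizer (P : Set G))).map
        (QuotientGroup.mk' ((Subgroup.centralizer (P : Set G)).subgroupOf (Subgroup.normalizer (P : Set G))))
      ≤ Cfsg.pCore p _ := by
  have hNs : Group.IsSolvable (Subgroup.normalizer (P : Set G)) :=
    H12.BG1.isSolvable_of_le (le_top : Subgroup.normalizer (P : Set G) ≤ ⊤) inferInstance
  have hPN : P ≤ Subgroup.normalizer (P : Set G) := Subgroup.le_normalizer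
  have hn : (P.subgroupOf (Subgroup.normalizer (P : Set G))).Normal := Subgroup.normal_in_normalizer
  have hPp : IsPGroup p (P.subgroupOf (Subgroup.normalizer (P : Set G))) :=
    hP.comap_of_injective _ (Subgroup.subtype_injective _)
  refine H12.PStab.map_le_pCore_of_quad (Odd.of_dvd_nat hodd (Subgroup.card_subgroup_dvd_card _)) hp hPp ?_ _ ?_
  · intro a ha x hx
    apply Subtype.ext
    exact H12.PStab.quad_of_commutator hquad (Subgroup.mem_subgroupOf.mp ha) (Subgroup.mem_subgroupOf.mp hx)
  · ext g
    rw [Subgroup.mem_subgroupOf, Subgroup.mem_centralizer_iff, Subgroup.mem_centralizer_iff]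
    constructor
    · intro h x hx
      exact Subtype.ext (h x hx)
    · intro h x hx
      exact congrArg Subtype.val (h ⟨x, hPN hx⟩ hx)

end Cfsg.Agent.S1464
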