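import Cfsg.Statements.S1466
import Cfsg.Agent.H12_Puig

set_option autoImplicit false
open Cfsg

namespace Cfsg.Agent.S1466

/-- Let p be a prime and R a nontrivial finite p-group. Then for every i > 0, Z(R) ≤ C_R(L_i(R)) ≤ L_i(R); likewise Z(R) ≤ C_R(L_*(R)) ≤ L_*(R) and Z(R) ≤ C_R(L(R)) ≤ L(R); and L(R) ≠ 1, L_*(R) ≠ 1. -/
theorem result {R : Type*} [Group R] [Finite R] (p : ℕ) [Fact p.Prime] (hR : IsPGroup p R) [Nontrivial R] :
    (∀ i : ℕ, 0 < i → Subgroup.center R ≤ Subgroup.centralizer ((Cfsg.puigSeq R i : Subgroup R) : Set R) ∧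
        Subgroup.centralizer ((Cfsg.puigSeq R i : Subgroup R) : Set R) ≤ Cfsg.puigSeq R i) ∧
      (Subgroup.center R ≤ Subgroup.centralizer ((Cfsg.puigLower R : Subgroup R) : Set R) ∧ Subgroup.centralizer ((Cfsg.puigLower R : Subgroup R) : Set R) ≤ Cfsg.puigLower R) ∧
      (Subgroup.center R ≤ Subgroup.centralizer ((Cfsg.puigSubgroup R : Subgroup R) : Set R) ∧ Subgroup.centralizer ((Cfsg.puigSubgroup R : Subgroup R) : Set R) ≤ Cfsg.puigSubgroup R) ∧
      Cfsg.puigSubgroup R ≠ ⊥ ∧ Cfsg.puigLower R ≠ ⊥ := by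
  have hfin : Finite R := inferInstance
  have hnil : Group.IsNilpotent R := hR.isNilpotent
  obtain ⟨A, hAn, hAc, hCA⟩ := H12.Puig.exists_max_abelian_normal (G := R)
  have hA : A ≠ ⊥ := by
    rintro rfl
    rw [Subgroup.centralizer_eq_top_iff_subset.mpr] at hCA
    · exact bot_ne_top hCA.symm
    · intro x hx
      rw [Subgroup.mem_bot.mp hx]
      exact Subgroup.one_mem _
  have key : ∀ L : Subgroup R, A ≤ L → Subgroup.center R ≤ Subgroup.centralizer (L : Set R) ∧
      Subgroup.centralizer (L : Set R) ≤ L := by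
    intro L hL
    refine ⟨Subgroup.center_le_centralizer _, ?_⟩
    exact (Subgroup.centralizer_le hL).trans (hCA.le.trans hL)
  refine ⟨fun i hi => key _ (H12.Puig.le_puigSeq hAc i hi), key _ (H12.Puig.le_puigLower hAc),
    key _ (H12.Puig.le_puigSubgroup hAc), ?_, ?_⟩
  · intro h; exact hA (le_bot_iff.mp (h ▸ H12.Puig.le_puigSubgroup hAc))
  · intro h; exact hA (le_bot_iff.mp (h ▸ H12.Puig.le_puigLower hAc))

end Cfsg.Agent.S1466
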