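import Cfsg.Statements.S1468
import Cfsg.Agent.H12_Puig3

set_option autoImplicit false
open Cfsg

namespace Cfsg.Agent.S1468

/-- Let p be an odd prime, G a solvable group of odd order with O_{p'}(G) = 1, S a Sylow p-subgroup and T = O_p(G). Then, viewing the Puig subgroups of S and of T inside G, L_*(S) ≤ L_*(T) ≤ L(T) ≤ L(S). -/
theorem result {G : Type*} [Group G] [Finite G] [Group.IsSolvable G] (hodd : Odd (Nat.card G)) (p : ℕ) [Fact p.Prime] (hp : p ≠ 2) (hO : Cfsg.pPrimeCore p G = ⊥) (S : Sylow p G) :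
    (Cfsg.puigLower ↥(S : Subgroup G)).map (S : Subgroup G).subtype ≤ (Cfsg.puigLower ↥(Cfsg.pCore p G)).map (Cfsg.pCore p G).subtype ∧
      (Cfsg.puigLower ↥(Cfsg.pCore p G)).map (Cfsg.pCore p G).subtype ≤ (Cfsg.puigSubgroup ↥(Cfsg.pCore p G)).map (Cfsg.pCore p G).subtype ∧
      (Cfsg.puigSubgroup ↥(Cfsg.pCore p G)).map (Cfsg.pCore p G).subtype ≤ (Cfsg.puigSubgroup ↥(S : Subgroup G)).map (S : Subgroup G).subtype := by
  have hTS : Cfsg.pCore p G ≤ (S : Subgroup G) := (H1.Nilp.pCore_isPGroup p).le_sylow_of_normal S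
  rw [H12.Puig.map_puigLower_subtype, H12.Puig.map_puigLower_subtype, H12.Puig.map_puigSubgroup_subtype,
    H12.Puig.map_puigSubgroup_subtype]
  exact ⟨H12.Puig.puig_lower_le hodd hp hO hTS, H12.Puig.rLower_le_rPuig _, H12.Puig.puig_le hodd hp hO hTS⟩

end Cfsg.Agent.S1468
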