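import Cfsg.Statements.S1471
import Cfsg.Agent.H12_FinalStepCount

set_option autoImplicit false
open Cfsg

namespace Cfsg.Agent.S1471

/-- Let p and q be odd primes with (p^q − 1)/(p − 1) coprime to p − 1. Then there are at least two elements a of the field with p ^ q elements such that both a and 2 − a have norm 1 to the prime field. -/
theorem result (p q : ℕ) [Fact p.Prime] [Fact q.Prime] (hp : p ≠ 2) (hq : q ≠ 2) (hA : Nat.Coprime ((p ^ q - 1) / (p - 1)) (p - 1)) :
    2 ≤ Set.ncard {a : GaloisField p q | Algebra.norm (ZMod p) a = 1 ∧ Algebra.norm (ZMod p) (2 - a) = 1} := by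
  obtain ⟨x, hx1, hx2, hx3⟩ := Cfsg.Agent.H12.FinalStepCount.exists_ne_one p q hp hq
  rw [show (2 : ℕ) = 1 + 1 from rfl, Nat.add_one_le_iff, Set.one_lt_ncard_iff]
  refine ⟨x, 1, ⟨hx1, hx2⟩, ⟨map_one _, ?_⟩, hx3⟩
  have : (2 : GaloisField p q) - 1 = 1 := by norm_num
  rw [this, map_one]

end Cfsg.Agent.S1471
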