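import Cfsg.Statements.S1488
import Cfsg.Agent.H10_OOClif
import Cfsg.Agent.H10_BlockQuot

set_option autoImplicit false
open Cfsg

namespace Cfsg.Agent.S1488

/-- Let A be a normal subgroup of the finite group G contained in the subgroup H, let θ be a function on H and θ₁ a function on the image of H in G ⧸ A whose composite with the projection is θ. Then the function induced from θ₁ to G ⧸ A, composed with the projection G → G ⧸ A, equals the function induced from θ to G. -/
theorem result {G : Type*} [Group G] [Fintype G] (A H : Subgroup G) [A.Normal] (hAH : A ≤ H) [Fintype (G ⧸ A)] [Fintype ↥(H.map (QuotientGroup.mk' A))] (θ : H → ℂ) (θ₁ : ↥(H.map (QuotientGroup.mk' A)) → ℂ) (hθ : ∀ x : H, θ₁ ⟨QuotientGroup.mk' A x, Subgroup.mem_map_of_mem _ x.2⟩ = θ x) (g : G) : Cfsg.indFun (H.map (QuotientGroup.mk' A)) θ₁ (QuotientGroup.mk' A g) = Cfsg.indFun H θ g := by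
  classical
  have hmem : ∀ z : G, z ∈ H ↔ QuotientGroup.mk' A z ∈ H.map (QuotientGroup.mk' A) := by
    intro z
    constructor
    · exact fun h => Subgroup.mem_map_of_mem _ h
    · rintro ⟨y, hy, e⟩
      have h1 : y⁻¹ * z ∈ A := QuotientGroup.eq.1 e
      have := H.mul_mem hy (hAH h1)
      rwa [mul_inv_cancel_left] at this
  have hext : ∀ z : G, extendByZero H θ z = extendByZero (H.map (QuotientGroup.mk' A)) θ₁ (QuotientGroup.mk' A z) := by
    intro z
    by_cases hz : z ∈ H
    · rw [Cfsg.Agent.H3.CharInd.ext_mem H θ hz, Cfsg.Agent.H3.CharInd.ext_mem _ θ₁ ((hmem z).1 hz)]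
      exact (hθ ⟨z, hz⟩).symm
    · rw [Cfsg.Agent.H3.CharInd.ext_not_mem H θ hz, Cfsg.Agent.H3.CharInd.ext_not_mem _ θ₁ (fun h => hz ((hmem z).2 h))]
  have hcard : Nat.card H = Nat.card A * Nat.card (H.map (QuotientGroup.mk' A)) := by
    have h1 : Nat.card (A.subgroupOf H) * (A.subgroupOf H).index = Nat.card H := Subgroup.card_mul_index _
    have h2 : Nat.card (A.subgroupOf H) = Nat.card A := Nat.card_congr (Subgroup.subgroupOfEquivOfLe hAH).toEquiv
    have h3 : Nat.card (H.map (QuotientGroup.mk' A)) = (A.subgroupOf H).index := by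
      have h4 := Subgroup.relIndex_ker (f := QuotientGroup.mk' A) (K := H)
      rw [QuotientGroup.ker_mk'] at h4
      exact h4.symm
    rw [h3, ← h2, h1]
  have hA0 : (Nat.card A : ℂ) ≠ 0 := Nat.cast_ne_zero.2 Nat.card_pos.ne'
  rw [indFun, indFun]
  have hsum : ∑ x : G, extendByZero H θ (x⁻¹ * g * x) = (Nat.card A : ℂ) *
      ∑ y : G ⧸ A, extendByZero (H.map (QuotientGroup.mk' A)) θ₁ (y⁻¹ * QuotientGroup.mk' A g * y) := by
    have h5 := Cfsg.Agent.H10.BlockQuot.sum_coset A
      (fun y : G ⧸ A => extendByZero (H.map (QuotientGroup.mk' A)) θ₁ (y⁻¹ * QuotientGroup.mk' A g * y))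
    rw [nsmul_eq_mul] at h5
    rw [← h5]
    refine Finset.sum_congr rfl fun x _ => ?_
    rw [hext, map_mul, map_mul, map_inv]
    rfl
  rw [hsum, hcard, Nat.cast_mul, mul_inv]
  field_simp

end Cfsg.Agent.S1488
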