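import Cfsg.Statements.S1491
import Cfsg.Agent.H10_OOClif2

set_option autoImplicit false
open Cfsg

namespace Cfsg.Agent.S1491

/-- Let H be a normal subgroup of the finite group G and θ an irreducible character of H with inertia group T, where T/H is abelian (commutators of T lie in H) and the index of H in T is coprime to the order of H. Then the function induced from θ is the sum of a set of exactly [T:H] irreducible characters of G, each of degree [G:T] * θ(1). -/
theorem result {G : Type*} [Group G] [Fintype G] (H T : Subgroup G) [hN : H.Normal] (θ : H → ℂ) (hθ : Cfsg.IsIrrCharacter H θ) (hT : ∀ g : G, g ∈ T ↔ ∀ h : H, θ ⟨g * h * g⁻¹, hN.conj_mem h h.2 g⟩ = θ h) (hab : ∀ x ∈ T, ∀ y ∈ T, x * y * x⁻¹ * y⁻¹ ∈ H) (hcop : Nat.Coprime (Nat.card H) (H.relIndex T)) : ∃ C : Finset (G → ℂ), (∀ χ ∈ C, Cfsg.IsIrrCharacter G χ) ∧ C.card = H.relIndex T ∧ Cfsg.indFun H θ = ∑ χ ∈ C, χ ∧ ∀ χ ∈ C, χ 1 = (T.index : ℂ) * θ 1 := by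
  haveI : Fintype H := Fintype.ofFinite H
  haveI : Fintype T := Fintype.ofFinite T
  have hT' : T = Cfsg.Agent.H3.Clifford.inertia hN θ := by
    ext g
    rw [hT, Cfsg.Agent.H3.Clifford.mem_inertia]
    exact ⟨fun h => funext h, fun h n => congrFun h n⟩
  have hHT : H ≤ T := by rw [hT']; exact Cfsg.Agent.H3.Clifford.le_inertia hN (Cfsg.Agent.H3.CharIrr.IsIrr.isClass hθ)
  haveI : Fintype (H.subgroupOf T) := Fintype.ofFinite _
  obtain ⟨e, C, h1, h2, h3, h4, h5, h6⟩ := Cfsg.Agent.H10.OOClif2.ind_full hN hθ T hT' hab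
  have hN' : (H.subgroupOf T).Normal := hN.subgroupOf T
  have hcardH : Nat.card (H.subgroupOf T) = Nat.card H := Nat.card_congr (Subgroup.subgroupOfEquivOfLe hHT).toEquiv
  have he : e = 1 := by
    apply h6
    obtain ⟨ψ, hψ, hψN⟩ := Cfsg.Agent.H10.OOClif2.extend hN' (fun x y => by
      rw [Subgroup.mem_subgroupOf]; exact hab x x.2 y y.2) (by rw [hcardH]; exact hcop)
      (θ := fun x : H.subgroupOf T => θ ⟨(x : T), Subgroup.mem_subgroupOf.mp x.2⟩)
      ((Cfsg.Agent.H3.CharInd.isIrr_comp_iff (Subgroup.subgroupOfEquivOfLe hHT)).mpr hθ) (by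
        intro g
        have h2 : (g : G) ∈ Cfsg.Agent.H3.Clifford.inertia hN θ := by rw [← hT']; exact g.2
        rw [Cfsg.Agent.H3.Clifford.mem_inertia] at h2
        ext x
        exact congrFun h2 ⟨(x : T), Subgroup.mem_subgroupOf.mp x.2⟩)
    exact ⟨ψ, hψ, fun n h => hψN ⟨n, Subgroup.mem_subgroupOf.2 h⟩⟩
  subst he
  refine ⟨C, h2, ?_, ?_, ?_⟩
  · have h7 : Nat.card (H.subgroupOf T) * (H.subgroupOf T).index = Nat.card T := Subgroup.card_mul_index _
    rw [hcardH, ← h3, one_pow, one_mul, mul_comm] at h7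
    exact (Nat.eq_of_mul_eq_mul_right Nat.card_pos h7).symm
  · rw [h4, Nat.cast_one, one_smul]
  · intro χ hχ
    rw [h5 χ hχ, Nat.cast_one, mul_one]

end Cfsg.Agent.S1491
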