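import Cfsg.Statements.S1492
import Cfsg.Agent.H3_CharMult
import Cfsg.Agent.H3_CharQuot
import Cfsg.Agent.H3_CharInt

set_option autoImplicit false
open Cfsg

namespace Cfsg.Agent.S1492

open Cfsg.Agent.H3.CharBasic Cfsg.Agent.H3.CharIrr Cfsg.Agent.H3.CharComplete
  Cfsg.Agent.H3.CharMult Cfsg.Agent.H3.CharInd Cfsg.Agent.H3.CharInt Cfsg.Agent.H3.CharQuot
open scoped ComplexConjugate

theorem ker_of_constituent {G : Type*} [Group G] [Finite G] {χ φ : G → ℂ} (hχ : IsCharacter G χ)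
    (hφ : IsCharacter G φ) (hs : IsCharacter G (χ - φ)) {b : G} (hb : χ b = χ 1) : φ b = φ 1 := by
  obtain ⟨n, hn⟩ := IsChar.one_eq_nat hφ
  have h1 := IsChar.norm_le hφ b
  have h2 := IsChar.norm_le hs b
  have h3 := (Complex.re_le_norm ((χ - φ) b)).trans h2
  rw [Pi.sub_apply, Pi.sub_apply, hb, Complex.sub_re, Complex.sub_re] at h3
  have h4 := (Complex.re_le_norm (φ b)).trans h1
  have h5 : (φ b).re = n := by
    have : (φ 1).re = n := by rw [hn, Complex.natCast_re]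
    linarith
  rw [hn, Complex.natCast_re] at h1
  have h6 : (φ b).im = 0 := by
    have h3 := Complex.sq_norm (φ b)
    have h4 : ‖φ b‖ ^ 2 ≤ (n:ℝ) ^ 2 := pow_le_pow_left₀ (norm_nonneg _) h1 2
    rw [h3, Complex.normSq_apply, h5] at h4
    have h7 : (φ b).im * (φ b).im ≤ 0 := by nlinarith
    exact mul_self_eq_zero.1 (le_antisymm h7 (mul_self_nonneg _))
  rw [hn]
  exact Complex.ext (by rw [h5, Complex.natCast_re]) (by rw [h6, Complex.natCast_im])

/-- Let ψ be an irreducible character of the finite group G and B ≤ D ≤ C subgroups with B normal in C, every commutator of an element of D with an element of C lying in B (so D/B is central in C/B), and ψ constant equal to ψ 1 on B. Then ψ(1) ^ 2 * |C| * |D| ≤ |G| ^ 2. -/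
theorem result {G : Type*} [Group G] [Finite G] (ψ : G → ℂ) (hψ : Cfsg.IsIrrCharacter G ψ) (B C D : Subgroup G) (hBD : B ≤ D) (hDC : D ≤ C) (hBn : ∀ c ∈ C, ∀ b ∈ B, c * b * c⁻¹ ∈ B) (hcent : ∀ d ∈ D, ∀ c ∈ C, d * c * d⁻¹ * c⁻¹ ∈ B) (hker : ∀ b ∈ B, ψ b = ψ 1) : ‖ψ 1‖ ^ 2 * (Nat.card C : ℝ) * (Nat.card D : ℝ) ≤ (Nat.card G : ℝ) ^ 2 := by
  classical
  haveI := Fintype.ofFinite G
  haveI := Fintype.ofFinite C
  obtain ⟨φ, hφ, hcon⟩ := exists_constituent_res (H := C) hψ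
  have hψC := IsChar.res (IsIrr.isCharacter hψ) C
  obtain ⟨k, hk⟩ := ci_char_nat hψC (IsIrr.isCharacter hφ)
  have hk1 : 1 ≤ k := Nat.one_le_iff_ne_zero.2 (by rintro rfl; exact hcon (by rw [hk]; simp))
  have hsub := IsChar.sub_constituent hψC hφ hk hk1
  have hφker : ∀ b : C, (b : G) ∈ B → φ b = φ 1 := by
    intro b hb
    apply ker_of_constituent hψC (IsIrr.isCharacter hφ) _ (hker b hb)
    convert hsub using 1
    simp
  -- quotient
  have hB' : (B.subgroupOf C).Normal := ⟨fun b hb c => by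
    rw [Subgroup.mem_subgroupOf] at hb ⊢; exact hBn c c.2 b hb⟩
  obtain ⟨φ', hφ', hφφ'⟩ := IsIrr.descend hφ (B.subgroupOf C) (fun b hb => hφker b (Subgroup.mem_subgroupOf.1 hb))
  obtain ⟨n, hn0, hn⟩ := IsIrr.one_eq_nat hφ
  have hnorm : ∀ d : C, (d : G) ∈ D → ‖φ d‖ = n := by
    intro d hd
    have hz : (QuotientGroup.mk d : C ⧸ B.subgroupOf C) ∈ Subgroup.center (C ⧸ B.subgroupOf C) := by
      rw [Subgroup.mem_center_iff]
      intro x
      obtain ⟨c, rfl⟩ := QuotientGroup.mk_surjective x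
      rw [← QuotientGroup.mk_mul, ← QuotientGroup.mk_mul, QuotientGroup.eq, Subgroup.mem_subgroupOf]
      have h1 := hcent (d⁻¹ : G) (D.inv_mem hd) (c⁻¹ : G) (C.inv_mem c.2)
      have e : (((c * d)⁻¹ * (d * c) : C) : G) = (d : G)⁻¹ * (c : G)⁻¹ * (d : G)⁻¹⁻¹ * (c : G)⁻¹⁻¹ := by
        push_cast; group
      rw [e]; exact h1
    obtain ⟨c, hc, hcg⟩ := IsIrr.central hφ' hz
    have h2 := hcg 1
    rw [one_mul, hφφ'] at h2
    have h3 : φ' 1 = n := by rw [← hn, ← hφφ' 1, QuotientGroup.mk_one]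
    rw [h2, h3, norm_mul, norm_eq_one_of_pow (orderOf_pos _).ne' hc, one_mul, Complex.norm_natCast]
  -- the norm computation
  have h1 : (Nat.card D : ℝ) * n ^ 2 ≤ Nat.card C := by
    have h2 := ci_irr_self hφ
    rw [classInner, inv_mul_eq_one₀ (Nat.cast_ne_zero.2 Nat.card_pos.ne')] at h2
    have h3 : (Nat.card C : ℝ) = ∑ c : C, ‖φ c‖ ^ 2 := by
      have : ((Nat.card C : ℝ) : ℂ) = ((∑ c : C, ‖φ c‖ ^ 2 : ℝ) : ℂ) := by
        push_cast
        rw [h2]
        refine Finset.sum_congr rfl fun c _ => ?_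
        rw [Complex.mul_conj, Complex.normSq_eq_norm_sq]; push_cast; rfl
      exact_mod_cast this
    have h4 : (Nat.card D : ℝ) * n ^ 2 = ∑ c : C, if (c : G) ∈ D then ‖φ c‖ ^ 2 else 0 := by
      rw [← Finset.sum_filter, Finset.sum_congr rfl (g := fun _ => (n : ℝ) ^ 2) (fun c hc => by
        rw [hnorm c (Finset.mem_filter.1 hc).2]), Finset.sum_const, nsmul_eq_mul]
      congr 2
      rw [← Fintype.card_subtype, ← Nat.card_eq_fintype_card]
      exact Nat.card_congr (Subgroup.subgroupOfEquivOfLe hDC).symm.toEquiv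
    rw [h3, h4]
    apply Finset.sum_le_sum
    intro c _
    split_ifs
    · exact le_rfl
    · positivity
  obtain ⟨m, hm⟩ := IsChar.one_eq_nat (IsIrr.isCharacter hψ)
  have h5 : m ≤ C.index * n := by
    refine IsChar.degree_le' (IsChar.ind (IsIrr.isCharacter hφ)) hψ ?_ (by
      rw [ind_one, hn]; push_cast; rfl) hm
    rw [constituent_ind_iff (IsIrr.isCharacter hψ)]
    exact hcon
  have h6 : (m : ℝ) ≤ C.index * n := by exact_mod_cast h5
  have h7 : (Nat.card G : ℝ) = C.index * Nat.card C := by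
    rw [← Nat.cast_mul, Subgroup.index_mul_card]
  rw [hm, Complex.norm_natCast, h7]
  have h8 : (0:ℝ) ≤ Nat.card C := Nat.cast_nonneg _
  have h9 : (0:ℝ) ≤ Nat.card D := Nat.cast_nonneg _
  have h10 : (m:ℝ) ^ 2 ≤ (C.index * n) ^ 2 := pow_le_pow_left₀ (Nat.cast_nonneg _) h6 2
  generalize (Nat.card C : ℝ) = c at *
  generalize (Nat.card D : ℝ) = d at *
  generalize (C.index : ℝ) = i at *
  calc (m : ℝ) ^ 2 * c * d ≤ (i * n) ^ 2 * c * d := by gcongr
    _ = i ^ 2 * c * (d * n ^ 2) := by ring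
    _ ≤ i ^ 2 * c * c := by gcongr
    _ = _ := by ring

end Cfsg.Agent.S1492
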