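import Cfsg.Statements.S1493
import Cfsg.Agent.H3_CharMult
import Cfsg.Agent.H3_GalProd

set_option autoImplicit false
open Cfsg

namespace Cfsg.Agent.S1493

open Cfsg.Agent.H3.CharBasic Cfsg.Agent.H3.CharIrr Cfsg.Agent.H3.CharComplete
  Cfsg.Agent.H3.CharMult Cfsg.Agent.H3.CharInd

/-- Let G be a finite group of order a * b with a and b coprime, let k be coprime to a, and let χ be a character of G. Then there is a character χ' of G such that χ'(g) = χ(g ^ k) whenever the order of g divides a and χ'(g) = χ(g) whenever the order of g is coprime to a; moreover χ' is irreducible if χ is. -/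
theorem result {G : Type*} [Group G] [Finite G] (a b k : ℕ) (hab : Nat.card G = a * b) (hcop : Nat.Coprime a b) (hk : Nat.Coprime k a) (χ : G → ℂ) (hχ : Cfsg.IsCharacter G χ) : ∃ χ' : G → ℂ, Cfsg.IsCharacter G χ' ∧ (Cfsg.IsIrrCharacter G χ → Cfsg.IsIrrCharacter G χ') ∧ (∀ g : G, orderOf g ∣ a → χ' g = χ (g ^ k)) ∧ (∀ g : G, Nat.Coprime (orderOf g) a → χ' g = χ g) := by
  classical
  haveI := Fintype.ofFinite G
  haveI : Fintype (IrrCharacter G) := Fintype.ofFinite _
  obtain ⟨m, hm1, hm2⟩ := Nat.chineseRemainder hcop k 1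
  have hma : Nat.Coprime a m := by
    rw [Nat.coprime_comm, Nat.coprime_iff_gcd_eq_one, Nat.ModEq.gcd_eq hm1]; exact hk
  have hmb : Nat.Coprime b m := by
    rw [Nat.coprime_comm, Nat.coprime_iff_gcd_eq_one, Nat.ModEq.gcd_eq hm2, Nat.gcd_one_left]
  have hm : (Nat.card G).Coprime m := by rw [hab]; exact Nat.Coprime.mul_left hma hmb
  refine ⟨fun g => χ (g ^ m), ?_, fun h => Cfsg.Agent.H3.GalProd.isIrr_pow hm h, ?_, ?_⟩
  · obtain ⟨n, -, hn⟩ := IsChar.eq_sum_nat hχ
    have h1 : (fun g => χ (g ^ m)) = ∑ ψ : IrrCharacter G, (n ψ : ℂ) • (fun g => (ψ : G → ℂ) (g ^ m)) := by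
      ext g
      have := congrFun hn (g ^ m)
      rw [this]; simp
    rw [h1]
    apply IsChar.sum
    intro ψ _
    exact IsChar.natsmul (IsIrr.isCharacter (Cfsg.Agent.H3.GalProd.isIrr_pow hm ψ.2)) (n ψ)
  · intro g hg
    show χ (g ^ m) = χ (g ^ k)
    congr 1
    exact pow_eq_pow_iff_modEq.2 (Nat.ModEq.of_dvd hg hm1)
  · intro g hg
    show χ (g ^ m) = χ g
    congr 1
    have h1 : orderOf g ∣ b := by
      have h2 : orderOf g ∣ a * b := by rw [← hab]; exact orderOf_dvd_natCard g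
      exact hg.dvd_of_dvd_mul_left h2
    conv_rhs => rw [← pow_one g]
    exact pow_eq_pow_iff_modEq.2 (Nat.ModEq.of_dvd h1 hm2)

end Cfsg.Agent.S1493
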