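import Cfsg.Statements.S1494
import Cfsg.Agent.H3_CharMult
import Cfsg.Agent.H3_CharInt

set_option autoImplicit false
open Cfsg

namespace Cfsg.Agent.S1494

open Cfsg.Agent.H3.CharBasic Cfsg.Agent.H3.CharIrr Cfsg.Agent.H3.CharComplete
  Cfsg.Agent.H3.CharMult Cfsg.Agent.H3.CharInd Cfsg.Agent.H3.CharInt
open scoped ComplexConjugate

theorem hom_case {A : Type*} [Group A] (f : A →* ℂ) (p : ℕ) (hp : p.Prime) (x y : A)
    (hx : orderOf x = p) (hy : IsIntegral ℤ (f y)) :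
    ∃ ω : ℂ, IsIntegral ℤ ω ∧ f (x * y) - f y = (1 - Complex.exp (2 * Real.pi * Complex.I / p)) * ω := by
  haveI : NeZero p := ⟨hp.ne_zero⟩
  have h1 : IsPrimitiveRoot (Complex.exp (2 * Real.pi * Complex.I / p)) p := Complex.isPrimitiveRoot_exp p hp.ne_zero
  have h2 : f x ^ p = 1 := by rw [← map_pow, ← hx, pow_orderOf_eq_one, map_one]
  obtain ⟨i, -, hi⟩ := h1.eq_pow_of_pow_eq_one h2
  have hz : IsIntegral ℤ (Complex.exp (2 * Real.pi * Complex.I / p)) := h1.isIntegral hp.pos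
  refine ⟨-(∑ j ∈ Finset.range i, Complex.exp (2 * Real.pi * Complex.I / p) ^ j) * f y, ?_, ?_⟩
  · exact ((IsIntegral.sum _ fun j _ => hz.pow j).neg).mul hy
  · have h3 := geom_sum_mul (Complex.exp (2 * Real.pi * Complex.I / p)) i
    rw [hi] at h3
    rw [map_mul]
    linear_combination (- f y) * h3

/-- Let χ be a generalized character of the finite group G, p a prime, x an element of order p and y an element commuting with x. Then χ(x * y) − χ(y) = (1 − ε) * ω for some algebraic integer ω, where ε = exp(2πi/p). -/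
theorem result {G : Type*} [Group G] [Finite G] (χ : G → ℂ) (hχ : Cfsg.IsGeneralizedCharacter G χ) (p : ℕ) (hp : p.Prime) (x y : G) (hx : orderOf x = p) (hxy : x * y = y * x) : ∃ ω : ℂ, IsIntegral ℤ ω ∧ χ (x * y) - χ y = (1 - Complex.exp (2 * Real.pi * Complex.I / p)) * ω := by
  classical
  haveI := Fintype.ofFinite G
  let A : Subgroup G := Subgroup.closure {x, y}
  have hxA : x ∈ A := Subgroup.subset_closure (by simp)
  have hyA : y ∈ A := Subgroup.subset_closure (by simp)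
  have hcomm : ∀ a b : A, a * b = b * a := by
    letI := Subgroup.closureCommGroupOfComm (k := {x, y}) (by
      rintro a (rfl | rfl) b (rfl | rfl)
      · rfl
      · exact hxy
      · exact hxy.symm
      · rfl)
    intro a b
    exact mul_comm a b
  haveI : Fintype A := Fintype.ofFinite A
  haveI : Fintype (IrrCharacter A) := Fintype.ofFinite _
  have hA := IsGen.comp hχ A.subtype
  obtain ⟨n, -, hn⟩ := IsGen.eq_sum_int hA
  have h1 : ∀ ψ : IrrCharacter A, ∃ ω : ℂ, IsIntegral ℤ ω ∧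
      (ψ : A → ℂ) (⟨x, hxA⟩ * ⟨y, hyA⟩) - (ψ : A → ℂ) ⟨y, hyA⟩ = (1 - Complex.exp (2 * Real.pi * Complex.I / p)) * ω := by
    intro ψ
    obtain ⟨f, hf⟩ := IsChar.hom_of_one (IsIrr.isCharacter ψ.2) (IsIrr.one_of_comm hcomm ψ.2)
    obtain ⟨ω, h2, h3⟩ := hom_case f p hp ⟨x, hxA⟩ ⟨y, hyA⟩ (by rw [Subgroup.orderOf_mk]; exact hx)
      (by rw [← hf]; exact IsChar.isIntegral (IsIrr.isCharacter ψ.2) _)
    exact ⟨ω, h2, by rw [hf, hf]; exact h3⟩
  choose w hw hw2 using h1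
  refine ⟨∑ ψ, (n ψ : ℂ) * w ψ, IsIntegral.sum _ fun ψ _ => ?_, ?_⟩
  · exact IsIntegral.mul (by exact_mod_cast isIntegral_algebraMap (R := ℤ) (A := ℂ) (x := n ψ)) (hw ψ)
  · have h2 := congrFun hn (⟨x, hxA⟩ * ⟨y, hyA⟩)
    have h3 := congrFun hn ⟨y, hyA⟩
    simp only [Finset.sum_apply, Pi.smul_apply, smul_eq_mul] at h2 h3
    have h4 : χ (x * y) = ∑ ψ : IrrCharacter A, (n ψ : ℂ) * (ψ : A → ℂ) (⟨x, hxA⟩ * ⟨y, hyA⟩) := h2
    have h5 : χ y = ∑ ψ : IrrCharacter A, (n ψ : ℂ) * (ψ : A → ℂ) ⟨y, hyA⟩ := h3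
    rw [h4, h5, ← Finset.sum_sub_distrib, Finset.mul_sum]
    refine Finset.sum_congr rfl fun ψ _ => ?_
    rw [← mul_sub, hw2]; ring

end Cfsg.Agent.S1494
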