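import Cfsg.Statements.S1495
import Cfsg.Agent.H10_BlockHZ
import Cfsg.Agent.H10_BlockKn

set_option autoImplicit false
open Cfsg

namespace Cfsg.Agent.S1495

/-- Let p be a prime, ε = exp(2πi/p), and n an integer such that n = (1 − ε) * ω for some algebraic integer ω. Then p divides n. -/
theorem result (p : ℕ) (hp : p.Prime) (n : ℤ) (ω : ℂ) (hω : IsIntegral ℤ ω) (h : (n : ℂ) = (1 - Complex.exp (2 * Real.pi * Complex.I / p)) * ω) : (p : ℤ) ∣ n := by
  haveI : Fact p.Prime := ⟨hp⟩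
  obtain ⟨M, hM⟩ := Cfsg.Agent.H10.BlockKn.exists_modular hp
  haveI := hM.2.1
  have h1 : Cfsg.MemLocalIdeal M (Complex.exp (2 * Real.pi * Complex.I / p) - 1) := by
    apply Cfsg.Agent.H10.BlockHZ.root_sub_one_mem hM (k := 1)
    rw [pow_one, ← Complex.exp_nat_mul]
    have hp0 : (p : ℂ) ≠ 0 := Nat.cast_ne_zero.2 hp.ne_zero
    rw [mul_div_cancel₀ _ hp0, Complex.exp_two_pi_mul_I]
  have h2 : Cfsg.MemLocalIdeal M ((1 - Complex.exp (2 * Real.pi * Complex.I / p)) * ω) := by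
    apply Cfsg.Agent.H10.BlockLoc.ideal_mul_right
    · have := Cfsg.Agent.H10.BlockLoc.ideal_neg h1
      rwa [neg_sub] at this
    · exact Cfsg.Agent.H10.BlockLoc.memLocalRing_of_integral (Ideal.IsPrime.ne_top inferInstance) hω
  rw [← h] at h2
  exact (Cfsg.Agent.H10.BlockLoc.ideal_intCast_iff hM n).1 h2

end Cfsg.Agent.S1495
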