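import Cfsg.Statements.S1497
import Cfsg.Agent.H10_Dade

set_option autoImplicit false
open Cfsg

namespace Cfsg.Agent.S1497

/-- Let A be a nonempty subset of the finite group G not containing 1 and L a subgroup. Then A is a TI-subset whose normaliser is L if and only if the Dade hypothesis holds for A, L and the constant choice H(a) = ⊥. -/
theorem result {G : Type*} [Group G] [Finite G] (A : Set G) (hA : A.Nonempty) (h1 : (1 : G) ∉ A) (L : Subgroup G) : (Cfsg.IsTISubset A ∧ Subgroup.normalizer A = L) ↔ Cfsg.DadeHypothesis A L (fun _ => ⊥) := by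
  constructor
  · rintro ⟨hTI, rfl⟩
    have hn : ∀ x ∈ Subgroup.normalizer A, ∀ a ∈ A, x * a * x⁻¹ ∈ A := fun x hx a ha =>
      (Subgroup.mem_set_normalizer_iff.1 hx a).1 ha
    have hcon : ∀ a ∈ A, ∀ g : G, g * a * g⁻¹ ∈ A → g ∈ Subgroup.normalizer A := by
      intro a ha g hg
      by_contra hno
      exact h1 (hTI g hno a ha hg ▸ ha)
    have hsub : A ⊆ (Subgroup.normalizer A : Set G) := fun a ha => hcon a ha a (by simpa using ha)
    have hC : ∀ a ∈ A, Subgroup.normalizer A ⊓ Subgroup.centralizer ({a} : Set G) = Subgroup.centralizer ({a} : Set G) := by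
      intro a ha
      rw [inf_eq_right]
      intro c hc
      apply hcon a ha
      have h2 := Subgroup.mem_centralizer_singleton_iff.1 hc
      rw [h2, mul_inv_cancel_right]; exact ha
    exact ⟨h1, hsub, hn, fun a ha g hg => ⟨g, hcon a ha g hg, rfl⟩, fun a _ => bot_le,
      fun a _ c _ u hu => by rw [Subgroup.mem_bot] at hu ⊢; rw [hu]; group, fun a _ => bot_inf_eq _,
      fun a ha => by rw [bot_sup_eq, hC a ha], fun a _ b _ => by simp⟩
  · intro hD
    have hnorm : Subgroup.normalizer A = L := by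
      obtain ⟨a, ha⟩ := hA
      apply le_antisymm
      · intro g hg
        have h2 := (Subgroup.mem_set_normalizer_iff.1 hg a).1 ha
        obtain ⟨x, hx, e⟩ := hD.fusion a ha g h2
        have h3 : x⁻¹ * g ∈ Subgroup.centralizer ({a} : Set G) := by
          rw [Subgroup.mem_centralizer_singleton_iff]
          have h4 : (x⁻¹ * g) * a * (x⁻¹ * g)⁻¹ = a := by
            have : (x⁻¹ * g) * a * (x⁻¹ * g)⁻¹ = x⁻¹ * (g * a * g⁻¹) * x := by group
            rw [this, ← e]; group
          exact mul_inv_eq_iff_eq_mul.1 h4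
        rw [← hD.sup_eq a ha, bot_sup_eq] at h3
        have := L.mul_mem hx h3.1
        rwa [mul_inv_cancel_left] at this
      · intro x hx
        rw [Subgroup.mem_set_normalizer_iff]
        intro a
        refine ⟨fun ha => hD.conj_mem x hx a ha, fun ha => ?_⟩
        have := hD.conj_mem x⁻¹ (L.inv_mem hx) _ ha
        have e : x⁻¹ * (x * a * x⁻¹) * x⁻¹⁻¹ = a := by group
        rwa [e] at this
    refine ⟨?_, hnorm⟩
    intro g hg a ha hga
    exfalso
    apply hg
    rw [hnorm]
    obtain ⟨x, hx, e⟩ := hD.fusion a ha g hga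
    have h3 : x⁻¹ * g ∈ Subgroup.centralizer ({a} : Set G) := by
      rw [Subgroup.mem_centralizer_singleton_iff]
      have h4 : (x⁻¹ * g) * a * (x⁻¹ * g)⁻¹ = a := by
        have : (x⁻¹ * g) * a * (x⁻¹ * g)⁻¹ = x⁻¹ * (g * a * g⁻¹) * x := by group
        rw [this, ← e]; group
      exact mul_inv_eq_iff_eq_mul.1 h4
    rw [← hD.sup_eq a ha, bot_sup_eq] at h3
    have := L.mul_mem hx h3.1
    rwa [mul_inv_cancel_left] at this

end Cfsg.Agent.S1497
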