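import Cfsg.Statements.S1499
import Cfsg.Agent.H10_Dade

set_option autoImplicit false
open Cfsg

namespace Cfsg.Agent.S1499

/-- Under the Dade hypothesis for (A, L, H), let a, b ∈ A. If an element of the coset a·H(a) is conjugate in G to an element of b·H(b), then a and b are conjugate by an element of L. Moreover the set normaliser of the coset a·H(a) is the centraliser of a. -/
theorem result {G : Type*} [Group G] [Finite G] (A : Set G) (L : Subgroup G) (H : G → Subgroup G) (hD : Cfsg.DadeHypothesis A L H) (a b : G) (ha : a ∈ A) (hb : b ∈ A) : ((∃ u ∈ H a, ∃ v ∈ H b, ∃ g : G, g * (a * u) * g⁻¹ = b * v) → ∃ x ∈ L, x * a * x⁻¹ = b) ∧ Subgroup.normalizer ((fun u : G => a * u) '' (H a : Set G)) = Subgroup.centralizer ({a} : Set G) := by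
  refine ⟨?_, Cfsg.Agent.H10.Dade.normalizer_coset hD ha⟩
  rintro ⟨u, hu, v, hv, g, h⟩
  exact Cfsg.Agent.H10.Dade.conj_L hD ha hb (Cfsg.Agent.H10.Dade.part_conj hD ha hb hu hv h)

end Cfsg.Agent.S1499
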