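import Cfsg.Statements.S1504
import Cfsg.Agent.H10_CycTI3

set_option autoImplicit false
open Cfsg

namespace Cfsg.Agent.S1504

open Cfsg.Agent.H3.CharIrr Cfsg.Agent.H10.CycTI Cfsg.Agent.H10.CycTI2 Cfsg.Agent.H10.CycTI3

/-- Let W₁, W₂ be subgroups of a finite group with W₁ ⊓ W₂ = ⊥ whose elements commute, and W = W₁ ⊔ W₂. For linear characters φ, ψ of W with φ trivial on W₂ and ψ trivial on W₁, the function (1 − φ)(1 − ψ) vanishes on W₁ ∪ W₂; and the family of these functions, indexed by pairs (φ, ψ) with φ ≠ 1 ≠ ψ, is linearly independent over ℂ. -/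
theorem result {G : Type*} [Group G] [Finite G] (W₁ W₂ : Subgroup G) (hdisj : W₁ ⊓ W₂ = ⊥) (hcomm : ∀ a ∈ W₁, ∀ b ∈ W₂, a * b = b * a) : (∀ φ ψ : ↥(W₁ ⊔ W₂) →* ℂˣ, (∀ w : ↥(W₁ ⊔ W₂), (w : G) ∈ W₂ → φ w = 1) → (∀ w : ↥(W₁ ⊔ W₂), (w : G) ∈ W₁ → ψ w = 1) → ∀ w : ↥(W₁ ⊔ W₂), ((w : G) ∈ W₁ ∨ (w : G) ∈ W₂) → (1 - (φ w : ℂ) - (ψ w : ℂ) + (φ w : ℂ) * (ψ w : ℂ)) = 0) ∧ LinearIndependent ℂ (fun p : {p : (↥(W₁ ⊔ W₂) →* ℂˣ) × (↥(W₁ ⊔ W₂) →* ℂˣ) // p.1 ≠ 1 ∧ p.2 ≠ 1 ∧ (∀ w : ↥(W₁ ⊔ W₂), (w : G) ∈ W₂ → p.1 w = 1) ∧ (∀ w : ↥(W₁ ⊔ W₂), (w : G) ∈ W₁ → p.2 w = 1)} => fun w : ↥(W₁ ⊔ W₂) => 1 - (p.1.1 w : ℂ) - (p.1.2 w : ℂ) + (p.1.1 w : ℂ) * (p.1.2 w : ℂ)) := by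
  classical
  haveI := Fintype.ofFinite G
  haveI := Fintype.ofFinite ↥(W₁ ⊔ W₂)
  refine ⟨fun φ ψ hφ hψ w hw => al_zero (φ := φ) (ψ := ψ) hφ hψ w hw, ?_⟩
  have X11 : X1 W₁ W₂ (1 : ↥(W₁ ⊔ W₂) →* ℂˣ) := fun w _ => rfl
  have X21 : X2 W₁ W₂ (1 : ↥(W₁ ⊔ W₂) →* ℂˣ) := fun w _ => rfl
  rw [linearIndependent_iff']
  intro s c hc p hp
  have key : ∀ q : {p : (↥(W₁ ⊔ W₂) →* ℂˣ) × (↥(W₁ ⊔ W₂) →* ℂˣ) // p.1 ≠ 1 ∧ p.2 ≠ 1 ∧ (∀ w : ↥(W₁ ⊔ W₂), (w : G) ∈ W₂ → p.1 w = 1) ∧ (∀ w : ↥(W₁ ⊔ W₂), (w : G) ∈ W₁ → p.2 w = 1)},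
      classInner (al q.1.1 q.1.2) (fun w => ((p.1.1 * p.1.2) w : ℂ)) = if q = p then 1 else 0 := by
    intro q
    have inj := fun (h : q.1.1 * q.1.2 = p.1.1 * p.1.2) => X_inj q.2.2.2.1 p.2.2.2.1 q.2.2.2.2 p.2.2.2.2 hdisj hcomm h
    have n1 : (1 : ↥(W₁ ⊔ W₂) →* ℂˣ) ≠ p.1.1 * p.1.2 := fun h => p.2.1 (X_inj X11 p.2.2.2.1 X21 p.2.2.2.2 hdisj hcomm (by rw [hom_one_mul]; exact h)).1.symm
    have n2 : q.1.1 ≠ p.1.1 * p.1.2 := fun h => p.2.2.1 (X_inj q.2.2.2.1 p.2.2.2.1 X21 p.2.2.2.2 hdisj hcomm (by rw [hom_mul_one]; exact h)).2.symm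
    have n3 : q.1.2 ≠ p.1.1 * p.1.2 := fun h => p.2.1 (X_inj X11 p.2.2.2.1 q.2.2.2.2 p.2.2.2.2 hdisj hcomm (by rw [hom_one_mul]; exact h)).1.symm
    rw [al_cc, if_neg n1, if_neg n2, if_neg n3]
    by_cases h : q = p
    · rw [if_pos h, if_pos (by rw [h])]; norm_num
    · rw [if_neg h, if_neg]
      · norm_num
      · intro h2
        exact h (Subtype.ext (Prod.ext (inj h2).1 (inj h2).2))
  have h1 := congrArg (fun f => classInner f (fun w => ((p.1.1 * p.1.2) w : ℂ))) hc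
  beta_reduce at h1
  rw [ci_zero_left, ci_sum_left] at h1
  have h2 : ∀ q ∈ s, classInner (c q • fun w : ↥(W₁ ⊔ W₂) => 1 - (q.1.1 w : ℂ) - (q.1.2 w : ℂ) + (q.1.1 w : ℂ) * (q.1.2 w : ℂ)) (fun w => ((p.1.1 * p.1.2) w : ℂ)) =
      c q * if q = p then 1 else 0 := by
    intro q _
    rw [ci_smul_left]
    congr 1
    exact key q
  rw [Finset.sum_congr rfl h2] at h1
  simpa [hp] using h1

end Cfsg.Agent.S1504
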