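import Cfsg.Statements.S1507
import Cfsg.Agent.H10_CycTI4

set_option autoImplicit false
open Cfsg

namespace Cfsg.Agent.S1507

open Cfsg.Agent.H10.CycTI Cfsg.Agent.H10.CycTI2 Cfsg.Agent.H10.CycTI3 Cfsg.Agent.H10.CycTI4


open Classical in
/-- Let W₁, W₂ ≤ G form a self-normalising cyclic subgroup W = W₁ ⊔ W₂ of odd order with Nat.card W₁ < Nat.card W₂, and χ an orthonormal family of irreducible characters of G up to sign, indexed by the linear characters ω of W, with χ_1 = 1, χ_ω = ω on W outside W₁ ∪ W₂, and the induction identity for (1 − φ)(1 − ψ). Let θ be a class function of G vanishing on W outside W₁ ∪ W₂, and suppose fewer than 2 · Nat.card W₁ linear characters ω of W have ⟨θ, χ ω⟩ ≠ 0. Then one of: all ⟨θ, χ ω⟩ vanish; or there are ψ₀ and a with ⟨θ, χ ω⟩ = a when ω ψ₀⁻¹ is trivial on W₂ and 0 otherwise; or there are φ₀ and a with ⟨θ, χ ω⟩ = a when ω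 φ₀⁻¹ is trivial on W₁ and 0 otherwise. -/
theorem result {G : Type*} [Group G] [Fintype G] (W₁ W₂ : Subgroup G) (hW : Cfsg.IsSelfNormalizingCyclic W₁ W₂) (hodd : Odd (Nat.card ↥(W₁ ⊔ W₂))) (χ : (↥(W₁ ⊔ W₂) →* ℂˣ) → (G → ℂ)) (hχ : Cfsg.IsCyclicTIFamily W₁ W₂ χ) (hlt : Nat.card W₁ < Nat.card W₂) (θ : G → ℂ) (hθ : Cfsg.IsClassFunction G θ) (hθV : ∀ w : ↥(W₁ ⊔ W₂), (w : G) ∉ W₁ → (w : G) ∉ W₂ → θ w = 0) (hfew : Nat.card {ω : ↥(W₁ ⊔ W₂) →* ℂˣ // Cfsg.classInner θ (χ ω) ≠ 0} < 2 * Nat.card W₁) : (∀ ω, Cfsg.classInner θ (χ ω) = 0) ∨ (∃ (ψ₀ : ↥(W₁ ⊔ W₂) →* ℂˣ) (a : ℂ), ∀ ω, Cfsg.classInner θ (χ ω) = if (∀ w : ↥(W₁ ⊔ W₂), (w : G) ∈ W₂ → (ω * ψ₀⁻¹) w = 1) then a else 0) ∨ (∃ (φ₀ : ↥(W₁ ⊔ W₂) →* ℂˣ) (a : ℂ), ∀ ω, Cfsg.classInner θ (χ ω) = if (∀ w : ↥(W₁ ⊔ W₂), (w : G) ∈ W₁ → (ω * φ₀⁻¹) w = 1) then a else 0) := by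
  have hd := hdisj hW
  have hc := hcomm hW
  let I := {φ : ↥(W₁ ⊔ W₂) →* ℂˣ // X1 W₁ W₂ φ}
  let J := {ψ : ↥(W₁ ⊔ W₂) →* ℂˣ // X2 W₁ W₂ ψ}
  have hI : Nat.card I = Nat.card W₁ := card_X1 hW
  have hJ : Nat.card J = Nat.card W₂ := card_X2 hW
  haveI : Finite I := inferInstance
  haveI : Finite J := inferInstance
  have ho1 : Odd (Nat.card W₁) := hodd.of_dvd_nat (Subgroup.card_dvd_of_le le_sup_left)
  have ho2 : Odd (Nat.card W₂) := hodd.of_dvd_nat (Subgroup.card_dvd_of_le le_sup_right)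
  have hinj : Function.Injective (fun p : I × J => (p.1.1 * p.2.1 : ↥(W₁ ⊔ W₂) →* ℂˣ)) := by
    rintro ⟨i, j⟩ ⟨i', j'⟩ h
    obtain ⟨h1, h2⟩ := X_inj i.2 i'.2 j.2 j'.2 hd hc h
    exact Prod.ext (Subtype.ext h1) (Subtype.ext h2)
  have hcount : Nat.card {p : I × J // classInner θ (χ (p.1.1 * p.2.1)) ≠ 0} < 2 * Nat.card I := by
    rw [hI]
    refine lt_of_le_of_lt ?_ hfew
    apply Nat.card_le_card_of_injective (fun p : {p : I × J // classInner θ (χ (p.1.1 * p.2.1)) ≠ 0} =>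
      (⟨p.1.1.1 * p.1.2.1, p.2⟩ : {ω : ↥(W₁ ⊔ W₂) →* ℂˣ // classInner θ (χ ω) ≠ 0}))
    intro p q h
    exact Subtype.ext (hinj (congrArg Subtype.val h))
  have hmain := grid_few (I := I) (J := J) (a := fun i j => classInner θ (χ (i.1 * j.1)))
    (fun i i' j j' => grid hW hχ hθ hθV i.2 j.2 i'.2 j'.2) (by
      rw [hI, hJ]
      obtain ⟨r, hr⟩ := ho1
      obtain ⟨s, hs⟩ := ho2
      omega) (by rw [hI]; exact Nat.card_pos) hcount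
  rcases hmain with h | ⟨j₀, c, h⟩ | ⟨i₀, c, h⟩
  · left
    intro ω
    obtain ⟨φ, ψ, hφ, hψ, rfl⟩ := exists_decomp ω hd hc
    exact h ⟨φ, hφ⟩ ⟨ψ, hψ⟩
  · right; left
    refine ⟨j₀.1, c, ?_⟩
    intro ω
    obtain ⟨φ, ψ, hφ, hψ, rfl⟩ := exists_decomp ω hd hc
    have h1 := h ⟨φ, hφ⟩ ⟨ψ, hψ⟩
    simp only at h1
    rw [h1]
    have hiff : (⟨ψ, hψ⟩ : J) = j₀ ↔ ∀ w : ↥(W₁ ⊔ W₂), (w : G) ∈ W₂ → ((φ * ψ) * (j₀.1)⁻¹) w = 1 := by
      constructor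
      · rintro rfl w hw
        simp [hφ w hw]
      · intro h2
        have h3 : ψ * (j₀.1)⁻¹ = 1 := by
          apply eq_one_of_X (W₁ := W₁) (W₂ := W₂) _ _ hd hc
          · intro w hw
            have h4 := h2 w hw
            rw [MonoidHom.mul_apply, MonoidHom.mul_apply, hφ w hw, one_mul] at h4
            exact h4
          · intro w hw
            rw [MonoidHom.mul_apply, hψ w hw, one_mul, MonoidHom.inv_apply, j₀.2 w hw, inv_one]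
        exact Subtype.ext (mul_inv_eq_one.1 h3)
    by_cases h5 : (⟨ψ, hψ⟩ : J) = j₀
    · rw [if_pos h5, if_pos (hiff.1 h5)]
    · rw [if_neg h5, if_neg (fun h6 => h5 (hiff.2 h6))]
  · right; right
    refine ⟨i₀.1, c, ?_⟩
    intro ω
    obtain ⟨φ, ψ, hφ, hψ, rfl⟩ := exists_decomp ω hd hc
    have h1 := h ⟨φ, hφ⟩ ⟨ψ, hψ⟩
    simp only at h1
    rw [h1]
    have hiff : (⟨φ, hφ⟩ : I) = i₀ ↔ ∀ w : ↥(W₁ ⊔ W₂), (w : G) ∈ W₁ → ((φ * ψ) * (i₀.1)⁻¹) w = 1 := by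
      constructor
      · rintro rfl w hw
        simp [hψ w hw]
      · intro h2
        have h3 : φ * (i₀.1)⁻¹ = 1 := by
          apply eq_one_of_X (W₁ := W₁) (W₂ := W₂) _ _ hd hc
          · intro w hw
            rw [MonoidHom.mul_apply, hφ w hw, one_mul, MonoidHom.inv_apply, i₀.2 w hw, inv_one]
          · intro w hw
            have h4 := h2 w hw
            rw [MonoidHom.mul_apply, MonoidHom.mul_apply, hψ w hw, mul_one] at h4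
            exact h4
        exact Subtype.ext (mul_inv_eq_one.1 h3)
    by_cases h5 : (⟨φ, hφ⟩ : I) = i₀
    · rw [if_pos h5, if_pos (hiff.1 h5)]
    · rw [if_neg h5, if_neg (fun h6 => h5 (hiff.2 h6))]

end Cfsg.Agent.S1507
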