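import Cfsg.Statements.S1509
import Cfsg.Agent.H10_PM

set_option autoImplicit false
open Cfsg

namespace Cfsg.Agent.S1509

open Cfsg.Agent.H3.CharIrr Cfsg.Agent.H10.PM

/-- Let α, β, γ, δ be functions on a finite group X each of which is an irreducible character or the negative of one, and u, v nonzero real numbers. Suppose ⟨α, β⟩ = ⟨γ, δ⟩ = 0, ⟨α − β, uγ − vδ⟩ = 0, α 1 = β 1 and u γ 1 = v δ 1. Then also ⟨α, γ⟩ = ⟨α, δ⟩ = ⟨β, γ⟩ = ⟨β, δ⟩ = 0. -/
theorem result {X : Type*} [Group X] [Fintype X] (α β γ δ : X → ℂ) (hα : Cfsg.IsIrrCharacter X α ∨ Cfsg.IsIrrCharacter X (-α)) (hβ : Cfsg.IsIrrCharacter X β ∨ Cfsg.IsIrrCharacter X (-β)) (hγ : Cfsg.IsIrrCharacter X γ ∨ Cfsg.IsIrrCharacter X (-γ)) (hδ : Cfsg.IsIrrCharacter X δ ∨ Cfsg.IsIrrCharacter X (-δ)) (u v : ℝ) (hu : u ≠ 0) (hv : v ≠ 0) (hab : Cfsg.classInner α β = 0) (hcd : Cfsg.classInner γ δ = 0) (hmix : Cfsg.classInner (α - β) ((u : ℂ) • γ - (v : ℂ) • δ) = 0) (h1 : α 1 = β 1) (h2 : (u : ℂ) * γ 1 = (v : ℂ) * δ 1) : Cfsg.classInner α γ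 = 0 ∧ Cfsg.classInner α δ = 0 ∧ Cfsg.classInner β γ = 0 ∧ Cfsg.classInner β δ = 0 := by
  have hα' : Pm α := hα
  have hβ' : Pm β := hβ
  have hγ' : Pm γ := hγ
  have hδ' : Pm δ := hδ
  have hu' : (u : ℂ) ≠ 0 := by exact_mod_cast hu
  have hv' : (v : ℂ) ≠ 0 := by exact_mod_cast hv
  have hba : classInner β α = 0 := by rw [hβ'.comm hα']; exact hab
  have hdc : classInner δ γ = 0 := by rw [hδ'.comm hγ']; exact hcd
  have e : (u : ℂ) * (classInner α γ - classInner β γ) - v * (classInner α δ - classInner β δ) = 0 := by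
    rw [← hmix, ci_sub_right, ci_smul_right, ci_smul_right, ci_sub_left, ci_sub_left]
    simp only [Complex.conj_ofReal]
  have ha1 := hα'.one_ne
  -- if α and δ are not orthogonal, contradiction
  have s1 : classInner α δ = 0 := by
    by_contra hne
    obtain ⟨ε, hε, hδα, hi⟩ : ∃ ε : ℂ, (ε = 1 ∨ ε = -1) ∧ δ = ε • α ∧ classInner α δ = ε := by
      rcases Pm.inner hα' hδ' with h | h | h
      · exact absurd h hne
      · exact ⟨1, Or.inl rfl, by rw [one_smul]; exact h.1, h.2⟩
      · exact ⟨-1, Or.inr rfl, by rw [neg_one_smul]; exact h.1, h.2⟩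
    have hε0 : ε ≠ 0 := by rcases hε with h | h <;> rw [h] <;> norm_num
    have h3 : classInner α γ = 0 := by
      have : ε • classInner α γ = 0 := by
        rw [smul_eq_mul, ← ci_smul_left, ← hδα]; exact hdc
      rcases mul_eq_zero.1 this with h | h
      · exact absurd h hε0
      · exact h
    have h4 : classInner β δ = 0 := by
      rw [hδα, ci_smul_right, hba, mul_zero]
    rw [h3, h4, hi] at e
    rcases Pm.inner hβ' hγ' with h | h | h
    · rw [h] at e
      apply hv'
      have : (v : ℂ) * ε = 0 := by linear_combination -e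
      rcases mul_eq_zero.1 this with h | h
      · exact h
      · exact absurd h hε0
    · rw [h.2] at e
      rw [h.1, hδα, Pi.smul_apply, smul_eq_mul, ← h1] at h2
      have : (u : ℂ) * α 1 = 0 := by linear_combination (1/2 : ℂ) * h2 - (1/2:ℂ) * e * α 1
      rcases mul_eq_zero.1 this with h | h
      · exact hu' h
      · exact ha1 h
    · rw [h.2] at e
      rw [h.1, hδα, Pi.smul_apply, Pi.neg_apply, smul_eq_mul, ← h1] at h2
      have : (u : ℂ) * α 1 = 0 := by linear_combination (-1/2 : ℂ) * h2 + (1/2:ℂ) * e * α 1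
      rcases mul_eq_zero.1 this with h | h
      · exact hu' h
      · exact ha1 h
  have s2 : classInner α γ = 0 := by
    by_contra hne
    obtain ⟨ε, hε, hγα, hi⟩ : ∃ ε : ℂ, (ε = 1 ∨ ε = -1) ∧ γ = ε • α ∧ classInner α γ = ε := by
      rcases Pm.inner hα' hγ' with h | h | h
      · exact absurd h hne
      · exact ⟨1, Or.inl rfl, by rw [one_smul]; exact h.1, h.2⟩
      · exact ⟨-1, Or.inr rfl, by rw [neg_one_smul]; exact h.1, h.2⟩
    have hε0 : ε ≠ 0 := by rcases hε with h | h <;> rw [h] <;> norm_num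
    have h4 : classInner β γ = 0 := by
      rw [hγα, ci_smul_right, hba, mul_zero]
    rw [s1, h4, hi] at e
    rcases Pm.inner hβ' hδ' with h | h | h
    · rw [h] at e
      apply hu'
      have : (u : ℂ) * ε = 0 := by linear_combination e
      rcases mul_eq_zero.1 this with h | h
      · exact h
      · exact absurd h hε0
    · rw [h.2] at e
      rw [h.1, hγα, Pi.smul_apply, smul_eq_mul, ← h1] at h2
      have : (v : ℂ) * α 1 = 0 := by linear_combination (-1/2 : ℂ) * h2 + (1/2:ℂ) * e * α 1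
      rcases mul_eq_zero.1 this with h | h
      · exact hv' h
      · exact ha1 h
    · rw [h.2] at e
      rw [h.1, hγα, Pi.smul_apply, Pi.neg_apply, smul_eq_mul, ← h1] at h2
      have : (v : ℂ) * α 1 = 0 := by linear_combination (1/2 : ℂ) * h2 - (1/2:ℂ) * e * α 1
      rcases mul_eq_zero.1 this with h | h
      · exact hv' h
      · exact ha1 h
  rw [s1, s2] at e
  have s3 : classInner β γ = 0 ∧ classInner β δ = 0 := by
    rcases Pm.inner hβ' hγ' with h | h | h
    · refine ⟨h, ?_⟩
      rw [h] at e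
      have : (v : ℂ) * classInner β δ = 0 := by linear_combination e
      rcases mul_eq_zero.1 this with h | h
      · exact absurd h hv'
      · exact h
    · exfalso
      have h5 : classInner β δ = 0 := by rw [← h.1]; exact hcd
      rw [h.2, h5] at e
      apply hu'; linear_combination -e
    · exfalso
      have h5 : classInner β δ = 0 := by
        have h6 : classInner γ δ = - classInner β δ := by rw [h.1, ci_neg_left']
        rw [hcd] at h6
        linear_combination h6
      rw [h.2, h5] at e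
      apply hu'; linear_combination e
  exact ⟨s2, s1, s3.1, s3.2⟩

end Cfsg.Agent.S1509
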