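import Cfsg.Statements.S1515
import Cfsg.Agent.H10_Coh2

set_option autoImplicit false
open Cfsg

namespace Cfsg.Agent.S1515

open Cfsg.Agent.H3.CharIrr Cfsg.Agent.H3.CharComplete Cfsg.Agent.H3.CharInd Cfsg.Agent.H3.Isom Cfsg.Agent.H10.PM Cfsg.Agent.H10.Coh Cfsg.Agent.H10.Coh2

/-- Let (S, τ, R) be a coherence system from L to G, χ ∈ S, and ψ an integer combination of S with ⟨χ, ψ⟩ = ⟨conj χ, ψ⟩ = 0. Let τ₁ be a linear isometry on the integer combinations of χ − ψ and χ − conj χ, with virtual-character values, agreeing with τ on integer multiples of χ − conj χ. Then the sum over α ∈ R χ of the squared absolute values of ⟨τ₁(χ − ψ), α⟩ is at least ⟨χ, χ⟩; and if ⟨τ₁(χ − ψ), τ₁(χ − ψ)⟩ minus that sum is at least ⟨ψ, ψ⟩, then the sum equals ⟨χ, χ⟩ and every ⟨τ₁(χ − ψ), α⟩ with α ∈ R χ is 0 or 1. -/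
theorem result {L : Type*} [Group L] [Fintype L] {G : Type*} [Group G] [Fintype G] (S : Set (L → ℂ)) (τ : (L → ℂ) → (G → ℂ)) (R : (L → ℂ) → Finset (G → ℂ)) (hS : Cfsg.IsCoherenceSystem S τ R) (χ : L → ℂ) (hχ : χ ∈ S) (ψ : L → ℂ) (hψ : ψ ∈ Cfsg.zspan S) (h1 : Cfsg.classInner χ ψ = 0) (h2 : Cfsg.classInner (Cfsg.conjFun χ) ψ = 0) (τ₁ : (L → ℂ) → (G → ℂ)) (hτ₁ : Cfsg.IsLinearIsometryOn (Cfsg.zspan {χ - ψ, χ - Cfsg.conjFun χ}) τ₁) (hagree : ∀ n : ℤ, τ₁ (n • (χ - Cfsg.conjFun χ)) = τ (n • (χ - Cfsg.conjFun χ))) : (Cfsg.classInner χ χ).re ≤ ∑ α ∈ R χ, ‖Cfsg.classInner (τ₁ (χ - ψ)) α‖ ^ 2 ∧ ((Cfsg.classInner ψ ψ).re ≤ (Cfsg.classInner (τ₁ (χ - ψ)) (τ₁ (χ - ψ))).re - ∑ α ∈ R χ, ‖Cfsg.classInner (τ₁ (χ - ψ)) α‖ ^ 2 → (∑ α ∈ R χ, ‖Cfsg.classInner (τ₁ (χ - ψ)) α‖ ^ 2 = (Cfsg.classInner χ χ).re ∧ ∀ α ∈ R χ, Cfsg.classInner (τ₁ (χ - ψ)) α = 0 ∨ Cfsg.classInner (τ₁ (χ - ψ)) α = 1))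 := by
  classical
  have hm1 : χ - ψ ∈ zspan ({χ - ψ, χ - conjFun χ} : Set (L → ℂ)) := zs_sub (by simp)
  have hm2 : χ - conjFun χ ∈ zspan ({χ - ψ, χ - conjFun χ} : Set (L → ℂ)) := zs_sub (by simp)
  set f := τ₁ (χ - ψ) with hf
  have hfgen : IsGeneralizedCharacter G f := hτ₁.2.2.2 _ hm1
  have hag : τ₁ (χ - conjFun χ) = ∑ α ∈ R χ, α := by
    have := hagree 1
    rw [one_smul] at this
    rw [this, hS.sum_eq χ hχ]
  have hψχ : classInner ψ χ = 0 := by rw [← ci_conj_symm, h1, map_zero]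
  have hψχ' : classInner ψ (conjFun χ) = 0 := by rw [← ci_conj_symm, h2, map_zero]
  have hχχ' : classInner χ (conjFun χ) = 0 := hS.orthogonal χ hχ _ (hS.conj_mem χ hχ) (hS.conj_ne χ hχ).symm
  have hsum : ∑ α ∈ R χ, classInner f α = classInner χ χ := by
    rw [← ci_sum_right, ← hag, hτ₁.2.2.1 _ hm1 _ hm2, ci_sub_left, ci_sub_right, ci_sub_right, hψχ, hψχ', hχχ']
    ring
  have hff : classInner f f = classInner χ χ + classInner ψ ψ := by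
    rw [hτ₁.2.2.1 _ hm1 _ hm1, ci_sub_left, ci_sub_right, ci_sub_right, hψχ, h1]
    ring
  have hint : ∀ α ∈ R χ, ∃ k : ℤ, classInner f α = k := fun α hα => ci_gen_int hfgen (hS.virtual χ hχ α hα)
  choose! k hk using hint
  have hsum' : (classInner χ χ).re = ∑ α ∈ R χ, (k α : ℝ) := by
    rw [← hsum, Complex.re_sum]
    refine Finset.sum_congr rfl fun α hα => ?_
    rw [hk α hα]; simp
  have hsq : ∑ α ∈ R χ, ‖classInner f α‖ ^ 2 = ∑ α ∈ R χ, (k α : ℝ) ^ 2 := by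
    refine Finset.sum_congr rfl fun α hα => ?_
    rw [hk α hα, Complex.norm_intCast, sq_abs]
  have hle : ∀ α : G → ℂ, (k α : ℝ) ≤ (k α : ℝ) ^ 2 := by
    intro α
    have : k α ≤ k α ^ 2 := by
      rcases le_or_gt (k α) 0 with h | h
      · exact h.trans (sq_nonneg _)
      · nlinarith
    exact_mod_cast this
  rw [hsq, hsum']
  refine ⟨Finset.sum_le_sum fun α _ => hle α, fun h3 => ?_⟩
  rw [hff, Complex.add_re, hsum'] at h3
  have h4 : ∑ α ∈ R χ, (k α : ℝ) ^ 2 = ∑ α ∈ R χ, (k α : ℝ) := le_antisymm (by linarith) (Finset.sum_le_sum fun α _ => hle α)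
  refine ⟨h4, fun α hα => ?_⟩
  have h5 := (Finset.sum_eq_sum_iff_of_le (s := R χ) (f := fun α => (k α : ℝ)) (g := fun α => (k α : ℝ) ^ 2) (fun α _ => hle α)).1 h4.symm α hα
  have h6 : (k α : ℤ) = k α ^ 2 := by exact_mod_cast h5
  have h7 : k α * (k α - 1) = 0 := by linear_combination -h6
  rcases mul_eq_zero.1 h7 with h | h
  · left; rw [hk α hα, h]; simp
  · right
    rw [hk α hα, show k α = 1 by omega]; simp

end Cfsg.Agent.S1515
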