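import Cfsg.Statements.S1522
import Cfsg.Agent.H10_IndSet7

set_option autoImplicit false
open Cfsg

namespace Cfsg.Agent.S1522

/-- Let K be a nilpotent normal subgroup of the finite group L of odd order with [K,K] < K < L and L/[K,K] a Frobenius group with kernel K/[K,K] (elements of K outside [K,K] are centralised modulo [K,K] only from inside K); let (S, τ, R) be a coherence system from L to G with S the functions induced from non-principal irreducible characters of K. Let Z be a nontrivial normal subgroup of L contained in the centre of K, and suppose every member of S outside S(Z) is an irreducible character of L. Then S minus S(Z) is the set of irreducible characters χ of L with χ z ≠ χ 1 for some z ∈ Z, and it is coherent. -/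
theorem result {L : Type*} [Group L] [Fintype L] {G : Type*} [Group G] [Fintype G] (K : Subgroup L) [hK : K.Normal] (hsolv : Group.IsSolvable K) (τ : (L → ℂ) → (G → ℂ)) (R : (L → ℂ) → Finset (G → ℂ)) (hS : Cfsg.IsCoherenceSystem (Cfsg.inducedIrrAbove K ⊥) τ R) (hodd : Odd (Nat.card L)) (hnil : Group.IsNilpotent K) (hH₁K : ⁅K, K⁆ < K) (hKL : K < ⊤) (hfrob : ∀ k ∈ K, k ∉ ⁅K, K⁆ → ∀ x : L, x * k * x⁻¹ * k⁻¹ ∈ ⁅K, K⁆ → x ∈ K) (Z : Subgroup L) [Z.Normal] (hZ1 : Z ≠ ⊥) (hZK : Z ≤ K) (hZc : ∀ z ∈ Z, ∀ k ∈ K, z * k = k * z) (hirr : ∀ χ ∈ Cfsg.inducedIrrAbove K ⊥ \ Cfsg.inducedIrrAbove K Z, Cfsg.IsIrrCharacter L χ) : Cfsg.inducedIrrAbove K ⊥ \ Cfsg.inducedIrrAbove K Z = {χ | Cfsg.IsIrrCharacter L χ ∧ ∃ z ∈ Z, χ z ≠ χ 1} ∧ Cfsg.IsCoherent (Cfsg.inducedIrrAbove K ⊥ \ Cfsg.inducedIrrAbove K Z) {1}ᶜ τ := by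
  refine ⟨Cfsg.Agent.H10.IndSet7.xset_eq hK Z inferInstance hZK hirr, ?_⟩
  classical
  have hXne : (inducedIrrAbove K ⊥ \ inducedIrrAbove K Z).Nonempty := by
    rw [← Cfsg.Agent.H10.IndSet7.coe_XF]
    rw [Finset.coe_nonempty, Finset.nonempty_iff_ne_empty]
    intro h0
    have h1 := Cfsg.Agent.H10.IndSet7.sum_XF hK Z
    rw [h0, Finset.sum_empty] at h1
    have h2 := Subgroup.relIndex_mul_relIndex (⊥ : Subgroup L) Z K bot_le hZK
    rw [Subgroup.relIndex_bot_left] at h2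
    have hZcard : 1 < Nat.card Z := by
      rw [Subgroup.one_lt_card_iff_ne_bot]; exact hZ1
    have hZrel0 : 0 < Z.relIndex K := Nat.pos_of_ne_zero (Subgroup.index_ne_zero_of_finite (H := Z.subgroupOf K))
    have he0 : 0 < K.index := Nat.pos_of_ne_zero Subgroup.index_ne_zero_of_finite
    have h3 : Z.relIndex K < (⊥ : Subgroup L).relIndex K := by rw [← h2]; nlinarith
    have h4 : (0 : ℝ) < (K.index : ℝ) * (((⊥ : Subgroup L).relIndex K : ℝ) - (Z.relIndex K : ℝ)) := by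
      have : (Z.relIndex K : ℝ) < ((⊥ : Subgroup L).relIndex K : ℝ) := by exact_mod_cast h3
      have h5 : (0 : ℝ) < K.index := by exact_mod_cast he0
      exact mul_pos h5 (by linarith)
    linarith
  by_cases hpp : ∃ p m : ℕ, p.Prime ∧ (⊥ : Subgroup L).relIndex K = p ^ m
  · obtain ⟨p, n, hp, hpn⟩ := hpp
    rw [Subgroup.relIndex_bot_left] at hpn
    have hn0 : n ≠ 0 := by
      rintro rfl
      rw [pow_zero] at hpn
      have : K = ⊥ := Subgroup.card_eq_one.1 hpn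
      exact hZ1 (le_bot_iff.1 (this ▸ hZK))
    have hpo : Odd p := by
      have h1 : p ∣ Nat.card L := ((dvd_pow_self p hn0).trans (hpn ▸ dvd_rfl)).trans (Subgroup.card_subgroup_dvd_card K)
      exact hodd.of_dvd_nat h1
    have hp3 : 3 ≤ p := by
      have := hp.two_le
      obtain ⟨r, hr⟩ := hpo
      omega
    apply Cfsg.Agent.H10.IndSet7.x_coh_pgroup hK hp hp3 hpn ?_ hS Z hZ1 hZK hZc hirr
    -- coprimality
    have hcomm : ∀ x ∈ K, ∀ y ∈ K, x * y * x⁻¹ * y⁻¹ ∈ (⁅K, K⁆ : Subgroup L) := fun x hx y hy =>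
      Subgroup.commutator_mem_commutator hx hy
    have h1 : K.index ∣ (⁅K, K⁆ : Subgroup L).relIndex K - 1 :=
      Cfsg.Agent.H10.IndSet5.frob_dvd hH₁K.le le_rfl hcomm hfrob
    have h2 : (⁅K, K⁆ : Subgroup L).relIndex K ∣ p ^ n := by
      rw [← hpn]
      exact Subgroup.relIndex_dvd_card _ _
    obtain ⟨j, hj, ej⟩ := (Nat.dvd_prime_pow hp).1 h2
    have hj0 : j ≠ 0 := by
      rintro rfl
      rw [pow_zero] at ej
      exact hH₁K.not_ge (Subgroup.relIndex_eq_one.1 ej)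
    rw [Nat.coprime_comm, hp.coprime_iff_not_dvd]
    intro hpd
    have h3 : p ∣ (⁅K, K⁆ : Subgroup L).relIndex K - 1 := hpd.trans h1
    rw [ej] at h3
    have h4 : p ∣ p ^ j := dvd_pow_self p hj0
    have h5 : 1 ≤ p ^ j := Nat.one_le_pow _ _ hp.pos
    have h6 := (Nat.dvd_sub h4 h3)
    have h7 : p ^ j - (p ^ j - 1) = 1 := by omega
    rw [h7] at h6
    exact hp.one_lt.ne' (Nat.dvd_one.1 h6)
  · haveI : ((⊥ : Subgroup L).subgroupOf K).Normal := inferInstance
    have hnil' : Group.IsNilpotent (↥K ⧸ (⊥ : Subgroup L).subgroupOf K) := inferInstance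
    have h1 := Cfsg.Agent.H10.IndSet6.coh_65 hK hsolv hS hodd ⊥ bot_le hnil' ⁅K, K⁆ (by rw [sup_bot_eq]) hH₁K hKL hfrob
      (Or.inr (Or.inr (Or.inl hpp)))
    refine Cfsg.Agent.H10.IndSet2.coh_mono h1 Set.diff_subset ?_
    exact Cfsg.Agent.H10.IndSet2.exists_ne_zero hS Set.diff_subset hXne (fun φ hφ => Cfsg.Agent.H10.IndSet7.conj_mem_x hφ)

end Cfsg.Agent.S1522
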