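import Cfsg.Statements.S1524
import Cfsg.Agent.H10_Sib2

set_option autoImplicit false
open Cfsg

namespace Cfsg.Agent.S1524

/-- Let G be a finite group and H ≤ L subgroups with L of odd order, H ≠ ⊥ nilpotent and normal in L with a nontrivial complement W₁ in L (H ⊓ W₁ = ⊥, H ⊔ W₁ = L) acting on H without non-identity fixed points (L is a Frobenius group with kernel H), and suppose the underlying set of H is a TI-subset of G whose normaliser is L. Let S be the set of functions on L induced from the non-principal irreducible characters of H. Then (S, L minus 1, induction to G) is coherent. -/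
theorem result {G : Type*} [Group G] [Fintype G] (H L W₁ : Subgroup G) [Fintype L] (hodd : Odd (Nat.card L)) (hHL : H ≤ L) (hW₁L : W₁ ≤ L) (hH1 : H ≠ ⊥) (hW1 : W₁ ≠ ⊥) (hnil : Group.IsNilpotent H) (hHn : ∀ x ∈ L, ∀ h ∈ H, x * h * x⁻¹ ∈ H) (hinf : H ⊓ W₁ = ⊥) (hsup : H ⊔ W₁ = L) (hfpf : ∀ w ∈ W₁, w ≠ 1 → ∀ h ∈ H, w * h = h * w → h = 1) (hTI : Cfsg.IsTISubset (H : Set G)) (hN : Subgroup.normalizer (H : Set G) = L) : Cfsg.IsCoherent (Cfsg.inducedIrrAbove (H.subgroupOf L) ⊥) {1}ᶜ (fun α : L → ℂ => Cfsg.indFun L α) := by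
  have hHlt : H < L := by
    refine lt_of_le_of_ne hHL ?_
    rintro rfl
    exact hW1 (by rw [← hinf]; exact (inf_eq_right.2 hW₁L).symm)
  refine Cfsg.Agent.H10.Sib2.sibley_odd hodd hHlt hH1 hnil ?_ hTI hN
  intro h hh hh1 x hx
  by_contra hxH
  have hxL : x ∈ L := hx.1
  have hxh : x * h * x⁻¹ = h := mul_inv_eq_iff_eq_mul.2 (by
    have := Subgroup.mem_centralizer_singleton_iff.1 hx.2
    first
      | exact this
      | exact this.symm)
  -- x = a w
  obtain ⟨a, ha, w, hw, rfl⟩ : ∃ a ∈ H, ∃ w ∈ W₁, a * w = x := by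
    let T : Subgroup G :=
      { carrier := {y | ∃ a ∈ H, ∃ w ∈ W₁, a * w = y}
        one_mem' := ⟨1, H.one_mem, 1, W₁.one_mem, mul_one 1⟩
        mul_mem' := by
          rintro _ _ ⟨a, ha, w, hw, rfl⟩ ⟨b, hb, v, hv, rfl⟩
          exact ⟨a * (w * b * w⁻¹), H.mul_mem ha (hHn w (hW₁L hw) b hb), w * v, W₁.mul_mem hw hv, by group⟩
        inv_mem' := by
          rintro _ ⟨a, ha, w, hw, rfl⟩
          have h1 := hHn w⁻¹ (L.inv_mem (hW₁L hw)) a⁻¹ (H.inv_mem ha)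
          exact ⟨_, h1, w⁻¹, W₁.inv_mem hw, by group⟩ }
    have hle : H ⊔ W₁ ≤ T := sup_le (fun a ha => ⟨a, ha, 1, W₁.one_mem, mul_one a⟩) (fun w hw => ⟨1, H.one_mem, w, hw, one_mul w⟩)
    rw [hsup] at hle
    exact hle hxL
  have hw1 : w ≠ 1 := by
    rintro rfl
    rw [mul_one] at hxH
    exact hxH ha
  -- conjugation
  let F : H → H := fun k => ⟨k * (w * (k : G)⁻¹ * w⁻¹), H.mul_mem k.2 (hHn w (hW₁L hw) _ (H.inv_mem k.2))⟩
  have hinj : Function.Injective F := by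
    intro k k' hkk
    have h1 : (k : G) * (w * (k : G)⁻¹ * w⁻¹) = k' * (w * (k' : G)⁻¹ * w⁻¹) := congrArg Subtype.val hkk
    have h2 : w * ((k' : G)⁻¹ * k) = ((k' : G)⁻¹ * k) * w := by
      have e1 : ((k' : G)⁻¹ * k) * w = (k' : G)⁻¹ * (k * (w * (k : G)⁻¹ * w⁻¹)) * (w * k) := by group
      rw [e1, h1]; group
    have h3 := hfpf w hw hw1 _ (H.mul_mem (H.inv_mem k'.2) k.2) h2
    exact Subtype.ext (inv_mul_eq_one.1 h3).symm
  obtain ⟨k, hk⟩ := (Finite.injective_iff_surjective.1 hinj) ⟨a, ha⟩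
  have hk' : (k : G) * (w * (k : G)⁻¹ * w⁻¹) = a := congrArg Subtype.val hk
  have h1 : a * w = k * w * (k : G)⁻¹ := by rw [← hk']; group
  rw [h1] at hxh
  have h2 : w * ((k : G)⁻¹ * h * k) = ((k : G)⁻¹ * h * k) * w := by
    have e1 : ((k : G)⁻¹ * h * k) * w = (k : G)⁻¹ * (k * w * (k : G)⁻¹ * h * (k * w * (k : G)⁻¹)⁻¹) * k * w := by rw [hxh]
    rw [e1]; group
  have h3 := hfpf w hw hw1 _ (H.mul_mem (H.mul_mem (H.inv_mem k.2) hh) k.2) h2
  apply hh1
  have h4 : h = k * ((k : G)⁻¹ * h * k) * (k : G)⁻¹ := by group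
  rw [h4, h3]; group

end Cfsg.Agent.S1524
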