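import Cfsg.Statements.S1527
import Mathlib

set_option autoImplicit false
open Cfsg

namespace Cfsg.Agent.S1527

/-- Let G be a finite group and H i (i in a finite index type) subgroups of pairwise coprime orders, each of whose underlying sets is a TI-subset of G, such that every non-identity element of G is conjugate to an element of some H i. Then Nat.card G − 1 = Σ_i [G : N_G(H i)] · (Nat.card (H i) − 1). -/
theorem result {G : Type*} [Group G] [Finite G] {ι : Type*} [Fintype ι] (H : ι → Subgroup G) (hcop : ∀ i j, i ≠ j → Nat.Coprime (Nat.card (H i)) (Nat.card (H j))) (hTI : ∀ i, Cfsg.IsTISubset (H i : Set G)) (hcover : ∀ g : G, g ≠ 1 → ∃ i, ∃ x : G, x * g * x⁻¹ ∈ H i) : Nat.card G - 1 = ∑ i, (Subgroup.normalizer (H i : Set G)).index * (Nat.card (H i) - 1) := by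
  classical
  let N : ι → Subgroup G := fun i => Subgroup.normalizer (H i : Set G)
  have hN : ∀ i, ∀ n ∈ N i, ∀ h, h ∈ H i ↔ n * h * n⁻¹ ∈ H i := by
    intro i n hn h
    exact Subgroup.mem_set_normalizer_iff.1 hn h
  let X := Σ i : ι, (G ⧸ N i) × {h : H i // h ≠ 1}
  have hord : ∀ i (h : H i), orderOf (h : G) ∣ Nat.card (H i) := by
    intro i h
    rw [Subgroup.orderOf_coe]; exact orderOf_dvd_natCard h
  let f : X → {g : G // g ≠ 1} := fun x => ⟨x.2.1.out * (x.2.2.1 : G) * x.2.1.out⁻¹, by
    intro h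
    apply x.2.2.2
    have h1 : x.2.1.out * (x.2.2.1 : G) * x.2.1.out⁻¹ = x.2.1.out * 1 * x.2.1.out⁻¹ := by rw [h]; group
    exact Subtype.ext (mul_left_cancel (mul_right_cancel h1))⟩
  have hf : Function.Bijective f := by
    constructor
    · rintro ⟨i, q, h, hh⟩ ⟨j, q', h', hh'⟩ e
      have e1 : q.out * (h : G) * q.out⁻¹ = q'.out * (h' : G) * q'.out⁻¹ := congrArg Subtype.val e
      have hij : i = j := by
        by_contra hne
        have o1 : orderOf (q.out * (h : G) * q.out⁻¹) ∣ Nat.card (H i) := by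
          rw [show orderOf (q.out * (h : G) * q.out⁻¹) = orderOf (h : G) from by
            rw [← MulAut.conj_apply]; exact MulEquiv.orderOf_eq _ _]
          exact hord i h
        have o2 : orderOf (q.out * (h : G) * q.out⁻¹) ∣ Nat.card (H j) := by
          rw [e1, show orderOf (q'.out * (h' : G) * q'.out⁻¹) = orderOf (h' : G) from by
            rw [← MulAut.conj_apply]; exact MulEquiv.orderOf_eq _ _]
          exact hord j h'
        have o3 := Nat.eq_one_of_dvd_coprimes (hcop i j hne) o1 o2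
        rw [orderOf_eq_one_iff] at o3
        apply hh
        have h1 : q.out * (h : G) * q.out⁻¹ = q.out * 1 * q.out⁻¹ := by rw [o3]; group
        exact Subtype.ext (mul_left_cancel (mul_right_cancel h1))
      subst hij
      have e2 : (q'.out⁻¹ * q.out) * (h : G) * (q'.out⁻¹ * q.out)⁻¹ = h' := by
        calc (q'.out⁻¹ * q.out) * (h : G) * (q'.out⁻¹ * q.out)⁻¹ = q'.out⁻¹ * (q.out * (h : G) * q.out⁻¹) * q'.out := by group
          _ = q'.out⁻¹ * (q'.out * (h' : G) * q'.out⁻¹) * q'.out := by rw [e1]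
          _ = h' := by group
      have hmem : q'.out⁻¹ * q.out ∈ N i := by
        by_contra hn
        have h3 := hTI i _ hn (h : G) h.2 (by rw [e2]; exact h'.2)
        exact hh (Subtype.ext h3)
      have hq : q' = q := by
        rw [← Quotient.out_eq q, ← Quotient.out_eq q']
        exact (QuotientGroup.eq (s := N i)).2 hmem
      subst hq
      have h4 : (h : G) = h' := mul_left_cancel (mul_right_cancel e1)
      have h5 : h = h' := Subtype.ext h4
      subst h5
      rfl
    · rintro ⟨g, hg⟩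
      obtain ⟨i, x, hx⟩ := hcover g hg
      obtain ⟨n, hn⟩ := QuotientGroup.mk_out_eq_mul (N i) x⁻¹
      have hmem : (n : G)⁻¹ * (x * g * x⁻¹) * n ∈ H i := by
        rw [hN i n n.2]
        have : (n : G) * ((n : G)⁻¹ * (x * g * x⁻¹) * n) * (n : G)⁻¹ = x * g * x⁻¹ := by group
        rw [this]; exact hx
      refine ⟨⟨i, (x⁻¹ : G), ⟨⟨_, hmem⟩, ?_⟩⟩, Subtype.ext ?_⟩
      · intro h
        apply hg
        have h1 : (n : G)⁻¹ * (x * g * x⁻¹) * n = 1 := congrArg Subtype.val h
        have h2 : g = (x⁻¹ * n) * ((n : G)⁻¹ * (x * g * x⁻¹) * n) * (x⁻¹ * n)⁻¹ := by group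
        rw [h2, h1]; group
      · show (Quotient.out (QuotientGroup.mk x⁻¹ : G ⧸ N i)) * ((n : G)⁻¹ * (x * g * x⁻¹) * n) * (Quotient.out (QuotientGroup.mk x⁻¹ : G ⧸ N i))⁻¹ = g
        rw [hn]; group
  haveI := Fintype.ofFinite G
  have h1 : Nat.card X = Nat.card {g : G // g ≠ 1} := Nat.card_congr (Equiv.ofBijective f hf)
  have h2 : Nat.card {g : G // g ≠ 1} = Nat.card G - 1 := by
    rw [Nat.card_eq_fintype_card, Nat.card_eq_fintype_card, Fintype.card_subtype_compl]
    simp
  rw [← h2, ← h1]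
  have h3 : Nat.card X = ∑ i, Nat.card ((G ⧸ N i) × {h : H i // h ≠ 1}) := by
    haveI : ∀ i, Fintype ((G ⧸ N i) × {h : H i // h ≠ 1}) := fun i => Fintype.ofFinite _
    exact Nat.card_sigma
  rw [h3]
  refine Finset.sum_congr rfl fun i _ => ?_
  rw [Nat.card_prod]
  congr 1
  haveI := Fintype.ofFinite (H i)
  rw [Nat.card_eq_fintype_card, Nat.card_eq_fintype_card, Fintype.card_subtype_compl]
  simp

end Cfsg.Agent.S1527
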