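import Cfsg.Statements.S1528
import Cfsg.Agent.H3_FrobInd
import Cfsg.Agent.H3_CharInd

set_option autoImplicit false
open Cfsg

namespace Cfsg.Agent.S1528

open Cfsg.Agent.H3.CharIrr Cfsg.Agent.H3.CharComplete Cfsg.Agent.H3.CharInd Cfsg.Agent.H3.FrobInd
open scoped ComplexConjugate

/-- Let N be a normal subgroup of the finite group G such that every element of G commuting with a non-identity element of N lies in N. If χ is an irreducible character of G with χ n ≠ χ 1 for some n ∈ N, then χ is the function induced from some irreducible character of N. -/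
theorem result {G : Type*} [Group G] [Fintype G] (N : Subgroup G) [N.Normal] (hC : ∀ n ∈ N, n ≠ 1 → Subgroup.centralizer ({n} : Set G) ≤ N) (χ : G → ℂ) (hχ : Cfsg.IsIrrCharacter G χ) (hker : ∃ n ∈ N, χ n ≠ χ 1) : ∃ φ : N → ℂ, Cfsg.IsIrrCharacter N φ ∧ χ = Cfsg.indFun N φ := by
  classical
  haveI := Fintype.ofFinite N
  haveI := Fintype.ofFinite (IrrCharacter N)
  have hχc := IsIrr.isClass hχ
  have hres : IsCharacter N (fun n : N => χ n) := IsChar.comp (IsIrr.isCharacter hχ) N.subtype
  by_contra hno
  push Not at hno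
  obtain ⟨n, hn, hne⟩ := hker
  apply hne
  -- all nontrivial constituents are orthogonal
  have h1 : ∀ θ : IrrCharacter N, (θ : N → ℂ) ≠ (fun _ => 1) → classInner (fun n : N => χ n) (θ : N → ℂ) = 0 := by
    intro θ hθ
    rw [← frobenius' N _ χ hχc]
    exact ci_irr_ne hχ (ind_irr N hC θ.2 hθ) (hno _ θ.2)
  have h3 : ∀ x : N, χ x = classInner (fun n : N => χ n) (fun _ => 1) := by
    intro x
    have h4 := expand_apply (G := N) (fun n : N => χ n) (IsChar.isClass hres) x
    rw [Finset.sum_eq_single (⟨fun _ => 1, isIrr_one⟩ : IrrCharacter N)] at h4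
    · simpa using h4
    · intro θ _ hθ
      rw [h1 θ (fun h => hθ (Subtype.ext h)), zero_mul]
    · intro h; exact absurd (Finset.mem_univ _) h
  rw [h3 ⟨n, hn⟩]
  have := h3 1
  rw [← this]
  rfl

end Cfsg.Agent.S1528
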