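import Cfsg.Statements.S1530
import Cfsg.Agent.H10_Coh3

set_option autoImplicit false
open Cfsg

namespace Cfsg.Agent.S1530

open Cfsg.Agent.H3.CharIrr Cfsg.Agent.H3.CharComplete Cfsg.Agent.H3.CharInd Cfsg.Agent.H3.Isom Cfsg.Agent.H10.PM Cfsg.Agent.H10.Coh Cfsg.Agent.H10.Coh2 Cfsg.Agent.H10.Coh3

/-- Let N be a subgroup of the finite group G and S₀ a finite set of irreducible characters of N, χ an irreducible character of N not in S₀, with degrees ξ 1 = d ξ. Let τ be a linear isometry on the integer combinations of S₀ ∪ {χ} vanishing at 1, with values virtual characters of G vanishing at 1, such that (S₀, N minus 1, τ) is coherent. If some ψ ∈ S₀ has d ψ dividing d χ and 2 · d ψ · d χ < Σ_{ξ ∈ S₀} (d ξ)², then (S₀ ∪ {χ}, N minus 1, τ) is coherent. -/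
theorem result {G : Type*} [Group G] [Fintype G] (N : Subgroup G) [Fintype N] (S₀ : Finset (N → ℂ)) (χ : N → ℂ) (hirr : ∀ ξ ∈ S₀, Cfsg.IsIrrCharacter N ξ) (hχ : Cfsg.IsIrrCharacter N χ) (hχS : χ ∉ S₀) (d : (N → ℂ) → ℕ) (hd : ∀ ξ ∈ insert χ S₀, ξ 1 = (d ξ : ℂ)) (τ : (N → ℂ) → (G → ℂ)) (hτ : Cfsg.IsLinearIsometryOn (Cfsg.zspanOn (↑(insert χ S₀) : Set (N → ℂ)) {1}ᶜ) τ) (hτ1 : ∀ α ∈ Cfsg.zspanOn (↑(insert χ S₀) : Set (N → ℂ)) {1}ᶜ, τ α 1 = 0) (hcoh : Cfsg.IsCoherent (↑S₀ : Set (N → ℂ)) {1}ᶜ τ) (ψ : N → ℂ) (hψ : ψ ∈ S₀) (hdvd : d ψ ∣ d χ) (hlt : 2 * d ψ * d χ < ∑ ξ ∈ S₀, d ξ ^ 2) : Cfsg.IsCoherent (↑(insert χ S₀) : Set (N → ℂ)) {1}ᶜ τ := by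
  classical
  obtain ⟨⟨α₀, hα₀, hα₀ne⟩, τ₁, hτ₁, hag⟩ := hcoh
  have hins : (↑(insert χ S₀) : Set (N → ℂ)) = insert χ (↑S₀ : Set (N → ℂ)) := Finset.coe_insert _ _
  rw [hins] at hτ hτ1 ⊢
  have hsub : (↑S₀ : Set (N → ℂ)) ⊆ insert χ (↑S₀ : Set (N → ℂ)) := Set.subset_insert _ _
  have hirrS : ∀ ξ ∈ (↑S₀ : Set (N → ℂ)), IsIrrCharacter N ξ := fun ξ h => hirr ξ h
  have hirrI : ∀ ξ ∈ insert χ (↑S₀ : Set (N → ℂ)), IsIrrCharacter N ξ := by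
    intro ξ hξ
    rcases hξ with rfl | hξ
    · exact hχ
    · exact hirr ξ hξ
  have hψI : ψ ∈ insert χ (↑S₀ : Set (N → ℂ)) := hsub hψ
  have hψirr := hirr ψ hψ
  have hψS : ψ ∈ (↑S₀ : Set (N → ℂ)) := hψ
  have hdpos : ∀ ξ ∈ insert χ (↑S₀ : Set (N → ℂ)), 0 < d ξ ∧ ξ 1 = (d ξ : ℂ) := by
    intro ξ hξ
    have h1 : ξ ∈ insert χ S₀ := by rw [← Finset.mem_coe, hins]; exact hξ
    obtain ⟨m, hm, em⟩ := IsIrr.one_eq_nat (hirrI ξ hξ)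
    have h2 := hd ξ h1
    have h3 : d ξ = m := by rw [h2] at em; exact_mod_cast em
    exact ⟨by rw [h3]; exact hm, h2⟩
  obtain ⟨a, ha⟩ := hdvd
  have hχψ : classInner χ ψ = 0 := ci_irr_ne hχ hψirr (fun h => hχS (h ▸ hψ))
  have hψχ : classInner ψ χ = 0 := ci_irr_ne hψirr hχ (fun h => hχS (h ▸ hψ))
  have hχo : ∀ ξ ∈ S₀, classInner χ ξ = 0 := fun ξ hξ => ci_irr_ne hχ (hirr ξ hξ) (fun h => hχS (h ▸ hξ))
  -- the element χ - aψ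
  have hψ' : (a : ℤ) • ψ ∈ zspan (↑S₀ : Set (N → ℂ)) := zs_zsmul _ (zs_sub hψS)
  have hψ1 : ((a : ℤ) • ψ) 1 = χ 1 := by
    rw [zc, Pi.smul_apply, smul_eq_mul, (hdpos ψ hψI).2, (hdpos χ (Set.mem_insert _ _)).2, ha]; push_cast; ring
  have hmem : χ - (a : ℤ) • ψ ∈ zspanOn (insert χ (↑S₀ : Set (N → ℂ))) {1}ᶜ := by
    rw [zo_iff]
    exact ⟨zs_diff (zs_sub (Set.mem_insert _ _)) (zs_mono hsub hψ'), by rw [Pi.sub_apply, hψ1, sub_self]⟩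
  set F := τ (χ - (a : ℤ) • ψ) with hF
  have hFgen : IsGeneralizedCharacter G F := hτ.2.2.2 _ hmem
  have hFF : classInner F F = 1 + (a : ℂ) ^ 2 := by
    rw [hF, hτ.2.2.1 _ hmem _ hmem, zc, ci_sub_left, ci_sub_right, ci_sub_right, ci_smul_left, ci_smul_left,
      ci_smul_right, ci_smul_right, hχψ, hψχ, ci_irr_self hχ, ci_irr_self hψirr]
    simp; ring
  have hF1 : F 1 = 0 := hτ1 _ hmem
  have hint : ∀ ξ ∈ S₀, ∃ k : ℤ, classInner F (τ₁ ξ) = k := fun ξ hξ =>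
    ci_gen_int hFgen (hτ₁.2.2.2 _ (zs_sub hξ))
  choose! y hy using hint
  -- relation
  have hrel : ∀ ξ ∈ S₀, (d ψ : ℤ) * y ξ = d ξ * (y ψ + a) - (if ξ = ψ then (a : ℤ) * (d ψ : ℤ) else (0 : ℤ)) := by
    intro ξ hξ
    have hξS : ξ ∈ (↑S₀ : Set (N → ℂ)) := hξ
    have m1 : (d ψ : ℤ) • ξ + (-(d ξ : ℤ)) • ψ ∈ zspanOn (↑S₀ : Set (N → ℂ)) {1}ᶜ := by
      rw [zo_iff]
      refine ⟨zs_add (zs_zsmul _ (zs_sub hξS)) (zs_zsmul _ (zs_sub hψS)), ?_⟩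
      rw [zc, zc, Pi.add_apply, Pi.smul_apply, Pi.smul_apply, smul_eq_mul, smul_eq_mul, (hdpos ψ hψI).2, (hdpos ξ (hsub hξS)).2]
      push_cast; ring
    have h1 : classInner F (τ₁ ((d ψ : ℤ) • ξ + (-(d ξ : ℤ)) • ψ)) = classInner (χ - (a : ℤ) • ψ) ((d ψ : ℤ) • ξ + (-(d ξ : ℤ)) • ψ) := by
      rw [hag _ m1, hF, hτ.2.2.1 _ hmem _ (zo_mono hsub m1)]
    rw [hτ₁.1 _ (zs_zsmul _ (zs_sub hξS)) _ (zs_zsmul _ (zs_sub hψS)), hτ₁.2.1 _ (zs_sub hξS), hτ₁.2.1 _ (zs_sub hψS)] at h1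
    simp only [zc, ci_add_right, ci_sub_left, ci_smul_left, ci_smul_right, hy ξ hξ, hy ψ hψ, hχo ξ hξ, hχψ, ci_irr_self hψirr, map_intCast] at h1
    have h2 : classInner ψ ξ = if ξ = ψ then 1 else 0 := by
      split_ifs with h
      · rw [h]; exact ci_irr_self hψirr
      · exact ci_irr_ne hψirr (hirr ξ hξ) (Ne.symm h)
    rw [h2] at h1
    have h3 : (((d ψ : ℤ) * y ξ : ℤ) : ℂ) = ((d ξ * (y ψ + a) - (if ξ = ψ then (a : ℤ) * (d ψ : ℤ) else (0 : ℤ)) : ℤ) : ℂ) := by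
      split_ifs with h
      · rw [if_pos h] at h1
        push_cast at h1 ⊢
        linear_combination h1
      · rw [if_neg h] at h1
        push_cast at h1 ⊢
        linear_combination h1
    exact_mod_cast h3
  set k : ℤ := y ψ + a with hk
  have hdψ : (0 : ℤ) < d ψ := by exact_mod_cast (hdpos ψ hψI).1
  -- the orthogonal remainder
  set Z : G → ℂ := F - ∑ ξ ∈ S₀, (y ξ : ℂ) • τ₁ ξ with hZ
  have hon : ∀ ξ ∈ S₀, ∀ ζ ∈ S₀, classInner (τ₁ ξ) (τ₁ ζ) = if ξ = ζ then 1 else 0 := by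
    intro ξ hξ ζ hζ
    rw [hτ₁.2.2.1 _ (zs_sub (S := (↑S₀ : Set (N → ℂ))) hξ) _ (zs_sub (S := (↑S₀ : Set (N → ℂ))) hζ), ci_irr (hirr ξ hξ) (hirr ζ hζ)]
  have hZgen : IsGeneralizedCharacter G Z :=
    IsGen.sub hFgen (IsGen.sum _ _ fun ξ hξ => IsGen.intsmul (hτ₁.2.2.2 _ (zs_sub (S := (↑S₀ : Set (N → ℂ))) hξ)) _)
  have hZo : ∀ ξ ∈ S₀, classInner Z (τ₁ ξ) = 0 := by
    intro ξ hξ
    rw [hZ, ci_sub_left, ci_sum_left, hy ξ hξ, Finset.sum_eq_single ξ]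
    · rw [ci_smul_left, hon ξ hξ ξ hξ, if_pos rfl]; ring
    · intro ζ hζ hne
      rw [ci_smul_left, hon ζ hζ ξ hξ, if_neg hne, mul_zero]
    · intro h; exact absurd hξ h
  have hFZ : F = Z + ∑ ξ ∈ S₀, (y ξ : ℂ) • τ₁ ξ := by rw [hZ]; abel
  have hZZ : classInner Z Z = 1 + (a : ℂ) ^ 2 - ∑ ξ ∈ S₀, (y ξ : ℂ) ^ 2 := by
    have h1 : classInner F Z = classInner Z Z := by
      conv_lhs => rw [hFZ]
      rw [ci_add_left, ci_sum_left, Finset.sum_eq_zero, add_zero]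
      intro ξ hξ
      rw [ci_smul_left, ← ci_conj_symm, hZo ξ hξ]; simp
    have h2 : classInner F F = classInner F Z + ∑ ξ ∈ S₀, (y ξ : ℂ) ^ 2 := by
      have h3 : classInner F F = classInner (Z + ∑ ξ ∈ S₀, (y ξ : ℂ) • τ₁ ξ) F := by rw [← hFZ]
      rw [h3, ci_add_left, ci_sum_left, gen_comm hZgen hFgen]
      congr 1
      refine Finset.sum_congr rfl fun ξ hξ => ?_
      rw [ci_smul_left, gen_comm (hτ₁.2.2.2 _ (zs_sub (S := (↑S₀ : Set (N → ℂ))) hξ)) hFgen, hy ξ hξ]; ring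
    rw [← h1]
    rw [hFF] at h2
    linear_combination -h2
  have hZint : classInner Z Z = ((1 + (a : ℤ) ^ 2 - ∑ ξ ∈ S₀, y ξ ^ 2 : ℤ) : ℂ) := by
    rw [hZZ]; push_cast; rfl
  have hZnn : (0 : ℤ) ≤ 1 + (a : ℤ) ^ 2 - ∑ ξ ∈ S₀, y ξ ^ 2 := by
    have h1 := ci_self_re_nonneg Z
    rw [hZint, Complex.intCast_re] at h1
    exact_mod_cast h1
  -- the sums
  set D : ℤ := ∑ ξ ∈ S₀, (d ξ : ℤ) ^ 2 with hD
  have hDlt : 2 * (d ψ : ℤ) * d χ < D := by rw [hD]; exact_mod_cast hlt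
  have hχd : (d χ : ℤ) = d ψ * a := by exact_mod_cast ha
  have hsumsq : (d ψ : ℤ) ^ 2 * ∑ ξ ∈ S₀, y ξ ^ 2 = k ^ 2 * D - 2 * k * (d ψ : ℤ) * d χ + (a : ℤ) ^ 2 * d ψ ^ 2 := by
    have h1 : ∀ ξ ∈ S₀, (d ψ : ℤ) ^ 2 * y ξ ^ 2 = k ^ 2 * (d ξ) ^ 2 + (if ξ = ψ then - 2 * k * (d ψ : ℤ) * ((a : ℤ) * (d ψ : ℤ)) + ((a : ℤ) * (d ψ : ℤ)) ^ 2 else (0 : ℤ)) := by
      intro ξ hξ
      have h2 := hrel ξ hξ
      have h3 : (d ψ : ℤ) ^ 2 * y ξ ^ 2 = ((d ψ : ℤ) * y ξ) ^ 2 := by ring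
      rw [h3, h2]
      split_ifs with h
      · rw [h]; ring
      · ring
    rw [Finset.mul_sum, Finset.sum_congr rfl h1, Finset.sum_add_distrib, ← Finset.mul_sum, Finset.sum_ite_eq' S₀ ψ, if_pos hψ, hχd]
    ring
  have hk0 : k = 0 := by
    by_contra hk0
    have hpos : 0 < k ^ 2 * D - 2 * k * (d ψ : ℤ) * d χ := by
      have hdχ : (0 : ℤ) ≤ d χ := by positivity
      rcases lt_or_gt_of_ne hk0 with h | h
      · have h1 : 0 < k ^ 2 * D := by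
          have : 0 < k ^ 2 := by positivity
          have : 0 < D := by nlinarith [mul_nonneg hdψ.le hdχ]
          positivity
        nlinarith [mul_nonneg hdψ.le hdχ, mul_nonneg (mul_nonneg hdψ.le hdχ) (neg_nonneg.2 h.le)]
      · have h1 : 1 ≤ k := h
        have h2 : 0 < D := by nlinarith [mul_nonneg hdψ.le hdχ]
        have h3 : 0 < k * D - 2 * (d ψ : ℤ) * d χ := by nlinarith
        have h4 := mul_pos h h3
        linarith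
    have hgt : (a : ℤ) ^ 2 < ∑ ξ ∈ S₀, y ξ ^ 2 := by
      have h1 : (d ψ : ℤ) ^ 2 * (a : ℤ) ^ 2 < (d ψ : ℤ) ^ 2 * ∑ ξ ∈ S₀, y ξ ^ 2 := by
        rw [hsumsq]; nlinarith
      exact lt_of_mul_lt_mul_left h1 (by positivity)
    have hZ0 : Z = 0 := by
      apply ci_self_eq_zero
      rw [hZint]
      have : 1 + (a : ℤ) ^ 2 - ∑ ξ ∈ S₀, y ξ ^ 2 = 0 := by omega
      rw [this]; simp
    -- evaluate at one
    have h0 : ∀ α ∈ zspan (↑S₀ : Set (N → ℂ)), α 1 = 0 → τ₁ α 1 = 0 := by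
      intro α h1 h2
      have h3 : α ∈ zspanOn (↑S₀ : Set (N → ℂ)) {1}ᶜ := zo_iff.2 ⟨h1, h2⟩
      rw [hag α h3]; exact hτ1 α (zo_mono hsub h3)
    have h1 : ∑ ξ ∈ S₀, (y ξ : ℂ) * τ₁ ξ 1 = 0 := by
      have h2 := congrFun hFZ 1
      rw [hF1, hZ0, zero_add, Finset.sum_apply] at h2
      exact h2.symm
    have h2 : ∀ ξ ∈ S₀, (d ψ : ℂ) ^ 2 * ((y ξ : ℂ) * τ₁ ξ 1) = τ₁ ψ 1 * (((k * (d ξ : ℤ) ^ 2 - if ξ = ψ then (a : ℤ) * (d ψ : ℤ) * (d ψ : ℤ) else (0 : ℤ) : ℤ)) : ℂ) := by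
      intro ξ hξ
      have h3 := deg_prop hirrS hτ₁ h0 (χ := ξ) (ψ := ψ) hξ hψ
      rw [(hdpos ψ hψI).2, (hdpos ξ (hsub hξ)).2] at h3
      have h4 : (((d ψ : ℤ) * y ξ : ℤ) : ℂ) = ((d ξ * k - (if ξ = ψ then (a : ℤ) * (d ψ : ℤ) else (0 : ℤ)) : ℤ) : ℂ) := by rw [hrel ξ hξ]
      split_ifs with h
      · rw [if_pos h] at h4
        push_cast at h4 ⊢
        have : (d ψ : ℂ) ^ 2 * ((y ξ : ℂ) * τ₁ ξ 1) = ((d ψ : ℂ) * y ξ) * ((d ψ : ℂ) * τ₁ ξ 1) := by ring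
        rw [this, h3, h4, h]; ring
      · rw [if_neg h] at h4
        push_cast at h4 ⊢
        have : (d ψ : ℂ) ^ 2 * ((y ξ : ℂ) * τ₁ ξ 1) = ((d ψ : ℂ) * y ξ) * ((d ψ : ℂ) * τ₁ ξ 1) := by ring
        rw [this, h3, h4]; ring
    have h5 : τ₁ ψ 1 * ((k * D - a * d ψ * d ψ : ℤ) : ℂ) = 0 := by
      have h6 : (d ψ : ℂ) ^ 2 * ∑ ξ ∈ S₀, (y ξ : ℂ) * τ₁ ξ 1 = 0 := by rw [h1, mul_zero]
      rw [Finset.mul_sum, Finset.sum_congr rfl h2, ← Finset.mul_sum] at h6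
      rw [← h6]
      congr 1
      rw [← Int.cast_sum]
      congr 1
      rw [Finset.sum_sub_distrib, ← Finset.mul_sum, Finset.sum_ite_eq' S₀ ψ, if_pos hψ]
    rcases mul_eq_zero.1 h5 with h6 | h6
    · exact (pm_of_iso hirrS hτ₁ hψS).one_ne h6
    · have h7 : k * D - a * d ψ * d ψ = 0 := by exact_mod_cast h6
      have h8 : k * D = d χ * d ψ := by rw [hχd]; linear_combination h7
      have hdχ : (0 : ℤ) < d χ := by exact_mod_cast (hdpos χ (Set.mem_insert _ _)).1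
      have h9 : 0 < (d χ : ℤ) * d ψ := mul_pos hdχ hdψ
      have h10 : 0 < D := by nlinarith
      have h11 : 0 < k := by
        rw [← h8] at h9
        exact (mul_pos_iff_of_pos_right h10).1 h9
      nlinarith
  have hyψ : y ψ = -a := by rw [hk] at hk0; omega
  have hyξ : ∀ ξ ∈ S₀, ξ ≠ ψ → y ξ = 0 := by
    intro ξ hξ hne
    have h1 := hrel ξ hξ
    rw [hk0, if_neg hne, mul_zero, sub_zero] at h1
    rcases mul_eq_zero.1 h1 with h | h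
    · omega
    · exact h
  obtain ⟨τ₂, h2, h3, -, -⟩ := ext_one (S₁ := (↑S₀ : Set (N → ℂ))) (χ := χ) (τ := τ) (τ₁ := τ₁)
    (fun ξ hξ => IsGen.of_irr (hirrI ξ hξ)) (fun ξ hξ => by rw [ci_irr_self (hirrI ξ hξ)]; exact one_ne_zero)
    (fun ξ hξ ζ hζ hne => ci_irr_ne (hirrI ξ hξ) (hirrI ζ hζ) hne) (fun h => hχS h) hτ hτ₁ hag hψ' hψ1 rfl (by
      intro ξ hξ
      rw [← hF, hτ₁.2.1 _ (zs_sub hψS), zc, ci_add_left, ci_smul_left, hy ξ hξ, hon ψ hψ ξ hξ]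
      by_cases h : ξ = ψ
      · rw [h, hyψ, if_pos rfl]; push_cast; ring
      · rw [hyξ ξ hξ h, if_neg (Ne.symm h)]; simp)
  exact ⟨⟨α₀, zo_mono hsub hα₀, hα₀ne⟩, τ₂, h2, h3⟩

end Cfsg.Agent.S1530
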