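import Cfsg.Statements.S1531
import Cfsg.Agent.H10_Coh3

set_option autoImplicit false
open Cfsg

namespace Cfsg.Agent.S1531

open Cfsg.Agent.H3.CharIrr Cfsg.Agent.H3.CharComplete Cfsg.Agent.H3.CharInd Cfsg.Agent.H3.Isom Cfsg.Agent.H10.PM Cfsg.Agent.H10.Coh Cfsg.Agent.H10.Coh2 Cfsg.Agent.H10.Coh3

/-- Let N be a subgroup of the finite group G, S a set of irreducible characters of N, and α a linear isometry on the integer combinations of S vanishing at 1 with values virtual characters of G vanishing at 1. Let X, Y ⊆ S be disjoint, each with at least two members, and σ, τ linear isometries on ℤ[X], ℤ[Y] into virtual characters agreeing with α on the members vanishing at 1. Then ⟨σ χ, τ η⟩ = 0 for χ ∈ X, η ∈ Y; and if for some χ₀ ∈ X, η₀ ∈ Y with degrees c = χ₀ 1, e = η₀ 1 one has α (c • η₀ − e • χ₀) = c • τ η₀ − e • σ χ₀, then (X ∪ Y, N minus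 1, α) is coherent. -/
theorem result {G : Type*} [Group G] [Fintype G] (N : Subgroup G) [Fintype N] (S X Y : Set (N → ℂ)) (hirr : ∀ ξ ∈ S, Cfsg.IsIrrCharacter N ξ) (hXS : X ⊆ S) (hYS : Y ⊆ S) (hXY : Disjoint X Y) (hX2 : ∃ a ∈ X, ∃ b ∈ X, a ≠ b) (hY2 : ∃ a ∈ Y, ∃ b ∈ Y, a ≠ b) (α : (N → ℂ) → (G → ℂ)) (hα : Cfsg.IsLinearIsometryOn (Cfsg.zspanOn S {1}ᶜ) α) (hα1 : ∀ θ ∈ Cfsg.zspanOn S {1}ᶜ, α θ 1 = 0) (σ τ : (N → ℂ) → (G → ℂ)) (hσ : Cfsg.IsLinearIsometryOn (Cfsg.zspan X) σ) (hσα : ∀ θ ∈ Cfsg.zspanOn X {1}ᶜ, σ θ = α θ) (hτ : Cfsg.IsLinearIsometryOn (Cfsg.zspan Y) τ) (hτα : ∀ θ ∈ Cfsg.zspanOn Y {1}ᶜ, τ θ = α θ) : (∀ χ ∈ X, ∀ η ∈ Y, Cfsg.classInner (σ χ) (τ η) = 0) ∧ ((∃ χ₀ ∈ X, ∃ η₀ ∈ Y, α (χ₀ 1 • η₀ - η₀ 1 • χ₀) = χ₀ 1 • τ η₀ - η₀ 1 • σ χ₀) → Cfsg.IsCoherent (X ∪ Y) {1}ᶜ α) := by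
  classical
  have hirrX : ∀ ξ ∈ X, IsIrrCharacter N ξ := fun ξ h => hirr ξ (hXS h)
  have hirrY : ∀ ξ ∈ Y, IsIrrCharacter N ξ := fun ξ h => hirr ξ (hYS h)
  have h0X : ∀ θ ∈ zspan X, θ 1 = 0 → σ θ 1 = 0 := by
    intro θ h1 h2
    have h3 : θ ∈ zspanOn X {1}ᶜ := zo_iff.2 ⟨h1, h2⟩
    rw [hσα θ h3]; exact hα1 θ (zo_mono hXS h3)
  have h0Y : ∀ θ ∈ zspan Y, θ 1 = 0 → τ θ 1 = 0 := by
    intro θ h1 h2
    have h3 : θ ∈ zspanOn Y {1}ᶜ := zo_iff.2 ⟨h1, h2⟩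
    rw [hτα θ h3]; exact hα1 θ (zo_mono hYS h3)
  have horthXY : ∀ χ ∈ X, ∀ η ∈ Y, classInner (σ χ) (τ η) = 0 := by
    intro χ hχ η hη
    obtain ⟨χ', hχ', hne⟩ : ∃ χ' ∈ X, χ ≠ χ' := by
      obtain ⟨a, ha, b, hb, hab⟩ := hX2
      by_cases h : χ = a
      · exact ⟨b, hb, h ▸ hab⟩
      · exact ⟨a, ha, h⟩
    obtain ⟨η', hη', hne'⟩ : ∃ η' ∈ Y, η ≠ η' := by
      obtain ⟨a, ha, b, hb, hab⟩ := hY2
      by_cases h : η = a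
      · exact ⟨b, hb, h ▸ hab⟩
      · exact ⟨a, ha, h⟩
    obtain ⟨d, hd, ed⟩ := IsIrr.one_eq_nat (hirrX χ hχ)
    obtain ⟨d', hd', ed'⟩ := IsIrr.one_eq_nat (hirrX χ' hχ')
    obtain ⟨e, he, ee⟩ := IsIrr.one_eq_nat (hirrY η hη)
    obtain ⟨e', he', ee'⟩ := IsIrr.one_eq_nat (hirrY η' hη')
    have m1 : (d' : ℤ) • χ + (-(d : ℤ)) • χ' ∈ zspanOn X {1}ᶜ := by
      rw [zo_iff]
      refine ⟨zs_add (zs_zsmul _ (zs_sub hχ)) (zs_zsmul _ (zs_sub hχ')), ?_⟩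
      rw [Pi.add_apply, Pi.smul_apply, Pi.smul_apply, zsmul_eq_mul, zsmul_eq_mul, ed, ed']; push_cast; ring
    have m2 : (e' : ℤ) • η + (-(e : ℤ)) • η' ∈ zspanOn Y {1}ᶜ := by
      rw [zo_iff]
      refine ⟨zs_add (zs_zsmul _ (zs_sub hη)) (zs_zsmul _ (zs_sub hη')), ?_⟩
      rw [Pi.add_apply, Pi.smul_apply, Pi.smul_apply, zsmul_eq_mul, zsmul_eq_mul, ee, ee']; push_cast; ring
    have v1 : σ ((d' : ℤ) • χ + (-(d : ℤ)) • χ') = ((d' : ℤ) : ℂ) • σ χ - ((d : ℤ) : ℂ) • σ χ' := by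
      rw [hσ.1 _ (zs_zsmul _ (zs_sub hχ)) _ (zs_zsmul _ (zs_sub hχ')), hσ.2.1 _ (zs_sub hχ), hσ.2.1 _ (zs_sub hχ')]
      ext x
      simp only [zc, Pi.add_apply, Pi.sub_apply, Pi.smul_apply, smul_eq_mul]
      push_cast; ring
    have v2 : τ ((e' : ℤ) • η + (-(e : ℤ)) • η') = ((e' : ℤ) : ℂ) • τ η - ((e : ℤ) : ℂ) • τ η' := by
      rw [hτ.1 _ (zs_zsmul _ (zs_sub hη)) _ (zs_zsmul _ (zs_sub hη')), hτ.2.1 _ (zs_sub hη), hτ.2.1 _ (zs_sub hη')]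
      ext x
      simp only [zc, Pi.add_apply, Pi.sub_apply, Pi.smul_apply, smul_eq_mul]
      push_cast; ring
    have o : ∀ a ∈ X, ∀ b ∈ Y, classInner a b = 0 := fun a ha b hb =>
      ci_irr_ne (hirrX a ha) (hirrY b hb) (fun h => Set.disjoint_left.1 hXY ha (h ▸ hb))
    have h3 : classInner (((d' : ℤ) : ℂ) • σ χ - ((d : ℤ) : ℂ) • σ χ') (((e' : ℤ) : ℂ) • τ η - ((e : ℤ) : ℂ) • τ η') = 0 := by
      rw [← v1, ← v2, hσα _ m1, hτα _ m2, hα.2.2.1 _ (zo_mono hXS m1) _ (zo_mono hYS m2)]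
      have c1 : ((d' : ℤ) • χ + (-(d : ℤ)) • χ') = ((d' : ℤ) : ℂ) • χ + ((-(d : ℤ) : ℤ) : ℂ) • χ' := by ext x; simp
      have c2 : ((e' : ℤ) • η + (-(e : ℤ)) • η') = ((e' : ℤ) : ℂ) • η + ((-(e : ℤ) : ℤ) : ℂ) • η' := by ext x; simp
      rw [c1, c2, ci_add_left, ci_add_right, ci_add_right]
      simp only [ci_smul_left, ci_smul_right, o χ hχ η hη, o χ hχ η' hη', o χ' hχ' η hη, o χ' hχ' η' hη']
      ring
    exact (four_orth (pm_of_iso hirrX hσ hχ) (pm_of_iso hirrX hσ hχ') (pm_of_iso hirrY hτ hη) (pm_of_iso hirrY hτ hη')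
      (by rw [hσ.2.2.1 _ (zs_sub hχ) _ (zs_sub hχ'), ci_irr_ne (hirrX χ hχ) (hirrX χ' hχ') hne])
      (by rw [hτ.2.2.1 _ (zs_sub hη) _ (zs_sub hη'), ci_irr_ne (hirrY η hη) (hirrY η' hη') hne'])
      (by exact_mod_cast hd') (by exact_mod_cast hd) (by exact_mod_cast he') (by exact_mod_cast he) h3
      (by have := deg_prop hirrX hσ h0X hχ hχ'; rw [ed, ed'] at this; exact_mod_cast this)
      (by have := deg_prop hirrY hτ h0Y hη hη'; rw [ee, ee'] at this; exact_mod_cast this)).1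
  refine ⟨horthXY, ?_⟩
  rintro ⟨χ₀, hχ₀, η₀, hη₀, hglue⟩
  have hXYS : X ∪ Y ⊆ S := Set.union_subset hXS hYS
  have hirrU : ∀ ξ ∈ X ∪ Y, IsIrrCharacter N ξ := fun ξ h => hirr ξ (hXYS h)
  obtain ⟨τ₂, h2, hval⟩ := exists_isometry (S := X ∪ Y) (L := N) (G := G)
    (linInd_of_orth (fun ξ hξ => by rw [ci_irr_self (hirrU ξ hξ)]; exact one_ne_zero)
      (fun ξ hξ ζ hζ hne => ci_irr_ne (hirrU ξ hξ) (hirrU ζ hζ) hne)) (fun ξ => if ξ ∈ X then σ ξ else τ ξ)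
    (by
      intro ξ hξ
      beta_reduce
      split_ifs with h
      · exact hσ.2.2.2 _ (zs_sub h)
      · exact hτ.2.2.2 _ (zs_sub (hξ.resolve_left h)))
    (by
      intro ξ hξ ζ hζ
      beta_reduce
      by_cases h : ξ ∈ X
      · by_cases h' : ζ ∈ X
        · rw [if_pos h, if_pos h', hσ.2.2.1 _ (zs_sub h) _ (zs_sub h')]
        · rw [if_pos h, if_neg h', horthXY _ h _ (hζ.resolve_left h')]
          exact (ci_irr_ne (hirrU ξ hξ) (hirrU ζ hζ) (fun hh => h' (hh ▸ h))).symm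
      · by_cases h' : ζ ∈ X
        · rw [if_neg h, if_pos h', ← ci_conj_symm, horthXY _ h' _ (hξ.resolve_left h), map_zero]
          exact (ci_irr_ne (hirrU ξ hξ) (hirrU ζ hζ) (fun hh => h (hh ▸ h'))).symm
        · rw [if_neg h, if_neg h', hτ.2.2.1 _ (zs_sub (hξ.resolve_left h)) _ (zs_sub (hζ.resolve_left h'))])
  have hX' : ∀ α ∈ zspan X, τ₂ α = σ α := by
    apply iso_ext (iso_mono h2 (fun α hα => zs_mono Set.subset_union_left hα)) hσ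
    intro ξ hξ
    rw [hval ξ (Or.inl hξ), if_pos hξ]
  have hY' : ∀ α ∈ zspan Y, τ₂ α = τ α := by
    apply iso_ext (iso_mono h2 (fun α hα => zs_mono Set.subset_union_right hα)) hτ
    intro ξ hξ
    rw [hval ξ (Or.inr hξ), if_neg (fun h => Set.disjoint_left.1 hXY h hξ)]
  obtain ⟨d, hd, ed⟩ := IsIrr.one_eq_nat (hirrX χ₀ hχ₀)
  obtain ⟨e, he, ee⟩ := IsIrr.one_eq_nat (hirrY η₀ hη₀)
  refine ⟨?_, τ₂, h2, ?_⟩
  · -- a nonzero element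
    refine ⟨(d : ℤ) • η₀ + (-(e : ℤ)) • χ₀, ?_, ?_⟩
    · rw [zo_iff]
      refine ⟨zs_add (zs_zsmul _ (zs_sub (Or.inr hη₀))) (zs_zsmul _ (zs_sub (Or.inl hχ₀))), ?_⟩
      rw [Pi.add_apply, Pi.smul_apply, Pi.smul_apply, zsmul_eq_mul, zsmul_eq_mul, ed, ee]; push_cast; ring
    · intro h0
      have h1 : classInner ((d : ℤ) • η₀ + (-(e : ℤ)) • χ₀) η₀ = 0 := by rw [h0, ci_zero_left]
      have c1 : ((d : ℤ) • η₀ + (-(e : ℤ)) • χ₀) = ((d : ℤ) : ℂ) • η₀ + ((-(e : ℤ) : ℤ) : ℂ) • χ₀ := by ext x; simp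
      rw [c1, ci_add_left, ci_smul_left, ci_smul_left, ci_irr_self (hirrY η₀ hη₀),
        ci_irr_ne (hirrX χ₀ hχ₀) (hirrY η₀ hη₀) (fun h => Set.disjoint_left.1 hXY hχ₀ (h ▸ hη₀))] at h1
      simp at h1
      omega
  · intro θ hθ
    obtain ⟨hθ1, hθ0⟩ := zo_iff.1 hθ
    have hθ1' : θ ∈ Submodule.span ℤ (X ∪ Y) := hθ1
    rw [Submodule.span_union, Submodule.mem_sup] at hθ1'
    obtain ⟨x, hx, y, hy, exy⟩ := hθ1'
    have hx' : x ∈ zspan X := hx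
    have hy' : y ∈ zspan Y := hy
    obtain ⟨k, hk⟩ : ∃ k : ℤ, x 1 = k := by
      refine zs_ind (p := fun x => ∃ k : ℤ, x 1 = k) ?_ ⟨0, by simp⟩ ?_ ?_ hx'
      · intro ξ hξ
        obtain ⟨m, _, em⟩ := IsIrr.one_eq_nat (hirrX ξ hξ)
        exact ⟨m, by rw [em]; simp⟩
      · rintro a _ b _ ⟨m, hm⟩ ⟨n, hn⟩
        exact ⟨m + n, by rw [Pi.add_apply, hm, hn]; push_cast; ring⟩
      · rintro a _ ⟨m, hm⟩
        exact ⟨-m, by rw [Pi.neg_apply, hm]; push_cast; ring⟩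
    have hy1 : y 1 = -(k : ℂ) := by
      rw [← exy, Pi.add_apply, hk] at hθ0
      linear_combination hθ0
    let nn : ℤ := d * e
    -- three pieces
    have mA : nn • x - (k * e) • χ₀ ∈ zspanOn X {1}ᶜ := by
      rw [zo_iff]
      refine ⟨zs_diff (zs_zsmul _ hx') (zs_zsmul _ (zs_sub hχ₀)), ?_⟩
      rw [Pi.sub_apply, Pi.smul_apply, Pi.smul_apply, zsmul_eq_mul, zsmul_eq_mul, ed, hk]
      show ((d * e : ℤ) : ℂ) * k - ((k * e : ℤ) : ℂ) * d = 0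
      push_cast; ring
    have mB : nn • y + (k * d) • η₀ ∈ zspanOn Y {1}ᶜ := by
      rw [zo_iff]
      refine ⟨zs_add (zs_zsmul _ hy') (zs_zsmul _ (zs_sub hη₀)), ?_⟩
      rw [Pi.add_apply, Pi.smul_apply, Pi.smul_apply, zsmul_eq_mul, zsmul_eq_mul, ee, hy1]
      show ((d * e : ℤ) : ℂ) * -k + ((k * d : ℤ) : ℂ) * e = 0
      push_cast; ring
    have mC : (d : ℤ) • η₀ + (-(e : ℤ)) • χ₀ ∈ zspanOn (X ∪ Y) {1}ᶜ := by
      rw [zo_iff]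
      refine ⟨zs_add (zs_zsmul _ (zs_sub (Or.inr hη₀))) (zs_zsmul _ (zs_sub (Or.inl hχ₀))), ?_⟩
      rw [Pi.add_apply, Pi.smul_apply, Pi.smul_apply, zsmul_eq_mul, zsmul_eq_mul, ed, ee]; push_cast; ring
    have hC : τ₂ ((d : ℤ) • η₀ + (-(e : ℤ)) • χ₀) = α ((d : ℤ) • η₀ + (-(e : ℤ)) • χ₀) := by
      have e1 : ((d : ℤ) • η₀ + (-(e : ℤ)) • χ₀) = χ₀ 1 • η₀ - η₀ 1 • χ₀ := by
        rw [ed, ee]; ext x
        simp only [zc, Pi.add_apply, Pi.sub_apply, Pi.smul_apply, smul_eq_mul]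
        push_cast; ring
      conv_rhs => rw [e1, hglue]
      rw [h2.1 _ (zs_zsmul _ (zs_sub (Or.inr hη₀))) _ (zs_zsmul _ (zs_sub (Or.inl hχ₀))), h2.2.1 _ (zs_sub (Or.inr hη₀)),
        h2.2.1 _ (zs_sub (Or.inl hχ₀)), hY' _ (zs_sub hη₀), hX' _ (zs_sub hχ₀), ed, ee]
      ext x
      simp only [zc, Pi.add_apply, Pi.sub_apply, Pi.smul_apply, smul_eq_mul]
      push_cast; ring
    have hA2 := hX' _ mA.1
    have hB2 := hY' _ mB.1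
    rw [hσα _ mA] at hA2
    rw [hτα _ mB] at hB2
    have mA' := zo_mono (Set.subset_union_left (s := X) (t := Y)) mA
    have mB' := zo_mono (Set.subset_union_right (s := X) (t := Y)) mB
    have hsub : ∀ {a : N → ℂ}, a ∈ zspanOn (X ∪ Y) {1}ᶜ → a ∈ zspanOn S {1}ᶜ := fun h => zo_mono hXYS h
    have e3 : nn • θ = ((nn • x - (k * e) • χ₀) + (nn • y + (k * d) • η₀)) + (-k) • ((d : ℤ) • η₀ + (-(e : ℤ)) • χ₀) := by
      rw [← exy]; ext z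
      simp only [zc, Pi.add_apply, Pi.sub_apply, Pi.smul_apply, smul_eq_mul]
      push_cast; ring
    have h4 : nn • τ₂ θ = nn • α θ := by
      rw [← h2.2.1 _ hθ1, ← hα.2.1 _ (hsub hθ), e3, h2.1 _ (zo_add mA' mB').1 _ (zo_zsmul _ mC).1, h2.1 _ mA'.1 _ mB'.1,
        h2.2.1 _ mC.1, hA2, hB2, hC, hα.1 _ (hsub (zo_add mA' mB')) _ (hsub (zo_zsmul _ mC)), hα.1 _ (hsub mA') _ (hsub mB'),
        hα.2.1 _ (hsub mC)]
    have hnn : (nn : ℂ) ≠ 0 := by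
      show ((d * e : ℤ) : ℂ) ≠ 0
      push_cast
      exact mul_ne_zero (by exact_mod_cast hd.ne') (by exact_mod_cast he.ne')
    funext z
    have h5 := congrFun h4 z
    rw [Pi.smul_apply, Pi.smul_apply, zsmul_eq_mul, zsmul_eq_mul] at h5
    exact mul_left_cancel₀ hnn h5

end Cfsg.Agent.S1531
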