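import Cfsg.Statements.S1552
import Cfsg.Agent.H7_SSTT

set_option autoImplicit false
open scoped Pointwise
open Cfsg

open Cfsg.Agent.H7.SSTT
open Cfsg.Agent.H28.Sxt
open Cfsg.Agent.H28.SxtFix
open Cfsg.Agent.H28.SxtOrb
open Cfsg.Agent.H28.OrbK
open Cfsg.Agent.H7.OrbSS
open Cfsg.Agent.H7.Golay

namespace Cfsg.Agent.S1552

/-- A sextet stabiliser has four orbits on the 1771 sextets, of sizes 1, 90, 240, 1440; and the stabiliser is a maximal proper subgroup. -/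
theorem result (S : Finset (Finset Cfsg.GolayPt)) (hS : S ∈ Cfsg.sextets) : ∃ X₁ ∈ Cfsg.sextets, ∃ X₂ ∈ Cfsg.sextets, ∃ X₃ ∈ Cfsg.sextets, (MulAction.orbit ↥(MulAction.stabilizer Cfsg.M24 S) X₁).ncard = 90 ∧ (MulAction.orbit ↥(MulAction.stabilizer Cfsg.M24 S) X₂).ncard = 240 ∧ (MulAction.orbit ↥(MulAction.stabilizer Cfsg.M24 S) X₃).ncard = 1440 ∧ Cfsg.sextets = {S} ∪ MulAction.orbit ↥(MulAction.stabilizer Cfsg.M24 S) X₁ ∪ MulAction.orbit ↥(MulAction.stabilizer Cfsg.M24 S) X₂ ∪ MulAction.orbit ↥(MulAction.stabilizer Cfsg.M24 S) X₃ ∧ IsCoatom (MulAction.stabilizer Cfsg.M24 S) := by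
  obtain ⟨X₁, h1, -, h1c, h1o⟩ := Cfsg.Agent.H7.OrbSS.orbS12 (Cfsg.Agent.H7.OrbSS.std hS)
  obtain ⟨X₂, h2, -, h2c, h2o⟩ := Cfsg.Agent.H7.OrbSS.orbS2 (Cfsg.Agent.H7.OrbSS.std hS)
  obtain ⟨X₃, h3, -, h3c, h3o⟩ := Cfsg.Agent.H7.OrbSS.orbS4 (Cfsg.Agent.H7.OrbSS.std hS)
  refine ⟨X₁, h1, X₂, h2, X₃, h3, h1c, h2c, h3c, ?_, coatom_S hS⟩
  rw [h1o, h2o, h3o]
  ext t
  constructor
  · intro ht
    have := Cfsg.Agent.H7.OrbSS.allS (Cfsg.Agent.H7.OrbSS.std hS) (s := t) ht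
    simp only [List.mem_cons, List.not_mem_nil, or_false] at this
    rcases this with h | h | h | h
    · exact Or.inl (Or.inr ⟨ht, h⟩)
    · exact Or.inr ⟨ht, h⟩
    · exact Or.inl (Or.inl (Or.inl (eq6 hS ht h)))
    · exact Or.inl (Or.inl (Or.inr ⟨ht, h⟩))
  · rintro (((h | h) | h) | h)
    · rw [Set.mem_singleton_iff] at h
      rw [h]; exact hS
    · exact h.1
    · exact h.1
    · exact h.1

end Cfsg.Agent.S1552
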