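import Cfsg.Statements.S1556
import Cfsg.Agent.H7_PairUse

set_option autoImplicit false
open scoped Pointwise
open Cfsg

open Cfsg.Agent.H7.Golay
open Cfsg.Agent.H7.Oct
open Cfsg.Agent.H7.M24
open Cfsg.Agent.H7.M24b
open Cfsg.Agent.H7.M24c
open Cfsg.Agent.H7.M24d
open Cfsg.Agent.H7.Pairs
open Cfsg.Agent.H7.PairFacts
open Cfsg.Agent.H7.PairUse

namespace Cfsg.Agent.S1556

/-- Two octads meeting a fixed octad in equally many points are in the same orbit of its stabiliser. -/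
theorem result (o o' o'' : Finset Cfsg.GolayPt) (ho : o ∈ Cfsg.octads) (ho' : o' ∈ Cfsg.octads) (ho'' : o'' ∈ Cfsg.octads) (h : (o ∩ o').card = (o ∩ o'').card) : ∃ g : Equiv.Perm Cfsg.GolayPt, g ∈ Cfsg.M24 ∧ g • o = o ∧ g • o' = o'' := by
  rcases octad_inter ho ho' with h0 | h0 | h0 | h0
  · exact trans_oo0 (std_o ho) (octadsSet.2 ho') (octadsSet.2 ho'') h0 (h ▸ h0)
  · exact trans_oo2 (std_o ho) (octadsSet.2 ho') (octadsSet.2 ho'') h0 (h ▸ h0)
  · exact trans_oo4 (std_o ho) (octadsSet.2 ho') (octadsSet.2 ho'') h0 (h ▸ h0)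
  · have e1 := octad_inter_eight ho ho' h0
    have e2 := octad_inter_eight ho ho'' (h ▸ h0)
    exact ⟨1, one_mem _, one_smul _ _, by rw [one_smul, ← e1, ← e2]⟩

end Cfsg.Agent.S1556
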