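import Cfsg.Statements.S1557
import Cfsg.Agent.H7_SSTT

set_option autoImplicit false
open scoped Pointwise
open Cfsg

open Cfsg.Agent.H7.SSTT
open Cfsg.Agent.H28.Sxt
open Cfsg.Agent.H28.SxtFix
open Cfsg.Agent.H28.SxtOrb
open Cfsg.Agent.H28.OrbK
open Cfsg.Agent.H7.OrbSS
open Cfsg.Agent.H7.Golay

namespace Cfsg.Agent.S1557

/-- The complement of the union of two disjoint octads is an octad, and the code has exactly 3795 trios of pairwise disjoint octads. -/
theorem result : (∀ o o' : Finset Cfsg.GolayPt, o ∈ Cfsg.octads → o' ∈ Cfsg.octads → Disjoint o o' → (o ∪ o')ᶜ ∈ Cfsg.octads) ∧ Cfsg.trios.ncard = 3795 := by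
  exact ⟨fun o o' ho ho' hd => compl_union ho ho' hd, trios_card⟩

end Cfsg.Agent.S1557
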