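import Cfsg.Statements.S1559
import Cfsg.Agent.H7_SSTT

set_option autoImplicit false
open scoped Pointwise
open Cfsg

open Cfsg.Agent.H7.SSTT
open Cfsg.Agent.H28.Sxt
open Cfsg.Agent.H28.SxtFix
open Cfsg.Agent.H28.SxtOrb
open Cfsg.Agent.H28.OrbK
open Cfsg.Agent.H7.OrbSS
open Cfsg.Agent.H7.Golay

namespace Cfsg.Agent.S1559

/-- A trio stabiliser has five orbits on the 3795 trios, of sizes 1, 42, 56, 1008, 2688; and the stabiliser is a maximal proper subgroup. -/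
theorem result (T : Finset (Finset Cfsg.GolayPt)) (hT : T ∈ Cfsg.trios) : ∃ X₁ ∈ Cfsg.trios, ∃ X₂ ∈ Cfsg.trios, ∃ X₃ ∈ Cfsg.trios, ∃ X₄ ∈ Cfsg.trios, (MulAction.orbit ↥(MulAction.stabilizer Cfsg.M24 T) X₁).ncard = 42 ∧ (MulAction.orbit ↥(MulAction.stabilizer Cfsg.M24 T) X₂).ncard = 56 ∧ (MulAction.orbit ↥(MulAction.stabilizer Cfsg.M24 T) X₃).ncard = 1008 ∧ (MulAction.orbit ↥(MulAction.stabilizer Cfsg.M24 T) X₄).ncard = 2688 ∧ Cfsg.trios = {T} ∪ MulAction.orbit ↥(MulAction.stabilizer Cfsg.M24 T) X₁ ∪ MulAction.orbit ↥(MulAction.stabilizer Cfsg.M24 T) X₂ ∪ MulAction.orbit ↥(MulAction.stabilizer Cfsg.M24 T) X₃ ∪ MulAction.orbit ↥(MulAction.stabilizer Cfsg.M24 T) X₄ ∧ IsCoatom (MulAction.stabilizer Cfsg.M24 T) := by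
  obtain ⟨X₁, h1, -, h1c, h1o⟩ := Cfsg.Agent.H7.OrbTT.orbT5 (Cfsg.Agent.H7.OrbTT.std hT)
  obtain ⟨X₂, h2, -, h2c, h2o⟩ := Cfsg.Agent.H7.OrbTT.orbT6 (Cfsg.Agent.H7.OrbTT.std hT)
  obtain ⟨X₃, h3, -, h3c, h3o⟩ := Cfsg.Agent.H7.OrbTT.orbT8 (Cfsg.Agent.H7.OrbTT.std hT)
  obtain ⟨X₄, h4, -, h4c, h4o⟩ := Cfsg.Agent.H7.OrbTT.orbT9 (Cfsg.Agent.H7.OrbTT.std hT)
  refine ⟨X₁, h1, X₂, h2, X₃, h3, X₄, h4, h1c, h2c, h3c, h4c, ?_, coatom_T hT⟩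
  rw [h1o, h2o, h3o, h4o]
  ext t
  constructor
  · intro ht
    have := Cfsg.Agent.H7.OrbTT.allT (Cfsg.Agent.H7.OrbTT.std hT) (s := t) ht
    simp only [List.mem_cons, List.not_mem_nil, or_false] at this
    rcases this with h | h | h | h | h
    · exact Or.inl (Or.inl (Or.inl (Or.inl (eq3 hT ht h))))
    · exact Or.inl (Or.inl (Or.inl (Or.inr ⟨ht, h⟩)))
    · exact Or.inl (Or.inl (Or.inr ⟨ht, h⟩))
    · exact Or.inl (Or.inr ⟨ht, h⟩)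
    · exact Or.inr ⟨ht, h⟩
  · rintro ((((h | h) | h) | h) | h)
    · rw [Set.mem_singleton_iff] at h
      rw [h]; exact hT
    · exact h.1
    · exact h.1
    · exact h.1
    · exact h.1

end Cfsg.Agent.S1559
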