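import Cfsg.Statements.S1560
import Cfsg.Agent.H7_PairUse

set_option autoImplicit false
open scoped Pointwise
open Cfsg

open Cfsg.Agent.H7.Golay
open Cfsg.Agent.H7.Oct
open Cfsg.Agent.H7.M24
open Cfsg.Agent.H7.M24b
open Cfsg.Agent.H7.M24c
open Cfsg.Agent.H7.M24d
open Cfsg.Agent.H7.Pairs
open Cfsg.Agent.H7.PairFacts
open Cfsg.Agent.H7.PairUse

namespace Cfsg.Agent.S1560

/-- Intersection numbers of dodecads: a dodecad meets every other dodecad in 0, 4, 6 or 8 points, meeting 495 of them in 4 points, 1584 in 6 points and 495 in 8 points. -/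
theorem result (d : Finset Cfsg.GolayPt) (hd : d ∈ Cfsg.dodecads) : (∀ d' ∈ Cfsg.dodecads, d' ≠ d → (d ∩ d').card = 0 ∨ (d ∩ d').card = 4 ∨ (d ∩ d').card = 6 ∨ (d ∩ d').card = 8) ∧ {d' : Finset Cfsg.GolayPt | d' ∈ Cfsg.dodecads ∧ (d ∩ d').card = 4}.ncard = 495 ∧ {d' : Finset Cfsg.GolayPt | d' ∈ Cfsg.dodecads ∧ (d ∩ d').card = 6}.ncard = 1584 ∧ {d' : Finset Cfsg.GolayPt | d' ∈ Cfsg.dodecads ∧ (d ∩ d').card = 8}.ncard = 495 := by
  refine ⟨fun d' hd' hne => ?_, ?_, ?_, ?_⟩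
  · rcases dodecad_inter hd hd' with h | h | h | h | h
    · exact Or.inl h
    · exact Or.inr (Or.inl h)
    · exact Or.inr (Or.inr (Or.inl h))
    · exact Or.inr (Or.inr (Or.inr h))
    · exact absurd (dodecad_inter_12 hd hd' h).symm hne
  · have := count_dd4 (X := d) (dodecad_std hd)
    rw [← this]
    congr 1
    ext s
    simp only [Set.mem_ofPred_eq, dodecadsSet]
  · have := count_dd6 (X := d) (dodecad_std hd)
    rw [← this]
    congr 1
    ext s
    simp only [Set.mem_ofPred_eq, dodecadsSet]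
  · have := count_dd8 (X := d) (dodecad_std hd)
    rw [← this]
    congr 1
    ext s
    simp only [Set.mem_ofPred_eq, dodecadsSet]

end Cfsg.Agent.S1560
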