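import Cfsg.Statements.S1561
import Cfsg.Agent.H7_PairUse

set_option autoImplicit false
open scoped Pointwise
open Cfsg

open Cfsg.Agent.H7.Golay
open Cfsg.Agent.H7.Oct
open Cfsg.Agent.H7.M24
open Cfsg.Agent.H7.M24b
open Cfsg.Agent.H7.M24c
open Cfsg.Agent.H7.M24d
open Cfsg.Agent.H7.Pairs
open Cfsg.Agent.H7.PairFacts
open Cfsg.Agent.H7.PairUse

namespace Cfsg.Agent.S1561

/-- Two dodecads meeting a fixed dodecad in equally many points lie in one orbit of its stabiliser. -/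
theorem result (d d' d'' : Finset Cfsg.GolayPt) (hd : d ∈ Cfsg.dodecads) (hd' : d' ∈ Cfsg.dodecads) (hd'' : d'' ∈ Cfsg.dodecads) (h : (d ∩ d').card = (d ∩ d'').card) : ∃ g : Equiv.Perm Cfsg.GolayPt, g ∈ Cfsg.M24 ∧ g • d = d ∧ g • d' = d'' := by
  rcases dodecad_inter hd hd' with h0 | h0 | h0 | h0 | h0
  · have e1 := dodecad_inter_0 hd hd' h0
    have e2 := dodecad_inter_0 hd hd'' (h ▸ h0)
    exact ⟨1, one_mem _, one_smul _ _, by rw [one_smul, e1, e2]⟩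
  · exact trans_dd4 (dodecad_std hd) (dodecadsSet.2 hd') (dodecadsSet.2 hd'') h0 (h ▸ h0)
  · exact trans_dd6 (dodecad_std hd) (dodecadsSet.2 hd') (dodecadsSet.2 hd'') h0 (h ▸ h0)
  · exact trans_dd8 (dodecad_std hd) (dodecadsSet.2 hd') (dodecadsSet.2 hd'') h0 (h ▸ h0)
  · have e1 := dodecad_inter_12 hd hd' h0
    have e2 := dodecad_inter_12 hd hd'' (h ▸ h0)
    exact ⟨1, one_mem _, one_smul _ _, by rw [one_smul, ← e1, ← e2]⟩

end Cfsg.Agent.S1561
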