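import Cfsg.Statements.S1562
import Cfsg.Agent.H7_PairUse

set_option autoImplicit false
open scoped Pointwise
open Cfsg

open Cfsg.Agent.H7.Golay
open Cfsg.Agent.H7.Oct
open Cfsg.Agent.H7.M24
open Cfsg.Agent.H7.M24b
open Cfsg.Agent.H7.M24c
open Cfsg.Agent.H7.M24d
open Cfsg.Agent.H7.Pairs
open Cfsg.Agent.H7.PairFacts
open Cfsg.Agent.H7.PairUse

namespace Cfsg.Agent.S1562

/-- Orbits of a triad stabiliser on the triads disjoint from it: the 210 triads inside a common octad with it form one orbit and the remaining 1120 another. -/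
theorem result (T : Finset Cfsg.GolayPt) (hT : T.card = 3) : {U : Finset Cfsg.GolayPt | U.card = 3 ∧ Disjoint T U ∧ (∃ o ∈ Cfsg.octads, T ∪ U ⊆ o)}.ncard = 210 ∧ {U : Finset Cfsg.GolayPt | U.card = 3 ∧ Disjoint T U ∧ ¬ (∃ o ∈ Cfsg.octads, T ∪ U ⊆ o)}.ncard = 1120 ∧ ∀ U U' : Finset Cfsg.GolayPt, U.card = 3 → U'.card = 3 → Disjoint T U → Disjoint T U' → ((∃ o ∈ Cfsg.octads, T ∪ U ⊆ o) ↔ (∃ o ∈ Cfsg.octads, T ∪ U' ⊆ o)) → ∃ g : Equiv.Perm Cfsg.GolayPt, g ∈ Cfsg.M24 ∧ g • T = T ∧ g • U = U' := by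
  have hX := std_set (by norm_num) hT
  refine ⟨?_, ?_, ?_⟩
  · have := count_t0i (X := T) hX
    rw [← this]
    congr 1
    ext s
    simp only [Set.mem_ofPred_eq, mask_mem_subs, Co]
  · have := count_t0n (X := T) hX
    rw [← this]
    congr 1
    ext s
    simp only [Set.mem_ofPred_eq, mask_mem_subs, Co]
  · intro U U' hU hU' hd hd' hiff
    by_cases hc : ∃ o ∈ octads, T ∪ U ⊆ o
    · exact trans_t0i hX (mask_mem_subs.2 hU) (mask_mem_subs.2 hU') ⟨hd, hc⟩ ⟨hd', hiff.1 hc⟩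
    · exact trans_t0n hX (mask_mem_subs.2 hU) (mask_mem_subs.2 hU') ⟨hd, hc⟩ ⟨hd', fun h => hc (hiff.2 h)⟩

end Cfsg.Agent.S1562
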