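import Cfsg.Statements.S1563
import Cfsg.Agent.H7_PairUse

set_option autoImplicit false
open scoped Pointwise
open Cfsg

open Cfsg.Agent.H7.Golay
open Cfsg.Agent.H7.Oct
open Cfsg.Agent.H7.M24
open Cfsg.Agent.H7.M24b
open Cfsg.Agent.H7.M24c
open Cfsg.Agent.H7.M24d
open Cfsg.Agent.H7.Pairs
open Cfsg.Agent.H7.PairFacts
open Cfsg.Agent.H7.PairUse

namespace Cfsg.Agent.S1563

/-- The stabiliser of a pair of points (setwise) is a maximal proper subgroup of the group of the length-24 code. -/
theorem result (s : Finset Cfsg.GolayPt) (hs : s.card = 2) : IsCoatom (MulAction.stabilizer Cfsg.M24 s) := by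
  refine coatom_of_suborbits (G := ↥M24) s 2
    ![{t | t.card = 2 ∧ (s ∩ t).card = 1}, {t | t.card = 2 ∧ (s ∩ t).card = 0}] ?_ ?_ ?_ ?_ ![44, 231] ?_ ?_ ?_
  · intro t
    constructor
    · rintro ⟨g, rfl⟩
      have hc : ((g : Equiv.Perm GolayPt) • s).card = 2 := by rw [Finset.card_smul_finset, hs]
      by_cases he : (g : Equiv.Perm GolayPt) • s = s
      · exact Or.inl he
      · right
        have hle : (s ∩ (g : Equiv.Perm GolayPt) • s).card ≤ 2 := by
          rw [← hs]; exact Finset.card_le_card Finset.inter_subset_left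
        have h2 : (s ∩ (g : Equiv.Perm GolayPt) • s).card ≠ 2 := by
          intro h2
          have h3 : s ∩ (g : Equiv.Perm GolayPt) • s = s :=
            Finset.eq_of_subset_of_card_le Finset.inter_subset_left (by rw [h2, hs])
          have h4 : s ∩ (g : Equiv.Perm GolayPt) • s = (g : Equiv.Perm GolayPt) • s :=
            Finset.eq_of_subset_of_card_le Finset.inter_subset_right (by rw [h2, hc])
          exact he (h4.symm.trans h3)
        have h01 : (s ∩ (g : Equiv.Perm GolayPt) • s).card = 1 ∨ (s ∩ (g : Equiv.Perm GolayPt) • s).card = 0 := by omega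
        rcases h01 with h | h
        · exact ⟨0, hc, h⟩
        · exact ⟨1, hc, h⟩
    · intro h
      have hc : t.card = 2 := by
        rcases h with rfl | ⟨i, hi⟩
        · exact hs
        · fin_cases i
          · exact hi.1
          · exact hi.1
      obtain ⟨g, hg, h1⟩ := std_set (by norm_num) hs
      obtain ⟨g', hg', h2⟩ := std_set (by norm_num) hc
      refine ⟨⟨g'⁻¹ * g, mul_mem (inv_mem hg') hg⟩, ?_⟩
      show (g'⁻¹ * g) • s = t
      rw [mul_smul, h1, ← h2, inv_smul_smul]
  · intro i hi
    fin_cases i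
    · have := hi.2
      rw [Finset.inter_self, hs] at this
      omega
    · have := hi.2
      rw [Finset.inter_self, hs] at this
      omega
  · intro i j y hi hj
    fin_cases i <;> fin_cases j
    · rfl
    · have h1 := hi.2
      have h2 := hj.2
      omega
    · have h1 := hi.2
      have h2 := hj.2
      omega
    · rfl
  · intro i y hy y' hy'
    fin_cases i
    · obtain ⟨g, hg, h1, h2⟩ := trans_p1 (std_set (by norm_num) hs) (mask_mem_subs.2 hy.1) (mask_mem_subs.2 hy'.1)
        hy.2 hy'.2
      exact ⟨⟨g, hg⟩, h1, h2⟩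
    · obtain ⟨g, hg, h1, h2⟩ := trans_p0 (std_set (by norm_num) hs) (mask_mem_subs.2 hy.1) (mask_mem_subs.2 hy'.1)
        hy.2 hy'.2
      exact ⟨⟨g, hg⟩, h1, h2⟩
  · intro i
    fin_cases i
    · have := count_p1 (std_set (by norm_num) hs)
      show _ = 44
      rw [← this]
      congr 1
      ext t
      simp only [mask_mem_subs]
      rfl
    · have := count_p0 (std_set (by norm_num) hs)
      show _ = 231
      rw [← this]
      congr 1
      ext t
      simp only [mask_mem_subs]
      rfl
  · exact ⟨0, by decide⟩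
  · decide

end Cfsg.Agent.S1563
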