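import Cfsg.Statements.S1564
import Cfsg.Agent.H7_PairUse

set_option autoImplicit false
open scoped Pointwise
open Cfsg

open Cfsg.Agent.H7.Golay
open Cfsg.Agent.H7.Oct
open Cfsg.Agent.H7.M24
open Cfsg.Agent.H7.M24b
open Cfsg.Agent.H7.M24c
open Cfsg.Agent.H7.M24d
open Cfsg.Agent.H7.Pairs
open Cfsg.Agent.H7.PairFacts
open Cfsg.Agent.H7.PairUse

namespace Cfsg.Agent.S1564

/-- The stabiliser of a set of three points (setwise) is a maximal proper subgroup of the group of the length-24 code. -/
theorem result (s : Finset Cfsg.GolayPt) (hs : s.card = 3) : IsCoatom (MulAction.stabilizer Cfsg.M24 s) := by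
  have hX := std_set (by norm_num) hs
  refine coatom_of_suborbits (G := ↥M24) s 4
    ![{t | t.card = 3 ∧ (s ∩ t).card = 2}, {t | t.card = 3 ∧ (s ∩ t).card = 1},
      {t | t.card = 3 ∧ Disjoint s t ∧ Co s t}, {t | t.card = 3 ∧ Disjoint s t ∧ ¬ Co s t}]
    ?_ ?_ ?_ ?_ ![63, 630, 210, 1120] ?_ ?_ ?_
  · intro t
    constructor
    · rintro ⟨g, rfl⟩
      have hc : ((g : Equiv.Perm GolayPt) • s).card = 3 := by rw [Finset.card_smul_finset, hs]
      by_cases he : (g : Equiv.Perm GolayPt) • s = s
      · exact Or.inl he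
      · right
        have hle : (s ∩ (g : Equiv.Perm GolayPt) • s).card ≤ 3 := by
          rw [← hs]; exact Finset.card_le_card Finset.inter_subset_left
        have h2 : (s ∩ (g : Equiv.Perm GolayPt) • s).card ≠ 3 := by
          intro h2
          have h3 : s ∩ (g : Equiv.Perm GolayPt) • s = s :=
            Finset.eq_of_subset_of_card_le Finset.inter_subset_left (by rw [h2, hs])
          have h4 : s ∩ (g : Equiv.Perm GolayPt) • s = (g : Equiv.Perm GolayPt) • s :=
            Finset.eq_of_subset_of_card_le Finset.inter_subset_right (by rw [h2, hc])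
          exact he (h4.symm.trans h3)
        have h01 : (s ∩ (g : Equiv.Perm GolayPt) • s).card = 2 ∨ (s ∩ (g : Equiv.Perm GolayPt) • s).card = 1 ∨
          (s ∩ (g : Equiv.Perm GolayPt) • s).card = 0 := by omega
        rcases h01 with h | h | h
        · exact ⟨0, hc, h⟩
        · exact ⟨1, hc, h⟩
        · rw [Finset.card_eq_zero, ← Finset.disjoint_iff_inter_eq_empty] at h
          by_cases hco : Co s ((g : Equiv.Perm GolayPt) • s)
          · exact ⟨2, hc, h, hco⟩
          · exact ⟨3, hc, h, hco⟩
    · intro h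
      have hc : t.card = 3 := by
        rcases h with rfl | ⟨i, hi⟩
        · exact hs
        · fin_cases i
          · exact hi.1
          · exact hi.1
          · exact hi.1
          · exact hi.1
      obtain ⟨g, hg, h1⟩ := hX
      obtain ⟨g', hg', h2⟩ := std_set (by norm_num) hc
      refine ⟨⟨g'⁻¹ * g, mul_mem (inv_mem hg') hg⟩, ?_⟩
      show (g'⁻¹ * g) • s = t
      rw [mul_smul, h1, ← h2, inv_smul_smul]
  · intro i hi
    have hnd : ¬ Disjoint s s := by
      rw [disjoint_self]
      rintro rfl
      simp at hs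
    fin_cases i
    · have := hi.2
      rw [Finset.inter_self, hs] at this
      omega
    · have := hi.2
      rw [Finset.inter_self, hs] at this
      omega
    · exact hnd hi.2.1
    · exact hnd hi.2.1
  · intro i j y hi hj
    have hd : Disjoint s y → (s ∩ y).card = 0 := fun h => by
      rw [Finset.card_eq_zero, ← Finset.disjoint_iff_inter_eq_empty]; exact h
    fin_cases i <;> fin_cases j
    · rfl
    · exfalso; have h1 := hi.2; have h2 := hj.2; omega
    · exfalso; have h1 := hi.2; have h2 := hd hj.2.1; omega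
    · exfalso; have h1 := hi.2; have h2 := hd hj.2.1; omega
    · exfalso; have h1 := hi.2; have h2 := hj.2; omega
    · rfl
    · exfalso; have h1 := hi.2; have h2 := hd hj.2.1; omega
    · exfalso; have h1 := hi.2; have h2 := hd hj.2.1; omega
    · exfalso; have h1 := hj.2; have h2 := hd hi.2.1; omega
    · exfalso; have h1 := hj.2; have h2 := hd hi.2.1; omega
    · rfl
    · exact absurd hi.2.2 hj.2.2
    · exfalso; have h1 := hj.2; have h2 := hd hi.2.1; omega
    · exfalso; have h1 := hj.2; have h2 := hd hi.2.1; omega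
    · exact absurd hj.2.2 hi.2.2
    · rfl
  · intro i y hy y' hy'
    fin_cases i
    · obtain ⟨g, hg, h1, h2⟩ := trans_t2 hX (mask_mem_subs.2 hy.1) (mask_mem_subs.2 hy'.1) hy.2 hy'.2
      exact ⟨⟨g, hg⟩, h1, h2⟩
    · obtain ⟨g, hg, h1, h2⟩ := trans_t1 hX (mask_mem_subs.2 hy.1) (mask_mem_subs.2 hy'.1) hy.2 hy'.2
      exact ⟨⟨g, hg⟩, h1, h2⟩
    · obtain ⟨g, hg, h1, h2⟩ := trans_t0i hX (mask_mem_subs.2 hy.1) (mask_mem_subs.2 hy'.1) hy.2 hy'.2
      exact ⟨⟨g, hg⟩, h1, h2⟩
    · obtain ⟨g, hg, h1, h2⟩ := trans_t0n hX (mask_mem_subs.2 hy.1) (mask_mem_subs.2 hy'.1) hy.2 hy'.2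
      exact ⟨⟨g, hg⟩, h1, h2⟩
  · intro i
    fin_cases i
    · have := count_t2 hX
      show _ = 63
      rw [← this]
      congr 1
      ext t
      simp only [mask_mem_subs]
      rfl
    · have := count_t1 hX
      show _ = 630
      rw [← this]
      congr 1
      ext t
      simp only [mask_mem_subs]
      rfl
    · have := count_t0i hX
      show _ = 210
      rw [← this]
      congr 1
      ext t
      simp only [mask_mem_subs]
      rfl
    · have := count_t0n hX
      show _ = 1120
      rw [← this]
      congr 1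
      ext t
      simp only [mask_mem_subs]
      rfl
  · exact ⟨0, by decide⟩
  · decide

end Cfsg.Agent.S1564
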