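import Cfsg.Statements.S1565
import Cfsg.Agent.H7_PairUse

set_option autoImplicit false
open scoped Pointwise
open Cfsg

open Cfsg.Agent.H7.Golay
open Cfsg.Agent.H7.Oct
open Cfsg.Agent.H7.M24
open Cfsg.Agent.H7.M24b
open Cfsg.Agent.H7.M24c
open Cfsg.Agent.H7.M24d
open Cfsg.Agent.H7.Pairs
open Cfsg.Agent.H7.PairFacts
open Cfsg.Agent.H7.PairUse

namespace Cfsg.Agent.S1565

/-- The stabiliser of an octad is a maximal proper subgroup of the group of the length-24 code. -/
theorem result (o : Finset Cfsg.GolayPt) (ho : o ∈ Cfsg.octads) : IsCoatom (MulAction.stabilizer Cfsg.M24 o) := by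
  refine coatom_of_suborbits (G := ↥M24) o 3
    ![{t | t ∈ octads ∧ (o ∩ t).card = 0}, {t | t ∈ octads ∧ (o ∩ t).card = 2},
      {t | t ∈ octads ∧ (o ∩ t).card = 4}] ?_ ?_ ?_ ?_ ![30, 448, 280] ?_ ?_ ?_
  · intro t
    rw [orbit_octad ho]
    constructor
    · intro ht
      rcases octad_inter ho ht with h | h | h | h
      · exact Or.inr ⟨0, ht, h⟩
      · exact Or.inr ⟨1, ht, h⟩
      · exact Or.inr ⟨2, ht, h⟩
      · exact Or.inl (octad_inter_eight ho ht h).symm
    · rintro (rfl | ⟨i, hi⟩)
      · exact ho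
      · fin_cases i
        · exact hi.1
        · exact hi.1
        · exact hi.1
  · intro i hi
    fin_cases i
    · have := hi.2
      rw [Finset.inter_self, ho.2] at this
      omega
    · have := hi.2
      rw [Finset.inter_self, ho.2] at this
      omega
    · have := hi.2
      rw [Finset.inter_self, ho.2] at this
      omega
  · intro i j y hi hj
    fin_cases i <;> fin_cases j <;> first | rfl | (exfalso; have h1 := hi.2; have h2 := hj.2; omega)
  · intro i y hy y' hy'
    fin_cases i
    · obtain ⟨g, hg, h1, h2⟩ := trans_oo0 (std_o ho) (octadsSet.2 hy.1) (octadsSet.2 hy'.1) hy.2 hy'.2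
      exact ⟨⟨g, hg⟩, h1, h2⟩
    · obtain ⟨g, hg, h1, h2⟩ := trans_oo2 (std_o ho) (octadsSet.2 hy.1) (octadsSet.2 hy'.1) hy.2 hy'.2
      exact ⟨⟨g, hg⟩, h1, h2⟩
    · obtain ⟨g, hg, h1, h2⟩ := trans_oo4 (std_o ho) (octadsSet.2 hy.1) (octadsSet.2 hy'.1) hy.2 hy'.2
      exact ⟨⟨g, hg⟩, h1, h2⟩
  · intro i
    fin_cases i
    · have := count_oo0 (std_o ho)
      show _ = 30
      rw [← this]
      congr 1
      ext t
      simp only [octadsSet]
      rfl
    · have := count_oo2 (std_o ho)
      show _ = 448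
      rw [← this]
      congr 1
      ext t
      simp only [octadsSet]
      rfl
    · have := count_oo4 (std_o ho)
      show _ = 280
      rw [← this]
      congr 1
      ext t
      simp only [octadsSet]
      rfl
  · exact ⟨0, by decide⟩
  · decide

end Cfsg.Agent.S1565
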