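import Cfsg.Statements.S1567
import Cfsg.Agent.H7_L6

set_option autoImplicit false
open Cfsg

namespace Cfsg.Agent.S1567

/-- The rank-24 lattice is the additive subgroup generated by its 196560 minimal vectors. -/
theorem result : AddSubgroup.closure {x : Cfsg.GolayPt → ℤ | x ∈ Cfsg.leechLattice ∧ Cfsg.sqNorm x = 32} = Cfsg.leechLattice := by
  apply le_antisymm
  · rw [AddSubgroup.closure_le]
    rintro x ⟨h, _⟩
    exact h
  · apply Cfsg.Agent.H7.L6.leech_le
    intro x hx
    apply AddSubgroup.subset_closure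
    refine ⟨(Cfsg.Agent.H7.L6.genV_mem x hx).1, ?_⟩
    have h : ∀ y ∈ Cfsg.Agent.H7.L6.genV, sqNorm y = 32 := by decide +kernel
    exact h x hx

end Cfsg.Agent.S1567
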