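import Cfsg.Statements.S1570
import Cfsg.Agent.H28_M2A

set_option autoImplicit false
open Cfsg

namespace Cfsg.Agent.S1570

open Cfsg.Agent.H28.M2A



/-- Every congruence class of the lattice modulo twice the lattice contains a vector of customary norm at most 8. -/
theorem result (x : Cfsg.GolayPt → ℤ) (hx : x ∈ Cfsg.leechLattice) : ∃ y ∈ Cfsg.leechLattice, Cfsg.sqNorm y ≤ 64 ∧ ∃ z ∈ Cfsg.leechLattice, x - y = 2 • z := by
  obtain ⟨w, ⟨z, hz⟩, hw⟩ := short_rep ⟨x, hx⟩
  refine ⟨w, w.2, hw, z, z.2, ?_⟩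
  have h := congrArg (fun v : leechLattice => (v : GolayPt → ℤ)) hz
  have h' : x = (w : GolayPt → ℤ) + ((z : GolayPt → ℤ) + z) := h
  rw [h', two_smul]
  abel

end Cfsg.Agent.S1570
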