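import Cfsg.Statements.S1573
import Cfsg.Agent.H7_Co

set_option autoImplicit false
open Cfsg

open Cfsg.Agent.H7.Co Cfsg.Agent.H7.LV Cfsg.Agent.H7.L1

namespace Cfsg.Agent.S1573

/-- Census of minimal vectors by inner product with a fixed minimal vector: 4600 have customary inner product −2, 47104 have −1, and 93150 are orthogonal. -/
theorem result (v : Cfsg.GolayPt → ℤ) (hv : v ∈ Cfsg.leechLattice) (hvn : Cfsg.sqNorm v = 32) : {w : Cfsg.GolayPt → ℤ | w ∈ Cfsg.leechLattice ∧ Cfsg.sqNorm w = 32 ∧ Cfsg.dotInt v w = -16}.ncard = 4600 ∧ {w : Cfsg.GolayPt → ℤ | w ∈ Cfsg.leechLattice ∧ Cfsg.sqNorm w = 32 ∧ Cfsg.dotInt v w = -8}.ncard = 47104 ∧ {w : Cfsg.GolayPt → ℤ | w ∈ Cfsg.leechLattice ∧ Cfsg.sqNorm w = 32 ∧ Cfsg.dotInt v w = 0}.ncard = 93150 := by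
  have h : ∀ k : ℤ, {w : GolayPt → ℤ | w ∈ leechLattice ∧ sqNorm w = 32 ∧ dotInt v w = k}.ncard =
      {x : leechLattice | Nm x = 32 ∧ Dt x ⟨v, hv⟩ = k}.ncard := by
    intro k
    rw [ncard_sub (fun w => sqNorm w = 32 ∧ dotInt v w = k)]
    congr 1
    ext x
    simp only [Set.mem_setOf_eq, Nm, Dt]
    rw [dotInt_comm]
  refine ⟨(h (-16)).trans (cnt_m16 ⟨v, hv⟩ hvn), (h (-8)).trans (cnt_m8 ⟨v, hv⟩ hvn), (h 0).trans (cnt_0 ⟨v, hv⟩ hvn)⟩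

end Cfsg.Agent.S1573
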