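import Cfsg.Statements.S1578
import Cfsg.Agent.H7_Co

set_option autoImplicit false
open Cfsg

open Cfsg.Agent.H7.Co Cfsg.Agent.H7.LV Cfsg.Agent.H7.L1

namespace Cfsg.Agent.S1578

/-- A lattice vector of customary norm 6 is the sum of an unordered pair of minimal vectors in exactly 276 ways (552 ordered summands). -/
theorem result (u : ↥Cfsg.leechLattice) (hu : Cfsg.sqNorm (u : Cfsg.GolayPt → ℤ) = 48) : {v : ↥Cfsg.leechLattice | Cfsg.sqNorm (v : Cfsg.GolayPt → ℤ) = 32 ∧ Cfsg.sqNorm ((u - v) : Cfsg.GolayPt → ℤ) = 32}.ncard = 552 := by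
  rw [← cnt48_24 u hu]
  congr 1
  ext v
  have h := nm_sub u v
  have e : sqNorm ((u : GolayPt → ℤ) - (v : GolayPt → ℤ)) = Nm (u - v) := rfl
  have e1 : Nm u = 48 := hu
  have e2 := dt_comm u v
  rw [Set.mem_ofPred_eq, Set.mem_ofPred_eq, e, h]
  constructor
  · rintro ⟨h1, h2⟩
    have e3 : Nm v = 32 := h1
    exact ⟨h1, by omega⟩
  · rintro ⟨h1, h2⟩
    have e3 : Nm v = 32 := h1
    exact ⟨h1, by omega⟩

end Cfsg.Agent.S1578
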