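import Cfsg.Statements.S1579
import Cfsg.Agent.H7_Co

set_option autoImplicit false
open Cfsg

open Cfsg.Agent.H7.Co Cfsg.Agent.H7.LV Cfsg.Agent.H7.L1

namespace Cfsg.Agent.S1579

/-- The stabiliser of a vector of customary norm 6 is transitive on the 552 minimal vectors that complete it to a sum of two minimal vectors. -/
theorem result (u v v' : ↥Cfsg.leechLattice) (hu : Cfsg.sqNorm (u : Cfsg.GolayPt → ℤ) = 48) (hv : Cfsg.sqNorm (v : Cfsg.GolayPt → ℤ) = 32 ∧ Cfsg.sqNorm ((u - v) : Cfsg.GolayPt → ℤ) = 32) (hv' : Cfsg.sqNorm (v' : Cfsg.GolayPt → ℤ) = 32 ∧ Cfsg.sqNorm ((u - v') : Cfsg.GolayPt → ℤ) = 32) : ∃ g : ↥Cfsg.Co0, g • u = u ∧ g • v = v' := by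
  have key : ∀ v : leechLattice, sqNorm (v : GolayPt → ℤ) = 32 ∧ sqNorm ((u : GolayPt → ℤ) - (v : GolayPt → ℤ)) = 32 →
      Dt v u = 24 := by
    rintro v ⟨h1, h2⟩
    have h := nm_sub u v
    have e : Nm (u - v) = 32 := h2
    have e1 : Nm u = 48 := hu
    have e2 : Nm v = 32 := h1
    rw [dt_comm]
    omega
  obtain ⟨g, h1, h2⟩ := pair48_24 u v u v' hu hu hv.1 hv'.1 (key v hv) (key v' hv')
  exact ⟨g, h1, h2⟩

end Cfsg.Agent.S1579
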