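import Cfsg.Statements.S1580
import Cfsg.Agent.H7_Co2

set_option autoImplicit false
open Cfsg

open Cfsg.Agent.H7.Co Cfsg.Agent.H7.Co2 Cfsg.Agent.H7.LV Cfsg.Agent.H7.L1

namespace Cfsg.Agent.S1580

/-- The McLaughlin configuration: for u of customary norm 6 and v minimal with u − v minimal, there are 275 further such summands x of customary inner product 2 with v, permuted transitively by the stabiliser of u and v. -/
theorem result (u v : ↥Cfsg.leechLattice) (hu : Cfsg.sqNorm (u : Cfsg.GolayPt → ℤ) = 48) (hv : Cfsg.sqNorm (v : Cfsg.GolayPt → ℤ) = 32 ∧ Cfsg.sqNorm ((u - v) : Cfsg.GolayPt → ℤ) = 32) : {x : ↥Cfsg.leechLattice | Cfsg.sqNorm (x : Cfsg.GolayPt → ℤ) = 32 ∧ Cfsg.sqNorm ((u - x) : Cfsg.GolayPt → ℤ) = 32 ∧ Cfsg.dotInt (v : Cfsg.GolayPt → ℤ) (x : Cfsg.GolayPt → ℤ) = 16}.ncard = 275 ∧ ∀ x ∈ {x : ↥Cfsg.leechLattice | Cfsg.sqNorm (x : Cfsg.GolayPt → ℤ)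 = 32 ∧ Cfsg.sqNorm ((u - x) : Cfsg.GolayPt → ℤ) = 32 ∧ Cfsg.dotInt (v : Cfsg.GolayPt → ℤ) (x : Cfsg.GolayPt → ℤ) = 16}, ∀ x' ∈ {x : ↥Cfsg.leechLattice | Cfsg.sqNorm (x : Cfsg.GolayPt → ℤ) = 32 ∧ Cfsg.sqNorm ((u - x) : Cfsg.GolayPt → ℤ) = 32 ∧ Cfsg.dotInt (v : Cfsg.GolayPt → ℤ) (x : Cfsg.GolayPt → ℤ) = 16}, ∃ g : ↥Cfsg.Co0, g • u = u ∧ g • v = v ∧ g • x = x' := by
  have key : ∀ v : leechLattice, sqNorm (v : GolayPt → ℤ) = 32 → (sqNorm ((u : GolayPt → ℤ) - (v : GolayPt → ℤ)) = 32 ↔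
      Dt v u = 24) := by
    intro v h1
    have h := nm_sub u v
    have e : sqNorm ((u : GolayPt → ℤ) - (v : GolayPt → ℤ)) = Nm (u - v) := rfl
    have e1 : Nm u = 48 := hu
    have e2 : Nm v = 32 := h1
    have e3 := dt_comm u v
    rw [e]
    omega
  have hvu := (key v hv.1).1 hv.2
  constructor
  · rw [← mcl_count u v hu hv.1 hvu]
    congr 1
    ext x
    rw [Set.mem_ofPred_eq, Set.mem_ofPred_eq]
    have e := dt_comm v x
    constructor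
    · rintro ⟨h1, h2, h3⟩
      exact ⟨h1, (key x h1).1 h2, e.symm.trans h3⟩
    · rintro ⟨h1, h2, h3⟩
      exact ⟨h1, (key x h1).2 h2, e.trans h3⟩
  · rintro x ⟨h1, h2, h3⟩ y ⟨h4, h5, h6⟩
    exact mcl_trans u v x y hu hv.1 hvu h1 ((key x h1).1 h2) ((dt_comm x v).trans h3) h4 ((key y h4).1 h5)
      ((dt_comm y v).trans h6)

end Cfsg.Agent.S1580
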