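import Cfsg.Statements.S1581
import Cfsg.Agent.H7_Co2

set_option autoImplicit false
open Cfsg

open Cfsg.Agent.H7.Co Cfsg.Agent.H7.Co2 Cfsg.Agent.H7.LV Cfsg.Agent.H7.L1

namespace Cfsg.Agent.S1581

/-- The McLaughlin group acts with rank 3 and subdegrees 1, 112, 162 on its 275 points: the point stabiliser has two orbits on the remaining points, distinguished by customary inner product 1 or 2 with the fixed point. -/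
theorem result (u v x : ↥Cfsg.leechLattice) (hu : Cfsg.sqNorm (u : Cfsg.GolayPt → ℤ) = 48) (hv : Cfsg.sqNorm (v : Cfsg.GolayPt → ℤ) = 32 ∧ Cfsg.sqNorm ((u - v) : Cfsg.GolayPt → ℤ) = 32) (hx : x ∈ {x : ↥Cfsg.leechLattice | Cfsg.sqNorm (x : Cfsg.GolayPt → ℤ) = 32 ∧ Cfsg.sqNorm ((u - x) : Cfsg.GolayPt → ℤ) = 32 ∧ Cfsg.dotInt (v : Cfsg.GolayPt → ℤ) (x : Cfsg.GolayPt → ℤ) = 16}) : {y : ↥Cfsg.leechLattice | y ∈ {x : ↥Cfsg.leechLattice | Cfsg.sqNorm (x : Cfsg.GolayPt → ℤ) = 32 ∧ Cfsg.sqNorm ((u - x) : Cfsg.GolayPt → ℤ) = 32 ∧ Cfsg.dotInt (v : Cfsg.GolayPt → ℤ) (x : Cfsg.GolayPt → ℤ) = 16} ∧ Cfsg.dotInt (x : Cfsg.GolayPt → ℤ) (y : Cfsg.GolayPt → ℤ) = 8}.ncard = 112 ∧ {y : ↥Cfsg.leechLattice | y ∈ {x : ↥Cfsg.leechLattice | Cfsg.sqNorm (x : Cfsg.GolayPt → ℤ) = 32 ∧ Cfsg.sqNorm ((u - x) : Cfsg.GolayPt → ℤ) = 32 ∧ Cfsg.dotInt (v : Cfsg.GolayPt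 → ℤ) (x : Cfsg.GolayPt → ℤ) = 16} ∧ y ≠ x ∧ Cfsg.dotInt (x : Cfsg.GolayPt → ℤ) (y : Cfsg.GolayPt → ℤ) = 16}.ncard = 162 ∧ ∀ y ∈ {x : ↥Cfsg.leechLattice | Cfsg.sqNorm (x : Cfsg.GolayPt → ℤ) = 32 ∧ Cfsg.sqNorm ((u - x) : Cfsg.GolayPt → ℤ) = 32 ∧ Cfsg.dotInt (v : Cfsg.GolayPt → ℤ) (x : Cfsg.GolayPt → ℤ) = 16}, ∀ y' ∈ {x : ↥Cfsg.leechLattice | Cfsg.sqNorm (x : Cfsg.GolayPt → ℤ) = 32 ∧ Cfsg.sqNorm ((u - x) : Cfsg.GolayPt → ℤ) = 32 ∧ Cfsg.dotInt (v : Cfsg.GolayPt → ℤ) (x : Cfsg.GolayPt → ℤ) = 16}, y ≠ x → y' ≠ x → Cfsg.dotInt (x : Cfsg.GolayPt → ℤ) (y : Cfsg.GolayPt → ℤ) = Cfsg.dotInt (x : Cfsg.GolayPt → ℤ) (y' : Cfsg.GolayPt → ℤ) → ∃ g : ↥Cfsg.Co0, g • u = u ∧ g • v = v ∧ g • x = x ∧ g • y = y' := by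
  have key : ∀ v : leechLattice, sqNorm (v : GolayPt → ℤ) = 32 → (sqNorm ((u : GolayPt → ℤ) - (v : GolayPt → ℤ)) = 32 ↔
      Dt v u = 24) := by
    intro v h1
    have h := nm_sub u v
    have e : sqNorm ((u : GolayPt → ℤ) - (v : GolayPt → ℤ)) = Nm (u - v) := rfl
    have e1 : Nm u = 48 := hu
    have e2 : Nm v = 32 := h1
    have e3 := dt_comm u v
    rw [e]
    omega
  have hvu := (key v hv.1).1 hv.2
  obtain ⟨x1, x2, x3⟩ := hx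
  have x2' := (key x x1).1 x2
  have x3' : Dt x v = 16 := (dt_comm x v).trans x3
  have hc := mcl_count3 u v x hu hv.1 hvu x1 x2' x3'
  refine ⟨?_, ?_, ?_⟩
  · refine Eq.trans ?_ hc.1
    congr 1
    ext y
    simp only [Set.mem_ofPred_eq]
    constructor
    · rintro ⟨⟨h1, h2, h3⟩, h4⟩
      exact ⟨h1, (key y h1).1 h2, (dt_comm y v).trans h3, (dt_comm y x).trans h4⟩
    · rintro ⟨h1, h2, h3, h4⟩
      exact ⟨⟨h1, (key y h1).2 h2, (dt_comm v y).trans h3⟩, (dt_comm x y).trans h4⟩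
  · refine Eq.trans ?_ hc.2
    congr 1
    ext y
    simp only [Set.mem_ofPred_eq]
    constructor
    · rintro ⟨⟨h1, h2, h3⟩, h5, h4⟩
      exact ⟨h1, (key y h1).1 h2, (dt_comm y v).trans h3, (dt_comm y x).trans h4⟩
    · rintro ⟨h1, h2, h3, h4⟩
      refine ⟨⟨h1, (key y h1).2 h2, (dt_comm v y).trans h3⟩, ?_, (dt_comm x y).trans h4⟩
      rintro rfl
      rw [dt_self] at h4
      have : Nm y = 32 := h1
      omega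
  · rintro y ⟨y1, y2, y3⟩ z ⟨z1, z2, z3⟩ hyx hzx hd
    have y2' := (key y y1).1 y2
    have z2' := (key z z1).1 z2
    have hk := mcl_dots u v x y hu hv.1 hvu x1 x2' x3' y1 y2' ((dt_comm y v).trans y3) hyx
    exact mcl_trans3 u v x y z (Dt y x) hk hu hv.1 hvu x1 x2' x3' y1 y2' ((dt_comm y v).trans y3) rfl z1 z2'
      ((dt_comm z v).trans z3) ((dt_comm z x).trans (hd.symm.trans (dt_comm x y)))

end Cfsg.Agent.S1581
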