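import Cfsg.Statements.S1583
import Cfsg.Agent.H7_Co2

set_option autoImplicit false
open Cfsg

open Cfsg.Agent.H7.Co Cfsg.Agent.H7.Co2 Cfsg.Agent.H7.LV Cfsg.Agent.H7.L1

namespace Cfsg.Agent.S1583

/-- The Higman–Sims configuration: for two vectors of customary norm 6 with inner product −4, exactly 100 minimal vectors have customary inner products 3 and −3 with them, and the joint stabiliser permutes these transitively. -/
theorem result (v w : ↥Cfsg.leechLattice) (hv : Cfsg.sqNorm (v : Cfsg.GolayPt → ℤ) = 48) (hw : Cfsg.sqNorm (w : Cfsg.GolayPt → ℤ) = 48) (hvw : Cfsg.dotInt (v : Cfsg.GolayPt → ℤ) (w : Cfsg.GolayPt → ℤ) = -32) : {x : ↥Cfsg.leechLattice | Cfsg.sqNorm (x : Cfsg.GolayPt → ℤ) = 32 ∧ Cfsg.dotInt (v : Cfsg.GolayPt → ℤ) (x : Cfsg.GolayPt → ℤ) = 24 ∧ Cfsg.dotInt (w : Cfsg.GolayPt → ℤ) (x : Cfsg.GolayPt → ℤ) = -24}.ncard = 100 ∧ ∀ x ∈ {x : ↥Cfsg.leechLattice | Cfsg.sqNorm (x :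 Cfsg.GolayPt → ℤ) = 32 ∧ Cfsg.dotInt (v : Cfsg.GolayPt → ℤ) (x : Cfsg.GolayPt → ℤ) = 24 ∧ Cfsg.dotInt (w : Cfsg.GolayPt → ℤ) (x : Cfsg.GolayPt → ℤ) = -24}, ∀ x' ∈ {x : ↥Cfsg.leechLattice | Cfsg.sqNorm (x : Cfsg.GolayPt → ℤ) = 32 ∧ Cfsg.dotInt (v : Cfsg.GolayPt → ℤ) (x : Cfsg.GolayPt → ℤ) = 24 ∧ Cfsg.dotInt (w : Cfsg.GolayPt → ℤ) (x : Cfsg.GolayPt → ℤ) = -24}, ∃ g : ↥Cfsg.Co0, g • v = v ∧ g • w = w ∧ g • x = x' := by
  have hs : Nm (v + w) = 32 := by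
    have h1 := nm_add v w
    have e1 : Nm v = 48 := hv
    have e2 : Nm w = 48 := hw
    have e3 : Dt v w = -32 := hvw
    omega
  have hsv : Dt (v + w) v = 16 := by
    have h1 := dt_add v w v
    have e1 : Nm v = 48 := hv
    have e3 : Dt v w = -32 := hvw
    rw [dt_self, dt_comm w v] at h1
    omega
  have hsw : Dt (v + w) w = 16 := by
    have h1 := dt_add v w w
    have e1 : Nm w = 48 := hw
    have e3 : Dt v w = -32 := hvw
    rw [dt_self] at h1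
    omega
  have key : ∀ x : leechLattice, (dotInt (v : GolayPt → ℤ) (x : GolayPt → ℤ) = 24 ∧ dotInt (w : GolayPt → ℤ) (x : GolayPt → ℤ) = -24) ↔
      (Dt x v = 24 ∧ Dt x (v + w) = 0) := by
    intro x
    have e1 := dt_add' v w x
    have e2 : dotInt (v : GolayPt → ℤ) (x : GolayPt → ℤ) = Dt x v := dotInt_comm _ _
    have e3 : dotInt (w : GolayPt → ℤ) (x : GolayPt → ℤ) = Dt x w := dotInt_comm _ _
    rw [e2, e3]
    omega
  have back : ∀ g : Co0, g • v = v → g • (v + w) = v + w → g • w = w := by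
    intro g h1 h2
    rw [smul_add'', h1] at h2
    exact add_left_cancel h2
  constructor
  · rw [← hs_count v (v + w) hv hs hsv]
    congr 1
    ext x
    simp only [Set.mem_ofPred_eq]
    rw [key x]
  · rintro x ⟨x1, x2⟩ y ⟨y1, y2⟩
    have x3 := (key x).1 x2
    have y3 := (key y).1 y2
    obtain ⟨g, g1, g2, g3⟩ := hs_trans v (v + w) x y hv hs hsv x1 x3.1 x3.2 y1 y3.1 y3.2
    exact ⟨g, g1, back g g1 g2, g3⟩

end Cfsg.Agent.S1583
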