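import Cfsg.Statements.S1584
import Cfsg.Agent.H7_Co2

set_option autoImplicit false
open Cfsg

open Cfsg.Agent.H7.Co Cfsg.Agent.H7.Co2 Cfsg.Agent.H7.LV Cfsg.Agent.H7.L1

namespace Cfsg.Agent.S1584

/-- The Higman–Sims group acts with rank 3 and subdegrees 1, 22, 77 on its 100 points, the orbits of a point stabiliser being distinguished by customary inner product 1 with the fixed point. -/
theorem result (v w x : ↥Cfsg.leechLattice) (hv : Cfsg.sqNorm (v : Cfsg.GolayPt → ℤ) = 48) (hw : Cfsg.sqNorm (w : Cfsg.GolayPt → ℤ) = 48) (hvw : Cfsg.dotInt (v : Cfsg.GolayPt → ℤ) (w : Cfsg.GolayPt → ℤ) = -32) (hx : x ∈ {x : ↥Cfsg.leechLattice | Cfsg.sqNorm (x : Cfsg.GolayPt → ℤ) = 32 ∧ Cfsg.dotInt (v : Cfsg.GolayPt → ℤ) (x : Cfsg.GolayPt → ℤ) = 24 ∧ Cfsg.dotInt (w : Cfsg.GolayPt → ℤ) (x : Cfsg.GolayPt → ℤ) = -24}) : {y : ↥Cfsg.leechLattice | y ∈ {x : ↥Cfsg.leechLattice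 | Cfsg.sqNorm (x : Cfsg.GolayPt → ℤ) = 32 ∧ Cfsg.dotInt (v : Cfsg.GolayPt → ℤ) (x : Cfsg.GolayPt → ℤ) = 24 ∧ Cfsg.dotInt (w : Cfsg.GolayPt → ℤ) (x : Cfsg.GolayPt → ℤ) = -24} ∧ Cfsg.dotInt (x : Cfsg.GolayPt → ℤ) (y : Cfsg.GolayPt → ℤ) = 8}.ncard = 22 ∧ {y : ↥Cfsg.leechLattice | y ∈ {x : ↥Cfsg.leechLattice | Cfsg.sqNorm (x : Cfsg.GolayPt → ℤ) = 32 ∧ Cfsg.dotInt (v : Cfsg.GolayPt → ℤ) (x : Cfsg.GolayPt → ℤ) = 24 ∧ Cfsg.dotInt (w : Cfsg.GolayPt → ℤ) (x : Cfsg.GolayPt → ℤ) = -24} ∧ y ≠ x ∧ Cfsg.dotInt (x : Cfsg.GolayPt → ℤ) (y : Cfsg.GolayPt → ℤ) ≠ 8}.ncard = 77 ∧ ∀ y ∈ {x : ↥Cfsg.leechLattice | Cfsg.sqNorm (x : Cfsg.GolayPt → ℤ) = 32 ∧ Cfsg.dotInt (v : Cfsg.GolayPt → ℤ) (x : Cfsg.GolayPt → ℤ) = 24 ∧ Cfsg.dotInt (w : Cfsg.GolayPt → ℤ) (x : Cfsg.GolayPt → ℤ) = -24}, ∀ y' ∈ {x : ↥Cfsg.leechLattice | Cfsg.sqNorm (x : Cfsg.GolayPt → ℤ) = 32 ∧ Cfsg.dotInt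 (v : Cfsg.GolayPt → ℤ) (x : Cfsg.GolayPt → ℤ) = 24 ∧ Cfsg.dotInt (w : Cfsg.GolayPt → ℤ) (x : Cfsg.GolayPt → ℤ) = -24}, y ≠ x → y' ≠ x → (Cfsg.dotInt (x : Cfsg.GolayPt → ℤ) (y : Cfsg.GolayPt → ℤ) = 8 ↔ Cfsg.dotInt (x : Cfsg.GolayPt → ℤ) (y' : Cfsg.GolayPt → ℤ) = 8) → ∃ g : ↥Cfsg.Co0, g • v = v ∧ g • w = w ∧ g • x = x ∧ g • y = y' := by
  have hs : Nm (v + w) = 32 := by
    have h1 := nm_add v w
    have e1 : Nm v = 48 := hv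
    have e2 : Nm w = 48 := hw
    have e3 : Dt v w = -32 := hvw
    omega
  have hsv : Dt (v + w) v = 16 := by
    have h1 := dt_add v w v
    have e1 : Nm v = 48 := hv
    have e3 : Dt v w = -32 := hvw
    rw [dt_self, dt_comm w v] at h1
    omega
  have hsw : Dt (v + w) w = 16 := by
    have h1 := dt_add v w w
    have e1 : Nm w = 48 := hw
    have e3 : Dt v w = -32 := hvw
    rw [dt_self] at h1
    omega
  have key : ∀ x : leechLattice, (dotInt (v : GolayPt → ℤ) (x : GolayPt → ℤ) = 24 ∧ dotInt (w : GolayPt → ℤ) (x : GolayPt → ℤ) = -24) ↔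
      (Dt x v = 24 ∧ Dt x (v + w) = 0) := by
    intro x
    have e1 := dt_add' v w x
    have e2 : dotInt (v : GolayPt → ℤ) (x : GolayPt → ℤ) = Dt x v := dotInt_comm _ _
    have e3 : dotInt (w : GolayPt → ℤ) (x : GolayPt → ℤ) = Dt x w := dotInt_comm _ _
    rw [e2, e3]
    omega
  have back : ∀ g : Co0, g • v = v → g • (v + w) = v + w → g • w = w := by
    intro g h1 h2
    rw [smul_add'', h1] at h2
    exact add_left_cancel h2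
  obtain ⟨x1, x2⟩ := hx
  have x3 := (key x).1 x2
  have hc := hs_count3 v (v + w) x hv hs hsv x1 x3.1 x3.2
  have dots : ∀ y : leechLattice, sqNorm (y : GolayPt → ℤ) = 32 → Dt y v = 24 → Dt y (v + w) = 0 → y ≠ x →
      Dt y x = 8 ∨ Dt y x = 16 := fun y h1 h2 h3 h4 =>
    hs_dots v (v + w) x y hv hs hsv x1 x3.1 x3.2 h1 h2 h3 h4
  refine ⟨?_, ?_, ?_⟩
  · refine Eq.trans ?_ hc.1
    congr 1
    ext y
    simp only [Set.mem_ofPred_eq]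
    rw [key y, and_assoc, and_assoc]
    have e : dotInt (x : GolayPt → ℤ) (y : GolayPt → ℤ) = Dt y x := dotInt_comm _ _
    rw [e]
  · refine Eq.trans ?_ hc.2
    congr 1
    ext y
    simp only [Set.mem_ofPred_eq]
    rw [key y]
    have e : dotInt (x : GolayPt → ℤ) (y : GolayPt → ℤ) = Dt y x := dotInt_comm _ _
    rw [e]
    constructor
    · rintro ⟨⟨h1, h2, h3⟩, h4, h5⟩
      exact ⟨h1, h2, h3, (dots y h1 h2 h3 h4).resolve_left h5⟩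
    · rintro ⟨h1, h2, h3, h4⟩
      refine ⟨⟨h1, h2, h3⟩, ?_, by omega⟩
      rintro rfl
      rw [dt_self] at h4
      have : Nm y = 32 := h1
      omega
  · rintro y ⟨y1, y2⟩ z ⟨z1, z2⟩ hyx hzx hd
    have y3 := (key y).1 y2
    have z3 := (key z).1 z2
    have ey : dotInt (x : GolayPt → ℤ) (y : GolayPt → ℤ) = Dt y x := dotInt_comm _ _
    have ez : dotInt (x : GolayPt → ℤ) (z : GolayPt → ℤ) = Dt z x := dotInt_comm _ _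
    rw [ey, ez] at hd
    have dy := dots y y1 y3.1 y3.2 hyx
    have dz := dots z z1 z3.1 z3.2 hzx
    obtain ⟨g, g1, g2, g3, g4⟩ := hs_trans3 v (v + w) x y z (Dt y x) dy hv hs hsv x1 x3.1 x3.2 y1 y3.1 y3.2 rfl z1 z3.1 z3.2
      (by omega)
    exact ⟨g, g1, back g g1 g2, g3, g4⟩

end Cfsg.Agent.S1584
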