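import Cfsg.Statements.S1585
import Cfsg.Agent.H7_Co2

set_option autoImplicit false
open Cfsg

open Cfsg.Agent.H7.Co Cfsg.Agent.H7.Co2 Cfsg.Agent.H7.LV Cfsg.Agent.H7.L1

namespace Cfsg.Agent.S1585

/-- Two vectors of customary norm 6 with inner product −4 are exchanged by some automorphism of the lattice. -/
theorem result (v w : ↥Cfsg.leechLattice) (hv : Cfsg.sqNorm (v : Cfsg.GolayPt → ℤ) = 48) (hw : Cfsg.sqNorm (w : Cfsg.GolayPt → ℤ) = 48) (hvw : Cfsg.dotInt (v : Cfsg.GolayPt → ℤ) (w : Cfsg.GolayPt → ℤ) = -32) : ∃ g : ↥Cfsg.Co0, g • v = w ∧ g • w = v := by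
  have hs : Nm (v + w) = 32 := by
    have h1 := nm_add v w
    have e1 : Nm v = 48 := hv
    have e2 : Nm w = 48 := hw
    have e3 : Dt v w = -32 := hvw
    omega
  have hsv : Dt (v + w) v = 16 := by
    have h1 := dt_add v w v
    have e1 : Nm v = 48 := hv
    have e3 : Dt v w = -32 := hvw
    rw [dt_self, dt_comm w v] at h1
    omega
  have hsw : Dt (v + w) w = 16 := by
    have h1 := dt_add v w w
    have e1 : Nm w = 48 := hw
    have e3 : Dt v w = -32 := hvw
    rw [dt_self] at h1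
    omega
  obtain ⟨g, g1, g2⟩ := pair48_16 v (v + w) w (v + w) hv hw hs hs hsv hsw
  refine ⟨g, g1, ?_⟩
  rw [smul_add'', g1, add_comm v w] at g2
  exact add_left_cancel g2

end Cfsg.Agent.S1585
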