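import Cfsg.Statements.S1587

set_option autoImplicit false
open Matrix
open Cfsg

namespace Cfsg.Agent.S1587

/-- First step of the characterisation of the rank-24 lattice: in an even lattice without roots, norm-8 vectors congruent modulo 2 are equal, opposite or orthogonal. -/
theorem result (B : Matrix (Fin 24) (Fin 24) ℤ) (hsymm : B.IsSymm) (hpos : ∀ x : Fin 24 → ℤ, x ≠ 0 → 0 < x ⬝ᵥ (B *ᵥ x)) (heven : ∀ x : Fin 24 → ℤ, (2 : ℤ) ∣ x ⬝ᵥ (B *ᵥ x)) (h2 : ∀ x : Fin 24 → ℤ, x ⬝ᵥ (B *ᵥ x) ≠ 2) (x y : Fin 24 → ℤ) (hx : x ⬝ᵥ (B *ᵥ x) = 8) (hy : y ⬝ᵥ (B *ᵥ y) = 8) (hc : ∀ i, (2 : ℤ) ∣ (x - y) i) : y = x ∨ y = -x ∨ x ⬝ᵥ (B *ᵥ y) = 0 := by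
  have bl : ∀ u v : Fin 24 → ℤ, u ⬝ᵥ (B *ᵥ v) = v ⬝ᵥ (B *ᵥ u) := by
    intro u v
    rw [Matrix.dotProduct_mulVec, dotProduct_comm, ← Matrix.mulVec_transpose, hsymm.eq]
  -- half sum and half difference
  obtain ⟨z, hz⟩ : ∃ z : Fin 24 → ℤ, x - y = (2 : ℤ) • z := by
    choose z hz using hc
    exact ⟨z, by ext i; rw [hz i]; simp⟩
  have hy2 : y = x - (2 : ℤ) • z := by rw [← hz]; abel
  obtain ⟨w, hw⟩ : ∃ w, w = x - z := ⟨_, rfl⟩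
  have hxw : x = z + w := by rw [hw]; abel
  have hyw : y = w - z := by rw [hy2, hw, two_smul]; abel
  subst hxw
  rw [hyw] at hy ⊢
  have e1 : (z + w) ⬝ᵥ (B *ᵥ (z + w)) = z ⬝ᵥ (B *ᵥ z) + 2 * (z ⬝ᵥ (B *ᵥ w)) + w ⬝ᵥ (B *ᵥ w) := by
    rw [Matrix.mulVec_add, dotProduct_add, add_dotProduct, add_dotProduct, bl w z]; ring
  have e2 : (w - z) ⬝ᵥ (B *ᵥ (w - z)) = z ⬝ᵥ (B *ᵥ z) - 2 * (z ⬝ᵥ (B *ᵥ w)) + w ⬝ᵥ (B *ᵥ w) := by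
    rw [Matrix.mulVec_sub, dotProduct_sub, sub_dotProduct, sub_dotProduct, bl w z]; ring
  have e3 : (z + w) ⬝ᵥ (B *ᵥ (w - z)) = w ⬝ᵥ (B *ᵥ w) - z ⬝ᵥ (B *ᵥ z) := by
    rw [Matrix.mulVec_sub, dotProduct_sub, add_dotProduct, add_dotProduct, bl w z]; ring
  rw [e1] at hx
  rw [e2] at hy
  rw [e3]
  have hsum : z ⬝ᵥ (B *ᵥ z) + w ⬝ᵥ (B *ᵥ w) = 8 := by linarith
  by_cases hz0 : z = 0
  · left; rw [hz0]; simp
  by_cases hw0 : w = 0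
  · right; left; rw [hw0]; simp
  right; right
  have p1 := hpos z hz0
  have p2 := hpos w hw0
  have q1 := heven z
  have q2 := heven w
  have r1 := h2 z
  have r2 := h2 w
  omega

end Cfsg.Agent.S1587
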