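import Cfsg.Statements.S1588

set_option autoImplicit false
open Matrix
open Cfsg

namespace Cfsg.Agent.S1588


open Matrix

section
variable (B : Matrix (Fin 24) (Fin 24) ℤ)

theorem bl (hsymm : B.IsSymm) (u v : Fin 24 → ℤ) : u ⬝ᵥ (B *ᵥ v) = v ⬝ᵥ (B *ᵥ u) := by
  rw [Matrix.dotProduct_mulVec, dotProduct_comm, ← Matrix.mulVec_transpose, hsymm.eq]

variable (hsymm : B.IsSymm) (hpos : ∀ x : Fin 24 → ℤ, x ≠ 0 → 0 < x ⬝ᵥ (B *ᵥ x))
  (heven : ∀ x : Fin 24 → ℤ, (2 : ℤ) ∣ x ⬝ᵥ (B *ᵥ x)) (h2 : ∀ x : Fin 24 → ℤ, x ⬝ᵥ (B *ᵥ x) ≠ 2)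

include hsymm hpos heven h2

theorem par {x y : Fin 24 → ℤ} (hc : ∀ i, (2 : ℤ) ∣ (x - y) i) (h1 : x ≠ y) (h1' : x ≠ -y) :
    16 ≤ x ⬝ᵥ (B *ᵥ x) + y ⬝ᵥ (B *ᵥ y) ∧ (x ⬝ᵥ (B *ᵥ x) + y ⬝ᵥ (B *ᵥ y) = 16 → x ⬝ᵥ (B *ᵥ y) = 0) := by
  obtain ⟨z, hz⟩ : ∃ z : Fin 24 → ℤ, x - y = (2 : ℤ) • z := by
    choose z hz using hc
    exact ⟨z, by ext i; rw [hz i]; simp⟩
  have hy2 : y = x - (2 : ℤ) • z := by rw [← hz]; abel
  obtain ⟨w, hw⟩ : ∃ w, w = x - z := ⟨_, rfl⟩
  have hxw : x = z + w := by rw [hw]; abel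
  have hyw : y = w - z := by rw [hy2, hw, two_smul]; abel
  subst hxw
  subst hyw
  have e1 : (z + w) ⬝ᵥ (B *ᵥ (z + w)) = z ⬝ᵥ (B *ᵥ z) + 2 * (z ⬝ᵥ (B *ᵥ w)) + w ⬝ᵥ (B *ᵥ w) := by
    rw [Matrix.mulVec_add, dotProduct_add, add_dotProduct, add_dotProduct, bl B hsymm w z]; ring
  have e2 : (w - z) ⬝ᵥ (B *ᵥ (w - z)) = z ⬝ᵥ (B *ᵥ z) - 2 * (z ⬝ᵥ (B *ᵥ w)) + w ⬝ᵥ (B *ᵥ w) := by
    rw [Matrix.mulVec_sub, dotProduct_sub, sub_dotProduct, sub_dotProduct, bl B hsymm w z]; ring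
  have e3 : (z + w) ⬝ᵥ (B *ᵥ (w - z)) = w ⬝ᵥ (B *ᵥ w) - z ⬝ᵥ (B *ᵥ z) := by
    rw [Matrix.mulVec_sub, dotProduct_sub, add_dotProduct, add_dotProduct, bl B hsymm w z]; ring
  rw [e1, e2, e3]
  have hz0 : z ≠ 0 := by rintro rfl; apply h1; simp
  have hw0 : w ≠ 0 := by rintro rfl; apply h1'; simp
  have p1 := hpos z hz0
  have p2 := hpos w hw0
  have q1 := heven z
  have q2 := heven w
  have r1 := h2 z
  have r2 := h2 w
  omega

/-- a set of pairwise orthogonal vectors has at most 24 members -/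
theorem orth_card (R : Finset (Fin 24 → ℤ)) (h0 : ∀ u ∈ R, u ≠ 0) (h : ∀ u ∈ R, ∀ v ∈ R, u ≠ v → u ⬝ᵥ (B *ᵥ v) = 0) : R.card ≤ 24 := by
  have hli : LinearIndependent ℤ (fun u : R => (u : Fin 24 → ℤ)) := by
    rw [Fintype.linearIndependent_iff]
    intro g hg u
    have e1 : (u : Fin 24 → ℤ) ⬝ᵥ (B *ᵥ (∑ i : R, g i • (i : Fin 24 → ℤ))) = g u * ((u : Fin 24 → ℤ) ⬝ᵥ (B *ᵥ (u : Fin 24 → ℤ))) := by
      rw [Matrix.mulVec_sum, dotProduct_sum, Finset.sum_eq_single u]
      · rw [Matrix.mulVec_smul, dotProduct_smul, smul_eq_mul]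
      · intro v _ hv
        rw [Matrix.mulVec_smul, dotProduct_smul, h u u.2 v v.2 (fun e => hv (Subtype.ext e.symm)), smul_zero]
      · intro h; exact absurd (Finset.mem_univ _) h
    rw [hg, Matrix.mulVec_zero, dotProduct_zero] at e1
    have := hpos u (h0 u u.2)
    rcases mul_eq_zero.1 e1.symm with h3 | h3
    · exact h3
    · omega
  have := hli.fintype_card_le_finrank
  simpa using this

theorem frame_card (T : Finset (Fin 24 → ℤ)) (h8 : ∀ u ∈ T, u ⬝ᵥ (B *ᵥ u) = 8) (hT : ∀ u ∈ T, ∀ v ∈ T, ∀ i, (2 : ℤ) ∣ (u - v) i) : T.card ≤ 48 := by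
  classical
  -- a maximal orthogonal subset
  obtain ⟨R, hR, hmax⟩ := Finset.exists_max_image (T.powerset.filter fun R => ∀ u ∈ R, ∀ v ∈ R, u ≠ v → u ⬝ᵥ (B *ᵥ v) = 0) Finset.card
    ⟨∅, by simp⟩
  simp only [Finset.mem_filter, Finset.mem_powerset] at hR hmax
  obtain ⟨hRT, hRo⟩ := hR
  have h0 : ∀ u ∈ T, u ≠ 0 := by
    rintro u hu rfl
    have := h8 0 hu
    simp at this
  have h1 := orth_card B hsymm hpos heven h2 R (fun u hu => h0 u (hRT hu)) hRo
  have h3 : T ⊆ R ∪ R.image (fun u => -u) := by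
    intro u hu
    by_contra hcon
    rw [Finset.mem_union, Finset.mem_image] at hcon
    push Not at hcon
    have hort : ∀ v ∈ R, u ⬝ᵥ (B *ᵥ v) = 0 := by
      intro v hv
      apply (par B hsymm hpos heven h2 (hT u hu v (hRT hv)) (by rintro rfl; exact hcon.1 hv) (fun e => hcon.2 v hv e.symm)).2
      rw [h8 u hu, h8 v (hRT hv)]; norm_num
    have h4 := hmax (insert u R) ⟨by
      intro v hv
      rw [Finset.mem_insert] at hv
      rcases hv with rfl | hv
      · exact hu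
      · exact hRT hv, by
      intro a ha b hb hab
      rw [Finset.mem_insert] at ha hb
      rcases ha with rfl | ha <;> rcases hb with rfl | hb
      · exact absurd rfl hab
      · exact hort b hb
      · rw [bl B hsymm]; exact hort a ha
      · exact hRo a ha b hb hab⟩
    rw [Finset.card_insert_of_notMem hcon.1] at h4
    omega
  calc T.card ≤ (R ∪ R.image (fun u => -u)).card := Finset.card_le_card h3
    _ ≤ R.card + (R.image (fun u => -u)).card := Finset.card_union_le R (R.image (fun u => -u))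
    _ ≤ R.card + R.card := Nat.add_le_add_left Finset.card_image_le _
    _ ≤ 48 := by omega

end


/-- Second step of the characterisation: under the vector counts of the rank-24 lattice, the norm-8 vectors fall into congruence classes of exactly 48 modulo twice the lattice. -/
theorem result (B : Matrix (Fin 24) (Fin 24) ℤ) (hsymm : B.IsSymm) (hpos : ∀ x : Fin 24 → ℤ, x ≠ 0 → 0 < x ⬝ᵥ (B *ᵥ x)) (heven : ∀ x : Fin 24 → ℤ, (2 : ℤ) ∣ x ⬝ᵥ (B *ᵥ x)) (h2 : ∀ x : Fin 24 → ℤ, x ⬝ᵥ (B *ᵥ x) ≠ 2) (h4 : {x : Fin 24 → ℤ | x ⬝ᵥ (B *ᵥ x) = 4}.ncard = 196560) (h6 : {x : Fin 24 → ℤ | x ⬝ᵥ (B *ᵥ x) = 6}.ncard = 16773120) (h8 : {x : Fin 24 → ℤ | x ⬝ᵥ (B *ᵥ x) = 8}.ncard = 398034000) (x : Fin 24 → ℤ) (hx : x ⬝ᵥ (B *ᵥ x) = 8) : {y : Fin 24 → ℤ | y ⬝ᵥ (B *ᵥ y) = 8 ∧ ∀ i, (2 : ℤ) ∣ (x - y) i}.ncard = 48 := by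
  classical
  set N : (Fin 24 → ℤ) → ℤ := fun x => x ⬝ᵥ (B *ᵥ x) with hN
  set ρ : (Fin 24 → ℤ) → (Fin 24 → ZMod 2) := fun x i => (x i : ZMod 2) with hρ
  have hρeq : ∀ u v, ρ u = ρ v ↔ ∀ i, (2 : ℤ) ∣ (u - v) i := by
    intro u v
    rw [funext_iff]
    refine forall_congr' fun i => ?_
    simp only [hρ, Pi.sub_apply]
    rw [← sub_eq_zero, ← Int.cast_sub, ZMod.intCast_zmod_eq_zero_iff_dvd]
    rfl
  have par' : ∀ u v, ρ u = ρ v → u ≠ v → u ≠ -v → 16 ≤ N u + N v := by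
    intro u v h h1 h1'
    exact (par B hsymm hpos heven h2 ((hρeq u v).1 h) h1 h1').1
  have fin4 : {x | N x = 4}.Finite := Set.finite_of_ncard_ne_zero (by rw [h4]; norm_num)
  have fin6 : {x | N x = 6}.Finite := Set.finite_of_ncard_ne_zero (by rw [h6]; norm_num)
  have fin8 : {x | N x = 8}.Finite := Set.finite_of_ncard_ne_zero (by rw [h8]; norm_num)
  set A4 := fin4.toFinset with hA4
  set A6 := fin6.toFinset with hA6
  set A8 := fin8.toFinset with hA8
  have m4 : ∀ u, u ∈ A4 ↔ N u = 4 := fun u => by rw [hA4, Set.Finite.mem_toFinset]; rfl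
  have m6 : ∀ u, u ∈ A6 ↔ N u = 6 := fun u => by rw [hA6, Set.Finite.mem_toFinset]; rfl
  have m8 : ∀ u, u ∈ A8 ↔ N u = 8 := fun u => by rw [hA8, Set.Finite.mem_toFinset]; rfl
  have c4 : A4.card = 196560 := by rw [← h4, hA4, ← Set.ncard_eq_toFinset_card _ fin4]
  have c6 : A6.card = 16773120 := by rw [← h6, hA6, ← Set.ncard_eq_toFinset_card _ fin6]
  have c8 : A8.card = 398034000 := by rw [← h8, hA8, ← Set.ncard_eq_toFinset_card _ fin8]
  set Z : (Fin 24 → ZMod 2) → ℕ := fun q => if q = 0 then 1 else 0 with hZ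
  set a4 : (Fin 24 → ZMod 2) → ℕ := fun q => (A4.filter fun u => ρ u = q).card with ha4
  set a6 : (Fin 24 → ZMod 2) → ℕ := fun q => (A6.filter fun u => ρ u = q).card with ha6
  set a8 : (Fin 24 → ZMod 2) → ℕ := fun q => (A8.filter fun u => ρ u = q).card with ha8
  have s4 : ∑ q, a4 q = 196560 := by
    rw [← c4, Finset.card_eq_sum_card_fiberwise (f := ρ) (t := Finset.univ) (fun _ _ => Finset.mem_coe.2 (Finset.mem_univ _))]
  have s6 : ∑ q, a6 q = 16773120 := by
    rw [← c6, Finset.card_eq_sum_card_fiberwise (f := ρ) (t := Finset.univ) (fun _ _ => Finset.mem_coe.2 (Finset.mem_univ _))]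
  have s8 : ∑ q, a8 q = 398034000 := by
    rw [← c8, Finset.card_eq_sum_card_fiberwise (f := ρ) (t := Finset.univ) (fun _ _ => Finset.mem_coe.2 (Finset.mem_univ _))]
  have sZ : ∑ q, Z q = 1 := by simp [hZ]
  have zero_of : ∀ (A : Finset (Fin 24 → ℤ)) (q : Fin 24 → ZMod 2), (∀ u ∈ A, ρ u ≠ q) → (A.filter fun u => ρ u = q).card = 0 := by
    intro A q h
    rw [Finset.card_eq_zero, Finset.filter_eq_empty_iff]
    exact h
  have two_of : ∀ (A : Finset (Fin 24 → ℤ)) (u : Fin 24 → ℤ), (∀ v ∈ A, ρ v = ρ u → v = u ∨ v = -u) → (A.filter fun v => ρ v = ρ u).card ≤ 2 := by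
    intro A u h
    have hsub : (A.filter fun v => ρ v = ρ u) ⊆ {u, -u} := by
      intro v hv
      rw [Finset.mem_filter] at hv
      rw [Finset.mem_insert, Finset.mem_singleton]
      exact h v hv.1 hv.2
    exact (Finset.card_le_card hsub).trans Finset.card_le_two
  have neg_norm : ∀ u, N (-u) = N u := by
    intro u
    simp only [hN, Matrix.mulVec_neg, dotProduct_neg, neg_dotProduct, neg_neg]
  have key : ∀ q, 48 * Z q + 24 * a4 q + 24 * a6 q + a8 q ≤ 48 := by
    intro q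
    by_cases hq : q = 0
    · have hno : ∀ u : Fin 24 → ℤ, N u ≠ 0 → N u ≤ 8 → ρ u ≠ q := by
        intro u hu hu8 h
        have h0 : ρ u = ρ 0 := by rw [h, hq]; ext i; simp [hρ]
        have hu0 : u ≠ 0 := by rintro rfl; apply hu; simp [hN]
        have := par' u 0 h0 hu0 (by simpa using hu0)
        have e0 : N 0 = 0 := by simp [hN]
        omega
      have z1 : a4 q = 0 := zero_of A4 q (fun u hu => hno u (by rw [(m4 u).1 hu]; norm_num) (by rw [(m4 u).1 hu]; norm_num))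
      have z2 : a6 q = 0 := zero_of A6 q (fun u hu => hno u (by rw [(m6 u).1 hu]; norm_num) (by rw [(m6 u).1 hu]; norm_num))
      have z3 : a8 q = 0 := zero_of A8 q (fun u hu => hno u (by rw [(m8 u).1 hu]; norm_num) (by rw [(m8 u).1 hu]))
      rw [z1, z2, z3]
      simp [hZ, hq]
    · have z0 : Z q = 0 := by simp [hZ, hq]
      by_cases e4 : ∃ u ∈ A4, ρ u = q
      · obtain ⟨u, hu, rfl⟩ := e4
        have nu := (m4 u).1 hu
        have t1 : a4 (ρ u) ≤ 2 := two_of A4 u (fun v hv hvu => by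
          by_contra hcon
          push Not at hcon
          have := par' v u hvu hcon.1 hcon.2
          have := (m4 v).1 hv
          omega)
        have t2 : a6 (ρ u) = 0 := zero_of A6 _ (fun v hv hvu => by
          have nv := (m6 v).1 hv
          have := par' v u hvu (by rintro rfl; omega) (by rintro rfl; rw [neg_norm] at nv; omega)
          omega)
        have t3 : a8 (ρ u) = 0 := zero_of A8 _ (fun v hv hvu => by
          have nv := (m8 v).1 hv
          have := par' v u hvu (by rintro rfl; omega) (by rintro rfl; rw [neg_norm] at nv; omega)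
          omega)
        omega
      · have z1 : a4 q = 0 := zero_of A4 q (fun u hu h => e4 ⟨u, hu, h⟩)
        by_cases e6 : ∃ u ∈ A6, ρ u = q
        · obtain ⟨u, hu, rfl⟩ := e6
          have nu := (m6 u).1 hu
          have t1 : a6 (ρ u) ≤ 2 := two_of A6 u (fun v hv hvu => by
            by_contra hcon
            push Not at hcon
            have := par' v u hvu hcon.1 hcon.2
            have := (m6 v).1 hv
            omega)
          have t3 : a8 (ρ u) = 0 := zero_of A8 _ (fun v hv hvu => by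
            have nv := (m8 v).1 hv
            have := par' v u hvu (by rintro rfl; omega) (by rintro rfl; rw [neg_norm] at nv; omega)
            omega)
          omega
        · have z2 : a6 q = 0 := zero_of A6 q (fun u hu h => e6 ⟨u, hu, h⟩)
          have t3 : a8 q ≤ 48 := by
            apply frame_card B hsymm hpos heven h2
            · intro u hu
              rw [Finset.mem_filter] at hu
              exact (m8 u).1 hu.1
            · intro u hu v hv
              rw [Finset.mem_filter] at hu hv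
              exact (hρeq u v).1 (hu.2.trans hv.2.symm)
          omega
  have hsum : ∑ q : Fin 24 → ZMod 2, (48 * Z q + 24 * a4 q + 24 * a6 q + a8 q) = ∑ q : Fin 24 → ZMod 2, 48 := by
    rw [Finset.sum_add_distrib, Finset.sum_add_distrib, Finset.sum_add_distrib, ← Finset.mul_sum, ← Finset.mul_sum, ← Finset.mul_sum,
      s4, s6, s8, sZ, Finset.sum_const, Finset.card_univ, Fintype.card_fun, ZMod.card, Fintype.card_fin, smul_eq_mul]
    norm_num
  have heq := (Finset.sum_eq_sum_iff_of_le (fun q _ => key q)).1 hsum (ρ x) (Finset.mem_univ _)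
  have nx : N x = 8 := hx
  have w0 : Z (ρ x) = 0 := by
    simp only [hZ]
    rw [if_neg]
    intro h
    have h0 : ρ x = ρ 0 := by rw [h]; ext i; simp [hρ]
    have hx0 : x ≠ 0 := by rintro rfl; simp [hN] at nx
    have := par' x 0 h0 hx0 (by simpa using hx0)
    have e0 : N 0 = 0 := by simp [hN]
    omega
  have w4 : a4 (ρ x) = 0 := zero_of A4 _ (fun v hv hvu => by
    have nv := (m4 v).1 hv
    have := par' v x hvu (by rintro rfl; omega) (by rintro rfl; rw [neg_norm] at nv; omega)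
    omega)
  have w6 : a6 (ρ x) = 0 := zero_of A6 _ (fun v hv hvu => by
    have nv := (m6 v).1 hv
    have := par' v x hvu (by rintro rfl; omega) (by rintro rfl; rw [neg_norm] at nv; omega)
    omega)
  have h48 : a8 (ρ x) = 48 := by omega
  have h48' : (A8.filter fun u => ρ u = ρ x).card = 48 := h48
  clear hsum key s4 s6 s8 sZ
  rw [← h48', ← Set.ncard_coe_finset]
  congr 1
  ext y
  rw [Finset.mem_coe, Finset.mem_filter, m8, Set.mem_setOf_eq, eq_comm (a := ρ y), hρeq x y]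

end Cfsg.Agent.S1588
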