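import Cfsg.Statements.S1604
import Cfsg.Agent.H7_PairUse

set_option autoImplicit false
open scoped Pointwise
open Cfsg

open Cfsg.Agent.H7.Golay
open Cfsg.Agent.H7.Oct
open Cfsg.Agent.H7.M24
open Cfsg.Agent.H7.M24b
open Cfsg.Agent.H7.M24c
open Cfsg.Agent.H7.M24d
open Cfsg.Agent.H7.Pairs
open Cfsg.Agent.H7.PairFacts
open Cfsg.Agent.H7.PairUse

namespace Cfsg.Agent.S1604

/-- A hexad stabiliser in the two-point stabiliser has orbits of sizes 1, 16, 60 on the 77 hexads: the 16 hexads disjoint from it and the 60 meeting it in two points. -/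
theorem result (p q : Cfsg.GolayPt) (hpq : p ≠ q) (o o' o'' : Finset Cfsg.GolayPt) (ho : o ∈ Cfsg.octads) (ho' : o' ∈ Cfsg.octads) (ho'' : o'' ∈ Cfsg.octads) (hp : p ∈ o ∧ p ∈ o' ∧ p ∈ o'') (hq : q ∈ o ∧ q ∈ o' ∧ q ∈ o'') (h : (o ∩ o').card = (o ∩ o'').card) : {x : Finset Cfsg.GolayPt | x ∈ Cfsg.octads ∧ p ∈ x ∧ q ∈ x ∧ (o ∩ x).card = 2}.ncard = 16 ∧ {x : Finset Cfsg.GolayPt | x ∈ Cfsg.octads ∧ p ∈ x ∧ q ∈ x ∧ (o ∩ x).card = 4}.ncard = 60 ∧ ∃ g : Equiv.Perm Cfsg.GolayPt, g ∈ Cfsg.M24 ∧ g p = p ∧ g q = q ∧ g • o = o ∧ g • o' = o'' := by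
  have hX : ∃ h ∈ M24, h • ((p, q, o) : GolayPt × GolayPt × Finset GolayPt) = (pt 0, pt 1, O0) := by
    obtain ⟨g, hg, h1, h2⟩ := std_in ho 2 (by norm_num) ![p, q] (by
      intro i j hij
      fin_cases i <;> fin_cases j <;> simp_all) (by intro i; fin_cases i; exacts [hp.1, hq.1])
    exact ⟨g, hg, Prod.ext (h2 0) (Prod.ext (h2 1) h1)⟩
  refine ⟨?_, ?_, ?_⟩
  · have := count_ppo2 hX
    rw [← this]
    congr 1
    ext s
    simp only [Set.mem_ofPred_eq, octadsSet]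
  · have := count_ppo4 hX
    rw [← this]
    congr 1
    ext s
    simp only [Set.mem_ofPred_eq, octadsSet]
  · have key : ∀ g : Equiv.Perm GolayPt, g • ((p, q, o) : GolayPt × GolayPt × Finset GolayPt) = (p, q, o) →
        g p = p ∧ g q = q ∧ g • o = o := fun g h =>
      ⟨congrArg Prod.fst h, congrArg (fun x => x.2.1) h, congrArg (fun x => x.2.2) h⟩
    rcases octad_inter ho ho' with h0 | h0 | h0 | h0
    · exfalso
      rw [Finset.card_eq_zero] at h0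
      have : p ∈ o ∩ o' := Finset.mem_inter.2 ⟨hp.1, hp.2.1⟩
      rw [h0] at this
      exact absurd this (Finset.notMem_empty _)
    · obtain ⟨g, hg, h1, h2⟩ := trans_ppo2 hX (octadsSet.2 ho') (octadsSet.2 ho'') ⟨hp.2.1, hq.2.1, h0⟩
        ⟨hp.2.2, hq.2.2, h ▸ h0⟩
      exact ⟨g, hg, (key g h1).1, (key g h1).2.1, (key g h1).2.2, h2⟩
    · obtain ⟨g, hg, h1, h2⟩ := trans_ppo4 hX (octadsSet.2 ho') (octadsSet.2 ho'') ⟨hp.2.1, hq.2.1, h0⟩
        ⟨hp.2.2, hq.2.2, h ▸ h0⟩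
      exact ⟨g, hg, (key g h1).1, (key g h1).2.1, (key g h1).2.2, h2⟩
    · have e1 := octad_inter_eight ho ho' h0
      have e2 := octad_inter_eight ho ho'' (h ▸ h0)
      exact ⟨1, one_mem _, rfl, rfl, one_smul _ _, by rw [one_smul, ← e1, ← e2]⟩

end Cfsg.Agent.S1604
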