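import Cfsg.Statements.S1605
import Cfsg.Agent.H7_PairUse

set_option autoImplicit false
open scoped Pointwise
open Cfsg

open Cfsg.Agent.H7.Golay
open Cfsg.Agent.H7.Oct
open Cfsg.Agent.H7.M24
open Cfsg.Agent.H7.M24b
open Cfsg.Agent.H7.M24c
open Cfsg.Agent.H7.M24d
open Cfsg.Agent.H7.Pairs
open Cfsg.Agent.H7.PairFacts
open Cfsg.Agent.H7.PairUse

namespace Cfsg.Agent.S1605

/-- The two-point stabiliser acts on the 176 octads through the first point avoiding the second with rank 3 and subdegrees 1, 70, 105 (intersections 8, 2, 4). -/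
theorem result (p q : Cfsg.GolayPt) (hpq : p ≠ q) : {x : Finset Cfsg.GolayPt | (x ∈ Cfsg.octads ∧ p ∈ x ∧ q ∉ x)}.ncard = 176 ∧ (∀ o o' : Finset Cfsg.GolayPt, (o ∈ Cfsg.octads ∧ p ∈ o ∧ q ∉ o) → (o' ∈ Cfsg.octads ∧ p ∈ o' ∧ q ∉ o') → ∃ g : Equiv.Perm Cfsg.GolayPt, g ∈ Cfsg.M24 ∧ g p = p ∧ g q = q ∧ g • o = o') ∧ ∀ o : Finset Cfsg.GolayPt, (o ∈ Cfsg.octads ∧ p ∈ o ∧ q ∉ o) → {x : Finset Cfsg.GolayPt | (x ∈ Cfsg.octads ∧ p ∈ x ∧ q ∉ x) ∧ (o ∩ x).card = 2}.ncard = 70 ∧ {x : Finset Cfsg.GolayPt | (x ∈ Cfsg.octads ∧ p ∈ x ∧ q ∉ x) ∧ (o ∩ x).card = 4}.ncard = 105 ∧ ∀ o' o'' : Finset Cfsg.GolayPt, (o' ∈ Cfsg.octads ∧ p ∈ o' ∧ q ∉ o') → (o'' ∈ Cfsg.octads ∧ p ∈ o'' ∧ q ∉ o'') → (o ∩ o').card = (o ∩ o'').card → ∃ g : Equiv.Perm Cfsg.GolayPt, g ∈ Cfsg.M24 ∧ g p = p ∧ g q = q ∧ g • o = o ∧ g • o' = o'' := by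
  have hX : ∀ o : Finset GolayPt, (o ∈ octads ∧ p ∈ o ∧ q ∉ o) →
      ∃ h ∈ M24, h • ((p, q, o) : GolayPt × GolayPt × Finset GolayPt) = (pt 0, pt 5, O0) := by
    rintro o ⟨ho, hp, hq⟩
    obtain ⟨g, hg, h1, h2, h3⟩ := std_out ho 1 (by norm_num) (fun _ => p) (fun i j _ => Subsingleton.elim i j)
      (fun _ => hp) hq
    exact ⟨g, hg, Prod.ext (h2 0) (Prod.ext h3 h1)⟩
  have hX2 : ∃ h ∈ M24, h • ((p, q) : GolayPt × GolayPt) = (pt 0, pt 5) := by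
    obtain ⟨g, hg, h⟩ := ktrans 2 (by norm_num) ![p, q] ![pt 0, pt 5] (by
      intro i j hij
      fin_cases i <;> fin_cases j <;> simp_all) (by
      intro i j hij
      revert hij; revert i j; decide)
    exact ⟨g, hg, Prod.ext (h 0) (h 1)⟩
  refine ⟨?_, ?_, ?_⟩
  · have h1 := pair_count ((pt 0, pt 5) : GolayPt × GolayPt) closed_octL (fun X s => X.1 ∈ s ∧ X.2 ∉ s)
      (fun g _ X s h => ⟨smul_mem_smul.2 h.1, fun hc => h.2 (smul_mem_smul.1 hc)⟩)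
      (fun m => Nat.testBit m 0 && !(Nat.testBit m 5)) (by
        intro m _
        show _ ↔ pt 0 ∈ ofMask m ∧ pt 5 ∉ ofMask m
        rw [pt_mem_ofMask (by norm_num), pt_mem_ofMask (by norm_num), Bool.and_eq_true, Bool.not_eq_true']
        simp) hX2
    have h2 : (octL.filter (fun m => Nat.testBit m 0 && !(Nat.testBit m 5))).length = 176 := by decide +kernel
    rw [h2] at h1
    refine Eq.trans (congrArg Set.ncard ?_) h1
    ext s
    simp only [Set.mem_ofPred_eq, octadsSet]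
  · intro o o' ho ho'
    obtain ⟨g, hg, h⟩ := hX o ho
    obtain ⟨g', hg', h'⟩ := hX o' ho'
    have h3 : (g'⁻¹ * g) • ((p, q, o) : GolayPt × GolayPt × Finset GolayPt) = (p, q, o') := by
      rw [mul_smul, h, ← h', inv_smul_smul]
    exact ⟨g'⁻¹ * g, mul_mem (inv_mem hg') hg, congrArg Prod.fst h3, congrArg (fun x => x.2.1) h3,
      congrArg (fun x => x.2.2) h3⟩
  · intro o ho
    refine ⟨?_, ?_, ?_⟩
    · have := count_pno2 (hX o ho)
      rw [← this]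
      congr 1
      ext s
      simp only [Set.mem_ofPred_eq, octadsSet, and_assoc]
    · have := count_pno4 (hX o ho)
      rw [← this]
      congr 1
      ext s
      simp only [Set.mem_ofPred_eq, octadsSet, and_assoc]
    · intro o' o'' ho' ho'' h
      have key : ∀ g : Equiv.Perm GolayPt, g • ((p, q, o) : GolayPt × GolayPt × Finset GolayPt) = (p, q, o) →
          g p = p ∧ g q = q ∧ g • o = o := fun g h =>
        ⟨congrArg Prod.fst h, congrArg (fun x => x.2.1) h, congrArg (fun x => x.2.2) h⟩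
      rcases octad_inter ho.1 ho'.1 with h0 | h0 | h0 | h0
      · exfalso
        rw [Finset.card_eq_zero] at h0
        have : p ∈ o ∩ o' := Finset.mem_inter.2 ⟨ho.2.1, ho'.2.1⟩
        rw [h0] at this
        exact absurd this (Finset.notMem_empty _)
      · obtain ⟨g, hg, h1, h2⟩ := trans_pno2 (hX o ho) (octadsSet.2 ho'.1) (octadsSet.2 ho''.1)
          ⟨ho'.2.1, ho'.2.2, h0⟩ ⟨ho''.2.1, ho''.2.2, h ▸ h0⟩
        exact ⟨g, hg, (key g h1).1, (key g h1).2.1, (key g h1).2.2, h2⟩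
      · obtain ⟨g, hg, h1, h2⟩ := trans_pno4 (hX o ho) (octadsSet.2 ho'.1) (octadsSet.2 ho''.1)
          ⟨ho'.2.1, ho'.2.2, h0⟩ ⟨ho''.2.1, ho''.2.2, h ▸ h0⟩
        exact ⟨g, hg, (key g h1).1, (key g h1).2.1, (key g h1).2.2, h2⟩
      · have e1 := octad_inter_eight ho.1 ho'.1 h0
        have e2 := octad_inter_eight ho.1 ho''.1 (h ▸ h0)
        exact ⟨1, one_mem _, rfl, rfl, one_smul _ _, by rw [one_smul, ← e1, ← e2]⟩

end Cfsg.Agent.S1605
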