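import Cfsg.Statements.S1607
import Cfsg.Agent.H7_PairUse

set_option autoImplicit false
open scoped Pointwise
open Cfsg

open Cfsg.Agent.H7.Golay
open Cfsg.Agent.H7.Oct
open Cfsg.Agent.H7.M24
open Cfsg.Agent.H7.M24b
open Cfsg.Agent.H7.M24c
open Cfsg.Agent.H7.M24d
open Cfsg.Agent.H7.Pairs
open Cfsg.Agent.H7.PairFacts
open Cfsg.Agent.H7.PairUse

namespace Cfsg.Agent.S1607

/-- The point stabiliser acts on the 253 heptads of its S(4, 7, 23) with rank 3 and subdegrees 1, 112, 140 (intersections 8, 2, 4). -/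
theorem result (x : Cfsg.GolayPt) (o : Finset Cfsg.GolayPt) (ho : o ∈ Cfsg.octads) (hx : x ∈ o) : {o' : Finset Cfsg.GolayPt | o' ∈ Cfsg.octads ∧ x ∈ o' ∧ (o ∩ o').card = 2}.ncard = 112 ∧ {o' : Finset Cfsg.GolayPt | o' ∈ Cfsg.octads ∧ x ∈ o' ∧ (o ∩ o').card = 4}.ncard = 140 ∧ ∀ o' o'' : Finset Cfsg.GolayPt, o' ∈ Cfsg.octads → o'' ∈ Cfsg.octads → x ∈ o' → x ∈ o'' → (o ∩ o').card = (o ∩ o'').card → ∃ g : Equiv.Perm Cfsg.GolayPt, g ∈ Cfsg.M24 ∧ g x = x ∧ g • o = o ∧ g • o' = o'' := by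
  have hX : ∃ h ∈ M24, h • ((x, o) : GolayPt × Finset GolayPt) = (pt 0, O0) := by
    obtain ⟨g, hg, h1, h2⟩ := std_in ho 1 (by norm_num) (fun _ => x) (fun i j _ => Subsingleton.elim i j) (fun _ => hx)
    exact ⟨g, hg, Prod.ext (h2 0) h1⟩
  refine ⟨?_, ?_, ?_⟩
  · have := count_po2 hX
    rw [← this]
    congr 1
    ext s
    simp only [Set.mem_ofPred_eq, octadsSet]
  · have := count_po4 hX
    rw [← this]
    congr 1
    ext s
    simp only [Set.mem_ofPred_eq, octadsSet]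
  · intro o' o'' ho' ho'' hx' hx'' h
    rcases octad_inter ho ho' with h0 | h0 | h0 | h0
    · exfalso
      rw [Finset.card_eq_zero] at h0
      have : x ∈ o ∩ o' := Finset.mem_inter.2 ⟨hx, hx'⟩
      rw [h0] at this
      exact absurd this (Finset.notMem_empty _)
    · obtain ⟨g, hg, h1, h2⟩ := trans_po2 hX (octadsSet.2 ho') (octadsSet.2 ho'') ⟨hx', h0⟩ ⟨hx'', h ▸ h0⟩
      exact ⟨g, hg, congrArg Prod.fst h1, congrArg Prod.snd h1, h2⟩
    · obtain ⟨g, hg, h1, h2⟩ := trans_po4 hX (octadsSet.2 ho') (octadsSet.2 ho'') ⟨hx', h0⟩ ⟨hx'', h ▸ h0⟩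
      exact ⟨g, hg, congrArg Prod.fst h1, congrArg Prod.snd h1, h2⟩
    · have e1 := octad_inter_eight ho ho' h0
      have e2 := octad_inter_eight ho ho'' (h ▸ h0)
      exact ⟨1, one_mem _, rfl, one_smul _ _, by rw [one_smul, ← e1, ← e2]⟩

end Cfsg.Agent.S1607
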