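import Cfsg.Statements.S1623
import Cfsg.Agent.H20_J2Ext4

set_option autoImplicit false
open Quaternion
open Cfsg

namespace Cfsg.Agent.S1623

/-- A reflection centraliser in the Hall–Janko group is an extension of an extraspecial group of order 32 by the alternating group of degree 5. -/
theorem result (f : Equiv.Perm ↥Cfsg.Spor.icoLeech) (hf : Cfsg.Spor.IsIcoReflection f) (hfm : f ∈ Cfsg.Spor.twoJ2) : ∃ (Q : Subgroup ↥(Subgroup.centralizer {(QuotientGroup.mk ⟨f, hfm⟩ : Cfsg.Spor.J2)})) (_ : Q.Normal), Nat.card Q = 32 ∧ Cfsg.IsExtraspecial 2 Q ∧ Nonempty (↥(Subgroup.centralizer {(QuotientGroup.mk ⟨f, hfm⟩ : Cfsg.Spor.J2)}) ⧸ Q ≃* alternatingGroup (Fin 5)) := by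
  obtain ⟨i, rfl⟩ := Cfsg.Agent.H20.J2L.refl_s hf
  obtain ⟨g, hg⟩ := Cfsg.Agent.H20.J2L.transT i
  have hg2 : g⁻¹ * Cfsg.Agent.H20.J2L.t i * g = Cfsg.Agent.H20.J2L.t 0 := by
    rw [← hg, ← Cfsg.Agent.H20.J2L.θ_conj]; group
  obtain ⟨e⟩ := Cfsg.Agent.H20.J2L.cent_equiv (Cfsg.Agent.H20.J2L.eJ.trans (MulAut.conj g⁻¹))
    (a := (QuotientGroup.mk ⟨Cfsg.Agent.H20.J2L.s i, hfm⟩ : Cfsg.Spor.J2)) (b := Cfsg.Agent.H20.J2L.t 0) (by
      rw [MulEquiv.trans_apply, MulAut.conj_apply, inv_inv]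
      exact hg2)
  haveI : Finite Cfsg.Spor.J2 := Nat.finite_of_card_ne_zero (by rw [Cfsg.Agent.H20.J2L.card_J2]; norm_num)
  exact Cfsg.Agent.H20.J2L.propY_X (Cfsg.Agent.H20.J2L.propY_equiv e Cfsg.Agent.H20.J2L.propY_CC)

end Cfsg.Agent.S1623
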