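import Cfsg.Statements.S1624
import Cfsg.Agent.H20_U3b
import Cfsg.Agent.H20_J2Main

set_option autoImplicit false
open Quaternion
open Cfsg

namespace Cfsg.Agent.S1624

/-- The Hall–Janko group contains PSU(3, 3) with index 100 and acts on the 100 cosets with rank 3 and subdegrees 1, 36, 63. -/
theorem result : ∃ H : Subgroup Cfsg.Spor.J2, H.index = 100 ∧ (∃ (F : Type) (_ : Field F) (_ : Fintype F), Fintype.card F = 9 ∧ Nonempty (↥H ≃* Cfsg.PSU 3 F 3)) ∧ ∃ c₁ c₂ : Cfsg.Spor.J2 ⧸ H, (MulAction.orbit ↥H c₁).ncard = 36 ∧ (MulAction.orbit ↥H c₂).ncard = 63 := by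
  classical
  have hfix : ∀ k ∈ Cfsg.Agent.H20.J2P.H, k 0 = 0 := Cfsg.Agent.H20.J2P.H_fix
  let K : Subgroup Cfsg.Agent.H20.J2P.G := Cfsg.Agent.H20.J2P.H.subgroupOf Cfsg.Agent.H20.J2P.G
  let H' : Subgroup Cfsg.Spor.J2 := K.comap Cfsg.Agent.H20.J2L.eJ.toMonoidHom
  have hmem : ∀ x : Cfsg.Spor.J2, x ∈ H' ↔ ((Cfsg.Agent.H20.J2L.eJ x : Cfsg.Agent.H20.J2P.G) : Cfsg.Agent.H20.J2P.P) 0 = 0 := by
    intro x
    constructor
    · intro h
      exact hfix _ h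
    · intro h
      exact Cfsg.Agent.H20.J2P.mem_H (Cfsg.Agent.H20.J2L.eJ x).2 h
  refine ⟨H', ?_, ?_, ?_⟩
  · rw [Subgroup.index_comap_of_surjective _ Cfsg.Agent.H20.J2L.eJ.surjective]
    have h1 := Subgroup.card_mul_index K
    rw [Nat.card_congr (Subgroup.subgroupOfEquivOfLe Cfsg.Agent.H20.J2P.H_le).toEquiv, Cfsg.Agent.H20.J2P.card_H,
      Cfsg.Agent.H20.J2P.card_G] at h1
    omega
  · haveI : Fact (Nat.Prime 3) := ⟨Nat.prime_three⟩
    haveI : Finite (GaloisField 3 2) := Nat.finite_of_card_ne_zero (by rw [GaloisField.card 3 2 (by norm_num)]; norm_num)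
    letI hF : Fintype (GaloisField 3 2) := Fintype.ofFinite _
    have hc : Fintype.card (GaloisField 3 2) = 9 := by
      rw [← Nat.card_eq_fintype_card, GaloisField.card 3 2 (by norm_num)]; norm_num
    obtain ⟨e⟩ := Cfsg.Agent.H20.U3.psu_iso hc
    have hmap : H'.map Cfsg.Agent.H20.J2L.eJ.toMonoidHom = K :=
      Subgroup.map_comap_eq_self_of_surjective Cfsg.Agent.H20.J2L.eJ.surjective K
    exact ⟨GaloisField 3 2, inferInstance, hF, hc, ⟨((Cfsg.Agent.H20.J2L.eJ.subgroupMap H').trans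
      ((MulEquiv.subgroupCongr hmap).trans (Subgroup.subgroupOfEquivOfLe Cfsg.Agent.H20.J2P.H_le))).trans e⟩⟩
  · have hwd : ∀ x y : Cfsg.Spor.J2, x⁻¹ * y ∈ H' ↔ ((Cfsg.Agent.H20.J2L.eJ x : Cfsg.Agent.H20.J2P.G) : Cfsg.Agent.H20.J2P.P) 0 =
        ((Cfsg.Agent.H20.J2L.eJ y : Cfsg.Agent.H20.J2P.G) : Cfsg.Agent.H20.J2P.P) 0 := by
      intro x y
      rw [hmem, map_mul, map_inv]
      show (((Cfsg.Agent.H20.J2L.eJ x : Cfsg.Agent.H20.J2P.G) : Cfsg.Agent.H20.J2P.P)⁻¹ *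
        ((Cfsg.Agent.H20.J2L.eJ y : Cfsg.Agent.H20.J2P.G) : Cfsg.Agent.H20.J2P.P)) 0 = 0 ↔ _
      rw [Equiv.Perm.mul_apply, Equiv.Perm.inv_eq_iff_eq]
      exact eq_comm
    let ψ : Cfsg.Spor.J2 ⧸ H' → Fin 100 := Quotient.lift (s := QuotientGroup.leftRel H')
      (fun x => ((Cfsg.Agent.H20.J2L.eJ x : Cfsg.Agent.H20.J2P.G) : Cfsg.Agent.H20.J2P.P) 0) (by
        intro x y hxy
        exact (hwd x y).1 (QuotientGroup.leftRel_apply.1 hxy))
    have hψ : ∀ x : Cfsg.Spor.J2, ψ (QuotientGroup.mk x) = ((Cfsg.Agent.H20.J2L.eJ x : Cfsg.Agent.H20.J2P.G) : Cfsg.Agent.H20.J2P.P) 0 :=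
      fun x => rfl
    have hinj : Function.Injective ψ := by
      intro a b
      induction a using QuotientGroup.induction_on with
      | _ x =>
        induction b using QuotientGroup.induction_on with
        | _ y =>
          intro h
          rw [hψ, hψ, ← hwd] at h
          exact QuotientGroup.eq.2 h
    have horb : ∀ a : Fin 100, ∃ c : Cfsg.Spor.J2 ⧸ H', ψ '' (MulAction.orbit ↥H' c) = MulAction.orbit Cfsg.Agent.H20.J2P.H a := by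
      intro a
      obtain ⟨g, hg, hga⟩ := Cfsg.Agent.H20.J2P.trans a
      refine ⟨QuotientGroup.mk (Cfsg.Agent.H20.J2L.eJ.symm ⟨g, hg⟩), ?_⟩
      ext b
      constructor
      · rintro ⟨_, ⟨h, rfl⟩, rfl⟩
        refine ⟨⟨_, h.2⟩, ?_⟩
        show _ = ψ (QuotientGroup.mk ((h : Cfsg.Spor.J2) * Cfsg.Agent.H20.J2L.eJ.symm ⟨g, hg⟩))
        rw [hψ, map_mul, MulEquiv.apply_symm_apply]
        show ((Cfsg.Agent.H20.J2L.eJ (h : Cfsg.Spor.J2) : Cfsg.Agent.H20.J2P.G) : Cfsg.Agent.H20.J2P.P) a = _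
        rw [← hga]; rfl
      · rintro ⟨h, rfl⟩
        have hm : Cfsg.Agent.H20.J2L.eJ.symm ⟨(h : Cfsg.Agent.H20.J2P.P), Cfsg.Agent.H20.J2P.H_le h.2⟩ ∈ H' := by
          rw [hmem, MulEquiv.apply_symm_apply]; exact hfix _ h.2
        refine ⟨_, ⟨⟨_, hm⟩, rfl⟩, ?_⟩
        show ψ (QuotientGroup.mk (Cfsg.Agent.H20.J2L.eJ.symm ⟨(h : Cfsg.Agent.H20.J2P.P), Cfsg.Agent.H20.J2P.H_le h.2⟩ *
          Cfsg.Agent.H20.J2L.eJ.symm ⟨g, hg⟩)) = _
        rw [hψ, map_mul, MulEquiv.apply_symm_apply, MulEquiv.apply_symm_apply]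
        show (h : Cfsg.Agent.H20.J2P.P) (g 0) = _
        rw [hga]; rfl
    obtain ⟨c1, hc1⟩ := horb 64
    obtain ⟨c2, hc2⟩ := horb 1
    refine ⟨c1, c2, ?_, ?_⟩
    · rw [← Set.ncard_image_of_injective _ hinj, hc1, Cfsg.Agent.H20.J2P.card_o36]
    · rw [← Set.ncard_image_of_injective _ hinj, hc2, Cfsg.Agent.H20.J2P.card_o63]

end Cfsg.Agent.S1624
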