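import Cfsg.Statements.S1634
import Cfsg.Agent.H7_Co7

set_option autoImplicit false
open Cfsg

open Cfsg.Agent.H7.Co Cfsg.Agent.H7.Co2 Cfsg.Agent.H7.Co7 Cfsg.Agent.H7.LV Cfsg.Agent.H7.L1

namespace Cfsg.Agent.S1634

/-- The McLaughlin group acts on 2025 points (minimal vectors orthogonal to v with customary inner product 2 with w) transitively with rank 4 and subdegrees 1, 330, 462, 1232. -/
theorem result (v w : ↥Cfsg.leechLattice) (hv : Cfsg.sqNorm (v : Cfsg.GolayPt → ℤ) = 32) (hw : Cfsg.sqNorm (w : Cfsg.GolayPt → ℤ) = 32) (hvw : Cfsg.dotInt (v : Cfsg.GolayPt → ℤ) (w : Cfsg.GolayPt → ℤ) = -8) : {x : ↥Cfsg.leechLattice | Cfsg.sqNorm (x : Cfsg.GolayPt → ℤ) = 32 ∧ Cfsg.dotInt (v : Cfsg.GolayPt → ℤ) (x : Cfsg.GolayPt → ℤ) = 0 ∧ Cfsg.dotInt (w : Cfsg.GolayPt → ℤ) (x : Cfsg.GolayPt → ℤ) = 16}.ncard = 2025 ∧ (∀ x ∈ {x : ↥Cfsg.leechLattice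 | Cfsg.sqNorm (x : Cfsg.GolayPt → ℤ) = 32 ∧ Cfsg.dotInt (v : Cfsg.GolayPt → ℤ) (x : Cfsg.GolayPt → ℤ) = 0 ∧ Cfsg.dotInt (w : Cfsg.GolayPt → ℤ) (x : Cfsg.GolayPt → ℤ) = 16}, ∀ x' ∈ {x : ↥Cfsg.leechLattice | Cfsg.sqNorm (x : Cfsg.GolayPt → ℤ) = 32 ∧ Cfsg.dotInt (v : Cfsg.GolayPt → ℤ) (x : Cfsg.GolayPt → ℤ) = 0 ∧ Cfsg.dotInt (w : Cfsg.GolayPt → ℤ) (x : Cfsg.GolayPt → ℤ) = 16}, ∃ g : ↥Cfsg.Co0, g • v = v ∧ g • w = w ∧ g • x = x') ∧ ∀ x ∈ {x : ↥Cfsg.leechLattice | Cfsg.sqNorm (x : Cfsg.GolayPt → ℤ) = 32 ∧ Cfsg.dotInt (v : Cfsg.GolayPt → ℤ) (x : Cfsg.GolayPt → ℤ) = 0 ∧ Cfsg.dotInt (w : Cfsg.GolayPt → ℤ) (x : Cfsg.GolayPt → ℤ) = 16}, ∃ y₁ ∈ {x : ↥Cfsg.leechLattice | Cfsg.sqNorm (x : Cfsg.GolayPt → ℤ) = 32 ∧ Cfsg.dotInt (v : Cfsg.GolayPt → ℤ) (x : Cfsg.GolayPt → ℤ) = 0 ∧ Cfsg.dotInt (w : Cfsg.GolayPt → ℤ) (x : Cfsg.GolayPt → ℤ) = 16},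 ∃ y₂ ∈ {x : ↥Cfsg.leechLattice | Cfsg.sqNorm (x : Cfsg.GolayPt → ℤ) = 32 ∧ Cfsg.dotInt (v : Cfsg.GolayPt → ℤ) (x : Cfsg.GolayPt → ℤ) = 0 ∧ Cfsg.dotInt (w : Cfsg.GolayPt → ℤ) (x : Cfsg.GolayPt → ℤ) = 16}, ∃ y₃ ∈ {x : ↥Cfsg.leechLattice | Cfsg.sqNorm (x : Cfsg.GolayPt → ℤ) = 32 ∧ Cfsg.dotInt (v : Cfsg.GolayPt → ℤ) (x : Cfsg.GolayPt → ℤ) = 0 ∧ Cfsg.dotInt (w : Cfsg.GolayPt → ℤ) (x : Cfsg.GolayPt → ℤ) = 16}, (MulAction.orbit ↥(MulAction.stabilizer ↥Cfsg.Co0 v ⊓ MulAction.stabilizer ↥Cfsg.Co0 w ⊓ MulAction.stabilizer ↥Cfsg.Co0 x) y₁).ncard = 330 ∧ (MulAction.orbit ↥(MulAction.stabilizer ↥Cfsg.Co0 v ⊓ MulAction.stabilizer ↥Cfsg.Co0 w ⊓ MulAction.stabilizer ↥Cfsg.Co0 x) y₂).ncard = 462 ∧ (MulAction.orbit ↥(MulAction.stabilizer ↥Cfsg.Co0 v ⊓ MulAction.stabilizer ↥Cfsg.Co0 w ⊓ MulAction.stabilizer ↥Cfsg.Co0 x) y₃).ncard = 1232 := by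
  have hs : Nm (v + w) = 48 := by
    have h1 := nm_add v w
    have e1 : Nm v = 32 := hv
    have e2 : Nm w = 32 := hw
    have e3 : Dt v w = -8 := hvw
    omega
  have hsv : Dt v (v + w) = 24 := by
    have h1 := dt_add' v w v
    have e1 : Nm v = 32 := hv
    have e3 : Dt v w = -8 := hvw
    rw [dt_self] at h1
    omega
  have key : ∀ x : leechLattice, (dotInt (v : GolayPt → ℤ) (x : GolayPt → ℤ) = 0 ∧ dotInt (w : GolayPt → ℤ) (x : GolayPt → ℤ) = 16) ↔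
      (Dt x (v + w) = 16 ∧ Dt x v = 0) := by
    intro x
    have e1 := dt_add' v w x
    have e2 : dotInt (v : GolayPt → ℤ) (x : GolayPt → ℤ) = Dt x v := dotInt_comm _ _
    have e3 : dotInt (w : GolayPt → ℤ) (x : GolayPt → ℤ) = Dt x w := dotInt_comm _ _
    rw [e2, e3]
    omega
  have back : ∀ g : Co0, g • (v + w) = v + w → g • v = v → g • w = w := by
    intro g h1 h2
    rw [smul_add'', h2] at h1
    exact add_left_cancel h1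
  have forw : ∀ g : Co0, g • v = v → g • w = w → g • (v + w) = v + w := by
    intro g h1 h2
    rw [smul_add'', h1, h2]
  have hS : {x : ↥leechLattice | sqNorm (x : GolayPt → ℤ) = 32 ∧ dotInt (v : GolayPt → ℤ) (x : GolayPt → ℤ) = 0 ∧ dotInt (w : GolayPt → ℤ) (x : GolayPt → ℤ) = 16} =
      {x : ↥leechLattice | Nm x = 32 ∧ Dt x (v + w) = 16 ∧ Dt x v = 0} := by
    ext y
    simp only [Set.mem_ofPred_eq]
    rw [key y]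
  rw [hS]
  obtain ⟨hc, ht⟩ := mcl_2025 (v + w) v hs hv hsv
  refine ⟨hc, ?_, ?_⟩
  · rintro x hx y hy
    obtain ⟨g, g1, g2, g3⟩ := ht x y hx hy
    exact ⟨g, g2, back g g1 g2, g3⟩
  · intro x hx
    have sub := mcl_2025_suborb (v + w) v x hs hv hsv hx
    have orb : ∀ k : ℤ, ∀ N : ℕ, N ≠ 0 → (k, N) ∈ vals2 → ∃ y ∈ {x : ↥leechLattice | Nm x = 32 ∧ Dt x (v + w) = 16 ∧ Dt x v = 0},
        (MulAction.orbit ↥(MulAction.stabilizer ↥Co0 v ⊓ MulAction.stabilizer ↥Co0 w ⊓ MulAction.stabilizer ↥Co0 x) y).ncard = N := by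
      intro k N hN hk
      obtain ⟨hc, ht⟩ := sub (k, N) hk
      obtain ⟨y, hy⟩ := nonempty_of_ncard hc hN
      have ho := orbit_eq3 v w x y (fun z => Nm z = 32 ∧ Dt z (v + w) = 16 ∧ Dt z v = 0 ∧ Dt z x = k) hy
        (fun g g1 g2 g3 z hz => ⟨by rw [nm_smul]; exact hz.1, by
          have e := dt_smul g z (v + w)
          rw [forw g g1 g2] at e
          exact e.trans hz.2.1, by
          have e := dt_smul g z v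
          rw [g1] at e
          exact e.trans hz.2.2.1, by
          have e := dt_smul g z x
          rw [g3] at e
          exact e.trans hz.2.2.2⟩) (fun z hz => by
            obtain ⟨k, k1, k2, k3, k4⟩ := ht y z hy hz
            exact ⟨k, k2, back k k1 k2, k3, k4⟩)
      exact ⟨y, ⟨hy.1, hy.2.1, hy.2.2.1⟩, by rw [ho]; exact hc⟩
    obtain ⟨y₁, h1, c1⟩ := orb 0 330 (by norm_num) (by simp [vals2])
    obtain ⟨y₂, h2, c2⟩ := orb 16 462 (by norm_num) (by simp [vals2])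
    obtain ⟨y₃, h3, c3⟩ := orb 8 1232 (by norm_num) (by simp [vals2])
    exact ⟨y₁, h1, y₂, h2, y₃, h3, c1, c2, c3⟩

end Cfsg.Agent.S1634
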