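import Cfsg.Statements.S1638
import Cfsg.Agent.H7_PairUse

set_option autoImplicit false
open scoped Pointwise
open Cfsg

open Cfsg.Agent.H7.Golay
open Cfsg.Agent.H7.Oct
open Cfsg.Agent.H7.M24
open Cfsg.Agent.H7.M24b
open Cfsg.Agent.H7.M24c
open Cfsg.Agent.H7.M24d
open Cfsg.Agent.H7.Pairs
open Cfsg.Agent.H7.PairFacts
open Cfsg.Agent.H7.PairUse

namespace Cfsg.Agent.S1638

/-- Fix two points p ≠ q and a pair s of two further points. Among the pairs avoiding p, q and disjoint from s, exactly 30 lie in an octad together with p, q and s and exactly 160 do not; and any two pairs other than s that meet s in equally many points and agree on that octad property are carried to one another by an element of the group of the length-24 code fixing p, q and s. -/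
theorem result (p q : Cfsg.GolayPt) (hpq : p ≠ q) (s : Finset Cfsg.GolayPt) (hs : (s.card = 2 ∧ p ∉ s ∧ q ∉ s)) : {t : Finset Cfsg.GolayPt | (t.card = 2 ∧ p ∉ t ∧ q ∉ t) ∧ Disjoint s t ∧ (∃ o ∈ Cfsg.octads, p ∈ o ∧ q ∈ o ∧ s ∪ t ⊆ o)}.ncard = 30 ∧ {t : Finset Cfsg.GolayPt | (t.card = 2 ∧ p ∉ t ∧ q ∉ t) ∧ Disjoint s t ∧ ¬ (∃ o ∈ Cfsg.octads, p ∈ o ∧ q ∈ o ∧ s ∪ t ⊆ o)}.ncard = 160 ∧ ∀ t t' : Finset Cfsg.GolayPt, (t.card = 2 ∧ p ∉ t ∧ q ∉ t) → (t'.card = 2 ∧ p ∉ t' ∧ q ∉ t') → t ≠ s → t' ≠ s → (s ∩ t).card = (s ∩ t').card → ((∃ o ∈ Cfsg.octads, p ∈ o ∧ q ∈ o ∧ s ∪ t ⊆ o) ↔ (∃ o ∈ Cfsg.octads, p ∈ o ∧ q ∈ o ∧ s ∪ t' ⊆ o)) → ∃ g : Equiv.Perm Cfsg.GolayPt, g ∈ Cfsg.M24 ∧ g p = p ∧ g q = q ∧ g • s = s ∧ g • t = t' := by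
  have hX := std_ppp hpq hs.1 hs.2.1 hs.2.2
  have e0 : ∀ t : Finset GolayPt, Disjoint s t ↔ (s ∩ t).card = 0 := fun t =>
    (Finset.card_eq_zero.trans Finset.disjoint_iff_inter_eq_empty.symm).symm
  refine ⟨?_, ?_, ?_⟩
  · have := count_q0i hX
    rw [← this]
    congr 1
    ext t
    simp only [Set.mem_ofPred_eq, mask_mem_subs, Co2, e0]
    tauto
  · have := count_q0n hX
    rw [← this]
    congr 1
    ext t
    simp only [Set.mem_ofPred_eq, mask_mem_subs, Co2, e0]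
    tauto
  · intro t t' ht ht' hne hne' hcard hiff
    have key : ∀ g : Equiv.Perm GolayPt, g • ((p, q, s) : GolayPt × GolayPt × Finset GolayPt) = (p, q, s) →
        g p = p ∧ g q = q ∧ g • s = s := fun g h =>
      ⟨congrArg Prod.fst h, congrArg (fun x => x.2.1) h, congrArg (fun x => x.2.2) h⟩
    have hle : (s ∩ t).card ≤ 2 := by rw [← hs.1]; exact Finset.card_le_card Finset.inter_subset_left
    have h2 : (s ∩ t).card ≠ 2 := by
      intro h2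
      have h3 : s ∩ t = s := Finset.eq_of_subset_of_card_le Finset.inter_subset_left (by rw [h2, hs.1])
      have h4 : s ∩ t = t := Finset.eq_of_subset_of_card_le Finset.inter_subset_right (by rw [h2, ht.1])
      exact hne (h4.symm.trans h3)
    have h01 : (s ∩ t).card = 0 ∨ (s ∩ t).card = 1 := by omega
    rcases h01 with h0 | h0
    · by_cases hc : ∃ o ∈ octads, p ∈ o ∧ q ∈ o ∧ s ∪ t ⊆ o
      · obtain ⟨g, hg, h1, h2⟩ := trans_q0i hX (mask_mem_subs.2 ht.1) (mask_mem_subs.2 ht'.1) ⟨ht.2, h0, hc⟩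
          ⟨ht'.2, hcard ▸ h0, hiff.1 hc⟩
        exact ⟨g, hg, (key g h1).1, (key g h1).2.1, (key g h1).2.2, h2⟩
      · obtain ⟨g, hg, h1, h2⟩ := trans_q0n hX (mask_mem_subs.2 ht.1) (mask_mem_subs.2 ht'.1) ⟨ht.2, h0, hc⟩
          ⟨ht'.2, hcard ▸ h0, fun h => hc (hiff.2 h)⟩
        exact ⟨g, hg, (key g h1).1, (key g h1).2.1, (key g h1).2.2, h2⟩
    · obtain ⟨g, hg, h1, h2⟩ := trans_q1 hX (mask_mem_subs.2 ht.1) (mask_mem_subs.2 ht'.1) ⟨ht.2, h0⟩
        ⟨ht'.2, hcard ▸ h0⟩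
      exact ⟨g, hg, (key g h1).1, (key g h1).2.1, (key g h1).2.2, h2⟩

end Cfsg.Agent.S1638
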