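import Cfsg.Statements.S1639
import Cfsg.Agent.H7_PairUse

set_option autoImplicit false
open scoped Pointwise
open Cfsg

open Cfsg.Agent.H7.Golay
open Cfsg.Agent.H7.Oct
open Cfsg.Agent.H7.M24
open Cfsg.Agent.H7.M24b
open Cfsg.Agent.H7.M24c
open Cfsg.Agent.H7.M24d
open Cfsg.Agent.H7.Pairs
open Cfsg.Agent.H7.PairFacts
open Cfsg.Agent.H7.PairUse

namespace Cfsg.Agent.S1639

/-- The point stabiliser acts on the 1288 dodecads through the point with rank 4 and subdegrees 1, 165, 330, 792, distinguished by intersection 4, 8, 6 with the fixed dodecad. -/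
theorem result (x : Cfsg.GolayPt) (d : Finset Cfsg.GolayPt) (hd : d ∈ Cfsg.dodecads) (hx : x ∈ d) : {d' : Finset Cfsg.GolayPt | d' ∈ Cfsg.dodecads ∧ x ∈ d' ∧ (d ∩ d').card = 4}.ncard = 165 ∧ {d' : Finset Cfsg.GolayPt | d' ∈ Cfsg.dodecads ∧ x ∈ d' ∧ (d ∩ d').card = 8}.ncard = 330 ∧ {d' : Finset Cfsg.GolayPt | d' ∈ Cfsg.dodecads ∧ x ∈ d' ∧ (d ∩ d').card = 6}.ncard = 792 ∧ ∀ d' d'' : Finset Cfsg.GolayPt, d' ∈ Cfsg.dodecads → d'' ∈ Cfsg.dodecads → x ∈ d' → x ∈ d'' → (d ∩ d').card = (d ∩ d'').card → ∃ g : Equiv.Perm Cfsg.GolayPt, g ∈ Cfsg.M24 ∧ g x = x ∧ g • d = d ∧ g • d' = d'' := by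
  have hX : ∃ h ∈ M24, h • ((x, d) : GolayPt × Finset GolayPt) = (pt 0, D0) := by
    obtain ⟨g, hg, h1, h2⟩ := dodecad_pt_std hd hx
    exact ⟨g, hg, Prod.ext h2 h1⟩
  refine ⟨?_, ?_, ?_, ?_⟩
  · have := count_pdd4 hX
    rw [← this]
    congr 1
    ext s
    simp only [Set.mem_ofPred_eq, dodecadsSet]
  · have := count_pdd8 hX
    rw [← this]
    congr 1
    ext s
    simp only [Set.mem_ofPred_eq, dodecadsSet]
  · have := count_pdd6 hX
    rw [← this]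
    congr 1
    ext s
    simp only [Set.mem_ofPred_eq, dodecadsSet]
  · intro d' d'' hd' hd'' hx' hx'' h
    rcases dodecad_inter hd hd' with h0 | h0 | h0 | h0 | h0
    · exfalso
      rw [Finset.card_eq_zero] at h0
      have : x ∈ d ∩ d' := Finset.mem_inter.2 ⟨hx, hx'⟩
      rw [h0] at this
      exact absurd this (Finset.notMem_empty _)
    · obtain ⟨g, hg, h1, h2⟩ := trans_pdd4 hX (dodecadsSet.2 hd') (dodecadsSet.2 hd'') ⟨hx', h0⟩ ⟨hx'', h ▸ h0⟩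
      exact ⟨g, hg, congrArg Prod.fst h1, congrArg Prod.snd h1, h2⟩
    · obtain ⟨g, hg, h1, h2⟩ := trans_pdd6 hX (dodecadsSet.2 hd') (dodecadsSet.2 hd'') ⟨hx', h0⟩ ⟨hx'', h ▸ h0⟩
      exact ⟨g, hg, congrArg Prod.fst h1, congrArg Prod.snd h1, h2⟩
    · obtain ⟨g, hg, h1, h2⟩ := trans_pdd8 hX (dodecadsSet.2 hd') (dodecadsSet.2 hd'') ⟨hx', h0⟩ ⟨hx'', h ▸ h0⟩
      exact ⟨g, hg, congrArg Prod.fst h1, congrArg Prod.snd h1, h2⟩
    · have e1 := dodecad_inter_12 hd hd' h0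
      have e2 := dodecad_inter_12 hd hd'' (h ▸ h0)
      exact ⟨1, one_mem _, rfl, one_smul _ _, by rw [one_smul, ← e1, ← e2]⟩

end Cfsg.Agent.S1639
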