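import Cfsg.Statements.S1640
import Cfsg.Agent.H7_Co7

set_option autoImplicit false
open Cfsg

open Cfsg.Agent.H7.Co Cfsg.Agent.H7.Co2 Cfsg.Agent.H7.Co7 Cfsg.Agent.H7.LV Cfsg.Agent.H7.L1

namespace Cfsg.Agent.S1640

/-- The stabiliser of a vector of customary norm 6 is transitive on the 11178 minimal vectors of customary inner product −2 with it. -/
theorem result (u : ↥Cfsg.leechLattice) (hu : Cfsg.sqNorm (u : Cfsg.GolayPt → ℤ) = 48) : {x : ↥Cfsg.leechLattice | Cfsg.sqNorm (x : Cfsg.GolayPt → ℤ) = 32 ∧ Cfsg.dotInt (u : Cfsg.GolayPt → ℤ) (x : Cfsg.GolayPt → ℤ) = -16}.ncard = 11178 ∧ ∀ x ∈ {x : ↥Cfsg.leechLattice | Cfsg.sqNorm (x : Cfsg.GolayPt → ℤ) = 32 ∧ Cfsg.dotInt (u : Cfsg.GolayPt → ℤ) (x : Cfsg.GolayPt → ℤ) = -16}, ∀ x' ∈ {x : ↥Cfsg.leechLattice | Cfsg.sqNorm (x : Cfsg.GolayPt → ℤ) = 32 ∧ Cfsg.dotInt (u : Cfsg.GolayPt → ℤ) (x : Cfsg.GolayPt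 → ℤ) = -16}, ∃ g : ↥Cfsg.Co0, g • u = u ∧ g • x = x' := by
  have hu' : Nm u = 48 := hu
  have key : ∀ x : leechLattice, dotInt (u : GolayPt → ℤ) (x : GolayPt → ℤ) = Dt x u := fun x => dotInt_comm _ _
  constructor
  · refine Eq.trans ?_ (cnt48_m16 u hu)
    congr 1
    ext x
    simp only [Set.mem_ofPred_eq]
    rw [key x]
  · rintro x ⟨x1, x2⟩ y ⟨y1, y2⟩
    rw [key] at x2 y2
    obtain ⟨g, g1, g2⟩ := pair48_m16 u x u y hu hu x1 y1 x2 y2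
    exact ⟨g, g1, g2⟩

end Cfsg.Agent.S1640
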