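import Cfsg.Statements.S1641
import Cfsg.Agent.H7_Co7

set_option autoImplicit false
open Cfsg

open Cfsg.Agent.H7.Co Cfsg.Agent.H7.Co2 Cfsg.Agent.H7.Co7 Cfsg.Agent.H7.LV Cfsg.Agent.H7.L1

namespace Cfsg.Agent.S1641

/-- The third Conway group acts on the 11178 cosets of the Higman–Sims group with rank 5 and subdegrees 1, 352, 1100, 4125, 5600. -/
theorem result (u x : ↥Cfsg.leechLattice) (hu : Cfsg.sqNorm (u : Cfsg.GolayPt → ℤ) = 48) (hx : x ∈ {x : ↥Cfsg.leechLattice | Cfsg.sqNorm (x : Cfsg.GolayPt → ℤ) = 32 ∧ Cfsg.dotInt (u : Cfsg.GolayPt → ℤ) (x : Cfsg.GolayPt → ℤ) = -16}) : ∃ y₁ ∈ {x : ↥Cfsg.leechLattice | Cfsg.sqNorm (x : Cfsg.GolayPt → ℤ) = 32 ∧ Cfsg.dotInt (u : Cfsg.GolayPt → ℤ) (x : Cfsg.GolayPt → ℤ) = -16}, ∃ y₂ ∈ {x : ↥Cfsg.leechLattice | Cfsg.sqNorm (x : Cfsg.GolayPt → ℤ) = 32 ∧ Cfsg.dotInt (u : Cfsg.GolayPt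 → ℤ) (x : Cfsg.GolayPt → ℤ) = -16}, ∃ y₃ ∈ {x : ↥Cfsg.leechLattice | Cfsg.sqNorm (x : Cfsg.GolayPt → ℤ) = 32 ∧ Cfsg.dotInt (u : Cfsg.GolayPt → ℤ) (x : Cfsg.GolayPt → ℤ) = -16}, ∃ y₄ ∈ {x : ↥Cfsg.leechLattice | Cfsg.sqNorm (x : Cfsg.GolayPt → ℤ) = 32 ∧ Cfsg.dotInt (u : Cfsg.GolayPt → ℤ) (x : Cfsg.GolayPt → ℤ) = -16}, (MulAction.orbit ↥(MulAction.stabilizer ↥Cfsg.Co0 u ⊓ MulAction.stabilizer ↥Cfsg.Co0 x) y₁).ncard = 352 ∧ (MulAction.orbit ↥(MulAction.stabilizer ↥Cfsg.Co0 u ⊓ MulAction.stabilizer ↥Cfsg.Co0 x) y₂).ncard = 1100 ∧ (MulAction.orbit ↥(MulAction.stabilizer ↥Cfsg.Co0 u ⊓ MulAction.stabilizer ↥Cfsg.Co0 x) y₃).ncard = 4125 ∧ (MulAction.orbit ↥(MulAction.stabilizer ↥Cfsg.Co0 u ⊓ MulAction.stabilizer ↥Cfsg.Co0 x) y₄).ncard = 5600 ∧ {x : ↥Cfsg.leechLattice | Cfsg.sqNorm (x : Cfsg.GolayPt → ℤ) = 32 ∧ Cfsg.dotInt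 (u : Cfsg.GolayPt → ℤ) (x : Cfsg.GolayPt → ℤ) = -16} = {x} ∪ MulAction.orbit ↥(MulAction.stabilizer ↥Cfsg.Co0 u ⊓ MulAction.stabilizer ↥Cfsg.Co0 x) y₁ ∪ MulAction.orbit ↥(MulAction.stabilizer ↥Cfsg.Co0 u ⊓ MulAction.stabilizer ↥Cfsg.Co0 x) y₂ ∪ MulAction.orbit ↥(MulAction.stabilizer ↥Cfsg.Co0 u ⊓ MulAction.stabilizer ↥Cfsg.Co0 x) y₃ ∪ MulAction.orbit ↥(MulAction.stabilizer ↥Cfsg.Co0 u ⊓ MulAction.stabilizer ↥Cfsg.Co0 x) y₄ := by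
  have hu' : Nm u = 48 := hu
  have key : ∀ x : leechLattice, dotInt (u : GolayPt → ℤ) (x : GolayPt → ℤ) = Dt x u := fun x => dotInt_comm _ _
  obtain ⟨x1, x2⟩ := hx
  rw [key] at x2
  have hS : {x : ↥leechLattice | sqNorm (x : GolayPt → ℤ) = 32 ∧ dotInt (u : GolayPt → ℤ) (x : GolayPt → ℤ) = -16} =
      {x : ↥leechLattice | Nm x = 32 ∧ Dt x u = -16} := by
    ext y
    simp only [Set.mem_ofPred_eq]
    rw [key y]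
  rw [hS]
  have sub := co3_suborb u x hu x1 x2
  have orb : ∀ k : ℤ, ∀ N : ℕ, N ≠ 0 → (k, N) ∈ vals → ∃ y : leechLattice, (Nm y = 32 ∧ Dt y u = -16) ∧
      MulAction.orbit ↥(MulAction.stabilizer ↥Co0 u ⊓ MulAction.stabilizer ↥Co0 x) y =
        {z : leechLattice | Nm z = 32 ∧ Dt z u = -16 ∧ Dt z x = k} ∧
      (MulAction.orbit ↥(MulAction.stabilizer ↥Co0 u ⊓ MulAction.stabilizer ↥Co0 x) y).ncard = N := by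
    intro k N hN hk
    obtain ⟨hc, ht⟩ := sub (k, N) hk
    obtain ⟨y, hy⟩ := nonempty_of_ncard hc hN
    have ho := orbit_eq u x y (fun z => Nm z = 32 ∧ Dt z u = -16 ∧ Dt z x = k) hy
      (fun g g1 g2 z hz => ⟨by rw [nm_smul]; exact hz.1, by
        have e := dt_smul g z u
        rw [g1] at e
        exact e.trans hz.2.1, by
        have e := dt_smul g z x
        rw [g2] at e
        exact e.trans hz.2.2⟩) (fun z hz => ht y z hy hz)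
    exact ⟨y, ⟨hy.1, hy.2.1⟩, ho, by rw [ho]; exact hc⟩
  obtain ⟨y₁, h1, o1, c1⟩ := orb (-8) 352 (by norm_num) (by simp [vals])
  obtain ⟨y₂, h2, o2, c2⟩ := orb 16 1100 (by norm_num) (by simp [vals])
  obtain ⟨y₃, h3, o3, c3⟩ := orb 0 4125 (by norm_num) (by simp [vals])
  obtain ⟨y₄, h4, o4, c4⟩ := orb 8 5600 (by norm_num) (by simp [vals])
  refine ⟨y₁, h1, y₂, h2, y₃, h3, y₄, h4, c1, c2, c3, c4, ?_⟩
  rw [o1, o2, o3, o4]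
  ext y
  simp only [Set.mem_ofPred_eq, Set.mem_union, Set.mem_singleton_iff]
  constructor
  · rintro ⟨a, b⟩
    rcases co3_dots u x y hu x1 x2 a b with h | h | h | h | h
    · exact Or.inl (Or.inl (Or.inl (Or.inl h)))
    · exact Or.inl (Or.inl (Or.inl (Or.inr ⟨a, b, h⟩)))
    · exact Or.inl (Or.inl (Or.inr ⟨a, b, h⟩))
    · exact Or.inl (Or.inr ⟨a, b, h⟩)
    · exact Or.inr ⟨a, b, h⟩
  · rintro ((((rfl | ⟨a, b, h⟩) | ⟨a, b, h⟩) | ⟨a, b, h⟩) | ⟨a, b, h⟩)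
    · exact ⟨x1, x2⟩
    · exact ⟨a, b⟩
    · exact ⟨a, b⟩
    · exact ⟨a, b⟩
    · exact ⟨a, b⟩

end Cfsg.Agent.S1641
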