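import Cfsg.Statements.S1642
import Cfsg.Agent.H7_CoT
import Cfsg.Agent.H7_Co2
import Cfsg.Agent.H7_M24b
import Cfsg.Agent.H7_CoS

set_option autoImplicit false
open Cfsg

namespace Cfsg.Agent.S1642


open Cfsg.Agent.H7.Golay Cfsg.Agent.H7.Oct Cfsg.Agent.H7.L1 Cfsg.Agent.H7.L3 Cfsg.Agent.H7.L4 Cfsg.Agent.H7.M24 Cfsg.Agent.H7.M24b
open Cfsg.Agent.H7.Co Cfsg.Agent.H7.Co2 Cfsg.Agent.H7.CoS Cfsg.Agent.H7.CoT

def fD : GolayPt → ℤ := fun p => if (2481708 : ℕ).testBit (ix p) = true then 2 else 0

def fS : GolayPt → ℤ := fun p => if (2052 : ℕ).testBit (ix p) = true then 4 else 0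

theorem fD_mem : fD ∈ leechLattice := by
  rw [mem_leech_iff]
  left
  refine ⟨by decide +kernel, by decide +kernel, ?_⟩
  have : cls fD 2 = ofMask 2481708 := by decide +kernel
  rw [this, ofMask_mem_supports (by norm_num)]
  rw [mem_codeL_iff]
  decide +kernel

theorem fS_mem : fS ∈ leechLattice := by
  rw [mem_leech_iff]
  left
  refine ⟨by decide +kernel, by decide +kernel, ?_⟩
  have : cls fS 2 = ofMask 0 := by decide +kernel
  rw [this, ofMask_mem_supports (by norm_num)]
  rw [mem_codeL_iff]
  decide +kernel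

def vD : leechLattice := ⟨fD, fD_mem⟩
def vS : leechLattice := ⟨fS, fS_mem⟩

theorem fD_inv : ∀ i, fD (projInv i) = fD i := by decide +kernel
theorem fS_inv : ∀ i, fS (projInv i) = fS i := by decide +kernel
theorem pi_ne : ∀ i, projInv i ≠ i := by decide +kernel
theorem pi_symm : ∀ i, projInv.symm i = projInv i := by decide +kernel

theorem oct_chk : octL.all (fun m => !(((List.range 24).all fun i => m.testBit i == m.testBit (ix (projInv (pt i)))) && Nat.ble 6 (pc (Nat.land m 2481708)))) = true := by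
  decide +kernel

theorem ff {x : GolayPt → ℤ} (hx : x ∈ leechLattice) (hn : sqNorm x = 32) (h1 : dotInt fD x = 24) (hf : ∀ i, x (projInv i) = x i) : False := by
  have hsum : ∑ p ∈ ofMask 2481708, x p = 12 := by
    have h2 : dotInt fD x = ∑ p ∈ ofMask 2481708, 2 * x p := by
      unfold dotInt fD
      rw [ofMask, Finset.sum_filter]
      apply Finset.sum_congr rfl
      intro p _
      split_ifs <;> simp
    rw [h2, ← Finset.mul_sum] at h1
    omega
  have hm := mem_minV.2 ⟨hx, hn⟩
  unfold minV at hm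
  rw [List.mem_append, List.mem_append] at hm
  rcases hm with hm | hm | hm
  · obtain ⟨p, q, hpq, a, b, ha, hb, rfl⟩ := mem_famA.1 hm
    simp only [Pi.add_apply] at hsum
    rw [Finset.sum_add_distrib] at hsum
    have e : ∀ (r : GolayPt) (c : ℤ), ∑ i ∈ ofMask 2481708, (Pi.single r c : GolayPt → ℤ) i = if r ∈ ofMask 2481708 then c else 0 := by
      intro r c
      simp [Finset.sum_pi_single]
    rw [e, e] at hsum
    split_ifs at hsum <;> omega
  · obtain ⟨o, ho, h0, h2, -⟩ := mem_famB.1 hm
    have hle : (12 : ℤ) ≤ ∑ p ∈ o ∩ ofMask 2481708, 2 := by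
      rw [← hsum, ← Finset.sum_subset (s₁ := o ∩ ofMask 2481708) (s₂ := ofMask 2481708) (f := x) Finset.inter_subset_right
        (fun p hp hnp => h0 p fun hpo => hnp (Finset.mem_inter.2 ⟨hpo, hp⟩))]
      apply Finset.sum_le_sum
      intro p hp
      rcases h2 p (Finset.mem_inter.1 hp).1 with h | h <;> omega
    rw [Finset.sum_const, nsmul_eq_mul] at hle
    have h6 : 6 ≤ (o ∩ ofMask 2481708).card := by omega
    obtain ⟨m, hm, rfl⟩ := mem_octads_iff'.1 ho
    have hc := List.all_eq_true.1 oct_chk m hm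
    rw [← ofMask_and, card_ofMask] at h6
    have hinv : ∀ p, p ∈ ofMask m ↔ projInv p ∈ ofMask m := by
      intro p
      constructor
      · intro hp
        by_contra hcon
        have := h0 _ hcon
        rw [hf p] at this
        rcases h2 p hp with h | h <;> omega
      · intro hp
        by_contra hcon
        have := h0 _ hcon
        rw [← hf p] at this
        rcases h2 _ hp with h | h <;> omega
    have ht : ((List.range 24).all fun i => m.testBit i == m.testBit (ix (projInv (pt i)))) = true := by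
      rw [List.all_eq_true]
      intro i hi
      rw [List.mem_range] at hi
      have := hinv (pt i)
      rw [mem_ofMask, mem_ofMask, ix_pt i hi] at this
      rw [beq_iff_eq]
      exact Bool.eq_iff_iff.2 this
    rw [ht] at hc
    have h7 : Nat.ble 6 (pc (Nat.land m 2481708)) = true := by rw [Nat.ble_eq]; exact h6
    rw [h7] at hc
    exact absurd hc (by decide)
  · obtain ⟨c, hc, p, hq⟩ := mem_famC.1 hm
    have h2 := hf p
    rw [hq, hq, if_neg (pi_ne p), if_pos rfl] at h2
    split_ifs at h2 <;> omega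


/-- Some involution of the Higman–Sims group acts without fixed points on its 100 points. -/
theorem result (v w : ↥Cfsg.leechLattice) (hv : Cfsg.sqNorm (v : Cfsg.GolayPt → ℤ) = 48) (hw : Cfsg.sqNorm (w : Cfsg.GolayPt → ℤ) = 48) (hvw : Cfsg.dotInt (v : Cfsg.GolayPt → ℤ) (w : Cfsg.GolayPt → ℤ) = -32) : ∃ g : ↥Cfsg.Co0, g • v = v ∧ g • w = w ∧ orderOf g = 2 ∧ ∀ x ∈ {x : ↥Cfsg.leechLattice | Cfsg.sqNorm (x : Cfsg.GolayPt → ℤ) = 32 ∧ Cfsg.dotInt (v : Cfsg.GolayPt → ℤ) (x : Cfsg.GolayPt → ℤ) = 24 ∧ Cfsg.dotInt (w : Cfsg.GolayPt → ℤ) (x : Cfsg.GolayPt → ℤ) = -24}, g • x ≠ x := by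
  have e1 : Nm v = 48 := hv
  have e2 : Nm w = 48 := hw
  have e3 : Dt v w = -32 := hvw
  have hs : Nm (v + w) = 32 := by
    have h1 := nm_add v w
    omega
  have hsv : Dt (v + w) v = 16 := by
    have h1 := dt_add v w v
    rw [dt_self, dt_comm w v] at h1
    omega
  have hD : Nm vD = 48 := by
    show sqNorm fD = 48
    decide +kernel
  have hS : Nm vS = 32 := by
    show sqNorm fS = 32
    decide +kernel
  have hSD : Dt vS vD = 16 := by
    show dotInt fS fD = 16
    decide +kernel
  obtain ⟨g, g1, g2⟩ := pair48_16 vD vS v (v + w) hD e1 hS hs hSD hsv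
  set σ : M24 := ⟨projInv, projInv_mem⟩ with hσ
  have f1 : pe σ • vD = vD := by
    apply Subtype.ext
    rw [pe_coe]
    funext i
    show fD (projInv.symm i) = fD i
    rw [pi_symm, fD_inv]
  have f2 : pe σ • vS = vS := by
    apply Subtype.ext
    rw [pe_coe]
    funext i
    show fS (projInv.symm i) = fS i
    rw [pi_symm, fS_inv]
  have hord : orderOf (pe σ) = 2 := by
    rw [orderOf_injective pe pe_injective, orderOf_eq_prime_iff]
    constructor
    · apply Subtype.ext
      refine Equiv.ext fun i => ?_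
      show projInv (projInv i) = i
      rw [← pi_symm (projInv i), Equiv.symm_apply_apply]
    · intro h
      exact pi_ne none (congrFun (congrArg (fun f : M24 => (f.1 : GolayPt → GolayPt)) h) none)
  have key : ∀ y : leechLattice, y = v ∨ y = v + w → (g * pe σ * g⁻¹) • y = y := by
    intro y hy
    rw [mul_smul, mul_smul]
    rcases hy with rfl | rfl
    · rw [← g1, inv_smul_smul, f1]
    · rw [← g2, inv_smul_smul, f2]
  refine ⟨g * pe σ * g⁻¹, key v (Or.inl rfl), ?_, ?_, ?_⟩
  · have h1 := key v (Or.inl rfl)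
    have h2 := key (v + w) (Or.inr rfl)
    rw [smul_add'', h1] at h2
    exact add_left_cancel h2
  · rw [← hord]
    exact orderOf_injective (MulAut.conj g).toMonoidHom (MulAut.conj g).injective (pe σ)
  · rintro x ⟨x1, x2, x3⟩ hx
    set y := g⁻¹ • x with hy
    have hxy : x = g • y := by rw [hy, smul_inv_smul]
    have hfix : pe σ • y = y := by
      rw [hxy, mul_smul, mul_smul, inv_smul_smul] at hx
      have := congrArg (fun z => g⁻¹ • z) hx
      simpa only [inv_smul_smul] using this
    have n1 : Nm y = 32 := by rw [hy, nm_smul]; exact x1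
    have n2 : Dt vD y = 24 := by
      rw [← dt_smul g, g1, ← hxy]; exact x2
    refine ff y.2 n1 n2 fun i => ?_
    have := congrFun (congrArg (fun z : leechLattice => (z : GolayPt → ℤ)) hfix) i
    rw [pe_coe] at this
    rw [← pi_symm i]
    exact this

end Cfsg.Agent.S1642
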