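import Cfsg.Statements.S1686
import Mathlib
import Cfsg.Agent.H26_O7
import Cfsg.Agent.S0292

set_option autoImplicit false
open Cfsg

namespace Cfsg.Agent.S1686


/-- In the presented Fischer group Fi₂₂, the subgroup generated by the images of b, …, i is isomorphic to PΩ(7, 3), the commutator subgroup of the isometry group of the quadratic form x₀² + x₁y₁ + x₂y₂ + x₃y₃ over the integers mod 3, modulo its centre. -/
theorem result : Nonempty ((((Subgroup.closure ({Cfsg.Spor.Fi22.b, Cfsg.Spor.Fi22.c, Cfsg.Spor.Fi22.d, Cfsg.Spor.Fi22.e, Cfsg.Spor.Fi22.f, Cfsg.Spor.Fi22.g, Cfsg.Spor.Fi22.h, Cfsg.Spor.Fi22.i} : Set (FreeGroup Cfsg.Spor.Fi22.Gen))).map (PresentedGroup.mk (Cfsg.Spor.coxRelators Cfsg.Spor.Fi22.edges ∪ {r | r ∈ Cfsg.Spor.Fi22.extra})))) ≃* Cfsg.POmega (ZMod 3) (Cfsg.quadFormOdd 3 (ZMod 3))) := by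
  have h := Cfsg.Agent.S0292.result (F := ZMod 3) (q := 3) (ZMod.card 3) (by decide) 3 le_rfl
  simp only [Finset.prod_range_succ, Finset.prod_range_zero] at h
  norm_num at h
  have h2 : Nat.card (Cfsg.POmega (ZMod 3) (Cfsg.quadFormOdd 3 (ZMod 3))) = 4585351680 := by omega
  obtain ⟨e⟩ := Cfsg.Agent.H26.O7.main7 h2
  exact ⟨(MulEquiv.subgroupCongr Cfsg.Agent.H8.Fi22M.map_K).trans e⟩

end Cfsg.Agent.S1686
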