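import Cfsg.Statements.S1691
import Mathlib
import Cfsg.Agent.H8_Cox

set_option autoImplicit false
set_option linter.constructorNameAsVariable false
open Cfsg

namespace Cfsg.Agent.S1691


open Cfsg.Spor

theorem rel1 (r : FreeGroup Fi24.Gen) (hr : r ∈ coxRelators Fi24.edges ∪ {r | r ∈ Fi24.extra}) :
    FreeGroup.lift (fun _ => (-1 : ℤˣ)) r = 1 := by
  rcases hr with ⟨a, -, b, -, rfl⟩ | hr
  · simp only [map_pow, map_mul, FreeGroup.lift_apply_of]
    rw [show (-1 : ℤˣ) * -1 = 1 by decide, one_pow]
  · simp only [Set.mem_ofPred_eq, Fi24.extra, List.mem_cons, List.not_mem_nil, or_false] at hr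
    rcases hr with rfl | rfl
    · simp only [map_pow, map_mul, map_inv, FreeGroup.lift_apply_of]
      decide
    · simp only [map_pow, map_mul, FreeGroup.lift_apply_of]
      decide

/-- the sign -/
def sgn : Fi24 →* ℤˣ := PresentedGroup.toGroup rel1

/-- the images in the abelianization -/
def t (a : Fi24.Gen) : Abelianization Fi24 := Abelianization.of (PresentedGroup.of a)

theorem pairs (a b : Fi24.Gen) : (t a * t b) ^ coxLabel Fi24.edges a b = 1 := by
  have h1 : (PresentedGroup.of a * PresentedGroup.of b : Fi24) ^ coxLabel Fi24.edges a b = 1 := by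
    have h2 := Cfsg.Agent.H8.Cox.lift_of_rel (coxRelators Fi24.edges ∪ {r | r ∈ Fi24.extra})
    have h3 := (Cfsg.Agent.H8.Cox.cox_iff Fi24.edges (PresentedGroup.of (rels := coxRelators Fi24.edges ∪ {r | r ∈ Fi24.extra}))).1
      (fun r hr => h2 r (Or.inl hr)) a (by cases a <;> decide) b (by cases b <;> decide)
    exact h3
  rw [t, t, ← map_mul, ← map_pow, h1, map_one]

theorem tsq (a : Fi24.Gen) : t a * t a = 1 := by
  have h := pairs a a
  have e : coxLabel Fi24.edges a a = 1 := by cases a <;> decide
  rwa [e, pow_one] at h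

theorem teq {a b : Fi24.Gen} (h : coxLabel Fi24.edges a b = 3) : t a = t b := by
  have h1 := pairs a b
  rw [h, mul_pow] at h1
  have h2 : ∀ c : Fi24.Gen, t c ^ 3 = t c := by
    intro c
    rw [pow_succ, pow_two, tsq, one_mul]
  rw [h2, h2] at h1
  calc t a = t a * (t b * t b) := by rw [tsq, mul_one]
    _ = t b := by rw [← mul_assoc, h1, one_mul]

theorem tall (a : Fi24.Gen) : t a = t .d := by
  have e1 : t .l = t .k := teq (by decide)
  have e2 : t .k = t .a := teq (by decide)
  have e3 : t .a = t .b := teq (by decide)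
  have e4 : t .b = t .c := teq (by decide)
  have e5 : t .c = t .d := teq (by decide)
  have e6 : t .d = t .e := teq (by decide)
  have e7 : t .d = t .h := teq (by decide)
  have e8 : t .e = t .f := teq (by decide)
  have e9 : t .f = t .g := teq (by decide)
  have e10 : t .g = t .j := teq (by decide)
  have e11 : t .h = t .i := teq (by decide)
  cases a
  · rw [e1, e2, e3, e4, e5]
  · rw [e2, e3, e4, e5]
  · rw [e3, e4, e5]
  · rw [e4, e5]
  · rw [e5]
  · rfl
  · rw [e6]
  · rw [e6, e8]
  · rw [e6, e8, e9]
  · rw [e6, e8, e9, e10]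
  · rw [e7]
  · rw [e7, e11]

theorem ztop : Subgroup.zpowers (t .d) = ⊤ := by
  have h1 : (⊤ : Subgroup Fi24) ≤ (Subgroup.zpowers (t .d)).comap (Abelianization.of (G := Fi24)) := by
    rw [← PresentedGroup.closure_range_of, Subgroup.closure_le]
    rintro _ ⟨a, rfl⟩
    have h2 : t a ∈ Subgroup.zpowers (t .d) := by
      rw [tall a]
      exact Subgroup.mem_zpowers (t .d)
    exact h2
  rw [eq_top_iff]
  intro q _
  obtain ⟨g, rfl⟩ := QuotientGroup.mk_surjective q
  exact h1 (Subgroup.mem_top g)

theorem tne : t .d ≠ 1 := by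
  intro h
  have h1 : Abelianization.lift sgn (t .d) = -1 := by
    rw [t, Abelianization.lift_apply_of]
    exact PresentedGroup.toGroup.of rel1
  rw [h, map_one] at h1
  exact absurd h1 (by decide)

/-- The commutator subgroup of the presented group Fi₂₄ has index 2 (the presented group is Fi₂₄′:2 with Fi₂₄′ its derived subgroup). -/
theorem result : (commutator Cfsg.Spor.Fi24).index = 2 := by
  have h1 : orderOf (t .d) = 2 := orderOf_eq_prime (by rw [pow_two]; exact tsq _) tne
  have h2 : Nat.card (Abelianization Fi24) = 2 := by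
    rw [← h1, ← Nat.card_zpowers, ztop, Subgroup.card_top]
  exact h2

end Cfsg.Agent.S1691
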