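import Cfsg.Statements.S1717
import Mathlib
import Cfsg.Agent.H16_AutL5
import Cfsg.Agent.H5_GL
import Cfsg.Agent.H4_Util

set_option autoImplicit false
open Cfsg

namespace Cfsg.Agent.S1717

open Cfsg.Agent.H16.AutL Cfsg.Agent.H16.AutG Matrix

theorem z2 : ∀ a : ZMod 2, a = 0 ∨ a = 1 := by decide

/-- general argument -/
theorem gen {G L : Type*} [Group G] [Finite G] [Group L] [Finite L] (s : L) (hs : orderOf s = 2)
    (hL : ∀ P : Sylow 2 (Subgroup.centralizer ({s} : Set L)), ∀ x : Subgroup.centralizer ({s} : Set L), x ∈ P →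
      (∀ y ∈ P, x * y = y * x) → x = 1 ∨ (x : L) = s)
    (z : G) (hz : orderOf z = 2) (C : Subgroup G) (hC : C = Subgroup.centralizer ({z} : Set G))
    (e : C ≃* Subgroup.centralizer ({s} : Set L)) (T : Sylow 2 C) :
    ¬ 2 ∣ ((T : Subgroup C).map (Subgroup.subtype C)).index := by
  haveI : Fact (Nat.Prime 2) := ⟨Nat.prime_two⟩
  intro hdvd
  have hzC : z ∈ C := by rw [hC, Subgroup.mem_centralizer_singleton_iff]
  have hzc : ∀ c : C, c * ⟨z, hzC⟩ = ⟨z, hzC⟩ * c := by
    rintro ⟨c, hc⟩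
    apply Subtype.ext
    rw [hC] at hc
    exact Subgroup.mem_centralizer_singleton_iff.mp hc
  have hoz : orderOf (⟨z, hzC⟩ : C) = 2 := by rw [Subgroup.orderOf_mk]; exact hz
  have hzT : (⟨z, hzC⟩ : C) ∈ (T : Subgroup C) :=
    Cfsg.Agent.H4.Util.mem_sylow_of_central T hzc (k := 1) (by rw [pow_one]; exact hoz)
  -- the centre of `T`
  have hZT : ∀ x ∈ (T : Subgroup C), (∀ y ∈ (T : Subgroup C), x * y = y * x) → x = 1 ∨ x = ⟨z, hzC⟩ := by
    obtain ⟨T', hT'⟩ : ∃ T' : Sylow 2 (Subgroup.centralizer ({s} : Set L)), ∀ x, x ∈ (T : Subgroup C) ↔ e x ∈ T' := by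
      refine ⟨T.mapSurjective (f := e.toMonoidHom) e.surjective, ?_⟩
      intro x
      constructor
      · intro hx
        exact ⟨x, hx, rfl⟩
      · rintro ⟨y, hy, hyx⟩
        have : y = x := e.injective hyx
        rw [← this]; exact hy
    have key : ∀ x ∈ (T : Subgroup C), (∀ y ∈ (T : Subgroup C), x * y = y * x) → x = 1 ∨ ((e x : Subgroup.centralizer ({s} : Set L)) : L) = s := by
      intro x hx hxc
      rcases hL T' (e x) ((hT' x).mp hx) (by
        intro y hy
        have h1 : e.symm y ∈ (T : Subgroup C) := by rw [hT', MulEquiv.apply_symm_apply]; exact hy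
        have h2 := congrArg e (hxc _ h1)
        rwa [map_mul, map_mul, MulEquiv.apply_symm_apply] at h2) with h3 | h3
      · left
        exact (map_eq_one_iff e e.injective).mp h3
      · exact Or.inr h3
    intro x hx hxc
    rcases key x hx hxc with h1 | h1
    · exact Or.inl h1
    · right
      rcases key _ hzT (fun y _ => (hzc y).symm) with h2 | h2
      · exfalso
        rw [h2, orderOf_one] at hoz
        norm_num at hoz
      · exact e.injective (Subtype.ext (h1.trans h2.symm))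
  set T0 := (T : Subgroup C).map C.subtype with hT0
  have hT0p : IsPGroup 2 T0 := T.isPGroup'.map _
  obtain ⟨Q, hQ⟩ := hT0p.exists_le_sylow
  have hne : T0 ≠ (Q : Subgroup G) := by
    intro h
    rw [h] at hdvd
    exact Q.not_dvd_index hdvd
  obtain ⟨y, hyQ, hyT, hyN⟩ := Cfsg.Agent.H4.Util.exists_normalizer_gt Q.isPGroup' (lt_of_le_of_ne hQ hne)
  have hzT0 : z ∈ T0 := ⟨_, hzT, rfl⟩
  have h1 : y * z * y⁻¹ ∈ T0 := (Subgroup.mem_normalizer_iff.mp hyN z).mp hzT0
  obtain ⟨w, hw, hwz⟩ := h1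
  have hwz : (w : G) = y * z * y⁻¹ := hwz
  have hwc : ∀ v ∈ (T : Subgroup C), w * v = v * w := by
    intro v hv
    apply Subtype.ext
    show (w : G) * v = v * w
    rw [hwz]
    have hv0 : (v : G) ∈ T0 := ⟨v, hv, rfl⟩
    have h2 : y⁻¹ * v * y ∈ T0 := (Subgroup.mem_normalizer_iff''.mp hyN v).mp hv0
    obtain ⟨u, hu, huv⟩ := h2
    have huv : (u : G) = y⁻¹ * v * y := huv
    have h3 : (u : G) * z = z * u := congrArg Subtype.val (hzc u)
    rw [huv] at h3
    calc y * z * y⁻¹ * v = y * (z * (y⁻¹ * v * y)) * y⁻¹ := by group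
      _ = y * (y⁻¹ * v * y * z) * y⁻¹ := by rw [h3]
      _ = v * (y * z * y⁻¹) := by group
  have hyz : y * z * y⁻¹ = z := by
    rcases hZT w hw hwc with h2 | h2
    · exfalso
      rw [h2] at hwz
      have h3 : y * z * y⁻¹ = 1 := hwz.symm
      rw [mul_inv_eq_one] at h3
      have h4 : z = 1 := mul_eq_left.mp h3
      rw [h4, orderOf_one] at hz
      norm_num at hz
    · rw [← hwz, h2]
  have hyC : y ∈ C := by
    rw [hC, Subgroup.mem_centralizer_singleton_iff]
    exact mul_inv_eq_iff_eq_mul.mp hyz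
  -- maximality
  have h8 : (T : Subgroup C) ≤ ((Q : Subgroup G) ⊓ C).subgroupOf C := by
    intro x hx
    exact ⟨hQ ⟨x, hx, rfl⟩, x.2⟩
  have h9 : IsPGroup 2 (((Q : Subgroup G) ⊓ C).subgroupOf C) :=
    (Q.isPGroup'.to_le inf_le_left).of_equiv (Subgroup.subgroupOfEquivOfLe inf_le_right).symm
  have h10 := T.is_maximal' h9 h8
  have h11 : (⟨y, hyC⟩ : C) ∈ ((Q : Subgroup G) ⊓ C).subgroupOf C := ⟨hyQ, hyC⟩
  rw [h10] at h11
  exact hyT ⟨_, h11, rfl⟩

abbrev L := SpecialLinearGroup (Fin 5) (ZMod 2)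

theorem center_bot {x : L} (hx : x ∈ Subgroup.center L) : x = 1 := by
  have h1 : Nat.card (Subgroup.center L) = 1 := by
    rw [Cfsg.Agent.H5.GL.card_center_SL (F := ZMod 2) (q := 2) (by rw [ZMod.card]) 5 (by norm_num)]
    norm_num
  have h2 := Subgroup.card_eq_one.mp h1
  rw [h2, Subgroup.mem_bot] at hx
  exact hx

theorem mk_inj {x y : L} (h : (QuotientGroup.mk x : L ⧸ Subgroup.center L) = QuotientGroup.mk y) : x = y := by
  rw [QuotientGroup.eq] at h
  exact inv_mul_eq_one.mp (center_bot h)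

theorem sl_part (s : L) (hs : (s : Matrix (Fin 5) (Fin 5) (ZMod 2)) = Matrix.transvection 0 1 1) :
    orderOf s = 2 ∧ ∀ P : Sylow 2 (Subgroup.centralizer ({s} : Set L)), ∀ x : Subgroup.centralizer ({s} : Set L), x ∈ P →
      (∀ y ∈ P, x * y = y * x) → x = 1 ∨ (x : L) = s := by
  haveI : Fact (Nat.Prime 2) := ⟨Nat.prime_two⟩
  have hs' : s = tv ((1 : ZMod 2) • ee (0 : Fin 5)) (ee 1) := by
    rw [tv_ee (show (0 : Fin 5) ≠ 1 by decide) 1]
    apply Subtype.ext
    rw [hs]
    rfl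
  have hdot : ((ee 1 : Fin 5 → ZMod 2)) ⬝ᵥ ((1 : ZMod 2) • ee 0) = 0 := by
    rw [one_smul]; exact ee_dot_ee (by decide)
  have hs1 : s ≠ 1 := by
    intro h
    rw [h] at hs
    have := congrFun (congrFun hs 0) 1
    simp [Matrix.transvection] at this
  have hs2 : s ^ 2 = 1 := by rw [hs']; exact tv_pow_p (p := 2) hdot
  have hos : orderOf s = 2 := orderOf_eq_prime hs2 hs1
  refine ⟨hos, ?_⟩
  set C := Subgroup.centralizer ({s} : Set L) with hC
  obtain ⟨P0, hP0⟩ := exists_sylow_center (p := 2) (F := ZMod 2) (ι := Fin 5) (by simp) (ee_ne 0) (ee_ne 1)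
    (ee_dot_ee (by decide) : (ee 1 : Fin 5 → ZMod 2) ⬝ᵥ ee 0 = 0)
  have hsP0 : s ∈ (P0 : Subgroup L) ∧ ∀ g ∈ (P0 : Subgroup L), s * g = g * s := by
    have h1 : (QuotientGroup.mk s : L ⧸ Subgroup.center L) ∈ zc (P0 : Subgroup L) := by
      rw [hP0]
      exact ⟨1, by rw [hs']⟩
    obtain ⟨w, hw, hwc, hsw⟩ := h1
    rw [mk_inj hsw]
    exact ⟨hw, hwc⟩
  have hP0C : (P0 : Subgroup L) ≤ C := by
    intro g hg
    rw [hC, Subgroup.mem_centralizer_singleton_iff]
    exact (hsP0.2 g hg).symm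
  intro P x hx hxc
  -- the Sylow subgroup of L
  obtain ⟨Q, hQ⟩ := (P.isPGroup'.map C.subtype).exists_le_sylow
  have hcard : Nat.card ((P : Subgroup C).map C.subtype) = Nat.card (Q : Subgroup L) := by
    rw [Subgroup.card_map_of_injective C.subtype_injective]
    rw [Nat.card_congr (Sylow.equiv P (P0.subtype hP0C)).toEquiv]
    rw [Nat.card_congr (Sylow.equiv Q P0).toEquiv]
    exact Nat.card_congr (Subgroup.subgroupOfEquivOfLe hP0C).toEquiv
  have hPQ : (P : Subgroup C).map C.subtype = (Q : Subgroup L) := Subgroup.eq_of_le_of_card_ge hQ hcard.ge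
  obtain ⟨v', φ', -, -, hdot', hz⟩ := sylow_center (p := 2) (F := ZMod 2) (ι := Fin 5) (by simp) Q
  have key : ∀ y : C, y ∈ P → (∀ w ∈ P, y * w = w * y) → (y : L) = 1 ∨ (y : L) = tv v' φ' := by
    intro y hy hyc
    have h1 : (QuotientGroup.mk (y : L) : L ⧸ Subgroup.center L) ∈ zc (Q : Subgroup L) := by
      refine ⟨y, ?_, ?_, rfl⟩
      · rw [← hPQ]; exact ⟨y, hy, rfl⟩
      · intro g hg
        rw [← hPQ] at hg
        obtain ⟨w, hw, rfl⟩ := hg
        exact congrArg Subtype.val (hyc w hw)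
    rw [hz] at h1
    obtain ⟨a, ha⟩ := h1
    have h2 := mk_inj ha
    rcases z2 a with rfl | rfl
    · left; rw [h2, zero_smul, tv_zero_left]
    · right; rw [h2, one_smul]
  have hsC : s ∈ C := by rw [hC, Subgroup.mem_centralizer_singleton_iff]
  have hsc : ∀ c : C, c * ⟨s, hsC⟩ = ⟨s, hsC⟩ * c := by
    rintro ⟨c, hc⟩
    apply Subtype.ext
    exact Subgroup.mem_centralizer_singleton_iff.mp hc
  have hsP : (⟨s, hsC⟩ : C) ∈ (P : Subgroup C) :=
    Cfsg.Agent.H4.Util.mem_sylow_of_central P hsc (k := 1) (by rw [pow_one, Subgroup.orderOf_mk]; exact hos)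
  rcases key _ hsP (fun w _ => (hsc w).symm) with h1 | h1
  · exact absurd h1 hs1
  · rcases key x hx hxc with h2 | h2
    · left; exact Subtype.ext h2
    · right; rw [h2]; exact h1.symm

/-- Let G be a finite group with an involution z whose centraliser C is isomorphic to the centraliser of a transvection of SL(5, 2). Then a Sylow 2-subgroup of C, viewed in G, is a Sylow 2-subgroup of G (its index in G is odd). -/
theorem result {G : Type*} [Group G] [Finite G] (s : Matrix.SpecialLinearGroup (Fin 5) (ZMod 2)) (hs : (s : Matrix (Fin 5) (Fin 5) (ZMod 2)) = Matrix.transvection 0 1 1) (z : G) (hz : orderOf z = 2) (e : (Subgroup.centralizer ({z} : Set G)) ≃* Subgroup.centralizer ({s} : Set (Matrix.SpecialLinearGroup (Fin 5) (ZMod 2)))) (T : Sylow 2 (Subgroup.centralizer ({z} : Set G))) : ¬ 2 ∣ ((T : Subgroup (Subgroup.centralizer ({z} : Set G))).map (Subgroup.subtype (Subgroup.centralizer ({z} : Set G)))).index := by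
  obtain ⟨h1, h2⟩ := sl_part s hs
  exact gen s h1 h2 z hz _ rfl e T

end Cfsg.Agent.S1717
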