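import Cfsg.Statements.S1753
import Mathlib
import Cfsg.Agent.H11_TI

set_option autoImplicit false
universe u
open Cfsg

namespace Cfsg.Agent.S1753

/-- Let K be any property of groups. (1) If G is a minimal counterexample relative to K — a finite non-abelian simple group not satisfying K such that every finite non-abelian simple group of smaller order satisfies K — then every proper subgroup of G is a K-group (all its non-abelian simple sections satisfy K), since such sections have smaller order than G. (2) Consequently (induction on the order), if every finite non-abelian simple group all of whose proper subgroups are K-groups satisfies K, then every finite non-abelian simple group satisfies K. -/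
theorem result (K : ∀ (X : Type u) [Group X], Prop) :
    (∀ (G : Type u) [Group G], Cfsg.IsMinCounterexampleWith K G → Cfsg.IsKProperWith K G) ∧
      ((∀ (X : Type u) [Group X] [Finite X], IsSimpleGroup X → ¬ IsMulCommutative X → Cfsg.IsKProperWith K X → K X) →
        ∀ (G : Type u) [Group G] [Finite G], IsSimpleGroup G → ¬ IsMulCommutative G → K G) := by
  have hsec : ∀ (G : Type u) [Group G] [Finite G] (H : Subgroup G), H ≠ ⊤ → ∀ (H2 : Subgroup H) (N : Subgroup H2) [N.Normal],
      Nat.card (H2 ⧸ N) < Nat.card G := by
    intro G _ _ H hH H2 N _
    refine lt_of_le_of_lt ?_ (H11.Cores.card_lt_of_lt_top (lt_top_iff_ne_top.mpr hH))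
    exact le_trans (Nat.card_le_card_of_surjective _ (QuotientGroup.mk_surjective)) (Subgroup.card_le_card_group H2)
  refine ⟨fun G _ hG H hH H2 N hN hs hna => ?_, fun h G _ _ hs hna => ?_⟩
  · obtain ⟨hfin, _, _, _, hmin⟩ := hG
    haveI := hN
    exact hmin (H2 ⧸ N) hs hna (hsec G H hH H2 N)
  · have main : ∀ (n : ℕ) (G : Type u) [Group G] [Finite G], Nat.card G = n → IsSimpleGroup G →
        ¬ IsMulCommutative G → K G := by
      intro n
      induction n using Nat.strong_induction_on with
      | _ n ih =>
        intro G _ _ hcard hs hna
        apply h G hs hna
        intro H hH H2 N _ hs' hna'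
        exact ih _ (hcard ▸ hsec G H hH H2 N) (H2 ⧸ N) rfl hs' hna'
    exact main _ G rfl hs hna

end Cfsg.Agent.S1753
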