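import Cfsg.Statements.S1754
import Mathlib
import Cfsg.Agent.H11_TI

set_option autoImplicit false
open Cfsg

namespace Cfsg.Agent.S1754

/-- Let A be a standard subgroup of the finite group G (A quasisimple, C_G(A) tightly embedded of even order, A commuting elementwise with no other conjugate of itself, and N_G(A) = N_G(C_G(A))), and let t be an involution of G centralizing A. Then the centralizer of t lies in the normalizer of A; in particular A, viewed inside C_G(t), is a component of C_G(t). -/
theorem result {G : Type*} [Group G] [Finite G]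
    (A : Subgroup G) (hA : Cfsg.IsStandardSubgroup A) (t : G) (ht : orderOf t = 2) (htA : t ∈ Subgroup.centralizer (A : Set G)) :
    Subgroup.centralizer ({t} : Set G) ≤ Subgroup.normalizer (A : Set G) ∧
      Cfsg.IsComponent (A.subgroupOf (Subgroup.centralizer ({t} : Set G))) := by
  obtain ⟨hq, ⟨heven, hte⟩, _, hN⟩ := hA
  have h1 : Subgroup.centralizer ({t} : Set G) ≤ Subgroup.normalizer (A : Set G) := by
    intro g hg
    rw [hN]
    by_contra hgN
    have hodd := hte g hgN
    have hg' : g * t * g⁻¹ = t := by
      rw [Subgroup.mem_centralizer_singleton_iff] at hg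
      rw [hg]; group
    have hmem : t ∈ Subgroup.centralizer (A : Set G) ⊓
        (Subgroup.centralizer (A : Set G)).map (MulAut.conj g).toMonoidHom := by
      refine ⟨htA, ?_⟩
      rw [← hg']
      exact H11.TI.conj_mem_map_conj.mpr htA
    have h2 : orderOf t ∣ Nat.card ↥(Subgroup.centralizer (A : Set G) ⊓
        (Subgroup.centralizer (A : Set G)).map (MulAut.conj g).toMonoidHom) :=
      Subgroup.orderOf_dvd_natCard _ hmem
    rw [ht] at h2
    exact (Nat.not_even_iff_odd.mpr hodd) (even_iff_two_dvd.mpr h2)
  have hAC : A ≤ Subgroup.centralizer ({t} : Set G) := by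
    intro a ha
    rw [Subgroup.mem_centralizer_singleton_iff]
    exact (Subgroup.mem_centralizer_iff.mp htA a ha)
  refine ⟨h1, ?_, H11.Components.IsQuasisimple.of_mulEquiv hq (Subgroup.subgroupOfEquivOfLe hAC).symm⟩
  have : (A.subgroupOf (Subgroup.centralizer ({t} : Set G))).Normal :=
    (Subgroup.normal_subgroupOf_iff_le_normalizer hAC).mpr h1
  exact this.isSubnormal

end Cfsg.Agent.S1754
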