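import Cfsg.Statements.S1781
import Mathlib
import Cfsg.Agent.H11_TI

set_option autoImplicit false
open Cfsg

namespace Cfsg.Agent.S1781

/-- Let A be an abelian 2-subgroup of the finite group G such that every conjugate of A equals A or meets A trivially, and let g ∈ G with g A g⁻¹ ≠ A. Then either the subgroup of those elements of A that normalize g A g⁻¹ is an elementary abelian 2-group, or A and g A g⁻¹ commute elementwise. -/
theorem result {G : Type*} [Group G] [Finite G] (A : Subgroup G)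
    (hA2 : IsPGroup 2 ↥A) (hAa : IsMulCommutative ↥A)
    (hti : ∀ h : G, A.map (MulAut.conj h).toMonoidHom = A ∨ A.map (MulAut.conj h).toMonoidHom ⊓ A = ⊥)
    (g : G) (hg : A.map (MulAut.conj g).toMonoidHom ≠ A) :
    Cfsg.IsElementaryAbelian 2 (A ⊓ Subgroup.normalizer ((A.map (MulAut.conj g).toMonoidHom : Subgroup G) : Set G)) ∨
      ⁅A, A.map (MulAut.conj g).toMonoidHom⁆ = ⊥ := by
  by_cases h : ∃ x ∈ A, x ∈ Subgroup.normalizer ((A.map (MulAut.conj g).toMonoidHom : Subgroup G) : Set G) ∧ x ^ 2 ≠ 1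
  · obtain ⟨x, hx, hxB, hx2⟩ := h
    exact Or.inr (H11.TI.ti_abelian_conj_dichotomy A hA2 hAa hti g hg x hx hxB hx2)
  · push Not at h
    left
    refine ⟨⟨⟨fun x y => ?_⟩⟩, fun x hx => h x hx.1 hx.2⟩
    have := hAa.is_comm.comm (⟨x, x.2.1⟩ : A) ⟨y, y.2.1⟩
    have h2 : (x : G) * (y : G) = (y : G) * (x : G) := congrArg Subtype.val this
    exact Subtype.ext h2

end Cfsg.Agent.S1781
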