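import Cfsg.Statements.S1782
import Mathlib
import Cfsg.Agent.H11_TI

set_option autoImplicit false
open Cfsg

namespace Cfsg.Agent.S1782

/-- Let S be a finite 2-group and Δ a set of subgroups of S closed under conjugation by S, all of the same order, each with nontrivial Frattini subgroup, and such that two distinct members of Δ meet trivially. Then any two distinct members of Δ commute elementwise. -/
theorem result {S : Type*} [Group S] [Finite S] (hS : IsPGroup 2 S)
    (Δ : Set (Subgroup S)) (hinv : ∀ s : S, ∀ R ∈ Δ, R.map (MulAut.conj s).toMonoidHom ∈ Δ)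
    (hΦ : ∀ R ∈ Δ, frattini ↥R ≠ ⊥) (hord : ∀ R ∈ Δ, ∀ T ∈ Δ, Nat.card ↥R = Nat.card ↥T)
    (hti : ∀ R ∈ Δ, ∀ T ∈ Δ, R = T ∨ R ⊓ T = ⊥) :
    ∀ R ∈ Δ, ∀ T ∈ Δ, R ≠ T → ⁅R, T⁆ = ⊥ := by
  intro R hR T hT hne
  apply H11.TI.ti_family_commute (⊤ : Subgroup S) (hS.to_subgroup ⊤) Δ (fun R _ => le_top)
    (fun s _ R hR => hinv s R hR) _ hord hti R hR T hT hne
  intro R hR
  by_contra h
  push Not at h
  apply hΦ R hR
  apply H11.TI.frattini_eq_bot_of_sq
  intro x
  exact Subtype.ext (h x x.2)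

end Cfsg.Agent.S1782
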