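import Cfsg.Statements.S1784
import Mathlib
import Cfsg.Agent.H11_Symp

set_option autoImplicit false
open Cfsg

namespace Cfsg.Agent.S1784

/-- Let G be a finite group and let z be an involution of G such that Q, the generalized Fitting subgroup of the centralizer C of z, is a 2-group of symplectic type (every characteristic abelian subgroup of Q is cyclic); suppose Q is extraspecial, and view Q inside G. Let α be an involution of C that is not in Q, and let Q₀ be the subgroup of those q ∈ Q whose commutator with α lies in the subgroup generated by z. Then (a) the subgroup generated by the commutators α q α⁻¹ q⁻¹, q ∈ Q, equals the centre of Q₀; and (b) if Q₀ is not contained in the product of the centralizer of α in Q with the subgroup generated by z, then some element of Q conjugates α to α z. -/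
theorem result {G : Type*} [Group G] [Finite G] (z : G) (hz : orderOf z = 2) (hQ : Cfsg.IsOfSymplecticType ↥(Cfsg.generalizedFittingSubgroup ↥(Subgroup.centralizer ({z} : Set G)))) (hE : Cfsg.IsExtraspecial 2 ↥(Cfsg.generalizedFittingSubgroup ↥(Subgroup.centralizer ({z} : Set G))))
    (α : G) (hα : orderOf α = 2) (hαC : α ∈ Subgroup.centralizer ({z} : Set G)) (hαQ : α ∉ (Cfsg.generalizedFittingSubgroup ↥(Subgroup.centralizer ({z} : Set G))).map (Subgroup.centralizer ({z} : Set G)).subtype)
    (Q₀ : Subgroup G) (hQ₀ : ∀ q : G, q ∈ Q₀ ↔ (q ∈ (Cfsg.generalizedFittingSubgroup ↥(Subgroup.centralizer ({z} : Set G))).map (Subgroup.centralizer ({z} : Set G)).subtype ∧ α * q * α⁻¹ * q⁻¹ ∈ Subgroup.zpowers z)) :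
    Subgroup.closure ((fun q : G => α * q * α⁻¹ * q⁻¹) '' ((Cfsg.generalizedFittingSubgroup ↥(Subgroup.centralizer ({z} : Set G))).map (Subgroup.centralizer ({z} : Set G)).subtype : Set G)) = (Subgroup.center ↥Q₀).map Q₀.subtype ∧
      (¬ Q₀ ≤ ((Cfsg.generalizedFittingSubgroup ↥(Subgroup.centralizer ({z} : Set G))).map (Subgroup.centralizer ({z} : Set G)).subtype ⊓ Subgroup.centralizer ({α} : Set G)) ⊔ Subgroup.zpowers z →
        ∃ q ∈ (Cfsg.generalizedFittingSubgroup ↥(Subgroup.centralizer ({z} : Set G))).map (Subgroup.centralizer ({z} : Set G)).subtype, q * α * q⁻¹ = α * z) := by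
  set C := Subgroup.centralizer ({z} : Set G) with hC
  set F := Cfsg.generalizedFittingSubgroup ↥C with hF
  have hzC : z ∈ C := Subgroup.mem_centralizer_singleton_iff.mpr rfl
  have hzF : (⟨z, hzC⟩ : C) ∈ F := H11.Symp.mem_fstar z
  obtain ⟨z', hX'⟩ := H28.Xsp.Xsp.exists_of_isExtraspecial hE
  have hz1 : z ≠ 1 := by rintro rfl; simp at hz
  have hz' : (⟨z, hzC⟩ : C) = z' := by
    rcases hX'.cen _ hzF (fun y _ => Subtype.ext (by
      have := Subgroup.mem_centralizer_singleton_iff.mp y.2
      exact this.symm)) with h | h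
    · exact absurd (congrArg Subtype.val h) hz1
    · exact h
  have hX := hX'.map C.subtype C.subtype_injective
  rw [← hz'] at hX
  change H28.Xsp.Xsp (F.map C.subtype) z at hX
  set Q := F.map C.subtype with hQdef
  have hα2 : α * α = 1 := by rw [← sq, ← hα]; exact pow_orderOf_eq_one α
  have hαN : α ∈ Subgroup.normalizer (Q : Set G) := by
    have h6 := Subgroup.le_normalizer_map (H := F) C.subtype
    rw [Subgroup.normalizer_eq_top] at h6
    exact h6 ⟨⟨α, hαC⟩, trivial, rfl⟩
  have hnon : ∃ q ∈ Q, α * q * α⁻¹ * q⁻¹ ∉ Subgroup.zpowers z := by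
    by_contra hcon
    push Not at hcon
    have h1 := H11.Symp.mem_sup_centralizer_of_index_two hX α hα2 hαN
      (H11.Symp.relIndex_le_two hX α hαN hcon)
    have hnorm : Subgroup.centralizer (Q : Set G) ≤ Subgroup.normalizer (Q : Set G) :=
      Subgroup.centralizer_le_normalizer _
    obtain ⟨q, hq, c, hc, hcq⟩ := (H1.Basic.mem_sup_iff_of_le_normalizer hnorm).mp h1
    have hQC : Q ≤ C := Subgroup.map_subtype_le _
    have hcC : c ∈ C := by
      have : c = q⁻¹ * α := by rw [← hcq]; group
      rw [this]; exact C.mul_mem (C.inv_mem (hQC hq)) hαC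
    have hcF : (⟨c, hcC⟩ : C) ∈ F := by
      apply H11.FStar.centralizer_generalizedFitting_le
      rw [Subgroup.mem_centralizer_iff]
      intro y hy
      apply Subtype.ext
      exact (Subgroup.mem_centralizer_iff.mp hc) (y : G) ⟨y, hy, rfl⟩
    apply hαQ
    rw [← hcq]
    exact Q.mul_mem hq ⟨_, hcF, rfl⟩
  constructor
  · exact H11.Symp.S1784_a hX α hα2 hαN hnon Q₀ hQ₀
  · intro hle
    obtain ⟨q, hq, hqn⟩ := Set.not_subset.mp hle
    obtain ⟨hqQ, hqz⟩ := (hQ₀ q).mp hq
    refine ⟨q, hqQ, ?_⟩
    rw [H28.Xsp.mem_zpowers_of_sq hX.sq] at hqz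
    rcases hqz with h1 | h1
    · exfalso
      apply hqn
      apply (le_sup_left : Q ⊓ Subgroup.centralizer ({α} : Set G) ≤ _)
      refine ⟨hqQ, Subgroup.mem_centralizer_singleton_iff.mpr ?_⟩
      calc q * α = (α * q * α⁻¹ * q⁻¹)⁻¹ * (α * q) := by group
        _ = α * q := by rw [h1]; group
    · have h2 : α * z = z * α := by
        have := Subgroup.mem_centralizer_singleton_iff.mp hαC
        exact this
      calc q * α * q⁻¹ = (α * q * α⁻¹ * q⁻¹)⁻¹ * α := by group
        _ = z * α := by rw [h1, hX.zinv]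
        _ = α * z := h2.symm

end Cfsg.Agent.S1784
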