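import Cfsg.Statements.S1785
import Cfsg.Agent.H11_Conn3

set_option autoImplicit false
open Cfsg

namespace Cfsg.Agent.S1785

/-- Let X be a finite 2-group having a normal elementary abelian subgroup of order at least 32. Then (a) for any two elementary abelian subgroups A, B of X of order 8 there is a chain A = A₁, A₂, …, Aₙ = B of elementary abelian subgroups of order 8 in which consecutive members commute elementwise; and (b) every elementary abelian subgroup of X of order 4 is contained in an elementary abelian subgroup of order 8. -/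
theorem result {X : Type*} [Group X] [Finite X]
    (hX : IsPGroup 2 X) (E : Subgroup X) [E.Normal] (hE : Cfsg.IsElementaryAbelian 2 E) (hE32 : 32 ≤ Nat.card ↥E) :
    (∀ A B : Subgroup X, Cfsg.IsElementaryAbelian 2 A → Nat.card ↥A = 8 → Cfsg.IsElementaryAbelian 2 B → Nat.card ↥B = 8 →
        Relation.ReflTransGen
          (fun C D : Subgroup X => Cfsg.IsElementaryAbelian 2 C ∧ Nat.card ↥C = 8 ∧ Cfsg.IsElementaryAbelian 2 D ∧ Nat.card ↥D = 8 ∧ ⁅C, D⁆ = ⊥)
          A B) ∧
      (∀ V : Subgroup X, Cfsg.IsElementaryAbelian 2 V → Nat.card ↥V = 4 →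
        ∃ A : Subgroup X, V ≤ A ∧ Cfsg.IsElementaryAbelian 2 A ∧ Nat.card ↥A = 8) := by
  classical
  haveI : Fact (Nat.Prime 2) := ⟨Nat.prime_two⟩
  obtain ⟨F, hFE, hF⟩ := Cfsg.Agent.H11.Conn.exists_sub (p := 2) (k := 3) (hX.to_subgroup E) (by omega)
  constructor
  · intro A B hA hAc hB hBc
    have h1 := Cfsg.Agent.H11.Conn.eight_chain hX hE hE32 hFE hF hA hAc
    have h2 := Cfsg.Agent.H11.Conn.eight_chain hX hE hE32 hFE hF hB hBc
    have h3 := Cfsg.Agent.H11.Conn.symm_chain
      (fun A B (h : (IsElementaryAbelian 2 A ∧ Nat.card A = 8) ∧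
      (IsElementaryAbelian 2 B ∧ Nat.card B = 8) ∧ ∀ a ∈ A, ∀ b ∈ B, a * b = b * a) =>
        (⟨h.2.1, h.1, fun b hb a ha => (h.2.2 a ha b hb).symm⟩ :
          (IsElementaryAbelian 2 B ∧ Nat.card B = 8) ∧
      (IsElementaryAbelian 2 A ∧ Nat.card A = 8) ∧ ∀ a ∈ B, ∀ b ∈ A, a * b = b * a)) h2
    refine Relation.ReflTransGen.mono ?_ _ _ (h1.trans h3)
    rintro C D ⟨h4, h5, h6⟩
    refine ⟨h4.1, h4.2, h5.1, h5.2, ?_⟩
    rw [Subgroup.commutator_eq_bot_iff_le_centralizer]
    intro c hc
    rw [Subgroup.mem_centralizer_iff]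
    intro d hd
    exact (h6 c hc d hd).symm
  · intro V hV hVc
    obtain ⟨x, hx⟩ : ∃ x : V, x ≠ 1 := by
      have : Nontrivial V := by
        rw [← Finite.one_lt_card_iff_nontrivial, hVc]; norm_num
      exact exists_ne 1
    have hx1 : (x : X) ≠ 1 := fun h => hx (Subtype.ext h)
    have hx2 := hV.2 x x.2
    have hxo : orderOf (x : X) = 2 := orderOf_eq_prime hx2 hx1
    obtain ⟨y, hyV, hy⟩ : ∃ y ∈ V, y ∉ Subgroup.zpowers (x : X) := by
      by_contra hcon
      push Not at hcon
      have := Cfsg.Agent.H11.Conn.card_of_lt (hX.to_subgroup V) (k := 1) (by omega)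
      have h1 := Subgroup.card_le_of_le (show V ≤ Subgroup.zpowers (x : X) from hcon)
      rw [Nat.card_zpowers, hxo] at h1
      omega
    have hy2 := hV.2 y hyV
    have hcom := fun (a : X) (ha : a ∈ V) (b : X) (hb : b ∈ V) => Cfsg.Agent.H11.Conn.ea_comm' hV ha hb
    have hcom' : ∀ a ∈ Subgroup.zpowers (x : X), a * y = y * a := fun a ha =>
      hcom a ((Subgroup.zpowers_le.mpr x.2) ha) y hyV
    have hVeq : Subgroup.zpowers (x : X) ⊔ Subgroup.zpowers y = V := by
      apply Subgroup.eq_of_le_of_card_ge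
      · exact sup_le (Subgroup.zpowers_le.mpr x.2) (Subgroup.zpowers_le.mpr hyV)
      · rw [Cfsg.Agent.H11.Conn.card_adj (p := 2) hy2 hcom' hy, Nat.card_zpowers, hxo, hVc]
    have h4 := Cfsg.Agent.H11.Conn.fix_two_two hX hE hx2 hy2 (hcom _ x.2 _ hyV) hE32
    obtain ⟨e, he, heV⟩ : ∃ e ∈ E ⊓ Subgroup.centralizer ({(x : X)} : Set X) ⊓
        Subgroup.centralizer ({y} : Set X), e ∉ V := by
      by_contra hcon
      push Not at hcon
      have h5 : E ⊓ Subgroup.centralizer ({(x : X)} : Set X) ⊓ Subgroup.centralizer ({y} : Set X) = V :=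
        Subgroup.eq_of_le_of_card_ge hcon (by rw [hVc]; exact h4)
      have h6 : V ≤ E := by
        rw [← h5]; exact inf_le_left.trans inf_le_left
      have h7 : E ≤ V := by
        rw [← h5]
        intro e he
        exact ⟨⟨he, Subgroup.mem_centralizer_singleton_iff.mpr
          (Cfsg.Agent.H11.Conn.ea_comm' hE he (h6 x.2))⟩, Subgroup.mem_centralizer_singleton_iff.mpr
          (Cfsg.Agent.H11.Conn.ea_comm' hE he (h6 hyV))⟩
      have := Subgroup.card_le_of_le h7
      omega
    have he2 := hE.2 e he.1.1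
    have heV' : ∀ a ∈ V, a * e = e * a := by
      rw [← hVeq]
      have h1 : Subgroup.zpowers (x : X) ⊔ Subgroup.zpowers y ≤ Subgroup.centralizer ({e} : Set X) := by
        apply sup_le
        · rw [Subgroup.zpowers_le]
          exact Subgroup.mem_centralizer_singleton_iff.mpr
            (Subgroup.mem_centralizer_singleton_iff.mp he.1.2).symm
        · rw [Subgroup.zpowers_le]
          exact Subgroup.mem_centralizer_singleton_iff.mpr
            (Subgroup.mem_centralizer_singleton_iff.mp he.2).symm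
      intro a ha
      exact Subgroup.mem_centralizer_singleton_iff.mp (h1 ha)
    refine ⟨V ⊔ Subgroup.zpowers e, le_sup_left, Cfsg.Agent.H11.Conn.ea_adj hV he2 heV', ?_⟩
    rw [Cfsg.Agent.H11.Conn.card_adj (p := 2) he2 heV' heV, hVc]

end Cfsg.Agent.S1785
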