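import Cfsg.Statements.S1958
import Cfsg.Agent.H13_Misc

set_option autoImplicit false
open Cfsg

namespace Cfsg.Agent.S1958

/-- Let `G` be a finite group, `p` a prime, and `x, y` commuting elements of order `p` whose centralizers `C_G(x)` and `C_G(y)` are both solvable. Then `O_{p'}(C_G(x)) ∩ C_G(y) = O_{p'}(C_G(y)) ∩ C_G(x)` (balance). -/
theorem result {G : Type*} [Group G] [Finite G]
    (p : ℕ) [Fact p.Prime] (x y : G) (hx : orderOf x = p) (hy : orderOf y = p) (hxy : x * y = y * x)
    (hCx : Group.IsSolvable ↥(Subgroup.centralizer ({x} : Set G))) (hCy : Group.IsSolvable ↥(Subgroup.centralizer ({y} : Set G))) :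
    Cfsg.centralizerPPrimeCore p x ⊓ Subgroup.centralizer {y} = Cfsg.centralizerPPrimeCore p y ⊓ Subgroup.centralizer {x} := by
  have key : ∀ x y : G, orderOf x = p → x * y = y * x →
      Group.IsSolvable ↥(Subgroup.centralizer ({y} : Set G)) →
      Cfsg.centralizerPPrimeCore p x ⊓ Subgroup.centralizer {y} ≤ Cfsg.centralizerPPrimeCore p y := by
    intro x y hx hxy hs
    set H := Subgroup.centralizer ({y} : Set G) with hH
    have hxH : x ∈ H := by
      rw [hH, Subgroup.mem_centralizer_singleton_iff]; exact hxy
    set D := Cfsg.centralizerPPrimeCore p x ⊓ H with hD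
    set x' : H := ⟨x, hxH⟩ with hx'
    have hcop : (Nat.card D).Coprime p := by
      refine Nat.Coprime.coprime_dvd_left (Subgroup.card_dvd_of_le (inf_le_left)) ?_
      unfold Cfsg.centralizerPPrimeCore
      rw [Subgroup.card_map_of_injective (Subgroup.subtype_injective _)]
      exact H1.Nilp.pPrimeCore_coprime p
    have hP : IsPGroup p (Subgroup.zpowers x') := by
      rw [IsPGroup.iff_card]
      refine ⟨1, ?_⟩
      rw [Nat.card_zpowers, pow_one, Subgroup.orderOf_mk, hx]
    have h1 := H13.Misc.le_pPrimeCore_of_centralizer (p := p) (X := H)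
      (H22.PSolv.isPSolvable_of_isSolvable hs) (P := Subgroup.zpowers x') (D := D.subgroupOf H) hP ?_ ?_ ?_
    · intro d hd
      exact ⟨⟨d, hd.2⟩, h1 (Subgroup.mem_subgroupOf.2 hd), rfl⟩
    · rw [Nat.card_congr (Subgroup.subgroupOfEquivOfLe (inf_le_right)).toEquiv]; exact hcop
    · intro d hd
      rw [Subgroup.mem_centralizer_iff]
      rintro _ ⟨k, rfl⟩
      have h2 : (d : G) ∈ Cfsg.centralizerPPrimeCore p x := (Subgroup.mem_subgroupOf.1 hd).1
      have h3 : (d : G) ∈ Subgroup.centralizer ({x} : Set G) := Subgroup.map_subtype_le _ h2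
      rw [Subgroup.mem_centralizer_singleton_iff] at h3
      have h4 : Commute x' d := Subtype.ext h3.symm
      exact (h4.zpow_left k).eq
    · intro c hc
      rw [Subgroup.mem_centralizer_iff] at hc
      have hc1 : x * (c : G) = c * x := congrArg Subtype.val (hc x' (Subgroup.mem_zpowers x'))
      have hcx : (c : G) ∈ Subgroup.centralizer ({x} : Set G) := by
        rw [Subgroup.mem_centralizer_singleton_iff]; exact hc1.symm
      have hnorm : Subgroup.centralizer ({x} : Set G) ≤
          Subgroup.normalizer ((Cfsg.centralizerPPrimeCore p x : Subgroup G) : Set G) := by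
        unfold Cfsg.centralizerPPrimeCore
        have := H1.Nilp.pPrimeCore_normal (G := Subgroup.centralizer ({x} : Set G)) p
        have h := Subgroup.le_normalizer_map (H := Cfsg.pPrimeCore p (Subgroup.centralizer ({x} : Set G)))
          (Subgroup.centralizer ({x} : Set G)).subtype
        rwa [Subgroup.normalizer_eq_top, ← MonoidHom.range_eq_map, Subgroup.range_subtype] at h
      have h5 := Subgroup.mem_normalizer_iff.1 (hnorm hcx)
      rw [Subgroup.mem_normalizer_iff]
      intro d
      rw [Subgroup.mem_subgroupOf, Subgroup.mem_subgroupOf, hD, Subgroup.mem_inf, Subgroup.mem_inf]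
      refine and_congr ?_ ⟨fun _ => SetLike.coe_mem _, fun _ => SetLike.coe_mem _⟩
      exact h5 d
  apply le_antisymm
  · exact le_inf (key x y hx hxy hCy) (inf_le_left.trans (Subgroup.map_subtype_le _))
  · exact le_inf (key y x hy hxy.symm hCx) (inf_le_left.trans (Subgroup.map_subtype_le _))

end Cfsg.Agent.S1958
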