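import Cfsg.Statements.S1966
import Cfsg.Agent.H13_Alp
import Cfsg.Agent.H11_Cores

set_option autoImplicit false
open Cfsg

namespace Cfsg.Agent.S1966

/-- Let p be a prime, G a finite group with Sylow p-subgroup S and 𝓕 a conjugation family for S in G. Then the members of 𝓕 containing O_p(G) still form a conjugation family for S in G. -/
theorem result {G : Type*} [Group G] [Finite G] {p : ℕ} [Fact p.Prime] (S : Sylow p G) (𝓕 : Set (Subgroup G)) (h : Cfsg.IsConjugationFamily 𝓕 (S : Subgroup G)) : Cfsg.IsConjugationFamily {T : Subgroup G | T ∈ 𝓕 ∧ Cfsg.pCore p G ≤ T} (S : Subgroup G) := by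
  obtain ⟨h1, h2⟩ := h
  refine ⟨fun T hT => h1 T hT.1, ?_⟩
  intro A g hne hAS hgA
  have hPn : (Cfsg.pCore p G).Normal := Subgroup.sSup_normal _ (fun _ h => h.1)
  have hPS : Cfsg.pCore p G ≤ (S : Subgroup G) := by
    obtain ⟨R, hR⟩ := (H11.Cores.pCore_isPGroup (G := G) p).exists_le_sylow
    obtain ⟨x, hx⟩ := MulAction.exists_smul_eq G R S
    have h3 : H13.Syl.cj x (R : Subgroup G) = (S : Subgroup G) := by rw [← hx]; rfl
    rw [← h3, ← H13.Syl.cj_eq_of_normal x (Cfsg.pCore p G)]
    exact H13.Syl.cj_mono hR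
  have hconj : ∀ (y : G), (fun a => y⁻¹ * a * y) '' ((Cfsg.pCore p G : Subgroup G) : Set G) =
      ((Cfsg.pCore p G : Subgroup G) : Set G) := by
    intro y
    ext a
    constructor
    · rintro ⟨b, hb, rfl⟩
      have := hPn.conj_mem b hb y⁻¹
      simpa using this
    · intro ha
      exact ⟨y * a * y⁻¹, hPn.conj_mem a ha y, by group⟩
  obtain ⟨n, T, x, h3, h4, h5, h6, h7⟩ := h2 (A ∪ (Cfsg.pCore p G : Subgroup G)) g
    (hne.mono Set.subset_union_left) (Set.union_subset hAS hPS) (by
      rw [Set.image_union, hconj]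
      exact Set.union_subset hgA hPS)
  refine ⟨n, T, x, h3, fun i => ⟨h4 i, ?_⟩, h5, fun h => Set.subset_union_left.trans (h6 h),
    fun i h => (Set.image_mono Set.subset_union_left).trans (h7 i h)⟩
  rcases i with ⟨i, hi⟩
  cases i with
  | zero => exact Set.subset_union_right.trans (h6 hi)
  | succ j =>
    have h8 := (Set.image_mono Set.subset_union_right).trans (h7 ⟨j, by omega⟩ hi)
    rw [hconj] at h8
    exact h8

end Cfsg.Agent.S1966
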