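import Cfsg.Statements.S1968
import Cfsg.Agent.H13_CF2
import Mathlib.Data.Set.Finite.Lemmas

set_option autoImplicit false
open Cfsg

namespace Cfsg.Agent.S1968

/-- Let p be a prime, G a finite group with Sylow p-subgroup S and W a conjugacy functor for p on G with Z(P) ≤ W(P) for every p-subgroup P. Let A be a subgroup of Z(S) normalized by N_G(W(S)) that is not weakly closed in S with respect to G. Then there is a subgroup T of S, well placed in S with respect to W, such that: A ≤ T; N_G(W(N_S(T))) normalizes A; N_S(T) is a Sylow p-subgroup of N_G(T); A ≤ Z(N_S(T)); and A is not weakly closed in N_S(T) with respect to N_G(T), that is, some N_G(T)-conjugate of A other than A lies in N_S(T). -/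
theorem result {G : Type*} [Group G] [Finite G] {p : ℕ} [Fact p.Prime] (S : Sylow p G) (W : Subgroup G → Subgroup G) (hW : Cfsg.IsConjugacyFunctor p W) (hWZ : ∀ P : Subgroup G, IsPGroup p ↥P → P ⊓ Subgroup.centralizer (P : Set G) ≤ W P) (A : Subgroup G) (hAZ : A ≤ (S : Subgroup G) ⊓ Subgroup.centralizer ((S : Subgroup G) : Set G)) (hAN : Subgroup.normalizer ((W (S : Subgroup G) : Subgroup G) : Set G) ≤ Subgroup.normalizer ((A : Subgroup G) : Set G)) (hnwc : ¬ Cfsg.IsWeaklyClosed A (S : Subgroup G)) : ∃ T : Subgroup G, Cfsg.IsWellPlaced p W (S : Subgroup G) T ∧ A ≤ T ∧ Subgroup.normalizer ((W ((S : Subgroup G) ⊓ Subgroup.normalizer ((T : Subgroup G) : Set G)) : Subgroup G) : Set G) ≤ Subgroup.normalizer ((A : Subgroup G) : Set G) ∧ ¬ p ∣ ((S : Subgroup G) ⊓ Subgroup.normalizer ((T : Subgroup G) : Set G)).relIndex (Subgroup.normalizer ((T : Subgroup G) : Set G)) ∧ A ≤ Subgroup.centralizer (((S : Subgroup G) ⊓ Subgroup.normalizer ((T : Subgroup G) : Set G) : Subgroup G) :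 Set G) ∧ ∃ g ∈ Subgroup.normalizer ((T : Subgroup G) : Set G), A.map (MulAut.conj g).toMonoidHom ≤ (S : Subgroup G) ⊓ Subgroup.normalizer ((T : Subgroup G) : Set G) ∧ A.map (MulAut.conj g).toMonoidHom ≠ A := by
  classical
  have hS := H13.Syl.isSylIn_sylow_top S
  have hAS : A ≤ (S : Subgroup G) := hAZ.trans inf_le_left
  -- existence of some well placed `T` with `A ≤ T` and `N(T) ≰ N(A)`
  have hex : ∃ T : Subgroup G, Cfsg.IsWellPlaced p W (S : Subgroup G) T ∧ A ≤ T ∧
      ¬ Subgroup.normalizer (T : Set G) ≤ Subgroup.normalizer (A : Set G) := by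
    by_contra hcon
    push Not at hcon
    apply hnwc
    refine ⟨hAS, fun g hg => ?_⟩
    have key := H13.Alp.alperin_abstract hS ⊥ inferInstance bot_le
      (fun B g => (A ≤ B → H13.Syl.cj g A = A) ∧ (A ≤ H13.Syl.cj g B → H13.Syl.cj g⁻¹ A = A))
      (by
        rintro B g h _ _ _ ⟨h1, h2⟩ ⟨h3, h4⟩
        constructor
        · intro h5
          rw [H13.Syl.cj_mul, h1 h5]
          apply h3
          have := H13.Syl.cj_mono (g := g) h5
          rwa [h1 h5] at this
        · intro h5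
          rw [H13.Syl.cj_mul] at h5
          rw [mul_inv_rev, H13.Syl.cj_mul, h4 h5]
          apply h2
          have h6 := h4 h5
          rw [← h6, H13.Syl.cj_le_iff, inv_inv]
          exact h5)
      (by
        rintro B g _ _ ⟨h1, h2⟩
        refine ⟨h2, fun h5 => ?_⟩
        rw [H13.Syl.cj_inv_cj] at h5
        rw [inv_inv]; exact h1 h5)
      (by
        rintro B C g hBC _ _ ⟨h1, h2⟩
        exact ⟨fun h => h1 (h.trans hBC), fun h => h2 (h.trans (H13.Syl.cj_mono hBC))⟩)
      (by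
        intro T _ hTS
        obtain ⟨x, hx⟩ := H13.CF.exists_wellPlaced hW hS hTS
        refine ⟨_, hx.1, ⟨x, rfl⟩, H13.CF.isSylIn_of_wellPlaced hS.2.1 hx 0, ?_⟩
        intro _ n hn
        refine ⟨fun h => H13.Syl.cj_eq_of_mem_normalizer (hcon _ hx h hn), fun h => ?_⟩
        rw [H13.Syl.cj_eq_of_mem_normalizer hn] at h
        exact H13.Syl.cj_eq_of_mem_normalizer (inv_mem (hcon _ hx h hn)))
      A hAS g hg
    exact key.1 le_rfl
  -- choose one with `|N_S(T)|` maximal
  obtain ⟨T, ⟨hT1, hT2, hT3⟩, hTmax⟩ := Set.exists_max_image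
    {T : Subgroup G | Cfsg.IsWellPlaced p W (S : Subgroup G) T ∧ A ≤ T ∧
      ¬ Subgroup.normalizer (T : Set G) ≤ Subgroup.normalizer (A : Set G)}
    (fun T => Nat.card ((S : Subgroup G) ⊓ Subgroup.normalizer (T : Set G) : Subgroup G))
    (Set.toFinite _) hex
  have hAL : A ≤ (S : Subgroup G) ⊓ Subgroup.normalizer (T : Set G) :=
    le_inf hAS (hT2.trans Subgroup.le_normalizer)
  have hAC : A ≤ Subgroup.centralizer (((S : Subgroup G) ⊓ Subgroup.normalizer ((T : Subgroup G) : Set G) : Subgroup G) : Set G) :=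
    (hAZ.trans inf_le_right).trans (Subgroup.centralizer_le (fun x hx => hx.1))
  have hLp : IsPGroup p ((S : Subgroup G) ⊓ Subgroup.normalizer (T : Set G) : Subgroup G) :=
    hS.2.1.to_le inf_le_left
  obtain ⟨g, hg, hgA⟩ := SetLike.not_le_iff_exists.1 hT3
  refine ⟨T, hT1, hT2, ?_, hT1.2 0, hAC, g, hg, ?_, fun h => hgA (H13.Syl.mem_normalizer_iff_cj.2 h)⟩
  · by_cases hLS : (S : Subgroup G) ⊓ Subgroup.normalizer (T : Set G) = (S : Subgroup G)
    · rw [hLS]; exact hAN
    · by_contra hcon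
      have h1 := H13.CF.isWellPlaced_tower hW hS.2.1 hT1 1
      have h2 := hTmax _ (show _ ∈ _ from ⟨h1, (le_inf hAL hAC).trans (hWZ _ hLp), hcon⟩)
      have h3 := H13.CF.card_lt_of_lt (H13.CF.tower_norm_lt hW hS.2.1 (T := T) 0 hLS)
      exact absurd h2 (not_le_of_gt h3)
  · have h1 := H13.Syl.cj_mono (g := g) hT2
    rw [H13.Syl.cj_eq_of_mem_normalizer hg] at h1
    exact h1.trans (le_inf hT1.1 Subgroup.le_normalizer)

end Cfsg.Agent.S1968
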