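import Cfsg.Statements.S1970
import Cfsg.Agent.H13_Sec4

set_option autoImplicit false
universe u
open Cfsg

namespace Cfsg.Agent.S1970

/-- Let p be a prime, G a finite group and W an isomorphism-invariant p-group functor (W assigns to every group Q a subgroup W(Q), nontrivial whenever Q is a nontrivial finite p-group, and every isomorphism from a finite p-group Q onto a group R carries W(Q) onto W(R)). Suppose that for every section G* = K/R of G with C_{G*}(O_p(G*)) ≤ O_p(G*) and every Sylow p-subgroup S* of G*, one has O_p(G*) ∩ (G*)' = O_p(G*) ∩ (N_{G*}(W(S*)))'. Then W controls transfer in every section G* of G: S* ∩ (G*)' = S* ∩ (N_{G*}(W(S*)))' for a Sylow p-subgroup S* of G*. -/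
theorem result {G : Type u} [Group G] [Finite G] {p : ℕ} [Fact p.Prime] (W : ∀ (Q : Type u) [Group Q], Subgroup Q) (hW : Cfsg.IsCharPFunctor.{u} p W) (hloc : ∀ (K R : Subgroup G) [hR : (R.subgroupOf K).Normal], Subgroup.centralizer ((Cfsg.pCore p (↥K ⧸ R.subgroupOf K) : Subgroup (↥K ⧸ R.subgroupOf K)) : Set (↥K ⧸ R.subgroupOf K)) ≤ Cfsg.pCore p (↥K ⧸ R.subgroupOf K) → ∀ T : Sylow p (↥K ⧸ R.subgroupOf K), Cfsg.pCore p (↥K ⧸ R.subgroupOf K) ⊓ commutator (↥K ⧸ R.subgroupOf K) = Cfsg.pCore p (↥K ⧸ R.subgroupOf K) ⊓ ⁅Subgroup.normalizer ((Cfsg.inducedFunctor (G := (↥K ⧸ R.subgroupOf K)) W ((T : Subgroup (↥K ⧸ R.subgroupOf K))) : Subgroup (↥K ⧸ R.subgroupOf K)) : Set (↥K ⧸ R.subgroupOf K)), Subgroup.normalizer ((Cfsg.inducedFunctor (G := (↥K ⧸ R.subgroupOf K)) W ((T : Subgroup (↥K ⧸ R.subgroupOf K))) : Subgroup (↥K ⧸ R.subgroupOf K)) : Set (↥K ⧸ R.subgroupOf K))⁆) : ∀ (K R : Subgroup G) [hR : (R.subgroupOf K).Normal], Cfsg.ControlsTransferIn p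 (Cfsg.inducedFunctor (G := (↥K ⧸ R.subgroupOf K)) W) ⊤ := by
  have h𝓦 : ∀ V ∈ ({W} : Set (∀ (Q : Type u) [Group Q], Subgroup Q)), Cfsg.IsCharPFunctor.{u} p V := by
    rintro V rfl; exact hW
  have h1 := H13.Sec.sec_induction (G := G)
    (fun X _ => Cfsg.FamilyControlsTransferIn p (H13.Sec.fam {W} X) ⊤)
    (fun X Y _ _ _ e h => H13.Sec.fct_of_equiv h𝓦 e h)
    (fun K R _ IH => H13.Sec.core_transfer h𝓦 IH (fun h => by
      obtain ⟨T⟩ : Nonempty (Sylow p (↥K ⧸ R.subgroupOf K)) := inferInstance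
      have h2 := hloc K R h T
      have hS := H13.Syl.isSylIn_sylow_top T
      have hPF : Cfsg.pCore p (↥K ⧸ R.subgroupOf K) ⊓ ⁅(⊤ : Subgroup (↥K ⧸ R.subgroupOf K)), ⊤⁆ ≤
          H13.Sec.Fsub (H13.Sec.fam {W} (↥K ⧸ R.subgroupOf K)) (T : Subgroup (↥K ⧸ R.subgroupOf K)) := by
        refine le_trans h2.le ?_
        refine le_trans ?_ (le_iSup₂_of_le (Cfsg.inducedFunctor (G := (↥K ⧸ R.subgroupOf K)) W)
          ⟨W, rfl, rfl⟩ le_rfl)
        exact inf_le_inf_right _ (H13.Sec.pCore_le_of_isSylIn hS)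
      refine H13.CF.fam_ctr_top_of hS ?_
      by_cases hTP : (T : Subgroup (↥K ⧸ R.subgroupOf K)) ≤ Cfsg.pCore p (↥K ⧸ R.subgroupOf K)
      · exact (inf_le_inf_right _ hTP).trans hPF
      · have hPn : (Cfsg.pCore p (↥K ⧸ R.subgroupOf K)).Normal := inferInstance
        have hP1 : Cfsg.pCore p (↥K ⧸ R.subgroupOf K) ≠ ⊥ := by
          intro h0
          apply hTP
          refine le_trans ?_ h
          rw [h0]
          intro x _
          rw [Subgroup.mem_centralizer_iff]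
          intro y hy
          rw [SetLike.mem_coe, Subgroup.mem_bot] at hy
          rw [hy, one_mul, mul_one]
        refine H13.Sec.inf_le_of_sup (P := Cfsg.pCore p (↥K ⧸ R.subgroupOf K))
          (H13.Sec.Fsub_le_commutator _ _)
          (H13.Sec.inf_commutator_le_sup h𝓦 hS hTP _ rfl
            (IH _ (H13.Sec.involves_quotient _) (H13.Sec.card_quotient_lt hP1)) ?_) hPF
        intro H hH
        exact H13.Sec.fct_subgroup h𝓦 H (IH H (H13.Sec.involves_subgroup H)
          (H13.Sec.card_subgroup_lt hH))))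
  intro K R hR
  have h2 := h1 (↥K ⧸ R.subgroupOf K) (H13.Sec.involves_section K R)
  simp only [H13.Sec.fam, Set.image_singleton] at h2
  exact H13.Sec.transfer_single_iff.1 h2

end Cfsg.Agent.S1970
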