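import Cfsg.Statements.S1972
import Cfsg.Agent.H13_MinT

set_option autoImplicit false
universe u
open Cfsg

namespace Cfsg.Agent.S1972

/-- Let p be a prime, G a finite group and W an isomorphism-invariant p-group functor (W assigns to every group Q a subgroup W(Q), nontrivial whenever Q is a nontrivial finite p-group, and every isomorphism from a finite p-group Q onto a group R carries W(Q) onto W(R)). Suppose that whenever G* = K/R is a section of G with C_{G*}(O_p(G*)) ≤ O_p(G*) and S* is a Sylow p-subgroup of G* with W(S*) not normal in G*, there is an element g of S* outside O_p(G*) such that [X, g, …, g] ≤ Y with p − 1 entries g, for every chief factor X/Y of G* with X ≤ O_p(G*). Then W controls transfer in every section of G. -/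
theorem result {G : Type u} [Group G] [Finite G] {p : ℕ} [Fact p.Prime] (W : ∀ (Q : Type u) [Group Q], Subgroup Q) (hW : Cfsg.IsCharPFunctor.{u} p W) (hloc : ∀ (K R : Subgroup G) [hR : (R.subgroupOf K).Normal], Subgroup.centralizer ((Cfsg.pCore p (↥K ⧸ R.subgroupOf K) : Subgroup (↥K ⧸ R.subgroupOf K)) : Set (↥K ⧸ R.subgroupOf K)) ≤ Cfsg.pCore p (↥K ⧸ R.subgroupOf K) → ∀ T : Sylow p (↥K ⧸ R.subgroupOf K), ¬ (Cfsg.inducedFunctor (G := (↥K ⧸ R.subgroupOf K)) W ((T : Subgroup (↥K ⧸ R.subgroupOf K)))).Normal → ∃ g : (↥K ⧸ R.subgroupOf K), g ∈ (T : Subgroup (↥K ⧸ R.subgroupOf K)) ∧ g ∉ Cfsg.pCore p (↥K ⧸ R.subgroupOf K) ∧ ∀ U V : Subgroup (↥K ⧸ R.subgroupOf K), Cfsg.IsChiefFactor U V → U ≤ Cfsg.pCore p (↥K ⧸ R.subgroupOf K) → Cfsg.iterCommutator U (Subgroup.zpowers g) (p - 1) ≤ V) : ∀ (K R : Subgroup G) [hR : (R.subgroupOf K).Normal], Cfsg.ControlsTransferIn p (Cfsg.inducedFunctor (G := (↥K ⧸ R.subgroupOf K)) W) ⊤ := by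
  have h𝓦 : ∀ V ∈ ({W} : Set (∀ (Q : Type u) [Group Q], Subgroup Q)), Cfsg.IsCharPFunctor.{u} p V := by
    rintro V rfl; exact hW
  have h1 := H13.Sec.sec_induction (G := G)
    (fun X _ => Cfsg.FamilyControlsTransferIn p (H13.Sec.fam {W} X) ⊤)
    (fun X Y _ _ _ e h => H13.Sec.fct_of_equiv h𝓦 e h)
    (fun K R _ IH => by
      by_contra hX
      obtain ⟨T⟩ : Nonempty (Sylow p (↥K ⧸ R.subgroupOf K)) := inferInstance
      have hS := H13.Syl.isSylIn_sylow_top T
      have hc := H13.MinT.constr h𝓦 IH hX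
      obtain ⟨g, hg1, hg2, hg3⟩ := hloc K R hc T (by
        intro hn
        apply hX
        have := H13.Sec.transfer_single_iff.2 (H13.Sec.ctr_of_normal hS hn)
        simpa only [H13.Sec.fam, Set.image_singleton] using this)
      obtain ⟨U, V, h2, h3, h4⟩ := H13.MinT.main_d h𝓦 ⟨W, rfl⟩ IH hX hS hg1 hg2
      exact h4 (hg3 U V h2 h3))
  intro K R hR
  have h2 := h1 (↥K ⧸ R.subgroupOf K) (H13.Sec.involves_section K R)
  simp only [H13.Sec.fam, Set.image_singleton] at h2
  exact H13.Sec.transfer_single_iff.1 h2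

end Cfsg.Agent.S1972
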