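import Cfsg.Statements.S1979
import Cfsg.Agent.H13_K2

set_option autoImplicit false
open Cfsg

namespace Cfsg.Agent.S1979

/-- Let P be a finite p-group and Q a subgroup of P containing every term of the K-sequence of P of nonnegative index (every even-indexed term and every odd-indexed term after the initial term P). Then the K-infinity subgroups of Q, computed in Q and viewed in P, equal those of P. -/
theorem result {P : Type*} [Group P] [Finite P] {p : ℕ} [Fact p.Prime] (hP : IsPGroup p P) (Q : Subgroup P) (hQ : ∀ n : ℕ, Cfsg.kSeqEven P n ≤ Q ∧ Cfsg.kSeqOdd P (n + 1) ≤ Q) : (Cfsg.kInfLower ↥Q).map Q.subtype = Cfsg.kInfLower P ∧ (Cfsg.kInfUpper ↥Q).map Q.subtype = Cfsg.kInfUpper P := by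
  have h1 := H13.K.K_eq_of (P := (⊤ : Subgroup P)) (Q := Q) le_top
    (fun n => by rw [← H13.K.kSeqEven_eq]; exact (hQ n).1)
    (fun n => by rw [← H13.K.kSeqOdd_eq]; exact (hQ n).2)
  have h2 : Cfsg.kInfLower P = H13.K.KLow (⊤ : Subgroup P) := by
    show (⨆ n, Cfsg.kSeqEven P n) = ⨆ n, H13.K.KE ⊤ n
    congr 1; ext1 n; exact H13.K.kSeqEven_eq P n
  have h3 : Cfsg.kInfUpper P = H13.K.KUpp (⊤ : Subgroup P) := by
    show (⨅ n, Cfsg.kSeqOdd P n) = ⨅ n, H13.K.KO ⊤ n
    congr 1; ext1 n; exact H13.K.kSeqOdd_eq P n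
  rw [h2, h3]
  exact ⟨(H13.K.induced_lower Q).trans h1.1, (H13.K.induced_upper Q).trans h1.2⟩

end Cfsg.Agent.S1979
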