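import Cfsg.Statements.S1981
import Cfsg.Agent.H13_K2

set_option autoImplicit false
open Cfsg

namespace Cfsg.Agent.S1981

/-- Let P be a finite p-group generated by its abelian normal subgroups. Then both K-infinity subgroups of P equal P. -/
theorem result {P : Type*} [Group P] [Finite P] {p : ℕ} [Fact p.Prime] (hP : IsPGroup p P) (hgen : ⨆ A ∈ {A : Subgroup P | A.Normal ∧ IsMulCommutative ↥A}, A = ⊤) : Cfsg.kInfLower P = ⊤ ∧ Cfsg.kInfUpper P = ⊤ := by
  have h2 : Cfsg.kInfLower P = H13.K.KLow (⊤ : Subgroup P) := by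
    show (⨆ n, Cfsg.kSeqEven P n) = ⨆ n, H13.K.KE ⊤ n
    congr 1; ext1 n; exact H13.K.kSeqEven_eq P n
  have h3 : Cfsg.kInfUpper P = H13.K.KUpp (⊤ : Subgroup P) := by
    show (⨅ n, Cfsg.kSeqOdd P n) = ⨅ n, H13.K.KO ⊤ n
    congr 1; ext1 n; exact H13.K.kSeqOdd_eq P n
  have key : ∀ A ∈ {A : Subgroup P | A.Normal ∧ IsMulCommutative ↥A}, ⁅A, A⁆ = ⊥ ∧
      (⊤ : Subgroup P) ≤ Subgroup.normalizer (A : Set P) := by
    rintro A ⟨hA1, hA2⟩
    refine ⟨?_, by rw [Subgroup.normalizer_eq_top A]⟩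
    rw [Subgroup.commutator_eq_bot_iff_le_centralizer]
    exact Subgroup.le_centralizer A
  rw [h2, h3]
  constructor
  · have h6 : (⊤ : Subgroup P) ≤ H13.K.KLow ⊤ := by
      refine hgen.ge.trans (iSup₂_le fun A hA => ?_)
      obtain ⟨h4, h5⟩ := key A hA
      exact (H13.K.abelian_le_KE h4 le_top h5 0).trans (le_iSup _ 0)
    exact eq_top_iff.2 h6
  · have h6 : (⊤ : Subgroup P) ≤ H13.K.KUpp ⊤ := by
      refine hgen.ge.trans (iSup₂_le fun A hA => ?_)
      obtain ⟨h4, h5⟩ := key A hA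
      exact le_iInf (fun n => H13.K.abelian_le_KO h4 le_top h5 n)
    exact eq_top_iff.2 h6

end Cfsg.Agent.S1981
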