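import Cfsg.Statements.S1986
import Cfsg.Agent.H13_WC3

set_option autoImplicit false
universe u
open Cfsg

namespace Cfsg.Agent.S1986

/-- Let p be a prime, G a finite group with Sylow p-subgroup S, K the lower K-infinity subgroup of S, and Z the subgroup of p-th powers of elements of Z(S). Then every element of Z commuting with all of N_G(K) is weakly closed in S with respect to G, and every subgroup of Z that is normal in N_G(K) is weakly closed in S with respect to G. -/
theorem result {G : Type u} [Group G] [Finite G] {p : ℕ} [Fact p.Prime] (S : Sylow p G) (Z : Subgroup G) (hZ : Z = Subgroup.closure ((fun z : G => z ^ p) '' (((S : Subgroup G) ⊓ Subgroup.centralizer (((S : Subgroup G) : Subgroup G) : Set G) : Subgroup G) : Set G))) : (∀ x ∈ Z ⊓ Subgroup.centralizer ((Subgroup.normalizer ((Cfsg.inducedFunctor Cfsg.kInfLower (S : Subgroup G) : Subgroup G) : Set G) : Subgroup G) : Set G), ∀ g : G, g * x * g⁻¹ ∈ (S : Subgroup G) → g * x * g⁻¹ = x) ∧ ∀ A : Subgroup G, A ≤ Z → Subgroup.normalizer ((Cfsg.inducedFunctor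 Cfsg.kInfLower (S : Subgroup G) : Subgroup G) : Set G) ≤ Subgroup.normalizer ((A : Subgroup G) : Set G) → Cfsg.IsWeaklyClosed A (S : Subgroup G) := by
  subst hZ
  have hS := H13.Syl.isSylIn_sylow_top S
  have hW := H13.Sec.induced_isConjugacyFunctor (X := G) (H13.K.isCharPFunctor_lower.{u} p)
  have hWZ : ∀ P : Subgroup G, IsPGroup p P → P ⊓ Subgroup.centralizer (P : Set G) ≤
      Cfsg.inducedFunctor Cfsg.kInfLower P := fun P _ => H13.WC.center_le_lower P
  have hloc : ∀ (H T : Subgroup G), T ≤ H → IsPGroup p T → ¬ p ∣ T.relIndex H →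
      ¬ H ≤ Subgroup.normalizer ((Cfsg.inducedFunctor Cfsg.kInfLower T : Subgroup G) : Set G) →
      ∃ g : G, g ∈ T ∧ g ∉ Cfsg.pCoreOf p H ∧
      ⁅⁅Cfsg.pCoreOf p H ⊓ Subgroup.centralizer ((Cfsg.pCoreOf p H : Subgroup G) : Set G),
        Subgroup.zpowers g⁆, Subgroup.zpowers g⁆ = ⊥ := by
    intro H T h1 h2 h3 h4
    rw [H13.K.induced_lower] at h4
    exact H13.WC.bad_rel ⟨h1, h2, h3⟩ (Or.inl h4)
  constructor
  · intro x hx g hg
    obtain ⟨hx1, hx2⟩ := Subgroup.mem_inf.1 hx
    have hcz : Subgroup.centralizer ((Subgroup.zpowers x : Subgroup G) : Set G) = Subgroup.centralizer {x} := by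
      rw [Subgroup.zpowers_eq_closure, Subgroup.centralizer_closure]
    have h1 := H13.WC.wc_quad hW hWZ hloc (A := Subgroup.zpowers x)
      (F := Subgroup.centralizer ((Subgroup.zpowers x : Subgroup G) : Set G))
      (Subgroup.centralizer_le_normalizer _) le_rfl hS (fun a ha => H13.WC.root_of_closure (by
        have : Subgroup.zpowers x ≤ _ := (Subgroup.zpowers_le).2 hx1
        exact this ha)) (by
          rw [top_inf_eq, hcz]
          intro y hy
          rw [Subgroup.mem_centralizer_singleton_iff]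
          exact Subgroup.mem_centralizer_iff.1 hx2 y hy) (Subgroup.mem_top g) (by
          rw [H13.Norm.cj_zpowers, Subgroup.zpowers_le]; exact hg)
    rw [hcz, Subgroup.mem_centralizer_singleton_iff] at h1
    rw [h1]; group
  · intro A hA hNA
    refine ⟨fun a ha => ?_, fun g hg => ?_⟩
    · obtain ⟨b, hb, rfl⟩ := H13.WC.root_of_closure (hA ha)
      exact pow_mem (Subgroup.mem_inf.1 hb).1 p
    · have h1 := H13.WC.wc_quad hW hWZ hloc (A := A) (F := Subgroup.normalizer (A : Set G)) le_rfl
        (Subgroup.centralizer_le_normalizer _) hS (fun a ha => H13.WC.root_of_closure (hA ha))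
        (by rw [top_inf_eq]; exact hNA) (Subgroup.mem_top g) hg
      exact H13.Syl.cj_eq_of_mem_normalizer h1

end Cfsg.Agent.S1986
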