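import Cfsg.Statements.S1998
import Cfsg.Agent.H13_MinT

set_option autoImplicit false
universe u
open Cfsg

namespace Cfsg.Agent.S1998

/-- Let p be a prime, G a finite group with Sylow p-subgroup S, and 𝓦 a nonempty set of isomorphism-invariant p-group functors (W assigns to every group Q a subgroup W(Q), nontrivial whenever Q is a nontrivial finite p-group, and every isomorphism from a finite p-group Q onto a group R carries W(Q) onto W(R)). Suppose the induced conjugacy functors control transfer in every section of G other than G itself, but not in G. Let T be the subgroup generated by the S ∩ (N_G(W(S)))', W ∈ 𝓦, and M = N_G(T ∩ O_p(G)). Then: C_G(O_p(G)) ≤ O_p(G); M is a proper subgroup of G containing every proper subgroup of G that contains S (the unique maximal subgroup over S); [O_p(G), M] ≤ O_p(G) ∩ M' ≤ O_p(G) ∩ T; and every element u of S outside O_p(G) satisfies [X, u, …, u] ≰ Y with p − 1 entries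 u, for some chief factor X/Y of G with X ≤ O_p(G). -/
theorem result {G : Type u} [Group G] [Finite G] {p : ℕ} [Fact p.Prime] (S : Sylow p G) (𝓦 : Set (∀ (Q : Type u) [Group Q], Subgroup Q)) (h𝓦 : ∀ W ∈ 𝓦, Cfsg.IsCharPFunctor.{u} p W) (hne : 𝓦.Nonempty) (hsec : ∀ (K R : Subgroup G) [hR : (R.subgroupOf K).Normal], (K = ⊤ → R ≠ ⊥) → Cfsg.FamilyControlsTransferIn p ((fun W => Cfsg.inducedFunctor (G := (↥K ⧸ R.subgroupOf K)) W) '' 𝓦) ⊤) (hG : ¬ Cfsg.FamilyControlsTransferIn p ((fun W => Cfsg.inducedFunctor (G := G) W) '' 𝓦) ⊤) (T M : Subgroup G) (hT : T = (⨆ W ∈ 𝓦, (S : Subgroup G) ⊓ ⁅Subgroup.normalizer ((Cfsg.inducedFunctor (G := G) W (S : Subgroup G) : Subgroup G) : Set G), Subgroup.normalizer ((Cfsg.inducedFunctor (G := G) W (S : Subgroup G) : Subgroup G) : Set G)⁆)) (hM : M = Subgroup.normalizer ((T ⊓ Cfsg.pCore p G : Subgroup G) : Set G)) : Subgroup.centralizer ((Cfsg.pCore p G : Subgroup G) : Set G) ≤ Cfsg.pCore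 p G ∧ (M ≠ ⊤ ∧ ∀ H : Subgroup G, (S : Subgroup G) ≤ H → H ≠ ⊤ → H ≤ M) ∧ (⁅Cfsg.pCore p G, M⁆ ≤ Cfsg.pCore p G ⊓ ⁅M, M⁆ ∧ Cfsg.pCore p G ⊓ ⁅M, M⁆ ≤ Cfsg.pCore p G ⊓ T) ∧ ∀ u : G, u ∈ (S : Subgroup G) → u ∉ Cfsg.pCore p G → ∃ U V : Subgroup G, Cfsg.IsChiefFactor U V ∧ U ≤ Cfsg.pCore p G ∧ ¬ Cfsg.iterCommutator U (Subgroup.zpowers u) (p - 1) ≤ V := by
  have hS := H13.Syl.isSylIn_sylow_top S
  have hX : ¬ Cfsg.FamilyControlsTransferIn p (H13.Sec.fam 𝓦 G) ⊤ := hG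
  have IH : ∀ (Y : Type u) [Group Y], Cfsg.Involves Y G → Nat.card Y < Nat.card G →
      Cfsg.FamilyControlsTransferIn p (H13.Sec.fam 𝓦 Y) ⊤ := by
    rintro Y _ ⟨K, R, hR, ⟨e⟩⟩ hc
    refine H13.Sec.fct_of_equiv h𝓦 e (hsec K R ?_)
    rintro rfl rfl
    rw [← Nat.card_congr e.toEquiv] at hc
    have h1 : Nat.card (↥(⊤ : Subgroup G) ⧸ (⊥ : Subgroup G).subgroupOf ⊤) = Nat.card G := by
      have h2 : (⊥ : Subgroup G).subgroupOf ⊤ = ⊥ := by
        rw [Subgroup.subgroupOf_eq_bot]; exact disjoint_bot_left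
      have h3 : Nat.card (↥(⊤ : Subgroup G) ⧸ (⊥ : Subgroup G).subgroupOf ⊤) =
          ((⊥ : Subgroup G).subgroupOf ⊤).index := rfl
      rw [h3, h2, Subgroup.index_bot, Subgroup.card_top]
    omega
  have hTF : T = H13.Sec.Fsub (H13.Sec.fam 𝓦 G) (S : Subgroup G) := by
    rw [hT, H13.Sec.Fsub, H13.Sec.fam, iSup_image]
  subst hTF
  subst hM
  have hMt := H13.MinT.M_ne_top h𝓦 hne IH hX hS
  have hle := fun H hSH hH => H13.MinT.le_M h𝓦 IH hS H hSH hH
  set M := Subgroup.normalizer ((H13.Sec.Fsub (H13.Sec.fam 𝓦 G) (S : Subgroup G) ⊓ Cfsg.pCore p G : Subgroup G) : Set G) with hM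
  have hSM : (S : Subgroup G) ≤ M := hle S le_rfl (H13.MinT.S_ne_top h𝓦 hne hX hS)
  have hPS := H13.Sec.pCore_le_of_isSylIn hS
  have hPn : (Cfsg.pCore p G).Normal := inferInstance
  refine ⟨H13.MinT.constr h𝓦 IH hX, ⟨hMt, fun H h1 h2 => hle H h1 h2⟩, ⟨?_, ?_⟩, ?_⟩
  · exact le_inf (Subgroup.commutator_le_left _ _)
      (Subgroup.commutator_mono (hPS.trans hSM) le_rfl)
  · exact le_inf inf_le_left ((inf_le_inf_right _ hPS).trans (H13.MinT.local_le h𝓦 IH hS hMt hSM))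
  · intro u huS huP
    exact H13.MinT.main_d h𝓦 hne IH hX hS huS huP

end Cfsg.Agent.S1998
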