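import Cfsg.Statements.S2008
import Cfsg.Agent.HL_Misc13

set_option autoImplicit false
open Cfsg

namespace Cfsg.Agent.S2008

/-- Let H be a finite group and z an involution such that every proper normal subgroup of H meets the centralizer of z trivially, and suppose z lies in a Klein four-subgroup E of H all three of whose involutions are conjugate to z in H. Then H has no non-trivial abelian normal subgroup. -/
theorem result {H : Type*} [Group H] [Finite H] (z : H) (hz : orderOf z = 2) (hN : ∀ N : Subgroup H, N.Normal → N ≠ ⊤ → N ⊓ Subgroup.centralizer ({z} : Set H) = ⊥) (E : Subgroup H) (hE : IsKleinFour ↥E) (hzE : z ∈ E) (hc : ∀ e ∈ E, e ≠ 1 → IsConj z e) (N : Subgroup H) [N.Normal] (hab : IsMulCommutative ↥N) : N = ⊥ := by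
  have hnt : Nontrivial H := ⟨⟨z, 1, by
    intro h; rw [h, orderOf_one] at hz; norm_num at hz⟩⟩
  have key : ∀ N : Subgroup H, N.Normal → N ≠ ⊤ → N = ⊥ := by
    intro N hNn hNt
    have := hNn
    apply Cfsg.Agent.HL.Misc13.normal_eq_bot_of_fourgroup E hE N
    intro e he he1
    obtain ⟨c, hc⟩ := isConj_iff.1 (hc e he he1)
    have h1 := hN N hNn hNt
    rw [Subgroup.eq_bot_iff_forall] at h1 ⊢
    intro x hx
    obtain ⟨hxN, hxe⟩ := Subgroup.mem_inf.1 hx
    rw [Subgroup.mem_centralizer_singleton_iff] at hxe
    have h2 : c⁻¹ * x * c = 1 := by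
      apply h1
      refine Subgroup.mem_inf.2 ⟨?_, Subgroup.mem_centralizer_singleton_iff.2 ?_⟩
      · have := hNn.conj_mem x hxN c⁻¹
        simpa using this
      · rw [← hc] at hxe
        have h3 : c⁻¹ * (x * (c * z * c⁻¹)) * c = c⁻¹ * (c * z * c⁻¹ * x) * c := by rw [hxe]
        calc c⁻¹ * x * c * z = c⁻¹ * (x * (c * z * c⁻¹)) * c := by group
          _ = z * (c⁻¹ * x * c) := by rw [h3]; group
    calc x = c * (c⁻¹ * x * c) * c⁻¹ := by group
      _ = 1 := by rw [h2]; group
  by_cases hNtop : N = ⊤
  · exfalso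
    have hcomm : ∀ x y : H, x * y = y * x := by
      intro x y
      have hx : x ∈ N := hNtop ▸ Subgroup.mem_top x
      have hy : y ∈ N := hNtop ▸ Subgroup.mem_top y
      have := hab.is_comm.comm (⟨x, hx⟩ : N) ⟨y, hy⟩
      exact congrArg Subtype.val this
    have hall : ∀ e ∈ E, e = 1 ∨ e = z := by
      intro e he
      by_cases h1 : e = 1
      · exact Or.inl h1
      · right
        obtain ⟨c, hc⟩ := isConj_iff.1 (hc e he h1)
        rw [← hc, hcomm c z]; simp
    have hle : Nat.card E ≤ 2 := by
      have : (Set.univ : Set E) ⊆ {1, ⟨z, hzE⟩} := by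
        intro x _
        rcases hall x x.2 with h | h
        · left; exact Subtype.ext h
        · right; exact Subtype.ext h
      calc Nat.card E = (Set.univ : Set E).ncard := (Set.ncard_univ E).symm
        _ ≤ ({1, ⟨z, hzE⟩} : Set E).ncard := Set.ncard_le_ncard this (Set.toFinite _)
        _ ≤ 2 := by
          have := Set.ncard_insert_le (1 : E) {⟨z, hzE⟩}
          rwa [Set.ncard_singleton] at this
    have := hE.card_four
    omega
  · exact key N inferInstance hNtop

end Cfsg.Agent.S2008
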