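import Cfsg.Statements.S2041
import Cfsg.Agent.H20_J3N3
import Cfsg.Agent.H20_J3W

set_option autoImplicit false
set_option maxRecDepth 100000
open Cfsg

namespace Cfsg.Agent.S2041

open Cfsg.Agent.H8.CE Cfsg.Agent.H8.Act Cfsg.Agent.H20 Cfsg.Agent.H20.J3R Cfsg.Agent.H20.J3X Cfsg.Agent.H20.J3Y Cfsg.Agent.H20.J3W
open Cfsg.Spor Cfsg.Agent.H14.Schur Cfsg.Agent.H20.J3Z

open scoped commutatorElement
universe u

theorem ev_comm {C : Type*} [CommGroup C] (Z : ℕ → C) : ∀ w : List ℕ, (∀ y ∈ w, y ∈ ([1, 2, 3] : List ℕ)) →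
    ev Z w = Z 1 ^ w.count 1 * Z 2 ^ w.count 2 * Z 3 ^ w.count 3
  | [], _ => by simp
  | y :: w, h => by
    rw [ev_cons, ev_comm Z w fun y hy => h y (List.mem_cons_of_mem _ hy)]
    have h1 := h y List.mem_cons_self
    simp only [List.mem_cons, List.not_mem_nil, or_false] at h1
    rcases h1 with rfl | rfl | rfl
    · rw [List.count_cons_self, List.count_cons_of_ne (by norm_num), List.count_cons_of_ne (by norm_num), pow_succ]
      simp only [mul_assoc, mul_comm, mul_left_comm]
    · rw [List.count_cons_self, List.count_cons_of_ne (by norm_num), List.count_cons_of_ne (by norm_num), pow_succ]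
      simp only [mul_assoc, mul_comm, mul_left_comm]
    · rw [List.count_cons_self, List.count_cons_of_ne (by norm_num), List.count_cons_of_ne (by norm_num), pow_succ]
      simp only [mul_assoc, mul_comm, mul_left_comm]

theorem k_rel : ∀ i ∈ ([0, 1, 4, 6] : List ℕ), evM tab (rels.getD i []) = idM ∧ rels.getD i [] ∈ rels ∧
    (∀ y ∈ rels.getD i [], y ∈ ([1, 2, 3] : List ℕ)) := by decide +kernel

theorem k_cnt : ([0, 1, 4, 6] : List ℕ).map (fun i => ((rels.getD i []).count 1, (rels.getD i []).count 2, (rels.getD i []).count 3)) =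
    [(2, 0, 0), (0, 3, 0), (22, 12, 10), (25, 14, 11)] := by decide +kernel

section
variable {F : Type*} [Field F] {ω : F}

theorem rel_exact (h : FH ω) (w : List ℕ) (hw : w ∈ rels) (hi : evM tab w = idM) :
    ev (fun y => FreeGroup.lift (fT h) (fl y)) w = 1 := by
  apply Subtype.ext
  apply Units.ext
  rw [yT_val h w (rels_lt w hw), ev_yG h w (fun y hy => lt_trans (rels_lt w hw y hy) (by decide)), hi, toM_id]
  rfl

theorem ab_exact (h : FH ω) (i : ℕ) (hi : i ∈ ([0, 1, 4, 6] : List ℕ)) :
    (Abelianization.of (fT h .a)) ^ (rels.getD i []).count 1 * (Abelianization.of (fT h .b)) ^ (rels.getD i []).count 2 *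
      ((Abelianization.of (fT h .b))⁻¹) ^ (rels.getD i []).count 3 = 1 := by
  obtain ⟨k1, k2, k3⟩ := k_rel i hi
  have h1 := congrArg Abelianization.of (rel_exact h _ k2 k1)
  have h2 : ∀ w : List ℕ, Abelianization.of (ev (fun y => FreeGroup.lift (fT h) (fl y)) w) =
      ev (fun y => Abelianization.of (FreeGroup.lift (fT h) (fl y))) w := by
    intro w
    induction w with
    | nil => simp
    | cons y w ih => rw [ev_cons, ev_cons, map_mul, ih]
  rw [h2, map_one, ev_comm _ _ k3] at h1
  have e1 : FreeGroup.lift (fT h) (fl 1) = fT h .a := by simp [fl, lm, J3R.a]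
  have e2 : FreeGroup.lift (fT h) (fl 2) = fT h .b := by simp [fl, lm, J3R.b]
  have e3 : FreeGroup.lift (fT h) (fl 3) = (fT h .b)⁻¹ := by simp [fl, lm, J3R.b]
  simp only [e1, e2, e3, map_inv] at h1
  exact h1

theorem perfect (h : FH ω) : commutator (threeJ3 F ω) = ⊤ := by
  set A := Abelianization.of (fT h .a) with hA
  set B := Abelianization.of (fT h .b) with hB
  have c := k_cnt
  simp only [List.map_cons, List.map_nil, List.cons.injEq, Prod.mk.injEq, and_true] at c
  obtain ⟨⟨a1, a2, a3⟩, ⟨b1, b2, b3⟩, ⟨c1, c2, c3⟩, d1, d2, d3⟩ := c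
  have r0 := ab_exact h 0 (by simp)
  have r1 := ab_exact h 1 (by simp)
  have r4 := ab_exact h 4 (by simp)
  have r6 := ab_exact h 6 (by simp)
  rw [a1, a2, a3] at r0
  rw [b1, b2, b3] at r1
  rw [c1, c2, c3] at r4
  rw [d1, d2, d3] at r6
  rw [← hA, ← hB] at r0 r1 r4 r6
  have s0 : A ^ 2 = 1 := by simpa using r0
  have s1 : B ^ 3 = 1 := by simpa using r1
  have hB1 : B = 1 := by
    have e : A ^ 22 * B ^ 12 * (B⁻¹) ^ 10 = (A ^ 2) ^ 11 * B ^ 2 := by
      rw [← pow_mul, inv_pow, mul_inv_eq_iff_eq_mul, mul_assoc, ← pow_add]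
    rw [e, s0, one_pow, one_mul] at r4
    have : B ^ 3 = B ^ 2 * B := pow_succ B 2
    rw [s1, r4, one_mul] at this
    exact this.symm
  have hA1 : A = 1 := by
    rw [hB1, inv_one, one_pow, one_pow, mul_one, mul_one] at r6
    have : A ^ 25 = (A ^ 2) ^ 12 * A := by rw [← pow_mul, ← pow_succ]
    rw [r6, s0, one_pow, one_mul] at this
    exact this.symm
  have key : ∀ t : threeJ3 F ω, Abelianization.of t = 1 := by
    intro t
    have h2 : ∀ r : FreeGroup Gen, Abelianization.of (FreeGroup.lift (fT h) r) = 1 := by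
      intro r
      have : (Abelianization.of).comp (FreeGroup.lift (fT h)) = 1 := by
        apply FreeGroup.ext_hom
        intro x
        simp only [MonoidHom.comp_apply, FreeGroup.lift_apply_of, MonoidHom.one_apply]
        cases x
        · exact hA1
        · exact hB1
      exact DFunLike.congr_fun this r
    have h3 : ∃ r, FreeGroup.lift (fT h) r = t := by
      obtain ⟨g, hg⟩ := t
      have h1 : g ∈ Subgroup.closure ({al h, be h} : Set (GL F9 F)) := by rw [← T_eq h]; exact hg
      have h3 : Subgroup.closure ({al h, be h} : Set (GL F9 F)) ≤ (FreeGroup.lift (f0 h)).range := by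
        rw [Subgroup.closure_le]
        rintro _ (rfl | rfl)
        · exact ⟨FreeGroup.of .a, by rw [FreeGroup.lift_apply_of]; rfl⟩
        · exact ⟨FreeGroup.of .b, by rw [FreeGroup.lift_apply_of]; rfl⟩
      obtain ⟨r, hr⟩ := h3 h1
      exact ⟨r, Subtype.ext (by rw [fT_val]; exact hr)⟩
    obtain ⟨r, rfl⟩ := h3
    exact h2 r
  rw [eq_top_iff]
  intro t _
  exact (QuotientGroup.eq_one_iff t).1 (key t)
end

instance : Fact (Nat.Prime 3) := ⟨Nat.prime_three⟩

/-- upper bound for the presented group -/
theorem upJ (Γ : Type u) [Group Γ] [Finite Γ] (σ : Γ →* J3M.J) (hσ : IsStemExtension σ) :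
    ∃ π : Multiplicative (ZMod (3 ^ 1)) →* σ.ker, Function.Surjective π := by
  refine Mul.upper_pp (p := 3) (k := 1) ?_ (fun Γ _ _ σ hσ hz => J3N.up9 Γ σ hσ hz) Γ σ hσ
  intro r hr hr3 Γ _ _ σ hσ
  by_cases h2 : r = 2
  · subst h2; exact J3N.no2 Γ σ hσ
  · haveI := J3M.simple
    have hcomm : commutator J3M.J = ⊤ := by
      rcases (inferInstance : (commutator J3M.J).Normal).eq_bot_or_eq_top with h | h
      · exfalso
        have h3 : ∀ a b : J3M.J, a * b = b * a := by
          intro a b
          have : ⁅a, b⁆ ∈ commutator J3M.J := Subgroup.commutator_mem_commutator (Subgroup.mem_top a) (Subgroup.mem_top b)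
          rw [h, Subgroup.mem_bot] at this
          exact commutatorElement_eq_one_iff_mul_comm.1 this
        have h4 : (Nat.card J3M.J).Prime := by
          letI : CommGroup J3M.J := { (inferInstance : Group J3M.J) with mul_comm := h3 }
          exact IsSimpleGroup.prime_card
        rw [J3M.main.1] at h4
        norm_num at h4
      · exact h
    refine ne_of_not_sq_dvd hcomm ?_ Γ σ hσ
    rw [J3M.main.1]
    intro hd
    have hfac : (50232960 : ℕ) = 2 ^ 7 * (3 ^ 5 * (5 * (17 * 19))) := by norm_num
    have hrd : r ∣ 50232960 := dvd_trans (dvd_pow_self r two_ne_zero) hd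
    have hr5 : r = 5 ∨ r = 17 ∨ r = 19 := by
      rw [hfac] at hrd
      rcases (Nat.Prime.dvd_mul hr.out).1 hrd with h | h
      · exact absurd ((Nat.prime_dvd_prime_iff_eq hr.out Nat.prime_two).1 (hr.out.dvd_of_dvd_pow h)) h2
      · rcases (Nat.Prime.dvd_mul hr.out).1 h with h | h
        · exact absurd ((Nat.prime_dvd_prime_iff_eq hr.out Nat.prime_three).1 (hr.out.dvd_of_dvd_pow h)) hr3
        · rcases (Nat.Prime.dvd_mul hr.out).1 h with h | h
          · exact Or.inl ((Nat.prime_dvd_prime_iff_eq hr.out (by norm_num)).1 h)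
          · rcases (Nat.Prime.dvd_mul hr.out).1 h with h | h
            · exact Or.inr (Or.inl ((Nat.prime_dvd_prime_iff_eq hr.out (by norm_num)).1 h))
            · exact Or.inr (Or.inr ((Nat.prime_dvd_prime_iff_eq hr.out (by norm_num)).1 h))
    rcases hr5 with rfl | rfl | rfl <;> norm_num at hd

/-- For any field with 4 elements and any element ω of it with ω² + ω + 1 = 0: the Schur multiplier of the Janko group J₃ (the group generated by explicit 9 × 9 matrices over that field built from ω, taken modulo its centre) is cyclic of order 3; here the Schur multiplier is described through stem extensions, as in the definitions: surjective homomorphisms onto the group from a finite group, whose kernel is central in that finite group and contained in that finite group's commutator subgroup. -/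
theorem result {F : Type*} [Field F] [Fintype F] (hF : Fintype.card F = 4) (ω : F) (hω : ω ^ 2 + ω + 1 = 0) : Cfsg.HasCyclicSchurMultiplier (Cfsg.Spor.J3 F ω) 3 := by
  have h := FH_of hF hω
  refine ⟨⟨threeJ3 F ω, inferInstance, ?_, QuotientGroup.mk' (Subgroup.center (threeJ3 F ω)), ⟨QuotientGroup.mk'_surjective _, ?_, ?_⟩, ?_⟩, ?_⟩
  · apply Nat.finite_of_card_ne_zero
    rw [card_T hF h]; norm_num
  · rw [QuotientGroup.ker_mk']
  · rw [perfect h]; exact le_top
  · rw [QuotientGroup.ker_mk']
    have h3 := card_center hF h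
    haveI : IsCyclic (Subgroup.center (threeJ3 F ω)) := isCyclic_of_prime_card h3
    haveI : IsCyclic (Multiplicative (ZMod 3)) := inferInstance
    exact ⟨mulEquivOfCyclicCardEq (by rw [h3]; simp)⟩
  · intro Γ _ _ σ hσ
    have hk : ((eJ h).symm.toMonoidHom.comp σ).ker = σ.ker := by
      ext g
      simp only [MonoidHom.mem_ker, MonoidHom.comp_apply]
      exact (eJ h).symm.map_eq_one_iff
    have h1 := upJ Γ ((eJ h).symm.toMonoidHom.comp σ) ⟨(eJ h).symm.surjective.comp hσ.1, hk.le.trans hσ.2.1, hk.le.trans hσ.2.2⟩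
    rw [hk] at h1
    exact h1

end Cfsg.Agent.S2041
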