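import Cfsg.Statements.S2087
import Cfsg.Agent.H20_L27N
import Cfsg.Agent.H20_LowU
import Cfsg.Agent.S0249
import Cfsg.Agent.S0243

set_option autoImplicit false
open Cfsg

namespace Cfsg.Agent.S2087

/-- Exceptional Schur multiplier: over the field with 2 elements, PSL₃ has Schur multiplier cyclic of order 2 (here the Schur multiplier is described through stem extensions, as in the definitions). -/
theorem result {F : Type*} [Field F] [Fintype F] (hF : Fintype.card F = 2) : Cfsg.HasCyclicSchurMultiplier (Matrix.ProjectiveSpecialLinearGroup (Fin 3) F) 2 := by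
  haveI h1 : IsSimpleGroup (Matrix.ProjectiveSpecialLinearGroup (Fin 3) F) := Cfsg.Agent.S0249.result 3 (by norm_num)
  have h2 : Nat.card (Matrix.ProjectiveSpecialLinearGroup (Fin 3) F) = 168 := by
    have h3 := Cfsg.Agent.S0243.result hF 3 (by norm_num)
    simp [Fin.prod_univ_three] at h3
    exact h3
  haveI : Finite (Matrix.ProjectiveSpecialLinearGroup (Fin 3) F) := Nat.finite_of_card_ne_zero (by rw [h2]; norm_num)
  obtain ⟨e⟩ := Cfsg.Agent.H20.L27N.exists_e h2
  have hJ : Nat.card Cfsg.Agent.H20.L27M.J = 168 := by rw [Nat.card_congr e.toEquiv, h2]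
  exact ⟨Cfsg.Agent.H20.Low.transport_lowU e Cfsg.Agent.H20.L27N.low,
    Cfsg.Agent.H20.Low.transport_up e (Cfsg.Agent.H20.L27N.up hJ)⟩

end Cfsg.Agent.S2087
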