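import Cfsg.Statements.S2116
import Cfsg.Agent.H20_Alt6N
import Cfsg.Agent.H20_Alt7N

set_option autoImplicit false
open Cfsg

namespace Cfsg.Agent.S2116

/-- Exceptional Schur multipliers of the alternating groups: for n = 6 and n = 7 the Schur multiplier of the alternating group of degree n is cyclic of order 6 (here the Schur multiplier is described through stem extensions, as in the definitions). -/
theorem result (n : ℕ) (hn : n = 6 ∨ n = 7) : Cfsg.HasCyclicSchurMultiplier (alternatingGroup (Fin n)) 6 := by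
  rcases hn with rfl | rfl
  · exact ⟨Cfsg.Agent.H20.Low.transport_low Cfsg.Agent.H20.Alt6N.e Cfsg.Agent.H20.Alt6N.low,
      Cfsg.Agent.H20.Low.transport_up Cfsg.Agent.H20.Alt6N.e Cfsg.Agent.H20.Alt6N.up⟩
  · exact ⟨Cfsg.Agent.H20.Low.transport_low Cfsg.Agent.H20.Alt7N.e Cfsg.Agent.H20.Alt7N.low,
      Cfsg.Agent.H20.Low.transport_up Cfsg.Agent.H20.Alt7N.e Cfsg.Agent.H20.Alt7N.up⟩

end Cfsg.Agent.S2116
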