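import Cfsg.Statements.S2118
import Cfsg.Agent.H20_Alt6P
import Cfsg.Agent.H20_StemC
import Cfsg.Agent.S0254
import Cfsg.Agent.H5_Exc4

set_option autoImplicit false
open Cfsg

namespace Cfsg.Agent.S2118


theorem card_center {F : Type*} [Field F] [Fintype F] (hF : Fintype.card F = 9) :
    Nat.card (Subgroup.center (Matrix.SpecialLinearGroup (Fin 2) F)) = 2 := by
  obtain ⟨p, hp⟩ := CharP.exists F
  obtain ⟨n, hpp, hc⟩ := FiniteField.card F p
  have hp2 : p ≠ 2 := by
    rintro rfl
    rw [hF] at hc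
    have : 2 ∣ 9 := by rw [hc]; exact dvd_pow_self 2 n.ne_zero
    norm_num at this
  have h1 : IsPrimitiveRoot (-1 : F) 2 := IsPrimitiveRoot.neg_one p hp2
  rw [Nat.card_congr (Matrix.SpecialLinearGroup.center_equiv_rootsOfUnity (n := Fin 2) (R := F)).toEquiv, Fintype.card_fin]
  exact h1.card_rootsOfUnity

/-- For the field with 9 elements, the special linear group SL₂ has Schur multiplier cyclic of order 3 (here the Schur multiplier is described through stem extensions, as in the definitions). -/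
theorem result {F : Type*} [Field F] [Fintype F] (hF : Fintype.card F = 9) : Cfsg.HasCyclicSchurMultiplier (Matrix.SpecialLinearGroup (Fin 2) F) 3 := by
  classical
  have hS : commutator (Matrix.SpecialLinearGroup (Fin 2) F) = ⊤ := Cfsg.Agent.H5.Exc.perfect_SL2 (by rw [hF]; norm_num)
  obtain ⟨e⟩ := Cfsg.Agent.S0254.result hF
  let π : Matrix.SpecialLinearGroup (Fin 2) F →* Matrix.ProjectiveSpecialLinearGroup (Fin 2) F :=
    QuotientGroup.mk' (Subgroup.center (Matrix.SpecialLinearGroup (Fin 2) F))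
  have hk : π.ker = Subgroup.center (Matrix.SpecialLinearGroup (Fin 2) F) := QuotientGroup.ker_mk' _
  have hπ : IsStemExtension π := ⟨QuotientGroup.mk'_surjective _, le_of_eq hk, by rw [hS]; exact le_top⟩
  have h2 : Nat.card π.ker = 2 := by rw [hk]; exact card_center hF
  let f : Cfsg.Agent.H20.Alt6M.J ≃* Matrix.ProjectiveSpecialLinearGroup (Fin 2) F := Cfsg.Agent.H20.Alt6N.e.trans e.symm
  exact ⟨Cfsg.Agent.H20.StemC.low3 hπ hS h2 (Cfsg.Agent.H20.Low.transport_lowU f Cfsg.Agent.H20.Alt6P.low3),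
    Cfsg.Agent.H20.StemC.up3 hπ hS h2 (Cfsg.Agent.H20.Low.transport_up f Cfsg.Agent.H20.Alt6N.up)⟩

end Cfsg.Agent.S2118
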