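import Cfsg.Statements.S2298
import Cfsg.Agent.H15_CT2

set_option autoImplicit false
open Cfsg

namespace Cfsg.Agent.S2298

open Cfsg.Agent.H15.PS in
theorem key {F : Type*} [Field F] [Fintype F] [DecidableEq F] (hq : 3 ≤ Fintype.card F) :
      Nat.card {χ : Cfsg.IrrCharacter (Matrix.GeneralLinearGroup (Fin 2) F) // (χ : Matrix.GeneralLinearGroup (Fin 2) F → ℂ) 1 = 1} = Fintype.card F - 1 ∧
      Nat.card {χ : Cfsg.IrrCharacter (Matrix.GeneralLinearGroup (Fin 2) F) // (χ : Matrix.GeneralLinearGroup (Fin 2) F → ℂ) 1 = (Fintype.card F : ℂ)} = Fintype.card F - 1 ∧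
      Nat.card {χ : Cfsg.IrrCharacter (Matrix.GeneralLinearGroup (Fin 2) F) // (χ : Matrix.GeneralLinearGroup (Fin 2) F → ℂ) 1 = (Fintype.card F : ℂ) + 1} = (Fintype.card F - 1) * (Fintype.card F - 2) / 2 ∧
      Nat.card {χ : Cfsg.IrrCharacter (Matrix.GeneralLinearGroup (Fin 2) F) // (χ : Matrix.GeneralLinearGroup (Fin 2) F → ℂ) 1 = (Fintype.card F : ℂ) - 1} = Fintype.card F * (Fintype.card F - 1) / 2 := by
  classical
  have hne1 : (Fintype.card F : ℂ) ≠ 1 := by
    have : Fintype.card F ≠ 1 := by omega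
    exact_mod_cast this
  have hne2 : (Fintype.card F : ℂ) ≠ 2 := by
    have : Fintype.card F ≠ 2 := by omega
    exact_mod_cast this
  have hne0 : (Fintype.card F : ℂ) ≠ 0 := q_ne
  have gen : ∀ (A : Finset (Cfsg.IrrCharacter (Matrix.GeneralLinearGroup (Fin 2) F))) (c : ℂ),
      (∀ χ : Cfsg.IrrCharacter (Matrix.GeneralLinearGroup (Fin 2) F), (χ : Matrix.GeneralLinearGroup (Fin 2) F → ℂ) 1 = c ↔ χ ∈ A) →
      Nat.card {χ : Cfsg.IrrCharacter (Matrix.GeneralLinearGroup (Fin 2) F) // (χ : Matrix.GeneralLinearGroup (Fin 2) F → ℂ) 1 = c} = A.card := by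
    intro A c h
    rw [← Nat.card_eq_finsetCard]
    exact Nat.card_congr (Equiv.subtypeEquivRight h)
  have cl : ∀ χ : Cfsg.IrrCharacter (Matrix.GeneralLinearGroup (Fin 2) F), χ ∈ (AL : Finset _) ∨ χ ∈ (AS : Finset _) ∨ χ ∈ (AP : Finset _) ∨ χ ∈ (AC : Finset _) := by
    intro χ
    rcases tri_G χ.2 with ⟨α, h⟩ | ⟨α, h⟩ | ⟨α, β, hne, h⟩ | h
    · exact Or.inl (mem_AL.mpr ⟨α, h⟩)
    · exact Or.inr (Or.inl (mem_AS.mpr ⟨α, h⟩))
    · exact Or.inr (Or.inr (Or.inl (mem_AP.mpr ⟨α, β, hne, h⟩)))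
    · exact Or.inr (Or.inr (Or.inr (mem_AC.mpr h)))
  refine ⟨?_, ?_, ?_, ?_⟩
  · rw [gen AL 1, card_AL]
    intro χ
    refine ⟨fun h => ?_, deg_AL⟩
    rcases cl χ with h1 | h1 | h1 | h1
    · exact h1
    · exact absurd ((deg_AS h1).symm.trans h) hne1
    · exact absurd (by linear_combination (deg_AP h1).symm.trans h) hne0
    · exact absurd (by linear_combination (deg_AC h1).symm.trans h) hne2
  · rw [gen AS _, card_AS]
    intro χ
    refine ⟨fun h => ?_, deg_AS⟩
    rcases cl χ with h1 | h1 | h1 | h1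
    · exact absurd (h.symm.trans (deg_AL h1)) hne1
    · exact h1
    · exact absurd (by linear_combination (deg_AP h1).symm.trans h) (one_ne_zero (α := ℂ))
    · exact absurd (by linear_combination h.symm.trans (deg_AC h1)) (one_ne_zero (α := ℂ))
  · have h2 := card_AP (F := F)
    rw [gen AP _]
    · omega
    intro χ
    refine ⟨fun h => ?_, deg_AP⟩
    rcases cl χ with h1 | h1 | h1 | h1
    · exact absurd (by linear_combination h.symm.trans (deg_AL h1)) hne0
    · exact absurd (by linear_combination h.symm.trans (deg_AS h1)) (one_ne_zero (α := ℂ))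
    · exact h1
    · exact absurd (by linear_combination h.symm.trans (deg_AC h1)) (two_ne_zero (α := ℂ))
  · have h2 := card_AC (F := F)
    rw [gen AC _]
    · omega
    intro χ
    refine ⟨fun h => ?_, deg_AC⟩
    rcases cl χ with h1 | h1 | h1 | h1
    · exact absurd (by linear_combination h.symm.trans (deg_AL h1)) hne2
    · exact absurd (by linear_combination (deg_AS h1).symm.trans h) (one_ne_zero (α := ℂ))
    · exact absurd (by linear_combination (deg_AP h1).symm.trans h) (two_ne_zero (α := ℂ))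
    · exact h1


/-- Over a finite field F with q elements, every irreducible complex character of GL₂ has degree 1, q − 1, q or q + 1; and when q ≥ 3 (so that these four numbers are distinct) there are exactly q − 1 irreducible characters of degree 1, exactly q − 1 of degree q, exactly (q − 1)(q − 2)/2 of degree q + 1 and exactly q(q − 1)/2 of degree q − 1. -/
theorem result {F : Type*} [Field F] [Fintype F] :
    (∀ χ : Matrix.GeneralLinearGroup (Fin 2) F → ℂ, Cfsg.IsIrrCharacter (Matrix.GeneralLinearGroup (Fin 2) F) χ →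
      χ 1 = 1 ∨ χ 1 = (Fintype.card F : ℂ) - 1 ∨ χ 1 = (Fintype.card F : ℂ) ∨ χ 1 = (Fintype.card F : ℂ) + 1) ∧
    (3 ≤ Fintype.card F →
      Nat.card {χ : Cfsg.IrrCharacter (Matrix.GeneralLinearGroup (Fin 2) F) // (χ : Matrix.GeneralLinearGroup (Fin 2) F → ℂ) 1 = 1} = Fintype.card F - 1 ∧
      Nat.card {χ : Cfsg.IrrCharacter (Matrix.GeneralLinearGroup (Fin 2) F) // (χ : Matrix.GeneralLinearGroup (Fin 2) F → ℂ) 1 = (Fintype.card F : ℂ)} = Fintype.card F - 1 ∧
      Nat.card {χ : Cfsg.IrrCharacter (Matrix.GeneralLinearGroup (Fin 2) F) // (χ : Matrix.GeneralLinearGroup (Fin 2) F → ℂ) 1 = (Fintype.card F : ℂ) + 1} = (Fintype.card F - 1) * (Fintype.card F - 2) / 2 ∧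
      Nat.card {χ : Cfsg.IrrCharacter (Matrix.GeneralLinearGroup (Fin 2) F) // (χ : Matrix.GeneralLinearGroup (Fin 2) F → ℂ) 1 = (Fintype.card F : ℂ) - 1} = Fintype.card F * (Fintype.card F - 1) / 2) := by
  classical
  refine ⟨fun χ hχ => ?_, key⟩
  rcases Cfsg.Agent.H15.PS.class_G hχ with ⟨α, h⟩ | ⟨α, h⟩ | ⟨α, β, hne, h⟩ | h
  · left; rw [h, Cfsg.Agent.H15.PS.LG_one]
  · right; right; left; rw [h, Cfsg.Agent.H15.PS.StG_one]
  · right; right; right; rw [h, Cfsg.Agent.H15.PS.RG_one]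
  · right; left; exact h.2

end Cfsg.Agent.S2298
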