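import Cfsg.Statements.S2301
import Cfsg.Agent.H15_M2e

set_option autoImplicit false
open Cfsg

namespace Cfsg.Agent.S2301

open Cfsg.Agent.H15.M2 in
theorem two_ne {F : Type*} [Field F] (p : ℕ) [hpp : Fact p.Prime] [CharP F p] (hp : p ≠ 2) : (2 : F) ≠ 0 := by
  intro h
  have h1 : ((2 : ℕ) : F) = 0 := by exact_mod_cast h
  rw [CharP.cast_eq_zero_iff F p] at h1
  exact hp ((Nat.prime_dvd_prime_iff_eq hpp.out Nat.prime_two).mp h1)

open Cfsg.Agent.H15.M2 in
theorem card_two {F : Type*} [Field F] [Fintype F] (p : ℕ) [hpp : Fact p.Prime] [CharP F p] (hp : p ≠ 2) :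
    Nat.card {C : ConjClasses (Matrix.SpecialLinearGroup (Fin 2) F) // ∃ g : Matrix.SpecialLinearGroup (Fin 2) F, orderOf g = p ∧ ConjClasses.mk g = C} = 2 := by
  have h2 := two_ne (F := F) p hp
  obtain ⟨ν, hν⟩ := exists_nonsquare h2
  have hν0 : ν ≠ 0 := by rintro rfl; exact hν (IsSquare.zero)
  have hb0 : ∀ b : Bool, (if b then (1 : F) else ν) ≠ 0 := by
    intro b; cases b <;> simp [hν0]
  have hord : ∀ b : Bool, orderOf (up (1 : F) (if b then 1 else ν) (one_mul 1)) = p := by
    intro b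
    rw [sl_orderOf_p]
    refine ⟨?_, by rw [trace_up]; ring⟩
    intro h
    have := congrArg (fun x : Matrix.SpecialLinearGroup (Fin 2) F => (x : Matrix (Fin 2) (Fin 2) F) 0 1) h
    simp [up] at this
    exact hb0 b (by simpa using this)
  have hbij : Function.Bijective (fun b : Bool =>
      (⟨ConjClasses.mk (up (1 : F) (if b then 1 else ν) (one_mul 1)), _, hord b, rfl⟩ :
        {C : ConjClasses (Matrix.SpecialLinearGroup (Fin 2) F) // ∃ g : Matrix.SpecialLinearGroup (Fin 2) F, orderOf g = p ∧ ConjClasses.mk g = C})) := by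
    constructor
    · intro b b' h
      have h1 : IsConj (up (1 : F) (if b then 1 else ν) (one_mul 1)) (up (1 : F) (if b' then 1 else ν) (one_mul 1)) :=
        ConjClasses.mk_eq_mk_iff_isConj.mp (congrArg Subtype.val h)
      rw [up_conj_iff _ (hb0 b) (hb0 b')] at h1
      cases b <;> cases b' <;> simp at h1 ⊢
      · exact hν h1
      · exact hν h1
    · rintro ⟨C, g, hg, hgC⟩
      rw [sl_orderOf_p] at hg
      have hNS := NS_of_trace_two hg.1 hg.2
      obtain ⟨i, hi⟩ := (repO_bij h2 hν).2 C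
      have hci : IsConj (repO ν i) g := by
        rw [← hgC] at hi
        exact ConjClasses.mk_eq_mk_iff_isConj.mp hi
      rcases i with t | ⟨e, b⟩ | e
      · have := conj_trace hci
        simp only [repO, trace_cmS] at this
        exact absurd (by rw [this, hg.2]; norm_num) t.2
      · have := conj_trace hci
        simp only [repO, trace_up] at this
        rw [hg.2] at this
        have he : e.1 = 1 := mul_left_cancel₀ h2 (by rw [this, mul_one])
        refine ⟨b, ?_⟩
        apply Subtype.ext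
        show ConjClasses.mk (up (1 : F) (if b then 1 else ν) (one_mul 1)) = C
        rw [← hi]
        congr 1
        apply Subtype.ext
        simp only [repO, up, he]
      · exact absurd (conj_NS hci.symm hNS) (not_NS_sc _ e.2)
  rw [← Nat.card_congr (Equiv.ofBijective _ hbij)]
  simp


/-- Over a finite field with q elements of odd characteristic p, the elements of order p of SL₂ (the non-identity unipotent elements) fall into exactly two conjugacy classes, each of size (q² − 1)/2; two upper unitriangular matrices with non-zero off-diagonal entries b and b′ are conjugate exactly when bb′ is a square. -/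
theorem result {F : Type*} [Field F] [Fintype F] (p : ℕ) [Fact p.Prime] [CharP F p] (hp : p ≠ 2) :
    Nat.card {C : ConjClasses (Matrix.SpecialLinearGroup (Fin 2) F) // ∃ g : Matrix.SpecialLinearGroup (Fin 2) F, orderOf g = p ∧ ConjClasses.mk g = C} = 2 ∧
    (∀ g : Matrix.SpecialLinearGroup (Fin 2) F, orderOf g = p → Nat.card (ConjClasses.mk g).carrier = (Fintype.card F ^ 2 - 1) / 2) ∧
    ∀ g h : Matrix.SpecialLinearGroup (Fin 2) F, (g : Matrix (Fin 2) (Fin 2) F) 0 0 = 1 → (g : Matrix (Fin 2) (Fin 2) F) 1 1 = 1 → (g : Matrix (Fin 2) (Fin 2) F) 1 0 = 0 → (g : Matrix (Fin 2) (Fin 2) F) 0 1 ≠ 0 →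
      (h : Matrix (Fin 2) (Fin 2) F) 0 0 = 1 → (h : Matrix (Fin 2) (Fin 2) F) 1 1 = 1 → (h : Matrix (Fin 2) (Fin 2) F) 1 0 = 0 → (h : Matrix (Fin 2) (Fin 2) F) 0 1 ≠ 0 →
      (IsConj g h ↔ IsSquare ((g : Matrix (Fin 2) (Fin 2) F) 0 1 * (h : Matrix (Fin 2) (Fin 2) F) 0 1)) := by
  have h2 := two_ne (F := F) p hp
  refine ⟨card_two p hp, ?_, ?_⟩
  · intro g hg
    rw [Cfsg.Agent.H15.M2.sl_orderOf_p] at hg
    have h1 := Cfsg.Agent.H15.M2.card_carrier_mul g
    rw [Cfsg.Agent.H15.M2.card_cent_para_odd h2 (Cfsg.Agent.H15.M2.NS_of_trace_two hg.1 hg.2) (by rw [hg.2]; norm_num),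
      Cfsg.Agent.H15.M2.card_sl, Nat.card_eq_fintype_card (α := F)] at h1
    have hq : 0 < Fintype.card F := Fintype.card_pos
    have h3 : Nat.card (ConjClasses.mk g).carrier * 2 = Fintype.card F ^ 2 - 1 := by
      apply Nat.eq_of_mul_eq_mul_left hq
      rw [← h1]; ring
    omega
  · intro g h g1 g2 g3 g4 h1 h3 h4 h5
    have e1 : g = Cfsg.Agent.H15.M2.up 1 ((g : Matrix (Fin 2) (Fin 2) F) 0 1) (one_mul 1) := by
      apply Subtype.ext
      ext i j
      fin_cases i <;> fin_cases j <;> simp [Cfsg.Agent.H15.M2.up, g1, g2, g3]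
    have e2 : h = Cfsg.Agent.H15.M2.up 1 ((h : Matrix (Fin 2) (Fin 2) F) 0 1) (one_mul 1) := by
      apply Subtype.ext
      ext i j
      fin_cases i <;> fin_cases j <;> simp [Cfsg.Agent.H15.M2.up, h1, h3, h4]
    have h6 := Cfsg.Agent.H15.M2.up_conj_iff (F := F) (one_mul 1) g4 h5
    rw [← e1, ← e2] at h6
    exact h6

end Cfsg.Agent.S2301
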