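import Cfsg.Statements.S2302
import Cfsg.Agent.H15_M2e

set_option autoImplicit false
open Cfsg

namespace Cfsg.Agent.S2302

/-- Over a finite field with q elements of characteristic 2, the involutions of SL₂ (the non-identity unipotent elements) form a single conjugacy class, of size q² − 1. -/
theorem result {F : Type*} [Field F] [Fintype F] [CharP F 2] (g h : Matrix.SpecialLinearGroup (Fin 2) F) (hg : orderOf g = 2) (hh : orderOf h = 2) :
    IsConj g h ∧ Nat.card (ConjClasses.mk g).carrier = Fintype.card F ^ 2 - 1 := by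
  haveI : Fact (Nat.Prime 2) := ⟨Nat.prime_two⟩
  have h2 : (2 : F) = 0 := CharTwo.two_eq_zero
  rw [Cfsg.Agent.H15.M2.sl_orderOf_p] at hg hh
  have ng := Cfsg.Agent.H15.M2.NS_of_trace_two hg.1 hg.2
  have nh := Cfsg.Agent.H15.M2.NS_of_trace_two hh.1 hh.2
  refine ⟨Cfsg.Agent.H15.M2.sl_conj_even h2 ng nh (by rw [hg.2, hh.2]), ?_⟩
  have h1 := Cfsg.Agent.H15.M2.card_carrier_mul g
  rw [Cfsg.Agent.H15.M2.card_cent_para_even h2 ng (by rw [hg.2, h2]),
    Cfsg.Agent.H15.M2.card_sl, Nat.card_eq_fintype_card (α := F)] at h1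
  have hq : 0 < Fintype.card F := Fintype.card_pos
  exact Nat.eq_of_mul_eq_mul_left hq (by rw [← h1]; ring)

end Cfsg.Agent.S2302
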