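import Cfsg.Statements.S2303
import Cfsg.Agent.H15_M2e

set_option autoImplicit false
open Cfsg

namespace Cfsg.Agent.S2303

/-- Over a finite field with q elements: a diagonal element of GL₂ with two distinct diagonal entries has centralizer of order (q − 1)² (so q(q + 1) conjugates), and an element of GL₂ with no eigenvector in F² has centralizer of order q² − 1 (so q(q − 1) conjugates). -/
theorem result {F : Type*} [Field F] [Fintype F] (g : Matrix.GeneralLinearGroup (Fin 2) F) :
    ((g : Matrix (Fin 2) (Fin 2) F) 0 1 = 0 → (g : Matrix (Fin 2) (Fin 2) F) 1 0 = 0 → (g : Matrix (Fin 2) (Fin 2) F) 0 0 ≠ (g : Matrix (Fin 2) (Fin 2) F) 1 1 →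
      Nat.card (Subgroup.centralizer ({g} : Set (Matrix.GeneralLinearGroup (Fin 2) F))) = (Fintype.card F - 1) ^ 2) ∧
    ((∀ (c : F) (v : Fin 2 → F), v ≠ 0 → (g : Matrix (Fin 2) (Fin 2) F).mulVec v ≠ c • v) →
      Nat.card (Subgroup.centralizer ({g} : Set (Matrix.GeneralLinearGroup (Fin 2) F))) = Fintype.card F ^ 2 - 1) := by
  constructor
  · intro h1 h2 h3
    have hns : Cfsg.Agent.H15.M2.NS (g : Matrix (Fin 2) (Fin 2) F) := fun h => h3 h.2.2
    rw [Nat.card_congr (Cfsg.Agent.H15.M2.centGL g hns), Cfsg.Agent.H15.M2.split_card_ne h3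
      (by rw [Matrix.trace_fin_two]) (by rw [Matrix.det_fin_two, h1]; ring), Nat.card_eq_fintype_card]
  · intro h
    have hE : Cfsg.Agent.H15.M2.Ell (g : Matrix (Fin 2) (Fin 2) F) := h
    rw [Nat.card_congr (Cfsg.Agent.H15.M2.centGL g hE.ns), hE.card_ne, Nat.card_eq_fintype_card]

end Cfsg.Agent.S2303
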