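import Cfsg.Statements.S2305
import Cfsg.Agent.H15_PS2

set_option autoImplicit false
open Cfsg

namespace Cfsg.Agent.S2305

/-- Over a finite field F, for multiplicative characters α, β, α′, β′ of F, the characters of GL₂ induced from the linear characters b ↦ α(b₁₁) β(b₂₂) and b ↦ α′(b₁₁) β′(b₂₂) of the upper triangular subgroup coincide exactly when {α, β} = {α′, β′} as unordered pairs. -/
theorem result {F : Type*} [Field F] [Fintype F] [DecidableEq F] (α β α' β' : MulChar F ℂ) :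
    Cfsg.indFun (Cfsg.upperTriangularGL 2 F) (fun b => α (((b : Matrix.GeneralLinearGroup (Fin 2) F) : Matrix (Fin 2) (Fin 2) F) 0 0) * β (((b : Matrix.GeneralLinearGroup (Fin 2) F) : Matrix (Fin 2) (Fin 2) F) 1 1)) = Cfsg.indFun (Cfsg.upperTriangularGL 2 F) (fun b => α' (((b : Matrix.GeneralLinearGroup (Fin 2) F) : Matrix (Fin 2) (Fin 2) F) 0 0) * β' (((b : Matrix.GeneralLinearGroup (Fin 2) F) : Matrix (Fin 2) (Fin 2) F) 1 1)) ↔
      (α = α' ∧ β = β') ∨ (α = β' ∧ β = α') := by
  have key : Cfsg.Agent.H15.PS.RG α β = Cfsg.Agent.H15.PS.RG α' β' ↔ (α = α' ∧ β = β') ∨ (α = β' ∧ β = α') := by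
    constructor
    · intro h
      have h1 := Cfsg.Agent.H15.PS.ci_RG α β α' β'
      rw [← h, Cfsg.Agent.H15.PS.ci_RG, if_pos ⟨rfl, rfl⟩] at h1
      by_contra hcon
      rw [not_or] at hcon
      rw [if_neg hcon.1, if_neg hcon.2, add_zero] at h1
      split_ifs at h1 <;> norm_num at h1
    · intro h
      have h1 : Cfsg.classInner (Cfsg.Agent.H15.PS.RG α β - Cfsg.Agent.H15.PS.RG α' β')
          (Cfsg.Agent.H15.PS.RG α β - Cfsg.Agent.H15.PS.RG α' β') = 0 := by
        rw [Cfsg.Agent.H3.CharIrr.ci_sub_left, Cfsg.Agent.H3.CharIrr.ci_sub_right, Cfsg.Agent.H3.CharIrr.ci_sub_right]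
        simp only [Cfsg.Agent.H15.PS.ci_RG]
        rcases h with ⟨rfl, rfl⟩ | ⟨rfl, rfl⟩
        · ring_nf
        · by_cases hab : α = β
          · subst hab; simp
          · have hba : ¬ β = α := fun h => hab h.symm
            simp [hab, hba]
      exact sub_eq_zero.mp (Cfsg.Agent.H3.CharIrr.ci_self_eq_zero h1)
  exact key

end Cfsg.Agent.S2305
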