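import Cfsg.Statements.S2309
import Cfsg.Agent.H15_CT2

set_option autoImplicit false
open Cfsg

namespace Cfsg.Agent.S2309

/-- Over a finite field F with q elements: every irreducible complex character of GL₂ of degree q − 1 vanishes at every diagonal matrix with two distinct entries, and every irreducible complex character of degree q + 1 vanishes at every element with no eigenvector in F². -/
theorem result {F : Type*} [Field F] [Fintype F] (χ : Matrix.GeneralLinearGroup (Fin 2) F → ℂ) (hχ : Cfsg.IsIrrCharacter (Matrix.GeneralLinearGroup (Fin 2) F) χ) (g : Matrix.GeneralLinearGroup (Fin 2) F) :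
    (χ 1 = (Fintype.card F : ℂ) - 1 → (g : Matrix (Fin 2) (Fin 2) F) 0 1 = 0 → (g : Matrix (Fin 2) (Fin 2) F) 1 0 = 0 → (g : Matrix (Fin 2) (Fin 2) F) 0 0 ≠ (g : Matrix (Fin 2) (Fin 2) F) 1 1 → χ g = 0) ∧
    (χ 1 = (Fintype.card F : ℂ) + 1 → (∀ (c : F) (v : Fin 2 → F), v ≠ 0 → (g : Matrix (Fin 2) (Fin 2) F).mulVec v ≠ c • v) → χ g = 0) := by
  classical
  have hne0 : (Fintype.card F : ℂ) ≠ 0 := Cfsg.Agent.H15.PS.q_ne
  constructor
  · intro hdeg h1 h2 h3
    have hd := Cfsg.Agent.H15.M2.gl_det_ne g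
    rw [Matrix.det_fin_two, h1, zero_mul, sub_zero] at hd
    obtain ⟨a, ha⟩ : ∃ a : Fˣ, (a : F) = (g : Matrix (Fin 2) (Fin 2) F) 0 0 := ⟨Units.mk0 _ (left_ne_zero_of_mul hd), rfl⟩
    obtain ⟨d, hd'⟩ : ∃ d : Fˣ, (d : F) = (g : Matrix (Fin 2) (Fin 2) F) 1 1 := ⟨Units.mk0 _ (right_ne_zero_of_mul hd), rfl⟩
    have had : a ≠ d := by
      rintro rfl; exact h3 (by rw [← ha, ← hd'])
    have hg : g = Cfsg.Agent.H15.PS.utG a d 0 := by
      apply Units.ext
      rw [Cfsg.Agent.H15.PS.utG_coe]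
      ext i j
      fin_cases i <;> fin_cases j <;> simp [h1, h2, ha, hd']
    have hq : 3 ≤ Fintype.card F := by
      have h4 : ({0, (a : F), (d : F)} : Finset F).card ≤ Fintype.card F := Finset.card_le_univ _
      rw [Finset.card_insert_of_notMem, Finset.card_pair (fun h => had (Units.ext h))] at h4
      · exact h4
      · rw [Finset.mem_insert, Finset.mem_singleton, not_or]
        exact ⟨a.ne_zero.symm, d.ne_zero.symm⟩
    have hne2 : (Fintype.card F : ℂ) ≠ 2 := by
      have : Fintype.card F ≠ 2 := by omega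
      exact_mod_cast this
    rcases Cfsg.Agent.H15.PS.class_G hχ with ⟨α, h⟩ | ⟨α, h⟩ | ⟨α, β, hne, h⟩ | h
    · rw [h, Cfsg.Agent.H15.PS.LG_one] at hdeg
      exact absurd (by linear_combination -hdeg) hne2
    · rw [h, Cfsg.Agent.H15.PS.StG_one] at hdeg
      exact absurd (by linear_combination hdeg) (one_ne_zero (α := ℂ))
    · rw [h, Cfsg.Agent.H15.PS.RG_one] at hdeg
      exact absurd (by linear_combination hdeg) (two_ne_zero (α := ℂ))
    · rw [hg]
      exact h.1.split (Cfsg.Agent.H3.CharIrr.IsIrr.isClass hχ) had 0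
  · intro hdeg hell
    rcases Cfsg.Agent.H15.PS.class_G hχ with ⟨α, h⟩ | ⟨α, h⟩ | ⟨α, β, hne, h⟩ | h
    · rw [h, Cfsg.Agent.H15.PS.LG_one] at hdeg
      exact absurd (by linear_combination -hdeg) hne0
    · rw [h, Cfsg.Agent.H15.PS.StG_one] at hdeg
      exact absurd (by linear_combination -hdeg) (one_ne_zero (α := ℂ))
    · rw [h, Cfsg.Agent.H15.PS.RG_apply]
      exact Cfsg.Agent.H15.PS.E_ell _ hell
    · rw [h.2] at hdeg
      exact absurd (by linear_combination -hdeg) (two_ne_zero (α := ℂ))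

end Cfsg.Agent.S2309
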