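import Cfsg.Statements.S2310
import Cfsg.Agent.H15_CT2

set_option autoImplicit false
open Cfsg

namespace Cfsg.Agent.S2310

/-- Over a finite field F with q ≥ 3 elements, let u be the upper unitriangular matrix of GL₂ with off-diagonal entry 1. An irreducible complex character χ of GL₂ takes at u the value 1 if χ has degree 1 or q + 1, the value −1 if χ has degree q − 1, and the value 0 if χ has degree q. -/
theorem result {F : Type*} [Field F] [Fintype F] (hq : 3 ≤ Fintype.card F) (χ : Matrix.GeneralLinearGroup (Fin 2) F → ℂ) (hχ : Cfsg.IsIrrCharacter (Matrix.GeneralLinearGroup (Fin 2) F) χ)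
    (u : Matrix.GeneralLinearGroup (Fin 2) F) (hu : (u : Matrix (Fin 2) (Fin 2) F) = !![1, 1; 0, 1]) :
    (χ 1 = 1 → χ u = 1) ∧ (χ 1 = (Fintype.card F : ℂ) + 1 → χ u = 1) ∧
    (χ 1 = (Fintype.card F : ℂ) - 1 → χ u = -1) ∧ (χ 1 = (Fintype.card F : ℂ) → χ u = 0) := by
  classical
  have hne0 : (Fintype.card F : ℂ) ≠ 0 := Cfsg.Agent.H15.PS.q_ne
  have hne1 : (Fintype.card F : ℂ) ≠ 1 := by
    have : Fintype.card F ≠ 1 := by omega
    exact_mod_cast this
  have hne2 : (Fintype.card F : ℂ) ≠ 2 := by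
    have : Fintype.card F ≠ 2 := by omega
    exact_mod_cast this
  have hu' : u = Cfsg.Agent.H15.PS.utG 1 1 1 := by
    apply Units.ext
    rw [Cfsg.Agent.H15.PS.utG_coe, hu]
    simp
  have hE : ∀ w : F → F → ℂ, Cfsg.Agent.H15.PS.E w (u : Matrix (Fin 2) (Fin 2) F) = w 1 1 := by
    intro w
    apply Cfsg.Agent.H15.PS.E_para
    · rw [hu]; rintro ⟨h, _⟩; simp at h
    · rw [hu]; simp [Matrix.trace_fin_two]
    · rw [hu]; simp
  have hdetu : (u : Matrix (Fin 2) (Fin 2) F).det = 1 := by rw [hu]; simp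
  rcases Cfsg.Agent.H15.PS.class_G hχ with ⟨α, h⟩ | ⟨α, h⟩ | ⟨α, β, hne, h⟩ | h
  · have h1 : χ 1 = 1 := by rw [h, Cfsg.Agent.H15.PS.LG_one]
    have h2 : χ u = 1 := by rw [h, Cfsg.Agent.H15.PS.LG, hdetu, map_one]
    rw [h1, h2]
    refine ⟨fun _ => rfl, fun _ => rfl, fun h => ?_, fun h => ?_⟩
    · exact absurd (by linear_combination -h) hne2
    · exact absurd h.symm hne1
  · have h1 : χ 1 = Fintype.card F := by rw [h, Cfsg.Agent.H15.PS.StG_one]
    have h2 : χ u = 0 := by
      rw [h, Cfsg.Agent.H15.PS.StG, Pi.sub_apply, Cfsg.Agent.H15.PS.RG_apply, hE, Cfsg.Agent.H15.PS.LG, hdetu]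
      simp [Cfsg.Agent.H15.PS.wG]
    rw [h1, h2]
    refine ⟨fun h => absurd h hne1, fun h => ?_, fun h => ?_, fun _ => rfl⟩
    · exact absurd (by linear_combination -h) (one_ne_zero (α := ℂ))
    · exact absurd (by linear_combination h) (one_ne_zero (α := ℂ))
  · have h1 : χ 1 = Fintype.card F + 1 := by rw [h, Cfsg.Agent.H15.PS.RG_one]
    have h2 : χ u = 1 := by
      rw [h, Cfsg.Agent.H15.PS.RG_apply, hE]
      simp [Cfsg.Agent.H15.PS.wG]
    rw [h1, h2]
    refine ⟨fun _ => rfl, fun _ => rfl, fun h => ?_, fun h => ?_⟩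
    · exact absurd (by linear_combination h) (two_ne_zero (α := ℂ))
    · exact absurd (by linear_combination h) (one_ne_zero (α := ℂ))
  · obtain ⟨m, hm, hm1, hm2⟩ := Cfsg.Agent.H15.PS.CuspG.degree hχ h.1
    have hq := Cfsg.Agent.H15.PS.q1_ne (F := F)
    have hm3 : (m : ℂ) = 1 := by
      rw [h.2] at hm1
      exact mul_right_cancel₀ hq (by rw [← hm1, one_mul])
    have h2 : χ u = -1 := by rw [hu', hm2, hm3]
    rw [h.2, h2]
    refine ⟨fun h => ?_, fun h => ?_, fun _ => rfl, fun h => ?_⟩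
    · exact absurd (by linear_combination h) hne2
    · exact absurd (by linear_combination -h) (two_ne_zero (α := ℂ))
    · exact absurd (by linear_combination -h) (one_ne_zero (α := ℂ))

end Cfsg.Agent.S2310
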