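import Cfsg.Agent.H16_Un4
import Cfsg.Agent.H5_Concrete
import Cfsg.Statements.S2316
-- import your own Cfsg.Agent.* helpers here

set_option autoImplicit false
open Cfsg

namespace Cfsg.Agent.S2316

/-- Steinberg's count of unipotent elements for the symplectic group: over a finite field with q elements of characteristic p, the number of elements of Sp_{2m} of p-power order is q^(2m²). -/
theorem result {F : Type*} [Field F] [Fintype F] (p : ℕ) [Fact p.Prime] [CharP F p] (m : ℕ) :
    Nat.card {g : ↥(Matrix.symplecticGroup (Fin m) F) // ∃ k : ℕ, orderOf g = p ^ k} = Fintype.card F ^ (2 * m ^ 2) := by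
  classical
  have h1 := H16.Un.main (F := F) p m (H5.Conc.sympFrm m F) (H5.Conc.sympFrm_nondeg m F) (by
    rw [Module.finrank_pi, Fintype.card_sum, Fintype.card_fin]; ring)
  rw [← h1, ← H16.Un.pel_congr p (H5.Conc.spEquiv m F)]
  refine Nat.card_congr (Equiv.subtypeEquivRight fun g => ?_)
  exact exists_orderOf_eq_prime_pow_iff

end Cfsg.Agent.S2316
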