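import Cfsg.Statements.S2320
import Cfsg.Agent.H15_CT2

set_option autoImplicit false
open Cfsg

namespace Cfsg.Agent.S2320

theorem norm_mulChar {F : Type*} [Field F] [Fintype F] (α : MulChar F ℂ) {a : F} (ha : a ≠ 0) : ‖α a‖ = 1 := by
  haveI : Fintype Fˣ := Fintype.ofFinite _
  have h1 : α a ^ Fintype.card Fˣ = 1 := by
    rw [← map_pow]
    have : a ^ Fintype.card Fˣ = 1 := by
      have := pow_card_eq_one (G := Fˣ) (x := Units.mk0 a ha)
      have h2 := congrArg Units.val this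
      rw [Units.val_pow_eq_pow_val, Units.val_mk0, Units.val_one] at h2
      exact h2
    rw [this, map_one]
  exact Complex.norm_eq_one_of_pow_eq_one h1 Fintype.card_ne_zero


/-- Over a finite field F with q elements, every irreducible complex character of GL₂ of degree q takes a value of absolute value 1 at every diagonal matrix with two different diagonal entries and at every element with no eigenvector in F². -/
theorem result {F : Type*} [Field F] [Fintype F] (χ : Matrix.GeneralLinearGroup (Fin 2) F → ℂ) (hχ : Cfsg.IsIrrCharacter (Matrix.GeneralLinearGroup (Fin 2) F) χ) (hdeg : χ 1 = (Fintype.card F : ℂ)) (g : Matrix.GeneralLinearGroup (Fin 2) F) :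
    ((g : Matrix (Fin 2) (Fin 2) F) 0 1 = 0 → (g : Matrix (Fin 2) (Fin 2) F) 1 0 = 0 → (g : Matrix (Fin 2) (Fin 2) F) 0 0 ≠ (g : Matrix (Fin 2) (Fin 2) F) 1 1 → ‖χ g‖ = 1) ∧
    ((∀ (c : F) (v : Fin 2 → F), v ≠ 0 → (g : Matrix (Fin 2) (Fin 2) F).mulVec v ≠ c • v) → ‖χ g‖ = 1) := by
  classical
  have hne0 : (Fintype.card F : ℂ) ≠ 0 := Cfsg.Agent.H15.PS.q_ne
  have hS : ∃ α, χ = Cfsg.Agent.H15.PS.StG α := by
    rcases Cfsg.Agent.H15.PS.class_G hχ with ⟨α, h⟩ | ⟨α, h⟩ | ⟨α, β, hne, h⟩ | h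
    · rw [h, Cfsg.Agent.H15.PS.LG_one] at hdeg
      exact absurd hdeg Cfsg.Agent.H15.PS.one_lt_card_c
    · exact ⟨α, h⟩
    · rw [h, Cfsg.Agent.H15.PS.RG_one] at hdeg
      exact absurd (by linear_combination hdeg) (one_ne_zero (α := ℂ))
    · rw [h.2] at hdeg
      exact absurd (by linear_combination -hdeg) (one_ne_zero (α := ℂ))
  obtain ⟨α, rfl⟩ := hS
  constructor
  · intro h1 h2 h3
    have hd := Cfsg.Agent.H15.M2.gl_det_ne g
    rw [Matrix.det_fin_two, h1, zero_mul, sub_zero] at hd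
    obtain ⟨a, ha⟩ : ∃ a : Fˣ, (a : F) = (g : Matrix (Fin 2) (Fin 2) F) 0 0 := ⟨Units.mk0 _ (left_ne_zero_of_mul hd), rfl⟩
    obtain ⟨d, hd'⟩ : ∃ d : Fˣ, (d : F) = (g : Matrix (Fin 2) (Fin 2) F) 1 1 := ⟨Units.mk0 _ (right_ne_zero_of_mul hd), rfl⟩
    have had : a ≠ d := by
      rintro rfl; exact h3 (by rw [← ha, ← hd'])
    have hg : g = Cfsg.Agent.H15.PS.utG a d 0 := by
      apply Units.ext
      rw [Cfsg.Agent.H15.PS.utG_coe]
      ext i j
      fin_cases i <;> fin_cases j <;> simp [h1, h2, ha, hd']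
    rw [hg, Cfsg.Agent.H15.PS.StG_split α had 0, norm_mul, norm_mulChar α a.ne_zero, norm_mulChar α d.ne_zero, mul_one]
  · intro hell
    rw [Cfsg.Agent.H15.PS.StG, Pi.sub_apply, Cfsg.Agent.H15.PS.RG_apply, Cfsg.Agent.H15.PS.E_ell _ hell, zero_sub, norm_neg,
      Cfsg.Agent.H15.PS.LG]
    exact norm_mulChar α (Cfsg.Agent.H15.M2.gl_det_ne g)

end Cfsg.Agent.S2320
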