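import Cfsg.Statements.S2321
import Cfsg.Agent.H15_ST4

set_option autoImplicit false
open Cfsg

namespace Cfsg.Agent.S2321

/-- Over a finite field F with q elements, an irreducible complex character of SL₂ of degree q (the Steinberg character) takes the value 1 at every diagonal matrix whose diagonal entry a has a² ≠ 1, the value −1 at every element with no eigenvector in F², and the value 0 at every upper triangular matrix with equal diagonal entries and non-zero upper right entry. -/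
theorem result {F : Type*} [Field F] [Fintype F] (χ : Matrix.SpecialLinearGroup (Fin 2) F → ℂ) (hχ : Cfsg.IsIrrCharacter (Matrix.SpecialLinearGroup (Fin 2) F) χ) (hdeg : χ 1 = (Fintype.card F : ℂ)) (g : Matrix.SpecialLinearGroup (Fin 2) F) :
    ((g : Matrix (Fin 2) (Fin 2) F) 0 1 = 0 → (g : Matrix (Fin 2) (Fin 2) F) 1 0 = 0 → (g : Matrix (Fin 2) (Fin 2) F) 0 0 ^ 2 ≠ 1 → χ g = 1) ∧
    ((∀ (c : F) (v : Fin 2 → F), v ≠ 0 → (g : Matrix (Fin 2) (Fin 2) F).mulVec v ≠ c • v) → χ g = -1) ∧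
    ((g : Matrix (Fin 2) (Fin 2) F) 1 0 = 0 → (g : Matrix (Fin 2) (Fin 2) F) 0 0 = (g : Matrix (Fin 2) (Fin 2) F) 1 1 → (g : Matrix (Fin 2) (Fin 2) F) 0 1 ≠ 0 → χ g = 0) := by
  classical
  rw [Cfsg.Agent.H15.PS.deg_q hχ hdeg]
  have hdet : (g : Matrix (Fin 2) (Fin 2) F) 0 0 * (g : Matrix (Fin 2) (Fin 2) F) 1 1 - (g : Matrix (Fin 2) (Fin 2) F) 0 1 * (g : Matrix (Fin 2) (Fin 2) F) 1 0 = 1 := by
    have := g.2; rwa [Matrix.det_fin_two] at this
  refine ⟨fun h01 h10 ha => ?_, fun hell => Cfsg.Agent.H15.PS.StS_ell hell, fun h10 h11 h01 => ?_⟩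
  · rw [h01, zero_mul, sub_zero] at hdet
    obtain ⟨a, ha'⟩ : ∃ a : Fˣ, (a : F) = (g : Matrix (Fin 2) (Fin 2) F) 0 0 := ⟨Units.mk0 _ (left_ne_zero_of_mul_eq_one hdet), rfl⟩
    have hg : g = Cfsg.Agent.H15.PS.utS a 0 := by
      apply Subtype.ext
      show (g : Matrix (Fin 2) (Fin 2) F) = _
      rw [Cfsg.Agent.H15.PS.utS_coe]
      have h3 : ((a⁻¹ : Fˣ) : F) = (g : Matrix (Fin 2) (Fin 2) F) 1 1 := by
        rw [Units.val_inv_eq_inv_val, ha']
        exact inv_eq_of_mul_eq_one_right hdet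
      ext i j
      fin_cases i <;> fin_cases j <;> simp [h01, h10, ha']
      exact (inv_eq_of_mul_eq_one_right hdet).symm
    rw [hg]
    apply Cfsg.Agent.H15.PS.StS_split
    intro h
    apply ha
    rw [← ha', sq, ← Units.val_mul, h, Units.val_one]
  · rw [h10, mul_zero, sub_zero, ← h11] at hdet
    have hg : g = Cfsg.Agent.H15.M2.up ((g : Matrix (Fin 2) (Fin 2) F) 0 0) ((g : Matrix (Fin 2) (Fin 2) F) 0 1) hdet := by
      apply Subtype.ext
      ext i j
      fin_cases i <;> fin_cases j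
      · rfl
      · rfl
      · exact h10
      · exact h11.symm
    rw [hg]
    exact Cfsg.Agent.H15.PS.StS_up hdet h01

end Cfsg.Agent.S2321
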