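import Cfsg.Statements.S2322
import Cfsg.Agent.H15_XT5

set_option autoImplicit false
open Cfsg

namespace Cfsg.Agent.S2322

open Cfsg.Agent.H15.PS Cfsg.Agent.H15.M2 in
theorem part1 {F : Type*} [Field F] [Fintype F] [DecidableEq F] (hodd : Odd (Fintype.card F)) (χ : Matrix.SpecialLinearGroup (Fin 2) F → ℂ) (hχ : Cfsg.IsIrrCharacter (Matrix.SpecialLinearGroup (Fin 2) F) χ) (a : Fˣ) (ha : a * a ≠ 1) :
    ((χ 1 = (Fintype.card F : ℂ) - 1 ∨ χ 1 = (((Fintype.card F - 1) / 2 : ℕ) : ℂ)) → χ (utS a 0) = 0) := by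
  have hq : 4 ≤ Fintype.card F := by
    have h4 : ({0, 1, (a : F), (a : F)⁻¹} : Finset F).card ≤ Fintype.card F := Finset.card_le_univ _
    have ha1 : (a : F) ≠ 1 := fun h => ha (by have : a = 1 := Units.ext h; rw [this, mul_one])
    have hai : (a : F) ≠ (a : F)⁻¹ := by
      intro h
      apply ha
      apply Units.ext
      rw [Units.val_mul, Units.val_one]
      nth_rewrite 2 [h]
      exact mul_inv_cancel₀ a.ne_zero
    rw [Finset.card_insert_of_notMem, Finset.card_insert_of_notMem, Finset.card_pair hai] at h4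
    · exact h4
    · rw [Finset.mem_insert, Finset.mem_singleton, not_or]
      refine ⟨Ne.symm ha1, fun h => ha1 ?_⟩
      rw [← inv_inv (a : F), ← h, inv_one]
    · rw [Finset.mem_insert, Finset.mem_insert, Finset.mem_singleton, not_or, not_or]
      exact ⟨zero_ne_one, a.ne_zero.symm, (inv_ne_zero a.ne_zero).symm⟩
  rintro (h | h)
  · obtain ⟨χ', h1, h2, h3, rfl⟩ := deg_qm hq hχ h
    exact rG_split h1 h2 ha 0
  · obtain ⟨χ', ψ', h1, h2, h3, _, hH⟩ := deg_hm hq hχ (by rw [h, half_m hodd])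
    have h5 := hH.val (InvC.utS ha 0)
    rw [rG_split h1 h2 ha 0] at h5
    exact (mul_eq_zero.mp h5).resolve_left two_ne_zero

open Cfsg.Agent.H15.PS Cfsg.Agent.H15.M2 in
theorem part2 {F : Type*} [Field F] [Fintype F] [DecidableEq F] (hodd : Odd (Fintype.card F)) (χ : Matrix.SpecialLinearGroup (Fin 2) F → ℂ) (hχ : Cfsg.IsIrrCharacter (Matrix.SpecialLinearGroup (Fin 2) F) χ) (g : Matrix.SpecialLinearGroup (Fin 2) F) (hg : Ell (g : Matrix (Fin 2) (Fin 2) F)) :
    ((χ 1 = (Fintype.card F : ℂ) + 1 ∨ χ 1 = (((Fintype.card F + 1) / 2 : ℕ) : ℂ)) → χ g = 0) := by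
  rintro (h | h)
  · obtain ⟨α, _, rfl⟩ := deg_qp hχ h
    exact RS_ell α hg
  · have hd : 2 * χ 1 = (Fintype.card F : ℂ) + 1 := by rw [h, half_p hodd]
    have hTH : TH χ → χ g = 0 := by
      rintro ⟨α, ψ', _, _, hH⟩
      have h1 := hH.val (InvC.ell hg)
      rw [RS_ell _ hg] at h1
      exact (mul_eq_zero.mp h1).resolve_left two_ne_zero
    by_cases h4 : 4 ≤ Fintype.card F
    · exact hTH (deg_hp h4 hχ hd)
    · have h3 : Fintype.card F = 3 := by
        have := one_lt_q (F := F)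
        obtain ⟨k, hk⟩ := hodd
        omega
      have h3c : (Fintype.card F : ℂ) = 3 := by rw [h3]; norm_num
      rcases class_T hχ with h | h | h | h | h | h
      · rw [h, h3c] at hd; norm_num at hd
      · rw [h, StS_one, h3c] at hd; norm_num at hd
      · rw [h.deg, h3c] at hd; norm_num at hd
      · exact hTH h
      · obtain ⟨θ, hθ, rfl⟩ := (TC_iff hg hχ).mp h
        have hm : g ∈ TE g := by rw [Subgroup.mem_centralizer_singleton_iff]
        have h1 := XT_ell hg θ ⟨g, hm⟩ hg.ns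
        rw [three_val h3 hg hθ (x := ⟨g, hm⟩) hg.ns, neg_zero] at h1
        exact h1
      · have := h.deg
        rw [hd, h3c] at this
        norm_num at this


/-- Over a finite field F with q elements, q odd: every irreducible complex character of SL₂ of degree q − 1 or (q − 1)/2 vanishes at every diagonal matrix whose diagonal entry a has a² ≠ 1, and every irreducible complex character of degree q + 1 or (q + 1)/2 vanishes at every element with no eigenvector in F². -/
theorem result {F : Type*} [Field F] [Fintype F] (hodd : Odd (Fintype.card F)) (χ : Matrix.SpecialLinearGroup (Fin 2) F → ℂ) (hχ : Cfsg.IsIrrCharacter (Matrix.SpecialLinearGroup (Fin 2) F) χ) (g : Matrix.SpecialLinearGroup (Fin 2) F) :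
    ((χ 1 = (Fintype.card F : ℂ) - 1 ∨ χ 1 = (((Fintype.card F - 1) / 2 : ℕ) : ℂ)) →
      (g : Matrix (Fin 2) (Fin 2) F) 0 1 = 0 → (g : Matrix (Fin 2) (Fin 2) F) 1 0 = 0 → (g : Matrix (Fin 2) (Fin 2) F) 0 0 ^ 2 ≠ 1 → χ g = 0) ∧
    ((χ 1 = (Fintype.card F : ℂ) + 1 ∨ χ 1 = (((Fintype.card F + 1) / 2 : ℕ) : ℂ)) →
      (∀ (c : F) (v : Fin 2 → F), v ≠ 0 → (g : Matrix (Fin 2) (Fin 2) F).mulVec v ≠ c • v) → χ g = 0) := by
  classical
  refine ⟨fun h h01 h10 h00 => ?_, fun h hell => part2 hodd χ hχ g hell h⟩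
  obtain ⟨a, ha, _, rfl⟩ := Cfsg.Agent.H15.PS.eq_utS h01 h10 h00
  exact part1 hodd χ hχ a ha h

end Cfsg.Agent.S2322
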