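import Cfsg.Statements.S2324
import Cfsg.Agent.H15_XT7

set_option autoImplicit false
open Cfsg

namespace Cfsg.Agent.S2324

/-- Over a finite field F with q elements, q odd and q ≥ 5, let u be the upper unitriangular matrix of SL₂ with off-diagonal entry 1 and let δ = (−1)^((q−1)/2). Every irreducible complex character χ of SL₂ of degree (q + 1)/2 satisfies (2χ(u) − 1)² = δq, and every irreducible complex character χ of degree (q − 1)/2 satisfies (2χ(u) + 1)² = δq; that is, χ(u) = (1 ± √(δq))/2 in the first case and χ(u) = (−1 ± √(δq))/2 in the second. Moreover two different irreducible characters of degree (q + 1)/2 take the two different values (their values at u add up to 1), and likewise for degree (q − 1)/2 (values adding up to −1). -/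
theorem result {F : Type*} [Field F] [Fintype F] (hodd : Odd (Fintype.card F)) (hq : 5 ≤ Fintype.card F)
    (u : Matrix.SpecialLinearGroup (Fin 2) F) (hu : (u : Matrix (Fin 2) (Fin 2) F) = !![1, 1; 0, 1]) :
    (∀ χ : Matrix.SpecialLinearGroup (Fin 2) F → ℂ, Cfsg.IsIrrCharacter (Matrix.SpecialLinearGroup (Fin 2) F) χ → χ 1 = (((Fintype.card F + 1) / 2 : ℕ) : ℂ) → (2 * χ u - 1) ^ 2 = (-1 : ℂ) ^ ((Fintype.card F - 1) / 2) * (Fintype.card F : ℂ)) ∧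
    (∀ χ : Matrix.SpecialLinearGroup (Fin 2) F → ℂ, Cfsg.IsIrrCharacter (Matrix.SpecialLinearGroup (Fin 2) F) χ → χ 1 = (((Fintype.card F - 1) / 2 : ℕ) : ℂ) → (2 * χ u + 1) ^ 2 = (-1 : ℂ) ^ ((Fintype.card F - 1) / 2) * (Fintype.card F : ℂ)) ∧
    (∀ χ₁ χ₂ : Matrix.SpecialLinearGroup (Fin 2) F → ℂ, Cfsg.IsIrrCharacter (Matrix.SpecialLinearGroup (Fin 2) F) χ₁ → Cfsg.IsIrrCharacter (Matrix.SpecialLinearGroup (Fin 2) F) χ₂ → χ₁ ≠ χ₂ →
      χ₁ 1 = (((Fintype.card F + 1) / 2 : ℕ) : ℂ) → χ₂ 1 = (((Fintype.card F + 1) / 2 : ℕ) : ℂ) → χ₁ u + χ₂ u = 1) ∧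
    (∀ χ₁ χ₂ : Matrix.SpecialLinearGroup (Fin 2) F → ℂ, Cfsg.IsIrrCharacter (Matrix.SpecialLinearGroup (Fin 2) F) χ₁ → Cfsg.IsIrrCharacter (Matrix.SpecialLinearGroup (Fin 2) F) χ₂ → χ₁ ≠ χ₂ →
      χ₁ 1 = (((Fintype.card F - 1) / 2 : ℕ) : ℂ) → χ₂ 1 = (((Fintype.card F - 1) / 2 : ℕ) : ℂ) → χ₁ u + χ₂ u = -1) := by
  classical
  have h2 := Cfsg.Agent.H15.PS.two_ne_zero_of_odd hodd
  have hp := Cfsg.Agent.H15.PS.half_p hodd
  have hm := Cfsg.Agent.H15.PS.half_m hodd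
  have hq4 : 4 ≤ Fintype.card F := by omega
  have hu' : u = Cfsg.Agent.H15.M2.up 1 1 (one_mul 1) := by
    apply Subtype.ext
    exact hu
  rw [hu']
  have hRS : ∀ (α : MulChar F ℂ) (b : F), b ≠ 0 → Cfsg.Agent.H15.PS.RS α (Cfsg.Agent.H15.M2.up 1 b (one_mul 1)) = 1 :=
    fun α b hb => by rw [Cfsg.Agent.H15.PS.RS_up α _ hb, map_one]
  refine ⟨fun χ hχ hd => ?_, fun χ hχ hd => ?_, fun χ₁ χ₂ h1 h3 hne hd1 hd2 => ?_, fun χ₁ χ₂ h1 h3 hne hd1 hd2 => ?_⟩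
  · obtain ⟨α, ψ', _, _, hH⟩ := Cfsg.Agent.H15.PS.deg_hp hq4 hχ (by rw [hd, hp])
    exact hH.val_u hodd (hRS α)
  · obtain ⟨χ', ψ', h1, h2', h3, _, hH⟩ := Cfsg.Agent.H15.PS.deg_hm hq4 hχ (by rw [hd, hm])
    have := hH.val_u hodd (ε := -1) (fun b hb => Cfsg.Agent.H15.PS.rG_up h1 h2' h3 hb)
    rw [sub_neg_eq_add] at this
    exact this
  · obtain ⟨α, ψ', hα, hα1, hH⟩ := Cfsg.Agent.H15.PS.deg_hp hq4 h1 (by rw [hd1, hp])
    rcases Cfsg.Agent.H15.PS.TH_pair hα hα1 hH (Cfsg.Agent.H15.PS.deg_hp hq4 h3 (by rw [hd2, hp])) with h | h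
    · exact absurd h.symm hne
    · rw [h, ← hRS α 1 one_ne_zero, hH.2.2.2.1]; rfl
  · obtain ⟨χ', ψ', k1, k2, k3, k4, hH⟩ := Cfsg.Agent.H15.PS.deg_hm hq4 h1 (by rw [hd1, hm])
    rcases Cfsg.Agent.H15.PS.TD_pair h2 k1 k2 k3 hH h3 (Cfsg.Agent.H15.PS.deg_hm hq4 h3 (by rw [hd2, hm])) with h | h
    · exact absurd h.symm hne
    · rw [h, ← Cfsg.Agent.H15.PS.rG_up k1 k2 k3 (one_ne_zero (α := F)), hH.2.2.2.1]; rfl

end Cfsg.Agent.S2324
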