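import Cfsg.Statements.S2325
import Cfsg.Agent.H15_M2e

set_option autoImplicit false
open Cfsg

namespace Cfsg.Agent.S2325

/-- Over a finite field with q elements, q odd, the special linear group SL₂ has exactly q + 4 conjugacy classes. -/
theorem result {F : Type*} [Field F] [Fintype F] (hodd : Odd (Fintype.card F)) :
    Nat.card (ConjClasses (Matrix.SpecialLinearGroup (Fin 2) F)) = Fintype.card F + 4 := by
  have h2 : (2 : F) ≠ 0 := by
    intro h
    have hc : ringChar F = 2 := by
      have h1 : ((2 : ℕ) : F) = 0 := by exact_mod_cast h
      have h3 := (ringChar.spec F 2).mp h1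
      rcases (Nat.dvd_prime Nat.prime_two).mp h3 with h4 | h4
      · exact absurd h4 (CharP.ringChar_ne_one)
      · exact h4
    have := FiniteField.even_card_of_char_two hc
    rw [Nat.odd_iff] at hodd
    omega
  rw [Cfsg.Agent.H15.M2.card_conj_odd h2, Nat.card_eq_fintype_card]

end Cfsg.Agent.S2325
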