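import Cfsg.Statements.S2330
import Cfsg.Agent.H15_M2g

set_option autoImplicit false
open Cfsg

namespace Cfsg.Agent.S2330

/-- Over a finite field with q elements, the general linear group GL₂ has exactly q² − 1 conjugacy classes. -/
theorem result {F : Type*} [Field F] [Fintype F] :
    Nat.card (ConjClasses (Matrix.GeneralLinearGroup (Fin 2) F)) = Fintype.card F ^ 2 - 1 := by
  rw [Cfsg.Agent.H15.M2.card_conj_gl, Nat.card_eq_fintype_card]

end Cfsg.Agent.S2330
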