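import Cfsg.Statements.S2331
import Cfsg.Agent.H15_M2e

set_option autoImplicit false
open Cfsg

namespace Cfsg.Agent.S2331

/-- Over a finite field with q elements, q even, the special linear group SL₂ has exactly q + 1 conjugacy classes. -/
theorem result {F : Type*} [Field F] [Fintype F] [CharP F 2] :
    Nat.card (ConjClasses (Matrix.SpecialLinearGroup (Fin 2) F)) = Fintype.card F + 1 := by
  have h2 : (2 : F) = 0 := CharTwo.two_eq_zero
  rw [Cfsg.Agent.H15.M2.card_conj_even h2, Nat.card_eq_fintype_card]

end Cfsg.Agent.S2331
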