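import Cfsg.Statements.S2363
import Cfsg.Agent.H15_LieOrd

set_option autoImplicit false
open Cfsg

namespace Cfsg.Agent.S2363

/-- Let G be a finite simple group of Lie type in characteristic p and let p^k be the exact power of p dividing the order of G. Then the order of G is less than p^(3k); and unless G is isomorphic to PSL(2, F) for the field F with p^k elements, the cube of the order of G is less than p^(8k) (that is, the order is below p^(8k/3)). -/
theorem result {G : Type*} [Group G] [Finite G] (p : ℕ) (hp : p.Prime) (hG : Cfsg.IsLieTypeChar p G) :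
    Nat.card G < p ^ (3 * (Nat.card G).factorization p) ∧
      ((¬ ∃ (F : Type) (_ : Field F) (_ : Fintype F), Fintype.card F = p ^ (Nat.card G).factorization p ∧
          Nonempty (G ≃* Matrix.ProjectiveSpecialLinearGroup (Fin 2) F)) →
        Nat.card G ^ 3 < p ^ (8 * (Nat.card G).factorization p)) := by
  rcases Cfsg.Agent.H15.LO.main p hp hG with ⟨q, N, M, h, h1, h2⟩ | ⟨F, _, _, h, hiso⟩
  · exact ⟨h.main1 hp h1, fun _ => h.main2 hp h2⟩
  · refine ⟨h.main1 hp (by norm_num), fun hn => absurd ⟨F, inferInstance, inferInstance, ?_, hiso⟩ hn⟩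
    have := h.ppart hp
    rwa [pow_one] at this

end Cfsg.Agent.S2363
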