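import Cfsg.Statements.S2367


set_option autoImplicit false
open Cfsg

namespace Cfsg.Agent.S2367

theorem sp (N a : ℕ) (L : List ℕ) (hN : N ≠ 0) (h1 : N ∣ L.prod ^ 50) (hL : ∀ q ∈ L, q.Prime) (hc : ∀ q ∈ L, q = 2 ∨ ¬ q ^ 3 ∣ N ∨ q ^ 4 ∣ N ∨ q ^ 3 < 2 ^ a)
    (h2 : 2 ^ a ∣ N) (p : ℕ) (hp : p.Prime) (hodd : p ≠ 2) (h3 : N.factorization p = 3) : p ^ 3 < 2 ^ N.factorization 2 := by
  have hpN : p ∣ N := by
    rw [hp.dvd_iff_one_le_factorization hN]; omega
  have h4 : p ∣ L.prod := hp.dvd_of_dvd_pow (hpN.trans h1)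
  obtain ⟨q, hq, hpq⟩ := (hp.prime.dvd_prod_iff).mp h4
  have h5 : p = q := (Nat.prime_dvd_prime_iff_eq hp (hL q hq)).mp hpq
  subst h5
  have h6 : a ≤ N.factorization 2 := (Nat.prime_two.pow_dvd_iff_le_factorization hN).mp h2
  rcases hc p hq with h | h | h | h
  · exact absurd h hodd
  · exact absurd ((hp.pow_dvd_iff_le_factorization hN).mpr (by omega)) h
  · have := (hp.pow_dvd_iff_le_factorization hN).mp h
    omega
  · exact h.trans_le (Nat.pow_le_pow_right (by norm_num) h6)

theorem v2 (m : ℕ) : m / 2 ≤ m.factorial.factorization 2 := by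
  have h1 : (2 * (m / 2)).factorial ∣ m.factorial := Nat.factorial_dvd_factorial (Nat.mul_div_le m 2)
  have h2 := (Nat.factorization_le_iff_dvd (Nat.factorial_ne_zero _) (Nat.factorial_ne_zero _)).mpr h1 2
  rw [Nat.factorization_factorial_mul Nat.prime_two] at h2
  omega

theorem v2' (t : ℕ) (ht : 2 ≤ t) : 4 * t + 2 ≤ (6 * t + 3).factorial.factorization 2 := by
  have h1 : (2 * (3 * t + 1)).factorial ∣ (6 * t + 3).factorial := Nat.factorial_dvd_factorial (by omega)
  have h2 := (Nat.factorization_le_iff_dvd (Nat.factorial_ne_zero _) (Nat.factorial_ne_zero _)).mpr h1 2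
  rw [Nat.factorization_factorial_mul Nat.prime_two] at h2
  have h3 := v2 (3 * t + 1)
  omega

theorem pw (t : ℕ) (ht : 2 ≤ t) : (2 * t + 1) ^ 3 < 2 ^ (4 * t + 1) := by
  induction t, ht using Nat.le_induction with
  | base => norm_num
  | succ t ht ih =>
    have e : 2 ^ (4 * (t + 1) + 1) = 16 * 2 ^ (4 * t + 1) := by rw [show 4 * (t + 1) + 1 = 4 + (4 * t + 1) by ring, pow_add]; norm_num
    rw [e]
    have : (2 * (t + 1) + 1) ^ 3 ≤ 16 * (2 * t + 1) ^ 3 := by
      have h1 : 2 * (t + 1) + 1 ≤ 2 * (2 * t + 1) := by omega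
      calc (2 * (t + 1) + 1) ^ 3 ≤ (2 * (2 * t + 1)) ^ 3 := Nat.pow_le_pow_left h1 3
        _ = 8 * (2 * t + 1) ^ 3 := by ring
        _ ≤ 16 * (2 * t + 1) ^ 3 := by omega
    omega

/-- Let G be an alternating group of degree at least 5 or a simple group with the order of one of the 26 sporadic groups, and let p be an odd prime such that p³ is the exact power of p dividing the order of G. Then p³ is less than the 2-part of the order of G. -/
theorem result {G : Type*} [Group G] [Finite G] (hG : Cfsg.IsAlternating G ∨ Cfsg.IsSporadic G)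
    (p : ℕ) (hp : p.Prime) (hodd : p ≠ 2) (h3 : (Nat.card G).factorization p = 3) :
    p ^ 3 < 2 ^ (Nat.card G).factorization 2 := by
  rcases hG with ⟨n, hn, ⟨e⟩⟩ | hG
  · have hc : 2 * Nat.card G = n.factorial := by
      haveI : Nontrivial (Fin n) := Fin.nontrivial_iff_two_le.mpr (by omega)
      rw [Nat.card_congr e.toEquiv, Nat.card_eq_fintype_card, two_mul_card_alternatingGroup, Fintype.card_perm, Fintype.card_fin]
    have hG0 : Nat.card G ≠ 0 := Nat.card_pos.ne'
    have hvp : n.factorial.factorization p = 3 := by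
      rw [← hc, Nat.factorization_mul (by norm_num) hG0, Finsupp.add_apply, h3, Nat.Prime.factorization Nat.prime_two, Finsupp.single_eq_of_ne (by simpa using hodd)]
    have hv2 : n.factorial.factorization 2 = (Nat.card G).factorization 2 + 1 := by
      rw [← hc, Nat.factorization_mul (by norm_num) hG0, Finsupp.add_apply, Nat.Prime.factorization_self Nat.prime_two, add_comm]
    have hp3 : p ≠ 3 := by
      rintro rfl
      by_cases h9 : 9 ≤ n
      · have h1 := (Nat.factorization_le_iff_dvd (Nat.factorial_ne_zero _) (Nat.factorial_ne_zero _)).mpr (Nat.factorial_dvd_factorial h9) 3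
        have h2 : (Nat.factorial 9).factorization 3 = 4 := by
          rw [Nat.factorization_factorial (b := 3) Nat.prime_three (by decide)]; decide
        omega
      · have h1 := (Nat.factorization_le_iff_dvd (Nat.factorial_ne_zero _) (Nat.factorial_ne_zero _)).mpr (Nat.factorial_dvd_factorial (show n ≤ 8 by omega)) 3
        have h2 : (Nat.factorial 8).factorization 3 = 2 := by
          rw [Nat.factorization_factorial (b := 2) Nat.prime_three (by decide)]; decide
        omega
    have h3p : 3 * p ≤ n := by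
      by_contra hlt
      push Not at hlt
      have hp2 := hp.two_le
      have h5 : n < p ^ 2 := by
        have : 3 ≤ p := by omega
        nlinarith
      have h6 := Nat.factorization_factorial (b := 2) hp (n := n) (Nat.log_lt_of_lt_pow (by omega) h5)
      rw [hvp, Finset.sum_Ico_succ_top (by norm_num)] at h6
      simp only [Finset.Ico_self, Finset.sum_empty, pow_one, zero_add] at h6
      have h7 := Nat.div_mul_le_self n p
      rw [← h6] at h7
      omega
    obtain ⟨t, ht⟩ := hp.odd_of_ne_two hodd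
    have ht2 : 2 ≤ t := by have := hp.two_le; omega
    have h7 := (Nat.factorization_le_iff_dvd (Nat.factorial_ne_zero _) (Nat.factorial_ne_zero _)).mpr (Nat.factorial_dvd_factorial (show 6 * t + 3 ≤ n by omega)) 2
    have h8 := v2' t ht2
    have h9 := pw t ht2
    rw [ht]
    exact h9.trans_le (Nat.pow_le_pow_right (by norm_num) (by omega))
  · rcases hG with ⟨-, hG⟩ | ⟨-, hG⟩ | ⟨-, hG⟩ | ⟨-, hG⟩ | ⟨-, hG⟩ | ⟨-, hG⟩ | ⟨-, hG⟩ | ⟨-, hG⟩ | ⟨-, hG⟩ | ⟨-, hG⟩ | ⟨-, hG⟩ | ⟨-, hG⟩ | ⟨-, hG⟩ | ⟨-, hG⟩ | ⟨-, hG⟩ | ⟨-, hG⟩ | ⟨-, hG⟩ | ⟨-, hG⟩ | ⟨-, hG⟩ | ⟨-, hG⟩ | ⟨-, hG⟩ | ⟨-, hG⟩ | ⟨-, hG⟩ | ⟨-, hG⟩ | ⟨-, hG⟩ | ⟨-, hG⟩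
    · rw [hG] at h3 ⊢; exact sp 7920 4 [2, 3, 5, 11] (by norm_num) (by norm_num) (by norm_num) (by norm_num) (by norm_num) p hp hodd h3
    · rw [hG] at h3 ⊢; exact sp 95040 6 [2, 3, 5, 11] (by norm_num) (by norm_num) (by norm_num) (by norm_num) (by norm_num) p hp hodd h3
    · rw [hG] at h3 ⊢; exact sp 443520 7 [2, 3, 5, 7, 11] (by norm_num) (by norm_num) (by norm_num) (by norm_num) (by norm_num) p hp hodd h3
    · rw [hG] at h3 ⊢; exact sp 10200960 7 [2, 3, 5, 7, 11, 23] (by norm_num) (by norm_num) (by norm_num) (by norm_num) (by norm_num) p hp hodd h3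
    · rw [hG] at h3 ⊢; exact sp 244823040 10 [2, 3, 5, 7, 11, 23] (by norm_num) (by norm_num) (by norm_num) (by norm_num) (by norm_num) p hp hodd h3
    · rw [hG] at h3 ⊢; exact sp 175560 3 [2, 3, 5, 7, 11, 19] (by norm_num) (by norm_num) (by norm_num) (by norm_num) (by norm_num) p hp hodd h3
    · rw [hG] at h3 ⊢; exact sp 604800 7 [2, 3, 5, 7] (by norm_num) (by norm_num) (by norm_num) (by norm_num) (by norm_num) p hp hodd h3
    · rw [hG] at h3 ⊢; exact sp 50232960 7 [2, 3, 5, 17, 19] (by norm_num) (by norm_num) (by norm_num) (by norm_num) (by norm_num) p hp hodd h3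
    · rw [hG] at h3 ⊢; exact sp 86775571046077562880 21 [2, 3, 5, 7, 11, 23, 29, 31, 37, 43] (by norm_num) (by norm_num) (by norm_num) (by norm_num) (by norm_num) p hp hodd h3
    · rw [hG] at h3 ⊢; exact sp 4157776806543360000 21 [2, 3, 5, 7, 11, 13, 23] (by norm_num) (by norm_num) (by norm_num) (by norm_num) (by norm_num) p hp hodd h3
    · rw [hG] at h3 ⊢; exact sp 42305421312000 18 [2, 3, 5, 7, 11, 23] (by norm_num) (by norm_num) (by norm_num) (by norm_num) (by norm_num) p hp hodd h3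
    · rw [hG] at h3 ⊢; exact sp 495766656000 10 [2, 3, 5, 7, 11, 23] (by norm_num) (by norm_num) (by norm_num) (by norm_num) (by norm_num) p hp hodd h3
    · rw [hG] at h3 ⊢; exact sp 64561751654400 17 [2, 3, 5, 7, 11, 13] (by norm_num) (by norm_num) (by norm_num) (by norm_num) (by norm_num) p hp hodd h3
    · rw [hG] at h3 ⊢; exact sp 4089470473293004800 18 [2, 3, 5, 7, 11, 13, 17, 23] (by norm_num) (by norm_num) (by norm_num) (by norm_num) (by norm_num) p hp hodd h3
    · rw [hG] at h3 ⊢; exact sp 1255205709190661721292800 21 [2, 3, 5, 7, 11, 13, 17, 23, 29] (by norm_num) (by norm_num) (by norm_num) (by norm_num) (by norm_num) p hp hodd h3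
    · rw [hG] at h3 ⊢; exact sp 44352000 9 [2, 3, 5, 7, 11] (by norm_num) (by norm_num) (by norm_num) (by norm_num) (by norm_num) p hp hodd h3
    · rw [hG] at h3 ⊢; exact sp 898128000 7 [2, 3, 5, 7, 11] (by norm_num) (by norm_num) (by norm_num) (by norm_num) (by norm_num) p hp hodd h3
    · rw [hG] at h3 ⊢; exact sp 4030387200 10 [2, 3, 5, 7, 17] (by norm_num) (by norm_num) (by norm_num) (by norm_num) (by norm_num) p hp hodd h3
    · rw [hG] at h3 ⊢; exact sp 145926144000 14 [2, 3, 5, 7, 13, 29] (by norm_num) (by norm_num) (by norm_num) (by norm_num) (by norm_num) p hp hodd h3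
    · rw [hG] at h3 ⊢; exact sp 448345497600 13 [2, 3, 5, 7, 11, 13] (by norm_num) (by norm_num) (by norm_num) (by norm_num) (by norm_num) p hp hodd h3
    · rw [hG] at h3 ⊢; exact sp 460815505920 9 [2, 3, 5, 7, 11, 19, 31] (by norm_num) (by norm_num) (by norm_num) (by norm_num) (by norm_num) p hp hodd h3
    · rw [hG] at h3 ⊢; exact sp 273030912000000 14 [2, 3, 5, 7, 11, 19] (by norm_num) (by norm_num) (by norm_num) (by norm_num) (by norm_num) p hp hodd h3
    · rw [hG] at h3 ⊢; exact sp 51765179004000000 8 [2, 3, 5, 7, 11, 31, 37, 67] (by norm_num) (by norm_num) (by norm_num) (by norm_num) (by norm_num) p hp hodd h3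
    · rw [hG] at h3 ⊢; exact sp 90745943887872000 15 [2, 3, 5, 7, 13, 19, 31] (by norm_num) (by norm_num) (by norm_num) (by norm_num) (by norm_num) p hp hodd h3
    · rw [hG] at h3 ⊢; exact sp 4154781481226426191177580544000000 41 [2, 3, 5, 7, 11, 13, 17, 19, 23, 31, 47] (by norm_num) (by norm_num) (by norm_num) (by norm_num) (by norm_num) p hp hodd h3
    · rw [hG] at h3 ⊢; exact sp 808017424794512875886459904961710757005754368000000000 46 [2, 3, 5, 7, 11, 13, 17, 19, 23, 29, 31, 41, 47, 59, 71] (by norm_num) (by norm_num) (by norm_num) (by norm_num) (by norm_num) p hp hodd h3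

end Cfsg.Agent.S2367
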