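import Cfsg.Statements.S2368
import Cfsg.Agent.H15_NIL1

set_option autoImplicit false
open Cfsg

namespace Cfsg.Agent.S2368

open Polynomial in
theorem key {F : Type*} [Field F] (p : ℕ) [Fact p.Prime] [CharP F p] (n : ℕ) (g : Matrix (Fin n) (Fin n) F) (k : ℕ) :
    (g - 1) ^ p ^ k = g ^ p ^ k - 1 := by
  rcases Nat.eq_zero_or_pos n with h0 | h0
  · subst h0
    exact Subsingleton.elim _ _
  · haveI : Nonempty (Fin n) := ⟨⟨0, h0⟩⟩
    haveI : CharP (Matrix (Fin n) (Fin n) F) p := Matrix.charP p
    rw [sub_pow_char_pow_of_commute p k (Commute.one_right g), one_pow]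

theorem nil_pow {F : Type*} [Field F] {n : ℕ} (N : Matrix (Fin n) (Fin n) F) (h : IsNilpotent N) : N ^ n = 0 := by
  have h1 : IsNilpotent (Matrix.toLinAlgEquiv' N) := h.map _
  have h2 := Cfsg.Agent.H15.NIL.pow_zero_of_nil h1
  rw [Module.finrank_fin_fun, ← map_pow] at h2
  exact (Matrix.toLinAlgEquiv' : Matrix (Fin n) (Fin n) F ≃ₐ[F] _).injective (by rw [h2, map_zero])

/-- shift matrix -/
def sh (F : Type*) [Field F] (m : ℕ) : Matrix (Fin m) (Fin m) F := Matrix.of fun i j => if (i : ℕ) + 1 = j then 1 else 0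

theorem sh_pow (F : Type*) [Field F] (m k : ℕ) (i j : Fin m) : (sh F m ^ k) i j = if (i : ℕ) + k = j then 1 else 0 := by
  induction k generalizing i with
  | zero =>
    rw [pow_zero, Matrix.one_apply, add_zero]
    simp [Fin.ext_iff]
  | succ k ih =>
    rw [pow_succ', Matrix.mul_apply]
    simp only [ih]
    simp only [sh, Matrix.of_apply, ite_mul, one_mul, zero_mul]
    by_cases h : (i : ℕ) + 1 < m
    · rw [Finset.sum_eq_single (⟨i + 1, h⟩ : Fin m)]
      · simp only [if_true]
        congr 1
        simp only [eq_iff_iff]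
        constructor <;> intro h <;> omega
      · intro b _ hb
        rw [if_neg]
        intro h'
        exact hb (Fin.ext h'.symm)
      · intro h'
        exact absurd (Finset.mem_univ _) h'
    · rw [Finset.sum_eq_zero, if_neg]
      · have := j.2; omega
      · intro b _
        rw [if_neg]
        have := b.2; omega

/-- Let F be a finite field of characteristic p and m ≥ 1. Every element of GL(m, F) of p-power order has order less than p·m, and GL(m, F) has an element of p-power order at least m; so the largest order of a p-element of GL(m, F) is the least power of p that is at least m. -/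
theorem result {F : Type*} [Field F] [Fintype F] (p : ℕ) [Fact p.Prime] [CharP F p] (m : ℕ) (hm : 1 ≤ m) :
    (∀ g : Matrix.GeneralLinearGroup (Fin m) F, (∃ j : ℕ, orderOf g = p ^ j) → orderOf g < p * m) ∧
      ∃ g : Matrix.GeneralLinearGroup (Fin m) F, (∃ j : ℕ, orderOf g = p ^ j) ∧ m ≤ orderOf g := by
  classical
  have hp : p.Prime := Fact.out
  constructor
  · rintro g ⟨j, hj⟩
    have h1 : ((g : Matrix (Fin m) (Fin m) F) - 1) ^ p ^ j = 0 := by
      rw [key p m, ← Units.val_pow_eq_pow_val, ← hj, pow_orderOf_eq_one, Units.val_one, sub_self]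
    have h2 := nil_pow _ ⟨_, h1⟩
    rw [hj]
    rcases Nat.eq_zero_or_pos j with h0 | h0
    · rw [h0, pow_zero]
      have := hp.one_lt
      nlinarith
    · obtain ⟨i, rfl⟩ : ∃ i, j = i + 1 := ⟨j - 1, by omega⟩
      rw [pow_succ']
      apply Nat.mul_lt_mul_of_pos_left _ hp.pos
      by_contra hle
      push Not at hle
      have h3 : g ^ p ^ i = 1 := by
        apply Units.ext
        rw [Units.val_pow_eq_pow_val, Units.val_one, ← sub_eq_zero, ← key p m]
        exact pow_eq_zero_of_le hle h2
      have h4 := orderOf_dvd_of_pow_eq_one h3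
      rw [hj] at h4
      have := (Nat.pow_dvd_pow_iff_le_right hp.one_lt).mp h4
      omega
  · have hN : (sh F m) ^ m = 0 := by
      ext i j
      rw [sh_pow, if_neg, Matrix.zero_apply]
      have := j.2; omega
    have hN' : (sh F m) ^ (m - 1) ≠ 0 := by
      intro h
      have := congrFun (congrFun h ⟨0, by omega⟩) ⟨m - 1, by omega⟩
      rw [sh_pow, if_pos (by simp), Matrix.zero_apply] at this
      exact one_ne_zero this
    have hu : IsUnit (1 + sh F m) := by
      have hnn : IsNilpotent (sh F m) := ⟨m, hN⟩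
      have := hnn.isUnit_add_one
      rwa [add_comm] at this
    obtain ⟨u, hu'⟩ := hu
    have hu1 : (u : Matrix (Fin m) (Fin m) F) - 1 = sh F m := by rw [hu', add_sub_cancel_left]
    have h1 : u ^ p ^ m = 1 := by
      apply Units.ext
      rw [Units.val_pow_eq_pow_val, Units.val_one, ← sub_eq_zero, ← key p m, hu1]
      exact pow_eq_zero_of_le (Nat.lt_pow_self hp.one_lt).le hN
    obtain ⟨k, _, hk⟩ := (Nat.dvd_prime_pow hp).mp (orderOf_dvd_of_pow_eq_one h1)
    refine ⟨u, ⟨k, hk⟩, ?_⟩
    by_contra hlt
    push Not at hlt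
    apply hN'
    have h2 : (sh F m) ^ p ^ k = 0 := by
      rw [← hu1, key p m, ← Units.val_pow_eq_pow_val, ← hk, pow_orderOf_eq_one, Units.val_one, sub_self]
    exact pow_eq_zero_of_le (by omega) h2

end Cfsg.Agent.S2368
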