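import Cfsg.Statements.S2369
import Cfsg.Agent.H15_FX3
import Cfsg.Agent.S1068

set_option autoImplicit false
open Cfsg

namespace Cfsg.Agent.S2369

theorem odd_sub_one' {n : ℕ} (h : 2 ∣ n) (h1 : 1 ≤ n) : ¬ 2 ∣ n - 1 := by omega

theorem main2369 {K : Type*} [Field K] [Fintype K] (m : ℕ) (hK : Fintype.card K = 2 ^ (2 * m + 1))
    {D : Cfsg.Lie.ChevalleyDatum} {M : Cfsg.Agent.H6.Chev.Model D} {T : Cfsg.Agent.H6.Chev.Tw M K (Fin 2)}
    (P : Cfsg.Agent.H6.Chev.TwG T)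
    (hH : Nat.card ↥(D.diagonalSubgroup K ⊓ P.G1) = (2 ^ (2 * m + 1) - 1) ^ 2)
    (hU : Nat.card ↥(D.posUnipotent K ⊓ P.G1) = (2 ^ (2 * m + 1)) ^ 12)
    (hG : Nat.card ↥P.G1 = (2 ^ (2 * m + 1)) ^ 12 * (2 ^ (2 * m + 1) - 1) * ((2 ^ (2 * m + 1)) ^ 3 + 1) *
      ((2 ^ (2 * m + 1)) ^ 4 - 1) * ((2 ^ (2 * m + 1)) ^ 6 + 1))
    (hJ : ∀ j, Nat.card ↥(T.UJ j ⊓ P.G1) = (2 ^ (2 * m + 1)) ^ Cfsg.Agent.H6.Chev.kkF4 j)
    (a b : ↥P.G1) (ha : orderOf a = 2) (hab : Commute a b) :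
    (orderOf b).primeFactors ⊆ (2 ^ (2 * m + 1) * ((2 ^ (2 * m + 1)) ^ 4 - 1)).primeFactors := by
  intro r hr
  have hrp := Nat.prime_of_mem_primeFactors hr
  have hrb := Nat.dvd_of_mem_primeFactors hr
  have hb0 : orderOf b ≠ 0 := (Nat.mem_primeFactors.1 hr).2.2
  rw [Nat.mem_primeFactors]
  have hq2 : 2 ∣ 2 ^ (2 * m + 1) := dvd_pow_self 2 (by omega)
  have hB := Cfsg.Agent.H15.FX.card_B1 P
  rw [hH, hU] at hB
  generalize hq : 2 ^ (2 * m + 1) = q at *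
  have hq1 : 2 ≤ q := Nat.le_of_dvd (by rw [← hq]; positivity) hq2
  have hq4 : 1 < q ^ 4 := Nat.one_lt_pow (by norm_num) (by omega)
  refine ⟨hrp, ?_, by
    apply Nat.mul_ne_zero (by omega); omega⟩
  by_contra hnd
  have h1 : ¬ r ∣ q := fun h => hnd (h.mul_right _)
  have h2 : ¬ r ∣ q ^ 4 - 1 := fun h => hnd (h.mul_left _)
  have e4 : q ^ 4 - 1 = (q - 1) * (1 + q) * (1 + q ^ 2) := by
    zify [hq4.le, (by omega : 1 ≤ q)]; ring
  have h3 : ¬ r ∣ q - 1 := fun h => h2 (by rw [e4]; exact (h.mul_right _).mul_right _)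
  have h4 : ¬ r ∣ 1 + q := fun h => h2 (by rw [e4]; exact (h.mul_left _).mul_right _)
  have h5 : ¬ r ∣ 1 + q ^ 2 := fun h => h2 (by rw [e4]; exact h.mul_left _)
  -- the element of order r
  have hx : orderOf (b ^ (orderOf b / r)) = r := by
    rw [orderOf_pow_of_dvd (Nat.div_pos (Nat.le_of_dvd (Nat.pos_of_ne_zero hb0) hrb) hrp.pos).ne'
      (Nat.div_dvd_of_dvd hrb), Nat.div_div_self hrb hb0]
  refine Cfsg.Agent.H15.FX.no_commute P Nat.prime_two hrp ha hx (hab.pow_right _) ?_ ?_ ?_ ?_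
  · rw [hH]
    intro h
    exact odd_sub_one' hq2 (by omega) (Nat.prime_two.dvd_of_dvd_pow h)
  · intro h
    have h6 := (Cfsg.Agent.H15.FX.B1 P).card_mul_index
    rw [hB, hG] at h6
    have h7 : (q - 1) * (Cfsg.Agent.H15.FX.B1 P).index = (q ^ 3 + 1) * (q ^ 4 - 1) * (q ^ 6 + 1) := by
      have hpos : 0 < q ^ 12 * (q - 1) := Nat.mul_pos (by positivity) (by omega)
      apply Nat.eq_of_mul_eq_mul_left hpos
      calc q ^ 12 * (q - 1) * ((q - 1) * (Cfsg.Agent.H15.FX.B1 P).index)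
          = q ^ 12 * (q - 1) ^ 2 * (Cfsg.Agent.H15.FX.B1 P).index := by ring
        _ = _ := by rw [h6]; ring
    have h8 : 2 ∣ (q ^ 3 + 1) * (q ^ 4 - 1) * (q ^ 6 + 1) := by
      rw [← h7]; exact h.mul_left _
    rw [Nat.prime_two.dvd_mul, Nat.prime_two.dvd_mul] at h8
    have p3 : 2 ∣ q ^ 3 := dvd_pow hq2 (by norm_num)
    have p4 : 2 ∣ q ^ 4 := dvd_pow hq2 (by norm_num)
    have p6 : 2 ∣ q ^ 6 := dvd_pow hq2 (by norm_num)
    omega
  · rw [hB, hrp.dvd_mul]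
    rintro (h | h)
    · exact h1 (hrp.dvd_of_dvd_pow h)
    · exact h3 (hrp.dvd_of_dvd_pow h)
  · intro j
    rw [hJ]
    fin_cases j
    · have : Cfsg.Agent.H6.Chev.kkF4 ((⟨0, by norm_num⟩ : Fin 2) : ℕ) = 1 := rfl
      change ¬ r ∣ 1 + q ^ 1
      rw [pow_one]; exact h4
    · change ¬ r ∣ 1 + q ^ 2
      exact h5

/-- Let q = 2^(2m+1) with m ≥ 1 and let a, b be commuting elements of the large Ree group ²F₄(q) with a an involution. Then every prime divisor of the order of b divides q(q⁴ − 1). -/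
theorem result {K : Type*} [Field K] [Fintype K] (m : ℕ) (hm : 1 ≤ m) (hK : Fintype.card K = 2 ^ (2 * m + 1))
    (a b : ↥(Cfsg.Lie.twistedF4 K (2 ^ m))) (ha : orderOf a = 2) (hab : Commute a b) :
    (orderOf b).primeFactors ⊆ (2 ^ (2 * m + 1) * ((2 ^ (2 * m + 1)) ^ 4 - 1)).primeFactors := by
  obtain ⟨h2, φ, hperf, hφ, hφ2, P, hP, hc⟩ := Cfsg.Agent.H6.Chev.exists_pF4 hK
  have hq : Nat.card K = 2 ^ (2 * m + 1) := by rw [Nat.card_eq_fintype_card, hK]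
  have h1 := Cfsg.Agent.H6.Chev.f4_card_H φ hperf hφ2 hφ P hP
  have h3 := P.card_U1 (d := 2) two_pos Cfsg.Agent.H6.Chev.hkkF4 hc
  have hN : Cfsg.Agent.H6.Chev.modelF4.N / 2 = 12 := by
    have h1 := Cfsg.Agent.H6.Chev.modelF4.nroots_eq
    have h2 := Cfsg.Agent.H6.Chev.baseF4.nroots
    have h3 : Cfsg.Agent.H6.Chev.tabF4.n = 48 := rfl
    omega
  rw [hN] at h3
  rw [hq] at h1
  have hG := Cfsg.Agent.S1068.result hK
  revert a b
  rw [← hP] at hG ⊢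
  intro a b ha hab
  exact main2369 m hK P h1 h3 hG hc a b ha hab

end Cfsg.Agent.S2369
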