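import Cfsg.Statements.S2371
import Cfsg.Agent.H15_G8i
import Cfsg.Agent.H15_G8g
import Cfsg.Agent.S1055

set_option autoImplicit false
open Cfsg

namespace Cfsg.Agent.S2371

open Cfsg.Lie Cfsg.Lie.ChevalleyDatum Matrix Cfsg.Agent.H15 Cfsg.Agent.H15.G8

theorem aux {F : Type*} [Field F] [Fintype F] (q : ℕ) (hF : Fintype.card F = q) (hq : 3 ≤ q) :
    ∃ H : Subgroup ↥(Cfsg.Lie.chevG2.group F), IsCyclic ↥H ∧ Nat.card ↥H = q ^ 2 + q + 1 ∧
      Subgroup.centralizer (H : Set ↥(Cfsg.Lie.chevG2.group F)) = H := by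
  classical
  obtain ⟨K, _, _, h3, hKc, _, _⟩ := HS.exists_ext F 3 (by norm_num)
  have hFc : Nat.card F = q := by rw [Nat.card_eq_fintype_card, hF]
  rw [hFc] at hKc
  set m := q ^ 2 + q + 1 with hm
  have hmul : q ^ 3 - 1 = m * (q - 1) := by
    obtain ⟨k, rfl⟩ := Nat.exists_eq_add_of_le hq
    rw [hm, show 3 + k - 1 = k + 2 by omega, Nat.sub_eq_iff_eq_add (Nat.one_le_pow _ _ (by omega))]
    ring
  have hdvd : m ∣ Nat.card K - 1 := ⟨_, by rw [hKc, hmul]⟩
  obtain ⟨θ0, hθ0⟩ := HS.exists_order hdvd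
  haveI : NeZero m := ⟨by omega⟩
  set θ : K := ((θ0 (Multiplicative.ofAdd 1) : Kˣ) : K) with hθ
  have hord : orderOf θ = m := by
    rw [hθ, orderOf_units, orderOf_injective _ hθ0, orderOf_ofAdd_eq_addOrderOf, ZMod.addOrderOf_one]
  have hprim : IsPrimitiveRoot θ m := hord ▸ IsPrimitiveRoot.orderOf θ
  have hθ0' : θ ≠ 0 := Units.ne_zero _
  have hnorm : ∀ a : K, algebraMap F K (Algebra.norm F a) = a ^ m := by
    intro a
    rw [FiniteField.algebraMap_norm_eq_pow, hKc, hFc, hmul, Nat.mul_div_cancel _ (by omega)]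
  have hm13 : 9 < m := by rw [hm]; nlinarith
  have hsq : θ ^ 2 ≠ 1 := by
    intro h
    have := orderOf_dvd_of_pow_eq_one h
    rw [hord] at this
    have := Nat.le_of_dvd (by norm_num) this
    omega
  have hne1 : θ ≠ 1 := fun h => hsq (by rw [h, one_pow])
  have hnotF : ∀ c : F, algebraMap F K c ≠ θ := by
    intro c hc
    have hc0 : c ≠ 0 := by
      rintro rfl
      exact hθ0' (by rw [← hc, map_zero])
    have h1 : c ^ (q - 1) = 1 := by rw [← hF]; exact FiniteField.pow_card_sub_one_eq_one c hc0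
    have h2 : θ ^ (q - 1) = 1 := by rw [← hc, ← map_pow, h1, map_one]
    have h4 := orderOf_dvd_of_pow_eq_one h2
    rw [hord] at h4
    have := Nat.le_of_dvd (by omega) h4
    have : q ≤ m := by rw [hm]; nlinarith
    omega
  have hadj := adjoin_top h3 hnotF
  have hconj := conj_ne h3 hθ0' hsq
  let b : Module.Basis (Fin 3) F K := Module.finBasisOfFinrankEq F K h3
  have hdet : ∀ a : K, (Algebra.leftMulMatrix b a).det = 1 ↔ a ^ m = 1 := by
    intro a
    rw [← Algebra.norm_eq_matrix_det, ← hnorm, ← map_one (algebraMap F K)]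
    exact (algebraMap F K).injective.eq_iff.symm
  let A : Matrix.SpecialLinearGroup (Fin 3) F := ⟨Algebra.leftMulMatrix b θ, (hdet θ).2 hprim.pow_eq_one⟩
  have hAc : (A : Matrix (Fin 3) (Fin 3) F) = Algebra.leftMulMatrix b θ := rfl
  have hAi : ((A⁻¹ : Matrix.SpecialLinearGroup (Fin 3) F) : Matrix (Fin 3) (Fin 3) F) = Algebra.leftMulMatrix b θ⁻¹ := by
    have h1 : ((A⁻¹ : Matrix.SpecialLinearGroup (Fin 3) F) : Matrix (Fin 3) (Fin 3) F) * (A : Matrix (Fin 3) (Fin 3) F) = 1 := by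
      rw [← Matrix.SpecialLinearGroup.coe_mul, inv_mul_cancel, Matrix.SpecialLinearGroup.coe_one]
    rw [hAc] at h1
    have h2 := congrArg (fun Y => Y * Algebra.leftMulMatrix b θ⁻¹) h1
    simp only [one_mul, mul_assoc, lm_mul_inv b hθ0', mul_one] at h2
    exact h2
  obtain ⟨ρ, hρ1, hρ2⟩ := exists_rho F
  -- injectivity
  have hF2 : ∃ a : F, a ≠ 0 ∧ a ≠ 1 := by
    by_contra h
    push Not at h
    have h1 : Fintype.card F ≤ 2 := by
      have h2 : (Finset.univ : Finset F) ⊆ {0, 1} := by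
        intro x _
        rw [Finset.mem_insert, Finset.mem_singleton]
        by_cases hx : x = 0
        · exact Or.inl hx
        · exact Or.inr (h x hx)
      calc Fintype.card F = (Finset.univ : Finset F).card := rfl
        _ ≤ _ := Finset.card_le_card h2
        _ ≤ 2 := Finset.card_le_two
    omega
  haveI := (Cfsg.Agent.S1055.result hF2).1
  have hinj : Function.Injective ρ := by
    rw [← MonoidHom.ker_eq_bot_iff]
    rcases IsSimpleGroup.eq_bot_or_eq_top_of_normal ρ.ker inferInstance with h | h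
    · exact h
    · exfalso
      obtain ⟨g, hg⟩ := hρ1 0 (by norm_num) 1
      have h1 : g ∈ ρ.ker := by rw [h]; trivial
      rw [MonoidHom.mem_ker.1 h1, Units.val_one] at hg
      have h2 := congrFun (congrArg (fun M : Matrix (Fin 8) (Fin 8) F => M *ᵥ ![0, 1, 0, 0, 0, 0, 0, 0]) hg) 3
      simp [X0] at h2
  -- the Zorn product
  have hz : ∀ g x y, ((ρ g : (Matrix (Fin 8) (Fin 8) F)ˣ) : Matrix (Fin 8) (Fin 8) F) *ᵥ zornMul x y =
      zornMul (((ρ g : (Matrix (Fin 8) (Fin 8) F)ˣ) : Matrix (Fin 8) (Fin 8) F) *ᵥ x) (((ρ g : (Matrix (Fin 8) (Fin 8) F)ˣ) : Matrix (Fin 8) (Fin 8) F) *ᵥ y) := by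
    intro g
    have h1 := hρ2 (Lie.G2 F) (by
      intro r hr t u hu x y
      rw [Units.coeHom_apply, hu]
      exact zornAll hr t x y) g
    intro x y
    exact h1 x y
  -- SL₃
  have hSL : ∀ B : Matrix.SpecialLinearGroup (Fin 3) F, ∃ g, ρ g = Phi F B := by
    have h2 : (⊤ : Subgroup (Matrix.SpecialLinearGroup (Fin 3) F)) ≤ ρ.range.comap (Phi F) := by
      rw [← Cfsg.Agent.H5.SL.closure_transvections, Subgroup.closure_le]
      rintro _ ⟨i, j, hij, a, rfl⟩
      obtain ⟨r, hr, t, h⟩ := Phi_transv hij a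
      obtain ⟨g, hg⟩ := hρ1 r hr t
      exact ⟨g, Units.ext (hg.trans h.symm)⟩
    intro B
    exact h2 (Subgroup.mem_top B)
  obtain ⟨g0, hg0⟩ := hSL A
  have hPhi_one : ∀ B : Matrix.SpecialLinearGroup (Fin 3) F, Phi F B = 1 → B = 1 := by
    intro B hB
    have h1 : PhiM (B : Matrix (Fin 3) (Fin 3) F) _ = 1 := (Phi_coe B).symm.trans (congrArg Units.val hB)
    rw [← PhiM_one] at h1
    apply Subtype.ext
    have h2 := fun i j : Fin 8 => congrFun (congrFun h1 i) j
    ext i j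
    rw [Matrix.SpecialLinearGroup.coe_one]
    have h3 := h2 (ea i) (ea j)
    fin_cases i <;> fin_cases j <;> simpa [PhiM, ea] using h3
  have hpowA : ∀ k : ℕ, (((A ^ k : Matrix.SpecialLinearGroup (Fin 3) F)) : Matrix (Fin 3) (Fin 3) F) = Algebra.leftMulMatrix b (θ ^ k) := by
    intro k
    rw [Matrix.SpecialLinearGroup.coe_pow, hAc, map_pow]
  have hog : orderOf g0 = m := by
    rw [← orderOf_injective ρ hinj, hg0, ← hord, orderOf_eq_orderOf_iff]
    intro k
    rw [← map_pow]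
    constructor
    · intro h
      have h1 := hPhi_one _ h
      have h2 := congrArg (fun B : Matrix.SpecialLinearGroup (Fin 3) F => (B : Matrix (Fin 3) (Fin 3) F)) h1
      simp only [hpowA, Matrix.SpecialLinearGroup.coe_one] at h2
      rw [← map_one (Algebra.leftMulMatrix b)] at h2
      exact Algebra.leftMulMatrix_injective b h2
    · intro h
      have h1 : A ^ k = 1 := by
        apply Subtype.ext
        rw [hpowA, h, map_one, Matrix.SpecialLinearGroup.coe_one]
      rw [h1, map_one]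
  refine ⟨Subgroup.zpowers g0, inferInstance, by rw [Nat.card_zpowers, hog], ?_⟩
  apply le_antisymm
  · intro g hg
    have hcm : g * g0 = g0 * g := (Subgroup.mem_centralizer_iff.1 hg g0 (Subgroup.mem_zpowers g0)).symm
    have hcm1 : ρ g * Phi F A = Phi F A * ρ g := by rw [← hg0, ← map_mul, ← map_mul, hcm]
    have hcm2 := congrArg Units.val hcm1
    rw [Units.val_mul, Units.val_mul, Phi_coe, hAi, hAc] at hcm2
    obtain ⟨hb1, hb2⟩ := blocks (fun v => fix1 b hne1) (fun v => fix2 b hne1) (fun v => fix3 b hne1) (fun v => fix4 b hne1)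
      (fun X => inter1 b hconj) (fun X => inter2 b hconj) hcm2
    have hzg := hz g
    have hinjg : ∀ v, ((ρ g : (Matrix (Fin 8) (Fin 8) F)ˣ) : Matrix (Fin 8) (Fin 8) F) *ᵥ v = 0 → v = 0 := by
      intro v hv
      have h1 := congrArg (fun w => (((ρ g)⁻¹ : (Matrix (Fin 8) (Fin 8) F)ˣ) : Matrix (Fin 8) (Fin 8) F) *ᵥ w) hv
      simp only [Matrix.mulVec_mulVec, Units.inv_mul, Matrix.one_mulVec, Matrix.mulVec_zero] at h1
      exact h1
    rw [hb1] at hzg hinjg
    obtain ⟨e1, e2, e3, e4, e5, e6⟩ := zorn_block hzg hinjg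
    obtain ⟨a, ha⟩ := of_commute b hadj hb2
    rw [e1, e2, e3, e4, BM_PhiM] at hb1
    rw [ha] at hb1 e5 e6
    rw [hdet] at e6
    obtain ⟨k, -, hk⟩ := hprim.eq_pow_of_pow_eq_one e6
    have h5 : ρ g = Phi F (A ^ k) := by
      apply Units.ext
      rw [Phi_coe, hpowA, hk, hb1]
      congr 1
      have h6 : ((((A ^ k)⁻¹ : Matrix.SpecialLinearGroup (Fin 3) F)) : Matrix (Fin 3) (Fin 3) F) * Algebra.leftMulMatrix b a = 1 := by
        rw [← hk, ← hpowA, ← Matrix.SpecialLinearGroup.coe_mul, inv_mul_cancel, Matrix.SpecialLinearGroup.coe_one]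
      have h7 : Algebra.leftMulMatrix b a * ((((A ^ k)⁻¹ : Matrix.SpecialLinearGroup (Fin 3) F)) : Matrix (Fin 3) (Fin 3) F) = 1 := by
        rw [← hk, ← hpowA, ← Matrix.SpecialLinearGroup.coe_mul, mul_inv_cancel, Matrix.SpecialLinearGroup.coe_one]
      have h8 := congrArg (fun Y => Y * ((((A ^ k)⁻¹ : Matrix.SpecialLinearGroup (Fin 3) F)) : Matrix (Fin 3) (Fin 3) F)) e5
      simp only [mul_assoc, h7, mul_one, one_mul] at h8
      rw [← h8, Matrix.transpose_transpose]
    have h9 : g = g0 ^ k := by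
      apply hinj
      rw [h5, map_pow, map_pow, hg0]
    rw [h9]
    exact Subgroup.npow_mem_zpowers g0 k
  · intro g hg
    rw [Subgroup.mem_centralizer_iff]
    intro h hh
    obtain ⟨i, rfl⟩ := Subgroup.mem_zpowers_iff.1 hg
    obtain ⟨j, rfl⟩ := Subgroup.mem_zpowers_iff.1 hh
    rw [← _root_.zpow_add, ← _root_.zpow_add, add_comm]


/-- The group G₂(q), q ≥ 3, contains a cyclic subgroup of order q² + q + 1 which is its own centralizer. -/
theorem result {F : Type*} [Field F] [Fintype F] (q : ℕ) (hF : Fintype.card F = q) (hq : 3 ≤ q) :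
    ∃ H : Subgroup ↥(Cfsg.Lie.chevG2.group F), IsCyclic ↥H ∧ Nat.card ↥H = q ^ 2 + q + 1 ∧
      Subgroup.centralizer (H : Set ↥(Cfsg.Lie.chevG2.group F)) = H := by
  exact aux q hF hq

end Cfsg.Agent.S2371
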