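import Cfsg.Statements.S2383
import Cfsg.Agent.H6_CR9
import Cfsg.Agent.H6_ChevAll
import Cfsg.Agent.H6_ChevOrd

set_option autoImplicit false
open Cfsg

namespace Cfsg.Agent.S2383

/-- Steinberg's count of semisimple classes in characteristic 2 for the types B₂, D₄, E₇, where the finite simply connected group has trivial centre and so coincides with the Chevalley group: for the Chevalley group of type B₂, D₄ or E₇ over a field with `q` elements of characteristic 2, the conjugacy classes of elements of odd order number exactly `q^l`, `l` the rank. -/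
theorem result {F : Type*} [Field F] [Fintype F] {q : ℕ} (hq : Fintype.card F = q) [CharP F 2]
    (D : Cfsg.Lie.ChevalleyDatum) (hD : D ∈ [Cfsg.Lie.chevB2, Cfsg.Lie.chevD4, Cfsg.Lie.chevE7]) :
    Nat.card {c : ConjClasses ↥(D.group F) // ∃ g : ↥(D.group F), ConjClasses.mk g = c ∧ Odd (orderOf g)} = q ^ D.rank := by
  have hD' : D ∈ [Cfsg.Lie.chevG2, Cfsg.Lie.chevB2, Cfsg.Lie.chevD4, Cfsg.Lie.chevF4, Cfsg.Lie.chevE6,
      Cfsg.Lie.chevE7, Cfsg.Lie.chevE8] := by
    simp only [List.mem_cons, List.not_mem_nil, or_false] at hD ⊢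
    tauto
  obtain ⟨m⟩ := Cfsg.Agent.H6.Chev.exists_model hD'
  have hg : Nat.gcd 2 (q - 1) = 1 := by
    have : Fact (Nat.Prime 2) := ⟨Nat.prime_two⟩
    obtain ⟨n, -, hn⟩ := FiniteField.card F 2
    rw [hq] at hn
    have h2 : 2 ∣ q := by rw [hn]; exact dvd_pow_self 2 n.ne_zero
    have h1 : 1 < q := hq ▸ Fintype.one_lt_card
    rw [← Nat.coprime_iff_gcd_eq_one, Nat.Prime.coprime_iff_not_dvd Nat.prime_two]
    omega
  have htor : Nat.card (D.diagonalSubgroup F) = (Fintype.card F - 1) ^ D.rank := by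
    simp only [List.mem_cons, List.not_mem_nil, or_false] at hD
    rw [hq]
    rcases hD with rfl | rfl | rfl
    · have := Cfsg.Agent.H6.Chev.torB2' hq
      rwa [hg, one_mul] at this
    · have := Cfsg.Agent.H6.Chev.torD4' hq
      rwa [hg, one_pow, one_mul] at this
    · have := Cfsg.Agent.H6.Chev.torE7' hq
      rwa [hg, one_mul] at this
  have : Fact (Nat.Prime 2) := ⟨Nat.prime_two⟩
  have h := Cfsg.Agent.H6.Chev.Model.card_regular_classes (p := 2) htor m
  rw [hq] at h
  rw [← h]
  simp only [Nat.coprime_two_right]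

end Cfsg.Agent.S2383
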