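import Cfsg.Statements.S2391


set_option autoImplicit false
open Cfsg

namespace Cfsg.Agent.S2391

open Matrix in
/-- vectors fixed modulo `W` -/
def phi {F : Type*} [Field F] {n : ℕ} (U : Subgroup (Matrix.SpecialLinearGroup (Fin n) F)) (W : Submodule F (Fin n → F)) : Submodule F (Fin n → F) where
  carrier := {v | ∀ u ∈ U, (u : Matrix (Fin n) (Fin n) F).mulVec v - v ∈ W}
  zero_mem' := fun u _ => by rw [Matrix.mulVec_zero, sub_zero]; exact W.zero_mem
  add_mem' := fun {a b} ha hb u hu => by
    have := W.add_mem (ha u hu) (hb u hu)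
    rwa [show (u : Matrix (Fin n) (Fin n) F).mulVec a - a + ((u : Matrix (Fin n) (Fin n) F).mulVec b - b) = (u : Matrix (Fin n) (Fin n) F).mulVec (a + b) - (a + b) by
      rw [Matrix.mulVec_add]; abel] at this
  smul_mem' := fun c a ha u hu => by
    have := W.smul_mem c (ha u hu)
    rwa [smul_sub, ← Matrix.mulVec_smul] at this

/-- the chain -/
def ch {F : Type*} [Field F] {n : ℕ} (U : Subgroup (Matrix.SpecialLinearGroup (Fin n) F)) : ℕ → Submodule F (Fin n → F)
  | 0 => ⊥
  | i + 1 => phi U (ch U i)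

theorem ch_le {F : Type*} [Field F] {n : ℕ} (U : Subgroup (Matrix.SpecialLinearGroup (Fin n) F)) (i : ℕ) : ch U i ≤ ch U (i + 1) := by
  induction i with
  | zero => exact bot_le
  | succ i ih => exact fun v hv u hu => ih (hv u hu)

theorem ch_inv {F : Type*} [Field F] {n : ℕ} (U : Subgroup (Matrix.SpecialLinearGroup (Fin n) F)) (i : ℕ) (u : Matrix.SpecialLinearGroup (Fin n) F) (hu : u ∈ U)
    (v : Fin n → F) (hv : v ∈ ch U i) : (u : Matrix (Fin n) (Fin n) F).mulVec v ∈ ch U i := by
  have h1 := ch_le U i hv u hu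
  have := (ch U i).add_mem h1 hv
  rwa [sub_add_cancel] at this

theorem lt_phi {F : Type*} [Field F] [Fintype F] (p : ℕ) [Fact p.Prime] [CharP F p] {n : ℕ} (U : Subgroup (Matrix.SpecialLinearGroup (Fin n) F)) (hU : IsPGroup p ↥U)
    (W : Submodule F (Fin n → F)) (hW : W ≠ ⊤) (hinv : ∀ u ∈ U, ∀ w ∈ W, (u : Matrix (Fin n) (Fin n) F).mulVec w ∈ W) :
    ∃ v ∉ W, v ∈ phi U W := by
  let act : MulAction ↥U ((Fin n → F) ⧸ W) :=
    { smul := fun u x => W.mapQ W (Matrix.mulVecLin (u.1 : Matrix (Fin n) (Fin n) F)) (fun w hw => hinv u.1 u.2 w hw) x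
      one_smul := by
        intro x
        obtain ⟨v, rfl⟩ := Submodule.Quotient.mk_surjective W x
        change Submodule.Quotient.mk ((1 : Matrix (Fin n) (Fin n) F).mulVec v) = _
        rw [Matrix.one_mulVec]
      mul_smul := by
        intro u u' x
        obtain ⟨v, rfl⟩ := Submodule.Quotient.mk_surjective W x
        change Submodule.Quotient.mk (((u.1 * u'.1 : Matrix.SpecialLinearGroup (Fin n) F) : Matrix (Fin n) (Fin n) F).mulVec v) =
          Submodule.Quotient.mk ((u.1 : Matrix (Fin n) (Fin n) F).mulVec ((u'.1 : Matrix (Fin n) (Fin n) F).mulVec v))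
        rw [Matrix.mulVec_mulVec, Matrix.SpecialLinearGroup.coe_mul] }
  letI := act
  haveI : Finite ((Fin n → F) ⧸ W) := Module.finite_of_finite F
  haveI : Nontrivial ((Fin n → F) ⧸ W) := Submodule.Quotient.nontrivial_iff.mpr hW
  have hcard : p ∣ Nat.card ((Fin n → F) ⧸ W) := by
    rw [Module.natCard_eq_pow_finrank (K := F)]
    have h1 : p ∣ Nat.card F := by
      obtain ⟨k, hp, hc⟩ := FiniteField.card F p
      rw [Nat.card_eq_fintype_card, hc]
      exact dvd_pow_self p k.ne_zero
    exact dvd_pow h1 (Module.finrank_pos).ne'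
  have h0 : (0 : (Fin n → F) ⧸ W) ∈ MulAction.fixedPoints ↥U ((Fin n → F) ⧸ W) := by
    intro u
    change W.mapQ W _ _ 0 = 0
    exact map_zero _
  obtain ⟨b, hb, hb0⟩ := hU.exists_fixed_point_of_prime_dvd_card_of_fixed_point ((Fin n → F) ⧸ W) hcard h0
  obtain ⟨v, rfl⟩ := Submodule.Quotient.mk_surjective W b
  refine ⟨v, ?_, ?_⟩
  · intro hv
    exact hb0 ((Submodule.Quotient.mk_eq_zero W).mpr hv).symm
  · intro u hu
    have := hb ⟨u, hu⟩
    change Submodule.Quotient.mk ((u : Matrix (Fin n) (Fin n) F).mulVec v) = Submodule.Quotient.mk v at this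
    exact (Submodule.Quotient.eq W).mp this

/-- The Borel–Tits property of `SL_n(q)` in flag form: for a field `F` of characteristic `p` with finitely many elements and a non-trivial `p`-subgroup `U` of `SL_n(F)`, there is a flag `0 = V₀ < V₁ < ⋯ < V_{k+1} = F^n` with at least one proper non-zero member such that every element of the normaliser of `U` maps each `V_i` onto itself and every element of `U` acts trivially on each quotient `V_{i+1}/V_i` (so the normaliser lies in the parabolic subgroup of the flag and `U` in its unipotent radical). -/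
theorem result {F : Type*} [Field F] [Fintype F] (p : ℕ) [Fact p.Prime] [CharP F p] (n : ℕ)
    (U : Subgroup (Matrix.SpecialLinearGroup (Fin n) F)) (hU : IsPGroup p ↥U) (hne : U ≠ ⊥) :
    ∃ (k : ℕ) (V : Fin (k + 2) → Submodule F (Fin n → F)), 1 ≤ k ∧ StrictMono V ∧ V 0 = ⊥ ∧ V (Fin.last (k + 1)) = ⊤ ∧
      (∀ g ∈ Subgroup.normalizer (U : Set (Matrix.SpecialLinearGroup (Fin n) F)), ∀ i, (V i).map (Matrix.mulVecLin (g : Matrix (Fin n) (Fin n) F)) = V i) ∧
      (∀ u ∈ U, ∀ i : Fin (k + 1), ∀ v ∈ V i.succ, (u : Matrix (Fin n) (Fin n) F).mulVec v - v ∈ V (Fin.castSucc i)) := by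
  classical
  have hstep : ∀ i, ch U i ≠ ⊤ → ch U i < ch U (i + 1) := by
    intro i hi
    obtain ⟨v, hv, hv'⟩ := lt_phi p U hU (ch U i) hi (ch_inv U i)
    exact lt_of_le_of_ne (ch_le U i) (fun h => hv (by rw [h]; exact hv'))
  have hex : ∃ m, ch U m = ⊤ := by
    by_contra hcon
    push Not at hcon
    have hfr : ∀ i, i ≤ Module.finrank F (ch U i) := by
      intro i
      induction i with
      | zero => exact Nat.zero_le _
      | succ i ih => exact lt_of_le_of_lt ih (Submodule.finrank_lt_finrank_of_lt (hstep i (hcon i)))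
    have h1 := hfr (n + 1)
    have h2 := Submodule.finrank_le (ch U (n + 1))
    rw [Module.finrank_fin_fun] at h2
    omega
  obtain ⟨m, hm, hmin⟩ : ∃ m, ch U m = ⊤ ∧ ∀ j < m, ch U j ≠ ⊤ := ⟨Nat.find hex, Nat.find_spec hex, fun j hj => Nat.find_min hex hj⟩
  have hne1 : ch U 1 ≠ ⊤ := by
    intro h
    apply hne
    rw [eq_bot_iff]
    intro u hu
    rw [Subgroup.mem_bot]
    apply Subtype.ext
    have h1 : ∀ v, (u : Matrix (Fin n) (Fin n) F).mulVec v = v := by
      intro v
      have h2 : v ∈ ch U 1 := by rw [h]; exact Submodule.mem_top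
      have h3 := h2 u hu
      exact sub_eq_zero.mp h3
    ext i j
    have h4 := congrFun (h1 (Pi.single j 1)) i
    rw [Matrix.mulVec_single_one] at h4
    rw [Matrix.SpecialLinearGroup.coe_one, Matrix.one_apply]
    rw [Matrix.col_apply] at h4
    rw [h4, Pi.single_apply]
  have hm2 : 2 ≤ m := by
    by_contra hlt
    have : m = 0 ∨ m = 1 := by omega
    rcases this with rfl | rfl
    · exact hne1 (top_le_iff.mp (hm ▸ ch_le U 0))
    · exact hne1 hm
  obtain ⟨k, rfl⟩ : ∃ k, m = k + 1 := ⟨m - 1, by omega⟩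
  refine ⟨k, fun i => ch U i, by omega, ?_, rfl, ?_, ?_, ?_⟩
  · rw [Fin.strictMono_iff_lt_succ]
    intro i
    exact hstep i (hmin i i.2)
  · exact hm
  · intro g hg
    have hle : ∀ (i : ℕ), ∀ g ∈ Subgroup.normalizer (U : Set (Matrix.SpecialLinearGroup (Fin n) F)), ∀ v ∈ ch U i, (g : Matrix (Fin n) (Fin n) F).mulVec v ∈ ch U i := by
      intro i
      induction i with
      | zero =>
        intro g _ v hv
        have : v = 0 := hv
        rw [this, Matrix.mulVec_zero]
        exact Submodule.zero_mem _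
      | succ i ih =>
        intro g hg v hv u hu
        have h1 : g⁻¹ * u * g ∈ U := by
          have := (Subgroup.mem_normalizer_iff.mp (Subgroup.inv_mem _ hg) u).mp hu
          rwa [inv_inv] at this
        have h2 := ih g hg _ (hv _ h1)
        rw [Matrix.mulVec_sub, Matrix.mulVec_mulVec, ← Matrix.SpecialLinearGroup.coe_mul] at h2
        rw [Matrix.mulVec_mulVec, ← Matrix.SpecialLinearGroup.coe_mul]
        rwa [show g * (g⁻¹ * u * g) = u * g by group] at h2
    intro i
    apply le_antisymm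
    · rintro _ ⟨v, hv, rfl⟩
      exact hle i g hg v hv
    · intro v hv
      refine ⟨((g⁻¹ : Matrix.SpecialLinearGroup (Fin n) F) : Matrix (Fin n) (Fin n) F).mulVec v, hle i g⁻¹ (Subgroup.inv_mem _ hg) v hv, ?_⟩
      rw [Matrix.mulVecLin_apply, Matrix.mulVec_mulVec, ← Matrix.SpecialLinearGroup.coe_mul, mul_inv_cancel, Matrix.SpecialLinearGroup.coe_one, Matrix.one_mulVec]
  · intro u hu i v hv
    exact hv u hu

end Cfsg.Agent.S2391
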