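import Cfsg.Statements.S2392
import Cfsg.Agent.H15_WtSL

set_option autoImplicit false
open scoped MatrixGroups
open Cfsg

namespace Cfsg.Agent.S2392

/-- A lower bound for representations in cross characteristic: for `n ≥ 3` and a field `F` with `q` elements, every homomorphism from `SL_n(F)` to `GL_d(K)`, `K` a field of characteristic different from that of `F`, whose kernel is central has `d ≥ q^(n-1) - 1`. -/
theorem result {F : Type*} [Field F] [Fintype F] {q : ℕ} (hq : Fintype.card F = q) (n : ℕ) (hn : 3 ≤ n)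
    {K : Type*} [Field K] (hK : ringChar K ≠ ringChar F) {d : ℕ}
    (ρ : Matrix.SpecialLinearGroup (Fin n) F →* GL (Fin d) K) (hker : ρ.ker ≤ Subgroup.center (Matrix.SpecialLinearGroup (Fin n) F)) :
    q ^ (n - 1) - 1 ≤ d := by
  subst hq
  obtain ⟨m, rfl⟩ : ∃ m, n = m + 1 := ⟨n - 1, by omega⟩
  have h := Cfsg.Agent.H15.WtSL.bound (F := F) (m := m) (K := AlgebraicClosure K) (V := Fin d → AlgebraicClosure K)
    (by rwa [← Algebra.ringChar_eq K (AlgebraicClosure K)]) (by omega) (Cfsg.Agent.H15.Wt.ext ρ) (by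
      refine ⟨Pi.single ⟨0, by omega⟩ 1, ?_⟩
      intro h1
      have h2 := hker (MonoidHom.mem_ker.mpr (Cfsg.Agent.H15.Wt.ext_eq_one ρ _ h1))
      obtain ⟨r, hr, hr2⟩ := Matrix.SpecialLinearGroup.mem_center_iff.mp h2
      have h3 := congrFun (congrFun hr2 0) (Fin.succ ⟨0, by omega⟩)
      rw [Matrix.scalar_apply, Matrix.diagonal_apply_ne _ (Fin.succ_ne_zero _).symm] at h3
      have h4 : (Cfsg.Agent.H15.WtSL.urow (Pi.single ⟨0, by omega⟩ 1 : Fin m → F)) 0 (Fin.succ ⟨0, by omega⟩) = 1 := by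
        rw [Cfsg.Agent.H15.WtSL.urow, Matrix.add_apply, Matrix.one_apply_ne (Fin.succ_ne_zero _).symm,
          Matrix.vecMulVec_apply, Fin.cons_succ]
        simp
      change _ = (Cfsg.Agent.H15.WtSL.urow (Pi.single ⟨0, by omega⟩ 1 : Fin m → F)) 0 (Fin.succ ⟨0, by omega⟩) at h3
      rw [h4] at h3
      exact zero_ne_one h3)
  rw [Module.finrank_fin_fun] at h
  simpa using h

end Cfsg.Agent.S2392
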