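import Cfsg.Statements.S2393
import Cfsg.Agent.H15_WtSp

set_option autoImplicit false
open scoped MatrixGroups
open Cfsg

namespace Cfsg.Agent.S2393

/-- A lower bound for representations in cross characteristic: for `n ≥ 2` and a field `F` with `q` elements, `q` odd, every homomorphism from the symplectic group `Sp_{2n}(F)` to `GL_d(K)`, `K` a field of characteristic different from that of `F`, whose kernel is central has `d ≥ q^(n-1)(q-1)/2`. -/
theorem result {F : Type*} [Field F] [Fintype F] {q : ℕ} (hq : Fintype.card F = q) (hodd : Odd q) (n : ℕ) (hn : 2 ≤ n)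
    {K : Type*} [Field K] (hK : ringChar K ≠ ringChar F) {d : ℕ}
    (ρ : ↥(Matrix.symplecticGroup (Fin n) F) →* GL (Fin d) K) (hker : ρ.ker ≤ Subgroup.center ↥(Matrix.symplecticGroup (Fin n) F)) :
    q ^ (n - 1) * (q - 1) / 2 ≤ d := by
  subst hq
  obtain ⟨k, rfl⟩ : ∃ k, n = k + 1 := ⟨n - 1, by omega⟩
  have h := Cfsg.Agent.H15.WtSp.odd_rep_bound (F := F) (k := k) (K := AlgebraicClosure K)
    (V := Fin d → AlgebraicClosure K) (by omega) hodd
    (by rwa [← Algebra.ringChar_eq K (AlgebraicClosure K)]) (Cfsg.Agent.H15.Wt.ext ρ) (by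
      by_contra hcon
      push Not at hcon
      have h2 : ∀ g, g ∈ Subgroup.center ↥(Matrix.symplecticGroup (Fin (k + 1)) F) := fun g =>
        hker (MonoidHom.mem_ker.mpr (Cfsg.Agent.H15.Wt.ext_eq_one ρ _ (hcon g)))
      have hne : (⟨1, by omega⟩ : Fin (k + 1)) ≠ 0 := by
        intro h0
        have := congrArg Fin.val h0
        simp at this
      obtain ⟨M, hM, hM2⟩ := Cfsg.Agent.H15.WtSL.move (m := k + 1) (F := F) (by omega)
        (y := Pi.single 0 1) (z := Pi.single ⟨1, by omega⟩ 1) (by simp) (by simp)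
      obtain ⟨g, hg⟩ := Cfsg.Agent.H15.WtSp.us_levi' M hM
      have h3 := hg (Cfsg.Agent.H15.WtSp.sq (Pi.single 0 1))
      rw [Cfsg.Agent.H15.WtSp.al_sq, hM2, ← Subgroup.mem_center_iff.mp (h2 g)] at h3
      have h4 := congrArg Subtype.val (mul_right_cancel h3)
      rw [Cfsg.Agent.H15.WtSp.us_coe, Cfsg.Agent.H15.WtSp.us_coe] at h4
      have h5 := congrFun (congrFun h4 (Sum.inl 0)) (Sum.inr 0)
      simp only [Matrix.fromBlocks_apply₁₂, Cfsg.Agent.H15.WtSp.sq_coe, Matrix.vecMulVec_apply,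
        Pi.single_eq_same, mul_one, Pi.single_eq_of_ne hne.symm, mul_zero] at h5
      exact one_ne_zero h5)
  rw [Module.finrank_fin_fun] at h
  have hq : 1 ≤ Fintype.card F := Fintype.card_pos
  have h1 : Fintype.card F ^ (k + 1 - 1) * (Fintype.card F - 1) ≤ Fintype.card F ^ (k + 1) - 1 := by
    rw [Nat.add_sub_cancel, Nat.mul_sub, mul_one, pow_succ]
    have h2 : 1 ≤ Fintype.card F ^ k := Nat.one_le_pow _ _ hq
    omega
  calc Fintype.card F ^ (k + 1 - 1) * (Fintype.card F - 1) / 2 ≤ (2 * d) / 2 := Nat.div_le_div_right (h1.trans h)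
    _ = d := by omega

end Cfsg.Agent.S2393
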