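import Cfsg.Statements.S2404
import Cfsg.Agent.H6_CR9
import Cfsg.Agent.H6_ChevAll
import Cfsg.Agent.H6_ChevOrd

set_option autoImplicit false
open Cfsg

namespace Cfsg.Agent.S2404

/-- Steinberg's count of semisimple classes for type E₆ when the finite simply connected group has trivial centre: over a field with `q` elements of characteristic `p` with `q ≢ 1 (mod 3)`, the simply connected group E₆(q) coincides with the Chevalley group, and the conjugacy classes of elements of order prime to `p` in the Chevalley group of type E₆ number exactly `q^6`. -/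
theorem result {F : Type*} [Field F] [Fintype F] {q : ℕ} (hq : Fintype.card F = q) (hq3 : q % 3 ≠ 1) (p : ℕ) [Fact p.Prime] [CharP F p] :
    Nat.card {c : ConjClasses ↥(Cfsg.Lie.chevE6.group F) // ∃ g : ↥(Cfsg.Lie.chevE6.group F), ConjClasses.mk g = c ∧ (orderOf g).Coprime p} = q ^ 6 := by
  obtain ⟨m⟩ := Cfsg.Agent.H6.Chev.exists_model (D := Cfsg.Lie.chevE6) (by simp)
  have htor : Nat.card (Cfsg.Lie.chevE6.diagonalSubgroup F) = (Fintype.card F - 1) ^ Cfsg.Lie.chevE6.rank := by
    rw [hq]
    have := Cfsg.Agent.H6.Chev.torE6' hq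
    have hg : Nat.gcd 3 (q - 1) = 1 := by
      have h2 : 1 < q := hq ▸ Fintype.one_lt_card
      rw [← Nat.coprime_iff_gcd_eq_one, Nat.Prime.coprime_iff_not_dvd Nat.prime_three]
      omega
    rwa [hg, one_mul] at this
  have h := Cfsg.Agent.H6.Chev.Model.card_regular_classes (p := p) htor m
  rw [hq] at h
  exact h

end Cfsg.Agent.S2404
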