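import Cfsg.Statements.S2406
import Cfsg.Agent.H6_Gen6

set_option autoImplicit false
open Cfsg

namespace Cfsg.Agent.S2406

/-- The twisted group ²E₆(q) (realised inside E₆ over the field with `q²` elements) is generated by two of its elements. -/
theorem result {K : Type*} [Field K] [Fintype K] {q : ℕ} (hq : IsPrimePow q) (hK : Fintype.card K = q ^ 2) :
    ∃ a b : ↥(Cfsg.Lie.twistedE6 K q), Subgroup.closure ({a, b} : Set ↥(Cfsg.Lie.twistedE6 K q)) = ⊤ := by
  obtain ⟨φ, hφ, hφ2, P, hP, -⟩ := H6.Chev.exists_pE6 hq hK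
  obtain ⟨a, ha, b, hb, h⟩ := H6.Chev.e6_gen2 φ (fun x => by rw [hφ, hφ]; exact hφ2 x) hφ hq.one_lt hK P hP
  exact H6.Gen.two_gen_of _ a b ha hb h

end Cfsg.Agent.S2406
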