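import Cfsg.Statements.S2408
import Cfsg.Agent.H6_Gen5

set_option autoImplicit false
open Cfsg

namespace Cfsg.Agent.S2408

/-- The large Ree group ²F₄(2^(2m+1)) with `m ≥ 1` is generated by two of its elements. -/
theorem result {K : Type*} [Field K] [Fintype K] {m : ℕ} (hm : 1 ≤ m) (hK : Fintype.card K = 2 ^ (2 * m + 1)) :
    ∃ a b : ↥(Cfsg.Lie.twistedF4 K (2 ^ m)), Subgroup.closure ({a, b} : Set ↥(Cfsg.Lie.twistedF4 K (2 ^ m))) = ⊤ := by
  obtain ⟨_, φ, hperf, hφ, hφ2, P, hP, -⟩ := H6.Chev.exists_pF4 hK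
  have hc : 2 < Fintype.card K := by
    rw [hK]
    have : 2 ^ 3 ≤ 2 ^ (2 * m + 1) := Nat.pow_le_pow_right (by norm_num) (by omega)
    omega
  obtain ⟨a, ha, b, hb, h⟩ := H6.Chev.f4_gen2 φ hperf hφ2 hφ hc P hP
  exact H6.Gen.two_gen_of _ a b ha hb h

end Cfsg.Agent.S2408
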