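import Cfsg.Statements.S2409
import Cfsg.Agent.H6_Gen1

set_option autoImplicit false
open Cfsg

namespace Cfsg.Agent.S2409

/-- The small Ree group ²G₂(3^(2m+1)) with `m ≥ 1` is generated by two of its elements. -/
theorem result {K : Type*} [Field K] [Fintype K] {m : ℕ} (hm : 1 ≤ m) (hK : Fintype.card K = 3 ^ (2 * m + 1)) :
    ∃ a b : ↥(Cfsg.Lie.twistedG2 K (3 ^ m)), Subgroup.closure ({a, b} : Set ↥(Cfsg.Lie.twistedG2 K (3 ^ m))) = ⊤ := by

  classical
  obtain ⟨R, hφ, -⟩ := H6.Ree.exists_RG hK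
  refine R.two_gen ?_
  by_contra hcon
  push Not at hcon
  have h1 : (Set.univ : Set K) ⊆ {0, 1, -1} := by
    intro s _
    by_cases hs : s = 0
    · rw [hs]; simp
    · rcases R.s2 hs (hcon s) with h | h <;> rw [h] <;> simp
  have h2 : Nat.card K ≤ 3 := by
    rw [← Set.ncard_univ]
    refine (Set.ncard_le_ncard h1 (Set.toFinite _)).trans ?_
    exact (Set.ncard_insert_le _ _).trans (Nat.succ_le_succ ((Set.ncard_insert_le _ _).trans (by rw [Set.ncard_singleton])))
  rw [Nat.card_eq_fintype_card, hK] at h2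
  have h3 : 3 ^ 3 ≤ 3 ^ (2 * m + 1) := Nat.pow_le_pow_right (by norm_num) (by omega)
  omega

end Cfsg.Agent.S2409
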