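import Cfsg.Statements.S2419


set_option autoImplicit false
open Cfsg

namespace Cfsg.Agent.S2419

theorem cm {G : Type*} [Group G] {a b : G} (h : (a * b) ^ 2 = 1) (ha : a * a = 1) (hb : b * b = 1) : a * b = b * a := by
  have h1 : a * b * (a * b) = 1 := by rw [← pow_two]; exact h
  have h2 : b * a = (a * b)⁻¹ := by
    rw [mul_inv_rev, ← eq_inv_of_mul_eq_one_left ha, ← eq_inv_of_mul_eq_one_left hb]
  rw [h2]
  exact eq_inv_of_mul_eq_one_left h1

theorem br {G : Type*} [Group G] {a b : G} (h : (a * b) ^ 3 = 1) (ha : a * a = 1) (hb : b * b = 1) : a * b * a = b * a * b := by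
  have h1 : (a * b * a) * (b * a * b) = 1 := by
    rw [← h, pow_succ, pow_two]; group
  have h2 : (b * a * b)⁻¹ = b * a * b := by
    rw [mul_inv_rev, mul_inv_rev, ← eq_inv_of_mul_eq_one_left ha, ← eq_inv_of_mul_eq_one_left hb, mul_assoc]
  rw [← h2]
  exact eq_inv_of_mul_eq_one_left h1

theorem step {G : Type*} [Group G] {A x y B : G} (hxy : x * y * x = y * x * y) (hB : x * B = B * x) (hA : A * y = y * A) :
    (A * x * y * B) * x * (A * x * y * B)⁻¹ = y := by
  rw [mul_inv_eq_iff_eq_mul]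
  calc A * x * y * B * x = A * x * y * (x * B) := by rw [mul_assoc (A * x * y), ← hB]
    _ = A * (x * y * x) * B := by group
    _ = (A * y) * x * y * B := by rw [hxy]; group
    _ = y * (A * x * y * B) := by rw [hA]; group

theorem tail {G : Type*} [Group G] {x0 x1 x2 x3 : G} (h0 : x0 * x0 = 1) (h1 : x1 * x1 = 1) (h2 : x2 * x2 = 1) (h3 : x3 * x3 = 1)
    (c01 : x0 * x1 = x1 * x0) (c12 : x1 * x2 = x2 * x1) (c03 : x0 * x3 = x3 * x0) (b02 : x0 * x2 * x0 = x2 * x0 * x2)
    (b23 : x2 * x3 * x2 = x3 * x2 * x3) (H : Subgroup G) (hP : x0 * x1 * x2 ∈ H) (hH : x3 ∈ H) : x0 ∈ H ∧ x1 ∈ H ∧ x2 ∈ H := by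
  have c1 : Commute x1 (x0 * x2) := by
    change x1 * (x0 * x2) = x0 * x2 * x1
    rw [← mul_assoc, ← c01, mul_assoc, c12, ← mul_assoc]
  have hr3 : (x0 * x2) ^ 3 = 1 := by
    have : (x0 * x2) ^ 3 = (x0 * x2 * x0) * (x2 * x0 * x2) := by rw [pow_succ, pow_two]; group
    rw [this, b02]
    calc x2 * x0 * x2 * (x2 * x0 * x2) = x2 * x0 * (x2 * x2) * x0 * x2 := by group
      _ = 1 := by rw [h2, mul_one, mul_assoc x2, h0, mul_one, h2]
  have hP' : x0 * x1 * x2 = x1 * (x0 * x2) := by rw [c01, mul_assoc]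
  have hx1 : (x0 * x1 * x2) ^ 3 = x1 := by
    rw [hP', c1.mul_pow, hr3, mul_one, pow_succ, pow_two, h1, one_mul]
  have m1 : x1 ∈ H := hx1 ▸ H.pow_mem hP 3
  have m02 : x0 * x2 ∈ H := by
    have : x1⁻¹ * (x0 * x1 * x2) ∈ H := H.mul_mem (H.inv_mem m1) hP
    rwa [hP', inv_mul_cancel_left] at this
  have i0 : x0⁻¹ = x0 := (eq_inv_of_mul_eq_one_left h0).symm
  have i2 : x2⁻¹ = x2 := (eq_inv_of_mul_eq_one_left h2).symm
  have hr : x3 * ((x0 * x2) * x3 * (x0 * x2)⁻¹) * x3 = x0 * x2 * x0 := by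
    rw [mul_inv_rev, i0, i2]
    calc x3 * (x0 * x2 * x3 * (x2 * x0)) * x3 = (x3 * x0) * (x2 * x3 * x2) * (x0 * x3) := by group
      _ = x0 * (x3 * x3) * x2 * (x3 * x3) * x0 := by rw [← c03, b23, c03]; nth_rw 1 [← c03]; group
      _ = x0 * x2 * x0 := by rw [h3, mul_one, mul_one]
  have m020 : x0 * x2 * x0 ∈ H := by
    rw [← hr]
    exact H.mul_mem (H.mul_mem hH (H.mul_mem (H.mul_mem m02 hH) (H.inv_mem m02))) hH
  have m0 : x0 ∈ H := by
    have : (x0 * x2)⁻¹ * (x0 * x2 * x0) ∈ H := H.mul_mem (H.inv_mem m02) m020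
    rwa [inv_mul_cancel_left] at this
  refine ⟨m0, m1, ?_⟩
  have : x0⁻¹ * (x0 * x2) ∈ H := H.mul_mem (H.inv_mem m0) m02
  rwa [inv_mul_cancel_left] at this

theorem sq {n : ℕ} (M : CoxeterMatrix (Fin n)) (i : Fin n) : M.simple i * M.simple i = 1 :=
  M.toCoxeterSystem.simple_mul_simple_self i

theorem c2 {n : ℕ} (M : CoxeterMatrix (Fin n)) (i j : Fin n) (h : M i j = 2) : M.simple i * M.simple j = M.simple j * M.simple i := by
  have := M.toCoxeterSystem.simple_mul_simple_pow i j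
  rw [h] at this
  exact cm this (sq M i) (sq M j)

theorem b3 {n : ℕ} (M : CoxeterMatrix (Fin n)) (i j : Fin n) (h : M i j = 3) : M.simple i * M.simple j * M.simple i = M.simple j * M.simple i * M.simple j := by
  have := M.toCoxeterSystem.simple_mul_simple_pow i j
  rw [h] at this
  exact br this (sq M i) (sq M j)

theorem top_of {n : ℕ} (M : CoxeterMatrix (Fin n)) (H : Subgroup M.Group) (h : ∀ i, M.simple i ∈ H) : H = ⊤ := by
  rw [eq_top_iff, ← M.toCoxeterSystem.subgroup_closure_range_simple, Subgroup.closure_le]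
  rintro _ ⟨i, rfl⟩
  exact h i

theorem two {G : Type*} [Group G] {a b x : G} (h : a * x = x * a) (h' : b * x = x * b) : (a * b) * x = x * (a * b) := by
  rw [mul_assoc, h', ← mul_assoc, h, mul_assoc]

theorem comm3 {G : Type*} [Group G] {a b c x : G} (h : a * x = x * a) (h' : b * x = x * b) (h'' : c * x = x * c) : (a * b * c) * x = x * (a * b * c) :=
  two (two h h') h''

theorem E6_top (M : CoxeterMatrix (Fin 6)) (hM : M = CoxeterMatrix.E₆) (H : Subgroup M.Group)
    (hc : M.simple 0 * M.simple 1 * M.simple 2 * M.simple 3 * M.simple 4 * M.simple 5 ∈ H) (h3 : M.simple 3 ∈ H) : H = ⊤ := by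
  have d2 : ∀ i j, CoxeterMatrix.E₆ i j = 2 → M.simple i * M.simple j = M.simple j * M.simple i := fun i j h => c2 M i j (by rw [hM]; exact h)
  have d3 : ∀ i j, CoxeterMatrix.E₆ i j = 3 → M.simple i * M.simple j * M.simple i = M.simple j * M.simple i * M.simple j := fun i j h => b3 M i j (by rw [hM]; exact h)
  have h4 : M.simple 4 ∈ H := by
    have := step (A := M.simple 0 * M.simple 1 * M.simple 2) (x := M.simple 3) (y := M.simple 4) (B := M.simple 5) (d3 _ _ rfl)
      (d2 _ _ rfl) (comm3 (d2 _ _ rfl) (d2 _ _ rfl) (d2 _ _ rfl))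
    rw [← this]
    exact H.mul_mem (H.mul_mem hc h3) (H.inv_mem hc)
  have h5 : M.simple 5 ∈ H := by
    have := step (A := M.simple 0 * M.simple 1 * M.simple 2 * M.simple 3) (x := M.simple 4) (y := M.simple 5) (B := 1) (d3 _ _ rfl)
      (by rw [one_mul, mul_one]) (two (comm3 (d2 _ _ rfl) (d2 _ _ rfl) (d2 _ _ rfl)) (d2 _ _ rfl))
    rw [mul_one] at this
    rw [← this]
    exact H.mul_mem (H.mul_mem hc h4) (H.inv_mem hc)
  have hP : M.simple 0 * M.simple 1 * M.simple 2 ∈ H := by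
    have := H.mul_mem (H.mul_mem (H.mul_mem hc (H.inv_mem h5)) (H.inv_mem h4)) (H.inv_mem h3)
    simpa only [mul_inv_cancel_right] using this
  obtain ⟨h0, h1, h2⟩ := tail (sq M 0) (sq M 1) (sq M 2) (sq M 3) (d2 0 1 rfl) (d2 1 2 rfl) (d2 0 3 rfl) (d3 0 2 rfl) (d3 2 3 rfl) H hP h3
  apply top_of
  intro i
  fin_cases i <;> assumption

theorem E7_top (M : CoxeterMatrix (Fin 7)) (hM : M = CoxeterMatrix.E₇) (H : Subgroup M.Group)
    (hc : M.simple 0 * M.simple 1 * M.simple 2 * M.simple 3 * M.simple 4 * M.simple 5 * M.simple 6 ∈ H) (h3 : M.simple 3 ∈ H) : H = ⊤ := by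
  have d2 : ∀ i j, CoxeterMatrix.E₇ i j = 2 → M.simple i * M.simple j = M.simple j * M.simple i := fun i j h => c2 M i j (by rw [hM]; exact h)
  have d3 : ∀ i j, CoxeterMatrix.E₇ i j = 3 → M.simple i * M.simple j * M.simple i = M.simple j * M.simple i * M.simple j := fun i j h => b3 M i j (by rw [hM]; exact h)
  have h4 : M.simple 4 ∈ H := by
    have := step (A := M.simple 0 * M.simple 1 * M.simple 2) (x := M.simple 3) (y := M.simple 4) (B := M.simple 5 * M.simple 6) (d3 _ _ rfl)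
      (two (d2 5 3 rfl) (d2 6 3 rfl)).symm (comm3 (d2 _ _ rfl) (d2 _ _ rfl) (d2 _ _ rfl))
    rw [← this]
    have e : M.simple 0 * M.simple 1 * M.simple 2 * M.simple 3 * M.simple 4 * (M.simple 5 * M.simple 6) = M.simple 0 * M.simple 1 * M.simple 2 * M.simple 3 * M.simple 4 * M.simple 5 * M.simple 6 := by group
    rw [e]
    exact H.mul_mem (H.mul_mem hc h3) (H.inv_mem hc)
  have h5 : M.simple 5 ∈ H := by
    have := step (A := M.simple 0 * M.simple 1 * M.simple 2 * M.simple 3) (x := M.simple 4) (y := M.simple 5) (B := M.simple 6) (d3 _ _ rfl)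
      (d2 _ _ rfl) (two (comm3 (d2 _ _ rfl) (d2 _ _ rfl) (d2 _ _ rfl)) (d2 _ _ rfl))
    rw [← this]
    exact H.mul_mem (H.mul_mem hc h4) (H.inv_mem hc)
  have h6 : M.simple 6 ∈ H := by
    have := step (A := M.simple 0 * M.simple 1 * M.simple 2 * M.simple 3 * M.simple 4) (x := M.simple 5) (y := M.simple 6) (B := 1) (d3 _ _ rfl)
      (by rw [one_mul, mul_one]) (two (two (comm3 (d2 _ _ rfl) (d2 _ _ rfl) (d2 _ _ rfl)) (d2 _ _ rfl)) (d2 _ _ rfl))
    rw [mul_one] at this
    rw [← this]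
    exact H.mul_mem (H.mul_mem hc h5) (H.inv_mem hc)
  have hP : M.simple 0 * M.simple 1 * M.simple 2 ∈ H := by
    have := H.mul_mem (H.mul_mem (H.mul_mem (H.mul_mem hc (H.inv_mem h6)) (H.inv_mem h5)) (H.inv_mem h4)) (H.inv_mem h3)
    simpa only [mul_inv_cancel_right] using this
  obtain ⟨h0, h1, h2⟩ := tail (sq M 0) (sq M 1) (sq M 2) (sq M 3) (d2 0 1 rfl) (d2 1 2 rfl) (d2 0 3 rfl) (d3 0 2 rfl) (d3 2 3 rfl) H hP h3
  apply top_of
  intro i
  fin_cases i <;> assumption

theorem E8_top (M : CoxeterMatrix (Fin 8)) (hM : M = CoxeterMatrix.E₈) (H : Subgroup M.Group)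
    (hc : M.simple 0 * M.simple 1 * M.simple 2 * M.simple 3 * M.simple 4 * M.simple 5 * M.simple 6 * M.simple 7 ∈ H) (h3 : M.simple 3 ∈ H) : H = ⊤ := by
  have d2 : ∀ i j, CoxeterMatrix.E₈ i j = 2 → M.simple i * M.simple j = M.simple j * M.simple i := fun i j h => c2 M i j (by rw [hM]; exact h)
  have d3 : ∀ i j, CoxeterMatrix.E₈ i j = 3 → M.simple i * M.simple j * M.simple i = M.simple j * M.simple i * M.simple j := fun i j h => b3 M i j (by rw [hM]; exact h)
  have h4 : M.simple 4 ∈ H := by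
    have := step (A := M.simple 0 * M.simple 1 * M.simple 2) (x := M.simple 3) (y := M.simple 4) (B := M.simple 5 * M.simple 6 * M.simple 7) (d3 _ _ rfl)
      (comm3 (d2 5 3 rfl) (d2 6 3 rfl) (d2 7 3 rfl)).symm (comm3 (d2 _ _ rfl) (d2 _ _ rfl) (d2 _ _ rfl))
    rw [← this]
    have e : M.simple 0 * M.simple 1 * M.simple 2 * M.simple 3 * M.simple 4 * (M.simple 5 * M.simple 6 * M.simple 7) = M.simple 0 * M.simple 1 * M.simple 2 * M.simple 3 * M.simple 4 * M.simple 5 * M.simple 6 * M.simple 7 := by group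
    rw [e]
    exact H.mul_mem (H.mul_mem hc h3) (H.inv_mem hc)
  have h5 : M.simple 5 ∈ H := by
    have := step (A := M.simple 0 * M.simple 1 * M.simple 2 * M.simple 3) (x := M.simple 4) (y := M.simple 5) (B := M.simple 6 * M.simple 7) (d3 _ _ rfl)
      (two (d2 6 4 rfl) (d2 7 4 rfl)).symm (two (comm3 (d2 _ _ rfl) (d2 _ _ rfl) (d2 _ _ rfl)) (d2 _ _ rfl))
    rw [← this]
    have e : M.simple 0 * M.simple 1 * M.simple 2 * M.simple 3 * M.simple 4 * M.simple 5 * (M.simple 6 * M.simple 7) = M.simple 0 * M.simple 1 * M.simple 2 * M.simple 3 * M.simple 4 * M.simple 5 * M.simple 6 * M.simple 7 := by group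
    rw [e]
    exact H.mul_mem (H.mul_mem hc h4) (H.inv_mem hc)
  have h6 : M.simple 6 ∈ H := by
    have := step (A := M.simple 0 * M.simple 1 * M.simple 2 * M.simple 3 * M.simple 4) (x := M.simple 5) (y := M.simple 6) (B := M.simple 7) (d3 _ _ rfl)
      (d2 _ _ rfl) (two (two (comm3 (d2 _ _ rfl) (d2 _ _ rfl) (d2 _ _ rfl)) (d2 _ _ rfl)) (d2 _ _ rfl))
    rw [← this]
    exact H.mul_mem (H.mul_mem hc h5) (H.inv_mem hc)
  have h7 : M.simple 7 ∈ H := by
    have := step (A := M.simple 0 * M.simple 1 * M.simple 2 * M.simple 3 * M.simple 4 * M.simple 5) (x := M.simple 6) (y := M.simple 7) (B := 1) (d3 _ _ rfl)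
      (by rw [one_mul, mul_one]) (two (two (two (comm3 (d2 _ _ rfl) (d2 _ _ rfl) (d2 _ _ rfl)) (d2 _ _ rfl)) (d2 _ _ rfl)) (d2 _ _ rfl))
    rw [mul_one] at this
    rw [← this]
    exact H.mul_mem (H.mul_mem hc h6) (H.inv_mem hc)
  have hP : M.simple 0 * M.simple 1 * M.simple 2 ∈ H := by
    have := H.mul_mem (H.mul_mem (H.mul_mem (H.mul_mem (H.mul_mem hc (H.inv_mem h7)) (H.inv_mem h6)) (H.inv_mem h5)) (H.inv_mem h4)) (H.inv_mem h3)
    simpa only [mul_inv_cancel_right] using this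
  obtain ⟨h0, h1, h2⟩ := tail (sq M 0) (sq M 1) (sq M 2) (sq M 3) (d2 0 1 rfl) (d2 1 2 rfl) (d2 0 3 rfl) (d3 0 2 rfl) (d3 2 3 rfl) H hP h3
  apply top_of
  intro i
  fin_cases i <;> assumption

theorem r2_top (M : CoxeterMatrix (Fin 2)) (H : Subgroup M.Group) (hc : M.simple 0 * M.simple 1 ∈ H) (h0 : M.simple 0 ∈ H) : H = ⊤ := by
  have h1 : M.simple 1 ∈ H := by
    have := H.mul_mem (H.inv_mem h0) hc
    rwa [inv_mul_cancel_left] at this
  apply top_of
  intro i
  fin_cases i <;> assumption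

theorem r4_top (M : CoxeterMatrix (Fin 4)) (m01 : M 0 1 = 3) (m02 : M 0 2 = 2) (m03 : M 0 3 = 2) (H : Subgroup M.Group)
    (hc : M.simple 0 * M.simple 1 * M.simple 2 * M.simple 3 ∈ H) (h0 : M.simple 0 ∈ H) (h2 : M.simple 2 ∈ H) : H = ⊤ := by
  have h1 : M.simple 1 ∈ H := by
    have := step (A := 1) (x := M.simple 0) (y := M.simple 1) (B := M.simple 2 * M.simple 3) (b3 M 0 1 m01)
      (two (c2 M 0 2 m02).symm (c2 M 0 3 m03).symm).symm (by rw [one_mul, mul_one])
    rw [← this]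
    have e : 1 * M.simple 0 * M.simple 1 * (M.simple 2 * M.simple 3) = M.simple 0 * M.simple 1 * M.simple 2 * M.simple 3 := by group
    rw [e]
    exact H.mul_mem (H.mul_mem hc h0) (H.inv_mem hc)
  have h3 : M.simple 3 ∈ H := by
    have := H.mul_mem (H.inv_mem (H.mul_mem (H.mul_mem h0 h1) h2)) hc
    rwa [inv_mul_cancel_left] at this
  apply top_of
  intro i
  fin_cases i <;> assumption

theorem main1 {n : ℕ} (M : CoxeterMatrix (Fin n)) (j : Fin n)
    (h : ∀ H : Subgroup M.Group, ((List.finRange n).map M.simple).prod ∈ H → M.simple j ∈ H → H = ⊤) :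
    ∃ T : Finset M.Group, T.card = 1 ∧ (∀ t ∈ T, ∃ (g : M.Group) (i : Fin n), t = g * M.simple i * g⁻¹) ∧
      Subgroup.closure (({((List.finRange n).map M.simple).prod} : Set M.Group) ∪ ↑T) = ⊤ := by
  refine ⟨{M.simple j}, Finset.card_singleton _, ?_, ?_⟩
  · intro t ht
    rw [Finset.mem_singleton] at ht
    exact ⟨1, j, by rw [ht, one_mul, inv_one, mul_one]⟩
  · apply h
    · exact Subgroup.subset_closure (Or.inl rfl)
    · exact Subgroup.subset_closure (Or.inr (by simp))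

theorem main2 {n : ℕ} (M : CoxeterMatrix (Fin n)) (j k : Fin n) (hjk : M.simple j ≠ M.simple k)
    (h : ∀ H : Subgroup M.Group, ((List.finRange n).map M.simple).prod ∈ H → M.simple j ∈ H → M.simple k ∈ H → H = ⊤) :
    ∃ T : Finset M.Group, T.card = 2 ∧ (∀ t ∈ T, ∃ (g : M.Group) (i : Fin n), t = g * M.simple i * g⁻¹) ∧
      Subgroup.closure (({((List.finRange n).map M.simple).prod} : Set M.Group) ∪ ↑T) = ⊤ := by
  classical
  refine ⟨{M.simple j, M.simple k}, Finset.card_pair hjk, ?_, ?_⟩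
  · intro t ht
    rw [Finset.mem_insert, Finset.mem_singleton] at ht
    rcases ht with ht | ht
    · exact ⟨1, j, by rw [ht, one_mul, inv_one, mul_one]⟩
    · exact ⟨1, k, by rw [ht, one_mul, inv_one, mul_one]⟩
  · apply h
    · exact Subgroup.subset_closure (Or.inl rfl)
    · exact Subgroup.subset_closure (Or.inr (by simp))
    · exact Subgroup.subset_closure (Or.inr (by simp))

theorem ne_of {n : ℕ} (M : CoxeterMatrix (Fin n)) (f : Fin n → Equiv.Perm (Fin 6)) (hf : ∀ i j, (f i * f j) ^ (M i j) = 1) (j k : Fin n) (h : f j ≠ f k) :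
    M.simple j ≠ M.simple k := by
  intro e
  have h1 := M.toCoxeterSystem.lift_apply_simple (f := f) hf j
  have h2 := M.toCoxeterSystem.lift_apply_simple (f := f) hf k
  rw [CoxeterMatrix.toCoxeterSystem_simple] at h1 h2
  rw [e, h2] at h1
  exact h h1.symm

/-- The Coxeter groups of types B₂, G₂, E₆, E₇, E₈ are generated by the Coxeter element `s₁ s₂ ⋯ s_l` together with one suitable reflection (a conjugate of a simple reflection); for types D₄ and F₄ the Coxeter element together with two suitable reflections suffices. -/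
theorem result (c : (Σ n : ℕ, CoxeterMatrix (Fin n)) × ℕ)
    (hc : c ∈ [(⟨2, CoxeterMatrix.B 2⟩, 1), (⟨2, CoxeterMatrix.G₂⟩, 1), (⟨4, Cfsg.Lie.coxeterD4⟩, 2), (⟨4, CoxeterMatrix.F₄⟩, 2),
      (⟨6, CoxeterMatrix.E₆⟩, 1), (⟨7, CoxeterMatrix.E₇⟩, 1), (⟨8, CoxeterMatrix.E₈⟩, 1)]) :
    ∃ T : Finset c.1.2.Group, T.card = c.2 ∧ (∀ t ∈ T, ∃ (g : c.1.2.Group) (i : Fin c.1.1), t = g * c.1.2.simple i * g⁻¹) ∧
      Subgroup.closure (({((List.finRange c.1.1).map c.1.2.simple).prod} : Set c.1.2.Group) ∪ ↑T) = ⊤ := by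
  simp only [List.mem_cons, List.not_mem_nil, or_false] at hc
  rcases hc with rfl | rfl | rfl | rfl | rfl | rfl | rfl
  · apply main1 _ 0
    intro H h1 h2
    exact r2_top _ H (by simpa [List.finRange_succ] using h1) h2
  · apply main1 _ 0
    intro H h1 h2
    exact r2_top _ H (by simpa [List.finRange_succ] using h1) h2
  · apply main2 _ 0 2
    · apply ne_of _ ![Equiv.swap 0 1, Equiv.swap 1 2, Equiv.swap 2 3, Equiv.swap 2 3]
      · decide
      · decide
    · intro H h1 h2 h3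
      exact r4_top _ rfl rfl rfl H (by simpa [List.finRange_succ, mul_assoc] using h1) h2 h3
  · apply main2 _ 0 2
    · apply ne_of _ ![Equiv.swap 0 1, Equiv.swap 1 2, Equiv.swap 3 4, Equiv.swap 4 5]
      · decide
      · decide
    · intro H h1 h2 h3
      exact r4_top _ rfl rfl rfl H (by simpa [List.finRange_succ, mul_assoc] using h1) h2 h3
  · apply main1 _ 3
    intro H h1 h2
    exact E6_top _ rfl H (by simpa [List.finRange_succ, mul_assoc] using h1) h2
  · apply main1 _ 3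
    intro H h1 h2
    exact E7_top _ rfl H (by simpa [List.finRange_succ, mul_assoc] using h1) h2
  · apply main1 _ 3
    intro H h1 h2
    exact E8_top _ rfl H (by simpa [List.finRange_succ, mul_assoc] using h1) h2

end Cfsg.Agent.S2419
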