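import Cfsg.Statements.S2423
import Cfsg.Agent.H15_Orb
import Cfsg.Agent.H3_CharPerm2

set_option autoImplicit false
open scoped MatrixGroups
open Cfsg

namespace Cfsg.Agent.S2423

theorem key {G : Type*} [Group G] [Fintype G] (H K : Subgroup G) : Cfsg.classInner
      (Cfsg.Agent.H3.CharPerm2.perm G (G ⧸ H)) (Cfsg.Agent.H3.CharPerm2.perm G (G ⧸ K)) =
      (Nat.card G : ℂ)⁻¹ * ∑ g : G, Cfsg.fixedPointCharacter H g * Cfsg.fixedPointCharacter K g := by
  simp only [Cfsg.classInner, Cfsg.Agent.H3.CharPerm2.perm, Cfsg.fixedPointCharacter, map_natCast]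


/-- The comparison of `GL_n(q)` with the symmetric group on flags: for partitions `ν`, `μ` of `n` (each with `n` non-decreasing parts, zeros allowed), the inner product of the permutation characters of `GL_n(q)` on partial flags of types `ν` and `μ` equals the inner product of the permutation characters of `Sym(n)` on the cosets of the Young subgroups of types `ν` and `μ` (both count the orbits on pairs). -/
theorem result {F : Type*} [Field F] [Fintype F] [DecidableEq F] {n : ℕ} (ν μ : Fin n → ℕ) (hν : Monotone ν) (hνs : ∑ i, ν i = n)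
    (hμ : Monotone μ) (hμs : ∑ i, μ i = n) :
    (Nat.card (GL (Fin n) F) : ℂ)⁻¹ * ∑ g : GL (Fin n) F,
        Cfsg.fixedPointCharacter (Cfsg.parabolicGL n F ν) g * Cfsg.fixedPointCharacter (Cfsg.parabolicGL n F μ) g =
      (Nat.card (Equiv.Perm (Fin n)) : ℂ)⁻¹ * ∑ σ : Equiv.Perm (Fin n),
        Cfsg.fixedPointCharacter (Cfsg.youngSubgroup ν) σ * Cfsg.fixedPointCharacter (Cfsg.youngSubgroup μ) σ := by
  classical
  have h1 := Cfsg.Agent.H3.CharPerm2.ci_perm_perm (G := GL (Fin n) F) (GL (Fin n) F ⧸ Cfsg.parabolicGL n F ν)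
    (GL (Fin n) F ⧸ Cfsg.parabolicGL n F μ)
  have h2 := Cfsg.Agent.H3.CharPerm2.ci_perm_perm (G := Equiv.Perm (Fin n))
    (Equiv.Perm (Fin n) ⧸ Cfsg.youngSubgroup ν) (Equiv.Perm (Fin n) ⧸ Cfsg.youngSubgroup μ)
  rw [Cfsg.Agent.H15.Orb.gl_orbits ν μ hνs hμs] at h1
  rw [Cfsg.Agent.H15.Orb.sym_orbits ν μ hνs hμs] at h2
  rw [← h2] at h1
  rw [key, key] at h1
  convert h1

end Cfsg.Agent.S2423
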