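import Cfsg.Statements.S2428
import Cfsg.Agent.H15_TOR3

set_option autoImplicit false
open Cfsg

namespace Cfsg.Agent.S2428

/-- Let F be a finite field with q elements, q odd, and let d be a diagonal element of SL₂ over F whose diagonal entry a has a² ≠ 1 (such d exist exactly when q > 3). Then the centraliser of d is precisely the diagonal subgroup T; the normaliser of T has order 2(q − 1) and exactly (q + 5)/2 conjugacy classes; and every element of that normaliser outside T has square equal to −1. -/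
theorem result {F : Type*} [Field F] [Fintype F] (hodd : Odd (Fintype.card F))
    (d : Matrix.SpecialLinearGroup (Fin 2) F) (hd01 : (d : Matrix (Fin 2) (Fin 2) F) 0 1 = 0) (hd10 : (d : Matrix (Fin 2) (Fin 2) F) 1 0 = 0) (hda : (d : Matrix (Fin 2) (Fin 2) F) 0 0 ^ 2 ≠ 1) :
    (∀ g : Matrix.SpecialLinearGroup (Fin 2) F, g ∈ Subgroup.centralizer ({d} : Set (Matrix.SpecialLinearGroup (Fin 2) F)) ↔ ((g : Matrix (Fin 2) (Fin 2) F) 0 1 = 0 ∧ (g : Matrix (Fin 2) (Fin 2) F) 1 0 = 0)) ∧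
    Nat.card (Subgroup.normalizer ((Subgroup.centralizer ({d} : Set (Matrix.SpecialLinearGroup (Fin 2) F))) : Set (Matrix.SpecialLinearGroup (Fin 2) F))) = 2 * (Fintype.card F - 1) ∧
    Nat.card (ConjClasses (Subgroup.normalizer ((Subgroup.centralizer ({d} : Set (Matrix.SpecialLinearGroup (Fin 2) F))) : Set (Matrix.SpecialLinearGroup (Fin 2) F)))) = (Fintype.card F + 5) / 2 ∧
    ∀ g : Matrix.SpecialLinearGroup (Fin 2) F, g ∈ Subgroup.normalizer ((Subgroup.centralizer ({d} : Set (Matrix.SpecialLinearGroup (Fin 2) F))) : Set (Matrix.SpecialLinearGroup (Fin 2) F)) →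
      g ∉ Subgroup.centralizer ({d} : Set (Matrix.SpecialLinearGroup (Fin 2) F)) → ((g * g) : Matrix (Fin 2) (Fin 2) F) = -1 := by
  classical
  have h2 := Cfsg.Agent.H15.PS.two_ne_zero_of_odd hodd
  obtain ⟨a, ha, _, rfl⟩ := Cfsg.Agent.H15.PS.eq_utS hd01 hd10 hda
  have hq := Cfsg.Agent.H15.PS.one_lt_q (F := F)
  obtain ⟨h1, h3, h4⟩ := Cfsg.Agent.H15.TOR.norm_data h2 (Cfsg.Agent.H15.TOR.utS_disc ha 0)
  rw [Cfsg.Agent.H15.TOR.card_TE_split ha] at h1 h3
  refine ⟨fun g => Cfsg.Agent.H15.TOR.mem_TE_split ha g, h1, ?_, fun g hg hgT => (h4 g hg hgT).2⟩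
  have h5 : ∀ n : ℕ, n * 2 = Fintype.card F - 1 + 6 → n = (Fintype.card F + 5) / 2 := by
    intro n hn; omega
  exact h5 _ h3

end Cfsg.Agent.S2428
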