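import Cfsg.Statements.S2429
import Cfsg.Agent.H15_TOR3

set_option autoImplicit false
open Cfsg

namespace Cfsg.Agent.S2429

/-- Let F be a finite field with q elements, q odd. Then SL₂ over F contains a cyclic subgroup T′ of order q + 1 (a non-split torus) with the following properties: T′ is its own centraliser, and indeed the centraliser of each element of T′ other than 1 and −1 is exactly T′; every element of SL₂ having no eigenvector in F² is conjugate to an element of T′; the normaliser of T′ has order 2(q + 1) and exactly (q + 7)/2 conjugacy classes; and every element of that normaliser outside T′ has square −1. -/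
theorem result {F : Type*} [Field F] [Fintype F] (hodd : Odd (Fintype.card F)) :
    ∃ T' : Subgroup (Matrix.SpecialLinearGroup (Fin 2) F), IsCyclic T' ∧ Nat.card T' = Fintype.card F + 1 ∧
      Subgroup.centralizer ((T' : Set (Matrix.SpecialLinearGroup (Fin 2) F))) = T' ∧
      (∀ g : Matrix.SpecialLinearGroup (Fin 2) F, g ∈ T' → (g : Matrix (Fin 2) (Fin 2) F) ≠ 1 → (g : Matrix (Fin 2) (Fin 2) F) ≠ -1 → Subgroup.centralizer ({g} : Set (Matrix.SpecialLinearGroup (Fin 2) F)) = T') ∧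
      (∀ g : Matrix.SpecialLinearGroup (Fin 2) F, (∀ (c : F) (v : Fin 2 → F), v ≠ 0 → (g : Matrix (Fin 2) (Fin 2) F).mulVec v ≠ c • v) → ∃ h : Matrix.SpecialLinearGroup (Fin 2) F, h * g * h⁻¹ ∈ T') ∧
      Nat.card (Subgroup.normalizer (T' : Set (Matrix.SpecialLinearGroup (Fin 2) F))) = 2 * (Fintype.card F + 1) ∧
      Nat.card (ConjClasses (Subgroup.normalizer (T' : Set (Matrix.SpecialLinearGroup (Fin 2) F)))) = (Fintype.card F + 7) / 2 ∧
      ∀ g : Matrix.SpecialLinearGroup (Fin 2) F, g ∈ Subgroup.normalizer (T' : Set (Matrix.SpecialLinearGroup (Fin 2) F)) → g ∉ T' → ((g * g) : Matrix (Fin 2) (Fin 2) F) = -1 := by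
  classical
  have h2 := Cfsg.Agent.H15.PS.two_ne_zero_of_odd hodd
  obtain ⟨c, hc⟩ := Cfsg.Agent.H15.TOR.exists_ell (F := F)
  obtain ⟨h1, h3, h4⟩ := Cfsg.Agent.H15.TOR.norm_data h2 (Cfsg.Agent.H15.TOR.ell_disc h2 hc)
  rw [Cfsg.Agent.H15.PS.card_TE hc] at h1 h3
  refine ⟨Cfsg.Agent.H15.PS.TE c, Cfsg.Agent.H15.PS.cyclic_TE hc, Cfsg.Agent.H15.PS.card_TE hc,
    Cfsg.Agent.H15.TOR.cent_TE hc.ns, fun g hg h5 h6 => ?_, fun g hg => ?_, h1, by omega, fun g hg hgT => (h4 g hg hgT).2⟩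
  · apply Cfsg.Agent.H15.TOR.cent_eq hc.ns hg
    intro hn
    obtain ⟨e, he, rfl⟩ := Cfsg.Agent.H15.M2.eq_sc_of_not_NS (not_not.mpr hn)
    rw [Cfsg.Agent.H15.PS.sc_coe] at h5 h6
    rcases mul_self_eq_one_iff.mp he with rfl | rfl
    · exact h5 (one_smul _ _)
    · exact h6 (by rw [neg_one_smul])
  · obtain ⟨x, hx, hgx⟩ := Cfsg.Agent.H15.TOR.ell_conj_mem h2 hc hg
    obtain ⟨h, hh⟩ := isConj_iff.mp hgx
    exact ⟨h, by rw [hh]; exact hx⟩

end Cfsg.Agent.S2429
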