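import Cfsg.Statements.S2430
import Cfsg.Agent.H15_TOR4

set_option autoImplicit false
open Cfsg

namespace Cfsg.Agent.S2430

/-- Let F be a finite field with q elements, q odd, ℓ an odd prime, and P a Sylow ℓ-subgroup of SL₂ over F. If ℓ divides q − 1, the centraliser of P is cyclic of order q − 1 (a split torus) and the normaliser of P has order 2(q − 1); if ℓ divides q + 1, the centraliser of P is cyclic of order q + 1 (a non-split torus) and the normaliser of P has order 2(q + 1). -/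
theorem result {F : Type*} [Field F] [Fintype F] (hodd : Odd (Fintype.card F)) (ℓ : ℕ) [Fact ℓ.Prime] (hℓ : ℓ ≠ 2)
    (P : Sylow ℓ (Matrix.SpecialLinearGroup (Fin 2) F)) :
    (ℓ ∣ Fintype.card F - 1 →
      Nat.card (Subgroup.centralizer ((P : Subgroup (Matrix.SpecialLinearGroup (Fin 2) F)) : Set (Matrix.SpecialLinearGroup (Fin 2) F))) = Fintype.card F - 1 ∧
      IsCyclic (Subgroup.centralizer ((P : Subgroup (Matrix.SpecialLinearGroup (Fin 2) F)) : Set (Matrix.SpecialLinearGroup (Fin 2) F))) ∧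
      Nat.card (Subgroup.normalizer ((P : Subgroup (Matrix.SpecialLinearGroup (Fin 2) F)) : Set (Matrix.SpecialLinearGroup (Fin 2) F))) = 2 * (Fintype.card F - 1)) ∧
    (ℓ ∣ Fintype.card F + 1 →
      Nat.card (Subgroup.centralizer ((P : Subgroup (Matrix.SpecialLinearGroup (Fin 2) F)) : Set (Matrix.SpecialLinearGroup (Fin 2) F))) = Fintype.card F + 1 ∧
      IsCyclic (Subgroup.centralizer ((P : Subgroup (Matrix.SpecialLinearGroup (Fin 2) F)) : Set (Matrix.SpecialLinearGroup (Fin 2) F))) ∧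
      Nat.card (Subgroup.normalizer ((P : Subgroup (Matrix.SpecialLinearGroup (Fin 2) F)) : Set (Matrix.SpecialLinearGroup (Fin 2) F))) = 2 * (Fintype.card F + 1)) := by
  classical
  have h2 := Cfsg.Agent.H15.PS.two_ne_zero_of_odd hodd
  constructor
  · intro h
    obtain ⟨c, h1, h3, h4, h5⟩ := Cfsg.Agent.H15.TOR.sylow_odd' hodd ℓ hℓ P (Or.inl rfl) h
    rw [h4, h5, ← h3]
    exact ⟨rfl, (Cfsg.Agent.H15.TOR.tor_cases h2 h1).1, (Cfsg.Agent.H15.TOR.norm_data h2 h1).1⟩
  · intro h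
    obtain ⟨c, h1, h3, h4, h5⟩ := Cfsg.Agent.H15.TOR.sylow_odd' hodd ℓ hℓ P (Or.inr rfl) h
    rw [h4, h5, ← h3]
    exact ⟨rfl, (Cfsg.Agent.H15.TOR.tor_cases h2 h1).1, (Cfsg.Agent.H15.TOR.norm_data h2 h1).1⟩

end Cfsg.Agent.S2430
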