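import Cfsg.Statements.S2431
import Cfsg.Agent.H15_TOR6

set_option autoImplicit false
open Cfsg

namespace Cfsg.Agent.S2431

/-- Let F be a finite field with q elements, q odd, and S a Sylow 2-subgroup of SL₂ over F. The centraliser of S is the centre of SL₂ (of order 2); S is its own normaliser when q ≡ ±1 mod 8, and has index 3 in its normaliser when q ≡ ±3 mod 8. -/
theorem result {F : Type*} [Field F] [Fintype F] (hodd : Odd (Fintype.card F)) (S : Sylow 2 (Matrix.SpecialLinearGroup (Fin 2) F)) :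
    Subgroup.centralizer ((S : Subgroup (Matrix.SpecialLinearGroup (Fin 2) F)) : Set (Matrix.SpecialLinearGroup (Fin 2) F)) = Subgroup.center (Matrix.SpecialLinearGroup (Fin 2) F) ∧
    ((Fintype.card F % 8 = 1 ∨ Fintype.card F % 8 = 7) →
      Subgroup.normalizer ((S : Subgroup (Matrix.SpecialLinearGroup (Fin 2) F)) : Set (Matrix.SpecialLinearGroup (Fin 2) F)) = (S : Subgroup (Matrix.SpecialLinearGroup (Fin 2) F))) ∧
    ((Fintype.card F % 8 = 3 ∨ Fintype.card F % 8 = 5) →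
      Nat.card (Subgroup.normalizer ((S : Subgroup (Matrix.SpecialLinearGroup (Fin 2) F)) : Set (Matrix.SpecialLinearGroup (Fin 2) F))) = 3 * Nat.card S) := by
  classical
  have h2 := Cfsg.Agent.H15.PS.two_ne_zero_of_odd hodd
  obtain ⟨c, hc, h4, hS, hcS, _⟩ := Cfsg.Agent.H15.TOR.sylow_two hodd S
  have hm := (Cfsg.Agent.H15.TOR.tor_cases h2 hc).2
  have hq := Cfsg.Agent.H15.PS.one_lt_q (F := F)
  refine ⟨Cfsg.Agent.H15.TOR.cent_two hodd S hc h4 hS hcS, fun h => ?_, fun h => ?_⟩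
  · apply Cfsg.Agent.H15.TOR.norm_eq_of_eight hodd S hc h4 hS hcS
    rcases hm with ⟨_, h5⟩ | ⟨_, h5⟩ <;> rw [h5] at h4 ⊢ <;> omega
  · have h8 : ¬ 8 ∣ Nat.card (Cfsg.Agent.H15.PS.TE c) := by
      rcases hm with ⟨_, h5⟩ | ⟨_, h5⟩ <;> rw [h5] at h4 ⊢ <;> omega
    obtain ⟨e1, e2, _⟩ := Cfsg.Agent.H15.TOR.norm_eight hodd S hc h4 h8 hS hcS
    rw [e2, e1]

end Cfsg.Agent.S2431
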