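import Cfsg.Statements.S2435
import Cfsg.Agent.H15_XT6

set_option autoImplicit false
open Cfsg

namespace Cfsg.Agent.S2435

open Cfsg.Agent.H15.PS Cfsg.Agent.H15.M2 in
theorem part1 {F : Type*} [Field F] [Fintype F] [DecidableEq F] (χ : Matrix.SpecialLinearGroup (Fin 2) F → ℂ)
    (h : TH χ) (a : Fˣ) (ha : a * a ≠ 1) :
      (IsSquare (a : F) → χ (utS a 0) = 1) ∧ (¬ IsSquare (a : F) → χ (utS a 0) = -1) := by
  obtain ⟨α, ψ', h1, h2, hH⟩ := h
  have h3 := hH.val (InvC.utS ha 0)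
  rw [RS_split' α ha] at h3
  have h4 : α ((a⁻¹ : Fˣ) : F) = α a := by
    have h5 : α ((a⁻¹ : Fˣ) : F) * α a = 1 := by rw [← map_mul, ← Units.val_mul, inv_mul_cancel, Units.val_one, map_one]
    have h6 : α a * α a = 1 := by rw [← map_mul]; exact mulChar_sq α h1 a a.ne_zero
    have h7 : α (a : F) ≠ 0 := left_ne_zero_of_mul_eq_one h6
    exact mul_right_cancel₀ h7 (by rw [h5, h6])
  rw [h4] at h3
  have h8 : χ (utS a 0) = α a := mul_left_cancel₀ two_ne_zero (by rw [h3]; ring)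
  rw [h8]
  constructor
  · rintro ⟨b, hb⟩
    have hb0 : b ≠ 0 := by rintro rfl; exact a.ne_zero (by rw [hb, mul_zero])
    rw [hb]; exact mulChar_sq α h1 b hb0
  · intro hs
    exact quad_nonsq h1 h2 hs

open Cfsg.Agent.H15.PS Cfsg.Agent.H15.M2 in
theorem part2 {F : Type*} [Field F] [Fintype F] [DecidableEq F] (hodd : Odd (Fintype.card F)) (χ : Matrix.SpecialLinearGroup (Fin 2) F → ℂ)
    (h : TD χ) (g : Matrix.SpecialLinearGroup (Fin 2) F) (hg : Ell (g : Matrix (Fin 2) (Fin 2) F)) :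
      (g ^ ((Fintype.card F + 1) / 2) = 1 → χ g = -1) ∧ (g ^ ((Fintype.card F + 1) / 2) ≠ 1 → χ g = 1) := by
  obtain ⟨χ', ψ', h1, h2, h3, h4, hH⟩ := h
  obtain ⟨θ, hθ, hθ1, hθ2⟩ := exists_theta hodd hg
  have h5 := TD_sum hg hθ hθ1 h4 h1 h2 h3 hH
  have h6 := hH.val (InvC.ell hg)
  have hm : g ∈ TE g := by rw [Subgroup.mem_centralizer_singleton_iff]
  have h7 := XT_ell hg θ ⟨g, hm⟩ hg.ns
  have h8 : (θ (⟨g, hm⟩ : TE g)⁻¹ : ℂ) = (θ ⟨g, hm⟩ : ℂ) := by
    have h9 : θ ⟨g, hm⟩ ^ 2 = 1 := by rw [← MonoidHom.pow_apply, hθ, MonoidHom.one_apply]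
    rw [map_inv]
    congr 1
    rw [inv_eq_iff_mul_eq_one, ← sq, h9]
  rw [h8] at h7
  rw [← h5] at h6
  have h10 : χ g = -(θ ⟨g, hm⟩ : ℂ) := by
    apply mul_left_cancel₀ two_ne_zero
    rw [h6, h7]; ring
  obtain ⟨h11, h12⟩ := hθ2 ⟨g, hm⟩
  rw [h10]
  constructor
  · intro h
    rw [h11 (Subtype.ext h), Units.val_one]
  · intro h
    rw [h12 (fun h' => h (congrArg Subtype.val h')), Units.val_neg, Units.val_one, neg_neg]


/-- Let F be a finite field with q elements, q odd and q ≥ 5, and χ an irreducible complex character of SL₂ over F. If χ has degree (q + 1)/2, then at a diagonal element with entry a, a² ≠ 1, χ takes the value 1 when a is a square in F and −1 otherwise. If χ has degree (q − 1)/2, then at an element g with no eigenvector in F² (so g has order dividing q + 1), χ takes the value −1 when g raised to the power (q + 1)/2 is the identity and the value 1 otherwise. -/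
theorem result {F : Type*} [Field F] [Fintype F] (hodd : Odd (Fintype.card F)) (hq : 5 ≤ Fintype.card F)
    (χ : Matrix.SpecialLinearGroup (Fin 2) F → ℂ) (hχ : Cfsg.IsIrrCharacter (Matrix.SpecialLinearGroup (Fin 2) F) χ) (g : Matrix.SpecialLinearGroup (Fin 2) F) :
    (χ 1 = (((Fintype.card F + 1) / 2 : ℕ) : ℂ) → (g : Matrix (Fin 2) (Fin 2) F) 0 1 = 0 → (g : Matrix (Fin 2) (Fin 2) F) 1 0 = 0 → (g : Matrix (Fin 2) (Fin 2) F) 0 0 ^ 2 ≠ 1 →
      (IsSquare ((g : Matrix (Fin 2) (Fin 2) F) 0 0) → χ g = 1) ∧ (¬ IsSquare ((g : Matrix (Fin 2) (Fin 2) F) 0 0) → χ g = -1)) ∧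
    (χ 1 = (((Fintype.card F - 1) / 2 : ℕ) : ℂ) → (∀ (c : F) (v : Fin 2 → F), v ≠ 0 → (g : Matrix (Fin 2) (Fin 2) F).mulVec v ≠ c • v) →
      (((g ^ ((Fintype.card F + 1) / 2)) : Matrix (Fin 2) (Fin 2) F) = 1 → χ g = -1) ∧ (((g ^ ((Fintype.card F + 1) / 2)) : Matrix (Fin 2) (Fin 2) F) ≠ 1 → χ g = 1)) := by
  classical
  refine ⟨fun h h01 h10 h00 => ?_, fun h hell => ?_⟩
  · obtain ⟨a, ha, ha', hg⟩ := Cfsg.Agent.H15.PS.eq_utS h01 h10 h00
    rw [← ha', hg]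
    exact part1 χ (Cfsg.Agent.H15.PS.deg_hp (by omega) hχ (by rw [h, Cfsg.Agent.H15.PS.half_p hodd])) a ha
  · have h1 := part2 hodd χ (Cfsg.Agent.H15.PS.deg_hm (by omega) hχ (by rw [h, Cfsg.Agent.H15.PS.half_m hodd])) g hell
    have h2 : ((g : Matrix (Fin 2) (Fin 2) F) ^ ((Fintype.card F + 1) / 2) = 1) ↔ g ^ ((Fintype.card F + 1) / 2) = 1 := by
      rw [← Matrix.SpecialLinearGroup.coe_pow]
      exact ⟨fun h => Subtype.ext h, fun h => congrArg Subtype.val h⟩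
    exact ⟨fun h => h1.1 (h2.mp h), fun h => h1.2 (fun h' => h (h2.mpr h'))⟩

end Cfsg.Agent.S2435
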