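import Cfsg.Statements.S2531
-- import your own Cfsg.Agent.* helpers here

set_option autoImplicit false
open Cfsg

namespace Cfsg.Agent.S2531

open Module

variable {F : Type*} [Field F] [Finite F] {n : ℕ}

/-- the points of a subspace. -/
def P (W : Submodule F (Fin n → F)) : Set (Projectivization F (Fin n → F)) := {x | x.rep ∈ W}

theorem mk_mem {W : Submodule F (Fin n → F)} {v : Fin n → F} (hv : v ≠ 0) : Projectivization.mk F v hv ∈ P W ↔ v ∈ W := by
  obtain ⟨a, ha⟩ := Projectivization.exists_smul_eq_mk_rep F v hv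
  change (Projectivization.mk F v hv).rep ∈ W ↔ v ∈ W
  rw [← ha]
  constructor
  · intro h
    have := W.smul_mem ((a⁻¹ : Fˣ) : F) h
    rwa [← Units.smul_def, inv_smul_smul] at this
  · intro h
    exact W.smul_mem (a : F) h

theorem card_P (W : Submodule F (Fin n → F)) : Nat.card (P W) * (Nat.card F - 1) = Nat.card W - 1 := by
  classical
  have := Fintype.ofFinite F
  have : Finite W := inferInstance
  have h1 : Nat.card {w : W // w ≠ 0} = Nat.card W - 1 := by
    have h2 : Nat.card {w : W // w ≠ 0} + Nat.card {w : W // ¬ w ≠ 0} = Nat.card W := by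
      rw [← Nat.card_sum]
      exact Nat.card_congr (Equiv.sumCompl _)
    have h3 : Nat.card {w : W // ¬ w ≠ 0} = 1 := by
      rw [Nat.card_eq_one_iff_unique]
      refine ⟨⟨fun a b => ?_⟩, ⟨⟨0, by simp⟩⟩⟩
      apply Subtype.ext
      rw [not_not.mp a.2, not_not.mp b.2]
    omega
  rw [← h1, ← Nat.card_units, ← Nat.card_prod]
  refine Nat.card_congr (Equiv.ofBijective (fun p : P W × Fˣ => (⟨⟨(p.2 : F) • p.1.1.rep, W.smul_mem _ p.1.2⟩, ?_⟩ : {w : W // w ≠ 0})) ⟨?_, ?_⟩)
  · intro h
    have h2 : (p.2 : F) • p.1.1.rep = 0 := congrArg Subtype.val h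
    rcases smul_eq_zero.mp h2 with h3 | h3
    · exact p.2.ne_zero h3
    · exact p.1.1.rep_nonzero h3
  · rintro ⟨⟨x, hx⟩, c⟩ ⟨⟨y, hy⟩, e⟩ h
    have h2 : (c : F) • x.rep = (e : F) • y.rep := congrArg (fun z : {w : W // w ≠ 0} => z.1.1) h
    have h3 : x = y := by
      rw [← x.mk_rep, ← y.mk_rep, Projectivization.mk_eq_mk_iff]
      refine ⟨c⁻¹ * e, ?_⟩
      rw [mul_smul, Units.smul_def e, ← h2, ← Units.smul_def c, inv_smul_smul]
    subst h3
    have h4 : c = e := by
      apply Units.ext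
      have h5 : ((c : F) - e) • x.rep = 0 := by rw [sub_smul, h2, sub_self]
      exact sub_eq_zero.mp ((smul_eq_zero.mp h5).resolve_right x.rep_nonzero)
    subst h4
    rfl
  · rintro ⟨⟨w, hw⟩, hw0⟩
    have hw0' : w ≠ 0 := fun h => hw0 (Subtype.ext h)
    obtain ⟨a, ha⟩ := Projectivization.exists_smul_eq_mk_rep F w hw0'
    refine ⟨⟨⟨Projectivization.mk F w hw0', (mk_mem hw0').mpr hw⟩, a⁻¹⟩, ?_⟩
    apply Subtype.ext
    apply Subtype.ext
    change ((a⁻¹ : Fˣ) : F) • (Projectivization.mk F w hw0').rep = w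
    rw [← ha, ← Units.smul_def, inv_smul_smul]

theorem card_modEq {W : Submodule F (Fin n → F)} (hW : 1 ≤ finrank F W) : Nat.card (P W) ≡ 1 [MOD Nat.card F] := by
  have := Fintype.ofFinite F
  have h1 := card_P W
  have h2 : Nat.card W = Nat.card F ^ finrank F W := by
    exact Module.natCard_eq_pow_finrank
  have hq : 2 ≤ Nat.card F := by
    rw [Nat.card_eq_fintype_card]
    exact Fintype.one_lt_card
  obtain ⟨d, hd⟩ : ∃ d, finrank F W = d + 1 := ⟨finrank F W - 1, by omega⟩
  rw [h2, hd] at h1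
  obtain ⟨q, hq'⟩ : ∃ q, Nat.card F = q + 1 := ⟨Nat.card F - 1, by omega⟩
  have h3 : (Nat.card (P W) : ℤ) * (Nat.card F - 1) = Nat.card F ^ (d + 1) - 1 := by
    have h4 : 1 ≤ Nat.card F ^ (d + 1) := Nat.one_le_pow _ _ (by omega)
    have h5 : ((Nat.card (P W) * (Nat.card F - 1) : ℕ) : ℤ) = ((Nat.card F ^ (d + 1) - 1 : ℕ) : ℤ) := by rw [h1]
    rw [Nat.cast_mul, Nat.cast_sub (by omega), Nat.cast_sub h4] at h5
    push_cast at h5
    exact h5
  rw [← Int.natCast_modEq_iff, Int.modEq_iff_dvd]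
  refine ⟨(Nat.card F : ℤ) ^ d - Nat.card (P W), ?_⟩
  push_cast
  linear_combination h3


/-- Let `F` be a finite field and `n ≥ 3`. No set of permutations of the points of the projective space of `Fⁿ`, each induced by an invertible semilinear transformation of `Fⁿ` (so a subset of the full projective semilinear group), is sharply 2-transitive on the points: it is impossible that for all pairs of distinct points `(a, b)` and `(c, d)` exactly one member of the set sends `a` to `c` and `b` to `d`. -/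
theorem result {F : Type*} [Field F] [Finite F]
    (n : ℕ) (hn : 3 ≤ n) (S : Set (Equiv.Perm (Projectivization F (Fin n → F))))
    (hS : ∀ s ∈ S, ∃ (σ : F ≃+* F) (f : (Fin n → F) →ₛₗ[(σ : F →+* F)] (Fin n → F)) (hf : Function.Injective f),
      ∀ x, s x = Projectivization.map f hf x) :
    ¬ (∀ a b c d : Projectivization F (Fin n → F), a ≠ b → c ≠ d →
        ∃! s, s ∈ S ∧ s a = c ∧ s b = d) := by
  classical
  intro hst
  have := Fintype.ofFinite F
  obtain ⟨e, he⟩ : ∃ e : Fin n → F, e = Pi.single ⟨0, by omega⟩ 1 := ⟨_, rfl⟩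
  have he0 : e ≠ 0 := by
    intro h
    have := congrFun h ⟨0, by omega⟩
    rw [he, Pi.single_eq_same] at this
    exact one_ne_zero this
  obtain ⟨a, ha⟩ : ∃ a, a = Projectivization.mk F e he0 := ⟨_, rfl⟩
  obtain ⟨H, hH⟩ : ∃ H : Submodule F (Fin n → F), H = LinearMap.ker (LinearMap.proj (⟨0, by omega⟩ : Fin n) : (Fin n → F) →ₗ[F] F) := ⟨_, rfl⟩
  have haH : a ∉ P H := by
    rw [ha, mk_mem, hH, LinearMap.mem_ker, LinearMap.proj_apply, he, Pi.single_eq_same]
    exact one_ne_zero
  have hHd : finrank F H + 1 = n := by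
    have h1 := LinearMap.finrank_range_add_finrank_ker (LinearMap.proj (⟨0, by omega⟩ : Fin n) : (Fin n → F) →ₗ[F] F)
    rw [← hH, Module.finrank_fintype_fun_eq_card, Fintype.card_fin, LinearMap.range_eq_top.mpr (LinearMap.proj_surjective _), finrank_top, Module.finrank_self] at h1
    omega
  have hXfin : Finite (Projectivization F (Fin n → F)) := inferInstance
  -- the members fixing `a`
  have hT1 : Nat.card {s : Equiv.Perm (Projectivization F (Fin n → F)) // s ∈ S ∧ s a = a} + 1 = Nat.card (Projectivization F (Fin n → F)) := by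
    obtain ⟨x₀, hx₀⟩ : ∃ x₀ : Projectivization F (Fin n → F), x₀ ∈ P H := by
      have h1 := card_modEq (W := H) (by omega)
      by_contra hcon
      push Not at hcon
      have h2 : Nat.card (P H) = 0 := by
        rw [Nat.card_eq_zero]
        left
        exact ⟨fun x => hcon x.1 x.2⟩
      rw [h2] at h1
      have hq : 2 ≤ Nat.card F := by
        rw [Nat.card_eq_fintype_card]
        exact Fintype.one_lt_card
      have h3 := (Nat.modEq_zero_iff_dvd.mp h1.symm)
      have := Nat.le_of_dvd one_pos h3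
      omega
    have hxa : a ≠ x₀ := fun h => haH (h ▸ hx₀)
    have h1 : Nat.card {s : Equiv.Perm (Projectivization F (Fin n → F)) // s ∈ S ∧ s a = a} = Nat.card {y : Projectivization F (Fin n → F) // a ≠ y} := by
      refine Nat.card_congr (Equiv.ofBijective (fun s => ⟨s.1 x₀, fun h => hxa (s.1.injective (by rw [s.2.2]; exact h))⟩) ⟨?_, ?_⟩)
      · intro s s' h
        apply Subtype.ext
        have h2 : s.1 x₀ = s'.1 x₀ := congrArg Subtype.val h
        obtain ⟨u, -, hu⟩ := hst a x₀ a (s.1 x₀) hxa (fun h => hxa (s.1.injective (by rw [s.2.2]; exact h)))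
        rw [hu s.1 ⟨s.2.1, s.2.2, rfl⟩, hu s'.1 ⟨s'.2.1, s'.2.2, h2.symm⟩]
      · rintro ⟨y, hy⟩
        obtain ⟨u, hu, -⟩ := hst a x₀ a y hxa hy
        exact ⟨⟨u, hu.1, hu.2.1⟩, Subtype.ext hu.2.2⟩
    have h2 : Nat.card {y : Projectivization F (Fin n → F) // a ≠ y} + Nat.card {y : Projectivization F (Fin n → F) // ¬ a ≠ y} = Nat.card (Projectivization F (Fin n → F)) := by
      rw [← Nat.card_sum]
      exact Nat.card_congr (Equiv.sumCompl _)
    have h3 : Nat.card {y : Projectivization F (Fin n → F) // ¬ a ≠ y} = 1 := by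
      rw [Nat.card_eq_one_iff_unique]
      refine ⟨⟨fun x y => ?_⟩, ⟨⟨a, by simp⟩⟩⟩
      apply Subtype.ext
      rw [← not_not.mp x.2, ← not_not.mp y.2]
    omega
  -- double counting
  have hZ : Nat.card (Σ s : {s : Equiv.Perm (Projectivization F (Fin n → F)) // s ∈ S ∧ s a = a}, {x : Projectivization F (Fin n → F) // x ∈ P H ∧ s.1 x ∈ P H}) =
      Nat.card (P H) * Nat.card (P H) := by
    rw [← Nat.card_prod]
    refine Nat.card_congr (Equiv.ofBijective (fun z => (⟨z.2.1, z.2.2.1⟩, ⟨z.1.1 z.2.1, z.2.2.2⟩)) ⟨?_, ?_⟩)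
    · rintro ⟨s, x⟩ ⟨s', x'⟩ h
      have h1 : x.1 = x'.1 := congrArg (fun z : P H × P H => z.1.1) h
      have h2 : s.1 x.1 = s'.1 x'.1 := congrArg (fun z : P H × P H => z.2.1) h
      have hax : a ≠ x.1 := fun h => haH (h ▸ x.2.1)
      obtain ⟨u, -, hu⟩ := hst a x.1 a (s.1 x.1) hax (fun h => haH (h ▸ x.2.2))
      have h3 : s = s' := by
        apply Subtype.ext
        rw [hu s.1 ⟨s.2.1, s.2.2, rfl⟩, hu s'.1 ⟨s'.2.1, s'.2.2, by rw [h2, h1]⟩]
      subst h3
      have h4 : x = x' := Subtype.ext h1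
      subst h4
      rfl
    · rintro ⟨x, y⟩
      obtain ⟨u, hu, -⟩ := hst a x.1 a y.1 (fun h => haH (h ▸ x.2)) (fun h => haH (h ▸ y.2))
      refine ⟨⟨⟨u, hu.1, hu.2.1⟩, ⟨x.1, x.2, ?_⟩⟩, ?_⟩
      · change u x.1 ∈ P H
        rw [hu.2.2]
        exact y.2
      · exact Prod.ext rfl (Subtype.ext hu.2.2)
  have hterm : ∀ s : {s : Equiv.Perm (Projectivization F (Fin n → F)) // s ∈ S ∧ s a = a},
      Nat.card {x : Projectivization F (Fin n → F) // x ∈ P H ∧ s.1 x ∈ P H} ≡ 1 [MOD Nat.card F] := by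
    intro s
    obtain ⟨σ, f, hf, hfs⟩ := hS s.1 s.2.1
    have hbij : Function.Bijective f := Finite.injective_iff_bijective.mp hf
    obtain ⟨H', hH'⟩ : ∃ H' : Submodule F (Fin n → F), ∀ v, v ∈ H' ↔ f v ∈ H := ⟨Submodule.comap f H, fun v => Iff.rfl⟩
    have hcard : Nat.card H' = Nat.card H := by
      refine Nat.card_congr (Equiv.ofBijective (fun v : H' => (⟨f v.1, (hH' _).mp v.2⟩ : H)) ⟨?_, ?_⟩)
      · intro v w h
        exact Subtype.ext (hf (congrArg Subtype.val h))
      · rintro ⟨w, hw⟩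
        obtain ⟨v, rfl⟩ := hbij.2 w
        exact ⟨⟨v, (hH' v).mpr hw⟩, rfl⟩
    have hfr : finrank F H' = finrank F H := by
      rw [Module.natCard_eq_pow_finrank (K := F) (V := H'), Module.natCard_eq_pow_finrank (K := F) (V := H)] at hcard
      exact Nat.pow_right_injective (by rw [Nat.card_eq_fintype_card]; exact Fintype.one_lt_card) hcard
    have h1 := Submodule.finrank_sup_add_finrank_inf_eq H H'
    have h2 : finrank F (H ⊔ H' : Submodule F (Fin n → F)) ≤ n := by
      have := Submodule.finrank_le (H ⊔ H')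
      rwa [Module.finrank_fintype_fun_eq_card, Fintype.card_fin] at this
    have h3 : {x : Projectivization F (Fin n → F) | x ∈ P H ∧ s.1 x ∈ P H} = P (H ⊓ H') := by
      ext x
      induction x using Projectivization.ind with
      | h v hv =>
        simp only [Set.mem_setOf_eq]
        rw [hfs, Projectivization.map_mk, mk_mem, mk_mem, mk_mem, Submodule.mem_inf, hH']
    have h4 := card_modEq (W := H ⊓ H') (by omega)
    rw [← h3] at h4
    exact h4
  have hsum : Nat.card (Σ s : {s : Equiv.Perm (Projectivization F (Fin n → F)) // s ∈ S ∧ s a = a}, {x : Projectivization F (Fin n → F) // x ∈ P H ∧ s.1 x ∈ P H}) ≡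
      Nat.card {s : Equiv.Perm (Projectivization F (Fin n → F)) // s ∈ S ∧ s a = a} [MOD Nat.card F] := by
    have := Fintype.ofFinite {s : Equiv.Perm (Projectivization F (Fin n → F)) // s ∈ S ∧ s a = a}
    rw [Nat.card_sigma, Nat.card_eq_fintype_card (α := {s : Equiv.Perm (Projectivization F (Fin n → F)) // s ∈ S ∧ s a = a}), ← Finset.card_univ,
      Finset.card_eq_sum_ones]
    exact Nat.ModEq.sum fun s _ => hterm s
  have hH1 := card_modEq (W := H) (by omega)
  have hV : Nat.card (Projectivization F (Fin n → F)) ≡ 1 [MOD Nat.card F] := by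
    have h1 := card_modEq (W := (⊤ : Submodule F (Fin n → F))) (by rw [finrank_top, Module.finrank_fintype_fun_eq_card, Fintype.card_fin]; omega)
    have h2 : P (⊤ : Submodule F (Fin n → F)) = Set.univ := by
      ext x
      simp [P]
    rw [h2, Nat.card_univ] at h1
    exact h1
  rw [hZ] at hsum
  have h5 : Nat.card {s : Equiv.Perm (Projectivization F (Fin n → F)) // s ∈ S ∧ s a = a} + 1 ≡ 0 + 1 [MOD Nat.card F] := by
    rw [hT1]; exact hV
  have h6 := Nat.ModEq.add_right_cancel' 1 h5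
  have h7 : 1 * 1 ≡ 0 [MOD Nat.card F] := (hH1.mul hH1).symm.trans (hsum.trans h6)
  have hq : 2 ≤ Nat.card F := by
    rw [Nat.card_eq_fintype_card]
    exact Fintype.one_lt_card
  have h8 := Nat.le_of_dvd one_pos (Nat.modEq_zero_iff_dvd.mp h7)
  omega

end Cfsg.Agent.S2531
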