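import Cfsg.Statements.S2532

set_option autoImplicit false
open Cfsg

namespace Cfsg.Agent.S2532

open Equiv MulAction

/-- commuting permutations from equal stabilizers -/
theorem key {m : ℕ} (H : Subgroup ↥(alternatingGroup (Fin m))) (K : Subgroup H) (r : ℕ) (x : Fin r → Fin m)
    (hst : ∀ i, stabilizer H (x i) = K) (horb : ∀ i j (h : H), h • x i = x j → i = j) :
    ∃ L : Subgroup ↥(alternatingGroup (Fin m)), Nonempty (↥L ≃* ↥(alternatingGroup (Fin r))) ∧
        L ≤ Subgroup.centralizer (H : Set ↥(alternatingGroup (Fin m))) := by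
  classical
  haveI : Fintype (H ⧸ K) := Fintype.ofFinite _
  have hx : ∀ i (h h' : H), h • x i = h' • x i ↔ (h : H ⧸ K) = (h' : H ⧸ K) := by
    intro i h h'
    rw [QuotientGroup.eq, ← hst i, mem_stabilizer_iff, mul_smul, inv_smul_eq_iff, eq_comm]
  let ι0 : Fin r × (H ⧸ K) → Fin m := fun w => (w.2.out : H) • x w.1
  have hι : ∀ i (h : H), ι0 (i, (h : H ⧸ K)) = h • x i := by
    intro i h
    show ((h : H ⧸ K).out : H) • x i = h • x i
    rw [hx]
    exact QuotientGroup.out_eq' _
  have hinj : Function.Injective ι0 := by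
    rintro ⟨i, q⟩ ⟨j, q'⟩ he
    obtain ⟨h, rfl⟩ := QuotientGroup.mk_surjective q
    obtain ⟨h', rfl⟩ := QuotientGroup.mk_surjective q'
    rw [hι, hι] at he
    have hij : i = j := by
      apply horb i j (h'⁻¹ * h)
      rw [mul_smul, he, inv_smul_smul]
    subst hij
    rw [hx] at he
    rw [he]
  let ι : Fin r × (H ⧸ K) ↪ Fin m := ⟨ι0, hinj⟩
  let θ : Perm (Fin r) →* Perm (Fin r × (H ⧸ K)) :=
    { toFun := fun σ => prodCongrLeft (fun _ => σ)
      map_one' := by ext ⟨i, q⟩ <;> rfl
      map_mul' := fun σ τ => by ext ⟨i, q⟩ <;> rfl }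
  let Θ : Perm (Fin r) →* Perm (Fin m) := (Perm.viaEmbeddingHom ι).comp θ
  have hΘι : ∀ (σ : Perm (Fin r)) i q, Θ σ (ι0 (i, q)) = ι0 (σ i, q) := by
    intro σ i q
    show (Perm.viaEmbedding (θ σ) ι) (ι (i, q)) = _
    rw [Perm.viaEmbedding_apply]
    rfl
  have hΘn : ∀ (σ : Perm (Fin r)) y, y ∉ Set.range ι0 → Θ σ y = y := by
    intro σ y hy
    exact Perm.viaEmbedding_apply_of_notMem _ _ _ hy
  have hcomm : ∀ (σ : Perm (Fin r)) (h : H) y, Θ σ (h • y) = h • Θ σ y := by
    intro σ h y
    by_cases hy : y ∈ Set.range ι0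
    · obtain ⟨⟨i, q⟩, rfl⟩ := hy
      obtain ⟨k, rfl⟩ := QuotientGroup.mk_surjective q
      rw [hΘι, hι, hι, ← mul_smul, ← hι, hΘι, hι, mul_smul]
    · rw [hΘn σ y hy, hΘn]
      rintro ⟨⟨i, q⟩, hq⟩
      apply hy
      obtain ⟨k, rfl⟩ := QuotientGroup.mk_surjective q
      refine ⟨(i, ((h⁻¹ * k : H) : H ⧸ K)), ?_⟩
      rw [hι] at hq ⊢
      rw [mul_smul, hq, inv_smul_smul]
  have hsign : ∀ σ : Perm (Fin r), σ ∈ alternatingGroup (Fin r) → Θ σ ∈ alternatingGroup (Fin m) := by
    intro σ hσ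
    rw [Perm.mem_alternatingGroup] at hσ ⊢
    have h0 : Perm.sign (Θ σ) = Perm.sign (θ σ) := by
      show Perm.sign (Perm.viaEmbedding (θ σ) ι) = _
      rw [Perm.viaEmbedding]
      convert Perm.sign_extendDomain (θ σ) (ofInjective ι.1 ι.2)
    rw [h0]
    show Perm.sign (prodCongrLeft (fun _ : H ⧸ K => σ)) = 1
    rw [Perm.sign_prodCongrLeft]
    simp [hσ]
  have hΘinj : Function.Injective Θ := by
    have h1 : Function.Injective θ := by
      intro σ τ h
      ext i
      have h2 := congrArg (fun f : Perm (Fin r × (H ⧸ K)) => (f (i, ((1 : H) : H ⧸ K))).1) h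
      exact congrArg Fin.val h2
    exact (Perm.viaEmbeddingHom_injective ι).comp h1
  let Ψ : alternatingGroup (Fin r) →* alternatingGroup (Fin m) :=
    (Θ.comp (alternatingGroup (Fin r)).subtype).codRestrict _ (fun σ => hsign σ.1 σ.2)
  have hΨ : Function.Injective Ψ := by
    intro σ τ h
    exact Subtype.ext (hΘinj (congrArg Subtype.val h))
  refine ⟨Ψ.range, ⟨(MonoidHom.ofInjective hΨ).symm⟩, ?_⟩
  rintro _ ⟨σ, rfl⟩
  rw [Subgroup.mem_centralizer_iff]
  intro h hh
  apply Subtype.ext
  apply Equiv.ext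
  intro y
  exact (hcomm σ.1 ⟨h, hh⟩ y).symm

/-- There is a function `f` of two natural-number arguments such that, whenever `m ≥ f(n, r)`, every subgroup of order `n` of the alternating group of degree `m` centralizes some subgroup of that alternating group isomorphic to the alternating group of degree `r`. -/
theorem result :
    ∃ f : ℕ → ℕ → ℕ, ∀ (m r : ℕ) (H : Subgroup ↥(alternatingGroup (Fin m))), f (Nat.card H) r ≤ m →
      ∃ K : Subgroup ↥(alternatingGroup (Fin m)), Nonempty (↥K ≃* ↥(alternatingGroup (Fin r))) ∧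
        K ≤ Subgroup.centralizer (H : Set ↥(alternatingGroup (Fin m))) := by
  classical
  refine ⟨fun n r => n * (2 ^ n * r), ?_⟩
  intro m r H hm
  haveI : Fintype H := Fintype.ofFinite _
  let Ω := MulAction.orbitRel.Quotient H (Fin m)
  haveI : Finite Ω := inferInstance
  haveI : Fintype Ω := Fintype.ofFinite _
  haveI : Finite (Subgroup H) := inferInstance
  haveI : Fintype (Subgroup H) := Fintype.ofFinite _
  have hH : 0 < Nat.card H := Nat.card_pos
  let p : Ω → Fin m := fun ω => Quotient.out ω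
  have hp : ∀ ω, (Quotient.mk'' (p ω) : Ω) = ω := fun ω => Quotient.out_eq' ω
  have hcov : m ≤ Fintype.card Ω * Nat.card H := by
    have hs : Function.Surjective (fun w : Ω × H => w.2 • p w.1) := by
      intro x
      have h1 : (Quotient.mk'' (p (Quotient.mk'' x)) : Ω) = Quotient.mk'' x := hp _
      have h2 : MulAction.orbitRel H (Fin m) (p (Quotient.mk'' x)) x := Quotient.exact' h1
      rw [MulAction.orbitRel_apply] at h2
      obtain ⟨h, hh⟩ := h2
      refine ⟨((Quotient.mk'' x : Ω), h⁻¹), ?_⟩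
      show h⁻¹ • p (Quotient.mk'' x) = x
      rw [inv_smul_eq_iff]
      exact hh.symm
    have := Nat.card_le_card_of_surjective _ hs
    rw [Nat.card_prod, Nat.card_eq_fintype_card, Fintype.card_fin, Nat.card_eq_fintype_card (α := Ω)] at this
    exact this
  have hsub : Fintype.card (Subgroup H) ≤ 2 ^ Nat.card H := by
    have h1 : Nat.card (Subgroup H) ≤ Nat.card (Set H) :=
      Nat.card_le_card_of_injective (fun K : Subgroup H => (K : Set H)) SetLike.coe_injective
    rw [Nat.card_eq_fintype_card (α := Subgroup H), Nat.card_eq_fintype_card (α := Set H), Fintype.card_set,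
      ← Nat.card_eq_fintype_card (α := H)] at h1
    exact h1
  have hmul : Fintype.card (Subgroup H) * r ≤ Fintype.card Ω := by
    have h1 : Nat.card H * (2 ^ Nat.card H * r) ≤ Nat.card H * Fintype.card Ω := by
      rw [mul_comm (Nat.card H) (Fintype.card Ω)]
      exact hm.trans hcov
    have h2 := Nat.le_of_mul_le_mul_left h1 hH
    exact (Nat.mul_le_mul_right r hsub).trans h2
  obtain ⟨K, hK⟩ := Fintype.exists_le_card_fiber_of_mul_le_card (fun ω : Ω => stabilizer H (p ω)) hmul
  have hK' : r ≤ Fintype.card {ω : Ω // stabilizer H (p ω) = K} := by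
    rw [Fintype.card_subtype]; exact hK
  obtain ⟨c⟩ : Nonempty (Fin r ↪ {ω : Ω // stabilizer H (p ω) = K}) :=
    Function.Embedding.nonempty_of_card_le (by rw [Fintype.card_fin]; exact hK')
  refine key H K r (fun i => p (c i).1) (fun i => (c i).2) ?_
  intro i j h hij
  apply c.injective
  apply Subtype.ext
  rw [← hp (c i).1, ← hp (c j).1]
  apply Quotient.sound'
  rw [MulAction.orbitRel_apply]
  exact ⟨h⁻¹, by
    show h⁻¹ • p (c j).1 = p (c i).1
    rw [inv_smul_eq_iff]; exact hij.symm⟩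

end Cfsg.Agent.S2532
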