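import Cfsg.Agent.H16_Kr2
import Cfsg.Statements.S2533
-- import your own Cfsg.Agent.* helpers here

set_option autoImplicit false
open Cfsg

namespace Cfsg.Agent.S2533

open Matrix Cfsg.Agent.H16.Kr

/-- reindexing the special linear group. -/
def re {ι κ : Type} [Fintype ι] [DecidableEq ι] [Fintype κ] [DecidableEq κ] {F : Type*} [Field F] (e : ι ≃ κ) :
    Matrix.SpecialLinearGroup ι F →* Matrix.SpecialLinearGroup κ F where
  toFun A := ⟨Matrix.reindex e e A.1, by rw [Matrix.det_reindex_self]; exact A.2⟩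
  map_one' := by
    apply Subtype.ext
    change Matrix.reindexAlgEquiv F F e 1 = 1
    rw [_root_.map_one]
  map_mul' A B := by
    apply Subtype.ext
    change Matrix.reindexAlgEquiv F F e (A.1 * B.1) = Matrix.reindexAlgEquiv F F e A.1 * Matrix.reindexAlgEquiv F F e B.1
    rw [_root_.map_mul]

/-- For every odd prime `p` there is a finite group `H` of order `2p³` which, for infinitely many `n`, embeds in the projective special linear group `PSL(n, p)` as a subgroup with trivial centralizer. -/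
theorem result
    (p : ℕ) [Fact p.Prime] (hp : p ≠ 2) :
    ∃ (H : Type) (_ : Group H) (_ : Finite H), Nat.card H = 2 * p ^ 3 ∧
      ∀ N : ℕ, ∃ n, N ≤ n ∧ ∃ φ : H →* Matrix.ProjectiveSpecialLinearGroup (Fin n) (ZMod p),
        Function.Injective φ ∧ Subgroup.centralizer (φ.range : Set (Matrix.ProjectiveSpecialLinearGroup (Fin n) (ZMod p))) = ⊥ := by
  classical
  refine ⟨HH p, inferInstance, ?_, card_HH p, ?_⟩
  · apply Nat.finite_of_card_ne_zero
    rw [card_HH]
    exact mul_ne_zero two_ne_zero (pow_ne_zero _ (Fact.out : p.Prime).ne_zero)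
  intro N
  obtain ⟨k, hk, hk2, hkN⟩ : ∃ k, Even k ∧ 2 ≤ k ∧ N ≤ k := ⟨2 * (N + 1), ⟨N + 1, by ring⟩, by omega, by omega⟩
  obtain ⟨e, -⟩ : ∃ e : (Fin k ⊕ Fin (k + 1)) ≃ Fin (k + (k + 1)), True := ⟨finSumFinEquiv, trivial⟩
  have hre : ∀ M : Matrix (Fin k ⊕ Fin (k + 1)) (Fin k ⊕ Fin (k + 1)) (ZMod p), Matrix.reindex e e M = Matrix.reindexAlgEquiv (ZMod p) (ZMod p) e M := fun M => rfl
  have h11 : (1 : ZMod p) ≠ -1 := by
    intro h
    have h1 : ((2 : ℕ) : ZMod p) = 0 := by
      push_cast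
      rw [← one_add_one_eq_two]
      nth_rewrite 2 [h]
      rw [add_neg_cancel]
    have h2 := (ZMod.natCast_eq_zero_iff 2 p).mp h1
    exact hp ((Nat.prime_dvd_prime_iff_eq Fact.out Nat.prime_two).mp h2)
  -- elements which become central
  have hcen : ∀ g : Matrix.SpecialLinearGroup (Fin (k + (k + 1))) (ZMod p), g ∈ Subgroup.center _ → ∃ l : ZMod p, g.1 = l • 1 := by
    intro g hg
    obtain ⟨r, -, hr⟩ := Matrix.SpecialLinearGroup.mem_center_iff.mp hg
    refine ⟨r, ?_⟩
    rw [← hr]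
    ext i j
    simp [Matrix.scalar_apply, Matrix.diagonal_apply, Matrix.one_apply]
  obtain ⟨Φ, hΦ⟩ : ∃ Φ : HH p →* Matrix.SpecialLinearGroup (Fin (k + (k + 1))) (ZMod p), ∀ x, (Φ x).1 = Matrix.reindex e e (ff hk x).1 :=
    ⟨(re e).comp (ff hk), fun x => rfl⟩
  obtain ⟨π, hπ⟩ : ∃ π : Matrix.SpecialLinearGroup (Fin (k + (k + 1))) (ZMod p) →* Matrix.ProjectiveSpecialLinearGroup (Fin (k + (k + 1))) (ZMod p),
      π = QuotientGroup.mk' _ := ⟨_, rfl⟩
  have hπk : ∀ g, π g = 1 → g ∈ Subgroup.center (Matrix.SpecialLinearGroup (Fin (k + (k + 1))) (ZMod p)) := by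
    intro g hg
    rw [hπ] at hg
    exact (QuotientGroup.eq_one_iff g).mp hg
  have hπs : Function.Surjective π := by
    rw [hπ]
    exact QuotientGroup.mk'_surjective _
  refine ⟨k + (k + 1), by omega, π.comp Φ, ?_, ?_⟩
  · rw [injective_iff_map_eq_one]
    intro x hx
    rw [MonoidHom.comp_apply] at hx
    have h1 := hπk _ hx
    obtain ⟨l, hl⟩ := hcen _ h1
    rw [hΦ] at hl
    have h2 : (ff hk x).1 = l • 1 := by
      apply (Matrix.reindexAlgEquiv (ZMod p) (ZMod p) e).injective
      rw [_root_.map_smul, _root_.map_one]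
      exact hl
    obtain ⟨v, ε⟩ := x
    obtain ⟨w, rfl⟩ := Multiplicative.ofAdd.surjective v
    rw [ff_apply, ← Matrix.fromBlocks_one, Matrix.fromBlocks_smul] at h2
    obtain ⟨h3, -, h4, h5⟩ := Matrix.fromBlocks_inj.mp h2
    have h6 : l = 1 := by
      have := congrFun (congrFun h5 0) 0
      rw [Matrix.smul_apply, Matrix.one_apply_eq, smul_eq_mul, mul_one] at this
      exact this.symm
    have h7 : ((ε : ℤ) : ZMod p) = 1 := by
      have := congrFun (congrFun h3 ⟨0, by omega⟩) ⟨0, by omega⟩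
      rw [Matrix.smul_apply, Matrix.smul_apply, Matrix.one_apply_eq, smul_eq_mul, smul_eq_mul, mul_one, mul_one, h6] at this
      exact this
    have h8 : ε = 1 := by
      rcases Int.units_eq_one_or ε with h | h
      · exact h
      · exfalso
        rw [h, Units.val_neg, Units.val_one, Int.cast_neg, Int.cast_one] at h7
        exact h11 h7.symm
    have h9 : w = 0 := by
      apply X_inj hk2
      rw [h7, one_smul, smul_zero] at h4
      exact h4
    subst h8 h9
    rfl
  · rw [eq_bot_iff]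
    intro x hx
    obtain ⟨g, rfl⟩ := hπs x
    rw [Subgroup.mem_centralizer_iff] at hx
    obtain ⟨g', hg'⟩ : ∃ g' : Matrix.SpecialLinearGroup (Fin k ⊕ Fin (k + 1)) (ZMod p), Matrix.reindex e e g'.1 = g.1 := by
      refine ⟨⟨Matrix.reindex e.symm e.symm g.1, by rw [Matrix.det_reindex_self]; exact g.2⟩, ?_⟩
      simp
    obtain ⟨c, hc⟩ := cent hp hk hk2 (g := g') (by
      intro y
      have h1 := hx (π (Φ y)) ⟨y, rfl⟩
      have h0 : π ((Φ y * g)⁻¹ * (g * Φ y)) = 1 := by
        rw [_root_.map_mul, _root_.map_inv, _root_.map_mul, _root_.map_mul, h1, inv_mul_cancel]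
      obtain ⟨l, hl⟩ := hcen _ (hπk _ h0)
      refine ⟨l, ?_⟩
      have h2 : (g * Φ y).1 = (Φ y * g).1 * ((Φ y * g)⁻¹ * (g * Φ y)).1 := by
        have : g * Φ y = (Φ y * g) * ((Φ y * g)⁻¹ * (g * Φ y)) := by group
        exact congrArg Subtype.val this
      rw [hl, Matrix.mul_smul, mul_one] at h2
      have h3 : g.1 * (Φ y).1 = l • ((Φ y).1 * g.1) := h2
      apply (Matrix.reindexAlgEquiv (ZMod p) (ZMod p) e).injective
      rw [_root_.map_smul, _root_.map_mul, _root_.map_mul, ← hre, ← hre, hg', ← hΦ]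
      exact h3)
    have hgc : g.1 = c • 1 := by rw [← hg', hc, hre, _root_.map_smul, _root_.map_one]
    have hgm : g ∈ Subgroup.center (Matrix.SpecialLinearGroup (Fin (k + (k + 1))) (ZMod p)) := by
      rw [Matrix.SpecialLinearGroup.mem_center_iff]
      refine ⟨c, ?_, ?_⟩
      · have := g.2
        rw [hgc, Matrix.det_smul, Matrix.det_one, mul_one] at this
        exact this
      · rw [hgc]
        ext i j
        simp [Matrix.scalar_apply, Matrix.diagonal_apply, Matrix.one_apply]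
    rw [Subgroup.mem_bot, hπ]
    exact (QuotientGroup.eq_one_iff g).mpr hgm

end Cfsg.Agent.S2533
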