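import Cfsg.Statements.S2537
import Cfsg.Agent.H5_Dk6
import Cfsg.Agent.H5_SmallIso
import Cfsg.Agent.S0802
import Cfsg.Agent.S0803
import Cfsg.Agent.S0811
import Cfsg.Agent.S0812
import Cfsg.Agent.S0810
import Cfsg.Agent.H12_Hall

set_option autoImplicit false
open Cfsg

namespace Cfsg.Agent.S2537


theorem card_A4 : Fintype.card (alternatingGroup (Fin 4)) = 12 := by decide

theorem f24 : (2 * 12).factorization 2 = 3 ∧ (2 * 12).factorization 3 = 1 := by
  constructor
  · rw [show 2 * 12 = 2 ^ 3 * 3 ^ 1 by norm_num, Nat.factorization_mul (by norm_num) (by norm_num),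
      Nat.prime_two.factorization_pow, Nat.prime_three.factorization_pow]; simp
  · rw [show 2 * 12 = 2 ^ 3 * 3 ^ 1 by norm_num, Nat.factorization_mul (by norm_num) (by norm_num),
      Nat.prime_two.factorization_pow, Nat.prime_three.factorization_pow]; simp

theorem f48 : (2 * 24).factorization 2 = 4 ∧ (2 * 24).factorization 3 = 1 := by
  constructor
  · rw [show 2 * 24 = 2 ^ 4 * 3 ^ 1 by norm_num, Nat.factorization_mul (by norm_num) (by norm_num),
      Nat.prime_two.factorization_pow, Nat.prime_three.factorization_pow]; simp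
  · rw [show 2 * 24 = 2 ^ 4 * 3 ^ 1 by norm_num, Nat.factorization_mul (by norm_num) (by norm_num),
      Nat.prime_two.factorization_pow, Nat.prime_three.factorization_pow]; simp

theorem exp24 (a b : ℕ) (h : 2 ^ a * 3 ^ b = 24) : a = 3 ∧ b = 1 := by
  have ha : a ≤ 4 := by
    by_contra hcon
    have h1 : 2 ^ 5 ≤ 2 ^ a := Nat.pow_le_pow_right (by norm_num) (by omega)
    have h2 : 1 ≤ 3 ^ b := Nat.one_le_pow _ _ (by norm_num)
    nlinarith
  have hb : b ≤ 2 := by
    by_contra hcon
    have h1 : 3 ^ 3 ≤ 3 ^ b := Nat.pow_le_pow_right (by norm_num) (by omega)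
    have h2 : 1 ≤ 2 ^ a := Nat.one_le_pow _ _ (by norm_num)
    nlinarith
  interval_cases a <;> interval_cases b <;> simp at h ⊢

theorem exp48 (a b : ℕ) (h : 2 ^ a * 3 ^ b = 48) : a = 4 ∧ b = 1 := by
  have ha : a ≤ 5 := by
    by_contra hcon
    have h1 : 2 ^ 6 ≤ 2 ^ a := Nat.pow_le_pow_right (by norm_num) (by omega)
    have h2 : 1 ≤ 3 ^ b := Nat.one_le_pow _ _ (by norm_num)
    nlinarith
  have hb : b ≤ 3 := by
    by_contra hcon
    have h1 : 3 ^ 4 ≤ 3 ^ b := Nat.pow_le_pow_right (by norm_num) (by omega)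
    have h2 : 1 ≤ 2 ^ a := Nat.one_le_pow _ _ (by norm_num)
    nlinarith
  interval_cases a <;> interval_cases b <;> simp at h ⊢

theorem pr12 (r : ℕ) (hr : r.Prime) (hd : r ∣ 12) : r = 2 ∨ r = 3 := by
  rw [show 12 = 2 ^ 2 * 3 by norm_num] at hd
  rcases (Nat.Prime.dvd_mul hr).1 hd with h | h
  · exact Or.inl ((Nat.prime_dvd_prime_iff_eq hr Nat.prime_two).1 (hr.dvd_of_dvd_pow h))
  · exact Or.inr ((Nat.prime_dvd_prime_iff_eq hr Nat.prime_three).1 h)

theorem pr24 (r : ℕ) (hr : r.Prime) (hd : r ∣ 24) : r = 2 ∨ r = 3 := by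
  rw [show 24 = 2 ^ 3 * 3 by norm_num] at hd
  rcases (Nat.Prime.dvd_mul hr).1 hd with h | h
  · exact Or.inl ((Nat.prime_dvd_prime_iff_eq hr Nat.prime_two).1 (hr.dvd_of_dvd_pow h))
  · exact Or.inr ((Nat.prime_dvd_prime_iff_eq hr Nat.prime_three).1 h)


/-- Let `F` be a finite field with `q` elements of characteristic `p ≥ 5`, and `ε = 1` if `q ≡ 1 (mod 4)`, `ε = -1` otherwise. Then `PSL(2, F)` has a Hall `{2, 3}`-subgroup if and only if `3` divides `q − ε`, or the `{2,3}`-part of `q² − 1` is 24, or the `{2,3}`-part of `q² − 1` is 48 (the `{2,3}`-part of `m` being the largest divisor of `m` with no prime factor other than 2 and 3). -/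
theorem result {F : Type*} [Field F] [Fintype F] {p : ℕ} [Fact p.Prime] [CharP F p]
    (hp : 5 ≤ p) (q : ℕ) (hq : Fintype.card F = q) :
    (∃ H : Subgroup (Matrix.ProjectiveSpecialLinearGroup (Fin 2) F), Cfsg.IsPiHall ({2, 3} : Set ℕ) H) ↔
      (3 ∣ q - 1 ∧ q % 4 = 1) ∨ (3 ∣ q + 1 ∧ q % 4 = 3) ∨
        2 ^ (q ^ 2 - 1).factorization 2 * 3 ^ (q ^ 2 - 1).factorization 3 = 24 ∨
        2 ^ (q ^ 2 - 1).factorization 2 * 3 ^ (q ^ 2 - 1).factorization 3 = 48 := by
    subst hq
    classical
    obtain ⟨n, hpp, hn⟩ := FiniteField.card F p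
    set q := Fintype.card F with hq
    have hq2 : ¬ 2 ∣ q := by
      intro h
      rw [hn] at h
      have := (Nat.prime_dvd_prime_iff_eq Nat.prime_two hpp).1 (Nat.prime_two.dvd_of_dvd_pow h)
      omega
    have hq3 : ¬ 3 ∣ q := by
      intro h
      rw [hn] at h
      have := (Nat.prime_dvd_prime_iff_eq Nat.prime_three hpp).1 (Nat.prime_three.dvd_of_dvd_pow h)
      omega
    have hq1 : 1 < q := Fintype.one_lt_card
    have hgcd : Nat.gcd 2 (q - 1) = 2 := Nat.gcd_eq_left (by omega)
    have hN0 : 2 * Nat.card (Matrix.ProjectiveSpecialLinearGroup (Fin 2) F) = q * (q - 1) * (q + 1) := by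
      have h1 := Cfsg.Agent.H5.SmallIso.card_PSL2 (F := F)
      rw [← hq, hgcd] at h1
      exact h1
    have hsq : (q - 1) * (q + 1) = q ^ 2 - 1 := by
      obtain ⟨m, hm⟩ : ∃ m, q = m + 1 := ⟨q - 1, by omega⟩
      rw [hm]
      rw [show (m + 1) ^ 2 = m * (m + 2) + 1 by ring, show m + 1 - 1 = m by omega]
      rfl
    have hN : 2 * Nat.card (Matrix.ProjectiveSpecialLinearGroup (Fin 2) F) = q * (q ^ 2 - 1) := by
      rw [hN0, mul_assoc, hsq]
    set N := Nat.card (Matrix.ProjectiveSpecialLinearGroup (Fin 2) F) with hNdef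
    have hNpos : 0 < N := Nat.card_pos
    have h24 : 24 ∣ q ^ 2 - 1 := by
      rw [← hsq]
      have h1 : q % 24 = 1 ∨ q % 24 = 5 ∨ q % 24 = 7 ∨ q % 24 = 11 ∨ q % 24 = 13 ∨ q % 24 = 17 ∨ q % 24 = 19 ∨ q % 24 = 23 := by
        omega
      obtain ⟨m, hm⟩ : ∃ m, q = 24 * m + q % 24 := ⟨q / 24, by omega⟩
      rcases h1 with h1 | h1 | h1 | h1 | h1 | h1 | h1 | h1 <;> rw [h1] at hm <;> rw [hm]
      · exact ⟨m * (24 * m + 2), by rw [show 24 * m + 1 - 1 = 24 * m by omega]; ring⟩
      · exact ⟨(6 * m + 1) * (4 * m + 1), by rw [show 24 * m + 5 - 1 = 24 * m + 4 by omega]; ring⟩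
      · exact ⟨(4 * m + 1) * (6 * m + 2), by rw [show 24 * m + 7 - 1 = 24 * m + 6 by omega]; ring⟩
      · exact ⟨(12 * m + 5) * (2 * m + 1), by rw [show 24 * m + 11 - 1 = 24 * m + 10 by omega]; ring⟩
      · exact ⟨(2 * m + 1) * (12 * m + 7), by rw [show 24 * m + 13 - 1 = 24 * m + 12 by omega]; ring⟩
      · exact ⟨(6 * m + 4) * (4 * m + 3), by rw [show 24 * m + 17 - 1 = 24 * m + 16 by omega]; ring⟩
      · exact ⟨(4 * m + 3) * (6 * m + 5), by rw [show 24 * m + 19 - 1 = 24 * m + 18 by omega]; ring⟩
      · exact ⟨(12 * m + 11) * (2 * m + 2), by rw [show 24 * m + 23 - 1 = 24 * m + 22 by omega]; ring⟩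
    have hq21 : q ^ 2 - 1 ≠ 0 := by
      rw [← hsq]
      exact Nat.mul_ne_zero (by omega) (by omega)
    have h12 : 12 ∣ N := by
      have h1 : 24 ∣ 2 * N := by rw [hN]; exact Dvd.dvd.mul_left h24 q
      omega
    -- factorization transfer
    have hfac : ∀ (c idx : ℕ), N = c * idx → ∀ r : ℕ, r.Prime → ¬ r ∣ q → ¬ r ∣ idx →
        (q ^ 2 - 1).factorization r = (2 * c).factorization r := by
      intro c idx hc r hr hrq hri
      have hc0 : c ≠ 0 := by rintro rfl; rw [zero_mul] at hc; omega
      have hi0 : idx ≠ 0 := by rintro rfl; exact hri (dvd_zero r)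
      have h1 : q * (q ^ 2 - 1) = (2 * c) * idx := by rw [← hN, hc, mul_assoc]
      have h2 : (q * (q ^ 2 - 1)).factorization r = ((2 * c) * idx).factorization r := by rw [h1]
      rw [Nat.factorization_mul (by omega) hq21, Nat.factorization_mul (by omega) hi0] at h2
      simp only [Finsupp.add_apply] at h2
      rw [Nat.factorization_eq_zero_of_not_dvd hrq, Nat.factorization_eq_zero_of_not_dvd hri] at h2
      omega
    have hmem : ∀ r : ℕ, r ∈ ({2, 3} : Set ℕ) ↔ r = 2 ∨ r = 3 := fun r => Iff.rfl
    constructor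
    · rintro ⟨H, hH1, hH2⟩
      have hcI : Nat.card H * H.index = N := H.card_mul_index
      have hI2 : ¬ 2 ∣ H.index := hH2 2 Nat.prime_two ((hmem 2).2 (Or.inl rfl))
      have hI3 : ¬ 3 ∣ H.index := hH2 3 Nat.prime_three ((hmem 3).2 (Or.inr rfl))
      have hH12 : 12 ∣ Nat.card H := by
        have h1 : Nat.Coprime 12 H.index := by
          rw [show 12 = 2 ^ 2 * 3 by norm_num]
          exact Nat.Coprime.mul_left (Nat.Coprime.pow_left 2 ((Nat.Prime.coprime_iff_not_dvd Nat.prime_two).2 hI2))
            ((Nat.Prime.coprime_iff_not_dvd Nat.prime_three).2 hI3)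
        exact h1.dvd_of_dvd_mul_right (by rw [hcI]; exact h12)
      have hpH : ¬ p ∣ Nat.card H := by
        intro h
        have := hH1 p hpp h
        rw [hmem] at this
        omega
      letI : Fintype (FiniteField.Extension F p 2) := Fintype.ofFinite _
      have hhub := Cfsg.Agent.H5.Dk.hub_coprime (K := FiniteField.Extension F p 2) p (Cfsg.Agent.H5.Dk.hsp_ext p) H hpH
      rw [← hq, hgcd] at hhub
      rcases hhub with ⟨k, hk, h⟩ | h | h | h
      · have h6k : 6 ∣ k := by
          rcases h with ⟨-, h⟩ | ⟨⟨e⟩⟩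
          · rw [← h]; exact (show 6 ∣ 12 by norm_num).trans hH12
          · have h1 : Nat.card H = 2 * k := (Nat.card_congr e.toEquiv).trans DihedralGroup.nat_card
            obtain ⟨w, hw⟩ := hH12
            exact ⟨w, by omega⟩
        rcases hk with hk | hk
        · have h1 := h6k.trans hk
          right; left
          omega
        · have h1 := h6k.trans hk
          left
          omega
      · obtain ⟨e⟩ := h
        have hc : Nat.card H = 12 := by
          rw [Nat.card_congr e.toEquiv, Nat.card_eq_fintype_card]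
          exact card_A4
        rw [hc] at hcI
        right; right; left
        rw [hfac 12 H.index hcI.symm 2 Nat.prime_two hq2 hI2, hfac 12 H.index hcI.symm 3 Nat.prime_three hq3 hI3]
        rw [f24.1, f24.2]; norm_num
      · obtain ⟨e⟩ := h
        have hc : Nat.card H = 24 := by
          rw [Nat.card_congr e.toEquiv, Nat.card_perm, Nat.card_fin]; rfl
        rw [hc] at hcI
        right; right; right
        rw [hfac 24 H.index hcI.symm 2 Nat.prime_two hq2 hI2, hfac 24 H.index hcI.symm 3 Nat.prime_three hq3 hI3]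
        rw [f48.1, f48.2]; norm_num
      · exfalso
        obtain ⟨e⟩ := h
        have hc : 2 * Nat.card H = 120 := by
          rw [Nat.card_congr e.toEquiv, two_mul_nat_card_alternatingGroup, Nat.card_perm, Nat.card_fin]; rfl
        have h5 := hH1 5 Nat.prime_five (by omega)
        rw [hmem] at h5
        omega
    · -- the dihedral case
      have hdih : ∀ (H0 : Subgroup (Matrix.ProjectiveSpecialLinearGroup (Fin 2) F)) (k : ℕ), Nonempty (H0 ≃* DihedralGroup k) →
          ∀ idx : ℕ, 2 * k * idx = N → ¬ 2 ∣ idx → ¬ 3 ∣ idx →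
          ∃ H : Subgroup (Matrix.ProjectiveSpecialLinearGroup (Fin 2) F), IsPiHall ({2, 3} : Set ℕ) H := by
        rintro H0 k ⟨e⟩ idx hidx h2 h3
        have hs := Cfsg.Agent.S0810.solv_dih e
        obtain ⟨H, hle, hA, hB⟩ := Cfsg.Agent.H12.Hall.exists_hall (L := H0) hs ({2, 3} : Set ℕ)
        refine ⟨H, hA, ?_⟩
        intro r hr hr2 hdv
        have hc0 : Nat.card H0 = 2 * k := by rw [Nat.card_congr e.toEquiv, DihedralGroup.nat_card]
        have hi0 : H0.index = idx := by
          have h1 := H0.card_mul_index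
          rw [hc0, ← hNdef, ← hidx] at h1
          have hk0 : 0 < 2 * k := by
            rw [← hc0]; exact Nat.card_pos
          exact Nat.eq_of_mul_eq_mul_left hk0 h1
        rw [← Subgroup.relIndex_mul_index hle, hi0] at hdv
        rcases (Nat.Prime.dvd_mul hr).1 hdv with h | h
        · exact hB r hr hr2 h
        · rw [hmem] at hr2
          rcases hr2 with rfl | rfl
          · exact h2 h
          · exact h3 h
      have hab : ∀ (c : ℕ) (H : Subgroup (Matrix.ProjectiveSpecialLinearGroup (Fin 2) F)), Nat.card H = c →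
          (∀ r : ℕ, r.Prime → r ∣ c → r = 2 ∨ r = 3) →
          (q ^ 2 - 1).factorization 2 = (2 * c).factorization 2 → (q ^ 2 - 1).factorization 3 = (2 * c).factorization 3 →
          IsPiHall ({2, 3} : Set ℕ) H := by
        intro c H hc hr23 e2 e3
        refine ⟨fun r hr hd => (hmem r).2 (hr23 r hr (hc ▸ hd)), ?_⟩
        have hcI : Nat.card H * H.index = N := H.card_mul_index
        rw [hc] at hcI
        have hc0 : c ≠ 0 := by rw [← hc]; exact Nat.card_pos.ne'
        have hi0 : H.index ≠ 0 := by intro h0; rw [h0, mul_zero] at hcI; omega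
        have key : ∀ r : ℕ, r.Prime → ¬ r ∣ q → (q ^ 2 - 1).factorization r = (2 * c).factorization r → ¬ r ∣ H.index := by
          intro r hr hrq he hd
          have h1 : q * (q ^ 2 - 1) = (2 * c) * H.index := by rw [← hN, ← hcI, mul_assoc]
          have h2 : (q * (q ^ 2 - 1)).factorization r = ((2 * c) * H.index).factorization r := by rw [h1]
          rw [Nat.factorization_mul (by omega) hq21, Nat.factorization_mul (by omega) hi0] at h2
          simp only [Finsupp.add_apply] at h2
          rw [Nat.factorization_eq_zero_of_not_dvd hrq] at h2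
          have h3 := (Nat.Prime.dvd_iff_one_le_factorization hr hi0).1 hd
          omega
        intro r hr hr2
        rw [hmem] at hr2
        rcases hr2 with rfl | rfl
        · exact key 2 hr hq2 e2
        · exact key 3 hr hq3 e3
      rintro (⟨h3, h4⟩ | ⟨h3, h4⟩ | h | h)
      · obtain ⟨H0, -, e⟩ := Cfsg.Agent.S0812.result (F := F) hq.symm (by
          simp only [Finset.mem_insert, Finset.mem_singleton]
          omega)
        rw [hgcd] at e
        refine hdih H0 _ e (q * ((q + 1) / 2)) ?_ ?_ ?_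
        · have h5 : 2 * (2 * ((q - 1) / 2) * (q * ((q + 1) / 2))) = 2 * N := by
            rw [hN0]
            have e1 : 2 * ((q - 1) / 2) = q - 1 := by omega
            have e2 : 2 * ((q + 1) / 2) = q + 1 := by omega
            calc 2 * (2 * ((q - 1) / 2) * (q * ((q + 1) / 2))) = (2 * ((q - 1) / 2)) * q * (2 * ((q + 1) / 2)) := by ring
              _ = (q - 1) * q * (q + 1) := by rw [e1, e2]
              _ = _ := by ring
          omega
        · intro hd
          rcases (Nat.Prime.dvd_mul Nat.prime_two).1 hd with hd | hd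
          · exact hq2 hd
          · omega
        · intro hd
          rcases (Nat.Prime.dvd_mul Nat.prime_three).1 hd with hd | hd
          · exact hq3 hd
          · omega
      · obtain ⟨H0, -, e⟩ := Cfsg.Agent.S0811.result (F := F) hq.symm (by
          simp only [Finset.mem_insert, Finset.mem_singleton]
          omega)
        rw [hgcd] at e
        refine hdih H0 _ e (q * ((q - 1) / 2)) ?_ ?_ ?_
        · have h5 : 2 * (2 * ((q + 1) / 2) * (q * ((q - 1) / 2))) = 2 * N := by
            rw [hN0]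
            have e1 : 2 * ((q - 1) / 2) = q - 1 := by omega
            have e2 : 2 * ((q + 1) / 2) = q + 1 := by omega
            calc 2 * (2 * ((q + 1) / 2) * (q * ((q - 1) / 2))) = (2 * ((q - 1) / 2)) * q * (2 * ((q + 1) / 2)) := by ring
              _ = (q - 1) * q * (q + 1) := by rw [e1, e2]
              _ = _ := by ring
          omega
        · intro hd
          rcases (Nat.Prime.dvd_mul Nat.prime_two).1 hd with hd | hd
          · exact hq2 hd
          · omega
        · intro hd
          rcases (Nat.Prime.dvd_mul Nat.prime_three).1 hd with hd | hd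
          · exact hq3 hd
          · omega
      · obtain ⟨H, ⟨e⟩⟩ := (Cfsg.Agent.S0802.result (F := F) p n hn).2 (by omega)
        have hc : Nat.card H = 12 := by
          rw [Nat.card_congr e.toEquiv, Nat.card_eq_fintype_card]
          exact card_A4
        obtain ⟨e2, e3⟩ := exp24 _ _ h
        refine ⟨H, hab 12 H hc ?_ (by rw [e2, f24.1]) (by rw [e3, f24.2])⟩
        intro r hr hd
        exact pr12 r hr hd
      · obtain ⟨e2, e3⟩ := exp48 _ _ h
        have h16 : q ^ 2 % 16 = 1 := by
          have h1 : 2 ^ 4 ∣ q ^ 2 - 1 := by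
            rw [← e2]
            exact Nat.ordProj_dvd _ _
          have h2 : 0 < q ^ 2 := by positivity
          omega
        obtain ⟨H, ⟨e⟩⟩ := (Cfsg.Agent.S0803.result (F := F) hq.symm).2 h16
        have hc : Nat.card H = 24 := by
          rw [Nat.card_congr e.toEquiv, Nat.card_perm, Nat.card_fin]; rfl
        refine ⟨H, hab 24 H hc ?_ (by rw [e2, f48.1]) (by rw [e3, f48.2])⟩
        intro r hr hd
        exact pr24 r hr hd

end Cfsg.Agent.S2537
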