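import Cfsg.Agent.H5_PSL
import Cfsg.Statements.S2540
-- import your own Cfsg.Agent.* helpers here

set_option autoImplicit false
open Cfsg

namespace Cfsg.Agent.S2540

open Matrix Matrix.SpecialLinearGroup

/-- the abstract step. -/
theorem abs_step {S : Type*} [Group S] (hp : commutator S = ⊤) (hs : IsSimpleGroup (S ⧸ Subgroup.center S))
    (N : Subgroup S) [N.Normal] : N ≤ Subgroup.center S ∨ N = ⊤ := by
  have hn : (N.map (QuotientGroup.mk' (Subgroup.center S))).Normal :=
    Subgroup.Normal.map inferInstance _ (QuotientGroup.mk'_surjective _)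
  rcases hn.eq_bot_or_eq_top with h | h
  · left
    rw [Subgroup.map_eq_bot_iff, QuotientGroup.ker_mk'] at h
    exact h
  · right
    rw [eq_top_iff, ← hp, commutator_def, Subgroup.commutator_le]
    intro x _ y _
    have key : ∀ x : S, ∃ z ∈ Subgroup.center S, (QuotientGroup.mk x : S ⧸ N) = QuotientGroup.mk z := by
      intro x
      obtain ⟨n, hn, hx⟩ : (QuotientGroup.mk' (Subgroup.center S)) x ∈ N.map (QuotientGroup.mk' (Subgroup.center S)) := by
        rw [h]; trivial
      have hx' : (QuotientGroup.mk n : S ⧸ Subgroup.center S) = QuotientGroup.mk x := hx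
      rw [QuotientGroup.eq] at hx'
      refine ⟨n⁻¹ * x, hx', ?_⟩
      rw [QuotientGroup.mk_mul, QuotientGroup.mk_inv, (QuotientGroup.eq_one_iff n).mpr hn, inv_one, one_mul]
    obtain ⟨z, hz, ex⟩ := key x
    obtain ⟨w, hw, ey⟩ := key y
    rw [← QuotientGroup.eq_one_iff, commutatorElement_def, QuotientGroup.mk_mul, QuotientGroup.mk_mul,
      QuotientGroup.mk_mul, QuotientGroup.mk_inv, QuotientGroup.mk_inv, ex, ey, ← QuotientGroup.mk_mul,
      ← QuotientGroup.mk_inv, ← QuotientGroup.mk_mul, ← QuotientGroup.mk_inv, ← QuotientGroup.mk_mul,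
      Subgroup.mem_center_iff.mp hz w |>.symm, mul_inv_cancel_right, mul_inv_cancel]
    rfl

/-- homomorphisms from a perfect group to its centre. -/
theorem hom_center {S : Type*} [Group S] (hp : commutator S = ⊤) (z : S → S) (hz : ∀ s, z s ∈ Subgroup.center S)
    (hm : ∀ s t, z (s * t) = z s * z t) (s : S) : z s = 1 := by
  let f : S →* Subgroup.center S := MonoidHom.mk' (fun s => ⟨z s, hz s⟩) fun s t => Subtype.ext (hm s t)
  have h1 : commutator S ≤ f.ker := by
    rw [commutator_def, Subgroup.commutator_le]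
    intro x _ y _
    rw [MonoidHom.mem_ker, map_commutatorElement, commutatorElement_eq_one_iff_mul_comm]
    apply Subtype.ext
    exact (Subgroup.mem_center_iff.mp (f y).2 (f x : S))
  rw [hp] at h1
  exact congrArg Subtype.val (MonoidHom.mem_ker.mp (h1 (Subgroup.mem_top s)))

theorem main {F : Type*} [Field F] {n : ℕ} (hp : commutator (SpecialLinearGroup (Fin n) F) = ⊤)
    (hs : IsSimpleGroup (ProjectiveSpecialLinearGroup (Fin n) F)) (G : Subgroup (Matrix.GeneralLinearGroup (Fin n) F))
    (hG : ∀ s : Matrix.SpecialLinearGroup (Fin n) F, ∀ g ∈ G, (Matrix.SpecialLinearGroup.toGL s) * g * (Matrix.SpecialLinearGroup.toGL s)⁻¹ ∈ G) :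
    (∀ g ∈ G, ∃ c : F, (g : Matrix (Fin n) (Fin n) F) = c • (1 : Matrix (Fin n) (Fin n) F)) ∨
      (Matrix.SpecialLinearGroup.toGL : Matrix.SpecialLinearGroup (Fin n) F →* _).range ≤ G := by
  have hN : (G.comap (Matrix.SpecialLinearGroup.toGL : Matrix.SpecialLinearGroup (Fin n) F →* _)).Normal := ⟨by
    intro x hx s
    rw [Subgroup.mem_comap] at hx ⊢
    rw [map_mul, map_mul, map_inv]
    exact hG s _ hx⟩
  rcases abs_step hp hs (G.comap (Matrix.SpecialLinearGroup.toGL : Matrix.SpecialLinearGroup (Fin n) F →* _)) with h | h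
  · left
    intro g hg
    -- the commutator with `g`
    have hc : ∀ s : SpecialLinearGroup (Fin n) F, ∃ z : SpecialLinearGroup (Fin n) F, z ∈ Subgroup.center _ ∧
        g * toGL s * g⁻¹ = toGL z * toGL s := by
      intro s
      have hdet : (((g * toGL s * g⁻¹ * (toGL s)⁻¹ : GL (Fin n) F)) : Matrix (Fin n) (Fin n) F).det = 1 := by
        have h1 : (Matrix.GeneralLinearGroup.det (g * toGL s * g⁻¹ * (toGL s)⁻¹) : Fˣ) = 1 := by
          rw [map_mul, map_mul, map_mul, map_inv, map_inv, mul_comm (Matrix.GeneralLinearGroup.det g), mul_inv_cancel_right,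
            mul_inv_cancel]
        exact congrArg Units.val h1
      let z₀ : SpecialLinearGroup (Fin n) F := ⟨_, hdet⟩
      have h1 : toGL z₀ = g * toGL s * g⁻¹ * (toGL s)⁻¹ := Units.ext rfl
      refine ⟨z₀, ?_, ?_⟩
      · apply h
        change toGL z₀ ∈ G
        rw [h1, mul_assoc, mul_assoc, ← mul_assoc (toGL s)]
        exact mul_mem hg (hG s _ (inv_mem hg))
      · rw [h1, inv_mul_cancel_right]
    choose z hz1 hz2 using hc
    have hinj : Function.Injective (toGL : SpecialLinearGroup (Fin n) F →* GL (Fin n) F) := by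
      intro a b hab
      exact Subtype.ext (congrArg Units.val hab)
    have hz : ∀ s, z s = 1 := by
      refine hom_center hp z hz1 ?_
      intro s t
      apply hinj
      have h1 := hz2 (s * t)
      have h2 : g * toGL (s * t) * g⁻¹ = (g * toGL s * g⁻¹) * (g * toGL t * g⁻¹) := by
        rw [map_mul]; group
      rw [h2, hz2 s, hz2 t] at h1
      have h3 : toGL (z t) * toGL s = toGL s * toGL (z t) := by
        rw [← map_mul, ← map_mul, Subgroup.mem_center_iff.mp (hz1 t) s]
      have h4 : toGL (z s) * toGL s * (toGL (z t) * toGL t) = toGL (z s) * toGL (z t) * toGL (s * t) := by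
        rw [mul_assoc, ← mul_assoc (toGL s), ← h3, map_mul]
        simp only [mul_assoc]
      rw [h4] at h1
      rw [map_mul]
      exact (mul_right_cancel h1).symm
    have hcomm : ∀ s : SpecialLinearGroup (Fin n) F, g * toGL s = toGL s * g := by
      intro s
      have h1 := hz2 s
      rw [hz s, map_one, one_mul, mul_inv_eq_iff_eq_mul] at h1
      exact h1
    have h2 : (g : Matrix (Fin n) (Fin n) F) ∈ Set.range (Matrix.scalar (Fin n)) := by
      apply Matrix.mem_range_scalar_of_commute_transvectionStruct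
      intro t
      have h3 := congrArg (fun x : GL (Fin n) F => (x : Matrix (Fin n) (Fin n) F)) (hcomm ⟨t.toMatrix, t.det⟩)
      exact h3.symm
    obtain ⟨c, hc⟩ := h2
    refine ⟨c, ?_⟩
    rw [← hc, Matrix.scalar_apply, Matrix.smul_one_eq_diagonal]
  · right
    rintro _ ⟨s, rfl⟩
    have : s ∈ G.comap (Matrix.SpecialLinearGroup.toGL : Matrix.SpecialLinearGroup (Fin n) F →* _) := by
      rw [h]; trivial
    exact this

/-- Let F be a finite field and n ≥ 1, excluding the case n = 2 with #F ≤ 3. A subgroup of GL_n(F) that is normalized by every element of SL_n(F) either consists of scalar matrices or contains SL_n(F). -/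
theorem result {F : Type*} [Field F] [Fintype F] (n : ℕ) (hn : 1 ≤ n) (hex : ¬ (n = 2 ∧ Fintype.card F ≤ 3)) (G : Subgroup (Matrix.GeneralLinearGroup (Fin n) F)) (hG : ∀ s : Matrix.SpecialLinearGroup (Fin n) F, ∀ g ∈ G, (Matrix.SpecialLinearGroup.toGL s) * g * (Matrix.SpecialLinearGroup.toGL s)⁻¹ ∈ G) : (∀ g ∈ G, ∃ c : F, (g : Matrix (Fin n) (Fin n) F) = c • (1 : Matrix (Fin n) (Fin n) F)) ∨ (Matrix.SpecialLinearGroup.toGL : Matrix.SpecialLinearGroup (Fin n) F →* _).range ≤ G := by
  rcases (by omega : n = 1 ∨ n = 2 ∨ 3 ≤ n) with rfl | rfl | h3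
  · left
    intro g _
    refine ⟨(g : Matrix (Fin 1) (Fin 1) F) 0 0, ?_⟩
    ext i j
    have hi : i = 0 := Subsingleton.elim _ _
    have hj : j = 0 := Subsingleton.elim _ _
    subst hi
    subst hj
    simp
  · have h4 : 4 ≤ Nat.card F := by
      rw [Nat.card_eq_fintype_card]
      by_contra h
      exact hex ⟨rfl, by omega⟩
    obtain ⟨a, ha, hasq⟩ : ∃ a : F, a ≠ 0 ∧ a ^ 2 ≠ 1 := by
      obtain ⟨x, hx⟩ : IsCyclic Fˣ := by infer_instance
      refine ⟨x, Units.ne_zero x, fun h ↦ ?_⟩
      grw [Nat.card_eq_card_units_add_one F, ← orderOf_eq_card_of_forall_mem_zpowers hx,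
        orderOf_le_of_pow_eq_one zero_lt_two (Units.ext <| by simpa using h)] at h4
      omega
    exact main (SL2.commutator_eq_top ha hasq) (Matrix.ProjectiveSpecialLinearGroup.rank_two_simple h4) G hG
  · exact main (Cfsg.Agent.H5.SL.commutator_eq_top (by rw [Fintype.card_fin]; omega))
      (Cfsg.Agent.H5.PSLn.isSimpleGroup_PSL (by rw [Fintype.card_fin]; omega)) G hG

end Cfsg.Agent.S2540
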