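import Cfsg.Statements.S2541
import Mathlib

set_option autoImplicit false
open Cfsg

namespace Cfsg.Agent.S2541

theorem no8 (σ : Equiv.Perm (Fin 6)) (h8 : σ ^ 8 = 1) : σ ^ 4 = 1 := by
  rw [← orderOf_dvd_iff_pow_eq_one] at h8 ⊢
  rw [← Equiv.Perm.lcm_cycleType, Multiset.lcm_dvd]
  intro c hc
  have h1 : c ∣ 8 := (Equiv.Perm.dvd_of_mem_cycleType hc).trans h8
  have h2 : c ≤ 6 := by
    have h3 := Equiv.Perm.le_card_support_of_mem_cycleType hc
    have h4 : σ.support.card ≤ 6 := by
      have := Finset.card_le_univ σ.support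
      simpa using this
    omega
  interval_cases c
  all_goals first | decide | (revert h1; decide)

/-- diagonal matrix `diag(a,1)` -/
noncomputable def dg {F : Type*} [Field F] (a : Fˣ) : Matrix.GeneralLinearGroup (Fin 2) F :=
  Matrix.GeneralLinearGroup.mkOfDetNeZero !![(a : F), 0; 0, 1] (by simp)

theorem dg_mul {F : Type*} [Field F] (a b : Fˣ) : dg (a * b) = dg a * dg b := by
  ext i j
  fin_cases i <;> fin_cases j <;> simp [dg, Matrix.GeneralLinearGroup.mkOfDetNeZero, Matrix.mul_apply, Fin.sum_univ_two]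

theorem dg_one {F : Type*} [Field F] : dg (1 : Fˣ) = 1 := by
  ext i j
  fin_cases i <;> fin_cases j <;> simp [dg, Matrix.GeneralLinearGroup.mkOfDetNeZero]

theorem dg_pow {F : Type*} [Field F] (a : Fˣ) (n : ℕ) : dg (a ^ n) = dg a ^ n := by
  induction n with
  | zero => rw [pow_zero, pow_zero, dg_one]
  | succ n ih => rw [pow_succ, dg_mul, ih, pow_succ]

theorem dg_center {F : Type*} [Field F] (a : Fˣ) (h : dg a ∈ Subgroup.center (Matrix.GeneralLinearGroup (Fin 2) F)) : a = 1 := by
  rw [Subgroup.mem_center_iff] at h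
  have h1 := h (Matrix.GeneralLinearGroup.mkOfDetNeZero !![1, 1; 0, 1] (by simp))
  have h2 := congrArg (fun g : Matrix.GeneralLinearGroup (Fin 2) F => (g : Matrix (Fin 2) (Fin 2) F) 0 1) h1
  simp [dg, Matrix.GeneralLinearGroup.mkOfDetNeZero, Matrix.mul_apply, Fin.sum_univ_two] at h2
  exact Units.ext h2.symm

/-- Let F be a field with 9 elements. The symmetric group S_6 is not isomorphic to PGL_2(F) (although both have index-2 subgroups isomorphic to A_6). -/
theorem result {F : Type*} [Field F] [Fintype F] (hF : Fintype.card F = 9) : ¬ Nonempty (Equiv.Perm (Fin 6) ≃* Matrix.ProjGenLinGroup (Fin 2) F) := by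
  classical
  rintro ⟨e⟩
  obtain ⟨g, hg⟩ := IsCyclic.exists_generator (α := Fˣ)
  have hog : orderOf g = 8 := by
    rw [orderOf_eq_card_of_forall_mem_zpowers hg, Nat.card_units, Nat.card_eq_fintype_card, hF]
  have h8 : (Matrix.ProjGenLinGroup.mk (dg g)) ^ 8 = 1 := by
    rw [← map_pow, ← dg_pow, ← hog, pow_orderOf_eq_one, dg_one, map_one]
  have h4 : (Matrix.ProjGenLinGroup.mk (dg g)) ^ 4 ≠ 1 := by
    intro h
    rw [← map_pow, ← dg_pow, Matrix.ProjGenLinGroup.mk_eq_one] at h
    have h1 := dg_center _ h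
    have h2 := orderOf_dvd_of_pow_eq_one h1
    rw [hog] at h2
    norm_num at h2
  apply h4
  have h1 : (e.symm (Matrix.ProjGenLinGroup.mk (dg g))) ^ 8 = 1 := by rw [← map_pow, h8, map_one]
  have h2 := no8 _ h1
  rw [← map_pow, map_eq_one_iff e.symm e.symm.injective] at h2
  exact h2

end Cfsg.Agent.S2541
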