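import Cfsg.Agent.H16_St1
import Cfsg.Statements.S2544
-- import your own Cfsg.Agent.* helpers here

set_option autoImplicit false
open Cfsg

namespace Cfsg.Agent.S2544

open Matrix Cfsg.Agent.H25.SLa Cfsg.Agent.H25.SLc Cfsg.Agent.H25.Whi Cfsg.Agent.H3.CharIrr Cfsg.Agent.H3.CharInd Cfsg.Agent.H3.CharComplete

theorem fix_one {G : Type*} [Group G] (H : Subgroup G) (z : G) (hz : z ∈ Subgroup.center G) (hzH : z ∈ H) :
    fixedPointCharacter H z = fixedPointCharacter H 1 := by
  unfold fixedPointCharacter
  have h : MulAction.fixedBy (G ⧸ H) z = MulAction.fixedBy (G ⧸ H) (1 : G) := by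
    ext x
    induction x using QuotientGroup.induction_on with
    | H g =>
      rw [MulAction.mem_fixedBy, MulAction.mem_fixedBy]
      refine ⟨fun _ => one_smul _ _, fun _ => ?_⟩
      change ((z * g : G) : G ⧸ H) = (g : G ⧸ H)
      rw [QuotientGroup.eq, _root_.mul_inv_rev, (Subgroup.mem_center_iff.1 (Subgroup.inv_mem _ hz) g⁻¹), mul_assoc,
        inv_mul_cancel, mul_one]
      exact H.inv_mem hzH
  rw [h]

theorem uni_one {F : Type*} [Field F] (n : ℕ) (ν : Fin n → ℕ) (z : GL (Fin n) F) (hz : z ∈ Subgroup.center (GL (Fin n) F))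
    (hd : (z : Matrix (Fin n) (Fin n) F).IsDiag) : unipotentCharacterGL n F ν z = unipotentCharacterGL n F ν 1 := by
  unfold unipotentCharacterGL
  refine Finset.sum_congr rfl fun κ _ => ?_
  rw [fix_one _ z hz]
  intro i j hij
  apply hd
  rintro rfl
  exact lt_irrefl _ hij


/-- Let F be a finite field of characteristic p and consider the projective special linear group PSL_n(F) with n ≥ 2. This group has an irreducible complex character χ whose degree equals the order of a Sylow p-subgroup (namely q^(n(n−1)/2) when #F = q) and whose restriction to any Sylow p-subgroup P is the regular character of P: χ vanishes on the non-identity elements of P. (This is the Steinberg character.) -/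
theorem result {F : Type*} [Field F] [Fintype F] (p : ℕ) [Fact p.Prime] [CharP F p] (n : ℕ) (hn : 2 ≤ n) : ∃ χ : Matrix.ProjectiveSpecialLinearGroup (Fin n) F → ℂ, Cfsg.IsIrrCharacter (Matrix.ProjectiveSpecialLinearGroup (Fin n) F) χ ∧ ∀ P : Sylow p (Matrix.ProjectiveSpecialLinearGroup (Fin n) F), χ 1 = Nat.card P ∧ ∀ x : Matrix.ProjectiveSpecialLinearGroup (Fin n) F, x ∈ P → x ≠ 1 → χ x = 0 := by
  classical
  have hn1 : 1 ≤ n := by omega
  have hX := Cfsg.Agent.S2421.result (F := F) (n := n) (fun _ => 1) (fun _ _ _ => le_rfl) (by simp)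
  have hd := degree (F := F) n
  set X := unipotentCharacterGL n F (fun _ => 1) with hXd
  haveI : Fintype (GL (Fin n) F) := Fintype.ofFinite _
  haveI : Fintype (SpecialLinearGroup (Fin n) F) := Fintype.ofFinite _
  set N : Subgroup (GL (Fin n) F) := (Matrix.SpecialLinearGroup.toGL : SpecialLinearGroup (Fin n) F →* GL (Fin n) F).range with hN
  haveI : NeZero n := ⟨by omega⟩
  haveI hNn : N.Normal := by
    rw [hN, H5.GL.range_toGL]; infer_instance
  haveI : Fintype N := Fintype.ofFinite _
  have hres : IsCharacter N (fun x : N => X x) := IsChar.res (IsIrr.isCharacter hX) N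
  have hne : (fun x : N => X x) ≠ 0 := by
    intro h
    have := congrFun h 1
    exact IsIrr.one_ne_zero hX this
  obtain ⟨ϑ, hϑ, h0⟩ := exists_constituent hres hne
  obtain ⟨b, hb, hbd⟩ := Cfsg.Agent.H3.Lift.degree_dvd N hX hϑ h0
  obtain ⟨d, hd0, hdd⟩ := IsIrr.one_eq_nat hϑ
  have hidx : N.index = Fintype.card F - 1 := by
    have h1 := H5.GL.card_SL_mul (n := Fin n) (F := F) rfl
    have h2 : Nat.card N = Nat.card (SpecialLinearGroup (Fin n) F) :=
      (Nat.card_congr (MonoidHom.ofInjective (Matrix.SpecialLinearGroup.toGL_injective)).toEquiv).symm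
    have h3 := N.card_mul_index
    rw [h2, ← h1, mul_comm] at h3
    exact Nat.eq_of_mul_eq_mul_right Nat.card_pos h3
  have hb0 := hb
  rw [hd, hdd] at hb
  have hb' : Fintype.card F ^ (n * (n - 1) / 2) = b * d := by exact_mod_cast hb
  have hb1 : b = 1 := by
    have h1 : b ∣ Fintype.card F ^ (n * (n - 1) / 2) := ⟨d, hb'⟩
    rw [hidx] at hbd
    have h2 : Nat.Coprime (Fintype.card F - 1) (Fintype.card F ^ (n * (n - 1) / 2)) := by
      apply Nat.Coprime.pow_right
      have h3 : 1 ≤ Fintype.card F := Fintype.card_pos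
      have h4 : Nat.Coprime (Fintype.card F - 1) (Fintype.card F - 1 + 1) := by simp
      rwa [Nat.sub_add_cancel h3] at h4
    exact Nat.eq_one_of_dvd_coprimes h2 hbd h1
  rw [hb1, Nat.cast_one, one_mul] at hb0
  have heq : (fun x : N => X x) = ϑ := H16.St.eq_of_constituent hres hϑ h0 hb0
  let f : SpecialLinearGroup (Fin n) F ≃* N := MonoidHom.ofInjective Matrix.SpecialLinearGroup.toGL_injective
  have hfv : ∀ x, ((f x : N) : GL (Fin n) F) = Matrix.SpecialLinearGroup.toGL x := fun x => rfl
  have hirr : IsIrrCharacter (SpecialLinearGroup (Fin n) F) (fun x => ϑ (f x)) := (isIrr_comp_iff f).2 hϑ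
  have hval : ∀ x, ϑ (f x) = X (Matrix.SpecialLinearGroup.toGL x) := fun x => (congrFun heq (f x)).symm
  refine H16.St.descend (G := SpecialLinearGroup (Fin n) F) p (Subgroup.center _) ?_ hirr ?_ ?_
  · rw [H5.GL.card_center_SL rfl n hn1]
    intro h
    have h1 : p ∣ Fintype.card F - 1 := h.trans (Nat.gcd_dvd_right _ _)
    obtain ⟨f', hpF, hf'⟩ := FiniteField.card F p
    have h2 : p ∣ Fintype.card F := by rw [hf']; exact dvd_pow_self p f'.2.ne'
    have h3 : 1 ≤ Fintype.card F := Fintype.card_pos
    have h4 := (Nat.dvd_sub h2 h1)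
    rw [Nat.sub_sub_self h3] at h4
    exact hpF.one_lt.ne' (Nat.dvd_one.1 h4)
  · beta_reduce
    rw [hval, map_one, hd, factor hn1]
  · intro z hz
    beta_reduce
    rw [hval, hval, map_one]
    obtain ⟨r, hr, hrz⟩ := Matrix.SpecialLinearGroup.mem_center_iff.1 hz
    refine uni_one n _ _ ?_ ?_
    · rw [Subgroup.mem_center_iff]
      intro g
      apply Units.ext
      rw [Units.val_mul, Units.val_mul]
      change (g : Matrix (Fin n) (Fin n) F) * (z : Matrix (Fin n) (Fin n) F) = (z : Matrix (Fin n) (Fin n) F) * (g : Matrix (Fin n) (Fin n) F)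
      rw [← hrz]
      exact (Matrix.scalar_commute r (fun r' => mul_comm _ _) _).symm.eq
    · change (z : Matrix (Fin n) (Fin n) F).IsDiag
      rw [← hrz]
      intro i j hij
      simp [Matrix.scalar_apply, Matrix.diagonal_apply_ne _ hij]

end Cfsg.Agent.S2544
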