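import Cfsg.Agent.H16_St10
import Cfsg.Agent.H5_Symp
import Cfsg.Statements.S2545
-- import your own Cfsg.Agent.* helpers here

set_option autoImplicit false
open Cfsg

namespace Cfsg.Agent.S2545

open Matrix Module Cfsg.Agent.H5 Cfsg.Agent.H5.Conc Cfsg.Agent.H5.Frm


/-- Let F be a finite field of characteristic p and consider the projective symplectic group PSp_{2m}(F) with m ≥ 1. This group has an irreducible complex character χ whose degree equals the order of a Sylow p-subgroup (namely q^(m²) when #F = q) and whose restriction to any Sylow p-subgroup P is the regular character of P: χ vanishes on the non-identity elements of P. (This is the Steinberg character.) -/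
theorem result {F : Type*} [Field F] [Fintype F] (p : ℕ) [Fact p.Prime] [CharP F p] (m : ℕ) (hm : 1 ≤ m) : ∃ χ : Cfsg.PSp m F → ℂ, Cfsg.IsIrrCharacter (Cfsg.PSp m F) χ ∧ ∀ P : Sylow p (Cfsg.PSp m F), χ 1 = Nat.card P ∧ ∀ x : Cfsg.PSp m F, x ∈ P → x ≠ 1 → χ x = 0 := by
  classical
  obtain ⟨f, hpf, hf⟩ := FiniteField.card F p
  set A := sympFrm m F with hA
  have hnd : A.Nondeg := sympFrm_nondeg m F
  have hW : Frm.WittDec m 0 A := sympFrm_wittDec m F
  haveI : Nonempty (Fin m ⊕ Fin m) := ⟨Sum.inl ⟨0, by omega⟩⟩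
  haveI : Nontrivial (Fin m ⊕ Fin m → F) := inferInstance
  have hκ : Frm.kt (0 : F →+ F) = Fintype.card F := kt_zero
  have hd : Module.finrank F (Fin m ⊕ Fin m → F) = 2 * m + 0 := Frm.WittDec.finrank_eq m 0 A hW
  let φ : Matrix.symplecticGroup (Fin m) F ≃* (⊤ : Subgroup A.isom) := (spEquiv m F).trans Subgroup.topEquiv.symm
  have hφ : ∀ (g : Matrix.symplecticGroup (Fin m) F) (x : Fin m ⊕ Fin m → F),
      ((φ g : A.isom) : (Fin m ⊕ Fin m → F) ≃ₗ[F] (Fin m ⊕ Fin m → F)) x = (g : Matrix (Fin m ⊕ Fin m) (Fin m ⊕ Fin m) F) *ᵥ x := by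
    intro g x
    exact spEquiv_apply m F g x
  haveI : Finite (Matrix.symplecticGroup (Fin m) F) := inferInstance
  refine H16.St.finish (A := A) p φ ?_ ?_
  · intro z hz
    have h1 : ∀ v : Fin m ⊕ Fin m → F, ∃ b : F, (z : Matrix (Fin m ⊕ Fin m) (Fin m ⊕ Fin m) F) *ᵥ v = b • v := by
      intro v
      by_cases hv : v = 0
      · exact ⟨0, by rw [hv, Matrix.mulVec_zero, smul_zero]⟩
      have h2 := Symp.conj_T z v 1
      rw [← (Subgroup.mem_center_iff.1 hz (Symp.T v 1)), mul_inv_cancel_right] at h2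
      have hzv : (z : Matrix (Fin m ⊕ Fin m) (Fin m ⊕ Fin m) F) *ᵥ v ≠ 0 := by
        intro h3
        apply hv
        have h4 := hφ z v
        rw [h3] at h4
        exact (LinearEquiv.map_eq_zero_iff _).1 h4
      obtain ⟨x, hx⟩ := Symp.exists_ne hzv
      have h3 := congrArg (fun g : Matrix.symplecticGroup (Fin m) F => (g : Matrix (Fin m ⊕ Fin m) (Fin m ⊕ Fin m) F) *ᵥ x) h2
      rw [Symp.T_apply, Symp.T_apply, add_right_inj, one_mul, one_mul] at h3
      have hx' : Cfsg.sympForm m F x ((z : Matrix (Fin m ⊕ Fin m) (Fin m ⊕ Fin m) F) *ᵥ v) ≠ 0 := by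
        rw [Symp.swap]; exact neg_ne_zero.2 hx
      refine ⟨(Cfsg.sympForm m F x ((z : Matrix (Fin m ⊕ Fin m) (Fin m ⊕ Fin m) F) *ᵥ v))⁻¹ * Cfsg.sympForm m F x v, ?_⟩
      rw [mul_smul, h3, inv_smul_smul₀ hx']
    obtain ⟨b, hb⟩ := H16.St.scalar_of_lines (Matrix.mulVecLin (z : Matrix (Fin m ⊕ Fin m) (Fin m ⊕ Fin m) F)) h1
    exact ⟨b, fun x => (hφ z x).trans (hb x)⟩
  · refine H16.St.stein p hnd hW ⊤ inferInstance ?_ ?_ ?_
    · intro c c' c'' h1 h2
      obtain ⟨g, hg, hg'⟩ := H16.St.trans_opp hnd h1 h2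
      exact ⟨g, trivial, hg, hg'⟩
    · intro c c' hop g _ hg hg' hk
      exact H16.St.torus_one (a := 0) (by omega) hd hop hg hg' hk
    · rw [hκ]
      refine H16.St.hN_of hpf hf hf m 0 (R := ∏ j ∈ Finset.range m, ((Fintype.card F ^ (j + 1) - 1) * (1 + Fintype.card F * Fintype.card F ^ (j + 0)))) ?_ ?_
      · rw [← H16.St.ordProd_split, Nat.card_congr Subgroup.topEquiv.toEquiv,
          WittDec.card_isom 0 1 (fun A _ _ h' => card_isom_zero A h') m A hnd hW, hκ, mul_one]
      · apply H16.St.not_dvd_R hpf hf f.2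
        intro j
        refine Dvd.dvd.mul_right ?_ _
        rw [hf]; exact dvd_pow_self p f.2.ne'

end Cfsg.Agent.S2545
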