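import Cfsg.Agent.H16_St10
import Cfsg.Agent.H5_Unit
import Cfsg.Statements.S2546
-- import your own Cfsg.Agent.* helpers here

set_option autoImplicit false
open Cfsg

namespace Cfsg.Agent.S2546

open Matrix Module Cfsg.Agent.H5 Cfsg.Agent.H5.Conc Cfsg.Agent.H5.Frm


/-- Let F be a finite field of characteristic p and consider the projective special unitary group PSU_n(q), n ≥ 2, realised over the field F with q² elements. This group has an irreducible complex character χ whose degree equals the order of a Sylow p-subgroup (namely q^(n(n−1)/2)) and whose restriction to any Sylow p-subgroup P is the regular character of P: χ vanishes on the non-identity elements of P. (This is the Steinberg character.) -/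
theorem result {F : Type*} [Field F] [Fintype F] (p : ℕ) [Fact p.Prime] [CharP F p] (n q : ℕ) (hn : 2 ≤ n) (hF : Fintype.card F = q ^ 2) : ∃ χ : Cfsg.PSU n F q → ℂ, Cfsg.IsIrrCharacter (Cfsg.PSU n F q) χ ∧ ∀ P : Sylow p (Cfsg.PSU n F q), χ 1 = Nat.card P ∧ ∀ x : Cfsg.PSU n F q, x ∈ P → x ≠ 1 → χ x = 0 := by
  classical
  obtain ⟨f, hpf, hf⟩ := FiniteField.card F p
  set A := hermFrm hF n with hA
  have hnd : A.Nondeg := hermFrm_nondeg hF n
  have hfr : Module.finrank F (Fin n → F) = n := by simp
  have hW : Frm.WittDec (n / 2) (n % 2) A := Herm.exists_wittDec' n A (Herm.hermFrm_isHerm hF n) hnd hfr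
  haveI : Nonempty (Fin n) := ⟨⟨0, by omega⟩⟩
  haveI : Nontrivial (Fin n → F) := inferInstance
  haveI : Finite ((Fin n → F) ≃ₗ[F] (Fin n → F)) := Finite.of_injective (fun g => (g : (Fin n → F) → (Fin n → F))) DFunLike.coe_injective
  haveI : Finite A.isom := inferInstance
  have hκ : Frm.kt (AddMonoidHom.id F + (Fld.frob hF).toAddMonoidHom) = q := kt_trace hF
  have hd : Module.finrank F (Fin n → F) = 2 * (n / 2) + n % 2 := by rw [hfr]; omega
  obtain ⟨k, hk0, hk⟩ : ∃ k, 0 < k ∧ q = p ^ k := Fld.exists_prime_pow hF p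
  let ψ : Cfsg.SU n F q →* A.isom := (guEquiv hF n).toMonoidHom.comp (Unit.suHom n F q)
  have hψi : Function.Injective ψ := (guEquiv hF n).injective.comp (Unit.suHom_injective n F q)
  have hψ : ∀ (g : Cfsg.SU n F q) (x : Fin n → F), ((ψ g : A.isom) : (Fin n → F) ≃ₗ[F] (Fin n → F)) x = Unit.mat g *ᵥ x := fun g x => rfl
  let φ : Cfsg.SU n F q ≃* ψ.range := MonoidHom.ofInjective hψi
  have hφ : ∀ (g : Cfsg.SU n F q) (x : Fin n → F), ((φ g : A.isom) : (Fin n → F) ≃ₗ[F] (Fin n → F)) x = Unit.mat g *ᵥ x := fun g x => rfl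
  have hrange : ψ.range = (Unit.detGU n F hF).ker.map (guEquiv hF n).toMonoidHom := by
    rw [← Unit.range_suHom, MonoidHom.range_comp]
  have hnorm : ψ.range.Normal := by
    rw [hrange]
    exact Subgroup.Normal.map inferInstance _ (guEquiv hF n).surjective
  have hcard : (q + 1) * Nat.card ψ.range = Nat.card A.isom := by
    rw [← Nat.card_congr φ.toEquiv, Unit.card_SU_mul hF (by omega), Nat.card_congr (guEquiv hF n).toEquiv]
  have hidx : ψ.range.index = q + 1 := by
    have h1 := ψ.range.index_mul_card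
    rw [← hcard] at h1
    exact Nat.eq_of_mul_eq_mul_right Nat.card_pos h1
  have hpq : ¬ p ∣ q + 1 := by
    intro h
    have h1 : p ∣ q := by rw [hk]; exact dvd_pow_self p hk0.ne'
    exact hpf.one_lt.ne' (Nat.dvd_one.1 ((Nat.dvd_add_right h1).1 h))
  haveI : Finite (Cfsg.SU n F q) := inferInstance
  refine H16.St.finish (A := A) p φ ?_ ?_
  · intro z hz
    obtain ⟨c, hc⟩ := Unit.center_scalar hF hn z hz
    refine ⟨c, fun x => ?_⟩
    rw [hφ, hc, Matrix.smul_mulVec, Matrix.one_mulVec]
  · refine H16.St.stein2 p hnd hW ψ.range hnorm (by rw [hidx]; exact hpq) ?_ ?_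
    · intro c c' hop g _ hg hg' hk
      exact H16.St.torus_one (a := n % 2) (by omega) hd hop hg hg' hk
    · have h1 : (Nat.card ψ.range).factorization p = (Nat.card A.isom).factorization p := by
        rw [← hcard, Nat.factorization_mul (by omega) Nat.card_pos.ne', Finsupp.add_apply,
          Nat.factorization_eq_zero_of_not_dvd hpq, zero_add]
      rw [hκ, h1, hF]
      refine H16.St.hN_of hpf (f := 2 * k) (by rw [hk, ← pow_mul, mul_comm]) hk (n / 2) (n % 2)
        (R := (∏ j ∈ Finset.range (n / 2), (((q ^ 2) ^ (j + 1) - 1) * (1 + q * (q ^ 2) ^ (j + n % 2)))) * (if n % 2 = 0 then 1 else q + 1)) ?_ ?_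
      · rw [← mul_assoc, ← H16.St.ordProd_split,
          WittDec.card_isom (n % 2) (if n % 2 = 0 then 1 else q + 1)
            (fun A _ h h' => Herm.card_isom_le_one (n % 2) (by omega) A h h') (n / 2) A hnd hW, hκ, hF]
      · rw [hpf.dvd_mul]
        rintro (h2 | h2)
        · refine H16.St.not_dvd_R hpf (f := 2 * k) (by rw [hk, ← pow_mul, mul_comm]) (by omega) (n / 2) (n % 2) ?_ h2
          intro j
          refine Dvd.dvd.mul_right ?_ _
          rw [hk]; exact dvd_pow_self p hk0.ne'
        · split_ifs at h2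
          · exact hpf.one_lt.ne' (Nat.dvd_one.1 h2)
          · exact hpq h2

end Cfsg.Agent.S2546
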