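import Cfsg.Agent.H16_St12
import Cfsg.Agent.H16_St13
import Cfsg.Agent.S2544
import Cfsg.Agent.S0298
import Cfsg.Statements.S2547
-- import your own Cfsg.Agent.* helpers here

set_option autoImplicit false
open Cfsg

namespace Cfsg.Agent.S2547

open Matrix Module Cfsg.Agent.H5 Cfsg.Agent.H5.Frm Cfsg.Agent.H5.QuadC


/-- Let F be a finite field of characteristic p and consider the group PΩ_{2m+1}(F) of the quadratic form x₀² + Σ x_i y_i, where m ≥ 1 and #F is odd. This group has an irreducible complex character χ whose degree equals the order of a Sylow p-subgroup (namely q^(m²) when #F = q) and whose restriction to any Sylow p-subgroup P is the regular character of P: χ vanishes on the non-identity elements of P. (This is the Steinberg character.) -/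
theorem result {F : Type*} [Field F] [Fintype F] (p : ℕ) [Fact p.Prime] [CharP F p] (hodd : Odd (Fintype.card F)) (m : ℕ) (hm : 1 ≤ m) : ∃ χ : Cfsg.POmega F (Cfsg.quadFormOdd m F) → ℂ, Cfsg.IsIrrCharacter (Cfsg.POmega F (Cfsg.quadFormOdd m F)) χ ∧ ∀ P : Sylow p (Cfsg.POmega F (Cfsg.quadFormOdd m F)), χ 1 = Nat.card P ∧ ∀ x : Cfsg.POmega F (Cfsg.quadFormOdd m F), x ∈ P → x ≠ 1 → χ x = 0 := by
  classical
  have h2 : (2 : F) ≠ 0 := two_ne_zero_of_odd hodd
  have hp : p.Prime := Fact.out
  have hp2 : p ≠ 2 := by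
    rintro rfl
    exact h2 (by exact_mod_cast CharP.cast_eq_zero F 2)
  rcases Nat.lt_or_ge m 2 with hm1 | hm2
  · have : m = 1 := by omega
    subst this
    obtain ⟨e⟩ := S0298.result (F := F) hodd
    haveI : Finite (Matrix.ProjectiveSpecialLinearGroup (Fin 2) F) := Quotient.finite _
    haveI : Finite (Cfsg.POmega F (Cfsg.quadFormOdd 1 F)) := Quotient.finite _
    exact H16.St.HS.congr p e (S2544.result p 2 le_rfl)
  · have hfun : ⇑(qOdd m F) = Cfsg.quadFormOdd m F := funext (qOdd_apply m F)
    have hnd : (ofQuad (qOdd m F)).Nondeg := nondeg_odd h2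
    have hQ : (QuadraticMap.polarBilin (qOdd m F)).Nondegenerate := H16.Quad.nd_of fun x hx => hnd x hx
    have hW : WittDec m 1 (ofQuad (qOdd m F)) := wittDec_odd
    rw [← hfun]
    refine H16.St.orth_odd hQ ?_ p hp2 (m := m) (a := 1) (c := 2) (by omega) hW ?_ ?_
    · rw [Fintype.card_sum, Fintype.card_sum, Fintype.card_fin, Fintype.card_unit]; omega
    · rw [WittDec.card_isom 1 2 (fun A _ h h' => card_isom_one_quad h2 A h h') m _ hnd hW, kt_id]
    · intro h
      exact hp2 ((Nat.prime_dvd_prime_iff_eq hp Nat.prime_two).1 h)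

end Cfsg.Agent.S2547
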