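import Cfsg.Agent.H16_St15
import Cfsg.Agent.S2544
import Cfsg.Agent.S0299
import Cfsg.Agent.S0305
import Cfsg.Statements.S2548
-- import your own Cfsg.Agent.* helpers here

set_option autoImplicit false
open Cfsg

namespace Cfsg.Agent.S2548

open Matrix Module Cfsg.Agent.H5 Cfsg.Agent.H5.Frm Cfsg.Agent.H5.QuadC


/-- Let F be a finite field of characteristic p and consider the group PΩ⁺_{2m}(F) of the hyperbolic quadratic form Σ x_i y_i with m ≥ 1, where Ω denotes the commutator subgroup of the full isometry group. This group has an irreducible complex character χ whose degree equals the order of a Sylow p-subgroup (equal to q^(m(m−1)) when #F = q, except in the degenerate case m = 2, q = 2, where this commutator subgroup has order 18 and its Sylow 2-subgroups have order 2) and whose restriction to any Sylow p-subgroup P is the regular character of P: χ vanishes on the non-identity elements of P. (This is the Steinberg character.) -/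
theorem result {F : Type*} [Field F] [Fintype F] (p : ℕ) [Fact p.Prime] [CharP F p] (m : ℕ) (hm : 1 ≤ m) : ∃ χ : Cfsg.POmega F (Cfsg.quadFormPlus m F) → ℂ, Cfsg.IsIrrCharacter (Cfsg.POmega F (Cfsg.quadFormPlus m F)) χ ∧ ∀ P : Sylow p (Cfsg.POmega F (Cfsg.quadFormPlus m F)), χ 1 = Nat.card P ∧ ∀ x : Cfsg.POmega F (Cfsg.quadFormPlus m F), x ∈ P → x ≠ 1 → χ x = 0 := by
  classical
  have hp : p.Prime := Fact.out
  obtain ⟨f, hpf, hf⟩ := FiniteField.card F p
  haveI : Finite (Cfsg.POmega F (Cfsg.quadFormPlus m F)) := Quotient.finite _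
  rcases Nat.lt_or_ge m 3 with hm1 | hm2
  · interval_cases m
    · obtain ⟨e⟩ := S0305.result (F := F) rfl
      exact H16.St.HS.of_card_one p (H16.St.card_one_of_dih e)
    · by_cases h3 : 3 ≤ Fintype.card F
      · obtain ⟨e⟩ := S0299.result (F := F) h3
        haveI : Finite (Matrix.ProjectiveSpecialLinearGroup (Fin 2) F) := Quotient.finite _
        have h1 : H16.St.HD p (Matrix.ProjectiveSpecialLinearGroup (Fin 2) F) :=
          H16.St.HS.hd p (S2544.result p 2 le_rfl)
        exact H16.St.HD.hs p (H16.St.HD.congr p e (H16.St.HD.prod p h1 h1))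
      · have h2 : Fintype.card F = 2 := by
          have := Fintype.one_lt_card (α := F)
          omega
        have hp2 : p = 2 := by
          rw [hf] at h2
          have : p ∣ 2 := by rw [← h2]; exact dvd_pow_self p f.2.ne'
          exact (Nat.prime_dvd_prime_iff_eq hp Nat.prime_two).1 this
        subst hp2
        exact H16.St.hs_exc h2
  · have hfun : ⇑(qPlus m F) = Cfsg.quadFormPlus m F := funext (qPlus_apply m F)
    have hnd : (ofQuad (qPlus m F)).Nondeg := nondeg_plus
    have hQ : (QuadraticMap.polarBilin (qPlus m F)).Nondegenerate := H16.Quad.nd_of fun x hx => hnd x hx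
    have hW : WittDec m 0 (ofQuad (qPlus m F)) := wittDec_plus
    have h5 : 5 ≤ Fintype.card (Fin m ⊕ Fin m) := by
      rw [Fintype.card_sum, Fintype.card_fin]; omega
    have hcard : Nat.card (ofQuad (qPlus m F)).isom = ordProd (Fintype.card F) 1 0 m * 1 := by
      rw [WittDec.card_isom 0 1 (fun A _ h h' => card_isom_zero A h') m _ hnd hW, kt_id]
    rw [← hfun]
    by_cases hp2 : p = 2
    · subst hp2
      obtain ⟨m', rfl⟩ : ∃ m', m = m' + 1 := ⟨m - 1, by omega⟩
      refine H16.St.orth_even hQ h5 (m := m' + 1) (a := 0)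
        (R := (∏ j ∈ Finset.range m', ((Fintype.card F ^ (j + 1 + 1) - 1) * (1 + 1 * Fintype.card F ^ (j + 1 + 0)))) * (Fintype.card F ^ 1 - 1))
        (Or.inl rfl) hW ?_ ?_ ?_
      · intro h; omega
      · rw [hcard, H16.St.ordProd_split, Finset.prod_range_succ' (fun j => (Fintype.card F ^ (j + 1) - 1) * (1 + 1 * Fintype.card F ^ (j + 0)))]
        simp only [zero_add, add_zero, pow_zero, mul_one, pow_one]
        ring
      · rw [hpf.dvd_mul]
        rintro (h2 | h2)
        · rw [Prime.dvd_finset_prod_iff hpf.prime] at h2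
          obtain ⟨j, -, hj⟩ := h2
          rcases (hpf.dvd_mul).1 hj with h1 | h1
          · exact H16.St.not_dvd_pred hpf hf f.2 (Nat.succ_pos _) h1
          · have h6 : 2 ∣ 1 * Fintype.card F ^ (j + 1 + 0) := by
              rw [one_mul, hf, ← pow_mul]
              exact dvd_pow_self 2 (Nat.mul_pos f.2 (by omega)).ne'
            exact hpf.one_lt.ne' (Nat.dvd_one.1 ((Nat.dvd_add_left h6).1 h1))
        · exact H16.St.not_dvd_pred hpf hf f.2 one_pos h2
    · refine H16.St.orth_odd hQ h5 p hp2 (m := m) (a := 0) (c := 1) (by omega) hW hcard ?_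
      intro h
      exact hp.one_lt.ne' (Nat.dvd_one.1 h)

end Cfsg.Agent.S2548
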