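import Cfsg.Agent.H16_St14
import Cfsg.Agent.S2544
import Cfsg.Agent.S0300
import Cfsg.Agent.S0306
import Cfsg.Statements.S2549
-- import your own Cfsg.Agent.* helpers here

set_option autoImplicit false
open Cfsg

namespace Cfsg.Agent.S2549

open Matrix Module Cfsg.Agent.H5 Cfsg.Agent.H5.Frm Cfsg.Agent.H5.QuadC


/-- Let F be a finite field of characteristic p and consider the group PΩ⁻_{2m+2}(F) of the quadratic form Σ_{i<m} x_i y_i + (z₁² + a z₁ z₂ + b z₂²) with anisotropic binary part, m ≥ 0. This group has an irreducible complex character χ whose degree equals the order of a Sylow p-subgroup (namely q^(m(m+1)) when #F = q) and whose restriction to any Sylow p-subgroup P is the regular character of P: χ vanishes on the non-identity elements of P. (This is the Steinberg character.) -/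
theorem result {F : Type*} [Field F] [Fintype F] (p : ℕ) [Fact p.Prime] [CharP F p] (m : ℕ) (a b : F) (hab : ∀ z₁ z₂ : F, z₁ ^ 2 + a * z₁ * z₂ + b * z₂ ^ 2 = 0 → z₁ = 0 ∧ z₂ = 0) : ∃ χ : Cfsg.POmega F (Cfsg.quadFormMinus m F a b) → ℂ, Cfsg.IsIrrCharacter (Cfsg.POmega F (Cfsg.quadFormMinus m F a b)) χ ∧ ∀ P : Sylow p (Cfsg.POmega F (Cfsg.quadFormMinus m F a b)), χ 1 = Nat.card P ∧ ∀ x : Cfsg.POmega F (Cfsg.quadFormMinus m F a b), x ∈ P → x ≠ 1 → χ x = 0 := by
  classical
  have hp : p.Prime := Fact.out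
  obtain ⟨f, hpf, hf⟩ := FiniteField.card F p
  haveI : Finite (Cfsg.POmega F (Cfsg.quadFormMinus m F a b)) := Quotient.finite _
  rcases Nat.lt_or_ge m 2 with hm1 | hm2
  · interval_cases m
    · obtain ⟨e⟩ := S0306.result (F := F) rfl a b hab
      exact H16.St.HS.of_card_one p (H16.St.card_one_of_dih e)
    · haveI : Fintype (GaloisField p (2 * f)) := Fintype.ofFinite _
      have hK : Fintype.card (GaloisField p (2 * f)) = Fintype.card F ^ 2 := by
        rw [← Nat.card_eq_fintype_card, GaloisField.card p (2 * f) (Nat.mul_pos two_pos f.2).ne', hf, ← pow_mul, mul_comm]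
      obtain ⟨e⟩ := S0300.result (F := F) (K := GaloisField p (2 * f)) rfl hK a b hab
      haveI : Finite (Matrix.ProjectiveSpecialLinearGroup (Fin 2) (GaloisField p (2 * f))) := Quotient.finite _
      exact H16.St.HS.congr p e (S2544.result p 2 le_rfl)
  · have hfun : ⇑(qMinus m F a b) = Cfsg.quadFormMinus m F a b := funext (qMinus_apply m F a b)
    have hnd : (ofQuad (qMinus m F a b)).Nondeg := nondeg_minus hab
    have hQ : (QuadraticMap.polarBilin (qMinus m F a b)).Nondegenerate := H16.Quad.nd_of fun x hx => hnd x hx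
    have hW : WittDec m 2 (ofQuad (qMinus m F a b)) := wittDec_minus hab
    have h5 : 5 ≤ Fintype.card ((Fin m ⊕ Fin m) ⊕ Fin 2) := by
      rw [Fintype.card_sum, Fintype.card_sum, Fintype.card_fin, Fintype.card_fin]; omega
    have hcard : Nat.card (ofQuad (qMinus m F a b)).isom = ordProd (Fintype.card F) 1 2 m * (2 * (Fintype.card F + 1)) := by
      rw [WittDec.card_isom 2 (2 * (Fintype.card F + 1)) (fun A hn h h' => Cfsg.Agent.H5.Quad.card_isom_two rfl A hn h h') m _ hnd hW, kt_id]
    have hq1 : ¬ p ∣ Fintype.card F + 1 := by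
      intro h
      have h1 : p ∣ Fintype.card F := by rw [hf]; exact dvd_pow_self p f.2.ne'
      exact hpf.one_lt.ne' (Nat.dvd_one.1 ((Nat.dvd_add_right h1).1 h))
    rw [← hfun]
    by_cases hp2 : p = 2
    · subst hp2
      refine H16.St.orth_even hQ h5 (m := m) (a := 2)
        (R := (∏ j ∈ Finset.range m, ((Fintype.card F ^ (j + 1) - 1) * (1 + 1 * Fintype.card F ^ (j + 2)))) * (Fintype.card F + 1))
        (Or.inr rfl) hW ?_ ?_ ?_
      · intro _ c c' _ e f hF
        have h1 := H16.St.finrank_pp hF (WittDec.finrank_eq m 2 _ hW)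
        obtain ⟨z, hz, hz0⟩ : ∃ z ∈ H16.St.pp (ofQuad (qMinus m F a b)) e f, z ≠ 0 := by
          by_contra hcon
          push Not at hcon
          have h2 : H16.St.pp (ofQuad (qMinus m F a b)) e f = ⊥ := (Submodule.eq_bot_iff _).2 hcon
          rw [h2, finrank_bot] at h1
          omega
        exact ⟨z, fun h => hz0 (H16.St.aniso_frame hnd hW hF hz h), (H16.St.mem_pp.1 hz).1, (H16.St.mem_pp.1 hz).2⟩
      · rw [hcard, H16.St.ordProd_split]
        ring
      · rw [hpf.dvd_mul]
        rintro (h2 | h2)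
        · refine H16.St.not_dvd_R hpf hf f.2 m 2 ?_ h2
          intro j
          rw [one_mul, hf, ← pow_mul]
          exact dvd_pow_self 2 (Nat.mul_pos f.2 (by omega)).ne'
        · exact hq1 h2
    · refine H16.St.orth_odd hQ h5 p hp2 (m := m) (a := 2) (c := 2 * (Fintype.card F + 1)) le_rfl hW hcard ?_
      rw [hpf.dvd_mul]
      rintro (h2 | h2)
      · exact hp2 ((Nat.prime_dvd_prime_iff_eq hp Nat.prime_two).1 h2)
      · exact hq1 h2

end Cfsg.Agent.S2549
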