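import Cfsg.Statements.S2550
import Cfsg.Agent.H21_GLo9
import Cfsg.Agent.H5_GL

set_option autoImplicit false
open Cfsg

namespace Cfsg.Agent.S2550



/-- Let F be a field with 2 elements and K a field with 4 elements. PSL_4(F) and PSL_3(K) have the same order (20160) but are not isomorphic. -/
theorem result {F K : Type*} [Field F] [Fintype F] [Field K] [Fintype K] (hF : Fintype.card F = 2) (hK : Fintype.card K = 4) : Nat.card (Matrix.ProjectiveSpecialLinearGroup (Fin 4) F) = Nat.card (Matrix.ProjectiveSpecialLinearGroup (Fin 3) K) ∧ ¬ Nonempty (Matrix.ProjectiveSpecialLinearGroup (Fin 4) F ≃* Matrix.ProjectiveSpecialLinearGroup (Fin 3) K) := by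
  have hc1 := Cfsg.Agent.H5.GL.card_PSL hF 4 (by norm_num)
  have hc2 := Cfsg.Agent.H5.GL.card_PSL hK 3 (by norm_num)
  simp only [Fin.prod_univ_succ, Fin.prod_univ_zero] at hc1 hc2
  norm_num at hc1 hc2
  refine ⟨by omega, ?_⟩
  rintro ⟨e⟩
  -- an element of order 15
  have h15 : 15 ∈ Set.range (orderOf : Matrix.ProjectiveSpecialLinearGroup (Fin 4) F → ℕ) := by
    obtain ⟨E, _, _, _, _, hE, hcE⟩ := Cfsg.Agent.H21.GLo.exists_ext F 4 (by norm_num)
    obtain ⟨y, hy⟩ := Cfsg.Agent.H21.GLo.exists_order (E := E) (m := 15) (by rw [hcE, hF]; norm_num)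
    have hy0 : IsUnit y := IsUnit.of_pow_eq_one (pow_orderOf_eq_one y) (by rw [hy]; norm_num)
    have := Cfsg.Agent.H21.GLo.realize_two hF hE hy0
    rwa [hy] at this
  have h15' : 15 ∈ Set.range (orderOf : Matrix.ProjectiveSpecialLinearGroup (Fin 3) K → ℕ) := by
    obtain ⟨g, hg⟩ := h15
    exact ⟨e g, by rw [MulEquiv.orderOf_eq, hg]⟩
  haveI : Fact (Nat.Prime 2) := ⟨Nat.prime_two⟩
  haveI : CharP K 2 := charP_of_card_eq_prime_pow (p := 2) (f := 2) (by rw [hK]; norm_num)
  rw [Cfsg.Agent.H21.GLo.three_spec 2, hK] at h15'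
  norm_num at h15'

end Cfsg.Agent.S2550
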