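import Cfsg.Statements.S2551
import Cfsg.Agent.H7_A7GL
import Cfsg.Agent.S0256

set_option autoImplicit false
open Cfsg

namespace Cfsg.Agent.S2551


open scoped Matrix MatrixGroups

/-- The embedding `A_7 → A_8`. -/
noncomputable def a7a8 : alternatingGroup (Fin 7) →* alternatingGroup (Fin 8) :=
  MonoidHom.codRestrict ((Equiv.Perm.extendDomainHom (finSuccAboveEquiv (Fin.last 7))).comp
    (alternatingGroup (Fin 7)).subtype) _ (by
      intro σ
      show Equiv.Perm.extendDomain (σ : Equiv.Perm (Fin 7)) _ ∈ alternatingGroup (Fin 8)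
      rw [Equiv.Perm.mem_alternatingGroup, Equiv.Perm.sign_extendDomain]
      exact Equiv.Perm.mem_alternatingGroup.1 σ.2)

theorem a7a8_injective : Function.Injective a7a8 := by
  intro σ τ h
  apply Subtype.ext
  apply Equiv.Perm.extendDomainHom_injective (finSuccAboveEquiv (Fin.last 7))
  exact congrArg Subtype.val h

theorem part_a {F : Type*} [Field F] [Fintype F] (hF : Fintype.card F = 2) :
    ∃ H : Subgroup (Matrix.GeneralLinearGroup (Fin 4) F), Nonempty (H ≃* alternatingGroup (Fin 7)) := by
  classical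
  obtain ⟨e⟩ := Cfsg.Agent.S0256.result hF
  have hu : ∀ c : F, c ≠ 0 → c = 1 := by
    intro c hc
    have h1 : Nat.card Fˣ = 1 := by
      rw [Nat.card_units, Nat.card_eq_fintype_card, hF]
    have := (Nat.card_eq_one_iff_unique.1 h1).1
    have := Subsingleton.elim (Units.mk0 c hc) 1
    exact congrArg Units.val this
  have hz : Subgroup.center (Matrix.SpecialLinearGroup (Fin 4) F) = ⊥ := by
    rw [eq_bot_iff]
    intro A hA
    rw [Matrix.SpecialLinearGroup.mem_center_iff] at hA
    obtain ⟨c, hc, hA⟩ := hA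
    have hc0 : c ≠ 0 := by
      rintro rfl
      simp at hc
    rw [Subgroup.mem_bot]
    apply Subtype.ext
    rw [← hA, hu c hc0]
    simp
  let e2 : Matrix.ProjectiveSpecialLinearGroup (Fin 4) F ≃* Matrix.SpecialLinearGroup (Fin 4) F :=
    (QuotientGroup.quotientMulEquivOfEq hz).trans QuotientGroup.quotientBot
  let f : alternatingGroup (Fin 7) →* Matrix.GeneralLinearGroup (Fin 4) F :=
    (Matrix.SpecialLinearGroup.toGL).comp
      ((e2.toMonoidHom.comp e.symm.toMonoidHom).comp a7a8)
  have hf : Function.Injective f := by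
    intro σ τ h
    apply a7a8_injective
    apply e.symm.injective
    apply e2.injective
    exact Matrix.SpecialLinearGroup.toGL_injective h
  exact ⟨f.range, ⟨(MonoidHom.ofInjective hf).symm⟩⟩


/-- Let F be the field with 2 elements. GL_4(F) (≅ A_8) has a subgroup isomorphic to the alternating group A_7, and every such subgroup acts 2-transitively on the 15 non-zero vectors of F⁴: any ordered pair of distinct non-zero vectors is carried to any other by some element of the subgroup. -/
theorem result {F : Type*} [Field F] [Fintype F] (hF : Fintype.card F = 2) : (∃ H : Subgroup (Matrix.GeneralLinearGroup (Fin 4) F), Nonempty (H ≃* alternatingGroup (Fin 7))) ∧ ∀ H : Subgroup (Matrix.GeneralLinearGroup (Fin 4) F), Nonempty (H ≃* alternatingGroup (Fin 7)) → ∀ v w v' w' : Fin 4 → F, v ≠ 0 → w ≠ 0 → v ≠ w → v' ≠ 0 → w' ≠ 0 → v' ≠ w' → ∃ g ∈ H, (g : Matrix (Fin 4) (Fin 4) F).mulVec v = v' ∧ (g : Matrix (Fin 4) (Fin 4) F).mulVec w = w' := by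
  refine ⟨part_a hF, ?_⟩
  rintro H ⟨e⟩ v w v' w' hv hw hvw hv' hw' hvw'
  exact H7.A7GL.main H hF e v w v' w' hv hw hvw hv' hw' hvw'

end Cfsg.Agent.S2551
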