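import Cfsg.Statements.S2552

set_option autoImplicit false
open Cfsg

namespace Cfsg.Agent.S2552

open Submodule

theorem exists_det {F V : Type*} [Field F] [AddCommGroup V] [Module F V] [FiniteDimensional F V] [Nontrivial V]
    (U : Submodule F V) (c : F) : ∃ D : V →ₗ[F] V, LinearMap.det D = c ∧ U.map D ≤ U := by
  classical
  obtain ⟨W, hW⟩ := U.exists_isCompl
  let b := ((Module.finBasis F U).prod (Module.finBasis F W)).map (U.prodEquivOfIsCompl W hW)
  haveI : Nonempty (Fin (Module.finrank F U) ⊕ Fin (Module.finrank F W)) := b.index_nonempty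
  obtain ⟨i0⟩ := this
  refine ⟨Matrix.toLin b b (Matrix.diagonal (fun i => if i = i0 then c else 1)), ?_, ?_⟩
  · rw [LinearMap.det_toLin, Matrix.det_diagonal, Finset.prod_ite_eq']
    simp
  · rw [Submodule.map_le_iff_le_comap]
    have hU : U = (span F (Set.range (Module.finBasis F U))).map U.subtype := by
      rw [(Module.finBasis F U).span_eq, Submodule.map_top, Submodule.range_subtype]
    intro u hu
    rw [hU] at hu
    obtain ⟨v, hv, rfl⟩ := hu
    have h1 : span F (Set.range (Module.finBasis F U)) ≤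
        ((U.comap (Matrix.toLin b b (Matrix.diagonal (fun i => if i = i0 then c else 1)))).comap U.subtype) := by
      rw [span_le]
      rintro _ ⟨i, rfl⟩
      show Matrix.toLin b b (Matrix.diagonal (fun i => if i = i0 then c else 1)) ((Module.finBasis F U i : U) : V) ∈ U
      have h2 : ((Module.finBasis F U i : U) : V) = b (Sum.inl i) := by
        simp [b]
      rw [h2, Matrix.toLin_self]
      have h3 : ∀ j, (Matrix.diagonal (fun i => if i = i0 then c else 1) : Matrix _ _ F) j (Sum.inl i) • b j =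
          if j = Sum.inl i then (if Sum.inl i = i0 then c else 1) • b (Sum.inl i) else 0 := by
        intro j
        rw [Matrix.diagonal_apply]
        split_ifs <;> simp_all
      rw [Finset.sum_congr rfl (fun j _ => h3 j), Finset.sum_ite_eq']
      simp only [Finset.mem_univ, if_true]
      rw [← h2]
      exact U.smul_mem _ (Module.finBasis F U i).2
    exact h1 hv

theorem exists_equiv {F V : Type*} [Field F] [AddCommGroup V] [Module F V] [FiniteDimensional F V]
    (U₁ U₂ : Submodule F V) (h : Module.finrank F U₁ = Module.finrank F U₂) : ∃ g : V ≃ₗ[F] V, U₁.map (g : V →ₗ[F] V) = U₂ := by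
  obtain ⟨W₁, hW₁⟩ := U₁.exists_isCompl
  obtain ⟨W₂, hW₂⟩ := U₂.exists_isCompl
  have h1 := Submodule.finrank_add_eq_of_isCompl hW₁
  have h2 := Submodule.finrank_add_eq_of_isCompl hW₂
  let e : U₁ ≃ₗ[F] U₂ := LinearEquiv.ofFinrankEq _ _ h
  let f : W₁ ≃ₗ[F] W₂ := LinearEquiv.ofFinrankEq _ _ (by omega)
  let g : V ≃ₗ[F] V := (U₁.prodEquivOfIsCompl W₁ hW₁).symm ≪≫ₗ (e.prodCongr f) ≪≫ₗ (U₂.prodEquivOfIsCompl W₂ hW₂)
  have hg : ∀ u : U₁, g u = e u := by
    intro u
    show (U₂.prodEquivOfIsCompl W₂ hW₂) ((e.prodCongr f) ((U₁.prodEquivOfIsCompl W₁ hW₁).symm u)) = _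
    rw [Submodule.prodEquivOfIsCompl_symm_apply_left]
    simp
  refine ⟨g, ?_⟩
  ext x
  constructor
  · rintro ⟨u, hu, rfl⟩
    show g u ∈ U₂
    have := hg ⟨u, hu⟩
    rw [show g u = _ from this]
    exact (e ⟨u, hu⟩).2
  · intro hx
    refine ⟨(e.symm ⟨x, hx⟩ : U₁), (e.symm ⟨x, hx⟩).2, ?_⟩
    show g (e.symm ⟨x, hx⟩ : U₁) = x
    rw [hg, LinearEquiv.apply_symm_apply]

/-- Let F be a finite field and n ≥ 1. For every k, the special linear group SL_n(F) acts transitively on the set of k-dimensional subspaces of F^n: any two subspaces of the same dimension are carried onto each other by some matrix of determinant 1. -/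
theorem result {F : Type*} [Field F] [Fintype F] (n : ℕ) (hn : 1 ≤ n) (U₁ U₂ : Submodule F (Fin n → F)) (h : Module.finrank F U₁ = Module.finrank F U₂) : ∃ g : Matrix.SpecialLinearGroup (Fin n) F, U₁.map ((Matrix.SpecialLinearGroup.toLin' g : (Fin n → F) ≃ₗ[F] (Fin n → F)) : (Fin n → F) →ₗ[F] (Fin n → F)) = U₂ := by
  classical
  haveI : NeZero n := ⟨by omega⟩
  obtain ⟨g, hg⟩ := exists_equiv U₁ U₂ h
  have hdg : LinearMap.det (g : (Fin n → F) →ₗ[F] (Fin n → F)) ≠ 0 := (LinearEquiv.isUnit_det' g).ne_zero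
  obtain ⟨D, hD, hDU⟩ := exists_det U₁ (LinearMap.det (g : (Fin n → F) →ₗ[F] (Fin n → F)))⁻¹
  have hdet : LinearMap.det ((g : (Fin n → F) →ₗ[F] (Fin n → F)) ∘ₗ D) = 1 := by
    rw [LinearMap.det_comp, hD, mul_inv_cancel₀ hdg]
  have hDi : Function.Injective D := by
    have h1 : IsUnit (LinearMap.det D) := by rw [hD]; exact (inv_ne_zero hdg).isUnit
    exact (LinearEquiv.ofIsUnitDet (f := D) (v := Pi.basisFun F (Fin n)) (v' := Pi.basisFun F (Fin n)) (by rw [← LinearMap.det_toMatrix (Pi.basisFun F (Fin n))] at h1; exact h1)).injective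
  have hDeq : U₁.map D = U₁ := by
    apply Submodule.eq_of_le_of_finrank_eq hDU
    exact (LinearEquiv.finrank_eq (Submodule.equivMapOfInjective D hDi U₁)).symm
  refine ⟨⟨LinearMap.toMatrix' ((g : (Fin n → F) →ₗ[F] (Fin n → F)) ∘ₗ D), by rw [LinearMap.det_toMatrix', hdet]⟩, ?_⟩
  have h2 : ((Matrix.SpecialLinearGroup.toLin' (⟨LinearMap.toMatrix' ((g : (Fin n → F) →ₗ[F] (Fin n → F)) ∘ₗ D), by rw [LinearMap.det_toMatrix', hdet]⟩ : Matrix.SpecialLinearGroup (Fin n) F) : (Fin n → F) ≃ₗ[F] (Fin n → F)) : (Fin n → F) →ₗ[F] (Fin n → F)) = (g : (Fin n → F) →ₗ[F] (Fin n → F)) ∘ₗ D := by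
    apply LinearMap.ext
    intro v
    show Matrix.toLin' (LinearMap.toMatrix' ((g : (Fin n → F) →ₗ[F] (Fin n → F)) ∘ₗ D)) v = _
    rw [Matrix.toLin'_toMatrix']
  rw [h2, Submodule.map_comp, hDeq, hg]

end Cfsg.Agent.S2552
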