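import Cfsg.Agent.H16_F2
import Cfsg.Statements.S2561
-- import your own Cfsg.Agent.* helpers here

set_option autoImplicit false
open Cfsg

namespace Cfsg.Agent.S2561

open Cfsg.Agent.H16.Quad Module in

/-- Fix the non-singular alternating form on the 2m-dimensional space over the field of two elements obtained by polarizing the plus-type form Σ xᵢyᵢ (m ≥ 1). The functions q on the space with q(u + v) = q(u) + q(v) + f(u, v) (the quadratic forms polarizing to f) number 2^(2m); each is equivalent under an invertible linear map either to the plus-type form or to the minus-type form Σ xᵢyᵢ + (z₁² + z₁z₂ + z₂²); and those of plus type number 2^(2m−1) + 2^(m−1), those of minus type 2^(2m−1) − 2^(m−1). -/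
theorem result (m : ℕ) (hm : 1 ≤ m) :
    Nat.card {q : (Fin m ⊕ Fin m → ZMod 2) → ZMod 2 // (∀ u v : (Fin m ⊕ Fin m → ZMod 2), q (u + v) = q u + q v + (Cfsg.quadFormPlus m (ZMod 2) (u + v) - Cfsg.quadFormPlus m (ZMod 2) u - Cfsg.quadFormPlus m (ZMod 2) v))} = 2 ^ (2 * m) ∧
    (∀ q : (Fin m ⊕ Fin m → ZMod 2) → ZMod 2, (∀ u v : (Fin m ⊕ Fin m → ZMod 2), q (u + v) = q u + q v + (Cfsg.quadFormPlus m (ZMod 2) (u + v) - Cfsg.quadFormPlus m (ZMod 2) u - Cfsg.quadFormPlus m (ZMod 2) v)) →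
      (∃ g : (Fin m ⊕ Fin m → ZMod 2) ≃ₗ[ZMod 2] (Fin m ⊕ Fin m → ZMod 2), ∀ v, q v = Cfsg.quadFormPlus m (ZMod 2) (g v)) ∨
      (∃ g : (Fin m ⊕ Fin m → ZMod 2) ≃ₗ[ZMod 2] ((Fin (m - 1) ⊕ Fin (m - 1)) ⊕ Fin 2 → ZMod 2), ∀ v, q v = Cfsg.quadFormMinus (m - 1) (ZMod 2) 1 1 (g v))) ∧
    Nat.card {q : (Fin m ⊕ Fin m → ZMod 2) → ZMod 2 // (∀ u v : (Fin m ⊕ Fin m → ZMod 2), q (u + v) = q u + q v + (Cfsg.quadFormPlus m (ZMod 2) (u + v) - Cfsg.quadFormPlus m (ZMod 2) u - Cfsg.quadFormPlus m (ZMod 2) v)) ∧ ∃ g : (Fin m ⊕ Fin m → ZMod 2) ≃ₗ[ZMod 2] (Fin m ⊕ Fin m → ZMod 2), ∀ v, q v = Cfsg.quadFormPlus m (ZMod 2) (g v)} = 2 ^ (2 * m - 1) + 2 ^ (m - 1) ∧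
    Nat.card {q : (Fin m ⊕ Fin m → ZMod 2) → ZMod 2 // (∀ u v : (Fin m ⊕ Fin m → ZMod 2), q (u + v) = q u + q v + (Cfsg.quadFormPlus m (ZMod 2) (u + v) - Cfsg.quadFormPlus m (ZMod 2) u - Cfsg.quadFormPlus m (ZMod 2) v)) ∧ ∃ g : (Fin m ⊕ Fin m → ZMod 2) ≃ₗ[ZMod 2] ((Fin (m - 1) ⊕ Fin (m - 1)) ⊕ Fin 2 → ZMod 2), ∀ v, q v = Cfsg.quadFormMinus (m - 1) (ZMod 2) 1 1 (g v)} = 2 ^ (2 * m - 1) - 2 ^ (m - 1) := by
  classical
  have hV : finrank (ZMod 2) (Fin m ⊕ Fin m → ZMod 2) = 2 * m := by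
    rw [Module.finrank_fintype_fun_eq_card, Fintype.card_sum, Fintype.card_fin]; ring
  have hirr : ∀ t : ZMod 2, t ^ 2 + t + 1 ≠ 0 := by decide
  have hcV : Nat.card (Fin m ⊕ Fin m → ZMod 2) = 2 ^ (2 * m) := by
    rw [Nat.card_eq_fintype_card, Fintype.card_fun, ZMod.card, Fintype.card_sum, Fintype.card_fin, two_mul]
  rw [← coe_plusQ, ← coe_minusQ]
  -- parametrisation
  let e : (Fin m ⊕ Fin m → ZMod 2) ≃ {q : (Fin m ⊕ Fin m → ZMod 2) → ZMod 2 // IsPol m q} :=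
    Equiv.ofBijective (fun u => ⟨qu m u, isPol_qu u⟩) ⟨fun u u' h => by
      obtain ⟨w, -, hw⟩ := exists_qu (isPol_qu (m := m) u)
      rw [hw u rfl, hw u' (congrArg Subtype.val h)], fun q => by
      obtain ⟨u, hu, -⟩ := exists_qu q.2
      exact ⟨u, Subtype.ext hu.symm⟩⟩
  -- plus type iff `q_0 u = 0`
  have hplus : ∀ u : Fin m ⊕ Fin m → ZMod 2, (∃ g : (Fin m ⊕ Fin m → ZMod 2) ≃ₗ[ZMod 2] (Fin m ⊕ Fin m → ZMod 2), ∀ v, qu m u v = plusQ (ZMod 2) m (g v)) ↔ plusQ (ZMod 2) m u = 0 :=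
    fun u => shift_isom_iff isPol_plus u
  have hdich : ∀ u : Fin m ⊕ Fin m → ZMod 2, (∃ g : (Fin m ⊕ Fin m → ZMod 2) ≃ₗ[ZMod 2] (Fin m ⊕ Fin m → ZMod 2), ∀ v, qu m u v = plusQ (ZMod 2) m (g v)) ∨
      (∃ g : (Fin m ⊕ Fin m → ZMod 2) ≃ₗ[ZMod 2] ((Fin (m - 1) ⊕ Fin (m - 1)) ⊕ Fin 2 → ZMod 2), ∀ v, qu m u v = minusQ (ZMod 2) (m - 1) 1 1 (g v)) := by
    intro u
    rcases plus_or_minus (nd_quF u) (m := m - 1) (by rw [hV]; omega) with h | h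
    · left
      have h' : IsPlus (quF m u) m := by rwa [Nat.sub_add_cancel hm] at h
      obtain ⟨g, hg⟩ := h'.isom (plusQ_isPlus (F := ZMod 2) m)
      exact ⟨g, fun v => by rw [hg, coe_quF]⟩
    · right
      obtain ⟨g, hg⟩ := IsMinus.isom (nd_quF u) (nd_minusQ (m - 1) (aniso_of_irred hirr)) h (minusQ_isMinus (m - 1) (aniso_of_irred hirr))
      exact ⟨g, fun v => by rw [hg, coe_quF]⟩
  have hexcl : ∀ u : Fin m ⊕ Fin m → ZMod 2, (∃ g : (Fin m ⊕ Fin m → ZMod 2) ≃ₗ[ZMod 2] (Fin m ⊕ Fin m → ZMod 2), ∀ v, qu m u v = plusQ (ZMod 2) m (g v)) →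
      (∃ g : (Fin m ⊕ Fin m → ZMod 2) ≃ₗ[ZMod 2] ((Fin (m - 1) ⊕ Fin (m - 1)) ⊕ Fin 2 → ZMod 2), ∀ v, qu m u v = minusQ (ZMod 2) (m - 1) 1 1 (g v)) → False := by
    rintro u ⟨g, hg⟩ ⟨k, hk⟩
    have h1 : IsPlus (quF m u) m := by
      refine (plusQ_isPlus (F := ZMod 2) m).map (φ := g.symm) fun v => ?_
      rw [coe_quF, hg, LinearEquiv.apply_symm_apply]
    have h2 : IsPlus (minusQ (ZMod 2) (m - 1) 1 1) m := by
      refine h1.map (φ := k) fun v => ?_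
      rw [← hk, coe_quF]
    rw [← Nat.sub_add_cancel hm] at h2
    exact not_plus_and_minus (nd_minusQ (m - 1) (aniso_of_irred hirr)) h2 (minusQ_isMinus (m - 1) (aniso_of_irred hirr))
  have hminus : ∀ u : Fin m ⊕ Fin m → ZMod 2, (∃ g : (Fin m ⊕ Fin m → ZMod 2) ≃ₗ[ZMod 2] ((Fin (m - 1) ⊕ Fin (m - 1)) ⊕ Fin 2 → ZMod 2), ∀ v, qu m u v = minusQ (ZMod 2) (m - 1) 1 1 (g v)) ↔ ¬ plusQ (ZMod 2) m u = 0 := by
    intro u
    rw [← hplus]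
    constructor
    · intro h1 h2; exact hexcl u h2 h1
    · intro h; exact (hdich u).resolve_left h
  have hNZ := NZ_plus (m := m)
  obtain ⟨k, rfl⟩ : ∃ k, m = k + 1 := ⟨m - 1, by omega⟩
  have hp1 : (2 : ℕ) ^ (2 * (k + 1)) = 2 * 2 ^ (2 * (k + 1) - 1) := by
    rw [← pow_succ']; congr 1
  have hp2 : (2 : ℕ) ^ (k + 1) = 2 * 2 ^ (k + 1 - 1) := by
    rw [← pow_succ']; congr 1
  have hp3 : (4 : ℕ) ^ (k + 1) = 2 ^ (2 * (k + 1)) := by rw [pow_mul]; norm_num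
  rw [hp3, hp1, hp2] at hNZ
  refine ⟨?_, ?_, ?_, ?_⟩
  · rw [← hcV]; exact (Nat.card_congr e).symm
  · intro q hq
    obtain ⟨u, rfl, -⟩ := exists_qu (show IsPol (k + 1) q from hq)
    exact hdich u
  · have h1 := Nat.card_congr (e.subtypeEquiv (p := fun u => plusQ (ZMod 2) (k + 1) u = 0)
      (q := fun q => ∃ g : (Fin (k + 1) ⊕ Fin (k + 1) → ZMod 2) ≃ₗ[ZMod 2] (Fin (k + 1) ⊕ Fin (k + 1) → ZMod 2), ∀ v, q.1 v = plusQ (ZMod 2) (k + 1) (g v))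
      (fun u => (hplus u).symm))
    have h2 := Nat.card_congr (Equiv.subtypeSubtypeEquivSubtypeInter (IsPol (k + 1)) (fun q => ∃ g : (Fin (k + 1) ⊕ Fin (k + 1) → ZMod 2) ≃ₗ[ZMod 2] (Fin (k + 1) ⊕ Fin (k + 1) → ZMod 2), ∀ v, q v = plusQ (ZMod 2) (k + 1) (g v)))
    refine h2.symm.trans (h1.symm.trans ?_)
    change NZ (plusQ (ZMod 2) (k + 1)) = _
    omega
  · have h1 := Nat.card_congr (e.subtypeEquiv (p := fun u => ¬ plusQ (ZMod 2) (k + 1) u = 0)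
      (q := fun q => ∃ g : (Fin (k + 1) ⊕ Fin (k + 1) → ZMod 2) ≃ₗ[ZMod 2] ((Fin (k + 1 - 1) ⊕ Fin (k + 1 - 1)) ⊕ Fin 2 → ZMod 2), ∀ v, q.1 v = minusQ (ZMod 2) (k + 1 - 1) 1 1 (g v))
      (fun u => (hminus u).symm))
    have h2 := Nat.card_congr (Equiv.subtypeSubtypeEquivSubtypeInter (IsPol (k + 1)) (fun q => ∃ g : (Fin (k + 1) ⊕ Fin (k + 1) → ZMod 2) ≃ₗ[ZMod 2] ((Fin (k + 1 - 1) ⊕ Fin (k + 1 - 1)) ⊕ Fin 2 → ZMod 2), ∀ v, q v = minusQ (ZMod 2) (k + 1 - 1) 1 1 (g v)))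
    refine h2.symm.trans (h1.symm.trans ?_)
    have h3 := Fintype.card_subtype_compl (fun u => plusQ (ZMod 2) (k + 1) u = 0)
    rw [← Nat.card_eq_fintype_card, ← Nat.card_eq_fintype_card, ← Nat.card_eq_fintype_card, hcV] at h3
    rw [h3]
    change _ - NZ (plusQ (ZMod 2) (k + 1)) = _
    omega

end Cfsg.Agent.S2561
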