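import Cfsg.Statements.S2562
import Cfsg.Agent.H16_Quad5

set_option autoImplicit false
open Cfsg

namespace Cfsg.Agent.S2562

open Cfsg.Agent.H16.Quad Module

theorem result (m : ℕ) (hm : 1 ≤ m) :
    (∃ U : Submodule (ZMod 2) (Fin m ⊕ Fin m → ZMod 2), (∀ u ∈ U, Cfsg.quadFormPlus m (ZMod 2) u = 0) ∧ Module.finrank (ZMod 2) ↥U = m) ∧
    (∀ U : Submodule (ZMod 2) (Fin m ⊕ Fin m → ZMod 2), (∀ u ∈ U, Cfsg.quadFormPlus m (ZMod 2) u = 0) → Module.finrank (ZMod 2) ↥U ≤ m) ∧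
    (∃ U : Submodule (ZMod 2) ((Fin (m - 1) ⊕ Fin (m - 1)) ⊕ Fin 2 → ZMod 2), (∀ u ∈ U, Cfsg.quadFormMinus (m - 1) (ZMod 2) 1 1 u = 0) ∧ Module.finrank (ZMod 2) ↥U = m - 1) ∧
    (∀ U : Submodule (ZMod 2) ((Fin (m - 1) ⊕ Fin (m - 1)) ⊕ Fin 2 → ZMod 2), (∀ u ∈ U, Cfsg.quadFormMinus (m - 1) (ZMod 2) 1 1 u = 0) → Module.finrank (ZMod 2) ↥U ≤ m - 1) := by
  simp only [← coe_plusQ, ← coe_minusQ]
  have hirr : ∀ t : ZMod 2, t ^ 2 + t + 1 ≠ 0 := by decide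
  have hm1 : IsMinus (minusQ (ZMod 2) (m - 1) 1 1) (m - 1) := minusQ_isMinus _ (aniso_of_irred hirr)
  have hp1 : IsPlus (plusQ (ZMod 2) m) m := plusQ_isPlus m
  refine ⟨?_, ?_, ?_, ?_⟩
  · obtain ⟨U, hU, hd⟩ := hp1.exists_ts
    exact ⟨U, hU, hd⟩
  · intro U hU
    have := ts_finrank_le (nd_plusQ (F := ZMod 2) m) (U := U) hU
    rw [hp1.1] at this
    omega
  · obtain ⟨U, hU, hd⟩ := hm1.exists_ts
    exact ⟨U, hU, hd⟩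
  · intro U hU
    exact hm1.ts_le (nd_minusQ (m - 1) (aniso_of_irred hirr)) hU

end Cfsg.Agent.S2562
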