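import Cfsg.Statements.S2567

set_option autoImplicit false
open Cfsg

namespace Cfsg.Agent.S2567

theorem gen {G : Type*} [Group G] [Finite G] {r : ℕ} (hr : r.Prime) (hc : (Nat.card (Subgroup.center G)).Coprime r)
    (x : G ⧸ Subgroup.center G) (hx : orderOf x = r) :
    ∃! g : G, (QuotientGroup.mk g : G ⧸ Subgroup.center G) = x ∧ orderOf g = r := by
  have hpow : ∀ z : Subgroup.center G, z ^ r = 1 → z = 1 := by
    intro z hz
    have h1 : orderOf z ∣ r := orderOf_dvd_of_pow_eq_one hz
    have h2 : orderOf z ∣ Nat.card (Subgroup.center G) := orderOf_dvd_natCard z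
    have h3 : orderOf z ∣ 1 := by
      have := Nat.dvd_gcd h2 h1
      rwa [Nat.Coprime.gcd_eq_one hc] at this
    exact orderOf_eq_one_iff.1 (Nat.dvd_one.1 h3)
  have hinj : Function.Injective (fun z : Subgroup.center G => z ^ r) := by
    intro a b hab
    have h1 : (a * b⁻¹) ^ r = 1 := by
      have hab' : a ^ r = b ^ r := hab
      have hcab : Commute a b⁻¹ := by
        apply Subtype.ext
        exact (Subgroup.mem_center_iff.1 a.2 _).symm
      rw [hcab.mul_pow, inv_pow]; exact mul_inv_eq_one.2 hab'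
    exact mul_inv_eq_one.1 (hpow _ h1)
  have hsurj : Function.Surjective (fun z : Subgroup.center G => z ^ r) := Finite.surjective_of_injective hinj
  obtain ⟨g0, rfl⟩ := QuotientGroup.mk_surjective x
  have hg0 : g0 ^ r ∈ Subgroup.center G := by
    rw [← QuotientGroup.eq_one_iff, QuotientGroup.mk_pow, ← hx, pow_orderOf_eq_one]
  obtain ⟨w, hw⟩ := hsurj ⟨g0 ^ r, hg0⟩
  have hw' : (w : G) ^ r = g0 ^ r := congrArg Subtype.val hw
  have hcomm : ∀ z : Subgroup.center G, ∀ g : G, g * z = z * g := fun z g => Subgroup.mem_center_iff.1 z.2 g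
  refine ⟨g0 * (w : G)⁻¹, ⟨?_, ?_⟩, ?_⟩
  · show (QuotientGroup.mk (g0 * (w : G)⁻¹) : G ⧸ Subgroup.center G) = QuotientGroup.mk g0
    rw [QuotientGroup.eq]
    have : (g0 * (w : G)⁻¹)⁻¹ * g0 = w := by group
    rw [this]; exact w.2
  · apply orderOf_eq_prime_iff (hp := ⟨hr⟩) |>.2
    constructor
    · have hc1 : Commute g0 (w : G)⁻¹ := by
        have : Commute g0 (w : G) := hcomm w g0
        exact this.inv_right
      rw [hc1.mul_pow, inv_pow, hw', mul_inv_cancel]
    · intro h
      have h1 : g0 = w := mul_inv_eq_one.1 h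
      have h2 : (QuotientGroup.mk g0 : G ⧸ Subgroup.center G) = 1 := by
        rw [QuotientGroup.eq_one_iff, h1]; exact w.2
      rw [h2, orderOf_one] at hx
      exact hr.one_lt.ne hx
  · rintro g ⟨h1, h2⟩
    have h3 : (g0 * (w : G)⁻¹)⁻¹ * g ∈ Subgroup.center G := by
      have h4 : g0⁻¹ * g ∈ Subgroup.center G := QuotientGroup.eq.1 h1.symm
      have : (g0 * (w : G)⁻¹)⁻¹ * g = w * (g0⁻¹ * g) := by group
      rw [this]
      exact (Subgroup.center G).mul_mem w.2 h4
    have hc1 : Commute g0 (w : G)⁻¹ := by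
      have : Commute g0 (w : G) := hcomm w g0
      exact this.inv_right
    set z : Subgroup.center G := ⟨_, h3⟩ with hz
    have hg : g = g0 * (w : G)⁻¹ * z := by rw [hz]; group
    have h5 : (z : G) ^ r = 1 := by
      have h6 : g ^ r = 1 := by rw [← h2]; exact pow_orderOf_eq_one g
      have hc2 : Commute (g0 * (w : G)⁻¹) (z : G) := hcomm z _
      rw [hg, hc2.mul_pow, hc1.mul_pow, inv_pow, hw', mul_inv_cancel, one_mul] at h6
      exact h6
    have h7 : z = 1 := hpow z (Subtype.ext h5)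
    rw [hg, h7]; simp

theorem result {F : Type*} [Field F] [Fintype F] {q n r : ℕ} (hF : Fintype.card F = q) (hr : r.Prime) (hdiv : ¬ r ∣ q - 1) (x : GL (Fin n) F ⧸ Subgroup.center (GL (Fin n) F)) (hx : orderOf x = r) : ∃! g : GL (Fin n) F, (QuotientGroup.mk g : GL (Fin n) F ⧸ Subgroup.center (GL (Fin n) F)) = x ∧ orderOf g = r := by
  refine gen hr ?_ x hx
  have h1 : Nat.card (Subgroup.center (GL (Fin n) F)) ∣ q - 1 := by
    rw [Matrix.GeneralLinearGroup.center_eq_range_scalar]
    have := Subgroup.card_range_dvd (Matrix.GeneralLinearGroup.scalar (R := F) (Fin n))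
    rwa [Nat.card_units, Nat.card_eq_fintype_card (α := F), hF] at this
  exact (Nat.Coprime.coprime_dvd_left h1 ((Nat.Prime.coprime_iff_not_dvd hr).2 hdiv).symm)

end Cfsg.Agent.S2567
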