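import Cfsg.Agent.H16_Ss
import Cfsg.Statements.S2569
-- import your own Cfsg.Agent.* helpers here

set_option autoImplicit false
open Cfsg

namespace Cfsg.Agent.S2569

/-- In GL_n over a finite field of characteristic p, the conjugacy class of a semisimple element (an element of order prime to p) under the special linear group is its whole GL-conjugacy class: for every such x and every invertible g there is h of determinant one with h x h⁻¹ = g x g⁻¹. -/
theorem result {F : Type*} [Field F] [Fintype F] {p : ℕ} [Fact p.Prime] [CharP F p] {n : ℕ} (x g : GL (Fin n) F) (hx : (orderOf x).Coprime p) : ∃ h : GL (Fin n) F, (h : Matrix (Fin n) (Fin n) F).det = 1 ∧ h * x * h⁻¹ = g * x * g⁻¹ := by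
  rcases Nat.eq_zero_or_pos n with rfl | hn
  · exact ⟨g, Matrix.det_isEmpty, rfl⟩
  · obtain ⟨u, hu, hd⟩ := Cfsg.Agent.H16.Ss.exists_mat (by omega) x
      (Cfsg.Agent.H16.Ss.semisimple_of_order x (orderOf_pos x).ne' hx) (Matrix.GeneralLinearGroup.det g)
    refine ⟨g * u⁻¹, ?_, ?_⟩
    · have h1 : Matrix.GeneralLinearGroup.det (g * u⁻¹) = 1 := by
        have h2 : Matrix.GeneralLinearGroup.det u = Matrix.GeneralLinearGroup.det g := Units.ext hd
        rw [map_mul, map_inv, h2, mul_inv_cancel]
      exact congrArg Units.val h1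
    · have h3 : u⁻¹ * x * u = x := by rw [mul_assoc, ← hu, inv_mul_cancel_left]
      calc g * u⁻¹ * x * (g * u⁻¹)⁻¹ = g * (u⁻¹ * x * u) * g⁻¹ := by group
        _ = g * x * g⁻¹ := by rw [h3]

end Cfsg.Agent.S2569
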