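import Cfsg.Statements.S2573
import Cfsg.Agent.H19_RegUni

set_option autoImplicit false
open Cfsg

namespace Cfsg.Agent.S2573

open Module

theorem ker_le {F : Type*} [Field F] {ι : Type*} [Fintype ι] [DecidableEq ι] (u : Matrix ι ι F) (m : ℕ) (hm : Fintype.card ι = m)
    (hreg : (u - 1).rank = m - 1) : finrank F (LinearMap.ker (Matrix.mulVecLin (u - 1))) ≤ 1 := by
  have h1 := (Matrix.mulVecLin (u - 1)).finrank_range_add_finrank_ker
  rw [Module.finrank_pi, hm] at h1
  have h2 : finrank F (LinearMap.range (Matrix.mulVecLin (u - 1))) = m - 1 := hreg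
  omega

theorem pow_eq {F : Type*} [Field F] {ι : Type*} [Fintype ι] [DecidableEq ι] (u : Matrix ι ι F) (k : ℕ) :
    Matrix.mulVecLin (u ^ k) = ((Matrix.mulVecLin u : Module.End F (ι → F)) ^ k : Module.End F (ι → F)) :=
  map_pow (Matrix.toLinAlgEquiv' : Matrix ι ι F ≃ₐ[F] _) u k

/-- The invariant subspaces of a regular unipotent matrix form a chain: over a finite field, if u is an n × n matrix with (u − 1)^n = 0 and rank(u − 1) = n − 1, then every subspace W of F^n with u W ⊆ W is the kernel of (u − 1)^(dim W); so u has at most one invariant subspace of each dimension. -/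
theorem result {F : Type*} [Field F] [Finite F] {n : ℕ} (u : Matrix (Fin n) (Fin n) F) (hnil : (u - 1) ^ n = 0) (hreg : (u - 1).rank = n - 1) (W : Submodule F (Fin n → F)) (hW : ∀ v ∈ W, u.mulVec v ∈ W) : W = LinearMap.ker (Matrix.mulVecLin ((u - 1) ^ Module.finrank F W)) := by
  have h := H19.RegUni.invariant_eq (Matrix.mulVecLin (u - 1) : Module.End F (Fin n → F)) (n := n) (by simp)
    (by rw [← pow_eq, hnil]; exact Matrix.mulVecLin_zero) (ker_le u n (by simp) hreg) W (by
      intro v hv
      show (u - 1).mulVec v ∈ W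
      rw [Matrix.sub_mulVec, Matrix.one_mulVec]
      exact W.sub_mem (hW v hv) hv)
  rw [← pow_eq] at h
  exact h

end Cfsg.Agent.S2573
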