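import Cfsg.Statements.S2571
import Cfsg.Agent.H19_RegUni
import Cfsg.Agent.S2573

set_option autoImplicit false
open Cfsg

namespace Cfsg.Agent.S2571

open Module

/-- Centraliser of a regular unipotent element in GL_n(q): if u is an invertible n × n matrix over the field with q elements, n ≥ 1, with (u − 1)^n = 0 and rank(u − 1) = n − 1 (a single unipotent Jordan block), then its centraliser in GL_n(q) has order (q − 1) q^(n−1). -/
theorem result {F : Type*} [Field F] [Fintype F] {q n : ℕ} (hF : Fintype.card F = q) (hn : 1 ≤ n) (u : GL (Fin n) F) (hnil : ((u : Matrix (Fin n) (Fin n) F) - 1) ^ n = 0) (hreg : ((u : Matrix (Fin n) (Fin n) F) - 1).rank = n - 1) : Nat.card ↥(Subgroup.centralizer ({u} : Set (GL (Fin n) F))) = (q - 1) * q ^ (n - 1) := by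
  classical
  subst hF
  have hk := Cfsg.Agent.S2573.ker_le (u : Matrix (Fin n) (Fin n) F) n (by simp) hreg
  have hnl : ((Matrix.mulVecLin ((u : Matrix (Fin n) (Fin n) F) - 1) : Module.End F (Fin n → F)) ^ n : Module.End F _) = 0 := by
    rw [← Cfsg.Agent.S2573.pow_eq, hnil]; exact Matrix.mulVecLin_zero
  have hc := H19.RegUni.card_centralizer _ hn (by simp : finrank F (Fin n → F) = n) hnl hk
  let A : Matrix (Fin n) (Fin n) F ≃ₐ[F] Module.End F (Fin n → F) := Matrix.toLinAlgEquiv'
  have hA : ∀ M : Matrix (Fin n) (Fin n) F, A M = Matrix.mulVecLin M := fun M => rfl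
  let e : GL (Fin n) F ≃* (Module.End F (Fin n → F))ˣ := Units.mapEquiv A.toMulEquiv
  have he : ∀ g : GL (Fin n) F, ((e g : (Module.End F (Fin n → F))ˣ) : Module.End F (Fin n → F)) = A g := fun g => rfl
  have key : Nat.card ↥(Subgroup.centralizer ({u} : Set (GL (Fin n) F))) =
      Nat.card {g : (Module.End F (Fin n → F))ˣ // Commute (g : Module.End F (Fin n → F)) (Matrix.mulVecLin ((u : Matrix (Fin n) (Fin n) F) - 1))} := by
    apply Nat.card_congr
    refine e.toEquiv.subtypeEquiv ?_
    intro g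
    rw [Subgroup.mem_centralizer_iff]
    simp only [Set.mem_singleton_iff, forall_eq]
    show u * g = g * u ↔ A (g : Matrix (Fin n) (Fin n) F) * A ((u : Matrix (Fin n) (Fin n) F) - 1) = A ((u : Matrix (Fin n) (Fin n) F) - 1) * A (g : Matrix (Fin n) (Fin n) F)
    rw [← map_mul, ← map_mul, A.injective.eq_iff, mul_sub, sub_mul, mul_one, one_mul, sub_left_inj, ← Units.val_mul, ← Units.val_mul,
      Units.val_inj, eq_comm]
  rw [key, hc, Nat.card_eq_fintype_card]
  obtain ⟨k, rfl⟩ : ∃ k, n = k + 1 := ⟨n - 1, by omega⟩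
  rw [Nat.add_sub_cancel, pow_succ, Nat.sub_mul, one_mul, mul_comm]

end Cfsg.Agent.S2571
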