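import Cfsg.Statements.S2574
import Cfsg.Agent.H19_RegUni
import Cfsg.Agent.S2573
import Cfsg.Agent.H5_Concrete

set_option autoImplicit false
open Cfsg

namespace Cfsg.Agent.S2574

open Module

/-- A regular unipotent element of the symplectic group has totally isotropic small invariant subspaces: over a finite field, if u ∈ Sp_2m(F) satisfies (u − 1)^(2m) = 0 and rank(u − 1) = 2m − 1, and W is a u-invariant subspace with 2 dim W ≤ 2m, then the alternating form vanishes identically on W. -/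
theorem result {F : Type*} [Field F] [Finite F] {m : ℕ} (u : Matrix.symplecticGroup (Fin m) F) (hnil : ((u : Matrix (Fin m ⊕ Fin m) (Fin m ⊕ Fin m) F) - 1) ^ (2 * m) = 0) (hreg : ((u : Matrix (Fin m ⊕ Fin m) (Fin m ⊕ Fin m) F) - 1).rank = 2 * m - 1) (W : Submodule F (Fin m ⊕ Fin m → F)) (hW : ∀ v ∈ W, (u : Matrix (Fin m ⊕ Fin m) (Fin m ⊕ Fin m) F).mulVec v ∈ W) (hdim : 2 * Module.finrank F W ≤ 2 * m) : ∀ v ∈ W, ∀ w ∈ W, Cfsg.sympForm m F v w = 0 := by
  classical
  obtain ⟨U, hU⟩ : ∃ U : Matrix (Fin m ⊕ Fin m) (Fin m ⊕ Fin m) F, U = (u : Matrix (Fin m ⊕ Fin m) (Fin m ⊕ Fin m) F) := ⟨_, rfl⟩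
  rw [← hU] at hnil hreg hW
  have hcard : Fintype.card (Fin m ⊕ Fin m) = 2 * m := by simp; ring
  have hV : finrank F (Fin m ⊕ Fin m → F) = 2 * m := by rw [Module.finrank_pi, hcard]
  have hk := Cfsg.Agent.S2573.ker_le U (2 * m) hcard hreg
  have hn : ((Matrix.mulVecLin (U - 1) : Module.End F (Fin m ⊕ Fin m → F)) ^ (2 * m) : Module.End F _) = 0 := by
    rw [← Cfsg.Agent.S2573.pow_eq, hnil]; exact Matrix.mulVecLin_zero
  have hform : ∀ v w, Cfsg.sympForm m F (U.mulVec v) (U.mulVec w) = Cfsg.sympForm m F v w := by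
    have := (H5.Conc.mem_symplecticGroup_iff u.1).1 u.2
    rw [hU]; exact this
  let B := H5.Conc.sympB m F
  have hB : ∀ v w, B v w = Cfsg.sympForm m F v w := H5.Conc.sympB_apply m F
  have hBr : B.IsRefl := (H5.Conc.sympB_alt m F).isRefl
  have hBnd : B.Nondegenerate := by
    have h0 : ∀ v, (∀ w, B v w = 0) → v = 0 := by
      intro v hv
      ext i
      rcases i with i | i
      · have h1 := hv (Pi.single (.inr i) 1)
        have h2 := hBr _ _ h1
        rw [hB, H5.Conc.sympForm_single_inr] at h2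
        exact h2
      · have h1 := hv (Pi.single (.inl i) 1)
        have h2 := hBr _ _ h1
        rw [hB, H5.Conc.sympForm_single_inl, neg_eq_zero] at h2
        exact h2
    exact ⟨h0, fun v hv => h0 v (fun w => hBr _ _ (hv w))⟩
  -- u is injective
  have hinj : ∀ v, U.mulVec v = 0 → v = 0 := by
    intro v hv
    apply hBnd.1
    intro w
    rw [hB, ← hform, hv]
    rw [← hB]; simp
  -- surjective on W
  have hsurjW : ∀ w ∈ W, ∃ w' ∈ W, U.mulVec w' = w := by
    intro w hw
    let f : W →ₗ[F] W := (Matrix.mulVecLin U).restrict hW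
    have hf : Function.Injective f := by
      rw [← LinearMap.ker_eq_bot, LinearMap.ker_eq_bot']
      rintro ⟨x, hx⟩ h
      exact Subtype.ext (hinj x (congrArg Subtype.val h))
    obtain ⟨⟨w', hw'⟩, h⟩ := (LinearMap.injective_iff_surjective.1 hf) ⟨w, hw⟩
    exact ⟨w', hw', congrArg Subtype.val h⟩
  have hperp : ∀ v ∈ B.orthogonal W, U.mulVec v ∈ B.orthogonal W := by
    intro v hv
    rw [LinearMap.BilinForm.mem_orthogonal_iff] at hv ⊢
    intro w hw
    obtain ⟨w', hw', rfl⟩ := hsurjW w hw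
    show B _ _ = 0
    rw [hB, hform, ← hB]
    exact hv w' hw'
  have hinv : ∀ (X : Submodule F (Fin m ⊕ Fin m → F)), (∀ v ∈ X, U.mulVec v ∈ X) → ∀ v ∈ X, (Matrix.mulVecLin (U - 1)) v ∈ X := by
    intro X hX v hv
    show (U - 1).mulVec v ∈ X
    rw [Matrix.sub_mulVec, Matrix.one_mulVec]
    exact X.sub_mem (hX v hv) hv
  have h1 := H19.RegUni.invariant_eq _ hV hn hk W (hinv W hW)
  have h2 := H19.RegUni.invariant_eq _ hV hn hk (B.orthogonal W) (hinv _ hperp)
  have h3 := LinearMap.BilinForm.finrank_orthogonal hBnd W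
  rw [hV] at h3
  intro v hv w hw
  have h4 : w ∈ B.orthogonal W := by
    rw [h2, LinearMap.mem_ker]
    rw [h1, LinearMap.mem_ker] at hw
    have h5 : finrank F (B.orthogonal W) = (finrank F (B.orthogonal W) - finrank F W) + finrank F W := by
      have := Submodule.finrank_le W
      rw [hV] at this
      omega
    rw [h5, pow_add, Module.End.mul_apply, hw, map_zero]
  rw [LinearMap.BilinForm.mem_orthogonal_iff] at h4
  have h6 := h4 v hv
  rw [← hB]
  exact h6

end Cfsg.Agent.S2574
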