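import Cfsg.Statements.S2575

set_option autoImplicit false
open Cfsg

namespace Cfsg.Agent.S2575

theorem val_lem {d n : ℕ} (hn : n ≠ 0) (h1 : d ∣ 2 * n) (h2 : ¬ d ∣ n) : padicValNat 2 d = padicValNat 2 n + 1 := by
  obtain ⟨e, he⟩ := h1
  have he0 : e ≠ 0 := by rintro rfl; omega
  have hd0 : d ≠ 0 := by rintro rfl; omega
  have hodd : ¬ 2 ∣ e := by
    rintro ⟨f, rfl⟩
    apply h2
    refine ⟨f, ?_⟩
    have : 2 * n = 2 * (d * f) := by rw [he]; ring
    omega
  have h3 : padicValNat 2 (2 * n) = padicValNat 2 (d * e) := by rw [he]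
  rw [padicValNat.mul (by norm_num) hn, padicValNat.mul hd0 he0, padicValNat.self (by norm_num),
    padicValNat.eq_zero_of_not_dvd hodd] at h3
  omega

theorem result {F : Type*} [Field F] [Fintype F] {q : ℕ} (hF : Fintype.card F = q) (hq : Odd q) {n : ℕ} (hn : 1 ≤ n) (i : ℕ) (hi : i ≤ n) : (∃ c : F, c ≠ 0 ∧ (c • Matrix.diagonal (fun j : Fin n => if (j : ℕ) < i then (-1 : F) else 1)).det = 1) ↔ (Even i ∨ padicValNat 2 n < padicValNat 2 (q - 1)) := by
  classical
  have hdet : ∀ c : F, (c • Matrix.diagonal (fun j : Fin n => if (j : ℕ) < i then (-1 : F) else 1)).det = c ^ n * (-1) ^ i := by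
    intro c
    rw [Matrix.det_smul, Matrix.det_diagonal, Fintype.card_fin, Finset.prod_ite]
    congr 1
    rw [Finset.prod_const, Finset.prod_const_one, mul_one]
    congr 1
    rw [Fin.card_filter_val_lt]
    omega
  simp only [hdet]
  have hq1 : 1 < q := by rw [← hF]; exact Fintype.one_lt_card
  have hne : (-1 : F) ≠ 1 := by
    intro h
    have h2 : (2 : F) = 0 := by linear_combination -h
    have hch : ringChar F = 2 := by
      have := (ringChar.spec F 2).1 (by exact_mod_cast h2)
      exact (Nat.prime_dvd_prime_iff_eq (CharP.char_is_prime F (ringChar F)) Nat.prime_two).1 this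
    have := FiniteField.even_card_iff_char_two.1 hch
    rw [hF] at this
    rcases hq with ⟨k, hk⟩; omega
  rcases Nat.even_or_odd i with hev | hodd
  · simp only [hev, true_or, iff_true]
    exact ⟨1, one_ne_zero, by rw [hev.neg_one_pow]; simp⟩
  · have hne' : ¬ Even i := Nat.not_even_iff_odd.2 hodd
    simp only [hne', false_or, hodd.neg_one_pow]
    have hcard : Fintype.card Fˣ = q - 1 := by rw [Fintype.card_units, hF]
    constructor
    · rintro ⟨c, hc, h⟩
      have h1 : c ^ n = -1 := by linear_combination -h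
      set u : Fˣ := Units.mk0 c hc with hu
      have hu1 : u ^ n = -1 := by ext; simp [hu, h1]
      have hd1 : ¬ orderOf u ∣ n := by
        intro h2
        have := orderOf_dvd_iff_pow_eq_one.1 h2
        rw [hu1] at this
        exact hne (by simpa using congrArg Units.val this)
      have hd2 : orderOf u ∣ 2 * n := by
        apply orderOf_dvd_of_pow_eq_one
        rw [mul_comm, pow_mul, hu1]; simp
      have hv := val_lem (by omega) hd2 hd1
      have hd3 : orderOf u ∣ q - 1 := by rw [← hcard]; exact orderOf_dvd_card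
      have := (padicValNat_dvd_iff_le (p := 2) (n := padicValNat 2 (orderOf u)) (show q - 1 ≠ 0 by omega)).1
        (dvd_trans pow_padicValNat_dvd hd3)
      omega
    · intro h
      set a := padicValNat 2 n with ha
      have h2 : 2 ^ (a + 1) ∣ q - 1 := (padicValNat_dvd_iff_le (show q - 1 ≠ 0 by omega)).2 h
      have h3 : 2 ^ (a + 1) ∣ Nat.card Fˣ := by rwa [Nat.card_eq_fintype_card, hcard]
      obtain ⟨g, hg⟩ := IsCyclic.exists_generator (α := Fˣ)
      have hgo : orderOf g = q - 1 := by rw [orderOf_eq_card_of_forall_mem_zpowers hg, Nat.card_eq_fintype_card, hcard]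
      obtain ⟨k, hk⟩ := h2
      have hk0 : k ≠ 0 := by rintro rfl; omega
      set c := g ^ k with hc
      have hoc : orderOf c = 2 ^ (a + 1) := by
        rw [hc, orderOf_pow_of_dvd hk0 (by rw [hgo, hk]; exact Dvd.intro_left _ rfl), hgo, hk]
        exact Nat.mul_div_cancel _ (Nat.pos_of_ne_zero hk0)
      have h4 : (c ^ (2 ^ a)) ^ 2 = 1 := by rw [← pow_mul, ← pow_succ, ← hoc, pow_orderOf_eq_one]
      have h5 : c ^ (2 ^ a) ≠ 1 := by
        intro h
        have := orderOf_dvd_of_pow_eq_one h
        rw [hoc] at this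
        have := Nat.le_of_dvd (by positivity) this
        rw [pow_succ] at this
        have : 0 < 2 ^ a := by positivity
        omega
      have h6 : ((c ^ (2 ^ a) : Fˣ) : F) = -1 := by
        have h7 : ((c ^ (2 ^ a) : Fˣ) : F) ^ 2 = 1 := by
          have := congrArg Units.val h4
          simpa using this
        rcases sq_eq_one_iff.1 h7 with h8 | h8
        · exfalso; apply h5; ext; simpa using h8
        · exact h8
      obtain ⟨m, hm⟩ : 2 ^ a ∣ n := by rw [ha]; exact pow_padicValNat_dvd
      have hmodd : Odd m := by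
        rw [← Nat.not_even_iff_odd]
        rintro ⟨l, hl⟩
        have h8 : 2 ^ (a + 1) ∣ n := ⟨l, by rw [hm, hl]; ring⟩
        have := (padicValNat_dvd_iff_le (show n ≠ 0 by omega)).1 h8
        omega
      refine ⟨(c : F), c.ne_zero, ?_⟩
      have h9 : (c : F) ^ n = -1 := by
        rw [hm, pow_mul]
        have : (c : F) ^ (2 ^ a) = -1 := by simpa using h6
        rw [this, hmodd.neg_one_pow]
      rw [h9]; ring

end Cfsg.Agent.S2575
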