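import Cfsg.Statements.S2576

set_option autoImplicit false
open Cfsg

namespace Cfsg.Agent.S2576

theorem val_lem {d n : ℕ} (hn : n ≠ 0) (h1 : d ∣ 2 * n) (h2 : ¬ d ∣ n) : padicValNat 2 d = padicValNat 2 n + 1 := by
  obtain ⟨e, he⟩ := h1
  have he0 : e ≠ 0 := by rintro rfl; omega
  have hd0 : d ≠ 0 := by rintro rfl; omega
  have hodd : ¬ 2 ∣ e := by
    rintro ⟨f, rfl⟩
    apply h2
    refine ⟨f, ?_⟩
    have : 2 * n = 2 * (d * f) := by rw [he]; ring
    omega
  have h3 : padicValNat 2 (2 * n) = padicValNat 2 (d * e) := by rw [he]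
  rw [padicValNat.mul (by norm_num) hn, padicValNat.mul hd0 he0, padicValNat.self (by norm_num),
    padicValNat.eq_zero_of_not_dvd hodd] at h3
  omega

theorem result {F : Type*} [Field F] [Fintype F] {q : ℕ} (hF : Fintype.card F = q) (hq : Odd q) {m : ℕ} (hm : 1 ≤ m) (μ : F) (hμ : orderOf μ = 2 ^ padicValNat 2 (q - 1)) : (∃ c : F, c ≠ 0 ∧ (c • Matrix.blockDiagonal (fun _ : Fin m => !![(0 : F), 1; μ, 0])).det = 1) ↔ (q % 4 = 3 ∨ padicValNat 2 (q - 1) < padicValNat 2 (2 * m)) := by
  have hdet : ∀ c : F, (c • Matrix.blockDiagonal (fun _ : Fin m => !![(0 : F), 1; μ, 0])).det = (c ^ 2 * (-μ)) ^ m := by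
    intro c
    rw [Matrix.det_smul, Matrix.det_blockDiagonal]
    simp only [Matrix.det_fin_two_of, Fintype.card_prod, Fintype.card_fin, Finset.prod_const, Finset.card_univ]
    rw [mul_pow, ← pow_mul]
    congr 1
    congr 1
    ring
  simp only [hdet]
  have hq1 : 1 < q := by rw [← hF]; exact Fintype.one_lt_card
  set s := padicValNat 2 (q - 1) with hs
  have hqodd : q % 2 = 1 := Nat.odd_iff.1 hq
  have hs1 : 1 ≤ s := by
    rw [hs]
    exact one_le_padicValNat_of_dvd (by omega) (by omega)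
  rw [padicValNat.mul (by norm_num) (by omega), padicValNat.self (by norm_num)]
  have hμ0 : μ ≠ 0 := by
    rintro rfl
    rw [orderOf_zero] at hμ
    exact (pow_ne_zero s (by norm_num)) hμ.symm
  rcases (show q % 4 = 3 ∨ q % 4 = 1 by omega) with h4 | h4
  · simp only [h4, true_or, iff_true]
    refine ⟨1, one_ne_zero, ?_⟩
    have hs2 : s = 1 := by
      by_contra hne
      have : 2 ≤ s := by omega
      have h5 : 2 ^ 2 ∣ q - 1 := (padicValNat_dvd_iff_le (show q - 1 ≠ 0 by omega)).2 this
      omega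
    rw [hs2] at hμ
    have h6 : μ ^ 2 = 1 := by rw [← pow_orderOf_eq_one μ, hμ]; norm_num
    rcases sq_eq_one_iff.1 h6 with h7 | h7
    · rw [h7, orderOf_one] at hμ; norm_num at hμ
    · rw [h7]; simp
  · have h43 : ¬ (q % 4 = 3) := by omega
    simp only [h43, false_or]
    have hcardF : Fintype.card F = q := hF
    obtain ⟨k, hk⟩ : ∃ k, q - 1 = 2 * k := ⟨(q - 1) / 2, by omega⟩
    have hk2 : Even k := by
      rw [even_iff_two_dvd]; omega
    have hμk : μ ^ k ≠ 1 := by
      intro h
      have h5 := orderOf_dvd_of_pow_eq_one h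
      rw [hμ] at h5
      have h6 : 2 ^ (s + 1) ∣ q - 1 := by
        rw [hk, pow_succ, mul_comm]; exact Nat.mul_dvd_mul_left 2 h5
      have := (padicValNat_dvd_iff_le (show q - 1 ≠ 0 by omega)).1 h6
      omega
    constructor
    · rintro ⟨c, hc, h⟩
      set y : F := c ^ 2 * (-μ) with hy
      have hyk : y ^ k ≠ 1 := by
        rw [hy, mul_pow, ← pow_mul, ← hk, ← hcardF, FiniteField.pow_card_sub_one_eq_one c hc, one_mul,
          hk2.neg_pow]
        exact hμk
      have hy0 : y ≠ 0 := mul_ne_zero (pow_ne_zero 2 hc) (neg_ne_zero.2 hμ0)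
      have hyq : y ^ (2 * k) = 1 := by
        rw [← hk, ← hcardF]; exact FiniteField.pow_card_sub_one_eq_one y hy0
      have h5 := val_lem (d := orderOf y) (n := k) (by rintro rfl; omega) (orderOf_dvd_of_pow_eq_one hyq)
        (fun h => hyk (orderOf_dvd_iff_pow_eq_one.1 h))
      have h6 : s = padicValNat 2 k + 1 := by
        rw [hs, hk, padicValNat.mul (by norm_num) (by rintro rfl; omega), padicValNat.self (by norm_num)]
        ring
      have h7 : orderOf y ∣ m := orderOf_dvd_of_pow_eq_one h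
      have h8 := (padicValNat_dvd_iff_le (p := 2) (n := padicValNat 2 (orderOf y)) (show m ≠ 0 by omega)).1
        (dvd_trans pow_padicValNat_dvd h7)
      omega
    · intro h
      refine ⟨1, one_ne_zero, ?_⟩
      have h5 : 2 ^ s ∣ m := (padicValNat_dvd_iff_le (show m ≠ 0 by omega)).2 (by omega)
      have h6 : Even m := by
        rw [even_iff_two_dvd]
        exact dvd_trans (dvd_pow_self 2 (by omega)) h5
      rw [one_pow, one_mul, h6.neg_pow]
      rw [← hμ] at h5
      exact orderOf_dvd_iff_pow_eq_one.1 h5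

end Cfsg.Agent.S2576
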