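import Cfsg.Statements.S2578
import Cfsg.Agent.H15_RC15

set_option autoImplicit false
open Cfsg

namespace Cfsg.Agent.S2578

/-- Regular unipotent classes of SL_n(q): for n ≥ 2 over the field with q elements, the matrices u of determinant one with (u − 1)^n = 0 and rank(u − 1) = n − 1 form a single GL_n(q)-class which splits into exactly gcd(n, q − 1) conjugacy classes of SL_n(q). -/
theorem result {F : Type*} [Field F] [Fintype F] {q : ℕ} (hF : Fintype.card F = q) {n : ℕ} (hn : 2 ≤ n) : Nat.card {C : ConjClasses (Matrix.SpecialLinearGroup (Fin n) F) // ∃ u : Matrix.SpecialLinearGroup (Fin n) F, ConjClasses.mk u = C ∧ ((u : Matrix (Fin n) (Fin n) F) - 1) ^ n = 0 ∧ ((u : Matrix (Fin n) (Fin n) F) - 1).rank = n - 1} = Nat.gcd n (q - 1) := by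
  classical
  obtain ⟨u, hu⟩ := Cfsg.Agent.H15.RC.exists_of_adm (Cfsg.Agent.H15.RC.reg_adm (F := F) (n := n) (by omega))
  have hureg := (Cfsg.Agent.H15.RC.reg_iff (by omega) hu).2 rfl
  have hdet : Matrix.GeneralLinearGroup.det u = 1 := by
    have h1 := Cfsg.Agent.H15.RC.det_nil (g := (u : Matrix (Fin n) (Fin n) F)) (c := 1) (by rw [one_smul]; exact hureg.1)
    apply Units.ext
    rw [Matrix.GeneralLinearGroup.val_det_apply, h1, one_pow]; rfl
  have e1 : Nat.card {C : ConjClasses (Matrix.SpecialLinearGroup (Fin n) F) // ∃ u : Matrix.SpecialLinearGroup (Fin n) F, ConjClasses.mk u = C ∧ ((u : Matrix (Fin n) (Fin n) F) - 1) ^ n = 0 ∧ ((u : Matrix (Fin n) (Fin n) F) - 1).rank = n - 1} =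
      Nat.card {C : ConjClasses (Matrix.SpecialLinearGroup (Fin n) F) // ∃ v : Matrix.SpecialLinearGroup (Fin n) F, ConjClasses.mk v = C ∧ IsConj u (Matrix.SpecialLinearGroup.toGL v)} := by
    refine Nat.card_congr (Equiv.subtypeEquivRight (fun C => ?_))
    refine exists_congr (fun v => and_congr_right (fun _ => ?_))
    obtain ⟨T, hT⟩ := Cfsg.Agent.H15.RC.exists_type (Matrix.toLin' ((Matrix.SpecialLinearGroup.toGL v : GL (Fin n) F) : Matrix (Fin n) (Fin n) F) : Module.End F (Fin n → F))
    rw [Cfsg.Agent.H15.RC.isConj_iff_type u _ hu hT, eq_comm (b := T), ← Cfsg.Agent.H15.RC.reg_iff (by omega) hT]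
    rfl
  rw [e1, Cfsg.Agent.H15.RC.card_split (Matrix.SpecialLinearGroup.toGL) (Matrix.GeneralLinearGroup.det : GL (Fin n) F →* Fˣ) ?_ ?_ ?_ u hdet]
  · have e2 : Subgroup.map (Matrix.GeneralLinearGroup.det : GL (Fin n) F →* Fˣ) (Subgroup.centralizer {u}) = (powMonoidHom n : Fˣ →* Fˣ).range := by
      ext x
      rw [Subgroup.mem_map]
      constructor
      · rintro ⟨g, hg, rfl⟩
        have h1 : (g : Matrix (Fin n) (Fin n) F) * u = u * g := congrArg Units.val (Subgroup.mem_centralizer_iff.1 hg u (Set.mem_singleton u)).symm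
        obtain ⟨c, hc1, hc2⟩ := Cfsg.Agent.H15.RC.det_cent (by omega) hu h1
        have hc0 : c ≠ 0 := by
          rintro rfl
          rw [zero_pow (by omega)] at hc2
          exact g.det.ne_zero hc2
        exact ⟨Units.mk0 c hc0, Units.ext hc2.symm⟩
      · rintro ⟨c, rfl⟩
        refine ⟨Cfsg.Agent.H15.RC.sc n c, ?_, ?_⟩
        · rw [Subgroup.mem_centralizer_iff]
          rintro y (rfl : y = u)
          have h3 : Cfsg.Agent.H15.RC.sc n c ∈ Subgroup.center (GL (Fin n) F) := (Cfsg.Agent.H15.RC.mem_center_iff' _).2 ⟨c, rfl⟩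
          exact (Subgroup.mem_center_iff.1 h3 y)
        · apply Units.ext
          rw [Matrix.GeneralLinearGroup.val_det_apply, Cfsg.Agent.H15.RC.sc_val, Matrix.det_smul, Matrix.det_one, mul_one, Fintype.card_fin]
          rfl
    rw [e2, IsCyclic.index_powMonoidHom_range, Nat.card_eq_fintype_card, Fintype.card_units, hF, Nat.gcd_comm]
  · intro a b hab
    have h1 := congrArg (fun g : GL (Fin n) F => (g : Matrix (Fin n) (Fin n) F)) hab
    exact Subtype.ext h1
  · intro c
    haveI : Nonempty (Fin n) := ⟨⟨0, by omega⟩⟩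
    let i0 : Fin n := ⟨0, by omega⟩
    let dg : Fin n → Fˣ := Function.update 1 i0 c
    refine ⟨⟨Matrix.diagonal (fun i => (dg i : F)), Matrix.diagonal (fun i => ((dg i)⁻¹ : Fˣ).val), ?_, ?_⟩, ?_⟩
    · rw [Matrix.diagonal_mul_diagonal]; simp
    · rw [Matrix.diagonal_mul_diagonal]; simp
    · apply Units.ext
      rw [Matrix.GeneralLinearGroup.val_det_apply]
      change (Matrix.diagonal (fun i => (dg i : F))).det = c
      rw [Matrix.det_diagonal, ← Units.coe_prod, Finset.prod_update_of_mem (Finset.mem_univ _)]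
      simp
  · intro g
    constructor
    · rintro ⟨v, rfl⟩
      apply Units.ext
      exact v.2
    · intro h
      have h1 : (g : Matrix (Fin n) (Fin n) F).det = 1 := by
        have := congrArg Units.val h
        rwa [Matrix.GeneralLinearGroup.val_det_apply] at this
      exact ⟨⟨g, h1⟩, Units.ext rfl⟩

end Cfsg.Agent.S2578
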