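import Cfsg.Agent.H16_JT5
import Cfsg.Statements.S2582
-- import your own Cfsg.Agent.* helpers here

set_option autoImplicit false
open Cfsg

namespace Cfsg.Agent.S2582

open Matrix Cfsg.Agent.H5

/-- Which unipotent Jordan types occur in the finite symplectic group: over a finite field, a unipotent matrix with Jordan block sizes d_1, …, d_t (sum 2m, all at least 1) is similar to an element of Sp_2m(F) if and only if every odd block size occurs an even number of times. -/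
theorem result {F : Type*} [Field F] [Fintype F] {m t : ℕ} (d : Fin t → ℕ) (hd : ∀ k, 1 ≤ d k) (hsum : ∑ k, d k = 2 * m) : (∃ e : ((k : Fin t) × Fin (d k)) ≃ (Fin m ⊕ Fin m), ∃ A : Matrix.symplecticGroup (Fin m) F, IsConj (Matrix.reindex e e (Cfsg.jordanTypeMatrix d F)) (A : Matrix (Fin m ⊕ Fin m) (Fin m ⊕ Fin m) F)) ↔ ∀ j : ℕ, Odd j → Even (Finset.univ.filter (fun k : Fin t => d k = j)).card := by
  constructor
  · rintro ⟨e, A, hA⟩ j hj
    refine Cfsg.Agent.H16.JT.even_odd (d := d) (fun i => ?_) hj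
    rw [← Cfsg.Agent.H16.JT.rank_conj e hA]
    refine Cfsg.Agent.H16.JT.par_alt (G := Matrix.J (Fin m) F) (G' := -Matrix.J (Fin m) F) ?_ ?_ ?_ i
    · rw [neg_mul, Matrix.J_squared, neg_neg]
    · intro x
      change Cfsg.sympForm m F x x = 0
      rw [← H5.Conc.sympB_apply]; exact H5.Conc.sympB_alt m F _
    · exact SymplecticGroup.mem_iff'.mp A.2
  · intro h
    obtain ⟨B, hBa, hBn, hBJ⟩ := Cfsg.Agent.H16.JT.exists_altB (F := F) h
    obtain ⟨e⟩ : Nonempty (((k : Fin t) × Fin (d k)) ≃ (Fin m ⊕ Fin m)) := by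
      refine ⟨Fintype.equivOfCardEq ?_⟩
      rw [Fintype.card_sigma, Fintype.card_sum]
      simp only [Fintype.card_fin]
      omega
    obtain ⟨φ, hφ⟩ := Cfsg.Agent.H16.CjS.alt_isom (2 * m) (H5.Frm.ofAlt B hBa) (H5.Conc.sympFrm m F) hBn
      (H5.Conc.sympFrm_nondeg m F) (by
        rw [Module.finrank_fintype_fun_eq_card, Fintype.card_sigma]
        simp only [Fintype.card_fin]
        omega)
      (by rw [Module.finrank_fintype_fun_eq_card, Fintype.card_sum, Fintype.card_fin]; ring)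
    have hφ' : ∀ x y, Cfsg.sympForm m F (φ x) (φ y) = B x y := by
      intro x y
      rw [← H5.Conc.sympFrm_B, hφ]
      rfl
    obtain ⟨A, hA⟩ : ∃ A : Matrix (Fin m ⊕ Fin m) (Fin m ⊕ Fin m) F, ∀ x, A *ᵥ x = φ (Cfsg.jordanTypeMatrix d F *ᵥ (φ.symm x)) :=
      ⟨LinearMap.toMatrix' ((φ : (((k : Fin t) × Fin (d k)) → F) →ₗ[F] (Fin m ⊕ Fin m → F)) ∘ₗ (Matrix.toLin' (Cfsg.jordanTypeMatrix d F)) ∘ₗ
        (φ.symm : (Fin m ⊕ Fin m → F) →ₗ[F] (((k : Fin t) × Fin (d k)) → F))), fun x => LinearMap.toMatrix'_mulVec _ _⟩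
    refine ⟨e, ⟨A, ?_⟩, ?_⟩
    · rw [H5.Conc.mem_symplecticGroup_iff]
      intro u v
      rw [hA, hA, hφ', hBJ, ← hφ', LinearEquiv.apply_symm_apply, LinearEquiv.apply_symm_apply]
    · exact Cfsg.Agent.H16.JT.isConj_of_lin e φ (fun x => by rw [hA, LinearEquiv.symm_apply_apply])

end Cfsg.Agent.S2582
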