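import Cfsg.Agent.H16_JT6
import Cfsg.Statements.S2583
-- import your own Cfsg.Agent.* helpers here

set_option autoImplicit false
open Cfsg

namespace Cfsg.Agent.S2583

open Matrix Cfsg.Agent.H5

/-- Which unipotent Jordan types occur in a finite orthogonal group in odd characteristic: over a finite field of odd order, a unipotent matrix with Jordan block sizes d_1, …, d_t (sum n, all at least 1) is similar to an isometry of some quadratic form on F^n with non-degenerate polar form if and only if every even block size occurs an even number of times. -/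
theorem result {F : Type*} [Field F] [Fintype F] (h2 : (2 : F) ≠ 0) {n t : ℕ} (d : Fin t → ℕ) (hd : ∀ k, 1 ≤ d k) (hsum : ∑ k, d k = n) : (∃ Q : QuadraticForm F (Fin n → F), (QuadraticMap.polarBilin Q).Nondegenerate ∧ ∃ e : ((k : Fin t) × Fin (d k)) ≃ Fin n, ∃ A : ↥(Cfsg.isometryGroup F ⇑Q), IsConj (Matrix.reindex e e (Cfsg.jordanTypeMatrix d F)) ((A : Matrix.GeneralLinearGroup (Fin n) F) : Matrix (Fin n) (Fin n) F)) ↔ ∀ j : ℕ, Even j → 0 < j → Even (Finset.univ.filter (fun k : Fin t => d k = j)).card := by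
  constructor
  · rintro ⟨Q, hQ, e, A, hA⟩ j hj hj0
    refine Cfsg.Agent.H16.JT.even_even (d := d) (fun i => ?_) hj hj0
    rw [← Cfsg.Agent.H16.JT.rank_conj e hA]
    obtain ⟨G, G', h3, h4, h5, -⟩ := Cfsg.Agent.H16.JT.gram_data hQ (A := ((A : GL (Fin n) F) : Matrix (Fin n) (Fin n) F)) (fun x => A.2 x x)
    exact Cfsg.Agent.H16.JT.par_sym h2 h3 h4 h5 (Cfsg.Agent.H16.JT.nil_of_conj e hA) i
  · intro h
    obtain ⟨B, hBs, hBn, hBJ⟩ := Cfsg.Agent.H16.JT.exists_symB (F := F) h2 h hd
    obtain ⟨e⟩ : Nonempty (((k : Fin t) × Fin (d k)) ≃ Fin n) := by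
      refine ⟨Fintype.equivOfCardEq ?_⟩
      rw [Fintype.card_sigma]
      simp only [Fintype.card_fin]
      omega
    obtain ⟨Q, hQ, hQA⟩ := Cfsg.Agent.H16.JT.exists_Q h2 e hBs hBn hBJ
    obtain ⟨A, hA⟩ := Cfsg.Agent.H16.JT.exists_unit (F := F) e
    refine ⟨Q, hQ, e, ⟨A, ?_⟩, ?_⟩
    · intro x y
      change Q (A.val *ᵥ x) = Q x
      rw [hA, hQA]
    · change IsConj _ A.val
      rw [hA]

end Cfsg.Agent.S2583
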