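import Cfsg.Agent.H16_JT7
import Cfsg.Statements.S2584
-- import your own Cfsg.Agent.* helpers here

set_option autoImplicit false
open Cfsg

namespace Cfsg.Agent.S2584

open Matrix Cfsg.Agent.H5

/-- Which unipotent Jordan types occur in a finite orthogonal group in characteristic two: over a finite field of characteristic 2 and in even dimension 2m, a unipotent matrix with Jordan block sizes d_1, …, d_t (sum 2m, all at least 1) is similar to an isometry of some quadratic form on F^(2m) with non-degenerate polar form if and only if every odd block size occurs an even number of times (the same condition as for the symplectic group, which contains these orthogonal groups). -/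
theorem result {F : Type*} [Field F] [Fintype F] [CharP F 2] {m t : ℕ} (d : Fin t → ℕ) (hd : ∀ k, 1 ≤ d k) (hsum : ∑ k, d k = 2 * m) : (∃ Q : QuadraticForm F (Fin (2 * m) → F), (QuadraticMap.polarBilin Q).Nondegenerate ∧ ∃ e : ((k : Fin t) × Fin (d k)) ≃ Fin (2 * m), ∃ A : ↥(Cfsg.isometryGroup F ⇑Q), IsConj (Matrix.reindex e e (Cfsg.jordanTypeMatrix d F)) ((A : Matrix.GeneralLinearGroup (Fin (2 * m)) F) : Matrix (Fin (2 * m)) (Fin (2 * m)) F)) ↔ ∀ j : ℕ, Odd j → Even (Finset.univ.filter (fun k : Fin t => d k = j)).card := by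
  constructor
  · rintro ⟨Q, hQ, e, A, hA⟩ j hj
    refine Cfsg.Agent.H16.JT.even_odd (d := d) (fun i => ?_) hj
    rw [← Cfsg.Agent.H16.JT.rank_conj e hA]
    obtain ⟨G, G', h3, h4, h5, h6⟩ := Cfsg.Agent.H16.JT.gram_data hQ (A := ((A : GL (Fin (2 * m)) F) : Matrix (Fin (2 * m)) (Fin (2 * m)) F)) (fun x => A.2 x x)
    refine Cfsg.Agent.H16.JT.par_alt h3 ?_ h5 i
    intro x
    rw [h6, QuadraticMap.polar, ← two_smul F x, QuadraticMap.map_smul, CharTwo.two_eq_zero, mul_zero, zero_smul, zero_sub, CharTwo.neg_eq,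
      CharTwo.sub_eq_add, CharTwo.add_self_eq_zero]
  · intro h
    obtain ⟨B, hBa, hBn, hBJ⟩ := Cfsg.Agent.H16.JT.exists_altB (F := F) h
    obtain ⟨e⟩ : Nonempty (((k : Fin t) × Fin (d k)) ≃ Fin (2 * m)) := by
      refine ⟨Fintype.equivOfCardEq ?_⟩
      rw [Fintype.card_sigma]
      simp only [Fintype.card_fin]
      omega
    obtain ⟨A, hA⟩ := Cfsg.Agent.H16.JT.exists_unit (F := F) e
    obtain ⟨G, hG⟩ : ∃ G : Matrix (Fin (2 * m)) (Fin (2 * m)) F, ∀ x y, x ⬝ᵥ (G *ᵥ y) = B (x ∘ e) (y ∘ e) := by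
      refine ⟨LinearMap.BilinForm.toMatrix' (LinearMap.BilinForm.comp B (LinearMap.funLeft F F e) (LinearMap.funLeft F F e)), fun x y => ?_⟩
      rw [← Matrix.toBilin'_apply', Matrix.toBilin'_toMatrix']
      rfl
    obtain ⟨Q, hQ, hQA⟩ := Cfsg.Agent.H16.JT.dye (G := G) (A := A.val) (fun x => by rw [hG]; exact hBa _)
      (fun x y => by rw [hG, hG, hA]; exact Cfsg.Agent.H16.JT.exists_ext_ortho e B hBJ x y)
    refine ⟨Q, ?_, e, ⟨A, ?_⟩, ?_⟩
    · apply Cfsg.Agent.H16.Quad.nd_of
      intro x hx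
      have h3 : x ∘ e = 0 := by
        apply hBn
        intro y
        have h4 := hx (y ∘ e.symm)
        rw [hQ, hG] at h4
        have e2 : (y ∘ e.symm) ∘ e = y := by funext p; simp
        rwa [e2] at h4
      funext i
      have := congrFun h3 (e.symm i)
      simpa using this
    · intro x y
      exact hQA x
    · change IsConj _ A.val
      rw [hA]

end Cfsg.Agent.S2584
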