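import Cfsg.Statements.S2585
import Mathlib
import Cfsg.Agent.H5_Concrete
import Cfsg.Agent.H16_Std

set_option autoImplicit false
open Cfsg

namespace Cfsg.Agent.S2585

open Cfsg.Agent.H5.Conc Cfsg.Agent.H16.Quad Matrix Module

theorem polar_eq_symp {F : Type*} [Field F] [CharP F 2] {m : ℕ} (u v : Fin m ⊕ Fin m → F) :
    QuadraticMap.polar ⇑(plusQ F m) u v = Cfsg.sympForm m F u v := by
  rw [polar_plusQ, sympForm_eq]
  refine Finset.sum_congr rfl fun i _ => ?_
  rw [CharTwo.sub_eq_add]
  ring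

/-- Over a finite field of characteristic two every element of the symplectic group is orthogonal for a suitable quadratic form: for each A in Sp_2m(F) there is a quadratic form Q on F^(2m) whose polar form is the alternating form defining Sp_2m(F) (so Q is non-degenerate) and which A preserves. Equivalently, for m ≥ 1, Sp_2m(F) is the union of the conjugates of its two orthogonal subgroups O⁺_2m(F) and O⁻_2m(F). -/
theorem result {F : Type*} [Field F] [Fintype F] [CharP F 2] {m : ℕ} (A : Matrix.symplecticGroup (Fin m) F) : ∃ Q : QuadraticForm F (Fin m ⊕ Fin m → F), (∀ u v : Fin m ⊕ Fin m → F, QuadraticMap.polar ⇑Q u v = Cfsg.sympForm m F u v) ∧ ∀ v : Fin m ⊕ Fin m → F, Q ((A : Matrix (Fin m ⊕ Fin m) (Fin m ⊕ Fin m) F).mulVec v) = Q v := by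
  have h2 : (2 : F) = 0 := CharTwo.two_eq_zero
  haveI : PerfectRing F 2 := PerfectRing.ofSurjective F 2 (fun x => by
    obtain ⟨y, hy⟩ := FiniteField.isSquare_of_char_two (ringChar.eq_iff.2 inferInstance) x
    exact ⟨y, by rw [frobenius_def, pow_two, hy]⟩)
  have hiso := (mem_symplecticGroup_iff (A : Matrix (Fin m ⊕ Fin m) (Fin m ⊕ Fin m) F)).1 A.2
  set M := (A : Matrix (Fin m ⊕ Fin m) (Fin m ⊕ Fin m) F) with hM
  obtain ⟨Q0, hQ0⟩ : ∃ Q0, Q0 = plusQ F m := ⟨_, rfl⟩
  have hpol : ∀ u v, QuadraticMap.polar ⇑Q0 u v = Cfsg.sympForm m F u v := fun u v => by rw [hQ0]; exact polar_eq_symp u v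
  have hadd : ∀ u v, Q0 (u + v) = Q0 u + Q0 v + Cfsg.sympForm m F u v := fun u v => by
    rw [← hpol, QuadraticMap.polar]; ring
  let lam : (Fin m ⊕ Fin m → F) →ₗ[F] F :=
    { toFun := fun v => (frobeniusEquiv F 2).symm (Q0 (M *ᵥ v) + Q0 v)
      map_add' := fun u v => by
        rw [← _root_.map_add (frobeniusEquiv F 2).symm]
        congr 1
        rw [Matrix.mulVec_add, hadd, hadd, hiso]
        linear_combination Cfsg.sympForm m F u v * h2
      map_smul' := fun c v => by
        rw [RingHom.id_apply, smul_eq_mul]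
        apply (frobeniusEquiv F 2).injective
        rw [_root_.map_mul, RingEquiv.apply_symm_apply, RingEquiv.apply_symm_apply, Matrix.mulVec_smul, QuadraticMap.map_smul,
          QuadraticMap.map_smul, frobeniusEquiv_apply, frobenius_def]
        simp only [smul_eq_mul]
        ring }
  have hlam : ∀ v, lam v ^ 2 = Q0 (M *ᵥ v) + Q0 v := fun v => by
    have := (frobeniusEquiv F 2).apply_symm_apply (Q0 (M *ᵥ v) + Q0 v)
    rw [frobeniusEquiv_apply, frobenius_def] at this
    exact this
  obtain ⟨μ, hμ⟩ : ∃ μ : (Fin m ⊕ Fin m → F) →ₗ[F] F, ∀ v, μ (M *ᵥ v) + μ v = lam v := by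
    have h1 : lam ∈ (LinearMap.ker (M - 1).mulVecLin).dualAnnihilator := by
      rw [Submodule.mem_dualAnnihilator]
      intro w hw
      rw [LinearMap.mem_ker, Matrix.mulVecLin_apply, Matrix.sub_mulVec, Matrix.one_mulVec, sub_eq_zero] at hw
      have h3 := hlam w
      rw [hw, ← two_mul, h2, zero_mul] at h3
      exact pow_eq_zero_iff two_ne_zero |>.1 h3
    rw [← LinearMap.range_dualMap_eq_dualAnnihilator_ker] at h1
    obtain ⟨μ, hμ⟩ := h1
    refine ⟨μ, fun v => ?_⟩
    have := LinearMap.congr_fun hμ v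
    rw [LinearMap.dualMap_apply, Matrix.mulVecLin_apply, Matrix.sub_mulVec, Matrix.one_mulVec, _root_.map_sub] at this
    rw [← this, CharTwo.sub_eq_add]
  refine ⟨Q0 + QuadraticMap.linMulLin μ μ, fun u v => ?_, fun v => ?_⟩
  · rw [← hpol]
    simp only [QuadraticMap.polar, QuadraticMap.add_apply, QuadraticMap.linMulLin_apply, _root_.map_add]
    linear_combination (μ u * μ v) * h2
  · simp only [QuadraticMap.add_apply, QuadraticMap.linMulLin_apply]
    have e1 := hlam v
    rw [← hμ v] at e1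
    linear_combination e1 + (Q0 (M *ᵥ v) - μ v ^ 2 - μ (M *ᵥ v) * μ v) * h2

end Cfsg.Agent.S2585
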