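import Cfsg.Agent.H16_Tr
import Cfsg.Statements.S2586
-- import your own Cfsg.Agent.* helpers here

set_option autoImplicit false
open Cfsg

namespace Cfsg.Agent.S2586

/-- Over a finite field, every element of the symplectic group Sp_2m(F) is conjugate by an invertible matrix to its inverse. -/
theorem result {F : Type*} [Field F] [Finite F] {m : ℕ} (A : Matrix.symplecticGroup (Fin m) F) : IsConj (A : Matrix (Fin m ⊕ Fin m) (Fin m ⊕ Fin m) F) ((A⁻¹ : Matrix.symplecticGroup (Fin m) F) : Matrix (Fin m ⊕ Fin m) (Fin m ⊕ Fin m) F) := by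
  refine (Cfsg.Agent.H16.Tr.conj_transpose _).trans ?_
  have hA := (SymplecticGroup.mem_iff).mp A.2
  have hJ : Matrix.J (Fin m) F * -Matrix.J (Fin m) F = 1 := by
    rw [mul_neg, Matrix.J_squared, neg_neg]
  have hJ' : -Matrix.J (Fin m) F * Matrix.J (Fin m) F = 1 := by
    rw [neg_mul, Matrix.J_squared, neg_neg]
  refine ⟨⟨Matrix.J (Fin m) F, -Matrix.J (Fin m) F, hJ, hJ'⟩, ?_⟩
  change Matrix.J (Fin m) F * (A : Matrix (Fin m ⊕ Fin m) (Fin m ⊕ Fin m) F).transpose =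
    ((A⁻¹ : Matrix.symplecticGroup (Fin m) F) : Matrix (Fin m ⊕ Fin m) (Fin m ⊕ Fin m) F) * Matrix.J (Fin m) F
  have h1 : ((A⁻¹ : Matrix.symplecticGroup (Fin m) F) : Matrix (Fin m ⊕ Fin m) (Fin m ⊕ Fin m) F) * A = 1 :=
    congrArg Subtype.val (inv_mul_cancel A)
  calc Matrix.J (Fin m) F * (A : Matrix (Fin m ⊕ Fin m) (Fin m ⊕ Fin m) F).transpose =
      ((A⁻¹ : Matrix.symplecticGroup (Fin m) F) : Matrix (Fin m ⊕ Fin m) (Fin m ⊕ Fin m) F) * A * Matrix.J (Fin m) F *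
        (A : Matrix (Fin m ⊕ Fin m) (Fin m ⊕ Fin m) F).transpose := by rw [h1, one_mul]
    _ = ((A⁻¹ : Matrix.symplecticGroup (Fin m) F) : Matrix (Fin m ⊕ Fin m) (Fin m ⊕ Fin m) F) * 
        (A * Matrix.J (Fin m) F * (A : Matrix (Fin m ⊕ Fin m) (Fin m ⊕ Fin m) F).transpose) := by simp only [mul_assoc]
    _ = _ := by rw [hA]

end Cfsg.Agent.S2586
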