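import Cfsg.Agent.H16_CjR
import Cfsg.Statements.S2589
-- import your own Cfsg.Agent.* helpers here

set_option autoImplicit false
open Cfsg

namespace Cfsg.Agent.S2589

/-- Two semisimple elements of the finite symplectic group Sp_2m(F) (elements of order prime to the characteristic) are conjugate in Sp_2m(F) if and only if they are conjugate in GL_2m(F). -/
theorem result {F : Type*} [Field F] [Fintype F] {p : ℕ} [Fact p.Prime] [CharP F p] {m : ℕ} (A B : Matrix.symplecticGroup (Fin m) F) (hA : (orderOf A).Coprime p) : IsConj A B ↔ IsConj (A : Matrix (Fin m ⊕ Fin m) (Fin m ⊕ Fin m) F) (B : Matrix (Fin m ⊕ Fin m) (Fin m ⊕ Fin m) F) := by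
  have hunit : ∀ X : Matrix.symplecticGroup (Fin m) F, (X : Matrix (Fin m ⊕ Fin m) (Fin m ⊕ Fin m) F) * (X⁻¹ : Matrix.symplecticGroup (Fin m) F) = 1 := by
    intro X
    exact congrArg Subtype.val (mul_inv_cancel X)
  have hunit' : ∀ X : Matrix.symplecticGroup (Fin m) F, ((X⁻¹ : Matrix.symplecticGroup (Fin m) F) : Matrix (Fin m ⊕ Fin m) (Fin m ⊕ Fin m) F) * X = 1 := by
    intro X
    exact congrArg Subtype.val (inv_mul_cancel X)
  constructor
  · intro h
    obtain ⟨c, hc⟩ := isConj_iff.mp h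
    refine ⟨⟨c, (c⁻¹ : Matrix.symplecticGroup (Fin m) F), hunit c, hunit' c⟩, ?_⟩
    change (c : Matrix (Fin m ⊕ Fin m) (Fin m ⊕ Fin m) F) * A = B * c
    rw [← hc]
    change _ = ((c * A * c⁻¹ * c : Matrix.symplecticGroup (Fin m) F) : Matrix (Fin m ⊕ Fin m) (Fin m ⊕ Fin m) F)
    rw [inv_mul_cancel_right]
    rfl
  · rintro ⟨P, hP⟩
    have hP' : P.1 * (A : Matrix (Fin m ⊕ Fin m) (Fin m ⊕ Fin m) F) = B * P.1 := hP
    have hk : ((orderOf A : ℕ) : F) ≠ 0 := by
      intro h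
      rw [CharP.cast_eq_zero_iff F p] at h
      have h2 := (Nat.Coprime.eq_one_of_dvd hA.symm h)
      exact (Fact.out : p.Prime).one_lt.ne' h2
    have h1 : (A : Matrix (Fin m ⊕ Fin m) (Fin m ⊕ Fin m) F) ^ orderOf A = 1 := by
      rw [← SubmonoidClass.coe_pow, pow_orderOf_eq_one]
      rfl
    obtain ⟨U, hU, hUA⟩ := Cfsg.Agent.H16.CjS.sp_conj A.2 B.2 hk h1 P hP'
    refine isConj_iff.mpr ⟨⟨U, hU⟩, ?_⟩
    rw [mul_inv_eq_iff_eq_mul]
    exact Subtype.ext hUA

end Cfsg.Agent.S2589
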