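import Cfsg.Agent.H16_CjR
import Cfsg.Agent.H16_Mat
import Cfsg.Statements.S2590
-- import your own Cfsg.Agent.* helpers here

set_option autoImplicit false
open Cfsg

namespace Cfsg.Agent.S2590

/-- Two semisimple elements of odd order of a finite orthogonal group (isometry group of a quadratic form on F^n with non-degenerate polar form, F finite of characteristic p; the elements have odd order prime to p) are conjugate in the orthogonal group if and only if they are conjugate in GL_n(F). -/
theorem result {F : Type*} [Field F] [Fintype F] {p : ℕ} [Fact p.Prime] [CharP F p] {n : ℕ} (Q : QuadraticForm F (Fin n → F)) (hQ : (QuadraticMap.polarBilin Q).Nondegenerate) (A B : ↥(Cfsg.isometryGroup F ⇑Q)) (hodd : Odd (orderOf A)) (hA : (orderOf A).Coprime p) : IsConj A B ↔ IsConj ((A : Matrix.GeneralLinearGroup (Fin n) F) : Matrix (Fin n) (Fin n) F) ((B : Matrix.GeneralLinearGroup (Fin n) F) : Matrix (Fin n) (Fin n) F) := by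
  constructor
  · intro h
    obtain ⟨c, hc⟩ := isConj_iff.mp h
    refine ⟨(c : Matrix.GeneralLinearGroup (Fin n) F), ?_⟩
    have h1 : (c : Matrix.GeneralLinearGroup (Fin n) F) * A = B * c := by
      rw [← hc]
      change _ = ((c * A * c⁻¹ * c : ↥(Cfsg.isometryGroup F ⇑Q)) : Matrix.GeneralLinearGroup (Fin n) F)
      rw [inv_mul_cancel_right]
      rfl
    exact congrArg Units.val h1
  · rintro ⟨P, hP⟩
    have hk : ((orderOf A : ℕ) : F) ≠ 0 := by
      intro h
      rw [CharP.cast_eq_zero_iff F p] at h
      have h2 := (Nat.Coprime.eq_one_of_dvd hA.symm h)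
      exact (Fact.out : p.Prime).one_lt.ne' h2
    obtain ⟨U, hU, hUA⟩ := Cfsg.Agent.H16.CjS.quad_conj hQ (A := (A : Matrix.GeneralLinearGroup (Fin n) F))
      (B := (B : Matrix.GeneralLinearGroup (Fin n) F)) (P := P) (Cfsg.Agent.H16.Quad.mem_isometryGroup.mp A.2)
      (Cfsg.Agent.H16.Quad.mem_isometryGroup.mp B.2) hk hodd (by
        have := pow_orderOf_eq_one A
        exact congrArg Subtype.val this) (Units.ext hP)
    refine isConj_iff.mpr ⟨⟨U, Cfsg.Agent.H16.Quad.mem_isometryGroup.mpr hU⟩, ?_⟩
    rw [mul_inv_eq_iff_eq_mul]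
    exact Subtype.ext hUA

end Cfsg.Agent.S2590
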