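import Cfsg.Agent.H16_RU6
import Cfsg.Agent.H16_Quad5
import Cfsg.Agent.H5_QuadC
import Cfsg.Statements.S2591
-- import your own Cfsg.Agent.* helpers here

set_option autoImplicit false
open Cfsg

namespace Cfsg.Agent.S2591

open Matrix Cfsg.Agent.H16.RU

/-- Over a finite field of odd order and for m ≥ 1, the regular unipotent elements of Sp_2m(F) (u − 1 nilpotent of rank 2m − 1, a single Jordan block) form exactly two conjugacy classes of Sp_2m(F) (one class under the similarity group, which splits in two). -/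
theorem result {F : Type*} [Field F] [Fintype F] {q : ℕ} (hF : Fintype.card F = q) (hq : Odd q) {m : ℕ} (hm : 1 ≤ m) : Nat.card {C : ConjClasses ↥(Matrix.symplecticGroup (Fin m) F) // ∃ u : Matrix.symplecticGroup (Fin m) F, ConjClasses.mk u = C ∧ ((u : Matrix (Fin m ⊕ Fin m) (Fin m ⊕ Fin m) F) - 1) ^ (2 * m) = 0 ∧ ((u : Matrix (Fin m ⊕ Fin m) (Fin m ⊕ Fin m) F) - 1).rank = 2 * m - 1} = 2 := by
  subst hF
  have h2 : (2 : F) ≠ 0 := Cfsg.Agent.H5.QuadC.two_ne_zero_of_odd hq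
  obtain ⟨n, hn⟩ : ∃ n, 2 * m = n + 1 := ⟨2 * m - 1, by omega⟩
  obtain ⟨p, hcp⟩ := CharP.exists F
  have hpp : Fact p.Prime := ⟨CharP.char_is_prime F p⟩
  have hp2 : p ≠ 2 := by
    rintro rfl
    apply h2
    have := CharP.cast_eq_zero F 2
    exact_mod_cast this
  have hcard : Fintype.card (Fin m ⊕ Fin m) = n + 1 := by rw [Fintype.card_sum, Fintype.card_fin]; omega
  obtain ⟨A, hA, hA0, hA1⟩ := exists_reg (F := F) hm
  have hAr : (A - 1).rank = 2 * m - 1 := by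
    have := rank_of_pow hcard (by rw [← hn]; exact hA0) (by rw [show n = 2 * m - 1 by omega]; exact hA1)
    rw [this]; omega
  obtain ⟨δ, hδ⟩ : ∃ δ : F, ¬ IsSquare δ := FiniteField.exists_nonsquare (by
    intro h
    have := ringChar.spec F 2
    rw [h] at this
    exact h2 (by exact_mod_cast this.mpr dvd_rfl))
  have hδ0 : δ ≠ 0 := by
    rintro rfl
    exact hδ ⟨0, by ring⟩
  -- the second element
  obtain ⟨D, hD⟩ : ∃ D : GL (Fin m ⊕ Fin m) F, D.val = Matrix.fromBlocks (δ • 1) 0 0 1 := by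
    refine ⟨⟨Matrix.fromBlocks (δ • 1) 0 0 1, Matrix.fromBlocks (δ⁻¹ • 1) 0 0 1, ?_, ?_⟩, rfl⟩
    · rw [Matrix.fromBlocks_multiply, ← Matrix.fromBlocks_one]
      congr 1 <;> simp [hδ0]
    · rw [Matrix.fromBlocks_multiply, ← Matrix.fromBlocks_one]
      congr 1 <;> simp [hδ0]
  have hDs : sj D.val * D = δ • 1 := by rw [hD]; exact exists_simil δ
  have hmul : ∀ (P : GL (Fin m ⊕ Fin m) F) (d : F), d ≠ 0 → sj P.val * P = d • 1 → ∀ B : Matrix (Fin m ⊕ Fin m) (Fin m ⊕ Fin m) F, sj B * B = 1 →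
      sj (P.val * B * (P⁻¹).val) * (P.val * B * (P⁻¹).val) = 1 := by
    intro P d hd hP B hB
    have e1 : sj (P⁻¹).val = d⁻¹ • P.val := by
      have e2 : (d⁻¹ • sj P.val) * P.val = 1 := by rw [smul_mul_assoc, hP, smul_smul, inv_mul_cancel₀ hd, one_smul]
      have e3 : P.val * (d⁻¹ • sj P.val) = 1 := mul_eq_one_comm.mp e2
      have e4 : (P⁻¹).val = d⁻¹ • sj P.val := by
        calc (P⁻¹).val = (P⁻¹).val * (P.val * (d⁻¹ • sj P.val)) := by rw [e3, mul_one]
          _ = _ := by rw [← mul_assoc, ← Units.val_mul, inv_mul_cancel, Units.val_one, one_mul]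
      rw [e4, sj_smul, sj_sj]
    rw [sj_mul, sj_mul, e1]
    calc _ = d⁻¹ • (P.val * (sj B * (sj P.val * P) * B) * (P⁻¹).val) := by
          simp only [smul_mul_assoc, mul_assoc]
      _ = _ := by
          rw [hP, mul_smul_comm, mul_one, smul_mul_assoc, hB, mul_smul_comm, mul_one, smul_mul_assoc, smul_smul, inv_mul_cancel₀ hd, one_smul,
            ← Units.val_mul, mul_inv_cancel, Units.val_one]
  have hA' : D.val * A * (D⁻¹).val ∈ Matrix.symplecticGroup (Fin m) F := by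
    rw [mem_sp_iff]
    exact hmul D δ hδ0 hDs A (mem_sp_iff.mp hA)
  have hDA : D.val * A = (D.val * A * (D⁻¹).val) * D := by
    rw [mul_assoc (D.val * A), ← Units.val_mul, inv_mul_cancel, Units.val_one, mul_one]
  have hcon : ∀ B, D.val * (B : Matrix (Fin m ⊕ Fin m) (Fin m ⊕ Fin m) F) * (D⁻¹).val - 1 = D.val * (B - 1) * (D⁻¹).val := by
    intro B
    rw [mul_sub, mul_one, sub_mul, ← Units.val_mul, mul_inv_cancel, Units.val_one]
  have hA0' : (D.val * A * (D⁻¹).val - 1) ^ (2 * m) = 0 := by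
    rw [hcon, Units.conj_pow, hA0, mul_zero, zero_mul]
  have hAr' : (D.val * A * (D⁻¹).val - 1).rank = 2 * m - 1 := by
    rw [hcon, Matrix.rank_mul_eq_left_of_isUnit_det, Matrix.rank_mul_eq_right_of_isUnit_det, hAr]
    · exact (Matrix.isUnit_iff_isUnit_det _).mp D.isUnit
    · exact (Matrix.isUnit_iff_isUnit_det _).mp (D⁻¹).isUnit
  obtain ⟨u₀, hu₀⟩ : ∃ u₀ : Matrix.symplecticGroup (Fin m) F, u₀.1 = A := ⟨⟨A, hA⟩, rfl⟩
  obtain ⟨u₁, hu₁⟩ : ∃ u₁ : Matrix.symplecticGroup (Fin m) F, u₁.1 = D.val * A * (D⁻¹).val := ⟨⟨_, hA'⟩, rfl⟩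
  -- conjugacy criterion
  have hconj : ∀ (P : GL (Fin m ⊕ Fin m) F) (d : F) (v v' : Matrix.symplecticGroup (Fin m) F), d ≠ 0 → sj P.val * P = d • 1 → P.val * v.1 = v'.1 * P →
      IsSquare d → IsConj v v' := by
    rintro P d v v' hd hP hPv ⟨e, he⟩
    have he0 : e ≠ 0 := by
      rintro rfl
      exact hd (by rw [he, mul_zero])
    have hg : e⁻¹ • P.val ∈ Matrix.symplecticGroup (Fin m) F := by
      rw [mem_sp_iff, sj_smul, smul_mul_assoc, mul_smul_comm, hP, smul_smul, smul_smul, he]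
      rw [show e⁻¹ * e⁻¹ * (e * e) = 1 by field_simp, one_smul]
    obtain ⟨g, hg'⟩ : ∃ g : Matrix.symplecticGroup (Fin m) F, g.1 = e⁻¹ • P.val := ⟨⟨_, hg⟩, rfl⟩
    rw [isConj_iff]
    refine ⟨g, ?_⟩
    rw [mul_inv_eq_iff_eq_mul]
    apply Subtype.ext
    change g.1 * v.1 = v'.1 * g.1
    rw [hg', smul_mul_assoc, mul_smul_comm, hPv]
  have hne : ¬ IsConj u₀ u₁ := by
    intro h
    rw [isConj_iff] at h
    obtain ⟨g, hg⟩ := h
    rw [mul_inv_eq_iff_eq_mul] at hg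
    have hg1 : g.1 * A = (D.val * A * (D⁻¹).val) * g.1 := by
      have := congrArg Subtype.val hg
      change g.1 * u₀.1 = u₁.1 * g.1 at this
      rwa [hu₀, hu₁] at this
    have hgs := mem_sp_iff.mp g.2
    have hgs' : g.1 * sj g.1 = 1 := mul_eq_one_comm.mp hgs
    obtain ⟨a, ha⟩ : ∃ a, a = sj g.1 * D.val := ⟨_, rfl⟩
    obtain ⟨c, hc⟩ := sq_of_comm (a := a) (d := δ) h2 hn (mem_sp_iff.mp hA) hA0 hAr (by
      rw [ha, sj_mul, sj_sj]
      calc _ = sj D.val * (g.1 * sj g.1) * D.val := by simp only [mul_assoc]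
        _ = _ := by rw [hgs', mul_one, hDs]) (by
      rw [commute_iff_eq, ha]
      have e1 : A * sj g.1 = sj g.1 * (D.val * A * (D⁻¹).val) := by
        calc A * sj g.1 = (sj g.1 * g.1) * A * sj g.1 := by rw [hgs, one_mul]
          _ = sj g.1 * (g.1 * A) * sj g.1 := by simp only [mul_assoc]
          _ = sj g.1 * (D.val * A * (D⁻¹).val) * (g.1 * sj g.1) := by rw [hg1]; simp only [mul_assoc]
          _ = _ := by rw [hgs', mul_one]
      rw [mul_assoc, hDA, ← mul_assoc, ← e1, mul_assoc])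
    exact hδ ⟨c, by rw [hc, sq]⟩
  have hset : {C : ConjClasses ↥(Matrix.symplecticGroup (Fin m) F) | ∃ u : Matrix.symplecticGroup (Fin m) F, ConjClasses.mk u = C ∧
      ((u : Matrix (Fin m ⊕ Fin m) (Fin m ⊕ Fin m) F) - 1) ^ (2 * m) = 0 ∧ ((u : Matrix (Fin m ⊕ Fin m) (Fin m ⊕ Fin m) F) - 1).rank = 2 * m - 1} =
      {ConjClasses.mk u₀, ConjClasses.mk u₁} := by
    ext K
    simp only [Set.mem_setOf_eq, Set.mem_insert_iff, Set.mem_singleton_iff]
    constructor
    · rintro ⟨u, rfl, hu0, hu1⟩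
      obtain ⟨P, d, hd0, hPd, hPu⟩ := exists_sim hp2 hn (mem_sp_iff.mp hA) (mem_sp_iff.mp u.2) hA0 hAr hu0 hu1
      rw [← hu₀] at hPu
      by_cases hd : IsSquare d
      · left
        rw [ConjClasses.mk_eq_mk_iff_isConj]
        exact (hconj P d u₀ u hd0 hPd hPu hd).symm
      · right
        rw [ConjClasses.mk_eq_mk_iff_isConj]
        symm
        refine hconj (P * D⁻¹) (d * δ⁻¹) u₁ u (mul_ne_zero hd0 (inv_ne_zero hδ0)) ?_ ?_ ?_
        · have e1 : sj (D⁻¹).val * (D⁻¹).val = δ⁻¹ • 1 := by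
            have e2 : (δ⁻¹ • sj D.val) * D.val = 1 := by rw [smul_mul_assoc, hDs, smul_smul, inv_mul_cancel₀ hδ0, one_smul]
            have e3 : D.val * (δ⁻¹ • sj D.val) = 1 := mul_eq_one_comm.mp e2
            have e4 : (D⁻¹).val = δ⁻¹ • sj D.val := by
              calc (D⁻¹).val = (D⁻¹).val * (D.val * (δ⁻¹ • sj D.val)) := by rw [e3, mul_one]
                _ = _ := by rw [← mul_assoc, ← Units.val_mul, inv_mul_cancel, Units.val_one, one_mul]
            nth_rewrite 1 [e4]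
            rw [sj_smul, sj_sj, smul_mul_assoc, ← Units.val_mul, mul_inv_cancel, Units.val_one]
          rw [Units.val_mul, sj_mul]
          calc _ = sj (D⁻¹).val * (sj P.val * P) * (D⁻¹).val := by simp only [mul_assoc]
            _ = _ := by rw [hPd, mul_smul_comm, mul_one, smul_mul_assoc, e1, smul_smul]
        · rw [hu₁, Units.val_mul]
          calc _ = P.val * ((D⁻¹).val * D.val) * A * (D⁻¹).val := by simp only [mul_assoc]
            _ = _ := by rw [← Units.val_mul, inv_mul_cancel, Units.val_one, mul_one, ← hu₀, hPu, mul_assoc]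
        · exact Cfsg.Agent.H16.Quad.isSquare_mul_of_not hd (fun ⟨e, he⟩ => hδ ⟨e⁻¹, by rw [← mul_inv, ← he, inv_inv]⟩)
    · rintro (rfl | rfl)
      · exact ⟨u₀, rfl, by rw [hu₀]; exact hA0, by rw [hu₀]; exact hAr⟩
      · exact ⟨u₁, rfl, by rw [hu₁]; exact hA0', by rw [hu₁]; exact hAr'⟩
  change Nat.card ({C : ConjClasses ↥(Matrix.symplecticGroup (Fin m) F) | ∃ u : Matrix.symplecticGroup (Fin m) F, ConjClasses.mk u = C ∧
      ((u : Matrix (Fin m ⊕ Fin m) (Fin m ⊕ Fin m) F) - 1) ^ (2 * m) = 0 ∧ ((u : Matrix (Fin m ⊕ Fin m) (Fin m ⊕ Fin m) F) - 1).rank = 2 * m - 1} : Set _) = 2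
  rw [hset, Nat.card_coe_set_eq, Set.ncard_pair]
  rw [Ne, ConjClasses.mk_eq_mk_iff_isConj]
  exact hne

end Cfsg.Agent.S2591
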