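import Cfsg.Agent.H16_RU4
import Cfsg.Agent.H5_QuadC
import Cfsg.Statements.S2592
-- import your own Cfsg.Agent.* helpers here

set_option autoImplicit false
open Cfsg

namespace Cfsg.Agent.S2592

/-- Over a finite field with q elements, q odd, the centraliser in Sp_2m(F) (m ≥ 1) of a regular unipotent element (u − 1 nilpotent of rank 2m − 1) has order 2 q^m. -/
theorem result {F : Type*} [Field F] [Fintype F] {q : ℕ} (hF : Fintype.card F = q) (hq : Odd q) {m : ℕ} (hm : 1 ≤ m) (u : Matrix.symplecticGroup (Fin m) F) (hnil : ((u : Matrix (Fin m ⊕ Fin m) (Fin m ⊕ Fin m) F) - 1) ^ (2 * m) = 0) (hreg : ((u : Matrix (Fin m ⊕ Fin m) (Fin m ⊕ Fin m) F) - 1).rank = 2 * m - 1) : Nat.card ↥(Subgroup.centralizer ({u} : Set ↥(Matrix.symplecticGroup (Fin m) F))) = 2 * q ^ m := by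
  subst hF
  have h2 : (2 : F) ≠ 0 := Cfsg.Agent.H5.QuadC.two_ne_zero_of_odd hq
  obtain ⟨n, hn⟩ : ∃ n, 2 * m = n + 1 := ⟨2 * m - 1, by omega⟩
  have hu := Cfsg.Agent.H16.RU.mem_sp_iff.mp u.2
  obtain ⟨y, hy, h0, h1, hyu⟩ := Cfsg.Agent.H16.RU.exists_y h2 hn hu hnil hreg
  obtain ⟨C, _, _, _, σ, t, φ, hφ, hφt, hφr, hφσ, hσσ, hσF, hσt, ht0, H1, H2⟩ := Cfsg.Agent.H16.RU.transfer hn hy h0 h1
  have hc : Nat.card {a : C // σ a * a = 1} = 2 * Fintype.card F ^ m := by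
    rw [Cfsg.Agent.H16.RU.card_U h2 hσσ hσF hσt ht0 H1]
    rw [← hn] at H1 H2
    rw [Cfsg.Agent.H16.RU.card_skew h2 hσF hσt H1 H2]
    congr 1
    have h11 : (1 : F) ≠ -1 := by
      intro h
      apply h2
      rw [← one_add_one_eq_two]
      nth_rewrite 2 [h]
      rw [add_neg_cancel]
    have e1 : {c : F | c ^ 2 = 1} = {1, -1} := by
      ext c
      simp only [Set.mem_setOf_eq, Set.mem_insert_iff, Set.mem_singleton_iff]
      rw [sq, mul_self_eq_one_iff]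
    change Nat.card ({c : F | c ^ 2 = 1} : Set F) = 2
    rw [e1, Nat.card_coe_set_eq, Set.ncard_pair h11]
  rw [← hc]
  symm
  have hmem : ∀ a : C, σ a * a = 1 → φ a ∈ Matrix.symplecticGroup (Fin m) F := by
    intro a ha
    rw [Cfsg.Agent.H16.RU.mem_sp_iff, ← hφσ, ← _root_.map_mul, ha, _root_.map_one]
  refine Nat.card_congr (Equiv.ofBijective (fun a : {a : C // σ a * a = 1} => (⟨⟨φ a.1, hmem a.1 a.2⟩, ?_⟩ :
    ↥(Subgroup.centralizer ({u} : Set ↥(Matrix.symplecticGroup (Fin m) F))))) ⟨?_, ?_⟩)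
  · rw [Subgroup.mem_centralizer_iff]
    rintro _ rfl
    apply Subtype.ext
    have h3 : Commute (φ a.1) y := (hφr _).mpr ⟨a.1, rfl⟩
    exact ((hyu _).mp h3).eq.symm
  · rintro ⟨a, ha⟩ ⟨b, hb⟩ h
    apply Subtype.ext
    apply hφ
    exact congrArg (fun x : ↥(Subgroup.centralizer ({u} : Set ↥(Matrix.symplecticGroup (Fin m) F))) => x.1.1) h
  · rintro ⟨⟨g, hg⟩, hgu⟩
    rw [Subgroup.mem_centralizer_iff] at hgu
    have h3 : Commute g u.1 := (congrArg Subtype.val (hgu u rfl)).symm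
    obtain ⟨a, ha⟩ := (hφr g).mp ((hyu g).mpr h3)
    refine ⟨⟨a, ?_⟩, ?_⟩
    · apply hφ
      rw [_root_.map_mul, hφσ, ha, _root_.map_one]
      exact Cfsg.Agent.H16.RU.mem_sp_iff.mp hg
    · apply Subtype.ext
      apply Subtype.ext
      exact ha

end Cfsg.Agent.S2592
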