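import Cfsg.Statements.S2594
import Mathlib
import Cfsg.Agent.H5_Symp
import Cfsg.Agent.S0245

set_option autoImplicit false
open Cfsg

namespace Cfsg.Agent.S2594

open Cfsg.Agent.H5.Symp Cfsg.Agent.H5.Conc Matrix Module

theorem tv_of_rank_one {F : Type*} [Field F] {m : ℕ} (t : Matrix.symplecticGroup (Fin m) F)
    (ht : ((t : Matrix (Fin m ⊕ Fin m) (Fin m ⊕ Fin m) F) - 1).rank = 1) :
    ∃ (w : Fin m ⊕ Fin m → F) (a : F), w ≠ 0 ∧ a ≠ 0 ∧
      ∀ v, (t : Matrix (Fin m ⊕ Fin m) (Fin m ⊕ Fin m) F) *ᵥ v = v + (a * Cfsg.sympForm m F w v) • w := by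
  have h1 : finrank F (LinearMap.range ((t : Matrix (Fin m ⊕ Fin m) (Fin m ⊕ Fin m) F) - 1).mulVecLin) = 1 := ht
  obtain ⟨w, hw, hc⟩ := finrank_eq_one_iff'.1 h1
  obtain ⟨v1, hv1⟩ := w.2
  have hw0 : (w : Fin m ⊕ Fin m → F) ≠ 0 := fun h => hw (Subtype.ext h)
  have hcv : ∀ v, ∃ c : F, (t : Matrix (Fin m ⊕ Fin m) (Fin m ⊕ Fin m) F) *ᵥ v = v + c • (w : Fin m ⊕ Fin m → F) := by
    intro v
    obtain ⟨c, hc'⟩ := hc ⟨_, v, rfl⟩
    refine ⟨c, ?_⟩
    have := congrArg Subtype.val hc'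
    change c • (w : Fin m ⊕ Fin m → F) = ((t : Matrix (Fin m ⊕ Fin m) (Fin m ⊕ Fin m) F) - 1) *ᵥ v at this
    rw [Matrix.sub_mulVec, Matrix.one_mulVec] at this
    rw [this]; abel
  have htv1 : (t : Matrix (Fin m ⊕ Fin m) (Fin m ⊕ Fin m) F) *ᵥ v1 = v1 + (w : Fin m ⊕ Fin m → F) := by
    rw [Matrix.mulVecLin_apply, Matrix.sub_mulVec, Matrix.one_mulVec] at hv1
    rw [← hv1]; abel
  have hiso := (mem_symplecticGroup_iff (t : Matrix (Fin m ⊕ Fin m) (Fin m ⊕ Fin m) F)).1 t.2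
  have key : ∀ v c, (t : Matrix (Fin m ⊕ Fin m) (Fin m ⊕ Fin m) F) *ᵥ v = v + c • (w : Fin m ⊕ Fin m → F) →
      c * Cfsg.sympForm m F w v1 = Cfsg.sympForm m F w v := by
    intro v c hvc
    have h := hiso v v1
    rw [hvc, htv1, add_left, add_right, add_right, smul_left, smul_left, Cfsg.Agent.H5.Symp.self, swap (w : Fin m ⊕ Fin m → F) v] at h
    linear_combination h
  have hne : Cfsg.sympForm m F w v1 ≠ 0 := by
    intro h0
    obtain ⟨v, hv⟩ := exists_ne hw0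
    obtain ⟨c, hc'⟩ := hcv v
    have := key v c hc'
    rw [h0, mul_zero] at this
    exact hv this.symm
  refine ⟨w, (Cfsg.sympForm m F w v1)⁻¹, hw0, inv_ne_zero hne, fun v => ?_⟩
  obtain ⟨c, hc'⟩ := hcv v
  rw [hc', ← key v c hc', mul_comm c, inv_mul_cancel_left₀ hne]

theorem mem_centralizer_tv {F : Type*} [Field F] [CharP F 2] {m : ℕ} {w : Fin m ⊕ Fin m → F} (hw : w ≠ 0)
    {t g : Matrix.symplecticGroup (Fin m) F}
    (ht : ∀ v, (t : Matrix (Fin m ⊕ Fin m) (Fin m ⊕ Fin m) F) *ᵥ v = v + (Cfsg.sympForm m F w v) • w) :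
    g ∈ Subgroup.centralizer ({t} : Set (Matrix.symplecticGroup (Fin m) F)) ↔
      (g : Matrix (Fin m ⊕ Fin m) (Fin m ⊕ Fin m) F) *ᵥ w = w := by
  have h2 : (2 : F) = 0 := CharTwo.two_eq_zero
  have hiso := (mem_symplecticGroup_iff (g : Matrix (Fin m ⊕ Fin m) (Fin m ⊕ Fin m) F)).1 g.2
  have hkey : g * t = t * g ↔ ∀ v, (Cfsg.sympForm m F w v) • ((g : Matrix (Fin m ⊕ Fin m) (Fin m ⊕ Fin m) F) *ᵥ w)
      = (Cfsg.sympForm m F w ((g : Matrix (Fin m ⊕ Fin m) (Fin m ⊕ Fin m) F) *ᵥ v)) • w := by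
    have e : ∀ v, ((g : Matrix (Fin m ⊕ Fin m) (Fin m ⊕ Fin m) F) * (t : Matrix (Fin m ⊕ Fin m) (Fin m ⊕ Fin m) F)) *ᵥ v
        = ((t : Matrix (Fin m ⊕ Fin m) (Fin m ⊕ Fin m) F) * (g : Matrix (Fin m ⊕ Fin m) (Fin m ⊕ Fin m) F)) *ᵥ v ↔
        (Cfsg.sympForm m F w v) • ((g : Matrix (Fin m ⊕ Fin m) (Fin m ⊕ Fin m) F) *ᵥ w)
          = (Cfsg.sympForm m F w ((g : Matrix (Fin m ⊕ Fin m) (Fin m ⊕ Fin m) F) *ᵥ v)) • w := by
      intro v
      rw [← Matrix.mulVec_mulVec, ← Matrix.mulVec_mulVec, ht, ht, Matrix.mulVec_add, Matrix.mulVec_smul, add_right_inj]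
    constructor
    · intro h v
      rw [← e]
      have := congrArg (fun x : Matrix.symplecticGroup (Fin m) F => (x : Matrix (Fin m ⊕ Fin m) (Fin m ⊕ Fin m) F) *ᵥ v) h
      exact this
    · intro h
      apply Subtype.ext
      apply Matrix.ext_of_mulVec_single
      intro i
      exact (e _).2 (h _)
  rw [Subgroup.mem_centralizer_singleton_iff]
  have hc : t * g = g * t ↔ g * t = t * g := eq_comm
  first
    | rw [hkey]
    | rw [hc, hkey]
  constructor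
  · intro h
    obtain ⟨v, hv⟩ := exists_ne hw
    -- put `g w = μ w`
    have h1 := h v
    obtain ⟨μ, hμ⟩ : ∃ μ : F, (g : Matrix (Fin m ⊕ Fin m) (Fin m ⊕ Fin m) F) *ᵥ w = μ • w := by
      refine ⟨(Cfsg.sympForm m F w v)⁻¹ * Cfsg.sympForm m F w ((g : Matrix (Fin m ⊕ Fin m) (Fin m ⊕ Fin m) F) *ᵥ v), ?_⟩
      rw [mul_smul, ← h1, smul_smul, inv_mul_cancel₀ hv, one_smul]
    have h3 := hiso w v
    rw [hμ, smul_left] at h3
    rw [hμ, smul_smul] at h1
    have h4 : Cfsg.sympForm m F w v * μ = Cfsg.sympForm m F w ((g : Matrix (Fin m ⊕ Fin m) (Fin m ⊕ Fin m) F) *ᵥ v) := by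
      by_contra hne
      have : (Cfsg.sympForm m F w v * μ - Cfsg.sympForm m F w ((g : Matrix (Fin m ⊕ Fin m) (Fin m ⊕ Fin m) F) *ᵥ v)) • w = 0 := by
        rw [sub_smul, h1, sub_self]
      rcases smul_eq_zero.1 this with h | h
      · exact hne (sub_eq_zero.1 h)
      · exact hw h
    have h5 : (μ - 1) ^ 2 * Cfsg.sympForm m F w v = 0 := by
      have e1 : μ * (Cfsg.sympForm m F w v * μ) = Cfsg.sympForm m F w v := by rw [h4]; exact h3
      linear_combination e1 + (1 - μ) * Cfsg.sympForm m F w v * h2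
    rcases mul_eq_zero.1 h5 with h6 | h6
    · have : μ = 1 := sub_eq_zero.1 (pow_eq_zero_iff two_ne_zero |>.1 h6)
      rw [hμ, this, one_smul]
    · exact absurd h6 hv
  · intro h v
    rw [h]
    congr 1
    rw [← hiso w v, h]

/-- Over a finite field with q elements, q even, an element t of Sp_2m(F) with rank(t − 1) = 1 (a symplectic transvection) has centraliser in Sp_2m(F) of order q^(2m−1) · |Sp_(2m−2)(q)| = q^(2m−1) · q^((m−1)²) · Π_(i=1)^(m−1) (q^(2i) − 1). -/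
theorem result {F : Type*} [Field F] [Fintype F] [CharP F 2] {q : ℕ} (hF : Fintype.card F = q) {m : ℕ} (hm : 1 ≤ m) (t : Matrix.symplecticGroup (Fin m) F) (ht : ((t : Matrix (Fin m ⊕ Fin m) (Fin m ⊕ Fin m) F) - 1).rank = 1) : Nat.card ↥(Subgroup.centralizer ({t} : Set ↥(Matrix.symplecticGroup (Fin m) F))) = q ^ (2 * m - 1) * (q ^ ((m - 1) ^ 2) * ∏ i : Fin (m - 1), (q ^ (2 * ((i : ℕ) + 1)) - 1)) := by
  obtain ⟨w1, a, hw1, ha, ht1⟩ := tv_of_rank_one t ht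
  obtain ⟨c, hc⟩ := FiniteField.isSquare_of_char_two (ringChar.eq_iff.2 inferInstance) a
  have hc0 : c ≠ 0 := by rintro rfl; exact ha (by simpa using hc)
  obtain ⟨w, hwdef⟩ : ∃ w, w = c • w1 := ⟨_, rfl⟩
  have hw : w ≠ 0 := by rw [hwdef]; exact smul_ne_zero hc0 hw1
  have ht2 : ∀ v, (t : Matrix (Fin m ⊕ Fin m) (Fin m ⊕ Fin m) F) *ᵥ v = v + (Cfsg.sympForm m F w v) • w := by
    intro v
    rw [ht1, hwdef, smul_left, smul_smul, hc]
    congr 2
    ring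
  letI act : @MulAction (Matrix.symplecticGroup (Fin m) F) (Fin m ⊕ Fin m → F) (DivInvMonoid.toMonoid) :=
    { smul := fun g v => (g : Matrix (Fin m ⊕ Fin m) (Fin m ⊕ Fin m) F) *ᵥ v
      one_smul := fun v => Matrix.one_mulVec v
      mul_smul := fun g h v => (Matrix.mulVec_mulVec v _ _).symm }
  have hsm : ∀ (g : Matrix.symplecticGroup (Fin m) F) (v : Fin m ⊕ Fin m → F),
      g • v = (g : Matrix (Fin m ⊕ Fin m) (Fin m ⊕ Fin m) F) *ᵥ v := fun _ _ => rfl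
  have hstab : Subgroup.centralizer ({t} : Set ↥(Matrix.symplecticGroup (Fin m) F)) =
      MulAction.stabilizer (Matrix.symplecticGroup (Fin m) F) w := by
    ext g
    rw [mem_centralizer_tv hw ht2, MulAction.mem_stabilizer_iff]
    exact Iff.rfl
  have horb : (MulAction.orbit (Matrix.symplecticGroup (Fin m) F) w) = {v | v ≠ 0} := by
    ext v
    constructor
    · rintro ⟨g, rfl⟩ h0
      change g • w = 0 at h0
      apply hw
      have : g⁻¹ • (g • w) = w := inv_smul_smul g w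
      rw [← this, h0, hsm, Matrix.mulVec_zero]
    · intro hv
      obtain ⟨g, -, hg⟩ := H_transitive hw hv
      exact ⟨g, hg⟩
  have h3 := (MulAction.stabilizer (Matrix.symplecticGroup (Fin m) F) w).card_mul_index
  rw [MulAction.index_stabilizer] at h3
  replace h3 : Nat.card (MulAction.stabilizer (Matrix.symplecticGroup (Fin m) F) w) *
      ({v : Fin m ⊕ Fin m → F | v ≠ 0} : Set _).ncard = Nat.card (Matrix.symplecticGroup (Fin m) F) := by
    rw [← horb]; exact h3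
  have h4 : ({v : Fin m ⊕ Fin m → F | v ≠ 0} : Set _).ncard = q ^ (2 * m) - 1 := by
    have e1 : ({v : Fin m ⊕ Fin m → F | v ≠ 0} : Set _) = ({0} : Set _)ᶜ := by ext v; simp
    rw [e1, Set.ncard_compl, Set.ncard_singleton, Nat.card_eq_fintype_card, Fintype.card_fun, hF, Fintype.card_sum,
      Fintype.card_fin, two_mul]
  rw [h4, Cfsg.Agent.S0245.result hF] at h3
  rw [hstab]
  have hq : 2 ≤ q := by rw [← hF]; exact Fintype.one_lt_card
  obtain ⟨k, rfl⟩ : ∃ k, m = k + 1 := ⟨m - 1, by omega⟩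
  rw [Finset.prod_range_succ] at h3
  have h5 : 0 < q ^ (2 * (k + 1)) - 1 := by
    have := Nat.one_lt_pow (show 2 * (k + 1) ≠ 0 by omega) (show 1 < q by omega)
    omega
  rw [show q ^ (k + 1) ^ 2 * ((∏ x ∈ Finset.range k, (q ^ (2 * (x + 1)) - 1)) * (q ^ (2 * (k + 1)) - 1)) =
    (q ^ (k + 1) ^ 2 * (∏ x ∈ Finset.range k, (q ^ (2 * (x + 1)) - 1))) * (q ^ (2 * (k + 1)) - 1) by ring] at h3
  have h6 := Nat.eq_of_mul_eq_mul_right h5 h3
  rw [h6, Nat.add_sub_cancel, ← Finset.prod_range (fun i => q ^ (2 * (i + 1)) - 1), ← mul_assoc, ← pow_add]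
  congr 2
  have : 2 * (k + 1) - 1 = 2 * k + 1 := by omega
  rw [this]; ring

end Cfsg.Agent.S2594
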