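import Cfsg.Statements.S2598
import Mathlib
import Cfsg.Agent.H5_Inv3
import Cfsg.Agent.S0824

set_option autoImplicit false
open Cfsg

namespace Cfsg.Agent.S2598

open Module Cfsg.Agent.H16.Quad Cfsg.Agent.H5.I2 Equiv Equiv.Perm

/-- involutions of `A₅` are conjugate -/
theorem a5_conj {g : Perm (Fin 5)} (hg : Perm.sign g = 1) (ho : orderOf g = 2) :
    ∃ c : Perm (Fin 5), Perm.sign c = 1 ∧ c * (swap 0 1 * swap 2 3) * c⁻¹ = g := by
  have h1 : g ≠ 1 := by rintro rfl; rw [orderOf_one] at ho; omega
  have h2 : ∀ n ∈ g.cycleType, n = 2 := by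
    intro n hn
    have h3 := two_le_of_mem_cycleType hn
    have h4 := dvd_of_mem_cycleType hn
    rw [ho] at h4
    have := Nat.le_of_dvd (by norm_num) h4
    omega
  have h := g.support.card_le_univ
  rw [← Multiset.eq_replicate_card] at h2
  rw [← sum_cycleType, h2, Multiset.sum_replicate, smul_eq_mul, Fintype.card_fin] at h
  rw [sign_of_cycleType, h2, Multiset.sum_replicate, Multiset.card_replicate,
    smul_eq_mul, pow_add, pow_mul, ← pow_mul, mul_comm, pow_mul, ← pow_mul] at hg
  have hk0 : Multiset.card g.cycleType ≠ 0 := fun h0 => h1 (card_cycleType_eq_zero.1 h0)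
  have hk2 : Multiset.card g.cycleType = 2 := by
    have hk : Multiset.card g.cycleType = 1 ∨ Multiset.card g.cycleType = 2 := by omega
    rcases hk with hk | hk
    · rw [hk] at hg
      exact absurd hg (by decide)
    · exact hk
  have hconj : IsConj (swap 0 1 * swap 2 3 : Perm (Fin 5)) g := by
    rw [isConj_iff_cycleType_eq, h2, hk2]
    rw [Disjoint.cycleType_mul (by
      rw [Equiv.Perm.disjoint_iff_disjoint_support]; decide)]
    rw [(isSwap_iff_cycleType.1 ⟨0, 1, by decide, rfl⟩ : (swap 0 1 : Perm (Fin 5)).cycleType = {2}),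
      (isSwap_iff_cycleType.1 ⟨2, 3, by decide, rfl⟩ : (swap 2 3 : Perm (Fin 5)).cycleType = {2})]
    rfl
  obtain ⟨c, hc⟩ := isConj_iff.1 hconj
  rcases Int.units_eq_one_or (Perm.sign c) with hs | hs
  · exact ⟨c, hs, hc⟩
  · refine ⟨c * swap 0 1, ?_, ?_⟩
    · rw [Perm.sign_mul, hs, sign_swap (by decide)]; rfl
    · rw [← hc]
      have : (swap 0 1 : Perm (Fin 5)) * (swap 0 1 * swap 2 3) * (swap 0 1)⁻¹ = swap 0 1 * swap 2 3 := by decide
      calc c * swap 0 1 * (swap 0 1 * swap 2 3) * (c * swap 0 1)⁻¹ =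
          c * (swap 0 1 * (swap 0 1 * swap 2 3) * (swap 0 1)⁻¹) * c⁻¹ := by group
        _ = _ := by rw [this]

theorem mem_comm5 {g : Perm (Fin 5)} : g ∈ commutator (Perm (Fin 5)) ↔ Perm.sign g = 1 := by
  constructor
  · intro h
    exact Equiv.Perm.mem_alternatingGroup.1 (alternatingGroup.commutator_perm_le h)
  · intro h
    have h5 : 5 ≤ Nat.card (Fin 5) := by simp
    have h1 := commutator_alternatingGroup_eq_top (α := Fin 5) h5
    have h2 : (⟨g, Equiv.Perm.mem_alternatingGroup.2 h⟩ : alternatingGroup (Fin 5)) ∈ commutator (alternatingGroup (Fin 5)) := by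
      rw [h1]; exact Subgroup.mem_top _
    have h3 : (commutator (alternatingGroup (Fin 5))).map (alternatingGroup (Fin 5)).subtype ≤ commutator (Perm (Fin 5)) := by
      rw [commutator_def, commutator_def, Subgroup.map_commutator]
      exact Subgroup.commutator_mono le_top le_top
    exact h3 ⟨_, h2, rfl⟩

theorem card_S5 {G : Type*} [Group G] (e : G ≃* Perm (Fin 5)) :
    Nat.card {C : ConjClasses (commutator G) // ∃ g : commutator G, ConjClasses.mk g = C ∧ orderOf g = 2} = 1 := by
  rw [card_classes (P := fun g : commutator G => orderOf g = 2) (fun _ => ()) {()}]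
  · rfl
  · intro _ _; exact Finset.mem_singleton_self _
  · intro _ _
    have h1 : (swap 0 1 * swap 2 3 : Perm (Fin 5)) ∈ commutator (Perm (Fin 5)) := by
      rw [mem_comm5]; decide
    refine ⟨⟨e.symm (swap 0 1 * swap 2 3), ?_⟩, ?_, rfl⟩
    · rw [mem_commutator_equiv e, MulEquiv.apply_symm_apply]; exact h1
    · change orderOf _ = 2
      rw [← Subgroup.orderOf_coe]
      change orderOf (e.symm (swap 0 1 * swap 2 3)) = 2
      rw [MulEquiv.orderOf_eq, orderOf_eq_prime_iff]
      exact ⟨by decide, by decide⟩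
  · intro g h hg hh
    refine ⟨fun _ => rfl, fun _ => ?_⟩
    have key : ∀ g : commutator G, orderOf g = 2 → ∃ c ∈ commutator G, c * e.symm (swap 0 1 * swap 2 3) * c⁻¹ = g := by
      intro g hg
      have h1 : Perm.sign (e g) = 1 := mem_comm5.1 ((mem_commutator_equiv e _).1 g.2)
      have h2 : orderOf (e (g : G)) = 2 := by
        rw [MulEquiv.orderOf_eq]; exact (Subgroup.orderOf_coe g).trans hg
      obtain ⟨c, hc, hc2⟩ := a5_conj h1 h2
      refine ⟨e.symm c, ?_, ?_⟩
      · rw [mem_commutator_equiv e, MulEquiv.apply_symm_apply]; exact mem_comm5.2 hc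
      · apply e.injective
        rw [_root_.map_mul, _root_.map_mul, _root_.map_inv, MulEquiv.apply_symm_apply, MulEquiv.apply_symm_apply]
        exact hc2
    obtain ⟨c, hc, hc2⟩ := key g hg
    obtain ⟨d, hd, hd2⟩ := key h hh
    rw [isConj_iff]
    refine ⟨⟨d * c⁻¹, mul_mem hd (inv_mem hc)⟩, ?_⟩
    apply Subtype.ext
    change d * c⁻¹ * (g : G) * (d * c⁻¹)⁻¹ = h
    rw [← hc2, ← hd2]
    group

theorem two_cases' {F : Type*} [Field F] [Fintype F] (hF : Fintype.card F = 2) (a : F) : a = 0 ∨ a = 1 :=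
  Cfsg.Agent.S0824.two_cases hF a

/-- Number of conjugacy classes of involutions in Ω⁻_2m(F) (the commutator subgroup of the orthogonal group of an elliptic quadratic form, Σ_(i<m−1) x_i y_i plus an anisotropic binary form) over a finite field F of characteristic two, m ≥ 1: the involutions of Ω are those with s = rank(t − 1) even, one O-class for each even s with 2 ≤ s ≤ m on which v ↦ f(v, tv) is not identically zero and one for each even s with 2 ≤ s < m on which it is zero (f the polar form; in characteristic 2, f(v, tv) = Q(v + tv)), none of which splits in Ω; in all ⌊m/2⌋ + ⌊(m − 1)/2⌋. -/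
theorem result {F : Type*} [Field F] [Fintype F] [CharP F 2] {m : ℕ} (hm : 1 ≤ m) (a b : F) (hab : ∀ z₁ z₂ : F, z₁ ^ 2 + a * z₁ * z₂ + b * z₂ ^ 2 = 0 → z₁ = 0 ∧ z₂ = 0) : Nat.card {C : ConjClasses ↥(Cfsg.Omega F (Cfsg.quadFormMinus (m - 1) F a b)) // ∃ g : ↥(Cfsg.Omega F (Cfsg.quadFormMinus (m - 1) F a b)), ConjClasses.mk g = C ∧ orderOf g = 2} = m / 2 + (m - 1) / 2 := by
  obtain ⟨n, rfl⟩ : ∃ n, m = n + 1 := ⟨m - 1, by omega⟩
  by_cases hex : Fintype.card F = 2 ∧ n = 1
  · obtain ⟨hF, rfl⟩ := hex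
    have ha : a = 1 := by
      rcases two_cases' hF a with h | h
      · exfalso
        obtain ⟨c, hc⟩ := isSquare_of_two_eq_zero (F := F) CharTwo.two_eq_zero b
        have := hab c 1 (by rw [h, hc]; linear_combination c ^ 2 * (CharTwo.two_eq_zero : (2 : F) = 0))
        exact one_ne_zero this.2
      · exact h
    have hb : b = 1 := by
      rcases two_cases' hF b with h | h
      · exfalso
        have := hab 0 1 (by rw [h]; ring)
        exact one_ne_zero this.2
      · exact h
    subst ha; subst hb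
    obtain ⟨e⟩ := Cfsg.Agent.S0824.result hF
    exact card_S5 e
  · have hmem : ∀ (Q' : ((Fin n ⊕ Fin n) ⊕ Fin 2 → F) → F) (hQ' : ⇑(minusQ F n a b) = Q'),
        Nat.card {C : ConjClasses ↥(Cfsg.Omega F Q') // ∃ g : ↥(Cfsg.Omega F Q'), ConjClasses.mk g = C ∧ orderOf g = 2} = (n + 1) / 2 + n / 2 := by
      rintro _ rfl
      exact (famMinus n hab).card_Om_minus (nd_minusQ n hab) (by
        rw [Nat.card_eq_fintype_card, finrank_mns]
        by_cases h : Fintype.card F = 2
        · right
          intro h4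
          exact hex ⟨h, by omega⟩
        · exact Or.inl h) (finrank_mns n)
        (fun U hU => (minusQ_isMinus n hab).ts_le (nd_minusQ n hab) hU) (by omega)
    exact hmem _ (coe_minusQ F n a b)

end Cfsg.Agent.S2598
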