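import Cfsg.Agent.H16_Mat
import Cfsg.Statements.S2599
-- import your own Cfsg.Agent.* helpers here

set_option autoImplicit false
open Cfsg

namespace Cfsg.Agent.S2599

open Cfsg.Agent.H16.Quad Module in

/-- An irreducible invariant subspace of a semisimple isometry is non-degenerate or totally singular: let Q be a quadratic form on F^n (F finite of characteristic p) with non-degenerate polar form f, x an isometry of Q of order prime to p, and U a non-zero x-invariant subspace containing no x-invariant subspace other than 0 and U. Then U meets its f-orthogonal trivially, or Q vanishes on U, or p = 2, U is a line spanned by a non-singular vector and x fixes U pointwise. -/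
theorem result {F : Type*} [Field F] [Fintype F] {p : ℕ} [Fact p.Prime] [CharP F p] {n : ℕ} (Q : QuadraticForm F (Fin n → F)) (hQ : (QuadraticMap.polarBilin Q).Nondegenerate) (x : ↥(Cfsg.isometryGroup F ⇑Q)) (hx : (orderOf x).Coprime p) (U : Submodule F (Fin n → F)) (hU0 : U ≠ ⊥) (hUx : ∀ u ∈ U, ((x : Matrix.GeneralLinearGroup (Fin n) F) : Matrix (Fin n) (Fin n) F).mulVec u ∈ U) (hirr : ∀ W : Submodule F (Fin n → F), W ≤ U → (∀ w ∈ W, ((x : Matrix.GeneralLinearGroup (Fin n) F) : Matrix (Fin n) (Fin n) F).mulVec w ∈ W) → W = ⊥ ∨ W = U) : U ⊓ LinearMap.BilinForm.orthogonal (QuadraticMap.polarBilin Q) U = ⊥ ∨ (∀ u ∈ U, Q u = 0) ∨ (p = 2 ∧ Module.finrank F U = 1 ∧ (∃ u ∈ U, Q u ≠ 0) ∧ ∀ u ∈ U, ((x : Matrix.GeneralLinearGroup (Fin n) F) : Matrix (Fin n) (Fin n) F).mulVec u = u) := by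
  obtain ⟨g, hg⟩ : ∃ g : OG Q, ∀ v, g.1 v = ((x : Matrix.GeneralLinearGroup (Fin n) F) : Matrix (Fin n) (Fin n) F).mulVec v :=
    ⟨toOG Q x, fun v => toOG_apply Q x v⟩
  simp only [← hg] at hUx hirr ⊢
  rcases hirr (U ⊓ perp Q U) inf_le_left (by
    rintro w ⟨hw1, hw2⟩
    refine ⟨hUx w hw1, ?_⟩
    have hle : U.map g.1.toLinearMap = U := by
      apply Submodule.eq_of_le_of_finrank_eq
      · rintro _ ⟨u, hu, rfl⟩; exact hUx u hu
      · exact LinearEquiv.finrank_map_eq g.1 U
    rw [SetLike.mem_coe, mem_perp]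
    intro y hy
    rw [← hle] at hy
    obtain ⟨z, hz, rfl⟩ := hy
    show QuadraticMap.polar Q (g.1 z) (g.1 w) = 0
    rw [OG_polar g.2]
    exact mem_perp.1 hw2 z hz) with h | h
  · exact Or.inl h
  · right
    have hUperp : ∀ u ∈ U, ∀ v ∈ U, QuadraticMap.polar Q u v = 0 := by
      intro u hu v hv
      rw [← h] at hv
      exact mem_perp.1 hv.2 u hu
    have hadd : ∀ u ∈ U, ∀ v ∈ U, Q (u + v) = Q u + Q v := by
      intro u hu v hv
      rw [H16.Quad.map_add, hUperp u hu v hv, add_zero]
    let Z : Submodule F (Fin n → F) :=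
      { carrier := {u | u ∈ U ∧ Q u = 0}
        add_mem' := fun {a b} ha hb => ⟨U.add_mem ha.1 hb.1, by rw [hadd a ha.1 b hb.1, ha.2, hb.2, add_zero]⟩
        zero_mem' := ⟨U.zero_mem, by simp⟩
        smul_mem' := fun c a ha => ⟨U.smul_mem c ha.1, by rw [H16.Quad.map_smul, ha.2, mul_zero]⟩ }
    rcases hirr Z (fun u hu => hu.1) (fun w hw => ⟨hUx w hw.1, by rw [mem_OG.1 g.2, hw.2]⟩) with hZ | hZ
    · right
      have hzero : ∀ u ∈ U, Q u = 0 → u = 0 := by
        intro u hu hu0
        have : u ∈ Z := ⟨hu, hu0⟩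
        rw [hZ] at this
        exact (Submodule.mem_bot F).1 this
      obtain ⟨u, hu, hu0⟩ : ∃ u ∈ U, u ≠ 0 := by
        by_contra hcon
        push Not at hcon
        exact hU0 ((Submodule.eq_bot_iff _).2 hcon)
      have hQu : Q u ≠ 0 := fun h => hu0 (hzero u hu h)
      have h2 : (2 : F) = 0 := by
        have := hUperp u hu u hu
        rw [polar_self] at this
        exact (mul_eq_zero.1 this).resolve_right hQu
      have hp : p = 2 := by
        have h3 : p ∣ 2 := (CharP.cast_eq_zero_iff F p 2).1 (by exact_mod_cast h2)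
        exact (Nat.prime_dvd_prime_iff_eq (Fact.out) Nat.prime_two).1 h3
      refine ⟨hp, ?_, ⟨u, hu, hQu⟩, ?_⟩
      · rw [finrank_eq_one_iff']
        refine ⟨⟨u, hu⟩, fun h => hu0 (congrArg Subtype.val h), fun w => ?_⟩
        obtain ⟨c, hc⟩ := isSquare_of_two_eq_zero h2 (Q (w : Fin n → F) / Q u)
        refine ⟨c, ?_⟩
        have h4 : c • u + (w : Fin n → F) = 0 := by
          apply hzero _ (U.add_mem (U.smul_mem c hu) w.2)
          rw [hadd _ (U.smul_mem c hu) _ w.2, H16.Quad.map_smul, ← hc]
          field_simp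
          linear_combination Q (w : Fin n → F) * h2
        apply Subtype.ext
        show c • u = (w : Fin n → F)
        have h5 : (2 : F) • (w : Fin n → F) = 0 := by rw [h2, zero_smul]
        rw [two_smul] at h5
        calc c • u = c • u + ((w : Fin n → F) + w) := by rw [h5, add_zero]
          _ = (c • u + w) + w := by abel
          _ = w := by rw [h4, zero_add]
      · intro w hw
        have h4 : g.1 w + w = 0 := by
          apply hzero _ (U.add_mem (hUx w hw) hw)
          rw [hadd _ (hUx w hw) _ hw, mem_OG.1 g.2]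
          linear_combination Q w * h2
        have h5 : (2 : F) • w = 0 := by rw [h2, zero_smul]
        rw [two_smul] at h5
        calc g.1 w = g.1 w + (w + w) := by rw [h5, add_zero]
          _ = (g.1 w + w) + w := by abel
          _ = w := by rw [h4, zero_add]
    · left
      intro u hu
      rw [← hZ] at hu
      exact hu.2

end Cfsg.Agent.S2599
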