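import Cfsg.Agent.H16_AutP3
import Cfsg.Statements.S2601
-- import your own Cfsg.Agent.* helpers here

set_option autoImplicit false
open Cfsg

namespace Cfsg.Agent.S2601

open Cfsg.Agent.H16.AutG Cfsg.Agent.H16.AutL in

/-- Structure of the outer automorphism group of PSL_n(q), n ≥ 3, q = p^f: it has a normal cyclic subgroup of order gcd(n, q − 1) (the diagonal automorphisms) whose quotient is the direct product of a cyclic group of order f (field automorphisms) and a group of order 2 (the inverse-transpose graph automorphism). -/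
theorem result {F : Type*} [Field F] [Fintype F] {p f n : ℕ} [Fact p.Prime] (hf : 1 ≤ f) (hF : Fintype.card F = p ^ f) (hn : 3 ≤ n) : ∃ φ : Cfsg.Out (Matrix.ProjectiveSpecialLinearGroup (Fin n) F) →* Multiplicative (ZMod f × ZMod 2), Function.Surjective φ ∧ IsCyclic φ.ker ∧ Nat.card φ.ker = Nat.gcd n (p ^ f - 1) := by
  have hn2 : 2 ≤ n := by omega
  have hcf : Nat.card (F ≃+* F) = f := Cfsg.Agent.H16.FAut.card_ringAut (p := p)
    (by rw [Nat.card_eq_fintype_card, hF]) hf
  obtain ⟨θ, h1, h3⟩ := exists_theta3 (F := F) (n := n) hn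
  obtain ⟨k1, k2⟩ := out_ker (F := F) (n := n) hn2 (q := p ^ f) (by rw [Nat.card_eq_fintype_card, hF])
  have e1 : (F ≃+* F) ≃* Multiplicative (ZMod f) := by
    rw [← hcf]
    exact (zmodCyclicMulEquiv inferInstance).symm
  have e2 : Subgroup.zpowers (dn iS : MulAut (Matrix.ProjectiveSpecialLinearGroup (Fin n) F)) ≃*
      Multiplicative (ZMod 2) := by
    have gen : ∀ m : ℕ, Nat.card (Subgroup.zpowers (dn iS : MulAut (Matrix.ProjectiveSpecialLinearGroup (Fin n) F))) = m →
        Nonempty (Subgroup.zpowers (dn iS : MulAut (Matrix.ProjectiveSpecialLinearGroup (Fin n) F)) ≃*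
      Multiplicative (ZMod m)) := by
      rintro _ rfl
      exact ⟨(zmodCyclicMulEquiv inferInstance).symm⟩
    exact (gen 2 (card_iS (F := F) hn)).some
  let e := (MulEquiv.prodCongr e1 e2).trans (MulEquiv.prodMultiplicative (ZMod f) (ZMod 2)).symm
  have hle : Cfsg.Inn (Matrix.ProjectiveSpecialLinearGroup (Fin n) F) ≤ θ.ker := by
    rw [h3]; exact Inn_le_Dd
  let φ := e.toMonoidHom.comp (QuotientGroup.lift (Cfsg.Inn (Matrix.ProjectiveSpecialLinearGroup (Fin n) F)) θ
    hle)
  have hker : φ.ker = (Dd F n).map (QuotientGroup.mk' (Cfsg.Inn (Matrix.ProjectiveSpecialLinearGroup (Fin n) F))) := by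
    ext x
    obtain ⟨α, rfl⟩ := QuotientGroup.mk'_surjective _ x
    have h5 : φ (QuotientGroup.mk' _ α) = e (θ α) := rfl
    rw [MonoidHom.mem_ker, h5, MulEquiv.map_eq_one_iff, ← MonoidHom.mem_ker, h3]
    constructor
    · intro h; exact ⟨α, h, rfl⟩
    · rintro ⟨β, hβ, h6⟩
      have h7 : β⁻¹ * α ∈ Cfsg.Inn (Matrix.ProjectiveSpecialLinearGroup (Fin n) F) := QuotientGroup.eq.mp h6
      have := mul_mem hβ (Inn_le_Dd h7)
      rwa [mul_inv_cancel_left] at this
  refine ⟨φ, ?_, ?_, ?_⟩
  · exact e.surjective.comp (QuotientGroup.lift_surjective_of_surjective _ θ h1 hle)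
  · rw [hker]; exact k1
  · rw [hker]; exact k2

end Cfsg.Agent.S2601
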