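import Cfsg.Agent.H16_PSU7
import Cfsg.Statements.S2603
-- import your own Cfsg.Agent.* helpers here

set_option autoImplicit false
open Cfsg

namespace Cfsg.Agent.S2603

open Cfsg.Agent.H16 Cfsg.Agent.H16.PSU Cfsg.Agent.H16.Gam Cfsg.Agent.H16.AutG Cfsg.Agent.H16.AutL in

/-- Structure of the outer automorphism group of PSU_n(q), n ≥ 3, (n, q) ≠ (3, 2), q = p^f, realised over the field with q² elements: it has a normal cyclic subgroup of order gcd(n, q + 1) (diagonal automorphisms) with cyclic quotient of order 2f (generated by the Frobenius field automorphism of the field with q² elements, whose f-th power is the graph automorphism). -/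
theorem result {K : Type*} [Field K] [Fintype K] {p f q n : ℕ} [Fact p.Prime] (hf : 1 ≤ f) (hq : q = p ^ f) (hK : Fintype.card K = q ^ 2) (hn : 3 ≤ n) (h32 : ¬ (n = 3 ∧ q = 2)) : ∃ φ : Cfsg.Out (Cfsg.PSU n K q) →* Multiplicative (ZMod (2 * f)), Function.Surjective φ ∧ IsCyclic φ.ker ∧ Nat.card φ.ker = Nat.gcd n (q + 1) := by
  have hcf : Nat.card (K ≃+* K) = 2 * f := Cfsg.Agent.H16.FAut.card_ringAut (p := p)
    (by rw [Nat.card_eq_fintype_card, hK, hq, ← pow_mul, mul_comm]) (by omega)
  obtain ⟨θ, h1, h3, -⟩ := Fam.exists_theta (full hK hn h32) (fam_hasField hK hn)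
  obtain ⟨φ, e1, e2, -⟩ := GamT.out_gen (K := Cfsg.Inn (Cfsg.PSU n K q)) inferInstance (fam hK hn).inn_le_D θ h1 h3
  obtain ⟨k1, k2⟩ := D_quot hK hn
  have e : (K ≃+* K) ≃* Multiplicative (ZMod (2 * f)) := by
    rw [← hcf]
    exact (zmodCyclicMulEquiv inferInstance).symm
  have hker : (e.toMonoidHom.comp φ).ker = φ.ker := by
    ext x
    rw [MonoidHom.mem_ker, MonoidHom.mem_ker, MonoidHom.comp_apply]
    exact MulEquiv.map_eq_one_iff e
  refine ⟨e.toMonoidHom.comp φ, e.surjective.comp e1, ?_, ?_⟩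
  · rw [hker, e2]; exact k1
  · rw [hker, e2]; exact k2

end Cfsg.Agent.S2603
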