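import Cfsg.Statements.S2608
import Mathlib
import Cfsg.Agent.H5_PlO

set_option autoImplicit false
open Cfsg

namespace Cfsg.Agent.S2608

/-- Outer automorphism group of PΩ⁺_2m(q), q = p^f odd: for m = 4 it is S_4 × C_f (triality); for m ≥ 5 it is C_2 × C_2 × C_f when q ≡ 3 (mod 4) and m is odd, and D_8 × C_f otherwise. -/
theorem result {F : Type*} [Field F] [Fintype F] {p f m : ℕ} [Fact p.Prime] (hf : 1 ≤ f) (hF : Fintype.card F = p ^ f) (hp : p ≠ 2) (hm : 4 ≤ m) : if m = 4 then Nonempty (Cfsg.Out (Cfsg.POmega F (Cfsg.quadFormPlus m F)) ≃* Equiv.Perm (Fin 4) × Multiplicative (ZMod f)) else if p ^ f % 4 = 3 ∧ Odd m then Nonempty (Cfsg.Out (Cfsg.POmega F (Cfsg.quadFormPlus m F)) ≃* Multiplicative (ZMod 2 × ZMod 2 × ZMod f)) else Nonempty (Cfsg.Out (Cfsg.POmega F (Cfsg.quadFormPlus m F)) ≃* DihedralGroup 4 × Multiplicative (ZMod f)) := by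
  by_cases h4 : m = 4
  · subst h4
    rw [if_pos rfl, ← Cfsg.Agent.H16.Quad.coe_plusQ F 4]
    exact Cfsg.Agent.H5.PlO.out_four_odd hf hF hp
  · rw [if_neg h4, ← Cfsg.Agent.H16.Quad.coe_plusQ F m]
    by_cases hc : p ^ f % 4 = 3 ∧ Odd m
    · rw [if_pos hc]
      exact Cfsg.Agent.H5.PlO.out_plus_odd_split (show 5 ≤ m by omega) hf hF hp hc
    · rw [if_neg hc]
      exact Cfsg.Agent.H5.PlO.out_plus_odd_dih (show 5 ≤ m by omega) hf hF hp hc

end Cfsg.Agent.S2608
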