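import Cfsg.Agent.H16_Lev
import Cfsg.Statements.S2611
-- import your own Cfsg.Agent.* helpers here

set_option autoImplicit false
open Cfsg

namespace Cfsg.Agent.S2611

open Cfsg.Agent.H16.Quad Module in

/-- For the hyperbolic quadratic form Σ x_i y_i on F^(2m) (F finite, m ≥ 1, excluding m = 2 over the field of two elements) and an invertible m × m matrix A, the block-diagonal isometry diag(A, (A⁻¹)ᵀ), which stabilises the two maximal totally singular subspaces x = 0 and y = 0, lies in Ω⁺_2m(F) (the commutator subgroup of the orthogonal group) if and only if det A is a square in F. -/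
theorem result {F : Type*} [Field F] [Fintype F] {m : ℕ} (hm : 1 ≤ m) (h : Fintype.card F ≠ 2 ∨ m ≠ 2) (A : GL (Fin m) F) : (∃ g : ↥(Cfsg.isometryGroup F (Cfsg.quadFormPlus m F)), g ∈ Cfsg.Omega F (Cfsg.quadFormPlus m F) ∧ ((g : Matrix.GeneralLinearGroup (Fin m ⊕ Fin m) F) : Matrix (Fin m ⊕ Fin m) (Fin m ⊕ Fin m) F) = Matrix.fromBlocks (A : Matrix (Fin m) (Fin m) F) 0 0 ((A : Matrix (Fin m) (Fin m) F)⁻¹).transpose) ↔ IsSquare (A : Matrix (Fin m) (Fin m) F).det := by
  rw [← coe_plusQ]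
  have hQ := nd_plusQ (F := F) m
  have hF : Nat.card F ≠ 2 ∨ finrank F (Fin m ⊕ Fin m → F) ≠ 4 := by
    rw [Nat.card_eq_fintype_card, finrank_plus]; omega
  obtain ⟨δ, θ, hc, _⟩ := exists_chars hQ hF
  have hA : (A : Matrix (Fin m) (Fin m) F).det ≠ 0 := (A.isUnit.map Matrix.detMonoidHom).ne_zero
  obtain ⟨g, hg, hg1, hg2⟩ := lev_char (by rw [Nat.card_eq_fintype_card]; exact h) hc (A : Matrix (Fin m) (Fin m) F) hA
  refine exists_mat_iff g hg ?_
  rw [hc.comm_iff hQ hF, hg2]
  exact ⟨fun h => h.2, fun h => ⟨hg1, h⟩⟩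

end Cfsg.Agent.S2611
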