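import Cfsg.Agent.H16_Lev
import Cfsg.Statements.S2612
-- import your own Cfsg.Agent.* helpers here

set_option autoImplicit false
open Cfsg

namespace Cfsg.Agent.S2612

open Cfsg.Agent.H16.Quad Module in

/-- For the hyperbolic quadratic form Σ x_i y_i on F^(2m) (F finite, m ≥ 1, excluding m = 2 over the field of two elements), Ω⁺_2m(F) (the commutator subgroup of the orthogonal group) contains an element interchanging the two complementary maximal totally singular subspaces {y = 0} and {x = 0} if and only if m is even (dimension divisible by 4). -/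
theorem result {F : Type*} [Field F] [Fintype F] {m : ℕ} (hm : 1 ≤ m) (h : Fintype.card F ≠ 2 ∨ m ≠ 2) : (∃ g : ↥(Cfsg.isometryGroup F (Cfsg.quadFormPlus m F)), g ∈ Cfsg.Omega F (Cfsg.quadFormPlus m F) ∧ (∀ v : Fin m ⊕ Fin m → F, (∀ i, v (Sum.inr i) = 0) → ∀ i, (((g : Matrix.GeneralLinearGroup (Fin m ⊕ Fin m) F) : Matrix (Fin m ⊕ Fin m) (Fin m ⊕ Fin m) F).mulVec v) (Sum.inl i) = 0) ∧ (∀ v : Fin m ⊕ Fin m → F, (∀ i, v (Sum.inl i) = 0) → ∀ i, (((g : Matrix.GeneralLinearGroup (Fin m ⊕ Fin m) F) : Matrix (Fin m ⊕ Fin m) (Fin m ⊕ Fin m) F).mulVec v) (Sum.inr i) = 0)) ↔ Even m := by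
  rw [← coe_plusQ]
  have hQ := nd_plusQ (F := F) m
  have hF : Nat.card F ≠ 2 ∨ finrank F (Fin m ⊕ Fin m → F) ≠ 4 := by
    rw [Nat.card_eq_fintype_card, finrank_plus]; omega
  have hyp := plusQ_hyp (F := F) m
  constructor
  · rintro ⟨g, hg, hg1, -⟩
    obtain ⟨vs, hvs, e1, e2⟩ := iso_exists_list hQ hF g
    rw [mem_Omega_rpr_iff hQ hF hvs e1] at hg
    have h3 := parity_rprod hQ (isMax_U0 m) (isMax_U0 m) vs hvs
    rw [inf_idem, finrank_U0, ← coe_rpr, ← e1] at h3
    have h4 : U0 F m ⊓ (U0 F m).map (toOG (plusQ F m) g).1.toLinearMap = ⊥ := by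
      rw [Submodule.eq_bot_iff]
      rintro x ⟨hx1, hx2⟩
      obtain ⟨u, hu, rfl⟩ := hx2
      have h5 := mem_U0 (m := m) |>.1 hx1
      have h6 := hg1 u (mem_U0 (m := m) |>.1 hu)
      ext k
      rcases k with k | k
      · exact h6 k
      · exact h5 k
    rw [h4, finrank_bot] at h3
    have := hg.1
    rw [Nat.even_iff] at h3 this ⊢
    omega
  · intro hev
    let l : List (Fin m ⊕ Fin m → F) := List.ofFn fun i : Fin m => (Pi.single (Sum.inl i) 1 - Pi.single (Sum.inr i) 1 : Fin m ⊕ Fin m → F)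
    have hl : ∀ v ∈ l, plusQ F m v ≠ 0 := by
      intro v hv
      obtain ⟨i, rfl⟩ := (List.mem_ofFn' _ v).1 hv
      have : plusQ F m (Pi.single (Sum.inl i) 1 - Pi.single (Sum.inr i) 1) = -1 := hyp.Q_sub i
      rw [this]; exact neg_ne_zero.2 one_ne_zero
    -- action
    have hact : ∀ (ws : List (Fin m)), ws.Nodup → ∀ x : Fin m ⊕ Fin m → F,
        rprod (plusQ F m) (ws.map fun i => (Pi.single (Sum.inl i) 1 - Pi.single (Sum.inr i) 1 : Fin m ⊕ Fin m → F)) x =
          Sum.elim (fun i => if i ∈ ws then x (Sum.inr i) else x (Sum.inl i)) (fun i => if i ∈ ws then x (Sum.inl i) else x (Sum.inr i)) := by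
      intro ws hws x
      induction ws with
      | nil => ext k; rcases k with k | k <;> simp [rprod_nil]
      | cons i ws ih =>
        rw [List.nodup_cons] at hws
        rw [List.map_cons, rprod_cons, LinearEquiv.mul_apply, ih hws.2, refl_apply, QuadraticMap.polar_sub_right, polar_e, polar_f]
        have : plusQ F m (Pi.single (Sum.inl i) 1 - Pi.single (Sum.inr i) 1) = -1 := hyp.Q_sub i
        rw [this]
        ext k
        rcases k with k | k
        · by_cases hk : k = i
          · subst hk; simp [hws.1]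
          · simp [hk, Pi.single_apply]
        · by_cases hk : k = i
          · subst hk; simp [hws.1]
          · simp [hk, Pi.single_apply]
    have hact2 : ∀ x : Fin m ⊕ Fin m → F, rprod (plusQ F m) l x = Sum.elim (fun i => x (Sum.inr i)) (fun i => x (Sum.inl i)) := by
      intro x
      have h5 : l = (List.finRange m).map fun i => (Pi.single (Sum.inl i) 1 - Pi.single (Sum.inr i) 1 : Fin m ⊕ Fin m → F) := by
        simp only [l]; rw [List.ofFn_eq_map]
      rw [h5, hact _ (List.nodup_finRange m)]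
      simp
    refine ⟨(toOG _).symm (rpr (plusQ F m) l), ?_, ?_, ?_⟩
    · rw [mem_Omega_iff, MulEquiv.apply_symm_apply, rpr_mem_comm_iff hQ hF hl]
      refine ⟨by simpa [l] using hev, ?_⟩
      have h5 : (l.map (plusQ F m)).prod = (-1) ^ m := by
        simp only [l]
        rw [List.map_ofFn, List.prod_ofFn]
        have : ∀ i : Fin m, (⇑(plusQ F m) ∘ fun i : Fin m => (Pi.single (Sum.inl i) 1 - Pi.single (Sum.inr i) 1 : Fin m ⊕ Fin m → F)) i = -1 := fun i => hyp.Q_sub i
        rw [Finset.prod_congr rfl fun i _ => this i]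
        simp
      rw [h5, hev.neg_one_pow]
      exact IsSquare.one
    · intro v hv i
      rw [toOG_symm_mulVec, coe_rpr, hact2]
      exact hv i
    · intro v hv i
      rw [toOG_symm_mulVec, coe_rpr, hact2]
      exact hv i

end Cfsg.Agent.S2612
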