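import Cfsg.Statements.S2616
import Cfsg.Agent.H16_Quad3

set_option autoImplicit false
open Cfsg

namespace Cfsg.Agent.S2616

open Cfsg.Agent.H16.Quad Module

theorem result {F V : Type*} [Field F] [Finite F] [AddCommGroup V] [Module F V] [FiniteDimensional F V] {m : ℕ} (hm : 1 ≤ m) (hV : Module.finrank F V = 2 * m) (Q : QuadraticForm F V) (hQ : (QuadraticMap.polarBilin Q).Nondegenerate) : (∃ b : Module.Basis (Fin m ⊕ Fin m) F V, (∀ i, Q (b (Sum.inl i)) = 0 ∧ Q (b (Sum.inr i)) = 0) ∧ (∀ i j, QuadraticMap.polar ⇑Q (b (Sum.inl i)) (b (Sum.inr j)) = if i = j then 1 else 0) ∧ (∀ i j, QuadraticMap.polar ⇑Q (b (Sum.inl i)) (b (Sum.inl j)) = 0 ∧ QuadraticMap.polar ⇑Q (b (Sum.inr i)) (b (Sum.inr j)) = 0)) ∨ (∃ (b : Module.Basis ((Fin (m - 1) ⊕ Fin (m - 1)) ⊕ Fin 2) F V) (ζ : F), (∀ t : F, t ^ 2 + t + ζ ≠ 0) ∧ (∀ i, Q (b (Sum.inl (Sum.inl i))) = 0 ∧ Q (b (Sum.inl (Sum.inr i))) = 0) ∧ (∀ i j, QuadraticMap.polar ⇑Q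 (b (Sum.inl (Sum.inl i))) (b (Sum.inl (Sum.inr j))) = if i = j then 1 else 0) ∧ (∀ i j, QuadraticMap.polar ⇑Q (b (Sum.inl (Sum.inl i))) (b (Sum.inl (Sum.inl j))) = 0 ∧ QuadraticMap.polar ⇑Q (b (Sum.inl (Sum.inr i))) (b (Sum.inl (Sum.inr j))) = 0) ∧ (∀ i (k : Fin 2), QuadraticMap.polar ⇑Q (b (Sum.inl (Sum.inl i))) (b (Sum.inr k)) = 0 ∧ QuadraticMap.polar ⇑Q (b (Sum.inl (Sum.inr i))) (b (Sum.inr k)) = 0) ∧ Q (b (Sum.inr 0)) = 1 ∧ QuadraticMap.polar ⇑Q (b (Sum.inr 0)) (b (Sum.inr 1)) = 1 ∧ Q (b (Sum.inr 1)) = ζ) := by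
  obtain ⟨m, rfl⟩ : ∃ k, m = k + 1 := ⟨m - 1, by omega⟩
  obtain ⟨e, f, hef⟩ := exists_hypFam hQ m (by omega)
  have hnd := nd_perp hQ hef.disjoint
  have hfr : finrank F (perp Q (hspan e f)) = 2 := by
    rw [hef.finrank_perp hQ, hV, Fintype.card_fin]; omega
  by_cases hs : ∃ v : perp Q (hspan e f), v ≠ 0 ∧ Q (v : V) = 0
  · left
    obtain ⟨v, hv0, hv⟩ := hs
    obtain ⟨w, hw⟩ := hef.extend hQ (u := (v : V)) (fun h => hv0 (Subtype.ext h)) hv v.2
    set E : Fin (m + 1) → V := Fin.snoc e (v : V) with hE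
    set G : Fin (m + 1) → V := Fin.snoc f w with hG
    have hli := hw.linearIndependent
    have hcard : Fintype.card (Fin (m + 1) ⊕ Fin (m + 1)) = finrank F V := by
      rw [hV, Fintype.card_sum, Fintype.card_fin]; omega
    refine ⟨basisOfLinearIndependentOfCardEqFinrank hli hcard, ?_, ?_, ?_⟩
    all_goals simp only [coe_basisOfLinearIndependentOfCardEqFinrank, Sum.elim_inl, Sum.elim_inr]
    · exact fun i => ⟨hw.qe i, hw.qf i⟩
    · exact hw.ef
    · exact fun i j => ⟨hw.ee i j, hw.ff i j⟩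
  · right
    push Not at hs
    obtain ⟨x, y, hx, hxy, hli, ht⟩ := exists_aniso_pair hnd hfr (fun v hv => by
      by_contra h
      exact hs v h hv)
    have hx' : Q (x : V) = 1 := hx
    have hxy' : QuadraticMap.polar Q (x : V) (y : V) = 1 := hxy
    have hli2 : LinearIndependent F (fun i : Fin 2 => ((![x, y] i : perp Q (hspan e f)) : V)) :=
      hli.map' (perp Q (hspan e f)).subtype (Submodule.ker_subtype _)
    have hli3 : LinearIndependent F (Sum.elim (Sum.elim e f) (fun i : Fin 2 => ((![x, y] i : perp Q (hspan e f)) : V))) := by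
      apply LinearIndependent.sum_type hef.linearIndependent hli2
      refine Disjoint.mono_right ?_ hef.disjoint
      rw [Submodule.span_le]
      rintro _ ⟨i, rfl⟩
      exact (![x, y] i).2
    have hcard : Fintype.card ((Fin (m + 1 - 1) ⊕ Fin (m + 1 - 1)) ⊕ Fin 2) = finrank F V := by
      rw [hV]; simp only [Fintype.card_sum, Fintype.card_fin]; omega
    refine ⟨basisOfLinearIndependentOfCardEqFinrank (ι := (Fin (m + 1 - 1) ⊕ Fin (m + 1 - 1)) ⊕ Fin 2) hli3 hcard,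
      Q (y : V), ht, ?_, ?_, ?_, ?_, ?_, ?_, ?_⟩
    all_goals simp only [coe_basisOfLinearIndependentOfCardEqFinrank, Sum.elim_inl, Sum.elim_inr]
    · exact fun i => ⟨hef.qe i, hef.qf i⟩
    · exact hef.ef
    · exact fun i j => ⟨hef.ee i j, hef.ff i j⟩
    · intro i k
      have := mem_perp_hspan.1 (![x, y] k).2
      exact ⟨this.1 i, this.2 i⟩
    · exact hx'
    · exact hxy'
    · rfl

end Cfsg.Agent.S2616
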