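import Cfsg.Statements.S2617
import Cfsg.Agent.H16_Quad5

set_option autoImplicit false
open Cfsg

namespace Cfsg.Agent.S2617

open Cfsg.Agent.H16.Quad Module

theorem result {F : Type*} [Field F] [Finite F] {m : ℕ} (hm : 1 ≤ m) (ζ : F) (hζ : ∀ t : F, t ^ 2 + t + ζ ≠ 0) (g : (Fin m ⊕ Fin m → F) ≃ₗ[F] ((Fin (m - 1) ⊕ Fin (m - 1)) ⊕ Fin 2 → F)) : ¬ (∀ v : Fin m ⊕ Fin m → F, Cfsg.quadFormMinus (m - 1) F 1 ζ (g v) = Cfsg.quadFormPlus m F v) := by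
  intro h
  obtain ⟨k, rfl⟩ : ∃ k, m = k + 1 := ⟨m - 1, by omega⟩
  have hm1 : IsMinus (minusQ F k 1 ζ) k := minusQ_isMinus _ (aniso_of_irred hζ)
  have hp1 : IsPlus (plusQ F (k + 1)) (k + 1) := plusQ_isPlus (k + 1)
  have h' : ∀ v, minusQ F k 1 ζ (g v) = plusQ F (k + 1) v := fun v => by
    rw [minusQ_apply, plusQ_apply]; exact h v
  exact not_plus_and_minus (nd_minusQ k (aniso_of_irred hζ)) (hp1.map h') hm1

end Cfsg.Agent.S2617
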