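import Cfsg.Statements.S2618
import Cfsg.Agent.H16_Quad3

set_option autoImplicit false
open Cfsg

namespace Cfsg.Agent.S2618

open Cfsg.Agent.H16.Quad Module

theorem result {F V : Type*} [Field F] [Finite F] [AddCommGroup V] [Module F V] [FiniteDimensional F V] {m : ℕ} (hV : Module.finrank F V = 2 * m + 1) (Q : QuadraticForm F V) (hQ : (QuadraticMap.polarBilin Q).Nondegenerate) : ∃ b : Module.Basis (Unit ⊕ (Fin m ⊕ Fin m)) F V, Q (b (Sum.inl ())) ≠ 0 ∧ (∀ i, QuadraticMap.polar ⇑Q (b (Sum.inl ())) (b (Sum.inr (Sum.inl i))) = 0 ∧ QuadraticMap.polar ⇑Q (b (Sum.inl ())) (b (Sum.inr (Sum.inr i))) = 0) ∧ (∀ i, Q (b (Sum.inr (Sum.inl i))) = 0 ∧ Q (b (Sum.inr (Sum.inr i))) = 0) ∧ (∀ i j, QuadraticMap.polar ⇑Q (b (Sum.inr (Sum.inl i))) (b (Sum.inr (Sum.inr j))) = if i = j then 1 else 0) ∧ (∀ i j, QuadraticMap.polar ⇑Q (b (Sum.inr (Sum.inl i))) (b (Sum.inr (Sum.inl j))) = 0 ∧ QuadraticMap.polar ⇑Q (b (Sum.inr (Sum.inr i))) (b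 (Sum.inr (Sum.inr j))) = 0) := by
  obtain ⟨e, f, hef⟩ := exists_hypFam hQ m (by omega)
  have hnd := nd_perp hQ hef.disjoint
  have hfr : finrank F (perp Q (hspan e f)) = 1 := by
    rw [hef.finrank_perp hQ, hV, Fintype.card_fin]; omega
  obtain ⟨x, hx⟩ := exists_nonsing hnd (by omega)
  have hx' : Q (x : V) ≠ 0 := hx
  have hx0 : (x : V) ≠ 0 := by intro h; rw [h] at hx'; simp at hx'
  have hli3 : LinearIndependent F (Sum.elim (fun _ : Unit => (x : V)) (Sum.elim e f)) := by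
    apply LinearIndependent.sum_type (linearIndependent_unique_iff.2 hx0) hef.linearIndependent
    refine (Disjoint.mono_right ?_ hef.disjoint).symm
    rw [Submodule.span_le]
    rintro _ ⟨i, rfl⟩
    exact x.2
  have hcard : Fintype.card (Unit ⊕ (Fin m ⊕ Fin m)) = finrank F V := by
    rw [hV]; simp only [Fintype.card_sum, Fintype.card_fin, Fintype.card_unit]; omega
  have hp := mem_perp_hspan.1 x.2
  refine ⟨basisOfLinearIndependentOfCardEqFinrank hli3 hcard, ?_, ?_, ?_, ?_, ?_⟩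
  all_goals simp only [coe_basisOfLinearIndependentOfCardEqFinrank, Sum.elim_inl, Sum.elim_inr]
  · exact hx'
  · intro i
    rw [polar_symm, hp.1 i, polar_symm, hp.2 i]; exact ⟨rfl, rfl⟩
  · exact fun i => ⟨hef.qe i, hef.qf i⟩
  · exact hef.ef
  · exact fun i j => ⟨hef.ee i j, hef.ff i j⟩

end Cfsg.Agent.S2618
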