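import Cfsg.Statements.S2619
import Cfsg.Agent.H16_Quad6

set_option autoImplicit false
open Cfsg

namespace Cfsg.Agent.S2619

open Cfsg.Agent.H16.Quad Module

theorem result {F V ι : Type*} [Field F] [Finite F] [CharP F 2] [AddCommGroup V] [Module F V] [Fintype ι] (b : Module.Basis ι F V) (B : LinearMap.BilinForm F V) (hB : B.IsAlt) (c : ι → F) : ∃! Q : QuadraticForm F V, QuadraticMap.polarBilin Q = B ∧ ∀ i, Q (b i) = c i := by
  classical
  have h2 : (2 : F) = 0 := CharTwo.two_eq_zero
  obtain ⟨e⟩ : Nonempty (ι ≃ Fin (Fintype.card ι)) := ⟨Fintype.equivFin ι⟩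
  let T : LinearMap.BilinForm F V := Matrix.toBilin b
    (Matrix.of fun i j => if e i < e j then B (b i) (b j) else if i = j then c i else 0)
  have hT : ∀ i j, T (b i) (b j) = if e i < e j then B (b i) (b j) else if i = j then c i else 0 := by
    intro i j
    have := LinearMap.BilinForm.toMatrix_apply b T i j
    rw [← this]
    simp only [T]
    rw [LinearMap.BilinForm.toMatrix_toBilin]
    rfl
  have hpol : QuadraticMap.polarBilin (LinearMap.BilinMap.toQuadraticMap T) = B := by
    rw [LinearMap.BilinMap.polarBilin_toQuadraticMap]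
    refine b.ext fun i => b.ext fun j => ?_
    rw [LinearMap.add_apply, LinearMap.add_apply, LinearMap.flip_apply, hT, hT]
    have hneg : B (b i) (b j) = B (b j) (b i) := by
      have := LinearMap.IsAlt.neg hB (b i) (b j)
      have h3 : B (b i) (b j) + B (b i) (b j) = 0 := by rw [← two_mul, h2, zero_mul]
      rw [← this]
      exact eq_neg_of_add_eq_zero_left h3
    rcases lt_trichotomy (e i) (e j) with h | h | h
    · have hne : j ≠ i := by rintro rfl; exact lt_irrefl _ h
      simp [h, not_lt.2 h.le, hne]
    · have : i = j := e.injective h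
      subst this
      simp only [lt_irrefl, if_false, if_true]
      rw [hB (b i), ← two_mul, h2, zero_mul]
    · have hne : i ≠ j := by rintro rfl; exact lt_irrefl _ h
      simp [h, not_lt.2 h.le, hne, hneg]
  refine ⟨LinearMap.BilinMap.toQuadraticMap T, ⟨hpol, fun i => ?_⟩, ?_⟩
  · show T (b i) (b i) = c i
    rw [hT]; simp
  · rintro Q ⟨hQ1, hQ2⟩
    ext v
    refine isom_of_basis (Q := LinearMap.BilinMap.toQuadraticMap T) (Q' := Q) b LinearMap.id ?_ ?_ v
    · intro i
      show Q (b i) = T (b i) (b i)
      rw [hQ2, hT]; simp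
    · intro i j
      have h3 : QuadraticMap.polarBilin Q (b i) (b j) =
        QuadraticMap.polarBilin (LinearMap.BilinMap.toQuadraticMap T) (b i) (b j) := by rw [hQ1, hpol]
      exact h3

end Cfsg.Agent.S2619
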