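import Cfsg.Statements.S2621
import Cfsg.Agent.H16_Quad5

set_option autoImplicit false
open Cfsg

namespace Cfsg.Agent.S2621

open Cfsg.Agent.H16.Quad Module

theorem result {F : Type*} [Field F] [Fintype F] {q : ℕ} (hF : Fintype.card F = q) (hq : Odd q) {m : ℕ} (hm : 1 ≤ m) (a c : F) (hac : ∀ z₁ z₂ : F, z₁ ^ 2 + a * z₁ * z₂ + c * z₂ ^ 2 = 0 → z₁ = 0 ∧ z₂ = 0) {ι : Type*} [Fintype ι] [DecidableEq ι] (b : Module.Basis ι F ((Fin (m - 1) ⊕ Fin (m - 1)) ⊕ Fin 2 → F)) : IsSquare (Matrix.of (fun i j : ι => QuadraticMap.polar (Cfsg.quadFormMinus (m - 1) F a c) (b i) (b j))).det ↔ ¬ Even (m * (q - 1) / 2) := by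
  obtain ⟨k, rfl⟩ : ∃ k, m = k + 1 := ⟨m - 1, by omega⟩
  rw [← coe_minusQ]
  change IsSquare (gram (minusQ F k a c) b).det ↔ _
  rw [isSquare_det_gram_iff _ b (Pi.basisFun F ((Fin k ⊕ Fin k) ⊕ Fin 2)), det_gram_minusQ, ← isSquare_neg_one_pow_iff hF hq (k + 1)]
  have h2 : (2 : F) ≠ 0 := two_ne_zero_of_odd_card hF hq
  have hns : ¬ IsSquare (a ^ 2 - 4 * c) := by
    rintro ⟨r, hr⟩
    have := hac ((-a + r)) 2 (by linear_combination -hr)
    exact h2 this.2
  have hd := aniso_disc hac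
  have h3 : (-1 : F) ^ k * (4 * c - a ^ 2) = (-1) ^ (k + 1) * (a ^ 2 - 4 * c) := by ring
  rw [h3]
  rcases neg_one_pow_eq_or F (k + 1) with h | h <;> rw [h]
  · simpa using hns
  · constructor
    · intro h5 h6
      apply hns
      have := h5.mul h6
      simpa using this
    · intro h5
      exact isSquare_mul_of_not (fun h => h5 (by simpa using h)) hns
  
end Cfsg.Agent.S2621
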