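import Cfsg.Statements.S2623
import Cfsg.Agent.H16_Quad6

set_option autoImplicit false
open Cfsg

namespace Cfsg.Agent.S2623

open Cfsg.Agent.H16.Quad Module

theorem result {F : Type*} [Field F] [Fintype F] (h2 : (2 : F) ≠ 0) {n : ℕ} (Q₁ Q₂ : QuadraticForm F (Fin n → F)) (h₁ : (QuadraticMap.polarBilin Q₁).Nondegenerate) (h₂ : (QuadraticMap.polarBilin Q₂).Nondegenerate) : (∃ g : (Fin n → F) ≃ₗ[F] (Fin n → F), ∀ v, Q₂ (g v) = Q₁ v) ↔ IsSquare ((Matrix.of (fun i j : Fin n => QuadraticMap.polar ⇑Q₁ (Pi.single i 1) (Pi.single j 1))).det * (Matrix.of (fun i j : Fin n => QuadraticMap.polar ⇑Q₂ (Pi.single i 1) (Pi.single j 1))).det) := by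
  have hb : ∀ Q : QuadraticForm F (Fin n → F), Matrix.of (fun i j : Fin n => QuadraticMap.polar ⇑Q (Pi.single i 1) (Pi.single j 1)) = gram Q (Pi.basisFun F (Fin n)) := by
    intro Q
    ext i j
    simp [gram]
  rw [hb, hb]
  constructor
  · rintro ⟨g, hg⟩
    have h1 := gram_map hg (Pi.basisFun F (Fin n))
    obtain ⟨d, hd, h3⟩ := det_gram_basis Q₂ ((Pi.basisFun F (Fin n)).map g) (Pi.basisFun F (Fin n))
    rw [← h1, h3]
    exact ⟨d * (gram Q₂ (Pi.basisFun F (Fin n))).det, by ring⟩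
  · intro h
    exact isom_of_disc h2 h₁ h₂ rfl (Pi.basisFun F (Fin n)) (Pi.basisFun F (Fin n)) h

end Cfsg.Agent.S2623
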