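import Cfsg.Statements.S2625
import Cfsg.Agent.H16_Quad5

set_option autoImplicit false
open Cfsg

namespace Cfsg.Agent.S2625

open Cfsg.Agent.H16.Quad Module

theorem result {F : Type*} [Field F] [Fintype F] {n : ℕ} (hn : Odd n) (Q : QuadraticForm F (Fin n → F)) (hQ : (QuadraticMap.polarBilin Q).Nondegenerate) (g : (Fin n → F) ≃ₗ[F] (Fin n → F)) (c : F) (hg : ∀ v, Q (g v) = c * Q v) : IsSquare c := by
  have hpol : ∀ u v, QuadraticMap.polar Q (g u) (g v) = c * QuadraticMap.polar Q u v := by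
    intro u v
    simp only [QuadraticMap.polar]
    rw [← _root_.map_add, hg, hg, hg]; ring
  by_cases h0 : c = 0
  · subst h0; exact ⟨0, by ring⟩
  let b := Pi.basisFun F (Fin n)
  obtain ⟨d, hd, h⟩ := det_gram_basis Q (b.map g) b
  have h1 : gram Q (b.map g) = c • gram Q b := by
    ext i j
    simp [gram, hpol]
  rw [h1, Matrix.det_smul, Fintype.card_fin] at h
  have hdet : (gram Q b).det ≠ 0 := det_gram_ne_zero hQ b
  have h2 : c ^ n = d * d := mul_right_cancel₀ hdet h
  obtain ⟨k, hk⟩ := hn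
  refine ⟨d / c ^ k, ?_⟩
  have hck : c ^ k ≠ 0 := pow_ne_zero _ h0
  field_simp
  rw [hk] at h2
  linear_combination h2

end Cfsg.Agent.S2625
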