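import Cfsg.Agent.H16_Sum
import Cfsg.Statements.S2627
-- import your own Cfsg.Agent.* helpers here

set_option autoImplicit false
open Cfsg

namespace Cfsg.Agent.S2627

open Cfsg.Agent.H16.Quad Module in

/-- For an orthogonal direct sum Q = Q₁ ⊕ Q₂ of quadratic forms with non-degenerate polar forms over a finite field, an isometry g₁ of Q₁ extended by the identity on the second summand lies in Ω(Q) (the commutator subgroup of the orthogonal group of Q) if and only if g₁ lies in Ω(Q₁). (Excluded: the field of two elements when the first summand or the whole space has dimension 4, where the commutator subgroup of O⁺₄(2) is smaller than the group usually called Ω.) -/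
theorem result {F : Type*} [Field F] [Fintype F] {k l : ℕ} (h : Fintype.card F ≠ 2 ∨ (k ≠ 4 ∧ k + l ≠ 4)) (Q₁ : QuadraticForm F (Fin k → F)) (Q₂ : QuadraticForm F (Fin l → F)) (h₁ : (QuadraticMap.polarBilin Q₁).Nondegenerate) (h₂ : (QuadraticMap.polarBilin Q₂).Nondegenerate) (g₁ : ↥(Cfsg.isometryGroup F ⇑Q₁)) : (∃ g : ↥(Cfsg.isometryGroup F (fun v : Fin k ⊕ Fin l → F => Q₁ (v ∘ Sum.inl) + Q₂ (v ∘ Sum.inr))), g ∈ Cfsg.Omega F (fun v : Fin k ⊕ Fin l → F => Q₁ (v ∘ Sum.inl) + Q₂ (v ∘ Sum.inr)) ∧ ((g : Matrix.GeneralLinearGroup (Fin k ⊕ Fin l) F) : Matrix (Fin k ⊕ Fin l) (Fin k ⊕ Fin l) F) = Matrix.fromBlocks ((g₁ : Matrix.GeneralLinearGroup (Fin k) F) : Matrix (Fin k) (Fin k) F) 0 0 1) ↔ g₁ ∈ Cfsg.Omega F ⇑Q₁ := by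
  have hk : Nat.card F ≠ 2 ∨ finrank F (Fin k → F) ≠ 4 := by
    rw [Nat.card_eq_fintype_card, Module.finrank_fin_fun]; omega
  have hkl : Nat.card F ≠ 2 ∨ finrank F (Fin k ⊕ Fin l → F) ≠ 4 := by
    rw [Nat.card_eq_fintype_card, Module.finrank_fintype_fun_eq_card, Fintype.card_sum, Fintype.card_fin, Fintype.card_fin]; omega
  rw [← diag_one_mem_iff (Q₂ := Q₂) h₁ h₂ hk hkl g₁]
  constructor
  · rintro ⟨g, hg, hg2⟩
    have : g = diagG (g₁, 1) := Subtype.ext (Units.ext (by rw [hg2, diagG_coe]; simp))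
    rw [← this]; exact hg
  · intro hg
    exact ⟨diagG (g₁, 1), hg, by rw [diagG_coe]; simp⟩

end Cfsg.Agent.S2627
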