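import Cfsg.Agent.H16_Sum
import Cfsg.Statements.S2628
-- import your own Cfsg.Agent.* helpers here

set_option autoImplicit false
open Cfsg

namespace Cfsg.Agent.S2628

open Cfsg.Agent.H16.Quad Module in

/-- For the orthogonal direct sum Q ⊕ Q of two copies of a quadratic form Q with non-degenerate polar form on F^k (F finite), every isometry g of Q acting diagonally, diag(g, g), lies in Ω(Q ⊕ Q), the commutator subgroup of the orthogonal group of Q ⊕ Q. (Excluded: k = 2 over the field of two elements, where Q ⊕ Q is the hyperbolic 4-space whose orthogonal group's commutator subgroup is smaller than the group usually called Ω.) -/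
theorem result {F : Type*} [Field F] [Fintype F] {k : ℕ} (h : Fintype.card F ≠ 2 ∨ k ≠ 2) (Q : QuadraticForm F (Fin k → F)) (hQ : (QuadraticMap.polarBilin Q).Nondegenerate) (g : ↥(Cfsg.isometryGroup F ⇑Q)) : ∃ x : ↥(Cfsg.isometryGroup F (fun v : Fin k ⊕ Fin k → F => Q (v ∘ Sum.inl) + Q (v ∘ Sum.inr))), x ∈ Cfsg.Omega F (fun v : Fin k ⊕ Fin k → F => Q (v ∘ Sum.inl) + Q (v ∘ Sum.inr)) ∧ ((x : Matrix.GeneralLinearGroup (Fin k ⊕ Fin k) F) : Matrix (Fin k ⊕ Fin k) (Fin k ⊕ Fin k) F) = Matrix.fromBlocks ((g : Matrix.GeneralLinearGroup (Fin k) F) : Matrix (Fin k) (Fin k) F) 0 0 ((g : Matrix.GeneralLinearGroup (Fin k) F) : Matrix (Fin k) (Fin k) F) := by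
  have hkl : Nat.card F ≠ 2 ∨ finrank F (Fin k ⊕ Fin k → F) ≠ 4 := by
    rw [Nat.card_eq_fintype_card, Module.finrank_fintype_fun_eq_card, Fintype.card_sum, Fintype.card_fin]; omega
  obtain ⟨δ, θ, -, h4, -⟩ := iso_chars (nd_sumQ hQ hQ) hkl
  refine ⟨diagG (g, g), ?_, diagG_coe _⟩
  change diagG (g, g) ∈ Cfsg.Omega F ⇑(sumQ Q Q)
  rw [h4]
  -- the swap
  let s : Cfsg.isometryGroup F ⇑(sumQ Q Q) := ⟨⟨Matrix.fromBlocks 0 1 1 0, Matrix.fromBlocks 0 1 1 0,
    by rw [Matrix.fromBlocks_multiply]; simp, by rw [Matrix.fromBlocks_multiply]; simp⟩, by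
      rw [mem_isometryGroup]
      intro v
      show sumQ Q Q ((Matrix.fromBlocks 0 1 1 0).mulVec v) = _
      rw [Matrix.fromBlocks_mulVec]
      simp only [Matrix.zero_mulVec, Matrix.one_mulVec, zero_add, add_zero]
      rw [sumQ_apply, sumQ_apply, Sum.elim_comp_inl, Sum.elim_comp_inr, add_comm]⟩
  have h1 : diagG (g, g) = diagG ((g, 1) : Cfsg.isometryGroup F ⇑Q × Cfsg.isometryGroup F ⇑Q) * (s * diagG ((g, 1) : Cfsg.isometryGroup F ⇑Q × Cfsg.isometryGroup F ⇑Q) * s⁻¹) := by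
    rw [← mul_assoc, ← mul_assoc, eq_mul_inv_iff_mul_eq]
    apply Subtype.ext; apply Units.ext
    show Matrix.fromBlocks _ _ _ _ * Matrix.fromBlocks _ _ _ _ = Matrix.fromBlocks _ _ _ _ * Matrix.fromBlocks _ _ _ _ * Matrix.fromBlocks _ _ _ _
    rw [Matrix.fromBlocks_multiply, Matrix.fromBlocks_multiply, Matrix.fromBlocks_multiply]
    simp
  have h5 : ∀ f : Cfsg.isometryGroup F ⇑(sumQ Q Q) →* ℤˣ, f (diagG (g, g)) = 1 := by
    intro f
    rw [h1, _root_.map_mul, _root_.map_mul, _root_.map_mul, map_inv, mul_comm (f s), mul_assoc, mul_inv_cancel, mul_one]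
    exact Int.units_mul_self _
  exact ⟨h5 δ, h5 θ⟩

end Cfsg.Agent.S2628
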