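import Cfsg.Agent.H16_MaxStd
import Cfsg.Statements.S2630
-- import your own Cfsg.Agent.* helpers here

set_option autoImplicit false
open Cfsg

namespace Cfsg.Agent.S2630

open Cfsg.Agent.H16.Quad Module in

/-- For the hyperbolic form Σ x_i y_i on F^(2m) over a finite field of characteristic two (m ≥ 1, excluding m = 2 over the field of two elements), an isometry g preserves the class of the maximal totally singular subspace U₀ = {y = 0} (m − dim(U₀ ∩ gU₀) even) if and only if g lies in Ω (the commutator subgroup of the orthogonal group): the stabiliser of each class is Ω. -/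
theorem result {F : Type*} [Field F] [Fintype F] [CharP F 2] {m : ℕ} (hm : 1 ≤ m) (h : Fintype.card F ≠ 2 ∨ m ≠ 2) (g : ↥(Cfsg.isometryGroup F (Cfsg.quadFormPlus m F))) : Even (m - Module.finrank F ↥(LinearMap.ker (LinearMap.funLeft F F (Sum.inr : Fin m → Fin m ⊕ Fin m)) ⊓ (LinearMap.ker (LinearMap.funLeft F F (Sum.inr : Fin m → Fin m ⊕ Fin m))).map (Matrix.mulVecLin ((g : Matrix.GeneralLinearGroup (Fin m ⊕ Fin m) F) : Matrix (Fin m ⊕ Fin m) (Fin m ⊕ Fin m) F)))) ↔ g ∈ Cfsg.Omega F (Cfsg.quadFormPlus m F) := by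
  revert g
  rw [← coe_plusQ]
  intro g
  have hQ := nd_plusQ (F := F) m
  have hF : Nat.card F ≠ 2 ∨ finrank F (Fin m ⊕ Fin m → F) ≠ 4 := by
    rw [Nat.card_eq_fintype_card, finrank_plus]; omega
  rw [map_mulVecLin g]
  obtain ⟨vs, hvs, e1, e2⟩ := iso_exists_list hQ hF g
  have h3 := parity_rprod hQ (isMax_U0 m) (isMax_U0 m) vs hvs
  rw [inf_idem, finrank_U0, ← coe_rpr, ← e1] at h3
  have h4 : finrank F (U0 F m ⊓ (U0 F m).map (toOG (plusQ F m) g).1.toLinearMap : Submodule F _) ≤ m := by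
    have := Submodule.finrank_mono (inf_le_left : U0 F m ⊓ (U0 F m).map (toOG (plusQ F m) g).1.toLinearMap ≤ U0 F m)
    rwa [finrank_U0] at this
  change Even (m - finrank F (U0 F m ⊓ (U0 F m).map (toOG (plusQ F m) g).1.toLinearMap : Submodule F _)) ↔ _
  rw [mem_Omega_rpr_iff hQ hF hvs e1]
  have h5 : IsSquare (vs.map (plusQ F m)).prod := isSquare_of_two_eq_zero CharTwo.two_eq_zero _
  simp only [h5, and_true]
  rw [Nat.even_iff] at h3 ⊢
  rw [Nat.even_iff]
  omega

end Cfsg.Agent.S2630
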