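import Cfsg.Agent.H16_MaxStd
import Cfsg.Agent.H16_Adj
import Cfsg.Statements.S2631
-- import your own Cfsg.Agent.* helpers here

set_option autoImplicit false
open Cfsg

namespace Cfsg.Agent.S2631

open Cfsg.Agent.H16.Quad Module in

/-- For the hyperbolic form Σ x_i y_i on F^(2m) over a finite field (m ≥ 1, excluding m = 2 over the field of two elements), Ω (the commutator subgroup of the orthogonal group) acts transitively on each of the two classes of maximal totally singular subspaces: if U and W are m-dimensional totally singular subspaces with m − dim(U ∩ W) even, some element of Ω carries U to W. -/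
theorem result {F : Type*} [Field F] [Fintype F] {m : ℕ} (hm : 1 ≤ m) (h : Fintype.card F ≠ 2 ∨ m ≠ 2) (U W : Submodule F (Fin m ⊕ Fin m → F)) (hU : Module.finrank F U = m) (hW : Module.finrank F W = m) (hU0 : ∀ u ∈ U, Cfsg.quadFormPlus m F u = 0) (hW0 : ∀ w ∈ W, Cfsg.quadFormPlus m F w = 0) (he : Even (m - Module.finrank F ↥(U ⊓ W))) : ∃ g : ↥(Cfsg.isometryGroup F (Cfsg.quadFormPlus m F)), g ∈ Cfsg.Omega F (Cfsg.quadFormPlus m F) ∧ U.map (Matrix.mulVecLin ((g : Matrix.GeneralLinearGroup (Fin m ⊕ Fin m) F) : Matrix (Fin m ⊕ Fin m) (Fin m ⊕ Fin m) F)) = W := by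
  rw [← coe_plusQ] at hU0 hW0 ⊢
  have hQ := nd_plusQ (F := F) m
  have hF : Nat.card F ≠ 2 ∨ finrank F (Fin m ⊕ Fin m → F) ≠ 4 := by
    rw [Nat.card_eq_fintype_card, finrank_plus]; omega
  obtain ⟨g0, hg0, hle⟩ := ts_move hQ hU0 hW0 (by rw [hU, hW])
  have heq : U.map g0.toLinearMap = W := by
    apply Submodule.eq_of_le_of_finrank_eq hle
    rw [hW]
    exact (LinearEquiv.finrank_map_eq g0 U).trans hU
  obtain ⟨δ, θ, hc, _⟩ := exists_chars hQ hF
  obtain ⟨vs, hvs, e1⟩ := exists_rpr hQ hF ⟨g0, hg0⟩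
  have hUm : IsMax (plusQ F m) U := ⟨hU0, by rw [hU, finrank_plus]⟩
  have h3 := parity_rprod hQ hUm hUm vs hvs
  have hd : δ ⟨g0, hg0⟩ = 1 := by
    rw [e1, hc.del_rpr hvs]
    have e2 : g0 = rprod (plusQ F m) vs := by
      have := congrArg Subtype.val e1
      rw [coe_rpr] at this
      exact this
    rw [← e2, heq, inf_idem, hU] at h3
    have h5 := Submodule.finrank_mono (inf_le_left : U ⊓ W ≤ U)
    rw [hU] at h5
    apply Even.neg_one_pow
    rw [Nat.even_iff] at h3 he ⊢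
    omega
  obtain ⟨s, hs, hs2⟩ : ∃ s ∈ stabS (plusQ F m) U, (⟨g0, hg0⟩ : OG (plusQ F m)) * s ∈ commutator (OG (plusQ F m)) := by
    simp only [hc.comm_iff hQ hF]
    rcases Int.units_eq_one_or (θ ⟨g0, hg0⟩) with h6 | h6
    · exact ⟨1, Subgroup.one_mem _, by rw [mul_one]; exact ⟨hd, h6⟩⟩
    · by_cases h2 : (2 : F) = 0
      · exact ⟨1, Subgroup.one_mem _, by rw [mul_one]; exact ⟨hd, hc.theta_trivial hQ hF h2 _⟩⟩
      · obtain ⟨s, hs, hs1, hs2⟩ := exists_stab_theta hQ hc h2 hU0 (by rw [hU]; exact hm)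
        exact ⟨s, hs, by rw [_root_.map_mul, hd, hs1, one_mul], by rw [_root_.map_mul, h6, hs2]; decide⟩
  refine ⟨(toOG _).symm (⟨g0, hg0⟩ * s), ?_, ?_⟩
  · rw [mem_Omega_iff, MulEquiv.apply_symm_apply]; exact hs2
  · rw [map_mulVecLin, MulEquiv.apply_symm_apply]
    have : ((⟨g0, hg0⟩ * s : OG (plusQ F m)).1).toLinearMap = g0.toLinearMap ∘ₗ s.1.toLinearMap := rfl
    rw [this, Submodule.map_comp, mem_stabS.1 hs, heq]

end Cfsg.Agent.S2631
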