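import Cfsg.Agent.H16_Adj
import Cfsg.Agent.H16_MaxStd
import Cfsg.Statements.S2632
-- import your own Cfsg.Agent.* helpers here

set_option autoImplicit false
open Cfsg

namespace Cfsg.Agent.S2632

open Cfsg.Agent.H16.Quad Module in

/-- Ω is transitive on non-degenerate subspaces of each isometry type: for a quadratic form Q on F^n, n ≥ 3, with non-degenerate polar form (F finite; excluding dimension 4 over the field of two elements), if U and W are subspaces on which the polar form is non-degenerate and there is a Q-preserving linear isomorphism U → W, then some element of Ω (the commutator subgroup of the orthogonal group) carries U to W. (In dimension 2 this fails: Ω can be {±1}, which fixes every line.) -/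
theorem result {F : Type*} [Field F] [Fintype F] {n : ℕ} (hn : 3 ≤ n) (h : Fintype.card F ≠ 2 ∨ n ≠ 4) (Q : QuadraticForm F (Fin n → F)) (hQ : (QuadraticMap.polarBilin Q).Nondegenerate) (U W : Submodule F (Fin n → F)) (hU : U ⊓ LinearMap.BilinForm.orthogonal (QuadraticMap.polarBilin Q) U = ⊥) (hW : W ⊓ LinearMap.BilinForm.orthogonal (QuadraticMap.polarBilin Q) W = ⊥) (e : U ≃ₗ[F] W) (he : ∀ u : U, Q (e u : Fin n → F) = Q (u : Fin n → F)) : ∃ g : ↥(Cfsg.isometryGroup F ⇑Q), g ∈ Cfsg.Omega F ⇑Q ∧ U.map (Matrix.mulVecLin ((g : Matrix.GeneralLinearGroup (Fin n) F) : Matrix (Fin n) (Fin n) F)) = W := by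
  have h' := card_cond (F := F) (ι := Fin n) (n := 4) (by rwa [Fintype.card_fin])
  have hdU : Disjoint U (perp Q U) := disjoint_iff.2 hU
  obtain ⟨g0, hg0, hg⟩ := witt_ext hQ U (W.subtype.comp e.toLinearMap) (W.injective_subtype.comp e.injective) he
  have heq : U.map g0.toLinearMap = W := by
    apply Submodule.eq_of_le_of_finrank_eq
    · rintro _ ⟨u, hu, rfl⟩
      show g0 u ∈ W
      have := hg ⟨u, hu⟩
      rw [show g0 u = _ from this]
      exact (e ⟨u, hu⟩).2
    · rw [LinearEquiv.finrank_map_eq g0 U]; exact e.finrank_eq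
  obtain ⟨δ, θ, hc, _⟩ := exists_chars hQ h'
  -- a nondegenerate subspace of dimension at least two whose reflections stabilise `U`
  obtain ⟨P, hP1, hP2, hP3⟩ : ∃ P : Submodule F (Fin n → F), (QuadraticMap.polarBilin (Q.comp P.subtype)).Nondegenerate ∧
      2 ≤ finrank F P ∧ ∀ v ∈ P, rf Q v ∈ stabS Q U := by
    have h3 := finrank_add_finrank_perp hQ U
    rw [Module.finrank_fin_fun] at h3
    by_cases h4 : 2 ≤ finrank F U
    · exact ⟨U, nd_restrict hdU, h4, fun v hv => rf_mem_stabS_of_mem hv⟩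
    · exact ⟨perp Q U, nd_perp hQ hdU, by omega, fun v hv => rf_mem_stabS_of_perp hv⟩
  obtain ⟨s, hs, hs2⟩ := adjust hQ h' hc (stabS Q U) (by
      obtain ⟨v, hv⟩ := exists_nonsing hP1 (by omega)
      exact ⟨rf Q v, hP3 v v.2, hc.del v hv⟩)
    (fun h2 => by
      obtain ⟨⟨v, hv, hv2⟩, w, hw, hw2⟩ := exists_both hP1 h2 hP2
      refine ⟨rf Q v * rf Q w, Subgroup.mul_mem _ (hP3 v v.2) (hP3 w w.2), ?_, ?_⟩
      · rw [_root_.map_mul, hc.del v hv, hc.del w hw]; decide
      · rw [_root_.map_mul, (hc.the v hv).2 hv2, one_mul]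
        rcases Int.units_eq_one_or (θ (rf Q w)) with h | h
        · exact absurd ((hc.the w hw).1 h) hw2
        · exact h) ⟨g0, hg0⟩
  refine ⟨(toOG _).symm (⟨g0, hg0⟩ * s), ?_, ?_⟩
  · rw [mem_Omega_iff, MulEquiv.apply_symm_apply]; exact hs2
  · rw [map_mulVecLin, MulEquiv.apply_symm_apply]
    have : ((⟨g0, hg0⟩ * s : OG Q).1).toLinearMap = g0.toLinearMap ∘ₗ s.1.toLinearMap := rfl
    rw [this, Submodule.map_comp, mem_stabS.1 hs, heq]

end Cfsg.Agent.S2632
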