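import Cfsg.Agent.H16_Adj
import Cfsg.Agent.H16_MaxStd
import Cfsg.Statements.S2633
-- import your own Cfsg.Agent.* helpers here

set_option autoImplicit false
open Cfsg

namespace Cfsg.Agent.S2633

open Cfsg.Agent.H16.Quad Module in

/-- Ω is transitive on totally singular subspaces of each dimension less than half the dimension: for a quadratic form Q on F^n with non-degenerate polar form (F finite; excluding dimension 4 over the field of two elements), if U and W are subspaces of the same dimension k with 2k < n on which Q vanishes, then some element of Ω (the commutator subgroup of the orthogonal group) carries U to W. -/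
theorem result {F : Type*} [Field F] [Fintype F] {n : ℕ} (h : Fintype.card F ≠ 2 ∨ n ≠ 4) (Q : QuadraticForm F (Fin n → F)) (hQ : (QuadraticMap.polarBilin Q).Nondegenerate) (U W : Submodule F (Fin n → F)) {k : ℕ} (hk : 2 * k < n) (hU : Module.finrank F U = k) (hW : Module.finrank F W = k) (hU0 : ∀ u ∈ U, Q u = 0) (hW0 : ∀ w ∈ W, Q w = 0) : ∃ g : ↥(Cfsg.isometryGroup F ⇑Q), g ∈ Cfsg.Omega F ⇑Q ∧ U.map (Matrix.mulVecLin ((g : Matrix.GeneralLinearGroup (Fin n) F) : Matrix (Fin n) (Fin n) F)) = W := by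
  have h' := card_cond (F := F) (ι := Fin n) (n := 4) (by rwa [Fintype.card_fin])
  obtain ⟨g0, hg0, hle⟩ := ts_move hQ hU0 hW0 (by rw [hU, hW])
  have heq : U.map g0.toLinearMap = W := by
    apply Submodule.eq_of_le_of_finrank_eq hle
    rw [hW, ← hU]
    exact LinearEquiv.finrank_map_eq g0 U
  obtain ⟨δ, θ, hc, _⟩ := exists_chars hQ h'
  by_cases hk0 : k = 0
  · subst hk0
    have hUb : U = ⊥ := Submodule.finrank_eq_zero.1 hU
    have hWb : W = ⊥ := Submodule.finrank_eq_zero.1 hW
    refine ⟨1, Subgroup.one_mem _, ?_⟩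
    rw [hUb, hWb, Submodule.map_bot]
  obtain ⟨v, hvU, hv⟩ : ∃ v ∈ perp Q U, Q v ≠ 0 := by
    by_contra hcon
    push Not at hcon
    have h1 := ts_finrank_le hQ (U := perp Q U) hcon
    have h3 := finrank_add_finrank_perp hQ U
    rw [Module.finrank_fin_fun] at h1 h3
    omega
  obtain ⟨s, hs, hs2⟩ := adjust hQ h' hc (stabS Q U) ⟨rf Q v, rf_mem_stabS_of_perp hvU, hc.del v hv⟩
    (fun h2 => exists_stab_theta hQ hc h2 hU0 (by rw [hU]; omega)) ⟨g0, hg0⟩
  refine ⟨(toOG _).symm (⟨g0, hg0⟩ * s), ?_, ?_⟩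
  · rw [mem_Omega_iff, MulEquiv.apply_symm_apply]; exact hs2
  · rw [map_mulVecLin, MulEquiv.apply_symm_apply]
    have : ((⟨g0, hg0⟩ * s : OG Q).1).toLinearMap = g0.toLinearMap ∘ₗ s.1.toLinearMap := rfl
    rw [this, Submodule.map_comp, mem_stabS.1 hs, heq]

end Cfsg.Agent.S2633
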