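import Cfsg.Agent.H16_Adj
import Cfsg.Statements.S2634
-- import your own Cfsg.Agent.* helpers here

set_option autoImplicit false
open Cfsg

namespace Cfsg.Agent.S2634

open Cfsg.Agent.H16.Quad Module in

/-- Over a finite field of characteristic two, Ω (the commutator subgroup of the orthogonal group of a quadratic form Q on F^n with non-degenerate polar form; excluding dimension 4 over the field of two elements) acts transitively on the non-singular 1-spaces: for u, v with Q(u) ≠ 0 and Q(v) ≠ 0 some element of Ω carries the line through u to the line through v. -/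
theorem result {F : Type*} [Field F] [Fintype F] [CharP F 2] {n : ℕ} (h : Fintype.card F ≠ 2 ∨ n ≠ 4) (Q : QuadraticForm F (Fin n → F)) (hQ : (QuadraticMap.polarBilin Q).Nondegenerate) (u v : Fin n → F) (hu : Q u ≠ 0) (hv : Q v ≠ 0) : ∃ g : ↥(Cfsg.isometryGroup F ⇑Q), g ∈ Cfsg.Omega F ⇑Q ∧ (F ∙ ((g : Matrix.GeneralLinearGroup (Fin n) F) : Matrix (Fin n) (Fin n) F).mulVec u) = F ∙ v := by
  have h2 : (2 : F) = 0 := CharTwo.two_eq_zero
  have h' := card_cond (F := F) (ι := Fin n) (n := 4) (by rwa [Fintype.card_fin])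
  obtain ⟨r, hr⟩ := isSquare_of_two_eq_zero h2 (Q u * (Q v)⁻¹)
  have hr0 : r ≠ 0 := by
    rintro rfl
    exact mul_ne_zero hu (inv_ne_zero hv) (by rw [hr]; ring)
  have hQv : Q (r • v) = Q u := by rw [H16.Quad.map_smul, ← hr]; field_simp
  obtain ⟨δ, θ, hc, _⟩ := exists_chars hQ h'
  have hu0 : u ≠ 0 := by rintro rfl; simp at hu
  have hv0 : v ≠ 0 := by rintro rfl; simp at hv
  obtain ⟨g0, hg0, hg⟩ := witt_family hQ 1 ![u] ![r • v]
    (by rw [linearIndependent_unique_iff]; exact hu0)
    (by rw [linearIndependent_unique_iff]; exact smul_ne_zero hr0 hv0)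
    (by intro i; fin_cases i; exact hQv.symm)
    (by
      intro i j; fin_cases i; fin_cases j
      show QuadraticMap.polar Q u u = QuadraticMap.polar Q (r • v) (r • v)
      rw [polar_self, polar_self, hQv])
  obtain ⟨s, hs, hs2⟩ := adjust hQ h' hc (Subgroup.zpowers (rf Q u)) ⟨rf Q u, Subgroup.mem_zpowers _, hc.del u hu⟩
    (fun h => absurd h2 h) ⟨g0, hg0⟩
  refine ⟨(toOG _).symm (⟨g0, hg0⟩ * s), ?_, ?_⟩
  · rw [mem_Omega_iff, MulEquiv.apply_symm_apply]; exact hs2
  · rw [toOG_symm_mulVec]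
    have hsu : s.1 u = u ∨ s.1 u = -u := by
      obtain ⟨k, rfl⟩ := Subgroup.mem_zpowers_iff.1 hs
      rcases Int.even_or_odd' k with ⟨j, rfl | rfl⟩
      · left
        rw [zpow_mul, zpow_two, rf_sq, one_zpow]; rfl
      · right
        rw [zpow_add, zpow_mul, zpow_two, rf_sq, one_zpow, one_mul, zpow_one]
        exact refl_self hu
    have h6 : (⟨g0, hg0⟩ * s : OG Q).1 u = g0 (s.1 u) := rfl
    rw [h6]
    have h7 : g0 u = r • v := hg 0
    rcases hsu with h | h
    · rw [h, h7]; exact Submodule.span_singleton_smul_eq (IsUnit.mk0 r hr0) v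
    · rw [h, _root_.map_neg, h7, ← neg_smul]
      exact Submodule.span_singleton_smul_eq (IsUnit.mk0 (-r) (neg_ne_zero.2 hr0)) v

end Cfsg.Agent.S2634
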