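import Cfsg.Agent.H16_MatOm
import Cfsg.Statements.S2635
-- import your own Cfsg.Agent.* helpers here

set_option autoImplicit false
open Cfsg

namespace Cfsg.Agent.S2635

open Cfsg.Agent.H16.Quad Module in

/-- Over a finite field of characteristic two, for a quadratic form Q on F^n with non-degenerate polar form, n ≥ 2, other than dimension 4 over the field of two elements, Ω (the commutator subgroup of the orthogonal group) is exactly the subgroup generated by the products of two reflections (orthogonal transvections) x ↦ x − Q(v)⁻¹ f(x, v) v, Q(v) ≠ 0: the products of an even number of reflections. -/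
theorem result {F : Type*} [Field F] [Fintype F] [CharP F 2] {n : ℕ} (hn : 2 ≤ n) (h : Fintype.card F ≠ 2 ∨ n ≠ 4) (Q : QuadraticForm F (Fin n → F)) (hQ : (QuadraticMap.polarBilin Q).Nondegenerate) : Cfsg.Omega F ⇑Q = Subgroup.closure {g : ↥(Cfsg.isometryGroup F ⇑Q) | ∃ u v : Fin n → F, Q u ≠ 0 ∧ Q v ≠ 0 ∧ ((g : Matrix.GeneralLinearGroup (Fin n) F) : Matrix (Fin n) (Fin n) F) = Cfsg.reflectionMatrix ⇑Q u * Cfsg.reflectionMatrix ⇑Q v} := by
  have h2 : (2 : F) = 0 := CharTwo.two_eq_zero
  have h' := card_cond (F := F) (ι := Fin n) (n := 4) (by rwa [Fintype.card_fin])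
  apply le_antisymm
  · intro g hg
    obtain ⟨vs, hvs, e1, e2⟩ := iso_exists_list hQ h' g
    rw [mem_Omega_rpr_iff hQ h' hvs e1] at hg
    have key : ∀ (k : ℕ) (ws : List (Fin n → F)), ws.length = 2 * k → (∀ w ∈ ws, Q w ≠ 0) →
        (toOG Q).symm (rpr Q ws) ∈ Subgroup.closure {g : ↥(Cfsg.isometryGroup F ⇑Q) | ∃ u v : Fin n → F, Q u ≠ 0 ∧ Q v ≠ 0 ∧ ((g : Matrix.GeneralLinearGroup (Fin n) F) : Matrix (Fin n) (Fin n) F) = Cfsg.reflectionMatrix ⇑Q u * Cfsg.reflectionMatrix ⇑Q v} := by
      intro k
      induction k with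
      | zero =>
        intro ws hw _
        have : ws = [] := List.length_eq_zero_iff.1 (by simpa using hw)
        rw [this, rpr_nil, map_one]; exact Subgroup.one_mem _
      | succ k ih =>
        intro ws hw hws
        match ws, hw, hws with
        | [], hw, _ => simp at hw
        | [a], hw, _ => exact absurd hw (by simp only [List.length_cons, List.length_nil]; omega)
        | a :: b :: ws, hw, hws =>
          rw [rpr_cons, rpr_cons, ← mul_assoc, _root_.map_mul]
          refine Subgroup.mul_mem _ (Subgroup.subset_closure ⟨a, b, hws a (by simp), hws b (by simp), ?_⟩)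
            (ih ws (by simpa [mul_add] using hw) (fun w hw => hws w (by simp [hw])))
          rw [_root_.map_mul, ← symm_rf_coe, ← symm_rf_coe]; rfl
    obtain ⟨k, hk⟩ := hg.1
    have := key k vs (by omega) hvs
    rwa [← e1, MulEquiv.symm_apply_apply] at this
  · rw [Subgroup.closure_le]
    rintro g ⟨u, v, hu, hv, hg⟩
    have hvs : ∀ w ∈ [u, v], Q w ≠ 0 := by
      intro w hw
      simp only [List.mem_cons, List.not_mem_nil, or_false] at hw
      rcases hw with rfl | rfl
      · exact hu
      · exact hv
    exact (mem_Omega_rpr_iff hQ h' hvs (toOG_rpr (by simpa using hg))).2 ⟨⟨1, rfl⟩, isSquare_of_two_eq_zero h2 _⟩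

end Cfsg.Agent.S2635
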