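import Cfsg.Statements.S2638
import Cfsg.Agent.H19_Singer2

set_option autoImplicit false
open Cfsg

namespace Cfsg.Agent.S2638


/-- If an element x of GL_n(q), n ≥ 1, has prime order r and the multiplicative order of q modulo r is n (r is a primitive prime divisor of q^n − 1, so x acts irreducibly), then the centraliser of x in GL_n(q) is cyclic of order q^n − 1 (the multiplicative group of the field with q^n elements, a Singer cycle). -/
theorem result {F : Type*} [Field F] [Fintype F] {p q : ℕ} [Fact p.Prime] [CharP F p] (hF : Fintype.card F = q) {n r : ℕ} (hn : 1 ≤ n) (hr : r.Prime) (hrp : r ≠ p) (hi : orderOf (q : ZMod r) = n) (x : GL (Fin n) F) (hx : orderOf x = r) : IsCyclic ↥(Subgroup.centralizer ({x} : Set (GL (Fin n) F))) ∧ Nat.card ↥(Subgroup.centralizer ({x} : Set (GL (Fin n) F))) = q ^ n - 1 := by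
  classical
  subst hF
  haveI : NeZero n := ⟨by omega⟩
  haveI : Fact r.Prime := ⟨hr⟩
  have hq1 : 1 < Fintype.card F := Fintype.one_lt_card
  have hrd : ∀ k : ℕ, r ∣ Fintype.card F ^ k - 1 ↔ n ∣ k := by
    intro k
    have h1 : 1 ≤ Fintype.card F ^ k := Nat.one_le_pow _ _ (by omega)
    rw [← hi, orderOf_dvd_iff_pow_eq_one, ← Nat.cast_pow, ← Nat.modEq_iff_dvd' h1,
      ← ZMod.natCast_eq_natCast_iff, Nat.cast_one, eq_comm]
  let K := FiniteField.Extension F p n
  haveI : Finite K := inferInstance
  letI : Fintype K := Fintype.ofFinite K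
  have hdim : Module.finrank F K = n := FiniteField.finrank_extension F p n
  haveI : FiniteDimensional F K := FiniteDimensional.of_finrank_pos (by omega)
  let b : Module.Basis (Fin n) F K := Module.finBasisOfFinrankEq F K hdim
  let e : (Module.End F K)ˣ ≃* GL (Fin n) F := Units.mapEquiv (LinearMap.toMatrixAlgEquiv b).toMulEquiv
  obtain ⟨ψ⟩ := H19.Singer2.conj_main (K := K) n hn hdim r hr ((hrd n).2 (dvd_refl n)) (by
    intro k hk1 hk2 h
    have := Nat.le_of_dvd hk1 ((hrd k).1 h)
    omega) (e.symm x) (by rw [e.symm.orderOf_eq, hx])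
  have hmap : (Subgroup.centralizer ({e.symm x} : Set (Module.End F K)ˣ)).map (e : (Module.End F K)ˣ →* GL (Fin n) F) =
      Subgroup.centralizer ({x} : Set (GL (Fin n) F)) := by
    ext g
    rw [Subgroup.mem_map, Subgroup.mem_centralizer_iff]
    constructor
    · rintro ⟨y, hy, rfl⟩ z hz
      rw [Set.mem_singleton_iff] at hz
      subst hz
      have h1 := Subgroup.mem_centralizer_iff.1 hy _ rfl
      have h2 := congrArg e h1
      rw [map_mul, map_mul, e.apply_symm_apply] at h2
      exact h2
    · intro hg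
      refine ⟨e.symm g, ?_, e.apply_symm_apply g⟩
      rw [Subgroup.mem_centralizer_iff]
      intro z hz
      rw [Set.mem_singleton_iff] at hz
      subst hz
      rw [← map_mul, ← map_mul, hg x rfl]
  let ψ2 : Subgroup.centralizer ({x} : Set (GL (Fin n) F)) ≃* Kˣ :=
    ((MulEquiv.subgroupCongr hmap.symm).trans ((Subgroup.centralizer ({e.symm x} : Set (Module.End F K)ˣ)).equivMapOfInjective
      (e : (Module.End F K)ˣ →* GL (Fin n) F) e.injective).symm).trans ψ
  haveI : Finite Kˣ := inferInstance
  haveI : IsCyclic Kˣ := inferInstance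
  refine ⟨isCyclic_of_surjective ψ2.symm ψ2.symm.surjective, ?_⟩
  rw [Nat.card_congr ψ2.toEquiv, Nat.card_eq_fintype_card, Fintype.card_units,
    Module.card_eq_pow_finrank (K := F) (V := K), hdim]

end Cfsg.Agent.S2638
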