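import Cfsg.Statements.S2642
import Cfsg.Agent.H15_RC11

set_option autoImplicit false
open Cfsg

namespace Cfsg.Agent.S2642

/-- Number of conjugacy classes of elements of order p in the general unitary group GU_n(q), q a power of p: every unipotent Jordan type occurs and the classes correspond to the partitions of n with all parts at most p other than the all-ones partition, exactly as in GL_n; so there are (number of partitions of n with parts ≤ p) − 1 classes. -/
theorem result {K : Type*} [Field K] [Fintype K] {p q n : ℕ} [Fact p.Prime] [CharP K p] (hK : Fintype.card K = q ^ 2) : Nat.card {C : ConjClasses ↥(Cfsg.GU n K q) // ∃ g : ↥(Cfsg.GU n K q), ConjClasses.mk g = C ∧ orderOf g = p} = (Finset.univ.filter (fun μ : Nat.Partition n => ∀ a ∈ μ.parts, a ≤ p)).card - 1 := by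
  classical
  have hp : p.Prime := Fact.out
  rw [← Cfsg.Agent.H15.RC.main2570 (F := K) (p := p) n]
  have hord : ∀ g k : GL (Fin n) K, IsConj g k → orderOf g = orderOf k := by
    intro g k h
    obtain ⟨c, hc⟩ := isConj_iff.1 h
    rw [← hc]
    exact (orderOf_injective (MulAut.conj c).toMonoidHom (MulAut.conj c).injective g).symm
  have e1 : Nat.card {C : ConjClasses (GL (Fin n) K) // ∃ g : GL (Fin n) K, ConjClasses.mk g = C ∧ orderOf g = p} =
      Nat.card {C : ConjClasses (GL (Fin n) K) // ∃ g : GL (Fin n) K, orderOf g = p ∧ ConjClasses.mk g = C} := by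
    simp only [and_comm]
  rw [e1, Cfsg.Agent.H15.RC.card_classes (P := fun g : GL (Fin n) K => orderOf g = p)
    (P' := fun T => ∃ k : GL (Fin n) K, Cfsg.Agent.H15.RC.MT (k : Matrix (Fin n) (Fin n) K) T ∧ orderOf k = p)
    (by
      intro g T hT
      constructor
      · intro h; exact ⟨g, hT, h⟩
      · rintro ⟨k, hk, hk2⟩
        rw [← hk2]
        exact hord g k ((Cfsg.Agent.H15.RC.isConj_iff_type g k hT hk).2 rfl)),
    Cfsg.Agent.H15.RC.gu_card_classes hK (P := fun g => orderOf g = p)
    (P' := fun T => ∃ k : GL (Fin n) K, Cfsg.Agent.H15.RC.MT (k : Matrix (Fin n) (Fin n) K) T ∧ orderOf k = p)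
    (by
      intro g T hT
      have h0 : orderOf g = orderOf (g : GL (Fin n) K) := (Subgroup.orderOf_coe g).symm
      rw [h0]
      constructor
      · intro h; exact ⟨g, hT, h⟩
      · rintro ⟨k, hk, hk2⟩
        rw [← hk2]
        exact hord g k ((Cfsg.Agent.H15.RC.isConj_iff_type _ k hT hk).2 rfl))]
  refine Nat.card_congr (Equiv.subtypeEquivRight (fun T => ?_))
  constructor
  · rintro ⟨h1, h2, h3⟩; exact ⟨h1, h3⟩
  · rintro ⟨h1, h3⟩
    refine ⟨h1, ?_, h3⟩
    obtain ⟨k, hk, hk2⟩ := h3
    have h4 : k ^ p = 1 := hk2 ▸ pow_orderOf_eq_one k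
    have h5 := Cfsg.Agent.H15.RC.pow_char_iff p k 1
    rw [pow_one] at h5
    have h6 := (Cfsg.Agent.H15.RC.MT_unip hk p).1 (h5.1 h4)
    unfold Cfsg.Agent.H15.RC.dT
    conv_rhs => rw [← Multiset.map_id T]
    apply Multiset.map_congr rfl
    intro t ht
    rw [(h6 t ht).1, Cfsg.Agent.H15.RC.dl_X1, ← (h6 t ht).1]
    rfl

end Cfsg.Agent.S2642
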