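import Cfsg.Statements.S2672
import Cfsg.Agent.H15_RC14
import Cfsg.Agent.S0783

set_option autoImplicit false
open Cfsg

namespace Cfsg.Agent.S2672

open Polynomial Matrix Cfsg.Agent.H15.RC in
theorem dl_XmC {F : Type*} [Field F] (σ : F ≃+* F) {a : F} (ha : a ≠ 0) {m : ℕ} (hm : 1 ≤ m) : dl σ (X ^ m - C a) = X ^ m - C ((σ a)⁻¹) := by
  unfold dl
  have h0 : σ a ≠ 0 := (_root_.map_ne_zero σ).2 ha
  have h1 : (X ^ m - C a : F[X]).map (σ : F →+* F) = X ^ m - C (σ a) := by
    rw [Polynomial.map_sub, Polynomial.map_pow, Polynomial.map_X, Polynomial.map_C]; rfl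
  rw [h1]
  have h2 : (X ^ m - C (σ a) : F[X]).reverse = 1 - C (σ a) * X ^ m := by
    change reflect (X ^ m - C (σ a) : F[X]).natDegree (X ^ m - C (σ a)) = _
    rw [natDegree_X_pow_sub_C, reflect_sub, reflect_monomial, reflect_C, revAt_le le_rfl, Nat.sub_self, pow_zero]
  rw [h2, coeff_sub, coeff_X_pow, coeff_C_zero, if_neg (by omega), zero_sub, mul_sub, mul_one, ← mul_assoc, ← C_mul, inv_neg, neg_mul, inv_mul_cancel₀ h0,
    C_neg, C_neg, C_1]
  ring

/-- Number of conjugacy classes of elements of odd prime order r in PGU_n(q) = GU_n(q)/scalars (n ≥ 3) when r divides q + 1: as in the linear case with q − 1 replaced by q + 1, the classes correspond to the rotation orbits on r-tuples of eigenvalue multiplicities summing to n with every entry < n, plus r − 1 further classes when r divides n; in all (C(n+r−1, r−1) − r − [r ∣ n])/r + r·[r ∣ n]. -/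
theorem result {K : Type*} [Field K] [Fintype K] {q n r : ℕ} (hK : Fintype.card K = q ^ 2) (hn : 3 ≤ n) (hr : r.Prime) (hr2 : r ≠ 2) (hrq : r ∣ q + 1) : Nat.card {C : ConjClasses (↥(Cfsg.GU n K q) ⧸ Subgroup.center ↥(Cfsg.GU n K q)) // ∃ g : ↥(Cfsg.GU n K q) ⧸ Subgroup.center ↥(Cfsg.GU n K q), ConjClasses.mk g = C ∧ orderOf g = r} = (Nat.choose (n + r - 1) (r - 1) - r - (if r ∣ n then 1 else 0)) / r + r * (if r ∣ n then 1 else 0) := by
  classical
  have hq1 : 1 < q := Cfsg.Agent.H5.Fld.one_lt_q hK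
  set D : Subgroup Kˣ := (powMonoidHom (q + 1) : Kˣ →* Kˣ).ker with hD
  have hDmem : ∀ d : Kˣ, d ∈ D ↔ d ^ (q + 1) = 1 := fun d => Iff.rfl
  have hcardD : Nat.card D = q + 1 := Cfsg.Agent.H5.Fld.card_norm_ker hK
  have hrq1 : ¬ r ∣ q - 1 := by
    intro h
    have h2 : r ∣ 2 := by
      have h3 := (Nat.dvd_sub hrq h)
      have : q + 1 - (q - 1) = 2 := by omega
      rwa [this] at h3
    exact hr2 ((Nat.prime_dvd_prime_iff_eq hr Nat.prime_two).1 h2)
  have hsc : ∀ d ∈ D, Cfsg.Agent.H15.RC.sc n d ∈ Cfsg.GU n K q := by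
    intro d hd
    refine Cfsg.Agent.H5.Unit.diag_mem_GU hK (fun _ => d) (fun _ => ?_) _ ?_
    · have := (hDmem d).1 hd
      exact congrArg Units.val this
    · exact Matrix.GeneralLinearGroup.coe_scalar _
  have hinvσ : ∀ c : Kˣ, c ∈ D → (Cfsg.Agent.H15.RC.fs hK (c : K))⁻¹ = c := by
    intro c hc
    rw [Cfsg.Agent.H15.RC.fs_apply]
    have h1 : (c : K) ^ (q + 1) = 1 := by
      have := (hDmem c).1 hc
      exact congrArg Units.val this
    rw [pow_succ] at h1
    exact inv_eq_of_mul_eq_one_right h1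
  have hrou : ∀ w ∈ rootsOfUnity r K, w ∈ D := by
    intro w hw
    obtain ⟨m, hm⟩ := hrq
    rw [hDmem, hm, pow_mul, (mem_rootsOfUnity r w).1 hw, one_pow]
  have H : Cfsg.Agent.H15.RC.PGD n (Cfsg.GU n K q) D r := by
    refine ⟨fun g h => Cfsg.Agent.S2587.result hK g h, ?_, hsc, ?_, hrou, ?_, ?_⟩
    · intro g
      constructor
      · intro hg
        obtain ⟨c, hc⟩ := Cfsg.Agent.S0783.scalar_center hK (by omega) g hg
        haveI : NeZero n := ⟨by omega⟩
        have hc0 : c ≠ 0 := by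
          rintro rfl
          have h1 := g.1.det.ne_zero
          rw [Matrix.GeneralLinearGroup.val_det_apply, hc, zero_smul, Matrix.det_zero] at h1
          exact h1 rfl
        have hcq : c ^ (q + 1) = 1 := by
          have h8 := g.2 (Pi.single 0 1) (Pi.single 0 1)
          change Cfsg.hermForm n K q ((g.1 : Matrix (Fin n) (Fin n) K).mulVec _)
            ((g.1 : Matrix (Fin n) (Fin n) K).mulVec _) = _ at h8
          rw [hc, Matrix.smul_mulVec, Matrix.one_mulVec, Cfsg.Agent.H5.Unit.herm_smul_left,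
            Cfsg.Agent.H5.Unit.herm_smul_right, ← mul_assoc, ← pow_succ'] at h8
          have h9 : Cfsg.hermForm n K q (Pi.single 0 1) (Pi.single 0 1) = 1 := by
            rw [Cfsg.Agent.H5.Conc.hermForm_single_left n 0 _
              (by have := Cfsg.Agent.H5.Fld.one_lt_q hK; omega)]
            simp
          rwa [h9, mul_one] at h8
        refine ⟨Units.mk0 c hc0, ?_, ?_⟩
        · rw [hDmem]; exact Units.ext hcq
        · apply Units.ext
          rw [hc, Cfsg.Agent.H15.RC.sc_val]; rfl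
      · rintro ⟨d, hd, hgd⟩
        rw [Subgroup.mem_center_iff]
        intro h
        apply Subtype.ext
        have h3 : Cfsg.Agent.H15.RC.sc n d ∈ Subgroup.center (GL (Fin n) K) := (Cfsg.Agent.H15.RC.mem_center_iff' _).2 ⟨d, rfl⟩
        change (h : GL (Fin n) K) * g = g * h
        rw [hgd]
        exact Subgroup.mem_center_iff.1 h3 h
    · intro M hM
      obtain ⟨k, hk⟩ := Cfsg.Agent.H15.RC.exists_of_adm (Cfsg.Agent.H15.RC.TM_adm M hM)
      have hsd : Cfsg.Agent.H15.RC.dT (Cfsg.Agent.H15.RC.fs hK) (Cfsg.Agent.H15.RC.TM M) = Cfsg.Agent.H15.RC.TM M := by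
        unfold Cfsg.Agent.H15.RC.dT Cfsg.Agent.H15.RC.TM
        rw [Multiset.map_map]
        apply Multiset.map_congr rfl
        intro u _
        simp only [Function.comp_apply]
        have h1 := dl_XmC (Cfsg.Agent.H15.RC.fs hK) (a := ((u : Kˣ) : K)) (Units.ne_zero _) (m := 1) le_rfl
        rw [pow_one, hinvσ _ (hrou _ u.2)] at h1
        rw [h1]
      obtain ⟨g, hg⟩ := (Cfsg.Agent.H15.RC.gu_exists hK k hk).2 hsd
      obtain ⟨T', hT'⟩ := Cfsg.Agent.H15.RC.exists_type (Matrix.toLin' ((g : GL (Fin n) K) : Matrix (Fin n) (Fin n) K) : Module.End K (Fin n → K))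
      have := (Cfsg.Agent.H15.RC.isConj_iff_type k g.1 hk hT').1 hg
      subst this
      exact ⟨g, hT'⟩
    · rintro c hc ⟨d, hd⟩
      have hcop : IsCoprime ((q - 1 : ℕ) : ℤ) (r : ℤ) := by
        rw [Nat.isCoprime_iff_coprime]
        exact ((Nat.Prime.coprime_iff_not_dvd hr).2 hrq1).symm
      obtain ⟨a, b, hab⟩ := hcop
      have he : d ^ (q - 1) ∈ D := by
        rw [hDmem, ← pow_mul]
        have : (q - 1) * (q + 1) = Fintype.card K - 1 := by
          rw [hK, mul_comm]; exact (Nat.sq_sub_sq q 1).symm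
        rw [this]
        have h5 : d ^ Fintype.card Kˣ = 1 := pow_card_eq_one
        rwa [Fintype.card_units] at h5
      refine ⟨(d ^ (q - 1)) ^ a * c ^ b, D.mul_mem (D.zpow_mem he a) (D.zpow_mem hc b), ?_⟩
      rw [mul_pow]
      have h1 : ((d ^ (q - 1)) ^ a) ^ r = c ^ (a * ((q - 1 : ℕ) : ℤ)) := by
        rw [← hd, ← zpow_natCast, ← zpow_natCast, ← zpow_natCast, ← zpow_mul, ← zpow_mul, ← zpow_mul]
        congr 1; ring
      have h2 : (c ^ b) ^ r = c ^ (b * (r : ℤ)) := by
        rw [← zpow_natCast, ← zpow_mul]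
      rw [h1, h2, ← zpow_add, hab, zpow_one]
    · intro c hc hcr k hk
      have hirr : Irreducible (Polynomial.X ^ r - Polynomial.C (c : K)) := by
        apply X_pow_sub_C_irreducible_of_prime hr
        intro b hb
        have hb0 : b ≠ 0 := by rintro rfl; rw [zero_pow hr.ne_zero] at hb; exact c.ne_zero hb.symm
        exact hcr (Units.mk0 b hb0) (Units.ext hb)
      have hadm : Cfsg.Agent.H15.RC.Adm n (Multiset.replicate k ((Polynomial.X ^ r - Polynomial.C (c : K)), 1)) := by
        refine ⟨?_, ?_, ?_⟩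
        · intro t ht
          rw [(Multiset.mem_replicate.1 ht).2]
          exact ⟨hirr, Polynomial.monic_X_pow_sub_C _ hr.ne_zero, le_rfl⟩
        · unfold Cfsg.Agent.H15.RC.size
          rw [Multiset.map_replicate, Multiset.sum_replicate, Polynomial.natDegree_X_pow_sub_C]
          simp only [smul_eq_mul, one_mul]
          rw [hk, mul_comm]
        · intro t ht
          rw [(Multiset.mem_replicate.1 ht).2]
          intro h1
          have := congrArg (Polynomial.eval 0) h1
          simp [hr.ne_zero] at this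
      obtain ⟨g0, hg0⟩ := Cfsg.Agent.H15.RC.exists_of_adm hadm
      have hsd : Cfsg.Agent.H15.RC.dT (Cfsg.Agent.H15.RC.fs hK) (Multiset.replicate k ((Polynomial.X ^ r - Polynomial.C (c : K)), 1)) = Multiset.replicate k ((Polynomial.X ^ r - Polynomial.C (c : K)), 1) := by
        unfold Cfsg.Agent.H15.RC.dT
        rw [Multiset.map_replicate]
        simp only
        rw [dl_XmC (Cfsg.Agent.H15.RC.fs hK) (Units.ne_zero _) hr.one_lt.le, hinvσ _ hc]
      obtain ⟨g, hg⟩ := (Cfsg.Agent.H15.RC.gu_exists hK g0 hg0).2 hsd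
      obtain ⟨T', hT'⟩ := Cfsg.Agent.H15.RC.exists_type (Matrix.toLin' ((g : GL (Fin n) K) : Matrix (Fin n) (Fin n) K) : Module.End K (Fin n → K))
      have := (Cfsg.Agent.H15.RC.isConj_iff_type g0 g.1 hg0 hT').1 hg
      subst this
      exact ⟨g, hT'⟩
  exact H.main (by omega) hr (by rw [hcardD]; exact hrq)

end Cfsg.Agent.S2672
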