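import Cfsg.Statements.S2643
import Cfsg.Agent.H15_RC15
import Cfsg.Agent.S2672

set_option autoImplicit false
open Cfsg

namespace Cfsg.Agent.S2643

/-- Regular unipotent classes of SU_n(q), n ≥ 2: the elements u of the special unitary group (isometries of Σ u_i v_i^q of determinant one over the field with q² elements) with (u − 1)^n = 0 and rank(u − 1) = n − 1 form exactly gcd(n, q + 1) conjugacy classes of SU_n(q). -/
theorem result {K : Type*} [Field K] [Fintype K] {q n : ℕ} (hK : Fintype.card K = q ^ 2) (hn : 2 ≤ n) : Nat.card {C : ConjClasses ↥(Cfsg.SU n K q) // ∃ u : ↥(Cfsg.SU n K q), ConjClasses.mk u = C ∧ (((u : GL (Fin n) K) : Matrix (Fin n) (Fin n) K) - 1) ^ n = 0 ∧ (((u : GL (Fin n) K) : Matrix (Fin n) (Fin n) K) - 1).rank = n - 1} = Nat.gcd n (q + 1) := by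
  classical
  set D : Subgroup Kˣ := (powMonoidHom (q + 1) : Kˣ →* Kˣ).ker with hD
  have hcardD : Nat.card D = q + 1 := Cfsg.Agent.H5.Fld.card_norm_ker hK
  have hsc : ∀ d ∈ D, Cfsg.Agent.H15.RC.sc n d ∈ Cfsg.GU n K q := by
    intro d hd
    refine Cfsg.Agent.H5.Unit.diag_mem_GU hK (fun _ => d) (fun _ => ?_) _ ?_
    · have h1 : d ^ (q + 1) = 1 := hd
      exact congrArg Units.val h1
    · exact Matrix.GeneralLinearGroup.coe_scalar _
  obtain ⟨u, hu⟩ : ∃ u : ↥(Cfsg.GU n K q), Cfsg.Agent.H15.RC.MT ((u : GL (Fin n) K) : Matrix (Fin n) (Fin n) K) {((Polynomial.X - 1 : Polynomial K), n)} := by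
    obtain ⟨k, hk⟩ := Cfsg.Agent.H15.RC.exists_of_adm (Cfsg.Agent.H15.RC.reg_adm (F := K) (n := n) (by omega))
    obtain ⟨g, hg⟩ := (Cfsg.Agent.H15.RC.gu_exists hK k hk).2 (by
      unfold Cfsg.Agent.H15.RC.dT
      rw [Multiset.map_singleton]
      simp only [Cfsg.Agent.H15.RC.dl_X1])
    obtain ⟨T', hT'⟩ := Cfsg.Agent.H15.RC.exists_type (Matrix.toLin' ((g : GL (Fin n) K) : Matrix (Fin n) (Fin n) K) : Module.End K (Fin n → K))
    have := (Cfsg.Agent.H15.RC.isConj_iff_type k g.1 hk hT').1 hg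
    subst this
    exact ⟨g, hT'⟩
  have hureg := (Cfsg.Agent.H15.RC.reg_iff (by omega) hu).2 rfl
  have hdet : Cfsg.Agent.H5.Unit.detGU n K hK u = 1 := by
    have h1 := Cfsg.Agent.H15.RC.det_nil (g := ((u : GL (Fin n) K) : Matrix (Fin n) (Fin n) K)) (c := 1) (by rw [one_smul]; exact hureg.1)
    apply Subtype.ext
    apply Units.ext
    change ((u : GL (Fin n) K) : Matrix (Fin n) (Fin n) K).det = 1
    rw [h1, one_pow]
  have e1 : Nat.card {C : ConjClasses ↥(Cfsg.SU n K q) // ∃ u : ↥(Cfsg.SU n K q), ConjClasses.mk u = C ∧ (((u : GL (Fin n) K) : Matrix (Fin n) (Fin n) K) - 1) ^ n = 0 ∧ (((u : GL (Fin n) K) : Matrix (Fin n) (Fin n) K) - 1).rank = n - 1} =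
      Nat.card {C : ConjClasses ↥(Cfsg.SU n K q) // ∃ v : ↥(Cfsg.SU n K q), ConjClasses.mk v = C ∧ IsConj u (Cfsg.Agent.H5.Unit.suHom n K q v)} := by
    refine Nat.card_congr (Equiv.subtypeEquivRight (fun C => ?_))
    refine exists_congr (fun v => and_congr_right (fun _ => ?_))
    obtain ⟨T, hT⟩ := Cfsg.Agent.H15.RC.exists_type (Matrix.toLin' ((v : GL (Fin n) K) : Matrix (Fin n) (Fin n) K) : Module.End K (Fin n → K))
    rw [Cfsg.Agent.S2587.result hK]
    have e3 : ((Cfsg.Agent.H5.Unit.suHom n K q v : ↥(Cfsg.GU n K q)) : GL (Fin n) K) = (v : GL (Fin n) K) := rfl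
    rw [e3, Cfsg.Agent.H15.RC.isConj_iff_type (u : GL (Fin n) K) _ hu hT, eq_comm (b := T), ← Cfsg.Agent.H15.RC.reg_iff (by omega) hT]
  rw [e1, Cfsg.Agent.H15.RC.card_split (Cfsg.Agent.H5.Unit.suHom n K q) (Cfsg.Agent.H5.Unit.detGU n K hK) (Cfsg.Agent.H5.Unit.suHom_injective n K q) (Cfsg.Agent.H5.Unit.detGU_surjective hK (by omega)) ?_ u hdet]
  · have e2 : Subgroup.map (Cfsg.Agent.H5.Unit.detGU n K hK) (Subgroup.centralizer {u}) = (powMonoidHom n : D →* D).range := by
      ext x
      rw [Subgroup.mem_map]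
      constructor
      · rintro ⟨g, hg, rfl⟩
        have h0 : g * u = u * g := (Subgroup.mem_centralizer_iff.1 hg u (Set.mem_singleton u)).symm
        have h1 : ((g : GL (Fin n) K) : Matrix (Fin n) (Fin n) K) * ((u : GL (Fin n) K) : Matrix (Fin n) (Fin n) K) = ((u : GL (Fin n) K) : Matrix (Fin n) (Fin n) K) * ((g : GL (Fin n) K) : Matrix (Fin n) (Fin n) K) :=
          congrArg (fun z : ↥(Cfsg.GU n K q) => ((z : GL (Fin n) K) : Matrix (Fin n) (Fin n) K)) h0
        obtain ⟨c, hc1, hc2⟩ := Cfsg.Agent.H15.RC.det_cent (by omega) hu h1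
        have hc0 : c ≠ 0 := by
          rintro rfl
          rw [zero_pow (by omega)] at hc2
          exact (g : GL (Fin n) K).det.ne_zero hc2
        have hcq : Units.mk0 c hc0 ∈ D := by
          obtain ⟨T, hT⟩ := Cfsg.Agent.H15.RC.exists_type (Matrix.toLin' ((g : GL (Fin n) K) : Matrix (Fin n) (Fin n) K) : Module.End K (Fin n → K))
          have hsd := Cfsg.Agent.H15.RC.gu_selfdual hK g hT
          have hv := hT.valid
          have h2 := Cfsg.Agent.H15.RC.MT_aeval hT ((Polynomial.X - Polynomial.C c) ^ n)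
          rw [map_pow, map_sub, Polynomial.aeval_X, Polynomial.aeval_C, Algebra.algebraMap_eq_smul_one] at h2
          have h3 := h2.1 hc1
          have h4 : ∀ t ∈ T, t.1 = Polynomial.X - Polynomial.C c := by
            intro t ht
            have h5 : t.1 ∣ (Polynomial.X - Polynomial.C c) ^ n := (dvd_pow_self _ (by have := (hv t ht).2.2; omega)).trans (h3 t ht)
            have h6 := (hv t ht).1.prime.dvd_of_dvd_pow h5
            exact Polynomial.eq_of_monic_of_associated (hv t ht).2.1 (Polynomial.monic_X_sub_C c) ((hv t ht).1.associated_of_dvd (Polynomial.irreducible_X_sub_C c) h6)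
          obtain ⟨t, ht⟩ : ∃ t, t ∈ T := by
            apply Multiset.exists_mem_of_ne_zero
            rintro rfl
            have := hT.size_eq
            rw [Module.finrank_fin_fun] at this
            unfold Cfsg.Agent.H15.RC.size at this
            simp at this
            omega
          have h5 : (Cfsg.Agent.H15.RC.dl (Cfsg.Agent.H15.RC.fs hK) t.1, t.2) ∈ T := by
            have : (Cfsg.Agent.H15.RC.dl (Cfsg.Agent.H15.RC.fs hK) t.1, t.2) ∈ Cfsg.Agent.H15.RC.dT (Cfsg.Agent.H15.RC.fs hK) T := Multiset.mem_map_of_mem _ ht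
            rwa [hsd] at this
          have h6 := h4 _ h5
          simp only at h6
          rw [h4 t ht] at h6
          have h7 := Cfsg.Agent.S2672.dl_XmC (Cfsg.Agent.H15.RC.fs hK) hc0 (m := 1) le_rfl
          rw [pow_one, h6] at h7
          have h8 : c = (Cfsg.Agent.H15.RC.fs hK c)⁻¹ := Polynomial.C_injective (sub_right_injective h7)
          rw [Cfsg.Agent.H15.RC.fs_apply] at h8
          change (Units.mk0 c hc0) ^ (q + 1) = 1
          apply Units.ext
          change c ^ (q + 1) = 1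
          rw [pow_succ]
          nth_rewrite 2 [h8]
          exact mul_inv_cancel₀ (pow_ne_zero _ hc0)
        refine ⟨⟨Units.mk0 c hc0, hcq⟩, ?_⟩
        apply Subtype.ext
        exact Units.ext hc2.symm
      · rintro ⟨c, rfl⟩
        refine ⟨⟨Cfsg.Agent.H15.RC.sc n c, hsc c c.2⟩, ?_, ?_⟩
        · rw [Subgroup.mem_centralizer_iff]
          rintro y (rfl : y = u)
          have h3 : Cfsg.Agent.H15.RC.sc n (c : Kˣ) ∈ Subgroup.center (GL (Fin n) K) := (Cfsg.Agent.H15.RC.mem_center_iff' _).2 ⟨c, rfl⟩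
          exact Subtype.ext (Subgroup.mem_center_iff.1 h3 y)
        · apply Subtype.ext
          apply Units.ext
          change (Cfsg.Agent.H15.RC.sc n (c : Kˣ) : Matrix (Fin n) (Fin n) K).det = ((c : Kˣ) : K) ^ n
          rw [Cfsg.Agent.H15.RC.sc_val, Matrix.det_smul, Matrix.det_one, mul_one, Fintype.card_fin]
    rw [e2, IsCyclic.index_powMonoidHom_range, hcardD, Nat.gcd_comm]
  · intro g
    rw [Cfsg.Agent.H5.Unit.range_suHom hK, MonoidHom.mem_ker]

end Cfsg.Agent.S2643
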