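import Cfsg.Agent.H5_USim
import Cfsg.Statements.S2644
-- import your own Cfsg.Agent.* helpers here

set_option autoImplicit false
open Cfsg

namespace Cfsg.Agent.S2644

open Matrix Cfsg.Agent.H5 Cfsg.Agent.H5.Unit Cfsg.Agent.H5.USim

theorem exists_T {K : Type*} [Field K] [Fintype K] {q n : ℕ} (hK : Fintype.card K = q ^ 2) {s : ↥(Cfsg.SU n K q)}
    (hs : Cfsg.IsTransvection (mat s)) : ∃ (v : Fin n → K) (hv : Cfsg.hermForm n K q v v = 0) (c : K) (hc : c + c ^ q = 0),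
      v ≠ 0 ∧ c ≠ 0 ∧ s = T hK v hv c hc := by
  obtain ⟨N, hN⟩ : ∃ N, N = mat s - 1 := ⟨_, rfl⟩
  obtain ⟨h1, h2⟩ := hs
  rw [← hN] at h1 h2
  have hsN : ∀ x, mat s *ᵥ x = x + N *ᵥ x := by
    intro x
    rw [hN, Matrix.sub_mulVec, Matrix.one_mulVec]
    abel
  rw [Matrix.rank, finrank_eq_one_iff'] at h1
  obtain ⟨⟨v, z, hz⟩, hv0, hv⟩ := h1
  replace hv0 : v ≠ 0 := fun h => hv0 (Subtype.ext h)
  replace hz : N *ᵥ z = v := hz
  have hN' : ∀ x, ∃ a : K, N *ᵥ x = a • v := by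
    intro x
    obtain ⟨a, ha⟩ := hv ⟨N *ᵥ x, x, rfl⟩
    exact ⟨a, (congrArg Subtype.val ha).symm⟩
  have hNv : N *ᵥ v = 0 := by rw [← hz, Matrix.mulVec_mulVec, h2, Matrix.zero_mulVec]
  have hsv : mat s *ᵥ v = v := by rw [hsN, hNv, add_zero]
  have hvv : Cfsg.hermForm n K q v v = 0 := by
    have h3 := SU_herm s z v
    rw [hsv, hsN, hz, herm_add_left] at h3
    linear_combination h3
  have hx : ∀ x (a : K), N *ᵥ x = a • v → Cfsg.hermForm n K q x v + a * Cfsg.hermForm n K q v z = 0 := by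
    intro x a ha
    have h3 := SU_herm s x z
    rw [hsN, hsN, hz, ha, herm_add_left, herm_add_right hK, herm_add_right hK, herm_smul_left, herm_smul_left, hvv] at h3
    linear_combination h3
  obtain ⟨x₀, hx₀⟩ := exists_ne hK hv0
  have hvz : Cfsg.hermForm n K q v z ≠ 0 := by
    intro h
    obtain ⟨a, ha⟩ := hN' x₀
    have := hx x₀ a ha
    rw [h, mul_zero, add_zero] at this
    exact hx₀ this
  obtain ⟨c, hcz⟩ : ∃ c : K, c * Cfsg.hermForm n K q v z = -1 := ⟨-1 / Cfsg.hermForm n K q v z, by field_simp⟩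
  have hc0 : c ≠ 0 := by
    rintro rfl
    rw [zero_mul] at hcz
    exact neg_ne_zero.mpr one_ne_zero hcz.symm
  have hsx : ∀ x, mat s *ᵥ x = x + (c * Cfsg.hermForm n K q x v) • v := by
    intro x
    obtain ⟨a, ha⟩ := hN' x
    rw [hsN, ha]
    congr 2
    linear_combination a * hcz - c * hx x a ha
  have hmat : mat s = Cfsg.unitaryTransvection n q v c := by
    apply ext_mulVec
    intro x
    rw [hsx, T_mulVec]
  rcases gen_cases hK hvv hmat with h | ⟨-, hc, h⟩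
  · exfalso
    have h3 := hsN z
    rw [hz, h] at h3
    change (1 : Matrix (Fin n) (Fin n) K) *ᵥ z = z + v at h3
    rw [Matrix.one_mulVec] at h3
    exact hv0 (left_eq_add.mp h3)
  · exact ⟨v, hvv, c, hc, hv0, hc0, h⟩

/-- In the special unitary group SU_n(q) with n ≥ 3 (isometries of Σ u_i v_i^q of determinant one over the field with q² elements), any two transvections (elements t with t − 1 of rank one and square zero) are conjugate. -/
theorem result {K : Type*} [Field K] [Fintype K] {q n : ℕ} (hK : Fintype.card K = q ^ 2) (hn : 3 ≤ n) (s t : ↥(Cfsg.SU n K q)) (hs : Cfsg.IsTransvection (((s : GL (Fin n) K) : Matrix (Fin n) (Fin n) K))) (ht : Cfsg.IsTransvection (((t : GL (Fin n) K) : Matrix (Fin n) (Fin n) K))) : IsConj s t := by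
  obtain ⟨v, hv, c, hc, hv0, hc0, rfl⟩ := exists_T hK hs
  obtain ⟨v', hv', c', hc', hv0', hc0', rfl⟩ := exists_T hK ht
  obtain ⟨μ, hμ⟩ := nm_surj hK (c' / c) (by
    rw [div_pow, eq_neg_of_add_eq_zero_right hc, eq_neg_of_add_eq_zero_right hc', neg_div_neg_eq])
  have hμ0 : μ ≠ 0 := by
    rintro rfl
    rw [zero_mul] at hμ
    exact div_ne_zero hc0' hc0 hμ.symm
  have h1 : c * (μ * μ ^ q) = c' := by rw [hμ, mul_div_cancel₀ _ hc0]
  have hw : Cfsg.hermForm n K q (μ • v') (μ • v') = 0 := by rw [herm_smul_left, herm_smul_right, hv', mul_zero, mul_zero]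
  have h2 := T_smul hK v' hv' μ hc hw (by rw [h1]; exact hc')
  simp only [h1] at h2
  have hw0 : μ • v' ≠ 0 := smul_ne_zero hμ0 hv0'
  obtain ⟨w, hw1, hw2⟩ := exists_partner' hK hv0 hv
  obtain ⟨w', hw1', hw2'⟩ := exists_partner' hK hw0 hw
  obtain ⟨A, hA, -⟩ := trans_pairs hK hn hv hw1 hw2 hw hw1' hw2'
  rw [isConj_iff]
  refine ⟨A, ?_⟩
  rw [conj_T, ← h2]
  simp only [hA]

end Cfsg.Agent.S2644
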