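import Cfsg.Statements.S2657
import Cfsg.Agent.H11_SecO

set_option autoImplicit false
open scoped MatrixGroups
open Cfsg

namespace Cfsg.Agent.S2657

/-- Alternating sections of the groups of type F₄. Let `F` be a finite field of characteristic `p` and let `G` be the Chevalley group of type F₄ over `F`. If some subgroup of `G` has a quotient isomorphic to the alternating group of degree `r`, then `r` is at most 10, or 11 in characteristic 11. (Only an upper bound is asserted.) -/
theorem result {F : Type*} [Field F] [Fintype F] (p : ℕ) [Fact p.Prime] [CharP F p]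
    (r : ℕ) (H : Subgroup ↥(Cfsg.Lie.chevF4.group F)) (K : Subgroup ↥H) [K.Normal]
    (h : Nonempty (↥H ⧸ K ≃* ↥(alternatingGroup (Fin r)))) :
    r ≤ 10 + (if p = 11 then 1 else 0) := by
  obtain ⟨e⟩ := h
  let f : ↥H →* ↥(alternatingGroup (Fin r)) := e.toMonoidHom.comp (QuotientGroup.mk' K)
  have hf : Function.Surjective f := e.surjective.comp (QuotientGroup.mk'_surjective K)
  obtain ⟨n, hp, hn⟩ := FiniteField.card F p
  by_cases h11 : p = 11
  · rw [if_pos h11]
    by_contra hr
    have hc : Nat.card (FiniteField.Extension F p 12) = (p ^ (n : ℕ)) ^ 12 := by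
      rw [FiniteField.natCard_extension, Nat.card_eq_fintype_card, hn]
    obtain ⟨j, hj⟩ := Cfsg.Agent.H11.SecF.exists_base Cfsg.Agent.H6.Chev.modelF4
      (algebraMap F (FiniteField.Extension F p 12))
    refine Cfsg.Agent.H11.SecO.no_A12 (L := FiniteField.Extension F p 12) ?_ ?_ (j.comp H.subtype)
      (hj.comp Subtype.coe_injective) (r := r) (by omega) f hf
    · rw [hc]
      exact Cfsg.Agent.H11.SecO.dvd_pow_sub (by norm_num) hp (by omega) (by norm_num)
    · rw [hc]
      exact Cfsg.Agent.H11.SecO.dvd_pow_sub (by norm_num) hp (by omega) (by norm_num)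
  · rw [if_neg h11]
    by_contra hr
    have hc : Nat.card (FiniteField.Extension F p 10) = (p ^ (n : ℕ)) ^ 10 := by
      rw [FiniteField.natCard_extension, Nat.card_eq_fintype_card, hn]
    obtain ⟨j, hj⟩ := Cfsg.Agent.H11.SecF.exists_base Cfsg.Agent.H6.Chev.modelF4
      (algebraMap F (FiniteField.Extension F p 10))
    refine Cfsg.Agent.H11.SecO.no_A11 (L := FiniteField.Extension F p 10) ?_ (j.comp H.subtype)
      (hj.comp Subtype.coe_injective) (r := r) (by omega) f hf
    rw [hc]
    exact Cfsg.Agent.H11.SecO.dvd_pow_sub (by norm_num) hp h11 (by norm_num)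

end Cfsg.Agent.S2657
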