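import Cfsg.Statements.S2658
import Cfsg.Agent.H11_SecF

set_option autoImplicit false
open scoped MatrixGroups
open Cfsg

namespace Cfsg.Agent.S2658

/-- Alternating sections of the groups of type G₂. Let `F` be a finite field of characteristic `p` and let `G` be the Chevalley group of type G₂ over `F`. If some subgroup of `G` has a quotient isomorphic to the alternating group of degree `r`, then `r` is at most 6, or 7 in characteristic 5. (Only an upper bound is asserted.) -/
theorem result {F : Type*} [Field F] [Fintype F] (p : ℕ) [Fact p.Prime] [CharP F p]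
    (r : ℕ) (H : Subgroup ↥(Cfsg.Lie.chevG2.group F)) (K : Subgroup ↥H) [K.Normal]
    (h : Nonempty (↥H ⧸ K ≃* ↥(alternatingGroup (Fin r)))) :
    r ≤ 6 + (if p = 5 then 1 else 0) := by
  obtain ⟨e⟩ := h
  let f : ↥H →* ↥(alternatingGroup (Fin r)) := e.toMonoidHom.comp (QuotientGroup.mk' K)
  have hf : Function.Surjective f := e.surjective.comp (QuotientGroup.mk'_surjective K)
  obtain ⟨n, hp, hn⟩ := FiniteField.card F p
  by_cases h5 : p = 5
  · rw [if_pos h5]
    obtain ⟨S, h1, h2⟩ := Cfsg.Agent.H11.SecE.sylow2 (F := F) (by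
      rw [Nat.card_eq_fintype_card, hn, h5]
      have := Nat.sub_dvd_pow_sub_pow 5 1 (n : ℕ)
      rwa [one_pow] at this)
    exact Cfsg.Agent.H11.SecB.no_A8 S h1 h2 H f hf
  · rw [if_neg h5]
    by_contra hr
    obtain ⟨σ, τ, h1, h2, h3⟩ := Cfsg.Agent.H11.SecF.exists7 (r := r) (by omega)
    have hc : Nat.card (FiniteField.Extension F p 4) = (p ^ (n : ℕ)) ^ 4 := by
      rw [FiniteField.natCard_extension, Nat.card_eq_fintype_card, hn]
    obtain ⟨P, hab, hP⟩ := Cfsg.Agent.H11.SecE.sylow5 (F := FiniteField.Extension F p 4) (by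
      rw [hc]; exact Cfsg.Agent.H11.SecF.five_dvd hp h5)
    obtain ⟨j, hj⟩ := Cfsg.Agent.H11.SecF.exists_base Cfsg.Agent.H6.Chev.modelG2
      (algebraMap F (FiniteField.Extension F p 4))
    have : Fact (Nat.Prime 5) := ⟨by norm_num⟩
    exact Cfsg.Agent.H11.SecD.no_section' (ℓ := 5) (e := 6) (c := 2) (by decide) P hab hP (j.comp H.subtype)
      (hj.comp Subtype.coe_injective) f hf h1 h2 h3

end Cfsg.Agent.S2658
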