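import Cfsg.Statements.S2660
import Cfsg.Agent.H11_SecH

set_option autoImplicit false
open scoped MatrixGroups
open Cfsg

namespace Cfsg.Agent.S2660

/-- Alternating sections of the triality-twisted groups ³D₄. Let `q = p^a` be a prime power and `K` a field with `q³` elements, and let `G` be the twisted group ³D₄(q) realised over `K`. If some subgroup of `G` has a quotient isomorphic to the alternating group of degree `r`, then `r` is at most 6, or 7 in characteristic 5. (Only an upper bound is asserted.) -/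
theorem result {K : Type*} [Field K] [Fintype K] (p a : ℕ) [Fact p.Prime] [CharP K p]
    (ha : 1 ≤ a) (hK : Fintype.card K = (p ^ a) ^ 3) (r : ℕ) (H : Subgroup ↥(Cfsg.Lie.twistedD4 K (p ^ a))) (N : Subgroup ↥H) [N.Normal]
    (h : Nonempty (↥H ⧸ N ≃* ↥(alternatingGroup (Fin r)))) :
    r ≤ 6 + (if p = 5 then 1 else 0) := by
  obtain ⟨e⟩ := h
  let f : ↥H →* ↥(alternatingGroup (Fin r)) := e.toMonoidHom.comp (QuotientGroup.mk' N)
  have hf : Function.Surjective f := e.surjective.comp (QuotientGroup.mk'_surjective N)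
  have hp : p.Prime := Fact.out
  have hpp : IsPrimePow (p ^ a) := hp.isPrimePow.pow (by omega)
  by_cases h5 : p = 5
  · rw [if_pos h5]
    obtain ⟨S, h1, h2⟩ := Cfsg.Agent.H11.SecH.sylow2 (K := K) hpp hK (by
      rw [h5]
      have := Nat.sub_dvd_pow_sub_pow 5 1 a
      rwa [one_pow] at this)
    exact Cfsg.Agent.H11.SecB.no_A8 S h1 h2 H f hf
  · rw [if_neg h5]
    by_contra hr
    obtain ⟨σ, τ, h1, h2, h3⟩ := Cfsg.Agent.H11.SecF.exists7 (r := r) (by omega)
    letI : Fintype (FiniteField.Extension K p 4) := Fintype.ofFinite _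
    have hc : Fintype.card (FiniteField.Extension K p 4) = ((p ^ a) ^ 4) ^ 3 := by
      rw [← Nat.card_eq_fintype_card, FiniteField.natCard_extension, Nat.card_eq_fintype_card, hK]
      ring
    have hpp4 : IsPrimePow ((p ^ a) ^ 4) := hpp.pow (by norm_num)
    obtain ⟨P, hab, hP⟩ := Cfsg.Agent.H11.SecH.sylow5 (K := FiniteField.Extension K p 4) hpp4 hc
      (Cfsg.Agent.H11.SecF.five_dvd hp h5)
    obtain ⟨j, hj⟩ := Cfsg.Agent.H11.SecH.exists_base (q := p ^ a)
      (algebraMap K (FiniteField.Extension K p 4)) hK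
    have : Fact (Nat.Prime 5) := ⟨by norm_num⟩
    exact Cfsg.Agent.H11.SecD.no_section' (ℓ := 5) (e := 6) (c := 2) (by decide) P hab hP (j.comp H.subtype)
      (hj.comp Subtype.coe_injective) f hf h1 h2 h3

end Cfsg.Agent.S2660
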