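import Cfsg.Statements.S2666

set_option autoImplicit false
open Cfsg

namespace Cfsg.Agent.S2666

theorem tele {X : Type*} [Group X] (σ : MulAut X) (g a : X) (ha : g = a * (σ a)⁻¹) (n : ℕ) :
    ((List.range n).map (fun i => (σ ^ i) g)).prod = a * ((σ ^ n) a)⁻¹ := by
  induction n with
  | zero => simp
  | succ n ih =>
    rw [List.range_succ, List.map_append, List.prod_append, ih]
    simp only [List.map_cons, List.map_nil, List.prod_cons, List.prod_nil, mul_one]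
    rw [ha, map_mul, map_inv, ← MulAut.mul_apply, ← pow_succ]
    group

theorem result {X : Type*} [Group X] (σ : MulAut X) (e : ℕ) (he : 1 ≤ e)
    (hL : ∀ g : X, ∃ a : X, g = a * (σ a)⁻¹) (hLe : ∀ g : X, ∃ a : X, g = a * ((σ ^ e) a)⁻¹) :
    (∀ g ∈ (MulEquiv.toMonoidHom (σ ^ e)).eqLocus (MonoidHom.id X), ∀ a : X, g = a * (σ a)⁻¹ →
        ((σ ^ e) a)⁻¹ * a ∈ (MulEquiv.toMonoidHom σ).eqLocus (MonoidHom.id X) ∧
          a⁻¹ * ((List.range e).map (fun i => (σ ^ i) g)).prod * a = ((σ ^ e) a)⁻¹ * a) ∧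
    (∀ g ∈ (MulEquiv.toMonoidHom (σ ^ e)).eqLocus (MonoidHom.id X), ∀ g' ∈ (MulEquiv.toMonoidHom (σ ^ e)).eqLocus (MonoidHom.id X), ∀ a b : X,
        g = a * (σ a)⁻¹ → g' = b * (σ b)⁻¹ →
          ((∃ k ∈ (MulEquiv.toMonoidHom (σ ^ e)).eqLocus (MonoidHom.id X), g' = k * g * (σ k)⁻¹) ↔
            (∃ h ∈ (MulEquiv.toMonoidHom σ).eqLocus (MonoidHom.id X), ((σ ^ e) b)⁻¹ * b = h * (((σ ^ e) a)⁻¹ * a) * h⁻¹))) ∧
    (∀ x ∈ (MulEquiv.toMonoidHom σ).eqLocus (MonoidHom.id X), ∃ g ∈ (MulEquiv.toMonoidHom (σ ^ e)).eqLocus (MonoidHom.id X), ∃ a : X,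
        g = a * (σ a)⁻¹ ∧ ((σ ^ e) a)⁻¹ * a = x) := by
  have fixpow : ∀ (h : X), σ h = h → ∀ n : ℕ, (σ ^ n) h = h := by
    intro h hh n
    induction n with
    | zero => simp
    | succ n ih => rw [pow_succ, MulAut.mul_apply, hh, ih]
  have mem1 : ∀ (τ : MulAut X) (y : X), y ∈ (MulEquiv.toMonoidHom τ).eqLocus (MonoidHom.id X) ↔ τ y = y := by
    intro τ y; rfl
  have comm : ∀ y : X, σ ((σ ^ e) y) = (σ ^ e) (σ y) := by
    intro y
    rw [← MulAut.mul_apply, ← MulAut.mul_apply, ← pow_succ', ← pow_succ]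
  refine ⟨?_, ?_, ?_⟩
  · intro g hg a ha
    rw [mem1] at hg ⊢
    constructor
    · rw [ha, map_mul, map_inv] at hg
      rw [map_mul, map_inv, comm]
      have : ((σ ^ e) (σ a))⁻¹ = ((σ ^ e) a)⁻¹ * (a * (σ a)⁻¹) := by
        rw [← hg]; group
      rw [this]; group
    · rw [tele σ g a ha]; group
  · intro g hg g' hg' a b ha hb
    rw [mem1] at hg hg'
    constructor
    · rintro ⟨k, hk, hkk⟩
      rw [mem1] at hk
      have hfix : σ (b⁻¹ * k * a) = b⁻¹ * k * a := by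
        rw [map_mul, map_mul, map_inv]
        rw [hb, ha] at hkk
        have h2 : (σ b)⁻¹ = b⁻¹ * (k * (a * (σ a)⁻¹) * (σ k)⁻¹) := by rw [← hkk]; group
        rw [h2]; group
      refine ⟨b⁻¹ * k * a, (mem1 _ _).2 hfix, ?_⟩
      have h3 := fixpow _ hfix e
      rw [map_mul, map_mul, map_inv, hk] at h3
      have h4 : ((σ ^ e) b)⁻¹ = b⁻¹ * k * a * ((σ ^ e) a)⁻¹ * k⁻¹ := by rw [← h3]; group
      rw [h4]; group
    · rintro ⟨h, hh, hhh⟩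
      rw [mem1] at hh
      have h3 := fixpow _ hh e
      refine ⟨b * h * a⁻¹, (mem1 _ _).2 ?_, ?_⟩
      · rw [map_mul, map_mul, map_inv, h3]
        have h5 : b = (σ ^ e) b * (h * (((σ ^ e) a)⁻¹ * a) * h⁻¹) := by rw [← hhh]; group
        calc (σ ^ e) b * h * ((σ ^ e) a)⁻¹ = ((σ ^ e) b * (h * (((σ ^ e) a)⁻¹ * a) * h⁻¹)) * h * a⁻¹ := by group
          _ = b * h * a⁻¹ := by rw [← h5]
      · rw [map_mul, map_mul, map_inv, hh, ha, hb]; group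
  · intro x hx
    rw [mem1] at hx
    obtain ⟨c, hc⟩ := hLe x⁻¹
    have hxc : x = (σ ^ e) c * c⁻¹ := by
      rw [← inv_inv x, hc]; group
    have h1 : (σ ^ e) (c⁻¹) = c⁻¹ * x⁻¹ := by rw [map_inv, hc]; group
    refine ⟨c⁻¹ * (σ c⁻¹)⁻¹, (mem1 _ _).2 ?_, c⁻¹, rfl, ?_⟩
    · have h6 : (σ ^ e) ((σ c⁻¹)⁻¹) = (σ ((σ ^ e) c⁻¹))⁻¹ := by rw [comm, map_inv]
      rw [map_mul, h6, h1, map_mul, map_inv σ x, hx]; group
    · rw [h1, mul_inv_rev]; group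

end Cfsg.Agent.S2666
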