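import Cfsg.Statements.S2667

set_option autoImplicit false
open Cfsg

namespace Cfsg.Agent.S2667

theorem result {X : Type*} [Group X] (σ : MulAut X) (e : ℕ) (he : 1 ≤ e)
    (g : X) (hg : g ∈ (MulEquiv.toMonoidHom (σ ^ e)).eqLocus (MonoidHom.id X)) (a : X) (ha : g = a * (σ a)⁻¹) (k : X) :
    (k ∈ (MulEquiv.toMonoidHom (σ ^ e)).eqLocus (MonoidHom.id X) ∧ k * g * (σ k)⁻¹ = g) ↔
      (a⁻¹ * k * a ∈ (MulEquiv.toMonoidHom σ).eqLocus (MonoidHom.id X) ∧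
        (a⁻¹ * k * a) * (((σ ^ e) a)⁻¹ * a) = (((σ ^ e) a)⁻¹ * a) * (a⁻¹ * k * a)) := by
  have fixpow : ∀ (h : X), σ h = h → ∀ n : ℕ, (σ ^ n) h = h := by
    intro h hh n
    induction n with
    | zero => simp
    | succ n ih => rw [pow_succ, MulAut.mul_apply, hh, ih]
  have mem1 : ∀ (τ : MulAut X) (y : X), y ∈ (MulEquiv.toMonoidHom τ).eqLocus (MonoidHom.id X) ↔ τ y = y := by
    intro τ y; rfl
  rw [mem1, mem1]
  have key : k * g * (σ k)⁻¹ = g ↔ σ (a⁻¹ * k * a) = a⁻¹ * k * a := by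
    subst ha
    simp only [map_mul, map_inv]
    constructor
    · intro h
      have h2 : k * a * (σ a)⁻¹ = a * (σ a)⁻¹ * σ k := by
        rw [mul_inv_eq_iff_eq_mul] at h
        rw [mul_assoc k a]; exact h
      calc (σ a)⁻¹ * σ k * σ a = a⁻¹ * (a * (σ a)⁻¹ * σ k) * σ a := by group
        _ = a⁻¹ * (k * a * (σ a)⁻¹) * σ a := by rw [h2]
        _ = a⁻¹ * k * a := by group
    · intro h
      rw [mul_inv_eq_iff_eq_mul]
      calc k * (a * (σ a)⁻¹) = a * (a⁻¹ * k * a) * (σ a)⁻¹ := by group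
        _ = a * ((σ a)⁻¹ * σ k * σ a) * (σ a)⁻¹ := by rw [h]
        _ = _ := by group
  rw [key]
  constructor
  · rintro ⟨h1, h2⟩
    refine ⟨h2, ?_⟩
    have h3 := fixpow _ h2 e
    have h4 : ((σ ^ e) a)⁻¹ * k * (σ ^ e) a = a⁻¹ * k * a := by
      rw [map_mul, map_mul, map_inv, h1] at h3; exact h3
    calc (a⁻¹ * k * a) * (((σ ^ e) a)⁻¹ * a) = (((σ ^ e) a)⁻¹ * k * (σ ^ e) a) * (((σ ^ e) a)⁻¹ * a) := by rw [h4]
      _ = _ := by group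
  · rintro ⟨h2, h3⟩
    refine ⟨?_, h2⟩
    have h4 := fixpow _ h2 e
    rw [map_mul, map_mul, map_inv] at h4
    have h5 : (σ ^ e) k = (σ ^ e) a * (a⁻¹ * k * a) * ((σ ^ e) a)⁻¹ := by
      rw [← h4]; group
    rw [h5]
    calc (σ ^ e) a * (a⁻¹ * k * a) * ((σ ^ e) a)⁻¹ = (σ ^ e) a * ((a⁻¹ * k * a) * (((σ ^ e) a)⁻¹ * a)) * a⁻¹ := by group
      _ = (σ ^ e) a * ((((σ ^ e) a)⁻¹ * a) * (a⁻¹ * k * a)) * a⁻¹ := by rw [h3]
      _ = k := by group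

end Cfsg.Agent.S2667
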