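import Cfsg.Statements.S2668

set_option autoImplicit false
open Cfsg

namespace Cfsg.Agent.S2668

theorem tele {X : Type*} [Group X] (σ : MulAut X) (g a : X) (ha : g = a * (σ a)⁻¹) (n : ℕ) :
    ((List.range n).map (fun i => (σ ^ i) g)).prod = a * ((σ ^ n) a)⁻¹ := by
  induction n with
  | zero => simp
  | succ n ih =>
    rw [List.range_succ, List.map_append, List.prod_append, ih]
    simp only [List.map_cons, List.map_nil, List.prod_cons, List.prod_nil, mul_one]
    rw [ha, map_mul, map_inv, ← MulAut.mul_apply, ← pow_succ]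
    group

theorem result {X : Type*} [Group X] (σ : MulAut X) (e d : ℕ) (he : 1 ≤ e) (hd : 1 ≤ d)
    (g : X) (hg : g ∈ (MulEquiv.toMonoidHom (σ ^ e)).eqLocus (MonoidHom.id X)) (a : X) (ha : g = a * (σ a)⁻¹) :
    ((List.range d).map (fun i => (σ ^ i) g)).prod = a * ((σ ^ d) a)⁻¹ ∧
      ((List.range d).map (fun i => (σ ^ i) g)).prod ∈ (MulEquiv.toMonoidHom ((σ ^ d) ^ e)).eqLocus (MonoidHom.id X) ∧
      (((σ ^ d) ^ e) a)⁻¹ * a = (((σ ^ e) a)⁻¹ * a) ^ d := by
  have fixpow : ∀ (h : X), σ h = h → ∀ n : ℕ, (σ ^ n) h = h := by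
    intro h hh n
    induction n with
    | zero => simp
    | succ n ih => rw [pow_succ, MulAut.mul_apply, hh, ih]
  have mem1 : ∀ (τ : MulAut X) (y : X), y ∈ (MulEquiv.toMonoidHom τ).eqLocus (MonoidHom.id X) ↔ τ y = y := by
    intro τ y; rfl
  have comm : ∀ y : X, σ ((σ ^ e) y) = (σ ^ e) (σ y) := by
    intro y
    rw [← MulAut.mul_apply, ← MulAut.mul_apply, ← pow_succ', ← pow_succ]
  rw [mem1] at hg
  set x := ((σ ^ e) a)⁻¹ * a with hx
  have hxfix : σ x = x := by
    rw [ha, map_mul, map_inv] at hg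
    rw [hx, map_mul, map_inv, comm]
    have : ((σ ^ e) (σ a))⁻¹ = ((σ ^ e) a)⁻¹ * (a * (σ a)⁻¹) := by
      rw [← hg]; group
    rw [this]; group
  have hea : (σ ^ e) a = a * x⁻¹ := by rw [hx]; group
  have hpow : ∀ n : ℕ, ((σ ^ e) ^ n) a = a * (x ^ n)⁻¹ := by
    intro n
    induction n with
    | zero => simp
    | succ n ih =>
      rw [pow_succ', MulAut.mul_apply, ih, map_mul, hea, map_inv, map_pow, fixpow x hxfix, pow_succ, mul_inv_rev,
        mul_assoc]
      congr 1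
      rw [← mul_inv_rev, ← mul_inv_rev, ← pow_succ]
  have hde : (σ ^ d) ^ e = (σ ^ e) ^ d := by rw [← pow_mul, ← pow_mul, mul_comm]
  have hN := tele σ g a ha d
  refine ⟨hN, ?_, ?_⟩
  · rw [mem1, hN, map_mul, map_inv]
    have h1 : ((σ ^ d) ^ e) ((σ ^ d) a) = (σ ^ d) (((σ ^ d) ^ e) a) := by
      rw [← MulAut.mul_apply, ← MulAut.mul_apply, ← pow_succ, ← pow_succ']
    rw [h1, hde, hpow, map_mul, map_inv, map_pow, fixpow x hxfix]
    group
  · rw [hde, hpow]; group

end Cfsg.Agent.S2668
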