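import Cfsg.Statements.S2669

set_option autoImplicit false
open Cfsg

namespace Cfsg.Agent.S2669

theorem result {X : Type*} [Group X] (σ : MulAut X) (e : ℕ) (he : 1 ≤ e)
    [Finite ↥((MulEquiv.toMonoidHom (σ ^ e)).eqLocus (MonoidHom.id X))]
    (Y : Subgroup X) (hY : ∀ y : X, y ∈ Y ↔ σ y ∈ Y)
    (hYL : ∀ y ∈ Y, ∃ a ∈ Y, y = a * (σ a)⁻¹) (hYLe : ∀ y ∈ Y, ∃ a ∈ Y, y = a * ((σ ^ e) a)⁻¹)
    (g : X) (hg : g ∈ (MulEquiv.toMonoidHom (σ ^ e)).eqLocus (MonoidHom.id X)) (a : X) (ha : g = a * (σ a)⁻¹) :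
    Nat.card {k : ↥((MulEquiv.toMonoidHom (σ ^ e)).eqLocus (MonoidHom.id X)) // (k : X)⁻¹ * g * σ k ∈ Y} *
        Nat.card ↥(Y ⊓ (MulEquiv.toMonoidHom σ).eqLocus (MonoidHom.id X)) =
      Nat.card {h : ↥((MulEquiv.toMonoidHom σ).eqLocus (MonoidHom.id X)) // (h : X)⁻¹ * (((σ ^ e) a)⁻¹ * a) * h ∈ Y} *
        Nat.card ↥(Y ⊓ (MulEquiv.toMonoidHom (σ ^ e)).eqLocus (MonoidHom.id X)) := by
  have fixpow : ∀ (h : X), σ h = h → ∀ n : ℕ, (σ ^ n) h = h := by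
    intro h hh n
    induction n with
    | zero => simp
    | succ n ih => rw [pow_succ, MulAut.mul_apply, hh, ih]
  have mem1 : ∀ (τ : MulAut X) (y : X), y ∈ (MulEquiv.toMonoidHom τ).eqLocus (MonoidHom.id X) ↔ τ y = y := by
    intro τ y; rfl
  -- the intermediate set of pairs (k, b)
  let T := {p : X × X // (σ ^ e) p.1 = p.1 ∧ p.2 ∈ Y ∧ σ (a⁻¹ * p.1 * p.2) = a⁻¹ * p.1 * p.2}
  have key : ∀ k b : X, σ (a⁻¹ * k * b) = a⁻¹ * k * b ↔ k⁻¹ * g * σ k = b * (σ b)⁻¹ := by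
    intro k b
    rw [map_mul, map_mul, map_inv, ha]
    constructor
    · intro h
      have h2 : (σ a)⁻¹ * σ k = a⁻¹ * k * b * (σ b)⁻¹ := by rw [← h]; group
      calc k⁻¹ * (a * (σ a)⁻¹) * σ k = k⁻¹ * a * ((σ a)⁻¹ * σ k) := by group
        _ = _ := by rw [h2]; group
    · intro h
      have h2 : σ k = σ a * a⁻¹ * k * (b * (σ b)⁻¹) := by rw [← h]; group
      rw [h2]; group
  have hbij : ∀ k : X, (σ ^ e) k = k → k⁻¹ * g * σ k ∈ Y → ∃ b ∈ Y, k⁻¹ * g * σ k = b * (σ b)⁻¹ :=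
    fun k _ h => hYL _ h
  -- first equivalence
  have e1 : Nonempty (T ≃ {k : ↥((MulEquiv.toMonoidHom (σ ^ e)).eqLocus (MonoidHom.id X)) // (k : X)⁻¹ * g * σ k ∈ Y} ×
      ↥(Y ⊓ (MulEquiv.toMonoidHom σ).eqLocus (MonoidHom.id X))) := by
    choose! B hB1 hB2 using hbij
    have hYs : ∀ k b : X, b ∈ Y → k⁻¹ * g * σ k = b * (σ b)⁻¹ → k⁻¹ * g * σ k ∈ Y := by
      intro k b hb h
      rw [h]
      exact Y.mul_mem hb (Y.inv_mem ((hY b).1 hb))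
    refine ⟨⟨fun p => (⟨⟨p.1.1, p.2.1⟩, hYs _ _ p.2.2.1 ((key _ _).1 p.2.2.2)⟩,
      ⟨(B p.1.1)⁻¹ * p.1.2, ?_⟩), fun q => ⟨(q.1.1.1, B q.1.1.1 * q.2.1), ?_⟩, ?_, ?_⟩⟩
    · have h0 := hYs _ _ p.2.2.1 ((key _ _).1 p.2.2.2)
      have h1 := hB1 _ p.2.1 h0
      have h2 := hB2 _ p.2.1 h0
      have h3 := (key _ _).1 p.2.2.2
      refine Subgroup.mem_inf.2 ⟨Y.mul_mem (Y.inv_mem h1) p.2.2.1, (mem1 _ _).2 ?_⟩
      rw [map_mul, map_inv]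
      rw [h3] at h2
      have h4 : (σ (B p.1.1))⁻¹ = (B p.1.1)⁻¹ * (p.1.2 * (σ p.1.2)⁻¹) := by rw [h2]; group
      rw [h4]; group
    · have hk := (mem1 _ _).1 q.1.1.2
      have h0 := q.1.2
      have h1 := hB1 _ hk h0
      have h2 := hB2 _ hk h0
      obtain ⟨h3, h4⟩ := Subgroup.mem_inf.1 q.2.2
      rw [mem1] at h4
      refine ⟨hk, Y.mul_mem h1 h3, (key _ _).2 ?_⟩
      show (q.1.1.1)⁻¹ * g * σ q.1.1.1 = B q.1.1.1 * q.2.1 * (σ (B q.1.1.1 * q.2.1))⁻¹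
      rw [map_mul, h4, h2]; group
    · intro p
      apply Subtype.ext
      simp
    · intro q
      apply Prod.ext
      · rfl
      · apply Subtype.ext
        simp
  have hbij2 : ∀ h : X, σ h = h → (h : X)⁻¹ * (((σ ^ e) a)⁻¹ * a) * h ∈ Y →
      ∃ b ∈ Y, (h : X)⁻¹ * (((σ ^ e) a)⁻¹ * a) * h = ((σ ^ e) b)⁻¹ * b := by
    intro h _ hh
    obtain ⟨c, hc, hcc⟩ := hYLe _ (Y.inv_mem hh)
    refine ⟨c⁻¹, Y.inv_mem hc, ?_⟩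
    rw [← inv_inv (h⁻¹ * (((σ ^ e) a)⁻¹ * a) * h), hcc, map_inv]; group
  have hYe : ∀ b : X, b ∈ Y → ∀ n : ℕ, (σ ^ n) b ∈ Y := by
    intro b hb n
    induction n with
    | zero => simpa using hb
    | succ n ih => rw [pow_succ', MulAut.mul_apply]; exact (hY _).1 ih
  have key2 : ∀ h b : X, σ h = h → ((σ ^ e) (a * h * b⁻¹) = a * h * b⁻¹ ↔
      (h : X)⁻¹ * (((σ ^ e) a)⁻¹ * a) * h = ((σ ^ e) b)⁻¹ * b) := by
    intro h b hh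
    rw [map_mul, map_mul, map_inv, fixpow h hh]
    constructor
    · intro h1
      have h2 : a = (σ ^ e) a * h * ((σ ^ e) b)⁻¹ * b * h⁻¹ := by rw [h1]; group
      have h3 : ((σ ^ e) a)⁻¹ * a = h * ((σ ^ e) b)⁻¹ * b * h⁻¹ := by
        calc ((σ ^ e) a)⁻¹ * a = ((σ ^ e) a)⁻¹ * ((σ ^ e) a * h * ((σ ^ e) b)⁻¹ * b * h⁻¹) := by rw [← h2]
          _ = _ := by group
      rw [h3]; group
    · intro h1
      have h2 : a = (σ ^ e) a * h * (((σ ^ e) b)⁻¹ * b) * h⁻¹ := by rw [← h1]; group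
      calc (σ ^ e) a * h * ((σ ^ e) b)⁻¹ = ((σ ^ e) a * h * (((σ ^ e) b)⁻¹ * b) * h⁻¹) * h * b⁻¹ := by group
        _ = _ := by rw [← h2]
  have e2 : Nonempty (T ≃ {h : ↥((MulEquiv.toMonoidHom σ).eqLocus (MonoidHom.id X)) // (h : X)⁻¹ * (((σ ^ e) a)⁻¹ * a) * h ∈ Y} ×
      ↥(Y ⊓ (MulEquiv.toMonoidHom (σ ^ e)).eqLocus (MonoidHom.id X))) := by
    choose! B hB1 hB2 using hbij2
    have hYs : ∀ h b : X, b ∈ Y → (h : X)⁻¹ * (((σ ^ e) a)⁻¹ * a) * h = ((σ ^ e) b)⁻¹ * b →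
        (h : X)⁻¹ * (((σ ^ e) a)⁻¹ * a) * h ∈ Y := by
      intro h b hb h1
      rw [h1]
      exact Y.mul_mem (Y.inv_mem (hYe b hb e)) hb
    have hp : ∀ p : T, (σ ^ e) (a * (a⁻¹ * p.1.1 * p.1.2) * (p.1.2)⁻¹) = a * (a⁻¹ * p.1.1 * p.1.2) * (p.1.2)⁻¹ := by
      intro p
      have : a * (a⁻¹ * p.1.1 * p.1.2) * (p.1.2)⁻¹ = p.1.1 := by group
      rw [this]; exact p.2.1
    refine ⟨⟨fun p => (⟨⟨a⁻¹ * p.1.1 * p.1.2, p.2.2.2⟩,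
        hYs _ _ p.2.2.1 ((key2 _ _ p.2.2.2).1 (hp p))⟩,
      ⟨p.1.2 * (B (a⁻¹ * p.1.1 * p.1.2))⁻¹, ?_⟩),
      fun q => ⟨(a * q.1.1.1 * (q.2.1 * B q.1.1.1)⁻¹, q.2.1 * B q.1.1.1), ?_⟩, ?_, ?_⟩⟩
    · have h0 := hYs _ _ p.2.2.1 ((key2 _ _ p.2.2.2).1 (hp p))
      have h1 := hB1 _ p.2.2.2 h0
      have h2 := hB2 _ p.2.2.2 h0
      have h3 := (key2 _ _ p.2.2.2).1 (hp p)
      refine Subgroup.mem_inf.2 ⟨Y.mul_mem p.2.2.1 (Y.inv_mem h1), (mem1 _ _).2 ?_⟩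
      rw [map_mul, map_inv]
      rw [h3] at h2
      have h4 : (σ ^ e) p.1.2 = p.1.2 * (((σ ^ e) (B (a⁻¹ * p.1.1 * p.1.2)))⁻¹ * (B (a⁻¹ * p.1.1 * p.1.2)))⁻¹ := by
        rw [← h2]; group
      rw [h4]; group
    · have hk := (mem1 _ _).1 q.1.1.2
      have h0 := q.1.2
      have h1 := hB1 _ hk h0
      have h2 := hB2 _ hk h0
      obtain ⟨h3, h4⟩ := Subgroup.mem_inf.1 q.2.2
      rw [mem1] at h4
      refine ⟨(key2 _ _ hk).2 ?_, Y.mul_mem h3 h1, ?_⟩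
      · rw [map_mul, h4, h2]; group
      · show σ (a⁻¹ * (a * q.1.1.1 * (q.2.1 * B q.1.1.1)⁻¹) * (q.2.1 * B q.1.1.1)) =
          a⁻¹ * (a * q.1.1.1 * (q.2.1 * B q.1.1.1)⁻¹) * (q.2.1 * B q.1.1.1)
        have : a⁻¹ * (a * q.1.1.1 * (q.2.1 * B q.1.1.1)⁻¹) * (q.2.1 * B q.1.1.1) = q.1.1.1 := by group
        rw [this, hk]
    · intro p
      apply Subtype.ext
      apply Prod.ext
      · simp only; group
      · simp only; group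
    · intro q
      have h5 : a⁻¹ * (a * q.1.1.1 * (q.2.1 * B q.1.1.1)⁻¹) * (q.2.1 * B q.1.1.1) = q.1.1.1 := by group
      apply Prod.ext
      · apply Subtype.ext
        apply Subtype.ext
        exact h5
      · apply Subtype.ext
        show (q.2.1 * B q.1.1.1) * (B (a⁻¹ * (a * q.1.1.1 * (q.2.1 * B q.1.1.1)⁻¹) * (q.2.1 * B q.1.1.1)))⁻¹ = q.2.1
        rw [h5]; group
  obtain ⟨e1⟩ := e1
  obtain ⟨e2⟩ := e2
  rw [← Nat.card_prod, ← Nat.card_prod]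
  exact Nat.card_congr (e1.symm.trans e2)

end Cfsg.Agent.S2669
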