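import Cfsg.Statements.S2671
import Cfsg.Agent.H15_RC13

set_option autoImplicit false
open Cfsg

namespace Cfsg.Agent.S2671

/-- Number of conjugacy classes of elements of odd prime order r in the general unitary group GU_n(q), for r not dividing q(q + 1): let i be the multiplicative order of q modulo r, b = i if i is odd and b = i/2 if i is even, and s = (r − 1)/b. If i ≢ 2 (mod 4) the eigenvalue orbits pair off into dual pairs of totally isotropic blocks and there are C(⌊n/(2b)⌋ + s/2, s/2) − 1 classes; if i ≡ 2 (mod 4) each orbit gives a non-degenerate block of dimension i/2 and there are C(⌊2n/i⌋ + s, s) − 1 classes. -/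
theorem result {K : Type*} [Field K] [Fintype K] {p q n r i b s : ℕ} [Fact p.Prime] [CharP K p] (hK : Fintype.card K = q ^ 2) (hr : r.Prime) (hr2 : r ≠ 2) (hrp : r ≠ p) (hi : i = orderOf (q : ZMod r)) (hi2 : i ≠ 2) (hb : b = if Odd i then i else i / 2) (hs : s * b = r - 1) : Nat.card {C : ConjClasses ↥(Cfsg.GU n K q) // ∃ g : ↥(Cfsg.GU n K q), ConjClasses.mk g = C ∧ orderOf g = r} = if i % 4 = 2 then Nat.choose (2 * n / i + s) s - 1 else Nat.choose (n / (2 * b) + s / 2) (s / 2) - 1 := by
  classical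
  have hp : p.Prime := Fact.out
  haveI := Fact.mk hr
  obtain ⟨k, hk⟩ : ∃ k : ℕ, q = p ^ k := by
    obtain ⟨m, h1, h2⟩ := FiniteField.card K p
    rw [hK] at h2
    have h3 : q ∣ p ^ (m : ℕ) := by rw [← h2]; exact dvd_pow_self q two_ne_zero
    obtain ⟨k, -, hk⟩ := (Nat.dvd_prime_pow hp).1 h3
    exact ⟨k, hk⟩
  have hq0 : (q : ZMod r) ≠ 0 := by
    intro h
    rw [ZMod.natCast_eq_zero_iff, hk] at h
    exact hrp ((Nat.prime_dvd_prime_iff_eq hr hp).1 (hr.dvd_of_dvd_pow h))
  have hfin : IsOfFinOrder (q : ZMod r) := by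
    rw [isOfFinOrder_iff_pow_eq_one]
    refine ⟨r - 1, by have := hr.two_le; omega, ZMod.pow_card_sub_one_eq_one hq0⟩
  have hi0 : 0 < i := by rw [hi]; exact hfin.orderOf_pos
  have hbo : b = orderOf (((q ^ 2 : ℕ)) : ZMod r) := by
    push_cast
    rw [orderOf_pow' _ two_ne_zero, ← hi, hb]
    split_ifs with h
    · rw [Nat.Coprime.gcd_eq_one (Nat.coprime_two_right.2 h), Nat.div_one]
    · rw [Nat.not_odd_iff_even] at h
      rw [Nat.gcd_eq_right h.two_dvd]
  have hσs : ∀ x : K, Cfsg.Agent.H15.RC.fs hK x = x ^ (p ^ k) := by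
    intro x; rw [Cfsg.Agent.H15.RC.fs_apply, hk]
  rw [Cfsg.Agent.H15.RC.gu_card_classes hK (P := fun g => orderOf g = r) (P' := fun T => Cfsg.Agent.H15.RC.OrdT n r T)
    (fun g T hT => by
      have h0 : orderOf g = orderOf (g : GL (Fin n) K) := (Subgroup.orderOf_coe g).symm
      rw [h0]; exact Cfsg.Agent.H15.RC.OrdT_iff _ hT)]
  have hkey : ∀ P, Cfsg.Agent.H15.RC.dPsi (Cfsg.Agent.H15.RC.fs_fs hK) hr P = P ↔ i % 4 = 2 := by
    intro P
    rw [Cfsg.Agent.H15.RC.dPsi_eq_iff hK hr hrp hbo hs (Cfsg.Agent.H15.RC.fs_fs hK) hσs]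
    rw [← hk]
    constructor
    · rintro ⟨j, hj⟩
      push_cast at hj
      rw [← pow_mul] at hj
      -- -q = q^(2j)
      have h1 : (q : ZMod r) ^ (2 * (2 * j + i - 1)) = 1 ∧ (q : ZMod r) ^ (2 * j + i - 1) = -1 := by
        have h2 : (q : ZMod r) ^ (2 * j + i - 1) * q = (-1) * q := by
          rw [← pow_succ]
          have : 2 * j + i - 1 + 1 = 2 * j + i := by omega
          rw [this, pow_add, ← hj, hi, pow_orderOf_eq_one]; ring
        have h3 := mul_right_cancel₀ hq0 h2
        refine ⟨?_, h3⟩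
        rw [mul_comm, pow_mul, h3]; ring
      have h2 := orderOf_dvd_of_pow_eq_one h1.1
      rw [← hi] at h2
      have h3 : ¬ i ∣ 2 * j + i - 1 := by
        rintro ⟨c, hc⟩
        have h6 : (q : ZMod r) ^ (2 * j + i - 1) = 1 := by
          rw [hc, pow_mul, hi, pow_orderOf_eq_one, one_pow]
        rw [h6] at h1
        have h4 : (2 : ZMod r) = 0 := by linear_combination h1.2
        have h5 : ((2 : ℕ) : ZMod r) = 0 := by exact_mod_cast h4
        rw [ZMod.natCast_eq_zero_iff] at h5
        exact hr2 ((Nat.prime_dvd_prime_iff_eq hr Nat.prime_two).1 h5)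
      -- i even
      rcases Nat.even_or_odd i with he | ho
      · obtain ⟨c, hc⟩ := he
        have h4 : c ∣ 2 * j + i - 1 := by
          have : 2 * c ∣ 2 * (2 * j + i - 1) := by rw [two_mul c, ← hc]; exact h2
          exact Nat.dvd_of_mul_dvd_mul_left (by norm_num) this
        have h5 : Odd (2 * j + i - 1) := by
          rw [hc] at hi0 ⊢
          exact ⟨j + c - 1, by omega⟩
        have h6 : Odd c := Odd.of_dvd_nat h5 h4
        obtain ⟨e, he⟩ := h6
        omega
      · exfalso
        apply h3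
        exact (Nat.Coprime.dvd_of_dvd_mul_left (Nat.coprime_two_right.2 ho) h2)
    · intro h4
      obtain ⟨c, hc⟩ : ∃ c, i = 2 * (2 * c + 1) := ⟨i / 4, by omega⟩
      have h5 : (q : ZMod r) ^ (2 * c + 1) = -1 := by
        have h6 : ((q : ZMod r) ^ (2 * c + 1)) ^ 2 = 1 := by
          rw [← pow_mul, mul_comm, ← hc, hi, pow_orderOf_eq_one]
        have h8 : ((q : ZMod r) ^ (2 * c + 1) - 1) * ((q : ZMod r) ^ (2 * c + 1) + 1) = 0 := by linear_combination h6
        rcases mul_eq_zero.1 h8 with h7 | h7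
        · exfalso
          have := orderOf_dvd_of_pow_eq_one (sub_eq_zero.1 h7)
          rw [← hi, hc] at this
          have := Nat.le_of_dvd (by omega) this
          omega
        · exact eq_neg_of_add_eq_zero_left h7
      refine ⟨c + 1, ?_⟩
      push_cast
      rw [← pow_mul]
      have : 2 * (c + 1) = 2 * c + 1 + 1 := by ring
      rw [this, pow_succ, h5]; ring
  obtain ⟨c1, c2⟩ := Cfsg.Agent.H15.RC.card_selfdual hK hr hrp hbo hs (Cfsg.Agent.H15.RC.fs_fs hK) n
  split_ifs with h
  · rw [c1 (fun P => (hkey P).2 h)]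
    have hb2 : b = i / 2 := by
      rw [hb, if_neg]
      rw [Nat.not_odd_iff_even]; exact ⟨i / 2, by omega⟩
    have hi2' : i = 2 * b := by omega
    rw [hi2', Nat.mul_div_mul_left _ _ (by norm_num)]
  · rw [c2 (fun P hP => h ((hkey P).1 hP)), Nat.div_div_eq_div_mul, mul_comm b 2]

end Cfsg.Agent.S2671
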