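import Cfsg.Statements.S2680
import Mathlib
import Cfsg.Agent.H5_Inv4
import Cfsg.Agent.H5_Symp

set_option autoImplicit false
open Cfsg

namespace Cfsg.Agent.S2680

open Cfsg.Agent.H5 Cfsg.Agent.H5.Conc Cfsg.Agent.H5.I2 Matrix Module

/-- Centraliser order of an involution t of Sp_2m(q), q even, with s = rank(t − 1) odd (type b_s): |C(t)| = q^(2ms − (3s² − s)/2) · |Sp_(s−1)(q)| · |Sp_(2m−2s)(q)|, where |Sp_2k(q)| = q^(k²) Π_(i=1)^k (q^(2i) − 1). -/
theorem result {F : Type*} [Field F] [Fintype F] [CharP F 2] {q : ℕ} (hF : Fintype.card F = q) {m s : ℕ} (t : Matrix.symplecticGroup (Fin m) F) (ht : t ^ 2 = 1) (hs : ((t : Matrix (Fin m ⊕ Fin m) (Fin m ⊕ Fin m) F) - 1).rank = s) (hodd : Odd s) : Nat.card ↥(Subgroup.centralizer ({t} : Set ↥(Matrix.symplecticGroup (Fin m) F))) = q ^ (2 * m * s - (3 * s ^ 2 - s) / 2) * ((q : ℕ) ^ (((s - 1) / 2) ^ 2) * ∏ i : Fin ((s - 1) / 2), (q ^ (2 * ((i : ℕ) + 1)) - 1)) * ((q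 : ℕ) ^ ((m - s) ^ 2) * ∏ i : Fin (m - s), (q ^ (2 * ((i : ℕ) + 1)) - 1)) := by
  obtain ⟨hle, hc⟩ := sp_cent ht hs
  have hnd := sympFrm_nondeg m F
  have h2 : (2 : F) = 0 := CharTwo.two_eq_zero
  have hW : finrank F (LinearMap.range (nn (spEquiv m F t).1)) = s := by
    rw [finrank_range_nn (A := (t : Matrix (Fin m ⊕ Fin m) (Fin m ⊕ Fin m) F)) (fun v => spEquiv_apply m F t v), hs]
  have hsy : ∀ x y, bf (sympFrm m F) (spEquiv m F t).1 x y = bf (sympFrm m F) (spEquiv m F t).1 y x := by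
    intro x y
    rw [bf_symm (spEquiv m F t).2 (sp_sq' ht) y x, RingHom.id_apply]
    linear_combination (-bf (sympFrm m F) (spEquiv m F t).1 y x) * h2
  have hnb := bf_nondeg hnd (spEquiv m F t).2 (sp_sq' ht)
  have hna : ∃ x, bf (sympFrm m F) (spEquiv m F t).1 x x ≠ 0 := by
    by_contra hcon
    push Not at hcon
    have h3 := alt_even _ hcon hnb
    rw [hW] at h3
    exact (Nat.not_even_iff_odd.2 hodd) h3
  rw [hc, card_isoB _ hsy hnb hna hW, Nat.card_eq_fintype_card, hF]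
  obtain ⟨k, rfl⟩ := hodd
  rw [onCount_odd, show (2 * k + 1 - 1) / 2 = k by omega, Finset.prod_range, Finset.prod_range]
  ring

end Cfsg.Agent.S2680
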