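import Cfsg.Statements.S2681
import Mathlib
import Cfsg.Agent.H5_Inv4
import Cfsg.Agent.H5_Symp

set_option autoImplicit false
open Cfsg

namespace Cfsg.Agent.S2681

open Cfsg.Agent.H5 Cfsg.Agent.H5.Conc Cfsg.Agent.H5.I2 Matrix Module

/-- Centraliser order of an involution t of Sp_2m(q), q even, with s = rank(t − 1) even and f(v, tv) = 0 for every v, f the symplectic form (type a_s): |C(t)| = q^(2ms − (3s² − s)/2) · |Sp_s(q)| · |Sp_(2m−2s)(q)|. -/
theorem result {F : Type*} [Field F] [Fintype F] [CharP F 2] {q : ℕ} (hF : Fintype.card F = q) {m s : ℕ} (t : Matrix.symplecticGroup (Fin m) F) (ht : t ^ 2 = 1) (ht1 : t ≠ 1) (hs : ((t : Matrix (Fin m ⊕ Fin m) (Fin m ⊕ Fin m) F) - 1).rank = s) (heven : Even s) (halt : ∀ v : Fin m ⊕ Fin m → F, Cfsg.sympForm m F v ((t : Matrix (Fin m ⊕ Fin m) (Fin m ⊕ Fin m) F).mulVec v) = 0) : Nat.card ↥(Subgroup.centralizer ({t} : Set ↥(Matrix.symplecticGroup (Fin m) F))) =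 q ^ (2 * m * s - (3 * s ^ 2 - s) / 2) * ((q : ℕ) ^ ((s / 2) ^ 2) * ∏ i : Fin (s / 2), (q ^ (2 * ((i : ℕ) + 1)) - 1)) * ((q : ℕ) ^ ((m - s) ^ 2) * ∏ i : Fin (m - s), (q ^ (2 * ((i : ℕ) + 1)) - 1)) := by
  obtain ⟨hle, hc⟩ := sp_cent ht hs
  have hnd := sympFrm_nondeg m F
  have hW : finrank F (LinearMap.range (nn (spEquiv m F t).1)) = s := by
    rw [finrank_range_nn (A := (t : Matrix (Fin m ⊕ Fin m) (Fin m ⊕ Fin m) F)) (fun v => spEquiv_apply m F t v), hs]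
  have hnb := bf_nondeg hnd (spEquiv m F t).2 (sp_sq' ht)
  have hal : ∀ w, bf (sympFrm m F) (spEquiv m F t).1 w w = 0 := by
    rintro ⟨_, v, rfl⟩
    rw [bf_eq (spEquiv m F t).2 (sp_sq' ht) v _ _ rfl]
    change (sympFrm m F).B v (nn (spEquiv m F t).1 v) = _
    rw [nn_apply, sympFrm_B, Symp.sub_right, Symp.self, sub_zero, spEquiv_apply]
    exact halt v
  obtain ⟨k, hk⟩ := heven
  have hk' : s = 2 * k := by omega
  rw [hc, card_isoB_alt _ hal hnb (hW.trans hk'), hF]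
  rw [show s / 2 = k by omega, Finset.prod_range, Finset.prod_range]
  ring

end Cfsg.Agent.S2681
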