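import Cfsg.Statements.S2682
import Mathlib
import Cfsg.Agent.H5_Inv4
import Cfsg.Agent.H5_Symp

set_option autoImplicit false
open Cfsg

namespace Cfsg.Agent.S2682

open Cfsg.Agent.H5 Cfsg.Agent.H5.Conc Cfsg.Agent.H5.I2 Matrix Module

/-- Centraliser order of an involution t of Sp_2m(q), q even, with s = rank(t − 1) even and f(v, tv) ≠ 0 for some v, f the symplectic form (type c_s): |C(t)| = q^(2ms − (3s² − 3s)/2 − 1) · |Sp_(s−2)(q)| · |Sp_(2m−2s)(q)|. -/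
theorem result {F : Type*} [Field F] [Fintype F] [CharP F 2] {q : ℕ} (hF : Fintype.card F = q) {m s : ℕ} (t : Matrix.symplecticGroup (Fin m) F) (ht : t ^ 2 = 1) (hs : ((t : Matrix (Fin m ⊕ Fin m) (Fin m ⊕ Fin m) F) - 1).rank = s) (heven : Even s) (hna : ∃ v : Fin m ⊕ Fin m → F, Cfsg.sympForm m F v ((t : Matrix (Fin m ⊕ Fin m) (Fin m ⊕ Fin m) F).mulVec v) ≠ 0) : Nat.card ↥(Subgroup.centralizer ({t} : Set ↥(Matrix.symplecticGroup (Fin m) F))) = q ^ (2 * m * s - (3 * s ^ 2 - 3 * s) / 2 - 1) * ((q : ℕ) ^ (((s - 2) / 2) ^ 2) * ∏ i : Fin ((s - 2) / 2), (q ^ (2 * ((i : ℕ) + 1)) - 1)) * ((q : ℕ) ^ ((m - s) ^ 2) * ∏ i : Fin (m - s), (q ^ (2 * ((i : ℕ) + 1)) - 1)) := by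
  obtain ⟨hle, hc⟩ := sp_cent ht hs
  have hnd := sympFrm_nondeg m F
  have h2 : (2 : F) = 0 := CharTwo.two_eq_zero
  have hW : finrank F (LinearMap.range (nn (spEquiv m F t).1)) = s := by
    rw [finrank_range_nn (A := (t : Matrix (Fin m ⊕ Fin m) (Fin m ⊕ Fin m) F)) (fun v => spEquiv_apply m F t v), hs]
  have hsy : ∀ x y, bf (sympFrm m F) (spEquiv m F t).1 x y = bf (sympFrm m F) (spEquiv m F t).1 y x := by
    intro x y
    rw [bf_symm (spEquiv m F t).2 (sp_sq' ht) y x, RingHom.id_apply]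
    linear_combination (-bf (sympFrm m F) (spEquiv m F t).1 y x) * h2
  have hnb := bf_nondeg hnd (spEquiv m F t).2 (sp_sq' ht)
  have hna' : ∃ x, bf (sympFrm m F) (spEquiv m F t).1 x x ≠ 0 := by
    obtain ⟨v, hv⟩ := hna
    refine ⟨⟨nn (spEquiv m F t).1 v, v, rfl⟩, ?_⟩
    rw [bf_eq (spEquiv m F t).2 (sp_sq' ht) v _ _ rfl]
    change (sympFrm m F).B v (nn (spEquiv m F t).1 v) ≠ _
    rw [nn_apply, sympFrm_B, Symp.sub_right, Symp.self, sub_zero, spEquiv_apply]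
    exact hv
  have hs0 : s ≠ 0 := by
    rintro rfl
    obtain ⟨x, hx⟩ := hna'
    have : Subsingleton (LinearMap.range (nn (spEquiv m F t).1)) := Module.finrank_zero_iff.1 hW
    apply hx
    rw [Subsingleton.elim x 0, map_zero]
  rw [hc, card_isoB _ hsy hnb hna' hW, Nat.card_eq_fintype_card, hF]
  obtain ⟨k, hk⟩ := heven
  obtain ⟨j, rfl⟩ : ∃ j, s = 2 * j + 2 := ⟨k - 1, by omega⟩
  rw [onCount_even, show (2 * j + 2 - 2) / 2 = j by omega, Finset.prod_range, Finset.prod_range]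
  obtain ⟨d, rfl⟩ : ∃ d, m = (2 * j + 2) + d := ⟨m - (2 * j + 2), by omega⟩
  have e1 : (3 * (2 * j + 2) ^ 2 - (2 * j + 2)) / 2 = 6 * j ^ 2 + 11 * j + 5 := by
    have : 3 * (2 * j + 2) ^ 2 = 2 * (6 * j ^ 2 + 11 * j + 5) + (2 * j + 2) := by ring
    omega
  have e2 : (3 * (2 * j + 2) ^ 2 - 3 * (2 * j + 2)) / 2 = 6 * j ^ 2 + 9 * j + 3 := by
    have : 3 * (2 * j + 2) ^ 2 = 2 * (6 * j ^ 2 + 9 * j + 3) + 3 * (2 * j + 2) := by ring
    omega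
  have e3 : 2 * (2 * j + 2 + d) * (2 * j + 2) = 8 * j ^ 2 + 16 * j + 8 + 4 * d * j + 4 * d := by ring
  have e4 : 2 * (2 * j + 2 + d) * (2 * j + 2) - (3 * (2 * j + 2) ^ 2 - 3 * (2 * j + 2)) / 2 - 1 =
      (2 * j + 1) + (2 * (2 * j + 2 + d) * (2 * j + 2) - (3 * (2 * j + 2) ^ 2 - (2 * j + 2)) / 2) := by
    rw [e1, e2, e3]
    omega
  rw [e4, pow_add]
  ring

end Cfsg.Agent.S2682
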