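import Cfsg.Statements.S2683
import Mathlib
import Cfsg.Agent.H5_Inv4
import Cfsg.Agent.H5_Symp

set_option autoImplicit false
open Cfsg

namespace Cfsg.Agent.S2683

open Cfsg.Agent.H5 Cfsg.Agent.H5.Conc Cfsg.Agent.H5.I2 Cfsg.Agent.H16.Quad Matrix Module

/-- For the hyperbolic form Σ x_j y_j on F^(2m) over a finite field with q elements, q even (excluding m = 2 over the field of two elements), and an involution x of the orthogonal group with s = rank(x − 1) odd (type b_s; such x lie outside Ω): the elements of Ω (the commutator subgroup of the orthogonal group) commuting with x number q^(2m(s−1) − (3s² − 3s)/2) · |Sp_(s−1)(q)| · |Sp_(2m−2s)(q)|, where |Sp_2k(q)| = q^(k²) Π_(i=1)^k (q^(2i) − 1). -/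
theorem result {F : Type*} [Field F] [Fintype F] [CharP F 2] {q : ℕ} (hF : Fintype.card F = q) {m s : ℕ} (h : Fintype.card F ≠ 2 ∨ m ≠ 2) (x : ↥(Cfsg.isometryGroup F (Cfsg.quadFormPlus m F))) (hx : x ^ 2 = 1) (hs : (((x : Matrix.GeneralLinearGroup (Fin m ⊕ Fin m) F) : Matrix (Fin m ⊕ Fin m) (Fin m ⊕ Fin m) F) - 1).rank = s) (hodd : Odd s) : Nat.card {g : ↥(Cfsg.Omega F (Cfsg.quadFormPlus m F)) // (g : ↥(Cfsg.isometryGroup F (Cfsg.quadFormPlus m F))) * x = x * (g : ↥(Cfsg.isometryGroup F (Cfsg.quadFormPlus m F)))} = q ^ (2 * m * (s - 1) - (3 * s ^ 2 - 3 * s) / 2) * ((q : ℕ) ^ (((s - 1) / 2) ^ 2) * ∏ i : Fin ((s - 1) / 2), (q ^ (2 * ((i : ℕ) + 1)) - 1)) * ((q : ℕ) ^ ((m - s) ^ 2) * ∏ i : Fin (m - s), (q ^ (2 * ((i : ℕ) + 1)) - 1)) := by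
  have hmem : ∀ (Q' : (Fin m ⊕ Fin m → F) → F) (hQ' : ⇑(plusQ F m) = Q') (x : ↥(Cfsg.isometryGroup F Q')), x ^ 2 = 1 →
      (((x : GL (Fin m ⊕ Fin m) F) : Matrix (Fin m ⊕ Fin m) (Fin m ⊕ Fin m) F) - 1).rank = s →
      Nat.card {g : ↥(Cfsg.Omega F Q') // (g : ↥(Cfsg.isometryGroup F Q')) * x = x * (g : ↥(Cfsg.isometryGroup F Q'))} = q ^ (2 * m * (s - 1) - (3 * s ^ 2 - 3 * s) / 2) * ((q : ℕ) ^ (((s - 1) / 2) ^ 2) * ∏ i : Fin ((s - 1) / 2), (q ^ (2 * ((i : ℕ) + 1)) - 1)) * ((q : ℕ) ^ ((m - s) ^ 2) * ∏ i : Fin (m - s), (q ^ (2 * ((i : ℕ) + 1)) - 1)) := by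
    rintro _ rfl x hx hs
    rw [← rk_eq] at hs
    have hna : ¬ IsAl x := fun ha => by
      have := rk_even (nd_plusQ m) hx ha
      rw [hs] at this
      exact (Nat.not_even_iff_odd.2 hodd) this
    have hle := rk_le_m hx
    obtain ⟨k, hk⟩ := hodd
    obtain ⟨d, hd⟩ : ∃ d, m = 2 * k + 1 + d := ⟨m - (2 * k + 1), by omega⟩
    have hc : Nat.card F ≠ 2 ∨ finrank F (Fin m ⊕ Fin m → F) ≠ 4 := by
      rw [Nat.card_eq_fintype_card, finrank_plus]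
      rcases h with h | h
      · exact Or.inl h
      · right; omega
    obtain ⟨r, hr, hrx⟩ := exists_out hc hx (fun hM => hna (fun v => hM.1 _ ⟨v, rfl⟩))
    have h1 := om_half (nd_plusQ m) hc (by rw [finrank_plus]; omega) hr hrx
    rw [cent_t1 hx hna (hs.trans hk) hd, hF, onCount_odd] at h1
    have h2 : Nat.card {g : ↥(Cfsg.Omega F ⇑(plusQ F m)) // (g : ↥(Cfsg.isometryGroup F ⇑(plusQ F m))) * x = x * (g : ↥(Cfsg.isometryGroup F ⇑(plusQ F m)))} =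
        (q ^ k ^ 2 * ∏ i ∈ Finset.range k, (q ^ (2 * (i + 1)) - 1)) * (q ^ (d ^ 2 + 2 * (2 * k) * d + 2 * k * (2 * k + 1) / 2) * ∏ i ∈ Finset.range d, (q ^ (2 * (i + 1)) - 1)) := by
      apply Nat.eq_of_mul_eq_mul_right (show 0 < 2 by norm_num)
      rw [h1]; ring
    rw [h2, hk, show (2 * k + 1 - 1) / 2 = k by omega, show m - (2 * k + 1) = d by omega, ← Finset.prod_range (fun i => q ^ (2 * (i + 1)) - 1),
      ← Finset.prod_range (fun i => q ^ (2 * (i + 1)) - 1)]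
    have e1 : 2 * k * (2 * k + 1) / 2 = 2 * k ^ 2 + k := by
      rw [show 2 * k * (2 * k + 1) = 2 * (2 * k ^ 2 + k) by ring, Nat.mul_div_cancel_left _ (by norm_num)]
    have e2 : (3 * (2 * k + 1) ^ 2 - 3 * (2 * k + 1)) / 2 = 6 * k ^ 2 + 3 * k := by
      have : 3 * (2 * k + 1) ^ 2 = 2 * (6 * k ^ 2 + 3 * k) + 3 * (2 * k + 1) := by ring
      omega
    have e3 : 2 * m * (2 * k + 1 - 1) - (3 * (2 * k + 1) ^ 2 - 3 * (2 * k + 1)) / 2 = 2 * (2 * k) * d + (2 * k ^ 2 + k) := by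
      rw [e2, Nat.add_sub_cancel, hd]
      have : 2 * (2 * k + 1 + d) * (2 * k) = 8 * k ^ 2 + 4 * k + 4 * (k * d) := by ring
      rw [this, show 2 * (2 * k) * d = 4 * (k * d) by ring]
      omega
    rw [e3, e1, show d ^ 2 + 2 * (2 * k) * d + (2 * k ^ 2 + k) = (2 * (2 * k) * d + (2 * k ^ 2 + k)) + d ^ 2 by ring, pow_add _ (2 * (2 * k) * d + (2 * k ^ 2 + k)) (d ^ 2)]
    ring
  exact hmem _ (coe_plusQ F m) x hx hs

end Cfsg.Agent.S2683
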