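import Cfsg.Statements.S2684
import Mathlib
import Cfsg.Agent.H5_Inv4
import Cfsg.Agent.H5_Symp

set_option autoImplicit false
open Cfsg

namespace Cfsg.Agent.S2684

open Cfsg.Agent.H5 Cfsg.Agent.H5.Conc Cfsg.Agent.H5.I2 Cfsg.Agent.H16.Quad Matrix Module

/-- For the hyperbolic form Q = Σ x_j y_j on F^(2m) over a finite field with q elements, q even (excluding m = 2 over the field of two elements), and an involution x ≠ 1 of the orthogonal group with s = rank(x − 1) even and Q vanishing on the image of x − 1 (equivalently f(v, xv) = 0 for all v, where f(u, w) = Q(u + w) − Q(u) − Q(w) is the bilinear form of Q; type a_s, which lies in Ω): its centraliser in Ω (the commutator subgroup of the orthogonal group) has order q^(2ms − (3s² + s)/2) · |Sp_s(q)| · |Ω⁺_(2m−2s)(q)|, where |Ω⁺_2k(q)| = q^(k(k−1)) (q^k − 1) Π_(i=1)^(k−1) (q^(2i) − 1) for k ≥ 1 and the last factor is 1 when s = m. -/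
theorem result {F : Type*} [Field F] [Fintype F] [CharP F 2] {q : ℕ} (hF : Fintype.card F = q) {m s : ℕ} (h : Fintype.card F ≠ 2 ∨ m ≠ 2) (x : ↥(Cfsg.isometryGroup F (Cfsg.quadFormPlus m F))) (hx : x ^ 2 = 1) (hx1 : x ≠ 1) (hs : (((x : Matrix.GeneralLinearGroup (Fin m ⊕ Fin m) F) : Matrix (Fin m ⊕ Fin m) (Fin m ⊕ Fin m) F) - 1).rank = s) (heven : Even s) (halt : ∀ v : Fin m ⊕ Fin m → F, Cfsg.quadFormPlus m F ((((x : Matrix.GeneralLinearGroup (Fin m ⊕ Fin m) F) : Matrix (Fin m ⊕ Fin m) (Fin m ⊕ Fin m) F) - 1).mulVec v) = 0) : Nat.card {g : ↥(Cfsg.Omega F (Cfsg.quadFormPlus m F)) // (g : ↥(Cfsg.isometryGroup F (Cfsg.quadFormPlus m F))) * x = x * (g : ↥(Cfsg.isometryGroup F (Cfsg.quadFormPlus m F)))} = q ^ (2 * m * s - (3 * s ^ 2 + s) / 2) * ((q : ℕ) ^ ((s / 2) ^ 2) * ∏ i : Fin (s / 2), (q ^ (2 * ((i : ℕ) + 1)) - 1)) * (if s = m then 1 else q ^ ((m - s) * (m - s - 1)) * (q ^ (m - s) - 1) * ∏ i : Fin (m - s - 1), (q ^ (2 * ((i : ℕ) + 1))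 - 1)) := by
  have hmem : ∀ (Q' : (Fin m ⊕ Fin m → F) → F) (hQ' : ⇑(plusQ F m) = Q') (x : ↥(Cfsg.isometryGroup F Q')), x ^ 2 = 1 →
      (((x : GL (Fin m ⊕ Fin m) F) : Matrix (Fin m ⊕ Fin m) (Fin m ⊕ Fin m) F) - 1).rank = s →
      (∀ v : Fin m ⊕ Fin m → F, Q' ((((x : GL (Fin m ⊕ Fin m) F) : Matrix (Fin m ⊕ Fin m) (Fin m ⊕ Fin m) F) - 1).mulVec v) = 0) → x ≠ 1 →
      Nat.card {g : ↥(Cfsg.Omega F Q') // (g : ↥(Cfsg.isometryGroup F Q')) * x = x * (g : ↥(Cfsg.isometryGroup F Q'))} = q ^ (2 * m * s - (3 * s ^ 2 + s) / 2) * ((q : ℕ) ^ ((s / 2) ^ 2) * ∏ i : Fin (s / 2), (q ^ (2 * ((i : ℕ) + 1)) - 1)) * (if s = m then 1 else q ^ ((m - s) * (m - s - 1)) * (q ^ (m - s) - 1) * ∏ i : Fin (m - s - 1), (q ^ (2 * ((i : ℕ) + 1)) - 1)) := by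
    rintro _ rfl x hx hs hal0 hx1
    rw [← rk_eq] at hs
    have hal : IsAl x := fun v => by
      have := hal0 v
      rw [Matrix.sub_mulVec, Matrix.one_mulVec] at this
      exact this
    have hle := rk_le_m hx
    have hm0 : m ≠ 0 := by
      rintro rfl
      apply hx1
      apply Subtype.ext
      apply Units.ext
      ext i
      exact i.elim Fin.elim0 Fin.elim0
    obtain ⟨k, hk⟩ := heven
    have hk2 : s = 2 * k := by omega
    obtain ⟨d, hd⟩ : ∃ d, m = 2 * k + d := ⟨m - 2 * k, by omega⟩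
    have hc : Nat.card F ≠ 2 ∨ finrank F (Fin m ⊕ Fin m → F) ≠ 4 := by
      rw [Nat.card_eq_fintype_card, finrank_plus]
      rcases h with h | h
      · exact Or.inl h
      · right; omega
    have hcent := cent_al hx hal (hs.trans hk2) hd
    rw [hF] at hcent
    have e1 : 2 * d * (2 * k) + 0 * (2 * k) + 2 * k * (2 * k - 1) / 2 = 2 * m * s - (3 * s ^ 2 + s) / 2 := by
      have e2 : 2 * k * (2 * k - 1) / 2 = k * (2 * k - 1) := by
        rw [mul_assoc, Nat.mul_div_cancel_left _ (by norm_num)]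
      have e3 : (3 * s ^ 2 + s) / 2 = 6 * k ^ 2 + k := by
        rw [hk2, show 3 * (2 * k) ^ 2 + 2 * k = 2 * (6 * k ^ 2 + k) by ring, Nat.mul_div_cancel_left _ (by norm_num)]
      have e4 : k * (2 * k - 1) + k = 2 * k ^ 2 := by
        rcases k with _ | k
        · simp
        · rw [show 2 * (k + 1) - 1 = 2 * k + 1 by omega]; ring
      have e5 : 2 * m * s = 8 * k ^ 2 + 4 * (k * d) := by rw [hd, hk2]; ring
      rw [e2, e3, e5, show 2 * d * (2 * k) + 0 * (2 * k) = 4 * (k * d) by ring]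
      omega
    rw [e1] at hcent
    rw [← Finset.prod_range (fun i => q ^ (2 * (i + 1)) - 1), ← Finset.prod_range (fun i => q ^ (2 * (i + 1)) - 1),
      show s / 2 = k by omega, show m - s = d by omega]
    by_cases hsm : s = m
    · have hd0 : d = 0 := by omega
      have hfr : finrank F (imS (toOG (plusQ F m) x).1) = m := hs.trans hsm
      have hM : IsMax (plusQ F m) (imS (toOG (plusQ F m) x).1) := by
        refine ⟨?_, by rw [hfr, finrank_plus]⟩
        rintro _ ⟨v, rfl⟩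
        exact hal v
      rw [om_all hc hM (by rw [hfr, ← hsm, hk2]; exact even_two_mul k), hcent, if_pos hsm, hd0]
      simp only [Cfsg.Agent.H5.Frm.ordProd, Finset.range_zero, Finset.prod_empty, mul_one]
      ring
    · obtain ⟨c, hcd⟩ : ∃ c, d = c + 1 := ⟨d - 1, by omega⟩
      obtain ⟨r, hr, hrx⟩ := exists_out hc hx (fun hM => by
        have h3 := hM.2
        rw [finrank_plus] at h3
        have h4 : finrank F (imS (toOG (plusQ F m) x).1) = s := hs
        omega)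
      have h1 := om_half (nd_plusQ m) hc (by rw [finrank_plus]; omega) hr hrx
      rw [hcent, hcd, Cfsg.Agent.H5.QuadC.ordProd_quad_plus _ (by rw [← hF]; exact Fintype.card_pos)] at h1
      rw [if_neg hsm, hcd, Nat.add_sub_cancel]
      apply Nat.eq_of_mul_eq_mul_right (show 0 < 2 by norm_num)
      rw [h1]; ring
  exact hmem _ (coe_plusQ F m) x hx hs halt hx1

end Cfsg.Agent.S2684
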