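import Cfsg.Statements.S2685
import Mathlib
import Cfsg.Agent.H5_Inv4
import Cfsg.Agent.H5_Symp

set_option autoImplicit false
open Cfsg

namespace Cfsg.Agent.S2685

open Cfsg.Agent.H5 Cfsg.Agent.H5.Conc Cfsg.Agent.H5.I2 Cfsg.Agent.H16.Quad Matrix Module

/-- For the hyperbolic form Q = Σ x_j y_j on F^(2m) over a finite field with q elements, q even (excluding m = 2 over the field of two elements), and an involution x of the orthogonal group with s = rank(x − 1) even and Q not vanishing on the image of x − 1 (f(v, xv) ≠ 0 for some v, where f(u, w) = Q(u + w) − Q(u) − Q(w) is the bilinear form of Q; type c_s, which lies in Ω): its centraliser in Ω (the commutator subgroup of the orthogonal group) has order q^(2m(s−1) − (3s² − 5s)/2 − 1) · |Sp_(s−2)(q)| · |Sp_(2m−2s)(q)|. -/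
theorem result {F : Type*} [Field F] [Fintype F] [CharP F 2] {q : ℕ} (hF : Fintype.card F = q) {m s : ℕ} (h : Fintype.card F ≠ 2 ∨ m ≠ 2) (x : ↥(Cfsg.isometryGroup F (Cfsg.quadFormPlus m F))) (hx : x ^ 2 = 1) (hs : (((x : Matrix.GeneralLinearGroup (Fin m ⊕ Fin m) F) : Matrix (Fin m ⊕ Fin m) (Fin m ⊕ Fin m) F) - 1).rank = s) (heven : Even s) (hna : ∃ v : Fin m ⊕ Fin m → F, Cfsg.quadFormPlus m F ((((x : Matrix.GeneralLinearGroup (Fin m ⊕ Fin m) F) : Matrix (Fin m ⊕ Fin m) (Fin m ⊕ Fin m) F) - 1).mulVec v) ≠ 0) : Nat.card {g : ↥(Cfsg.Omega F (Cfsg.quadFormPlus m F)) // (g : ↥(Cfsg.isometryGroup F (Cfsg.quadFormPlus m F))) * x = x * (g : ↥(Cfsg.isometryGroup F (Cfsg.quadFormPlus m F)))} = q ^ (2 * m * (s - 1) - (3 * s ^ 2 - 5 * s) / 2 - 1) * ((q : ℕ) ^ (((s - 2) / 2) ^ 2) * ∏ i : Fin ((s - 2) / 2), (q ^ (2 * ((i : ℕ) + 1)) - 1)) * ((q : ℕ) ^ ((m - s) ^ 2) * ∏ i : Fin (m - s),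 (q ^ (2 * ((i : ℕ) + 1)) - 1)) := by
  have hmem : ∀ (Q' : (Fin m ⊕ Fin m → F) → F) (hQ' : ⇑(plusQ F m) = Q') (x : ↥(Cfsg.isometryGroup F Q')), x ^ 2 = 1 →
      (((x : GL (Fin m ⊕ Fin m) F) : Matrix (Fin m ⊕ Fin m) (Fin m ⊕ Fin m) F) - 1).rank = s →
      (∃ v : Fin m ⊕ Fin m → F, Q' ((((x : GL (Fin m ⊕ Fin m) F) : Matrix (Fin m ⊕ Fin m) (Fin m ⊕ Fin m) F) - 1).mulVec v) ≠ 0) →
      Nat.card {g : ↥(Cfsg.Omega F Q') // (g : ↥(Cfsg.isometryGroup F Q')) * x = x * (g : ↥(Cfsg.isometryGroup F Q'))} = q ^ (2 * m * (s - 1) - (3 * s ^ 2 - 5 * s) / 2 - 1) * ((q : ℕ) ^ (((s - 2) / 2) ^ 2) * ∏ i : Fin ((s - 2) / 2), (q ^ (2 * ((i : ℕ) + 1)) - 1)) * ((q : ℕ) ^ ((m - s) ^ 2) * ∏ i : Fin (m - s), (q ^ (2 * ((i : ℕ) + 1)) - 1)) := by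
    rintro _ rfl x hx hs hna0
    rw [← rk_eq] at hs
    have hna : ¬ IsAl x := fun ha => by
      obtain ⟨v, hv⟩ := hna0
      apply hv
      rw [Matrix.sub_mulVec, Matrix.one_mulVec]
      exact ha v
    have hle := rk_le_m hx
    have hs0 : s ≠ 0 := by
      rintro rfl
      apply hna
      intro v
      rw [rk, Submodule.finrank_eq_zero, LinearMap.range_eq_bot] at hs
      rw [hs, LinearMap.zero_apply, QuadraticMap.map_zero]
    obtain ⟨j, hj⟩ := heven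
    obtain ⟨k, hk⟩ : ∃ k, s = 2 * k + 2 := ⟨j - 1, by omega⟩
    obtain ⟨d, hd⟩ : ∃ d, m = 2 * k + 1 + 1 + d := ⟨m - (2 * k + 2), by omega⟩
    have hc : Nat.card F ≠ 2 ∨ finrank F (Fin m ⊕ Fin m → F) ≠ 4 := by
      rw [Nat.card_eq_fintype_card, finrank_plus]
      rcases h with h | h
      · exact Or.inl h
      · right; omega
    obtain ⟨r, hr, hrx⟩ := exists_out hc hx (fun hM => hna (fun v => hM.1 _ ⟨v, rfl⟩))
    have h1 := om_half (nd_plusQ m) hc (by rw [finrank_plus]; omega) hr hrx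
    rw [cent_t1 hx hna (hs.trans hk) hd, hF, show 2 * k + 1 + 1 = 2 * k + 2 by ring, onCount_even] at h1
    have h2 : Nat.card {g : ↥(Cfsg.Omega F ⇑(plusQ F m)) // (g : ↥(Cfsg.isometryGroup F ⇑(plusQ F m))) * x = x * (g : ↥(Cfsg.isometryGroup F ⇑(plusQ F m)))} =
        q ^ (2 * k + 1) * (q ^ k ^ 2 * ∏ i ∈ Finset.range k, (q ^ (2 * (i + 1)) - 1)) * (q ^ (d ^ 2 + 2 * (2 * k + 1) * d + (2 * k + 1) * (2 * k + 2) / 2) * ∏ i ∈ Finset.range d, (q ^ (2 * (i + 1)) - 1)) := by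
      apply Nat.eq_of_mul_eq_mul_right (show 0 < 2 by norm_num)
      rw [h1]; ring
    rw [h2, hk, show (2 * k + 2 - 2) / 2 = k by omega, show m - (2 * k + 2) = d by omega, ← Finset.prod_range (fun i => q ^ (2 * (i + 1)) - 1),
      ← Finset.prod_range (fun i => q ^ (2 * (i + 1)) - 1)]
    have e1 : (2 * k + 1) * (2 * k + 2) / 2 = 2 * k ^ 2 + 3 * k + 1 := by
      rw [show (2 * k + 1) * (2 * k + 2) = 2 * (2 * k ^ 2 + 3 * k + 1) by ring, Nat.mul_div_cancel_left _ (by norm_num)]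
    have e2 : (3 * (2 * k + 2) ^ 2 - 5 * (2 * k + 2)) / 2 = 6 * k ^ 2 + 7 * k + 1 := by
      have : 3 * (2 * k + 2) ^ 2 = 2 * (6 * k ^ 2 + 7 * k + 1) + 5 * (2 * k + 2) := by ring
      omega
    have e3 : 2 * m * (2 * k + 2 - 1) - (3 * (2 * k + 2) ^ 2 - 5 * (2 * k + 2)) / 2 - 1 = (2 * k + 1) + (2 * (2 * k + 1) * d + (2 * k ^ 2 + 3 * k + 1)) := by
      rw [e2, show 2 * k + 2 - 1 = 2 * k + 1 by omega, hd]
      have : 2 * (2 * k + 1 + 1 + d) * (2 * k + 1) = 8 * k ^ 2 + 12 * k + 4 + 4 * (k * d) + 2 * d := by ring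
      rw [this, show 2 * (2 * k + 1) * d = 4 * (k * d) + 2 * d by ring]
      omega
    rw [e3, e1, pow_add _ (2 * k + 1), show d ^ 2 + 2 * (2 * k + 1) * d + (2 * k ^ 2 + 3 * k + 1) = (2 * (2 * k + 1) * d + (2 * k ^ 2 + 3 * k + 1)) + d ^ 2 by ring, pow_add _ (2 * (2 * k + 1) * d + (2 * k ^ 2 + 3 * k + 1)) (d ^ 2)]
    ring
  exact hmem _ (coe_plusQ F m) x hx hs hna

end Cfsg.Agent.S2685
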