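import Cfsg.Agent.H16_AutP3
import Cfsg.Statements.S2689
-- import your own Cfsg.Agent.* helpers here

set_option autoImplicit false
open Cfsg

namespace Cfsg.Agent.S2689

open Cfsg.Agent.H16.AutG Cfsg.Agent.H16.AutL in

/-- The automorphism group of a simple projective special linear group PSL_n(F) over a finite field (n ≥ 2; |F| ≥ 4 when n = 2) is generated by the automorphisms induced by invertible semilinear maps of F^n (the image of the projective semilinear group) together with the inverse-transpose automorphism. -/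
theorem result {F : Type*} [Field F] [Fintype F] {p f : ℕ} [Fact p.Prime] (hF : Fintype.card F = p ^ f) (hf : 1 ≤ f) {n : ℕ} (hn : 2 ≤ n) (hs : n = 2 → 4 ≤ Fintype.card F) :
    Cfsg.gammaPSL n F ⊔ Cfsg.autSubgroupOf (fun β : Matrix.ProjectiveSpecialLinearGroup (Fin n) F ≃* Matrix.ProjectiveSpecialLinearGroup (Fin n) F => Cfsg.IsInverseTransposeAutPSL β) = ⊤ := by
  rw [eq_top_iff]
  intro β _
  have h1 : ∀ (g : GL (Fin n) F) (σ : F ≃+* F), dn (cjS g) * dn (fS σ) ∈ Cfsg.gammaPSL n F :=
    fun g σ => Subgroup.subset_closure ⟨g, σ, semilin_iff.mpr rfl⟩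
  obtain ⟨g, σ, hβ | ⟨h3, hβ⟩⟩ := aut_all hn β
  · rw [hβ]
    exact Subgroup.mem_sup_left (h1 g σ)
  · rw [hβ]
    exact mul_mem (Subgroup.mem_sup_left (h1 g σ))
      (Subgroup.mem_sup_right (Subgroup.subset_closure (invTr_iff.mpr rfl)))

end Cfsg.Agent.S2689
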