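import Cfsg.Agent.H16_AutF
import Cfsg.Statements.S2697
-- import your own Cfsg.Agent.* helpers here

set_option autoImplicit false
open Cfsg

namespace Cfsg.Agent.S2697

open Cfsg.Agent.H16.AutG Cfsg.Agent.H16.AutL in

/-- Let T = PSL_n(F) be simple over a finite field (n ≥ 2; |F| ≥ 4 when n = 2) and let x be a field automorphism or a graph-field automorphism of T of prime order r. Then an element y of the coset Inndiag(T)·x (that is, y = δ x with δ in the inner-diagonal group, the image of PGL_n(F)) has order r if and only if y is conjugate to x by an element of Inndiag(T). -/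
theorem result {F : Type*} [Field F] [Fintype F] {p f : ℕ} [Fact p.Prime] (hF : Fintype.card F = p ^ f) (hf : 1 ≤ f) {n : ℕ} (hn : 2 ≤ n) (hs : n = 2 → 4 ≤ Fintype.card F) (x δ : MulAut (Matrix.ProjectiveSpecialLinearGroup (Fin n) F)) (hx : Cfsg.IsFieldAutClassPSL x ∨ Cfsg.IsGraphFieldAutClassPSL x) {r : ℕ} (hr : r.Prime) (hxr : orderOf x = r) (hδ : δ ∈ Cfsg.inndiagPSL n F) :
    orderOf (δ * x) = r ↔ Cfsg.IsConjUnder (Cfsg.inndiagPSL n F) x (δ * x) := by
  have hnt : Nontrivial (Fin n) := Fin.nontrivial_iff_two_le.mpr hn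
  have hDn : (Dd F n).Normal := Dd_normal hn
  rw [inndiag_eq] at hδ ⊢
  constructor
  · intro hr'
    have hδr : (δ * x) ^ r = 1 := by rw [← hr', pow_orderOf_eq_one]
    suffices h : ∃ η ∈ Dd F n, δ * x = η * x * η⁻¹ by
      obtain ⟨η, hη, h⟩ := h
      exact ⟨η, hη, h⟩
    rcases hx with ⟨α, σ, hσ, hα⟩ | ⟨h3, α, φ, γ, σ, hσ, hφ, hγ, hα⟩
    · rw [stdField_iff] at hα
      have hord : orderOf (dn (fS σ) : MulAut (Matrix.ProjectiveSpecialLinearGroup (Fin n) F)) = r := by
        rw [← hα, orderOf_conj', hxr]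
      have hσr : orderOf σ = r := by
        have h1 : σ ^ r = 1 := by
          have h2 : (dn (fS σ) : MulAut (Matrix.ProjectiveSpecialLinearGroup (Fin n) F)) ^ r = 1 := by
            rw [← hord, pow_orderOf_eq_one]
          rw [← _root_.map_pow, ← _root_.map_pow] at h2
          refine (cf_eq_one (g := (1 : GL (Fin n) F)) (σ := σ ^ r) ?_).1
          rw [_root_.map_one, _root_.map_one, one_mul, h2]
        have : Fact r.Prime := ⟨hr⟩
        exact orderOf_eq_prime h1 hσ
      refine conj_transfer hDn hα hδ ?_ hδr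
      intro δ' hδ' h
      obtain ⟨g, rfl⟩ := mem_Dd.mp hδ'
      obtain ⟨h, hh⟩ := cf_conj hn hσr hr.pos h
      exact ⟨_, mem_Dd.mpr ⟨h, rfl⟩, hh⟩
    · rw [stdField_iff] at hφ
      rw [invTr_iff] at hγ
      subst hφ hγ
      have hord : orderOf (dn (fS σ) * dn iS : MulAut (Matrix.ProjectiveSpecialLinearGroup (Fin n) F)) = r := by
        rw [← hα, orderOf_conj', hxr]
      have hcomm : Commute (dn (fS σ) : MulAut (Matrix.ProjectiveSpecialLinearGroup (Fin n) F)) (dn iS) :=
        dn_fS_iS σ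
      have hpow : (dn (fS (σ ^ r)) * (dn iS) ^ r : MulAut (Matrix.ProjectiveSpecialLinearGroup (Fin n) F)) = 1 := by
        rw [_root_.map_pow, _root_.map_pow, ← hcomm.mul_pow, ← hord, pow_orderOf_eq_one]
      have hr2 : r = 2 := by
        by_contra hne
        have hodd : Odd r := hr.odd_of_ne_two hne
        obtain ⟨k, hk⟩ := hodd
        have h4 : (dn iS : MulAut (Matrix.ProjectiveSpecialLinearGroup (Fin n) F)) ^ r = dn iS := by
          rw [hk, pow_succ, pow_mul, sq, iS_sq, one_pow, one_mul]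
        rw [h4] at hpow
        refine cfi_notMem_Dd (F := F) (n := n) h3 (σ := σ ^ r) ?_
        rw [hpow]
        exact one_mem _
      subst hr2
      have hσr : orderOf σ = 2 := by
        rw [sq (dn iS), iS_sq, mul_one] at hpow
        have h1 : σ ^ 2 = 1 := by
          refine (cf_eq_one (g := (1 : GL (Fin n) F)) (σ := σ ^ 2) ?_).1
          rw [_root_.map_one, _root_.map_one, one_mul, hpow]
        exact orderOf_eq_prime h1 hσ
      refine conj_transfer hDn hα hδ ?_ hδr
      intro δ' hδ' h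
      obtain ⟨g, rfl⟩ := mem_Dd.mp hδ'
      rw [← mul_assoc] at h ⊢
      obtain ⟨h, hh⟩ := cfi_conj h3 hσr h
      exact ⟨_, mem_Dd.mpr ⟨h, rfl⟩, hh⟩
  · rintro ⟨η, hη, h⟩
    rw [h, orderOf_conj', hxr]

end Cfsg.Agent.S2697
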