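import Cfsg.Agent.H16_Gr5
import Cfsg.Statements.S2699
-- import your own Cfsg.Agent.* helpers here

set_option autoImplicit false
open Cfsg

namespace Cfsg.Agent.S2699

open Matrix Module Cfsg.Agent.H16.AutL Cfsg.Agent.H16.Gr Cfsg.Agent.H16.Quad

/-- Let T = PSL_n(F) over the field with p^f elements with n ≥ 3 odd, n = 2m + 1, and G = Inndiag(T) the image of PGL_n(F). Every involutory graph automorphism γ of T (an inner-diagonal automorphism followed by inverse-transpose, of order 2) has centralizer C_G(γ) isomorphic to the projective conformal orthogonal group of the form x₀² + Σ xᵢ yᵢ in dimension n (for q even this group is isomorphic to Sp_{n−1}(q)), and any two involutory graph automorphisms are G-conjugate. -/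
theorem result {F : Type*} [Field F] [Fintype F] {p f : ℕ} [Fact p.Prime] (hF : Fintype.card F = p ^ f) (hf : 1 ≤ f) {n : ℕ} (hn : 3 ≤ n) {m : ℕ} (hnm : n = 2 * m + 1) (γ γ' : MulAut (Matrix.ProjectiveSpecialLinearGroup (Fin n) F)) (hγ : Cfsg.IsGraphAutClassPSL γ) (hγ2 : orderOf γ = 2) (hγ' : Cfsg.IsGraphAutClassPSL γ') (hγ'2 : orderOf γ' = 2) :
    Nonempty (↥(Cfsg.inndiagPSL n F ⊓ Subgroup.centralizer {γ}) ≃* Cfsg.PGO F (Cfsg.quadFormOdd m F)) ∧ Cfsg.IsConjUnder (Cfsg.inndiagPSL n F) γ γ' := by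
  have hn2 : 2 ≤ n := by omega
  rw [inndiag_eq]
  obtain ⟨-, N, rfl⟩ := graph_iff.mp hγ
  obtain ⟨-, N', rfl⟩ := graph_iff.mp hγ'
  obtain ⟨E⟩ := cent_gm hn2 N
  by_cases h2 : (2 : F) = 0
  · have hc : CharP F 2 := CharTwo.of_one_ne_zero_of_two_eq_zero one_ne_zero h2
    have hsy : ∀ M : GL (Fin n) F, orderOf (gm M) = 2 → (M : Matrix (Fin n) (Fin n) F)ᵀ = M := by
      intro M hM
      rcases (order_iff hn).mp hM with h | h
      · exact h
      · rw [h]
        ext i j
        rw [Matrix.neg_apply, CharTwo.neg_eq]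
    obtain ⟨E'⟩ := cent_odd2 hnm (hsy N hγ2)
    exact ⟨⟨E.trans E'⟩, conj_odd2 hn2 hnm (hsy N hγ2) (hsy N' hγ'2)⟩
  · have hsy : ∀ M : GL (Fin n) F, orderOf (gm M) = 2 → (M : Matrix (Fin n) (Fin n) F)ᵀ = M := by
      intro M hM
      rcases (order_iff hn).mp hM with h | h
      · exact h
      · exfalso
        obtain ⟨k, hk⟩ := alt_even M (alt_of_skew h2 h)
        omega
    obtain ⟨E'⟩ := cent_odd h2 hnm (hsy N hγ2)
    exact ⟨⟨E.trans E'⟩, conj_odd hn2 h2 hnm (hsy N hγ2) (hsy N' hγ'2)⟩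

end Cfsg.Agent.S2699
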