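import Cfsg.Agent.H16_Gr3
import Cfsg.Statements.S2700
-- import your own Cfsg.Agent.* helpers here

set_option autoImplicit false
open Cfsg

namespace Cfsg.Agent.S2700

open Matrix Module Cfsg.Agent.H16.AutL Cfsg.Agent.H16.Gr Cfsg.Agent.H16.Quad

/-- Let T = PSL_n(F) over a finite field of odd order with n = 2m ≥ 4 even, and G = Inndiag(T) the image of PGL_n(F). The involutory graph automorphisms of T fall into exactly three G-classes, with representatives γ₁, γ₂, γ₃ whose centralizers in G are isomorphic respectively to the projective conformal symplectic group PGSp_n(F), the projective conformal orthogonal group of the plus-type form Σ xᵢ yᵢ, and that of a minus-type form Σ xᵢ yᵢ + z₁² + a z₁ z₂ + b z₂² (anisotropic binary part) in dimension n. -/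
theorem result {F : Type*} [Field F] [Fintype F] (hodd : Odd (Fintype.card F)) {n m : ℕ} (hm : 2 ≤ m) (hnm : n = 2 * m) :
    ∃ (γ₁ γ₂ γ₃ : MulAut (Matrix.ProjectiveSpecialLinearGroup (Fin n) F)) (a b : F), (∀ z₁ z₂ : F, z₁ ^ 2 + a * z₁ * z₂ + b * z₂ ^ 2 = 0 → z₁ = 0 ∧ z₂ = 0) ∧ Cfsg.IsGraphAutClassPSL γ₁ ∧ orderOf γ₁ = 2 ∧ Cfsg.IsGraphAutClassPSL γ₂ ∧ orderOf γ₂ = 2 ∧ Cfsg.IsGraphAutClassPSL γ₃ ∧ orderOf γ₃ = 2 ∧ ¬ Cfsg.IsConjUnder (Cfsg.inndiagPSL n F) γ₁ γ₂ ∧ ¬ Cfsg.IsConjUnder (Cfsg.inndiagPSL n F) γ₁ γ₃ ∧ ¬ Cfsg.IsConjUnder (Cfsg.inndiagPSL n F) γ₂ γ₃ ∧ (∀ γ : MulAut (Matrix.ProjectiveSpecialLinearGroup (Fin n) F), Cfsg.IsGraphAutClassPSL γ → orderOf γ = 2 → Cfsg.IsConjUnder (Cfsg.inndiagPSL n F) γ₁ γ ∨ Cfsg.IsConjUnder (Cfsg.inndiagPSL n F) γ₂ γ ∨ Cfsg.IsConjUnder (Cfsg.inndiagPSL n F) γ₃ γ) ∧ Nonempty (↥(Cfsg.inndiagPSL n F ⊓ Subgroup.centralizer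 {γ₁}) ≃* Cfsg.PGSp m F) ∧ Nonempty (↥(Cfsg.inndiagPSL n F ⊓ Subgroup.centralizer {γ₂}) ≃* Cfsg.PGO F (Cfsg.quadFormPlus m F)) ∧ Nonempty (↥(Cfsg.inndiagPSL n F ⊓ Subgroup.centralizer {γ₃}) ≃* Cfsg.PGO F (Cfsg.quadFormMinus (m - 1) F a b)) := by
  have h2 : (2 : F) ≠ 0 := H5.QuadC.two_ne_zero_of_odd hodd
  have hn3 : 3 ≤ n := by omega
  have hn2 : 2 ≤ n := by omega
  obtain ⟨k, rfl⟩ : ∃ k, m = k + 1 := ⟨m - 1, by omega⟩
  obtain ⟨ζ, hζ⟩ := exists_irred h2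
  have hab := aniso_of_irred hζ
  obtain ⟨N₁, hN₁, hN₁'⟩ := exists_alt (F := F) hnm
  obtain ⟨N₂, hN₂, L₂, hL₂⟩ := exists_sym (n := n) h2 (nd_plusQ (F := F) (k + 1))
    (by rw [Module.finrank_fintype_fun_eq_card, Fintype.card_sum, Fintype.card_fin, hnm]; ring)
  obtain ⟨N₃, hN₃, L₃, hL₃⟩ := exists_sym (n := n) h2 (nd_minusQ k hab)
    (by rw [Module.finrank_fintype_fun_eq_card, Fintype.card_sum, Fintype.card_sum, Fintype.card_fin, Fintype.card_fin, hnm]; ring)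
  have hP : IsPlus (nQ (N₂ : Matrix (Fin n) (Fin n) F)) (k + 1) := (plusQ_isPlus (F := F) (k + 1)).map hL₂
  have hM : IsMinus (nQ (N₃ : Matrix (Fin n) (Fin n) F)) k := by
    rcases plus_or_minus (nd_nQ h2 hN₃) (m := k) (by rw [Module.finrank_fintype_fun_eq_card, Fintype.card_fin, hnm]; ring) with h | h
    · exfalso
      refine not_plus_and_minus (nd_minusQ k hab) (h.map (φ := L₃.symm) fun v => ?_) (minusQ_isMinus k hab)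
      rw [← hL₃, LinearEquiv.apply_symm_apply]
    · exact h
  have hg : ∀ N : GL (Fin n) F, ((N : Matrix (Fin n) (Fin n) F)ᵀ = N ∨ (N : Matrix (Fin n) (Fin n) F)ᵀ = -N) →
      Cfsg.IsGraphAutClassPSL (gm N) ∧ orderOf (gm N) = 2 := fun N hN =>
    ⟨graph_iff.mpr ⟨hn3, N, rfl⟩, (order_iff hn3).mpr hN⟩
  rw [inndiag_eq]
  refine ⟨gm N₁, gm N₂, gm N₃, 1, ζ, hab, (hg N₁ (Or.inr hN₁')).1, (hg N₁ (Or.inr hN₁')).2,
    (hg N₂ (Or.inl hN₂)).1, (hg N₂ (Or.inl hN₂)).2, (hg N₃ (Or.inl hN₃)).1, (hg N₃ (Or.inl hN₃)).2,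
    not_conj_alt_sym hn2 h2 hN₁' hN₂, not_conj_alt_sym hn2 h2 hN₁' hN₃,
    not_conj_plus_minus hn2 h2 hN₂ hN₃ hP hM, ?_, ?_, ?_, ?_⟩
  · intro γ hγ hγ2
    obtain ⟨-, N, rfl⟩ := graph_iff.mp hγ
    rcases (order_iff hn3).mp hγ2 with hN | hN
    · rcases plus_or_minus (nd_nQ h2 hN) (m := k) (by rw [Module.finrank_fintype_fun_eq_card, Fintype.card_fin, hnm]; ring) with h | h
      · exact Or.inr (Or.inl (conj_plus hn2 h2 hN₂ hN hP h))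
      · exact Or.inr (Or.inr (conj_minus hn2 h2 hN₃ hN hM h))
    · exact Or.inl (conj_alt hn2 hnm hN₁ (alt_of_skew h2 hN))
  · obtain ⟨E⟩ := cent_gm hn2 N₁
    obtain ⟨E'⟩ := cent_alt hnm hN₁
    exact ⟨E.trans E'⟩
  · obtain ⟨E⟩ := cent_gm hn2 N₂
    obtain ⟨E'⟩ := cent_plus h2 hN₂ hP
    exact ⟨E.trans E'⟩
  · obtain ⟨E⟩ := cent_gm hn2 N₃
    obtain ⟨E'⟩ := cent_minus h2 hN₃ hM hab
    exact ⟨E.trans E'⟩

end Cfsg.Agent.S2700
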