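import Cfsg.Agent.H16_Gr5
import Cfsg.Statements.S2701
-- import your own Cfsg.Agent.* helpers here

set_option autoImplicit false
open Cfsg

namespace Cfsg.Agent.S2701

open Matrix Module Cfsg.Agent.H16.AutL Cfsg.Agent.H16.Gr Cfsg.Agent.H16.Quad

/-- Let T = PSL_n(F) over a finite field of characteristic 2 with n = 2m ≥ 4 even, and G = Inndiag(T) the image of PGL_n(F). The involutory graph automorphisms of T fall into exactly two G-classes, with representatives γ₁ and γ₃ whose centralizers in G are isomorphic respectively to the symplectic group Sp_n(F) and to the centralizer in Sp_n(F) of a symplectic transvection. -/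
theorem result {F : Type*} [Field F] [Fintype F] [CharP F 2] {n m : ℕ} (hm : 2 ≤ m) (hnm : n = 2 * m) :
    ∃ (γ₁ γ₃ : MulAut (Matrix.ProjectiveSpecialLinearGroup (Fin n) F)) (t : ↥(Matrix.symplecticGroup (Fin m) F)), Cfsg.IsTransvection (t : Matrix (Fin m ⊕ Fin m) (Fin m ⊕ Fin m) F) ∧ Cfsg.IsGraphAutClassPSL γ₁ ∧ orderOf γ₁ = 2 ∧ Cfsg.IsGraphAutClassPSL γ₃ ∧ orderOf γ₃ = 2 ∧ ¬ Cfsg.IsConjUnder (Cfsg.inndiagPSL n F) γ₁ γ₃ ∧ (∀ γ : MulAut (Matrix.ProjectiveSpecialLinearGroup (Fin n) F), Cfsg.IsGraphAutClassPSL γ → orderOf γ = 2 → Cfsg.IsConjUnder (Cfsg.inndiagPSL n F) γ₁ γ ∨ Cfsg.IsConjUnder (Cfsg.inndiagPSL n F) γ₃ γ) ∧ Nonempty (↥(Cfsg.inndiagPSL n F ⊓ Subgroup.centralizer {γ₁}) ≃* ↥(Matrix.symplecticGroup (Fin m) F)) ∧ Nonempty (↥(Cfsg.inndiagPSL n F ⊓ Subgroup.centralizer {γ₃}) ≃* ↥(Subgroup.centralizer ({t} : Set ↥(Matrix.symplecticGroup (Fin m) F)))) := by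
  have h2 : (2 : F) = 0 := CharTwo.two_eq_zero
  have hn3 : 3 ≤ n := by omega
  have hn2 : 2 ≤ n := by omega
  obtain ⟨N₁, hN₁, hN₁'⟩ := exists_alt (F := F) hnm
  have hsy : ∀ M : GL (Fin n) F, orderOf (gm M) = 2 → (M : Matrix (Fin n) (Fin n) F)ᵀ = M := by
    intro M hM
    rcases (order_iff hn3).mp hM with h | h
    · exact h
    · rw [h]
      ext i j
      rw [Matrix.neg_apply, CharTwo.neg_eq]
  have hcard : Fintype.card (Fin m ⊕ Fin m) = n := by rw [Fintype.card_sum, Fintype.card_fin, hnm]; ring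
  -- a non-zero vector
  set w : Fin m ⊕ Fin m → F := Pi.single (Sum.inl ⟨0, by omega⟩) 1 with hwdef
  have hw : w ≠ 0 := by
    intro h
    have := congrFun h (Sum.inl ⟨0, by omega⟩)
    simp [hwdef] at this
  obtain ⟨x₀, hx₀⟩ := exists_dual hw
  have hna2 : ∃ x, x ⬝ᵥ ((Matrix.J (Fin m) F + vecMulVec (Matrix.J (Fin m) F *ᵥ w) (Matrix.J (Fin m) F *ᵥ w)) *ᵥ x) ≠ 0 := by
    refine ⟨x₀, ?_⟩
    rw [f2_eq, f2, sympForm_self, hx₀]
    simp
  -- the second matrix : the identity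
  have hone : ((1 : GL (Fin n) F) : Matrix (Fin n) (Fin n) F)ᵀ = (1 : GL (Fin n) F) := by
    rw [Units.val_one, transpose_one]
  have hna1 : ∃ x, frm ((1 : GL (Fin n) F) : Matrix (Fin n) (Fin n) F) x x ≠ 0 := by
    refine ⟨Pi.single ⟨0, by omega⟩ 1, ?_⟩
    rw [frm_single, Units.val_one, Matrix.one_apply_eq]
    exact one_ne_zero
  have hiso : ∀ M : GL (Fin n) F, (M : Matrix (Fin n) (Fin n) F)ᵀ = M → (∃ x, frm (M : Matrix (Fin n) (Fin n) F) x x ≠ 0) →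
      ∃ φ : (Fin n → F) ≃ₗ[F] (Fin m ⊕ Fin m → F), ∀ x y, f2 m F w (φ x) (φ y) =
        frm (M : Matrix (Fin n) (Fin n) F) x y := by
    intro M hM hna
    obtain ⟨φ, hφ⟩ := nonalt_mat (f2_symm w) hM (f2_det w) det_ne hna2 hna hcard
    exact ⟨φ, fun x y => by rw [← f2_eq, hφ]⟩
  rw [inndiag_eq]
  refine ⟨gm N₁, gm 1, ⟨Cfsg.sympTransvection m w 1, H5.Symp.T_mem w 1⟩, transv_is hw,
    graph_iff.mpr ⟨hn3, N₁, rfl⟩, (order_iff hn3).mpr (Or.inr hN₁'),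
    graph_iff.mpr ⟨hn3, 1, rfl⟩, (order_iff hn3).mpr (Or.inl hone), ?_, ?_, ?_, ?_⟩
  · rw [conj_iff hn2]
    rintro ⟨g, c, h⟩
    rw [frm_eq_iff] at h
    obtain ⟨x, hx⟩ := hna1
    have h3 := h (((g⁻¹ : GL (Fin n) F) : Matrix (Fin n) (Fin n) F) *ᵥ x) (((g⁻¹ : GL (Fin n) F) : Matrix (Fin n) (Fin n) F) *ᵥ x)
    rw [hN₁, mul_zero, mulVec_mulVec, ← Units.val_mul, mul_inv_cancel, Units.val_one, one_mulVec] at h3
    exact hx h3
  · intro γ hγ hγ2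
    obtain ⟨-, N, rfl⟩ := graph_iff.mp hγ
    have hN := hsy N hγ2
    by_cases ha : ∀ x, frm (N : Matrix (Fin n) (Fin n) F) x x = 0
    · exact Or.inl (conj_alt hn2 hnm hN₁ ha)
    · push Not at ha
      right
      obtain ⟨φ, hφ⟩ := hiso 1 hone hna1
      obtain ⟨φ', hφ'⟩ := hiso N hN ha
      refine conj_of_sim hn2 (φ.trans φ'.symm) one_ne_zero fun x y => ?_
      rw [LinearEquiv.trans_apply, LinearEquiv.trans_apply, ← hφ', LinearEquiv.apply_symm_apply,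
        LinearEquiv.apply_symm_apply, hφ, one_mul]
  · obtain ⟨E⟩ := cent_gm hn2 N₁
    obtain ⟨E'⟩ := cent_alt hnm hN₁
    obtain ⟨E2⟩ := sim_split h2 (f := Cfsg.sympForm m F) (fun c u v => by
      rw [sympForm_smul_left, sympForm_smul_right]; ring) ⟨x₀, w, by rw [hx₀]; exact one_ne_zero⟩
    obtain ⟨E3⟩ := isoG_symp (F := F) m
    exact ⟨E.trans (E'.trans (E2.trans E3))⟩
  · obtain ⟨E⟩ := cent_gm hn2 (1 : GL (Fin n) F)
    obtain ⟨φ, hφ⟩ := hiso 1 hone hna1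
    obtain ⟨E1⟩ := sim_iso (f := frm ((1 : GL (Fin n) F) : Matrix (Fin n) (Fin n) F)) (f' := f2 m F w) φ one_ne_zero
      (fun x y => by rw [hφ, one_mul])
    obtain ⟨E2⟩ := sim_split h2 (f := f2 m F w) (fun c u v => by
      rw [f2, f2]
      simp only [sympForm_smul_left, sympForm_smul_right]; ring) ⟨x₀, x₀, by
        rw [f2, sympForm_self, hx₀]; simp⟩
    obtain ⟨E3⟩ := isoG_f2 hw
    exact ⟨E.trans (E1.trans (E2.trans E3))⟩

end Cfsg.Agent.S2701
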