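import Cfsg.Agent.H16_Gr8
import Cfsg.Statements.S2702
-- import your own Cfsg.Agent.* helpers here

set_option autoImplicit false
open Cfsg

namespace Cfsg.Agent.S2702

open Matrix Module Cfsg.Agent.H16.AutL Cfsg.Agent.H16.Gr Cfsg.Agent.H16.Quad

/-- Let T = PSL_n(F) over the field with q = p^f elements, n ≥ 3, G = Inndiag(T) the image of PGL_n(F), and γ an involutory graph automorphism of T. The G-class of γ is the union of exactly c T-classes, where: if n is even and q is odd, c = gcd(n/2, q − 1) when C_G(γ) is isomorphic to the projective conformal symplectic group PGSp_n(F) (symplectic type) and c = gcd(n, q − 1)/2 otherwise; and c = gcd(n, q − 1) when n is odd or q is even. -/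
theorem result {F : Type*} [Field F] [Fintype F] {p f : ℕ} [Fact p.Prime] (hF : Fintype.card F = p ^ f) (hf : 1 ≤ f) {n : ℕ} (hn : 3 ≤ n) (γ : MulAut (Matrix.ProjectiveSpecialLinearGroup (Fin n) F)) (hγ : Cfsg.IsGraphAutClassPSL γ) (hγ2 : orderOf γ = 2) :
    ((Even n ∧ Odd p ∧ Nonempty (↥(Cfsg.inndiagPSL n F ⊓ Subgroup.centralizer {γ}) ≃* Cfsg.PGSp (n / 2) F)) → Cfsg.splitClassCount (Cfsg.inndiagPSL n F) (Cfsg.Inn (Matrix.ProjectiveSpecialLinearGroup (Fin n) F)) γ = Nat.gcd (n / 2) (p ^ f - 1)) ∧ ((Even n ∧ Odd p ∧ ¬ Nonempty (↥(Cfsg.inndiagPSL n F ⊓ Subgroup.centralizer {γ}) ≃* Cfsg.PGSp (n / 2) F)) → Cfsg.splitClassCount (Cfsg.inndiagPSL n F) (Cfsg.Inn (Matrix.ProjectiveSpecialLinearGroup (Fin n) F)) γ = Nat.gcd n (p ^ f - 1) / 2) ∧ (¬ (Even n ∧ Odd p) → Cfsg.splitClassCount (Cfsg.inndiagPSL n F) (Cfsg.Inn (Matrix.ProjectiveSpecialLinearGroup (Fin n) F)) γ = Nat.gcd n (p ^ f - 1)) := by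
  have hn2 : 2 ≤ n := by omega
  rw [inndiag_eq]
  obtain ⟨-, N, rfl⟩ := graph_iff.mp hγ
  obtain ⟨E⟩ := cent_gm hn2 N
  have hFU : Nat.card Fˣ = p ^ f - 1 := card_units' hF
  have hpF : (2 : F) ≠ 0 ↔ Odd p := by
    have h1 : Odd (Fintype.card F) ↔ Odd p := by
      rw [hF]
      constructor
      · intro h
        rcases Nat.even_or_odd p with he | ho
        · exfalso
          have : Even (p ^ f) := he.pow_of_ne_zero (by omega)
          exact (Nat.not_even_iff_odd.mpr h) this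
        · exact ho
      · intro h; exact h.pow
    rw [← h1]
    constructor
    · intro h
      have := card_mod_two h
      exact Nat.odd_iff.mpr this
    · intro h
      exact H5.QuadC.two_ne_zero_of_odd h
  refine ⟨?_, ?_, ?_⟩
  · rintro ⟨he, ho, ⟨e⟩⟩
    have h2 := hpF.mpr ho
    obtain ⟨m, hm⟩ := he
    have hnm : n = 2 * m := by omega
    obtain ⟨k, rfl⟩ : ∃ k, m = k + 1 := ⟨m - 1, by omega⟩
    have hdiv : n / 2 = k + 1 := by omega
    rw [hdiv] at e ⊢
    rcases (order_iff hn).mp hγ2 with hN | hN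
    · exfalso
      rcases plus_or_minus (nd_nQ h2 hN) (m := k) (by rw [Module.finrank_fintype_fun_eq_card, Fintype.card_fin, hnm]; ring) with h | h
      · obtain ⟨E'⟩ := cent_plus h2 hN h
        exact no_plus h2 k ⟨E'.symm.trans (E.symm.trans e)⟩
      · obtain ⟨ζ, hζ⟩ := exists_irred h2
        have hab := aniso_of_irred hζ
        obtain ⟨E'⟩ := cent_minus h2 hN h hab
        exact no_minus h2 k hab ⟨E'.symm.trans (E.symm.trans e)⟩
    · rw [split_alt hn2 hnm (alt_of_skew h2 hN), hFU]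
  · rintro ⟨he, ho, hne⟩
    have h2 := hpF.mpr ho
    obtain ⟨m, hm⟩ := he
    have hnm : n = 2 * m := by omega
    obtain ⟨k, rfl⟩ : ∃ k, m = k + 1 := ⟨m - 1, by omega⟩
    have hdiv : n / 2 = k + 1 := by omega
    rw [hdiv] at hne
    rcases (order_iff hn).mp hγ2 with hN | hN
    · rw [split_sym hn2 h2 (k := k) (by omega) hN, hFU]
    · exfalso
      obtain ⟨E'⟩ := cent_alt hnm (alt_of_skew h2 hN)
      exact hne ⟨E.trans E'⟩
  · intro h
    rw [split_triv hn2 N (by rwa [hpF]), hFU]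

end Cfsg.Agent.S2702
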