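import Cfsg.Agent.H16_Gr3
import Cfsg.Statements.S2703
-- import your own Cfsg.Agent.* helpers here

set_option autoImplicit false
open Cfsg

namespace Cfsg.Agent.S2703

open Matrix Module Cfsg.Agent.H16.AutL Cfsg.Agent.H16.AutG Cfsg.Agent.H16.Gr Cfsg.Agent.H16.Quad

/-- Let T = PSL_n(F) over the field with q elements, q odd, n = 2m ≥ 4 even, and ι the inverse-transpose automorphism. Its centralizer in G = Inndiag(T) (the image of PGL_n(F)) is isomorphic to the projective conformal orthogonal group of the plus-type form Σ xᵢ yᵢ in dimension n when n(q − 1)/4 is even, and to that of a minus-type form (Σ xᵢ yᵢ + z₁² + a z₁ z₂ + b z₂² with anisotropic binary part) when n(q − 1)/4 is odd. -/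
theorem result {F : Type*} [Field F] [Fintype F] (hodd : Odd (Fintype.card F)) {n m : ℕ} (hm : 2 ≤ m) (hnm : n = 2 * m) (ι : MulAut (Matrix.ProjectiveSpecialLinearGroup (Fin n) F)) (hι : Cfsg.IsInverseTransposeAutPSL ι) :
    (Even (n * (Fintype.card F - 1) / 4) → Nonempty (↥(Cfsg.inndiagPSL n F ⊓ Subgroup.centralizer {ι}) ≃* Cfsg.PGO F (Cfsg.quadFormPlus m F))) ∧ (¬ Even (n * (Fintype.card F - 1) / 4) → ∃ a b : F, (∀ z₁ z₂ : F, z₁ ^ 2 + a * z₁ * z₂ + b * z₂ ^ 2 = 0 → z₁ = 0 ∧ z₂ = 0) ∧ Nonempty (↥(Cfsg.inndiagPSL n F ⊓ Subgroup.centralizer {ι}) ≃* Cfsg.PGO F (Cfsg.quadFormMinus (m - 1) F a b))) := by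
  have h2 : (2 : F) ≠ 0 := H5.QuadC.two_ne_zero_of_odd hodd
  have hn3 : 3 ≤ n := by omega
  have hn2 : 2 ≤ n := by omega
  obtain ⟨k, rfl⟩ : ∃ k, m = k + 1 := ⟨m - 1, by omega⟩
  obtain rfl := invTr_iff.mp hι
  have hN : ((1 : GL (Fin n) F) : Matrix (Fin n) (Fin n) F)ᵀ = ((1 : GL (Fin n) F) : Matrix (Fin n) (Fin n) F) := by
    rw [Units.val_one, transpose_one]
  have hg : (dn iS : MulAut (Matrix.ProjectiveSpecialLinearGroup (Fin n) F)) = gm 1 := by
    rw [gm, inv_one, _root_.map_one, _root_.map_one, one_mul]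
  have hdet : (H16.Quad.gram (nQ ((1 : GL (Fin n) F) : Matrix (Fin n) (Fin n) F)) (Pi.basisFun F (Fin n))).det =
      (2 ^ (k + 1)) * (2 ^ (k + 1)) := by
    rw [gram_nQ hN, Units.val_one, det_one, mul_one, hnm]
    ring
  have hsq : ∀ x : F, IsSquare (x * ((2 ^ (k + 1)) * (2 ^ (k + 1)))) ↔ IsSquare x := by
    intro x
    constructor
    · rintro ⟨r, hr⟩
      refine ⟨r / 2 ^ (k + 1), ?_⟩
      field_simp
      linear_combination hr
    · rintro ⟨r, rfl⟩
      exact ⟨r * 2 ^ (k + 1), by ring⟩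
  have hnd := nd_nQ h2 hN
  have hev := isSquare_neg_one_pow_iff (F := F) rfl hodd (k + 1)
  have hnum : n * (Fintype.card F - 1) / 4 = (k + 1) * (Fintype.card F - 1) / 2 := by
    obtain ⟨c, hc⟩ := hodd
    rw [hc, hnm, Nat.add_sub_cancel]
    rw [show 2 * (k + 1) * (2 * c) = 4 * ((k + 1) * c) by ring, show (k + 1) * (2 * c) = 2 * ((k + 1) * c) by ring]
    simp
  rw [inndiag_eq, hg, hnum, ← hev]
  obtain ⟨E⟩ := cent_gm hn2 (1 : GL (Fin n) F)
  have hpm := plus_or_minus hnd (m := k) (by rw [Module.finrank_fintype_fun_eq_card, Fintype.card_fin, hnm]; ring)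
  constructor
  · intro h
    have hP : IsPlus (nQ ((1 : GL (Fin n) F) : Matrix (Fin n) (Fin n) F)) (k + 1) := by
      rcases hpm with h' | h'
      · exact h'
      · exfalso
        have := h'.disc h2 hnd (Pi.basisFun F (Fin n))
        rw [hdet, hsq] at this
        exact this h
    obtain ⟨E'⟩ := cent_plus h2 hN hP
    exact ⟨E.trans E'⟩
  · intro h
    have hM : IsMinus (nQ ((1 : GL (Fin n) F) : Matrix (Fin n) (Fin n) F)) k := by
      rcases hpm with h' | h'
      · exfalso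
        have := h'.disc (Pi.basisFun F (Fin n))
        rw [hdet, hsq] at this
        exact h this
      · exact h'
    obtain ⟨ζ, hζ⟩ := exists_irred h2
    have hab := aniso_of_irred hζ
    obtain ⟨E'⟩ := cent_minus h2 hN hM hab
    exact ⟨1, ζ, hab, ⟨E.trans E'⟩⟩

end Cfsg.Agent.S2703
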