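import Cfsg.Agent.H16_AutF3
import Cfsg.Agent.H5_HermBasis
import Cfsg.Statements.S2704
-- import your own Cfsg.Agent.* helpers here

set_option autoImplicit false
open Cfsg

namespace Cfsg.Agent.S2704

open Cfsg.Agent.H16.AutG Cfsg.Agent.H16.AutL Cfsg.Agent.H16 in

/-- Let T = PSL_n(F) over the field F with p^f elements, n ≥ 3, and G = Inndiag(T) the image of PGL_n(F). If x is an involutory graph-field automorphism of T then f is even; x is G-conjugate to every other involutory graph-field automorphism; C_G(x) is isomorphic to the projective general unitary group PGU_n(q₀) with q₀² = p^f, realised over F itself through the Hermitian form Σ uᵢ vᵢ^{q₀}; and the G-class of x is the union of exactly gcd(n, q₀ − 1) T-classes. -/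
theorem result {F : Type*} [Field F] [Fintype F] {p f : ℕ} [Fact p.Prime] (hF : Fintype.card F = p ^ f) (hf : 1 ≤ f) {n : ℕ} (hn : 3 ≤ n) (x : MulAut (Matrix.ProjectiveSpecialLinearGroup (Fin n) F)) (hx : Cfsg.IsGraphFieldAutClassPSL x) (hx2 : orderOf x = 2) :
    Even f ∧ (∀ y : MulAut (Matrix.ProjectiveSpecialLinearGroup (Fin n) F), Cfsg.IsGraphFieldAutClassPSL y → orderOf y = 2 → Cfsg.IsConjUnder (Cfsg.inndiagPSL n F) x y) ∧ Nonempty (↥(Cfsg.inndiagPSL n F ⊓ Subgroup.centralizer {x}) ≃* Cfsg.PGU n F (p ^ (f / 2))) ∧ Cfsg.splitClassCount (Cfsg.inndiagPSL n F) (Cfsg.Inn (Matrix.ProjectiveSpecialLinearGroup (Fin n) F)) x = Nat.gcd n (p ^ (f / 2) - 1) := by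
  have hn2 : 2 ≤ n := by omega
  have hDn : (Dd F n).Normal := Dd_normal hn2
  have hpr : p.Prime := Fact.out
  rw [inndiag_eq]
  have hred : ∀ z : MulAut (Matrix.ProjectiveSpecialLinearGroup (Fin n) F),
      Cfsg.IsGraphFieldAutClassPSL z → orderOf z = 2 → ∃ (α : MulAut (Matrix.ProjectiveSpecialLinearGroup (Fin n) F))
        (σ : F ≃+* F), orderOf σ = 2 ∧ α * z * α⁻¹ = dn (fS σ) * dn iS := by
    rintro z ⟨h3, α, φ, γ, σ, hσ, hφ, hγ, hα⟩ hz
    rw [stdField_iff] at hφ
    rw [invTr_iff] at hγ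
    subst hφ hγ
    refine ⟨α, σ, ?_, hα⟩
    exact orderOf_gf hn hσ (by rw [← hα, orderOf_conj', hz])
  obtain ⟨α, σ, hσr, hα⟩ := hred x hx hx2
  obtain ⟨q₀, hq, hcard, hfix, hfix'⟩ := card_fix σ
  rw [hσr] at hcard
  obtain ⟨hrf, hq₀⟩ := prime_pow_root hpr (show p ^ f = q₀ ^ 2 by
    rw [← hF, ← Nat.card_eq_fintype_card, hcard]) (by norm_num)
  have hσ2 : ∀ a, σ (σ a) = a := by
    intro a
    have h1 : σ ^ 2 = 1 := by rw [← hσr, pow_orderOf_eq_one]
    rw [sq] at h1
    exact congrArg (fun f : F ≃+* F => f a) h1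
  have hσq : ∀ a, σ a = a ^ q₀ := by
    obtain ⟨q, hq1, hq2⟩ := Cfsg.Agent.H5.Herm.sigma_eq (σ : F →+* F) (by
      intro h
      have : σ = 1 := by
        ext a
        exact congrArg (fun f : F →+* F => f a) h
      rw [this, orderOf_one] at hσr
      omega) hσ2
    have : q = q₀ := by
      rw [← Nat.card_eq_fintype_card, hcard] at hq1
      exact (Nat.pow_left_injective (by norm_num : (2 : ℕ) ≠ 0) hq1).symm
    subst this
    exact hq2
  obtain ⟨η, hη, hx3⟩ := gf_conj hn hα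
  refine ⟨even_iff_two_dvd.mpr hrf, ?_, ?_, ?_⟩
  · intro y hy hy2
    obtain ⟨β, τ, hτ, hβ⟩ := hred y hy hy2
    have hc : IsCyclic (F ≃+* F) := FAut.isCyclic
    have hfin : Finite (F ≃+* F) := finite_ringAut
    have : τ = σ := unique_order_two hτ hσr
    subst this
    obtain ⟨ζ, hζ, hy3⟩ := gf_conj hn hβ
    refine ⟨ζ * η⁻¹, mul_mem hζ (inv_mem hη), ?_⟩
    rw [hx3, hy3]
    group
  · apply Split.nonempty_centralizer_conj (Dd F n) hDn α x
    rw [hα, ← hq₀]
    exact cent_gf hn hσr hσq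
  · rw [← Split.splitClassCount_conj (Dd F n) (Cfsg.Inn (Matrix.ProjectiveSpecialLinearGroup (Fin n) F)) inferInstance hDn Inn_le_Dd α x, hα,
      split_gf hn hσr hq hcard hfix, ← hq₀]

end Cfsg.Agent.S2704
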