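import Cfsg.Agent.H16_PSU7
import Cfsg.Statements.S2705
-- import your own Cfsg.Agent.* helpers here

set_option autoImplicit false
open Cfsg

namespace Cfsg.Agent.S2705

open Cfsg.Agent.H16 Cfsg.Agent.H16.PSU Cfsg.Agent.H16.Gam Cfsg.Agent.H16.AutG Cfsg.Agent.H16.AutL in

/-- Let T = PSU_n(q) be simple (n ≥ 3, (n, q) ≠ (3, 2), q = p^f), realised over the field F with q² elements, G = Inndiag(T) the image of PGU_n(q) in Aut(T), and x a field automorphism of T (conjugate to a standard field automorphism of odd order) of odd prime order r. Then r divides f; C_G(x) is isomorphic to PGU_n(q₀) with q₀ = p^(f/r), realised over a field F₀ with q₀² elements; and the G-class of x is the union of exactly gcd(n, (q + 1)/(q₀ + 1)) T-classes. -/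
theorem result {F : Type*} [Field F] [Fintype F] {p f q : ℕ} [Fact p.Prime] (hq : q = p ^ f) (hf : 1 ≤ f) (hF : Fintype.card F = q ^ 2) {n : ℕ} (hn : 3 ≤ n) (hs : ¬ (n = 3 ∧ q = 2)) (x : MulAut (Cfsg.PSU n F q)) (hx : Cfsg.IsFieldAutClassPSU x) {r : ℕ} (hr : r.Prime) (hro : Odd r) (hxr : orderOf x = r) (F₀ : Type*) [Field F₀] [Fintype F₀] (hF₀ : Fintype.card F₀ = p ^ (2 * (f / r))) :
    r ∣ f ∧ Nonempty (↥(Cfsg.inndiagPSU n F q ⊓ Subgroup.centralizer {x}) ≃* Cfsg.PGU n F₀ (p ^ (f / r))) ∧ Cfsg.splitClassCount (Cfsg.inndiagPSU n F q) (Cfsg.Inn (Cfsg.PSU n F q)) x = Nat.gcd n ((q + 1) / (p ^ (f / r) + 1)) := by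
  have hDn : (fam hF hn).D.Normal := D_normal hF hn hs
  rw [inndiag_eq hF hn]
  obtain ⟨α, φ, σ, hσ, ho, hφ, hα⟩ := hx
  rw [field_iff hF hn] at hφ
  rw [hφ] at hα
  have hσr : orderOf σ = r := by
    rw [← Fam.orderOf_fin (fam_hasField hF hn) σ, ← hα, orderOf_conj', hxr]
  obtain ⟨q₀, hq0, hcard, hfix, hpw⟩ := odd_root hF ho
  have hpr : p.Prime := Fact.out
  obtain ⟨hrf, hq₀⟩ := prime_pow_root hpr (show p ^ f = q₀ ^ r by rw [← hq, hcard, hσr]) hr.pos
  refine ⟨hrf, ?_, ?_⟩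
  · apply Split.nonempty_centralizer_conj (fam hF hn).D hDn α x
    rw [hα, ← hq₀]
    exact cent_fieldU hF hn hq0 hcard hfix hpw F₀ (by rw [hF₀, hq₀, ← pow_mul, mul_comm 2])
  · have h1 := Split.splitClassCount_conj (fam hF hn).D (Cfsg.Inn (Cfsg.PSU n F q)) inferInstance hDn (fam hF hn).inn_le_D α x
    rw [hα, split_fieldU hF hn hq0 ho hcard hfix hpw] at h1
    rw [← hq₀]
    exact h1.symm

end Cfsg.Agent.S2705
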