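import Cfsg.Agent.H16_GrU3
import Cfsg.Statements.S2706
-- import your own Cfsg.Agent.* helpers here

set_option autoImplicit false
open Cfsg

namespace Cfsg.Agent.S2706

open Matrix Module Cfsg.Agent.H16.AutL Cfsg.Agent.H16.PSU Cfsg.Agent.H16.GrU Cfsg.Agent.H16.Gr Cfsg.Agent.H16.Quad

/-- Let T = PSU_n(q) be simple with n = 2m + 1 ≥ 3 odd, realised over the field F with q² elements, and G = Inndiag(T) the image of PGU_n(q). Every involutory graph automorphism γ of T (an inner-diagonal automorphism times a standard field automorphism of even order, of order 2) has centralizer C_G(γ) isomorphic to the projective conformal orthogonal group of the form x₀² + Σ xᵢ yᵢ in dimension n over a field F₀ with q elements, and any two involutory graph automorphisms of T are G-conjugate. -/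
theorem result {F : Type*} [Field F] [Fintype F] {p f q : ℕ} [Fact p.Prime] (hq : q = p ^ f) (hf : 1 ≤ f) (hF : Fintype.card F = q ^ 2) {n : ℕ} (hn : 3 ≤ n) (hs : ¬ (n = 3 ∧ q = 2)) {m : ℕ} (hnm : n = 2 * m + 1) (F₀ : Type*) [Field F₀] [Fintype F₀] (hF₀ : Fintype.card F₀ = q) (γ γ' : MulAut (Cfsg.PSU n F q)) (hγ : Cfsg.IsGraphAutClassPSU γ) (hγ2 : orderOf γ = 2) (hγ' : Cfsg.IsGraphAutClassPSU γ') (hγ'2 : orderOf γ' = 2) :
    Nonempty (↥(Cfsg.inndiagPSU n F q ⊓ Subgroup.centralizer {γ}) ≃* Cfsg.PGO F₀ (Cfsg.quadFormOdd m F₀)) ∧ Cfsg.IsConjUnder (Cfsg.inndiagPSU n F q) γ γ' := by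
  have hn2 : 2 ≤ n := by omega
  obtain ⟨e, he⟩ := exists_e hF F₀ hF₀
  rw [H16.PSU.inndiag_eq hF hn]
  obtain ⟨h, S, ε, hd, rfl⟩ := exists_gh hF hn he hγ hγ2
  obtain ⟨h', S', ε', hd', rfl⟩ := exists_gh hF hn he hγ' hγ'2
  obtain ⟨E⟩ := cent_gh_iso hF hn he hd
  have hsym := hd.sym hF (by omega) he
  have hsym' := hd'.sym hF (by omega) he
  by_cases h2 : (2 : F₀) = 0
  · have hc : CharP F₀ 2 := CharTwo.of_one_ne_zero_of_two_eq_zero one_ne_zero h2
    have hsy : ∀ M : GL (Fin n) F₀, ((M : Matrix (Fin n) (Fin n) F₀)ᵀ = M ∨ (M : Matrix (Fin n) (Fin n) F₀)ᵀ = -M) →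
        (M : Matrix (Fin n) (Fin n) F₀)ᵀ = M := by
      intro M hM
      rcases hM with h | h
      · exact h
      · rw [h]
        ext i j
        rw [Matrix.neg_apply, CharTwo.neg_eq]
    obtain ⟨E'⟩ := cent_odd2 hnm (hsy S hsym)
    exact ⟨⟨E.trans E'⟩, conj_sim hF hn he hd hd' (conj_odd2 hn2 hnm (hsy S hsym) (hsy S' hsym'))⟩
  · have hsy : ∀ M : GL (Fin n) F₀, ((M : Matrix (Fin n) (Fin n) F₀)ᵀ = M ∨ (M : Matrix (Fin n) (Fin n) F₀)ᵀ = -M) →
        (M : Matrix (Fin n) (Fin n) F₀)ᵀ = M := by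
      intro M hM
      rcases hM with h | h
      · exact h
      · exfalso
        obtain ⟨k, hk⟩ := alt_even M (alt_of_skew h2 h)
        omega
    obtain ⟨E'⟩ := cent_odd h2 hnm (hsy S hsym)
    exact ⟨⟨E.trans E'⟩, conj_sim hF hn he hd hd' (conj_odd hn2 h2 hnm (hsy S hsym) (hsy S' hsym'))⟩

end Cfsg.Agent.S2706
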