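import Cfsg.Agent.H16_GrU4
import Cfsg.Statements.S2707
-- import your own Cfsg.Agent.* helpers here

set_option autoImplicit false
open Cfsg

namespace Cfsg.Agent.S2707

open Matrix Module Cfsg.Agent.H16.AutL Cfsg.Agent.H16.PSU Cfsg.Agent.H16.GrU Cfsg.Agent.H16.Gr Cfsg.Agent.H16.Quad

/-- Let T = PSU_n(q) with n = 2m ≥ 4 even and q odd, realised over the field F with q² elements, and G = Inndiag(T) the image of PGU_n(q). The involutory graph automorphisms of T fall into exactly three G-classes, with representatives whose centralizers in G are isomorphic respectively to the projective conformal symplectic group PGSp_n(F₀), the projective conformal orthogonal group of the plus-type form Σ xᵢ yᵢ, and that of a minus-type form Σ xᵢ yᵢ + z₁² + a z₁ z₂ + b z₂² (anisotropic binary part) in dimension n, all over a field F₀ with q elements. -/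
theorem result {F : Type*} [Field F] [Fintype F] {q : ℕ} (hodd : Odd q) (hF : Fintype.card F = q ^ 2) {n m : ℕ} (hm : 2 ≤ m) (hnm : n = 2 * m) (F₀ : Type*) [Field F₀] [Fintype F₀] (hF₀ : Fintype.card F₀ = q) :
    ∃ (γ₁ γ₂ γ₃ : MulAut (Cfsg.PSU n F q)) (a b : F₀), (∀ z₁ z₂ : F₀, z₁ ^ 2 + a * z₁ * z₂ + b * z₂ ^ 2 = 0 → z₁ = 0 ∧ z₂ = 0) ∧ Cfsg.IsGraphAutClassPSU γ₁ ∧ orderOf γ₁ = 2 ∧ Cfsg.IsGraphAutClassPSU γ₂ ∧ orderOf γ₂ = 2 ∧ Cfsg.IsGraphAutClassPSU γ₃ ∧ orderOf γ₃ = 2 ∧ ¬ Cfsg.IsConjUnder (Cfsg.inndiagPSU n F q) γ₁ γ₂ ∧ ¬ Cfsg.IsConjUnder (Cfsg.inndiagPSU n F q) γ₁ γ₃ ∧ ¬ Cfsg.IsConjUnder (Cfsg.inndiagPSU n F q) γ₂ γ₃ ∧ (∀ γ : MulAut (Cfsg.PSU n F q), Cfsg.IsGraphAutClassPSU γ → orderOf γ = 2 → Cfsg.IsConjUnder (Cfsg.inndiagPSU n F q) γ₁ γ ∨ Cfsg.IsConjUnder (Cfsg.inndiagPSU n F q) γ₂ γ ∨ Cfsg.IsConjUnder (Cfsg.inndiagPSU n F q) γ₃ γ) ∧ Nonempty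 (↥(Cfsg.inndiagPSU n F q ⊓ Subgroup.centralizer {γ₁}) ≃* Cfsg.PGSp m F₀) ∧ Nonempty (↥(Cfsg.inndiagPSU n F q ⊓ Subgroup.centralizer {γ₂}) ≃* Cfsg.PGO F₀ (Cfsg.quadFormPlus m F₀)) ∧ Nonempty (↥(Cfsg.inndiagPSU n F q ⊓ Subgroup.centralizer {γ₃}) ≃* Cfsg.PGO F₀ (Cfsg.quadFormMinus (m - 1) F₀ a b)) := by
  have hn : 3 ≤ n := by omega
  have hn2 : 2 ≤ n := by omega
  obtain ⟨k, rfl⟩ : ∃ k, m = k + 1 := ⟨m - 1, by omega⟩
  obtain ⟨e, he⟩ := exists_e hF F₀ hF₀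
  have h2 : (2 : F₀) ≠ 0 := H5.QuadC.two_ne_zero_of_odd (by rw [hF₀]; exact hodd)
  obtain ⟨ζ, hζ⟩ := exists_irred h2
  have hab := aniso_of_irred hζ
  obtain ⟨N₁, hN₁, hN₁'⟩ := exists_alt (F := F₀) hnm
  obtain ⟨N₂, hN₂, L₂, hL₂⟩ := exists_sym (n := n) h2 (nd_plusQ (F := F₀) (k + 1))
    (by rw [Module.finrank_fintype_fun_eq_card, Fintype.card_sum, Fintype.card_fin, hnm]; ring)
  obtain ⟨N₃, hN₃, L₃, hL₃⟩ := exists_sym (n := n) h2 (nd_minusQ k hab)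
    (by rw [Module.finrank_fintype_fun_eq_card, Fintype.card_sum, Fintype.card_sum, Fintype.card_fin, Fintype.card_fin, hnm]; ring)
  have hP : IsPlus (nQ (N₂ : Matrix (Fin n) (Fin n) F₀)) (k + 1) := (plusQ_isPlus (F := F₀) (k + 1)).map hL₂
  have hM : IsMinus (nQ (N₃ : Matrix (Fin n) (Fin n) F₀)) k := by
    rcases plus_or_minus (nd_nQ h2 hN₃) (m := k) (by rw [Module.finrank_fintype_fun_eq_card, Fintype.card_fin, hnm]; ring) with h | h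
    · exfalso
      refine not_plus_and_minus (nd_minusQ k hab) (h.map (φ := L₃.symm) fun v => ?_) (minusQ_isMinus k hab)
      rw [← hL₃, LinearEquiv.apply_symm_apply]
    · exact h
  obtain ⟨h₁, ε₁, hd₁⟩ := exists_dat hF he (S := N₁) (Or.inr hN₁')
  obtain ⟨h₂, ε₂, hd₂⟩ := exists_dat hF he (S := N₂) (Or.inl hN₂)
  obtain ⟨h₃, ε₃, hd₃⟩ := exists_dat hF he (S := N₃) (Or.inl hN₃)
  rw [H16.PSU.inndiag_eq hF hn]
  have c₁ : Nonempty (↥((fam hF hn).D ⊓ Subgroup.centralizer {gh hF hn he hd₁}) ≃* Cfsg.PGSp (k + 1) F₀) := by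
    obtain ⟨E⟩ := cent_gh_iso hF hn he hd₁
    obtain ⟨E'⟩ := cent_alt hnm hN₁
    exact ⟨E.trans E'⟩
  have c₂ : Nonempty (↥((fam hF hn).D ⊓ Subgroup.centralizer {gh hF hn he hd₂}) ≃* Cfsg.PGO F₀ (Cfsg.quadFormPlus (k + 1) F₀)) := by
    obtain ⟨E⟩ := cent_gh_iso hF hn he hd₂
    obtain ⟨E'⟩ := cent_plus h2 hN₂ hP
    exact ⟨E.trans E'⟩
  have c₃ : Nonempty (↥((fam hF hn).D ⊓ Subgroup.centralizer {gh hF hn he hd₃}) ≃* Cfsg.PGO F₀ (Cfsg.quadFormMinus k F₀ 1 ζ)) := by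
    obtain ⟨E⟩ := cent_gh_iso hF hn he hd₃
    obtain ⟨E'⟩ := cent_minus h2 hN₃ hM hab
    exact ⟨E.trans E'⟩
  refine ⟨gh hF hn he hd₁, gh hF hn he hd₂, gh hF hn he hd₃, 1, ζ, hab, gh_graph hF hn he hd₁, gh_order hF hn he hd₁,
    gh_graph hF hn he hd₂, gh_order hF hn he hd₂, gh_graph hF hn he hd₃, gh_order hF hn he hd₃, ?_, ?_, ?_, ?_, c₁, c₂, c₃⟩
  · intro h
    obtain ⟨E⟩ := conj_cent h
    obtain ⟨E₁⟩ := c₁
    obtain ⟨E₂⟩ := c₂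
    exact no_plus h2 k ⟨E₂.symm.trans (E.symm.trans E₁)⟩
  · intro h
    obtain ⟨E⟩ := conj_cent h
    obtain ⟨E₁⟩ := c₁
    obtain ⟨E₃⟩ := c₃
    exact no_minus h2 k hab ⟨E₃.symm.trans (E.symm.trans E₁)⟩
  · intro h
    obtain ⟨E⟩ := conj_cent h
    obtain ⟨E₂⟩ := c₂
    obtain ⟨E₃⟩ := c₃
    exact no_plus_minus h2 k hab ⟨E₂.symm.trans (E.trans E₃)⟩
  · intro γ hγ hγ2
    obtain ⟨h, S, ε, hd, rfl⟩ := exists_gh hF hn he hγ hγ2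
    rcases hd.sym hF (by omega) he with hN | hN
    · rcases plus_or_minus (nd_nQ h2 hN) (m := k) (by rw [Module.finrank_fintype_fun_eq_card, Fintype.card_fin, hnm]; ring) with h' | h'
      · exact Or.inr (Or.inl (conj_sim hF hn he hd₂ hd (conj_plus hn2 h2 hN₂ hN hP h')))
      · exact Or.inr (Or.inr (conj_sim hF hn he hd₃ hd (conj_minus hn2 h2 hN₃ hN hM h')))
    · exact Or.inl (conj_sim hF hn he hd₁ hd (conj_alt hn2 hnm hN₁ (alt_of_skew h2 hN)))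

end Cfsg.Agent.S2707
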