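import Cfsg.Agent.H16_GrU4
import Cfsg.Statements.S2708
-- import your own Cfsg.Agent.* helpers here

set_option autoImplicit false
open Cfsg

namespace Cfsg.Agent.S2708

open Matrix Module Cfsg.Agent.H16.AutL Cfsg.Agent.H16.PSU Cfsg.Agent.H16.GrU Cfsg.Agent.H16.Gr Cfsg.Agent.H16.Quad

/-- Let T = PSU_n(q) with n = 2m ≥ 4 even and q even, realised over the field F (of characteristic 2) with q² elements, and G = Inndiag(T) the image of PGU_n(q). The involutory graph automorphisms of T fall into exactly two G-classes, with representatives whose centralizers in G are isomorphic respectively to the symplectic group Sp_n(F₀) and to the centralizer in Sp_n(F₀) of a symplectic transvection, F₀ a field with q elements. -/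
theorem result {F : Type*} [Field F] [Fintype F] [CharP F 2] {q : ℕ} (hF : Fintype.card F = q ^ 2) {n m : ℕ} (hm : 2 ≤ m) (hnm : n = 2 * m) (F₀ : Type*) [Field F₀] [Fintype F₀] (hF₀ : Fintype.card F₀ = q) :
    ∃ (γ₁ γ₃ : MulAut (Cfsg.PSU n F q)) (t : ↥(Matrix.symplecticGroup (Fin m) F₀)), Cfsg.IsTransvection (t : Matrix (Fin m ⊕ Fin m) (Fin m ⊕ Fin m) F₀) ∧ Cfsg.IsGraphAutClassPSU γ₁ ∧ orderOf γ₁ = 2 ∧ Cfsg.IsGraphAutClassPSU γ₃ ∧ orderOf γ₃ = 2 ∧ ¬ Cfsg.IsConjUnder (Cfsg.inndiagPSU n F q) γ₁ γ₃ ∧ (∀ γ : MulAut (Cfsg.PSU n F q), Cfsg.IsGraphAutClassPSU γ → orderOf γ = 2 → Cfsg.IsConjUnder (Cfsg.inndiagPSU n F q) γ₁ γ ∨ Cfsg.IsConjUnder (Cfsg.inndiagPSU n F q) γ₃ γ) ∧ Nonempty (↥(Cfsg.inndiagPSU n F q ⊓ Subgroup.centralizer {γ₁}) ≃* ↥(Matrix.symplecticGroup (Fin m) F₀)) ∧ Nonempty (↥(Cfsg.inndiagPSU n F q ⊓ Subgroup.centralizer {γ₃}) ≃* ↥(Subgroup.centralizer ({t} : Set ↥(Matrix.symplecticGroup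 (Fin m) F₀)))) := by
  have hn3 : 3 ≤ n := by omega
  have hn2 : 2 ≤ n := by omega
  obtain ⟨e, he⟩ := exists_e hF F₀ hF₀
  have h2F : (2 : F) = 0 := CharTwo.two_eq_zero
  have h2 : (2 : F₀) = 0 := by
    apply e.injective
    rw [map_zero, map_ofNat]
    exact h2F
  have hc2 : CharP F₀ 2 := CharTwo.of_one_ne_zero_of_two_eq_zero one_ne_zero h2
  obtain ⟨N₁, hN₁, hN₁'⟩ := exists_alt (F := F₀) hnm
  have hsy : ∀ M : GL (Fin n) F₀, ((M : Matrix (Fin n) (Fin n) F₀)ᵀ = M ∨ (M : Matrix (Fin n) (Fin n) F₀)ᵀ = -M) →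
      (M : Matrix (Fin n) (Fin n) F₀)ᵀ = M := by
    intro M hM
    rcases hM with h | h
    · exact h
    · rw [h]
      ext i j
      rw [Matrix.neg_apply, CharTwo.neg_eq]
  have hcard : Fintype.card (Fin m ⊕ Fin m) = n := by rw [Fintype.card_sum, Fintype.card_fin, hnm]; ring
  -- a non-zero vector
  set w : Fin m ⊕ Fin m → F₀ := Pi.single (Sum.inl ⟨0, by omega⟩) 1 with hwdef
  have hw : w ≠ 0 := by
    intro h
    have := congrFun h (Sum.inl ⟨0, by omega⟩)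
    simp [hwdef] at this
  obtain ⟨x₀, hx₀⟩ := exists_dual hw
  have hna2 : ∃ x, x ⬝ᵥ ((Matrix.J (Fin m) F₀ + vecMulVec (Matrix.J (Fin m) F₀ *ᵥ w) (Matrix.J (Fin m) F₀ *ᵥ w)) *ᵥ x) ≠ 0 := by
    refine ⟨x₀, ?_⟩
    rw [f2_eq, f2, sympForm_self, hx₀]
    simp
  have hone : ((1 : GL (Fin n) F₀) : Matrix (Fin n) (Fin n) F₀)ᵀ = (1 : GL (Fin n) F₀) := by
    rw [Units.val_one, transpose_one]
  have hna1 : ∃ x, frm ((1 : GL (Fin n) F₀) : Matrix (Fin n) (Fin n) F₀) x x ≠ 0 := by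
    refine ⟨Pi.single ⟨0, by omega⟩ 1, ?_⟩
    rw [frm_single, Units.val_one, Matrix.one_apply_eq]
    exact one_ne_zero
  have hiso : ∀ M : GL (Fin n) F₀, (M : Matrix (Fin n) (Fin n) F₀)ᵀ = M → (∃ x, frm (M : Matrix (Fin n) (Fin n) F₀) x x ≠ 0) →
      ∃ φ : (Fin n → F₀) ≃ₗ[F₀] (Fin m ⊕ Fin m → F₀), ∀ x y, f2 m F₀ w (φ x) (φ y) =
        frm (M : Matrix (Fin n) (Fin n) F₀) x y := by
    intro M hM hna
    obtain ⟨φ, hφ⟩ := nonalt_mat (f2_symm w) hM (f2_det w) det_ne hna2 hna hcard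
    exact ⟨φ, fun x y => by rw [← f2_eq, hφ]⟩
  obtain ⟨h₁, ε₁, hd₁⟩ := exists_dat hF he (S := N₁) (Or.inr hN₁')
  obtain ⟨h₂, ε₂, hd₂⟩ := exists_dat hF he (S := (1 : GL (Fin n) F₀)) (Or.inl hone)
  rw [H16.PSU.inndiag_eq hF hn3]
  have c₁ : Nonempty (↥((fam hF hn3).D ⊓ Subgroup.centralizer {gh hF hn3 he hd₁}) ≃* ↥(Matrix.symplecticGroup (Fin m) F₀)) := by
    obtain ⟨E⟩ := cent_gh_iso hF hn3 he hd₁
    obtain ⟨E'⟩ := cent_alt hnm hN₁
    obtain ⟨E2⟩ := sim_split h2 (f := Cfsg.sympForm m F₀) (fun c u v => by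
      rw [sympForm_smul_left, sympForm_smul_right]; ring) ⟨x₀, w, by rw [hx₀]; exact one_ne_zero⟩
    obtain ⟨E3⟩ := isoG_symp (F := F₀) m
    exact ⟨E.trans (E'.trans (E2.trans E3))⟩
  have c₂ : Nonempty (↥((fam hF hn3).D ⊓ Subgroup.centralizer {gh hF hn3 he hd₂}) ≃* ↥(Subgroup.centralizer
      ({(⟨Cfsg.sympTransvection m w 1, H5.Symp.T_mem w 1⟩ : Matrix.symplecticGroup (Fin m) F₀)} :
        Set ↥(Matrix.symplecticGroup (Fin m) F₀)))) := by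
    obtain ⟨E⟩ := cent_gh_iso hF hn3 he hd₂
    obtain ⟨φ, hφ⟩ := hiso 1 hone hna1
    obtain ⟨E1⟩ := sim_iso (f := frm ((1 : GL (Fin n) F₀) : Matrix (Fin n) (Fin n) F₀)) (f' := f2 m F₀ w) φ one_ne_zero
      (fun x y => by rw [hφ, one_mul])
    obtain ⟨E2⟩ := sim_split h2 (f := f2 m F₀ w) (fun c u v => by
      rw [f2, f2]
      simp only [sympForm_smul_left, sympForm_smul_right]; ring) ⟨x₀, x₀, by
        rw [f2, sympForm_self, hx₀]; simp⟩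
    obtain ⟨E3⟩ := isoG_f2 hw
    exact ⟨E.trans (E1.trans (E2.trans E3))⟩
  refine ⟨gh hF hn3 he hd₁, gh hF hn3 he hd₂, ⟨Cfsg.sympTransvection m w 1, H5.Symp.T_mem w 1⟩, transv_is hw,
    gh_graph hF hn3 he hd₁, gh_order hF hn3 he hd₁, gh_graph hF hn3 he hd₂, gh_order hF hn3 he hd₂, ?_, ?_, c₁, c₂⟩
  · intro h
    obtain ⟨E⟩ := conj_cent h
    obtain ⟨E₁⟩ := c₁
    obtain ⟨E₂⟩ := c₂
    exact transv_not_central (t := ⟨Cfsg.sympTransvection m w 1, H5.Symp.T_mem w 1⟩) (by omega) (transv_is hw)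
      ⟨E₁.symm.trans (E.trans E₂)⟩
  · intro γ hγ hγ2
    obtain ⟨h, S, ε, hd, rfl⟩ := exists_gh hF hn3 he hγ hγ2
    have hN := hsy S (hd.sym hF (by omega) he)
    by_cases ha : ∀ x, frm (S : Matrix (Fin n) (Fin n) F₀) x x = 0
    · exact Or.inl (conj_sim hF hn3 he hd₁ hd (conj_alt hn2 hnm hN₁ ha))
    · push Not at ha
      right
      obtain ⟨φ, hφ⟩ := hiso 1 hone hna1
      obtain ⟨φ', hφ'⟩ := hiso S hN ha
      refine conj_sim hF hn3 he hd₂ hd (conj_of_sim hn2 (φ.trans φ'.symm) one_ne_zero fun x y => ?_)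
      rw [LinearEquiv.trans_apply, LinearEquiv.trans_apply, ← hφ', LinearEquiv.apply_symm_apply,
        LinearEquiv.apply_symm_apply, hφ, one_mul]

end Cfsg.Agent.S2708
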