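import Cfsg.Agent.H16_GrU5
import Cfsg.Statements.S2709
-- import your own Cfsg.Agent.* helpers here

set_option autoImplicit false
open Cfsg

namespace Cfsg.Agent.S2709

open Matrix Module Cfsg.Agent.H16.AutL Cfsg.Agent.H16.PSU Cfsg.Agent.H16.GrU Cfsg.Agent.H16.Gr Cfsg.Agent.H16.Quad

/-- Let T = PSU_n(q) be simple (n ≥ 3, (n,q) ≠ (3,2), q = p^f), realised over the field F with q² elements, G = Inndiag(T) the image of PGU_n(q), and γ an involutory graph automorphism of T. The G-class of γ is the union of exactly c T-classes, where: if n is even and q is odd, c = gcd(n/2, q + 1) when C_G(γ) is isomorphic to PGSp_n(F₀) for a field F₀ with q elements (symplectic type) and c = gcd(n, q + 1)/2 otherwise; and c = gcd(n, q + 1) when n is odd or q is even. -/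
theorem result {F : Type*} [Field F] [Fintype F] {p f q : ℕ} [Fact p.Prime] (hq : q = p ^ f) (hf : 1 ≤ f) (hF : Fintype.card F = q ^ 2) {n : ℕ} (hn : 3 ≤ n) (hs : ¬ (n = 3 ∧ q = 2)) (F₀ : Type*) [Field F₀] [Fintype F₀] (hF₀ : Fintype.card F₀ = q) (γ : MulAut (Cfsg.PSU n F q)) (hγ : Cfsg.IsGraphAutClassPSU γ) (hγ2 : orderOf γ = 2) :
    ((Even n ∧ Odd q ∧ Nonempty (↥(Cfsg.inndiagPSU n F q ⊓ Subgroup.centralizer {γ}) ≃* Cfsg.PGSp (n / 2) F₀)) → Cfsg.splitClassCount (Cfsg.inndiagPSU n F q) (Cfsg.Inn (Cfsg.PSU n F q)) γ = Nat.gcd (n / 2) (q + 1)) ∧ ((Even n ∧ Odd q ∧ ¬ Nonempty (↥(Cfsg.inndiagPSU n F q ⊓ Subgroup.centralizer {γ}) ≃* Cfsg.PGSp (n / 2) F₀)) → Cfsg.splitClassCount (Cfsg.inndiagPSU n F q) (Cfsg.Inn (Cfsg.PSU n F q)) γ = Nat.gcd n (q + 1) / 2) ∧ (¬ (Even n ∧ Odd q) → Cfsg.splitClassCount (Cfsg.inndiagPSU n F q) (Cfsg.Inn (Cfsg.PSU n F q)) γ = Nat.gcd n (q + 1)) := by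
  have hn2 : 2 ≤ n := by omega
  obtain ⟨e, he⟩ := exists_e hF F₀ hF₀
  rw [H16.PSU.inndiag_eq hF hn]
  obtain ⟨h, S, ε, hd, rfl⟩ := exists_gh hF hn he hγ hγ2
  obtain ⟨E⟩ := cent_gh_iso hF hn he hd
  have hsym := hd.sym hF (by omega) he
  have hqF : (2 : F₀) ≠ 0 ↔ Odd q := by
    rw [← hF₀]
    constructor
    · intro h
      have := card_mod_two h
      exact Nat.odd_iff.mpr this
    · intro h
      exact H5.QuadC.two_ne_zero_of_odd h
  refine ⟨?_, ?_, ?_⟩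
  · rintro ⟨hev, ho, ⟨e'⟩⟩
    have h2 := hqF.mpr ho
    obtain ⟨m, hm⟩ := hev
    have hnm : n = 2 * m := by omega
    obtain ⟨k, rfl⟩ : ∃ k, m = k + 1 := ⟨m - 1, by omega⟩
    have hdiv : n / 2 = k + 1 := by omega
    rw [hdiv] at e' ⊢
    rcases hsym with hN | hN
    · exfalso
      rcases plus_or_minus (nd_nQ h2 hN) (m := k) (by rw [Module.finrank_fintype_fun_eq_card, Fintype.card_fin, hnm]; ring) with h' | h'
      · obtain ⟨E'⟩ := cent_plus h2 hN h'
        exact no_plus h2 k ⟨E'.symm.trans (E.symm.trans e')⟩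
      · obtain ⟨ζ, hζ⟩ := exists_irred h2
        have hab := aniso_of_irred hζ
        obtain ⟨E'⟩ := cent_minus h2 hN h' hab
        exact no_minus h2 k hab ⟨E'.symm.trans (E.symm.trans e')⟩
    · exact splitU_alt hF hn he hnm hd (alt_of_skew h2 hN)
  · rintro ⟨hev, ho, hne⟩
    have h2 := hqF.mpr ho
    obtain ⟨m, hm⟩ := hev
    have hnm : n = 2 * m := by omega
    obtain ⟨k, rfl⟩ : ∃ k, m = k + 1 := ⟨m - 1, by omega⟩
    have hdiv : n / 2 = k + 1 := by omega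
    rw [hdiv] at hne
    rcases hsym with hN | hN
    · exact splitU_sym hF hn he h2 ho (k := k) (by omega) hd hN
    · exfalso
      obtain ⟨E'⟩ := cent_alt hnm (alt_of_skew h2 hN)
      exact hne ⟨E.trans E'⟩
  · intro hh
    exact splitU_triv hF hn he hd (by rwa [hqF])

end Cfsg.Agent.S2709
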