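import Cfsg.Agent.H16_GrU3
import Cfsg.Statements.S2710
-- import your own Cfsg.Agent.* helpers here

set_option autoImplicit false
open Cfsg

namespace Cfsg.Agent.S2710

open Matrix Module Cfsg.Agent.H16.AutL Cfsg.Agent.H16.AutG Cfsg.Agent.H16.PSU Cfsg.Agent.H16.GrU Cfsg.Agent.H16.Gr Cfsg.Agent.H16.Quad

/-- Let T = PSU_n(q) with n ≥ 4 divisible by 4 (n = 2m) and q odd, realised over the field F with q² elements, G = Inndiag(T) the image of PGU_n(q), and φ the standard field automorphism of T attached to the q-th power map of F (it induces inverse-transpose on the unitary matrices and is a graph automorphism). Its centralizer in G is isomorphic to the projective conformal orthogonal group of the plus-type form Σ xᵢ yᵢ in dimension n over a field F₀ with q elements. (Dimensions n ≡ 2 (mod 4) are not covered.) -/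
theorem result {F : Type*} [Field F] [Fintype F] {q : ℕ} (hodd : Odd q) (hF : Fintype.card F = q ^ 2) {n m : ℕ} (hm : 2 ≤ m) (hnm : n = 2 * m) (h4 : 4 ∣ n) (F₀ : Type*) [Field F₀] [Fintype F₀] (hF₀ : Fintype.card F₀ = q) (σ : F ≃+* F) (hσ : ∀ a : F, σ a = a ^ q) (φ : MulAut (Cfsg.PSU n F q)) (hφ : Cfsg.IsFieldAutPSUOf σ φ) :
    Nonempty (↥(Cfsg.inndiagPSU n F q ⊓ Subgroup.centralizer {φ}) ≃* Cfsg.PGO F₀ (Cfsg.quadFormPlus m F₀)) := by
  have hn3 : 3 ≤ n := by omega
  have hn2 : 2 ≤ n := by omega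
  obtain ⟨k, rfl⟩ : ∃ k, m = k + 1 := ⟨m - 1, by omega⟩
  obtain ⟨e, he⟩ := exists_e hF F₀ hF₀
  have h2 : (2 : F₀) ≠ 0 := H5.QuadC.two_ne_zero_of_odd (by rw [hF₀]; exact hodd)
  rw [H16.PSU.inndiag_eq hF hn3]
  have hσb : σ = bt hF := RingEquiv.ext fun x => by rw [hσ, bt_apply]
  subst hσb
  obtain rfl := (field_iff hF hn3).mp hφ
  have hd : Dat e hF (1 : GL (Fin n) F) (1 : GL (Fin n) F₀) 1 := by
    unfold Dat
    simp only [_root_.map_one, inv_one, mul_one]
  have hg : (fam hF hn3).T (H16.Gam.Fam.fin (fam_hasField hF hn3) (bt hF)) = gh hF hn3 he hd := by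
    rw [fin_gk, gh, gu]
    congr 1
    exact gk_congr hF hn3 _ _ (by simp only [_root_.map_one, inv_one, mul_one]) rfl
  rw [hg]
  obtain ⟨E⟩ := cent_gh_iso hF hn3 he hd
  have hN : ((1 : GL (Fin n) F₀) : Matrix (Fin n) (Fin n) F₀)ᵀ = ((1 : GL (Fin n) F₀) : Matrix (Fin n) (Fin n) F₀) := by
    rw [Units.val_one, transpose_one]
  have hdet : (H16.Quad.gram (nQ ((1 : GL (Fin n) F₀) : Matrix (Fin n) (Fin n) F₀)) (Pi.basisFun F₀ (Fin n))).det =
      (2 ^ (k + 1)) * (2 ^ (k + 1)) := by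
    rw [gram_nQ hN, Units.val_one, det_one, mul_one, hnm]
    ring
  have hnd := nd_nQ h2 hN
  have hpm := plus_or_minus hnd (m := k) (by rw [Module.finrank_fintype_fun_eq_card, Fintype.card_fin, hnm]; ring)
  have hP : IsPlus (nQ ((1 : GL (Fin n) F₀) : Matrix (Fin n) (Fin n) F₀)) (k + 1) := by
    rcases hpm with h' | h'
    · exact h'
    · exfalso
      have := h'.disc h2 hnd (Pi.basisFun F₀ (Fin n))
      rw [hdet] at this
      apply this
      have hev : Even (k + 1) := by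
        rw [Nat.even_iff]; omega
      rw [hev.neg_one_pow, one_mul]
      exact ⟨_, rfl⟩
  obtain ⟨E'⟩ := cent_plus h2 hN hP
  exact ⟨E.trans E'⟩

end Cfsg.Agent.S2710
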