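import Cfsg.Agent.H16_PSp4
import Cfsg.Statements.S2712
-- import your own Cfsg.Agent.* helpers here

set_option autoImplicit false
open Cfsg

namespace Cfsg.Agent.S2712

open Cfsg.Agent.H16.PSp Cfsg.Agent.H16.Gam Cfsg.Agent.H16.AutG Cfsg.Agent.H16.AutL Cfsg.Agent.H16 in

/-- Let T = PSp_{2m}(F) be simple over the field F with p^f elements (m ≥ 2, (2m, |F|) ≠ (4, 2)), G = Inndiag(T) the image of the projective conformal symplectic group PGSp_{2m}(F), and x a field automorphism of T of prime order r. Then r divides f; C_G(x) is isomorphic to PGSp_{2m}(F₀) for a field F₀ with p^(f/r) elements; and the G-class of x is the union of exactly gcd(gcd(2, p^f − 1), r) T-classes. -/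
theorem result {F : Type*} [Field F] [Fintype F] {p f : ℕ} [Fact p.Prime] (hF : Fintype.card F = p ^ f) (hf : 1 ≤ f) {m : ℕ} (hm : 2 ≤ m) (hs : m = 2 → 3 ≤ Fintype.card F) (x : MulAut (Cfsg.PSp m F)) (hx : Cfsg.IsFieldAutClassPSp x) {r : ℕ} (hr : r.Prime) (hxr : orderOf x = r) (F₀ : Type*) [Field F₀] [Fintype F₀] (hF₀ : Fintype.card F₀ = p ^ (f / r)) :
    r ∣ f ∧ Nonempty (↥(Cfsg.inndiagPSp m F ⊓ Subgroup.centralizer {x}) ≃* Cfsg.PGSp m F₀) ∧ Cfsg.splitClassCount (Cfsg.inndiagPSp m F) (Cfsg.Inn (Cfsg.PSp m F)) x = Nat.gcd (Nat.gcd 2 (p ^ f - 1)) r := by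
  have hDn : (fam hm F).D.Normal := D_normal hm
  have hnt : Nonempty (Fin m ⊕ Fin m) := ⟨Sum.inl ⟨0, by omega⟩⟩
  rw [inndiag_eq hm]
  obtain ⟨α, σ, hσ, hα⟩ := hx
  rw [stdField_iff hm] at hα
  have hσr : orderOf σ = r := by
    rw [← Fam.orderOf_fin (fam_hasField hm) σ, ← hα, orderOf_conj', hxr]
  obtain ⟨q₀, hq, hcard, hfix, hfix'⟩ := card_fix σ
  have hpr : p.Prime := Fact.out
  obtain ⟨hrf, hq₀⟩ := prime_pow_root hpr (show p ^ f = q₀ ^ r by
    rw [← hF, ← Nat.card_eq_fintype_card, hcard, hσr]) hr.pos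
  refine ⟨hrf, ?_, ?_⟩
  · apply Split.nonempty_centralizer_conj (fam hm F).D hDn α x
    rw [hα]
    exact cent_fieldSp hm hcard hfix' F₀ (by rw [hF₀, hq₀])
  · have h1 := Split.splitClassCount_conj (fam hm F).D (Cfsg.Inn (Matrix.symplecticGroup (Fin m) F ⧸ Subgroup.center (Matrix.symplecticGroup (Fin m) F))) inferInstance hDn (fam hm F).inn_le_D α x
    rw [hα, split_fieldSp hm hq hcard hfix] at h1
    refine h1.symm.trans ?_
    have h2 : (q₀ ^ orderOf σ - 1) / (q₀ - 1) = ∑ i ∈ Finset.range r, q₀ ^ i := by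
      rw [hσr, Nat.geomSum_eq hq]
    rw [h2, ← hF, ← Nat.card_eq_fintype_card, hcard, hσr]
    rcases Nat.even_or_odd q₀ with he | ho
    · have h3 : Odd (∑ i ∈ Finset.range r, q₀ ^ i) := by
        obtain ⟨s, rfl⟩ : ∃ s, r = s + 1 := ⟨r - 1, by have := hr.pos; omega⟩
        rw [Finset.sum_range_succ', pow_zero]
        refine Even.add_one (Finset.even_sum _ fun i _ => ?_)
        exact he.pow_of_ne_zero (by omega)
      have h4 : Odd (q₀ ^ r - 1) := by
        have h5 : Even (q₀ ^ r) := he.pow_of_ne_zero hr.ne_zero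
        have h6 : 0 < q₀ ^ r := by positivity
        exact Nat.Even.sub_odd h6 h5 odd_one
      rw [Nat.Coprime.gcd_eq_one ((Nat.coprime_two_left).mpr h3), Nat.Coprime.gcd_eq_one ((Nat.coprime_two_left).mpr h4),
        Nat.gcd_one_left]
    · have h4 : 2 ∣ q₀ ^ r - 1 := by
        have h5 : Odd (q₀ ^ r) := ho.pow
        exact (Nat.Odd.sub_odd h5 odd_one).two_dvd
      rw [Nat.gcd_eq_left h4]
      have h6 : (∑ i ∈ Finset.range r, q₀ ^ i) % 2 = r % 2 := by
        rw [Finset.sum_nat_mod]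
        have : ∀ i ∈ Finset.range r, q₀ ^ i % 2 = 1 := fun i _ => Nat.odd_iff.mp ho.pow
        rw [Finset.sum_congr rfl this]
        simp
      rw [Nat.gcd_comm 2, Nat.gcd_comm 2]
      exact Nat.ModEq.gcd_eq h6

end Cfsg.Agent.S2712
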