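import Cfsg.Agent.H16_ParJ
import Cfsg.Statements.S2722
-- import your own Cfsg.Agent.* helpers here

set_option autoImplicit false
open Cfsg

namespace Cfsg.Agent.S2722

/-- Let T = PΩ⁺_{2m}(F) with m ≥ 4 and |F| = q odd. Inside Aut(T), the image G̃ of the conformal orthogonal group of the form modulo the image of the special orthogonal group is elementary abelian of order 4. -/
theorem result {F : Type*} [Field F] [Fintype F] (hodd : Odd (Fintype.card F)) {m : ℕ} (hm : 4 ≤ m) :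
    (∃ φ : ↥(Cfsg.pgoAut F (Cfsg.quadFormPlus m F)) →* Multiplicative (ZMod 2 × ZMod 2), Function.Surjective φ ∧ φ.ker = (Cfsg.psoAut F (Cfsg.quadFormPlus m F)).subgroupOf (Cfsg.pgoAut F (Cfsg.quadFormPlus m F))) := by
  have h2 : (2 : F) ≠ 0 := Cfsg.Agent.H16.POm.two_ne_of_odd hodd
  have key : ∀ q : (Fin m ⊕ Fin m → F) → F, ⇑(Cfsg.Agent.H16.POm.odP F hm).Q = q →
      (∃ φ : ↥(Cfsg.pgoAut F q) →* Multiplicative (ZMod 2 × ZMod 2), Function.Surjective φ ∧
        φ.ker = (Cfsg.psoAut F q).subgroupOf (Cfsg.pgoAut F q)) := by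
    intro q hq
    subst hq
    exact Cfsg.Agent.H16.Par.pgo_pso (Cfsg.Agent.H16.Par.evP hm) h2
  exact key _ (Cfsg.Agent.H16.Quad.coe_plusQ F m)

end Cfsg.Agent.S2722
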