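import Cfsg.Agent.H16_ParJ
import Cfsg.Statements.S2723
-- import your own Cfsg.Agent.* helpers here

set_option autoImplicit false
open Cfsg

namespace Cfsg.Agent.S2723

/-- Let T = PΩ⁺_{2m}(F) with m ≥ 4 and |F| = q odd. The image of the special orthogonal group in Aut(T) contains the inner automorphism group T with index 1 (they coincide) when m is odd and q ≡ 3 (mod 4), and with index 2 otherwise (the index is 2 exactly when the discriminant of the form is a square). -/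
theorem result {F : Type*} [Field F] [Fintype F] (hodd : Odd (Fintype.card F)) {m : ℕ} (hm : 4 ≤ m) :
    ((Odd m ∧ Fintype.card F % 4 = 3) → (Cfsg.Inn (Cfsg.POmega F (Cfsg.quadFormPlus m F))).relIndex (Cfsg.psoAut F (Cfsg.quadFormPlus m F)) = 1) ∧ (¬ (Odd m ∧ Fintype.card F % 4 = 3) → (Cfsg.Inn (Cfsg.POmega F (Cfsg.quadFormPlus m F))).relIndex (Cfsg.psoAut F (Cfsg.quadFormPlus m F)) = 2) := by
  classical
  have h2 : (2 : F) ≠ 0 := Cfsg.Agent.H16.POm.two_ne_of_odd hodd
  have key : ∀ q : (Fin m ⊕ Fin m → F) → F, ⇑(Cfsg.Agent.H16.POm.odP F hm).Q = q →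
      ((Odd m ∧ Fintype.card F % 4 = 3) → (Cfsg.Inn (Cfsg.POmega F q)).relIndex (Cfsg.psoAut F q) = 1) ∧
      (¬ (Odd m ∧ Fintype.card F % 4 = 3) → (Cfsg.Inn (Cfsg.POmega F q)).relIndex (Cfsg.psoAut F q) = 2) := by
    intro q hq
    subst hq
    have h1 := Cfsg.Agent.H16.Par.relIndex_inn_pso (Cfsg.Agent.H16.Par.evP (F := F) hm) h2
    have h3 := Cfsg.Agent.H16.Par.plus_mod hm h2
    refine ⟨fun h => ?_, fun h => ?_⟩
    · rw [h1, if_neg (fun h4 => h3.mp h4 h)]
    · rw [h1, if_pos (h3.mpr h)]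
  exact key _ (Cfsg.Agent.H16.Quad.coe_plusQ F m)

end Cfsg.Agent.S2723
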