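import Cfsg.Agent.H16_ParJ
import Cfsg.Statements.S2725
-- import your own Cfsg.Agent.* helpers here

set_option autoImplicit false
open Cfsg

namespace Cfsg.Agent.S2725

/-- Let T = PΩ⁺_{2m}(F) with m ≥ 4 and |F| = q odd. The inner-diagonal group G = Inndiag(T) (image of the class-preserving similarities) taken modulo the inner automorphism group T is cyclic of order 2 when m is odd and q ≡ 3 (mod 4), cyclic of order 4 when m is odd and q ≡ 1 (mod 4), and elementary abelian of order 4 when m is even. -/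
theorem result {F : Type*} [Field F] [Fintype F] (hodd : Odd (Fintype.card F)) {m : ℕ} (hm : 4 ≤ m) :
    ((Odd m ∧ Fintype.card F % 4 = 3) → (∃ φ : ↥(Cfsg.inndiagPOmegaPlus m F) →* Multiplicative (ZMod 2), Function.Surjective φ ∧ φ.ker = (Cfsg.Inn (Cfsg.POmega F (Cfsg.quadFormPlus m F))).subgroupOf (Cfsg.inndiagPOmegaPlus m F))) ∧ ((Odd m ∧ Fintype.card F % 4 = 1) → (∃ φ : ↥(Cfsg.inndiagPOmegaPlus m F) →* Multiplicative (ZMod 4), Function.Surjective φ ∧ φ.ker = (Cfsg.Inn (Cfsg.POmega F (Cfsg.quadFormPlus m F))).subgroupOf (Cfsg.inndiagPOmegaPlus m F))) ∧ (Even m → (∃ φ : ↥(Cfsg.inndiagPOmegaPlus m F) →* Multiplicative (ZMod 2 × ZMod 2), Function.Surjective φ ∧ φ.ker = (Cfsg.Inn (Cfsg.POmega F (Cfsg.quadFormPlus m F))).subgroupOf (Cfsg.inndiagPOmegaPlus m F))) := by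
  have h2 : (2 : F) ≠ 0 := Cfsg.Agent.H16.POm.two_ne_of_odd hodd
  have key : ∀ q : (Fin m ⊕ Fin m → F) → F, ⇑(Cfsg.Agent.H16.POm.odP F hm).Q = q →
      ((Odd m ∧ Fintype.card F % 4 = 3) → (∃ φ : ↥(Cfsg.Agent.H16.Par.indP q) →* Multiplicative (ZMod 2), Function.Surjective φ ∧
        φ.ker = (Cfsg.Inn (Cfsg.POmega F q)).subgroupOf (Cfsg.Agent.H16.Par.indP q))) ∧
      ((Odd m ∧ Fintype.card F % 4 = 1) → (∃ φ : ↥(Cfsg.Agent.H16.Par.indP q) →* Multiplicative (ZMod 4), Function.Surjective φ ∧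
        φ.ker = (Cfsg.Inn (Cfsg.POmega F q)).subgroupOf (Cfsg.Agent.H16.Par.indP q))) ∧
      (Even m → (∃ φ : ↥(Cfsg.Agent.H16.Par.indP q) →* Multiplicative (ZMod 2 × ZMod 2), Function.Surjective φ ∧
        φ.ker = (Cfsg.Inn (Cfsg.POmega F q)).subgroupOf (Cfsg.Agent.H16.Par.indP q))) := by
    intro q hq
    subst hq
    exact Cfsg.Agent.H16.Par.plus_ind hm h2
  exact key _ (Cfsg.Agent.H16.Quad.coe_plusQ F m)

end Cfsg.Agent.S2725
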