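import Cfsg.Agent.H16_ParJ
import Cfsg.Statements.S2726
-- import your own Cfsg.Agent.* helpers here

set_option autoImplicit false
open Cfsg

namespace Cfsg.Agent.S2726

/-- Let T = PΩ⁻_{2m+2}(F) with m ≥ 3 and |F| = q odd (form with anisotropic binary part). Inside Aut(T), the image G̃ of the conformal orthogonal group of the form modulo the image of the special orthogonal group is elementary abelian of order 4. -/
theorem result {F : Type*} [Field F] [Fintype F] (hodd : Odd (Fintype.card F)) {m : ℕ} (hm : 3 ≤ m) (a b : F) (hab : (∀ z₁ z₂ : F, z₁ ^ 2 + a * z₁ * z₂ + b * z₂ ^ 2 = 0 → z₁ = 0 ∧ z₂ = 0)) :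
    (∃ φ : ↥(Cfsg.pgoAut F (Cfsg.quadFormMinus m F a b)) →* Multiplicative (ZMod 2 × ZMod 2), Function.Surjective φ ∧ φ.ker = (Cfsg.psoAut F (Cfsg.quadFormMinus m F a b)).subgroupOf (Cfsg.pgoAut F (Cfsg.quadFormMinus m F a b))) := by
  have h2 : (2 : F) ≠ 0 := Cfsg.Agent.H16.POm.two_ne_of_odd hodd
  have key : ∀ q : ((Fin m ⊕ Fin m) ⊕ Fin 2 → F) → F, ⇑(Cfsg.Agent.H16.POm.odM hab hm).Q = q →
      (∃ φ : ↥(Cfsg.pgoAut F q) →* Multiplicative (ZMod 2 × ZMod 2), Function.Surjective φ ∧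
        φ.ker = (Cfsg.psoAut F q).subgroupOf (Cfsg.pgoAut F q)) := by
    intro q hq
    subst hq
    obtain ⟨S, -, -⟩ := Cfsg.Agent.H16.Par.exists_evM hab hm
    exact Cfsg.Agent.H16.Par.pgo_pso S h2
  exact key _ (Cfsg.Agent.H16.Quad.coe_minusQ F m a b)

end Cfsg.Agent.S2726
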