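import Cfsg.Agent.H16_ParJ
import Cfsg.Statements.S2727
-- import your own Cfsg.Agent.* helpers here

set_option autoImplicit false
open Cfsg

namespace Cfsg.Agent.S2727

/-- Let T = PΩ⁻_{2m+2}(F) with m ≥ 3 and |F| = q odd (form with anisotropic binary part). The image of the special orthogonal group in Aut(T) contains the inner automorphism group T with index 2 when m is even and q ≡ 3 (mod 4), and coincides with it otherwise (the index is 2 exactly when the discriminant of the form is a square). -/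
theorem result {F : Type*} [Field F] [Fintype F] (hodd : Odd (Fintype.card F)) {m : ℕ} (hm : 3 ≤ m) (a b : F) (hab : (∀ z₁ z₂ : F, z₁ ^ 2 + a * z₁ * z₂ + b * z₂ ^ 2 = 0 → z₁ = 0 ∧ z₂ = 0)) :
    ((Even m ∧ Fintype.card F % 4 = 3) → (Cfsg.Inn (Cfsg.POmega F (Cfsg.quadFormMinus m F a b))).relIndex (Cfsg.psoAut F (Cfsg.quadFormMinus m F a b)) = 2) ∧ (¬ (Even m ∧ Fintype.card F % 4 = 3) → (Cfsg.Inn (Cfsg.POmega F (Cfsg.quadFormMinus m F a b))).relIndex (Cfsg.psoAut F (Cfsg.quadFormMinus m F a b)) = 1) := by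
  classical
  have h2 : (2 : F) ≠ 0 := Cfsg.Agent.H16.POm.two_ne_of_odd hodd
  have key : ∀ q : ((Fin m ⊕ Fin m) ⊕ Fin 2 → F) → F, ⇑(Cfsg.Agent.H16.POm.odM hab hm).Q = q →
      ((Even m ∧ Fintype.card F % 4 = 3) → (Cfsg.Inn (Cfsg.POmega F q)).relIndex (Cfsg.psoAut F q) = 2) ∧
      (¬ (Even m ∧ Fintype.card F % 4 = 3) → (Cfsg.Inn (Cfsg.POmega F q)).relIndex (Cfsg.psoAut F q) = 1) := by
    intro q hq
    subst hq
    obtain ⟨S, -, -⟩ := Cfsg.Agent.H16.Par.exists_evM hab hm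
    have h1 := Cfsg.Agent.H16.Par.relIndex_inn_pso S h2
    have h3 := Cfsg.Agent.H16.Par.neg_mod hab hm rfl (rfl : Fintype.card F = Fintype.card F) h2
    refine ⟨fun h => ?_, fun h => ?_⟩
    · rw [h1, if_pos (h3.mpr ⟨h.2, h.1.add_one⟩)]
    · rw [h1, if_neg (fun h4 => ?_)]
      obtain ⟨h5, h6⟩ := h3.mp h4
      rw [Nat.odd_iff] at h6
      exact h ⟨by rw [Nat.even_iff]; omega, h5⟩
  exact key _ (Cfsg.Agent.H16.Quad.coe_minusQ F m a b)

end Cfsg.Agent.S2727
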