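import Cfsg.Agent.H16_ParJ
import Cfsg.Statements.S2728
-- import your own Cfsg.Agent.* helpers here

set_option autoImplicit false
open Cfsg

namespace Cfsg.Agent.S2728

/-- Let T = PΩ⁻_{2m+2}(F) with m ≥ 3 and |F| = q odd (form with anisotropic binary part). The image G̃ of the conformal orthogonal group in Aut(T), taken modulo the inner automorphism group T, is dihedral of order 8 when m is even and q ≡ 3 (mod 4), and elementary abelian of order 4 otherwise. -/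
theorem result {F : Type*} [Field F] [Fintype F] (hodd : Odd (Fintype.card F)) {m : ℕ} (hm : 3 ≤ m) (a b : F) (hab : (∀ z₁ z₂ : F, z₁ ^ 2 + a * z₁ * z₂ + b * z₂ ^ 2 = 0 → z₁ = 0 ∧ z₂ = 0)) :
    ((Even m ∧ Fintype.card F % 4 = 3) → (∃ φ : ↥(Cfsg.pgoAut F (Cfsg.quadFormMinus m F a b)) →* DihedralGroup 4, Function.Surjective φ ∧ φ.ker = (Cfsg.Inn (Cfsg.POmega F (Cfsg.quadFormMinus m F a b))).subgroupOf (Cfsg.pgoAut F (Cfsg.quadFormMinus m F a b)))) ∧ (¬ (Even m ∧ Fintype.card F % 4 = 3) → (∃ φ : ↥(Cfsg.pgoAut F (Cfsg.quadFormMinus m F a b)) →* Multiplicative (ZMod 2 × ZMod 2), Function.Surjective φ ∧ φ.ker = (Cfsg.Inn (Cfsg.POmega F (Cfsg.quadFormMinus m F a b))).subgroupOf (Cfsg.pgoAut F (Cfsg.quadFormMinus m F a b)))) := by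
  have h2 : (2 : F) ≠ 0 := Cfsg.Agent.H16.POm.two_ne_of_odd hodd
  have key : ∀ q : ((Fin m ⊕ Fin m) ⊕ Fin 2 → F) → F, ⇑(Cfsg.Agent.H16.POm.odM hab hm).Q = q →
      ((Even m ∧ Fintype.card F % 4 = 3) → (∃ φ : ↥(Cfsg.pgoAut F q) →* DihedralGroup 4, Function.Surjective φ ∧
        φ.ker = (Cfsg.Inn (Cfsg.POmega F q)).subgroupOf (Cfsg.pgoAut F q))) ∧
      (¬ (Even m ∧ Fintype.card F % 4 = 3) → (∃ φ : ↥(Cfsg.pgoAut F q) →* Multiplicative (ZMod 2 × ZMod 2), Function.Surjective φ ∧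
        φ.ker = (Cfsg.Inn (Cfsg.POmega F q)).subgroupOf (Cfsg.pgoAut F q))) := by
    intro q hq
    subst hq
    obtain ⟨S, -, -⟩ := Cfsg.Agent.H16.Par.exists_evM hab hm
    have h3 := Cfsg.Agent.H16.Par.neg_mod hab hm rfl (rfl : Fintype.card F = Fintype.card F) h2
    refine ⟨fun h => Cfsg.Agent.H16.Par.pgo_inn_dih S h2 (h3.mpr ⟨h.2, h.1.add_one⟩),
      fun h => Cfsg.Agent.H16.Par.pgo_inn_klein S h2 (fun h4 => ?_)⟩
    obtain ⟨h5, h6⟩ := h3.mp h4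
    rw [Nat.odd_iff] at h6
    exact h ⟨by rw [Nat.even_iff]; omega, h5⟩
  exact key _ (Cfsg.Agent.H16.Quad.coe_minusQ F m a b)

end Cfsg.Agent.S2728
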