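import Cfsg.Statements.S2738
import Mathlib
import Cfsg.Agent.S0248
import Cfsg.Agent.H5_GL

set_option autoImplicit false
open Cfsg

namespace Cfsg.Agent.S2738

open scoped commutatorElement

/-- The special linear group SL(3, 4) has centre of order 3 and does not split over it: no subgroup is a complement to the centre (so SL(3, 4) is a non-split central extension of PSL(3, 4) by a group of order 3). -/
theorem result (F : Type*) [Field F] [Fintype F] (hF : Fintype.card F = 4) : Nat.card ↥(Subgroup.center (Matrix.SpecialLinearGroup (Fin 3) F)) = 3 ∧ ¬ ∃ K : Subgroup (Matrix.SpecialLinearGroup (Fin 3) F), Subgroup.IsComplement' (Subgroup.center (Matrix.SpecialLinearGroup (Fin 3) F)) K := by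
  classical
  have hc : Nat.card ↥(Subgroup.center (Matrix.SpecialLinearGroup (Fin 3) F)) = 3 := by
    rw [Cfsg.Agent.H5.GL.card_center_SL hF 3 (by norm_num)]
    decide
  refine ⟨hc, ?_⟩
  rintro ⟨K, hK⟩
  have hperf := Cfsg.Agent.S0248.result (F := F) 3 (le_refl _)
  -- `K` is normal
  have hdec : ∀ g : Matrix.SpecialLinearGroup (Fin 3) F, ∃ z ∈ Subgroup.center (Matrix.SpecialLinearGroup (Fin 3) F), ∃ k ∈ K, z * k = g := by
    intro g
    obtain ⟨⟨z, k⟩, h⟩ := hK.2 g
    exact ⟨z, z.2, k, k.2, h⟩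
  have hn : K.Normal := by
    refine ⟨fun x hx g => ?_⟩
    obtain ⟨z, hz, k, hk, rfl⟩ := hdec g
    have h1 : z * k * x * (z * k)⁻¹ = k * x * k⁻¹ := by
      have h2 := (Subgroup.mem_center_iff.mp hz) (k * x * k⁻¹)
      calc z * k * x * (z * k)⁻¹ = z * (k * x * k⁻¹) * z⁻¹ := by group
        _ = k * x * k⁻¹ := by rw [← h2, mul_assoc, mul_inv_cancel, mul_one]
    rw [h1]
    exact K.mul_mem (K.mul_mem hk hx) (K.inv_mem hk)
  have hle : commutator (Matrix.SpecialLinearGroup (Fin 3) F) ≤ K := by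
    rw [commutator_def, Subgroup.commutator_le]
    intro a _ b _
    obtain ⟨z, hz, k, hk, rfl⟩ := hdec a
    obtain ⟨w, hw, l, hl, rfl⟩ := hdec b
    have hz' := Subgroup.mem_center_iff.mp hz
    have hw' := Subgroup.mem_center_iff.mp hw
    have h1 : ⁅z * k, w * l⁆ = ⁅k, l⁆ := by
      rw [commutatorElement_def, commutatorElement_def]
      calc z * k * (w * l) * (z * k)⁻¹ * (w * l)⁻¹ = z * (k * w) * l * k⁻¹ * z⁻¹ * l⁻¹ * w⁻¹ := by group
        _ = z * (w * k) * l * k⁻¹ * z⁻¹ * l⁻¹ * w⁻¹ := by rw [hw' k]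
        _ = (z * (w * k * l * k⁻¹)) * z⁻¹ * l⁻¹ * w⁻¹ := by group
        _ = (w * k * l * k⁻¹ * z) * z⁻¹ * l⁻¹ * w⁻¹ := by rw [hz' (w * k * l * k⁻¹)]
        _ = w * (k * l * k⁻¹ * l⁻¹) * w⁻¹ := by group
        _ = k * l * k⁻¹ * l⁻¹ := by rw [← hw' (k * l * k⁻¹ * l⁻¹), mul_assoc, mul_inv_cancel, mul_one]
    rw [h1, commutatorElement_def]
    exact K.mul_mem (K.mul_mem (K.mul_mem hk hl) (K.inv_mem hk)) (K.inv_mem hl)
  rw [hperf, top_le_iff] at hle
  have h2 := hK.disjoint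
  rw [hle, disjoint_top] at h2
  rw [h2] at hc
  simp at hc

end Cfsg.Agent.S2738
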