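import Cfsg.Statements.S2739
import Cfsg.Agent.H27_P34

set_option autoImplicit false
open scoped Pointwise
open Cfsg

namespace Cfsg.Agent.S2739

open Matrix Cfsg.Agent.H27P34

lemma key {F : Type*} [Field F] [Fintype F] (hF : Fintype.card F = 4) (ω : F)
    (hω : ω ^ 2 + ω + 1 = 0) (h2 : (1 : F) + 1 = 0) (x : Matrix.SpecialLinearGroup (Fin 3) F)
    (hx : (QuotientGroup.mk x : Matrix.ProjectiveSpecialLinearGroup (Fin 3) F) ≠ 1)
    (hx3 : (QuotientGroup.mk x : Matrix.ProjectiveSpecialLinearGroup (Fin 3) F) ^ 3 = 1) :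
    ∃ P : Matrix (Fin 3) (Fin 3) F, IsUnit P.det ∧
      (x : Matrix (Fin 3) (Fin 3) F) * P = P * diagonal ![1, ω, ω ^ 2] := by
  classical
  have hcube : ∀ a : F, a ≠ 0 → a ^ 3 = 1 := by
    intro a ha
    have := FiniteField.pow_card_sub_one_eq_one a ha
    rwa [hF] at this
  have hxc : x ^ 3 ∈ Subgroup.center (Matrix.SpecialLinearGroup (Fin 3) F) := by
    rw [← QuotientGroup.eq_one_iff]
    exact hx3
  obtain ⟨r, hr3, hr⟩ := Matrix.SpecialLinearGroup.mem_center_iff.mp hxc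
  have hr0 : r ≠ 0 := by
    rintro rfl
    simp at hr3
  have hA3 : (x : Matrix (Fin 3) (Fin 3) F) ^ 3 = r • (1 : Matrix (Fin 3) (Fin 3) F) := by
    rw [← Matrix.SpecialLinearGroup.coe_pow, ← hr, Matrix.smul_one_eq_diagonal]
    rfl
  have hr1 := cube_one _ r hcube hr0 hA3 x.2
  have hA : (x : Matrix (Fin 3) (Fin 3) F) * x * x = 1 := by
    rw [hr1, one_smul] at hA3
    rw [← hA3, pow_succ, pow_two]
  apply diag3 _ hA x.2 _ ω hω h2
  rintro ⟨c, hc⟩
  apply hx
  rw [QuotientGroup.eq_one_iff]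
  apply Matrix.SpecialLinearGroup.mem_center_iff.mpr
  refine ⟨c, ?_, ?_⟩
  · have h1 := x.2
    rw [hc, Matrix.det_smul, Matrix.det_one, mul_one] at h1
    exact h1
  · rw [hc, Matrix.smul_one_eq_diagonal]
    rfl

lemma conj_of {F : Type*} [Field F] (D : Matrix (Fin 3) (Fin 3) F)
    (d : Fin 3 → F) (hD : D = diagonal d)
    (x y : Matrix.SpecialLinearGroup (Fin 3) F) (P Q : Matrix (Fin 3) (Fin 3) F)
    (hP : IsUnit P.det) (hQ : IsUnit Q.det)
    (hx : (x : Matrix (Fin 3) (Fin 3) F) * P = P * D)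
    (hy : (y : Matrix (Fin 3) (Fin 3) F) * Q = Q * D) :
    ∃ g : Matrix.SpecialLinearGroup (Fin 3) F, g * x * g⁻¹ = y := by
  have hQ0 : Q.det ≠ 0 := hQ.ne_zero
  have hP0 : P.det ≠ 0 := hP.ne_zero
  set T : Matrix (Fin 3) (Fin 3) F := diagonal ![P.det / Q.det, 1, 1] with hT
  have hTD : T * D = D * T := by
    rw [hT, hD, Matrix.diagonal_mul_diagonal, Matrix.diagonal_mul_diagonal]
    congr 1
    funext i
    exact mul_comm _ _
  have hTdet : T.det = P.det / Q.det := by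
    rw [hT, Matrix.det_diagonal, Fin.prod_univ_three]
    simp
  have hgdet : (Q * T * P⁻¹).det = 1 := by
    rw [Matrix.det_mul, Matrix.det_mul, hTdet, Matrix.det_nonsing_inv, Ring.inverse_eq_inv']
    field_simp
  let g : Matrix.SpecialLinearGroup (Fin 3) F := ⟨Q * T * P⁻¹, hgdet⟩
  refine ⟨g, ?_⟩
  apply mul_inv_eq_of_eq_mul
  apply Subtype.ext
  rw [Matrix.SpecialLinearGroup.coe_mul, Matrix.SpecialLinearGroup.coe_mul]
  have h1 : P⁻¹ * (x : Matrix (Fin 3) (Fin 3) F) = D * P⁻¹ := by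
    calc P⁻¹ * (x : Matrix (Fin 3) (Fin 3) F) = P⁻¹ * (x * P) * P⁻¹ := by
          rw [mul_assoc, mul_assoc (x : Matrix (Fin 3) (Fin 3) F), Matrix.mul_nonsing_inv P hP,
            mul_one]
      _ = D * P⁻¹ := by
          rw [hx, ← mul_assoc P⁻¹, Matrix.nonsing_inv_mul P hP, one_mul]
  change Q * T * P⁻¹ * (x : Matrix (Fin 3) (Fin 3) F) =
    (y : Matrix (Fin 3) (Fin 3) F) * (Q * T * P⁻¹)
  calc Q * T * P⁻¹ * (x : Matrix (Fin 3) (Fin 3) F) = Q * (T * D) * P⁻¹ := by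
        rw [mul_assoc (Q * T), h1]; simp only [mul_assoc]
    _ = (Q * D) * (T * P⁻¹) := by rw [hTD]; simp only [mul_assoc]
    _ = (y : Matrix (Fin 3) (Fin 3) F) * (Q * T * P⁻¹) := by rw [← hy]; simp only [mul_assoc]


/-- In the projective special linear group PSL(3, 4) all subgroups of order 3 are conjugate. -/
theorem result (F : Type*) [Field F] [Fintype F] (hF : Fintype.card F = 4) (X Y : Subgroup (Matrix.ProjectiveSpecialLinearGroup (Fin 3) F)) (hX : Nat.card ↥X = 3) (hY : Nat.card ↥Y = 3) : ∃ g : Matrix.ProjectiveSpecialLinearGroup (Fin 3) F, MulAut.conj g • X = Y := by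
  classical
  -- an element ω
  have h2 : (1 : F) + 1 = 0 := by
    have h4 : ((Fintype.card F : ℕ) : F) = 0 := FiniteField.cast_card_eq_zero F
    rw [hF] at h4
    have h5 : ((1 : F) + 1) * (1 + 1) = 0 := by
      rw [← h4]; push_cast; ring
    rcases mul_eq_zero.mp h5 with h | h <;> exact h
  have hω : ∃ ω : F, ω ^ 2 + ω + 1 = 0 := by
    have h1 : ∃ ω : F, ω ≠ 0 ∧ ω ≠ 1 := by
      by_contra hcon
      push Not at hcon
      have h3 : (Finset.univ : Finset F) ⊆ {0, 1} := by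
        intro a _
        simp only [Finset.mem_insert, Finset.mem_singleton]
        by_cases ha : a = 0
        · exact Or.inl ha
        · exact Or.inr (hcon a ha)
      have h4 := Finset.card_le_card h3
      rw [Finset.card_univ, hF] at h4
      have h5 : ({0, 1} : Finset F).card ≤ 2 := Finset.card_le_two
      omega
    obtain ⟨ω, h0, h1⟩ := h1
    refine ⟨ω, ?_⟩
    have h3 := FiniteField.pow_card_sub_one_eq_one ω h0
    rw [hF] at h3
    have h4 : (ω - 1) * (ω ^ 2 + ω + 1) = 0 := by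
      have : (ω - 1) * (ω ^ 2 + ω + 1) = ω ^ (4 - 1) - 1 := by ring
      rw [this, h3, sub_self]
    rcases mul_eq_zero.mp h4 with h | h
    · exact absurd (sub_eq_zero.mp h) h1
    · exact h
  obtain ⟨ω, hω⟩ := hω
  haveI : Fact (Nat.Prime 3) := ⟨by norm_num⟩
  have gen : ∀ Z : Subgroup (Matrix.ProjectiveSpecialLinearGroup (Fin 3) F), Nat.card Z = 3 →
      ∃ z, z ≠ 1 ∧ z ^ 3 = 1 ∧ Subgroup.zpowers z = Z := by
    intro Z hZ
    haveI : IsCyclic Z := isCyclic_of_prime_card hZ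
    obtain ⟨z, hz⟩ := IsCyclic.exists_generator (α := Z)
    have ho : orderOf z = 3 := by
      rw [orderOf_eq_card_of_forall_mem_zpowers hz, hZ]
    have ho' : orderOf (z : Matrix.ProjectiveSpecialLinearGroup (Fin 3) F) = 3 := by
      rw [Subgroup.orderOf_coe, ho]
    refine ⟨z, ?_, ?_, ?_⟩
    · intro h
      rw [h, orderOf_one] at ho'
      omega
    · have h7 := pow_orderOf_eq_one (z : Matrix.ProjectiveSpecialLinearGroup (Fin 3) F)
      rwa [ho'] at h7
    · apply Subgroup.eq_of_le_of_card_ge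
      · rw [Subgroup.zpowers_le]; exact z.2
      · rw [Nat.card_zpowers, ho', hZ]
  obtain ⟨x, hx1, hx3, rfl⟩ := gen X hX
  obtain ⟨y, hy1, hy3, rfl⟩ := gen Y hY
  obtain ⟨a, rfl⟩ := QuotientGroup.mk_surjective x
  obtain ⟨b, rfl⟩ := QuotientGroup.mk_surjective y
  obtain ⟨P, hP, hxP⟩ := key hF ω hω h2 a hx1 hx3
  obtain ⟨Q, hQ, hyQ⟩ := key hF ω hω h2 b hy1 hy3
  obtain ⟨g, hg⟩ := conj_of _ ![1, ω, ω ^ 2] rfl a b P Q hP hQ hxP hyQ
  refine ⟨QuotientGroup.mk g, ?_⟩
  rw [← hg]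
  have : (QuotientGroup.mk (g * a * g⁻¹) : Matrix.ProjectiveSpecialLinearGroup (Fin 3) F) =
      MulAut.conj (QuotientGroup.mk g : Matrix.ProjectiveSpecialLinearGroup (Fin 3) F)
        (QuotientGroup.mk a) := by
    rw [MulAut.conj_apply]; rfl
  rw [this, Subgroup.pointwise_smul_def]
  exact MonoidHom.map_zpowers _ _

end Cfsg.Agent.S2739
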