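import Cfsg.Statements.S2758
import Cfsg.Agent.H17_InvDih

set_option autoImplicit false
open Cfsg

namespace Cfsg.Agent.S2758

/-- For an odd prime p and a finite group G the following are equivalent: the dihedral group of order 2p is involved in G; some element of 2-power order normalizes but does not centralize some p-subgroup of G; some element of 2-power order inverts some nonidentity element of p-power order. -/
theorem result {G : Type*} [Group G] [Finite G] {p : ℕ} [Fact p.Prime] (hp : p ≠ 2) : (Cfsg.Involves (DihedralGroup p) G ↔ ∃ (x : G) (P : Subgroup G), (∃ k : ℕ, orderOf x = 2 ^ k) ∧ IsPGroup p ↥P ∧ x ∈ Subgroup.normalizer (P : Set G) ∧ x ∉ Subgroup.centralizer (P : Set G)) ∧ (Cfsg.Involves (DihedralGroup p) G ↔ ∃ x y : G, (∃ k : ℕ, orderOf x = 2 ^ k) ∧ (∃ k : ℕ, orderOf y = p ^ k) ∧ y ≠ 1 ∧ x * y * x⁻¹ = y⁻¹) := by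
  have hpp : p.Prime := Fact.out
  have hab : Cfsg.Involves (DihedralGroup p) G → ∃ x y : G, (∃ k : ℕ, orderOf x = 2 ^ k) ∧
      (∃ k : ℕ, orderOf y = p ^ k) ∧ y ≠ 1 ∧ x * y * x⁻¹ = y⁻¹ :=
    fun h => Cfsg.Agent.H17.InvDih.inverted_of_involves hp h
  have hca : (∃ x y : G, (∃ k : ℕ, orderOf x = 2 ^ k) ∧
      (∃ k : ℕ, orderOf y = p ^ k) ∧ y ≠ 1 ∧ x * y * x⁻¹ = y⁻¹) → Cfsg.Involves (DihedralGroup p) G := by
    rintro ⟨x, y, hx, hy, hy1, hxy⟩
    exact Cfsg.Agent.H17.InvDih.involves_of_inverted hp hx hy hy1 hxy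
  have hcb : (∃ x y : G, (∃ k : ℕ, orderOf x = 2 ^ k) ∧
      (∃ k : ℕ, orderOf y = p ^ k) ∧ y ≠ 1 ∧ x * y * x⁻¹ = y⁻¹) → ∃ (x : G) (P : Subgroup G),
      (∃ k : ℕ, orderOf x = 2 ^ k) ∧ IsPGroup p ↥P ∧ x ∈ Subgroup.normalizer (P : Set G) ∧
      x ∉ Subgroup.centralizer (P : Set G) := by
    rintro ⟨x, y, hx, ⟨l, hl⟩, hy1, hxy⟩
    refine ⟨x, Subgroup.zpowers y, hx, IsPGroup.of_card (n := l) (by rw [Nat.card_zpowers, hl]), ?_, ?_⟩
    · apply Cfsg.Agent.H17.Base.mem_Nz_of_cj_le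
      show Subgroup.map _ _ ≤ _
      rw [MonoidHom.map_zpowers, Subgroup.zpowers_le]
      show x * y * x⁻¹ ∈ _
      rw [hxy]; exact Subgroup.inv_mem _ (Subgroup.mem_zpowers y)
    · intro hc
      have h1 := (Subgroup.mem_centralizer_iff.1 hc) y (Subgroup.mem_zpowers y)
      have h2 : x * y * x⁻¹ = y := by rw [← h1]; simp
      rw [hxy] at h2
      have h3 : y ^ 2 = 1 := by rw [pow_two]; nth_rewrite 1 [← h2]; exact inv_mul_cancel y
      have h4 : p ^ l ∣ 2 := by rw [← hl]; exact orderOf_dvd_of_pow_eq_one h3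
      rcases Nat.eq_zero_or_pos l with h0 | h0
      · rw [h0, pow_zero, orderOf_eq_one_iff] at hl; exact hy1 hl
      · have h5 : p ∣ 2 := (dvd_pow_self p h0.ne').trans h4
        exact hp ((Nat.prime_dvd_prime_iff_eq hpp Nat.prime_two).1 h5)
  have hbc : (∃ (x : G) (P : Subgroup G),
      (∃ k : ℕ, orderOf x = 2 ^ k) ∧ IsPGroup p ↥P ∧ x ∈ Subgroup.normalizer (P : Set G) ∧
      x ∉ Subgroup.centralizer (P : Set G)) → ∃ x y : G, (∃ k : ℕ, orderOf x = 2 ^ k) ∧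
      (∃ k : ℕ, orderOf y = p ^ k) ∧ y ≠ 1 ∧ x * y * x⁻¹ = y⁻¹ := by
    rintro ⟨x, P, hx, hP, hxN, hxC⟩
    obtain ⟨x, y, h1, h2, h3, h4, -⟩ := Cfsg.Agent.H17.InvDih.inverted_of_normalizes hp hx hP hxN hxC
    exact ⟨x, y, h1, h2, h3, h4⟩
  exact ⟨⟨fun h => hcb (hab h), fun h => hca (hbc h)⟩, ⟨hab, hca⟩⟩

end Cfsg.Agent.S2758
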