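import Cfsg.Statements.S2760
import Cfsg.Agent.H17_PRed

set_option autoImplicit false
open Cfsg

namespace Cfsg.Agent.S2760

open Cfsg.Agent.H17.Base in
theorem charP_of_resOf {G : Type*} [Group G] {p : ℕ} [Fact p.Prime] {H : Subgroup G} [Finite G] (h : Cfsg.Agent.H17.Base.CharP p (resOf p H)) :
    Cfsg.Agent.H17.Base.CharP p H := by
  have h1 : pCoreOf p (resOf p H) ≤ pCoreOf p H := pCoreOf_mono_normal (resOf_le H) (le_Nz_resOf H)
  have h2 : resOf p (H ⊓ Cz (pCoreOf p H)) ≤ pCoreOf p (resOf p H) := by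
    refine le_trans (le_inf (resOf_mono inf_le_left) ?_) h
    exact ((resOf_le _).trans inf_le_right).trans (Cz_anti h1)
  have h3 : IsPGroup p ↥(H ⊓ Cz (pCoreOf p H)) := by
    apply isPGroup_of_resOf_eq_bot
    rw [← resOf_resOf]
    exact resOf_eq_bot_iff.2 ((pCoreOf_isPGroup _).to_le h2)
  exact le_pCoreOf inf_le_left ((le_inf Subgroup.le_normalizer ((le_Nz_pCoreOf H).trans (Nz_le_Nz_Cz _))).trans (Nz_inf_le _ _)) h3

open Cfsg.Agent.H17.Base in
/-- Let G be a finite group with C_G(O₂(G)) ≤ O₂(G) and H a subgroup of G such that H is normal in G, or the subgroup O²(H) generated by the elements of H of odd order is normal in G. Then C_H(O₂(H)) ≤ O₂(H). -/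
theorem result {G : Type*} [Group G] [Finite G] (hchar : Subgroup.centralizer (Cfsg.pCore 2 G : Set G) ≤ Cfsg.pCore 2 G) (H : Subgroup G) (hH : H.Normal ∨ ((Cfsg.pResidual 2 ↥H).map H.subtype).Normal) : Subgroup.centralizer (Cfsg.pCore 2 ↥H : Set ↥H) ≤ Cfsg.pCore 2 ↥H := by
  have hG : Cfsg.Agent.H17.Base.CharP 2 (⊤ : Subgroup G) := Cfsg.Agent.H17.Base.charP_top_iff.1 hchar
  rw [Cfsg.Agent.H17.Base.charP_iff]
  rcases hH with hH | hH
  · exact (SN.of_normal le_top (normal_iff_top_le_Nz.1 hH)).charP hG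
  · apply charP_of_resOf
    exact (SN.of_normal le_top (normal_iff_top_le_Nz.1 hH)).charP hG

end Cfsg.Agent.S2760
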