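import Cfsg.Statements.S2762
import Cfsg.Agent.H17_NatSL2
import Cfsg.Agent.H17_QdF

set_option autoImplicit false
open Cfsg Matrix

namespace Cfsg.Agent.S2762

/-- Structure of Qd over a finite field F of characteristic p (the affine subgroup of SL₃(F)): its largest normal p-subgroup is the group of translations (matrices with upper-left block the identity), the block-diagonal matrices form a complement isomorphic to SL₂(F), and the translation subgroup is a natural SL₂(F)-module for that complement. -/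
theorem result {F : Type*} [Field F] [Fintype F] {p : ℕ} [Fact p.Prime] [CharP F p] : (∀ M : ↥(Cfsg.qdOver F), M ∈ Cfsg.pCore p ↥(Cfsg.qdOver F) ↔ ((M : Matrix.SpecialLinearGroup (Fin 3) F) : Matrix (Fin 3) (Fin 3) F) 0 0 = 1 ∧ ((M : Matrix.SpecialLinearGroup (Fin 3) F) : Matrix (Fin 3) (Fin 3) F) 0 1 = 0 ∧ ((M : Matrix.SpecialLinearGroup (Fin 3) F) : Matrix (Fin 3) (Fin 3) F) 1 0 = 0 ∧ ((M : Matrix.SpecialLinearGroup (Fin 3) F) : Matrix (Fin 3) (Fin 3) F) 1 1 = 1) ∧ ∃ K : Subgroup ↥(Cfsg.qdOver F), (∀ M : ↥(Cfsg.qdOver F), M ∈ K ↔ ((M : Matrix.SpecialLinearGroup (Fin 3) F) : Matrix (Fin 3) (Fin 3) F) 0 2 = 0 ∧ ((M : Matrix.SpecialLinearGroup (Fin 3) F) : Matrix (Fin 3) (Fin 3) F) 1 2 = 0) ∧ K ⊓ Cfsg.pCore p ↥(Cfsg.qdOver F) = ⊥ ∧ K ⊔ Cfsg.pCore p ↥(Cfsg.qdOver F) = ⊤ ∧ Nonempty (↥K ≃* Matrix.SpecialLinearGroup (Fin 2) F) ∧ Cfsg.IsNaturalSL2Module F (Cfsg.pCore p ↥(Cfsg.qdOver F)) K := by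
  classical
  have e0 : ∀ (A : H5.SL2.S F) (w : Fin 2 → F), (((H17.QdF.mk A w : ↥(Cfsg.qdOver F)) : Matrix.SpecialLinearGroup (Fin 3) F) : Matrix (Fin 3) (Fin 3) F)
      = H27.Qd.mk3M A.1 w := fun A w => rfl
  have hker : ∀ (A : H5.SL2.S F) (w : Fin 2 → F), H17.QdF.mk A w ∈ Cfsg.pCore p ↥(Cfsg.qdOver F) ↔ A = 1 := by
    intro A w
    rw [H17.QdF.pCore_eq, MonoidHom.mem_ker, H17.QdF.lin_mk]
  refine ⟨?_, ?_⟩
  · intro M
    obtain ⟨A, w, rfl⟩ := H17.QdF.exists_mk M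
    rw [hker, e0]
    constructor
    · rintro rfl
      exact ⟨rfl, rfl, rfl, rfl⟩
    · rintro ⟨h1, h2, h3, h4⟩
      exact H5.SL2.ext2 h1 h2 h3 h4
  · let K : Subgroup ↥(Cfsg.qdOver F) := (MonoidHom.mk' (fun A : H5.SL2.S F => H17.QdF.mk A 0) (by
      intro A B; rw [H17.QdF.mk_mul]; simp)).range
    have hK : ∀ (A : H5.SL2.S F) (w : Fin 2 → F), H17.QdF.mk A w ∈ K ↔ w = 0 := by
      intro A w
      constructor
      · rintro ⟨B, hB⟩
        exact (H17.QdF.mk_inj (A := B) (w := 0) hB).2.symm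
      · rintro rfl; exact ⟨A, rfl⟩
    refine ⟨K, ?_, ?_, ?_, ?_, ?_⟩
    · intro M
      obtain ⟨A, w, rfl⟩ := H17.QdF.exists_mk M
      rw [hK, e0]
      constructor
      · rintro rfl
        exact ⟨rfl, rfl⟩
      · rintro ⟨h1, h2⟩
        ext i; fin_cases i
        · exact h1
        · exact h2
    · rw [eq_bot_iff]
      rintro M ⟨h1, h2⟩
      obtain ⟨A, w, rfl⟩ := H17.QdF.exists_mk M
      have h3 := (hK A w).1 h1
      have h4 := (hker A w).1 h2
      rw [h3, h4, H17.QdF.mk_one]; exact one_mem _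
    · rw [eq_top_iff]
      rintro M -
      obtain ⟨A, w, rfl⟩ := H17.QdF.exists_mk M
      have h1 : H17.QdF.mk A w = H17.QdF.mk 1 w * H17.QdF.mk A 0 := by
        rw [H17.QdF.mk_mul]; simp
      rw [h1]
      exact mul_mem (Subgroup.mem_sup_right ((hker 1 w).2 rfl)) (Subgroup.mem_sup_left ((hK A 0).2 rfl))
    · refine ⟨(MonoidHom.ofInjective ?_).symm⟩
      intro A B h
      exact (H17.QdF.mk_inj (w := 0) (u := 0) h).1
    · refine ⟨?_, ?_⟩
      · have : (Cfsg.pCore p ↥(Cfsg.qdOver F)).Normal := H17.Base.pCore_normal p _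
        rw [Subgroup.normalizer_eq_top]; exact le_top
      have hinj : ∀ w u : Fin 2 → F, H17.QdF.mk 1 w = H17.QdF.mk 1 u ↔ w = u :=
        fun w u => ⟨fun h => (H17.QdF.mk_inj h).2, fun h => by rw [h]⟩
      let ψ : (Fin 2 → F) ≃+ Additive (Cfsg.pCore p ↥(Cfsg.qdOver F)) := AddEquiv.ofBijective
        (AddMonoidHom.mk' (fun w => Additive.ofMul (⟨H17.QdF.mk 1 w, (hker 1 w).2 rfl⟩ : Cfsg.pCore p ↥(Cfsg.qdOver F)))
          (fun w u => congrArg Additive.ofMul (Subtype.ext (H17.QdF.mk_one_mul w u).symm)))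
        ⟨fun w u h => (hinj w u).1 (congrArg Subtype.val (Additive.ofMul.injective h)), fun v => by
          obtain ⟨A, w, hv⟩ := H17.QdF.exists_mk (v.toMul : ↥(Cfsg.qdOver F))
          have h1 := (hker A w).1 (hv ▸ v.toMul.2)
          refine ⟨w, ?_⟩
          apply Additive.toMul.injective
          apply Subtype.ext
          rw [hv, h1]; rfl⟩
      have hψ : ∀ w, (((ψ w).toMul : Cfsg.pCore p ↥(Cfsg.qdOver F)) : ↥(Cfsg.qdOver F)) = H17.QdF.mk 1 w := fun w => rfl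
      refine ⟨(H17.QdF.lin).comp K.subtype, ψ.symm, ?_, ?_, ?_⟩
      · intro A
        exact ⟨⟨H17.QdF.mk A 0, (hK A 0).2 rfl⟩, H17.QdF.lin_mk A 0⟩
      · ext k
        obtain ⟨M, hM⟩ := k
        obtain ⟨A, w, rfl⟩ := H17.QdF.exists_mk M
        have hw := (hK A w).1 hM
        subst hw
        have h1 : (⟨H17.QdF.mk A 0, hM⟩ : K) ∈ ((H17.QdF.lin).comp K.subtype).ker ↔ A = 1 := by
          rw [MonoidHom.mem_ker, MonoidHom.comp_apply, Subgroup.coe_subtype, H17.QdF.lin_mk]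
        rw [h1, Subgroup.mem_subgroupOf, H17.NatSL2.mem_Cz_iff']
        constructor
        · rintro rfl v hv
          show H17.QdF.mk 1 0 * v * (H17.QdF.mk 1 0)⁻¹ = v
          rw [H17.QdF.mk_one]; group
        · intro h
          have h2 : ∀ v : Fin 2 → F, A.1 *ᵥ v = v := by
            intro v
            have h3 := h (H17.QdF.mk 1 v) ((hker 1 v).2 rfl)
            have h4 : H17.QdF.mk A 0 * H17.QdF.mk 1 v = H17.QdF.mk 1 v * H17.QdF.mk A 0 := by
              rw [← mul_inv_eq_iff_eq_mul]; exact h3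
            rw [H17.QdF.mk_mul, H17.QdF.mk_mul] at h4
            have h5 := (H17.QdF.mk_inj h4).2
            simpa using h5
          apply Subtype.ext
          apply Matrix.ext_of_mulVec_single
          intro i
          rw [h2, Matrix.SpecialLinearGroup.coe_one, Matrix.one_mulVec]
      · rintro ⟨M, hM⟩ v
        obtain ⟨A, w, rfl⟩ := H17.QdF.exists_mk M
        have hw := (hK A w).1 hM
        subst hw
        refine ⟨(ψ (A.1 *ᵥ ψ.symm (Additive.ofMul v))).toMul, ?_, ?_⟩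
        · rw [hψ]
          have h1 : (v : ↥(Cfsg.qdOver F)) = H17.QdF.mk 1 (ψ.symm (Additive.ofMul v)) := by
            rw [← hψ, AddEquiv.apply_symm_apply]; rfl
          show _ = H17.QdF.mk A 0 * (v : ↥(Cfsg.qdOver F)) * (H17.QdF.mk A 0)⁻¹
          rw [eq_mul_inv_iff_mul_eq, h1, H17.QdF.mk_mul, H17.QdF.mk_mul]
          simp
        · rw [ofMul_toMul, AddEquiv.symm_apply_apply]
          show A.1 *ᵥ _ = (H17.QdF.lin (H17.QdF.mk A 0)).1 *ᵥ _
          rw [H17.QdF.lin_mk]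

end Cfsg.Agent.S2762
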