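import Cfsg.Statements.S2763
import Cfsg.Agent.H17_QdSyl
import Cfsg.Agent.H17_Frat

set_option autoImplicit false
open Cfsg

namespace Cfsg.Agent.S2763

theorem main {F : Type*} [Field F] [Finite F] {p : ℕ} [Fact p.Prime] [CharP F p] (S : Sylow p ↥(qdOver F))
    (T : Subgroup ↥(S : Subgroup ↥(qdOver F))) (hT : T ≠ ⊥) (hTc : T.Characteristic) :
    Subgroup.normalizer ((T.map (S : Subgroup ↥(qdOver F)).subtype : Subgroup ↥(qdOver F)) : Set ↥(qdOver F)) =
      Subgroup.normalizer ((S : Subgroup ↥(qdOver F)) : Set ↥(qdOver F)) ∧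
    Subgroup.normalizer ((S : Subgroup ↥(qdOver F)) : Set ↥(qdOver F)) ≠ ⊤ := by
  have hfin := H17.QdF.finite_qd (F := F)
  have hSne : Subgroup.normalizer ((S : Subgroup ↥(qdOver F)) : Set ↥(qdOver F)) ≠ ⊤ := by
    intro h
    have h1 : (S : Subgroup ↥(qdOver F)).Normal := Subgroup.normalizer_eq_top_iff.1 h
    have h2 : (S : Subgroup ↥(qdOver F)) = (H17.QdF.lin (F := F)).ker := by
      apply H17.QdF.normal_eq (p := p) _ h1 S.2
      intro h3
      apply hT
      rw [Subgroup.eq_bot_iff_forall]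
      intro x _
      have hx : (x : ↥(qdOver F)) ∈ (⊥ : Subgroup ↥(qdOver F)) := h3.le x.2
      exact Subtype.ext (Subgroup.mem_bot.1 hx)
    apply H17.QdF.not_char (F := F) (p := p) S
    have h3 : (H17.QdF.lin (F := F)).ker.subgroupOf (S : Subgroup ↥(qdOver F)) = ⊤ := by
      rw [← h2, Subgroup.subgroupOf_self]
    rw [h3]; infer_instance
  refine ⟨?_, hSne⟩
  have hle : Subgroup.normalizer ((S : Subgroup ↥(qdOver F)) : Set ↥(qdOver F)) ≤
      Subgroup.normalizer ((T.map (S : Subgroup ↥(qdOver F)).subtype : Subgroup ↥(qdOver F)) : Set ↥(qdOver F)) :=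
    H17.Base.char_map_le_Nz hTc
  have hT'p : IsPGroup p ↥(T.map (S : Subgroup ↥(qdOver F)).subtype) := (S.2.to_subgroup T).map _
  have hT'1 : (T.map (S : Subgroup ↥(qdOver F)).subtype) ≠ ⊥ := by
    intro h
    apply hT
    rwa [Subgroup.map_eq_bot_iff_of_injective _ (S : Subgroup ↥(qdOver F)).subtype_injective] at h
  apply le_antisymm _ hle
  by_contra hcon
  have h1 := H17.QdF.eq_top_of (F := F) (p := p) S _ (Subgroup.le_normalizer.trans hle) hcon
  have h2 : (T.map (S : Subgroup ↥(qdOver F)).subtype).Normal := Subgroup.normalizer_eq_top_iff.1 h1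
  have h3 := H17.QdF.normal_eq (p := p) _ h2 hT'p hT'1
  apply H17.QdF.not_char (F := F) (p := p) S
  have h4 : (H17.QdF.lin (F := F)).ker.subgroupOf (S : Subgroup ↥(qdOver F)) = T := by
    rw [← h3]
    exact Subgroup.comap_map_eq_self_of_injective (S : Subgroup ↥(qdOver F)).subtype_injective T
  rw [h4]
  exact hTc
/-- In the group Qd(p) (p prime; the natural semidirect product of an elementary abelian group of order p² by SL₂(p)), the normalizer of every nontrivial characteristic subgroup of a Sylow p-subgroup S equals the normalizer of S, which is a proper subgroup; in particular no such characteristic subgroup is normal. -/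
theorem result {p : ℕ} [Fact p.Prime] (S : Sylow p ↥(Cfsg.qd p)) (T : Subgroup ↥(S : Subgroup ↥(Cfsg.qd p))) (hT : T ≠ ⊥) (hTc : T.Characteristic) : Subgroup.normalizer ((T.map (S : Subgroup ↥(Cfsg.qd p)).subtype : Subgroup ↥(Cfsg.qd p)) : Set ↥(Cfsg.qd p)) = Subgroup.normalizer ((S : Subgroup ↥(Cfsg.qd p)) : Set ↥(Cfsg.qd p)) ∧ Subgroup.normalizer ((S : Subgroup ↥(Cfsg.qd p)) : Set ↥(Cfsg.qd p)) ≠ ⊤ := by
  exact main (F := ZMod p) S T hT hTc

end Cfsg.Agent.S2763
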