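import Cfsg.Statements.S2779
import Cfsg.Agent.H17_NatSL2

set_option autoImplicit false
open Cfsg

namespace Cfsg.Agent.S2779

/-- Let L act on the elementary abelian p-group V (inside a finite group, by conjugation, faithfully) as SL₂(F) on its natural module, F a field with p^n elements, and let S be a Sylow p-subgroup of L. Then [V, S, S] = 1; |V| = p^(2n) and |C_V(S)| = p^n; and for every nonidentity s ∈ S and every v ∈ V outside C_V(S): C_V(s) = C_V(S) = [V, S] = [V, s] = the subgroup generated by the commutators [v, t], t ∈ S. -/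
theorem result {G : Type*} [Group G] [Finite G] {p : ℕ} [Fact p.Prime] {F : Type*} [Field F] [Fintype F] (n : ℕ) (hF : Fintype.card F = p ^ n) (V L : Subgroup G) (hnat : Cfsg.IsNaturalSL2Module F V L) (hf : L ⊓ Subgroup.centralizer (V : Set G) = ⊥) (S : Sylow p ↥L) (T : Subgroup G) (hT : T = ((S : Subgroup ↥L).map L.subtype)) : ⁅⁅V, T⁆, T⁆ = ⊥ ∧ Nat.card V = p ^ (2 * n) ∧ Nat.card ↥(V ⊓ Subgroup.centralizer ((T : Subgroup G) : Set G)) = p ^ n ∧ ∀ s ∈ T, s ≠ 1 → (V ⊓ Subgroup.centralizer ({s} : Set G)) = (V ⊓ Subgroup.centralizer ((T : Subgroup G) : Set G)) ∧ ⁅V, T⁆ = (V ⊓ Subgroup.centralizer ((T : Subgroup G) : Set G)) ∧ ⁅V, Subgroup.zpowers s⁆ = (V ⊓ Subgroup.centralizer ((T : Subgroup G) : Set G)) ∧ ∀ v ∈ V, v ∉ Subgroup.centralizer (T : Set G) → Subgroup.closure {x : G | ∃ t ∈ T, x = v * t * v⁻¹ * t⁻¹} = (V ⊓ Subgroup.centralizer ((T : Subgroup G) : Set G)) := by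
  haveI := H17.NatSL2.charP_of_card hF
  obtain ⟨D, -, hD⟩ := H17.NatSL2.exists_uni hnat hf S T hT
  have hc : V ⊓ Subgroup.centralizer (T : Set G) = D.line := hD.cent
  have hle : D.line ≤ Subgroup.centralizer (T : Set G) := by rw [← hc]; exact inf_le_right
  refine ⟨?_, ?_, ?_, ?_⟩
  · rw [Subgroup.commutator_eq_bot_iff_le_centralizer]
    exact hD.comm_le.trans hle
  · rw [D.card, hF, ← pow_mul, mul_comm]
  · rw [hc, D.card_line, hF]
  · intro s hs hs1
    rw [hc]
    have h1 : D.line ≤ ⁅V, Subgroup.zpowers s⁆ := hD.le_comm hf hs hs1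
    have h2 : ⁅V, Subgroup.zpowers s⁆ ≤ ⁅V, T⁆ := Subgroup.commutator_mono le_rfl (Subgroup.zpowers_le.2 hs)
    exact ⟨hD.cent_singleton hf hs hs1, le_antisymm hD.comm_le (h1.trans h2),
      le_antisymm (h2.trans hD.comm_le) h1, fun v hv hvT => hD.closure hv hvT⟩

end Cfsg.Agent.S2779
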