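import Cfsg.Statements.S2780
import Cfsg.Agent.H17_NatSL2
import Cfsg.Agent.H18_Dickson

set_option autoImplicit false
open Cfsg

namespace Cfsg.Agent.S2780

/-- Let L act on the elementary abelian p-group V (inside a finite group, faithfully) as SL₂(F) on its natural module, F a field with p^n elements, S a Sylow p-subgroup of L. Then: for every g ∈ L not normalizing S, V is the internal direct product of C_V(S) and C_V(gSg⁻¹); every nonidentity element of L of order prime to p acts on V without nonidentity fixed points; and C_V(S) and V/C_V(S) are irreducible for N_L(S): the only N_L(S)-invariant subgroups of C_V(S) are 1 and C_V(S), and the only N_L(S)-invariant subgroups between C_V(S) and V are those two. -/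
theorem result {G : Type*} [Group G] [Finite G] {p : ℕ} [Fact p.Prime] {F : Type*} [Field F] [Fintype F] (n : ℕ) (hF : Fintype.card F = p ^ n) (V L : Subgroup G) (hnat : Cfsg.IsNaturalSL2Module F V L) (hf : L ⊓ Subgroup.centralizer (V : Set G) = ⊥) (S : Sylow p ↥L) (T : Subgroup G) (hT : T = ((S : Subgroup ↥L).map L.subtype)) : (∀ g ∈ L, g ∉ Subgroup.normalizer (T : Set G) → Cfsg.IsInternalDirectProduct (V ⊓ Subgroup.centralizer ((T : Subgroup G) : Set G)) (V ⊓ Subgroup.centralizer ((T.map (MulAut.conj g).toMonoidHom : Subgroup G) : Set G)) V) ∧ (∀ x ∈ L, x ≠ 1 → (orderOf x).Coprime p → (V ⊓ Subgroup.centralizer ({x} : Set G)) = ⊥) ∧ (∀ U : Subgroup G, U ≤ (V ⊓ Subgroup.centralizer ((T : Subgroup G) : Set G)) → L ⊓ Subgroup.normalizer (T : Set G) ≤ Subgroup.normalizer (U : Set G) → U = ⊥ ∨ U = (V ⊓ Subgroup.centralizer ((T : Subgroup G) : Set G))) ∧ (∀ U : Subgroup G, (V ⊓ Subgroup.centralizer ((T : Subgroup G) : Set G))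 ≤ U → U ≤ V → L ⊓ Subgroup.normalizer (T : Set G) ≤ Subgroup.normalizer (U : Set G) → U = (V ⊓ Subgroup.centralizer ((T : Subgroup G) : Set G)) ∨ U = V) := by
  haveI := H17.NatSL2.charP_of_card hF
  obtain ⟨D, hinj, hD⟩ := H17.NatSL2.exists_uni hnat hf S T hT
  have hc : V ⊓ Subgroup.centralizer (T : Set G) = D.line := hD.cent
  have htor : ∀ t : Fˣ, ∃ l ∈ L ⊓ Subgroup.normalizer (T : Set G), ∀ a b, l * D.e a b * l⁻¹ =
      D.e ((t : F) * a) (((t⁻¹ : Fˣ) : F) * b) := by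
    intro t
    obtain ⟨⟨l, hl⟩, hx⟩ := D.onto (H5.SL2.d t)
    refine ⟨l, ⟨hl, H17.Base.mem_Nz_of_cj_le ?_⟩, ?_⟩
    · rintro _ ⟨m, hm, rfl⟩
      have hm' := (hD.2 m (hD.1 hm)).1 hm
      obtain ⟨y, hy⟩ := hm'
      have hml : l * m * l⁻¹ ∈ L := L.mul_mem (L.mul_mem hl (hD.1 hm)) (L.inv_mem hl)
      apply (hD.2 (l * m * l⁻¹) hml).2
      have e1 : (⟨l * m * l⁻¹, hml⟩ : L) = ⟨l, hl⟩ * ⟨m, hD.1 hm⟩ * ⟨l, hl⟩⁻¹ := rfl
      exact ⟨_, by rw [e1, map_mul, map_mul, map_inv, hx, hy, H5.SL2.conj_u rfl]⟩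
    · intro a b
      rw [D.act_mem hl, hx]
      congr 1
      · simp [H5.SL2.d]
      · simp [H5.SL2.d]
  refine ⟨?_, ?_, ?_, ?_⟩
  · intro g hg hgT
    have hρ : (D.ρ ⟨g, hg⟩).1 1 0 ≠ 0 := by
      intro h0
      apply hgT
      apply H17.Base.mem_Nz_of_cj_le
      rintro _ ⟨m, hm, rfl⟩
      obtain ⟨y, hy⟩ := (hD.2 m (hD.1 hm)).1 hm
      have hml : g * m * g⁻¹ ∈ L := L.mul_mem (L.mul_mem hg (hD.1 hm)) (L.inv_mem hg)
      apply (hD.2 (g * m * g⁻¹) hml).2
      have e1 : (⟨g * m * g⁻¹, hml⟩ : L) = ⟨g, hg⟩ * ⟨m, hD.1 hm⟩ * ⟨g, hg⟩⁻¹ := rfl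
      exact ⟨_, by rw [e1, map_mul, map_mul, map_inv, hy, H5.SL2.conj_u h0]⟩
    have hV : H17.Base.cj g V = V := H17.Base.cj_eq_of_mem_Nz (D.norm hg)
    have h2 : V ⊓ Subgroup.centralizer ((T.map (MulAut.conj g).toMonoidHom : Subgroup G) : Set G) = H17.Base.cj g D.line := by
      rw [← hc, H17.Base.cj_inf, hV]
      congr 1
      exact (H17.Base.cj_Cz g T).symm
    rw [hc, h2]
    set ρ := D.ρ ⟨g, hg⟩ with hρdef
    have hmem : ∀ x, x ∈ H17.Base.cj g D.line ↔ ∃ c, x = D.e (ρ.1 0 0 * c) (ρ.1 1 0 * c) := by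
      intro x
      constructor
      · rintro ⟨_, ⟨a, rfl⟩, rfl⟩
        refine ⟨a, ?_⟩
        show g * D.e a 0 * g⁻¹ = _
        rw [D.act_mem hg]
        simp [hρdef]
      · rintro ⟨c, rfl⟩
        refine ⟨D.e c 0, ⟨c, rfl⟩, ?_⟩
        show g * D.e c 0 * g⁻¹ = _
        rw [D.act_mem hg]
        simp [hρdef]
    refine ⟨D.line_le, ?_, ?_, ?_, ?_⟩
    · exact (H17.Base.cj_mono D.line_le).trans hV.le
    · intro a ha b hb
      refine D.comm (D.line_le ha) ?_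
      obtain ⟨c, rfl⟩ := (hmem b).1 hb
      exact D.mem _ _
    · rw [eq_bot_iff]
      rintro x ⟨⟨a, rfl⟩, hx⟩
      obtain ⟨c, hc'⟩ := (hmem _).1 hx
      obtain ⟨h3, h4⟩ := D.inj _ _ _ _ hc'
      have h5 : c = 0 := (mul_eq_zero.1 h4.symm).resolve_left hρ
      rw [h5, mul_zero] at h3
      rw [Subgroup.mem_bot, D.eq_one]
      exact ⟨h3, rfl⟩
    · apply le_antisymm
      · refine sup_le D.line_le ?_
        exact (H17.Base.cj_mono D.line_le).trans hV.le
      · intro v hv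
        obtain ⟨a, b, rfl⟩ := D.surj v hv
        have h3 : D.e a b = D.e (a - ρ.1 0 0 * (b / ρ.1 1 0)) 0 * D.e (ρ.1 0 0 * (b / ρ.1 1 0)) (ρ.1 1 0 * (b / ρ.1 1 0)) := by
          rw [D.mul]
          congr 1
          · ring
          · rw [zero_add, mul_div_cancel₀ _ hρ]
        rw [h3]
        exact Subgroup.mul_mem_sup ⟨_, rfl⟩ ((hmem _).2 ⟨_, rfl⟩)
  · intro x hx hx1 hcop
    rw [eq_bot_iff]
    rintro v ⟨hv, hvx⟩
    obtain ⟨a, b, rfl⟩ := D.surj v hv
    rw [Subgroup.mem_bot, D.eq_one]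
    have h1 := H17.NatSL2.mem_cent_singleton.1 hvx
    rw [D.act_mem hx] at h1
    obtain ⟨h2, h3⟩ := D.inj _ _ _ _ h1
    by_contra hab
    apply hx1
    have hxp : (D.ρ ⟨x, hx⟩) ^ p = 1 := by
      apply H18.Dickson.pow_eq_one_of_tr
      rw [H18.Dickson.tr]
      set X := D.ρ ⟨x, hx⟩
      have hd := H5.SL2.det_eq X
      have k1 : (2 - (X.1 0 0 + X.1 1 1)) * a = 0 := by
        linear_combination (X.1 1 1 - 1) * h2 - X.1 0 1 * h3 - a * hd
      have k2 : (2 - (X.1 0 0 + X.1 1 1)) * b = 0 := by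
        linear_combination (X.1 0 0 - 1) * h3 - X.1 1 0 * h2 - b * hd
      by_contra hne
      have hne' : 2 - (X.1 0 0 + X.1 1 1) ≠ 0 := fun h => hne (by linear_combination -h)
      exact hab ⟨(mul_eq_zero.1 k1).resolve_left hne', (mul_eq_zero.1 k2).resolve_left hne'⟩
    have h4 : orderOf (⟨x, hx⟩ : L) ∣ p := by
      apply orderOf_dvd_of_pow_eq_one
      apply hinj
      rw [map_pow, hxp, map_one]
    rw [Subgroup.orderOf_mk] at h4
    have h5 : orderOf x = 1 := Nat.eq_one_of_dvd_coprimes hcop dvd_rfl h4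
    exact orderOf_eq_one_iff.1 h5
  · rw [hc]
    intro U hU hN
    by_cases hU1 : U = ⊥
    · exact Or.inl hU1
    right
    apply le_antisymm hU
    obtain ⟨v, hv, hv1⟩ := (Subgroup.bot_or_exists_ne_one U).resolve_left hU1
    obtain ⟨a, rfl⟩ := hU hv
    have ha : a ≠ 0 := by rintro rfl; exact hv1 D.one
    rintro _ ⟨b, rfl⟩
    by_cases hb : b = 0
    · rw [hb, D.one]; exact U.one_mem
    · obtain ⟨l, hl, hl'⟩ := htor (Units.mk0 (b / a) (div_ne_zero hb ha))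
      have h1 := (Subgroup.mem_normalizer_iff.1 (hN hl) _).1 hv
      rw [hl'] at h1
      convert h1 using 2
      · rw [Units.val_mk0, div_mul_cancel₀ _ ha]
      · rw [mul_zero]
  · rw [hc]
    intro U hcU hU hN
    by_cases hU1 : U ≤ D.line
    · exact Or.inl (le_antisymm hU1 hcU)
    right
    apply le_antisymm hU
    obtain ⟨v, hv, hv1⟩ := SetLike.not_le_iff_exists.1 hU1
    obtain ⟨a, b, rfl⟩ := D.surj v (hU hv)
    have hb : b ≠ 0 := by rintro rfl; exact hv1 ⟨a, rfl⟩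
    intro w hw
    obtain ⟨c, d, rfl⟩ := D.surj w hw
    have h3 : ∀ c d, D.e c d = D.e c 0 * D.e 0 d := by
      intro c d; rw [D.mul, add_zero, zero_add]
    rw [h3]
    refine U.mul_mem (hcU ⟨_, rfl⟩) ?_
    by_cases hd : d = 0
    · rw [hd, D.one]; exact U.one_mem
    obtain ⟨l, hl, hl'⟩ := htor (Units.mk0 (b / d) (div_ne_zero hb hd))
    have h1 := (Subgroup.mem_normalizer_iff.1 (hN hl) _).1 hv
    rw [hl', h3] at h1
    have h4 := (Subgroup.mul_mem_cancel_left U (hcU ⟨_, rfl⟩)).1 h1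
    convert h4 using 2
    rw [Units.val_inv_eq_inv_val, Units.val_mk0]
    field_simp

end Cfsg.Agent.S2780
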