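import Cfsg.Statements.S2781
import Cfsg.Agent.H17_Gas

set_option autoImplicit false
open Cfsg

namespace Cfsg.Agent.S2781

open Cfsg.Agent.H17.Base in
/-- Let H act faithfully by conjugation on the elementary abelian p-subgroup V of a finite group, let O^p(H) be the subgroup of H generated by its elements of order prime to p, and T a Sylow p-subgroup of O^p(H). If V is generated by the H-conjugates of C_V(T) (V is the smallest H-invariant subgroup containing C_V(T)), then V = [V, O^p(H)]·C_V(O^p(H)). -/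
theorem result {G : Type*} [Group G] [Finite G] {p : ℕ} [Fact p.Prime] (V H : Subgroup G) (hV : Cfsg.IsElementaryAbelian p V) (hHV : H ≤ Subgroup.normalizer (V : Set G)) (hf : H ⊓ Subgroup.centralizer (V : Set G) = ⊥) (R : Subgroup G) (hR : R = (Cfsg.pResidual p ↥H).map H.subtype) (S : Sylow p ↥R) (T : Subgroup G) (hT : T = ((S : Subgroup ↥R).map R.subtype)) (hgen : ∀ W : Subgroup G, H ≤ Subgroup.normalizer (W : Set G) → (V ⊓ Subgroup.centralizer ((T : Subgroup G) : Set G)) ≤ W → V ≤ W) : ⁅V, R⁆ ⊔ (V ⊓ Subgroup.centralizer ((R : Subgroup G) : Set G)) = V := by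
  subst hR
  have hTs : IsSylowIn p T (resOf p H) := by rw [hT]; exact isSylowIn_map S
  have hRV : resOf p H ≤ Nz V := (resOf_le H).trans hHV
  have hW : H ≤ Nz (⁅V, resOf p H⁆ ⊔ (V ⊓ Cz (resOf p H))) := by
    have h1 := le_Nz_resOf (p := p) H
    refine (le_inf ?_ ?_).trans (Nz_sup_le _ _)
    · exact (le_inf hHV h1).trans (Nz_commutator_le _ _)
    · exact (le_inf hHV (h1.trans (Nz_le_Nz_Cz _))).trans (Nz_inf_le _ _)
  apply le_antisymm (sup_le (commutator_le_left_iff.2 hRV) inf_le_left)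
  apply hgen _ hW
  rintro z ⟨hzV, hzT⟩
  obtain ⟨c, hc, hcz⟩ := gaschutz (U := ⁅V, resOf p H⁆) hV hRV hTs hzV hzT (by
    intro g hg
    have h2 : g * z * g⁻¹ * z⁻¹ ∈ ⁅resOf p H, V⁆ := Subgroup.commutator_mem_commutator hg hzV
    rwa [Subgroup.commutator_comm] at h2)
  have h3 : z = (c * z⁻¹)⁻¹ * c := by group
  rw [h3]
  exact mul_mem (inv_mem ((le_sup_left : ⁅V, resOf p H⁆ ≤ ⁅V, resOf p H⁆ ⊔ (V ⊓ Cz (resOf p H))) hcz))
    ((le_sup_right : V ⊓ Cz (resOf p H) ≤ ⁅V, resOf p H⁆ ⊔ (V ⊓ Cz (resOf p H))) hc)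

end Cfsg.Agent.S2781
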