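import Cfsg.Statements.S2787
import Mathlib
import Cfsg.Agent.H18_QPair6
import Cfsg.Agent.H5_QAct
import Cfsg.Agent.H13_Crit2
import Cfsg.Agent.H6_Ree7

set_option autoImplicit false
open Cfsg

namespace Cfsg.Agent.S2787

open scoped commutatorElement Matrix
open Subgroup
open Cfsg.Agent.H5.SL2 (S)

universe u

theorem pcore_bot {G : Type*} [Group G] [Finite G] {p : ℕ} [Fact p.Prime] (V H : Subgroup G) (hV : Cfsg.IsElementaryAbelian p V)
    (hHV : H ≤ Subgroup.normalizer (V : Set G)) (hirr : ∀ U : Subgroup G, U ≤ V → H ≤ Subgroup.normalizer (U : Set G) → U = ⊥ ∨ U = V)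
    (hnt : ¬ H ≤ Subgroup.centralizer (V : Set G)) [hn : ((Subgroup.centralizer (V : Set G)).subgroupOf H).Normal] :
    pCore p (↥H ⧸ (Subgroup.centralizer (V : Set G)).subgroupOf H) = ⊥ := by
  have hPbot : V ≠ ⊥ := by
    rintro rfl
    apply hnt
    intro x _
    rw [Subgroup.mem_centralizer_iff]
    intro y hy
    have hy1 : y = 1 := hy
    rw [hy1, one_mul, mul_one]
  set C := (centralizer (V : Set G)).subgroupOf H with hC
  have hVp : IsPGroup p V := by
    rintro ⟨x, hx⟩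
    exact ⟨1, Subtype.ext (by rw [pow_one]; exact hV.2 x hx)⟩
  have hpc : IsPGroup p (pCore p (H ⧸ C)) := H11.Cores.pCore_isPGroup p
  let K : Subgroup H := (pCore p (H ⧸ C)).comap (QuotientGroup.mk' C)
  have hKn : K.Normal := Subgroup.Normal.comap inferInstance _
  let ψ : H →* MulAut V := (V.normalizerMonoidHom).comp (Subgroup.inclusion hHV)
  have hψ : ∀ (h : H) (v : V), ((ψ h v : V) : G) = h * v * (h : G)⁻¹ := fun h v => rfl
  let A : Subgroup (MulAut V) := K.map ψ
  have hA : IsPGroup p A := by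
    rintro ⟨_, k, hk, rfl⟩
    obtain ⟨n, hn⟩ := hpc ⟨QuotientGroup.mk' C k, hk⟩
    refine ⟨n, ?_⟩
    apply Subtype.ext
    have h1 : (QuotientGroup.mk' C k) ^ p ^ n = 1 := congrArg Subtype.val hn
    rw [← map_pow, QuotientGroup.mk'_apply, QuotientGroup.eq_one_iff] at h1
    show (ψ k) ^ p ^ n = 1
    rw [← map_pow]
    ext v
    rw [hψ]
    have h2 : ((k ^ p ^ n : H) : G) ∈ centralizer (V : Set G) := h1
    rw [Subgroup.mem_centralizer_iff] at h2
    rw [← h2 v v.2]
    simp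
  have hPnt : Nontrivial V := (Subgroup.nontrivial_iff_ne_bot V).2 hPbot
  have hdvd : p ∣ Nat.card V := by
    obtain ⟨n, hn, hc⟩ := hVp.nontrivial_iff_card.1 hPnt
    rw [hc]; exact dvd_pow_self p hn.ne'
  have h1 : (1 : V) ∈ MulAction.fixedPoints A V := fun a => map_one (a : MulAut V)
  obtain ⟨b, hb, hb1⟩ := hA.exists_fixed_point_of_prime_dvd_card_of_fixed_point V hdvd h1
  set U : Subgroup G := V ⊓ centralizer ((K.map H.subtype : Subgroup G) : Set G) with hU
  have h2 : (b : G) ∈ U := by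
    refine Subgroup.mem_inf.2 ⟨b.2, ?_⟩
    rw [Subgroup.mem_centralizer_iff]
    rintro _ ⟨k, hk, rfl⟩
    have h3 := hb ⟨ψ k, ⟨k, hk, rfl⟩⟩
    have h4 : ((k : G) * b * (k : G)⁻¹) = b := congrArg Subtype.val h3
    show (k : G) * b = b * k
    nth_rewrite 2 [← h4]; group
  have hUstep : ∀ h ∈ H, ∀ u ∈ U, h * u * h⁻¹ ∈ U := by
    intro h hh u hu
    refine Subgroup.mem_inf.2 ⟨(Subgroup.mem_normalizer_iff.1 (hHV hh) u).1 hu.1, ?_⟩
    rw [Subgroup.mem_centralizer_iff]
    rintro _ ⟨k, hk, rfl⟩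
    have h5 := hKn.conj_mem k hk ⟨h, hh⟩⁻¹
    have h6 := Subgroup.mem_centralizer_iff.1 hu.2 _ ⟨_, h5, rfl⟩
    have h7 : (h⁻¹ * (k : G) * h) * u = u * (h⁻¹ * k * h) := by simpa using h6
    show (k : G) * (h * u * h⁻¹) = h * u * h⁻¹ * k
    have h8 : (k : G) * (h * u * h⁻¹) = h * ((h⁻¹ * (k : G) * h) * u) * h⁻¹ := by group
    rw [h8, h7]; group
  have hHU : H ≤ Subgroup.normalizer (U : Set G) := by
    intro h hh
    rw [Subgroup.mem_normalizer_iff]
    intro u
    constructor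
    · exact hUstep h hh u
    · intro hu
      have h9 := hUstep h⁻¹ (inv_mem hh) _ hu
      have h10 : h⁻¹ * (h * u * h⁻¹) * h⁻¹⁻¹ = u := by group
      rwa [h10] at h9
  rcases hirr U inf_le_left hHU with h | h
  · exfalso
    rw [h, Subgroup.mem_bot] at h2
    exact hb1 (Subtype.ext h2.symm)
  · rw [eq_bot_iff]
    intro x hx
    obtain ⟨k, rfl⟩ := QuotientGroup.mk'_surjective C x
    rw [Subgroup.mem_bot, QuotientGroup.mk'_apply, QuotientGroup.eq_one_iff]
    show (k : G) ∈ centralizer (V : Set G)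
    rw [Subgroup.mem_centralizer_iff]
    intro v hv
    have hv' : v ∈ U := by rw [h]; exact hv
    exact (Subgroup.mem_centralizer_iff.1 hv'.2 k ⟨k, hx, rfl⟩).symm

theorem involves_sl {G : Type u} [Group G] [Finite G] {p : ℕ} [Fact p.Prime] (hp : p ≠ 2) (V H : Subgroup G) (hV : Cfsg.IsElementaryAbelian p V)
    (hHV : H ≤ Subgroup.normalizer (V : Set G)) (hirr : ∀ U : Subgroup G, U ≤ V → H ≤ Subgroup.normalizer (U : Set G) → U = ⊥ ∨ U = V)
    (hnt : ¬ H ≤ Subgroup.centralizer (V : Set G)) [hn : ((Subgroup.centralizer (V : Set G)).subgroupOf H).Normal]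
    {a : G} (ha : a ∈ H) (hna : a ∉ centralizer (V : Set G)) (qa : ⁅⁅V, zpowers a⁆, zpowers a⁆ = ⊥) :
    ∃ (T : Subgroup (↥H ⧸ (Subgroup.centralizer (V : Set G)).subgroupOf H)) (f : T →* S (ZMod p)), IsPGroup 2 T ∧ ∃ x y : T, f x * f y ≠ f y * f x := by
  set C := (centralizer (V : Set G)).subgroupOf H with hC
  have hcore := pcore_bot V H hV hHV hirr hnt
  obtain ⟨g, hg, h, hh, hn'⟩ := H18.QPair.exists_pair' hV hHV (QuotientGroup.mk' C) (QuotientGroup.mk'_surjective C)
    (fun x => by rw [QuotientGroup.mk'_apply, QuotientGroup.eq_one_iff, hC, Subgroup.mem_subgroupOf]) ha qa (by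
      rw [hcore, Subgroup.mem_bot, QuotientGroup.mk'_apply, QuotientGroup.eq_one_iff]
      exact hna)
  have hy : g * a * g⁻¹ ∈ H := H.mul_mem (H.mul_mem hg ha) (H.inv_mem hg)
  obtain ⟨N, B, Y, φ, ν, hYX, hBN, hNV, hφ, hν, hνB, hYB, hN, heq⟩ :=
    H18.QPair.grp_sl2 hp V hV a (g * a * g⁻¹) (hHV ha) (hHV hy) qa (H18.QPair.quad_conj (hHV hg) qa) ⟨h, hh, hn'⟩
  have hYH : Y ≤ H := by
    refine hYX.trans ?_
    rw [Subgroup.closure_le]
    rintro z (hz | hz)
    · rw [hz]; exact ha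
    · rw [Set.mem_singleton_iff] at hz; rw [hz]; exact hy
  have hφ1 : ∀ y : Y, (y : G) ∈ centralizer (V : Set G) → φ y = 1 := by
    intro y hyc
    apply Subtype.ext
    have h1 : ∀ w : Fin 2 → ZMod p, (φ y).1 *ᵥ w = w := by
      intro w
      obtain ⟨n, hn⟩ := hν (Multiplicative.ofAdd w)
      have h2 := heq y n
      have h3 : (⟨y.1 * n.1 * y.1⁻¹, hN y.1 y.2 n.1 n.2⟩ : N) = n := by
        apply Subtype.ext
        show (y : G) * n * (y : G)⁻¹ = n
        rw [← Subgroup.mem_centralizer_iff.1 hyc n (hNV n.2)]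
        group
      rw [h3, hn] at h2
      exact h2.symm
    show (φ y).1 = 1
    ext i j
    have := congrFun (h1 (Pi.single j 1)) i
    rw [Matrix.mulVec_single_one] at this
    rw [Matrix.one_apply, ← Pi.single_apply]
    exact this
  -- the homomorphism on the image
  let π : Y →* (↥H ⧸ C) := (QuotientGroup.mk' C).comp (Subgroup.inclusion hYH)
  have hker : π.ker ≤ φ.ker := by
    intro y hy
    rw [MonoidHom.mem_ker] at hy ⊢
    have h1 : (QuotientGroup.mk (Subgroup.inclusion hYH y) : ↥H ⧸ C) = 1 := hy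
    rw [QuotientGroup.eq_one_iff] at h1
    exact hφ1 y h1
  obtain ⟨P⟩ : Nonempty (Sylow 2 Y) := by
    haveI : Fact (Nat.Prime 2) := ⟨Nat.prime_two⟩
    infer_instance
  haveI : Fact (Nat.Prime 2) := ⟨Nat.prime_two⟩
  have hnc := H18.QPair.sl2_not_comm hp (P.mapSurjective hφ)
  let T : Subgroup (↥H ⧸ C) := (P : Subgroup Y).map π
  have hT : IsPGroup 2 T := P.isPGroup'.map _
  let pT : (P : Subgroup Y) →* T := π.subgroupMap (P : Subgroup Y)
  have hpT : Function.Surjective pT := MonoidHom.subgroupMap_surjective _ _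
  have hkT : pT.ker ≤ (φ.comp (P : Subgroup Y).subtype).ker := by
    intro y hy
    rw [MonoidHom.mem_ker] at hy ⊢
    have h1 : π (y : Y) = 1 := congrArg Subtype.val hy
    exact hker h1
  let f : T →* S (ZMod p) := pT.liftOfSurjective hpT ⟨φ.comp (P : Subgroup Y).subtype, hkT⟩
  have hf : ∀ y : (P : Subgroup Y), f (pT y) = φ (y : Y) := by
    intro y
    exact MonoidHom.liftOfRightInverse_comp_apply _ _ _ _ _
  refine ⟨T, f, hT, ?_⟩
  by_contra hcon
  push Not at hcon
  apply hnc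
  refine ⟨⟨?_⟩⟩
  rintro ⟨_, x, hx, rfl⟩ ⟨_, y, hy, rfl⟩
  apply Subtype.ext
  show φ x * φ y = φ y * φ x
  have := hcon (pT ⟨x, hx⟩) (pT ⟨y, hy⟩)
  rw [hf, hf] at this
  exact this

/-- Let p be a prime and let H act by conjugation on the elementary abelian p-subgroup V of a finite group, irreducibly (no H-invariant subgroups of V other than 1 and V) and nontrivially, and suppose H/C_H(V) is isomorphic to PSL₂(F) for a field F with p^n elements, p^n odd, or p = 3 and H/C_H(V) is isomorphic to a Ree group ²G₂(3^(2m+1)), m ≥ 1. Then no subgroup A of H acting nontrivially on V acts quadratically: [V, A, A] = 1 forces [V, A] = 1. -/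
theorem result {G : Type*} [Group G] [Finite G] {p : ℕ} [Fact p.Prime] (V H : Subgroup G) (hV : Cfsg.IsElementaryAbelian p V) (hHV : H ≤ Subgroup.normalizer (V : Set G)) (hirr : ∀ U : Subgroup G, U ≤ V → H ≤ Subgroup.normalizer (U : Set G) → U = ⊥ ∨ U = V) (hnt : ¬ H ≤ Subgroup.centralizer (V : Set G)) [hn : ((Subgroup.centralizer (V : Set G)).subgroupOf H).Normal] (hq : (∃ (F : Type) (_ : Field F) (_ : Fintype F) (n : ℕ), Fintype.card F = p ^ n ∧ Odd (Fintype.card F) ∧ Nonempty (↥H ⧸ (Subgroup.centralizer (V : Set G)).subgroupOf H ≃* Matrix.ProjectiveSpecialLinearGroup (Fin 2) F)) ∨ (p = 3 ∧ Cfsg.Lie.IsoRee (↥H ⧸ (Subgroup.centralizer (V : Set G)).subgroupOf H))) (A : Subgroup G) (hA : A ≤ H) (hquad : ⁅⁅V, A⁆, A⁆ = ⊥) : ⁅V, A⁆ = ⊥ := by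
  classical
  by_contra hne
  have hex : ∃ a ∈ A, a ∉ Subgroup.centralizer (V : Set G) := by
    by_contra hcon
    push Not at hcon
    apply hne
    rw [Subgroup.commutator_comm, Subgroup.commutator_eq_bot_iff_le_centralizer]
    exact hcon
  obtain ⟨a, haA, hac⟩ := hex
  have haH : a ∈ H := hA haA
  have qa : ⁅⁅V, Subgroup.zpowers a⁆, Subgroup.zpowers a⁆ = ⊥ := by
    rw [eq_bot_iff, ← hquad]
    have hz : Subgroup.zpowers a ≤ A := by rw [Subgroup.zpowers_le]; exact haA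
    exact Subgroup.commutator_mono (Subgroup.commutator_mono le_rfl hz) hz
  have hp2 : p ≠ 2 := by
    rcases hq with ⟨F, _, _, n, hFn, hodd, -⟩ | ⟨h3, -⟩
    · rintro rfl
      have h1 : 1 < Fintype.card F := Fintype.one_lt_card
      rw [hFn] at hodd h1
      have hn0 : n ≠ 0 := by
        rintro rfl
        simp at h1
      have : Even (2 ^ n) := (even_two).pow_of_ne_zero hn0
      exact (Nat.not_odd_iff_even.2 this) hodd
    · omega
  have h20 : (2 : ZMod p) ≠ 0 := by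
    intro h
    have h1 : ((2 : ℕ) : ZMod p) = 0 := by exact_mod_cast h
    rw [ZMod.natCast_eq_zero_iff] at h1
    exact hp2 ((Nat.prime_dvd_prime_iff_eq (Fact.out : p.Prime) Nat.prime_two).1 h1)
  obtain ⟨T, f, hT, x, y, hxy⟩ := involves_sl hp2 V H hV hHV hirr hnt haH hac qa
  rcases hq with ⟨F, _, _, n, hFn, hodd, ⟨e⟩⟩ | ⟨-, K, _, _, m, hm, hK, ⟨e⟩⟩
  · let e' := e.subgroupMap T
    have h1 := H5.QAct.psl_comm hodd h20 (T := T.map e.toMonoidHom) (hT.map _) (f.comp e'.symm.toMonoidHom) (e' x) (e' y)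
    have h3 : ∀ z : T, (f.comp e'.symm.toMonoidHom) (e' z) = f z := fun z => congrArg f (e'.symm_apply_apply z)
    apply hxy
    rw [← h3 x, ← h3 y]
    exact h1
  · obtain ⟨R, -⟩ := Cfsg.Agent.H6.Ree.exists_RG hK
    haveI : Finite ↥(Cfsg.Lie.twistedG2 K (3 ^ m)) := Finite.of_equiv _ e.toEquiv
    obtain ⟨P, hP⟩ := (hT.map e.toMonoidHom).exists_le_sylow
    have h2 := (R.sylow2 hK P).2
    apply hxy
    rw [← map_mul, ← map_mul]
    congr 1
    apply Subtype.ext
    apply e.injective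
    show e ((x : _) * (y : _)) = e ((y : _) * (x : _))
    rw [map_mul, map_mul]
    have hx' : e (x : _) ∈ P := hP ⟨x, x.2, rfl⟩
    have hy' : e (y : _) ∈ P := hP ⟨y, y.2, rfl⟩
    have e1 := h2 _ hx'
    have e2 := h2 _ hy'
    have e3 := h2 _ (mul_mem hx' hy')
    have i1 := inv_eq_of_mul_eq_one_left e1
    have i2 := inv_eq_of_mul_eq_one_left e2
    have i3 := inv_eq_of_mul_eq_one_left e3
    rw [mul_inv_rev, i1, i2] at i3
    exact i3.symm

end Cfsg.Agent.S2787
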