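import Cfsg.Statements.S2791
import Cfsg.Agent.H17_Stab

set_option autoImplicit false
open Cfsg

namespace Cfsg.Agent.S2791

open Cfsg.Agent.H17.Base

theorem controls {G : Type*} [Group G] [Finite G] {p : ℕ} [Fact p.Prime] {S A : Subgroup G}
    (hS : IsSylowIn p S ⊤) (hAS : A ≤ S) (hAb : A ≤ Cz A)
    (hsc : ∀ x ∈ A, ∀ g : G, g * x * g⁻¹ ∈ S → g * x * g⁻¹ ∈ A) :
    ∀ U, U ≤ S → ∀ g, cj g U ≤ S → ∃ n ∈ Nz A, ∀ a ∈ U, n * a * n⁻¹ = g * a * g⁻¹ := by
  have hscj : ∀ g, cj g A ≤ S → cj g A = A := by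
    intro g hg
    have h1 : cj g A ≤ A := by
      rintro _ ⟨x, hx, rfl⟩
      exact hsc x hx g (hg ⟨x, hx, rfl⟩)
    exact cj_eq_of_mem_Nz (mem_Nz_of_cj_le h1)
  have hSA : S ≤ Nz A := by
    intro s hs
    rw [mem_Nz_iff_cj]
    apply hscj
    have := cj_mono (g := s) hAS
    rwa [cj_eq_of_mem hs] at this
  have hAp : IsPGroup p A := hS.isPGroup.to_le hAS
  refine alperin hS (fun U g => ∃ n ∈ Nz A, ∀ a ∈ U, n * a * n⁻¹ = g * a * g⁻¹) ?_ ?_ ?_ ?_
  · rintro U g h - - - ⟨n, hn, hna⟩ ⟨m, hm, hma⟩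
    refine ⟨m * n, mul_mem hm hn, ?_⟩
    intro a ha
    have h1 := hma _ (conj_mem_cj (g := g) ha)
    rw [← hna a ha] at h1
    calc m * n * a * (m * n)⁻¹ = m * (n * a * n⁻¹) * m⁻¹ := by group
      _ = h * (n * a * n⁻¹) * h⁻¹ := h1
      _ = h * g * a * (h * g)⁻¹ := by rw [hna a ha]; group
  · rintro U g - - ⟨n, hn, hna⟩
    refine ⟨n⁻¹, inv_mem hn, ?_⟩
    intro b hb
    have h1 := hna _ (mem_cj.1 hb)
    have h2 : b = n * (g⁻¹ * b * g) * n⁻¹ := by rw [h1]; group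
    calc n⁻¹ * b * n⁻¹⁻¹ = n⁻¹ * (n * (g⁻¹ * b * g) * n⁻¹) * n := by rw [← h2, inv_inv]
      _ = g⁻¹ * b * g⁻¹⁻¹ := by group
  · rintro U B g hUB - - ⟨n, hn, hna⟩
    exact ⟨n, hn, fun a ha => hna a (hUB ha)⟩
  · intro U hUS hUfn IH n hn
    by_cases hAU : A ≤ U
    · refine ⟨n, ?_, fun a _ => rfl⟩
      rw [mem_Nz_iff_cj]
      apply hscj
      have := cj_mono (g := n) hAU
      rw [cj_eq_of_mem_Nz hn] at this
      exact this.trans hUS
    set A0 := A ⊓ U with hA0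
    have hA0p : IsPGroup p A0 := hAp.to_le inf_le_left
    have hNA0 : Nz U ≤ Nz A0 := by
      intro x hx
      apply mem_Nz_of_cj_le
      rintro _ ⟨y, hy, rfl⟩
      have h1 : x * y * x⁻¹ ∈ U := (Subgroup.mem_normalizer_iff.1 hx y).1 hy.2
      exact ⟨hsc y hy.1 x (hUS h1), h1⟩
    set D := chainStab U A0 ⊓ Cz A0 with hD
    have hND : Nz U ≤ Nz D := by
      refine le_trans (le_inf ?_ ?_) (Nz_inf_le _ _)
      · exact (le_inf le_rfl hNA0).trans (Nz_inf_le_Nz_chainStab _ _)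
      · exact hNA0.trans (Nz_le_Nz_Cz _)
    have hDN : D ≤ Nz U := inf_le_left.trans (chainStab_le_Nz _ _)
    -- E = U D
    have hNE : Nz U ≤ Nz (U ⊔ D) := (le_inf le_rfl hND).trans (Nz_sup_le _ _)
    have hEN : U ⊔ D ≤ Nz U := sup_le Subgroup.le_normalizer hDN
    have hV : IsSylowIn p ((S ⊓ Nz U) ⊓ (U ⊔ D)) (U ⊔ D) := hUfn.inf_normal hEN hNE
    set V := (S ⊓ Nz U) ⊓ (U ⊔ D) with hVdef
    have hUV : U ≤ V := le_inf (le_inf hUS Subgroup.le_normalizer) le_sup_left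
    -- V is bigger than U
    have hBD : A ⊓ Nz U ≤ D := by
      rintro x ⟨hxA, hxU⟩
      refine ⟨⟨hxU, ?_⟩, ?_⟩
      · intro u hu
        have h1 : x * u * x⁻¹ ∈ U := (Subgroup.mem_normalizer_iff.1 hxU u).1 hu
        refine ⟨?_, U.mul_mem h1 (U.inv_mem hu)⟩
        have h2 : u * x⁻¹ * u⁻¹ ∈ A := (Subgroup.mem_normalizer_iff.1 (hSA (hUS hu)) x⁻¹).1 (inv_mem hxA)
        have h3 := mul_mem hxA h2
        have e : x * (u * x⁻¹ * u⁻¹) = x * u * x⁻¹ * u⁻¹ := by group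
        rwa [e] at h3
      · exact Cz_anti (inf_le_left : A0 ≤ A) (hAb hxA)
    have hUA : U < U ⊔ A := lt_of_le_of_ne le_sup_left (fun h => hAU (h ▸ le_sup_right))
    have hUAp : IsPGroup p ↥(U ⊔ A) := hS.isPGroup.to_le (sup_le hUS hAS)
    obtain ⟨x, hx, hxN, hxU⟩ := exists_mem_Nz_notMem hUAp hUA
    have hUAn : U ≤ Nz A := hUS.trans hSA
    obtain ⟨u, hu, a, ha, rfl⟩ := (mem_sup_of_le_Nz hUAn).1 hx
    have haN : a ∈ Nz U := by
      have := mul_mem (inv_mem (Subgroup.le_normalizer (H := U) hu)) hxN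
      rwa [inv_mul_cancel_left] at this
    have haV : a ∈ V := ⟨⟨hAS ha, haN⟩, (le_sup_right : D ≤ U ⊔ D) (hBD ⟨ha, haN⟩)⟩
    have hUV' : Nat.card U < Nat.card V := by
      apply lt_of_not_ge
      intro hle
      have h1 : U = V := Subgroup.eq_of_le_of_card_ge hUV hle
      have h2 : a ∈ U := by rw [h1]; exact haV
      exact hxU (mul_mem hu h2)
    -- E ≤ C(U) V
    have hDV : D ≤ Cz U ⊔ V := by
      have h1 : IsSylowIn p ((S ⊓ Nz U) ⊓ D) D := hUfn.inf_normal hDN hND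
      have h2 := resOf_sup_sylow h1
      rw [← h2]
      apply sup_le
      · exact (resOf_le_Cz_of_chainStab hA0p inf_le_left inf_le_right).trans le_sup_left
      · exact le_trans (inf_le_inf_left _ le_sup_right) le_sup_right
    -- Frattini
    obtain ⟨e, he, hen⟩ := frattini_arg hV hNE n hn
    have he' : e ∈ Cz U ⊔ V := by
      have h1 : U ⊔ D ≤ Cz U ⊔ V := sup_le (hUV.trans le_sup_right) hDV
      exact h1 he
    have hVC : V ≤ Nz (Cz U) := (inf_le_left.trans inf_le_right).trans (Nz_le_Nz_Cz U)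
    obtain ⟨c, hc, v, hv, rfl⟩ := (mem_sup_of_le_Nz' hVC).1 he'
    -- n = v⁻¹ c⁻¹ (c v n) ; let m = v⁻¹ (cvn)
    set m := v⁻¹ * (c * v * n) with hm
    have hmV : m ∈ Nz V := mul_mem (inv_mem (Subgroup.le_normalizer (H := V) hv)) hen
    obtain ⟨k, hk, hka⟩ := IH V (inf_le_left.trans inf_le_left) hUV' m (by
      rw [cj_eq_of_mem_Nz hmV]; exact inf_le_left.trans inf_le_left)
    refine ⟨k, hk, ?_⟩
    intro y hy
    rw [hka y (hUV hy)]
    -- m y m⁻¹ = n y n⁻¹ as m = (v⁻¹ c v) n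
    have h1 : m = (v⁻¹ * c * v) * n := by rw [hm]; group
    have h2 : v⁻¹ * c * v ∈ Cz U := by
      have h3 := (Subgroup.mem_normalizer_iff.1 (hVC (inv_mem hv)) c).1 hc
      rwa [inv_inv] at h3
    have h3 : n * y * n⁻¹ ∈ U := (Subgroup.mem_normalizer_iff.1 hn y).1 hy
    have h4 := (Subgroup.mem_centralizer_iff.1 h2) _ h3
    rw [h1]
    calc v⁻¹ * c * v * n * y * (v⁻¹ * c * v * n)⁻¹
        = (v⁻¹ * c * v) * (n * y * n⁻¹) * (v⁻¹ * c * v)⁻¹ := by group
      _ = n * y * n⁻¹ := by rw [← h4]; group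
/-- Let S be a Sylow p-subgroup of the finite group G and A an abelian subgroup of S that is strongly closed in S with respect to G. Then A controls strong fusion in G: for some Sylow p-subgroup T containing A, whenever a subset of T is conjugated into T by an element of G, the same elementwise conjugation is induced by an element of N_G(A). -/
theorem result {G : Type*} [Group G] [Finite G] {p : ℕ} [Fact p.Prime] (S : Sylow p G) (A : Subgroup G) (hA : IsMulCommutative ↥A) (hsc : Cfsg.IsStronglyClosed A (S : Subgroup G)) : Cfsg.ControlsStrongFusion p A := by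
  refine ⟨S, hsc.1, ?_⟩
  intro B hB
  refine ⟨hB, ?_⟩
  intro g hg
  have hAb : A ≤ Cz A := by
    intro a ha
    rw [Subgroup.mem_centralizer_iff]
    intro b hb
    have := hA.is_comm.comm (⟨b, hb⟩ : A) ⟨a, ha⟩
    exact congrArg Subtype.val this
  obtain ⟨n, hn, hna⟩ := controls (isSylowIn_coe S) hsc.1 hAb hsc.2 (Subgroup.closure B)
    ((Subgroup.closure_le _).2 hB) g (by
      rw [cj_le_iff, Subgroup.closure_le]
      intro b hb
      rw [SetLike.mem_coe, mem_cj, inv_inv]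
      exact hg ⟨b, hb, rfl⟩)
  exact ⟨n, hn, fun a ha => (hna a (Subgroup.subset_closure ha)).symm⟩

end Cfsg.Agent.S2791
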