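import Cfsg.Statements.S2792
import Cfsg.Agent.H17_Yo3
import Cfsg.Agent.H17_Yo4

set_option autoImplicit false
open Cfsg

namespace Cfsg.Agent.S2792

open Subgroup Cfsg.Agent.H17.Yo
/-- Let S be a Sylow p-subgroup of the finite group G and W a subgroup of S weakly closed in S with respect to G. If S ∩ G' ≠ S ∩ (N_G(W))', then there are x ∈ S, z ∈ W and a maximal subgroup W₀ of W such that the iterated commutator [x, z; p−1] (with [x, z] = x⁻¹z⁻¹xz and [x, z; i+1] = [[x, z; i], z]) lies in W₀ but not in the Frattini subgroup of W₀; in particular [x, z; p−1] ≠ 1. -/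
theorem result {G : Type*} [Group G] [Finite G] {p : ℕ} [Fact p.Prime] (S : Sylow p G) (W : Subgroup G) (hW : Cfsg.IsWeaklyClosed W (S : Subgroup G)) (h : (S : Subgroup G) ⊓ commutator G ≠ (S : Subgroup G) ⊓ ⁅Subgroup.normalizer (W : Set G), Subgroup.normalizer (W : Set G)⁆) : ∃ x ∈ (S : Subgroup G), ∃ z ∈ W, ∃ W₀ : Subgroup ↥W, IsCoatom W₀ ∧ (fun y : G => y⁻¹ * z⁻¹ * y * z)^[p - 1] x ∈ W₀.map W.subtype ∧ (fun y : G => y⁻¹ * z⁻¹ * y * z)^[p - 1] x ∉ ((frattini ↥W₀).map W₀.subtype).map W.subtype := by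
  classical
  obtain ⟨x, Y, M, ν, hWY, hYS, hMY, hMn, hMi, hWM, hxM, hν, hYW, hprod⟩ := main S W hW h
  obtain ⟨z, hz, hzM⟩ := SetLike.not_le_iff_exists.1 hWM
  have hp : Fact p.Prime := inferInstance
  have ht : ∀ m ∈ M, z⁻¹ * m * z ∈ M := by
    intro m hm
    have := hMn z⁻¹ (inv_mem (hWY hz)) m hm
    rwa [inv_inv] at this
  have hpr := hprod z (hWY hz) hzM
  have hnu := nu_u hν ht hxM hpr
  have huM := u_mem ht hxM (p - 1)
  have huW : (fun y : G => y⁻¹ * z⁻¹ * y * z)^[p - 1] x ∈ W := by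
    have h1 : p - 1 = (p - 2) + 1 := by have := hp.out.two_le; omega
    rw [h1, Function.iterate_succ_apply']
    have h2 := u_mem ht hxM (p - 2)
    have h3 := hYW _ (inv_mem (hMY h2)) z⁻¹ (inv_mem hz)
    rw [inv_inv] at h3
    exact mul_mem h3 hz
  have iMn : (M.subgroupOf Y).Normal := ⟨fun m hm y => by
    rw [mem_subgroupOf] at hm ⊢
    exact hMn y y.2 m hm⟩
  refine ⟨x, hYS (hMY hxM), z, hz, M.subgroupOf W, ?_, ⟨⟨_, huW⟩, huM, rfl⟩, ?_⟩
  · apply Cfsg.Agent.H2.PGroup.isCoatom_of_index (p := p)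
    let φ : W →* Y ⧸ M.subgroupOf Y := (QuotientGroup.mk' _).comp (Subgroup.inclusion hWY)
    have hk : φ.ker = M.subgroupOf W := by
      ext w
      rw [MonoidHom.mem_ker, MonoidHom.comp_apply, QuotientGroup.mk'_apply, QuotientGroup.eq_one_iff, mem_subgroupOf, mem_subgroupOf]
      rfl
    have h1 : φ.ker.index ∣ p := by
      rw [Subgroup.index_ker]
      have := Subgroup.card_subgroup_dvd_card φ.range
      rwa [← Subgroup.index_eq_card, show (M.subgroupOf Y).index = p from hMi] at this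
    rw [hk] at h1
    rcases (Nat.dvd_prime hp.out).1 h1 with h2 | h2
    · exfalso
      rw [Subgroup.index_eq_one, subgroupOf_eq_top] at h2
      exact hWM h2
    · exact h2
  · rintro ⟨_, ⟨y, hy, rfl⟩, he⟩
    let f : M.subgroupOf W →* Multiplicative (ZMod p) :=
      { toFun := fun a => ν ((a : W) : G)
        map_one' := ν_one hν
        map_mul' := fun a b => hν _ a.2 _ b.2 }
    have h1 : f y = 1 := frattini_le_ker f hy
    apply hnu
    have he' : (((y : W)) : G) = (fun y : G => y⁻¹ * z⁻¹ * y * z)^[p - 1] x := he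
    rw [← he']
    exact h1

end Cfsg.Agent.S2792
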