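import Cfsg.Statements.S2794
import Cfsg.Agent.H18_PStab
import Cfsg.Agent.H18_ZJF5

set_option autoImplicit false
open Cfsg

namespace Cfsg.Agent.S2794


/-- For an odd prime p and a finite group G, the group Qd(p) is not involved in G if and only if in every section K/R of G, for every Sylow p-subgroup S* of K/R, the centre of J(S*) (J generated by the abelian subgroups of largest order) controls strong fusion in K/R. -/
theorem result {G : Type*} [Group G] [Finite G] {p : ℕ} [Fact p.Prime] (hp : p ≠ 2) : ¬ Cfsg.Involves ↥(Cfsg.qd p) G ↔ ∀ (K R : Subgroup G) [hR : (R.subgroupOf K).Normal], ∀ T : Sylow p (K ⧸ R.subgroupOf K), Cfsg.ControlsStrongFusion p (Cfsg.centerThompsonAOf (T : Subgroup (K ⧸ R.subgroupOf K))) := by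
  constructor
  · intro h K R hR T
    have hq : ¬ Cfsg.Involves ↥(Cfsg.qd p) (↥K ⧸ R.subgroupOf K) := fun h1 =>
      h (H13.Sec.involves_trans h1 (H13.Sec.involves_section K R))
    have hS := H13.Syl.isSylIn_sylow_top T
    have hgood : H18.ZJF.Good p (↥K ⧸ R.subgroupOf K) := fun X _ _ hX _ =>
      H18.PStab.stable_of_qd hp (fun h => hq (H13.Sec.involves_trans h hX))
    have h0 := H18.ZJF.main_ctl hp (n := 0) H12.ZJ.dvd_zero_aux (dvd_zero p) _ _ rfl hgood _ (T : Subgroup (↥K ⧸ R.subgroupOf K))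
      hS le_rfl (fun x _ g hg => hg) (fun z _ => pow_zero z)
    rw [H12.ZJ.ZJJ_zero] at h0
    refine ⟨T, ?_, fun A hA => H18.ZJF.cfof h0 A hA⟩
    rw [← H12.ZJ.ZJJ_zero]
    exact H12.ZJ.ZJJ_le 0 _
  · rintro h ⟨K, R, hR, ⟨e⟩⟩
    obtain ⟨m, hm⟩ := H18.Qd.exists_isQd e
    apply hm.not_control (fun Q _ => H18.ZJF.WZ 0 Q) (H18.ZJF.isCharPFunctor_WZ (dvd_zero p))
    have h1 := h K R hm.TS
    rw [← H12.ZJ.ZJJ_zero] at h1
    rw [H18.ZJF.induced_WZ]
    exact h1

end Cfsg.Agent.S2794
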