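import Cfsg.Statements.S2807
import Cfsg.Agent.H17_Yo3
import Cfsg.Agent.H17_Yo5

set_option autoImplicit false
open Cfsg

namespace Cfsg.Agent.S2807

open Subgroup Cfsg.Agent.H17.Yo
/-- Let S be a Sylow p-subgroup of the finite group G. If S ∩ G' ≠ S ∩ (N_G(S))' (derived subgroups), then the wreath product Z_p ≀ Z_p — realised as a Sylow p-subgroup of the symmetric group of degree p² — is a homomorphic image of S. -/
theorem result {G : Type*} [Group G] [Finite G] {p : ℕ} [Fact p.Prime] (S : Sylow p G) (h : (S : Subgroup G) ⊓ commutator G ≠ (S : Subgroup G) ⊓ ⁅Subgroup.normalizer ((S : Subgroup G) : Set G), Subgroup.normalizer ((S : Subgroup G) : Set G)⁆) : ∃ (P : Sylow p (Equiv.Perm (Fin (p ^ 2)))) (f : ↥(S : Subgroup G) →* ↥(P : Subgroup (Equiv.Perm (Fin (p ^ 2))))), Function.Surjective f := by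
  classical
  have hp : Fact p.Prime := inferInstance
  have hW : Cfsg.IsWeaklyClosed (S : Subgroup G) (S : Subgroup G) := by
    refine ⟨le_rfl, fun g hg => ?_⟩
    apply Subgroup.eq_of_le_of_card_ge hg
    rw [Nat.card_congr (Subgroup.equivMapOfInjective (S : Subgroup G) (MulAut.conj g).toMonoidHom (MulAut.conj g).injective).toEquiv]
  obtain ⟨x, Y, M, ν, hWY, hYS, hMY, hMn, hMi, hWM, hxM, hν, hYW, hprod⟩ := main S (S : Subgroup G) hW h
  obtain rfl : Y = S := le_antisymm hYS hWY
  obtain ⟨z, hz, hzM⟩ := SetLike.not_le_iff_exists.1 hWM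
  have hpr := hprod z hz hzM
  apply exists_surj (p := p) (S := ↥(S : Subgroup G)) S.isPGroup' (M := M.subgroupOf (S : Subgroup G)) (t := ⟨z, hz⟩) (x := ⟨x, hWY (hMY hxM)⟩) (ν := fun y => ν (y : G))
  · intro y m hm
    exact hMn y y.2 m hm
  · exact hMi
  · exact hzM
  · intro a ha b hb
    exact hν _ ha _ hb
  · exact hxM
  · exact hpr

end Cfsg.Agent.S2807
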