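import Cfsg.Statements.S3085

set_option autoImplicit false
open Cfsg

namespace Cfsg.Agent.S3085
open scoped commutatorElement

variable {Q : Type*} [Group Q]

/-- class-2 package: central involution `z` such that any two elements commute up to `z`. -/
structure ZPack (z : Q) : Prop where
  cen : ∀ x : Q, x * z = z * x
  sq : z * z = 1
  ne : z ≠ 1
  comm : ∀ x y : Q, x * y = y * x ∨ x * y = z * (y * x)
  cenmem : ∀ x : Q, (∀ y, x * y = y * x) → x = 1 ∨ x = z

open Classical in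
/-- the map `x ↦ x` or `x * y`. -/
noncomputable def tr (y : Q) (x : Q) : Q := if x * y = y * x then x else x * y

lemma tr_comm {y x : Q} (h : x * y = y * x) : tr y x = x := by simp [tr, h]
lemma tr_ncomm {y x : Q} (h : ¬ x * y = y * x) : tr y x = x * y := by simp [tr, h]

lemma ZPack.nc {z : Q} (hz : ZPack z) {x y : Q} (h : ¬ x * y = y * x) : x * y = z * (y * x) := by
  rcases hz.comm x y with h1 | h1
  · exact absurd h1 h
  · exact h1

lemma ZPack.mul_comm_iff {z : Q} (hz : ZPack z) {a b y : Q} :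
    (a * b) * y = y * (a * b) ↔ ((a * y = y * a) ↔ (b * y = y * b)) := by
  have key : ∀ c : Q, z * c ≠ c := fun c h => hz.ne (by simpa using h)
  by_cases ha : a * y = y * a <;> by_cases hb : b * y = y * b
  · simp only [ha, hb, iff_true]
    rw [mul_assoc, hb, ← mul_assoc, ha, mul_assoc]
  · simp only [ha, hb, iff_false, not_true, iff_false]
    rw [mul_assoc, hz.nc hb, ← mul_assoc, hz.cen, mul_assoc, ← mul_assoc a, ha, mul_assoc]
    exact key _
  · simp only [ha, hb, iff_true]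
    rw [mul_assoc, hb, ← mul_assoc, hz.nc ha]
    simp only [mul_assoc]
    simpa [mul_assoc] using key (y * (a * b))
  · simp only [ha, hb, iff_true]
    rw [mul_assoc, hz.nc hb, ← mul_assoc a, hz.cen, mul_assoc, ← mul_assoc a, hz.nc ha, ← mul_assoc z,
      ← mul_assoc z z, hz.sq]
    simp [mul_assoc]

/-- `tr y` as a homomorphism -/
noncomputable def trHom {z : Q} (hz : ZPack z) (y : Q) (hy : y * y = z) : Q →* Q where
  toFun := tr y
  map_one' := tr_comm (by simp)
  map_mul' := by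
    intro a b
    by_cases ha : a * y = y * a <;> by_cases hb : b * y = y * b
    · rw [tr_comm ha, tr_comm hb, tr_comm (hz.mul_comm_iff.mpr (by simp [ha, hb]))]
    · rw [tr_comm ha, tr_ncomm hb, tr_ncomm (by rw [hz.mul_comm_iff]; simp [ha, hb]), mul_assoc]
    · rw [tr_ncomm ha, tr_comm hb, tr_ncomm (by rw [hz.mul_comm_iff]; simp [ha, hb]), mul_assoc, hb,
        mul_assoc]
    · rw [tr_ncomm ha, tr_ncomm hb, tr_comm (hz.mul_comm_iff.mpr (by simp [ha, hb]))]
      have h1 : a * y * (b * y) = a * (y * b) * y := by simp only [mul_assoc]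
      have h2 : y * b = z * (b * y) := by
        have := hz.nc hb
        rw [this, ← mul_assoc, hz.sq, one_mul]
      rw [h1, h2]
      have h3 : a * (z * (b * y)) * y = a * z * b * (y * y) := by simp only [mul_assoc]
      rw [h3, hy, mul_assoc, hz.cen b, ← mul_assoc, mul_assoc a, hz.sq, mul_one]

lemma trHom_inj {z : Q} (hz : ZPack z) (y : Q) (hy : y * y = z) : Function.Injective (trHom hz y hy) := by
  rw [injective_iff_map_eq_one]
  intro a ha
  change tr y a = 1 at ha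
  by_cases h : a * y = y * a
  · rwa [tr_comm h] at ha
  · rw [tr_ncomm h] at ha
    have : a = y⁻¹ := eq_inv_of_mul_eq_one_left ha
    exact absurd (by rw [this]; simp) h

/-- `tr y` as an automorphism -/
noncomputable def trAut [Finite Q] {z : Q} (hz : ZPack z) (y : Q) (hy : y * y = z) : MulAut Q :=
  MulEquiv.ofBijective (trHom hz y hy) ⟨trHom_inj hz y hy, Finite.injective_iff_surjective.mp (trHom_inj hz y hy)⟩

lemma trAut_apply [Finite Q] {z : Q} (hz : ZPack z) (y : Q) (hy : y * y = z) (x : Q) :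
    trAut hz y hy x = tr y x := rfl

/-- squares of `trAut` are inner. -/
lemma trAut_sq [Finite Q] {z : Q} (hz : ZPack z) (y : Q) (hy : y * y = z) :
    trAut hz y hy * trAut hz y hy = MulAut.conj y := by
  ext x
  rw [MulAut.mul_apply, trAut_apply, trAut_apply, MulAut.conj_apply]
  by_cases h : x * y = y * x
  · rw [tr_comm h, tr_comm h, ← h, mul_inv_cancel_right]
  · have h2 : ¬ (x * y) * y = y * (x * y) := by
      rw [hz.mul_comm_iff]; simp [h]
    rw [tr_ncomm h, tr_ncomm h2, mul_assoc, hy, eq_mul_inv_iff_mul_eq, mul_assoc, ← hz.cen y, ← mul_assoc,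
      hz.nc h, hz.cen, ← mul_assoc, hz.sq, one_mul]

lemma trAut_comm [Finite Q] {z : Q} (hz : ZPack z) (y₁ y₂ : Q) (hy₁ : y₁ * y₁ = z) (hy₂ : y₂ * y₂ = z)
    (h12 : y₁ * y₂ = y₂ * y₁) :
    trAut hz y₁ hy₁ * trAut hz y₂ hy₂ = trAut hz y₂ hy₂ * trAut hz y₁ hy₁ := by
  ext x
  rw [MulAut.mul_apply, MulAut.mul_apply, trAut_apply, trAut_apply, trAut_apply, trAut_apply]
  by_cases h1 : x * y₁ = y₁ * x <;> by_cases h2 : x * y₂ = y₂ * x
  · simp only [tr_comm h1, tr_comm h2]
  · rw [tr_comm h1, tr_ncomm h2, tr_comm (y := y₁) (x := x * y₂)]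
    rw [hz.mul_comm_iff]; simp [h1, h12]
  · rw [tr_comm h2, tr_ncomm h1, tr_comm (y := y₂) (x := x * y₁)]
    rw [hz.mul_comm_iff]; simp [h2, h12]
  · rw [tr_ncomm h1, tr_ncomm h2, tr_ncomm (y := y₁) (x := x * y₂), tr_ncomm (y := y₂) (x := x * y₁),
      mul_assoc, mul_assoc, h12]
    · rw [hz.mul_comm_iff]; simp [h2, h12]
    · rw [hz.mul_comm_iff]; simp [h1, h12]

/-- elements act the same by conjugation iff they agree mod `z`. -/
lemma conj_eq_imp {z : Q} (hz : ZPack z) {a b : Q} (h : (MulAut.conj a : MulAut Q) = MulAut.conj b) :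
    a = b ∨ a = b * z := by
  have : ∀ y, (b⁻¹ * a) * y = y * (b⁻¹ * a) := by
    intro y
    have h1 := DFunLike.congr_fun h y
    rw [MulAut.conj_apply, MulAut.conj_apply] at h1
    have h2 : a * y = b * y * b⁻¹ * a := by rw [← h1]; group
    calc b⁻¹ * a * y = b⁻¹ * (a * y) := by group
      _ = y * (b⁻¹ * a) := by rw [h2]; group
  rcases hz.cenmem _ this with h1 | h1
  · left; rw [inv_mul_eq_one] at h1; exact h1.symm
  · right; rw [inv_mul_eq_iff_eq_mul] at h1; exact h1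

lemma conj_trAut [Finite Q] {z : Q} (hz : ZPack z) (y : Q) (hy : y * y = z) (w : Q) :
    trAut hz y hy * MulAut.conj w = MulAut.conj (tr y w) * trAut hz y hy := by
  ext x
  rw [MulAut.mul_apply, MulAut.mul_apply, MulAut.conj_apply, MulAut.conj_apply, map_mul, map_mul, map_inv]
  rfl

variable [Finite Q]

/-- choose `w` with `conj w * trAut y ∈ L`. -/
lemma exists_w {z : Q} (hz : ZPack z) (L : Subgroup (MulAut Q)) (hL : (Cfsg.Inn Q).IsComplement' L)
    (y : Q) (hy : y * y = z) : ∃ w : Q, MulAut.conj w * trAut hz y hy ∈ L := by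
  obtain ⟨⟨⟨i, ⟨w, hw⟩⟩, l⟩, hil⟩ := hL.2 (trAut hz y hy)
  refine ⟨w⁻¹, ?_⟩
  have : (i : MulAut Q) * (l : MulAut Q) = trAut hz y hy := hil
  rw [← this, map_inv, ← hw, inv_mul_cancel_left]
  exact l.2

lemma inn_L {L : Subgroup (MulAut Q)} (hL : (Cfsg.Inn Q).IsComplement' L) {g : Q}
    (h : (MulAut.conj g : MulAut Q) ∈ L) : (MulAut.conj g : MulAut Q) = 1 := by
  have hd := hL.disjoint
  rw [Subgroup.disjoint_def] at hd
  exact hd ⟨g, rfl⟩ h

lemma not_cen {z : Q} (hz : ZPack z) {y : Q} (hy : y * y = z) : y ≠ 1 ∧ y ≠ z := by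
  constructor
  · rintro rfl; exact hz.ne (by rw [← hy, one_mul])
  · rintro rfl; exact hz.ne (by rw [← hy, hz.sq])

/-- Fact 1 -/
lemma fact1 {z : Q} (hz : ZPack z) {L : Subgroup (MulAut Q)} (hL : (Cfsg.Inn Q).IsComplement' L)
    {y w : Q} (hy : y * y = z) (hw : MulAut.conj w * trAut hz y hy ∈ L) : ¬ w * y = y * w := by
  intro hc
  have h1 := L.mul_mem hw hw
  have h2 : MulAut.conj w * trAut hz y hy * (MulAut.conj w * trAut hz y hy) = MulAut.conj (w * w * y) := by
    have : MulAut.conj w * trAut hz y hy * (MulAut.conj w * trAut hz y hy) =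
      MulAut.conj w * (trAut hz y hy * MulAut.conj w) * trAut hz y hy := by simp only [mul_assoc]
    rw [this, conj_trAut, tr_comm hc, ← mul_assoc, mul_assoc _ (trAut hz y hy), trAut_sq]
    simp only [map_mul]
  rw [h2] at h1
  have h3 := inn_L hL h1
  rw [← map_one (MulAut.conj (G := Q))] at h3
  have hww : w * w = 1 ∨ w * w = z := by
    apply hz.cenmem
    intro x
    rw [hz.mul_comm_iff]
  obtain ⟨n1, n2⟩ := not_cen hz hy
  have hinv : z⁻¹ = z := by rw [inv_eq_iff_mul_eq_one, hz.sq]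
  rcases conj_eq_imp hz h3 with h4 | h4 <;> rcases hww with h5 | h5 <;> rw [h5] at h4
  · exact n1 (by simpa using h4)
  · have : y = z⁻¹ := eq_inv_of_mul_eq_one_right h4
    exact n2 (by rw [this, hinv])
  · exact n2 (by simpa using h4)
  · exact n1 (by rw [one_mul] at h4; simpa using h4)

/-- Fact 2 -/
lemma fact2 {z : Q} (hz : ZPack z) {L : Subgroup (MulAut Q)} (hL : (Cfsg.Inn Q).IsComplement' L)
    {y₁ y₂ w₁ w₂ : Q} (hy₁ : y₁ * y₁ = z) (hy₂ : y₂ * y₂ = z) (h12 : y₁ * y₂ = y₂ * y₁)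
    (hne : y₁ ≠ y₂) (hne' : y₁ ≠ y₂ * z)
    (hw₁ : MulAut.conj w₁ * trAut hz y₁ hy₁ ∈ L) (hw₂ : MulAut.conj w₂ * trAut hz y₂ hy₂ ∈ L) :
    w₂ * y₁ = y₁ * w₂ := by
  set a₁ := trAut hz y₁ hy₁ with ha₁
  set a₂ := trAut hz y₂ hy₂ with ha₂
  have hc : a₁ * a₂ = a₂ * a₁ := trAut_comm hz _ _ hy₁ hy₂ h12
  have e1 : (MulAut.conj w₁ * a₁) * (MulAut.conj w₂ * a₂) = MulAut.conj (w₁ * tr y₁ w₂) * (a₁ * a₂) := by
    have : (MulAut.conj w₁ * a₁) * (MulAut.conj w₂ * a₂) = MulAut.conj w₁ * (a₁ * MulAut.conj w₂) * a₂ := by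
      simp only [mul_assoc]
    rw [this, ha₁, conj_trAut, map_mul]; simp only [mul_assoc]
  have e2 : (MulAut.conj w₂ * a₂) * (MulAut.conj w₁ * a₁) = MulAut.conj (w₂ * tr y₂ w₁) * (a₂ * a₁) := by
    have : (MulAut.conj w₂ * a₂) * (MulAut.conj w₁ * a₁) = MulAut.conj w₂ * (a₂ * MulAut.conj w₁) * a₁ := by
      simp only [mul_assoc]
    rw [this, ha₂, conj_trAut, map_mul]; simp only [mul_assoc]
  have m1 := L.mul_mem hw₁ hw₂
  have m2 := L.mul_mem hw₂ hw₁
  rw [e1] at m1
  rw [e2, ← hc] at m2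
  have m3 := L.mul_mem m1 (L.inv_mem m2)
  have e3 : MulAut.conj (w₁ * tr y₁ w₂) * (a₁ * a₂) * (MulAut.conj (w₂ * tr y₂ w₁) * (a₁ * a₂))⁻¹ =
      MulAut.conj ((w₁ * tr y₁ w₂) * (w₂ * tr y₂ w₁)⁻¹) := by
    simp only [map_mul, map_inv]; group
  rw [e3] at m3
  have m4 := inn_L hL m3
  rw [map_mul MulAut.conj, map_inv, mul_inv_eq_one] at m4
  -- modulo z
  have mod : ∀ a b : Q, a * b = b * a ∨ a * b = b * a * z := by
    intro a b
    rcases hz.comm a b with h | h
    · left; exact h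
    · right; rw [h, hz.cen]
  by_contra hcon
  rw [tr_ncomm hcon] at m4
  -- w₁ * (w₂ * y₁) ≡ w₂ * tr y₂ w₁
  have hA : w₁ * (w₂ * y₁) = w₂ * w₁ * y₁ ∨ w₁ * (w₂ * y₁) = w₂ * w₁ * y₁ * z := by
    rcases mod w₁ w₂ with h | h
    · left; rw [← mul_assoc, h]
    · right; rw [← mul_assoc, h, mul_assoc _ z, ← hz.cen, mul_assoc, mul_assoc, mul_assoc]
  have hzz : z * z = 1 := hz.sq
  obtain ⟨n1, n2⟩ := not_cen hz hy₁
  by_cases hd : w₁ * y₂ = y₂ * w₁
  · rw [tr_comm hd] at m4
    rcases conj_eq_imp hz m4 with h4 | h4 <;> rcases hA with h5 | h5 <;> rw [h5] at h4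
    · exact n1 (by simpa using h4)
    · rw [mul_assoc] at h4
      have : y₁ * z = 1 := by simpa using h4
      apply n2
      calc y₁ = y₁ * z * z := by rw [mul_assoc, hzz, mul_one]
        _ = z := by rw [this, one_mul]
    · exact n2 (by simpa using h4)
    · exact n1 (by simpa [mul_assoc] using h4)
  · rw [tr_ncomm hd] at m4
    rcases conj_eq_imp hz m4 with h4 | h4 <;> rcases hA with h5 | h5 <;> rw [h5] at h4
    · exact hne (by simpa [mul_assoc] using h4)
    · apply hne'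
      have : y₁ * z = y₂ := by simpa [mul_assoc] using h4
      rw [← this, mul_assoc, hzz, mul_one]
    · exact hne' (by simpa [mul_assoc] using h4)
    · exact hne (by simpa [mul_assoc] using h4)

/-- main combinatorial contradiction -/
lemma main {z : Q} (hz : ZPack z) (L : Subgroup (MulAut Q)) (hL : (Cfsg.Inn Q).IsComplement' L)
    {y y₁ y₂ : Q} (hy : y * y = z) (hy₁ : y₁ * y₁ = z) (hy₂ : y₂ * y₂ = z)
    (h1 : y * y₁ = y₁ * y) (h2 : y * y₂ = y₂ * y) (h12 : y₁ * y₂ = y₂ * y₁)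
    (n1 : y₁ ≠ y) (n1' : y₁ ≠ y * z) (n2 : y₂ ≠ y) (n2' : y₂ ≠ y * z) (n12 : y₁ ≠ y₂) (n12' : y₁ ≠ y₂ * z) :
    False := by
  have hzz := hz.sq
  obtain ⟨w, hw⟩ := exists_w hz L hL y hy
  obtain ⟨w₁, hw₁⟩ := exists_w hz L hL y₁ hy₁
  obtain ⟨w₂, hw₂⟩ := exists_w hz L hL y₂ hy₂
  set y₃ := y * (y₁ * y₂) with hy₃def
  have hy12 : (y₁ * y₂) * (y₁ * y₂) = 1 := by
    have : (y₁ * y₂) * (y₁ * y₂) = (y₁ * y₁) * (y₂ * y₂) := by
      rw [mul_assoc, ← mul_assoc y₂, ← h12]; simp only [mul_assoc]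
    rw [this, hy₁, hy₂, hzz]
  have hc12 : y * (y₁ * y₂) = (y₁ * y₂) * y := by
    rw [← mul_assoc, h1, mul_assoc, h2, mul_assoc]
  have hy₃ : y₃ * y₃ = z := by
    have : y₃ * y₃ = (y * y) * ((y₁ * y₂) * (y₁ * y₂)) := by
      rw [hy₃def, mul_assoc, ← mul_assoc (y₁ * y₂) y, ← hc12]; simp only [mul_assoc]
    rw [this, hy, hy12, mul_one]
  have h3 : y₃ * y = y * y₃ := by
    rw [hy₃def, mul_assoc, ← hc12]
  have n3 : y₃ ≠ y := by
    intro h
    have h4 : y₁ * y₂ = 1 := by simpa [hy₃def] using h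
    apply n12'
    have : y₁ = y₂⁻¹ := eq_inv_of_mul_eq_one_left h4
    rw [this, inv_eq_iff_mul_eq_one, ← mul_assoc, hy₂, hzz]
  have n3' : y₃ ≠ y * z := by
    intro h
    have h4 : y₁ * y₂ = z := by simpa [hy₃def] using h
    apply n12
    rw [← hy₂] at h4
    simpa using h4
  obtain ⟨w₃, hw₃⟩ := exists_w hz L hL y₃ hy₃
  have c1 := fact2 hz hL hy₁ hy h1.symm n1 n1' hw₁ hw
  have c2 := fact2 hz hL hy₂ hy h2.symm n2 n2' hw₂ hw
  have c3 := fact2 hz hL hy₃ hy h3 n3 n3' hw₃ hw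
  apply fact1 hz hL hy hw
  have h5 : y = y₃ * (y₁ * y₂) := by
    rw [hy₃def, mul_assoc, hy12, mul_one]
  have c12 : w * (y₁ * y₂) = (y₁ * y₂) * w := by
    rw [← mul_assoc, c1, mul_assoc, c2, mul_assoc]
  have h6 : w * (y₃ * (y₁ * y₂)) = (y₃ * (y₁ * y₂)) * w := by
    calc w * (y₃ * (y₁ * y₂)) = (w * y₃) * (y₁ * y₂) := (mul_assoc _ _ _).symm
      _ = y₃ * (w * (y₁ * y₂)) := by rw [c3]; exact mul_assoc _ _ _
      _ = (y₃ * (y₁ * y₂)) * w := by rw [c12]; exact (mul_assoc _ _ _).symm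
  rwa [← h5] at h6

/-- centralizers have index at most two -/
lemma index_centralizer_le {z : Q} (hz : ZPack z) (y : Q) : (Subgroup.centralizer ({y} : Set Q)).index ≤ 2 := by
  classical
  by_cases h : ∃ g : Q, ¬ g * y = y * g
  · obtain ⟨g, hg⟩ := h
    have : (Subgroup.centralizer ({y} : Set Q)).index = 2 := by
      rw [Subgroup.index_eq_two_iff]
      refine ⟨g, fun b => ?_⟩
      simp only [Subgroup.mem_centralizer_singleton_iff]
      have := hz.mul_comm_iff (a := b) (b := g) (y := y)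
      rw [this]
      by_cases hb : b * y = y * b
      · simp [hb, hg]
      · simp [hb, hg]
    exact this.le
  · push Not at h
    have : Subgroup.centralizer ({y} : Set Q) = ⊤ := by
      rw [eq_top_iff]
      intro x _
      rw [Subgroup.mem_centralizer_singleton_iff]
      exact h x
    rw [this]; simp


lemma card_centralizer_ge {z : Q} (hz : ZPack z) (y : Q) :
    Nat.card Q ≤ 2 * Nat.card ↥(Subgroup.centralizer ({y} : Set Q)) := by
  rw [← Subgroup.card_mul_index (Subgroup.centralizer ({y} : Set Q)), mul_comm]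
  exact Nat.mul_le_mul_right _ (index_centralizer_le hz y)

lemma card_centralizer_inf_ge {z : Q} (hz : ZPack z) (y y₁ : Q) :
    Nat.card Q ≤ 4 * Nat.card ↥(Subgroup.centralizer ({y} : Set Q) ⊓ Subgroup.centralizer ({y₁} : Set Q)) := by
  rw [← Subgroup.card_mul_index (Subgroup.centralizer ({y} : Set Q) ⊓ Subgroup.centralizer ({y₁} : Set Q)), mul_comm]
  refine Nat.mul_le_mul_right _ (Subgroup.index_inf_le.trans ?_)
  exact (Nat.mul_le_mul (index_centralizer_le hz y) (index_centralizer_le hz y₁)).trans (by norm_num)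

lemma exists_not_mem_finset (H : Subgroup Q) (s : Finset Q) (h : s.card < Nat.card ↥H) : ∃ x ∈ H, x ∉ s := by
  by_contra hcon
  push Not at hcon
  have : Nat.card ↥H ≤ s.card := by
    rw [← Nat.card_eq_finsetCard s]
    exact Nat.card_le_card_of_injective (fun x : ↥H => (⟨x.1, hcon x.1 x.2⟩ : s)) (by
      intro a b hab
      apply Subtype.ext
      simpa using hab)
  omega


theorem result {Q : Type*} [Group Q] [Finite Q] (n : ℕ) (hn : 3 ≤ n) (hQ : Cfsg.IsExtraspecial 2 Q) (hcard : Nat.card Q = 2 ^ (2 * n + 1)) (hplus : ∃ E : Subgroup Q, Cfsg.IsElementaryAbelian 2 E ∧ Nat.card ↥E = 2 ^ (n + 1)) (L : Subgroup (MulAut Q)) : ¬ (Cfsg.Inn Q).IsComplement' L := by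
  classical
  intro hL
  obtain ⟨⟨hp, -, hcom⟩, hc2⟩ := hQ
  -- the central involution
  have hnt : Nontrivial (Subgroup.center Q) := by
    rw [← Finite.one_lt_card_iff_nontrivial, hc2]; norm_num
  obtain ⟨⟨z, hzc⟩, hz1⟩ := exists_ne (1 : Subgroup.center Q)
  have hzne : z ≠ 1 := fun h => hz1 (by ext; exact h)
  have hmem : ∀ x ∈ Subgroup.center Q, x = 1 ∨ x = z := by
    intro x hx
    by_contra hcon
    push Not at hcon
    have hthree : ({⟨1, (Subgroup.center Q).one_mem⟩, ⟨z, hzc⟩, ⟨x, hx⟩} : Finset (Subgroup.center Q)).card = 3 := by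
      rw [Finset.card_eq_three]
      refine ⟨_, _, _, ?_, ?_, ?_, rfl⟩
      · simpa using hzne.symm
      · simpa using hcon.1.symm
      · simpa using hcon.2.symm
    letI := Fintype.ofFinite (Subgroup.center Q)
    have h2 := Finset.card_le_univ ({⟨1, (Subgroup.center Q).one_mem⟩, ⟨z, hzc⟩, ⟨x, hx⟩} : Finset (Subgroup.center Q))
    rw [hthree, ← Nat.card_eq_fintype_card, hc2] at h2
    omega
  have hzz : z * z = 1 := by
    rcases hmem (z * z) ((Subgroup.center Q).mul_mem hzc hzc) with h | h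
    · exact h
    · exact absurd (by simpa using h) hzne
  have hz : ZPack z := by
    refine ⟨fun x => ?_, hzz, hzne, fun x y => ?_, fun x hx => hmem x ?_⟩
    · exact (Subgroup.mem_center_iff.mp hzc x)
    · have h1 : ⁅x, y⁆ ∈ Subgroup.center Q := by
        rw [← hcom]; exact Subgroup.commutator_mem_commutator (Subgroup.mem_top _) (Subgroup.mem_top _)
      rcases hmem _ h1 with h | h
      · left; exact commutatorElement_eq_one_iff_mul_comm.mp h
      · right
        rw [commutatorElement_def] at h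
        rw [← h]; group
    · rw [Subgroup.mem_center_iff]
      intro y; exact (hx y).symm
  have hsq : ∀ x : Q, x * x = 1 ∨ x * x = z := by
    intro x
    apply hz.cenmem
    intro y
    rw [hz.mul_comm_iff]
  -- existence of a square root of z
  have hy : ∃ y : Q, y * y = z := by
    by_contra hcon
    push Not at hcon
    have h1 : ∀ x : Q, x * x = 1 := fun x => (hsq x).resolve_right (hcon x)
    have h2 : commutator Q = ⊥ := by
      rw [commutator_def, Subgroup.commutator_eq_bot_iff_le_centralizer]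
      intro x _
      rw [Subgroup.mem_centralizer_iff]
      intro y _
      have h3 := h1 (x * y)
      have hx := h1 x
      have hy := h1 y
      calc y * x = (x * x) * (y * x) * (y * y) := by rw [hx, hy]; simp
        _ = x * ((x * y) * (x * y)) * y := by group
        _ = x * y := by rw [h3, mul_one]
    rw [h2] at hcom
    rw [← hcom] at hc2
    simp at hc2
  obtain ⟨y, hy⟩ := hy
  have hQ7 : 128 ≤ Nat.card Q := by
    rw [hcard]
    calc 128 = 2 ^ 7 := by norm_num
      _ ≤ 2 ^ (2 * n + 1) := Nat.pow_le_pow_right (by norm_num) (by omega)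
  -- choose y₁
  have hzc' : ∀ x : Q, x * z = z * x := hz.cen
  obtain ⟨u, hu, hu'⟩ := exists_not_mem_finset (Subgroup.centralizer ({y} : Set Q)) {1, z, y, y * z} (by
    have h1 := card_centralizer_ge hz y
    have h2 : Finset.card ({1, z, y, y * z} : Finset Q) ≤ 4 := Finset.card_le_four
    omega)
  rw [Subgroup.mem_centralizer_singleton_iff] at hu
  simp only [Finset.mem_insert, Finset.mem_singleton, not_or] at hu'
  have hy1 : ∃ y₁ : Q, y₁ * y₁ = z ∧ y * y₁ = y₁ * y ∧ y₁ ≠ y ∧ y₁ ≠ y * z := by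
    rcases hsq u with h | h
    · refine ⟨y * u, ?_, ?_, ?_, ?_⟩
      · rw [mul_assoc, ← mul_assoc u, hu, mul_assoc, ← mul_assoc, ← mul_assoc, hy, mul_assoc, h, mul_one]
      · rw [mul_assoc, hu]
      · intro h'; exact hu'.1 (by simpa using h')
      · intro h'; exact hu'.2.1 (by simpa using h')
    · exact ⟨u, h, hu.symm, hu'.2.2.1, hu'.2.2.2⟩
  obtain ⟨y₁, hy₁, h1, n1, n1'⟩ := hy1
  obtain ⟨v, hv, hv'⟩ := exists_not_mem_finset
    (Subgroup.centralizer ({y} : Set Q) ⊓ Subgroup.centralizer ({y₁} : Set Q))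
    ({1, z, y, y * z} ∪ {y₁, y₁ * z, y * y₁, y * y₁ * z}) (by
    have h1 := card_centralizer_inf_ge hz y y₁
    have h2 : Finset.card ({1, z, y, y * z} : Finset Q) ≤ 4 := Finset.card_le_four
    have h3 : Finset.card ({y₁, y₁ * z, y * y₁, y * y₁ * z} : Finset Q) ≤ 4 := Finset.card_le_four
    have h4 := Finset.card_union_le ({1, z, y, y * z} : Finset Q) {y₁, y₁ * z, y * y₁, y * y₁ * z}
    omega)
  obtain ⟨hva, hvb⟩ := Subgroup.mem_inf.mp hv
  rw [Subgroup.mem_centralizer_singleton_iff] at hva hvb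
  simp only [Finset.mem_union, Finset.mem_insert, Finset.mem_singleton, not_or] at hv'
  have hy2 : ∃ y₂ : Q, y₂ * y₂ = z ∧ y * y₂ = y₂ * y ∧ y₁ * y₂ = y₂ * y₁ ∧ y₂ ≠ y ∧ y₂ ≠ y * z ∧
      y₁ ≠ y₂ ∧ y₁ ≠ y₂ * z := by
    rcases hsq v with h | h
    · refine ⟨y * v, ?_, ?_, ?_, ?_, ?_, ?_, ?_⟩
      · rw [mul_assoc, ← mul_assoc v, hva, mul_assoc, ← mul_assoc, ← mul_assoc, hy, mul_assoc, h, mul_one]
      · rw [mul_assoc, hva]
      · rw [← mul_assoc, ← h1, mul_assoc, ← hvb, mul_assoc]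
      · intro h'; exact hv'.1.1 (by simpa using h')
      · intro h'; exact hv'.1.2.1 (by simpa using h')
      · intro h'
        apply hv'.2.2.2.2
        rw [h', ← mul_assoc, hy, mul_assoc, hzc' v, ← mul_assoc, hzz, one_mul]
      · intro h'
        apply hv'.2.2.2.1 
        rw [h', ← mul_assoc, ← mul_assoc, hy, mul_assoc, hzc' v, ← mul_assoc, hzz, one_mul]
    · refine ⟨v, h, hva.symm, hvb.symm, hv'.1.2.2.1, hv'.1.2.2.2, ?_, ?_⟩
      · exact fun h' => hv'.2.1 h'.symm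
      · intro h'
        apply hv'.2.2.1
        rw [h', mul_assoc, hzz, mul_one]
  obtain ⟨y₂, hy₂, h2, h12, n2, n2', n12, n12'⟩ := hy2
  exact main hz L hL hy hy₁ hy₂ h1 h2 h12 n1 n1' n2 n2' n12 n12'

end Cfsg.Agent.S3085
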