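import Cfsg.Statements.S3103
import Cfsg.Agent.H2_PCons
import Cfsg.Agent.H18_CharP
import Cfsg.Agent.H11_TI
import Cfsg.Agent.H24_FratAut
import Cfsg.Agent.H7_Rad8f
import Cfsg.Agent.S0256
import Cfsg.Agent.H12_PStab2
import Cfsg.Agent.H2_PGroup

set_option autoImplicit false
open Cfsg

open Subgroup

namespace Cfsg.Agent.S3103


theorem quot_card {Q : Type*} [Group Q] [Finite Q] (h4 : SectionalPRankLE 2 4 Q) (N : Subgroup Q) [N.Normal]
    (hexp : ∀ v : Q ⧸ N, v ^ 2 = 1) : Nat.card (Q ⧸ N) ≤ 2 ^ 4 := by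
  haveI : (N.subgroupOf (⊤ : Subgroup Q)).Normal := inferInstance
  let g : (⊤ : Subgroup Q) →* Q ⧸ N := (QuotientGroup.mk' N).comp (Subgroup.subtype ⊤)
  have hg : Function.Surjective g := by
    intro x
    obtain ⟨x, rfl⟩ := QuotientGroup.mk_surjective x
    exact ⟨⟨x, Subgroup.mem_top x⟩, rfl⟩
  have h1 := h4 ⊤ g.ker
  let e : (⊤ : Subgroup Q) ⧸ g.ker ≃* Q ⧸ N := QuotientGroup.quotientKerEquivOfSurjective g hg
  have h2 : ∀ v : (⊤ : Subgroup Q) ⧸ g.ker, v ^ 2 = 1 := by
    intro v
    apply e.injective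
    rw [map_pow, map_one]
    exact hexp _
  have hcomm : ∀ a b : (⊤ : Subgroup Q) ⧸ g.ker, a * b = b * a := by
    intro a b
    have ha : a⁻¹ = a := by rw [inv_eq_iff_mul_eq_one, ← sq]; exact h2 a
    have hb : b⁻¹ = b := by rw [inv_eq_iff_mul_eq_one, ← sq]; exact h2 b
    have hab : (a * b)⁻¹ = a * b := by rw [inv_eq_iff_mul_eq_one, ← sq]; exact h2 _
    rw [mul_inv_rev, ha, hb] at hab
    exact hab.symm
  have h3 := h1 ⊤ ⟨⟨fun a b => Subtype.ext (hcomm _ _)⟩⟩ (fun a _ => h2 a)
  rw [Subgroup.card_top] at h3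
  rw [← Nat.card_congr e.toEquiv]
  exact h3

/-- automorphism groups of elementary abelian groups of order at most 16 -/
theorem aut_emb (V : Type*) [Group V] [Finite V] (hexp : ∀ v : V, v ^ 2 = 1) (hcard : Nat.card V ≤ 2 ^ 4) :
    ∃ f : MulAut V →* Matrix.GeneralLinearGroup (Fin 4) (ZMod 2), ∀ x, f x = 1 → x = 1 := by
  haveI hp2 : Fact (Nat.Prime 2) := ⟨Nat.prime_two⟩
  have hcomm : ∀ a b : V, a * b = b * a := by
    intro a b
    have ha : a⁻¹ = a := by rw [inv_eq_iff_mul_eq_one, ← sq]; exact hexp a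
    have hb : b⁻¹ = b := by rw [inv_eq_iff_mul_eq_one, ← sq]; exact hexp b
    have hab : (a * b)⁻¹ = a * b := by rw [inv_eq_iff_mul_eq_one, ← sq]; exact hexp _
    rw [mul_inv_rev, ha, hb] at hab
    exact hab.symm
  letI : CommGroup V := { (inferInstance : Group V) with mul_comm := hcomm }
  have hpg : IsPGroup 2 V := fun v => ⟨1, by simpa using hexp v⟩
  obtain ⟨n, hn⟩ := IsPGroup.iff_card.1 hpg
  have hn4 : n ≤ 4 := by
    rw [hn] at hcard
    exact (Nat.pow_le_pow_iff_right (by norm_num)).1 hcard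
  let W := V × Multiplicative (Fin (4 - n) → ZMod 2)
  have hW : Nat.card W = 2 ^ 4 := by
    rw [Nat.card_prod, hn]
    have : Nat.card (Multiplicative (Fin (4 - n) → ZMod 2)) = 2 ^ (4 - n) := by
      rw [Nat.card_congr Multiplicative.toAdd, Nat.card_eq_fintype_card]
      simp
    rw [this, ← pow_add]
    congr 1
    omega
  have hWe : ∀ w : W, w ^ 2 = 1 := by
    rintro ⟨v, w⟩
    refine Prod.ext (hexp v) ?_
    apply Multiplicative.toAdd.injective
    funext i
    change 2 • (Multiplicative.toAdd w i) = 0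
    rw [nsmul_eq_mul]
    have : ((2 : ℕ) : ZMod 2) = 0 := ZMod.natCast_self 2
    rw [this, zero_mul]
  let g1 : MulAut V →* MulAut W :=
    { toFun := fun α => MulEquiv.prodCongr α (MulEquiv.refl _)
      map_one' := by ext x <;> rfl
      map_mul' := fun a b => by ext x <;> rfl }
  letI : Module (ZMod 2) (Additive W) := AddCommGroup.zmodModule (n := 2) (by
    intro x
    exact hWe x.toMul)
  haveI : Finite (Additive W) := inferInstanceAs (Finite W)
  haveI : Module.Finite (ZMod 2) (Additive W) := Module.Finite.of_finite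
  have hfr : Module.finrank (ZMod 2) (Additive W) = 4 := by
    have h1 := Module.natCard_eq_pow_finrank (K := ZMod 2) (V := Additive W)
    have h2 : Nat.card (Additive W) = Nat.card W := rfl
    rw [h2, hW, Nat.card_zmod] at h1
    exact (Nat.pow_right_injective (le_refl 2) h1).symm
  let b : Module.Basis (Fin 4) (ZMod 2) (Additive W) := Module.finBasisOfFinrankEq _ _ hfr
  let g2 : MulAut W →* (Module.End (ZMod 2) (Additive W)) := Cfsg.Agent.H12.PStab.toEnd 2 W
  have hg2 : Function.Injective g2 := Cfsg.Agent.H12.PStab.toEnd_injective 2 W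
  let g3 : MulAut W →* (Module.End (ZMod 2) (Additive W))ˣ := g2.toHomUnits
  let g4 : (Module.End (ZMod 2) (Additive W))ˣ ≃* (Matrix (Fin 4) (Fin 4) (ZMod 2))ˣ :=
    Units.mapEquiv (LinearMap.toMatrixAlgEquiv b).toRingEquiv.toMulEquiv
  refine ⟨(g4.toMonoidHom.comp g3).comp g1, ?_⟩
  intro x hx
  have h1 : g4 (g3 (g1 x)) = 1 := hx
  have h2 : g3 (g1 x) = 1 := by
    apply g4.injective
    rw [h1, map_one]
  have h3 : g2 (g1 x) = 1 := congrArg Units.val h2
  have h4 : g1 x = 1 := by
    apply hg2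
    rw [h3, map_one]
  ext v
  have h5 := congrArg (fun (e : MulAut W) => (e (v, 1)).1) h4
  exact h5


/-- Let X be a finite 2-constrained group with no nontrivial normal subgroup of odd order such that O₂(X) has sectional 2-rank at most 4. Then X/O₂(X) is isomorphic to a subgroup of the alternating group of degree 8. -/
theorem result {X : Type*} [Group X] [Finite X] (hc : Cfsg.IsPConstrained 2 X) (hO : Cfsg.oddCore X = ⊥)
    (h4 : Cfsg.SectionalPRankLE 2 4 ↥(Cfsg.pCore 2 X)) :
    ∃ f : X ⧸ Cfsg.pCore 2 X →* ↥(alternatingGroup (Fin 8)), Function.Injective f := by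
    classical
    set Q := pCore 2 X with hQ
    haveI hp2 : Fact (Nat.Prime 2) := ⟨Nat.prime_two⟩
    have hQp : IsPGroup 2 Q := Cfsg.Agent.H11.Cores.pCore_isPGroup (G := X) 2
    have hcen : Subgroup.centralizer (pCore 2 X : Set X) ≤ pCore 2 X :=
      (Cfsg.Agent.H2.PCons.pc_iff_of_bot hO).1 hc
    have hFs : generalizedFittingSubgroup X = pCore 2 X := Cfsg.Agent.H18.CharP.hasCharP_iff.1 hcen
    let φ : X →* MulAut (Q ⧸ frattini Q) := (Cfsg.Agent.H24.FratAut.toQuot Q).comp MulAut.conjNormal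
    have hker : φ.ker = Q := by
      apply le_antisymm
      · intro a ha
        apply Cfsg.Agent.H11.TI.mem_pCore_of_trivial_on_frattini_quotient 2 hFs a
        intro v hv
        have ha' : MulAut.conjNormal a ∈ (Cfsg.Agent.H24.FratAut.toQuot Q).ker := ha
        rw [Cfsg.Agent.H24.FratAut.mem_ker_toQuot] at ha'
        have h1 := ha' ⟨v, hv⟩
        have h2 := (frattini Q).inv_mem h1
        refine ⟨_, h2, ?_⟩
        simp only [mul_inv_rev, inv_inv, Subgroup.coe_subtype, Subgroup.coe_mul, InvMemClass.coe_inv,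
          MulAut.conjNormal_apply]
        group
      · intro a ha
        change MulAut.conjNormal a ∈ (Cfsg.Agent.H24.FratAut.toQuot Q).ker
        rw [Cfsg.Agent.H24.FratAut.mem_ker_toQuot]
        intro x
        have h1 : MulAut.conjNormal a x * x⁻¹ = (⟨a, ha⟩ : Q) * x * (⟨a, ha⟩ : Q)⁻¹ * x⁻¹ := by
          apply Subtype.ext
          simp [commutatorElement_def, MulAut.conjNormal_apply]
        rw [h1]
        exact Cfsg.Agent.H2.PGroup.commutator_le_frattini hQp
          (Subgroup.commutator_mem_commutator (Subgroup.mem_top _) (Subgroup.mem_top _))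
    -- the order of the Frattini quotient
    have hexp : ∀ v : Q ⧸ frattini Q, v ^ 2 = 1 := by
      intro v
      obtain ⟨v, rfl⟩ := QuotientGroup.mk_surjective v
      rw [← QuotientGroup.mk_pow, QuotientGroup.eq_one_iff]
      exact Cfsg.Agent.H2.PGroup.pow_mem_frattini hQp v
    have hcard : Nat.card (Q ⧸ frattini Q) ≤ 2 ^ 4 := quot_card h4 _ hexp
    obtain ⟨f, hf⟩ := aut_emb (Q ⧸ frattini Q) hexp hcard
    obtain ⟨e1⟩ := _root_.H7.Rad8.psl_gl 4 (by norm_num)
    obtain ⟨e2⟩ := Cfsg.Agent.S0256.result (F := ZMod 2) (ZMod.card 2)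
    let ψ : X →* ↥(alternatingGroup (Fin 8)) := ((e2.toMonoidHom.comp e1.symm.toMonoidHom).comp f).comp φ
    have hψ : ψ.ker = Q := by
      rw [← hker]
      ext x
      rw [MonoidHom.mem_ker, MonoidHom.mem_ker]
      constructor
      · intro h
        apply hf
        apply e1.symm.injective
        apply e2.injective
        rw [map_one, map_one]
        exact h
      · intro h
        change e2 (e1.symm (f (φ x))) = 1
        rw [h, map_one, map_one, map_one]
    refine ⟨QuotientGroup.lift Q ψ (fun x hx => by rw [← hψ] at hx; exact hx), ?_⟩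
    rw [← MonoidHom.ker_eq_bot_iff, eq_bot_iff]
    intro y hy
    obtain ⟨y, rfl⟩ := QuotientGroup.mk_surjective y
    rw [MonoidHom.mem_ker, QuotientGroup.lift_mk] at hy
    rw [Subgroup.mem_bot, QuotientGroup.eq_one_iff]
    change y ∈ Q
    rw [← hψ]
    exact hy

end Cfsg.Agent.S3103
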