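import Cfsg.Statements.S3361
import Cfsg.Agent.H20_S61c

set_option autoImplicit false
open Cfsg

namespace Cfsg.Agent.S3361

/-- Let q be a prime and V a non-trivial finite vector space over the field with q elements, and let G be a finite solvable group acting faithfully and linearly on V and regularly on the non-zero vectors (transitively, with only the identity fixing a non-zero vector). Then either V can be identified with the additive group of a finite field F so that every element of G acts as x ↦ a·σ(x) (a ∈ F, σ a field automorphism), or V has 5^2, 7^2, 11^2 or 23^2 elements. Moreover, if q ≠ 2 then G has a normal subgroup of index 2, except that when V has 25 elements G may be isomorphic to SL(2,3) and when V has 121 elements G may be isomorphic to SL(2,3) × C₅. -/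
theorem result
    (q : ℕ) [Fact q.Prime] {V : Type*} [AddCommGroup V] [Module (ZMod q) V] [Finite V] [Nontrivial V]
    {G : Type*} [Group G] [Finite G] (hsol : Group.IsSolvable G)
    (ρ : G →* (V ≃ₗ[ZMod q] V)) (hρ : Function.Injective ρ)
    (htrans : ∀ v w : V, v ≠ 0 → w ≠ 0 → ∃ g : G, ρ g v = w)
    (hreg : ∀ v : V, v ≠ 0 → ∀ g : G, ρ g v = v → g = 1) :
    ((∃ (F : Type) (_ : Field F) (_ : Fintype F) (e : V ≃+ F),
        ∀ g : G, ∃ (a : F) (σ : F ≃+* F), ∀ v : V, e (ρ g v) = a * σ (e v)) ∨
      Nat.card V ∈ ({25, 49, 121, 529} : Set ℕ)) ∧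
    (q ≠ 2 → (∃ N : Subgroup G, N.Normal ∧ N.index = 2) ∨
      (Nat.card V = 25 ∧ Nonempty (G ≃* Matrix.SpecialLinearGroup (Fin 2) (ZMod 3))) ∨
      (Nat.card V = 121 ∧ Nonempty (G ≃* Matrix.SpecialLinearGroup (Fin 2) (ZMod 3) × Multiplicative (ZMod 5)))) := by
  classical
  rcases Cfsg.Agent.H20.S61.alt ρ hρ hreg htrans hsol with ⟨A, h⟩ | ⟨A, P, h⟩
  · refine ⟨Or.inl h.lin, fun hq => Or.inl ?_⟩
    exact Cfsg.Agent.H20.S61.index_two_case1 ρ hρ hreg htrans hq h
  · constructor
    · right
      rw [h.cardV]
      rcases h.hq with rfl | rfl | rfl | rfl <;> norm_num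
    · intro _
      by_cases hno : ∃ N : Subgroup G, N.Normal ∧ N.index = 2
      · exact Or.inl hno
      · right
        obtain ⟨h1, h2⟩ := Cfsg.Agent.H20.S61.case2_main ρ hreg htrans h hno
        rcases h1 with ⟨hq, hG, hA⟩ | ⟨hq, hG, hA⟩
        · left
          refine ⟨?_, Cfsg.Agent.H20.S61.sl_of_24 hG h2⟩
          rw [h.cardV, hq]; norm_num
        · right
          refine ⟨?_, Cfsg.Agent.H20.S61.sl_of_120 hG hA h.cent h2⟩
          rw [h.cardV, hq]; norm_num

end Cfsg.Agent.S3361
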