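import Cfsg.Statements.S3379
import Cfsg.Agent.H20_ZG

set_option autoImplicit false
open Cfsg

namespace Cfsg.Agent.S3379

/-- Let G be a finite group all of whose Sylow subgroups are cyclic. Then G is generated by two elements x and y of coprime orders n and m with x⁻¹yx = y^r, where gcd(r − 1, m) = 1 and r^n ≡ 1 (mod m). -/
theorem result {G : Type*} [Group G] [Finite G]
    (hZ : ∀ (p : ℕ) [Fact p.Prime] (P : Sylow p G), IsCyclic (P : Subgroup G)) :
    ∃ (x y : G) (n m r : ℕ), Subgroup.closure {x, y} = ⊤ ∧ orderOf x = n ∧ orderOf y = m ∧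
      x⁻¹ * y * x = y ^ r ∧ Nat.Coprime (r - 1) m ∧ Nat.Coprime n m ∧ 1 ≤ r ∧ r ^ n % m = 1 % m := by
  have hZ' : IsZGroup G := ⟨fun p hp P => by
    have := Fact.mk hp
    exact hZ p P⟩
  obtain ⟨x, y, n, m, r, h1, h2, h3, h4, h5, h6, h7, h8, _⟩ := Cfsg.Agent.H20.ZG.main (G := G)
  exact ⟨x, y, n, m, r, h1, h2, h3, h4, h5, h6, h7, h8⟩

end Cfsg.Agent.S3379
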