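import Cfsg.Statements.S3382
import Cfsg.Agent.H27_Mon3

set_option autoImplicit false
open Cfsg

namespace Cfsg.Agent.S3382

open Cfsg.Agent.H27Mon

lemma d21 : ∀ a : ZMod 2, a ≠ 0 → a = 1 := by decide
lemma d22 : ∀ a : ZMod 2, (a = 1 ∨ a = -1) → a = 1 := by decide
lemma d31 : ∀ a : ZMod 3, a ≠ 0 → a = 1 ∨ a = -1 := by decide
lemma d32 : ∀ a : ZMod 3, a ≠ 0 → a * a = 1 := by decide
lemma d33 : (1 : ZMod 3) ≠ -1 := by decide
lemma d34 : (-1 : ZMod 3) ≠ 0 := by decide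

lemma isA_ext {q : ℕ} {f g : GLV q} {a s : ZMod q} (hf : isA f a s) (hg : isA g a s) : f = g := by
  apply LinearEquiv.ext
  intro v
  rw [hf v, hg v]

lemma isA_inj {q : ℕ} [Fact q.Prime] {f : GLV q} {a s b r : ZMod q} (ha : a ≠ 0)
    (hf : isA f a s) (hg : isA f b r) : a = b ∧ s = r := by
  have h1 := (hf ![1, 0]).symm.trans (hg ![1, 0])
  have h2 := (hf ![0, 1]).symm.trans (hg ![0, 1])
  have e1 : a = b := by simpa using congrFun h1 1
  refine ⟨e1, ?_⟩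
  have e2 : s * a⁻¹ = r * b⁻¹ := by simpa using congrFun h2 0
  rw [← e1] at e2
  exact mul_right_cancel₀ (inv_ne_zero ha) e2

theorem case2 [Fact (Nat.Prime 2)] (T : Subgroup (GLV 2))
    (hT : ∀ t : T, PD (t : GLV 2) ∨ PA (t : GLV 2)) (β : MulAut T) : β = 1 := by
  have h1 : ∀ a : ZMod 2, a ≠ 0 → a = 1 := d21
  have h2 : ∀ a : ZMod 2, (a = 1 ∨ a = -1) → a = 1 := d22
  have hD : ∀ t : T, PD (t : GLV 2) → t = 1 := by
    rintro t ⟨a, s, ha, hs, ht⟩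
    rw [h1 a ha, h2 s hs] at ht
    exact Subtype.ext (isD_ext ht isD_one)
  apply MulEquiv.ext
  intro t
  rw [MulAut.one_apply]
  rcases hT t with h | h
  · rw [hD t h, map_one]
  · rcases hT (β t) with h' | h'
    · have h3 := hD _ h'
      have h4 : t = 1 := (MulEquiv.map_eq_one_iff β).mp h3
      rw [h4, map_one]
    · obtain ⟨a, s, ha, hs, ht⟩ := h
      obtain ⟨b, r, hb, hr, ht'⟩ := h'
      rw [h1 a ha, h2 s hs] at ht
      rw [h1 b hb, h2 r hr] at ht'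
      exact Subtype.ext (isA_ext ht' ht)

section
variable [Fact (Nat.Prime 3)]

def KK (T : Subgroup (GLV 3)) : Subgroup T where
  carrier := {t | (∃ a : ZMod 3, a ≠ 0 ∧ isD (t : GLV 3) a 1) ∨
    (∃ a : ZMod 3, a ≠ 0 ∧ isA (t : GLV 3) a (-1))}
  mul_mem' := by
    rintro x y (⟨a, ha, hx⟩ | ⟨a, ha, hx⟩) (⟨b, hb, hy⟩ | ⟨b, hb, hy⟩)
    · left
      have := isD_mul hx hy
      rw [mul_one] at this
      exact ⟨_, mul_ne_zero ha hb, this⟩
    · right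
      have := isDA_mul ha hb (by ring) hx hy
      rw [one_mul, one_mul] at this
      exact ⟨_, mul_ne_zero (inv_ne_zero ha) hb, this⟩
    · right
      have := isAD_mul ha hb hx hy
      rw [mul_one] at this
      exact ⟨_, mul_ne_zero ha hb, this⟩
    · left
      have := isA_mul ha hb (by ring) hx hy
      rw [neg_mul_neg (1 : ZMod 3) 1, mul_one] at this
      exact ⟨_, mul_ne_zero (mul_ne_zero d34 (inv_ne_zero ha)) hb, this⟩
  one_mem' := Or.inl ⟨1, one_ne_zero, isD_one⟩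
  inv_mem' := by
    rintro x (⟨a, ha, hx⟩ | ⟨a, ha, hx⟩)
    · left
      exact ⟨a⁻¹, inv_ne_zero ha, isD_inv ha (by ring) hx⟩
    · right
      have h1 := isA_mul ha ha (by ring) hx hx
      rw [neg_mul_neg (1 : ZMod 3) 1, mul_one, mul_assoc (-1 : ZMod 3), inv_mul_cancel₀ ha, mul_one] at h1
      have h2 := isDA_mul d34 ha (by ring) h1 hx
      rw [one_mul, one_mul] at h2
      have h3 : (x : GLV 3) ^ 4 = 1 := PA_sq ⟨a, -1, ha, Or.inr rfl, hx⟩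
      have h4 : (x : GLV 3)⁻¹ = (x : GLV 3) * x * x := by
        rw [inv_eq_iff_mul_eq_one]
        rw [← h3]
        simp only [pow_succ, pow_zero, one_mul, mul_assoc]
      refine ⟨(-1 : ZMod 3)⁻¹ * a, mul_ne_zero (inv_ne_zero d34) ha, ?_⟩
      change isA ((x : GLV 3)⁻¹) _ _
      rw [h4]
      exact h2

def ZZ (T : Subgroup (GLV 3)) : Subgroup T where
  carrier := {t | ∃ a : ZMod 3, a ≠ 0 ∧ isD (t : GLV 3) a 1}
  mul_mem' := by
    rintro x y ⟨a, ha, hx⟩ ⟨b, hb, hy⟩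
    have := isD_mul hx hy
    rw [mul_one] at this
    exact ⟨_, mul_ne_zero ha hb, this⟩
  one_mem' := ⟨1, one_ne_zero, isD_one⟩
  inv_mem' := by
    rintro x ⟨a, ha, hx⟩
    exact ⟨a⁻¹, inv_ne_zero ha, isD_inv ha (by ring) hx⟩

theorem case3 (T : Subgroup (GLV 3))
    (hT : ∀ t : T, PD (t : GLV 3) ∨ PA (t : GLV 3))
    (hTA : ∀ s : ZMod 3, (s = 1 ∨ s = -1) → ∃ f : GLV 3, f ∈ T ∧ isA f 1 s)
    [Finite T] (β : MulAut T) (r : ℕ) (hr : r.Prime) (hr2 : r ≠ 2) (hβ : β ^ r = 1) : β = 1 := by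
  have h2 := two_group (m := 1) (by norm_num) T hT
  have ha1 : ∀ a : ZMod 3, a ≠ 0 → a = 1 ∨ a = -1 := d31
  have haa : ∀ a : ZMod 3, a ≠ 0 → a * a = 1 := d32
  have h11 : (1 : ZMod 3) ≠ -1 := d33
  -- squares
  have hsqA : ∀ (t : T) (a s : ZMod 3), a ≠ 0 → (s = 1 ∨ s = -1) → isA (t : GLV 3) a s →
      isD ((t * t : T) : GLV 3) s 1 := by
    intro t a s ha hs ht
    have h := isA_mul ha ha (sq1 hs) ht ht
    rw [sq1 hs, mul_assoc, inv_mul_cancel₀ ha, mul_one] at h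
    exact h
  have hsqD : ∀ t : T, PD (t : GLV 3) → t * t = 1 := by
    rintro t ⟨a, s, ha, hs, ht⟩
    have h := isD_mul ht ht
    rw [haa a ha, sq1 hs] at h
    exact Subtype.ext (isD_ext h isD_one)
  have hne : ∀ t : T, t * t ≠ 1 → ∃ a : ZMod 3, a ≠ 0 ∧ isA (t : GLV 3) a (-1) := by
    intro t ht
    rcases hT t with h | ⟨a, s, ha, hs, h⟩
    · exact absurd (hsqD t h) ht
    · refine ⟨a, ha, ?_⟩
      rcases hs with rfl | rfl
      · exfalso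
        apply ht
        exact Subtype.ext (isD_ext (hsqA t a 1 ha (Or.inl rfl) h) isD_one)
      · exact h
  have hne' : ∀ (t : T) (a : ZMod 3), a ≠ 0 → isA (t : GLV 3) a (-1) → t * t ≠ 1 := by
    intro t a ha ht h
    have h3 := hsqA t a (-1) ha (Or.inr rfl) ht
    rw [h] at h3
    exact h11 (isD_inj one_ne_zero isD_one h3).1
  have hβA : ∀ (t : T) (a : ZMod 3), a ≠ 0 → isA (t : GLV 3) a (-1) →
      ∃ b : ZMod 3, b ≠ 0 ∧ isA ((β t : T) : GLV 3) b (-1) := by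
    intro t a ha ht
    apply hne
    intro h
    rw [← map_mul] at h
    exact hne' t a ha ht ((MulEquiv.map_eq_one_iff β).mp h)
  obtain ⟨f0, hf0T, hf0⟩ := hTA (-1) (Or.inr rfl)
  obtain ⟨f1, hf1T, hf1⟩ := hTA 1 (Or.inl rfl)
  have hβZ : ∀ t ∈ ZZ T, β t ∈ ZZ T := by
    rintro t ⟨a, ha, ht⟩
    rcases ha1 a ha with rfl | rfl
    · have : t = 1 := Subtype.ext (isD_ext ht isD_one)
      rw [this, map_one]
      exact (ZZ T).one_mem
    · have h3 : t = (⟨f0, hf0T⟩ : T) * ⟨f0, hf0T⟩ :=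
        Subtype.ext (isD_ext ht (hsqA ⟨f0, hf0T⟩ 1 (-1) one_ne_zero (Or.inr rfl) hf0))
      obtain ⟨b, hb, hb'⟩ := hβA ⟨f0, hf0T⟩ 1 one_ne_zero hf0
      rw [h3, map_mul]
      exact ⟨-1, ha, hsqA _ b (-1) hb (Or.inr rfl) hb'⟩
  have hβK : ∀ t ∈ KK T, β t ∈ KK T := by
    rintro t (h | ⟨a, ha, ht⟩)
    · exact Or.inl (hβZ t h)
    · exact Or.inr (hβA t a ha ht)
  have hnK : ∀ t : T, t ∉ KK T → (∃ a : ZMod 3, a ≠ 0 ∧ isD (t : GLV 3) a (-1)) ∨
      (∃ a : ZMod 3, a ≠ 0 ∧ isA (t : GLV 3) a 1) := by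
    intro t ht
    rcases hT t with ⟨a, s, ha, hs, h⟩ | ⟨a, s, ha, hs, h⟩
    · rcases hs with rfl | rfl
      · exact absurd (Or.inl ⟨a, ha, h⟩) ht
      · exact Or.inl ⟨a, ha, h⟩
    · rcases hs with rfl | rfl
      · exact Or.inr ⟨a, ha, h⟩
      · exact absurd (Or.inr ⟨a, ha, h⟩) ht
  have hKmul : ∀ x : T, x ∉ KK T → ∀ y : T, y ∉ KK T → x * y ∈ KK T := by
    intro x hx y hy
    rcases hnK x hx with ⟨a, ha, hxa⟩ | ⟨a, ha, hxa⟩ <;>
      rcases hnK y hy with ⟨b, hb, hyb⟩ | ⟨b, hb, hyb⟩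
    · left
      have := isD_mul hxa hyb
      rw [neg_mul_neg (1 : ZMod 3) 1, mul_one] at this
      exact ⟨_, mul_ne_zero ha hb, this⟩
    · right
      have := isDA_mul ha hb (by ring) hxa hyb
      rw [mul_one (-1 : ZMod 3)] at this
      exact ⟨_, mul_ne_zero (mul_ne_zero d34 (inv_ne_zero ha)) hb, this⟩
    · right
      have := isAD_mul ha hb hxa hyb
      rw [one_mul (-1 : ZMod 3)] at this
      exact ⟨_, mul_ne_zero ha hb, this⟩
    · left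
      have := isA_mul ha hb (by ring) hxa hyb
      rw [one_mul (1 : ZMod 3)] at this
      exact ⟨_, mul_ne_zero (mul_ne_zero one_ne_zero (inv_ne_zero ha)) hb, this⟩
  obtain ⟨x1, -, hx1K, hx1⟩ := fixd h2 β hr hr2 hβ (KK T) ⊤
    ⟨⟨f1, hf1T⟩, Subgroup.mem_top _, by
      rintro (⟨a, ha, h⟩ | ⟨a, ha, h⟩)
      · exact isDA ha h hf1
      · exact h11 (isA_inj one_ne_zero hf1 h).2⟩
    (fun x _ hx y _ hy => hKmul x hx y hy) le_top hβK (fun _ _ => Subgroup.mem_top _)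
  have hKZ : ∀ x ∈ KK T, x ∉ ZZ T → ∃ a : ZMod 3, a ≠ 0 ∧ isA (x : GLV 3) a (-1) := by
    rintro x (h | h) hx
    · exact absurd h hx
    · exact h
  have hZmul : ∀ x y : T, (∃ a : ZMod 3, a ≠ 0 ∧ isA (x : GLV 3) a (-1)) →
      (∃ a : ZMod 3, a ≠ 0 ∧ isA (y : GLV 3) a (-1)) → x * y ∈ ZZ T := by
    rintro x y ⟨a, ha, hx⟩ ⟨b, hb, hy⟩
    have := isA_mul ha hb (by ring) hx hy
    rw [neg_mul_neg (1 : ZMod 3) 1, mul_one (1 : ZMod 3)] at this
    exact ⟨_, mul_ne_zero (mul_ne_zero d34 (inv_ne_zero ha)) hb, this⟩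
  obtain ⟨z1, hz1K, hz1Z, hz1⟩ := fixd h2 β hr hr2 hβ (ZZ T) (KK T)
    ⟨⟨f0, hf0T⟩, Or.inr ⟨1, one_ne_zero, hf0⟩, by
      rintro ⟨a, ha, h⟩
      exact isDA ha h hf0⟩
    (fun x hx hx' y hy hy' => hZmul x y (hKZ x hx hx') (hKZ y hy hy'))
    (fun x hx => Or.inl hx) hβZ hβK
  obtain ⟨b, hb, hz1b⟩ := hKZ z1 hz1K hz1Z
  have hfZ : ∀ t ∈ ZZ T, β t = t := by
    rintro t ⟨a, ha, ht⟩
    rcases ha1 a ha with rfl | rfl
    · have : t = 1 := Subtype.ext (isD_ext ht isD_one)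
      rw [this, map_one]
    · have h3 : t = z1 * z1 := Subtype.ext (isD_ext ht (hsqA z1 b (-1) hb (Or.inr rfl) hz1b))
      rw [h3, map_mul, hz1]
  have hfK : ∀ t ∈ KK T, β t = t := by
    intro t ht
    by_cases hZ : t ∈ ZZ T
    · exact hfZ t hZ
    · have h3 := hfZ _ (hZmul t z1 (hKZ t ht hZ) ⟨b, hb, hz1b⟩)
      rw [map_mul, hz1] at h3
      exact mul_right_cancel h3
  apply MulEquiv.ext
  intro t
  rw [MulAut.one_apply]
  by_cases ht : t ∈ KK T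
  · exact hfK t ht
  · have h3 := hfK _ (hKmul t ht x1 hx1K)
    rw [map_mul, hx1] at h3
    exact mul_right_cancel h3

end

def adg {q : ℕ} [Fact q.Prime] (s : ZMod q) (hs : s ≠ 0) : GLV q where
  toFun v := ![s * v 1, v 0]
  invFun v := ![v 1, s⁻¹ * v 0]
  map_add' v w := by ext i; fin_cases i <;> simp <;> ring
  map_smul' c v := by ext i; fin_cases i <;> simp <;> ring
  left_inv v := by ext i; fin_cases i <;> simp [hs]
  right_inv v := by ext i; fin_cases i <;> simp [hs]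

lemma isA_adg {q : ℕ} [Fact q.Prime] (s : ZMod q) (hs : s ≠ 0) : isA (adg s hs) 1 s := by
  intro v
  ext i
  fin_cases i <;> simp [adg]

/-- Let q = 2^m + 1 be a prime other than 5. Then the automorphism group of the group of linear maps of F_q² of the forms (x, y) ↦ (a x, ± a⁻¹ y) and (x, y) ↦ (± a⁻¹ y, a x) with a ≠ 0 is itself a 2-group. -/
theorem result (q m : ℕ) [Fact q.Prime] (hq : q = 2 ^ m + 1) (hq5 : q ≠ 5)
    (T : Subgroup ((Fin 2 → ZMod q) ≃ₗ[ZMod q] (Fin 2 → ZMod q)))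
    (hT : ∀ f, f ∈ T ↔ ∃ a s : ZMod q, a ≠ 0 ∧ (s = 1 ∨ s = -1) ∧
      ((∀ v, f v = ![a * v 0, s * a⁻¹ * v 1]) ∨ (∀ v, f v = ![s * a⁻¹ * v 1, a * v 0]))) :
    IsPGroup 2 (MulAut T) := by
  haveI hfin : Finite ((Fin 2 → ZMod q) ≃ₗ[ZMod q] (Fin 2 → ZMod q)) :=
    Finite.of_injective (fun f => (f : (Fin 2 → ZMod q) → (Fin 2 → ZMod q))) DFunLike.coe_injective
  haveI hfin2 : Finite (MulAut T) :=
    Finite.of_injective (fun f : MulAut T => (f : T → T)) DFunLike.coe_injective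
  have hT1 : ∀ t : T, PD (t : GLV q) ∨ PA (t : GLV q) := by
    intro t
    obtain ⟨a, s, ha, hs, h | h⟩ := (hT t.1).mp t.2
    · exact Or.inl ⟨a, s, ha, hs, h⟩
    · exact Or.inr ⟨a, s, ha, hs, h⟩
  have hT2 : ∀ f : GLV q, PD f → f ∈ T := by
    rintro f ⟨a, s, ha, hs, h⟩
    exact (hT f).mpr ⟨a, s, ha, hs, Or.inl h⟩
  have hT3 : ∀ s : ZMod q, (s = 1 ∨ s = -1) → ∃ f : GLV q, f ∈ T ∧ isA f 1 s := by
    intro s hs
    have hs0 : s ≠ 0 := by
      intro h; have := sq1 hs; rw [h] at this; simp at this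
    exact ⟨adg s hs0, (hT _).mpr ⟨1, s, one_ne_zero, hs, Or.inr (isA_adg s hs0)⟩, isA_adg s hs0⟩
  apply two_of
  intro β r hr hr2 hβ
  rcases Nat.lt_or_ge m 3 with hm | hm
  · interval_cases m
    · have : q = 2 := by rw [hq]; norm_num
      subst this
      exact case2 T hT1 β
    · have : q = 3 := by rw [hq]; norm_num
      subst this
      exact case3 T hT1 hT3 β r hr hr2 hβ
    · exact absurd (by rw [hq]; norm_num) hq5
  · obtain ⟨f, hf, hfA⟩ := hT3 1 (Or.inl rfl)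
    exact main_big hq hm T hT1 hT2 ⟨f, hf, ⟨1, 1, one_ne_zero, Or.inl rfl, hfA⟩⟩ β r hr hr2 hβ

end Cfsg.Agent.S3382
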