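import Cfsg.Statements.S3420
import Mathlib
import Cfsg.Agent.H23_AltSpec


set_option autoImplicit false
open Cfsg

namespace Cfsg.Agent.S3420
open Subgroup Cfsg.Agent.H23.AltSpec Cfsg.Agent.H23.TwoPrimes

/-- Let n ≥ 11 and let G be a finite group with the same order and the same set of element orders as the alternating group of degree n. Then G has normal subgroups N < H such that H/N is a non-abelian simple group whose order is divisible by every prime p with n/2 < p ≤ n. -/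
theorem result {G : Type*} [Group G] [Finite G] (n : ℕ) (hn : 11 ≤ n)
    (hcard : Nat.card G = Nat.card ↥(alternatingGroup (Fin n)))
    (hspec : Set.range (orderOf : G → ℕ) = Set.range (orderOf : ↥(alternatingGroup (Fin n)) → ℕ)) :
    ∃ (N H : Subgroup G) (_ : N.Normal), H.Normal ∧ N < H ∧
      IsSimpleGroup (↥H ⧸ N.subgroupOf H) ∧ ¬ IsMulCommutative (↥H ⧸ N.subgroupOf H) ∧
      ∀ p : ℕ, p.Prime → n < 2 * p → p ≤ n → p ∣ Nat.card (↥H ⧸ N.subgroupOf H) := by

  haveI : Nontrivial (Fin n) := Fin.nontrivial_iff_two_le.2 (by omega)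
  have hG : 2 * Nat.card G = n.factorial := by
    rw [hcard, two_mul_nat_card_alternatingGroup, Nat.card_perm, Nat.card_fin]
  have hpG : ∀ p : ℕ, p.Prime → n < 2 * p → p ≤ n → p ∣ Nat.card G := by
    intro p hp h1 h2
    have h3 : p ∣ n.factorial := (hp.dvd_factorial).2 h2
    rw [← hG] at h3
    refine (hp.dvd_mul.1 h3).resolve_left ?_
    intro h
    have := Nat.le_of_dvd (by norm_num) h
    omega
  have hpG2 : ∀ p : ℕ, p.Prime → n < 2 * p → p ≤ n → ¬ p ^ 2 ∣ Nat.card G := by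
    intro p hp h1 h2 h3
    apply sq_not_dvd hp h1 h2
    rw [← hG]
    exact dvd_mul_of_dvd_right h3 _
  obtain ⟨p0, q0, hp0, hq0, hpq0, hp01, hq01, hp02, hq02⟩ := two_primes n hn
  obtain ⟨N, hN, hNmax⟩ := Set.exists_max_image {N : Subgroup G | N.Normal ∧ ∀ p : ℕ, p.Prime → n < 2 * p → p ≤ n → ¬ p ∣ Nat.card N}
    (fun A => Nat.card A) (Set.toFinite _) ⟨⊥, inferInstance, by intro p hp _ _; rw [Subgroup.card_bot]; exact hp.not_dvd_one⟩
  obtain ⟨hNn, hNp⟩ := hN
  have hNt : N < ⊤ := by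
    rw [lt_top_iff_ne_top]
    intro h
    apply hNp p0 hp0 hp01 hp02
    rw [h, Subgroup.card_top]
    exact hpG p0 hp0 hp01 hp02
  obtain ⟨H, hH, hHmin⟩ := Set.exists_min_image {H : Subgroup G | H.Normal ∧ N < H}
    (fun A => Nat.card A) (Set.toFinite _) ⟨⊤, inferInstance, hNt⟩
  obtain ⟨hHn, hNH⟩ := hH
  have hmin : ∀ M : Subgroup G, M.Normal → N < M → M ≤ H → M = H := by
    intro M hM h1 h2
    exact Subgroup.eq_of_le_of_card_ge h2 (hHmin M ⟨hM, h1⟩)
  obtain ⟨p, hp, hp1, hp2, hpH⟩ : ∃ p : ℕ, p.Prime ∧ n < 2 * p ∧ p ≤ n ∧ p ∣ Nat.card H := by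
    by_contra hcon
    push Not at hcon
    have h1 := hNmax H ⟨hHn, fun p hp h1 h2 => hcon p hp h1 h2⟩
    have h2 := Subgroup.eq_of_le_of_card_ge hNH.le h1
    exact hNH.ne h2
  have hH2 : ∀ p : ℕ, p.Prime → n < 2 * p → p ≤ n → ¬ p ^ 2 ∣ Nat.card H := fun p hp h1 h2 h3 =>
    hpG2 p hp h1 h2 (h3.trans (Subgroup.card_subgroup_dvd_card H))
  have hall : ∀ q : ℕ, q.Prime → n < 2 * q → q ≤ n → q ∣ Nat.card H := by
    intro q hq h1 h2
    by_contra hqH
    have hpq : p ≠ q := by rintro rfl; exact hqH hpH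
    obtain ⟨g, hg1, hg2⟩ := exists_order_mul_frattini H hp hq hpq hpH (hH2 p hp hp1 hp2) (hpG q hq h1 h2) hqH
      (not_dvd_sub_one hp hq (by omega) hp1 h1 hp2)
    have := spec_order hspec g hp hq hpq hg1 hg2
    omega
  have hquo : ∀ q : ℕ, q.Prime → n < 2 * q → q ≤ n → q ∣ Nat.card (↥H ⧸ N.subgroupOf H) := by
    intro q hq h1 h2
    have h3 := Subgroup.card_eq_card_quotient_mul_card_subgroup (N.subgroupOf H)
    have h4 := hall q hq h1 h2
    rw [h3] at h4
    refine (hq.dvd_mul.1 h4).resolve_right ?_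
    have h5 : Nat.card (N.subgroupOf H) = Nat.card N := by
      rw [← Subgroup.card_map_of_injective (f := H.subtype) H.subtype_injective, Subgroup.subgroupOf_map_subtype, inf_eq_left.2 hNH.le]
    rw [h5]
    exact hNp q hq h1 h2
  have hsim := simple_section N H hNH hmin hp hpH (hH2 p hp hp1 hp2) (hNp p hp hp1 hp2)
  refine ⟨N, H, hNn, hHn, hNH, hsim, ?_, hquo⟩
  intro hcomm
  letI : CommGroup (↥H ⧸ N.subgroupOf H) := { (inferInstance : Group (↥H ⧸ N.subgroupOf H)) with mul_comm := hcomm.is_comm.comm }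
  have hpr : (Nat.card (↥H ⧸ N.subgroupOf H)).Prime := IsSimpleGroup.prime_card
  have h1 := hquo p0 hp0 hp01 hp02
  have h2 := hquo q0 hq0 hq01 hq02
  rw [Nat.prime_dvd_prime_iff_eq hp0 hpr] at h1
  rw [Nat.prime_dvd_prime_iff_eq hq0 hpr] at h2
  exact hpq0 (h1.trans h2.symm)


end Cfsg.Agent.S3420
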