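import Cfsg.Statements.S3419
import Mathlib
import Cfsg.Agent.H23_AltSpec
import Cfsg.Agent.S3420
import Cfsg.Agent.H1_Hall


set_option autoImplicit false
open Cfsg

namespace Cfsg.Agent.S3419
open Subgroup Cfsg.Agent.H23.AltSpec Cfsg.Agent.H23.TwoPrimes

theorem hall_case {G : Type*} [Group G] [Finite G] [Group.IsSolvable G] (d r q a : ℕ) (hr : r.Prime) (hq : q.Prime) (hrq : r ≠ q) (ha : a ≠ 0)
    (hG : Nat.card G = (r ^ a * q) * d) (hc : (r ^ a * q).Coprime d) (h1 : ∀ m ∈ (r ^ a).divisors, m % q = 1 → m = 1)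
    (h2 : ¬ r ∣ q - 1) : ∃ g : G, q ∣ orderOf g ∧ r ∣ orderOf g := by
  haveI : Fact q.Prime := ⟨hq⟩
  haveI : Fact r.Prime := ⟨hr⟩
  obtain ⟨K, hK⟩ := Cfsg.Agent.H1.Hall.hall_exists _ _ hG hc
  obtain ⟨P⟩ : Nonempty (Sylow q K) := inferInstance
  have hcop : q.Coprime (r ^ a) := Nat.Coprime.pow_right _ ((Nat.coprime_primes hq hr).2 hrq.symm)
  have hPc : Nat.card P = q := by
    have h3 := P.card_eq_multiplicity
    have h4 : (Nat.card K).factorization q = 1 := by
      rw [hK, Nat.factorization_mul (pow_pos hr.pos _).ne' hq.ne_zero, Finsupp.add_apply, hq.factorization_self,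
        Nat.factorization_eq_zero_of_not_dvd ((Nat.Prime.coprime_iff_not_dvd hq).1 hcop)]
    rw [h4, pow_one] at h3
    exact h3
  have hn1 : Nat.card (Sylow q K) ∣ r ^ a := by
    have h3 := P.card_dvd_index
    have h4 : (P : Subgroup K).index = r ^ a := by
      have h5 := (P : Subgroup K).card_mul_index
      have h6 : Nat.card (P : Subgroup K) = q := hPc
      rw [h6, hK, mul_comm] at h5
      exact Nat.eq_of_mul_eq_mul_right hq.pos h5
    rwa [h4] at h3
  have hn2 : Nat.card (Sylow q K) % q = 1 := by
    have h3 := card_sylow_modEq_one q K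
    rw [Nat.ModEq, Nat.mod_eq_of_lt hq.one_lt] at h3
    exact h3
  have hn3 := h1 _ (Nat.mem_divisors.2 ⟨hn1, (pow_pos hr.pos _).ne'⟩) hn2
  have hnorm : (P : Subgroup K).Normal := by
    haveI : Subsingleton (Sylow q K) := by
      rw [← Nat.card_eq_one_iff_unique.trans ⟨fun h => h.1, fun h => ⟨h, inferInstance⟩⟩]
      exact hn3
    exact P.normal_of_subsingleton
  obtain ⟨x, hx⟩ := exists_prime_orderOf_dvd_card' r (show r ∣ Nat.card K by
    rw [hK]; exact dvd_mul_of_dvd_left (dvd_pow_self r ha) q)
  obtain ⟨g, hg1, hg2⟩ := exists_order_mul (P : Subgroup K) hq hr hrq.symm hPc x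
    (by rw [Subgroup.normalizer_eq_top]; exact mem_top x) hx h2
  exact ⟨g, by rwa [Subgroup.orderOf_coe], by rwa [Subgroup.orderOf_coe]⟩

/-- Let n ≥ 5 and let G be a finite group with the same order and the same set of element orders as the alternating group of degree n. Then G is not solvable. -/
theorem result {G : Type*} [Group G] [Finite G] (n : ℕ) (hn : 5 ≤ n)
    (hcard : Nat.card G = Nat.card ↥(alternatingGroup (Fin n)))
    (hspec : Set.range (orderOf : G → ℕ) = Set.range (orderOf : ↥(alternatingGroup (Fin n)) → ℕ)) :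
    ¬ Group.IsSolvable G := by

  intro hsol
  haveI : Nontrivial (Fin n) := Fin.nontrivial_iff_two_le.2 (by omega)
  have hG : 2 * Nat.card G = n.factorial := by
    rw [hcard, two_mul_nat_card_alternatingGroup, Nat.card_perm, Nat.card_fin]
  by_cases hn11 : 11 ≤ n
  · obtain ⟨N, H, hN, hH, hNH, hsim, hcom, -⟩ := Cfsg.Agent.S3420.result n hn11 hcard hspec
    apply hcom
    haveI := hsim
    have h1 : ∀ a b : (↥H ⧸ N.subgroupOf H), a * b = b * a := IsSimpleGroup.comm_iff_isSolvable.2 inferInstance
    exact ⟨⟨h1⟩⟩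
  · have key : ∀ r q : ℕ, r.Prime → q.Prime → r ≠ q → n < r + q → ¬ ∃ g : G, q ∣ orderOf g ∧ r ∣ orderOf g := by
      rintro r q hr hq hrq hlt ⟨g, h1, h2⟩
      have := spec_order hspec g hr hq hrq h2 h1
      omega
    have hn' : n ≤ 10 := by omega
    interval_cases n
    · refine key 3 5 (by norm_num) (by norm_num) (by norm_num) (by norm_num) (hall_case 4 3 5 1 (by norm_num) (by norm_num) (by norm_num) (by norm_num) ?_ (by norm_num) (by decide) (by norm_num))
      norm_num [Nat.factorial] at hG; omega
    · refine key 3 5 (by norm_num) (by norm_num) (by norm_num) (by norm_num) (hall_case 8 3 5 2 (by norm_num) (by norm_num) (by norm_num) (by norm_num) ?_ (by norm_num) (by decide) (by norm_num))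
      norm_num [Nat.factorial] at hG; omega
    · refine key 5 7 (by norm_num) (by norm_num) (by norm_num) (by norm_num) (hall_case 72 5 7 1 (by norm_num) (by norm_num) (by norm_num) (by norm_num) ?_ (by norm_num) (by decide) (by norm_num))
      norm_num [Nat.factorial] at hG; omega
    · refine key 5 7 (by norm_num) (by norm_num) (by norm_num) (by norm_num) (hall_case 576 5 7 1 (by norm_num) (by norm_num) (by norm_num) (by norm_num) ?_ (by norm_num) (by decide) (by norm_num))
      norm_num [Nat.factorial] at hG; omega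
    · refine key 5 7 (by norm_num) (by norm_num) (by norm_num) (by norm_num) (hall_case 5184 5 7 1 (by norm_num) (by norm_num) (by norm_num) (by norm_num) ?_ (by norm_num) (by decide) (by norm_num))
      norm_num [Nat.factorial] at hG; omega
    · refine key 5 7 (by norm_num) (by norm_num) (by norm_num) (by norm_num) (hall_case 10368 5 7 2 (by norm_num) (by norm_num) (by norm_num) (by norm_num) ?_ (by norm_num) (by decide) (by norm_num))
      norm_num [Nat.factorial] at hG; omega


end Cfsg.Agent.S3419
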