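import Cfsg.Statements.S3430
import Cfsg.Agent.H24_Zsig2

set_option autoImplicit false
open Cfsg

namespace Cfsg.Agent.S3430

/-- Let q, n ≥ 2 be integers. Unless (n = 2 and q + 1 = 2^s·3^t for some s ≥ 0 and t ≤ 1), or (q = 2 and n ∈ {4, 6, 10, 12, 18}), or (q = 3 and n ∈ {4, 6}), or (q, n) = (5, 6), there is a prime p dividing q^n − 1 but no q^i − 1 with 1 ≤ i < n (a primitive prime divisor), such that p > n + 1 or p² divides q^n − 1. -/
theorem result (q n : ℕ) (hq : 2 ≤ q) (hn : 2 ≤ n)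
    (h1 : ¬ (n = 2 ∧ ∃ s t : ℕ, t ≤ 1 ∧ q + 1 = 2 ^ s * 3 ^ t))
    (h2 : ¬ (q = 2 ∧ (n = 4 ∨ n = 6 ∨ n = 10 ∨ n = 12 ∨ n = 18)))
    (h3 : ¬ (q = 3 ∧ (n = 4 ∨ n = 6))) (h4 : ¬ (q = 5 ∧ n = 6)) :
    ∃ p : ℕ, p.Prime ∧ p ∣ q ^ n - 1 ∧ (∀ i : ℕ, 1 ≤ i → i < n → ¬ p ∣ q ^ i - 1) ∧ (n + 1 < p ∨ p ^ 2 ∣ q ^ n - 1) := by
  rcases Nat.eq_or_lt_of_le hn with rfl | hn3
  · -- n = 2
    have hsq : q ^ 2 - 1 = (q + 1) * (q - 1) := by
      obtain ⟨c, rfl⟩ : ∃ c, q = c + 1 := ⟨q - 1, by omega⟩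
      simp only [Nat.add_one_sub_one]
      have : (c + 1) ^ 2 = (c + 1 + 1) * c + 1 := by ring
      omega
    have hprim : ∀ p : ℕ, p.Prime → p ≠ 2 → p ∣ q + 1 → ∀ i : ℕ, 1 ≤ i → i < 2 → ¬ p ∣ q ^ i - 1 := by
      intro p hp hp2 hpd i hi hi2 hd
      have : i = 1 := by omega
      subst this
      rw [pow_one] at hd
      have h3 : p ∣ 2 := by
        have := Nat.dvd_sub hpd hd
        have e : q + 1 - (q - 1) = 2 := by omega
        rwa [e] at this
      exact hp2 ((Nat.prime_dvd_prime_iff_eq hp Nat.prime_two).mp h3)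
    by_cases hbig : ∃ p : ℕ, p.Prime ∧ 3 < p ∧ p ∣ q + 1
    · obtain ⟨p, hp, hp3, hpd⟩ := hbig
      exact ⟨p, hp, by rw [hsq]; exact hpd.mul_right _, hprim p hp (by omega) hpd, Or.inl (by omega)⟩
    · push Not at hbig
      obtain ⟨s, b, hb, hsb⟩ := Nat.exists_eq_pow_mul_and_not_dvd (show q + 1 ≠ 0 by omega) 2 (by norm_num)
      obtain ⟨t, c, hc, htc⟩ := Nat.exists_eq_pow_mul_and_not_dvd (show b ≠ 0 by rintro rfl; simp at hb) 3 (by norm_num)
      have hc1 : c = 1 := by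
        by_contra hne
        obtain ⟨p, hp, hpc⟩ := Nat.exists_prime_and_dvd hne
        have h5 : p ∣ q + 1 := by rw [hsb, htc]; exact (hpc.mul_left _).mul_left _
        have h6 : p ≤ 3 := by
          by_contra h
          exact hbig p hp (by omega) h5
        have h7 := hp.two_le
        interval_cases p
        · exact hb (by rw [htc]; exact hpc.mul_left _)
        · exact hc hpc
      rw [hc1, mul_one] at htc
      have ht : 2 ≤ t := by
        by_contra ht
        exact h1 ⟨rfl, s, t, by omega, by rw [hsb, htc]⟩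
      have h9 : 3 ^ 2 ∣ q + 1 := by
        rw [hsb, htc]
        exact (pow_dvd_pow 3 ht).mul_left _
      refine ⟨3, by norm_num, by rw [hsq]; exact ((dvd_pow_self 3 (by norm_num)).trans h9).mul_right _,
        hprim 3 (by norm_num) (by norm_num) ((dvd_pow_self 3 (by norm_num)).trans h9), Or.inr ?_⟩
      rw [hsq]
      exact h9.mul_right _
  · have key : ∀ p : ℕ, p.Prime → p ∣ q ^ n - 1 → (∀ i : ℕ, 1 ≤ i → i < n → ¬ p ∣ q ^ i - 1) → n + 1 < p →
        ∃ p : ℕ, p.Prime ∧ p ∣ q ^ n - 1 ∧ (∀ i : ℕ, 1 ≤ i → i < n → ¬ p ∣ q ^ i - 1) ∧ (n + 1 < p ∨ p ^ 2 ∣ q ^ n - 1) :=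
      fun p h1 h2 h3 h4 => ⟨p, h1, h2, h3, Or.inl h4⟩
    by_cases hex : (q, n) ∈ Cfsg.Agent.H24.Zsig2.exc
    · unfold Cfsg.Agent.H24.Zsig2.exc at hex
      simp only [List.mem_cons, Prod.mk.injEq, List.not_mem_nil, or_false] at hex
      rcases hex with ⟨rfl, rfl⟩ | ⟨rfl, rfl⟩ | ⟨rfl, rfl⟩ | ⟨rfl, rfl⟩ | ⟨rfl, rfl⟩ | ⟨rfl, rfl⟩ | ⟨rfl, rfl⟩ |
        ⟨rfl, rfl⟩ | ⟨rfl, rfl⟩ | ⟨rfl, rfl⟩ | ⟨rfl, rfl⟩ | ⟨rfl, rfl⟩ | ⟨rfl, rfl⟩
      · exact absurd ⟨rfl, by norm_num⟩ h2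
      · exact absurd ⟨rfl, by norm_num⟩ h2
      · exact absurd ⟨rfl, by norm_num⟩ h2
      · exact absurd ⟨rfl, by norm_num⟩ h2
      · exact absurd ⟨rfl, by norm_num⟩ h2
      · exact absurd ⟨rfl, by norm_num⟩ h3
      · exact absurd ⟨rfl, by norm_num⟩ h3
      · exact absurd ⟨rfl, rfl⟩ h4
      · exact key 7 (by norm_num) (by norm_num) (by intro i _ _; interval_cases i <;> norm_num) (by norm_num)
      · exact key 17 (by norm_num) (by norm_num) (by intro i _ _; interval_cases i <;> norm_num) (by norm_num)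
      · exact key 41 (by norm_num) (by norm_num) (by intro i _ _; interval_cases i <;> norm_num) (by norm_num)
      · exact key 7 (by norm_num) (by norm_num) (by intro i _ _; interval_cases i <;> norm_num) (by norm_num)
      · exact key 13 (by norm_num) (by norm_num) (by intro i _ _; interval_cases i <;> norm_num) (by norm_num)
    · obtain ⟨m, hm1, hm2, hm3⟩ := Cfsg.Agent.H24.Zsig2.large_prim_part q n (by omega) (by omega) hex
      by_contra hcon
      push Not at hcon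
      have hnp : ∀ p : ℕ, p.Prime → p ∣ m → ∀ i : ℕ, 1 ≤ i → i < n → ¬ p ∣ q ^ i - 1 := by
        intro p hp hpm k hk hkn hd
        have := Nat.dvd_gcd hpm hd
        rw [hm2 k hk hkn] at this
        exact hp.ne_one (Nat.dvd_one.mp this)
      -- all prime divisors of `m` equal `n + 1`
      have hall : ∀ p : ℕ, p.Prime → p ∣ m → p = n + 1 ∧ ¬ p ^ 2 ∣ m := by
        intro p hp hpm
        have h5 := hcon p hp (hpm.trans hm1) (hnp p hp hpm)
        refine ⟨le_antisymm h5.1 ?_, fun h => h5.2 (h.trans hm1)⟩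
        have : Fact p.Prime := ⟨hp⟩
        have h6 : orderOf (q : ZMod p) ∣ n :=
          (Cfsg.Agent.H24.Zsig.prime_dvd_pow_sub_one_iff hp (by omega)).mp (hpm.trans hm1)
        have h6' : orderOf (q : ZMod p) = n := by
          by_contra hne
          have hpos : 0 < orderOf (q : ZMod p) := Nat.pos_of_dvd_of_pos h6 (by omega)
          have hle := Nat.le_of_dvd (by omega) h6
          exact hnp p hp hpm _ hpos (by omega)
            ((Cfsg.Agent.H24.Zsig.prime_dvd_pow_sub_one_iff hp (by omega)).mpr dvd_rfl)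
        have hq0 : (q : ZMod p) ≠ 0 := by
          intro h0
          rw [h0, orderOf_zero] at h6'
          omega
        have h7 : orderOf (q : ZMod p) ∣ p - 1 := ZMod.orderOf_dvd_card_sub_one hq0
        rw [h6'] at h7
        have := Nat.le_of_dvd (by have := hp.two_le; omega) h7
        omega
      obtain ⟨p, hp, hpm⟩ := Nat.exists_prime_and_dvd (show m ≠ 1 by omega)
      obtain ⟨hpn, hp2⟩ := hall p hp hpm
      obtain ⟨c, hc⟩ := hpm
      have hc1 : c = 1 := by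
        by_contra hne
        obtain ⟨p', hp', hp'c⟩ := Nat.exists_prime_and_dvd hne
        obtain ⟨h5, _⟩ := hall p' hp' (by rw [hc]; exact hp'c.mul_left _)
        have : p' = p := by omega
        subst this
        apply hp2
        rw [hc, pow_two]
        exact Nat.mul_dvd_mul_left _ hp'c
      rw [hc1, mul_one] at hc
      omega

end Cfsg.Agent.S3430
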