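import Cfsg.Statements.S3704
import Cfsg.Agent.H21_Prim

set_option autoImplicit false
open Cfsg

namespace Cfsg.Agent.S3704

open MulAction H21.Prim
open scoped BigOperators

section
variable {G Ω : Type*} [Group G] [MulAction G Ω] (H : Subgroup G)

open Classical in
/-- incidence function -/
noncomputable def A (O : Set Ω) (q : G ⧸ H) (x : Ω) : ℚ := if (q.out)⁻¹ • x ∈ O then 1 else 0

open Classical in
theorem A_mk {O : Set Ω} (hO : ∀ h ∈ H, ∀ x ∈ O, h • x ∈ O) (g : G) (x : Ω) :
    A H O (g : G ⧸ H) x = if g⁻¹ • x ∈ O then 1 else 0 := by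
  obtain ⟨h, hh⟩ := QuotientGroup.mk_out_eq_mul H g
  unfold A
  rw [hh]
  congr 1
  rw [mul_inv_rev, mul_smul]
  apply propext
  constructor
  · intro h1
    have := hO h h.2 _ h1
    rwa [smul_inv_smul] at this
  · intro h1
    exact hO _ (H.inv_mem h.2) _ h1

theorem A_smul {O : Set Ω} (hO : ∀ h ∈ H, ∀ x ∈ O, h • x ∈ O) (g : G) (q : G ⧸ H) (x : Ω) :
    A H O q (g • x) = A H O (g⁻¹ • q) x := by
  obtain ⟨k, rfl⟩ := QuotientGroup.mk_surjective q
  have : (g⁻¹ • (k : G ⧸ H)) = ((g⁻¹ * k : G) : G ⧸ H) := rfl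
  rw [this, A_mk H hO, A_mk H hO, mul_inv_rev, inv_inv, mul_smul]

variable [Finite G] [Fintype (G ⧸ H)] [Fintype Ω]

noncomputable def B (O O' : Set Ω) (x y : Ω) : ℚ := ∑ q : G ⧸ H, A H O q x * A H O' q y

theorem B_smul {O O' : Set Ω} (hO : ∀ h ∈ H, ∀ x ∈ O, h • x ∈ O) (hO' : ∀ h ∈ H, ∀ x ∈ O', h • x ∈ O')
    (g : G) (x y : Ω) : B H O O' (g • x) (g • y) = B H O O' x y := by
  unfold B
  rw [← Equiv.sum_comp (MulAction.toPerm g : Equiv.Perm (G ⧸ H))]
  apply Finset.sum_congr rfl
  intro q _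
  rw [MulAction.toPerm_apply, A_smul H hO, A_smul H hO', inv_smul_smul]

theorem A_row (O : Set Ω) (q : G ⧸ H) : ∑ x, A H O q x = O.ncard := by
  classical
  unfold A
  rw [Finset.sum_ite, Finset.sum_const_zero, add_zero, Finset.sum_const, nsmul_eq_mul, mul_one]
  have h1 : (Finset.univ.filter (fun x => (q.out)⁻¹ • x ∈ O)) = (O.toFinset).image (fun x => q.out • x) := by
    ext x
    simp only [Finset.mem_filter, Finset.mem_univ, true_and, Finset.mem_image, Set.mem_toFinset]
    constructor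
    · intro h; exact ⟨_, h, smul_inv_smul _ _⟩
    · rintro ⟨y, hy, rfl⟩; rwa [inv_smul_smul]
  rw [h1, Finset.card_image_of_injective _ (MulAction.injective q.out), Set.ncard_eq_toFinset_card']

theorem A_sq (O : Set Ω) (q : G ⧸ H) (x : Ω) : A H O q x * A H O q x = A H O q x := by
  unfold A; split <;> simp

theorem A_disj {O O' : Set Ω} (hd : Disjoint O O') (q : G ⧸ H) (x : Ω) : A H O q x * A H O' q x = 0 := by
  unfold A
  split
  · rename_i h
    rw [if_neg (fun h' => Set.disjoint_left.mp hd h h')]; simp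
  · simp

theorem B_total (O O' : Set Ω) : ∑ x, ∑ y, B H O O' x y = Fintype.card (G ⧸ H) * (O.ncard * O'.ncard) := by
  unfold B
  have h1 : ∀ x, ∑ y, ∑ q : G ⧸ H, A H O q x * A H O' q y = ∑ q : G ⧸ H, A H O q x * O'.ncard := by
    intro x
    rw [Finset.sum_comm]
    apply Finset.sum_congr rfl
    intro q _
    rw [← Finset.mul_sum, A_row]
  simp_rw [h1]
  rw [Finset.sum_comm]
  have h2 : ∀ q : G ⧸ H, ∑ x, A H O q x * (O'.ncard : ℚ) = O.ncard * O'.ncard := by
    intro q
    rw [← Finset.sum_mul, A_row]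
  simp_rw [h2]
  rw [Finset.sum_const, nsmul_eq_mul, Finset.card_univ]

end

/-- inverse of `a I + l J`. -/
theorem inv_IJ {Ω : Type*} [Fintype Ω] [DecidableEq Ω] (a l : ℚ) (ha : 0 < a) (hl : 0 ≤ l) :
    ∃ T : Matrix Ω Ω ℚ, (Matrix.of fun x y => if x = y then a + l else l) * T = 1 := by
  have hd : 0 < a * (a + l * Fintype.card Ω) := by positivity
  have hd' : a + l * Fintype.card Ω ≠ 0 := by
    have : 0 < a + l * Fintype.card Ω := by positivity
    exact this.ne'
  refine ⟨Matrix.of fun x y => (if x = y then 1 / a else 0) - l / (a * (a + l * Fintype.card Ω)), ?_⟩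
  ext x y
  rw [Matrix.mul_apply]
  simp only [Matrix.of_apply, Matrix.one_apply]
  have h1 : ∀ z : Ω, (if x = z then a + l else l) * ((if z = y then 1 / a else 0) - l / (a * (a + l * Fintype.card Ω))) =
      (if x = z then a * ((if z = y then 1 / a else 0) - l / (a * (a + l * Fintype.card Ω))) else 0) +
      ((if z = y then l / a else 0) - l * (l / (a * (a + l * Fintype.card Ω)))) := by
    intro z
    split <;> split <;> field_simp <;> ring
  simp_rw [h1]
  rw [Finset.sum_add_distrib, Finset.sum_ite_eq, if_pos (Finset.mem_univ _), Finset.sum_sub_distrib, Finset.sum_ite_eq',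
    if_pos (Finset.mem_univ _), Finset.sum_const, nsmul_eq_mul, Finset.card_univ]
  split <;> field_simp <;> ring

theorem main {G Ω : Type*} [Group G] [Finite G] [MulAction G Ω] [Finite Ω] 
    (h2 : MulAction.IsMultiplyPretransitive G Ω 2) (H : Subgroup G) (hidx : H.index = Nat.card Ω)
    (O : Fin 3 → Set Ω) (hO : ∀ i, ∀ h ∈ H, ∀ x ∈ O i, h • x ∈ O i) (hne : ∀ i, (O i).Nonempty)
    (hdisj : ∀ i j, i ≠ j → Disjoint (O i) (O j)) : False := by
  classical
  haveI := Fintype.ofFinite Ω
  haveI := Fintype.ofFinite (G ⧸ H)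
  have hcard : Fintype.card (G ⧸ H) = Fintype.card Ω := by
    rw [← Nat.card_eq_fintype_card, ← Nat.card_eq_fintype_card, ← hidx]; rfl
  rw [is_two_pretransitive_iff] at h2
  have ht : IsPretransitive G Ω := by
    refine ⟨fun a b => ?_⟩
    by_cases h : a = b
    · exact ⟨1, by simp [h]⟩
    · obtain ⟨g, hg, _⟩ := h2 h (Ne.symm h)
      exact ⟨g, hg⟩
  obtain ⟨x0, hx0⟩ := hne 0
  obtain ⟨x1, hx1⟩ := hne 1
  have hx01 : x0 ≠ x1 := by
    rintro rfl
    exact Set.disjoint_left.mp (hdisj 0 1 (by decide)) hx0 hx1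
  set n : ℚ := (Fintype.card Ω : ℚ) with hn
  have hn2 : (2 : ℚ) ≤ n := by
    have : 1 < Fintype.card Ω := Fintype.one_lt_card_iff.mpr ⟨x0, x1, hx01⟩
    rw [hn]; exact_mod_cast this
  have hcardq : (Fintype.card (G ⧸ H) : ℚ) = n := by rw [hcard]
  -- sizes
  have hk0 : ∀ i, (0 : ℚ) < (O i).ncard := by
    intro i
    have : 0 < (O i).ncard := (Set.ncard_pos (Set.toFinite _)).mpr (hne i)
    exact_mod_cast this
  have hkn : ∀ i, ((O i).ncard : ℚ) < n := by
    intro i
    have : (O i).ncard < Fintype.card Ω := by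
      rw [← Nat.card_eq_fintype_card, ← Set.ncard_univ]
      apply Set.ncard_lt_ncard _ (Set.toFinite _)
      rw [Set.ssubset_univ_iff]
      intro h
      obtain ⟨j, hj⟩ : ∃ j : Fin 3, i ≠ j := by
        by_cases h0 : i = 0
        · exact ⟨1, by rw [h0]; decide⟩
        · exact ⟨0, h0⟩
      obtain ⟨y, hy⟩ := hne j
      exact Set.disjoint_left.mp (hdisj i j hj) (by rw [h]; trivial) hy
    rw [hn]; exact_mod_cast this
  -- constants
  have hconst : ∀ i j, ∀ x y, x ≠ y → B H (O i) (O j) x y = B H (O i) (O j) x0 x1 := by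
    intro i j x y hxy
    obtain ⟨g, hg, hg'⟩ := h2 hxy hx01
    rw [← B_smul H (hO i) (hO j) g x y, hg, hg']
  have hdiag : ∀ i j, ∀ x, B H (O i) (O j) x x = B H (O i) (O j) x0 x0 := by
    intro i j x
    obtain ⟨g, hg⟩ := ht.exists_smul_eq x x0
    rw [← B_smul H (hO i) (hO j) g x x, hg]
  have htot : ∀ i j, n * B H (O i) (O j) x0 x0 + n * (n - 1) * B H (O i) (O j) x0 x1 = n * ((O i).ncard * (O j).ncard) := by
    intro i j
    have h3 := B_total H (O i) (O j)
    rw [hcardq] at h3
    rw [← h3]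
    have h4 : ∀ x, ∑ y, B H (O i) (O j) x y = B H (O i) (O j) x0 x0 + (n - 1) * B H (O i) (O j) x0 x1 := by
      intro x
      rw [← Finset.add_sum_erase _ _ (Finset.mem_univ x), hdiag i j x]
      congr 1
      have h5 : ∑ y ∈ Finset.univ.erase x, B H (O i) (O j) x y = ∑ y ∈ Finset.univ.erase x, B H (O i) (O j) x0 x1 := by
        apply Finset.sum_congr rfl
        intro y hy
        rw [Finset.mem_erase] at hy
        exact hconst i j x y (Ne.symm hy.1)
      rw [h5, Finset.sum_const, nsmul_eq_mul, Finset.card_erase_of_mem (Finset.mem_univ _), Finset.card_univ]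
      rw [Nat.cast_sub (by
        have : 1 < Fintype.card Ω := Fintype.one_lt_card_iff.mpr ⟨x0, x1, hx01⟩
        omega)]
      simp [hn]
    simp_rw [h4]
    rw [Finset.sum_const, nsmul_eq_mul, Finset.card_univ]
    ring
  -- diagonal values
  have hdiagi : ∀ i, B H (O i) (O i) x0 x0 = (O i).ncard := by
    intro i
    have h3 : ∑ x, B H (O i) (O i) x x = n * (O i).ncard := by
      unfold B
      simp_rw [A_sq]
      rw [Finset.sum_comm]
      simp_rw [A_row]
      rw [Finset.sum_const, nsmul_eq_mul, Finset.card_univ, hcard]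
    simp_rw [hdiag i i] at h3
    rw [Finset.sum_const, nsmul_eq_mul, Finset.card_univ] at h3
    have hn0 : n ≠ 0 := by linarith
    exact mul_left_cancel₀ hn0 h3
  have hdiagij : ∀ i j, i ≠ j → ∀ x, B H (O i) (O j) x x = 0 := by
    intro i j hij x
    unfold B
    apply Finset.sum_eq_zero
    intro q _
    exact A_disj H (hdisj i j hij) q x
  have hb : ∀ i j, i ≠ j → 0 < B H (O i) (O j) x0 x1 := by
    intro i j hij
    have h3 := htot i j
    rw [hdiagij i j hij, mul_zero, zero_add] at h3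
    have h4 : 0 < n * ((O i).ncard * (O j).ncard : ℚ) := by
      have := hk0 i; have := hk0 j
      positivity
    rw [← h3] at h4
    have h5 : 0 < n * (n - 1) := by nlinarith
    exact (mul_pos_iff_of_pos_left h5).mp h4
  -- matrix of orbit 2
  set l : ℚ := B H (O 2) (O 2) x0 x1 with hl
  have hl0 : 0 ≤ l := by
    rw [hl]; unfold B
    apply Finset.sum_nonneg
    intro q _
    unfold A
    split <;> split <;> simp
  set a : ℚ := (O 2).ncard - l with ha
  have ha0 : 0 < a := by
    have h3 := htot 2 2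
    rw [hdiagi] at h3
    have hk := hk0 2
    have hk' := hkn 2
    have hn0 : 0 < n := by linarith
    have h4 : ((O 2).ncard : ℚ) + (n - 1) * l = (O 2).ncard * (O 2).ncard := by
      have : n * (((O 2).ncard : ℚ) + (n - 1) * l) = n * ((O 2).ncard * (O 2).ncard) := by rw [← h3]; ring
      exact mul_left_cancel₀ hn0.ne' this
    have h5 : (n - 1) * a = (O 2).ncard * (n - (O 2).ncard) := by
      rw [ha]; linear_combination -h4
    have h6 : 0 < (n - 1) * a := by rw [h5]; exact mul_pos hk (by linarith)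
    exact (mul_pos_iff_of_pos_left (by linarith : (0 : ℚ) < n - 1)).mp h6
  let M : Fin 3 → Matrix (G ⧸ H) Ω ℚ := fun i => Matrix.of fun q x => A H (O i) q x
  have hMM : ∀ i j x y, ((M i).transpose * M j) x y = B H (O i) (O j) x y := by
    intro i j x y
    rw [Matrix.mul_apply]
    rfl
  obtain ⟨T, hT⟩ := inv_IJ (Ω := Ω) a l ha0 hl0
  have hS : (M 2).transpose * M 2 = (Matrix.of fun x y => if x = y then a + l else l) := by
    ext x y
    rw [hMM, Matrix.of_apply]
    split
    · rename_i h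
      subst h
      rw [hdiag, hdiagi, ha]; ring
    · rename_i h
      rw [hconst _ _ _ _ h]
  rw [← hS, Matrix.mul_assoc] at hT
  have hT' := (Matrix.mul_eq_one_comm_of_card_eq (R := ℚ) (m := Ω) (n := G ⧸ H) hcard.symm).mp hT
  -- the combination
  set b0 := B H (O 2) (O 0) x0 x1 with hb0
  set b1 := B H (O 2) (O 1) x0 x1 with hb1
  have hb0p := hb 2 0 (by decide)
  have hb1p := hb 2 1 (by decide)
  have hzero : (M 2).transpose * ((b1 • M 0) - (b0 • M 1)) = 0 := by
    rw [Matrix.mul_sub, Matrix.mul_smul, Matrix.mul_smul]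
    ext x y
    rw [Matrix.sub_apply, Matrix.smul_apply, Matrix.smul_apply, hMM, hMM]
    by_cases h : x = y
    · subst h
      rw [hdiagij 2 0 (by decide), hdiagij 2 1 (by decide)]; simp
    · rw [hconst _ _ _ _ h, hconst _ _ _ _ h]
      simp only [smul_eq_mul, Matrix.zero_apply]
      rw [← hb0, ← hb1]; ring
  have hzero' : (b1 • M 0) - (b0 • M 1) = 0 := by
    have : (M 2 * T) * ((M 2).transpose * ((b1 • M 0) - (b0 • M 1))) = 0 := by rw [hzero, Matrix.mul_zero]
    rw [← Matrix.mul_assoc, hT', Matrix.one_mul] at this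
    exact this
  have h7 := congrFun (congrFun hzero' ((1 : G) : G ⧸ H)) x0
  rw [Matrix.sub_apply, Matrix.smul_apply, Matrix.smul_apply] at h7
  have h8 : M 0 ((1 : G) : G ⧸ H) x0 = 1 := by
    change A H (O 0) ((1 : G) : G ⧸ H) x0 = 1
    rw [A_mk H (hO 0), inv_one, one_smul, if_pos hx0]
  have h9 : M 1 ((1 : G) : G ⧸ H) x0 = 0 := by
    change A H (O 1) ((1 : G) : G ⧸ H) x0 = 0
    rw [A_mk H (hO 1), inv_one, one_smul, if_neg (fun h => Set.disjoint_left.mp (hdisj 0 1 (by decide)) hx0 h)]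
  rw [h8, h9] at h7
  simp at h7
  rw [← hb1] at hb1p
  exact hb1p.ne' h7

theorem main2 {G Ω : Type*} [Group G] [Finite G] [MulAction G Ω] [FaithfulSMul G Ω] [Finite Ω] (h2 : MulAction.IsMultiplyPretransitive G Ω 2) (H : Subgroup G) (hidx : H.index = Nat.card Ω) (hnt : ¬ MulAction.IsPretransitive H Ω) (hfix : ∀ a : Ω, ∃ h : H, h • a ≠ a) : Nat.card (MulAction.orbitRel.Quotient H Ω) = 2 := by
  classical
  have hfin : Finite (MulAction.orbitRel.Quotient H Ω) := Quotient.finite _
  have hge : 1 < Nat.card (MulAction.orbitRel.Quotient H Ω) := by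
    by_contra h
    apply hnt
    have hs : Subsingleton (MulAction.orbitRel.Quotient H Ω) := by
      rw [← Finite.card_le_one_iff_subsingleton]; omega
    rw [MulAction.pretransitive_iff_subsingleton_quotient]
    exact hs
  by_contra hne
  have h3 : 3 ≤ Nat.card (MulAction.orbitRel.Quotient H Ω) := by omega
  obtain ⟨f⟩ : Nonempty (Fin 3 ↪ MulAction.orbitRel.Quotient H Ω) := by
    haveI := Fintype.ofFinite (MulAction.orbitRel.Quotient H Ω)
    apply Function.Embedding.nonempty_of_card_le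
    rw [Fintype.card_fin, ← Nat.card_eq_fintype_card]; exact h3
  apply main h2 H hidx (fun i => MulAction.orbitRel.Quotient.orbit (f i))
  · intro i h hh x hx
    rw [MulAction.orbitRel.Quotient.mem_orbit] at hx ⊢
    rw [← hx]
    apply Quotient.sound
    exact ⟨⟨h, hh⟩, rfl⟩
  · intro i
    obtain ⟨x, hx⟩ := Quotient.exists_rep (f i)
    refine ⟨x, ?_⟩
    rw [MulAction.orbitRel.Quotient.mem_orbit]
    exact hx
  · intro i j hij
    rw [Set.disjoint_left]
    intro x hx hx'
    rw [MulAction.orbitRel.Quotient.mem_orbit] at hx hx'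
    exact hij (f.injective (hx.symm.trans hx'))

/-- Let G be a finite group acting faithfully and 2-transitively on a finite set Ω of size n, and let H be a subgroup of index n in G which is not transitive on Ω and fixes no point of Ω. Then H has exactly two orbits on Ω. -/
theorem result {G Ω : Type*} [Group G] [Finite G] [MulAction G Ω] [FaithfulSMul G Ω] [Finite Ω] (h2 : MulAction.IsMultiplyPretransitive G Ω 2) (H : Subgroup G) (hidx : H.index = Nat.card Ω) (hnt : ¬ MulAction.IsPretransitive H Ω) (hfix : ∀ a : Ω, ∃ h : H, h • a ≠ a) : Nat.card (MulAction.orbitRel.Quotient H Ω) = 2 := by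
  exact main2 h2 H hidx hnt hfix

end Cfsg.Agent.S3704
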