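import Cfsg.Statements.S3733


set_option autoImplicit false
open Cfsg

namespace Cfsg.Agent.S3733

/-- Let A and V be subgroups of a finite group with V abelian and nontrivial and A normalizing V. Suppose a nonempty finite family of proper subgroups of A partitions A: every non-identity element of A lies in exactly one member. If the number of members minus one is coprime to the order of V, then some member B of the family has a non-identity fixed point on V, that is V ∩ C(B) ≠ 1. -/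
theorem result {G : Type*} [Group G] [Finite G] (A V : Subgroup G) (hVab : IsMulCommutative V) (hV : V ≠ ⊥) (hAV : A ≤ Subgroup.normalizer (V : Set G)) (𝒜 : Finset (Subgroup G)) (hne : 𝒜.Nonempty) (hprop : ∀ B ∈ 𝒜, B < A) (hpart : ∀ a ∈ A, a ≠ 1 → ∃! B, B ∈ 𝒜 ∧ a ∈ B) (hk : (𝒜.card - 1).Coprime (Nat.card V)) : ∃ B ∈ 𝒜, V ⊓ Subgroup.centralizer (B : Set G) ≠ ⊥ := by

  classical
  haveI := Fintype.ofFinite G
  by_contra hcon
  push Not at hcon
  have hc : ∀ x y : V, x * y = y * x := fun x y => hVab.1.1 x y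
  letI : CommGroup V := { (inferInstance : Group V) with mul_comm := hc }
  obtain ⟨B₀, hB₀⟩ := hne
  apply hV
  rw [Subgroup.eq_bot_iff_forall]
  intro v hv
  have hAV' : ∀ a ∈ A, ∀ x ∈ V, a * x * a⁻¹ ∈ V := fun a ha x hx => (Subgroup.mem_normalizer_iff.1 (hAV ha) x).1 hx
  let F : A → V := fun a => ⟨(a : G) * v * (a : G)⁻¹, hAV' _ a.2 _ hv⟩
  let cj : A → V →* V := fun b =>
    { toFun := fun x => ⟨(b : G) * x * (b : G)⁻¹, hAV' _ b.2 _ x.2⟩
      map_one' := by apply Subtype.ext; simp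
      map_mul' := fun x y => by apply Subtype.ext; simp }
  have hcj : ∀ b a : A, cj b (F a) = F (b * a) := by
    intro b a
    apply Subtype.ext
    change (b : G) * ((a : G) * v * (a : G)⁻¹) * (b : G)⁻¹ = ((b * a : A) : G) * v * ((b * a : A) : G)⁻¹
    rw [Subgroup.coe_mul]; group
  -- invariance of the norm
  have hnorm : ∀ B : Subgroup G, B ∈ 𝒜 → ∀ C : Subgroup G, C ≤ A → B ≤ C →
      (∏ a : A, if (a : G) ∈ C then F a else 1) = 1 := by
    intro B hB C hCA hBC
    set P := (∏ a : A, if (a : G) ∈ C then F a else 1) with hP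
    have h1 : ((P : V) : G) ∈ V ⊓ Subgroup.centralizer (B : Set G) := by
      refine Subgroup.mem_inf.2 ⟨P.2, ?_⟩
      rw [Subgroup.mem_centralizer_iff]
      intro b hb
      have h2 : cj ⟨b, hCA (hBC hb)⟩ P = P := by
        rw [hP, map_prod]
        apply Fintype.prod_equiv (Equiv.mulLeft (⟨b, hCA (hBC hb)⟩ : A))
        intro a
        have : ((Equiv.mulLeft (⟨b, hCA (hBC hb)⟩ : A) a : A) : G) ∈ C ↔ (a : G) ∈ C := by
          change b * (a : G) ∈ C ↔ _
          exact Subgroup.mul_mem_cancel_left C (hBC hb)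
        by_cases h : (a : G) ∈ C
        · rw [if_pos h, if_pos (this.2 h), hcj]; rfl
        · rw [if_neg h, if_neg (fun h' => h (this.1 h')), map_one]
      have h3 := congrArg Subtype.val h2
      change b * (P : G) * b⁻¹ = P at h3
      rw [mul_inv_eq_iff_eq_mul] at h3
      exact h3
    rw [hcon B hB, Subgroup.mem_bot] at h1
    exact Subtype.ext h1
  have hone : (1 : A) ∈ (Finset.univ : Finset A) := Finset.mem_univ _
  have hF1 : F 1 = ⟨v, hv⟩ := by apply Subtype.ext; simp [F]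
  have hsplit : ∀ C : Subgroup G, (∏ a : A, if (a : G) ∈ C then F a else 1) =
      ⟨v, hv⟩ * ∏ a : A, if (a : G) ∈ C ∧ a ≠ 1 then F a else 1 := by
    intro C
    rw [← Finset.mul_prod_erase _ _ hone, ← Finset.mul_prod_erase (a := (1 : A)) _ (fun a : A => if (a : G) ∈ C ∧ a ≠ 1 then F a else 1) hone]
    rw [if_pos (by exact C.one_mem), hF1, if_neg (by simp), one_mul]
    congr 1
    apply Finset.prod_congr rfl
    intro a ha
    have ha1 : a ≠ 1 := Finset.ne_of_mem_erase ha
    by_cases h : (a : G) ∈ C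
    · rw [if_pos h, if_pos ⟨h, ha1⟩]
    · rw [if_neg h, if_neg (fun h' => h h'.1)]
  have hB1 : ∀ B ∈ 𝒜, (∏ a : A, if (a : G) ∈ B ∧ a ≠ 1 then F a else 1) = (⟨v, hv⟩ : V)⁻¹ := by
    intro B hB
    have := hnorm B hB B (hprop B hB).le le_rfl
    rw [hsplit] at this
    exact eq_inv_of_mul_eq_one_right this
  have hA1 : (∏ a : A, if (a : G) ∈ A ∧ a ≠ 1 then F a else 1) = (⟨v, hv⟩ : V)⁻¹ := by
    have := hnorm B₀ hB₀ A le_rfl (hprop B₀ hB₀).le
    rw [hsplit] at this
    exact eq_inv_of_mul_eq_one_right this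
  have hprod : ∏ B ∈ 𝒜, (∏ a : A, if (a : G) ∈ B ∧ a ≠ 1 then F a else 1) = ∏ a : A, if (a : G) ∈ A ∧ a ≠ 1 then F a else 1 := by
    rw [Finset.prod_comm]
    apply Finset.prod_congr rfl
    intro a _
    by_cases h : a = 1
    · rw [if_neg (fun h' => h'.2 h)]
      apply Finset.prod_eq_one
      intro B _
      rw [if_neg (fun h' => h'.2 h)]
    · rw [if_pos ⟨a.2, h⟩]
      obtain ⟨B, ⟨hB, haB⟩, hu⟩ := hpart a a.2 (fun h' => h (Subtype.ext h'))
      rw [Finset.prod_eq_single B]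
      · rw [if_pos ⟨haB, h⟩]
      · intro B' hB' hne
        rw [if_neg]
        rintro ⟨h', -⟩
        exact hne (hu B' ⟨hB', h'⟩)
      · intro h'; exact absurd hB h'
  rw [Finset.prod_congr rfl hB1, hA1, Finset.prod_const] at hprod
  have h5 : (⟨v, hv⟩ : V) ^ (𝒜.card - 1) = 1 := by
    have hc1 : 1 ≤ 𝒜.card := Finset.card_pos.2 ⟨B₀, hB₀⟩
    obtain ⟨k, hk'⟩ : ∃ k, 𝒜.card = k + 1 := ⟨𝒜.card - 1, by omega⟩
    rw [hk'] at hprod ⊢
    rw [pow_succ, inv_pow] at hprod
    have h6 := mul_eq_right.1 hprod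
    rwa [inv_eq_one, ← Nat.add_sub_cancel (n := k) (m := 1)] at h6
  have h6 : orderOf (⟨v, hv⟩ : V) = 1 := by
    apply Nat.eq_one_of_dvd_coprimes hk (orderOf_dvd_of_pow_eq_one h5) (orderOf_dvd_natCard _)
  rw [orderOf_eq_one_iff] at h6
  exact congrArg Subtype.val h6


end Cfsg.Agent.S3733
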