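import Cfsg.Statements.S3734
import Cfsg.Agent.H22_Gen

set_option autoImplicit false
open Cfsg

namespace Cfsg.Agent.S3734

open Subgroup H22.Basic
open scoped commutatorElement

/-- Let A and G be subgroups of a finite group with A abelian, A normalizing G and the orders of A and G coprime. Then G is generated by the fixed-point subgroups C_G(B) of those subgroups B of A for which A/B is cyclic (that is, A = ⟨B, a⟩ for some a), and [G, A] is generated by the commutator subgroups [C_G(B), A] over the same subgroups B. -/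
theorem result {X : Type*} [Group X] [Finite X] (A G : Subgroup X) (hAab : IsMulCommutative A) (hAG : A ≤ Subgroup.normalizer (G : Set X)) (hcop : (Nat.card A).Coprime (Nat.card G)) : (⨆ B ∈ {B : Subgroup X | B ≤ A ∧ ∃ a ∈ A, B ⊔ Subgroup.zpowers a = A}, G ⊓ Subgroup.centralizer (B : Set X)) = G ∧ (⨆ B ∈ {B : Subgroup X | B ≤ A ∧ ∃ a ∈ A, B ⊔ Subgroup.zpowers a = A}, ⁅G ⊓ Subgroup.centralizer (B : Set X), A⁆) = ⁅G, A⁆ := by
  have hA : ∀ a ∈ A, ∀ b ∈ A, a * b = b * a := fun x hx y hy =>
    congrArg Subtype.val (hAab.is_comm.comm ⟨x, hx⟩ ⟨y, hy⟩)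
  have hAsol : Group.IsSolvable A :=
    Group.isSolvable_of_comm (fun a b => Subtype.ext (hA a a.2 b b.2))
  constructor
  · apply le_antisymm
    · exact iSup₂_le fun B _ => inf_le_left
    · apply H22.Gen.gen_cyclic hA hAG hcop
      intro B hB hB'
      exact le_iSup₂_of_le (f := fun B (_ : B ∈ {B : Subgroup X | B ≤ A ∧ ∃ a ∈ A, B ⊔ Subgroup.zpowers a = A}) =>
        G ⊓ Subgroup.centralizer (B : Set X)) B ⟨hB, hB'⟩ le_rfl
  · apply le_antisymm
    · exact iSup₂_le fun B _ => commutator_mono inf_le_left le_rfl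
    · -- G₁ = [G, A]
      have h1 : ⁅⁅G, A⁆, A⁆ = ⁅G, A⁆ := H1.Coprime.commutator_commutator_eq A G hAG hcop (Or.inl hAsol)
      have hle : ⁅G, A⁆ ≤ G := H1.Coprime.commutator_le_of_le_normalizer hAG
      set G₁ := ⁅G, A⁆ with hG₁
      have hAG₁ : A ≤ normalizer (G₁ : Set X) := right_le_normalizer_commutator G A
      have hcop₁ : (Nat.card A).Coprime (Nat.card G₁) := hcop.coprime_dvd_right (card_dvd_of_le hle)
      set M := ⨆ B ∈ {B : Subgroup X | B ≤ A ∧ ∃ a ∈ A, B ⊔ Subgroup.zpowers a = A},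
        ⁅G₁ ⊓ Subgroup.centralizer (B : Set X), A⁆ with hM
      have hMle : M ≤ ⨆ B ∈ {B : Subgroup X | B ≤ A ∧ ∃ a ∈ A, B ⊔ Subgroup.zpowers a = A},
          ⁅G ⊓ Subgroup.centralizer (B : Set X), A⁆ :=
        iSup₂_mono fun B _ => commutator_mono (inf_le_inf_right _ hle) le_rfl
      have hMG : M ≤ G₁ := iSup₂_le fun B _ => (commutator_mono inf_le_left le_rfl).trans h1.le
      have hAB : ∀ B : Subgroup X, B ≤ A → A ≤ centralizer (B : Set X) := by
        intro B hB a ha
        rw [mem_centralizer_iff]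
        intro b hb
        exact hA b (hB hb) a ha
      have hinv : ∀ g : X, (∀ B : Subgroup X, B ≤ A →
          cj g ⁅G₁ ⊓ Subgroup.centralizer (B : Set X), A⁆ = ⁅G₁ ⊓ Subgroup.centralizer (B : Set X), A⁆) →
          g ∈ normalizer (M : Set X) := by
        intro g hg
        apply mem_normalizer_of_cj_le
        rw [hM, Subgroup.map_le_iff_le_comap]
        refine iSup₂_le fun B hB => ?_
        rw [← Subgroup.map_le_iff_le_comap]
        have h2 := hg B hB.1
        rw [show map (MulAut.conj g).toMonoidHom ⁅G₁ ⊓ Subgroup.centralizer (B : Set X), A⁆ =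
          cj g ⁅G₁ ⊓ Subgroup.centralizer (B : Set X), A⁆ from rfl, h2]
        exact le_iSup₂_of_le (f := fun B (_ : B ∈ {B : Subgroup X | B ≤ A ∧ ∃ a ∈ A, B ⊔ Subgroup.zpowers a = A}) =>
          ⁅G₁ ⊓ Subgroup.centralizer (B : Set X), A⁆) B hB le_rfl
      have hAM : A ≤ normalizer (M : Set X) := by
        intro g hg
        apply hinv
        intro B hB
        exact cj_eq_of_mem_normalizer (right_le_normalizer_commutator _ _ hg)
      have hCM : G₁ ⊓ centralizer (A : Set X) ≤ normalizer (M : Set X) := by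
        intro g hg
        apply hinv
        intro B hB
        have h2 : g ∈ centralizer (A : Set X) := (mem_inf.mp hg).2
        have h3 : cj g A = A := cj_eq_of_mem_normalizer (centralizer_le_normalizer _ h2)
        have h4 : cj g B = B := cj_eq_of_mem_normalizer (centralizer_le_normalizer _ (centralizer_le hB h2))
        have h5 : cj g G₁ = G₁ := cj_eq_of_mem (mem_inf.mp hg).1
        rw [commutator_cj, cj_inf, ← centralizer_cj, h3, h4, h5]
      have hgen : G₁ ≤ M ⊔ (G₁ ⊓ centralizer (A : Set X)) := by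
        apply H22.Gen.gen_cyclic hA hAG₁ hcop₁
        intro B hB hB'
        have hAGB : A ≤ normalizer ((G₁ ⊓ Subgroup.centralizer (B : Set X) : Subgroup X) : Set X) :=
          le_normalizer_inf hAG₁ ((hAB B hB).trans le_normalizer)
        have h2 := H1.Coprime.commutator_sup_centralizer A (G₁ ⊓ Subgroup.centralizer (B : Set X)) hAGB
          (hcop₁.coprime_dvd_right (card_dvd_of_le inf_le_left)) (Or.inl hAsol)
        rw [← h2]
        apply sup_le_sup
        · exact le_iSup₂_of_le (f := fun B (_ : B ∈ {B : Subgroup X | B ≤ A ∧ ∃ a ∈ A, B ⊔ Subgroup.zpowers a = A}) =>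
            ⁅G₁ ⊓ Subgroup.centralizer (B : Set X), A⁆) B ⟨hB, hB'⟩ le_rfl
        · exact inf_le_inf_right _ inf_le_left
      refine le_trans ?_ hMle
      rw [← h1, commutator_le]
      intro g hg a ha
      obtain ⟨m, hm, c, hc, rfl⟩ := (mem_sup_of_le_normalizer hCM).mp (hgen hg)
      have hca : a * c = c * a := mem_centralizer_iff.mp (mem_inf.mp hc).2 a ha
      have h2 : ⁅m * c, a⁆ = m * (a * m⁻¹ * a⁻¹) := by
        rw [commutatorElement_def]
        calc m * c * a * (m * c)⁻¹ * a⁻¹ = m * (c * a) * c⁻¹ * m⁻¹ * a⁻¹ := by group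
          _ = _ := by rw [← hca]; group
      rw [h2]
      exact M.mul_mem hm (H1.Coprime.conj_mem_of_le_normalizer hAM ha (M.inv_mem hm))

end Cfsg.Agent.S3734
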