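import Cfsg.Statements.S3735
import Cfsg.Agent.H22_Basic

set_option autoImplicit false
open Cfsg

namespace Cfsg.Agent.S3735

open Subgroup H22.Basic

variable {G : Type*} [Group G] [Finite G]

/-- minimal nontrivial `A`-invariant subgroup of `V` -/
def Atom (A V M : Subgroup G) : Prop :=
  M ≤ V ∧ A ≤ normalizer (M : Set G) ∧ M ≠ ⊥ ∧
    ∀ M' : Subgroup G, M' ≤ M → A ≤ normalizer (M' : Set G) → M' = ⊥ ∨ M' = M

theorem exists_atom {A V W : Subgroup G} (hW : W ≤ V) (hA : A ≤ normalizer (W : Set G)) (hb : W ≠ ⊥) :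
    ∃ M ≤ W, Atom A V M := by
  obtain ⟨M, ⟨h1, h2, h3⟩, hmin⟩ := Set.Finite.exists_minimal
    (Set.toFinite {M : Subgroup G | M ≤ W ∧ A ≤ normalizer (M : Set G) ∧ M ≠ ⊥}) ⟨W, le_rfl, hA, hb⟩
  refine ⟨M, h1, h1.trans hW, h2, h3, fun M' hM' hA' => ?_⟩
  by_cases h : M' = ⊥
  · exact Or.inl h
  · exact Or.inr (le_antisymm hM' (hmin ⟨hM'.trans h1, hA', h⟩ hM'))

theorem atom_cj {A H V M : Subgroup G} (hHV : H ≤ normalizer (V : Set G))
    (hAn : H ≤ normalizer (A : Set G)) (hM : Atom A V M) {h : G} (hh : h ∈ H) : Atom A V (cj h M) := by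
  obtain ⟨h1, h2, h3, h4⟩ := hM
  have hA : cj h A = A := cj_eq_of_mem_normalizer (hAn hh)
  have hA' : cj h⁻¹ A = A := cj_eq_of_mem_normalizer (hAn (H.inv_mem hh))
  refine ⟨?_, ?_, ?_, ?_⟩
  · rw [← cj_eq_of_mem_normalizer (hHV hh)]; exact cj_mono h1
  · rw [normalizer_cj, ← hA]; exact cj_mono h2
  · intro h5
    apply h3
    rw [← cj_inv_cj h M, h5, cj_bot]
  · intro M' hM' hAM'
    have h5 : cj h⁻¹ M' ≤ M := by
      rw [← cj_inv_cj h M]; exact cj_mono hM'
    have h6 : A ≤ normalizer ((cj h⁻¹ M' : Subgroup G) : Set G) := by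
      rw [normalizer_cj, ← hA']; exact cj_mono hAM'
    rcases h4 _ h5 h6 with h7 | h7
    · left
      rw [← cj_cj_inv h M', h7, cj_bot]
    · right
      rw [← h7, cj_cj_inv]

theorem le_normalizer_sSup {A : Subgroup G} {T : Set (Subgroup G)}
    (h : ∀ a ∈ A, ∀ M ∈ T, cj a M ∈ T) : A ≤ normalizer ((sSup T : Subgroup G) : Set G) := by
  intro a ha
  apply mem_normalizer_of_cj_le
  rw [Subgroup.map_le_iff_le_comap]
  apply sSup_le
  intro M hM
  rw [← Subgroup.map_le_iff_le_comap]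
  exact le_sSup (h a ha M hM)

/-- Clifford's Theorem for actions on finite abelian groups, first part. Let H and V be subgroups of a finite group with V abelian and H normalizing V, and let A be a normal subgroup of H. If every H-invariant subgroup of V has an H-invariant complement in V, then every A-invariant subgroup of V has an A-invariant complement in V. -/
theorem result {G : Type*} [Group G] [Finite G] (H A V : Subgroup G) (hVab : IsMulCommutative V) (hHV : H ≤ Subgroup.normalizer (V : Set G)) (hAH : A ≤ H) (hAn : H ≤ Subgroup.normalizer (A : Set G)) (hss : ∀ U : Subgroup G, U ≤ V → H ≤ Subgroup.normalizer (U : Set G) → ∃ W : Subgroup G, W ≤ V ∧ H ≤ Subgroup.normalizer (W : Set G) ∧ U ⊓ W = ⊥ ∧ U ⊔ W = V) (U : Subgroup G) (hUV : U ≤ V) (hAU : A ≤ Subgroup.normalizer (U : Set G)) : ∃ W : Subgroup G, W ≤ V ∧ A ≤ Subgroup.normalizer (W : Set G) ∧ U ⊓ W = ⊥ ∧ U ⊔ W = V := by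
  have hcomm : ∀ x ∈ V, ∀ y ∈ V, x * y = y * x := fun x hx y hy =>
    congrArg Subtype.val (hVab.is_comm.comm ⟨x, hx⟩ ⟨y, hy⟩)
  have hnorm : ∀ X Y : Subgroup G, X ≤ V → Y ≤ V → X ≤ normalizer (Y : Set G) := by
    intro X Y hX hY
    refine le_trans ?_ (centralizer_le_normalizer _)
    intro x hx
    rw [mem_centralizer_iff]
    intro y hy
    exact hcomm y (hY hy) x (hX hx)
  -- socle
  set S : Subgroup G := sSup {M | Atom A V M} with hS
  have hSV : S ≤ V := sSup_le fun M hM => hM.1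
  have hHS : H ≤ normalizer (S : Set G) :=
    le_normalizer_sSup fun h hh M hM => atom_cj hHV hAn hM hh
  have hStop : S = V := by
    obtain ⟨W, hWV, hHW, hSW, hSW'⟩ := hss S hSV hHS
    have hW : W = ⊥ := by
      by_contra hb
      obtain ⟨M, hMW, hM⟩ := exists_atom (A := A) hWV (hAH.trans hHW) hb
      have h1 : M ≤ S := le_sSup hM
      apply hM.2.2.1
      rw [eq_bot_iff, ← hSW]
      exact le_inf h1 hMW
    rw [hW, sup_bot_eq] at hSW'
    exact hSW'
  -- maximal W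
  obtain ⟨W, ⟨hW1, hW2, hW3⟩, hmax⟩ := Set.Finite.exists_maximal
    (Set.toFinite {W : Subgroup G | W ≤ V ∧ A ≤ normalizer (W : Set G) ∧ U ⊓ W = ⊥})
    ⟨⊥, bot_le, by
      have : ((⊥ : Subgroup G)).Normal := inferInstance
      rw [normalizer_eq_top]; exact le_top, inf_bot_eq U⟩
  refine ⟨W, hW1, hW2, hW3, le_antisymm (sup_le hUV hW1) ?_⟩
  rw [← hStop]
  apply sSup_le
  intro M hM
  by_contra hMUW
  have hAUW : A ≤ normalizer ((U ⊔ W : Subgroup G) : Set G) := le_normalizer_sup hAU hW2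
  have h1 : M ⊓ (U ⊔ W) = ⊥ := by
    rcases hM.2.2.2 (M ⊓ (U ⊔ W)) inf_le_left (le_normalizer_inf hM.2.1 hAUW) with h | h
    · exact h
    · exact absurd (inf_eq_left.mp h) hMUW
  have h2 : U ⊓ (W ⊔ M) = ⊥ := by
    rw [eq_bot_iff]
    rintro u ⟨hu, hu'⟩
    obtain ⟨w, hw, m, hm, rfl⟩ := (mem_sup_of_le_normalizer (hnorm M W hM.1 hW1)).mp hu'
    have h3 : m ∈ U ⊔ W := by
      have h4 : m = w⁻¹ * (w * m) := by group
      rw [h4]
      exact mul_mem (mem_sup_right (W.inv_mem hw)) (mem_sup_left hu)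
    have h5 : m ∈ M ⊓ (U ⊔ W) := ⟨hm, h3⟩
    rw [h1, mem_bot] at h5
    subst h5
    rw [mul_one] at hu
    have h6 : w ∈ U ⊓ W := ⟨hu, hw⟩
    rw [hW3, mem_bot] at h6
    rw [h6, mul_one]; exact one_mem _
  have h3 := hmax (y := W ⊔ M) ⟨sup_le hW1 hM.1, le_normalizer_sup hW2 hM.2.1, h2⟩ le_sup_left
  exact hMUW (le_sup_right.trans (h3.trans le_sup_right))

end Cfsg.Agent.S3735
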