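import Cfsg.Statements.S3736
import Cfsg.Agent.H22_Minimal

set_option autoImplicit false
open Cfsg

namespace Cfsg.Agent.S3736

open Subgroup H22.Basic H22.Coprime3

/-- The Hall–Higman reduction for a minimal non-trivial action. Let B, A and P be subgroups of a finite group with P a p-group, B normalizing P, and A a normal subgroup of B of order prime to p. Suppose A does not centralize P but centralizes every proper B-invariant subgroup of P. Then [P, A] = P; P is elementary abelian or special; B acts irreducibly on P/Φ(P), that is, the only B-invariant subgroups of P containing Φ(P) are Φ(P) and P; and if p is odd then every element of P has order dividing p. -/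
theorem result {X : Type*} [Group X] [Finite X] {p : ℕ} [Fact p.Prime] (B A P : Subgroup X) (hP : IsPGroup p P) (hBP : B ≤ Subgroup.normalizer (P : Set X)) (hAB : A ≤ B) (hAn : B ≤ Subgroup.normalizer (A : Set X)) (hAp : (Nat.card A).Coprime p) (hnt : ⁅P, A⁆ ≠ ⊥) (hmin : ∀ U : Subgroup X, U < P → B ≤ Subgroup.normalizer (U : Set X) → ⁅U, A⁆ = ⊥) : ⁅P, A⁆ = P ∧ (Cfsg.IsElementaryAbelian p P ∨ Cfsg.IsSpecial p ↥P) ∧ (∀ U : Subgroup X, (frattini ↥P).map P.subtype ≤ U → U ≤ P → B ≤ Subgroup.normalizer (U : Set X) → U = (frattini ↥P).map P.subtype ∨ U = P) ∧ (p ≠ 2 → ∀ x ∈ P, x ^ p = 1) := by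
  obtain ⟨h1, h2, h3, h4, h5, h6, h7⟩ := H22.Minimal.reduction hP hBP hAB hAn hAp hnt hmin
  refine ⟨h1, ?_, ?_, h7⟩
  · by_cases hab : ⁅P, P⁆ = ⊥
    · left
      refine ⟨commutator_self_eq_bot_iff.mp hab, fun x hx => ?_⟩
      have := pow_mem_map_frattini hP hx
      rw [h4, hab, mem_bot] at this
      exact this
    · right
      have hZ : (center P).map P.subtype = P ⊓ centralizer (P : Set X) := by
        ext x
        constructor
        · rintro ⟨y, hy, rfl⟩
          refine mem_inf.mpr ⟨y.2, mem_centralizer_iff.mpr fun z hz => ?_⟩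
          exact congrArg Subtype.val (mem_center_iff.mp hy ⟨z, hz⟩)
        · intro hx
          obtain ⟨hxP, hxC⟩ := mem_inf.mp hx
          refine ⟨⟨x, hxP⟩, ?_, rfl⟩
          rw [SetLike.mem_coe, mem_center_iff]
          intro z
          exact Subtype.ext (mem_centralizer_iff.mp hxC z z.2)
      have hZlt : P ⊓ centralizer (P : Set X) < P := by
        refine lt_of_le_of_ne inf_le_left fun h => hab ?_
        rw [commutator_eq_bot_iff_le_centralizer]
        exact inf_eq_left.mp h
      have hZ1 := h3 _ hZlt (le_normalizer_inf hBP (le_normalizer_centralizer hBP))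
      have hZ2 : (frattini P).map P.subtype = P ⊓ centralizer (P : Set X) :=
        le_antisymm (le_inf (map_subtype_le _) h5) (by rw [h4]; exact hZ1)
      refine ⟨hP, ?_, ?_⟩
      · apply map_injective P.subtype_injective
        rw [hZ2, hZ]
      · apply map_injective P.subtype_injective
        rw [hZ, ← hZ2, h4, _root_.commutator_def, map_commutator, ← MonoidHom.range_eq_map, range_subtype]
  · intro U hFU hUP hBU
    rcases eq_or_lt_of_le hUP with h | h
    · exact Or.inr h
    · left
      apply le_antisymm _ hFU
      rw [h4]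
      exact h3 U h hBU

end Cfsg.Agent.S3736
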