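import Cfsg.Statements.S3737
import Cfsg.Agent.H22_Minimal
import Cfsg.Agent.H22_BaerPQ

set_option autoImplicit false
open Cfsg

namespace Cfsg.Agent.S3737

open Subgroup H22.Basic H22.Coprime3

/-- Thompson's strengthening of the P × Q lemma for odd primes. Let p be an odd prime and let P, Q and G be subgroups of a finite group with P a p-group, Q of order prime to p and normalized by P, and G a p-group normalized by both P and Q. If every element of G centralized by P is centralized by Q, then Q centralizes G. -/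
theorem result {X : Type*} [Group X] [Finite X] {p : ℕ} [Fact p.Prime] (hp : p ≠ 2) (P Q G : Subgroup X) (hP : IsPGroup p P) (hQ : (Nat.card Q).Coprime p) (hPQ : P ≤ Subgroup.normalizer (Q : Set X)) (hG : IsPGroup p G) (hPG : P ≤ Subgroup.normalizer (G : Set X)) (hQG : Q ≤ Subgroup.normalizer (G : Set X)) (hC : G ⊓ Subgroup.centralizer (P : Set X) ≤ Subgroup.centralizer (Q : Set X)) : Q ≤ Subgroup.centralizer (G : Set X) := by
  by_contra hne
  have hBG : P ⊔ Q ≤ normalizer (G : Set X) := sup_le hPG hQG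
  obtain ⟨U, ⟨hUG, hBU, hUQ⟩, hmin⟩ := Set.Finite.exists_minimal
    (Set.toFinite {U : Subgroup X | U ≤ G ∧ P ⊔ Q ≤ normalizer (U : Set X) ∧ ⁅U, Q⁆ ≠ ⊥})
    ⟨G, le_rfl, hBG, fun h => hne (commutator_eq_bot_iff'.mp h)⟩
  have hPU : P ≤ normalizer (U : Set X) := le_sup_left.trans hBU
  have hQU : Q ≤ normalizer (U : Set X) := le_sup_right.trans hBU
  have hUp : IsPGroup p U := hG.to_le hUG
  obtain ⟨-, -, -, h4, h5, -, -⟩ := H22.Minimal.reduction (B := P ⊔ Q) (A := Q) hUp hBU le_sup_right
    (sup_le hPQ le_normalizer) hQ hUQ (by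
      intro U' hU' hBU'
      by_contra h
      exact absurd (hmin ⟨hU'.le.trans hUG, hBU', h⟩ hU'.le) (not_le_of_gt hU'))
  apply hUQ
  rw [commutator_eq_bot_iff']
  rw [h4] at h5
  exact H22.BaerPQ.class_two_pq_int hp hUp h5 hP hQ hPQ hPU hQU
    ((inf_le_inf_right _ hUG).trans hC)

end Cfsg.Agent.S3737
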