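import Cfsg.Statements.S3738
import Cfsg.Agent.H22_Basic
import Cfsg.Agent.H22_Minimal
import Cfsg.Agent.H22_Quad
import Cfsg.Agent.H24_FratAut
import Cfsg.Agent.H2_PGroup

set_option autoImplicit false
open Cfsg

namespace Cfsg.Agent.S3738

open Subgroup
open scoped commutatorElement

/-- a group acting freely outside `S` -/
theorem card_dvd_sub {X : Type*} [Group X] [Finite X] (B T S : Subgroup X) (hBT : B ≤ normalizer (T : Set X))
    (hBS : B ≤ normalizer (S : Set X)) (hST : S ≤ T) (h : ∀ b ∈ B, b ≠ 1 → ∀ x ∈ T, b * x = x * b → x ∈ S) :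
    Nat.card B ∣ Nat.card T - Nat.card S := by
  classical
  let Y := {x : X // x ∈ T ∧ x ∉ S}
  let _ : MulAction B Y :=
    { smul := fun b x => ⟨(b : X) * x * (b : X)⁻¹, (mem_normalizer_iff.mp (hBT b.2) x).mp x.2.1,
        fun h => x.2.2 ((mem_normalizer_iff.mp (hBS b.2) x).mpr h)⟩
      one_smul := fun x => Subtype.ext (by show ((1 : B) : X) * x * ((1 : B) : X)⁻¹ = x; simp)
      mul_smul := fun a b x => Subtype.ext (by
        show ((a * b : B) : X) * x * ((a * b : B) : X)⁻¹ = a * (b * x * (b : X)⁻¹) * (a : X)⁻¹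
        rw [Subgroup.coe_mul]; group) }
  have h1 : Nat.card B ∣ Nat.card Y := by
    apply H24.FratAut.card_dvd_of_free
    intro b x hbx
    by_contra hb
    have h2 : (b : X) * x * (b : X)⁻¹ = x := congrArg Subtype.val hbx
    apply x.2.2
    exact h b b.2 (fun h => hb (Subtype.ext h)) x x.2.1 (mul_inv_eq_iff_eq_mul.mp h2)
  have h2 : Nat.card Y = Nat.card T - Nat.card S := by
    have := Fintype.ofFinite X
    have h3 : Nat.card Y = ((Finset.univ.filter (fun x : X => x ∈ T)) \ (Finset.univ.filter (fun x : X => x ∈ S))).card := by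
      rw [Nat.card_eq_fintype_card, Fintype.card_subtype]
      congr 1
      ext x
      simp
    rw [h3, Finset.card_sdiff_of_subset (by intro x hx; simp only [Finset.mem_filter, Finset.mem_univ, true_and] at hx ⊢; exact hST hx)]
    congr 1
    · rw [Nat.card_eq_fintype_card, Fintype.card_subtype]
    · rw [Nat.card_eq_fintype_card, Fintype.card_subtype]
  rwa [h2] at h1

/-- A cyclic 3-group acting faithfully and fixed-point-freely on a 2-group all of whose abelian subgroups have rank at most 2 has order 3. -/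
theorem result {X : Type*} [Group X] [Finite X] (d : X) (n : ℕ) (hn : 1 ≤ n) (hd : orderOf d = 3 ^ n) (P : Subgroup X) (hP : IsPGroup 2 P) (hdP : d ∈ Subgroup.normalizer (P : Set X)) (hfaith : Subgroup.zpowers d ⊓ Subgroup.centralizer (P : Set X) = ⊥) (hfpf : P ⊓ Subgroup.centralizer {d} = ⊥) (hrank : ∀ V : Subgroup X, V ≤ P → IsMulCommutative V → Cfsg.PRankLE 2 2 V) : orderOf d = 3 := by
  by_contra hd3
  have hn2 : 2 ≤ n := by
    by_contra h
    have : n = 1 := by omega
    rw [this, pow_one] at hd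
    exact hd3 hd
  have := Fact.mk Nat.prime_two
  set B := zpowers d with hB
  set e := d ^ 3 ^ (n - 1) with he
  set A := zpowers e with hA
  have hAB : A ≤ B := zpowers_le.mpr (pow_mem (mem_zpowers d) _)
  have heo : orderOf e = 3 := by
    rw [he, orderOf_pow' d (pow_ne_zero _ (by norm_num)), hd, Nat.gcd_eq_right (pow_dvd_pow 3 (Nat.sub_le n 1))]
    have : 3 ^ n = 3 ^ (n - 1) * 3 := by rw [← pow_succ]; congr 1; omega
    rw [this, Nat.mul_div_cancel_left _ (pow_pos (by norm_num) _)]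
  have hBP : B ≤ normalizer (P : Set X) := zpowers_le.mpr hdP
  have hBc : ∀ x ∈ B, ∀ y ∈ B, x * y = y * x := by
    intro x hx y hy
    obtain ⟨i, rfl⟩ := mem_zpowers_iff.mp hx
    obtain ⟨j, rfl⟩ := mem_zpowers_iff.mp hy
    exact ((Commute.refl d).zpow_zpow i j).eq
  have hAn : B ≤ normalizer (A : Set X) := by
    intro b hb
    apply H22.Basic.mem_normalizer_of_cj_le
    rintro _ ⟨a, ha, rfl⟩
    show b * a * b⁻¹ ∈ A
    rw [hBc b hb a (hAB ha), mul_inv_cancel_right]; exact ha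
  -- every nontrivial element of B has e as a power
  have hpow : ∀ b ∈ B, b ≠ 1 → e ∈ zpowers b := by
    intro b hb hb1
    have hbo : orderOf b ∣ 3 ^ n := by
      rw [← hd]
      have := orderOf_dvd_natCard (⟨b, hb⟩ : B)
      rwa [Subgroup.orderOf_mk, hB, Nat.card_zpowers] at this
    obtain ⟨k, hk, hbk⟩ := (Nat.dvd_prime_pow Nat.prime_three).mp hbo
    have hk0 : k ≠ 0 := by
      rintro rfl
      rw [pow_zero, orderOf_eq_one_iff] at hbk
      exact hb1 hbk
    -- zpowers b = zpowers (d ^ 3^(n-k))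
    have hcyc : IsCyclic B := inferInstance
    obtain ⟨i, hi⟩ := mem_powers_iff_mem_zpowers.mpr hb
    have hi' : d ^ i = b := hi
    -- order of d^i = 3^n / gcd
    have h1 : orderOf (d ^ i) = 3 ^ n / Nat.gcd (3 ^ n) i := by rw [orderOf_pow, hd]
    obtain ⟨j, hj, hgj⟩ := (Nat.dvd_prime_pow Nat.prime_three).mp (Nat.gcd_dvd_left (3 ^ n) i)
    rw [hi', hbk, hgj, Nat.pow_div hj (by norm_num)] at h1
    have hkj : k = n - j := Nat.pow_right_injective (le_refl 3 |> fun _ => by norm_num) h1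
    -- e ∈ zpowers (d^i) iff gcd | 3^(n-1)
    have hbez : ((Nat.gcd (3 ^ n) i : ℕ) : ℤ) = (3 ^ n : ℕ) * Nat.gcdA (3 ^ n) i + (i : ℤ) * Nat.gcdB (3 ^ n) i := Nat.gcd_eq_gcd_ab _ _
    have hdj : d ^ (3 ^ j) ∈ zpowers b := by
      rw [mem_zpowers_iff]
      refine ⟨Nat.gcdB (3 ^ n) i, ?_⟩
      rw [← hi', ← zpow_natCast d i, ← zpow_mul, ← zpow_natCast d (3 ^ j), ← hgj, hbez, zpow_add, zpow_mul d ((3 ^ n : ℕ) : ℤ), zpow_natCast d (3 ^ n), ← hd, pow_orderOf_eq_one, one_zpow, one_mul]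
    have : e = (d ^ 3 ^ j) ^ 3 ^ (n - 1 - j) := by
      rw [he, ← pow_mul, ← pow_add]; congr 2; omega
    rw [this]
    exact pow_mem hdj _
  have hnt : ⁅P, A⁆ ≠ ⊥ := by
    intro h1
    have h2 : e ∈ B ⊓ centralizer (P : Set X) := by
      refine ⟨hAB (mem_zpowers e), ?_⟩
      rw [commutator_comm, commutator_eq_bot_iff_le_centralizer] at h1
      exact h1 (mem_zpowers e)
    rw [hfaith, Subgroup.mem_bot] at h2
    rw [h2, orderOf_one] at heo
    omega
  obtain ⟨T, ⟨hTP, hBT, hTnt⟩, hmin⟩ := (Set.toFinite {T : Subgroup X | T ≤ P ∧ B ≤ normalizer (T : Set X) ∧ ⁅T, A⁆ ≠ ⊥}).exists_minimal ⟨P, le_rfl, hBP, hnt⟩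
  have hmin' : ∀ U : Subgroup X, U < T → B ≤ normalizer (U : Set X) → ⁅U, A⁆ = ⊥ := by
    intro U hU hBU
    by_contra hcon
    exact absurd (hmin ⟨hU.le.trans hTP, hBU, hcon⟩ hU.le) (not_le_of_gt hU)
  have hT2 : IsPGroup 2 T := hP.to_le hTP
  have hAcop : (Nat.card A).Coprime 2 := by rw [hA, Nat.card_zpowers, heo]; norm_num
  obtain ⟨h1, h2, h3, h4, h5, h6, _⟩ := H22.Minimal.reduction hT2 hBT hAB hAn hAcop hTnt hmin'
  rw [h4] at h5 h6
  set M := ⁅T, T⁆ with hM
  have hMT : M ≤ T := Subgroup.commutator_le_self T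
  have hBM : B ≤ normalizer (M : Set X) := H22.Basic.le_normalizer_commutator hBT hBT
  have hcen : ∀ c ∈ M, ∀ y ∈ T, c * y = y * c := fun c hc y hy => (mem_centralizer_iff.mp (h5 hc) y hy).symm
  have hsq : ∀ x ∈ T, x ^ 2 ∈ M := by
    intro x hx
    rw [← h4]
    exact ⟨_, H2.PGroup.pow_mem_frattini hT2 ⟨x, hx⟩, rfl⟩
  have hM2 : ∀ c ∈ M, c ^ 2 = 1 := by
    intro c hc
    refine Subgroup.closure_induction (p := fun c _ => c ^ 2 = 1) ?_ (one_pow 2) ?_ ?_ hc
    · rintro _ ⟨y, hy, z, hz, rfl⟩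
      have h8 : ⁅y ^ 2, z⁆ = ⁅y, z⁆ ^ 2 := by
        have h9 : ⁅y * y, z⁆ = y * ⁅y, z⁆ * y⁻¹ * ⁅y, z⁆ := by rw [commutatorElement_def, commutatorElement_def]; group
        rw [sq, h9, ← hcen _ (commutator_mem_commutator hy hz) y hy, mul_inv_cancel_right, sq]
      rw [← h8, commutatorElement_eq_one_iff_mul_comm]
      exact hcen _ (hsq y hy) z hz
    · intro a b ha hb ha2 hb2
      have hab : a * b = b * a := hcen a ha b (hMT hb)
      have : (a * b) ^ 2 = a ^ 2 * b ^ 2 := (show Commute a b from hab).mul_pow 2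
      rw [this, ha2, hb2, one_mul]
    · intro a _ ha2
      rw [inv_pow, ha2, inv_one]
  -- |T : M| ≥ 64
  have hcop : (Nat.card A).Coprime (Nat.card T) := by
    obtain ⟨m, hm⟩ := hT2.exists_card_eq
    rw [hm]; exact Nat.Coprime.pow_right m hAcop
  have hAT : A ≤ normalizer (T : Set X) := hAB.trans hBT
  have hCA : T ⊓ centralizer (A : Set X) ≤ M := H22.Minimal.centralizer_le_commutator hAT hcop h1
  have hfree : ∀ b ∈ B, b ≠ 1 → ∀ x ∈ T, b * x = x * b → x ∈ M := by
    intro b hb hb1 x hx hbx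
    apply hCA
    refine ⟨hx, ?_⟩
    show x ∈ centralizer (A : Set X)
    rw [mem_centralizer_iff]
    intro a ha
    have h7 : A ≤ zpowers b := zpowers_le.mpr (hpow b hb hb1)
    obtain ⟨j, rfl⟩ := mem_zpowers_iff.mp (h7 ha)
    exact ((show Commute b x from hbx).zpow_left j).eq
  have hdiv := card_dvd_sub B T M hBT hBM hMT hfree
  have hMlt : M ≠ T := by
    intro h
    apply hTnt
    rw [← h]; exact h6
  obtain ⟨t, ht⟩ := hT2.exists_card_eq
  obtain ⟨m, hm⟩ := (hT2.to_le hMT).exists_card_eq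
  have hmt : m < t := by
    have := H22.Basic.card_lt_of_lt (lt_of_le_of_ne hMT hMlt)
    rw [ht, hm] at this
    exact (Nat.pow_lt_pow_iff_right (by norm_num)).mp this
  have h64 : 6 ≤ t - m := by
    have h9 : 9 ∣ Nat.card T - Nat.card M := by
      refine dvd_trans ?_ hdiv
      rw [hB, Nat.card_zpowers, hd]
      exact pow_dvd_pow 3 hn2
    rw [ht, hm] at h9
    have h10 : 2 ^ t - 2 ^ m = 2 ^ m * (2 ^ (t - m) - 1) := by
      rw [Nat.mul_sub, mul_one, ← pow_add]; congr 2; omega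
    rw [h10] at h9
    have h11 : 9 ∣ 2 ^ (t - m) - 1 := (Nat.Coprime.pow_right m (by norm_num : Nat.Coprime 9 2)).dvd_of_dvd_mul_left h9
    by_contra hlt
    have h12 : t - m < 6 := by omega
    have h13 : 0 < t - m := by omega
    interval_cases (t - m) <;> omega
  -- abelian subgroups
  have hrk : ∀ V : Subgroup X, V ≤ T → (∀ x ∈ V, ∀ y ∈ V, x * y = y * x) → (∀ x ∈ V, x ^ 2 = 1) → Nat.card V ≤ 4 := by
    intro V hVT hVc hV2
    have hcomm : IsMulCommutative V := ⟨⟨fun a b => Subtype.ext (hVc a a.2 b b.2)⟩⟩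
    have := hrank V (hVT.trans hTP) hcomm (⊤ : Subgroup V) ⟨⟨fun a b => Subtype.ext (Subtype.ext (hVc a a.1.2 b b.1.2))⟩⟩ (fun a _ => Subtype.ext (hV2 a a.2))
    rwa [Subgroup.card_top] at this
  have hM4 : Nat.card M ≤ 4 := hrk M hMT (fun x hx y hy => hcen x hx y (hMT hy)) hM2
  have hm2 : m ≤ 2 := by
    rw [hm, show 4 = 2 ^ 2 by norm_num] at hM4
    exact (Nat.pow_le_pow_iff_right (by norm_num)).mp hM4
  have hm_ne1 : m ≠ 1 := by
    rintro rfl
    rw [pow_one] at hm
    have hMb : M ≠ ⊥ := by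
      intro h
      rw [h, Subgroup.card_bot] at hm
      omega
    obtain ⟨z, hz, hz1⟩ := (Subgroup.bot_or_exists_ne_one M).resolve_left hMb
    have hdz : d * z * d⁻¹ ∈ M := (mem_normalizer_iff.mp (hBM (mem_zpowers d)) z).mp hz
    have hzo : ∀ y ∈ M, y = 1 ∨ y = z := by
      intro y hy
      by_contra hcon
      push Not at hcon
      have h7 : Nat.card ({1, y, z} : Set X) ≤ Nat.card M := by
        apply Nat.card_mono (Set.toFinite _)
        rintro w (rfl | rfl | rfl)
        · exact one_mem _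
        · exact hy
        · exact hz
      have h8 : Nat.card ({1, y, z} : Set X) = 3 := by
        rw [Nat.card_coe_set_eq, Set.ncard_eq_three]
        exact ⟨1, y, z, hcon.1.symm, hz1.symm, hcon.2, rfl⟩
      rw [h8, hm] at h7
      omega
    rcases hzo _ hdz with h7 | h7
    · apply hz1
      have : z = d⁻¹ * (d * z * d⁻¹) * d := by group
      rw [this, h7]; group
    · have h8 : z ∈ P ⊓ centralizer {d} := by
        refine ⟨hTP (hMT hz), ?_⟩
        show z ∈ centralizer {d}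
        rw [mem_centralizer_singleton_iff]
        exact (mul_inv_eq_iff_eq_mul.mp h7).symm
      rw [hfpf, Subgroup.mem_bot] at h8
      exact hz1 h8
  rcases (show m = 0 ∨ m = 2 by omega) with rfl | rfl
  · -- T is elementary abelian
    rw [pow_zero] at hm
    have hMb : M = ⊥ := Subgroup.card_eq_one.mp hm
    have h7 := hrk T le_rfl (fun x hx y hy => by
      have := commutator_mem_commutator hx hy
      rw [← hM, hMb, Subgroup.mem_bot] at this
      exact commutatorElement_eq_one_iff_mul_comm.mp this) (fun x hx => by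
      have := hsq x hx
      rwa [hMb, Subgroup.mem_bot] at this)
    rw [ht, Nat.sub_zero] at *
    have h8 : 2 ^ 6 ≤ 2 ^ t := Nat.pow_le_pow_right (by norm_num) h64
    omega
  · have hrel : (⊥ : Subgroup T).relIndex (M.subgroupOf T) = 4 := by
      rw [Subgroup.relIndex_bot_left, H22.Basic.card_subgroupOf_eq hMT, hm]; norm_num
    have hind : (M.subgroupOf T).index = 2 ^ (t - 2) := by
      have h7 := (M.subgroupOf T).card_mul_index
      rw [H22.Basic.card_subgroupOf_eq hMT, hm, ht] at h7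
      have h8 : 2 ^ t = 2 ^ 2 * 2 ^ (t - 2) := by rw [← pow_add]; congr 1; omega
      rw [h8] at h7
      exact Nat.eq_of_mul_eq_mul_left (by norm_num) h7
    obtain ⟨x, hxM, hx2⟩ := H22.Quad.exists_sq (M.subgroupOf T) (by
      intro c hc
      rw [mem_center_iff]
      intro y
      exact Subtype.ext (hcen c hc y y.2).symm) (fun x => hsq x x.2) (fun c hc => Subtype.ext (hM2 c hc)) ⊥ (by
      rw [hrel, hind]
      have h8 : 2 ^ 6 ≤ 2 ^ (t - 2) := Nat.pow_le_pow_right (by norm_num) h64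
      omega)
    have hx2' : (x : X) ^ 2 = 1 := congrArg Subtype.val (Subgroup.mem_bot.mp hx2)
    have hxM' : (x : X) ∉ M := hxM
    have hnorm : zpowers (x : X) ≤ normalizer (M : Set X) := by
      rw [zpowers_le]
      apply H22.Basic.mem_normalizer_of_cj_le
      rintro _ ⟨c, hc, rfl⟩
      show (x : X) * c * (x : X)⁻¹ ∈ M
      rw [← hcen c hc x x.2, mul_inv_cancel_right]; exact hc
    have hV : ∀ y ∈ M ⊔ zpowers (x : X), ∃ c ∈ M, ∃ j : ℤ, y = c * (x : X) ^ j := by
      intro y hy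
      obtain ⟨c, hc, w, hw, rfl⟩ := (H22.Basic.mem_sup_of_le_normalizer hnorm).mp hy
      obtain ⟨j, rfl⟩ := mem_zpowers_iff.mp hw
      exact ⟨c, hc, j, rfl⟩
    have h7 := hrk (M ⊔ zpowers (x : X)) (sup_le hMT (zpowers_le.mpr x.2)) (by
      intro y hy z hz
      obtain ⟨c, hc, j, rfl⟩ := hV y hy
      obtain ⟨c', hc', j', rfl⟩ := hV z hz
      have a1 : Commute c c' := hcen c hc c' (hMT hc')
      have a2 : Commute c ((x : X) ^ j') := hcen c hc _ (zpow_mem x.2 _)
      have a3 : Commute ((x : X) ^ j) c' := (show Commute c' ((x : X) ^ j) from hcen c' hc' _ (zpow_mem x.2 _)).symm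
      have a4 : Commute ((x : X) ^ j) ((x : X) ^ j') := (Commute.refl _).zpow_zpow _ _
      exact ((a1.mul_right a2).mul_left (a3.mul_right a4)).eq) (by
      intro y hy
      obtain ⟨c, hc, j, rfl⟩ := hV y hy
      have a2 : Commute c ((x : X) ^ j) := hcen c hc _ (zpow_mem x.2 _)
      rw [a2.mul_pow, hM2 c hc, one_mul, ← zpow_natCast, ← zpow_mul, mul_comm, zpow_mul, zpow_natCast, hx2', one_zpow])
    have h8 : M < M ⊔ zpowers (x : X) := by
      refine lt_of_le_of_ne le_sup_left ?_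
      intro h
      apply hxM'
      rw [h]
      exact mem_sup_right (mem_zpowers _)
    have h9 := H22.Basic.card_lt_of_lt h8
    rw [hm] at h9
    omega

end Cfsg.Agent.S3738
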