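import Cfsg.Statements.S3739
import Cfsg.Agent.H22_Basic
import Cfsg.Agent.H22_Gen
import Cfsg.Agent.H1_Nilp
import Cfsg.Agent.H2_PGroup
import Cfsg.Agent.S3738

set_option autoImplicit false
open Cfsg

namespace Cfsg.Agent.S3739

open Subgroup
open scoped commutatorElement

variable {G : Type*} [Group G] [Finite G]

/-- joins of commuting elementary abelian subgroups -/
theorem elem_sup {A B : Subgroup G} (hA : IsElementaryAbelian 2 A) (hB : IsElementaryAbelian 2 B)
    (hAB : ∀ a ∈ A, ∀ b ∈ B, a * b = b * a) : IsElementaryAbelian 2 (A ⊔ B : Subgroup G) := by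
  have hn : B ≤ normalizer (A : Set G) := by
    intro b hb
    apply H22.Basic.mem_normalizer_of_cj_le
    rintro _ ⟨a, ha, rfl⟩
    show b * a * b⁻¹ ∈ A
    rw [← hAB a ha b hb, mul_inv_cancel_right]; exact ha
  have hAc : ∀ a ∈ A, ∀ a' ∈ A, a * a' = a' * a := fun a ha a' ha' =>
    congrArg Subtype.val (hA.1.is_comm.comm (⟨a, ha⟩ : A) ⟨a', ha'⟩)
  have hBc : ∀ a ∈ B, ∀ a' ∈ B, a * a' = a' * a := fun a ha a' ha' =>
    congrArg Subtype.val (hB.1.is_comm.comm (⟨a, ha⟩ : B) ⟨a', ha'⟩)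
  constructor
  · constructor; constructor
    rintro ⟨x, hx⟩ ⟨y, hy⟩
    obtain ⟨a, ha, b, hb, rfl⟩ := (H22.Basic.mem_sup_of_le_normalizer hn).mp hx
    obtain ⟨a', ha', b', hb', rfl⟩ := (H22.Basic.mem_sup_of_le_normalizer hn).mp hy
    apply Subtype.ext
    have a1 : Commute a a' := hAc a ha a' ha'
    have a2 : Commute a b' := hAB a ha b' hb'
    have a3 : Commute b a' := (show Commute a' b from hAB a' ha' b hb).symm
    have a4 : Commute b b' := hBc b hb b' hb'
    exact ((a1.mul_right a2).mul_left (a3.mul_right a4)).eq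
  · intro x hx
    obtain ⟨a, ha, b, hb, rfl⟩ := (H22.Basic.mem_sup_of_le_normalizer hn).mp hx
    rw [(show Commute a b from hAB a ha b hb).mul_pow, hA.2 a ha, hB.2 b hb, one_mul]

omit [Finite G] in
theorem elem_zpowers {t : G} (ht : t ^ 2 = 1) : IsElementaryAbelian 2 (zpowers t) := by
  constructor
  · constructor; constructor
    rintro ⟨x, hx⟩ ⟨y, hy⟩
    obtain ⟨i, rfl⟩ := mem_zpowers_iff.mp hx
    obtain ⟨j, rfl⟩ := mem_zpowers_iff.mp hy
    exact Subtype.ext ((Commute.refl t).zpow_zpow i j).eq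
  · intro x hx
    obtain ⟨i, rfl⟩ := mem_zpowers_iff.mp hx
    rw [← zpow_natCast, ← zpow_mul, mul_comm, zpow_mul, zpow_natCast, ht, one_zpow]

theorem card_le_four (h : ¬ ∃ E : Subgroup G, IsElementaryAbelian 2 E ∧ Nat.card E = 8) {V : Subgroup G}
    (hV : IsElementaryAbelian 2 V) : ∃ k ≤ 2, Nat.card V = 2 ^ k := by
  have := Fact.mk Nat.prime_two
  have hV2 : IsPGroup 2 V := fun x => ⟨1, Subtype.ext (by rw [pow_one]; exact hV.2 x x.2)⟩
  obtain ⟨n, hn⟩ := hV2.exists_card_eq
  refine ⟨n, ?_, hn⟩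
  by_contra hn3
  obtain ⟨A₀, hA₀⟩ := Sylow.exists_subgroup_card_pow_prime (G := V) 2 (n := 3) (by rw [hn]; exact pow_dvd_pow 2 (by omega))
  apply h
  refine ⟨A₀.map V.subtype, ⟨?_, ?_⟩, ?_⟩
  · constructor; constructor
    rintro ⟨_, a, ha, rfl⟩ ⟨_, b, hb, rfl⟩
    apply Subtype.ext
    have h1 : (a : G) * b = b * a := congrArg Subtype.val (hV.1.is_comm.comm a b)
    exact h1
  · rintro _ ⟨a, ha, rfl⟩
    exact hV.2 a a.2
  · rw [Subgroup.card_subtype, hA₀]; norm_num

/-- two different nontrivial elements in a group of order ≤ 4 -/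
theorem eq_four {V : Subgroup G} {k : ℕ} (hk : k ≤ 2) (hV : Nat.card V = 2 ^ k) {a b : G} (ha : a ∈ V) (hb : b ∈ V)
    (ha1 : a ≠ 1) (hb1 : b ≠ 1) (hab : a ≠ b) : Nat.card V = 4 := by
  have h7 : Nat.card ({1, a, b} : Set G) ≤ Nat.card V := by
    apply Nat.card_mono (Set.toFinite _)
    rintro w (rfl | rfl | rfl)
    · exact one_mem _
    · exact ha
    · exact hb
  have h8 : Nat.card ({1, a, b} : Set G) = 3 := by
    rw [Nat.card_coe_set_eq, Set.ncard_eq_three]
    exact ⟨1, a, b, ha1.symm, hb1.symm, hab, rfl⟩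
  rw [h8, hV] at h7
  rw [hV]
  interval_cases k <;> omega

/-- if `C_G(O₂(G)) ≤ O₂(G)`, G has an element of order 6 and a 3-element acts fixed-point-freely on some elementary abelian 2-subgroup ≠ 1 then m₂(G) ≥ 3. -/
theorem result {G : Type*} [Group G] [Finite G] (hchar : Subgroup.centralizer (Cfsg.pCore 2 G : Set G) ≤ Cfsg.pCore 2 G) (hsix : ∃ g : G, orderOf g = 6) (d : G) (hd1 : d ≠ 1) (hd : IsPGroup 3 ↥(Subgroup.zpowers d)) (W : Subgroup G) (hW : Cfsg.IsElementaryAbelian 2 W) (hW1 : W ≠ ⊥) (hdW : d ∈ Subgroup.normalizer (W : Set G)) (hfpf : W ⊓ Subgroup.centralizer {d} = ⊥) : ∃ E : Subgroup G, Cfsg.IsElementaryAbelian 2 E ∧ Nat.card E = 8 := by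
  by_contra hE
  have := Fact.mk Nat.prime_two
  have := Fact.mk Nat.prime_three
  have hWc : ∀ a ∈ W, ∀ a' ∈ W, a * a' = a' * a := fun a ha a' ha' =>
    congrArg Subtype.val (hW.1.is_comm.comm (⟨a, ha⟩ : W) ⟨a', ha'⟩)
  set T := pCore 2 G with hT
  have hTn : T.Normal := H1.Nilp.pCore_normal 2
  have hT2 : IsPGroup 2 T := H1.Nilp.pCore_isPGroup 2
  -- fixed points of d on W-subgroups
  have hfix : ∀ w ∈ W, w ≠ 1 → d * w * d⁻¹ ≠ w := by
    intro w hw hw1 h
    have h1 : w ∈ W ⊓ centralizer {d} := by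
      refine ⟨hw, ?_⟩
      show w ∈ centralizer {d}
      rw [mem_centralizer_singleton_iff]
      exact (mul_inv_eq_iff_eq_mul.mp h).symm
    rw [hfpf, Subgroup.mem_bot] at h1
    exact hw1 h1
  have hdWm : ∀ w ∈ W, d * w * d⁻¹ ∈ W := fun w hw => (mem_normalizer_iff.mp hdW w).mp hw
  obtain ⟨w0, hw0, hw01⟩ := (Subgroup.bot_or_exists_ne_one W).resolve_left hW1
  obtain ⟨kW, hkW, hcW⟩ := card_le_four hE hW
  have hcW4 : Nat.card W = 4 := eq_four hkW hcW hw0 (hdWm w0 hw0) hw01 (fun h => hw01 (by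
    have : w0 = d⁻¹ * (d * w0 * d⁻¹) * d := by group
    rw [this, h]; group)) (fun h => hfix w0 hw0 hw01 h.symm)
  -- Z = Ω₁(Z(T))
  let Z : Subgroup G :=
    { carrier := {x | x ∈ T ∧ (∀ t ∈ T, x * t = t * x) ∧ x ^ 2 = 1}
      one_mem' := ⟨one_mem _, fun t _ => by rw [one_mul, mul_one], one_pow 2⟩
      mul_mem' := by
        rintro a b ⟨ha, ha', ha2⟩ ⟨hb, hb', hb2⟩
        refine ⟨mul_mem ha hb, fun t ht => ?_, ?_⟩
        · rw [mul_assoc, hb' t ht, ← mul_assoc, ha' t ht, mul_assoc]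
        · rw [(show Commute a b from ha' b hb).mul_pow, ha2, hb2, one_mul]
      inv_mem' := by
        rintro a ⟨ha, ha', ha2⟩
        exact ⟨inv_mem ha, fun t ht => ((show Commute a t from ha' t ht).inv_left).eq, by rw [inv_pow, ha2, inv_one]⟩ }
  have hZT : Z ≤ T := fun x hx => hx.1
  have hZc : ∀ x ∈ Z, ∀ t ∈ T, x * t = t * x := fun x hx => hx.2.1
  have hZn : Z.Normal := by
    constructor
    rintro x ⟨hx, hx', hx2⟩ g
    refine ⟨hTn.conj_mem x hx g, fun t ht => ?_, by rw [conj_pow, hx2, mul_one, mul_inv_cancel]⟩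
    have h1 := hx' (g⁻¹ * t * g) (by have := hTn.conj_mem t ht g⁻¹; rwa [inv_inv] at this)
    calc g * x * g⁻¹ * t = g * (x * (g⁻¹ * t * g)) * g⁻¹ := by group
      _ = g * ((g⁻¹ * t * g) * x) * g⁻¹ := by rw [h1]
      _ = _ := by group
  have hZel : IsElementaryAbelian 2 Z := ⟨⟨⟨fun a b => Subtype.ext (hZc a a.2 b (hZT b.2))⟩⟩, fun a ha => ha.2.2⟩
  obtain ⟨kZ, hkZ, hcZ⟩ := card_le_four hE hZel
  have hTb : T ≠ ⊥ := by
    intro h
    rw [h] at hchar
    have h1 : (d : G) ∈ centralizer ((⊥ : Subgroup G) : Set G) := by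
      rw [mem_centralizer_iff]
      intro x hx
      have hx' : x = 1 := hx
      rw [hx', one_mul, mul_one]
    exact hd1 (Subgroup.mem_bot.mp (hchar h1))
  -- an involution commuting with Z (elementwise) lies in Z once |Z| = 4
  have hEsup : ∀ A B : Subgroup G, IsElementaryAbelian 2 A → IsElementaryAbelian 2 B → Nat.card A = 4 →
      (∀ a ∈ A, ∀ b ∈ B, a * b = b * a) → B ≤ A := by
    intro A B hA hB hA4 hAB
    obtain ⟨k, hk, hc⟩ := card_le_four hE (elem_sup hA hB hAB)
    have h1 : A = A ⊔ B := H22.Basic.eq_of_le_of_card_le le_sup_left (by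
      rw [hc, hA4, show 4 = 2 ^ 2 by norm_num]; exact Nat.pow_le_pow_right (by norm_num) hk)
    rw [h1]; exact le_sup_right
  -- Z ≠ 1
  have hZb : Z ≠ ⊥ := by
    have hnt : Nontrivial T := (Subgroup.nontrivial_iff_ne_bot _).mpr hTb
    have h1 := hT2.center_nontrivial
    obtain ⟨m, hm⟩ := (hT2.to_subgroup (center T)).exists_card_eq
    have hm0 : m ≠ 0 := by
      rintro rfl
      rw [pow_zero] at hm
      exact (Subgroup.one_lt_card_iff_ne_bot _).mpr ((Subgroup.nontrivial_iff_ne_bot _).mp h1) |>.ne' hm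
    obtain ⟨⟨c, hcZ⟩, hc⟩ := exists_prime_orderOf_dvd_card' (G := center T) 2 (by rw [hm]; exact dvd_pow_self 2 hm0)
    rw [Subgroup.orderOf_mk] at hc
    intro h
    have h2 : (c : G) ∈ Z := ⟨c.2, fun t ht => (congrArg Subtype.val (mem_center_iff.mp hcZ ⟨t, ht⟩)).symm, by
      have : c ^ 2 = 1 := by rw [← hc, pow_orderOf_eq_one]
      exact congrArg Subtype.val this⟩
    rw [h, Subgroup.mem_bot] at h2
    have : c = 1 := Subtype.ext h2
    rw [this, orderOf_one] at hc
    omega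
  -- C_Z(W) ≠ 1
  have hWZ : W = Z := by
    have hW2 : IsPGroup 2 W := fun x => ⟨1, Subtype.ext (by rw [pow_one]; exact hW.2 x x.2)⟩
    have hP : IsPGroup 2 (W ⊔ T : Subgroup G) := hW2.to_sup_of_normal_right hT2
    have h1 : Z.subgroupOf (W ⊔ T) ≠ ⊥ := by
      intro h
      obtain ⟨z, hz, hz1⟩ := (Subgroup.bot_or_exists_ne_one Z).resolve_left hZb
      have h2 : (⟨z, mem_sup_right (hZT hz)⟩ : (W ⊔ T : Subgroup G)) ∈ Z.subgroupOf (W ⊔ T) := hz
      rw [h, Subgroup.mem_bot] at h2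
      exact hz1 (congrArg Subtype.val h2)
    have h3 := H2.PGroup.inf_center_ne_bot hP h1
    obtain ⟨z, ⟨hzZ, hzc⟩, hz1⟩ := (Subgroup.bot_or_exists_ne_one _).resolve_left h3
    have hzZ' : (z : G) ∈ Z := hzZ
    have hz1' : (z : G) ≠ 1 := fun h => hz1 (Subtype.ext h)
    have hzW : (z : G) ∈ W := by
      apply hEsup W (zpowers (z : G)) hW (elem_zpowers hzZ'.2.2) hcW4 ?_ (mem_zpowers _)
      intro a ha b hb
      obtain ⟨j, rfl⟩ := mem_zpowers_iff.mp hb
      have h4 : a * z = z * a := congrArg Subtype.val (mem_center_iff.mp hzc ⟨a, mem_sup_left ha⟩)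
      exact ((show Commute a z from h4).zpow_right j).eq
    have h5 : Nat.card (W ⊓ Z : Subgroup G) = 4 := by
      obtain ⟨k, hk, hc⟩ := card_le_four hE (V := W ⊓ Z) ⟨⟨⟨fun a b => Subtype.ext (hWc a a.2.1 b b.2.1)⟩⟩, fun a ha => hW.2 a ha.1⟩
      exact eq_four hk hc ⟨hzW, hzZ'⟩ ⟨hdWm _ hzW, hZn.conj_mem _ hzZ' d⟩ hz1' (fun h => hz1' (by
        have : (z : G) = d⁻¹ * (d * z * d⁻¹) * d := by group
        rw [this, h]; group)) (fun h => hfix _ hzW hz1' h.symm)
    have h6 : W ⊓ Z = W := H22.Basic.eq_of_le_of_card_le inf_le_left (by rw [hcW4, h5])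
    have h7 : W ⊓ Z = Z := H22.Basic.eq_of_le_of_card_le inf_le_right (by
      rw [h5, hcZ, show 4 = 2 ^ 2 by norm_num]; exact Nat.pow_le_pow_right (by norm_num) hkZ)
    rw [← h6]; exact h7
  have hcZ4 : Nat.card Z = 4 := by rw [← hWZ, hcW4]
  set C := centralizer (Z : Set G) with hC
  have hCn : C.Normal := inferInstance
  have hinv : ∀ x ∈ C, x ^ 2 = 1 → x ∈ Z := by
    intro x hx hx2
    apply hEsup Z (zpowers x) hZel (elem_zpowers hx2) hcZ4 ?_ (mem_zpowers x)
    intro a ha b hb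
    obtain ⟨j, rfl⟩ := mem_zpowers_iff.mp hb
    exact ((show Commute a x from mem_centralizer_iff.mp hx a ha).zpow_right j).eq
  -- odd order elements fixing a nontrivial element of Z centralize Z
  have hodd : ∀ y : G, Odd (orderOf y) → ∀ z ∈ Z, z ≠ 1 → y * z = z * y → y ∈ C := by
    intro y hy z hz hz1 hyz
    rw [hC, mem_centralizer_iff]
    intro a ha
    -- Z = {1, z, a, a z}
    have hz2 : z ^ 2 = 1 := hz.2.2
    have hzo : orderOf z = 2 := orderOf_eq_prime hz2 hz1
    have hind : ((zpowers z).subgroupOf Z).index = 2 := by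
      have h1 := ((zpowers z).subgroupOf Z).card_mul_index
      rw [H22.Basic.card_subgroupOf_eq (zpowers_le.mpr hz), Nat.card_zpowers, hzo, hcZ4] at h1
      omega
    have hya : y * a * y⁻¹ ∈ Z := hZn.conj_mem a ha y
    have hmem : a * (y * a * y⁻¹) ∈ zpowers z := by
      have h1 := (Subgroup.mul_mem_iff_of_index_two hind (a := ⟨a, ha⟩) (b := ⟨y * a * y⁻¹, hya⟩)).mpr (by
        rw [mem_subgroupOf, mem_subgroupOf]
        show a ∈ zpowers z ↔ y * a * y⁻¹ ∈ zpowers z
        constructor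
        · intro h
          obtain ⟨j, rfl⟩ := mem_zpowers_iff.mp h
          rw [((show Commute y z from hyz).zpow_right j).eq, mul_inv_cancel_right]; exact h
        · intro h
          obtain ⟨j, hj⟩ := mem_zpowers_iff.mp h
          have h2 : a = y⁻¹ * z ^ j * y := by rw [hj]; group
          rw [h2, ((show Commute y z from hyz).inv_left.zpow_right j).eq, inv_mul_cancel_right]
          exact zpow_mem (mem_zpowers z) j)
      exact h1
    have hy2 : y ^ 2 * a = a * y ^ 2 := by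
      obtain ⟨j, hj⟩ := mem_zpowers_iff.mp hmem
      have ha2 : a * a = 1 := by rw [← sq]; exact ha.2.2
      have h1 : y * a = a * z ^ j * y := by
        rw [hj]
        calc y * a = (a * a) * (y * a * y⁻¹) * y := by rw [ha2]; group
          _ = _ := by group
      have h2 : y * z ^ j = z ^ j * y := ((show Commute y z from hyz).zpow_right j).eq
      have h3 : z ^ j * z ^ j = 1 := by
        rw [← zpow_add, ← two_mul, zpow_mul, show z ^ (2 : ℤ) = 1 from by exact_mod_cast hz2, one_zpow]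
      calc y ^ 2 * a = y * (y * a) := by rw [sq]; group
        _ = y * (a * z ^ j * y) := by rw [h1]
        _ = (y * a) * z ^ j * y := by group
        _ = a * z ^ j * (y * z ^ j) * y := by rw [h1]; group
        _ = a * (z ^ j * z ^ j) * (y * y) := by rw [h2]; group
        _ = a * y ^ 2 := by rw [h3, mul_one, sq]
    obtain ⟨m, hm⟩ := hy
    have h1 : y = (y ^ 2) ^ (m + 1) := by
      rw [← pow_mul, show 2 * (m + 1) = (2 * m + 1) + 1 by ring, pow_succ, ← hm, pow_orderOf_eq_one, one_mul]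
    rw [h1]
    exact ((show Commute (y ^ 2) a from hy2).pow_left (m + 1)).eq.symm
  -- the element of order 6
  obtain ⟨g, hg⟩ := hsix
  set y := g ^ 2 with hy
  set t := g ^ 3 with ht
  have hyo : orderOf y = 3 := by rw [hy, orderOf_pow, hg]; norm_num
  have hto : orderOf t = 2 := by rw [ht, orderOf_pow, hg]; norm_num
  have ht2 : t ^ 2 = 1 := by rw [← hto, pow_orderOf_eq_one]
  have ht1 : t ≠ 1 := by rintro h; rw [h, orderOf_one] at hto; omega
  have hty : Commute t y := (Commute.refl g).pow_pow 3 2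
  have hyC : y ∈ C := by
    by_contra hyC
    have hyodd : Odd (orderOf y) := by rw [hyo]; decide
    -- t centralizes some nontrivial z0
    obtain ⟨z0, hz0, hz01, htz0⟩ : ∃ z0 ∈ Z, z0 ≠ 1 ∧ t * z0 = z0 * t := by
      obtain ⟨z, hz, hz1⟩ := (Subgroup.bot_or_exists_ne_one Z).resolve_left hZb
      by_cases h : t * z = z * t
      · exact ⟨z, hz, hz1, h⟩
      · have hz' : t * z * t⁻¹ ∈ Z := hZn.conj_mem z hz t
        have htt : t⁻¹ = t := inv_eq_of_mul_eq_one_right (by rw [← sq]; exact ht2)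
        refine ⟨z * (t * z * t⁻¹), mul_mem hz hz', ?_, ?_⟩
        · intro h1
          apply h
          have h2 : t * z * t⁻¹ = z⁻¹ := eq_inv_of_mul_eq_one_right h1
          have h3 : z⁻¹ = z := inv_eq_of_mul_eq_one_right (by rw [← sq]; exact hz.2.2)
          rw [h3] at h2
          exact mul_inv_eq_iff_eq_mul.mp h2
        · have hcomm := hZc z hz _ (hZT hz')
          calc t * (z * (t * z * t⁻¹)) = (t * z * t⁻¹) * (t ^ 2 * z * (t⁻¹ * t⁻¹) * t) := by rw [sq]; group
            _ = (t * z * t⁻¹) * (z * t) := by rw [ht2, htt, ← sq, ht2]; group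
            _ = (t * z * t⁻¹) * z * t := by group
            _ = z * (t * z * t⁻¹) * t := by rw [← hcomm]
    have hyz0 : y * z0 ≠ z0 * y := fun h => hyC (hodd y hyodd z0 hz0 hz01 h)
    have hz0' : y * z0 * y⁻¹ ∈ Z := hZn.conj_mem z0 hz0 y
    have htC : t ∈ C := by
      -- the centralizer of t in Z has order 4
      have h1 : Nat.card (Z ⊓ centralizer ({t} : Set G) : Subgroup G) = 4 := by
        obtain ⟨k, hk, hc⟩ := card_le_four hE (V := Z ⊓ centralizer ({t} : Set G)) ⟨⟨⟨fun a b => Subtype.ext (hZc a a.2.1 b (hZT b.2.1))⟩⟩, fun a ha => ha.1.2.2⟩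
        refine eq_four hk hc (a := z0) (b := y * z0 * y⁻¹) ⟨hz0, ?_⟩ ⟨hz0', ?_⟩ hz01 ?_ ?_
        · show z0 ∈ centralizer ({t} : Set G)
          rw [mem_centralizer_singleton_iff]; exact htz0.symm
        · show y * z0 * y⁻¹ ∈ centralizer ({t} : Set G)
          rw [mem_centralizer_singleton_iff]
          exact ((hty.symm.mul_left (show Commute z0 t from htz0.symm)).mul_left hty.symm.inv_left).eq
        · intro h; apply hz01
          have : z0 = y⁻¹ * (y * z0 * y⁻¹) * y := by group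
          rw [this, h]; group
        · intro h; exact hyz0 (mul_inv_eq_iff_eq_mul.mp h.symm)
      have h2 : Z ⊓ centralizer ({t} : Set G) = Z := H22.Basic.eq_of_le_of_card_le inf_le_left (by rw [h1, hcZ4])
      rw [hC, mem_centralizer_iff]
      intro a ha
      have h3 : a ∈ Z ⊓ centralizer ({t} : Set G) := by rw [h2]; exact ha
      exact mem_centralizer_singleton_iff.mp h3.2
    exact hyC (hodd y hyodd t (hinv t htC ht2) ht1 hty.symm.eq)
  -- Sylow 3-subgroup containing y
  have hyp : IsPGroup 3 (zpowers y) := IsPGroup.of_card (n := 1) (by rw [Nat.card_zpowers, hyo, pow_one])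
  obtain ⟨S, hS⟩ := hyp.exists_le_sylow
  have hySm : y ∈ (S : Subgroup G) := hS (mem_zpowers y)
  obtain ⟨d', hd'S, hd'C⟩ : ∃ d' ∈ (S : Subgroup G), d' ∉ C := by
    obtain ⟨D, hD⟩ := hd.exists_le_sylow
    obtain ⟨g, hg⟩ := MulAction.exists_smul_eq G D S
    have h1 : g * d * g⁻¹ ∈ (S : Subgroup G) := by
      rw [← hg]
      exact ⟨d, hD (mem_zpowers d), rfl⟩
    refine ⟨_, h1, ?_⟩
    intro h2
    have h3 : d ∈ C := by
      have := hCn.conj_mem _ h2 g⁻¹
      have h4 : g⁻¹ * (g * d * g⁻¹) * g⁻¹⁻¹ = d := by group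
      rwa [h4] at this
    have h4 := mem_centralizer_iff.mp h3 w0 (by rw [← hWZ]; exact hw0)
    exact hfix w0 hw0 hw01 (mul_inv_eq_iff_eq_mul.mpr h4.symm)
  have hS3 : IsPGroup 3 S := S.isPGroup'
  have hoS : ∀ x ∈ (S : Subgroup G), Odd (orderOf x) := by
    intro x hx
    obtain ⟨k, hk⟩ := IsPGroup.iff_orderOf.mp hS3 ⟨x, hx⟩
    rw [Subgroup.orderOf_mk] at hk
    rw [hk]; exact Odd.pow (by decide)
  -- central y'
  obtain ⟨y', hy'S, hy'C, hy'c, hy'o⟩ : ∃ y' ∈ (S : Subgroup G), y' ∈ C ∧ (∀ s ∈ (S : Subgroup G), y' * s = s * y') ∧ orderOf y' = 3 := by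
    have h1 : C.subgroupOf (S : Subgroup G) ≠ ⊥ := by
      intro h
      have h2 : (⟨y, hySm⟩ : (S : Subgroup G)) ∈ C.subgroupOf (S : Subgroup G) := hyC
      rw [h, Subgroup.mem_bot] at h2
      have h3 : y = 1 := congrArg Subtype.val h2
      rw [h3, orderOf_one] at hyo
      omega
    have h3 := H2.PGroup.inf_center_ne_bot hS3 h1
    obtain ⟨u, ⟨hu1, hu2⟩, hu3⟩ := (Subgroup.bot_or_exists_ne_one _).resolve_left h3
    obtain ⟨k, hk⟩ := IsPGroup.iff_orderOf.mp hS3 u
    have hk0 : k ≠ 0 := by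
      rintro rfl
      rw [pow_zero, orderOf_eq_one_iff] at hk
      exact hu3 hk
    refine ⟨(u : G) ^ 3 ^ (k - 1), pow_mem u.2 _, pow_mem (show (u : G) ∈ C from hu1) _, ?_, ?_⟩
    · intro s hs
      have h4 : (s : G) * u = u * s := congrArg Subtype.val (mem_center_iff.mp hu2 ⟨s, hs⟩)
      exact ((show Commute s (u : G) from h4).pow_right _).eq.symm
    · rw [orderOf_pow' _ (pow_ne_zero _ (by norm_num)), Subgroup.orderOf_coe, hk, Nat.gcd_eq_right (pow_dvd_pow 3 (Nat.sub_le k 1))]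
      have : 3 ^ k = 3 ^ (k - 1) * 3 := by rw [← pow_succ]; congr 1; omega
      rw [this, Nat.mul_div_cancel_left _ (pow_pos (by norm_num) _)]
  -- elements outside C act fixed-point-freely on T
  have hfp : ∀ u : G, Odd (orderOf u) → u ∉ C → T ⊓ centralizer ({u} : Set G) = ⊥ := by
    intro u hu huC
    by_contra hne
    obtain ⟨x, ⟨hxT, hxu⟩, hx1⟩ := (Subgroup.bot_or_exists_ne_one _).resolve_left hne
    obtain ⟨k, hk⟩ := IsPGroup.iff_orderOf.mp hT2 ⟨x, hxT⟩
    rw [Subgroup.orderOf_mk] at hk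
    have hk0 : k ≠ 0 := by
      rintro rfl
      rw [pow_zero, orderOf_eq_one_iff] at hk
      exact hx1 hk
    set v := x ^ 2 ^ (k - 1) with hv
    have hvo : orderOf v = 2 := by
      rw [hv, orderOf_pow' _ (pow_ne_zero _ (by norm_num)), hk, Nat.gcd_eq_right (pow_dvd_pow 2 (Nat.sub_le k 1))]
      have : 2 ^ k = 2 ^ (k - 1) * 2 := by rw [← pow_succ]; congr 1; omega
      rw [this, Nat.mul_div_cancel_left _ (pow_pos (by norm_num) _)]
    have hv1 : v ≠ 1 := by rintro h; rw [h, orderOf_one] at hvo; omega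
    have hvT : v ∈ T := pow_mem hxT _
    have hvC : v ∈ C := by
      rw [hC, mem_centralizer_iff]
      intro z hz
      exact hZc z hz v hvT
    have hvZ := hinv v hvC (by rw [← hvo, pow_orderOf_eq_one])
    have hxu' : x * u = u * x := mem_centralizer_singleton_iff.mp hxu
    exact huC (hodd u hu v hvZ hv1 ((show Commute u x from hxu'.symm).pow_right _).eq)
  have hd'odd := hoS d' hd'S
  have hd'o : orderOf d' = 3 := by
    obtain ⟨n, hn⟩ := IsPGroup.iff_orderOf.mp hS3 ⟨d', hd'S⟩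
    rw [Subgroup.orderOf_mk] at hn
    have hn1 : 1 ≤ n := by
      by_contra h
      have : n = 0 := by omega
      rw [this, pow_zero, orderOf_eq_one_iff] at hn
      exact hd'C (hn ▸ one_mem _)
    refine S3738.result d' n hn1 hn T hT2 (by rw [Subgroup.normalizer_eq_top T]; trivial) ?_ (hfp d' hd'odd hd'C) ?_
    · rw [eq_bot_iff, ← H22.Basic.inf_eq_bot_of_coprime (N := zpowers d') (K := T) (by
        obtain ⟨m, hm⟩ := hT2.exists_card_eq
        rw [hm, Nat.card_zpowers, hn]
        exact Nat.Coprime.pow _ _ (by norm_num))]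
      exact le_inf inf_le_left (inf_le_right.trans hchar)
    · intro V hVT _ A hA hA2
      obtain ⟨k, hk, hc⟩ := card_le_four hE (V := A.map V.subtype) ⟨by
        constructor; constructor
        rintro ⟨_, a, ha, rfl⟩ ⟨_, b, hb, rfl⟩
        apply Subtype.ext
        have h1 : (⟨a, ha⟩ : A) * ⟨b, hb⟩ = ⟨b, hb⟩ * ⟨a, ha⟩ := hA.is_comm.comm _ _
        have h2 : a * b = b * a := congrArg Subtype.val h1
        have h3 : (a : G) * b = b * a := congrArg Subtype.val h2
        exact h3, by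
        rintro _ ⟨a, ha, rfl⟩
        exact congrArg Subtype.val (hA2 a ha)⟩
      rw [Subgroup.card_subtype] at hc
      rw [hc]; exact Nat.pow_le_pow_right (by norm_num) hk
  -- the group of order 9
  set A := zpowers y' ⊔ zpowers d' with hA
  have hyd : Commute y' d' := hy'c d' hd'S
  have hAS : A ≤ S := sup_le (zpowers_le.mpr hy'S) (zpowers_le.mpr hd'S)
  have hAc : ∀ a ∈ A, ∀ b ∈ A, a * b = b * a := by
    have hcl : A = closure ({y', d'} : Set G) := by
      rw [hA, zpowers_eq_closure, zpowers_eq_closure, ← Subgroup.closure_union]; rfl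
    have h1 : A ≤ centralizer (A : Set G) := by
      have h2 : A ≤ centralizer ({y', d'} : Set G) := by
        refine sup_le (zpowers_le.mpr ?_) (zpowers_le.mpr ?_)
        · rw [mem_centralizer_iff]
          rintro x (rfl | rfl)
          · rfl
          · exact hyd.symm.eq
        · rw [mem_centralizer_iff]
          rintro x (rfl | rfl)
          · exact hyd.eq
          · rfl
      have h3 : A ≤ centralizer (A : Set G) := by
        conv_rhs => rw [hcl, centralizer_closure]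
        exact h2
      exact h3
    intro a ha b hb
    exact (mem_centralizer_iff.mp (h1 ha) b hb).symm
  have hcopA : (Nat.card A).Coprime (Nat.card T) := by
    obtain ⟨m, hm⟩ := hT2.exists_card_eq
    obtain ⟨n, hn⟩ := (hS3.to_le hAS).exists_card_eq
    rw [hm, hn]
    exact Nat.Coprime.pow _ _ (by norm_num)
  have hTle : T ≤ centralizer ({y'} : Set G) := by
    refine H22.Gen.gen_r (Nat.card T) (A := A) (L := centralizer ({y'} : Set G)) hAc (r := 2) (p := 3) (x := y') (y := d')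
      (mem_sup_left (mem_zpowers y')) (mem_sup_right (mem_zpowers d')) T rfl (by rw [Subgroup.normalizer_eq_top T]; exact le_top)
      hT2 hcopA (by norm_num) (by rw [← hy'o, pow_orderOf_eq_one]; exact one_mem _) (by rw [← hd'o, pow_orderOf_eq_one]; exact one_mem _)
      (by rw [hfp d' hd'odd hd'C]; exact bot_le) ?_
    intro j hj
    rcases Nat.eq_zero_or_pos j with h | h
    · rw [h, pow_zero, mul_one]; exact inf_le_right
    · have h1 : y' * d' ^ j ∉ C := by
        intro h2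
        have h3 : d' ^ j ∈ C := by
          have := mul_mem (inv_mem hy'C) h2
          rwa [inv_mul_cancel_left] at this
        apply hd'C
        interval_cases j
        · rwa [pow_one] at h3
        · have h4 : d' = (d' ^ 2) ^ 2 := by
            have : d' ^ 3 = 1 := by rw [← hd'o, pow_orderOf_eq_one]
            rw [← pow_mul, show 2 * 2 = 3 + 1 by norm_num, pow_succ, this, one_mul]
          rw [h4]; exact pow_mem h3 2
      rw [hfp _ (hoS _ (mul_mem hy'S (pow_mem hd'S j))) h1]; exact bot_le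
  have hy'T : y' ∈ T := by
    apply hchar
    rw [mem_centralizer_iff]
    intro x hx
    exact mem_centralizer_singleton_iff.mp (hTle hx)
  obtain ⟨k, hk⟩ := IsPGroup.iff_orderOf.mp hT2 ⟨y', hy'T⟩
  rw [Subgroup.orderOf_mk, hy'o] at hk
  have h1 : Even (2 ^ k) ∨ 2 ^ k = 1 := by
    rcases Nat.eq_zero_or_pos k with h | h
    · right; rw [h, pow_zero]
    · left; exact (Nat.even_pow.mpr ⟨by norm_num, h.ne'⟩)
  rw [← hk] at h1
  rcases h1 with h | h
  · revert h; decide
  · omega

end Cfsg.Agent.S3739
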