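import Cfsg.Statements.S3740
import Cfsg.Agent.H18_Dickson6
import Cfsg.Agent.H18_QPair5
import Cfsg.Agent.H5_SL2Tor
import Cfsg.Agent.H5_SL2Quat
import Cfsg.Agent.H5_Dih
import Cfsg.Agent.H2_FF4
import Cfsg.Agent.H2_Basic
import Cfsg.Agent.H17_Base


set_option autoImplicit false
open Cfsg

namespace Cfsg.Agent.S3740

open Subgroup
open scoped commutatorElement
open Cfsg.Agent.H5.SL2 (S ext2 det_eq mul00 mul01 mul10 mul11 inv00 inv01 inv10 inv11 one00 one01 one10 one11 neg00 neg01 neg10 neg11)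
open Cfsg.Agent.H18.Dickson (tr)

variable {F : Type} [Field F]

theorem key_lemma (h2 : (2 : F) ≠ 0) {x y : S F} (hc : x * y = y * x) (ht : tr y = tr x) (hq : tr x ^ 2 ≠ 4) :
    y = x ∨ y = x⁻¹ := by
  have dx := det_eq x
  have dy := det_eq y
  have c1 : x.1 0 1 * y.1 1 0 = y.1 0 1 * x.1 1 0 := by
    have := congrArg (fun m : S F => m.1 0 0) hc
    simp only [mul00] at this
    linear_combination this
  have c2 : (y.1 0 0 - y.1 1 1) * x.1 0 1 = (x.1 0 0 - x.1 1 1) * y.1 0 1 := by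
    have := congrArg (fun m : S F => m.1 0 1) hc
    simp only [mul01] at this
    linear_combination -this
  have c3 : (y.1 0 0 - y.1 1 1) * x.1 1 0 = (x.1 0 0 - x.1 1 1) * y.1 1 0 := by
    have := congrArg (fun m : S F => m.1 1 0) hc
    simp only [mul10] at this
    linear_combination this
  rw [tr, tr] at ht
  rw [tr] at hq
  have qx : (x.1 0 0 - x.1 1 1) ^ 2 + 4 * (x.1 0 1 * x.1 1 0) = (x.1 0 0 + x.1 1 1) ^ 2 - 4 := by
    linear_combination -4 * dx
  have qy : (y.1 0 0 - y.1 1 1) ^ 2 + 4 * (y.1 0 1 * y.1 1 0) = (x.1 0 0 + x.1 1 1) ^ 2 - 4 := by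
    rw [← ht]; linear_combination -4 * dy
  have hqn : (x.1 0 0 + x.1 1 1) ^ 2 - 4 ≠ 0 := sub_ne_zero.2 hq
  -- the proportionality factor
  obtain ⟨l, h1, h3, h4⟩ : ∃ l : F, y.1 0 0 - y.1 1 1 = l * (x.1 0 0 - x.1 1 1) ∧ y.1 0 1 = l * x.1 0 1 ∧ y.1 1 0 = l * x.1 1 0 := by
    by_cases hd : x.1 0 0 - x.1 1 1 = 0
    · have hb : x.1 0 1 ≠ 0 := by
        intro hb
        apply hqn
        rw [← qx, hd, hb]; ring
      refine ⟨y.1 0 1 / x.1 0 1, ?_, ?_, ?_⟩
      · rw [hd, mul_zero]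
        rw [hd, zero_mul] at c2
        exact (mul_eq_zero.1 c2).resolve_right hb
      · field_simp
      · field_simp
        linear_combination c1
    · refine ⟨(y.1 0 0 - y.1 1 1) / (x.1 0 0 - x.1 1 1), ?_, ?_, ?_⟩
      · field_simp
      · field_simp
        linear_combination -c2
      · field_simp
        linear_combination -c3
  have hl : l ^ 2 = 1 := by
    have h5 : l ^ 2 * ((x.1 0 0 + x.1 1 1) ^ 2 - 4) = 1 * ((x.1 0 0 + x.1 1 1) ^ 2 - 4) := by
      rw [one_mul]
      conv_rhs => rw [← qy]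
      rw [← qx, h1, h3, h4]; ring
    exact mul_right_cancel₀ hqn h5
  rcases (sq_eq_one_iff.1 hl) with h5 | h5
  · left
    rw [h5, one_mul] at h1 h3 h4
    refine ext2 ?_ h3 h4 ?_
    · apply mul_left_cancel₀ h2; linear_combination h1 + ht
    · apply mul_left_cancel₀ h2; linear_combination ht - h1
  · right
    rw [h5] at h1 h3 h4
    refine ext2 ?_ ?_ ?_ ?_
    · rw [inv00]; apply mul_left_cancel₀ h2; linear_combination h1 + ht
    · rw [inv01, h3]; ring
    · rw [inv10, h4]; ring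
    · rw [inv11]; apply mul_left_cancel₀ h2; linear_combination ht - h1

theorem sq_one_of_tr {p : ℕ} [Fact p.Prime] [CharP F p] {x : S F} (hx : (orderOf x).Coprime p) (ht : tr x ^ 2 = 4) :
    x ^ 2 = 1 := by
  have h1 : tr (x ^ 2) = 2 := by
    have dx := det_eq x
    rw [tr] at ht ⊢
    rw [pow_two, mul00, mul11]
    linear_combination ht - 2 * dx
  have h3 := H18.Dickson.pow_eq_one_of_tr (p := p) h1
  have h4 : orderOf (x ^ 2) = 1 :=
    Nat.eq_one_of_dvd_coprimes (hx.coprime_dvd_left (orderOf_pow_dvd 2)) dvd_rfl (orderOf_dvd_of_pow_eq_one h3)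
  exact orderOf_eq_one_iff.1 h4

theorem tr_of_commute {a x : S F} (ha : tr a = 2) (ha1 : a ≠ 1) (hc : a * x = x * a) : tr x ^ 2 = 4 := by
  have dx := det_eq x
  have da := det_eq a
  have c1 : x.1 0 1 * a.1 1 0 = a.1 0 1 * x.1 1 0 := by
    have := congrArg (fun m : S F => m.1 0 0) hc
    simp only [mul00] at this
    linear_combination -this
  have c2 : (a.1 0 0 - a.1 1 1) * x.1 0 1 = (x.1 0 0 - x.1 1 1) * a.1 0 1 := by
    have := congrArg (fun m : S F => m.1 0 1) hc
    simp only [mul01] at this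
    linear_combination this
  have c3 : (a.1 0 0 - a.1 1 1) * x.1 1 0 = (x.1 0 0 - x.1 1 1) * a.1 1 0 := by
    have := congrArg (fun m : S F => m.1 1 0) hc
    simp only [mul10] at this
    linear_combination -this
  rw [tr] at ha ⊢
  have qa : (a.1 0 0 - a.1 1 1) ^ 2 + 4 * (a.1 0 1 * a.1 1 0) = 0 := by
    linear_combination (a.1 0 0 + a.1 1 1 + 2) * ha - 4 * da
  have qx : (x.1 0 0 - x.1 1 1) ^ 2 + 4 * (x.1 0 1 * x.1 1 0) = (x.1 0 0 + x.1 1 1) ^ 2 - 4 := by
    linear_combination -4 * dx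
  by_cases hb : a.1 0 1 = 0
  · by_cases hcc : a.1 1 0 = 0
    · exfalso
      apply ha1
      have h1 : (a.1 0 0 - a.1 1 1) = 0 := by
        rw [hb] at qa
        have : (a.1 0 0 - a.1 1 1) ^ 2 = 0 := by linear_combination qa
        exact pow_eq_zero_iff (two_ne_zero) |>.1 this
      have h4 : a.1 0 0 * a.1 0 0 = 1 := by
        have : a.1 1 1 = a.1 0 0 := by linear_combination -h1
        rw [hb, this] at da; linear_combination da
      have h5 : a.1 0 0 + a.1 0 0 = 2 := by linear_combination ha + h1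
      have h6 : (a.1 0 0 - 1) ^ 2 = 0 := by linear_combination h4 - h5
      have h7 : a.1 0 0 - 1 = 0 := pow_eq_zero_iff (two_ne_zero) |>.1 h6
      refine ext2 ?_ ?_ ?_ ?_
      · rw [one00]; linear_combination h7
      · rw [one01]; exact hb
      · rw [one10]; exact hcc
      · rw [one11]; linear_combination h7 - h1
    · have h1 : (a.1 1 0) ^ 2 * ((x.1 0 0 + x.1 1 1) ^ 2 - 4) = 0 := by
        rw [← qx]
        linear_combination (-(a.1 1 0) * (x.1 0 0 - x.1 1 1) - (a.1 0 0 - a.1 1 1) * x.1 1 0) * c3 + (x.1 1 0) ^ 2 * qa + 4 * a.1 1 0 * x.1 1 0 * c1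
      have h3 := (mul_eq_zero.1 h1).resolve_left (pow_ne_zero 2 hcc)
      linear_combination h3
  · have h1 : (a.1 0 1) ^ 2 * ((x.1 0 0 + x.1 1 1) ^ 2 - 4) = 0 := by
      rw [← qx]
      linear_combination (-(a.1 0 1) * (x.1 0 0 - x.1 1 1) - (a.1 0 0 - a.1 1 1) * x.1 0 1) * c2 + (x.1 0 1) ^ 2 * qa - 4 * a.1 0 1 * x.1 0 1 * c1
    have h3 := (mul_eq_zero.1 h1).resolve_left (pow_ne_zero 2 hb)
    linear_combination h3

theorem tr_conj' (g h : S F) : tr (g * h * g⁻¹) = tr h := H18.Dickson.tr_conj g h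

/-- a `p'`-element commuting with its conjugate by a nontrivial element of order `p` is `± 1` -/
theorem sq_one {p : ℕ} [Fact p.Prime] [CharP F p] (hp : p ≠ 2) {a x : S F} (ha : a ^ p = 1) (ha1 : a ≠ 1)
    (hx : (orderOf x).Coprime p) (hc : x * (a * x * a⁻¹) = (a * x * a⁻¹) * x) : x ^ 2 = 1 := by
  have hpp : p.Prime := Fact.out
  have h2 : (2 : F) ≠ 0 := by
    intro h
    have h3 : ((2 : ℕ) : F) = 0 := by exact_mod_cast h
    rw [CharP.cast_eq_zero_iff F p] at h3
    exact hp ((Nat.prime_dvd_prime_iff_eq hpp Nat.prime_two).1 h3)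
  by_cases hq : tr x ^ 2 = 4
  · exact sq_one_of_tr hx hq
  · have hcom : a ^ 2 * x * (a ^ 2)⁻¹ = x := by
      rcases key_lemma h2 hc (tr_conj' a x) hq with h | h
      · calc a ^ 2 * x * (a ^ 2)⁻¹ = a * (a * x * a⁻¹) * a⁻¹ := by rw [pow_two, mul_inv_rev]; simp only [mul_assoc]
          _ = a * x * a⁻¹ := by rw [h, h]
          _ = x := h
      · calc a ^ 2 * x * (a ^ 2)⁻¹ = a * (a * x * a⁻¹) * a⁻¹ := by rw [pow_two, mul_inv_rev]; simp only [mul_assoc]
          _ = a * x⁻¹ * a⁻¹ := by rw [h]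
          _ = (a * x * a⁻¹)⁻¹ := by group
          _ = x := by rw [h, inv_inv]
    have hcom2 : Commute (a ^ 2) x := by
      rw [mul_inv_eq_iff_eq_mul] at hcom; exact hcom
    obtain ⟨m, hm⟩ := exists_pow_eq_self_of_coprime (n := 2) (x := a) (by
      rw [orderOf_eq_prime ha ha1]
      exact (Nat.coprime_primes Nat.prime_two hpp).2 (Ne.symm hp))
    have h3 : Commute a x := by
      rw [← hm]; exact hcom2.pow_left m
    exact sq_one_of_tr hx (tr_of_commute (H18.Dickson.tr_of_pow (p := p) (k := 1) (by rw [pow_one]; exact ha)) ha1 h3.eq)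

/-- Let F be a finite field of odd characteristic p and let a be a p-element of SL₂(F) normalizing a subgroup R of order prime to p with [R, a] ≠ 1. Then p = 3, R is a quaternion group of order 8, and R⟨a⟩ is isomorphic to SL₂(3). -/
theorem result (F : Type) [Field F] [Fintype F] {p : ℕ} [Fact p.Prime] [CharP F p] (hp : p ≠ 2) (a : Matrix.SpecialLinearGroup (Fin 2) F) (ha : IsPGroup p ↥(Subgroup.zpowers a)) (R : Subgroup (Matrix.SpecialLinearGroup (Fin 2) F)) (hR : (Nat.card R).Coprime p) (haR : a ∈ Subgroup.normalizer (R : Set (Matrix.SpecialLinearGroup (Fin 2) F))) (hnt : ⁅R, Subgroup.zpowers a⁆ ≠ ⊥) : p = 3 ∧ Nonempty (↥R ≃* QuaternionGroup 2) ∧ Nonempty (↥(R ⊔ Subgroup.zpowers a) ≃* Matrix.SpecialLinearGroup (Fin 2) (ZMod 3)) := by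

  classical
  have hpp : p.Prime := Fact.out
  have h2 : (2 : F) ≠ 0 := by
    intro h
    have h3 : ((2 : ℕ) : F) = 0 := by exact_mod_cast h
    rw [CharP.cast_eq_zero_iff F p] at h3
    exact hp ((Nat.prime_dvd_prime_iff_eq hpp Nat.prime_two).1 h3)
  have ha1 : a ≠ 1 := by
    rintro rfl
    apply hnt
    rw [zpowers_one_eq_bot, commutator_bot_right]
  have hap : a ^ p = 1 := by
    obtain ⟨k, hk⟩ := IsPGroup.iff_orderOf.1 ha ⟨a, mem_zpowers a⟩
    rw [← orderOf_coe] at hk
    change orderOf a = p ^ k at hk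
    exact H18.Dickson.pow_eq_one_of_tr (H18.Dickson.tr_of_pow (p := p) (k := k) (by rw [← hk, pow_orderOf_eq_one]))
  have hao : orderOf a = p := orderOf_eq_prime hap ha1
  have hcz : Nat.card (zpowers a) = p := by rw [Nat.card_zpowers, hao]
  have haN : zpowers a ≤ normalizer (R : Set (S F)) := by rw [zpowers_le]; exact haR
  have hcop : ∀ x ∈ R, (orderOf x).Coprime p := by
    intro x hx
    apply hR.coprime_dvd_left
    have := orderOf_dvd_natCard (⟨x, hx⟩ : R)
    rwa [← orderOf_coe] at this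
  have haR' : ∀ x ∈ R, a * x * a⁻¹ ∈ R := fun x hx => (mem_normalizer_iff.1 haR x).1 hx
  -- elements of R commuting with their conjugate
  have hA : ∀ x ∈ R, x * (a * x * a⁻¹) = (a * x * a⁻¹) * x → x ^ 2 = 1 := fun x hx h => sq_one hp hap ha1 (hcop x hx) h
  have hRa : R ⊓ zpowers a = ⊥ := by
    have := disjoint_of_coprime_natCard (H := R) (K := zpowers a) (by rw [hcz]; exact hR)
    exact this.eq_bot
  -- R is a 2-group
  have hR2 : ∀ r : ℕ, r.Prime → r ∣ Nat.card R → r = 2 := by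
    intro r hr hrd
    by_contra hr2
    haveI : Fact r.Prime := ⟨hr⟩
    have hrp : r ≠ p := by
      rintro rfl
      exact hr.one_lt.ne' (Nat.eq_one_of_dvd_coprimes hR hrd dvd_rfl)
    obtain ⟨P, hP⟩ := H1.Coprime.invariant_sylow_exists (zpowers a) R haN (by rw [hcz]; exact hR.symm)
      (Or.inl inferInstance) r
    set Q := (P : Subgroup R).map R.subtype with hQ
    have hQR : Q ≤ R := map_subtype_le _
    have hQp : IsPGroup r Q := P.isPGroup'.map _
    obtain ⟨T, hT⟩ := hQp.exists_le_sylow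
    have hTc : IsCyclic (T : Subgroup (S F)) := H5.SL2Tor.sylow_r p r hr2 hrp T
    have hQne : Q ≠ ⊥ := by
      intro h
      rw [hQ, map_eq_bot_iff_of_injective _ R.subtype_injective] at h
      have h1 := P.dvd_card_of_dvd_card hrd
      rw [h, card_bot] at h1
      exact hr.one_lt.ne' (Nat.dvd_one.1 h1)
    obtain ⟨⟨x, hxQ⟩, hx1'⟩ := (Subgroup.ne_bot_iff_exists_ne_one (H := Q)).1 hQne
    have hx1 : x ≠ 1 := fun h => hx1' (Subtype.ext h)
    have hax : a * x * a⁻¹ ∈ Q := (mem_normalizer_iff.1 (hP (mem_zpowers a)) x).1 hxQ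
    have hcomm : x * (a * x * a⁻¹) = (a * x * a⁻¹) * x := by
      letI := hTc.commGroup
      exact congrArg Subtype.val (mul_comm (⟨x, hT hxQ⟩ : (T : Subgroup (S F))) ⟨_, hT hax⟩)
    have h3 := hA x (hQR hxQ) hcomm
    obtain ⟨k, hk⟩ := hQp ⟨x, hxQ⟩
    have hk' : x ^ r ^ k = 1 := congrArg Subtype.val hk
    apply hx1
    rw [← orderOf_eq_one_iff]
    exact Nat.eq_one_of_dvd_coprimes (((Nat.coprime_primes Nat.prime_two hr).2 (Ne.symm hr2)).pow_right k)
      (orderOf_dvd_of_pow_eq_one h3) (orderOf_dvd_of_pow_eq_one hk')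
  haveI : Fact (Nat.Prime 2) := ⟨Nat.prime_two⟩
  have hRp : IsPGroup 2 R := by
    obtain ⟨n, hn⟩ : ∃ n, Nat.card R = 2 ^ n :=
      ⟨_, Nat.eq_prime_pow_of_unique_prime_dvd Nat.card_pos.ne' (fun {r} hr hd => hR2 r hr hd)⟩
    exact IsPGroup.of_card hn
  -- |R| ≤ 8
  have hodd : Odd (Fintype.card F) := by
    obtain ⟨n, hn, hq⟩ := FiniteField.card F p
    rw [hq]
    exact (hpp.odd_of_ne_two hp).pow
  have hR8 : Nat.card R ≤ 8 := by
    obtain ⟨P, hP⟩ := hRp.exists_le_sylow
    obtain ⟨k, hk, ⟨e⟩⟩ := H5.SL2Quat.sylow_two hodd P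
    haveI : NeZero (2 ^ k) := ⟨pow_ne_zero k (by norm_num)⟩
    -- the cyclic part
    let C : Subgroup (QuaternionGroup (2 ^ k)) := zpowers (QuaternionGroup.a 1)
    have hCi : C.index ≤ 2 := by
      have h1 := C.card_mul_index
      rw [Nat.card_zpowers, QuaternionGroup.orderOf_a_one, Nat.card_eq_fintype_card, QuaternionGroup.card] at h1
      have h3 : 0 < 2 ^ k := by positivity
      have : 2 * 2 ^ k * C.index = 2 * 2 ^ k * 2 := by rw [h1]; ring
      exact (Nat.eq_of_mul_eq_mul_left (by positivity) this).le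
    let f : R →* QuaternionGroup (2 ^ k) := e.toMonoidHom.comp (inclusion hP)
    have hfi : Function.Injective f := e.injective.comp (inclusion_injective hP)
    let D : Subgroup R := C.comap f
    have hCn0 : C.index ≠ 0 := index_ne_zero_of_finite
    have hDi : D.index ≤ 2 := by
      rw [index_comap]
      refine (relIndex_le_of_le_right (H := C) (K := f.range) (L := ⊤) le_top (by rw [relIndex_top_right]; exact hCn0)).trans ?_
      rw [relIndex_top_right]; exact hCi
    haveI hDcyc : IsCyclic D := by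
      have h1 : IsCyclic C := inferInstance
      let g : D →* C := (f.comp D.subtype).codRestrict C (fun x => x.2)
      apply isCyclic_of_injective g
      intro x y hxy
      apply Subtype.ext
      apply hfi
      exact congrArg Subtype.val hxy
    obtain ⟨d, hd⟩ := hDcyc.exists_generator
    have hDc : Nat.card D = orderOf (d : R) := by
      rw [orderOf_coe, ← Nat.card_zpowers]
      have : zpowers d = ⊤ := by rw [eq_top_iff]; intro x _; exact hd x
      rw [this, card_top]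
    have hmemC : ∀ g : QuaternionGroup (2 ^ k), orderOf g ≠ 4 → g ∈ C := by
      intro g hg
      cases g with
      | a i =>
        rw [mem_zpowers_iff]
        refine ⟨(i.val : ℕ), ?_⟩
        rw [zpow_natCast, QuaternionGroup.a_one_pow, ZMod.natCast_zmod_val]
      | xa i => exact absurd (QuaternionGroup.orderOf_xa i) hg
    have hd4 : orderOf (d : R) ≤ 4 := by
      by_contra h
      push Not at h
      have hdR : ((d : R) : S F) ∈ R := (d : R).2
      have h1 : f ⟨a * ((d : R) : S F) * a⁻¹, haR' _ hdR⟩ ∈ C := by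
        apply hmemC
        rw [orderOf_injective f hfi, ← orderOf_coe]
        change orderOf (a * ((d : R) : S F) * a⁻¹) ≠ 4
        have h2 : orderOf (a * ((d : R) : S F) * a⁻¹) = orderOf ((d : R) : S F) := by
          exact orderOf_injective (MulAut.conj a).toMonoidHom (MulAut.conj a).injective _
        rw [h2, orderOf_coe]
        omega
      have h3 : (⟨⟨a * ((d : R) : S F) * a⁻¹, haR' _ hdR⟩, h1⟩ : D) ∈ zpowers d := hd _
      obtain ⟨m, hm⟩ := mem_zpowers_iff.1 h3
      have h4 : Commute d (⟨⟨a * ((d : R) : S F) * a⁻¹, haR' _ hdR⟩, h1⟩ : D) := by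
        rw [← hm]; exact (Commute.refl d).zpow_right m
      have h5 := congrArg (fun z : D => ((z : R) : S F)) h4.eq
      have h6 := hA _ hdR h5
      have h7 : orderOf ((d : R) : S F) ∣ 2 := orderOf_dvd_of_pow_eq_one h6
      rw [orderOf_coe] at h7
      have := Nat.le_of_dvd (by norm_num) h7
      omega
    calc Nat.card R = Nat.card D * D.index := (D.card_mul_index).symm
      _ ≤ 4 * 2 := Nat.mul_le_mul (by rw [hDc]; exact hd4) hDi
  set H := R ⊔ zpowers a with hH
  have hHc : Nat.card H = Nat.card R * p := by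
    have h1 := H2.Card.card_sup_mul_card_inf (H := zpowers a) (N := R) haN
    rw [sup_comm, inf_comm, hRa, card_bot, mul_one, hcz, mul_comm] at h1
    exact h1
  have hsyl : 1 < Nat.card (Sylow p H) := by
    by_contra hcon
    have h1 : Nat.card (Sylow p H) = 1 := by
      have : 0 < Nat.card (Sylow p H) := Nat.card_pos
      omega
    obtain ⟨hsub, -⟩ := Nat.card_eq_one_iff_unique.1 h1
    have haH : a ∈ H := mem_sup_right (mem_zpowers a)
    obtain ⟨P, hP⟩ := (ha.comap_subtype (K := H)).exists_le_sylow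
    have hPn : (P : Subgroup H).Normal := Sylow.normal_of_subsingleton P
    have haP : (⟨a, haH⟩ : H) ∈ (P : Subgroup H) := hP (mem_zpowers a)
    apply hnt
    rw [eq_bot_iff, commutator_le]
    intro x hx y hy
    rw [mem_bot, commutatorElement_eq_one_iff_commute]
    obtain ⟨m, rfl⟩ := mem_zpowers_iff.1 hy
    apply Commute.zpow_right
    have hxH : x ∈ H := mem_sup_left hx
    have h3 : (⟨x, hxH⟩ : H) * ⟨a, haH⟩ * (⟨x, hxH⟩ : H)⁻¹ ∈ (P : Subgroup H) := hPn.conj_mem _ haP _
    have h4 : (⟨x, hxH⟩ : H) * ⟨a, haH⟩ * (⟨x, hxH⟩ : H)⁻¹ * (⟨a, haH⟩ : H)⁻¹ ∈ (P : Subgroup H) := mul_mem h3 (inv_mem haP)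
    have h5 : x * a * x⁻¹ * a⁻¹ ∈ R := by
      have h6 := haR' _ (inv_mem hx)
      have : x * a * x⁻¹ * a⁻¹ = x * (a * x⁻¹ * a⁻¹) := by simp only [mul_assoc]
      rw [this]
      exact mul_mem hx h6
    obtain ⟨k, hk⟩ := P.isPGroup' ⟨_, h4⟩
    have hk' : (x * a * x⁻¹ * a⁻¹) ^ p ^ k = 1 := congrArg (fun z : (P : Subgroup H) => ((z : H) : S F)) hk
    have h7 : orderOf (x * a * x⁻¹ * a⁻¹) = 1 :=
      Nat.eq_one_of_dvd_coprimes ((hcop _ h5).pow_right k) dvd_rfl (orderOf_dvd_of_pow_eq_one hk')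
    rw [orderOf_eq_one_iff] at h7
    change x * a = a * x
    have h8 : x * a = (x * a * x⁻¹ * a⁻¹) * (a * x) := by simp [mul_assoc]
    rw [h8, h7, one_mul]
  obtain ⟨K, hKH, ⟨e⟩⟩ := H18.Dickson.dickson hp H hsyl
  have hKc : Nat.card K = p * (p - 1) * (p + 1) := by
    rw [Nat.card_congr e.toEquiv]; exact H2.FF.card_sl
  have hle : Nat.card K ≤ Nat.card H := card_le_of_le hKH
  have hp3 : p = 3 := by
    rw [hKc, hHc] at hle
    have h3 : 3 ≤ p := by
      have := hpp.two_le
      omega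
    obtain ⟨q, rfl⟩ : ∃ q, p = q + 3 := ⟨p - 3, by omega⟩
    have h4 : (q + 3 - 1) * (q + 3 + 1) ≤ Nat.card R := by
      apply Nat.le_of_mul_le_mul_left _ (by omega : 0 < q + 3)
      calc (q + 3) * ((q + 3 - 1) * (q + 3 + 1)) = (q + 3) * (q + 3 - 1) * (q + 3 + 1) := by ring
        _ ≤ Nat.card R * (q + 3) := hle
        _ = _ := by ring
    have h5 : (q + 2) * (q + 4) ≤ 8 := h4.trans hR8
    have : q = 0 := by nlinarith
    omega
  subst hp3
  have hKH' : K = H := by
    apply Subgroup.eq_of_le_of_card_ge hKH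
    rw [hKc, hHc]
    omega
  subst hKH'
  have hR8' : Nat.card R = 8 := by
    rw [hKc] at hHc
    omega
  refine ⟨rfl, ?_, ⟨e⟩⟩
  have hRK : R ≤ H := le_sup_left
  let Q0 : Subgroup (S (ZMod 3)) := (R.subgroupOf H).map e.toMonoidHom
  have hQ0c : Nat.card Q0 = 8 := by
    rw [card_map_of_injective (K := R.subgroupOf H) (f := e.toMonoidHom) e.injective, Nat.card_congr (subgroupOfEquivOfLe hRK).toEquiv, hR8']
  have hS3 : Nat.card (S (ZMod 3)) = 24 := H2.FF.card_sl
  have hfac : Nat.card Q0 = 2 ^ (Nat.card (S (ZMod 3))).factorization 2 := by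
    rw [hQ0c, hS3]
    have h24 : (24 : ℕ) = 2 ^ 3 * 3 := by norm_num
    rw [h24, Nat.factorization_mul (by norm_num) (by norm_num), Nat.Prime.factorization_pow Nat.prime_two,
      Nat.Prime.factorization (by norm_num : Nat.Prime 3)]
    simp
  obtain ⟨k, hk, ⟨e'⟩⟩ := H5.SL2Quat.sylow_two (F := ZMod 3) (by rw [ZMod.card]; decide) (Sylow.ofCard Q0 hfac)
  have hcq : Nat.card Q0 = 4 * 2 ^ k := by
    haveI : NeZero (2 ^ k) := ⟨pow_ne_zero k (by norm_num)⟩
    rw [← QuaternionGroup.card (n := 2 ^ k), ← Nat.card_eq_fintype_card]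
    exact Nat.card_congr e'.toEquiv
  have hk1 : k = 1 := by
    rw [hQ0c] at hcq
    have h1 : 2 ^ k = 2 ^ 1 := by omega
    exact Nat.pow_right_injective le_rfl h1
  subst hk1
  refine ⟨((subgroupOfEquivOfLe hRK).symm.trans ((R.subgroupOf H).equivMapOfInjective e.toMonoidHom e.injective)).trans e'⟩


end Cfsg.Agent.S3740
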