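import Cfsg.Statements.S3741
import Cfsg.Agent.H2_Rank2
import Cfsg.Agent.H2_Extra

set_option autoImplicit false
open Cfsg

namespace Cfsg.Agent.S3741

open Subgroup
open scoped commutatorElement

/-- Let A and B be subgroups of a finite p-group with [A, B] ≤ A ∩ B and [A, B] of order at most p. Then |A : C_A(B)| = |B : C_B(A)|. -/
theorem result {G : Type*} [Group G] [Finite G] {p : ℕ} [Fact p.Prime] (hG : IsPGroup p G) (A B : Subgroup G) (hAB : ⁅A, B⁆ ≤ A ⊓ B) (hcard : Nat.card ↥⁅A, B⁆ ≤ p) : (A ⊓ Subgroup.centralizer (B : Set G)).relIndex A = (B ⊓ Subgroup.centralizer (A : Set G)).relIndex B := by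
  obtain ⟨K, hK⟩ : ∃ K : Subgroup G, K = A ⊔ B := ⟨_, rfl⟩
  have hA : A ≤ K := hK ▸ le_sup_left
  have hB : B ≤ K := hK ▸ le_sup_right
  have hZA : ⁅A, B⁆ ≤ A := hAB.trans inf_le_left
  have hZK : ⁅A, B⁆ ≤ K := hZA.trans hA
  -- normal in K
  have hn : (⁅A, B⁆.subgroupOf K).Normal := by
    rw [Subgroup.normal_subgroupOf_iff_le_normalizer hZK, hK, sup_le_iff]
    exact ⟨Subgroup.normalizer_commutator_ge_left A B, Subgroup.normalizer_commutator_ge_right A B⟩
  have hcent : ∀ z ∈ ⁅A, B⁆, ∀ x ∈ K, z * x = x * z := by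
    intro z hz x hx
    have h1 := H2.Rank2.le_center_of_card_le (hG.to_subgroup K) hn (by
      rw [Nat.card_congr (Subgroup.subgroupOfEquivOfLe hZK).toEquiv]; exact hcard)
    have h2 : (⟨z, hZK hz⟩ : K) ∈ center K := h1 hz
    exact (congrArg Subtype.val (mem_center_iff.1 h2 ⟨x, hx⟩)).symm
  have e1 : (A ⊓ Subgroup.centralizer (B : Set G)).relIndex A = (Subgroup.centralizer (B : Set G)).relIndex A := by
    rw [inf_comm, Subgroup.inf_relIndex_right]
  have e2 : (B ⊓ Subgroup.centralizer (A : Set G)).relIndex B = (Subgroup.centralizer (A : Set G)).relIndex B := by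
    rw [inf_comm, Subgroup.inf_relIndex_right]
  rw [e1, e2]
  by_cases hp1 : Nat.card (⁅A, B⁆ : Subgroup G) = p
  · exact H2.Extra.relIndex_eq A B ⁅A, B⁆ hp1 (fun x hx y hy => Subgroup.commutator_mem_commutator hx hy)
      (fun z hz x hx => (hcent z hz x (hA hx)).symm) (fun z hz x hx => (hcent z hz x (hB hx)).symm)
  · have h1 : Nat.card (⁅A, B⁆ : Subgroup G) = 1 := by
      obtain ⟨k, hk⟩ := IsPGroup.iff_card.1 (hG.to_subgroup ⁅A, B⁆)
      have hp2 := (Fact.out : p.Prime).two_le
      rcases k with _ | _ | k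
      · rw [hk, pow_zero]
      · rw [hk, zero_add, pow_one] at hp1
        exact absurd rfl hp1
      · exfalso
        rw [hk] at hcard
        have : p ^ 2 ≤ p ^ (k + 1 + 1) := Nat.pow_le_pow_right (by omega) (by omega)
        nlinarith
    have h2 := Subgroup.card_eq_one.1 h1
    have h3 : A ≤ centralizer (B : Set G) := Subgroup.commutator_eq_bot_iff_le_centralizer.1 h2
    have h4 : B ≤ centralizer (A : Set G) := by
      rw [Subgroup.commutator_comm] at h2
      exact Subgroup.commutator_eq_bot_iff_le_centralizer.1 h2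
    rw [Subgroup.relIndex_eq_one.2 h3, Subgroup.relIndex_eq_one.2 h4]

end Cfsg.Agent.S3741
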