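import Cfsg.Statements.S3743
import Cfsg.Agent.H11_Cores
import Cfsg.Agent.H12_Core

set_option autoImplicit false
open Cfsg

namespace Cfsg.Agent.S3743

universe u

theorem isRadProp_pi (π : Set ℕ) :
    H11.Cores.IsRadProp.{u} (fun X _ => ∀ p : ℕ, p.Prime → p ∣ Nat.card X → p ∈ π) where
  iso := by
    intro X Y _ _ e h p hp hd
    exact h p hp (by rwa [Nat.card_congr e.toEquiv])
  sub := by
    intro X _ _ N h p hp hd
    exact h p hp (hd.trans (Subgroup.card_subgroup_dvd_card N))
  rad_mem := by
    intro X _ _ p hp hd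
    exact H12.Core.piCore_piNum π p hp hd

/-- In a finite group G, every subnormal nilpotent subgroup lies in the Fitting subgroup F(G), and, for a set of primes π, every subnormal subgroup all of whose prime divisors lie in π lies in O_π(G). -/
theorem result {G : Type*} [Group G] [Finite G] (A : Subgroup G) (hA : A.IsSubnormal) : (Group.IsNilpotent A → A ≤ Cfsg.fittingSubgroup G) ∧ ∀ π : Set ℕ, (∀ p : ℕ, p.Prime → p ∣ Nat.card A → p ∈ π) → A ≤ Cfsg.piCore π G :=
  ⟨fun h => H11.Cores.le_fittingSubgroup_of_isSubnormal hA h,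
    fun π h => H11.Cores.le_rad_of_isSubnormal (isRadProp_pi π) hA h⟩

end Cfsg.Agent.S3743
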