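import Cfsg.Statements.S3745
import Cfsg.Agent.H22_Hall

set_option autoImplicit false
open Cfsg Pointwise

namespace Cfsg.Agent.S3745

open H22.Hall H1.Basic H1.Coprime

/-- Coprime action on a solvable group and Hall subgroups. Let A and G be subgroups of a finite group with A normalizing G, the orders of A and G coprime, and G solvable, and let π be a set of primes. Then (a) G has an A-invariant Hall π-subgroup; (b) any two A-invariant Hall π-subgroups of G are conjugate by an element of C_G(A); (c) every A-invariant π-subgroup of G lies in an A-invariant Hall π-subgroup of G. -/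
theorem result {X : Type*} [Group X] [Finite X] (A G : Subgroup X) (hAG : A ≤ Subgroup.normalizer (G : Set X)) (hcop : (Nat.card A).Coprime (Nat.card G)) (hsolv : Group.IsSolvable G) (π : Set ℕ) : (∃ H : Subgroup X, Cfsg.IsPiHallOf π H G ∧ A ≤ Subgroup.normalizer (H : Set X)) ∧ (∀ H₁ H₂ : Subgroup X, Cfsg.IsPiHallOf π H₁ G → A ≤ Subgroup.normalizer (H₁ : Set X) → Cfsg.IsPiHallOf π H₂ G → A ≤ Subgroup.normalizer (H₂ : Set X) → ∃ c ∈ G ⊓ Subgroup.centralizer (A : Set X), H₂ = H₁.map (MulAut.conj c).toMonoidHom) ∧ (∀ U : Subgroup X, U ≤ G → A ≤ Subgroup.normalizer (U : Set X) → (∀ p : ℕ, p.Prime → p ∣ Nat.card U → p ∈ π) → ∃ H : Subgroup X, Cfsg.IsPiHallOf π H G ∧ A ≤ Subgroup.normalizer (H : Set X) ∧ U ≤ H) := by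
  have hex : ∃ H : Subgroup X, Cfsg.IsPiHallOf π H G ∧ A ≤ Subgroup.normalizer (H : Set X) := by
    obtain ⟨H₀, h₀⟩ := exists_piHall hsolv π
    obtain ⟨k, hk, hA⟩ := exists_invariant_conj hAG hcop (Or.inr hsolv) H₀ (by
      intro a ha
      obtain ⟨l, hl, e⟩ := piHall_conj hsolv h₀ (piHall_of_conj h₀ (hAG ha))
      exact ⟨l, hl, e.symm⟩)
    exact ⟨_, piHall_of_conj h₀ (Subgroup.le_normalizer hk), hA⟩
  refine ⟨hex, ?_, ?_⟩
  · intro H₁ H₂ h₁ hA₁ h₂ hA₂
    obtain ⟨k, hk, e⟩ := piHall_conj hsolv h₁ h₂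
    obtain ⟨c, hc, e'⟩ := invariant_conj_centralizer hAG hcop (Or.inr hsolv) hA₁ hA₂ hk e
    exact ⟨c, hc, e'.symm⟩
  · intro U hUG hAU hU
    obtain ⟨H, hH, hAH⟩ := hex
    have hAGb : A ⊓ G = ⊥ := disjoint_of_coprime_card hcop
    have hGY : G ≤ A ⊔ G := le_sup_right
    have hHY : A ⊔ H ≤ A ⊔ G := sup_le_sup_left hH.1 A
    have hUY : A ⊔ U ≤ A ⊔ G := sup_le_sup_left hUG A
    have cG : Nat.card (A ⊔ G : Subgroup X) = Nat.card A * Nat.card G :=
      card_sup_of_le_normalizer hAG hAGb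
    have cH : Nat.card (A ⊔ H : Subgroup X) = Nat.card A * Nat.card H :=
      card_sup_of_le_normalizer hAH (by rw [eq_bot_iff, ← hAGb]; exact inf_le_inf_left A hH.1)
    have cU : Nat.card (A ⊔ U : Subgroup X) = Nat.card A * Nat.card U :=
      card_sup_of_le_normalizer hAU (by rw [eq_bot_iff, ← hAGb]; exact inf_le_inf_left A hUG)
    have hA0 : 0 < Nat.card A := Nat.card_pos
    have hH0 : 0 < Nat.card H := Nat.card_pos
    have hG0 : 0 < Nat.card G := Nat.card_pos
    have e₁ : H.relIndex G * Nat.card H = Nat.card G := relIndex_mul_card hH.1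
    have i₁ : (A ⊔ H).relIndex (A ⊔ G) = H.relIndex G := by
      have e₂ := relIndex_mul_card hHY
      rw [cG, cH, ← e₁] at e₂
      have : (A ⊔ H).relIndex (A ⊔ G) * (Nat.card A * Nat.card H) = H.relIndex G * (Nat.card A * Nat.card H) := by
        rw [e₂]; ring
      exact Nat.eq_of_mul_eq_mul_right (Nat.mul_pos hA0 hH0) this
    have i₂ : G.relIndex (A ⊔ G) = Nat.card A := by
      have e₂ := relIndex_mul_card hGY
      rw [cG] at e₂
      exact Nat.eq_of_mul_eq_mul_right hG0 e₂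
    have hAi : (Nat.card A).Coprime (H.relIndex G) :=
      hcop.coprime_dvd_right ⟨_, e₁.symm⟩
    have hHi := piHall_coprime hH
    have hUi : (Nat.card U).Coprime (H.relIndex G) := by
      apply Nat.Coprime.symm
      apply Nat.coprime_of_dvd
      intro k hk hd1 hd2
      exact hH.2.2 k hk (hU k hk hd2) hd1
    have hLn : (G.subgroupOf (A ⊔ G)).Normal := by
      rw [Subgroup.normal_subgroupOf_iff_le_normalizer hGY]
      exact sup_le hAG Subgroup.le_normalizer
    have hLs : Group.IsSolvable (G.subgroupOf (A ⊔ G)) :=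
      Group.isSolvable_of_isSolvable_injective
        (f := (Subgroup.subgroupOfEquivOfLe hGY).toMonoidHom) (Subgroup.subgroupOfEquivOfLe hGY).injective
    obtain ⟨g, hg⟩ := dominance (L := G.subgroupOf (A ⊔ G)) (H := (A ⊔ H).subgroupOf (A ⊔ G))
      (K := (A ⊔ U).subgroupOf (A ⊔ G)) hLn hLs
      (by
        rw [card_subgroupOf hHY, cH]
        show (Nat.card A * Nat.card H).Coprime ((A ⊔ H).relIndex (A ⊔ G))
        rw [i₁]
        exact Nat.Coprime.mul_left hAi hHi)
      (by
        show (G.relIndex (A ⊔ G)).Coprime ((A ⊔ H).relIndex (A ⊔ G))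
        rw [i₁, i₂]; exact hAi)
      (by
        rw [card_subgroupOf hUY, cU]
        show (Nat.card A * Nat.card U).Coprime ((A ⊔ H).relIndex (A ⊔ G))
        rw [i₁]
        exact Nat.Coprime.mul_left hAi hUi)
    have hg' : MulAut.conj (g : X) • (A ⊔ U) ≤ A ⊔ H := conj_le_of_subgroupOf hUY g hg
    have hgG : (g : X) ∈ Subgroup.normalizer (G : Set X) := (sup_le hAG Subgroup.le_normalizer) g.2
    have hgG' : (g : X)⁻¹ ∈ Subgroup.normalizer (G : Set X) := inv_mem hgG
    have hinf : (A ⊔ H) ⊓ G ≤ H := by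
      rintro x ⟨hx1, hx2⟩
      obtain ⟨h, hh, a, ha, hax⟩ := (H22.Basic.mem_sup_of_le_normalizer hAH).mp (by
        rw [sup_comm]; exact hx1)
      have h1 : a ∈ A ⊓ G := by
        refine Subgroup.mem_inf.mpr ⟨ha, ?_⟩
        have := G.mul_mem (G.inv_mem (hH.1 hh)) hx2
        rwa [← hax, inv_mul_cancel_left] at this
      rw [hAGb, Subgroup.mem_bot] at h1
      rw [← hax, h1, mul_one]; exact hh
    have hU' : MulAut.conj (g : X) • U ≤ H := by
      refine le_trans (le_inf ?_ ?_) hinf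
      · exact (conj_le_conj.mpr le_sup_right).trans hg'
      · have e : MulAut.conj (g : X) • G = G := conj_eq_iff_mem_normalizer.mpr hgG
        exact (conj_le_conj.mpr hUG).trans e.le
    refine ⟨MulAut.conj (g : X)⁻¹ • H, piHall_of_conj hH hgG', ?_, ?_⟩
    · intro a ha
      have h1 : (g : X) * a * (g : X)⁻¹ ∈ A ⊔ H :=
        hg' (conj_mem_conj.mpr (Subgroup.mem_sup_left ha))
      have h2 : (g : X) * a * (g : X)⁻¹ ∈ Subgroup.normalizer (H : Set X) :=
        (sup_le hAH Subgroup.le_normalizer) h1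
      rw [← conj_eq_iff_mem_normalizer] at h2 ⊢
      rw [conj_conj]
      have : a * (g : X)⁻¹ = (g : X)⁻¹ * ((g : X) * a * (g : X)⁻¹) := by group
      rw [this, ← conj_conj, h2]
    · have h1 := conj_le_conj (g := (g : X)⁻¹) |>.mpr hU'
      rwa [conj_conj, inv_mul_cancel, conj_one] at h1

end Cfsg.Agent.S3745
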