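import Cfsg.Statements.S3746
import Cfsg.Agent.H11_Components


set_option autoImplicit false
open Cfsg

namespace Cfsg.Agent.S3746

open Subgroup
open scoped commutatorElement

/-- Let Z ≤ Z(G) be a central subgroup of a finite group G and E a subgroup of G containing Z whose image E/Z is a component of G/Z (subnormal and quasisimple). Then the derived subgroup [E, E] is a component of G. -/
theorem result {G : Type*} [Group G] [Finite G] (Z : Subgroup G) (hZ : Z ≤ Subgroup.center G) [Z.Normal] (E : Subgroup G) (hZE : Z ≤ E) (hE : Cfsg.IsComponent (E.map (QuotientGroup.mk' Z))) : Cfsg.IsComponent ⁅E, E⁆ := by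

  set π := QuotientGroup.mk' Z with hπ
  have hsurj : Function.Surjective π := QuotientGroup.mk'_surjective Z
  -- subnormality of E
  have hEc : (E.map π).comap π = E := by
    rw [comap_map_eq, QuotientGroup.ker_mk', sup_eq_left.2 hZE]
  have hEs : E.IsSubnormal := by
    rw [← hEc]; exact hE.1.comap π
  let f : E →* (E.map π) := π.subgroupMap E
  have hfs : Function.Surjective f := π.subgroupMap_surjective E
  have hfk : ∀ x : E, f x = 1 ↔ (x : G) ∈ Z := by
    intro x
    rw [← QuotientGroup.eq_one_iff (N := Z)]
    constructor
    · intro h; exact congrArg Subtype.val h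
    · intro h; exact Subtype.ext h
  have hq := hE.2
  set D : Subgroup E := _root_.commutator E with hD
  have hDn : D.map E.subtype = ⁅E, E⁆ := by
    rw [hD, _root_.commutator_def, map_commutator, ← MonoidHom.range_eq_map, range_subtype]
  have hDmap : D.map f = ⊤ := by
    rw [hD, _root_.commutator_def, map_commutator, map_top_of_surjective f hfs]
    have := hq.1.commutator_eq_top
    rwa [_root_.commutator_def] at this
  have hkc : f.ker ≤ center E := by
    intro x hx
    rw [MonoidHom.mem_ker, hfk] at hx
    rw [mem_center_iff]
    intro y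
    exact Subtype.ext (mem_center_iff.1 (hZ hx) y)
  have hsup : D ⊔ f.ker = ⊤ := by
    rw [eq_top_iff]
    intro x _
    have h1 : f x ∈ D.map f := by rw [hDmap]; exact mem_top _
    obtain ⟨d, hd, hdx⟩ := h1
    have h2 : d⁻¹ * x ∈ f.ker := by
      rw [MonoidHom.mem_ker, map_mul, map_inv, hdx, inv_mul_cancel]
    have h3 : x = d * (d⁻¹ * x) := by group
    rw [h3]
    exact mul_mem (mem_sup_left hd) (mem_sup_right h2)
  have hDp : Group.IsPerfect D := by
    rw [isPerfect_iff]
    apply le_antisymm (commutator_le_self _)
    exact H11.Components.commutator_le_of_sup_center D f.ker hkc hsup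
  have hg : Function.Surjective (f.comp D.subtype) := by
    intro y
    have h1 : y ∈ D.map f := by rw [hDmap]; exact mem_top _
    obtain ⟨d, hd, hdx⟩ := h1
    exact ⟨⟨d, hd⟩, hdx⟩
  have hDq : IsQuasisimple D := by
    apply H11.Components.IsQuasisimple.of_central_quotient hDp (f.comp D.subtype) hg _ hq
    intro x hx
    have h1 : (x : E) ∈ center E := hkc hx
    rw [mem_center_iff]
    intro y
    exact Subtype.ext (mem_center_iff.1 h1 y)
  rw [← hDn]
  refine ⟨?_, H11.Components.IsQuasisimple.of_mulEquiv hDq (D.equivMapOfInjective E.subtype E.subtype_injective)⟩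
  exact (inferInstance : D.Normal).isSubnormal.trans' hEs


end Cfsg.Agent.S3746
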