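import Cfsg.Statements.S3747
import Cfsg.Agent.H11_FStar
import Cfsg.Agent.H2_Card


set_option autoImplicit false
open Cfsg

namespace Cfsg.Agent.S3747

open Subgroup
open scoped commutatorElement

universe u

theorem cent_triv {G : Type u} [Group G] [Finite G] (S : Set (Subgroup G)) (hS : ∀ L ∈ S, IsComponent L)
    (hz : ∀ L ∈ S, ∀ k ∈ L, (∀ y ∈ L, k * y = y * k) → k = 1) :
    ∀ x ∈ sSup S, (∀ y ∈ sSup S, x * y = y * x) → x = 1 := by
  revert hS hz
  refine Set.Finite.induction_on (motive := fun S _ => (∀ L ∈ S, IsComponent L) →
    (∀ L ∈ S, ∀ k ∈ L, (∀ y ∈ L, k * y = y * k) → k = 1) →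
    ∀ x ∈ sSup S, (∀ y ∈ sSup S, x * y = y * x) → x = 1) S (Set.toFinite S) ?_ ?_
  · intro _ _ x hx _
    rw [sSup_empty, mem_bot] at hx
    exact hx
  · intro K S hKS _ ih hS hz x hx hc
    rw [sSup_insert] at hx hc
    have hcen : sSup S ≤ centralizer (K : Set G) := by
      apply sSup_le
      intro L hL
      have h1 := H11.Components.commutator_eq_bot_of_ne (hS L (Set.mem_insert_of_mem _ hL)) (hS K (Set.mem_insert _ _))
        (by rintro rfl; exact hKS hL)
      rwa [commutator_eq_bot_iff_le_centralizer] at h1
    have hcen' : K ≤ centralizer ((sSup S : Subgroup G) : Set G) := by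
      rw [le_centralizer_iff]; exact hcen
    obtain ⟨k, hk, c, hcS, rfl⟩ := (H2.Card.mem_sup_iff (H := K) (N := sSup S)
      (hcen'.trans (centralizer_le_normalizer _))).1 hx
    have h1 : k = 1 := by
      apply hz K (Set.mem_insert _ _) k hk
      intro y hy
      have h2 := hc y (mem_sup_left hy)
      have h3 : c * y = y * c := (mem_centralizer_iff.1 (hcen hcS) y hy).symm
      have h4 : k * y * c = y * k * c := by
        calc k * y * c = k * (y * c) := by group
          _ = k * c * y := by rw [← h3]; group
          _ = y * (k * c) := h2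
          _ = y * k * c := by group
      exact mul_right_cancel h4
    rw [h1, one_mul] at hc ⊢
    exact ih (fun L hL => hS L (Set.mem_insert_of_mem _ hL)) (fun L hL => hz L (Set.mem_insert_of_mem _ hL)) c hcS
      (fun y hy => hc y (mem_sup_right hy))

theorem part_a {G : Type u} [Group G] [Finite G] (K : Subgroup G) (hK : IsComponent K) (hc : center ↥K = ⊥) :
    normalClosure (K : Set G) ≠ ⊥ ∧ ∀ N : Subgroup G, N.Normal → N ≤ normalClosure (K : Set G) →
      N = ⊥ ∨ N = normalClosure (K : Set G) := by
  constructor
  · intro h
    apply H11.Components.IsComponent.ne_bot hK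
    rw [eq_bot_iff, ← h]; exact le_normalClosure
  · intro N hN hNle
    haveI := hN
    rcases H11.Components.le_or_commutator_eq_bot hK hN.isSubnormal with h | h
    · right
      exact le_antisymm hNle (normalClosure_le_normal h)
    · left
      rw [commutator_eq_bot_iff_le_centralizer] at h
      have h1 : normalClosure (K : Set G) ≤ centralizer (N : Set G) := normalClosure_le_normal h
      set S : Set (Subgroup G) := {L | ∃ g : G, L = K.map (MulAut.conj g).toMonoidHom} with hS
      have hSn : (sSup S).Normal := by
        refine ⟨fun n hn g => ?_⟩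
        have h2 : sSup S ≤ (sSup S).comap (MulAut.conj g).toMonoidHom := by
          apply sSup_le
          rintro L ⟨h, rfl⟩
          rw [← map_le_iff_le_comap, map_map]
          apply le_sSup
          refine ⟨g * h, ?_⟩
          rw [map_mul]; rfl
        exact h2 hn
      have hKS : K ≤ sSup S := le_sSup ⟨1, by
        ext x; simp⟩
      have h3 : normalClosure (K : Set G) ≤ sSup S := normalClosure_le_normal hKS
      have h4 : sSup S ≤ normalClosure (K : Set G) := by
        apply sSup_le
        rintro L ⟨h, rfl⟩
        rintro _ ⟨x, hx, rfl⟩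
        exact normalClosure_normal.conj_mem x (le_normalClosure hx) h
      rw [eq_bot_iff]
      intro x hx
      rw [mem_bot]
      apply cent_triv S _ _ x (h3 (hNle hx))
      · intro y hy
        exact mem_centralizer_iff.1 (h1 (h4 hy)) x hx
      · rintro L ⟨g, rfl⟩
        exact (H11.Components.isComponent_map_conj K g).2 hK
      · rintro L ⟨g, rfl⟩
        rintro _ ⟨k, hk, rfl⟩ hky
        have h5 : (⟨k, hk⟩ : K) ∈ center K := by
          rw [mem_center_iff]
          intro y
          apply Subtype.ext
          have h6 := hky (MulAut.conj g (y : G)) ⟨y, y.2, rfl⟩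
          have h7 : MulAut.conj g (k * (y : G)) = MulAut.conj g ((y : G) * k) := by
            rw [map_mul, map_mul]; exact h6
          exact ((MulAut.conj g).injective h7).symm
        rw [hc, mem_bot] at h5
        have h6 : k = 1 := congrArg Subtype.val h5
        change MulAut.conj g k = 1
        rw [h6, map_one]

/-- Let G be a finite group. (a) If K is a component of G with trivial centre, then the normal closure of K in G is a minimal normal subgroup of G. (b) If the Fitting subgroup of G is trivial, then the layer E(G) is generated by the minimal normal subgroups of G. -/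
theorem result {G : Type*} [Group G] [Finite G] : (∀ K : Subgroup G, Cfsg.IsComponent K → Subgroup.center ↥K = ⊥ → (Subgroup.normalClosure (K : Set G) ≠ ⊥ ∧ ∀ N : Subgroup G, N.Normal → N ≤ Subgroup.normalClosure (K : Set G) → N = ⊥ ∨ N = Subgroup.normalClosure (K : Set G))) ∧ (Cfsg.fittingSubgroup G = ⊥ → sSup {N : Subgroup G | N ≠ ⊥ ∧ N.Normal ∧ ∀ N' : Subgroup G, N'.Normal → N' ≤ N → N' = ⊥ ∨ N' = N} = Cfsg.layer G) := by

  refine ⟨fun K hK hc => part_a K hK hc, fun hF => ?_⟩
  have hFs : generalizedFittingSubgroup G = layer G := by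
    rw [generalizedFittingSubgroup, hF, sup_bot_eq]
  apply le_antisymm
  · apply sSup_le
    rintro N ⟨hN1, hN, hmin⟩
    haveI := hN
    rcases hmin (N ⊓ layer G) inferInstance inf_le_left with h | h
    · have h1 : ⁅N, layer G⁆ = ⊥ := by
        rw [eq_bot_iff, ← h]
        exact commutator_le_inf N (layer G)
      rw [commutator_eq_bot_iff_le_centralizer, ← hFs] at h1
      exact (h1.trans H11.FStar.centralizer_generalizedFitting_le).trans hFs.le
    · rw [← h]; exact inf_le_right
  · rw [H11.Components.layer_le_iff]
    intro K hK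
    have hc : center ↥K = ⊥ := by
      rw [eq_bot_iff]
      intro x hx
      have h1 := H11.FStar.mem_fitting_of_mem_center hK.1 x.2 (fun y hy => congrArg Subtype.val (mem_center_iff.1 hx ⟨y, hy⟩))
      rw [hF, mem_bot] at h1
      rw [mem_bot]; exact Subtype.ext h1
    obtain ⟨h1, h2⟩ := part_a K hK hc
    exact le_normalClosure.trans (le_sSup ⟨h1, normalClosure_normal, h2⟩)


end Cfsg.Agent.S3747
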