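import Cfsg.Statements.S3749
import Cfsg.Agent.H22_Prim
import Cfsg.Agent.H1_Coprime2

set_option autoImplicit false
open Cfsg

namespace Cfsg.Agent.S3749

open Subgroup H22.Basic

/-- Call a proper subgroup M of G primitive when M = N_G(N) for every non-trivial normal subgroup N of M. Let M be a primitive subgroup of the finite group G, p a prime with O_p(M) ≠ 1, and N a normal subgroup of G with M ∩ N = 1. Then p does not divide the order of N; for every prime q there is exactly one Sylow q-subgroup of N normalized by M; and if the order of N has at least two prime divisors then M is not a maximal subgroup of G. -/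
theorem result {G : Type*} [Group G] [Finite G] (M : Subgroup G) (hM : M ≠ ⊤) (hprim : ∀ N : Subgroup G, N ≤ M → M ≤ Subgroup.normalizer (N : Set G) → N ≠ ⊥ → Subgroup.normalizer (N : Set G) = M) {p : ℕ} [Fact p.Prime] (hOp : Cfsg.pCore p ↥M ≠ ⊥) (N : Subgroup G) [N.Normal] (hMN : M ⊓ N = ⊥) : ¬ p ∣ Nat.card N ∧ (∀ q : ℕ, [Fact q.Prime] → ∃! Q : Sylow q ↥N, M ≤ Subgroup.normalizer ((Q : Subgroup ↥N).map N.subtype : Set G)) ∧ ((∃ q r : ℕ, q.Prime ∧ r.Prime ∧ q ≠ r ∧ q ∣ Nat.card N ∧ r ∣ Nat.card N) → ¬ IsCoatom M) := by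
  let P : Subgroup G := (Cfsg.pCore p ↥M).map M.subtype
  have hPM : P ≤ M := map_subtype_le _
  have hP : IsPGroup p P := (H1.Nilp.pCore_isPGroup p).map _
  have hP0 : P ≠ ⊥ := fun h => hOp ((map_eq_bot_iff_of_injective _ M.subtype_injective).mp h)
  have hMP : M ≤ normalizer (P : Set G) := by
    have h1 := le_normalizer_map (H := Cfsg.pCore p ↥M) M.subtype
    have h2 : (Cfsg.pCore p ↥M).Normal := H1.Nilp.pCore_normal p
    rw [Subgroup.normalizer_eq_top (H := Cfsg.pCore p ↥M), ← MonoidHom.range_eq_map, M.range_subtype] at h1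
    exact h1
  have hPn : normalizer (P : Set G) = M := hprim P hPM hMP hP0
  have hPN : P ≤ normalizer (N : Set G) := by
    rw [Subgroup.normalizer_eq_top (H := N)]; exact le_top
  have hCb : N ⊓ centralizer (P : Set G) = ⊥ := by
    rw [eq_bot_iff, ← hMN]
    refine le_inf ?_ inf_le_left
    refine inf_le_right.trans ?_
    rw [← hPn]
    exact centralizer_le_normalizer _
  have hpN : ¬ p ∣ Nat.card N := fun h => H22.Prim.exists_fixed_of_dvd hP hPN h hCb
  have hcop : (Nat.card P).Coprime (Nat.card N) := by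
    obtain ⟨n, hn⟩ := IsPGroup.iff_card.mp hP
    rw [hn]
    exact Nat.Coprime.pow_left n (((Fact.out : p.Prime).coprime_iff_not_dvd).mpr hpN)
  have hsol : Group.IsSolvable P := by
    have := hP.isNilpotent
    infer_instance
  have huniq : ∀ q : ℕ, [Fact q.Prime] → ∃! Q : Sylow q ↥N, M ≤ Subgroup.normalizer ((Q : Subgroup ↥N).map N.subtype : Set G) := by
    intro q hq
    obtain ⟨Q, hQ⟩ := H1.Coprime.invariant_sylow_exists P N hPN hcop (Or.inl hsol) q
    have hun : ∀ Q' : Sylow q N, P ≤ normalizer ((Q' : Subgroup ↥N).map N.subtype : Set G) → Q' = Q := by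
      intro Q' hQ'
      obtain ⟨c, hc, hcQ⟩ := H1.Coprime.invariant_sylow_conj P N hPN hcop (Or.inl hsol) q Q Q' hQ hQ'
      have h1 : (c : G) ∈ N ⊓ centralizer (P : Set G) := ⟨c.2, hc⟩
      rw [hCb, mem_bot] at h1
      have h2 : c = 1 := Subtype.ext h1
      subst h2
      rw [← hcQ]
      simp
    refine ⟨Q, ?_, fun Q' hQ' => hun Q' (hPM.trans hQ')⟩
    intro m hm
    -- cj m Q is P-invariant Sylow of N
    have h1 : cj m ((Q : Subgroup ↥N).map N.subtype) ≤ N := by
      have : cj m N = N := cj_eq_of_mem_normalizer (by rw [Subgroup.normalizer_eq_top (H := N)]; exact mem_top _)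
      exact (cj_mono (map_subtype_le _)).trans this.le
    obtain ⟨Q', hQ'⟩ := H1.Coprime.exists_sylow_of_card (p := q) h1 (by
      rw [card_cj, H1.Coprime.card_map_sylow])
    have h2 : P ≤ normalizer ((Q' : Subgroup ↥N).map N.subtype : Set G) := by
      rw [hQ', normalizer_cj]
      have : cj m P = P := cj_eq_of_mem_normalizer (hMP hm)
      rw [← this]
      exact cj_mono hQ
    have h3 := hun Q' h2
    rw [h3] at hQ'
    exact mem_normalizer_iff_cj.mpr hQ'.symm
  refine ⟨hpN, huniq, ?_⟩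
  rintro ⟨q, r, hq, hr, hqr, hqN, hrN⟩ hco
  have hqf : Fact q.Prime := ⟨hq⟩
  obtain ⟨Q, hQ, -⟩ := huniq q
  have hQ' : M ≤ normalizer ((Q : Subgroup ↥N).map N.subtype : Set G) := hQ
  have hQN : (Q : Subgroup ↥N).map N.subtype ≤ N := map_subtype_le _
  have hQb : (Q : Subgroup ↥N).map N.subtype ≠ ⊥ := by
    intro h
    have h1 := H1.Coprime.card_map_sylow Q
    rw [h, card_bot] at h1
    have h2 : 0 < (Nat.card N).factorization q :=
      hq.factorization_pos_of_dvd Nat.card_pos.ne' hqN
    exact absurd h1.symm (Nat.one_lt_pow h2.ne' hq.one_lt).ne'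
  have hlt : M < (Q : Subgroup ↥N).map N.subtype ⊔ M := by
    refine lt_of_le_of_ne le_sup_right fun h => hQb ?_
    rw [eq_bot_iff, ← hMN]
    exact le_inf (by rw [h]; exact le_sup_left) hQN
  have htop := hco.2 _ hlt
  have hc1 := card_sup_of_inf_eq_bot (N := (Q : Subgroup ↥N).map N.subtype) (K := M) hQ' (by
    rw [eq_bot_iff, ← hMN]
    exact le_inf inf_le_right (inf_le_left.trans hQN))
  have hc2 := card_sup_of_inf_eq_bot (N := N) (K := M) (by
    rw [Subgroup.normalizer_eq_top (H := N)]; exact le_top) (by rw [inf_comm]; exact hMN)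
  have hle : Nat.card (N ⊔ M : Subgroup G) ≤ Nat.card ((Q : Subgroup ↥N).map N.subtype ⊔ M : Subgroup G) := by
    rw [htop]; exact H22.Basic.card_le_of_le le_top
  rw [hc1, hc2] at hle
  have h5 := Nat.le_of_mul_le_mul_right hle Nat.card_pos
  have h6 := eq_of_le_of_card_le hQN h5
  have h7 : IsPGroup q N := by
    rw [← h6]; exact Q.2.map _
  obtain ⟨n, hn⟩ := IsPGroup.iff_card.mp h7
  rw [hn] at hrN
  exact hqr ((Nat.prime_dvd_prime_iff_eq hr hq).mp (hr.dvd_of_dvd_pow hrN)).symm

end Cfsg.Agent.S3749
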