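import Cfsg.Statements.S3750
import Cfsg.Agent.H22_Prim
import Cfsg.Agent.H11_FStar

set_option autoImplicit false
open Cfsg

namespace Cfsg.Agent.S3750

open Subgroup H22.Basic

/-- Call a proper subgroup M of G primitive when M = N_G(N) for every non-trivial normal subgroup N of M. Let M be a primitive subgroup of the finite group G and N a normal subgroup of G with M ∩ F*(N) ≠ 1. Then F(G) = 1 and F*(N) = F*(G) = E(G); in particular every minimal normal subgroup of G is contained in N. -/
theorem result {G : Type*} [Group G] [Finite G] (M : Subgroup G) (hM : M ≠ ⊤) (hprim : ∀ N : Subgroup G, N ≤ M → M ≤ Subgroup.normalizer (N : Set G) → N ≠ ⊥ → Subgroup.normalizer (N : Set G) = M) (N : Subgroup G) [N.Normal] (hMF : M ⊓ (Cfsg.generalizedFittingSubgroup ↥N).map N.subtype ≠ ⊥) : Cfsg.fittingSubgroup G = ⊥ ∧ (Cfsg.generalizedFittingSubgroup ↥N).map N.subtype = Cfsg.generalizedFittingSubgroup G ∧ Cfsg.generalizedFittingSubgroup G = Cfsg.layer G ∧ ∀ K : Subgroup G, K.Normal → K ≠ ⊥ → (∀ K' : Subgroup G, K'.Normal → K' ≤ K → K' = ⊥ ∨ K' = K) → K ≤ N :=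 by
  have hFn : (Cfsg.fittingSubgroup G).Normal := H1.Nilp.fitting_normal
  have hK := H11.FStar.map_generalizedFitting_of_normal N
  have hGn : (Cfsg.generalizedFittingSubgroup G).Normal := inferInstance
  rw [hK] at hMF ⊢
  set X := M ⊓ (Cfsg.generalizedFittingSubgroup G ⊓ N) with hX
  have hMX : M ≤ normalizer (X : Set G) := by
    apply le_normalizer_inf le_normalizer
    rw [Subgroup.normalizer_eq_top (H := Cfsg.generalizedFittingSubgroup G ⊓ N)]
    exact le_top
  have hNX : normalizer (X : Set G) = M := hprim X inf_le_left hMX hMF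
  have hCX : centralizer (X : Set G) ≤ M := (centralizer_le_normalizer _).trans hNX.le
  have hXG : X ≤ Cfsg.generalizedFittingSubgroup G := inf_le_right.trans inf_le_left
  have hXN : X ≤ N := inf_le_right.trans inf_le_right
  have hF : Cfsg.fittingSubgroup G = ⊥ := by
    by_contra hne
    have hnil : Group.IsNilpotent (Cfsg.fittingSubgroup G) := H1.Nilp.fitting_nilpotent
    have hnt : Nontrivial (Cfsg.fittingSubgroup G) := (Subgroup.nontrivial_iff_ne_bot _).mpr hne
    have hc : center (Cfsg.fittingSubgroup G) ≠ ⊥ := Group.IsNilpotent.center_ne_bot _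
    apply hc
    rw [← map_eq_bot_iff_of_injective _ (Cfsg.fittingSubgroup G).subtype_injective, eq_bot_iff,
      ← H22.Prim.inf_fitting_eq_bot hM hprim]
    refine le_inf ?_ (map_subtype_le _)
    refine le_trans ?_ hCX
    have h1 : Cfsg.generalizedFittingSubgroup G ≤
        centralizer (((center (Cfsg.fittingSubgroup G)).map (Cfsg.fittingSubgroup G).subtype : Subgroup G) : Set G) := by
      apply sup_le
      · have h2 := H11.Components.commutator_layer_fitting (G := G)
        rw [commutator_eq_bot_iff_le_centralizer] at h2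
        exact h2.trans (centralizer_le (map_subtype_le _))
      · intro x hx
        rw [mem_centralizer_iff]
        rintro _ ⟨z, hz, rfl⟩
        exact congrArg Subtype.val (mem_center_iff.mp hz ⟨x, hx⟩).symm
    exact (le_centralizer_iff.mp h1).trans (centralizer_le hXG)
  have hcomp : ∀ L : Subgroup G, Cfsg.IsComponent L → L ≤ N := by
    intro L hL
    rcases H11.Components.le_or_commutator_eq_bot hL (inferInstance : N.Normal).isSubnormal with h | h
    · exact h
    · exfalso
      apply H11.Components.IsComponent.ne_bot hL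
      apply H22.Prim.subnormal_le_eq_bot hM hprim L hL.1
      rw [commutator_eq_bot_iff_le_centralizer] at h
      exact h.trans ((centralizer_le hXN).trans hCX)
  have hlay : Cfsg.generalizedFittingSubgroup G = Cfsg.layer G := by
    rw [Cfsg.generalizedFittingSubgroup, hF, sup_bot_eq]
  have hlN : Cfsg.layer G ≤ N := H11.Components.layer_le_iff.mpr hcomp
  refine ⟨hF, ?_, hlay, ?_⟩
  · rw [inf_eq_left, hlay]; exact hlN
  · intro K hKn hK0 hKmin
    rcases hKmin (K ⊓ N) inferInstance inf_le_left with h | h
    · exfalso
      apply hK0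
      apply H22.Prim.subnormal_le_eq_bot hM hprim K hKn.isSubnormal
      have h1 : ⁅K, N⁆ = ⊥ := by
        rw [eq_bot_iff, ← h]; exact Subgroup.commutator_le_inf K N
      rw [commutator_eq_bot_iff_le_centralizer] at h1
      exact h1.trans ((centralizer_le hXN).trans hCX)
    · exact inf_eq_left.mp h

end Cfsg.Agent.S3750
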