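import Cfsg.Statements.S3751
import Cfsg.Agent.H22_PrimPair

set_option autoImplicit false
set_option linter.unusedSectionVars false
open Cfsg

namespace Cfsg.Agent.S3751

open Subgroup H22.Basic H22.PrimPair

variable {G : Type*} [Group G] [Finite G] {p : ℕ} [hp : Fact p.Prime]

def Loc (p : ℕ) (M : Subgroup G) : Prop := ∃ T : Subgroup G, IsPGroup p T ∧ T ≠ ⊥ ∧ M = normalizer (T : Set G)

def MaxLoc (p : ℕ) (M : Subgroup G) : Prop := Loc p M ∧ ∀ L : Subgroup G, Loc p L → M ≤ L → L = M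

theorem exists_maxLoc {L : Subgroup G} (hL : Loc p L) : ∃ M, MaxLoc p M ∧ L ≤ M := by
  obtain ⟨M, hLM, ⟨hM, hmax⟩⟩ := Set.Finite.exists_le_maximal
    (Set.toFinite {M : Subgroup G | Loc p M}) hL
  exact ⟨M, ⟨hM, fun L' hL' h => le_antisymm (hmax hL' h) h⟩, hLM⟩

theorem F2 {M A : Subgroup G} (hM : MaxLoc p M) (hA : IsPGroup p A) (hA0 : A ≠ ⊥)
    (h : M ≤ normalizer (A : Set G)) : normalizer (A : Set G) = M :=
  hM.2 _ ⟨A, hA, hA0, rfl⟩ h

theorem F3 (hloc : Cfsg.IsOfLocalCharacteristic p G) {M : Subgroup G} (hM : Loc p M) :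
    centralizer (Cfsg.pCore p ↥M : Set ↥M) ≤ Cfsg.pCore p ↥M := by
  obtain ⟨T, hT, hT0, rfl⟩ := hM
  exact hloc.2 T hT hT0

theorem Op_ne_bot' {M : Subgroup G} (hM : Loc p M) : Op p M ≠ ⊥ := by
  obtain ⟨T, hT, hT0, rfl⟩ := hM
  intro h
  apply hT0
  rw [eq_bot_iff, ← h]
  have h1 : (T.subgroupOf (normalizer (T : Set G))).Normal := inferInstance
  have h2 := H1.Nilp.le_pCore (p := p) h1 (hT.comap_of_injective _ (subtype_injective _))
  have h3 := map_mono (f := (normalizer (T : Set G)).subtype) h2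
  rwa [map_subtype_subgroupOf le_normalizer] at h3

theorem F4 (hloc : Cfsg.IsOfLocalCharacteristic p G) {M A : Subgroup G} (hM : MaxLoc p M)
    (hAM : A ≤ M) (hA0 : A ≠ ⊥) (h : M ≤ normalizer (A : Set G)) : normalizer (A : Set G) = M := by
  -- `O_p(A) ≠ 1`
  have hcA : M ≤ normalizer (Op p A : Set G) := by
    have h1 : normalizer (A : Set G) ≤ normalizer (Op p A : Set G) := by
      have h2 : (Cfsg.pCore p A).Characteristic := inferInstance
      intro g hg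
      rw [mem_normalizer_iff_cj]
      have := H11.Cores.le_normalizer_map_subtype_of_characteristic A (Cfsg.pCore p A) hg
      exact mem_normalizer_iff_cj.mp this
    exact h.trans h1
  by_cases hO : Op p A = ⊥
  · exfalso
    have hc : ⁅A, Op p M⁆ ≤ Op p A := by
      have h1 : ⁅A, Op p M⁆ ≤ A := H22.Basic.commutator_le_left ((Op_le M).trans h)
      have h2 : ⁅A, Op p M⁆ ≤ Op p M := by
        rw [commutator_comm]
        exact H22.Basic.commutator_le_left (hAM.trans (le_normalizer_Op M))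
      have h3 : A ≤ normalizer ((⁅A, Op p M⁆ : Subgroup G) : Set G) :=
        le_normalizer_commutator le_normalizer (hAM.trans (le_normalizer_Op M))
      have h4 : ((⁅A, Op p M⁆).subgroupOf A).Normal :=
        (normal_subgroupOf_iff_le_normalizer h1).mpr h3
      have h5 := H1.Nilp.le_pCore (p := p) h4
        (((isPGroup_Op M).to_le h2).comap_of_injective _ (subtype_injective _))
      have h6 := map_mono (f := A.subtype) h5
      rwa [map_subtype_subgroupOf h1] at h6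
    rw [hO, le_bot_iff, commutator_eq_bot_iff_le_centralizer] at hc
    have h7 : A ≤ Op p M := by
      have h8 := centralizer_le_iff.mp (F3 hloc hM.1)
      exact (le_inf hAM hc).trans h8
    have h9 : IsPGroup p A := (isPGroup_Op M).to_le h7
    apply hA0
    rw [eq_bot_iff, ← hO]
    have h10 : Cfsg.pCore p A = ⊤ := by
      rw [eq_top_iff]
      exact H1.Nilp.le_pCore inferInstance (h9.of_equiv topEquiv.symm)
    unfold Op
    rw [h10, ← MonoidHom.range_eq_map, A.range_subtype]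
  · have h1 := F2 hM (isPGroup_Op A) hO hcA
    apply le_antisymm _ h
    rw [← h1]
    intro g hg
    exact H11.Cores.le_normalizer_map_subtype_of_characteristic A (Cfsg.pCore p A) hg

theorem F5 {M : Subgroup G} (hM : MaxLoc p M) (g : G) : MaxLoc p (cj g M) := by
  have hl : ∀ (g : G) (L : Subgroup G), Loc p L → Loc p (cj g L) := by
    rintro g L ⟨T, hT, hT0, rfl⟩
    refine ⟨cj g T, hT.map _, ?_, ?_⟩
    · intro h
      apply hT0
      have := congrArg (cj g⁻¹) h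
      rwa [cj_inv_cj, cj_bot] at this
    · rw [normalizer_cj]
  refine ⟨hl g M hM.1, fun L hL hle => ?_⟩
  have h1 := hM.2 (cj g⁻¹ L) (hl _ _ hL) (by
    have := cj_mono (g := g⁻¹) hle
    rwa [cj_inv_cj] at this)
  rw [← h1, cj_cj_inv]

theorem pp_of_maxLoc (hloc : Cfsg.IsOfLocalCharacteristic p G) {M₁ M₂ : Subgroup G}
    (h₁ : MaxLoc p M₁) (h₂ : MaxLoc p M₂) : PP M₁ M₂ := by
  intro A hA0 hA
  refine ⟨fun h => ?_, fun h => ?_⟩
  · rw [F4 hloc h₁ (hA.trans inf_le_left) hA0 h, inf_comm]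
  · rw [F4 hloc h₂ (hA.trans inf_le_right) hA0 h]

theorem caseA (hloc : Cfsg.IsOfLocalCharacteristic p G) {M₁ M₂ S : Subgroup G}
    (h₁ : MaxLoc p M₁) (h₂ : MaxLoc p M₂) (hS1 : S ≤ M₁) (hS2 : S ≤ M₂) (hSp : IsPGroup p S)
    (hm1 : ∀ T : Subgroup G, IsPGroup p T → S ≤ T → T ≤ M₁ → T = S)
    (hm2 : ∀ T : Subgroup G, IsPGroup p T → S ≤ T → T ≤ M₂ → T = S) :
    Op p M₁ ⊔ Op p M₂ ≤ M₁ ⊓ M₂ := by
  have key : ∀ M : Subgroup G, S ≤ M → (∀ T : Subgroup G, IsPGroup p T → S ≤ T → T ≤ M → T = S) →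
      Op p M ≤ S := by
    intro M hSM hm
    have h1 : IsPGroup p (S ⊔ Op p M : Subgroup G) :=
      IsPGroup.to_sup_of_normal_right' hSp (isPGroup_Op M) (hSM.trans (le_normalizer_Op M))
    have h2 := hm _ h1 le_sup_left (sup_le hSM (Op_le M))
    rw [← h2]; exact le_sup_right
  have k1 := key M₁ hS1 hm1
  have k2 := key M₂ hS2 hm2
  exact sup_le (le_inf (Op_le _) (k1.trans hS2)) (le_inf (k2.trans hS1) (Op_le _))

theorem grow {S T : Subgroup G} (hT : IsPGroup p T) (hST : S < T) : S < T ⊓ normalizer (S : Set G) := by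
  have hnil : Group.IsNilpotent T := hT.isNilpotent
  have hnc := Group.normalizerCondition_of_isNilpotent (G := T)
  have h1 : S.subgroupOf T < ⊤ := by
    rw [lt_top_iff_ne_top]
    intro h
    rw [subgroupOf_eq_top] at h
    exact absurd hST (not_lt_of_ge h)
  have h2 := hnc _ h1
  refine lt_of_le_of_ne (le_inf hST.le le_normalizer) fun h => ?_
  apply absurd h2
  apply not_lt_of_ge
  intro x hx
  rw [mem_subgroupOf]
  have hxn : (x : G) ∈ normalizer (S : Set G) := by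
    rw [mem_normalizer_iff_cj]
    have h3 := mem_normalizer_iff_cj.mp hx
    have h4 := congrArg (Subgroup.map T.subtype) h3
    rw [map_subtype_cj, map_subtype_subgroupOf hST.le] at h4
    exact h4
  rw [h]
  exact mem_inf.mpr ⟨x.2, hxn⟩

theorem caseB (hloc : Cfsg.IsOfLocalCharacteristic p G) {M₁ M₂ S T : Subgroup G}
    (h₁ : MaxLoc p M₁) (h₂ : MaxLoc p M₂) (hne : M₁ ≠ M₂) (hS1 : S ≤ M₁) (hS2 : S ≤ M₂)
    (hSp : IsPGroup p S) (hS0 : S ≠ ⊥)
    (hmax : ∀ R L₁ L₂ : Subgroup G, IsPGroup p R → MaxLoc p L₁ → MaxLoc p L₂ → L₁ ≠ L₂ → R ≤ L₁ →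
      R ≤ L₂ → ¬ S < R)
    (hT : IsPGroup p T) (hST : S < T) (hTM : T ≤ M₁) :
    ∃ N₁ N₂ : Subgroup G, MaxLoc p N₁ ∧ MaxLoc p N₂ ∧ N₁ ≠ N₂ ∧ Op p N₁ ⊔ Op p N₂ ≤ N₁ ⊓ N₂ := by
  obtain ⟨M₃, h₃, hN3⟩ := exists_maxLoc (p := p) (L := normalizer (S : Set G)) ⟨S, hSp, hS0, rfl⟩
  have hgrow : ∀ (M T : Subgroup G), MaxLoc p M → IsPGroup p T → S < T → T ≤ M → M₃ = M := by
    intro M T hM hT hST hTM
    by_contra h
    exact hmax _ M₃ M (hT.to_le inf_le_left) h₃ hM h (inf_le_right.trans hN3)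
      (inf_le_left.trans hTM) (grow hT hST)
  have h31 := hgrow M₁ T h₁ hT hST hTM
  have hm2 : ∀ T : Subgroup G, IsPGroup p T → S ≤ T → T ≤ M₂ → T = S := by
    intro T' hT' hST' hTM'
    rcases eq_or_lt_of_le hST' with h | h
    · exact h.symm
    · exfalso
      exact hne (h31.symm.trans (hgrow M₂ T' h₂ hT' h hTM'))
  -- pick g
  have hR := grow hT hST
  have hRn : ¬ (T ⊓ normalizer (S : Set G)) ≤ M₂ := by
    intro h
    have := hm2 _ (hT.to_le inf_le_left) hR.le h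
    exact hR.ne this.symm
  obtain ⟨g, hg, hgM⟩ := SetLike.not_le_iff_exists.mp hRn
  have hMn : normalizer (M₂ : Set G) = M₂ :=
    F4 hloc h₂ le_rfl (by intro h; exact hS0 (le_bot_iff.mp (h ▸ hS2))) le_normalizer
  have hne' : M₂ ≠ cj g M₂ := by
    intro h
    apply hgM
    rw [← hMn]
    exact mem_normalizer_iff_cj.mpr h.symm
  have hSg : cj g S = S := cj_eq_of_mem_normalizer (mem_inf.mp hg).2
  have hS2' : S ≤ cj g M₂ := by rw [← hSg]; exact cj_mono hS2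
  refine ⟨M₂, cj g M₂, h₂, F5 h₂ g, hne', caseA hloc h₂ (F5 h₂ g) hS2 hS2' hSp hm2 ?_⟩
  intro T' hT' hST' hTM'
  have h5 := hm2 (cj g⁻¹ T') (hT'.map _) (by
    have := cj_mono (g := g⁻¹) hST'
    rwa [← hSg, cj_inv_cj] at this) (by
    have := cj_mono (g := g⁻¹) hTM'
    rwa [cj_inv_cj] at this)
  rw [← cj_cj_inv g T', h5, hSg]

/-- Two distinct subgroups M₁, M₂ of G form a primitive pair when, for {i, j} = {1, 2}, every non-trivial normal subgroup A of M_i contained in M₁ ∩ M₂ satisfies N_{M_j}(A) = M₁ ∩ M₂; the pair has characteristic p when moreover C_{M_i}(O_p(M_i)) ≤ O_p(M_i) for both i and O_p(M₁)O_p(M₂) ≤ M₁ ∩ M₂. Let G be a finite group, p a prime dividing its order, with O_p(G) = 1 and every p-local subgroup of characteristic p. Then either G has a primitive pair of characteristic p, or every maximal p-local subgroup M of G is strongly p-embedded in G: M is a proper subgroup, p divides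 its order, and for every g ∉ M the order of M ∩ gMg⁻¹ is prime to p. -/
theorem result {G : Type*} [Group G] [Finite G] {p : ℕ} [Fact p.Prime] (hloc : Cfsg.IsOfLocalCharacteristic p G) (hOp : Cfsg.pCore p G = ⊥) : (∃ M₁ M₂ : Subgroup G, M₁ ≠ M₂ ∧ (∀ A : Subgroup G, A ≠ ⊥ → A ≤ M₁ ⊓ M₂ → (M₁ ≤ Subgroup.normalizer (A : Set G) → M₂ ⊓ Subgroup.normalizer (A : Set G) = M₁ ⊓ M₂) ∧ (M₂ ≤ Subgroup.normalizer (A : Set G) → M₁ ⊓ Subgroup.normalizer (A : Set G) = M₁ ⊓ M₂)) ∧ Subgroup.centralizer (Cfsg.pCore p ↥M₁ : Set ↥M₁) ≤ Cfsg.pCore p ↥M₁ ∧ Subgroup.centralizer (Cfsg.pCore p ↥M₂ : Set ↥M₂) ≤ Cfsg.pCore p ↥M₂ ∧ (Cfsg.pCore p ↥M₁).map M₁.subtype ⊔ (Cfsg.pCore p ↥M₂).map M₂.subtype ≤ M₁ ⊓ M₂) ∨ (∀ M : Subgroup G, (∃ T : Subgroup G, IsPGroup p T ∧ T ≠ ⊥ ∧ M = Subgroup.normalizer (T : Set G)) → (∀ L : Subgroup G, (∃ T : Subgroup G, IsPGroup p T ∧ T ≠ ⊥ ∧ L = Subgroup.normalizer (T : Set G)) → M ≤ L → L = M)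 → M ≠ ⊤ ∧ p ∣ Nat.card M ∧ ∀ g : G, g ∉ M → ¬ p ∣ Nat.card ↥(M ⊓ M.map (MulAut.conj g).toMonoidHom)) := by
  by_cases hex : ∃ M₁ M₂ : Subgroup G, MaxLoc p M₁ ∧ MaxLoc p M₂ ∧ M₁ ≠ M₂ ∧ p ∣ Nat.card (M₁ ⊓ M₂ : Subgroup G)
  · left
    suffices h : ∃ N₁ N₂ : Subgroup G, MaxLoc p N₁ ∧ MaxLoc p N₂ ∧ N₁ ≠ N₂ ∧ Op p N₁ ⊔ Op p N₂ ≤ N₁ ⊓ N₂ by
      obtain ⟨N₁, N₂, h₁, h₂, hne, hO⟩ := h
      exact ⟨N₁, N₂, hne, pp_of_maxLoc hloc h₁ h₂, F3 hloc h₁.1, F3 hloc h₂.1, hO⟩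
    obtain ⟨L₁, L₂, hL₁, hL₂, hLne, hLp⟩ := hex
    obtain ⟨x, hx⟩ := exists_prime_orderOf_dvd_card' p hLp
    have hxp : orderOf (x : G) = p := by rw [Subgroup.orderOf_coe]; exact hx
    have hz : IsPGroup p (zpowers (x : G)) := IsPGroup.of_card (n := 1) (by
      rw [Nat.card_zpowers, hxp, pow_one])
    obtain ⟨S, hS, ⟨⟨hSp, hS0, M₁, M₂, h₁, h₂, hne, hS1, hS2⟩, hmax⟩⟩ := Set.Finite.exists_le_maximal
      (Set.toFinite {S : Subgroup G | IsPGroup p S ∧ S ≠ ⊥ ∧ ∃ M₁ M₂ : Subgroup G, MaxLoc p M₁ ∧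
        MaxLoc p M₂ ∧ M₁ ≠ M₂ ∧ S ≤ M₁ ∧ S ≤ M₂})
      (a := zpowers (x : G)) ⟨hz, by
        intro h
        rw [zpowers_eq_bot] at h
        rw [h, orderOf_one] at hxp
        exact (Fact.out : p.Prime).one_lt.ne hxp, L₁, L₂, hL₁, hL₂, hLne,
        (zpowers_le.mpr x.2).trans inf_le_left, (zpowers_le.mpr x.2).trans inf_le_right⟩
    have hmax' : ∀ R L₁ L₂ : Subgroup G, IsPGroup p R → MaxLoc p L₁ → MaxLoc p L₂ → L₁ ≠ L₂ → R ≤ L₁ →
      R ≤ L₂ → ¬ S < R := by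
      intro R L₁ L₂ hR hL₁ hL₂ hne hR1 hR2 hSR
      have h5 : R ≠ ⊥ := by
        intro h; rw [h] at hSR; exact not_lt_bot hSR
      exact absurd (hmax ⟨hR, h5, L₁, L₂, hL₁, hL₂, hne, hR1, hR2⟩ hSR.le) (not_le_of_gt hSR)
    by_cases hm1 : ∀ T : Subgroup G, IsPGroup p T → S ≤ T → T ≤ M₁ → T = S
    · by_cases hm2 : ∀ T : Subgroup G, IsPGroup p T → S ≤ T → T ≤ M₂ → T = S
      · exact ⟨M₁, M₂, h₁, h₂, hne, caseA hloc h₁ h₂ hS1 hS2 hSp hm1 hm2⟩
      · push Not at hm2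
        obtain ⟨T, hT, hST, hTM, hTS⟩ := hm2
        exact caseB hloc h₂ h₁ hne.symm hS2 hS1 hSp hS0 hmax' hT (lt_of_le_of_ne hST (Ne.symm hTS)) hTM
    · push Not at hm1
      obtain ⟨T, hT, hST, hTM, hTS⟩ := hm1
      exact caseB hloc h₁ h₂ hne hS1 hS2 hSp hS0 hmax' hT (lt_of_le_of_ne hST (Ne.symm hTS)) hTM
  · right
    intro M hMl hMmax
    have hM : MaxLoc p M := ⟨hMl, hMmax⟩
    have hM0 : M ≠ ⊥ := by
      obtain ⟨T, hT, hT0, hMT⟩ := hMl
      intro h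
      apply hT0
      rw [eq_bot_iff, ← h, hMT]
      exact le_normalizer
    refine ⟨?_, ?_, ?_⟩
    · rintro rfl
      obtain ⟨T, hT, hT0, hMT⟩ := hMl
      apply hT0
      rw [eq_bot_iff, ← hOp]
      exact H1.Nilp.le_pCore (normalizer_eq_top_iff.mp hMT.symm) hT
    · obtain ⟨T, hT, hT0, hMT⟩ := hMl
      have h1 : T ≤ M := by rw [hMT]; exact le_normalizer
      obtain ⟨n, hn, hc⟩ := hT.nontrivial_iff_card.mp ((Subgroup.nontrivial_iff_ne_bot _).mpr hT0)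
      refine dvd_trans ?_ (card_dvd_of_le h1)
      rw [hc]
      exact dvd_pow_self p hn.ne'
    · intro g hg hd
      apply hex
      refine ⟨M, cj g M, hM, F5 hM g, ?_, hd⟩
      intro h
      apply hg
      rw [← F4 hloc hM le_rfl hM0 le_normalizer]
      exact mem_normalizer_iff_cj.mpr h.symm

end Cfsg.Agent.S3751
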