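import Cfsg.Statements.S3760
import Cfsg.Agent.H22_Basic

set_option autoImplicit false
open Cfsg

namespace Cfsg.Agent.S3760

open Subgroup H22.Basic

/-- Let the group G act transitively on a set X, let x ∈ X with stabilizer H = G_x, and let K ≤ H. Then N_G(K) acts transitively on the set of fixed points of K if and only if every G-conjugate of K contained in H is already an H-conjugate of K. -/
theorem result {G : Type*} [Group G] {X : Type*} [MulAction G X] (htrans : ∀ a b : X, ∃ g : G, g • a = b) (x : X) (K : Subgroup G) (hK : K ≤ MulAction.stabilizer G x) : (∀ a b : X, (∀ k ∈ K, k • a = a) → (∀ k ∈ K, k • b = b) → ∃ g ∈ Subgroup.normalizer (K : Set G), g • a = b) ↔ ∀ g : G, K.map (MulAut.conj g).toMonoidHom ≤ MulAction.stabilizer G x → ∃ h ∈ MulAction.stabilizer G x, K.map (MulAut.conj g).toMonoidHom = K.map (MulAut.conj h).toMonoidHom := by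
  constructor
  · intro h g hg
    have h1 : ∀ k ∈ K, k • (g⁻¹ • x) = g⁻¹ • x := by
      intro k hk
      have h2 : g * k * g⁻¹ ∈ MulAction.stabilizer G x := hg (conj_mem_cj hk)
      have h3 : (g * k * g⁻¹) • x = x := h2
      calc k • (g⁻¹ • x) = g⁻¹ • ((g * k * g⁻¹) • x) := by simp only [← mul_smul]; group
        _ = _ := by rw [h3]
    obtain ⟨n, hn, hnx⟩ := h _ x h1 (fun k hk => hK hk)
    refine ⟨g * n⁻¹, ?_, ?_⟩
    · rw [MulAction.mem_stabilizer_iff, ← hnx, mul_smul, inv_smul_smul, smul_inv_smul, hnx]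
    · show cj g K = cj (g * n⁻¹) K
      rw [cj_mul, cj_eq_of_mem_normalizer (inv_mem hn)]
  · intro h a b ha hb
    obtain ⟨u, rfl⟩ := htrans x a
    obtain ⟨v, rfl⟩ := htrans x b
    have key : ∀ u : G, (∀ k ∈ K, k • (u • x) = u • x) → ∃ s ∈ MulAction.stabilizer G x, u * s ∈ normalizer (K : Set G) := by
      intro u hu
      obtain ⟨s, hs, hse⟩ := h u⁻¹ (by
        rintro y ⟨k, hk, rfl⟩
        show (u⁻¹ * k * u⁻¹⁻¹) • x = x
        rw [inv_inv, mul_smul, mul_smul, hu k hk, inv_smul_smul])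
      refine ⟨s, hs, ?_⟩
      have hse : cj u⁻¹ K = cj s K := hse
      rw [mem_normalizer_iff_cj, cj_mul, ← hse, cj_cj_inv]
    obtain ⟨s, hs, hs'⟩ := key u ha
    obtain ⟨t, ht, ht'⟩ := key v hb
    refine ⟨(v * t) * (u * s)⁻¹, mul_mem ht' (inv_mem hs'), ?_⟩
    have hs2 : s⁻¹ • x = x := by rw [inv_smul_eq_iff]; exact hs.symm
    have ht2 : t • x = x := ht
    rw [mul_inv_rev, mul_smul, mul_smul, mul_smul, inv_smul_smul, hs2, ht2]

end Cfsg.Agent.S3760
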