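import Cfsg.Statements.S3761
import Cfsg.Agent.H2_Card
import Cfsg.Agent.H5_Dih
import Cfsg.Agent.H24_Tools
import Cfsg.Agent.H12_Core
import Cfsg.Agent.H2_Rank2


set_option autoImplicit false
open Cfsg

namespace Cfsg.Agent.S3761

open Subgroup
open scoped commutatorElement

universe v

variable {G : Type v} [Group G]

theorem comm_zpow {x u c : G} (h : x * u = c * u * x) (hcx : Commute c x) (hcu : Commute c u) (a : ℤ) :
    x * u ^ a = c ^ a * u ^ a * x := by
  have h1 : x * u * x⁻¹ = c * u := by rw [h]; group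
  have h2 : x * u ^ a * x⁻¹ = c ^ a * u ^ a := by
    rw [← hcu.mul_zpow, ← h1]
    exact (conj_zpow (a := x) (b := u) (i := a)).symm
  rw [← h2]; group

theorem pow_comm_zpow {x u c : G} (h : x * u = c * u * x) (hcx : Commute c x) (hcu : Commute c u) (a : ℤ) (N : ℕ) :
    x ^ N * u ^ a = c ^ (a * N) * u ^ a * x ^ N := by
  induction N with
  | zero => simp
  | succ N ih =>
    calc x ^ (N + 1) * u ^ a = x * (x ^ N * u ^ a) := by rw [pow_succ']; group
      _ = (x * c ^ (a * N)) * u ^ a * x ^ N := by rw [ih]; group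
      _ = c ^ (a * N) * (x * u ^ a) * x ^ N := by rw [((hcx.zpow_left (a * N)).eq).symm]; group
      _ = c ^ (a * N) * (c ^ a * u ^ a * x) * x ^ N := by rw [comm_zpow h hcx hcu]
      _ = (c ^ (a * N) * c ^ a) * u ^ a * (x * x ^ N) := by group
      _ = _ := by rw [← zpow_add, ← pow_succ']; congr 3; push_cast; ring

theorem pow_formula {x u c : G} (h : x * u = c * u * x) (hcx : Commute c x) (hcu : Commute c u) (a : ℤ) (N : ℕ) :
    (u ^ a * x) ^ N = c ^ (a * (N.choose 2 : ℕ)) * u ^ (a * N) * x ^ N := by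
  have h1 : ∀ N : ℕ, x ^ N * u ^ a = c ^ (a * N) * u ^ a * x ^ N := by
    intro N
    induction N with
    | zero => simp
    | succ N ih =>
      calc x ^ (N + 1) * u ^ a = x * (x ^ N * u ^ a) := by rw [pow_succ']; group
        _ = (x * c ^ (a * N)) * u ^ a * x ^ N := by rw [ih]; group
        _ = c ^ (a * N) * (x * u ^ a) * x ^ N := by rw [((hcx.zpow_left (a * N)).eq).symm]; group
        _ = c ^ (a * N) * (c ^ a * u ^ a * x) * x ^ N := by rw [comm_zpow h hcx hcu]
        _ = (c ^ (a * N) * c ^ a) * u ^ a * (x * x ^ N) := by group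
        _ = _ := by rw [← zpow_add, ← pow_succ']; congr 3; push_cast; ring
  induction N with
  | zero => simp
  | succ N ih =>
    have hc2 : c ^ (a * (N.choose 2 : ℕ)) * c ^ (a * N) = c ^ (a * ((N + 1).choose 2 : ℕ)) := by
      rw [← zpow_add]; congr 1
      rw [Nat.choose_succ_succ' N 1, Nat.choose_one_right]; push_cast; ring
    calc (u ^ a * x) ^ (N + 1) = (u ^ a * x) ^ N * (u ^ a * x) := pow_succ _ _
      _ = c ^ (a * (N.choose 2 : ℕ)) * u ^ (a * N) * (x ^ N * u ^ a) * x := by rw [ih]; group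
      _ = c ^ (a * (N.choose 2 : ℕ)) * (u ^ (a * N) * c ^ (a * N)) * u ^ a * x ^ N * x := by rw [h1]; group
      _ = c ^ (a * (N.choose 2 : ℕ)) * (c ^ (a * N) * u ^ (a * N)) * u ^ a * x ^ N * x := by
        rw [((hcu.zpow_zpow (a * N) (a * N)).eq).symm]
      _ = (c ^ (a * (N.choose 2 : ℕ)) * c ^ (a * N)) * (u ^ (a * N) * u ^ a) * (x ^ N * x) := by group
      _ = _ := by rw [hc2, ← zpow_add, ← pow_succ]; congr 3; push_cast; ring

/-- membership in a normal cyclic subgroup -/
theorem exists_pow {u : G} {U : Subgroup G} [U.Normal] (hU : U = zpowers u) (g : G) : ∃ k : ℤ, g * u * g⁻¹ = u ^ k := by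
  have h1 : g * u * g⁻¹ ∈ U := (inferInstance : U.Normal).conj_mem _ (by rw [hU]; exact mem_zpowers u) g
  rw [hU] at h1
  obtain ⟨k, hk⟩ := mem_zpowers_iff.1 h1
  exact ⟨k, hk.symm⟩

theorem conj_pow_pow {u : G} {g : G} {k : ℤ} (h : g * u * g⁻¹ = u ^ k) (m : ℕ) : g ^ m * u * (g ^ m)⁻¹ = u ^ (k ^ m) := by
  induction m with
  | zero => simp
  | succ m ih =>
    calc g ^ (m + 1) * u * (g ^ (m + 1))⁻¹ = g * (g ^ m * u * (g ^ m)⁻¹) * g⁻¹ := by rw [pow_succ']; group
      _ = g * u ^ (k ^ m) * g⁻¹ := by rw [ih]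
      _ = (g * u * g⁻¹) ^ (k ^ m) := (conj_zpow (a := g) (b := u) (i := k ^ m)).symm
      _ = _ := by rw [h, ← zpow_mul]; congr 1; ring

theorem arith_odd {p : ℕ} (hp : p.Prime) (hp2 : p ≠ 2) {k : ℤ} {n : ℕ} (hn : 1 ≤ n)
    (h : ((p ^ n : ℕ) : ℤ) ∣ k ^ p - 1) : ((p ^ (n - 1) : ℕ) : ℤ) ∣ k - 1 := by
  haveI : Fact p.Prime := ⟨hp⟩
  have h1 : (p : ℤ) ∣ k ^ p - 1 := by
    refine dvd_trans ?_ h
    push_cast
    exact dvd_pow_self _ (by omega)
  have h2 : (p : ℤ) ∣ k - 1 := by
    rw [← ZMod.intCast_zmod_eq_zero_iff_dvd] at h1 ⊢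
    push_cast at h1 ⊢
    rwa [ZMod.pow_card] at h1
  have h3 : ¬ (p : ℤ) ∣ k := by
    intro h4
    have h5 : (p : ℤ) ∣ 1 := by
      have := dvd_sub h4 h2
      simpa using this
    have := Int.eq_one_of_dvd_one (by positivity) h5
    exact hp.one_lt.ne' (by exact_mod_cast this)
  have h4 := Int.emultiplicity_pow_sub_pow hp (hp.odd_of_ne_two hp2) h2 h3 p
  rw [one_pow, Nat.Prime.emultiplicity_self hp] at h4
  push_cast at h ⊢
  rw [pow_dvd_iff_le_emultiplicity, h4] at h
  rw [pow_dvd_iff_le_emultiplicity]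
  obtain ⟨m, rfl⟩ : ∃ m, n = m + 1 := ⟨n - 1, by omega⟩
  rw [Nat.cast_add, Nat.cast_one] at h
  rw [Nat.add_sub_cancel]
  exact (ENat.add_le_add_iff_right ENat.one_ne_top).1 h

theorem cop2 {w : ℤ} (hw : Odd w) (m : ℕ) : IsCoprime ((2 : ℤ) ^ m) w := by
  obtain ⟨c, rfl⟩ := hw
  exact (show IsCoprime (2 : ℤ) (2 * c + 1) from ⟨-c, 1, by ring⟩).pow_left

theorem arith_two {k : ℤ} {n : ℕ} (hn : 2 ≤ n) (h : ((2 ^ n : ℕ) : ℤ) ∣ k ^ 2 - 1)
    (h1 : ¬ ((2 ^ (n - 1) : ℕ) : ℤ) ∣ k - 1) : 3 ≤ n ∧ ((2 ^ (n - 1) : ℕ) : ℤ) ∣ k + 1 := by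
  obtain ⟨m, rfl⟩ : ∃ m, n = m + 2 := ⟨n - 2, by omega⟩
  have e1 : m + 2 - 1 = m + 1 := by omega
  rw [e1] at h1 ⊢
  push_cast at h h1 ⊢
  have hk : Odd k := by
    rcases Int.even_or_odd k with h2 | h2
    · exfalso
      have h3 : (2 : ℤ) ∣ k ^ 2 - 1 := (dvd_pow_self 2 (by omega)).trans h
      have h4 : (2 : ℤ) ∣ k ^ 2 := (even_iff_two_dvd.1 h2).trans (dvd_pow_self k (by norm_num))
      have h5 := dvd_sub h4 h3
      norm_num at h5
    · exact h2
  obtain ⟨c, rfl⟩ := hk
  have h2 : (2 : ℤ) ^ m ∣ c * (c + 1) := by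
    have h3 : (4 : ℤ) * 2 ^ m ∣ 4 * (c * (c + 1)) := by
      have e2 : (4 : ℤ) * 2 ^ m = 2 ^ (m + 2) := by ring
      have e3 : (4 : ℤ) * (c * (c + 1)) = (2 * c + 1) ^ 2 - 1 := by ring
      rw [e2, e3]; exact h
    exact (mul_dvd_mul_iff_left (by norm_num)).1 h3
  constructor
  · by_contra hlt
    have hm : m = 0 := by omega
    apply h1
    rw [hm]
    exact ⟨c, by ring⟩
  · rcases Int.even_or_odd c with h3 | h3
    · exfalso
      apply h1
      have h4 : (2 : ℤ) ^ m ∣ c := (cop2 (h3.add_one) m).dvd_of_dvd_mul_right h2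
      have e2 : (2 * c + 1 - 1 : ℤ) = c * 2 := by ring
      rw [e2, pow_succ]
      exact mul_dvd_mul_right h4 2
    · have h4 : (2 : ℤ) ^ m ∣ c + 1 := (cop2 h3 m).dvd_of_dvd_mul_left h2
      have e2 : (2 * c + 1 + 1 : ℤ) = (c + 1) * 2 := by ring
      rw [e2, pow_succ]
      exact mul_dvd_mul_right h4 2

/-- first power outside -/
theorem exists_last {p : ℕ} (hG : IsPGroup p G) (U : Subgroup G) {h : G} (hh : h ∉ U) :
    ∃ j : ℕ, h ^ p ^ j ∉ U ∧ (h ^ p ^ j) ^ p ∈ U := by
  classical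
  obtain ⟨k, hk⟩ := hG h
  have hex : ∃ m, h ^ p ^ m ∈ U := ⟨k, by rw [hk]; exact one_mem _⟩
  have h1 := Nat.find_spec hex
  have h0 : Nat.find hex ≠ 0 := by
    intro h2
    rw [h2, pow_zero, pow_one] at h1
    exact hh h1
  obtain ⟨j, hj⟩ : ∃ j, Nat.find hex = j + 1 := ⟨Nat.find hex - 1, by omega⟩
  refine ⟨j, Nat.find_min hex (by omega), ?_⟩
  rw [← pow_mul, ← pow_succ, ← hj]
  exact h1

theorem fin_DQ [Finite G] {u g : G} {n : ℕ} (hn : 1 ≤ n) (hu : orderOf u = 2 ^ n) (hg : g ∉ zpowers u)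
    (hgu : g * u * g⁻¹ = u⁻¹) (hgg : g * g ∈ zpowers u) (hcard : Nat.card G = 2 ^ (n + 1)) :
    (∃ m : ℕ, Nonempty (G ≃* DihedralGroup m)) ∨ (∃ m : ℕ, Nonempty (G ≃* QuaternionGroup m)) := by
  obtain ⟨i, hi⟩ := mem_zpowers_iff.1 hgg
  have h1 : u ^ (-i) = u ^ i := by
    have h2 : g * u ^ i * g⁻¹ = u ^ i := by rw [hi]; group
    have h3 : (g * u * g⁻¹) ^ i = g * u ^ i * g⁻¹ := conj_zpow
    rw [h2, hgu, inv_zpow'] at h3
    exact h3
  have h2 : u ^ (2 * i) = 1 := by
    have : u ^ (i - -i) = 1 := by rw [zpow_sub, h1, mul_inv_cancel]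
    rw [← this]; congr 1; ring
  have h3 : ((2 ^ n : ℕ) : ℤ) ∣ 2 * i := by rw [← hu]; exact orderOf_dvd_iff_zpow_eq_one.2 h2
  obtain ⟨m, rfl⟩ : ∃ m, n = m + 1 := ⟨n - 1, by omega⟩
  have h4 : ((2 ^ m : ℕ) : ℤ) ∣ i := by
    rw [pow_succ', Nat.cast_mul] at h3
    have h3' : (2 : ℤ) * ((2 ^ m : ℕ) : ℤ) ∣ 2 * i := by exact_mod_cast h3
    exact (mul_dvd_mul_iff_left two_ne_zero).1 h3'
  obtain ⟨c, hc⟩ := h4
  have hz : (u ^ (2 ^ m)) ^ 2 = 1 := by rw [← pow_mul, ← pow_succ, ← hu, pow_orderOf_eq_one]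
  rcases Int.even_or_odd' c with ⟨d, hd | hd⟩
  · left
    refine ⟨2 ^ (m + 1), H5.Dih.nonempty_dihedral (by positivity) u g hu ?_ hgu hg (by rw [hcard]; exact (pow_succ' 2 (m + 1)).le)⟩
    rw [← hi, hc, hd, zpow_mul, zpow_natCast, zpow_mul, zpow_ofNat, hz, one_zpow]
  · right
    refine ⟨2 ^ m, H5.Dih.nonempty_quaternion (by positivity) u g (by rw [hu, pow_succ']) ?_ hgu hg (by
      rw [hcard, pow_succ, pow_succ]; exact (by ring : 2 ^ m * 2 * 2 = 4 * 2 ^ m).le)⟩
    rw [← hi, hc, hd, zpow_mul, zpow_natCast, zpow_add, zpow_mul, zpow_ofNat, hz, one_zpow, one_mul, zpow_one]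

/-- Let G be a finite non-abelian p-group with a cyclic normal subgroup U of order p^n such that C_G(U) = U. Then either p = 2 and G is dihedral, generalized quaternion or semidihedral of order 2^(n+1); or, writing U₁ for the subgroup generated by the p-th powers of elements of U and M = C_G(U₁), the subgroup U has index p in M and the subgroup Ω₁(M) generated by the elements of M of order dividing p is elementary abelian of order p² and characteristic in G. -/
theorem result {G : Type*} [Group G] [Finite G] {p : ℕ} [Fact p.Prime] (hG : IsPGroup p G) (hna : ¬ IsMulCommutative G) (U : Subgroup G) [U.Normal] (hU : IsCyclic U) (n : ℕ) (hUn : Nat.card U = p ^ n) (hC : Subgroup.centralizer (U : Set G) = U) : (p = 2 ∧ Nat.card G = 2 ^ (n + 1) ∧ ((∃ m : ℕ, Nonempty (G ≃* DihedralGroup m)) ∨ (∃ m : ℕ, Nonempty (G ≃* QuaternionGroup m)) ∨ Cfsg.IsQuasiDihedral G)) ∨ (U.relIndex (Subgroup.centralizer (Cfsg.powerClosure p 1 U : Set G)) = p ∧ Cfsg.IsElementaryAbelian p (Cfsg.omegaOne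 p (Subgroup.centralizer (Cfsg.powerClosure p 1 U : Set G))) ∧ Nat.card ↥(Cfsg.omegaOne p (Subgroup.centralizer (Cfsg.powerClosure p 1 U : Set G))) = p ^ 2 ∧ (Cfsg.omegaOne p (Subgroup.centralizer (Cfsg.powerClosure p 1 U : Set G))).Characteristic) := by

  classical
  have hp : p.Prime := Fact.out
  obtain ⟨u0, hu0⟩ := hU.exists_generator
  set u : G := (u0 : G) with hu
  have hUz : U = zpowers u := by
    apply le_antisymm
    · intro x hx
      obtain ⟨k, hk⟩ := mem_zpowers_iff.1 (hu0 ⟨x, hx⟩)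
      exact mem_zpowers_iff.2 ⟨k, congrArg Subtype.val hk⟩
    · rw [zpowers_le]; exact u0.2
  have huo : orderOf u = p ^ n := by rw [← hUn, hUz, Nat.card_zpowers]
  have huU : u ∈ U := by rw [hUz]; exact mem_zpowers u
  have hCu : ∀ g : G, g * u = u * g → g ∈ U := by
    intro g hg
    rw [← hC, mem_centralizer_iff]
    intro x hx
    rw [hUz] at hx
    obtain ⟨k, rfl⟩ := mem_zpowers_iff.1 hx
    exact ((show Commute g u from hg).zpow_right k).eq.symm
  have hUab : ∀ a ∈ U, ∀ b ∈ U, a * b = b * a := by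
    intro a ha b hb
    rw [hUz] at ha hb
    obtain ⟨k, rfl⟩ := mem_zpowers_iff.1 ha
    obtain ⟨l, rfl⟩ := mem_zpowers_iff.1 hb
    exact ((Commute.refl u).zpow_zpow k l).eq
  have hUn' : U.Normal := inferInstance
  have hn1 : 2 ≤ n := by
    by_contra hlt
    have hn' : n = 0 ∨ n = 1 := by omega
    apply hna
    have hcen : U ≤ center G := by
      rcases hn' with h0 | h0
      · rw [h0, pow_zero, card_eq_one] at hUn
        rw [hUn]; exact bot_le
      · rw [h0, pow_one] at hUn
        exact H2.Rank2.le_center_of_card_le hG hUn' hUn.le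
    have htop : U = ⊤ := by
      rw [← hC, eq_top_iff]
      intro g _
      rw [mem_centralizer_iff]
      intro x hx
      exact (mem_center_iff.1 (hcen hx) g).symm
    refine ⟨⟨fun a b => hUab a (by rw [htop]; exact mem_top _) b (by rw [htop]; exact mem_top _)⟩⟩
  set M : Subgroup G := centralizer (powerClosure p 1 U : Set G) with hM
  have hmemM : ∀ g : G, g ∈ M ↔ g * u ^ p = u ^ p * g := by
    intro g
    rw [hM, mem_centralizer_iff]
    constructor
    · intro h
      exact (h (u ^ p) (subset_closure ⟨u, huU, by rw [pow_one]⟩)).symm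
    · intro h x hx
      have h1 : powerClosure p 1 U ≤ centralizer {g} := by
        rw [powerClosure, closure_le]
        rintro y ⟨w, hw, rfl⟩
        rw [pow_one]
        rw [hUz] at hw
        obtain ⟨k, rfl⟩ := mem_zpowers_iff.1 hw
        change (u ^ k) ^ p ∈ centralizer {g}
        rw [mem_centralizer_singleton_iff, ← zpow_natCast (u ^ k) p, ← zpow_mul, mul_comm, zpow_mul, zpow_natCast]
        exact ((show Commute (u ^ p) g from h.symm).zpow_left k).eq
      exact mem_centralizer_singleton_iff.1 (h1 hx)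
  have hUM : U ≤ M := by
    intro g hg
    rw [hmemM]
    exact hUab _ hg _ (pow_mem huU p)
  -- the socle of U
  set ω := u ^ (p ^ (n - 1)) with hω
  have hωU : ω ∈ U := pow_mem huU _
  have hωp : ω ^ p = 1 := by
    rw [hω, ← pow_mul, ← pow_succ, Nat.sub_add_cancel (by omega), ← huo, pow_orderOf_eq_one]
  have hω1 : ω ≠ 1 := by
    intro h
    have h1 := orderOf_dvd_of_pow_eq_one h
    rw [huo] at h1
    have := (Nat.pow_dvd_pow_iff_le_right hp.one_lt).1 h1
    omega
  have hωo : orderOf ω = p := orderOf_eq_prime hωp hω1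
  have hΩ : ∀ k : ℤ, u ^ ((p : ℤ) * k) = 1 → u ^ k ∈ zpowers ω := by
    intro k hk
    have h1 : ((p ^ n : ℕ) : ℤ) ∣ p * k := by rw [← huo]; exact orderOf_dvd_iff_zpow_eq_one.2 hk
    obtain ⟨m, hm⟩ : ∃ m, n = m + 1 := ⟨n - 1, by omega⟩
    rw [hm, pow_succ', Nat.cast_mul] at h1
    obtain ⟨c, hc⟩ := Int.dvd_of_mul_dvd_mul_left (by exact_mod_cast hp.ne_zero) h1
    rw [hc, zpow_mul, zpow_natCast]
    have : m = n - 1 := by omega
    rw [this]
    exact zpow_mem (mem_zpowers _) c
  have hΩ' : ∀ x ∈ U, x ^ p = 1 → x ∈ zpowers ω := by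
    intro x hx hxp
    rw [hUz] at hx
    obtain ⟨k, rfl⟩ := mem_zpowers_iff.1 hx
    apply hΩ
    rw [← hxp, ← zpow_natCast, ← zpow_mul, mul_comm]
  have hωM : ∀ g ∈ M, Commute g ω := by
    intro g hg
    have h1 : ω = (u ^ p) ^ (p ^ (n - 2)) := by
      rw [hω, ← pow_mul]; congr 1
      rw [← pow_succ']; congr 1; omega
    rw [h1]
    exact (show Commute g (u ^ p) from (hmemM g).1 hg).pow_right _
  have hωM' : ∀ g ∈ M, ∀ y ∈ zpowers ω, Commute g y := by
    intro g hg y hy
    obtain ⟨k, rfl⟩ := mem_zpowers_iff.1 hy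
    exact (hωM g hg).zpow_right k
  -- commutators with u
  have hδU : ∀ g : G, g * u * g⁻¹ * u⁻¹ ∈ U := fun g => mul_mem (hUn'.conj_mem _ huU g) (inv_mem huU)
  have hδp : ∀ g : G, (g * u * g⁻¹ * u⁻¹) ^ p = g * u ^ p * g⁻¹ * (u ^ p)⁻¹ := by
    intro g
    rw [(show Commute (g * u * g⁻¹) u⁻¹ from hUab _ (hUn'.conj_mem _ huU g) _ (inv_mem huU)).mul_pow, conj_pow, inv_pow]
  have hδM : ∀ g : G, g ∈ M ↔ (g * u * g⁻¹ * u⁻¹) ^ p = 1 := by
    intro g
    rw [hδp, hmemM, mul_inv_eq_one, mul_inv_eq_iff_eq_mul]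
  have hδω : ∀ g ∈ M, g * u * g⁻¹ * u⁻¹ ∈ zpowers ω := fun g hg => hΩ' _ (hδU g) ((hδM g).1 hg)
  have hMn : M.Normal := by
    refine ⟨fun m hm g => ?_⟩
    rw [hmemM]
    have h1 : g⁻¹ * u ^ p * g ∈ zpowers (u ^ p) := by
      obtain ⟨k, hk⟩ := exists_pow hUz g⁻¹
      rw [inv_inv] at hk
      have h2 : g⁻¹ * u ^ p * g = (g⁻¹ * u * g) ^ p := by
        have := conj_pow (a := g⁻¹) (b := u) (i := p)
        rw [inv_inv] at this; exact this.symm
      rw [h2, hk, ← zpow_natCast (u ^ k) p, ← zpow_mul, mul_comm, zpow_mul, zpow_natCast]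
      exact zpow_mem (mem_zpowers _) k
    obtain ⟨l, hl⟩ := mem_zpowers_iff.1 h1
    have h3 : Commute m (g⁻¹ * u ^ p * g) := by
      rw [← hl]; exact (show Commute m (u ^ p) from (hmemM m).1 hm).zpow_right l
    calc g * m * g⁻¹ * u ^ p = g * (m * (g⁻¹ * u ^ p * g)) * g⁻¹ := by group
      _ = g * ((g⁻¹ * u ^ p * g) * m) * g⁻¹ := by rw [h3.eq]
      _ = _ := by group
  -- relative index
  let φ : M →* zpowers ω :=
    { toFun := fun g => ⟨(g : G) * u * (g : G)⁻¹ * u⁻¹, hδω g g.2⟩
      map_one' := by apply Subtype.ext; simp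
      map_mul' := by
        intro a b
        apply Subtype.ext
        change (a : G) * b * u * ((a : G) * b)⁻¹ * u⁻¹ = ((a : G) * u * (a : G)⁻¹ * u⁻¹) * ((b : G) * u * (b : G)⁻¹ * u⁻¹)
        have h1 := hωM' _ a.2 _ (hδω b b.2)
        have h2 := hUab _ (hδU a) _ (hδU b)
        rw [h2]
        calc (a : G) * b * u * ((a : G) * b)⁻¹ * u⁻¹ = (a * ((b : G) * u * (b : G)⁻¹ * u⁻¹)) * u * (a : G)⁻¹ * u⁻¹ := by group
          _ = (((b : G) * u * (b : G)⁻¹ * u⁻¹) * a) * u * (a : G)⁻¹ * u⁻¹ := by rw [h1.eq]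
          _ = _ := by group }
  have hφk : φ.ker = U.subgroupOf M := by
    ext g
    rw [MonoidHom.mem_ker, mem_subgroupOf]
    constructor
    · intro h
      have h1 : (g : G) * u * (g : G)⁻¹ * u⁻¹ = 1 := congrArg Subtype.val h
      apply hCu
      rw [mul_inv_eq_one, mul_inv_eq_iff_eq_mul] at h1
      exact h1
    · intro h
      apply Subtype.ext
      change (g : G) * u * (g : G)⁻¹ * u⁻¹ = 1
      rw [mul_inv_eq_one, mul_inv_eq_iff_eq_mul]
      exact hUab _ h _ huU
  have hrel : U.relIndex M ∣ p := by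
    rw [relIndex, ← hφk, index_ker]
    have := card_subgroup_dvd_card φ.range
    rwa [Nat.card_zpowers, hωo] at this
  have hindex2 : ∀ g : G, g ∉ U → (∀ h, h ∉ U → g⁻¹ * h ∈ U) → U.index = 2 := by
    intro g hg hh
    rw [index_eq_two_iff]
    refine ⟨g, fun b => ?_⟩
    by_cases hb : b ∈ U
    · right
      exact ⟨hb, fun h => hg ((U.mul_mem_cancel_left hb).1 h)⟩
    · left
      refine ⟨?_, hb⟩
      have h1 := hh b⁻¹ (fun h => hb (inv_mem_iff.1 h))
      rw [← mul_inv_rev] at h1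
      exact inv_mem_iff.1 h1
  have hcard2 : U.index = 2 → p = 2 → Nat.card G = 2 ^ (n + 1) := by
    intro h h2
    rw [← U.card_mul_index, h, hUn, h2, pow_succ]
  rcases (Nat.dvd_prime hp).1 hrel with h1 | h1
  · -- M = U
    left
    have hMU : M = U := le_antisymm (relIndex_eq_one.1 h1) hUM
    obtain ⟨h0, hh0⟩ : ∃ h, h ∉ U := by
      by_contra hcon
      push Not at hcon
      apply hna
      exact ⟨⟨fun a b => hUab a (hcon a) b (hcon b)⟩⟩
    have key : ∀ g, g ∉ U → g ^ p ∈ U → ∀ k : ℤ, g * u * g⁻¹ = u ^ k →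
        p = 2 ∧ 3 ≤ n ∧ ((2 ^ (n - 1) : ℕ) : ℤ) ∣ k + 1 := by
      intro g hg hgp k hk
      have e1 : u ^ (k ^ p) = u := by
        rw [← conj_pow_pow hk p, hUab _ hgp _ huU]; group
      have e2 : ((p ^ n : ℕ) : ℤ) ∣ k ^ p - 1 := by
        rw [← huo]; apply orderOf_dvd_iff_zpow_eq_one.2
        rw [zpow_sub, e1, zpow_one, mul_inv_cancel]
      have e3 : ¬ ((p ^ (n - 1) : ℕ) : ℤ) ∣ k - 1 := by
        intro h
        apply hg
        rw [← hMU, hδM]
        obtain ⟨c, hc⟩ := h
        have e4 : g * u * g⁻¹ * u⁻¹ = u ^ (k - 1) := by rw [hk, zpow_sub, zpow_one]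
        rw [e4, ← zpow_natCast (u ^ (k - 1)) p, ← zpow_mul, hc]
        have e5 : (((p ^ (n - 1) : ℕ) : ℤ) * c * (p : ℤ)) = ((p ^ n : ℕ) : ℤ) * c := by
          have : p ^ n = p ^ (n - 1) * p := by rw [← pow_succ]; congr 1; omega
          rw [this]; push_cast; ring
        rw [e5, zpow_mul, zpow_natCast, ← huo, pow_orderOf_eq_one, one_zpow]
      have hp2 : p = 2 := by
        by_contra hne
        exact e3 (arith_odd hp hne (by omega) e2)
      subst hp2
      obtain ⟨e6, e7⟩ := arith_two hn1 e2 e3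
      exact ⟨rfl, e6, e7⟩
    obtain ⟨j, hj1, hj2⟩ := exists_last hG U hh0
    set g := h0 ^ p ^ j with hg
    obtain ⟨k, hk⟩ := exists_pow hUz g
    obtain ⟨hp2, hn3, hk1⟩ := key g hj1 hj2 k hk
    subst hp2
    have hconj2 : ∀ x : G, ∀ l : ℤ, x * u * x⁻¹ = u ^ l → ((2 ^ (n - 1) : ℕ) : ℤ) ∣ l + 1 → x * u ^ 2 * x⁻¹ = (u ^ 2)⁻¹ := by
      intro x l hx hl
      obtain ⟨c, hc⟩ := hl
      rw [← conj_pow, hx, eq_inv_iff_mul_eq_one, ← zpow_natCast (u ^ l) 2, ← zpow_mul, ← zpow_natCast u 2, ← zpow_add]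
      have e5 : l * ((2 : ℕ) : ℤ) + ((2 : ℕ) : ℤ) = ((2 ^ n : ℕ) : ℤ) * c := by
        have : 2 ^ n = 2 ^ (n - 1) * 2 := by rw [← pow_succ]; congr 1; omega
        rw [this]; push_cast at hc ⊢; linear_combination 2 * hc
      rw [e5, zpow_mul, zpow_natCast, ← huo, pow_orderOf_eq_one, one_zpow]
    have hsqu : ∀ h, h ∉ U → g⁻¹ * h ∈ U := by
      intro h hh
      obtain ⟨i, hi1, hi2⟩ := exists_last hG U hh
      obtain ⟨l, hl⟩ := exists_pow hUz (h ^ 2 ^ i)
      obtain ⟨-, -, hl1⟩ := key _ hi1 hi2 l hl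
      have hi0 : i = 0 := by
        by_contra hne
        obtain ⟨i', rfl⟩ : ∃ i', i = i' + 1 := ⟨i - 1, by omega⟩
        obtain ⟨m, hm⟩ := exists_pow hUz (h ^ 2 ^ i')
        have e1 := conj_pow_pow hm 2
        rw [← pow_mul, ← pow_succ, hl] at e1
        have e2 : ((2 ^ n : ℕ) : ℤ) ∣ l - m ^ 2 := by
          rw [← huo]; apply orderOf_dvd_iff_zpow_eq_one.2
          rw [zpow_sub, e1, mul_inv_cancel]
        have e3 : (4 : ℤ) ∣ l - m ^ 2 := by
          refine dvd_trans ?_ e2
          have : (4 : ℤ) = ((2 ^ 2 : ℕ) : ℤ) := by norm_num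
          rw [this]; exact_mod_cast pow_dvd_pow 2 hn1
        have e4 : (4 : ℤ) ∣ l + 1 := by
          refine dvd_trans ?_ hl1
          have : (4 : ℤ) = ((2 ^ 2 : ℕ) : ℤ) := by norm_num
          rw [this]; exact_mod_cast pow_dvd_pow 2 (by omega : 2 ≤ n - 1)
        have e5 : (4 : ℤ) ∣ m ^ 2 + 1 := by
          have := dvd_sub e4 e3
          have e6 : l + 1 - (l - m ^ 2) = m ^ 2 + 1 := by ring
          rwa [e6] at this
        rcases Int.even_or_odd' m with ⟨d, hd | hd⟩
        · rw [hd] at e5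
          have e6 : (2 * d) ^ 2 + 1 = 4 * (d ^ 2) + 1 := by ring
          rw [e6] at e5; omega
        · rw [hd] at e5
          have e6 : (2 * d + 1) ^ 2 + 1 = 4 * (d ^ 2 + d) + 2 := by ring
          rw [e6] at e5; omega
      rw [hi0, pow_zero, pow_one] at hl
      rw [← hMU, hmemM]
      have e1 := hconj2 h l hl hl1
      have e2 := hconj2 g k hk hk1
      have e3 : g⁻¹ * (u ^ 2)⁻¹ * g = u ^ 2 := by rw [← e2]; group
      have e4 : g⁻¹ * h * u ^ 2 * (g⁻¹ * h)⁻¹ = u ^ 2 := by
        calc g⁻¹ * h * u ^ 2 * (g⁻¹ * h)⁻¹ = g⁻¹ * (h * u ^ 2 * h⁻¹) * g := by group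
          _ = u ^ 2 := by rw [e1, e3]
      rw [mul_inv_eq_iff_eq_mul] at e4
      exact e4
    have hidx := hindex2 g hj1 hsqu
    have hcG := hcard2 hidx rfl
    refine ⟨rfl, hcG, ?_⟩
    have hgz : g ∉ zpowers u := by rw [← hUz]; exact hj1
    have hgg : g * g ∈ zpowers u := by rw [← hUz, ← pow_two]; exact hj2
    obtain ⟨c, hc⟩ := hk1
    have hku : u ^ k = ω ^ c * u⁻¹ := by
      have : k = ((2 ^ (n - 1) : ℕ) : ℤ) * c - 1 := by linear_combination hc
      rw [this, zpow_sub, zpow_mul, zpow_natCast, zpow_one]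
    rcases Int.even_or_odd' c with ⟨d, hd | hd⟩
    · rw [hd, zpow_mul, zpow_ofNat, hωp, one_zpow, one_mul] at hku
      rcases fin_DQ (by omega) huo hgz (hk.trans hku) hgg hcG with h | h
      · exact Or.inl h
      · exact Or.inr (Or.inl h)
    · right; right
      have hku' : u ^ k = ω * u⁻¹ := by
        rw [hku, hd, zpow_add, zpow_mul, zpow_ofNat, hωp, one_zpow, one_mul, zpow_one]
      obtain ⟨i, hi⟩ := mem_zpowers_iff.1 hgg
      have hi1 : ((2 ^ (n - 1) : ℕ) : ℤ) ∣ i := by
        have e1 : (g * u * g⁻¹) ^ i = u ^ i := by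
          rw [conj_zpow, hi]; group
        rw [hk, ← zpow_mul] at e1
        have e2 : ((2 ^ n : ℕ) : ℤ) ∣ k * i - i := by
          rw [← huo]; apply orderOf_dvd_iff_zpow_eq_one.2
          rw [zpow_sub, e1, mul_inv_cancel]
        obtain ⟨m, rfl⟩ : ∃ m, n = m + 3 := ⟨n - 3, by omega⟩
        have e3 : m + 3 - 1 = m + 2 := by omega
        rw [e3] at hc ⊢
        push_cast at hc e2 ⊢
        have e4 : (2 : ℤ) * 2 ^ (m + 2) ∣ 2 * (i * (2 ^ (m + 1) * c - 1)) := by
          have e5 : (2 : ℤ) * 2 ^ (m + 2) = 2 ^ (m + 3) := by ring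
          have e6 : 2 * (i * (2 ^ (m + 1) * c - 1)) = k * i - i := by linear_combination (-i) * hc
          rw [e5, e6]; exact e2
        have e7 := (mul_dvd_mul_iff_left two_ne_zero).1 e4
        exact (cop2 ⟨2 ^ m * c - 1, by ring⟩ (m + 2)).dvd_of_dvd_mul_right e7
      obtain ⟨i', hi'⟩ := hi1
      have hggω : g * g = ω ^ i' := by rw [← hi, hi', zpow_mul, zpow_natCast]
      have hgu : g * u * g⁻¹ = u ^ (2 ^ (n - 1) - 1) := by
        rw [hk, hku', hω]
        have : u ^ (2 ^ (n - 1) - 1) * u = u ^ (2 ^ (n - 1)) := by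
          rw [← pow_succ, Nat.sub_add_cancel (Nat.one_le_two_pow)]
        rw [← this]; group
      rcases Int.even_or_odd' i' with ⟨d', hd' | hd'⟩
      · refine ⟨n, hn3, hcG, u, g, huo, ?_, hgu⟩
        apply orderOf_eq_prime
        · rw [pow_two, hggω, hd', zpow_mul, zpow_ofNat, hωp, one_zpow]
        · rintro h; rw [h] at hj1; exact hj1 (one_mem _)
      · refine ⟨n, hn3, hcG, u, g * u, huo, ?_, ?_⟩
        · apply orderOf_eq_prime
          · have e1 : g * g = ω := by
              rw [hggω, hd', zpow_add, zpow_mul, zpow_ofNat, hωp, one_zpow, one_mul, zpow_one]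
            have e2 : ω * ω = 1 := by rw [← pow_two]; exact hωp
            calc (g * u) ^ 2 = (g * u * g⁻¹) * (g * g) * u := by rw [pow_two]; group
              _ = ω * u⁻¹ * ω * u := by rw [e1, hk, hku']
              _ = ω * (u⁻¹ * ω) * u := by group
              _ = ω * (ω * u⁻¹) * u := by rw [hUab u⁻¹ (inv_mem huU) ω hωU]
              _ = ω * ω := by group
              _ = 1 := e2
          · intro h
            apply hj1
            have : g = (g * u) * u⁻¹ := by group
            rw [this, h, one_mul]; exact inv_mem huU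
        · rw [← hgu]; group
  · by_cases hp2 : p = 2 ∧ n = 2
    · left
      obtain ⟨hp2, hn2⟩ := hp2
      subst hp2
      subst hn2
      have hclaim : ∀ h, h ∉ U → h * u * h⁻¹ = u⁻¹ := by
        intro h hh
        obtain ⟨k, hk⟩ := exists_pow hUz h
        have hu4 : u ^ 4 = 1 := by
          have := pow_orderOf_eq_one u
          rwa [huo] at this
        have hred : u ^ k = u ^ (k % 4) := by
          conv_lhs => rw [← Int.mul_ediv_add_emod k 4, zpow_add, zpow_mul, zpow_ofNat, hu4, one_zpow, one_mul]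
        have h4 : k % 4 = 0 ∨ k % 4 = 1 ∨ k % 4 = 2 ∨ k % 4 = 3 := by omega
        have hordk : orderOf (u ^ (k % 4)) = 4 := by
          rw [← hred, ← hk, H24.Tools.orderOf_conj, huo]; norm_num
        rcases h4 with h5 | h5 | h5 | h5
        · rw [h5, zpow_zero, orderOf_one] at hordk
          exact absurd hordk (by norm_num)
        · exfalso; apply hh; apply hCu
          rw [hred, h5, zpow_one, mul_inv_eq_iff_eq_mul] at hk
          exact hk
        · exfalso
          rw [h5] at hordk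
          have : (u ^ (2 : ℤ)) ^ 2 = 1 := by rw [zpow_ofNat, ← pow_mul]; exact hu4
          have := Nat.le_of_dvd (by norm_num) (orderOf_dvd_of_pow_eq_one this)
          omega
        · rw [hk, hred, h5, eq_inv_iff_mul_eq_one, zpow_ofNat, ← pow_succ]; exact hu4
      obtain ⟨g, hgM, hgU⟩ : ∃ g ∈ M, g ∉ U := by
        by_contra hcon
        push Not at hcon
        have : U.relIndex M = 1 := relIndex_eq_one.2 hcon
        omega
      have hsqu : ∀ h, h ∉ U → g⁻¹ * h ∈ U := by
        intro h hh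
        apply hCu
        have e1 := hclaim g hgU
        have e2 := hclaim h hh
        have e3 : g⁻¹ * u⁻¹ * g = u := by rw [← e1]; group
        have e4 : g⁻¹ * h * u * (g⁻¹ * h)⁻¹ = u := by
          calc g⁻¹ * h * u * (g⁻¹ * h)⁻¹ = g⁻¹ * (h * u * h⁻¹) * g := by group
            _ = u := by rw [e2, e3]
        rw [mul_inv_eq_iff_eq_mul] at e4
        exact e4
      have hidx := hindex2 g hgU hsqu
      have hcG := hcard2 hidx rfl
      refine ⟨rfl, hcG, ?_⟩
      have hgg : g * g ∈ zpowers u := by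
        rw [← hUz]
        apply hCu
        have e1 := hclaim g hgU
        have e2 : g * u⁻¹ * g⁻¹ = u := by
          calc g * u⁻¹ * g⁻¹ = (g * u * g⁻¹)⁻¹ := by group
            _ = u := by rw [e1, inv_inv]
        calc g * g * u = g * (g * u * g⁻¹) * g := by group
          _ = g * u⁻¹ * g := by rw [e1]
          _ = (g * u⁻¹ * g⁻¹) * (g * g) := by group
          _ = u * (g * g) := by rw [e2]
      rcases fin_DQ (by omega) huo (by rw [← hUz]; exact hgU) (hclaim g hgU) hgg hcG with h | h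
      · exact Or.inl h
      · exact Or.inr (Or.inl h)
    · right
      obtain ⟨x, hxM, hxU⟩ : ∃ x ∈ M, x ∉ U := by
        by_contra hcon
        push Not at hcon
        have : U.relIndex M = 1 := relIndex_eq_one.2 hcon
        rw [h1] at this
        exact hp.one_lt.ne' this
      set δ := x * u * x⁻¹ * u⁻¹ with hδ
      have hδ1 : δ ∈ zpowers ω := hδω x hxM
      have hδne : δ ≠ 1 := by
        intro h
        apply hxU
        apply hCu
        rw [hδ, mul_inv_eq_one, mul_inv_eq_iff_eq_mul] at h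
        exact h
      have hδpp : δ ^ p = 1 := (hδM x).1 hxM
      have hδo : orderOf δ = p := orderOf_eq_prime hδpp hδne
      have hδz : zpowers δ = zpowers ω :=
        Subgroup.eq_of_le_of_card_ge (zpowers_le.2 hδ1) (by rw [Nat.card_zpowers, Nat.card_zpowers, hδo, hωo])
      have hcu : Commute δ u := hUab _ (hδU x) _ huU
      have hcx : Commute δ x := (hωM' x hxM δ hδ1).symm
      have hxu : x * u = δ * u * x := by rw [hδ]; group
      have hxp : x ^ p ∈ U := by
        apply hCu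
        have := pow_comm_zpow hxu hcx hcu 1 p
        rw [zpow_one, one_mul, zpow_natCast, hδpp, one_mul] at this
        exact this
      rw [hUz] at hxp
      obtain ⟨i, hi⟩ := mem_zpowers_iff.1 hxp
      have hpi : (p : ℤ) ∣ i := by
        have e1 := comm_zpow hxu hcx hcu i
        rw [hi] at e1
        rw [← hδo]
        apply orderOf_dvd_iff_zpow_eq_one.2
        have e2 : x * x ^ p = x ^ p * x := by rw [← pow_succ, ← pow_succ']
        rw [e2, mul_assoc] at e1
        exact (mul_eq_right.1 e1.symm)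
      obtain ⟨i', hi'⟩ := hpi
      have hn3 : p = 2 → 3 ≤ n := by
        intro h2
        by_contra hlt
        exact hp2 ⟨h2, by omega⟩
      have hω2 : p = 2 → δ = ω := by
        intro h2
        obtain ⟨m, hm⟩ := mem_zpowers_iff.1 hδ1
        rw [h2] at hωp
        rcases Int.even_or_odd' m with ⟨d, hd | hd⟩
        · exfalso
          apply hδne
          rw [← hm, hd, zpow_mul, zpow_ofNat, hωp, one_zpow]
        · rw [← hm, hd, zpow_add, zpow_mul, zpow_ofNat, hωp, one_zpow, one_mul, zpow_one]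
      obtain ⟨a, ha⟩ : ∃ a : ℤ, (u ^ a * x) ^ p = 1 := by
        rcases eq_or_ne p 2 with h2 | h2
        · have hn3' := hn3 h2
          have hω2' := hω2 h2
          have hδ2 : δ ^ 2 = 1 := by rw [← h2]; exact hδpp
          have hform : ∀ a : ℤ, (u ^ a * x) ^ p = δ ^ a * u ^ (2 * (a + i')) := by
            intro a
            rw [pow_formula hxu hcx hcu, ← hi, hi', h2, Nat.choose_self, Nat.cast_one, mul_one, mul_assoc, ← zpow_add]
            congr 2; push_cast; ring
          rcases Int.even_or_odd' i' with ⟨d, hd | hd⟩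
          · refine ⟨-i', ?_⟩
            rw [hform, neg_add_cancel, mul_zero, zpow_zero, mul_one, hd]
            have : (-(2 * d) : ℤ) = 2 * (-d) := by ring
            rw [this, zpow_mul, zpow_ofNat, hδ2, one_zpow]
          · obtain ⟨m, hm⟩ : ∃ m, n = m + 3 := ⟨n - 3, by omega⟩
            refine ⟨-i' + 2 ^ (m + 1), ?_⟩
            rw [hform]
            have e1 : (-i' + 2 ^ (m + 1) : ℤ) = 2 * (-d - 1 + 2 ^ m) + 1 := by rw [hd]; ring
            have e2 : δ ^ (-i' + 2 ^ (m + 1) : ℤ) = δ := by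
              rw [e1, zpow_add, zpow_mul, zpow_ofNat, hδ2, one_zpow, one_mul, zpow_one]
            have e3 : (2 * (-i' + 2 ^ (m + 1) + i') : ℤ) = ((2 ^ (m + 2) : ℕ) : ℤ) := by push_cast; ring
            rw [e2, e3, zpow_natCast]
            have e4 : u ^ 2 ^ (m + 2) = ω := by
              rw [hω, h2]; congr 2; omega
            rw [e4, ← hω2', ← pow_two]; exact hδ2
        · refine ⟨-i', ?_⟩
          rw [pow_formula hxu hcx hcu, ← hi, hi']
          obtain ⟨w, hw⟩ := hp.dvd_choose_self (k := 2) (by norm_num) (by have := hp.two_le; omega)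
          have e1 : δ ^ (-i' * (p.choose 2 : ℕ) : ℤ) = 1 := by
            rw [hw]
            have : (-i' * ((p * w : ℕ) : ℤ)) = (p : ℤ) * (-i' * w) := by push_cast; ring
            rw [this, zpow_mul, zpow_natCast, hδpp, one_zpow]
          rw [e1, one_mul, ← zpow_add]
          have : (-i' * (p : ℤ) + p * i') = 0 := by ring
          rw [this, zpow_zero]
      set t := u ^ a * x with ht
      have huaU : u ^ a ∈ U := zpow_mem huU a
      have htM : t ∈ M := mul_mem (hUM huaU) hxM
      have htU : t ∉ U := fun h => hxU ((U.mul_mem_cancel_left huaU).1 h)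
      have ht1 : t ≠ 1 := fun h => htU (by rw [h]; exact one_mem _)
      have hto : orderOf t = p := orderOf_eq_prime ha ht1
      have hct : Commute δ t := (hωM' t htM δ hδ1).symm
      have htu : t * u = δ * u * t := by
        calc t * u = u ^ a * (x * u) := by rw [ht]; group
          _ = u ^ a * (δ * u) * x := by rw [hxu]; group
          _ = (δ * u) * u ^ a * x := by rw [hUab (u ^ a) huaU (δ * u) (mul_mem (hδU x) huU)]
          _ = _ := by rw [ht]; group
      have helt : ∀ y ∈ M, y ^ p = 1 → ∃ b c : ℤ, y = ω ^ b * t ^ c := by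
        intro y hy hyp
        have e1 : y * u * y⁻¹ * u⁻¹ ∈ zpowers δ := by rw [hδz]; exact hδω y hy
        obtain ⟨c, hc⟩ := mem_powers_iff_mem_zpowers.2 e1
        have hc' : δ ^ c = y * u * y⁻¹ * u⁻¹ := hc
        have e2 : t ^ c * u = δ ^ c * u * t ^ c := by
          have := pow_comm_zpow htu hct hcu 1 c
          rwa [zpow_one, one_mul, zpow_natCast] at this
        have e3 : y * u = δ ^ c * u * y := by rw [hc']; group
        have hcy : Commute (δ ^ c) y := by
          exact ((hωM' y hy δ hδ1).symm).pow_left c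
        have hctc : Commute (δ ^ c) (t ^ c) := hct.pow_pow c c
        have e4 : y * (t ^ c)⁻¹ ∈ U := by
          apply hCu
          have e5 : (t ^ c)⁻¹ * u = (δ ^ c)⁻¹ * u * (t ^ c)⁻¹ := by
            rw [eq_mul_inv_iff_mul_eq, mul_assoc, inv_mul_eq_iff_eq_mul]
            have e6 : t ^ c * ((δ ^ c)⁻¹ * u) = (δ ^ c)⁻¹ * (t ^ c * u) := by
              rw [← mul_assoc, ← (hctc.inv_left).eq]; group
            rw [e6, e2]; group
          calc y * (t ^ c)⁻¹ * u = y * ((t ^ c)⁻¹ * u) := by group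
            _ = (y * (δ ^ c)⁻¹) * u * (t ^ c)⁻¹ := by rw [e5]; group
            _ = (δ ^ c)⁻¹ * (y * u) * (t ^ c)⁻¹ := by rw [← (hcy.inv_left).eq]; group
            _ = u * (y * (t ^ c)⁻¹) := by rw [e3]; group
        rw [hUz] at e4
        obtain ⟨b, hb⟩ := mem_zpowers_iff.1 e4
        have hyb : y = u ^ b * t ^ c := by rw [hb]; group
        have htc : (t ^ c) ^ p = 1 := by rw [← pow_mul, mul_comm, pow_mul, ha, one_pow]
        have e7 := pow_formula e2 hctc (hcu.pow_left c) b p
        rw [← hyb, hyp, htc, mul_one] at e7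
        have e8 : u ^ ((p : ℤ) * b) = 1 := by
          rcases eq_or_ne p 2 with h2 | h2
          · have hn3' := hn3 h2
            have hδ2 : δ ^ 2 = 1 := by rw [← h2]; exact hδpp
            rw [h2, Nat.choose_self, Nat.cast_one, mul_one] at e7
            have e9 : (δ ^ c) ^ b = 1 → u ^ ((p : ℤ) * b) = 1 := by
              intro h
              rw [h, one_mul] at e7
              rw [h2, mul_comm]; exact e7.symm
            rcases Nat.even_or_odd' c with ⟨d, hd | hd⟩
            · apply e9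
              rw [hd, pow_mul, hδ2, one_pow, one_zpow]
            · rcases Int.even_or_odd' b with ⟨b', hb' | hb'⟩
              · apply e9
                rw [hb', zpow_mul, zpow_ofNat, ← pow_mul, mul_comm c 2, pow_mul, hδ2, one_pow, one_zpow]
              · exfalso
                have e10 : (δ ^ c) ^ b = δ := by
                  rw [hd, pow_succ, pow_mul, hδ2, one_pow, one_mul, hb', zpow_add, zpow_mul, zpow_ofNat, hδ2, one_zpow,
                    one_mul, zpow_one]
                rw [e10] at e7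
                have e11 : u ^ (b * ((2 : ℕ) : ℤ)) = δ := by
                  have : u ^ (b * ((2 : ℕ) : ℤ)) = δ⁻¹ := eq_inv_of_mul_eq_one_right e7.symm
                  rw [this, inv_eq_iff_mul_eq_one, ← pow_two]; exact hδ2
                have e12 : u ^ (b * 4) = 1 := by
                  have : (b * 4 : ℤ) = b * ((2 : ℕ) : ℤ) * ((2 : ℕ) : ℤ) := by push_cast; ring
                  rw [this, zpow_mul, e11, zpow_natCast]; exact hδ2
                have e13 := orderOf_dvd_iff_zpow_eq_one.2 e12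
                rw [huo, h2] at e13
                have e14 : (8 : ℤ) ∣ b * 4 := by
                  refine dvd_trans ?_ e13
                  have : (8 : ℤ) = ((2 ^ 3 : ℕ) : ℤ) := by norm_num
                  rw [this]; exact_mod_cast pow_dvd_pow 2 hn3'
                rw [hb'] at e14
                omega
          · obtain ⟨w, hw⟩ := hp.dvd_choose_self (k := 2) (by norm_num) (by have := hp.two_le; omega)
            have e9 : (δ ^ c) ^ (b * (p.choose 2 : ℕ) : ℤ) = 1 := by
              rw [hw, ← zpow_natCast δ c, ← zpow_mul]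
              have : ((c : ℤ) * (b * ((p * w : ℕ) : ℤ))) = (p : ℤ) * (c * b * w) := by push_cast; ring
              rw [this, zpow_mul, zpow_natCast, hδpp, one_zpow]
            rw [e9, one_mul] at e7
            rw [mul_comm]; exact e7.symm
        obtain ⟨b', hb'⟩ := mem_zpowers_iff.1 (hΩ b e8)
        exact ⟨b', c, by rw [hb', zpow_natCast]; exact hyb⟩
      set E := omegaOne p M with hE
      have hEle : ∀ y ∈ M, y ^ p = 1 → y ∈ E := fun y hy hyp => subset_closure ⟨hy, hyp⟩
      have hnor : zpowers ω ≤ normalizer (zpowers t : Set G) := by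
        rw [zpowers_le]
        apply centralizer_le_normalizer
        rw [mem_centralizer_iff]
        intro y hy
        obtain ⟨c, rfl⟩ := mem_zpowers_iff.1 hy
        exact ((hωM t htM).zpow_left c).eq
      have hE0 : E = zpowers ω ⊔ zpowers t := by
        apply le_antisymm
        · rw [hE, omegaOne, closure_le]
          rintro y ⟨hy, hyp⟩
          obtain ⟨b, c, rfl⟩ := helt y hy hyp
          exact mul_mem_sup (zpow_mem (mem_zpowers ω) b) (zpow_mem (mem_zpowers t) c)
        · apply sup_le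
          · rw [zpowers_le]; exact hEle ω (hUM hωU) hωp
          · rw [zpowers_le]; exact hEle t htM ha
      have hEel : ∀ y ∈ E, ∃ b c : ℤ, y = ω ^ b * t ^ c := by
        intro y hy
        rw [hE0] at hy
        obtain ⟨y1, hy1, y2, hy2, rfl⟩ := (H2.Card.mem_sup_iff hnor).1 hy
        obtain ⟨b, rfl⟩ := mem_zpowers_iff.1 hy1
        obtain ⟨c, rfl⟩ := mem_zpowers_iff.1 hy2
        exact ⟨b, c, rfl⟩
      have hωt : Commute ω t := (hωM t htM).symm
      have hEp : ∀ y ∈ E, y ^ p = 1 := by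
        intro y hy
        obtain ⟨b, c, rfl⟩ := hEel y hy
        rw [(hωt.zpow_zpow b c).mul_pow, ← zpow_natCast (ω ^ b) p, ← zpow_mul, mul_comm b, zpow_mul, zpow_natCast, hωp, one_zpow,
          ← zpow_natCast (t ^ c) p, ← zpow_mul, mul_comm c, zpow_mul, zpow_natCast, ha, one_zpow, one_mul]
      have hEM : E ≤ M := by
        rw [hE, omegaOne, closure_le]
        rintro y ⟨hy, -⟩; exact hy
      have hEn : E.Normal := by
        refine ⟨fun y hy g => ?_⟩
        apply hEle _ (hMn.conj_mem _ (hEM hy) g)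
        rw [conj_pow, hEp y hy]; group
      refine ⟨h1, ⟨⟨⟨?_⟩⟩, hEp⟩, ?_, ?_⟩
      · intro y1 y2
        apply Subtype.ext
        change (y1 : G) * y2 = y2 * y1
        obtain ⟨b, c, hy1⟩ := hEel y1 y1.2
        obtain ⟨b', c', hy2⟩ := hEel y2 y2.2
        rw [hy1, hy2]
        have h3 : Commute (ω ^ b * t ^ c) (ω ^ b' * t ^ c') := by
          apply Commute.mul_left
          · exact ((Commute.refl ω).zpow_zpow b b').mul_right (hωt.zpow_zpow b c')
          · exact (hωt.symm.zpow_zpow c b').mul_right ((Commute.refl t).zpow_zpow c c')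
        exact h3.eq
      · have h3 := H2.Card.card_sup_mul_card_inf hnor
        have h4 : zpowers ω ⊓ zpowers t = ⊥ := by
          rw [eq_bot_iff]
          intro y hy
          rw [mem_bot]
          by_contra hy1
          apply htU
          have hyU : y ∈ U := (zpowers_le.2 hωU) hy.1
          have hyo : orderOf y = p := by
            apply orderOf_eq_prime _ hy1
            exact hEp y (by rw [hE0]; exact mem_sup_left hy.1)
          have h5 : zpowers y = zpowers t := Subgroup.eq_of_le_of_card_ge (zpowers_le.2 hy.2) (by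
            rw [Nat.card_zpowers, Nat.card_zpowers, hyo, hto])
          exact (zpowers_le.2 hyU) (by rw [h5]; exact mem_zpowers t)
        rw [← hE0, h4, card_bot, mul_one, Nat.card_zpowers, Nat.card_zpowers, hωo, hto] at h3
        rw [h3, pow_two]
      · rw [characteristic_iff_map_le]
        rintro φ' _ ⟨y, hy, rfl⟩
        have hEφ : (E.map φ'.toMonoidHom).Normal := hEn.map _ φ'.surjective
        have hy' : φ'.toMonoidHom y ∈ E.map φ'.toMonoidHom := ⟨y, hy, rfl⟩
        have hpp : ∀ w ∈ E.map φ'.toMonoidHom, w ^ p = 1 := by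
          rintro _ ⟨w, hw, rfl⟩
          rw [← map_pow, hEp w hw, map_one]
        apply hEle
        · rw [hδM]
          apply hpp
          have h5 := hEφ.conj_mem _ (inv_mem hy') u
          have h6 := mul_mem hy' h5
          have h7 : φ'.toMonoidHom y * u * (φ'.toMonoidHom y)⁻¹ * u⁻¹ = φ'.toMonoidHom y * (u * (φ'.toMonoidHom y)⁻¹ * u⁻¹) := by group
          rw [h7]; exact h6
        · exact hpp _ hy'


end Cfsg.Agent.S3761
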