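import Cfsg.Statements.S3763
import Cfsg.Agent.H19_XspA

set_option autoImplicit false
open Cfsg

namespace Cfsg.Agent.S3763

open H19.XspA

/-- Let E be an extraspecial 2-group of order 2^(2n+1). Then the largest elementary abelian subgroups of E have order 2^n or 2^(n+1); and two extraspecial 2-groups of the same order whose largest elementary abelian subgroups have the same order are isomorphic. -/
theorem result {E : Type*} [Group E] [Finite E] (hE : Cfsg.IsExtraspecial 2 E) (n : ℕ) (hn : Nat.card E = 2 ^ (2 * n + 1)) : ((Cfsg.PRankLE 2 n E ∧ ¬ Cfsg.PRankLE 2 (n - 1) E) ∨ (Cfsg.PRankLE 2 (n + 1) E ∧ ¬ Cfsg.PRankLE 2 n E)) ∧ ∀ (E' : Type*) [Group E'] [Finite E'], Cfsg.IsExtraspecial 2 E' → Nat.card E' = Nat.card E → (∀ k : ℕ, Cfsg.PRankLE 2 k E ↔ Cfsg.PRankLE 2 k E') → Nonempty (E ≃* E') := by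
  haveI : Fact (Nat.Prime 2) := ⟨Nat.prime_two⟩
  have h1 := one_le hE hn
  constructor
  · by_cases hP : Plus E n
    · right
      exact ⟨fun A hA _ => card_le hE hn A hA, (plus_iff_rank hE hn).1 hP⟩
    · left
      rw [plus_iff_rank hE hn, not_not] at hP
      refine ⟨hP, fun h => ?_⟩
      obtain ⟨A, hA, hAc⟩ := rank_lower hE hn
      have := h A hA.1 hA.2
      rw [hAc] at this
      exact absurd (Nat.pow_lt_pow_right (by norm_num : 1 < 2) (by omega : n - 1 < n)) (not_lt.2 this)
  · intro E' _ _ hE' hc hr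
    obtain ⟨m, rfl⟩ : ∃ m, n = m + 1 := ⟨n - 1, by omega⟩
    refine iso_of_plus m E E' hE hE' hn (hc.trans hn) ?_
    rw [plus_iff_rank hE hn, plus_iff_rank hE' (hc.trans hn), hr]

end Cfsg.Agent.S3763
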