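import Cfsg.Statements.S3764
import Cfsg.Agent.H22_HH4
import Cfsg.Agent.H2_Extra2

set_option autoImplicit false
open Cfsg

namespace Cfsg.Agent.S3764

open Subgroup Cfsg.Agent Cfsg.Agent.H22 Cfsg.Agent.H22.HH2 Cfsg.Agent.H22.HH3 Cfsg.Agent.H22.HH4

/-- Let p, q, r be distinct primes and let X, Q, V be subgroups of a finite group with X of order r, Q an extraspecial q-group normalized by X with C_Q(X) = Z(Q), and V an elementary abelian p-group normalized by X and Q on which XQ acts faithfully ((X ⊔ Q) ∩ C(V) = 1). If C_V(X) = 1, then q = 2, r = 2^n + 1 for some n, and Q has order 2^(2n+1). -/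
theorem result {G : Type*} [Group G] [Finite G] {p q r : ℕ} (hp : p.Prime) (hq : q.Prime) (hr : r.Prime) (hpq : p ≠ q) (hpr : p ≠ r) (hqr : q ≠ r) (X Q V : Subgroup G) (hX : Nat.card X = r) (hQ : Cfsg.IsExtraspecial q ↥Q) (hXQ : X ≤ Subgroup.normalizer (Q : Set G)) (hCQ : Q ⊓ Subgroup.centralizer (X : Set G) = (Subgroup.center ↥Q).map Q.subtype) (hV : Cfsg.IsElementaryAbelian p V) (hXV : X ≤ Subgroup.normalizer (V : Set G)) (hQV : Q ≤ Subgroup.normalizer (V : Set G)) (hfaith : (X ⊔ Q) ⊓ Subgroup.centralizer (V : Set G) = ⊥) (hCV : V ⊓ Subgroup.centralizer (X : Set G) = ⊥) : q = 2 ∧ ∃ n : ℕ, r = 2 ^ n + 1 ∧ Nat.card Q = 2 ^ (2 * n + 1) := by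
  classical
  haveI := Fact.mk hp
  haveI := Fact.mk hq
  haveI : Fintype Q := Fintype.ofFinite _
  obtain ⟨x, hx⟩ := exists_zpowers hr hX
  have hxX : x ∈ X := hx ▸ mem_zpowers x
  have hord : orderOf x = r := by rw [← Nat.card_zpowers, hx, hX]
  have hxr : x ^ r = 1 := by rw [← hord]; exact pow_orderOf_eq_one x
  have hxQ := hXQ hxX
  obtain ⟨M, i1, i2, i3, ρ, hρ1, hρ2⟩ := exists_rep hV
  let k := AlgebraicClosure (ZMod p)
  have hkq : (q : k) ≠ 0 := natCast_ne_zero hq hpq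
  have hQq : IsPGroup q Q := hQ.1.1
  have hk : (Nat.card Q : k) ≠ 0 := by
    obtain ⟨c, hc⟩ := IsPGroup.iff_card.mp hQq
    rw [hc, Nat.cast_pow]
    exact pow_ne_zero _ hkq
  let ρQ : Q →* Module.End k M := ρ.comp (inclusion hQV)
  have hfQ : ∀ g : Q, ρQ g = 1 → g = 1 := by
    intro g hg
    have h1 : (g : G) ∈ (X ⊔ Q) ⊓ centralizer (V : Set G) :=
      mem_inf.mpr ⟨mem_sup_right g.2, (hρ1 (inclusion hQV g)).mp hg⟩
    rw [hfaith] at h1
    exact Subtype.ext (mem_bot.mp h1)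
  have hcl : Cl2 Q := fun g h => H2.Extra.comm_mem_center hQ g h
  obtain ⟨z, hz, hz1⟩ : ∃ z ∈ center Q, z ≠ 1 := by
    have h1 : center Q ≠ ⊥ := by
      intro h0
      have := hQ.2
      rw [h0, card_bot] at this
      exact hq.one_lt.ne this
    exact (bot_or_exists_ne_one (center Q)).resolve_left h1
  obtain ⟨W, σ, hσ, hσρ, n, hn, hσn⟩ := exists_irr hk ρQ (center Q) ⟨z, hz, fun h => hz1 (hfQ z h)⟩
  have hkerZ : ∀ g ∈ center Q, σ g = 1 → g = 1 := by
    intro g hg hg1
    by_contra hne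
    apply hσn
    have h1 : orderOf (⟨g, hg⟩ : center Q) = q := by
      have h2 : orderOf (⟨g, hg⟩ : center Q) ∣ q := by rw [← hQ.2]; exact orderOf_dvd_natCard _
      rcases (Nat.dvd_prime hq).mp h2 with h3 | h3
      · exact absurd (congrArg Subtype.val (orderOf_eq_one_iff.mp h3)) hne
      · exact h3
    have h2 : (⟨n, hn⟩ : center Q) ∈ zpowers (⟨g, hg⟩ : center Q) := by
      have h3 : zpowers (⟨g, hg⟩ : center Q) = ⊤ := by
        apply eq_top_of_card_eq
        rw [Nat.card_zpowers, h1, hQ.2]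
      rw [h3]; exact mem_top _
    obtain ⟨i, hi⟩ := mem_zpowers_iff.mp h2
    have h3 : n = g ^ i := (congrArg Subtype.val hi).symm
    have h4 : g ∈ σ.ker := hg1
    have h5 : n ∈ σ.ker := by rw [h3]; exact σ.ker.zpow_mem h4 i
    exact h5
  have hscal : scal σ = center Q := by
    apply le_antisymm _ (center_le_scal hσ)
    rintro g ⟨c, hc⟩
    rw [mem_center_iff]
    intro h
    have h1 : h * g * h⁻¹ * g⁻¹ = 1 := by
      apply hkerZ _ (hcl h g)
      rw [map_mul, map_mul, map_mul, hc, ← Algebra.commutes, mul_assoc (algebraMap k _ c),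
        HH1.mul_inv', mul_one, ← hc, HH1.mul_inv']
    have h2 : h * g = (h * g * h⁻¹ * g⁻¹) * (g * h) := by group
    rw [h2, h1, one_mul]
  have hCx : ∀ g : Q, x * (g : G) = (g : G) * x → g ∈ center Q := by
    intro g hg
    have h1 : (g : G) ∈ Q ⊓ centralizer (X : Set G) := by
      refine mem_inf.mpr ⟨g.2, ?_⟩
      rw [← centralizer_singleton_eq hx, mem_centralizer_singleton_iff]
      exact hg.symm
    rw [hCQ] at h1
    obtain ⟨g', hg', he⟩ := h1
    have : g' = g := Subtype.ext he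
    rwa [← this]
  have hcop : (orderOf x).Coprime (Nat.card Q) := by
    rw [hord]
    obtain ⟨c, hc⟩ := IsPGroup.iff_card.mp hQq
    rw [hc]
    exact Nat.Coprime.pow_right c ((Nat.coprime_primes hr hq).mpr (Ne.symm hqr))
  have hfp : (∀ g ∈ scal σ, au hxQ g ∈ scal σ) → ∀ g, g⁻¹ * au hxQ g ∈ scal σ → g ∈ scal σ := by
    intro h1 g hg
    refine fp_of hxQ hcop (scal σ) (scal_normal σ) ?_ h1 g hg
    intro g hg
    rw [hscal]
    exact hCx g hg
  have hinv : ∀ g ∈ scal σ, au hxQ g ∈ scal σ := by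
    intro g hg
    rw [hscal] at hg ⊢
    have h1 : (g : G) ∈ (center Q).map Q.subtype := ⟨g, hg, rfl⟩
    rw [← hCQ] at h1
    have h2 : x * (g : G) = (g : G) * x := (mem_centralizer_iff.mp (mem_inf.mp h1).2) x hxX
    have h3 : au hxQ g = g := by
      apply Subtype.ext
      rw [au_apply, h2]; group
    rwa [h3]
  obtain ⟨g₀, hg₀⟩ : ∃ g₀ : Q, g₀ ∉ center Q := by
    by_contra hcon
    push Not at hcon
    have h1 : center Q = ⊤ := eq_top_iff.mpr fun g _ => hcon g
    have h2 := hQ.1.2.2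
    have h3 : _root_.commutator Q = ⊥ := by
      rw [_root_.commutator_def, eq_bot_iff, commutator_le]
      intro a _ b _
      rw [mem_bot, commutatorElement_eq_one_iff_mul_comm]
      exact (mem_center_iff.mp (hcon a) b).symm
    rw [h3] at h2
    exact hz1 (by rw [← h2] at hz; exact mem_bot.mp hz)
  obtain ⟨hq2, m, hm1, hrm, hidx⟩ := SS (k := k) q r hr hkq hQq hqr hcl ρQ (au hxQ) (au_one hxQ hxr)
    (ρ ⟨x, hXV hxX⟩) (hρ2 ⟨x, hXV hxX⟩ (by
      show V ⊓ centralizer ({x} : Set G) = ⊥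
      rw [centralizer_singleton_eq hx, hCV]) r (by
      show x ^ r ∈ _
      rw [hxr]; exact one_mem _))
    (fun g => by
      show ρ _ * ρ _ = ρ _ * ρ _
      rw [← map_mul, ← map_mul]
      congr 1
      apply Subtype.ext
      show x * (g : G) = (x * g * x⁻¹) * x
      group) hσ W.subtype W.injective_subtype (fun g w => hσρ g w) hfp (by
      refine ⟨g₀, fun h => hg₀ ?_⟩
      rw [← hscal]
      apply hfp hinv
      refine ⟨1, ?_⟩
      rw [map_mul, h, ← map_mul, inv_mul_cancel, map_one, map_one])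
  refine ⟨hq2, m, hrm, ?_⟩
  subst hq2
  rw [hscal] at hidx
  have h1 := (center Q).card_mul_index
  rw [hidx, hQ.2] at h1
  rw [← h1, pow_succ, mul_comm]

end Cfsg.Agent.S3764
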