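import Cfsg.Statements.S3765
import Cfsg.Agent.H22_HH4

set_option autoImplicit false
open Cfsg

namespace Cfsg.Agent.S3765

open Subgroup Cfsg.Agent Cfsg.Agent.H22 Cfsg.Agent.H22.HH2 Cfsg.Agent.H22.HH3 Cfsg.Agent.H22.HH4
open scoped commutatorElement

/-- Let p, q, r be distinct primes and let X, Q, V be subgroups of a finite group with X of order r normalizing the q-group Q and acting faithfully on it (X ∩ C(Q) = 1), and V a nontrivial elementary abelian p-group normalized by X and Q on which XQ acts faithfully. If q = 2 and r has the form 2^n + 1, assume in addition that Q is abelian. Then C_V(X) ≠ 1. -/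
theorem result {G : Type*} [Group G] [Finite G] {p q r : ℕ} (hp : p.Prime) (hq : q.Prime) (hr : r.Prime) (hpq : p ≠ q) (hpr : p ≠ r) (hqr : q ≠ r) (X Q V : Subgroup G) (hX : Nat.card X = r) (hQ : IsPGroup q Q) (hXQ : X ≤ Subgroup.normalizer (Q : Set G)) (hXfaith : X ⊓ Subgroup.centralizer (Q : Set G) = ⊥) (hV : Cfsg.IsElementaryAbelian p V) (hV1 : V ≠ ⊥) (hXV : X ≤ Subgroup.normalizer (V : Set G)) (hQV : Q ≤ Subgroup.normalizer (V : Set G)) (hfaith : (X ⊔ Q) ⊓ Subgroup.centralizer (V : Set G) = ⊥) (hexc : q = 2 → (∃ n : ℕ, r = 2 ^ n + 1) → IsMulCommutative Q) : V ⊓ Subgroup.centralizer (X : Set G) ≠ ⊥ := by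
  classical
  intro hCV
  haveI := Fact.mk hp
  haveI := Fact.mk hq
  obtain ⟨x, hx⟩ := exists_zpowers hr hX
  have hxX : x ∈ X := hx ▸ mem_zpowers x
  have hord : orderOf x = r := by rw [← Nat.card_zpowers, hx, hX]
  have hxr : x ^ r = 1 := by rw [← hord]; exact pow_orderOf_eq_one x
  obtain ⟨M, i1, i2, i3, ρ, hρ1, hρ2⟩ := exists_rep hV
  let k := AlgebraicClosure (ZMod p)
  have hkq : (q : k) ≠ 0 := natCast_ne_zero hq hpq
  have hnt : ⁅Q, X⁆ ≠ ⊥ := by
    intro h0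
    have h1 : X ≤ centralizer (Q : Set G) := by
      rw [← Subgroup.commutator_eq_bot_iff_le_centralizer, commutator_comm]
      exact h0
    rw [inf_eq_left.mpr h1] at hXfaith
    rw [hXfaith, card_bot] at hX
    exact hr.one_lt.ne hX
  obtain ⟨Q₁, hQ₁Q, hXQ₁, hnt₁, hmin⟩ := exists_min X X _ Q le_rfl hXQ hnt
  have hQ₁q : IsPGroup q Q₁ := hQ.to_le hQ₁Q
  have hrq : (Nat.card X).Coprime q := by
    rw [hX]; exact (Nat.coprime_primes hr hq).mpr (Ne.symm hqr)
  obtain ⟨h1, hcl, hC⟩ := min_data hQ₁q hXQ₁ le_rfl le_normalizer hrq hnt₁ hmin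
  have hxQ₁ := hXQ₁ hxX
  haveI : Fintype Q₁ := Fintype.ofFinite _
  have hk : (Nat.card Q₁ : k) ≠ 0 := by
    obtain ⟨c, hc⟩ := IsPGroup.iff_card.mp hQ₁q
    rw [hc, Nat.cast_pow]
    exact pow_ne_zero _ hkq
  let ρQ : Q₁ →* Module.End k M := ρ.comp (inclusion (hQ₁Q.trans hQV))
  have hfQ : ∀ g : Q₁, ρQ g = 1 → g = 1 := by
    intro g hg
    have h1 : (g : G) ∈ (X ⊔ Q) ⊓ centralizer (V : Set G) :=
      mem_inf.mpr ⟨mem_sup_right (hQ₁Q g.2), (hρ1 (inclusion (hQ₁Q.trans hQV) g)).mp hg⟩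
    rw [hfaith] at h1
    exact Subtype.ext (mem_bot.mp h1)
  obtain ⟨z, hz1⟩ : ∃ z : Q₁, z ≠ 1 := by
    by_contra hcon
    push Not at hcon
    apply hnt₁
    have : Q₁ = ⊥ := by
      rw [eq_bot_iff]
      intro y hy
      exact mem_bot.mpr (congrArg Subtype.val (hcon ⟨y, hy⟩))
    rw [this]
    exact commutator_bot_left X
  obtain ⟨W, σ, hσ, hσρ, n, -, hσn⟩ := exists_irr hk ρQ ⊤ ⟨z, mem_top z, fun h => hz1 (hfQ z h)⟩
  have hcop : (orderOf x).Coprime (Nat.card Q₁) := by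
    rw [hord]
    obtain ⟨c, hc⟩ := IsPGroup.iff_card.mp hQ₁q
    rw [hc]
    exact Nat.Coprime.pow_right c ((Nat.coprime_primes hr hq).mpr (Ne.symm hqr))
  have hfp : (∀ g ∈ scal σ, au hxQ₁ g ∈ scal σ) → ∀ g, g⁻¹ * au hxQ₁ g ∈ scal σ → g ∈ scal σ := by
    intro h1 g hg
    refine fp_of hxQ₁ hcop (scal σ) (scal_normal σ) ?_ h1 g hg
    intro g hg
    apply center_le_scal hσ
    apply hC
    rw [← centralizer_singleton_eq hx, mem_centralizer_singleton_iff]
    exact hg.symm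
  obtain ⟨hq2, m, hm1, hrm, hidx⟩ := SS (k := k) q r hr hkq hQ₁q hqr hcl ρQ (au hxQ₁) (au_one hxQ₁ hxr)
    (ρ ⟨x, hXV hxX⟩) (hρ2 ⟨x, hXV hxX⟩ (by
      show V ⊓ centralizer ({x} : Set G) = ⊥
      rw [centralizer_singleton_eq hx, hCV]) r (by
      show x ^ r ∈ _
      rw [hxr]; exact one_mem _))
    (fun g => by
      show ρ _ * ρ _ = ρ _ * ρ _
      rw [← map_mul, ← map_mul]
      congr 1
      apply Subtype.ext
      show x * (g : G) = (x * g * x⁻¹) * x
      group) hσ W.subtype W.injective_subtype (fun g w => hσρ g w) hfp (by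
      by_contra hcon
      push Not at hcon
      have h2 := gen_of hxQ₁ (by rw [hx]; exact h1) σ.ker inferInstance (fun g => by
        rw [MonoidHom.mem_ker, map_mul, hcon, ← map_mul, inv_mul_cancel, map_one])
      apply hσn
      have h3 : n ∈ σ.ker := by rw [h2]; exact mem_top _
      exact h3)
  have hab := hexc hq2 ⟨m, hrm⟩
  have h2 : scal σ = ⊤ := by
    rw [eq_top_iff]
    intro g _
    apply center_le_scal hσ
    rw [mem_center_iff]
    intro t
    have h3 := mul_comm' (⟨(t : G), hQ₁Q t.2⟩ : Q) ⟨(g : G), hQ₁Q g.2⟩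
    have h4 : (t : G) * g = g * t := congrArg Subtype.val h3
    exact Subtype.ext h4
  rw [h2, index_top] at hidx
  have h3 : 1 < 2 ^ (2 * m) := Nat.one_lt_pow (by omega) one_lt_two
  omega

end Cfsg.Agent.S3765
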