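import Cfsg.Statements.S3766
import Cfsg.Agent.H1_Hall
import Cfsg.Agent.H11_Cores

set_option autoImplicit false
open Cfsg

namespace Cfsg.Agent.S3766

open Subgroup

universe u

/-- chief factor predicate -/
abbrev IsChief {G : Type u} [Group G] (U V : Subgroup G) : Prop :=
  U.Normal ∧ V.Normal ∧ V < U ∧ ∀ W : Subgroup G, W.Normal → V ≤ W → W ≤ U → W = V ∨ W = U

theorem nilpotent_centralizes {G : Type u} [Group G] [Finite G] {F U V : Subgroup G} (hF : F.Normal)
    (hnil : Group.IsNilpotent F) (h : IsChief U V) : ⁅U, F⁆ ≤ V := by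
  obtain ⟨hU, hV, hlt, hmin⟩ := h
  have h1 : ⁅U, F⁆ ≤ U := commutator_le_left U F
  rcases hmin (⁅U, F⁆ ⊔ V) inferInstance le_sup_right (sup_le h1 hlt.le) with h2 | h2
  · rw [← h2]; exact le_sup_left
  · exfalso
    -- pass to G/V
    set f := QuotientGroup.mk' V with hf
    have hsurj : Function.Surjective f := QuotientGroup.mk'_surjective V
    have hUf : ⁅U.map f, F.map f⁆ = U.map f := by
      rw [← map_commutator]
      have h3 := congrArg (Subgroup.map f) h2
      rw [Subgroup.map_sup, hf, QuotientGroup.map_mk'_self, sup_bot_eq] at h3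
      exact h3
    have hFn : (F.map f).Normal := hF.map f hsurj
    have hUn : (U.map f).Normal := hU.map f hsurj
    have hle : U.map f ≤ F.map f := by
      rw [← hUf]; exact commutator_le_right _ _
    have hFnil : Group.IsNilpotent (F.map f) :=
      Group.nilpotent_of_surjective (f.subgroupMap F) (f.subgroupMap_surjective F)
    have hUne : U.map f ≠ ⊥ := by
      intro h4
      rw [Subgroup.map_eq_bot_iff, hf, QuotientGroup.ker_mk'] at h4
      exact absurd h4 (not_le_of_gt hlt)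
    exact H1.Coprime.commutator_lt_of_nilpotent hFnil hle hUne hUf.ge

theorem exists_chief {G : Type u} [Group G] [Finite G] {W : Subgroup G} (hW : W.Normal) (hb : W ≠ ⊥) :
    ∃ V, IsChief W V := by
  obtain ⟨V, ⟨hV1, hV2⟩, hmax⟩ := Set.Finite.exists_maximal
    (Set.toFinite {V : Subgroup G | V.Normal ∧ V < W}) ⟨⊥, inferInstance, bot_lt_iff_ne_bot.mpr hb⟩
  refine ⟨V, hW, hV1, hV2, fun X hX hVX hXW => ?_⟩
  rcases eq_or_lt_of_le hXW with h | h
  · exact Or.inr h
  · exact Or.inl (le_antisymm (hmax ⟨hX, h⟩ hVX) hVX)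

theorem lcs_reach {G : Type u} [Group G] [Finite G] {K F : Subgroup G}
    (hK : ∀ U V : Subgroup G, IsChief U V → U ≤ F → ⁅U, K⁆ ≤ V) (n : ℕ) :
    ∀ W : Subgroup G, Nat.card W = n → W.Normal → W ≤ F → ∀ k, K.lowerCentralSeries k ≤ W →
      ∃ m, K.lowerCentralSeries m = ⊥ := by
  induction n using Nat.strong_induction_on with
  | _ n ih =>
    intro W hn hW hWF k hk
    by_cases hb : W = ⊥
    · exact ⟨k, by rw [← le_bot_iff, ← hb]; exact hk⟩
    · obtain ⟨V, hV⟩ := exists_chief hW hb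
      have h1 := hK W V hV hWF
      refine ih (Nat.card V) ?_ V rfl hV.2.1 (hV.2.2.1.le.trans hWF) (k + 1) ?_
      · rw [← hn]; exact H11.Cores.card_lt_card hV.2.2.1
      · rw [Subgroup.lowerCentralSeries_succ]
        exact (commutator_mono hk le_rfl).trans h1

theorem main {G : Type u} [Group G] [Finite G] (hG : Group.IsSolvable G) (N : Subgroup G) [hN : N.Normal]
    (g : G) (hg : g ∈ N)
    (h : ∀ U V : Subgroup G, IsChief U V → U ≤ (Cfsg.fittingSubgroup ↥N).map N.subtype →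
      ∀ u ∈ U, u * g * u⁻¹ * g⁻¹ ∈ V) : g ∈ (Cfsg.fittingSubgroup ↥N).map N.subtype := by
  have hFc : (Cfsg.fittingSubgroup ↥N).Characteristic := inferInstance
  have hFn : ((Cfsg.fittingSubgroup ↥N).map N.subtype).Normal := inferInstance
  set F := (Cfsg.fittingSubgroup ↥N).map N.subtype with hF
  -- the subgroup C
  let C : Subgroup G :=
    { carrier := {x | x ∈ N ∧ ∀ U V : Subgroup G, IsChief U V → U ≤ F → ∀ u ∈ U, u * x * u⁻¹ * x⁻¹ ∈ V}
      one_mem' := ⟨N.one_mem, fun U V _ _ u _ => by simp⟩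
      mul_mem' := by
        rintro a b ⟨ha, ha'⟩ ⟨hb, hb'⟩
        refine ⟨N.mul_mem ha hb, fun U V hUV hUF u hu => ?_⟩
        have h1 := ha' U V hUV hUF u hu
        have h2 := hb' U V hUV hUF u hu
        have h3 := hUV.2.1.conj_mem _ h2 a
        have h4 : u * (a * b) * u⁻¹ * (a * b)⁻¹ = (u * a * u⁻¹ * a⁻¹) * (a * (u * b * u⁻¹ * b⁻¹) * a⁻¹) := by
          group
        rw [h4]
        exact V.mul_mem h1 h3
      inv_mem' := by
        rintro a ⟨ha, ha'⟩
        refine ⟨N.inv_mem ha, fun U V hUV hUF u hu => ?_⟩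
        have h1 := ha' U V hUV hUF u hu
        have h2 := hUV.2.1.conj_mem _ (V.inv_mem h1) a⁻¹
        have h3 : u * a⁻¹ * u⁻¹ * a⁻¹⁻¹ = a⁻¹ * (u * a * u⁻¹ * a⁻¹)⁻¹ * a⁻¹⁻¹ := by group
        rw [h3]; exact h2 }
  have hCmem : ∀ x, x ∈ C ↔ x ∈ N ∧ ∀ U V : Subgroup G, IsChief U V → U ≤ F → ∀ u ∈ U, u * x * u⁻¹ * x⁻¹ ∈ V :=
    fun x => Iff.rfl
  have hCn : C.Normal := by
    refine ⟨fun x hx y => ?_⟩
    refine ⟨hN.conj_mem x hx.1 y, fun U V hUV hUF u hu => ?_⟩
    have h1 : y⁻¹ * u * y ∈ U := by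
      have := hUV.1.conj_mem u hu y⁻¹
      simpa using this
    have h2 := hx.2 U V hUV hUF _ h1
    have h3 := hUV.2.1.conj_mem _ h2 y
    have h4 : u * (y * x * y⁻¹) * u⁻¹ * (y * x * y⁻¹)⁻¹ = y * ((y⁻¹ * u * y) * x * (y⁻¹ * u * y)⁻¹ * x⁻¹) * y⁻¹ := by
      group
    rw [h4]; exact h3
  have hCF : C ≤ F := by
    apply H1.Hall.le_of_commutator_induction hCn inferInstance
    intro M hM hMC hMM
    have hK : ∀ U V : Subgroup G, IsChief U V → U ≤ F → ⁅U, M⁆ ≤ V := by
      intro U V hUV hUF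
      rw [commutator_le]
      intro u hu m hm
      have := (hMC hm).2 U V hUV hUF u hu
      exact this
    obtain ⟨m, hm⟩ := lcs_reach hK _ F rfl hFn le_rfl 1 (by
      rw [Subgroup.lowerCentralSeries_succ, Subgroup.lowerCentralSeries_zero]; exact hMM)
    have hMnil : Group.IsNilpotent M := Subgroup.isNilpotent_of_lowerCentralSeries_eq_bot hm
    have hMN : M ≤ N := fun x hx => (hMC hx).1
    have h1 : (M.subgroupOf N).Normal := hM.subgroupOf N
    have h2 : Group.IsNilpotent (M.subgroupOf N) :=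
      (Group.isNilpotent_congr (subgroupOfEquivOfLe hMN)).mpr hMnil
    have h3 : M.subgroupOf N ≤ Cfsg.fittingSubgroup ↥N := H11.Cores.le_fittingSubgroup h2
    intro x hx
    exact ⟨⟨x, hMN hx⟩, h3 hx, rfl⟩
  exact hCF ⟨hg, h⟩

/-- Let G be a finite solvable group and N a normal subgroup of G. Call a pair V < U of normal subgroups of G a chief factor of G when no normal subgroup of G lies strictly between them; an element g centralizes the chief factor U/V when u g u⁻¹ g⁻¹ ∈ V for all u ∈ U. Then an element of G lies in the Fitting subgroup F(N) if and only if it lies in N and centralizes every chief factor of G; and also if and only if it lies in N and centralizes every chief factor U/V of G with U ≤ F(N). -/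
theorem result {G : Type*} [Group G] [Finite G] (hG : Group.IsSolvable G) (N : Subgroup G) [N.Normal] (g : G) : (g ∈ (Cfsg.fittingSubgroup ↥N).map N.subtype ↔ g ∈ N ∧ ∀ U V : Subgroup G, (U.Normal ∧ V.Normal ∧ V < U ∧ ∀ W : Subgroup G, W.Normal → V ≤ W → W ≤ U → W = V ∨ W = U) → ∀ u ∈ U, u * g * u⁻¹ * g⁻¹ ∈ V) ∧ (g ∈ (Cfsg.fittingSubgroup ↥N).map N.subtype ↔ g ∈ N ∧ ∀ U V : Subgroup G, (U.Normal ∧ V.Normal ∧ V < U ∧ ∀ W : Subgroup G, W.Normal → V ≤ W → W ≤ U → W = V ∨ W = U) → U ≤ (Cfsg.fittingSubgroup ↥N).map N.subtype → ∀ u ∈ U, u * g * u⁻¹ * g⁻¹ ∈ V) := by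
  have hFc : (Cfsg.fittingSubgroup ↥N).Characteristic := inferInstance
  have hFn : ((Cfsg.fittingSubgroup ↥N).map N.subtype).Normal := inferInstance
  have hnil : Group.IsNilpotent ((Cfsg.fittingSubgroup ↥N).map N.subtype) := by
    have := H1.Nilp.fitting_nilpotent (G := N)
    exact (Group.isNilpotent_congr ((Cfsg.fittingSubgroup ↥N).equivMapOfInjective N.subtype N.subtype_injective)).mp this
  have key : g ∈ (Cfsg.fittingSubgroup ↥N).map N.subtype → g ∈ N ∧ ∀ U V : Subgroup G,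
      (U.Normal ∧ V.Normal ∧ V < U ∧ ∀ W : Subgroup G, W.Normal → V ≤ W → W ≤ U → W = V ∨ W = U) →
      ∀ u ∈ U, u * g * u⁻¹ * g⁻¹ ∈ V := by
    intro hg
    refine ⟨map_subtype_le _ hg, fun U V hUV u hu => ?_⟩
    exact nilpotent_centralizes hFn hnil hUV (commutator_mem_commutator hu hg)
  refine ⟨⟨key, fun h => ?_⟩, ⟨fun hg => ⟨(key hg).1, fun U V hUV _ => (key hg).2 U V hUV⟩, fun h => ?_⟩⟩
  · exact main hG N g h.1 (fun U V hUV _ => h.2 U V hUV)
  · exact main hG N g h.1 h.2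

end Cfsg.Agent.S3766
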