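import Cfsg.Statements.S3767
import Cfsg.Agent.H23_XForm


set_option autoImplicit false
open Cfsg

namespace Cfsg.Agent.S3767


/-- Let P be an extraspecial p-group of order p^(2n+1) and H a cyclic group of order h prime to p acting on P (inside a common finite group: H normalizes P) so that C_P(x) = Z(P) for every non-identity x ∈ H. Then h divides p^n + 1 or h divides p^n − 1. -/
theorem result {G : Type*} [Group G] [Finite G] {p : ℕ} [Fact p.Prime] (P H : Subgroup G) (hP : Cfsg.IsExtraspecial p ↥P) (n : ℕ) (hn : Nat.card P = p ^ (2 * n + 1)) (hH : IsCyclic H) (hcop : (Nat.card H).Coprime p) (hHP : H ≤ Subgroup.normalizer (P : Set G)) (hfix : ∀ x ∈ H, x ≠ 1 → P ⊓ Subgroup.centralizer {x} = (Subgroup.center ↥P).map P.subtype) : Nat.card H ∣ p ^ n + 1 ∨ Nat.card H ∣ p ^ n - 1 := by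
  classical
  obtain ⟨⟨hp1, hp2, hp3⟩, hZc⟩ := hP
  letI : CommGroup ↥H := IsCyclic.commGroup
  have hφ : ∀ (h : H) (x : P), ((((Subgroup.normalizerMonoidHom P).comp (Subgroup.inclusion hHP)) h x : P) : G)
      = (h : G) * x * (h : G)⁻¹ := fun h x => rfl
  refine Cfsg.Agent.H23.XForm.main (P := ↥P) (H := ↥H) hp3 hZc n hn hcop
    ((Subgroup.normalizerMonoidHom P).comp (Subgroup.inclusion hHP)) ?_
  intro h hh x
  have h1 := hfix h h.2 (fun h0 => hh (Subtype.ext h0))
  have h2 : (x : G) ∈ P ⊓ Subgroup.centralizer {(h : G)} ↔ x ∈ Subgroup.center ↥P := by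
    rw [h1]
    constructor
    · rintro ⟨y, hy, hyx⟩
      have : y = x := Subtype.ext hyx
      exact this ▸ hy
    · intro hx
      exact ⟨x, hx, rfl⟩
  rw [← h2]
  constructor
  · intro hx
    refine ⟨x.2, ?_⟩
    have h3 := congrArg Subtype.val hx
    rw [hφ] at h3
    have h3' : (h : G) * x * (h : G)⁻¹ = x := h3
    show (x : G) ∈ Subgroup.centralizer {(h : G)}
    rw [Subgroup.mem_centralizer_singleton_iff]
    have h4 : (h : G) * x = x * h := by
      calc (h : G) * x = ((h : G) * x * (h : G)⁻¹) * h := by group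
        _ = x * h := by rw [h3']
    exact h4.symm
  · rintro ⟨_, hx⟩
    apply Subtype.ext
    rw [hφ]
    have h4 : (x : G) ∈ Subgroup.centralizer {(h : G)} := hx
    rw [Subgroup.mem_centralizer_singleton_iff] at h4
    rw [← h4]
    group


end Cfsg.Agent.S3767
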