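import Cfsg.Statements.S3769
import Cfsg.Agent.H12_RepF

set_option autoImplicit false
open Cfsg

namespace Cfsg.Agent.S3769

open Subgroup Cfsg.Agent
open scoped commutatorElement

/-- elements commuting with `R` modulo `C(V)` -/
def NN {X : Type*} [Group X] (V R : Subgroup X) (hR : R ≤ normalizer (V : Set X)) : Subgroup X where
  carrier := {k | k ∈ normalizer (V : Set X) ∧ ∀ ρ ∈ R, ⁅ρ, k⁆ ∈ centralizer (V : Set X)}
  one_mem' := ⟨one_mem _, fun ρ _ => by rw [commutatorElement_one_right]; exact one_mem _⟩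
  mul_mem' := by
    rintro a b ⟨ha, ha'⟩ ⟨hb, hb'⟩
    refine ⟨mul_mem ha hb, fun ρ hρ => ?_⟩
    have h1 : ⁅ρ, a * b⁆ = ⁅ρ, a⁆ * (a * ⁅ρ, b⁆ * a⁻¹) := by
      rw [commutatorElement_def, commutatorElement_def, commutatorElement_def]; group
    rw [h1]
    refine mul_mem (ha' ρ hρ) ?_
    have h2 := H22.Basic.le_normalizer_centralizer (le_refl (normalizer (V : Set X))) ha
    exact (Subgroup.mem_normalizer_iff.mp h2 _).mp (hb' ρ hρ)
  inv_mem' := by
    rintro a ⟨ha, ha'⟩
    refine ⟨inv_mem ha, fun ρ hρ => ?_⟩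
    have h1 : ⁅ρ, a⁻¹⁆ = a⁻¹ * ⁅ρ, a⁆⁻¹ * a⁻¹⁻¹ := by
      rw [commutatorElement_def, commutatorElement_def]; group
    rw [h1]
    have h2 := H22.Basic.le_normalizer_centralizer (le_refl (normalizer (V : Set X))) (inv_mem ha)
    exact (Subgroup.mem_normalizer_iff.mp h2 _).mp (inv_mem (ha' ρ hρ))

/-- Let G and V be subgroups of a finite group with G solvable of odd order normalizing V, V an elementary abelian ℓ-group for a prime ℓ not dividing the order of G, and suppose G has a normal Hall subgroup K with a complement R of prime order. If C_V(R) = 1, then [R, K] centralizes V. -/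
theorem result {X : Type*} [Group X] [Finite X] (G : Subgroup X) (hsolv : Group.IsSolvable G) (hodd : Odd (Nat.card G)) (V : Subgroup X) {ℓ : ℕ} (hℓ : ℓ.Prime) (hV : Cfsg.IsElementaryAbelian ℓ V) (hℓG : ¬ ℓ ∣ Nat.card G) (hGV : G ≤ Subgroup.normalizer (V : Set X)) (K R : Subgroup X) (hKG : K ≤ G) (hKn : G ≤ Subgroup.normalizer (K : Set X)) (hHall : (Nat.card K).Coprime (K.relIndex G)) (hRG : R ≤ G) (hR : (Nat.card R).Prime) (hKR : K ⊓ R = ⊥) (hKRG : K ⊔ R = G) (hCV : V ⊓ Subgroup.centralizer (R : Set X) = ⊥) : ⁅R, K⁆ ≤ Subgroup.centralizer (V : Set X) := by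
  haveI := Fact.mk hℓ
  have hRK : R ≤ normalizer (K : Set X) := hRG.trans hKn
  have hcopRK : (Nat.card R).Coprime (Nat.card K) := by
    have h1 : Nat.card R = K.relIndex G := by
      have h2 := H22.Basic.card_sup_of_inf_eq_bot hRK hKR
      have h3 := H22.Basic.card_mul_relIndex hKG
      rw [hKRG] at h2
      rw [h2] at h3
      exact (Nat.eq_of_mul_eq_mul_left Nat.card_pos h3).symm
    rw [h1]; exact hHall.symm
  obtain ⟨σ, hσ⟩ : ∃ σ : X, zpowers σ = R := by
    haveI : IsCyclic R := isCyclic_of_prime_card (p := Nat.card R) (hp := ⟨hR⟩) rfl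
    obtain ⟨g, hg⟩ := IsCyclic.exists_generator (α := R)
    refine ⟨g, le_antisymm ?_ ?_⟩
    · rw [zpowers_le]; exact g.2
    · intro x hx
      obtain ⟨n, hn⟩ := mem_zpowers_iff.mp (hg ⟨x, hx⟩)
      exact mem_zpowers_iff.mpr ⟨n, by rw [← SubgroupClass.coe_zpow, hn]⟩
  have hσr : σ ^ (Nat.card R) = 1 := by
    have : orderOf σ = Nat.card R := by rw [← Nat.card_zpowers, hσ]
    rw [← this]; exact pow_orderOf_eq_one σ
  have hσR : σ ∈ R := hσ ▸ mem_zpowers σ
  have hle : K ≤ NN V R (hRG.trans hGV) := by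
    have h1 : Nat.card K ∣ Nat.card (K ⊓ NN V R (hRG.trans hGV) : Subgroup X) := by
      rw [Nat.dvd_iff_prime_pow_dvd_dvd]
      intro q k hq hqk
      rcases Nat.eq_zero_or_pos k with rfl | hk
      · simp
      haveI := Fact.mk hq
      have hKsol : Group.IsSolvable K := H12.BG1.isSolvable_of_le hKG hsolv
      obtain ⟨P, hP⟩ := H1.Coprime.invariant_sylow_exists R K hRK hcopRK (Or.inr hKsol) q
      set P' := (P : Subgroup K).map K.subtype with hP'
      have hP'K : P' ≤ K := map_subtype_le _
      have hqK : q ∣ Nat.card K := (dvd_pow_self q hk.ne').trans hqk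
      have hqG : q ∣ Nat.card G := hqK.trans (card_dvd_of_le hKG)
      have hq2 : q ≠ 2 := by
        rintro rfl
        exact (Nat.not_even_iff_odd.mpr hodd) (even_iff_two_dvd.mpr hqG)
      have hqℓ : q ≠ ℓ := by
        rintro rfl
        exact hℓG hqG
      have hqr : q ≠ Nat.card R := by
        intro h
        rw [← h] at hcopRK
        exact (Nat.Prime.coprime_iff_not_dvd hq).mp hcopRK hqK
      have hrℓ : Nat.card R ≠ ℓ := by
        intro h
        apply hℓG
        rw [← h]
        exact card_dvd_of_le hRG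
      have hP'q : IsPGroup q P' := P.isPGroup'.map _
      have h2 := H12.RepF.fix_trivial (p := ℓ) (q := q) (r := Nat.card R) hR hq2 hqℓ hqr hrℓ
        (V := V) (K := P') (by
          intro a ha
          rw [mem_centralizer_iff]
          intro b hb
          haveI := hV.1
          exact congrArg Subtype.val (mul_comm' (⟨b, hb⟩ : V) ⟨a, ha⟩)) hV.2 hP'q (hP'K.trans (hKG.trans hGV))
        (σ := σ) hσr (hGV (hRG hσR)) (hP hσR) (by
          rw [← hCV]
          congr 1
          rw [← hσ]
          ext y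
          rw [mem_centralizer_singleton_iff, mem_centralizer_iff]
          constructor
          · intro h g hg
            obtain ⟨i, rfl⟩ := mem_zpowers_iff.mp hg
            exact ((show Commute y σ from h).zpow_right i).symm
          · intro h
            exact (h σ (mem_zpowers σ)).symm)
      have h3 : P' ≤ K ⊓ NN V R (hRG.trans hGV) := by
        refine le_inf hP'K ?_
        intro a ha
        refine ⟨hGV (hKG (hP'K ha)), ?_⟩
        intro ρ hρ
        have h4 : ⁅a, ρ⁆ ∈ centralizer (V : Set X) := h2 (commutator_mem_commutator ha (by rw [hσ]; exact hρ))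
        rw [← commutatorElement_inv]
        exact inv_mem h4
      have h4 : q ^ k ∣ Nat.card P' := by
        rw [hP', card_map_of_injective K.subtype_injective, P.card_eq_multiplicity]
        exact pow_dvd_pow q ((hq.pow_dvd_iff_le_factorization Nat.card_pos.ne').mp hqk)
      exact h4.trans (card_dvd_of_le h3)
    have h2 : K ⊓ NN V R (hRG.trans hGV) = K :=
      H22.Basic.eq_of_le_of_card_le inf_le_left (Nat.le_of_dvd Nat.card_pos h1)
    rw [← h2]; exact inf_le_right
  rw [commutator_le]
  intro ρ hρ k hk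
  exact (hle hk).2 ρ hρ

end Cfsg.Agent.S3769
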