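import Cfsg.Statements.S3771
import Cfsg.Agent.H22_Basic
import Cfsg.Agent.H1_Frattini
import Cfsg.Agent.H2_PGroup
import Cfsg.Agent.S3781

set_option autoImplicit false
open Cfsg

namespace Cfsg.Agent.S3771

open Subgroup
open scoped commutatorElement

/-- A p-group of rank ≤ 2 and exponent p has order ≤ p³. -/
theorem result {R : Type*} [Group R] [Finite R] {p : ℕ} [Fact p.Prime] (hR : IsPGroup p R) (hrank : Cfsg.PRankLE p 2 R) (hexp : ∀ x : R, x ^ p = 1) : Nat.card R ≤ p ^ 3 := by
  have hpp := Fact.out (p := p.Prime)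
  have hnil := hR.isNilpotent
  obtain ⟨A, ⟨hAn, hAc⟩, hmax⟩ := (Set.toFinite {A : Subgroup R | A.Normal ∧ IsMulCommutative A}).exists_maximal
    ⟨⊥, inferInstance, ⟨⟨fun a b => Subsingleton.elim _ _⟩⟩⟩
  have hAself : centralizer (A : Set R) = A := by
    apply H1.Frattini.max_abelian_normal_self_centralizing A
    intro M hM hMc hAM
    exact le_antisymm (hmax ⟨hM, hMc⟩ hAM) hAM
  have hA2 : Nat.card A ≤ p ^ 2 := hrank A hAc (fun a _ => hexp a)
  have hAcomm : ∀ a ∈ A, ∀ b ∈ A, a * b = b * a := fun a ha b hb =>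
    congrArg Subtype.val (hAc.is_comm.comm (⟨a, ha⟩ : A) ⟨b, hb⟩)
  by_cases hAZ : A ≤ center R
  · have h1 : A = ⊤ := by
      rw [eq_top_iff, ← hAself]
      intro x _
      rw [mem_centralizer_iff]
      intro a ha
      exact (mem_center_iff.mp (hAZ ha) x).symm
    rw [← Subgroup.card_top (G := R), ← h1]
    exact hA2.trans (Nat.pow_le_pow_right hpp.pos (by norm_num))
  · obtain ⟨v, hv, hvZ⟩ := SetLike.not_le_iff_exists.mp hAZ
    have hAb : A ≠ ⊥ := by
      rintro rfl
      exact hvZ (Subgroup.mem_bot.mp hv ▸ one_mem _)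
    have hne := H2.PGroup.inf_center_ne_bot hR hAb
    obtain ⟨k, hk⟩ := (hR.to_subgroup A).exists_card_eq
    have hk2 : k ≤ 2 := by
      rw [hk] at hA2
      exact (Nat.pow_le_pow_iff_right hpp.one_lt).mp hA2
    -- A ≤ (A ⊓ Z) ⊔ ⟨v⟩
    have hlt1 : A ⊓ center R < (A ⊓ center R) ⊔ zpowers v := by
      refine lt_of_le_of_ne le_sup_left ?_
      intro h
      apply hvZ
      have : v ∈ A ⊓ center R := by rw [h]; exact mem_sup_right (mem_zpowers v)
      exact this.2
    have hgen : (A ⊓ center R) ⊔ zpowers v = A := by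
      apply H22.Basic.eq_of_le_of_card_le (sup_le inf_le_left (zpowers_le.mpr hv))
      obtain ⟨i, hi⟩ := (hR.to_subgroup (A ⊓ center R)).exists_card_eq
      obtain ⟨j, hj⟩ := (hR.to_subgroup ((A ⊓ center R) ⊔ zpowers v)).exists_card_eq
      have h1 := H22.Basic.card_lt_of_lt hlt1
      rw [hi, hj] at h1
      have h2 := (Nat.pow_lt_pow_iff_right hpp.one_lt).mp h1
      have h3 : i ≠ 0 := by
        rintro rfl
        rw [pow_zero] at hi
        exact hne (Subgroup.card_eq_one.mp hi)
      rw [hk, hj]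
      exact Nat.pow_le_pow_right hpp.pos (by omega)
    have hCv : centralizer ({v} : Set R) = A := by
      apply le_antisymm
      · conv_rhs => rw [← hAself]
        intro g hg
        have h1 : A ≤ centralizer ({g} : Set R) := by
          rw [← hgen]
          refine sup_le (inf_le_right.trans (center_le_centralizer _)) (zpowers_le.mpr ?_)
          rw [mem_centralizer_singleton_iff]
          exact (mem_centralizer_singleton_iff.mp hg).symm
        rw [mem_centralizer_iff]
        intro a ha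
        exact mem_centralizer_singleton_iff.mp (h1 ha)
      · intro a ha
        rw [mem_centralizer_singleton_iff]
        exact hAcomm a ha v hv
    -- [A, R] has order ≤ p
    have hK : Nat.card (⁅A, (⊤ : Subgroup R)⁆ : Subgroup R) ≤ p := by
      have h1 : ⁅A, (⊤ : Subgroup R)⁆ < A := lt_of_le_of_ne (Subgroup.commutator_le_left _ _) (S3781.lt_of_ne_bot hnil A hAb)
      obtain ⟨j, hj⟩ := (hR.to_subgroup ⁅A, (⊤ : Subgroup R)⁆).exists_card_eq
      have h2 := H22.Basic.card_lt_of_lt h1
      rw [hj, hk] at h2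
      have h3 := (Nat.pow_lt_pow_iff_right hpp.one_lt).mp h2
      rw [hj]
      calc p ^ j ≤ p ^ 1 := Nat.pow_le_pow_right hpp.pos (by omega)
        _ = p := pow_one p
    have hidx : (centralizer ({v} : Set R)).index ≤ p := by
      refine le_trans ?_ hK
      rw [Subgroup.index_eq_card]
      let f : R ⧸ centralizer ({v} : Set R) → (⁅A, (⊤ : Subgroup R)⁆ : Subgroup R) := Quotient.lift
        (fun g => (⟨v * g * v⁻¹ * g⁻¹, commutator_mem_commutator hv (mem_top g)⟩ : (⁅A, (⊤ : Subgroup R)⁆ : Subgroup R))) (by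
          intro a b hab
          have h1 : a⁻¹ * b ∈ centralizer ({v} : Set R) := QuotientGroup.leftRel_apply.mp hab
          rw [mem_centralizer_singleton_iff] at h1
          apply Subtype.ext
          show v * a * v⁻¹ * a⁻¹ = v * b * v⁻¹ * b⁻¹
          have h2 : (a⁻¹ * b) * v⁻¹ = v⁻¹ * (a⁻¹ * b) := ((show Commute (a⁻¹ * b) v from h1).inv_right).eq
          calc v * a * v⁻¹ * a⁻¹ = v * a * (v⁻¹ * (a⁻¹ * b)) * b⁻¹ := by group
            _ = v * a * ((a⁻¹ * b) * v⁻¹) * b⁻¹ := by rw [h2]
            _ = _ := by group)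
      apply Nat.card_le_card_of_injective f
      intro a b hab
      obtain ⟨a, rfl⟩ := QuotientGroup.mk_surjective a
      obtain ⟨b, rfl⟩ := QuotientGroup.mk_surjective b
      rw [QuotientGroup.eq, mem_centralizer_singleton_iff]
      have h1 : v * a * v⁻¹ * a⁻¹ = v * b * v⁻¹ * b⁻¹ := congrArg Subtype.val hab
      have h2 : a * v⁻¹ * a⁻¹ = b * v⁻¹ * b⁻¹ := by
        have : v * (a * v⁻¹ * a⁻¹) = v * (b * v⁻¹ * b⁻¹) := by
          calc v * (a * v⁻¹ * a⁻¹) = v * a * v⁻¹ * a⁻¹ := by group
            _ = v * b * v⁻¹ * b⁻¹ := h1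
            _ = _ := by group
        exact mul_left_cancel this
      have h3 : a * v * a⁻¹ = b * v * b⁻¹ := by
        have := congrArg (·⁻¹) h2
        simp only [mul_inv_rev, inv_inv] at this
        simpa [mul_assoc] using this
      calc a⁻¹ * b * v = a⁻¹ * (b * v * b⁻¹) * b := by group
        _ = a⁻¹ * (a * v * a⁻¹) * b := by rw [h3]
        _ = v * (a⁻¹ * b) := by group
    rw [hCv] at hidx
    rw [← A.card_mul_index]
    calc Nat.card A * A.index ≤ p ^ 2 * p := Nat.mul_le_mul hA2 hidx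
      _ = p ^ 3 := by ring

end Cfsg.Agent.S3771
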