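import Cfsg.Statements.S3772
import Cfsg.Agent.H22_Basic
import Cfsg.Agent.H2_PGroup
import Cfsg.Agent.H1_Nilp
import Cfsg.Agent.H1_Frattini

set_option autoImplicit false
open Cfsg

namespace Cfsg.Agent.S3772

open Subgroup
open scoped commutatorElement

open Classical in
/-- sign -/
noncomputable def e {G : Type*} [Group G] (g : G) : ℤ := if g = 1 then 1 else -1

theorem e_one {G : Type*} [Group G] : e (1 : G) = 1 := by simp [e]

theorem e_mul {G : Type*} [Group G] {F : Subgroup G} (hF : Nat.card F = 2) {g h : G} (hg : g ∈ F) (hh : h ∈ F) :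
    e (g * h) = e g * e h := by
  have hsq : ∀ x ∈ F, x ^ 2 = 1 := by
    intro x hx
    have := pow_card_eq_one' (x := (⟨x, hx⟩ : F))
    rw [hF] at this
    exact congrArg Subtype.val this
  unfold e
  by_cases h1 : g = 1
  · subst h1; rw [one_mul, if_pos rfl, one_mul]
  · by_cases h2 : h = 1
    · subst h2; rw [mul_one, if_pos rfl, mul_one]
    · have : g = h := by
        by_contra h3
        have hfin : Finite F := Nat.finite_of_card_ne_zero (by rw [hF]; norm_num)
        have h7 : Nat.card ({1, g, h} : Set G) ≤ Nat.card F := by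
          apply Nat.card_mono (Set.toFinite _)
          rintro w (rfl | rfl | rfl)
          · exact one_mem _
          · exact hg
          · exact hh
        have h8 : Nat.card ({1, g, h} : Set G) = 3 := by
          rw [Nat.card_coe_set_eq, Set.ncard_eq_three]
          exact ⟨1, g, h, fun h => h1 h.symm, fun h => h2 h.symm, h3, rfl⟩
        rw [h8, hF] at h7
        omega
      subst this
      rw [← sq, hsq g hg, if_pos rfl, if_neg h1]; norm_num

variable {G : Type*} [Group G] [Finite G]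

omit [Finite G] in
open Classical in
theorem main [Fintype G] (F : Subgroup G) (hF : Nat.card F = 2) (hFZ : F ≤ center G) (hsq : ∀ x : G, x ^ 2 ∈ F)
    (hcomm : ∀ x y : G, ⁅x, y⁆ ∈ F) :
    (∑ x : G, e (x ^ 2)) ^ 2 = 0 ∨ ((∑ x : G, e (x ^ 2)) ^ 2 = (Nat.card G : ℤ) * Nat.card (center G) ∧ ∀ x ∈ center G, x ^ 2 = 1) := by
  have hFc : ∀ c ∈ F, ∀ y : G, c * y = y * c := fun c hc y => (mem_center_iff.mp (hFZ hc) y).symm
  have hxy : ∀ x y : G, (x * y) ^ 2 = ⁅y, x⁆ * (x ^ 2 * y ^ 2) := by
    intro x y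
    calc (x * y) ^ 2 = x * ⁅y, x⁆ * (x * y * y) := by rw [sq, commutatorElement_def]; group
      _ = ⁅y, x⁆ * x * (x * y * y) := by rw [hFc _ (hcomm y x)]
      _ = _ := by rw [sq, sq]; group
  have hbil : ∀ x y z : G, ⁅z, x * y⁆ = ⁅z, x⁆ * ⁅z, y⁆ := by
    intro x y z
    have h7 : ⁅z, x * y⁆ = ⁅z, x⁆ * (x * ⁅z, y⁆ * x⁻¹) := by rw [commutatorElement_def, commutatorElement_def, commutatorElement_def]; group
    rw [h7, ← hFc _ (hcomm z y) x, mul_inv_cancel_right]
  have he2 : ∀ g : G, e g * e g = 1 := by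
    intro g; unfold e; split_ifs <;> norm_num
  have hT : (∑ x : G, e (x ^ 2)) ^ 2 = ∑ y : G, e (y ^ 2) * ∑ x : G, e ⁅y, x⁆ := by
    calc (∑ x : G, e (x ^ 2)) ^ 2 = ∑ x : G, ∑ y : G, e (x ^ 2) * e (y ^ 2) := by rw [sq, Finset.sum_mul_sum]
      _ = ∑ x : G, ∑ y : G, e (x ^ 2) * e ((x * y) ^ 2) := by
          apply Finset.sum_congr rfl
          intro x _
          exact (Equiv.sum_comp (Equiv.mulLeft x) (fun y => e (x ^ 2) * e (y ^ 2))).symm
      _ = ∑ x : G, ∑ y : G, e (y ^ 2) * e ⁅y, x⁆ := by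
          apply Finset.sum_congr rfl
          intro x _
          apply Finset.sum_congr rfl
          intro y _
          rw [hxy, e_mul hF (hcomm y x) (mul_mem (hsq x) (hsq y)), e_mul hF (hsq x) (hsq y)]
          calc e (x ^ 2) * (e ⁅y, x⁆ * (e (x ^ 2) * e (y ^ 2))) = (e (x ^ 2) * e (x ^ 2)) * (e (y ^ 2) * e ⁅y, x⁆) := by ring
            _ = _ := by rw [he2, one_mul]
      _ = ∑ y : G, ∑ x : G, e (y ^ 2) * e ⁅y, x⁆ := Finset.sum_comm
      _ = _ := by
          apply Finset.sum_congr rfl
          intro y _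
          rw [Finset.mul_sum]
  let φ : G → (G →* ℤ) := fun y =>
    { toFun := fun x => e ⁅y, x⁆
      map_one' := by rw [commutatorElement_one_right, e_one]
      map_mul' := fun a b => by rw [hbil, e_mul hF (hcomm y a) (hcomm y b)] }
  have hinner : ∀ y : G, ∑ x : G, e ⁅y, x⁆ = if y ∈ center G then (Nat.card G : ℤ) else 0 := by
    intro y
    have h1 := sum_hom_units (φ y)
    have h2 : φ y = 1 ↔ y ∈ center G := by
      constructor
      · intro h
        rw [mem_center_iff]
        intro g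
        have h3 : e ⁅y, g⁆ = 1 := DFunLike.congr_fun h g
        have h4 : ⁅y, g⁆ = 1 := by
          unfold e at h3
          by_contra h5
          rw [if_neg h5] at h3
          norm_num at h3
        exact (commutatorElement_eq_one_iff_mul_comm.mp h4).symm
      · intro h
        refine MonoidHom.ext (fun g => ?_)
        show e ⁅y, g⁆ = 1
        rw [commutatorElement_eq_one_iff_mul_comm.mpr (mem_center_iff.mp h g).symm, e_one]
    have h3 : ∑ x : G, e ⁅y, x⁆ = ∑ x : G, φ y x := rfl
    rw [h3, h1]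
    by_cases h : y ∈ center G
    · rw [if_pos (h2.mpr h), if_pos h, Nat.card_eq_fintype_card]
    · rw [if_neg (fun h' => h (h2.mp h')), if_neg h]
      rfl
  have hT2 : (∑ x : G, e (x ^ 2)) ^ 2 = (Nat.card G : ℤ) * ∑ y : center G, e ((y : G) ^ 2) := by
    rw [hT]
    simp_rw [hinner, mul_ite, mul_zero]
    rw [← Finset.sum_filter, Finset.mul_sum]
    rw [Finset.sum_subtype (Finset.univ.filter (fun y => y ∈ center G)) (p := fun y => y ∈ center G) (by intro x; simp)]
    apply Finset.sum_congr rfl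
    intro y _
    ring
  let ψ : center G →* ℤ :=
    { toFun := fun x => e ((x : G) ^ 2)
      map_one' := by rw [Subgroup.coe_one, one_pow, e_one]
      map_mul' := fun a b => by
        rw [Subgroup.coe_mul, (show Commute (a : G) b from mem_center_iff.mp b.2 a).mul_pow, e_mul hF (hsq _) (hsq _)] }
  have h5 := sum_hom_units ψ
  have h6 : ∑ y : center G, e ((y : G) ^ 2) = ∑ y : center G, ψ y := rfl
  rw [hT2, h6, h5]
  by_cases h : ψ = 1
  · right
    rw [if_pos h]
    refine ⟨by rw [Nat.card_eq_fintype_card (α := center G)], ?_⟩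
    intro x hx
    have h3 : e (x ^ 2) = 1 := DFunLike.congr_fun h ⟨x, hx⟩
    unfold e at h3
    by_contra h5
    rw [if_neg h5] at h3
    norm_num at h3
  · left
    rw [if_neg h]; simp

/-- Number of solutions of x² = 1 in a 2-group with |Φ(G)| = 2. -/
theorem result {G : Type*} [Group G] [Finite G] (hG : IsPGroup 2 G) (hΦ : Nat.card (frattini G) = 2) (d : ℕ) (hd : (frattini G).index = 2 ^ d) : (Nat.card {x : G // x ^ 2 = 1} = 2 ^ d ∨ ∃ r : ℕ, 1 ≤ r ∧ 2 * r ≤ d ∧ (Nat.card {x : G // x ^ 2 = 1} = 2 ^ d + 2 ^ (d - r) ∨ Nat.card {x : G // x ^ 2 = 1} + 2 ^ (d - r) = 2 ^ d)) ∧ (∀ r : ℕ, d = 2 * r → (Nat.card {x : G // x ^ 2 = 1} = 2 ^ d + 2 ^ r ∨ Nat.card {x : G // x ^ 2 = 1} + 2 ^ r = 2 ^ d) → Cfsg.IsExtraspecial 2 G) := by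
  classical
  have := Fact.mk Nat.prime_two
  have hft := Fintype.ofFinite G
  set F := frattini G with hF
  have hcG : Nat.card G = 2 ^ (d + 1) := by
    rw [← F.card_mul_index, hΦ, hd, pow_succ, mul_comm]
  have hfr := H1.Nilp.commutator_le_frattini hG
  have hsq : ∀ x : G, x ^ 2 ∈ F := hfr.2
  have hcomm : ∀ x y : G, ⁅x, y⁆ ∈ F := fun x y => hfr.1 (by
    rw [_root_.commutator_def]; exact commutator_mem_commutator (mem_top x) (mem_top y))
  have hFn : F.Normal := inferInstance
  have hFZ : F ≤ center G := by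
    intro c hc
    rw [mem_center_iff]
    intro g
    by_cases hc1 : c = 1
    · rw [hc1, mul_one, one_mul]
    · have h1 : g * c * g⁻¹ ∈ F := hFn.conj_mem c hc g
      have h2 : e (g * c * g⁻¹ * c⁻¹) = e (g * c * g⁻¹) * e c⁻¹ := e_mul hΦ h1 (inv_mem hc)
      have h3 : e (g * c * g⁻¹) = -1 := by
        unfold e
        rw [if_neg]
        intro h
        apply hc1
        have : c = g⁻¹ * (g * c * g⁻¹) * g := by group
        rw [this, h]; group
      have h4 : e c⁻¹ = -1 := by unfold e; rw [if_neg (inv_ne_one.mpr hc1)]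
      rw [h3, h4] at h2
      unfold e at h2
      by_contra hne
      rw [if_neg] at h2
      · norm_num at h2
      · intro h
        apply hne
        rw [mul_inv_eq_one] at h
        exact mul_inv_eq_iff_eq_mul.mp h
  set a := Nat.card {x : G // x ^ 2 = 1} with ha
  have hsum : (∑ x : G, e (x ^ 2)) = 2 * (a : ℤ) - 2 ^ (d + 1) := by
    have h1 : (a : ℤ) = ∑ x : G, (if x ^ 2 = 1 then (1 : ℤ) else 0) := by
      rw [Finset.sum_boole, ha, Nat.card_eq_fintype_card, Fintype.card_subtype]
    have h2 : ((2 : ℤ) ^ (d + 1)) = ∑ x : G, (1 : ℤ) := by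
      rw [Finset.sum_const, Finset.card_univ, ← Nat.card_eq_fintype_card, hcG]
      simp
    rw [h1, h2, Finset.mul_sum, ← Finset.sum_sub_distrib]
    apply Finset.sum_congr rfl
    intro x _
    unfold e
    split_ifs <;> norm_num
  obtain ⟨k, hk⟩ := (hG.to_subgroup (center G)).exists_card_eq
  have hkd : k ≤ d + 1 := by
    have := Subgroup.card_subgroup_dvd_card (center G)
    rw [hk, hcG] at this
    exact (Nat.pow_dvd_pow_iff_le_right (by norm_num)).mp this
  have hk1 : 1 ≤ k := by
    have := H22.Basic.card_le_of_le hFZ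
    rw [hΦ, hk] at this
    by_contra h
    have h0 : k = 0 := by omega
    rw [h0, pow_zero] at this
    omega
  have hmain := main F hΦ hFZ hsq hcomm
  rw [hsum] at hmain
  -- analysis
  have hab : k = d + 1 → (∀ x ∈ center G, x ^ 2 = 1) → False := by
    intro hk' hZ
    have hct : center G = ⊤ := Subgroup.eq_top_of_card_eq _ (by rw [hk, hcG, hk'])
    have h1 : F ≤ ⊥ := H1.Frattini.frattini_le_of_elementary (p := 2) ⊥ (by
      rw [_root_.commutator_def, Subgroup.commutator_le]
      intro x _ y _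
      rw [Subgroup.mem_bot, commutatorElement_eq_one_iff_mul_comm]
      have : y ∈ center G := by rw [hct]; trivial
      exact mem_center_iff.mp this x) (fun x => by
      rw [Subgroup.mem_bot]; exact hZ x (by rw [hct]; trivial))
    rw [le_bot_iff] at h1
    rw [h1, Subgroup.card_bot] at hΦ
    omega
  rcases hmain with h0 | ⟨hsq2, hZ⟩
  · have h1 : 2 * (a : ℤ) - 2 ^ (d + 1) = 0 := pow_eq_zero_iff (two_ne_zero) |>.mp h0
    have h2 : a = 2 ^ d := by
      have : (a : ℤ) = 2 ^ d := by rw [pow_succ] at h1; linarith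
      exact_mod_cast this
    refine ⟨Or.inl h2, ?_⟩
    intro r _ h
    exfalso
    have h3 : 0 < 2 ^ r := pow_pos (by norm_num) r
    omega
  · have hkd' : k ≤ d := by
      by_contra h
      exact hab (by omega) hZ
    rw [hcG, hk] at hsq2
    have hnat : (2 * (a : ℤ) - 2 ^ (d + 1)).natAbs ^ 2 = 2 ^ (d + 1 + k) := by
      have h1 : (((2 * (a : ℤ) - 2 ^ (d + 1)).natAbs ^ 2 : ℕ) : ℤ) = (2 * (a : ℤ) - 2 ^ (d + 1)) ^ 2 := by
        push_cast
        exact sq_abs _
      rw [hsq2] at h1
      have h2 : (((2 * (a : ℤ) - 2 ^ (d + 1)).natAbs ^ 2 : ℕ) : ℤ) = ((2 ^ (d + 1 + k) : ℕ) : ℤ) := by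
        rw [h1]; push_cast; ring
      exact Int.ofNat_inj.mp h2
    obtain ⟨t, _, ht⟩ := (Nat.dvd_prime_pow Nat.prime_two).mp (show (2 * (a : ℤ) - 2 ^ (d + 1)).natAbs ∣ 2 ^ (d + 1 + k) by
      rw [← hnat]; exact dvd_pow_self _ two_ne_zero)
    rw [ht, ← pow_mul] at hnat
    have h2t : t * 2 = d + 1 + k := Nat.pow_right_injective (le_refl 2) hnat
    have hT : 2 * (a : ℤ) - 2 ^ (d + 1) = 2 ^ t ∨ 2 * (a : ℤ) - 2 ^ (d + 1) = -2 ^ t := by
      have h1 := Int.natAbs_eq (2 * (a : ℤ) - 2 ^ (d + 1))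
      rw [ht] at h1
      push_cast at h1
      exact h1
    obtain ⟨u, rfl⟩ : ∃ u, t = u + 1 := ⟨t - 1, by omega⟩
    have hcases : a = 2 ^ d + 2 ^ u ∨ a + 2 ^ u = 2 ^ d := by
      rcases hT with h | h
      · left
        have : (a : ℤ) = 2 ^ d + 2 ^ u := by rw [pow_succ, pow_succ] at h; linarith
        exact_mod_cast this
      · right
        have : (a : ℤ) + 2 ^ u = 2 ^ d := by rw [pow_succ, pow_succ] at h; linarith
        exact_mod_cast this
    refine ⟨Or.inr ⟨d - u, by omega, by omega, ?_⟩, ?_⟩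
    · rw [show d - (d - u) = u by omega]; exact hcases
    · intro r hr h
      have hur : u = r := by
        apply Nat.pow_right_injective (le_refl 2)
        show 2 ^ u = 2 ^ r
        have h1 : 0 < 2 ^ u := pow_pos (by norm_num) u
        have h2 : 0 < 2 ^ r := pow_pos (by norm_num) r
        omega
      have hk' : k = 1 := by omega
      rw [hk', pow_one] at hk
      have hFZ' : F = center G := H22.Basic.eq_of_le_of_card_le hFZ (by rw [hk, hΦ])
      refine ⟨⟨hG, hFZ', ?_⟩, hk⟩
      rw [← hFZ']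
      apply H22.Basic.eq_of_le_of_card_le hfr.1
      rw [hΦ]
      by_contra hlt
      have h1 : Nat.card (_root_.commutator G) = 1 := by
        have : 0 < Nat.card (_root_.commutator G) := Nat.card_pos
        omega
      have h2 : _root_.commutator G = ⊥ := Subgroup.card_eq_one.mp h1
      have h3 : center G = ⊤ := by
        rw [eq_top_iff]
        intro x _
        rw [mem_center_iff]
        intro y
        have : ⁅y, x⁆ ∈ _root_.commutator G := by
          rw [_root_.commutator_def]; exact commutator_mem_commutator (mem_top y) (mem_top x)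
        rw [h2, Subgroup.mem_bot] at this
        exact commutatorElement_eq_one_iff_mul_comm.mp this
      rw [h3, Subgroup.card_top, hcG] at hk
      have h4 : d + 1 = 1 := Nat.pow_right_injective (le_refl 2) (by simpa using hk)
      exact hab (by omega) hZ

end Cfsg.Agent.S3772
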