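import Cfsg.Statements.S3773
import Cfsg.Agent.H22_Basic
import Cfsg.Agent.H22_Quad
import Cfsg.Agent.H2_PGroup
import Cfsg.Agent.H1_Basic
import Cfsg.Agent.H1_Frattini

set_option autoImplicit false
open Cfsg

namespace Cfsg.Agent.S3773

open Subgroup
open scoped commutatorElement

variable {G : Type*} [Group G] [Finite G]

/-- complements in elementary abelian sections: `A ≤ B ≤ T`, `T/A` elementary abelian, there is `C` with `C ∩ B = A`, `CB = T` -/
theorem exists_compl (A B T : Subgroup G) (hAB : A ≤ B) (hBT : B ≤ T) (hel : ∀ x ∈ T, x ^ 2 ∈ A)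
    (hA : T ≤ normalizer (A : Set G)) :
    ∃ C : Subgroup G, A ≤ C ∧ C ≤ T ∧ C ⊓ B = A ∧ C ⊔ B = T := by
  have hcomm : ∀ x ∈ T, ∀ y ∈ T, x * y * x⁻¹ * y⁻¹ ∈ A := by
    intro x hx y hy
    have h1 : x * y * x⁻¹ * y⁻¹ = (x * y) ^ 2 * (y⁻¹ * (x ^ 2)⁻¹ * y) * (y ^ 2)⁻¹ := by
      rw [sq, sq, sq]; group
    rw [h1]
    refine mul_mem (mul_mem (hel _ (mul_mem hx hy)) ?_) (inv_mem (hel y hy))
    have := (mem_normalizer_iff.mp (hA (inv_mem hy)) _).mp (inv_mem (hel x hx))
    rwa [inv_inv] at this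
  -- choose C maximal with C ⊓ B = A
  obtain ⟨C, ⟨hAC, hCT, hCB⟩, hmax⟩ := (Set.toFinite {C : Subgroup G | A ≤ C ∧ C ≤ T ∧ C ⊓ B = A}).exists_maximal
    ⟨A, le_rfl, hAB.trans hBT, inf_eq_left.mpr hAB⟩
  refine ⟨C, hAC, hCT, hCB, le_antisymm (sup_le hCT hBT) ?_⟩
  intro x hx
  by_contra hcon
  -- C' = C ⊔ ⟨x⟩
  have hCn : ∀ D : Subgroup G, A ≤ D → D ≤ T → T ≤ normalizer (D : Set G) := by
    intro D hAD hDT t ht
    apply H22.Basic.mem_normalizer_of_cj_le
    rintro _ ⟨d, hd, rfl⟩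
    show t * d * t⁻¹ ∈ D
    have : t * d * t⁻¹ = (t * d * t⁻¹ * d⁻¹) * d := by group
    rw [this]
    exact mul_mem (hAD (hcomm t ht d (hDT hd))) hd
  have hnx : zpowers x ≤ normalizer (C : Set G) := (zpowers_le.mpr hx).trans (hCn C hAC hCT)
  have hC' : C ⊔ zpowers x ≤ C := by
    apply hmax ⟨hAC.trans le_sup_left, sup_le hCT (zpowers_le.mpr hx), ?_⟩ le_sup_left
    apply le_antisymm _ (le_inf (hAC.trans le_sup_left) hAB)
    rintro y ⟨hy, hyB⟩
    obtain ⟨c, hc, w, hw, rfl⟩ := (H22.Basic.mem_sup_of_le_normalizer hnx).mp hy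
    obtain ⟨j, rfl⟩ := mem_zpowers_iff.mp hw
    rcases Int.even_or_odd' j with ⟨k, hk | hk⟩
    · have h1 : x ^ j ∈ A := by
        rw [hk, zpow_mul]
        exact zpow_mem (by have := hel x hx; exact_mod_cast this) k
      rw [← hCB]
      exact ⟨mul_mem hc (hAC h1), hyB⟩
    · exfalso
      apply hcon
      have h1 : x ^ j = x ^ (2 * k) * x := by rw [hk, zpow_add, zpow_one]
      have h2 : x ^ (2 * k) ∈ A := by
        rw [zpow_mul]
        exact zpow_mem (by have := hel x hx; exact_mod_cast this) k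
      have h3 : x = (x ^ (2 * k))⁻¹ * (c⁻¹ * (c * x ^ j)) := by rw [h1]; group
      rw [h3]
      exact mul_mem (mem_sup_left (hAC (inv_mem h2))) (mul_mem (mem_sup_left (inv_mem hc)) (mem_sup_right hyB))
  exact hcon (mem_sup_left (hC' (mem_sup_right (mem_zpowers x))))

/-- A 2-group of class ≤ 2 and exponent ≤ 4 whose involutions (with 1) form a subgroup N has order at most |N|³, strictly unless the group is special. -/
theorem result {G : Type*} [Group G] [Finite G] (hG : IsPGroup 2 G) (hcl : (⊤ : Subgroup G).lowerCentralSeries 2 = ⊥) (hexp : ∀ x : G, x ^ 4 = 1) (hN : ∀ x y : G, x ^ 2 = 1 → y ^ 2 = 1 → (x * y) ^ 2 = 1) : Nat.card G ≤ Nat.card {x : G // x ^ 2 = 1} ^ 3 ∧ (¬ Cfsg.IsSpecial 2 G → Nat.card G < Nat.card {x : G // x ^ 2 = 1} ^ 3) := by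
  have hcen : ∀ x y z : G, ⁅x, y⁆ * z = z * ⁅x, y⁆ := by
    intro x y z
    have h1 : ⁅⁅x, y⁆, z⁆ ∈ (⊤ : Subgroup G).lowerCentralSeries 2 :=
      commutator_mem_commutator (commutator_mem_commutator (mem_top x) (mem_top y)) (mem_top z)
    rw [hcl, Subgroup.mem_bot] at h1
    exact commutatorElement_eq_one_iff_mul_comm.mp h1
  have hxy : ∀ x y : G, (x * y) ^ 2 = ⁅y, x⁆ * (x ^ 2 * y ^ 2) := by
    intro x y
    calc (x * y) ^ 2 = x * ⁅y, x⁆ * (x * y * y) := by rw [sq, commutatorElement_def]; group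
      _ = ⁅y, x⁆ * x * (x * y * y) := by rw [← hcen]
      _ = _ := by rw [sq, sq]; group
  have hbil : ∀ x y z : G, ⁅x * y, z⁆ = ⁅x, z⁆ * ⁅y, z⁆ := by
    intro x y z
    have h7 : ⁅x * y, z⁆ = x * ⁅y, z⁆ * x⁻¹ * ⁅x, z⁆ := by rw [commutatorElement_def, commutatorElement_def, commutatorElement_def]; group
    rw [h7, ← hcen y z x, mul_inv_cancel_right, hcen]
  have hc2 : ∀ x y : G, ⁅x, y⁆ ^ 2 = 1 := by
    intro x y
    -- (yx)^4 = [x,y]^6 y^4 x^4
    have h1 : (y * x) ^ 4 = 1 := hexp _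
    have h2 : (y * x) ^ 4 = ⁅x, y⁆ ^ 2 * (y ^ 2 * x ^ 2) ^ 2 := by
      rw [show (4 : ℕ) = 2 * 2 by norm_num, pow_mul, hxy, (show Commute ⁅x, y⁆ (y ^ 2 * x ^ 2) from hcen _ _ _).mul_pow]
    have h3 : ⁅x ^ 2, y ^ 2⁆ = ⁅x, y⁆ ^ 4 := by
      have h4 : ⁅x ^ 2, y ^ 2⁆ = ⁅x, y ^ 2⁆ ^ 2 := by rw [sq x, hbil, ← sq]
      have h5 : ⁅x, y ^ 2⁆ = ⁅x, y⁆ ^ 2 := by
        rw [← commutatorElement_inv (y ^ 2) x, sq, hbil, ← sq, ← commutatorElement_inv x y, inv_pow, inv_inv]
      rw [h4, h5, ← pow_mul]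
    have h6 : (y ^ 2 * x ^ 2) ^ 2 = ⁅x, y⁆ ^ 4 := by
      rw [hxy, h3, ← pow_mul, ← pow_mul, hexp y, hexp x, mul_one, mul_one]
    rw [h2, h6, hexp, mul_one] at h1
    exact h1
  have hsqc : ∀ x y : G, x ^ 2 * y = y * x ^ 2 := by
    intro x y
    rw [← commutatorElement_eq_one_iff_mul_comm, sq, hbil, ← sq, hc2]
  let N : Subgroup G :=
    { carrier := {x | x ^ 2 = 1}
      one_mem' := one_pow 2
      mul_mem' := fun {a b} ha hb => hN a b ha hb
      inv_mem' := fun {a} ha => by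
        show a⁻¹ ^ 2 = 1
        rw [inv_pow, (show a ^ 2 = 1 from ha), inv_one] }
  have hNcard : Nat.card {x : G // x ^ 2 = 1} = Nat.card N := rfl
  rw [hNcard]
  have hsqN : ∀ x : G, x ^ 2 ∈ N := fun x => by
    show (x ^ 2) ^ 2 = 1
    rw [← pow_mul]; exact hexp x
  let M : Subgroup G := N ⊓ center G
  have hMN : M ≤ N := inf_le_left
  have hMZ : M ≤ center G := inf_le_right
  have hsqM : ∀ x : G, x ^ 2 ∈ M := fun x => ⟨hsqN x, by
    show x ^ 2 ∈ center G; rw [mem_center_iff]; exact fun y => (hsqc x y).symm⟩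
  have hcM : ∀ x y : G, ⁅x, y⁆ ∈ M := fun x y => ⟨hc2 x y, by
    show ⁅x, y⁆ ∈ center G; rw [mem_center_iff]; exact fun z => (hcen x y z).symm⟩
  have hnormtop : ∀ D : Subgroup G, D ≤ center G → (⊤ : Subgroup G) ≤ normalizer (D : Set G) := by
    intro D hD t _
    apply H22.Basic.mem_normalizer_of_cj_le
    rintro _ ⟨d, hd, rfl⟩
    show t * d * t⁻¹ ∈ D
    rw [mem_center_iff.mp (hD hd) t, mul_inv_cancel_right]; exact hd
  -- main estimate
  have hest : ∀ (D T : Subgroup G), D ≤ M → D ≤ T → (∀ x ∈ T, x ^ 2 ∈ D) → ∀ C : Subgroup G, C ≤ D →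
      (∀ x ∈ T, x ^ 2 ∈ C → x ∈ D) → D.relIndex T ≤ (C.relIndex D) ^ 2 := by
    intro D T hDM hDT hsqD C hCD hTC
    by_contra hcon
    push Not at hcon
    obtain ⟨x, hxD, hx2⟩ := H22.Quad.exists_sq (D.subgroupOf T) (by
      intro c hc
      rw [mem_center_iff]
      intro y
      exact Subtype.ext (mem_center_iff.mp (hMZ (hDM hc)) y)) (fun x => hsqD x x.2) (fun c hc => Subtype.ext (hMN (hDM hc))) (C.subgroupOf T) (by
      rw [Subgroup.relIndex_subgroupOf hDT]; exact hcon)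
    exact hxD (hTC x x.2 hx2)
  have hNn : N.Normal := ⟨fun x hx g => by
    show (g * x * g⁻¹) ^ 2 = 1
    rw [conj_pow, (show x ^ 2 = 1 from hx), mul_one, mul_inv_cancel]⟩
  have hnormN : ∀ D : Subgroup G, D ≤ normalizer (N : Set G) := fun D => by rw [Subgroup.normalizer_eq_top N]; exact le_top
  have hrc : ∀ A B : Subgroup G, A ≤ B → Nat.card A * A.relIndex B = Nat.card B := fun A B h => H22.Basic.card_mul_relIndex h
  obtain ⟨C0, hMC0, _, hC0N, hC0top⟩ := exists_compl M N ⊤ hMN le_top (fun x _ => hsqM x) (hnormtop M hMZ)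
  have h1 := hest M C0 le_rfl hMC0 (fun x _ => hsqM x) ⊥ bot_le (fun x hx hx2 => by
    rw [← hC0N]; exact ⟨hx, Subgroup.mem_bot.mp hx2⟩)
  rw [Subgroup.relIndex_bot_left] at h1
  have h2 := H1.Basic.card_sup_mul_card_inf (H := C0) (K := N) (hnormN C0)
  rw [hC0top, hC0N, Subgroup.card_top, ← hrc M C0 hMC0] at h2
  have hMpos : 0 < Nat.card M := Nat.card_pos
  have h3 : Nat.card G = M.relIndex C0 * Nat.card N := by
    apply Nat.eq_of_mul_eq_mul_right hMpos
    rw [h2]; ring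
  have hMNc : Nat.card M ≤ Nat.card N := H22.Basic.card_le_of_le hMN
  have h4 : Nat.card G ≤ Nat.card M ^ 2 * Nat.card N := by
    rw [h3]; exact Nat.mul_le_mul_right _ h1
  have h5 : Nat.card G ≤ Nat.card N ^ 3 := by
    calc Nat.card G ≤ Nat.card M ^ 2 * Nat.card N := h4
      _ ≤ Nat.card N ^ 2 * Nat.card N := Nat.mul_le_mul_right _ (Nat.pow_le_pow_left hMNc 2)
      _ = Nat.card N ^ 3 := by ring
  refine ⟨h5, ?_⟩
  intro hns
  by_contra hcon
  apply hns
  have hGN : Nat.card G = Nat.card N ^ 3 := le_antisymm h5 (not_lt.mp hcon)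
  have hNpos : 0 < Nat.card N := Nat.card_pos
  have hMN' : M = N := by
    apply H22.Basic.eq_of_le_of_card_le hMN
    by_contra hlt
    push Not at hlt
    have h6 : Nat.card M ^ 2 * Nat.card N < Nat.card N ^ 3 := by
      calc Nat.card M ^ 2 * Nat.card N < Nat.card N ^ 2 * Nat.card N := Nat.mul_lt_mul_of_pos_right (Nat.pow_lt_pow_left hlt two_ne_zero) hNpos
        _ = Nat.card N ^ 3 := by ring
    omega
  rw [hMN'] at hest hsqM hcM hMZ
  have hC' : ∀ C : Subgroup G, C ≤ N → ∀ w, w ^ 2 ∈ C → ∀ (D : Subgroup G), C ≤ D → D ≤ C ⊔ zpowers w → w ^ 2 ∈ C := fun _ _ _ h _ _ _ => h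
  -- (a) the centre
  have ha : center G ≤ N := by
    intro z hz
    by_contra hzN
    have hc1 : z ^ 2 ≠ 1 := hzN
    set c := z ^ 2 with hc
    have hc2' : c ^ 2 = 1 := by rw [hc, ← pow_mul]; exact hexp z
    have hco : orderOf c = 2 := orderOf_eq_prime hc2' hc1
    have hzo : orderOf z ∣ 4 := orderOf_dvd_of_pow_eq_one (hexp z)
    have hcN : c ∈ N := hc2'
    have hnz : zpowers z ≤ normalizer (N : Set G) := hnormN _
    have hBcard : Nat.card (N ⊔ zpowers z : Subgroup G) ≤ 2 * Nat.card N := by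
      have h6 := H1.Basic.card_sup_mul_card_inf (H := zpowers z) (K := N) hnz
      have h7 : 2 ≤ Nat.card (zpowers z ⊓ N : Subgroup G) := by
        have : zpowers c ≤ zpowers z ⊓ N := zpowers_le.mpr ⟨pow_mem (mem_zpowers z) 2, hcN⟩
        have h8 := H22.Basic.card_le_of_le this
        rwa [Nat.card_zpowers, hco] at h8
      rw [sup_comm, Nat.card_zpowers] at h6
      have h8 : orderOf z ≤ 4 := Nat.le_of_dvd (by norm_num) hzo
      nlinarith
    obtain ⟨C1, hNC1, _, hC1B, hC1top⟩ := exists_compl N (N ⊔ zpowers z) ⊤ le_sup_left le_top (fun x _ => hsqM x) (hnormtop N hMZ)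
    have h6 := hest N C1 le_rfl hNC1 (fun x _ => hsqM x) (zpowers c) (zpowers_le.mpr hcN) (by
      intro x hx hx2
      have hx2' : x ^ 2 = 1 ∨ x ^ 2 = c := by
        obtain ⟨j, hj⟩ := mem_zpowers_iff.mp hx2
        rcases Int.even_or_odd' j with ⟨k, hk | hk⟩
        · left; rw [← hj, hk, zpow_mul, show c ^ (2 : ℤ) = 1 from by exact_mod_cast hc2', one_zpow]
        · right; rw [← hj, hk, zpow_add, zpow_mul, zpow_one]
          rw [show c ^ (2 : ℤ) = 1 from by exact_mod_cast hc2', one_zpow, one_mul]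
      rcases hx2' with h | h
      · exact h
      · have h7 : x * z ∈ N := by
          show (x * z) ^ 2 = 1
          rw [(show Commute x z from mem_center_iff.mp hz x).mul_pow, h, ← hc, ← sq, hc2']
        rw [← hC1B]
        refine ⟨hx, ?_⟩
        have : x = (x * z) * z⁻¹ := by group
        rw [this]
        exact mul_mem (mem_sup_left h7) (mem_sup_right (inv_mem (mem_zpowers z))))
    have h7 := hrc (zpowers c) N (zpowers_le.mpr hcN)
    rw [Nat.card_zpowers, hco] at h7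
    have h8 := hrc N C1 hNC1
    have h9 := H1.Basic.card_sup_mul_card_inf (H := C1) (K := N ⊔ zpowers z) (by
      intro t _
      apply H22.Basic.mem_normalizer_of_cj_le
      rintro _ ⟨d, hd, rfl⟩
      show t * d * t⁻¹ ∈ N ⊔ zpowers z
      have : t * d * t⁻¹ = ⁅t, d⁆ * d := by rw [commutatorElement_def]; group
      rw [this]
      exact mul_mem (mem_sup_left (hcM t d)) hd)
    rw [hC1top, hC1B, Subgroup.card_top] at h9
    set k := (zpowers c).relIndex N with hk
    have hkpos : 0 < k := by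
      rcases Nat.eq_zero_or_pos k with h | h
      · rw [h] at h7; omega
      · exact h
    -- |G| ≤ 2 |C1|
    have h10 : Nat.card G ≤ 2 * Nat.card C1 := by
      have : Nat.card G * Nat.card N ≤ (2 * Nat.card C1) * Nat.card N := by
        rw [h9]
        calc Nat.card C1 * Nat.card (N ⊔ zpowers z : Subgroup G) ≤ Nat.card C1 * (2 * Nat.card N) := Nat.mul_le_mul_left _ hBcard
          _ = _ := by ring
      exact Nat.le_of_mul_le_mul_right this hNpos
    have h11 : Nat.card C1 ≤ Nat.card N * k ^ 2 := by rw [← h8]; exact Nat.mul_le_mul_left _ h6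
    rw [hGN, ← h7] at h10
    rw [← h7] at h11
    have h12 : 0 < k ^ 3 := pow_pos hkpos 3
    nlinarith
  -- (b) the commutator subgroup
  have hK : ⁅(⊤ : Subgroup G), (⊤ : Subgroup G)⁆ ≤ N := by
    rw [commutator_le]
    intro x _ y _
    exact hcM x y
  have hb : ⁅(⊤ : Subgroup G), (⊤ : Subgroup G)⁆ = N := by
    by_contra hne
    obtain ⟨C, ⟨hKC, hCN⟩, hmax⟩ := (Set.toFinite {C : Subgroup G | ⁅(⊤ : Subgroup G), (⊤ : Subgroup G)⁆ ≤ C ∧ C < N}).exists_maximal
      ⟨_, le_rfl, lt_of_le_of_ne hK hne⟩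
    obtain ⟨w, hwN, hwC⟩ : ∃ w ∈ N, w ∉ C := SetLike.exists_of_lt hCN
    have hCZ : C ≤ center G := hCN.le.trans hMZ
    have hCn : C.Normal := Subgroup.normalizer_eq_top_iff.mp (top_le_iff.mp (hnormtop C hCZ))
    have hCw : C ⊔ zpowers w = N := by
      by_contra hne2
      have h6 : C ⊔ zpowers w ≤ C := hmax ⟨hKC.trans le_sup_left, lt_of_le_of_ne (sup_le hCN.le (zpowers_le.mpr hwN)) hne2⟩ le_sup_left
      exact hwC (h6 (mem_sup_right (mem_zpowers w)))
    have hNC : Nat.card N ≤ 2 * Nat.card C := by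
      have h6 := H1.Basic.card_sup_mul_card_inf (H := zpowers w) (K := C) (by rw [Subgroup.normalizer_eq_top C]; exact le_top)
      rw [sup_comm, hCw, Nat.card_zpowers] at h6
      have h7 : orderOf w ≤ 2 := Nat.le_of_dvd (by norm_num) (orderOf_dvd_of_pow_eq_one hwN)
      have h8 : 0 < Nat.card (zpowers w ⊓ C : Subgroup G) := Nat.card_pos
      have h9 : 0 < Nat.card C := Nat.card_pos
      nlinarith
    have hCpos : 0 < Nat.card C := Nat.card_pos
    have hCN2 : Nat.card N = 2 * Nat.card C := by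
      have h6 := hrc C N hCN.le
      have h7 : C.relIndex N ≤ 2 := by
        have : Nat.card C * C.relIndex N ≤ Nat.card C * 2 := by rw [h6]; linarith
        exact Nat.le_of_mul_le_mul_left this hCpos
      have h8 : C.relIndex N ≠ 1 := fun h => hCN.not_ge (Subgroup.relIndex_eq_one.mp h)
      have h9 : C.relIndex N ≠ 0 := by intro h; rw [h] at h6; omega
      have h10 : C.relIndex N = 2 := by omega
      rw [← h6, h10]; ring
    let f : G →* G ⧸ C :=
      { toFun := fun x => ((x ^ 2 : G) : G ⧸ C)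
        map_one' := by rw [one_pow]; rfl
        map_mul' := by
          intro x y
          rw [← QuotientGroup.mk_mul, hxy, QuotientGroup.eq]
          have : (⁅y, x⁆ * (x ^ 2 * y ^ 2))⁻¹ * (x ^ 2 * y ^ 2) = (x ^ 2 * y ^ 2)⁻¹ * ⁅y, x⁆⁻¹ * (x ^ 2 * y ^ 2) := by group
          rw [this, ← commutatorElement_inv, inv_inv, mul_assoc, hcen, inv_mul_cancel_left]
          exact hKC (commutator_mem_commutator (mem_top x) (mem_top y)) }
    let T1 := f.ker
    have hT1 : ∀ x, x ∈ T1 ↔ x ^ 2 ∈ C := fun x => by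
      show ((x ^ 2 : G) : G ⧸ C) = 1 ↔ _
      exact QuotientGroup.eq_one_iff _
    have hT1i : T1.index ≤ 2 := by
      rw [Subgroup.index_ker]
      have h6 : f.range ≤ N.map (QuotientGroup.mk' C) := by
        rintro _ ⟨x, rfl⟩
        exact ⟨x ^ 2, hsqN x, rfl⟩
      have h7 := H22.Basic.card_le_of_le h6
      have h8 : Nat.card (N.map (QuotientGroup.mk' C)) = C.relIndex N := by
        rw [← Subgroup.relIndex_ker, QuotientGroup.ker_mk']
      have h9 := hrc C N hCN.le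
      have h10 : C.relIndex N ≤ 2 := by
        have : Nat.card C * C.relIndex N ≤ Nat.card C * 2 := by rw [h9, hCN2]; linarith
        exact Nat.le_of_mul_le_mul_left this hCpos
      omega
    have hNT1 : N ≤ T1 := by
      intro x hx
      rw [hT1, (show x ^ 2 = 1 from hx)]; exact one_mem _
    obtain ⟨T2, hCT2, hT2T1, hT2N, hT2top⟩ := exists_compl C N T1 hCN.le hNT1 (fun x hx => (hT1 x).mp hx) (le_top.trans (hnormtop C hCZ))
    have h6 := hest C T2 hCN.le hCT2 (fun x hx => (hT1 x).mp (hT2T1 hx)) ⊥ bot_le (fun x hx hx2 => by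
      rw [← hT2N]; exact ⟨hx, Subgroup.mem_bot.mp hx2⟩)
    rw [Subgroup.relIndex_bot_left] at h6
    have h7 := H1.Basic.card_sup_mul_card_inf (H := T2) (K := N) (hnormN T2)
    rw [hT2top, hT2N, ← hrc C T2 hCT2, hCN2] at h7
    have h8 : Nat.card T1 = C.relIndex T2 * (2 * Nat.card C) := by
      apply Nat.eq_of_mul_eq_mul_right hCpos
      rw [h7]; ring
    have h9 := T1.card_mul_index
    have h10 : Nat.card G ≤ Nat.card T1 * 2 := by rw [← h9]; exact Nat.mul_le_mul_left _ hT1i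
    rw [hGN, hCN2, h8] at h10
    have h11 : 0 < Nat.card C ^ 3 := pow_pos hCpos 3
    nlinarith
  have hZN : center G = N := le_antisymm ha hMZ
  refine ⟨hG, ?_, ?_⟩
  · rw [hZN]
    apply le_antisymm
    · have := Fact.mk Nat.prime_two
      exact H1.Frattini.frattini_le_of_elementary (p := 2) N (by rw [_root_.commutator_def]; exact hK) hsqN
    · have := Fact.mk Nat.prime_two
      rw [← hb]
      exact (H1.Nilp.commutator_le_frattini hG).1
  · rw [hZN, _root_.commutator_def]; exact hb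

end Cfsg.Agent.S3773
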