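import Cfsg.Statements.S3774

set_option autoImplicit false
open Cfsg

namespace Cfsg.Agent.S3774

open Subgroup

/-- Let G be a nontrivial finite 2-group whose automorphism group permutes the involutions of G transitively. Then every involution of G is central, so that the involutions together with 1 form the subgroup Ω₁(Z(G)), and if this subgroup has order q then |G| is a power of q. -/
theorem result {G : Type*} [Group G] [Finite G] [Nontrivial G] (hG : IsPGroup 2 G) (htrans : ∀ x y : G, x ≠ 1 → x ^ 2 = 1 → y ≠ 1 → y ^ 2 = 1 → ∃ a : MulAut G, a x = y) : (∀ x : G, x ^ 2 = 1 → x ∈ Subgroup.center G) ∧ ∃ m : ℕ, Nat.card G = Nat.card {z : G // z ^ 2 = 1} ^ m := by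
  classical
  have : Fintype G := Fintype.ofFinite G
  have hcn : Nontrivial (center G) := hG.center_nontrivial
  have hcp : IsPGroup 2 (center G) := hG.to_subgroup _
  obtain ⟨n, hn, hcard⟩ := hcp.nontrivial_iff_card.mp hcn
  obtain ⟨z0, hz0⟩ := exists_prime_orderOf_dvd_card' (G := center G) 2
    (by rw [hcard]; exact dvd_pow_self 2 hn.ne')
  have hz0o : orderOf (z0 : G) = 2 := by rw [orderOf_coe]; exact hz0
  have hz1 : (z0 : G) ≠ 1 := by
    intro h; rw [h, orderOf_one] at hz0o; exact absurd hz0o (by norm_num)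
  have hz2 : (z0 : G) ^ 2 = 1 := hz0o ▸ pow_orderOf_eq_one _
  have hcen : ∀ x : G, x ^ 2 = 1 → x ∈ center G := by
    intro x hx
    by_cases hx1 : x = 1
    · rw [hx1]; exact one_mem _
    obtain ⟨a, ha⟩ := htrans z0 x hz1 hz2 hx1 hx
    rw [mem_center_iff]
    intro g
    have h1 := mem_center_iff.mp z0.2 (a.symm g)
    have h2 := congrArg a h1
    rw [map_mul, map_mul, ha, a.apply_symm_apply] at h2
    exact h2
  refine ⟨hcen, ?_⟩
  -- the subgroup of elements with square one
  let Om : Subgroup G :=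
    { carrier := {z | z ^ 2 = 1}
      one_mem' := one_pow 2
      mul_mem' := by
        intro a b ha hb
        have h1 : Commute a b := (mem_center_iff.mp (hcen a ha) b).symm
        show (a * b) ^ 2 = 1
        rw [h1.mul_pow, ha, hb, mul_one]
      inv_mem' := by
        intro a ha
        show (a⁻¹) ^ 2 = 1
        rw [inv_pow, ha, inv_one] }
  have hOmc : Nat.card {z : G // z ^ 2 = 1} = Nat.card Om := rfl
  obtain ⟨a, ha⟩ := IsPGroup.iff_card.mp (hG.to_subgroup Om)
  obtain ⟨N, hN⟩ := IsPGroup.iff_card.mp hG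
  -- the map to involutions
  let f : G → G := fun x => x ^ (orderOf x / 2)
  have hordpow : ∀ x : G, ∃ k, orderOf x = 2 ^ k := fun x => IsPGroup.iff_orderOf.mp hG x
  have hf : ∀ x : G, x ≠ 1 → f x ≠ 1 ∧ (f x) ^ 2 = 1 := by
    intro x hx
    obtain ⟨k, hk⟩ := hordpow x
    have hk0 : k ≠ 0 := by
      rintro rfl
      rw [pow_zero, orderOf_eq_one_iff] at hk; exact hx hk
    obtain ⟨j, rfl⟩ := Nat.exists_eq_succ_of_ne_zero hk0
    have h1 : orderOf x / 2 = 2 ^ j := by
      rw [hk, Nat.pow_succ, Nat.mul_div_cancel _ (by norm_num)]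
    constructor
    · intro h
      have h2 : orderOf x ∣ 2 ^ j := by
        rw [← h1]; exact orderOf_dvd_of_pow_eq_one h
      rw [hk] at h2
      have := Nat.le_of_dvd (by positivity) h2
      have h3 : 2 ^ j < 2 ^ (j + 1) := Nat.pow_lt_pow_right (by norm_num) (Nat.lt_succ_self j)
      exact absurd this (not_le_of_gt h3)
    · show (x ^ (orderOf x / 2)) ^ 2 = 1
      rw [← pow_mul, h1, ← Nat.pow_succ, ← hk]; exact pow_orderOf_eq_one x
  have hfa : ∀ (b : MulAut G) (x : G), f (b x) = b (f x) := by
    intro b x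
    show (b x) ^ (orderOf (b x) / 2) = b (x ^ (orderOf x / 2))
    rw [map_pow, MulEquiv.orderOf_eq]
  -- fibres have equal size
  let T : Finset G := Finset.univ.filter fun z : G => z ≠ 1 ∧ z ^ 2 = 1
  let X : Finset G := Finset.univ.filter fun x : G => x ≠ 1
  have hmaps : ∀ x ∈ X, f x ∈ T := by
    intro x hx
    simp only [X, T, Finset.mem_filter, Finset.mem_univ, true_and] at hx ⊢
    exact hf x hx
  have hsum := Finset.card_eq_sum_card_fiberwise hmaps
  have hfib : ∀ z ∈ T, (X.filter fun x => f x = z).card = (X.filter fun x => f x = (z0 : G)).card := by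
    intro z hz
    simp only [T, Finset.mem_filter, Finset.mem_univ, true_and] at hz
    obtain ⟨b, hb⟩ := htrans z z0 hz.1 hz.2 hz1 hz2
    apply Finset.card_bij (fun x _ => b x)
    · intro x hx
      simp only [X, Finset.mem_filter, Finset.mem_univ, true_and] at hx ⊢
      refine ⟨fun h => hx.1 ((map_eq_one_iff b b.injective).mp h), ?_⟩
      rw [hfa, hx.2, hb]
    · intro x _ y _ h; exact b.injective h
    · intro y hy
      simp only [X, Finset.mem_filter, Finset.mem_univ, true_and] at hy
      refine ⟨b.symm y, ?_, b.apply_symm_apply y⟩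
      simp only [X, Finset.mem_filter, Finset.mem_univ, true_and]
      refine ⟨fun h => hy.1 ?_, ?_⟩
      · rw [← b.apply_symm_apply y, h, map_one]
      · apply b.injective
        rw [← hfa, b.apply_symm_apply, hy.2, hb]
  rw [Finset.sum_congr rfl hfib, Finset.sum_const, smul_eq_mul] at hsum
  have hX : X.card = Nat.card G - 1 := by
    have : X = Finset.univ.erase 1 := by ext x; simp [X]
    rw [this, Finset.card_erase_of_mem (Finset.mem_univ _), Finset.card_univ, Nat.card_eq_fintype_card]
  have hT : T.card = Nat.card Om - 1 := by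
    have h1 : Nat.card Om = (Finset.univ.filter fun z : G => z ^ 2 = 1).card := by
      rw [← hOmc, Nat.card_eq_fintype_card, Fintype.card_subtype]
    have h2 : T = (Finset.univ.filter fun z : G => z ^ 2 = 1).erase 1 := by
      ext x; simp [T]
    rw [h2, Finset.card_erase_of_mem (by simp), h1]
  have hdvd : 2 ^ a - 1 ∣ 2 ^ N - 1 := by
    rw [← ha, ← hN, ← hT, ← hX, hsum]; exact dvd_mul_right _ _
  have ha0 : a ≠ 0 := by
    rintro rfl
    rw [pow_zero, Subgroup.card_eq_one] at ha
    have : (z0 : G) ∈ Om := hz2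
    rw [ha, mem_bot] at this
    exact hz1 this
  have hdvd2 : a ∣ N := by
    have h1 := Nat.pow_sub_one_gcd_pow_sub_one 2 a N
    rw [Nat.gcd_eq_left hdvd] at h1
    have h2 : 2 ^ a = 2 ^ Nat.gcd a N := by
      have e1 : 1 ≤ 2 ^ a := Nat.one_le_two_pow
      have e2 : 1 ≤ 2 ^ Nat.gcd a N := Nat.one_le_two_pow
      omega
    have h3 := Nat.pow_right_injective le_rfl h2
    rw [h3]; exact Nat.gcd_dvd_right a N
  obtain ⟨m, hm⟩ := hdvd2
  exact ⟨m, by rw [hOmc, ha, hN, hm, pow_mul]⟩

end Cfsg.Agent.S3774
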