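import Cfsg.Statements.S3775
import Cfsg.Agent.H22_Basic
import Cfsg.Agent.H22_Maschke

set_option autoImplicit false
open Cfsg

namespace Cfsg.Agent.S3775

open Subgroup

variable {A : Type*} [CommGroup A] [Finite A] {p : ℕ} [hp : Fact p.Prime]

/-- `Ω_i` -/
def Om (A : Type*) [CommGroup A] (p i : ℕ) : Subgroup A := (powMonoidHom (p ^ i) : A →* A).ker

omit [Finite A] hp in
theorem mem_Om (i : ℕ) (a : A) : a ∈ Om A p i ↔ a ^ p ^ i = 1 := Iff.rfl

omit [Finite A] hp in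
theorem Om_mono {i j : ℕ} (h : i ≤ j) : Om A p i ≤ Om A p j := by
  intro a ha
  rw [mem_Om] at ha ⊢
  rw [show p ^ j = p ^ i * p ^ (j - i) by rw [← pow_add]; congr 1; omega, pow_mul, ha, one_pow]

/-- the core step: a proper nontrivial invariant subgroup of `Ω₁` gives a decomposition -/
theorem decomp (hA : IsPGroup p A) {H : Type*} [Group H] [Finite H] (ρ : H →* MulAut A) (hH : (Nat.card H).Coprime p)
    (B : Subgroup A) (hB : ∀ h, ∀ b ∈ B, ρ h b ∈ B) (hB1 : B ≤ Om A p 1) (hBb : B ≠ ⊥) (hBO : B ≠ Om A p 1) :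
    ∃ C D : Subgroup A, C ≠ ⊥ ∧ D ≠ ⊥ ∧ (∀ h, ∀ b ∈ C, ρ h b ∈ C) ∧ (∀ h, ∀ b ∈ D, ρ h b ∈ D) ∧ C ⊓ D = ⊥ ∧ C ⊔ D = ⊤ := by
  have hpp := hp.out
  have hOinv : ∀ i, ∀ h, ∀ a ∈ Om A p i, ρ h a ∈ Om A p i := by
    intro i h a ha
    rw [mem_Om] at ha ⊢
    rw [← map_pow, ha, map_one]
  -- exponent
  have hex : ∃ e, ∀ a : A, a ^ p ^ e = 1 := by
    obtain ⟨n, hn⟩ := hA.exists_card_eq
    exact ⟨n, fun a => by rw [← hn]; exact pow_card_eq_one'⟩
  classical
  set e := Nat.find hex with he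
  have heall : ∀ a : A, a ^ p ^ e = 1 := Nat.find_spec hex
  have he0 : e ≠ 0 := by
    intro h0
    apply hBb
    rw [eq_bot_iff]
    intro b _
    have := heall b
    rw [h0, pow_zero, pow_one] at this
    exact Subgroup.mem_bot.mpr this
  obtain ⟨f, hf⟩ : ∃ f, e = f + 1 := ⟨e - 1, by omega⟩
  have hemin : ¬ ∀ a : A, a ^ p ^ f = 1 := Nat.find_min hex (by omega)
  let φ : A →* A := powMonoidHom (p ^ f)
  have hφ : ∀ a, φ a = a ^ p ^ f := fun a => rfl
  have hφρ : ∀ h a, φ (ρ h a) = ρ h (φ a) := fun h a => by rw [hφ, hφ, map_pow]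
  -- minimal invariant subgroup of φ(A)
  obtain ⟨M, ⟨hMinv, hMb, hMφ⟩, hMmin⟩ := (Set.toFinite {M : Subgroup A | (∀ h, ∀ b ∈ M, ρ h b ∈ M) ∧ M ≠ ⊥ ∧ M ≤ φ.range}).exists_minimal
    ⟨φ.range, by rintro h _ ⟨a, rfl⟩; exact ⟨ρ h a, hφρ h a⟩, by
      intro h
      apply hemin
      intro a
      have : φ a ∈ φ.range := ⟨a, rfl⟩
      rw [h, Subgroup.mem_bot] at this
      exact this, le_rfl⟩
  have hMO : M ≤ Om A p 1 := by
    intro m hm
    obtain ⟨a, rfl⟩ := hMφ hm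
    rw [mem_Om, hφ, ← pow_mul, ← pow_add, ← hf]
    exact heall a
  have hMne : M ≠ Om A p 1 := by
    rintro rfl
    rcases eq_or_ne B (Om A p 1) with h | h
    · exact hBO h
    · exact h (le_antisymm hB1 (hMmin ⟨hB, hBb, hB1.trans hMφ⟩ hB1))
  -- minimal D
  obtain ⟨D, ⟨hDinv, hMD⟩, hDmin⟩ := (Set.toFinite {D : Subgroup A | (∀ h, ∀ b ∈ D, ρ h b ∈ D) ∧ M ≤ D.map φ}).exists_minimal
    ⟨⊤, fun _ _ _ => mem_top _, by rw [← MonoidHom.range_eq_map]; exact hMφ⟩
  have hDφ : D.map φ = M := by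
    apply le_antisymm _ hMD
    have h1 : D ≤ D ⊓ M.comap φ := by
      apply hDmin ⟨?_, ?_⟩ inf_le_left
      · rintro h b ⟨hb, hb'⟩
        refine ⟨hDinv h b hb, ?_⟩
        show φ (ρ h b) ∈ M
        rw [hφρ]; exact hMinv h _ hb'
      · intro m hm
        obtain ⟨d, hd, rfl⟩ := hMD hm
        exact ⟨d, ⟨hd, hm⟩, rfl⟩
    rintro _ ⟨d, hd, rfl⟩
    exact (h1 hd).2
  -- K = D ⊓ ker φ equals D^p
  let Dp : Subgroup A := D.map (powMonoidHom p : A →* A)
  have hDpD : Dp ≤ D := by rintro _ ⟨d, hd, rfl⟩; exact pow_mem hd p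
  have hDpinv : ∀ h, ∀ b ∈ Dp, ρ h b ∈ Dp := by
    rintro h _ ⟨d, hd, rfl⟩
    exact ⟨ρ h d, hDinv h d hd, by show (ρ h d) ^ p = ρ h (d ^ p); rw [map_pow]⟩
  have hDpK : Dp ≤ D ⊓ φ.ker := by
    refine le_inf hDpD ?_
    rintro _ ⟨d, hd, rfl⟩
    show (d ^ p) ^ p ^ f = 1
    rw [← pow_mul, ← pow_succ', ← hf]; exact heall d
  have hK : D ⊓ φ.ker ≤ Dp := by
    obtain ⟨S, hSinv, hS1, hS2, hS3, hS4⟩ := H22.Maschke.exists_compl (p := p) ρ hH Dp (D ⊓ φ.ker) D hDpK inf_le_left hDpinv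
      (by rintro h b ⟨hb, hb'⟩; exact ⟨hDinv h b hb, by show φ (ρ h b) = 1; rw [hφρ, (show φ b = 1 from hb'), map_one]⟩)
      hDinv (fun d hd => ⟨d, hd, rfl⟩)
    have h1 : D ≤ S := by
      apply hDmin ⟨hSinv, ?_⟩ hS2
      intro m hm
      obtain ⟨d, hd, rfl⟩ := hMD hm
      have hd' : d ∈ S ⊔ (D ⊓ φ.ker) := by rw [hS4]; exact hd
      obtain ⟨s, hs, k, hk, rfl⟩ := Subgroup.mem_sup.mp hd'
      exact ⟨s, hs, by rw [map_mul, (show φ k = 1 from hk.2), mul_one]⟩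
    rw [← hS3]
    exact fun x hx => ⟨h1 hx.1, hx⟩
  -- Ω₁(D) = M
  have hMD' : M ≤ D := by
    intro m hm
    obtain ⟨d, hd, rfl⟩ := hMD hm
    exact pow_mem hd _
  have hOD : D ⊓ Om A p 1 ≤ M := by
    -- counting
    have h1 : Nat.card (D ⊓ Om A p 1 : Subgroup A) * Nat.card Dp = Nat.card D := by
      have h2 := (((powMonoidHom p : A →* A).comp D.subtype).ker).card_mul_index
      rw [Subgroup.index_ker] at h2
      have h3 : Nat.card ((powMonoidHom p : A →* A).comp D.subtype).range = Nat.card Dp := by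
        rw [MonoidHom.range_comp, Subgroup.range_subtype]
      have h4 : Nat.card ((powMonoidHom p : A →* A).comp D.subtype).ker = Nat.card (D ⊓ Om A p 1 : Subgroup A) := by
        have h5 : ((powMonoidHom p : A →* A).comp D.subtype).ker = (D ⊓ Om A p 1).subgroupOf D := by
          ext x
          rw [MonoidHom.mem_ker, mem_subgroupOf]
          show (x : A) ^ p = 1 ↔ _
          rw [Subgroup.mem_inf, mem_Om, pow_one]
          exact ⟨fun h => ⟨x.2, h⟩, fun h => h.2⟩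
        rw [h5, H22.Basic.card_subgroupOf_eq inf_le_left]
      rw [h3, h4] at h2
      exact h2
    have h2 : Nat.card M * Nat.card (D ⊓ φ.ker : Subgroup A) = Nat.card D := by
      have h2 := ((φ.comp D.subtype).ker).card_mul_index
      rw [Subgroup.index_ker] at h2
      have h3 : Nat.card (φ.comp D.subtype).range = Nat.card M := by
        rw [MonoidHom.range_comp, Subgroup.range_subtype, hDφ]
      have h4 : Nat.card (φ.comp D.subtype).ker = Nat.card (D ⊓ φ.ker : Subgroup A) := by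
        have h5 : (φ.comp D.subtype).ker = (D ⊓ φ.ker).subgroupOf D := by
          ext x
          rw [MonoidHom.mem_ker, mem_subgroupOf]
          exact ⟨fun h => ⟨x.2, h⟩, fun h => h.2⟩
        rw [h5, H22.Basic.card_subgroupOf_eq inf_le_left]
      rw [h3, h4, mul_comm] at h2
      exact h2
    rw [le_antisymm hK hDpK] at h2
    have h3 : Nat.card (D ⊓ Om A p 1 : Subgroup A) = Nat.card M :=
      Nat.eq_of_mul_eq_mul_right Nat.card_pos (h1.trans h2.symm)
    exact (H22.Basic.eq_of_le_of_card_le (le_inf hMD' hMO) h3.le).ge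
  -- maximal C
  obtain ⟨C, ⟨hCinv, hCD⟩, hCmax⟩ := (Set.toFinite {C : Subgroup A | (∀ h, ∀ b ∈ C, ρ h b ∈ C) ∧ C ⊓ D = ⊥}).exists_maximal
    ⟨⊥, fun h b hb => by rw [Subgroup.mem_bot.mp hb, map_one]; exact one_mem _, bot_inf_eq _⟩
  have hbot : ∀ x, x ∈ C → x ∈ D → x = 1 := fun x h1 h2 => by
    have : x ∈ C ⊓ D := ⟨h1, h2⟩
    rwa [hCD, Subgroup.mem_bot] at this
  have htop : C ⊔ D = ⊤ := by
    by_contra hne
    -- an element a ∉ C ⊔ D with a^p ∈ C ⊔ D
    obtain ⟨a, ha, hap⟩ : ∃ a, a ∉ C ⊔ D ∧ a ^ p ∈ C ⊔ D := by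
      obtain ⟨b, _, hb⟩ := SetLike.exists_of_lt (lt_top_iff_ne_top.mpr hne)
      have hexi : ∃ i, b ^ p ^ i ∈ C ⊔ D := ⟨e, by rw [heall]; exact one_mem _⟩
      have hi0 : Nat.find hexi ≠ 0 := by
        intro h0
        have := Nat.find_spec hexi
        rw [h0, pow_zero, pow_one] at this
        exact hb this
      obtain ⟨i, hi⟩ : ∃ i, Nat.find hexi = i + 1 := ⟨Nat.find hexi - 1, by omega⟩
      refine ⟨b ^ p ^ i, Nat.find_min hexi (by omega), ?_⟩
      rw [← pow_mul, ← pow_succ, ← hi]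
      exact Nat.find_spec hexi
    obtain ⟨c, hc, d, hd, hcd⟩ := Subgroup.mem_sup.mp hap
    have hdK : d ∈ Dp := by
      apply hK
      refine ⟨hd, ?_⟩
      show d ^ p ^ f = 1
      apply hbot _ _ (pow_mem hd _)
      have h1 : (c * d) ^ p ^ f = 1 := by
        rw [hcd, ← pow_mul, ← pow_succ', ← hf]; exact heall a
      rw [mul_pow] at h1
      rw [eq_inv_of_mul_eq_one_right h1]
      exact inv_mem (pow_mem hc _)
    obtain ⟨d', hd', hdd⟩ := hdK
    have hdd' : d' ^ p = d := hdd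
    set a' := a * d'⁻¹ with ha'
    have ha'p : a' ^ p ∈ C := by
      rw [ha', mul_pow, inv_pow, hdd', ← hcd, mul_inv_cancel_right]; exact hc
    have ha'n : a' ∉ C ⊔ D := by
      intro h
      apply ha
      have : a = a' * d' := by rw [ha', inv_mul_cancel_right]
      rw [this]
      exact mul_mem h (mem_sup_right hd')
    -- T
    let T : Subgroup A := C.comap (powMonoidHom p : A →* A)
    have hTinv : ∀ h, ∀ b ∈ T, ρ h b ∈ T := by
      intro h b hb
      show (ρ h b) ^ p ∈ C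
      rw [← map_pow]; exact hCinv h _ hb
    have hCT : C ≤ T := fun c hc => pow_mem hc p
    have hCDinv : ∀ h, ∀ b ∈ C ⊔ D, ρ h b ∈ C ⊔ D := by
      intro h b hb
      obtain ⟨c, hc, d, hd, rfl⟩ := Subgroup.mem_sup.mp hb
      rw [map_mul]
      exact mul_mem (mem_sup_left (hCinv h c hc)) (mem_sup_right (hDinv h d hd))
    obtain ⟨S, hSinv, hS1, hS2, hS3, hS4⟩ := H22.Maschke.exists_compl (p := p) ρ hH C (T ⊓ (C ⊔ D)) T (le_inf hCT le_sup_left) inf_le_left hCinv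
      (fun h b hb => ⟨hTinv h b hb.1, hCDinv h b hb.2⟩) hTinv (fun t ht => ht)
    have hSC : S ≤ C := by
      apply hCmax ⟨hSinv, ?_⟩ hS1
      rw [eq_bot_iff]
      rintro s ⟨hs, hsD⟩
      have h1 : s ∈ S ⊓ (T ⊓ (C ⊔ D)) := ⟨hs, hS2 hs, mem_sup_right hsD⟩
      rw [hS3] at h1
      exact Subgroup.mem_bot.mpr (hbot s h1 hsD)
    apply ha'n
    have h1 : a' ∈ S ⊔ (T ⊓ (C ⊔ D)) := by rw [hS4]; exact ha'p
    exact (sup_le (hSC.trans le_sup_left) inf_le_right : S ⊔ (T ⊓ (C ⊔ D)) ≤ C ⊔ D) h1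
  refine ⟨C, D, ?_, ?_, hCinv, hDinv, hCD, htop⟩
  · rintro rfl
    rw [bot_sup_eq] at htop
    rw [htop, top_inf_eq] at hOD
    exact hMne (le_antisymm hMO hOD)
  · rintro rfl
    exact hMb (le_bot_iff.mp hMD')

omit [Finite A] in
theorem inv_iff (X : Subgroup (MulAut A)) (B : Subgroup A) :
    (∀ x ∈ X, B.map x.toMonoidHom = B) ↔ ∀ h : X, ∀ b ∈ B, X.subtype h b ∈ B := by
  constructor
  · intro h x b hb
    have h1 := h x x.2
    rw [← h1]
    exact ⟨b, hb, rfl⟩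
  · intro h x hx
    exact H22.Maschke.map_eq_of_inv X.subtype B h ⟨x, hx⟩

/-- X-indecomposable ⇔ the only X-invariant subgroups are the Ω_i ⇔ Ω₁ is X-irreducible. -/
theorem result {A : Type*} [CommGroup A] [Finite A] {p : ℕ} [Fact p.Prime] (hA : IsPGroup p A) (X : Subgroup (MulAut A)) (hX : (Nat.card X).Coprime p) : ((¬ ∃ B C : Subgroup A, B ≠ ⊥ ∧ C ≠ ⊥ ∧ (∀ x ∈ X, B.map x.toMonoidHom = B) ∧ (∀ x ∈ X, C.map x.toMonoidHom = C) ∧ B ⊓ C = ⊥ ∧ B ⊔ C = ⊤) ↔ (∀ B : Subgroup A, (∀ x ∈ X, B.map x.toMonoidHom = B) → ∃ i : ℕ, ∀ a : A, a ∈ B ↔ a ^ p ^ i = 1)) ∧ ((∀ B : Subgroup A, (∀ x ∈ X, B.map x.toMonoidHom = B) → ∃ i : ℕ, ∀ a : A, a ∈ B ↔ a ^ p ^ i = 1) ↔ (∀ B : Subgroup A, (∀ x ∈ X, B.map x.toMonoidHom = B) → (∀ b ∈ B, b ^ p = 1) → B = ⊥ ∨ ∀ a : A, a ∈ B ↔ a ^ p = 1)) := by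
  classical
  have hpp := Fact.out (p := p.Prime)
  have hXfin : Finite X := inferInstance
  simp only [inv_iff]
  -- (b) second → third
  have h23 : (∀ B : Subgroup A, (∀ h : X, ∀ b ∈ B, X.subtype h b ∈ B) → ∃ i : ℕ, ∀ a : A, a ∈ B ↔ a ^ p ^ i = 1) →
      (∀ B : Subgroup A, (∀ h : X, ∀ b ∈ B, X.subtype h b ∈ B) → (∀ b ∈ B, b ^ p = 1) → B = ⊥ ∨ ∀ a : A, a ∈ B ↔ a ^ p = 1) := by
    intro h B hB hB1
    obtain ⟨i, hi⟩ := h B hB
    rcases Nat.eq_zero_or_pos i with h0 | h0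
    · left
      rw [eq_bot_iff]
      intro b hb
      have := (hi b).mp hb
      rw [h0, pow_zero, pow_one] at this
      exact Subgroup.mem_bot.mpr this
    · right
      intro a
      refine ⟨hB1 a, fun ha => (hi a).mpr ?_⟩
      have : p ^ i = p * p ^ (i - 1) := by rw [← pow_succ']; congr 1; omega
      rw [this, pow_mul, ha, one_pow]
  have h32 : (∀ B : Subgroup A, (∀ h : X, ∀ b ∈ B, X.subtype h b ∈ B) → (∀ b ∈ B, b ^ p = 1) → B = ⊥ ∨ ∀ a : A, a ∈ B ↔ a ^ p = 1) →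
      (∀ B : Subgroup A, (∀ h : X, ∀ b ∈ B, X.subtype h b ∈ B) → ∃ i : ℕ, ∀ a : A, a ∈ B ↔ a ^ p ^ i = 1) := by
    intro h B hB
    obtain ⟨n, hn⟩ := hA.exists_card_eq
    by_cases hall : ∀ i, Om A p i ≤ B
    · refine ⟨n, fun a => ⟨fun _ => by rw [← hn]; exact pow_card_eq_one', fun ha => hall n ha⟩⟩
    · push Not at hall
      have hi0 : Nat.find hall ≠ 0 := by
        intro h0
        apply Nat.find_spec hall
        rw [h0]
        intro a ha
        rw [mem_Om, pow_zero, pow_one] at ha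
        rw [ha]; exact one_mem _
      obtain ⟨i, hi⟩ : ∃ i, Nat.find hall = i + 1 := ⟨Nat.find hall - 1, by omega⟩
      have hle : Om A p i ≤ B := by
        by_contra hcon
        exact Nat.find_min hall (by omega) hcon
      refine ⟨i, fun a => ⟨fun haB => ?_, fun ha => hle ha⟩⟩
      by_contra hai
      have hnle := Nat.find_spec hall
      rw [hi] at hnle
      -- find b ∈ B ∩ Ω_{i+1} \ Ω_i
      have hexj : ∃ j, a ^ p ^ j = 1 := ⟨n, by rw [← hn]; exact pow_card_eq_one'⟩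
      have hj : i < Nat.find hexj := by
        by_contra hcon
        apply hai
        have := Om_mono (A := A) (p := p) (not_lt.mp hcon) (Nat.find_spec hexj)
        exact this
      set j := Nat.find hexj with hjdef
      set b := a ^ p ^ (j - (i + 1)) with hb
      have hbB : b ∈ B := pow_mem haB _
      have hb1 : b ^ p ^ (i + 1) = 1 := by
        rw [hb, ← pow_mul, ← pow_add, show j - (i + 1) + (i + 1) = j by omega]
        exact Nat.find_spec hexj
      have hb2 : b ^ p ^ i ≠ 1 := by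
        rw [hb, ← pow_mul, ← pow_add]
        exact Nat.find_min hexj (by omega)
      let B' : Subgroup A := (B ⊓ Om A p (i + 1)).map (powMonoidHom (p ^ i) : A →* A)
      have hB' := h B' (by
        rintro x _ ⟨c, ⟨hc, hc'⟩, rfl⟩
        refine ⟨X.subtype x c, ⟨hB x c hc, ?_⟩, ?_⟩
        · show (X.subtype x c) ^ p ^ (i + 1) = 1
          rw [← map_pow, (show c ^ p ^ (i + 1) = 1 from hc'), map_one]
        · show (X.subtype x c) ^ p ^ i = X.subtype x (c ^ p ^ i)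
          rw [map_pow]) (by
        rintro _ ⟨c, ⟨hc, hc'⟩, rfl⟩
        show (c ^ p ^ i) ^ p = 1
        rw [← pow_mul, ← pow_succ]; exact hc')
      rcases hB' with h' | h'
      · have : b ^ p ^ i ∈ B' := ⟨b, ⟨hbB, hb1⟩, rfl⟩
        rw [h', Subgroup.mem_bot] at this
        exact hb2 this
      · apply hnle
        intro c hc
        have h1 : c ^ p ^ i ∈ B' := by
          rw [h', ← pow_mul, ← pow_succ]; exact hc
        obtain ⟨b', ⟨hb'B, _⟩, hb'⟩ := h1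
        have hb'' : b' ^ p ^ i = c ^ p ^ i := hb'
        have h2 : c * b'⁻¹ ∈ Om A p i := by
          rw [mem_Om, mul_pow, inv_pow, hb'', mul_inv_cancel]
        have h3 : c = (c * b'⁻¹) * b' := by rw [inv_mul_cancel_right]
        rw [h3]
        exact mul_mem (hle h2) hb'B
  refine ⟨⟨?_, ?_⟩, h23, h32⟩
  · intro hind
    apply h32
    intro B hB hB1
    by_contra hcon
    push Not at hcon
    obtain ⟨hBb, hBO⟩ := hcon
    apply hind
    obtain ⟨C, D, h1, h2, h3, h4, h5, h6⟩ := decomp hA X.subtype hX B hB (fun b hb => by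
      rw [mem_Om, pow_one]; exact hB1 b hb) hBb (by
      rintro rfl
      obtain ⟨a, ha⟩ := hBO
      rcases ha with ⟨h1, h2⟩ | ⟨h1, h2⟩
      · rw [mem_Om, pow_one] at h1; exact h2 h1
      · apply h1; rw [mem_Om, pow_one]; exact h2)
    exact ⟨C, D, h1, h2, h3, h4, h5, h6⟩
  · rintro h ⟨B, C, hB, hC, hBi, hCi, hBC, _⟩
    obtain ⟨i, hi⟩ := h B hBi
    obtain ⟨j, hj⟩ := h C hCi
    have hne : ∀ (B : Subgroup A) (i : ℕ), B ≠ ⊥ → (∀ a : A, a ∈ B ↔ a ^ p ^ i = 1) → ∀ a : A, a ^ p = 1 → a ∈ B := by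
      intro B i hB hi a ha
      rw [hi]
      have hi0 : i ≠ 0 := by
        rintro rfl
        apply hB
        rw [eq_bot_iff]
        intro b hb
        have := (hi b).mp hb
        rw [pow_zero, pow_one] at this
        exact Subgroup.mem_bot.mpr this
      have : p ^ i = p * p ^ (i - 1) := by rw [← pow_succ']; congr 1; omega
      rw [this, pow_mul, ha, one_pow]
    obtain ⟨b, hb, hb1⟩ := (Subgroup.bot_or_exists_ne_one B).resolve_left hB
    -- element of order p in A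
    have hd : p ∣ Nat.card A := by
      obtain ⟨n, hn⟩ := hA.exists_card_eq
      rw [hn]
      apply dvd_pow_self
      rintro rfl
      rw [pow_zero] at hn
      have := (Nat.card_eq_one_iff_unique.mp hn).1
      exact hb1 (Subsingleton.elim _ _)
    obtain ⟨a, ha⟩ := exists_prime_orderOf_dvd_card' (G := A) p hd
    have hap : a ^ p = 1 := by rw [← ha, pow_orderOf_eq_one]
    have h1 : a ∈ B ⊓ C := ⟨hne B i hB hi a hap, hne C j hC hj a hap⟩
    rw [hBC, Subgroup.mem_bot] at h1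
    rw [h1, orderOf_one] at ha
    exact hpp.one_lt.ne ha

end Cfsg.Agent.S3775
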