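import Cfsg.Statements.S3780
import Cfsg.Agent.H1_Frattini

set_option autoImplicit false
open Cfsg

namespace Cfsg.Agent.S3780

open Subgroup
open scoped commutatorElement

/-- kernel filtration bound -/
theorem card_ker_pow {A : Type*} [AddCommGroup A] [Finite A] (W : AddSubgroup A)
    (N : AddMonoid.End A) (hNW : ∀ w ∈ W, N w ∈ W) (k : ℕ) :
    Nat.card (W ⊓ (N ^ k : AddMonoid.End A).ker : AddSubgroup A) ≤
      Nat.card (W ⊓ (N : A →+ A).ker : AddSubgroup A) ^ k := by
  induction k with
  | zero =>
    rw [pow_zero, pow_zero]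
    have : W ⊓ ((1 : AddMonoid.End A) : A →+ A).ker = ⊥ := by
      rw [eq_bot_iff]
      intro x hx
      exact hx.2
    rw [this]; simp
  | succ k ih =>
    set T := W ⊓ (N ^ (k + 1) : AddMonoid.End A).ker with hT
    set S := W ⊓ (N ^ k : AddMonoid.End A).ker with hS
    let g : T →+ S :=
      { toFun := fun w => ⟨N w, hNW w w.2.1, by
          have h1 : (N ^ (k + 1) : AddMonoid.End A) (w : A) = 0 := w.2.2
          have h2 : (N ^ (k + 1) : AddMonoid.End A) (w : A) = (N ^ k : AddMonoid.End A) (N w) := by
            rw [pow_succ]; rfl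
          show (N ^ k : AddMonoid.End A) (N w) = 0
          rw [← h2]; exact h1⟩
        map_zero' := Subtype.ext (map_zero N)
        map_add' := fun a b => Subtype.ext (map_add N _ _) }
    have h1 := g.ker.card_mul_index
    have h2 : g.ker.index ≤ Nat.card S := by
      rw [AddSubgroup.index_ker]
      exact Nat.card_le_card_of_injective _ (Subtype.val_injective)
    have h3 : Nat.card g.ker ≤ Nat.card (W ⊓ (N : A →+ A).ker : AddSubgroup A) := by
      refine Nat.card_le_card_of_injective (fun x => ⟨((x : T) : A), x.1.2.1, ?_⟩) ?_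
      · have := x.2
        exact congrArg Subtype.val this
      · intro a b hab
        have h4 := congrArg Subtype.val hab
        exact Subtype.ext (Subtype.ext h4)
    rw [← h1, pow_succ, mul_comm]
    exact Nat.mul_le_mul (h2.trans ih) h3

/-- Let V be a finite abelian p-group and α an automorphism of V of order p whose fixed-point subgroup has order p^n. Then V can be generated by pn elements: some subset of V with at most pn elements generates V. -/
theorem result {V : Type*} [CommGroup V] [Finite V] {p : ℕ} [Fact p.Prime] (hV : IsPGroup p V) (α : MulAut V) (hα : orderOf α = p) (n : ℕ) (hfix : Nat.card {v : V // α v = v} = p ^ n) : ∃ S : Finset V, S.card ≤ p * n ∧ Subgroup.closure (S : Set V) = ⊤ := by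
  classical
  have hp : p.Prime := Fact.out
  have hfinA : Finite (Additive V) := inferInstance
  let a : AddMonoid.End (Additive V) := MonoidHom.toAdditive α.toMonoidHom
  have ha : ∀ v : Additive V, a v = Additive.ofMul (α v.toMul) := fun v => rfl
  have hapow : ∀ k, ∀ v : Additive V, (a ^ k) v = Additive.ofMul ((α ^ k) v.toMul) := by
    intro k
    induction k with
    | zero => intro v; rfl
    | succ k ih =>
      intro v
      rw [pow_succ, pow_succ]
      show (a ^ k) (a v) = _
      rw [ih]; rfl
  have hap : a ^ p = 1 := by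
    apply AddMonoidHom.ext
    intro v
    have h1 : α ^ p = 1 := by rw [← hα]; exact pow_orderOf_eq_one α
    exact (hapow p v).trans (by rw [h1]; rfl)
  let W : AddSubgroup (Additive V) := (nsmulAddMonoidHom p).ker
  have hW : ∀ w, w ∈ W ↔ p • w = 0 := fun w => Iff.rfl
  set N : AddMonoid.End (Additive V) := a - 1 with hN
  have hNW : ∀ f : AddMonoid.End (Additive V), ∀ w ∈ W, f w ∈ W := by
    intro f w hw
    rw [hW] at hw ⊢
    rw [← map_nsmul, hw, map_zero]
  have hNp : W ≤ (N ^ p : AddMonoid.End (Additive V)).ker := by
    obtain ⟨r, hr⟩ := (Commute.one_right N).exists_add_pow_prime_eq hp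
    have h1 : N + 1 = a := by rw [hN]; abel
    rw [h1, hap, one_pow] at hr
    intro w hw
    have h2 : N ^ p = - ((p : AddMonoid.End (Additive V)) * N * 1 * r) := by
      rw [eq_neg_iff_add_eq_zero]
      have h3 : N ^ p + 1 + (p : AddMonoid.End (Additive V)) * N * 1 * r = 1 := hr.symm
      have h4 : N ^ p + (p : AddMonoid.End (Additive V)) * N * 1 * r + 1 = 1 :=
        (add_right_comm _ _ _).trans h3
      exact (add_eq_right.mp h4)
    show (N ^ p : AddMonoid.End (Additive V)) w = 0
    rw [h2]
    have h5 : (p : AddMonoid.End (Additive V)) * N * 1 * r = (p : AddMonoid.End (Additive V)) * (N * 1 * r) := by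
      noncomm_ring
    rw [h5]
    show - (p • ((N * 1 * r) w)) = 0
    rw [neg_eq_zero]
    exact hNW _ w hw
  have hb := card_ker_pow W N (hNW N) p
  rw [inf_eq_left.mpr hNp] at hb
  have hfixc : Nat.card (W ⊓ (N : Additive V →+ Additive V).ker : AddSubgroup (Additive V)) ≤ p ^ n := by
    rw [← hfix]
    refine Nat.card_le_card_of_injective (fun x => ⟨(x : Additive V).toMul, ?_⟩) ?_
    · have h1 : a (x : Additive V) - x = 0 := x.2.2
      exact congrArg Additive.toMul (sub_eq_zero.mp h1)
    · intro x y hxy
      have h4 := congrArg Subtype.val hxy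
      exact Subtype.ext h4
  have hWc : Nat.card W ≤ p ^ (n * p) := by
    rw [pow_mul]
    exact hb.trans (Nat.pow_le_pow_left hfixc p)
  -- the Frattini subgroup
  have hfr : frattini V = (powMonoidHom p : V →* V).range := by
    apply le_antisymm
    · apply H1.Frattini.frattini_le_of_elementary (p := p)
      · rw [_root_.commutator_def, commutator_le]
        intro x _ y _
        have : ⁅x, y⁆ = 1 := by rw [commutatorElement_eq_one_iff_mul_comm]; exact mul_comm x y
        rw [this]; exact one_mem _
      · intro x; exact ⟨x, rfl⟩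
    · rintro _ ⟨x, rfl⟩
      exact (H1.Nilp.commutator_le_frattini hV).2 x
  have hidx : (frattini V).index = Nat.card W := by
    have h1 := (powMonoidHom p : V →* V).ker.card_mul_index
    rw [index_ker] at h1
    have h2 := (frattini V).card_mul_index
    rw [hfr] at h2 ⊢
    have h3 : Nat.card (powMonoidHom p : V →* V).ker = Nat.card W := by
      refine Nat.card_congr (Equiv.subtypeEquiv Additive.ofMul ?_)
      intro x
      rfl
    rw [← h1, mul_comm (Nat.card _)] at h2
    rw [← h3]
    exact Nat.eq_of_mul_eq_mul_right Nat.card_pos h2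
  obtain ⟨d, hd⟩ : ∃ d, (frattini V).index = p ^ d := hV.index (frattini V)
  obtain ⟨T, -, hTc, hT⟩ := (H1.Frattini.burnside_basis p d hV hd).1 (Set.finite_univ (α := V)).toFinset (by
    rw [Set.Finite.coe_toFinset]; exact closure_univ)
  refine ⟨T, ?_, hT⟩
  rw [hTc]
  rw [hidx] at hd
  rw [hd] at hWc
  rw [mul_comm]
  exact (Nat.pow_le_pow_iff_right hp.one_lt).mp hWc

end Cfsg.Agent.S3780
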