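import Cfsg.Statements.S3784
import Cfsg.Agent.H2_Card
import Mathlib.NumberTheory.Fermat
import Mathlib.Tactic


set_option autoImplicit false
open Cfsg

namespace Cfsg.Agent.S3784

theorem key (x : ℤ) (n k : ℕ) (hx : Odd x) (hn : Odd n) (h : (x ^ n - 1).natAbs = 2 ^ k) :
    (x ^ n - 1).natAbs = (x - 1).natAbs := by
  have h1 := geom_sum_mul x n
  set S := ∑ i ∈ Finset.range n, x ^ i with hS
  have hSo : Odd S := by
    have h0 : ∀ m : ℕ, Even ((∑ i ∈ Finset.range m, x ^ i) - (m : ℤ)) := by
      intro m
      induction m with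
      | zero => simp
      | succ m ih =>
        rw [Finset.sum_range_succ]
        have e : (∑ i ∈ Finset.range m, x ^ i) + x ^ m - ((m + 1 : ℕ) : ℤ) =
            ((∑ i ∈ Finset.range m, x ^ i) - (m : ℤ)) + (x ^ m - 1) := by push_cast; ring
        rw [e]
        exact ih.add (hx.pow.sub_odd odd_one)
    have e : S = (S - (n : ℤ)) + n := by ring
    rw [e]
    exact (h0 n).add_odd (by exact_mod_cast hn)
  have h2 : S.natAbs ∣ 2 ^ k := by
    rw [← h, ← h1, Int.natAbs_mul]
    exact dvd_mul_right _ _
  have h3 : Odd S.natAbs := Int.natAbs_odd.2 hSo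
  have h4 : S.natAbs = 1 := by
    have h5 : Nat.Coprime S.natAbs (2 ^ k) := (Nat.Coprime.pow_right k ((Nat.coprime_two_right).2 h3))
    exact Nat.Coprime.eq_one_of_dvd h5 h2
  rw [← h1, Int.natAbs_mul, h4, one_mul]

/-- Let p, q be primes and a, b positive integers with p^a = q^b + 1. Then either p = 2, b = 1, a is prime and q = 2^a − 1; or q = 2, a = 1, b is a power of 2 and p = 2^b + 1; or p^a = 9 and q^b = 8. -/
theorem result (p q a b : ℕ) (hp : p.Prime) (hq : q.Prime) (ha : 1 ≤ a) (hb : 1 ≤ b) (h : p ^ a = q ^ b + 1) : (p = 2 ∧ b = 1 ∧ a.Prime ∧ q + 1 = 2 ^ a) ∨ (q = 2 ∧ a = 1 ∧ (∃ m : ℕ, b = 2 ^ m) ∧ p = 2 ^ b + 1) ∨ (p ^ a = 9 ∧ q ^ b = 8) := by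

  have hq2 := hq.two_le
  have hp2 := hp.two_le
  rcases hp.eq_two_or_odd' with hp' | hp'
  · -- p = 2
    subst hp'
    left
    have hqo : Odd q := by
      rcases hq.eq_two_or_odd' with h1 | h1
      · exfalso
        subst h1
        have h2 : 2 ∣ 2 ^ a := dvd_pow_self 2 (by omega)
        have h3 : 2 ∣ 2 ^ b := dvd_pow_self 2 (by omega)
        rw [h] at h2
        have := (Nat.dvd_add_right h3).1 h2
        omega
      · exact h1
    have hb1 : b = 1 := by
      rcases Nat.even_or_odd b with hb' | hb'
      · exfalso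
        obtain ⟨c, hc⟩ := hb'
        have h1 : q ^ b % 4 = 1 := by
          rw [hc, pow_add]
          have h2 : Odd (q ^ c) := hqo.pow
          obtain ⟨d, hd⟩ := h2
          rw [hd]
          have : (2 * d + 1) * (2 * d + 1) = 4 * (d * d + d) + 1 := by ring
          rw [this]; omega
        have h3 : a = 1 := by
          by_contra hne
          have h4 : 4 ∣ 2 ^ a := by
            have : (4 : ℕ) = 2 ^ 2 := by norm_num
            rw [this]; exact pow_dvd_pow 2 (by omega)
          rw [h] at h4
          omega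
        rw [h3, pow_one] at h
        have h5 : 2 ≤ q ^ b := hq2.trans (Nat.le_self_pow (by omega) q)
        omega
      · have h1 := key (-(q : ℤ)) b a (by rw [odd_neg]; exact_mod_cast hqo) hb' (by
          rw [hb'.neg_pow, ← neg_add', Int.natAbs_neg, h]
          exact_mod_cast rfl)
        rw [hb'.neg_pow, ← neg_add', Int.natAbs_neg, ← neg_add', Int.natAbs_neg] at h1
        have h2 : q ^ b + 1 = q + 1 := by exact_mod_cast h1
        have h3 : q ^ b = q ^ 1 := by rw [pow_one]; omega
        exact Nat.pow_right_injective hq2 h3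
    subst hb1
    rw [pow_one] at h
    refine ⟨rfl, rfl, ?_, h.symm⟩
    have h4 : (2 ^ a - 1).Prime := by
      rw [h]; simpa using hq
    have ha2 : a ≠ 1 := by
      rintro rfl
      omega
    exact (Nat.prime_of_pow_sub_one_prime ha2 h4).2
  · have hpa : Odd (p ^ a) := hp'.pow
    have hqe : q = 2 := by
      rcases hq.eq_two_or_odd' with h1 | h1
      · exact h1
      · exfalso
        have h2 : Odd (q ^ b) := h1.pow
        rw [h] at hpa
        obtain ⟨c, hc⟩ := h2
        obtain ⟨d, hd⟩ := hpa
        omega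
    subst hqe
    right
    rcases Nat.even_or_odd a with ha' | ha'
    · right
      obtain ⟨c, hc⟩ := ha'
      rw [hc, pow_add] at h
      have h1 : 3 ≤ p ^ c := by
        have : 3 ≤ p := by
          rcases hp'  with ⟨d, hd⟩
          omega
        exact this.trans (Nat.le_self_pow (by omega) p)
      obtain ⟨m, hm⟩ : ∃ m, p ^ c = m + 1 := ⟨p ^ c - 1, by omega⟩
      rw [hm] at h h1
      have h2 : m * (m + 2) = 2 ^ b := by nlinarith
      obtain ⟨i, hi, hi'⟩ := (Nat.dvd_prime_pow Nat.prime_two).1 (Dvd.intro _ h2)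
      obtain ⟨j, hj, hj'⟩ := (Nat.dvd_prime_pow Nat.prime_two).1 (Dvd.intro_left _ h2)
      have h3 : m = 2 := by
        by_contra hne
        have h4 : 4 ∣ m := by
          rw [hi']
          have : (4 : ℕ) = 2 ^ 2 := by norm_num
          rw [this]; apply pow_dvd_pow
          by_contra hlt
          have : i = 0 ∨ i = 1 := by omega
          rcases this with h5 | h5 <;> rw [h5] at hi' <;> omega
        have h5 : 4 ∣ m + 2 := by
          rw [hj']
          have : (4 : ℕ) = 2 ^ 2 := by norm_num
          rw [this]; apply pow_dvd_pow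
          by_contra hlt
          have : j = 0 ∨ j = 1 := by omega
          rcases this with h5 | h5 <;> rw [h5] at hj' <;> omega
        omega
      rw [hc, pow_add, hm, h3]
      rw [h3] at h2
      omega
    · left
      have h1 := key (p : ℤ) a b (by exact_mod_cast hp') ha' (by
        have : ((p : ℤ) ^ a - 1) = ((2 ^ b : ℕ) : ℤ) := by
          have : ((p ^ a : ℕ) : ℤ) = ((2 ^ b + 1 : ℕ) : ℤ) := by rw [h]
          push_cast at this ⊢
          linarith
        rw [this, Int.natAbs_natCast])
      have h2 : p ^ a = p := by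
        have h3 : ((p : ℤ) ^ a - 1).natAbs = p ^ a - 1 := by
          have : ((p : ℤ) ^ a - 1) = ((p ^ a - 1 : ℕ) : ℤ) := by
            rw [Nat.cast_sub (Nat.one_le_pow _ _ hp.pos)]; push_cast; ring
          rw [this, Int.natAbs_natCast]
        have h4 : ((p : ℤ) - 1).natAbs = p - 1 := by
          have : ((p : ℤ) - 1) = ((p - 1 : ℕ) : ℤ) := by
            rw [Nat.cast_sub hp.one_lt.le]; push_cast; ring
          rw [this, Int.natAbs_natCast]
        rw [h3, h4] at h1
        have := Nat.one_le_pow a p hp.pos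
        omega
      have ha1 : a = 1 := Nat.pow_right_injective hp2 (by simpa using h2)
      subst ha1
      rw [pow_one] at h
      refine ⟨rfl, rfl, ?_, h⟩
      exact Nat.pow_of_pow_add_prime (by norm_num) (by omega) (h ▸ hp)


end Cfsg.Agent.S3784
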