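import Cfsg.Statements.S3785
import Cfsg.Agent.H1_Hall
import Cfsg.Agent.H22_Coprime3

set_option autoImplicit false
open Cfsg

namespace Cfsg.Agent.S3785

open Subgroup H22.Basic H22.Coprime3

variable {G : Type*} [Group G] [Finite G]

theorem normal_pgroup_le {H : Type*} [Group H] [Finite H] {p : ℕ} [Fact p.Prime] (P : Sylow p H)
    {K : Subgroup H} (hK : K.Normal) (hKp : IsPGroup p K) : K ≤ P := by
  have h1 := H1.Nilp.le_pCore hK hKp
  rw [H1.Nilp.pCore_eq_iInf] at h1
  exact h1.trans (iInf_le _ P)

theorem key (hodd : Odd (Nat.card (Cfsg.fittingSubgroup G))) (M : Subgroup G) (hM : M.Normal)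
    (hc : ∀ g ∈ M, ∀ x ∈ Cfsg.fittingSubgroup G, (orderOf x).Prime → g * x = x * g)
    (hMF : ⁅M, M⁆ ≤ Cfsg.fittingSubgroup G) : M ≤ Cfsg.fittingSubgroup G := by
  rw [H1.Nilp.le_fitting_iff hM]
  rw [(Group.isNilpotent_of_finite_tfae (G := M)).out 0 3 rfl rfl]
  intro q hq S
  have hFn : (Cfsg.fittingSubgroup G).Normal := H1.Nilp.fitting_normal
  have hDn : (M ⊓ Cfsg.fittingSubgroup G).Normal := inferInstance
  have hDnil : Group.IsNilpotent (M ⊓ Cfsg.fittingSubgroup G : Subgroup G) :=
    (H1.Nilp.le_fitting_iff hDn).mp inf_le_right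
  have hSp : IsPGroup q ((S : Subgroup M).map M.subtype) := S.2.map _
  have hD : M ⊓ Cfsg.fittingSubgroup G ≤ normalizer (((S : Subgroup M).map M.subtype : Subgroup G) : Set G) := by
    apply H1.Nilp.le_of_sylow_le
    intro p hp
    let P : Sylow p (M ⊓ Cfsg.fittingSubgroup G : Subgroup G) := default
    refine ⟨P, ?_⟩
    have hPn := H1.Nilp.sylow_map_normal_of_nilpotent hDn hDnil P
    have hPp : IsPGroup p ((P : Subgroup (M ⊓ Cfsg.fittingSubgroup G : Subgroup G)).map
      (M ⊓ Cfsg.fittingSubgroup G).subtype) := P.2.map _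
    have hPle := map_subtype_le (P : Subgroup (M ⊓ Cfsg.fittingSubgroup G : Subgroup G))
    generalize (P : Subgroup (M ⊓ Cfsg.fittingSubgroup G : Subgroup G)).map
      (M ⊓ Cfsg.fittingSubgroup G).subtype = K at hPn hPp hPle
    by_cases hpq : p = q
    · subst hpq
      have h1 : K.subgroupOf M ≤ (S : Subgroup M) :=
        normal_pgroup_le S inferInstance (hPp.comap_of_injective M.subtype M.subtype_injective)
      have h2 : K ≤ (S : Subgroup M).map M.subtype := by
        rw [← map_subtype_subgroupOf (hPle.trans inf_le_left)]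
        exact map_mono h1
      exact h2.trans le_normalizer
    · have hcK : (S : Subgroup M).map M.subtype ≤ centralizer (K : Set G) := by
        by_cases hp2 : p = 2
        · subst hp2
          have h1 : Odd (Nat.card K) := hodd.of_dvd_nat (card_dvd_of_le (hPle.trans inf_le_right))
          obtain ⟨n, hn⟩ := IsPGroup.iff_card.mp hPp
          have h2 : K = ⊥ := by
            rw [← Subgroup.card_eq_one, hn]
            rcases Nat.eq_zero_or_pos n with rfl | hn0
            · simp
            · exfalso
              rw [hn] at h1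
              have h9 : Even (2 ^ n) := (by decide : Even 2).pow_of_ne_zero hn0.ne'
              exact (Nat.not_even_iff_odd.mpr h1) h9
          rw [h2]
          intro x _
          rw [mem_centralizer_iff]
          intro y hy
          have : y = 1 := hy
          rw [this]; simp
        · refine omega_one (p := p) hp2 ?_ hPp ?_ ?_
          · rw [Subgroup.normalizer_eq_top (H := K)]; exact le_top
          · obtain ⟨n, hn⟩ := IsPGroup.iff_card.mp hSp
            rw [hn]
            exact ((Nat.coprime_primes hq.out hp.out).mpr (Ne.symm hpq)).pow_left n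
          · intro x hx hxp a ha
            by_cases hx1 : x = 1
            · rw [hx1]; simp
            have ho : orderOf x = p := orderOf_eq_prime hxp hx1
            exact hc a (map_subtype_le _ ha) x ((hPle hx).2) (by rw [ho]; exact hp.out)
      have h3 : K ≤ centralizer (((S : Subgroup M).map M.subtype : Subgroup G) : Set G) :=
        le_centralizer_iff.mp hcK
      refine h3.trans ?_
      exact centralizer_le_normalizer _
  have hD' : (M ⊓ Cfsg.fittingSubgroup G).subgroupOf M ≤ normalizer ((S : Subgroup M) : Set M) := by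
    intro x hx
    have h1 := hD hx
    rw [mem_normalizer_iff] at h1 ⊢
    intro h
    have h2 := h1 (h : G)
    have h3 : ∀ y : M, ((y : G) ∈ (S : Subgroup M).map M.subtype ↔ y ∈ (S : Subgroup M)) := by
      intro y
      exact mem_map_iff_mem M.subtype_injective
    rw [h3] at h2
    have h4 := h3 (x * h * x⁻¹)
    push_cast at h4
    have h5 : ((M.subtype x : G)) = (x : G) := rfl
    rw [h5] at h2
    rw [h2, h4]
  have hT : (S : Subgroup M) ⊔ (M ⊓ Cfsg.fittingSubgroup G).subgroupOf M ≤ normalizer ((S : Subgroup M) : Set M) :=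
    sup_le le_normalizer hD'
  have hTn : ((S : Subgroup M) ⊔ (M ⊓ Cfsg.fittingSubgroup G).subgroupOf M).Normal := by
    apply H1.Basic.normal_of_commutator_le
    refine le_trans ?_ le_sup_right
    rw [_root_.commutator_def, commutator_le]
    intro a _ b _
    rw [mem_subgroupOf]
    refine ⟨Subtype.mem _, hMF ?_⟩
    exact commutator_mem_commutator a.2 b.2
  have h1 := Sylow.normalizer_sup_eq_top' (N := (S : Subgroup M) ⊔ (M ⊓ Cfsg.fittingSubgroup G).subgroupOf M)
    S le_sup_left
  have h2 : normalizer ((S : Subgroup M) : Set M) ⊔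
      ((S : Subgroup M) ⊔ (M ⊓ Cfsg.fittingSubgroup G).subgroupOf M) = ⊤ := h1
  rw [sup_eq_left.mpr hT] at h2
  exact normalizer_eq_top_iff.mp h2

/-- Let G be a finite solvable group whose Fitting subgroup F(G) has odd order. If an element g of G commutes with every element of prime order of F(G), then g ∈ F(G). -/
theorem result {G : Type*} [Group G] [Finite G] (hG : Group.IsSolvable G) (hodd : Odd (Nat.card (Cfsg.fittingSubgroup G))) (g : G) (hg : ∀ x ∈ Cfsg.fittingSubgroup G, (orderOf x).Prime → g * x = x * g) : g ∈ Cfsg.fittingSubgroup G := by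
  have hFn : (Cfsg.fittingSubgroup G).Normal := H1.Nilp.fitting_normal
  let C : Subgroup G := centralizer {x : G | x ∈ Cfsg.fittingSubgroup G ∧ (orderOf x).Prime}
  have hmem : ∀ y : G, y ∈ C ↔ ∀ x ∈ Cfsg.fittingSubgroup G, (orderOf x).Prime → y * x = x * y := by
    intro y
    constructor
    · intro hy x hx ho
      exact (mem_centralizer_iff.mp hy x ⟨hx, ho⟩).symm
    · intro hy
      rw [mem_centralizer_iff]
      rintro x ⟨hx, ho⟩
      exact (hy x hx ho).symm
  have hCn : C.Normal := by
    constructor
    intro c hc h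
    rw [hmem] at hc ⊢
    intro x hx ho
    have h1 := hc (h⁻¹ * x * h) (by simpa using hFn.conj_mem x hx h⁻¹) (by
      have : h⁻¹ * x * h = MulAut.conj h⁻¹ x := by simp
      rw [this, MulEquiv.orderOf_eq]
      exact ho)
    calc h * c * h⁻¹ * x = h * (c * (h⁻¹ * x * h)) * h⁻¹ := by group
      _ = h * ((h⁻¹ * x * h) * c) * h⁻¹ := by rw [h1]
      _ = x * (h * c * h⁻¹) := by group
  have h1 : C ≤ Cfsg.fittingSubgroup G := by
    apply H1.Hall.le_of_commutator_induction hCn inferInstance
    intro M hM hMC hMF
    exact key hodd M hM (fun y hy => (hmem y).mp (hMC hy)) hMF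
  exact h1 ((hmem g).mpr hg)

end Cfsg.Agent.S3785
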