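import Cfsg.Statements.S3787
import Cfsg.Agent.H22_Wr1

set_option autoImplicit false
open Cfsg

namespace Cfsg.Agent.S3787

open Subgroup Cfsg.Agent Cfsg.Agent.H22 Cfsg.Agent.H22.HH7 Cfsg.Agent.H22.Wr1 Cfsg.Agent.H22.PSolv
open scoped commutatorElement

/-- for odd non-Fermat primes there is no exception -/
theorem ne_of {p : ℕ} (hp : p.Prime) (hp2 : p ≠ 2) (hnf : ¬ ∃ k : ℕ, p = 2 ^ k + 1)
    (G : Type*) [Group G] : NE p G := by
  intro n₀ q m h1 h2 h3 h4
  exfalso
  have hodd : Odd p := hp.odd_of_ne_two hp2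
  have h5 : Even (p ^ n₀ - 1) := by
    have := hodd.pow (n := n₀)
    obtain ⟨k, hk⟩ := this
    exact ⟨k, by omega⟩
  have hq2 : q = 2 := by
    rw [h4] at h5
    have h6 : 2 ∣ q ^ m := even_iff_two_dvd.mp h5
    exact ((Nat.prime_dvd_prime_iff_eq Nat.prime_two h2).mp (Nat.prime_two.dvd_of_dvd_pow h6)).symm
  subst hq2
  have h6 : p - 1 ∣ p ^ n₀ - 1 := by
    have := Nat.sub_dvd_pow_sub_pow p 1 n₀
    rwa [one_pow] at this
  rw [h4] at h6
  obtain ⟨k, -, hk⟩ := (Nat.dvd_prime_pow Nat.prime_two).mp h6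
  exact hnf ⟨k, by have := hp.one_lt; omega⟩

/-- Let G be a finite p-soluble group, p an odd prime not of the form 2^k + 1, and suppose the wreath product C_p ≀ C_p (of order p^(p+1)) is not involved in a Sylow p-subgroup of G: no section of a Sylow p-subgroup is isomorphic to it. Then G has p-length at most 1. -/
theorem result {G : Type*} [Group G] [Finite G] {p : ℕ} [Fact p.Prime] (hp2 : p ≠ 2) (hnf : (¬ ∃ k : ℕ, p = 2 ^ k + 1)) (hG : Cfsg.IsPSolvable p G) (P : Sylow p G) (hwr : ∀ (W : Type) [Group W] [Finite W], (∃ (B : Subgroup W) (t : W), B.Normal ∧ IsMulCommutative B ∧ (∀ b ∈ B, b ^ p = 1) ∧ Nat.card B = p ^ p ∧ orderOf t = p ∧ t ∉ B ∧ Nat.card W = p ^ (p + 1) ∧ Nat.card ↥(B ⊓ Subgroup.centralizer ({t} : Set W)) = p) → ¬ Cfsg.Involves W ↥(P : Subgroup G)) : Cfsg.PLengthLE p 1 G := by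
  classical
  have hp : Fact p.Prime := inferInstance
  set N := Cfsg.pPrimeCore p G with hN
  have hNn : N.Normal := H1.Nilp.pPrimeCore_normal p
  apply plengthLE_of_quotient_coprime N (H1.Nilp.pPrimeCore_coprime p)
  have hG₁ : Cfsg.IsPSolvable p (G ⧸ N) := isPSolvable_quotient N hG
  have hcore : Cfsg.pPrimeCore p (G ⧸ N) = ⊥ := H11.Cores.pPrimeCore_quotient p
  set T := Cfsg.pCore p (G ⧸ N) with hT
  have hTn : T.Normal := H1.Nilp.pCore_normal p
  have hTp : IsPGroup p T := H1.Nilp.pCore_isPGroup p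
  by_cases hT1 : T = ⊥
  · have h2 : ¬ Nontrivial (G ⧸ N) := by
      intro hnt
      rcases pCore_or_pPrimeCore_ne_bot hG₁ with h | h
      · exact h hT1
      · exact h hcore
    rw [not_nontrivial_iff_subsingleton] at h2
    apply plengthLE_mono (Nat.zero_le 1)
    rw [plengthLE_zero_iff, Nat.card_of_subsingleton (1 : G ⧸ N)]
    exact Nat.coprime_one_left p
  by_cases hpd : p ∣ Nat.card ((G ⧸ N) ⧸ T)
  swap
  · refine plengthLE_succ_of_quotient ⊥ T bot_le ?_ ?_ (plengthLE_zero_iff.mpr ?_)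
    · rw [card_bot]; exact Nat.coprime_one_left p
    · rw [relIndex_bot_left]
      exact IsPGroup.iff_card.mp hTp
    · rw [Nat.coprime_comm, Nat.Prime.coprime_iff_not_dvd hp.out]
      exact hpd
  exfalso
  obtain ⟨y, hy⟩ := exists_prime_orderOf_dvd_card' p hpd
  obtain ⟨x, rfl, b, hb⟩ := exists_lift T y 1 (show y ^ p ^ 1 = 1 by
    rw [pow_one, ← hy, pow_orderOf_eq_one])
  obtain ⟨v, hv, hne⟩ := step_norm hG₁ hcore T rfl hT1 (ne_of hp.out hp2 hnf _) x 1 (by rw [hy, pow_one])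
  rw [pow_one] at hne
  have hxT : x ∉ T := by
    intro h
    rw [(QuotientGroup.eq_one_iff x).mpr h, orderOf_one] at hy
    exact hp.out.one_lt.ne hy
  have hxp : x ^ p ∈ T := by
    rw [← QuotientGroup.eq_one_iff, QuotientGroup.mk_pow, ← hy, pow_orderOf_eq_one]
  set S : Subgroup (G ⧸ N) := T ⊔ zpowers x with hS
  have hTS : T ≤ S := le_sup_left
  have hxS : x ∈ S := mem_sup_right (mem_zpowers x)
  set Φ : Subgroup (G ⧸ N) := (frattini T).map T.subtype with hΦ
  have hΦn : Φ.Normal := inferInstance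
  have hΦT : Φ ≤ T := map_subtype_le _
  have hfr := H1.Nilp.commutator_le_frattini hTp
  obtain ⟨L, hLn, hWL⟩ := exists_wr (S := S) (T.subgroupOf S) (Φ.subgroupOf S)
    (fun a ha => hΦT ha) (by
      intro a ha b hb
      rw [mem_subgroupOf] at ha hb ⊢
      have h2 : (⁅(⟨a, ha⟩ : T), (⟨b, hb⟩ : T)⁆ : T) ∈ frattini T := by
        apply hfr.1
        rw [_root_.commutator_def]
        exact commutator_mem_commutator (mem_top _) (mem_top _)
      exact ⟨_, h2, rfl⟩) (by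
      intro a ha
      rw [mem_subgroupOf] at ha ⊢
      exact ⟨_, hfr.2 ⟨a, ha⟩, rfl⟩) ⟨x, hxS⟩ (by
      intro a ha
      rw [mem_subgroupOf] at ha ⊢
      exact hΦn.conj_mem _ ha x) (by
      apply Subgroup.map_injective S.subtype_injective
      rw [Subgroup.map_sup, MonoidHom.map_zpowers, subgroupOf_map_subtype, inf_eq_left.mpr hTS,
        ← MonoidHom.range_eq_map, range_subtype]
      rfl) hxT hxp ⟨v, hTS hv⟩ hv hne
  -- `S` is a `p`-group
  have hSp : IsPGroup p S := by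
    have h1 : IsPGroup p (zpowers x) := by
      obtain ⟨k, -, hk⟩ := (Nat.dvd_prime_pow hp.out).mp (orderOf_dvd_of_pow_eq_one hb)
      exact IsPGroup.of_card (by rw [Nat.card_zpowers, hk])
    exact hTp.to_sup_of_normal_left h1
  obtain ⟨R, hR⟩ := hSp.exists_le_sylow
  obtain ⟨g, hg⟩ := MulAction.exists_smul_eq (G ⧸ N) (Sylow.mapSurjective (QuotientGroup.mk'_surjective N) P) R
  -- transport
  have hinv1 : Cfsg.Involves (S ⧸ L) S := H13.Sec.involves_quotient L
  have hinv2 : Cfsg.Involves S (R : Subgroup (G ⧸ N)) :=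
    H13.Sec.involves_trans (H13.Sec.involves_congr (subgroupOfEquivOfLe hR))
      (H13.Sec.involves_subgroup (S.subgroupOf (R : Subgroup (G ⧸ N))))
  have hinv3 : Cfsg.Involves (R : Subgroup (G ⧸ N)) P := by
    let f : (P : Subgroup G) →* (G ⧸ N) :=
      ((MulAut.conj g).toMonoidHom.comp (QuotientGroup.mk' N)).comp (P : Subgroup G).subtype
    have hf : ∀ a : (P : Subgroup G), f a = g * (QuotientGroup.mk' N a) * g⁻¹ := fun a => rfl
    have hfR : ∀ a, f a ∈ (R : Subgroup (G ⧸ N)) := by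
      intro a
      rw [← hg]
      exact ⟨QuotientGroup.mk' N a, ⟨a, a.2, rfl⟩, rfl⟩
    apply H13.Sec.involves_of_surj' (f.codRestrict (R : Subgroup (G ⧸ N)) hfR)
    rintro ⟨y, hy⟩
    rw [← hg] at hy
    obtain ⟨z, ⟨a, ha, rfl⟩, hz⟩ := hy
    exact ⟨⟨a, ha⟩, Subtype.ext hz⟩
  have hinv : Cfsg.Involves (S ⧸ L) P := H13.Sec.involves_trans hinv1 (H13.Sec.involves_trans hinv2 hinv3)
  haveI : Small.{0} (S ⧸ L) := inferInstance
  let e : (S ⧸ L) ≃* Shrink.{0} (S ⧸ L) := (Shrink.mulEquiv (α := S ⧸ L)).symm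
  haveI : Finite (Shrink.{0} (S ⧸ L)) := Finite.of_equiv _ e.toEquiv
  refine hwr (Shrink.{0} (S ⧸ L)) (hWL.congr e) ?_
  exact H13.Sec.involves_trans (H13.Sec.involves_congr e) hinv

end Cfsg.Agent.S3787
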