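import Cfsg.Statements.S3788
import Cfsg.Agent.H18_CN2

set_option autoImplicit false
open Cfsg

namespace Cfsg.Agent.S3788

open Subgroup

/-- Let G be a finite p-soluble group, P a Sylow p-subgroup of G and A a cyclic normal subgroup of P. If p is odd, or if no section of G is isomorphic to the symmetric group of degree 4, then A ≤ O_{p',p}(G). -/
theorem result {G : Type*} [Group G] [Finite G] {p : ℕ} [Fact p.Prime] (hG : Cfsg.IsPSolvable p G) (P : Sylow p G) (A : Subgroup G) (hAP : A ≤ (P : Subgroup G)) (hAn : (P : Subgroup G) ≤ Subgroup.normalizer (A : Set G)) (hA : IsCyclic A) (h : p ≠ 2 ∨ ¬ Cfsg.Involves (Equiv.Perm (Fin 4)) G) : A ≤ Cfsg.pPrimePCore p G := by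
  classical
  haveI hn : (Cfsg.pPrimeCore p G).Normal := Cfsg.Agent.H1.Nilp.pPrimeCore_normal p
  set f := QuotientGroup.mk' (Cfsg.pPrimeCore p G) with hf
  have hfs : Function.Surjective f := QuotientGroup.mk'_surjective _
  have h1 : Cfsg.pPrimeCore p (G ⧸ Cfsg.pPrimeCore p G) = ⊥ := Cfsg.Agent.H11.Cores.pPrimeCore_quotient p
  obtain ⟨a, ha⟩ := (isCyclic_iff_exists_zpowers_eq_top).mp hA
  have hAa : A = zpowers (a : G) := by
    have h2 := congrArg (Subgroup.map A.subtype) ha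
    rw [MonoidHom.map_zpowers, ← MonoidHom.range_eq_map, range_subtype] at h2
    exact h2.symm
  rw [hAa, zpowers_le]
  change f (a : G) ∈ Cfsg.pCore p (G ⧸ Cfsg.pPrimeCore p G)
  apply Cfsg.Agent.H18.CN.core_case (Cfsg.Agent.H22.PSolv.isPSolvable_quotient _ hG) h1
  · obtain ⟨k, hk⟩ := P.2 ⟨(a : G), hAP a.2⟩
    have hk' : (a : G) ^ (p ^ k) = 1 := by simpa using congrArg Subtype.val hk
    exact ⟨k, by rw [← map_pow, hk', map_one]⟩
  · intro r hr
    -- the Sylow subgroup of the quotient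
    let Q : Sylow p (G ⧸ Cfsg.pPrimeCore p G) := P.mapSurjective hfs
    have hQ : (Q : Subgroup (G ⧸ Cfsg.pPrimeCore p G)) = (P : Subgroup G).map f := rfl
    haveI hcn := Cfsg.pCore_normal p (G ⧸ Cfsg.pPrimeCore p G)
    have hle : Cfsg.pCore p (G ⧸ Cfsg.pPrimeCore p G) ≤ (Q : Subgroup (G ⧸ Cfsg.pPrimeCore p G)) :=
      (Cfsg.Agent.H1.Nilp.pCore_isPGroup (G := G ⧸ Cfsg.pPrimeCore p G) p).le_sylow_of_normal Q
    rw [hQ] at hle
    obtain ⟨y, hy, rfl⟩ := hle hr
    have h2 : y * (a : G) * y⁻¹ ∈ A := (mem_normalizer_iff.mp (hAn hy) _).mp a.2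
    obtain ⟨m, hm⟩ := mem_zpowers_iff.mp (hAa.le h2)
    refine mem_zpowers_iff.mpr ⟨m, ?_⟩
    rw [← map_zpow, hm]
    simp
  · rcases h with h | h
    · exact Or.inl h
    · exact Or.inr fun hi => h (Cfsg.Agent.H17.Involves.involves_quotient hi)

end Cfsg.Agent.S3788
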