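import Cfsg.Statements.S3789
import Cfsg.Agent.H22_DL2
import Cfsg.Agent.H22_HH7

set_option autoImplicit false
set_option linter.unusedSectionVars false
set_option linter.style.haveILetI false

open Cfsg

namespace Cfsg.Agent.S3789

open Module Subgroup Cfsg.Agent.H22 Cfsg.Agent.H22.HH1 Cfsg.Agent.H22.HH2 Cfsg.Agent.H22.HH3
  Cfsg.Agent.H22.HH4 Cfsg.Agent.H22.HH5 Cfsg.Agent.H22.HH6 Cfsg.Agent.H22.PSolv
open scoped commutatorElement

universe u

theorem lemK {p : ℕ} {G : Type u} [Group G] [Finite G] [hp : Fact p.Prime] (hp2 : p ≠ 2)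
    (hG : Cfsg.IsPSolvable p G) (h1 : Cfsg.pPrimeCore p G = ⊥) (T : Subgroup G) [hTn : T.Normal]
    (hT : T = Cfsg.pCore p G) (hT1 : T ≠ ⊥) (S B : Subgroup G) (hS : IsPGroup p S) (hTS : T ≤ S)
    (hBS : B ≤ S) (hSB : S ≤ normalizer (B : Set G)) (hab : ⁅⁅B, B⁆, ⁅B, B⁆⁆ = ⊥) :
    ⁅B, B⁆ ≤ T := by
  classical
  by_contra hcon
  set A := ⁅B, B⁆ with hA
  have hSA : S ≤ normalizer (A : Set G) := H22.Basic.le_normalizer_commutator hSB hSB
  have hAB : A ≤ B := commutator_le_self B
  set π := QuotientGroup.mk' T with hπ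
  have hAbar : (⁅B.map π, B.map π⁆ : Subgroup (G ⧸ T)) = A.map π := (map_commutator B B π).symm
  have hAne : A.map π ≠ ⊥ := by
    intro h
    apply hcon
    rw [Subgroup.map_eq_bot_iff, hπ, QuotientGroup.ker_mk'] at h
    exact h
  have hcore : Cfsg.pCore p (G ⧸ T) = ⊥ := by
    subst hT
    exact PSolv.pCore_quotient
  have hKn : (Cfsg.pPrimeCore p (G ⧸ T)).Normal := H1.Nilp.pPrimeCore_normal p
  have hSp : IsPGroup p (S.map π) := hS.map π
  have hAp : IsPGroup p (A.map π) := hSp.to_le (map_mono (hAB.trans hBS))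
  have hnt : ⁅Cfsg.pPrimeCore p (G ⧸ T), A.map π⁆ ≠ ⊥ := by
    intro h0
    rw [commutator_comm, Subgroup.commutator_eq_bot_iff_le_centralizer] at h0
    have h2 : A.map π ≤ Cfsg.pPrimeCore p (G ⧸ T) :=
      h0.trans (centralizer_pPrimeCore_le (PSolv.isPSolvable_quotient T hG) hcore)
    apply hAne
    apply card_eq_one.mp
    obtain ⟨n, hn⟩ := IsPGroup.iff_card.mp hAp
    have h3 : Nat.card (A.map π) ∣ Nat.card (Cfsg.pPrimeCore p (G ⧸ T)) := card_dvd_of_le h2
    have h4 : (Nat.card (Cfsg.pPrimeCore p (G ⧸ T))).Coprime (p ^ n) :=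
      Nat.Coprime.pow_right n (H1.Nilp.pPrimeCore_coprime p)
    rw [← hn] at h4
    exact Nat.eq_one_of_dvd_coprimes h4 h3 dvd_rfl
  obtain ⟨q, hq, P, hqp, hPK, hPq, hSP, hntP⟩ := exists_sylow_comm hSp
    (by rw [normalizer_eq_top]; exact le_top) (H1.Nilp.pPrimeCore_coprime p) hnt
  obtain ⟨Q, hQP, hSQ, hntQ, hmin⟩ := exists_min (A.map π) (S.map π) _ P le_rfl hSP hntP
  have hQq : IsPGroup q Q := hPq.to_le hQP
  have hAcop : (Nat.card (A.map π)).Coprime q := by
    obtain ⟨n, hn⟩ := IsPGroup.iff_card.mp hAp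
    rw [hn]
    exact Nat.Coprime.pow_left n ((Nat.coprime_primes hp.out hq.out).mpr (Ne.symm hqp))
  have hSAn : S.map π ≤ normalizer ((A.map π : Subgroup (G ⧸ T)) : Set (G ⧸ T)) := by
    rintro _ ⟨s, hs, rfl⟩
    exact (le_normalizer_map π) (mem_map_of_mem π (hSA hs))
  obtain ⟨hQA, hcl, -⟩ := min_data hQq hSQ (map_mono (hAB.trans hBS)) hSAn hAcop hntQ hmin
  obtain ⟨M, i1, i2, i3, ρ, hinj, hM, hlist, -⟩ := exists_rep_quot hG h1 T hT hT1
  haveI : CharP (AlgebraicClosure (ZMod p)) p :=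
    charP_of_injective_algebraMap (FaithfulSMul.algebraMap_injective (ZMod p) (AlgebraicClosure (ZMod p))) p
  -- the dual representation
  let k := AlgebraicClosure (ZMod p)
  let D : Module.End k M → Module.End k (Module.Dual k M) := fun f => f.dualMap
  have hDmul : ∀ f g, D (f * g) = D g * D f := fun f g => rfl
  have hDsub : ∀ f, D (f - 1) = D f - 1 := by
    intro f
    ext φ v
    show φ ((f - 1) v) = φ (f v) - φ v
    rw [LinearMap.sub_apply, map_sub]; rfl
  have hD0 : D 0 = 0 := by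
    ext φ v
    show φ ((0 : Module.End k M) v) = 0
    rw [LinearMap.zero_apply, map_zero]
  let ρ' : G ⧸ T →* Module.End k (Module.Dual k M) :=
    { toFun := fun x => D (ρ x⁻¹)
      map_one' := by
        rw [inv_one, map_one]; rfl
      map_mul' := fun x y => by
        rw [mul_inv_rev, map_mul, hDmul] }
  have hρ' : ∀ x, ρ' x - 1 = D (ρ x⁻¹ - 1) := fun x => (hDsub _).symm
  have hinj' : Function.Injective ρ' := by
    rw [injective_iff_map_eq_one]
    intro x hx
    have h2 : ρ x⁻¹ = 1 := by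
      ext v
      rw [← sub_eq_zero]
      apply (Module.forall_dual_apply_eq_zero_iff k _).mp
      intro φ
      have h3 := congrArg (fun F => (F φ) v) hx
      have h4 : φ (ρ x⁻¹ v) = φ v := h3
      rw [map_sub, h4]
      simp
    rw [← map_one ρ] at h2
    exact inv_eq_one.mp (hinj h2)
  have hAcomm : ∀ a ∈ A, ∀ c ∈ A, a * c = c * a := by
    intro a ha c hc
    have h2 : A ≤ centralizer (A : Set G) := commutator_eq_bot_iff_le_centralizer.mp hab
    exact ((mem_centralizer_iff.mp (h2 ha)) c hc).symm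
  have hconj : ∀ {X : Subgroup G}, S ≤ normalizer (X : Set G) → ∀ s ∈ S, ∀ x ∈ X,
      x * s * x⁻¹ * s⁻¹ ∈ X := by
    intro X hX s hs x hx
    have h2 : s * x⁻¹ * s⁻¹ ∈ X := (Subgroup.mem_normalizer_iff.mp (hX hs) _).mp (X.inv_mem hx)
    have h3 := X.mul_mem hx h2
    have e : x * (s * x⁻¹ * s⁻¹) = x * s * x⁻¹ * s⁻¹ := by group
    rwa [e] at h3
  have hAAρ : ∀ a ∈ A, ∀ c ∈ A, (ρ (a : G ⧸ T) - 1) * (ρ (c : G ⧸ T) - 1) = 0 := by
    intro a ha c hc
    have h2 := hlist [a, c] (by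
      intro v hv
      have h3 : c * v * c⁻¹ * v⁻¹ ∈ A := hconj hSA v (hTS hv) c hc
      show a * (c * v * c⁻¹ * v⁻¹) * a⁻¹ * (c * v * c⁻¹ * v⁻¹)⁻¹ ∈ _
      rw [hAcomm a ha _ h3, mul_inv_cancel_right, mul_inv_cancel]
      exact one_mem _)
    simpa using h2
  have hABBρ : ∀ b ∈ B, ∀ a ∈ A,
      ((ρ (a : G ⧸ T) - 1) * (ρ (b : G ⧸ T) - 1)) * (ρ (b : G ⧸ T) - 1) = 0 := by
    intro b hb a ha
    have h2 := hlist [a, b, b] (by
      intro v hv
      have h3 : b * v * b⁻¹ * v⁻¹ ∈ B := hconj hSB v (hTS hv) b hb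
      have h4 : b * (b * v * b⁻¹ * v⁻¹) * b⁻¹ * (b * v * b⁻¹ * v⁻¹)⁻¹ ∈ A :=
        commutator_mem_commutator hb h3
      show a * (b * (b * v * b⁻¹ * v⁻¹) * b⁻¹ * (b * v * b⁻¹ * v⁻¹)⁻¹) * a⁻¹ *
        (b * (b * v * b⁻¹ * v⁻¹) * b⁻¹ * (b * v * b⁻¹ * v⁻¹)⁻¹)⁻¹ ∈ _
      rw [hAcomm a ha _ h4, mul_inv_cancel_right, mul_inv_cancel]
      exact one_mem _)
    simp only [List.map_cons, List.map_nil, List.prod_cons, List.prod_nil, mul_one] at h2
    rw [mul_assoc]
    exact h2
  have hQ := H22.DL2.core hp2 hqp ρ' hinj' (B.map π) Q (hSp.to_le (map_mono hBS)) hQq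
    ((map_mono hBS).trans hSQ) (by
      rw [hAbar]
      rintro _ ⟨a, ha, rfl⟩ _ ⟨c, hc, rfl⟩
      rw [hρ', hρ', ← hDmul, ← map_inv, ← map_inv]
      have h2 := hAAρ c⁻¹ (A.inv_mem hc) a⁻¹ (A.inv_mem ha)
      show D ((ρ ((c⁻¹ : G) : G ⧸ T) - 1) * (ρ ((a⁻¹ : G) : G ⧸ T) - 1)) = 0
      rw [h2, hD0]) (by
      rw [hAbar]
      rintro _ ⟨b, hb, rfl⟩ _ ⟨a, ha, rfl⟩
      rw [hρ', hρ', ← hDmul, ← hDmul, ← map_inv, ← map_inv]
      have h2 := hABBρ b⁻¹ (B.inv_mem hb) a⁻¹ (A.inv_mem ha)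
      show D (((ρ ((a⁻¹ : G) : G ⧸ T) - 1) * (ρ ((b⁻¹ : G) : G ⧸ T) - 1)) *
        (ρ ((b⁻¹ : G) : G ⧸ T) - 1)) = 0
      rw [h2, hD0]) (by rw [hAbar]; exact hQA) hcl
  apply hntQ
  rw [hQ]
  exact commutator_bot_left _

/-- the derived series of a subgroup -/
def D {G : Type u} [Group G] (P : Subgroup G) : ℕ → Subgroup G
  | 0 => P
  | n + 1 => ⁅D P n, D P n⁆

lemma D_le {G : Type u} [Group G] (P : Subgroup G) (n : ℕ) : D P n ≤ P := by
  induction n with
  | zero => exact le_rfl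
  | succ n ih => exact (commutator_mono ih ih).trans (commutator_le_self P)

lemma D_mono {G : Type u} [Group G] {P Q : Subgroup G} (h : P ≤ Q) (n : ℕ) : D P n ≤ D Q n := by
  induction n with
  | zero => exact h
  | succ n ih => exact commutator_mono ih ih

lemma D_map {G : Type u} [Group G] {H : Type*} [Group H] (f : G →* H) (P : Subgroup G) (n : ℕ) :
    (D P n).map f = D (P.map f) n := by
  induction n with
  | zero => rfl
  | succ n ih =>
    show (⁅D P n, D P n⁆ : Subgroup G).map f = ⁅D (P.map f) n, D (P.map f) n⁆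
    rw [map_commutator, ih]

lemma D_norm {G : Type u} [Group G] (P : Subgroup G) (n : ℕ) : P ≤ normalizer (D P n : Set G) := by
  induction n with
  | zero => exact le_normalizer
  | succ n ih => exact H22.Basic.le_normalizer_commutator ih ih

lemma D_eq {G : Type u} [Group G] (P : Subgroup G) (n : ℕ) :
    (derivedSeries P n).map P.subtype = D P n := by
  induction n with
  | zero =>
    rw [derivedSeries_zero, ← MonoidHom.range_eq_map, Subgroup.range_subtype]; rfl
  | succ n ih =>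
    rw [derivedSeries_succ, map_commutator, ih]; rfl

theorem quot_cond {p : ℕ} [hp : Fact p.Prime] {G : Type u} [Group G] [Finite G] (N : Subgroup G)
    [N.Normal] (d : ℕ) (h : ∀ P : Sylow p G, D (P : Subgroup G) d ≤ N) :
    ∀ P : Sylow p (G ⧸ N), D (P : Subgroup (G ⧸ N)) d = ⊥ := by
  intro P
  obtain ⟨S, hS⟩ := Sylow.mapSurjective_surjective (QuotientGroup.mk'_surjective N) p P
  have h2 : (P : Subgroup (G ⧸ N)) = (S : Subgroup G).map (QuotientGroup.mk' N) := by
    rw [← hS]; rfl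
  rw [h2, ← D_map, Subgroup.map_eq_bot_iff, QuotientGroup.ker_mk']
  exact h S

theorem main {p : ℕ} [hp : Fact p.Prime] (hp2 : p ≠ 2) (d : ℕ) : ∀ {G : Type u} [Group G] [Finite G],
    Cfsg.IsPSolvable p G → (∀ P : Sylow p G, D (P : Subgroup G) d = ⊥) → Cfsg.PLengthLE p d G := by
  induction d with
  | zero =>
    intro G _ _ hG hd
    rw [plengthLE_zero_iff]
    have P : Sylow p G := default
    have h1 : (P : Subgroup G) = ⊥ := hd P
    have h2 := P.card_mul_index
    have h3 := P.not_dvd_index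
    rw [h1, index_bot] at h3
    exact ((Nat.Prime.coprime_iff_not_dvd hp.out).mpr h3).symm
  | succ d ih =>
    have core : ∀ {G : Type u} [Group G] [Finite G], Cfsg.IsPSolvable p G →
        (∀ P : Sylow p G, D (P : Subgroup G) (d + 1) = ⊥) →
        Cfsg.pPrimeCore p G = ⊥ → Cfsg.PLengthLE p (d + 1) G := by
      intro G _ _ hG hd h1
      have hTn : (Cfsg.pCore p G).Normal := H1.Nilp.pCore_normal p
      by_cases hT1 : Cfsg.pCore p G = ⊥
      · have h2 : ¬ Nontrivial G := by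
          intro hnt
          rcases pCore_or_pPrimeCore_ne_bot hG with h | h
          · exact h hT1
          · exact h h1
        rw [not_nontrivial_iff_subsingleton] at h2
        apply plengthLE_mono (Nat.zero_le (d + 1))
        rw [plengthLE_zero_iff, Nat.card_of_subsingleton (1 : G)]
        exact Nat.coprime_one_left p
      · have h2 : ∀ P : Sylow p G, D (P : Subgroup G) d ≤ Cfsg.pCore p G := by
          intro P
          have hTP : Cfsg.pCore p G ≤ P := by
            have h3 : IsPGroup p (Cfsg.pCore p G) := H1.Nilp.pCore_isPGroup p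
            obtain ⟨Q, hQ⟩ := h3.exists_le_sylow
            obtain ⟨g, rfl⟩ := MulAction.exists_smul_eq G Q P
            intro x hx
            have h4 : g⁻¹ * x * g ∈ (Q : Subgroup G) := by
              apply hQ
              have := hTn.conj_mem x hx g⁻¹
              rwa [inv_inv] at this
            refine ⟨g⁻¹ * x * g, h4, ?_⟩
            show g * (g⁻¹ * x * g) * g⁻¹ = x
            group
          have h3 := hd P
          cases d with
          | zero =>
            have h4 : (⁅(P : Subgroup G), (P : Subgroup G)⁆ : Subgroup G) = ⊥ := h3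
            have h5 : (P : Subgroup G) ≤ centralizer ((P : Subgroup G) : Set G) :=
              commutator_eq_bot_iff_le_centralizer.mp h4
            exact (h5.trans (centralizer_le hTP)).trans (centralizer_pCore_le hG h1)
          | succ d =>
            exact lemK hp2 hG h1 (Cfsg.pCore p G) rfl hT1 P (D (P : Subgroup G) d) P.isPGroup' hTP
              (D_le _ _) (D_norm _ _) h3
        have h3 := ih (PSolv.isPSolvable_quotient (Cfsg.pCore p G) hG) (quot_cond _ d h2)
        refine plengthLE_succ_of_quotient ⊥ (Cfsg.pCore p G) bot_le ?_ ?_ h3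
        · rw [card_bot]; exact Nat.coprime_one_left p
        · rw [relIndex_bot_left]
          exact IsPGroup.iff_card.mp (H1.Nilp.pCore_isPGroup p)
    intro G _ _ hG hd
    have : (Cfsg.pPrimeCore p G).Normal := H1.Nilp.pPrimeCore_normal p
    apply plengthLE_of_quotient_coprime (Cfsg.pPrimeCore p G) (H1.Nilp.pPrimeCore_coprime p)
    exact core (PSolv.isPSolvable_quotient (Cfsg.pPrimeCore p G) hG)
      (quot_cond _ _ (fun P => by rw [hd P]; exact bot_le)) (H11.Cores.pPrimeCore_quotient p)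

theorem result {G : Type*} [Group G] [Finite G] {p : ℕ} [Fact p.Prime] (hp : p ≠ 2) (hG : Cfsg.IsPSolvable p G) (d : ℕ) (hd : ∀ P : Sylow p G, derivedSeries ↥(P : Subgroup G) d = ⊥) : Cfsg.PLengthLE p d G := by
  refine main hp d hG (fun P => ?_)
  rw [← D_eq, hd P, Subgroup.map_bot]

end Cfsg.Agent.S3789
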