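import Cfsg.Statements.S3790
import Cfsg.Agent.H22_PSolv2

set_option autoImplicit false
open Cfsg

namespace Cfsg.Agent.S3790

open Subgroup H22.PSolv

universe u

theorem inner {p : ℕ} [hp : Fact p.Prime] (r : ℕ) (q : Fin r → ℕ) (l : Fin r → ℕ) (t : ℕ)
    (ht : t.Prime) (htp : t ≠ p)
    (ih : ∀ (G : Type u) [Group G] [Finite G], (∀ s : ℕ, s.Prime → s ∣ Nat.card G → s ≠ p → ∃ i, q i = s) →
      (∀ i, Cfsg.PLengthLE (q i) (l i) G) → Cfsg.PLengthLE p (∏ i, (1 + l i)) G)
    (hq : ∀ i, (q i).Prime) (k : ℕ) :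
    ∀ (G : Type u) [Group G] [Finite G],
      (∀ s : ℕ, s.Prime → s ∣ Nat.card G → s ≠ p → (∃ i, q i = s) ∨ s = t) →
      (∀ i, Cfsg.PLengthLE (q i) (l i) G) → Cfsg.PLengthLE t k G →
      Cfsg.PLengthLE p ((1 + k) * ∏ i, (1 + l i)) G := by
  have hqf : ∀ i, Fact (q i).Prime := fun i => ⟨hq i⟩
  have htf : Fact t.Prime := ⟨ht⟩
  have hprime : ∀ (G : Type u) [Group G] [Finite G], (Nat.card G).Coprime t →
      (∀ s : ℕ, s.Prime → s ∣ Nat.card G → s ≠ p → (∃ i, q i = s) ∨ s = t) →
      (∀ i, Cfsg.PLengthLE (q i) (l i) G) → Cfsg.PLengthLE p (∏ i, (1 + l i)) G := by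
    intro G _ _ hc hcov hl
    apply ih G _ hl
    intro s hs hsd hsp
    rcases hcov s hs hsd hsp with h | h
    · exact h
    · exfalso
      rw [h] at hsd
      exact (ht.coprime_iff_not_dvd.mp hc.symm) hsd
  induction k with
  | zero =>
    intro G _ _ hcov hl hk
    rw [add_zero, one_mul]
    exact hprime G (plengthLE_zero_iff.mp hk) hcov hl
  | succ k ihk =>
    intro G _ _ hcov hl hk
    have hLn : (Cfsg.pPrimeCore t G).Normal := H1.Nilp.pPrimeCore_normal t
    have hLc := H1.Nilp.pPrimeCore_coprime (G := G) t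
    have hLq := H11.Cores.pPrimeCore_quotient (G := G) t
    set L := Cfsg.pPrimeCore t G with hL
    have h1 : Cfsg.PLengthLE p (∏ i, (1 + l i)) L := by
      apply hprime L hLc
      · intro s hs hsd
        exact hcov s hs (hsd.trans (card_subgroup_dvd_card L))
      · intro i
        exact plengthLE_subgroup L (hl i)
    have hTn : (Cfsg.pCore t (G ⧸ L)).Normal := H1.Nilp.pCore_normal t
    have hTp : IsPGroup t (Cfsg.pCore t (G ⧸ L)) := H1.Nilp.pCore_isPGroup t
    have h2 : Cfsg.PLengthLE p ((1 + k) * ∏ i, (1 + l i)) ((G ⧸ L) ⧸ Cfsg.pCore t (G ⧸ L)) := by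
      apply ihk
      · intro s hs hsd
        apply hcov s hs
        have e1 := (Cfsg.pCore t (G ⧸ L)).card_quotient_dvd_card
        have e2 := L.card_quotient_dvd_card
        exact hsd.trans (e1.trans e2)
      · intro i
        exact plengthLE_quotient _ (plengthLE_quotient _ (hl i))
      · exact plengthLE_quotient_pCore hLq (plengthLE_quotient L hk)
    have h3 : Cfsg.PLengthLE p 0 (Cfsg.pCore t (G ⧸ L)) := by
      rw [plengthLE_zero_iff]
      obtain ⟨n, hn⟩ := IsPGroup.iff_card.mp hTp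
      rw [hn]
      exact Nat.Coprime.pow_left n ((Nat.coprime_primes ht hp.out).mpr htp)
    have h4 := plengthLE_add _ h3 h2
    have h5 := plengthLE_add L h1 h4
    have h6 : (∏ i, (1 + l i)) + (0 + (1 + k) * ∏ i, (1 + l i)) = (1 + (k + 1)) * ∏ i, (1 + l i) := by ring
    rwa [h6] at h5

theorem main {p : ℕ} [hp : Fact p.Prime] (r : ℕ) : ∀ (q : Fin r → ℕ) (l : Fin r → ℕ)
    (_ : ∀ i, (q i).Prime ∧ q i ≠ p) (G : Type u) [Group G] [Finite G],
    (∀ s : ℕ, s.Prime → s ∣ Nat.card G → s ≠ p → ∃ i, q i = s) →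
    (∀ i, Cfsg.PLengthLE (q i) (l i) G) → Cfsg.PLengthLE p (∏ i, (1 + l i)) G := by
  induction r with
  | zero =>
    intro q l hq G _ _ hcov hl
    rw [Fin.prod_univ_zero]
    have hG : ∃ n, Nat.card G = p ^ n :=
      ⟨_, Nat.eq_prime_pow_of_unique_prime_dvd Nat.card_pos.ne' (fun {s} hs hsd => by
        by_contra hne
        obtain ⟨i, -⟩ := hcov s hs hsd hne
        exact i.elim0)⟩
    apply plengthLE_one_of ⊥ ⊤ bot_le
    · rw [card_bot]; exact Nat.coprime_one_left p
    · rw [relIndex_bot_left, card_top]; exact hG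
    · rw [index_top]; exact Nat.coprime_one_left p
  | succ r ih =>
    intro q l hq G _ _ hcov hl
    rw [Fin.prod_univ_castSucc, mul_comm]
    apply inner r (fun i => q i.castSucc) (fun i => l i.castSucc) (q (Fin.last r)) (hq _).1 (hq _).2
      (fun G _ _ => ih _ _ (fun i => hq _) G) (fun i => (hq _).1)
    · intro s hs hsd hsp
      obtain ⟨i, hi⟩ := hcov s hs hsd hsp
      rcases Fin.eq_castSucc_or_eq_last i with ⟨j, rfl⟩ | rfl
      · exact Or.inl ⟨j, hi⟩
      · exact Or.inr hi.symm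
    · intro i; exact hl _
    · exact hl _

/-- Let G be a finite solvable group and p a prime. Suppose p₁, …, p_r are distinct primes, all different from p, that include every prime dividing the order of G other than p, and that G has p_i-length at most l_i for each i. Then G has p-length at most the product of the numbers 1 + l_i. -/
theorem result {G : Type*} [Group G] [Finite G] (hG : Group.IsSolvable G) (p : ℕ) [Fact p.Prime] (r : ℕ) (q : Fin r → ℕ) (hq : ∀ i, (q i).Prime ∧ q i ≠ p) (hinj : Function.Injective q) (hcover : ∀ s : ℕ, s.Prime → s ∣ Nat.card G → s ≠ p → ∃ i, q i = s) (l : Fin r → ℕ) (hl : ∀ i, Cfsg.PLengthLE (q i) (l i) G) : Cfsg.PLengthLE p (Finset.univ.prod fun i => 1 + l i) G :=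
  main r q l hq G hcover hl

end Cfsg.Agent.S3790
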