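import Cfsg.Statements.S3791
import Cfsg.Agent.H22_PSolv2

set_option autoImplicit false
open Cfsg

namespace Cfsg.Agent.S3791

open Subgroup H22.PSolv

universe u

/-- all `q`-subgroups have derived length at most `d` -/
def HD (q d : ℕ) (G : Type u) [Group G] : Prop :=
  ∀ K : Subgroup G, IsPGroup q K → derivedSeries K d = ⊥

theorem derivedSeries_eq_bot_of_surjective {A B : Type u} [Group A] [Group B] (f : A →* B)
    (hf : Function.Surjective f) {d : ℕ} (h : derivedSeries A d = ⊥) : derivedSeries B d = ⊥ := by
  rw [← map_derivedSeries_eq hf d, h, Subgroup.map_bot]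

theorem derivedSeries_eq_bot_of_injective {A B : Type u} [Group A] [Group B] (f : A →* B)
    (hf : Function.Injective f) {d : ℕ} (h : derivedSeries B d = ⊥) : derivedSeries A d = ⊥ := by
  have h1 := map_derivedSeries_le_derivedSeries f d
  rw [h, le_bot_iff, Subgroup.map_eq_bot_iff, (MonoidHom.ker_eq_bot_iff f).mpr hf, le_bot_iff] at h1
  exact h1

theorem HD.quotient {q d : ℕ} [Fact q.Prime] {G : Type u} [Group G] [Finite G] (h : HD q d G)
    (N : Subgroup G) [N.Normal] : HD q d (G ⧸ N) := by
  intro K hK
  obtain ⟨S, hS⟩ := hK.exists_le_sylow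
  let P : Sylow q G := default
  let Q : Sylow q (G ⧸ N) := P.mapSurjective (QuotientGroup.mk'_surjective N)
  obtain ⟨g, hg⟩ := MulAction.exists_smul_eq (G ⧸ N) Q S
  -- S is isomorphic to Q, which is an image of P
  have h1 : derivedSeries (Q : Subgroup (G ⧸ N)) d = ⊥ := by
    let f : (P : Subgroup G) →* (Q : Subgroup (G ⧸ N)) :=
      (QuotientGroup.mk' N).subgroupMap (P : Subgroup G)
    have hf : Function.Surjective f := MonoidHom.subgroupMap_surjective _ _
    exact derivedSeries_eq_bot_of_surjective f hf (h _ P.2)
  have h2 : derivedSeries (S : Subgroup (G ⧸ N)) d = ⊥ := by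
    rw [← hg]
    have e : (Q : Subgroup (G ⧸ N)) ≃* ((g • Q : Sylow q (G ⧸ N)) : Subgroup (G ⧸ N)) :=
      Subgroup.equivSMul (MulAut.conj g) (Q : Subgroup (G ⧸ N))
    exact derivedSeries_eq_bot_of_surjective e.toMonoidHom e.surjective h1
  exact derivedSeries_eq_bot_of_injective (inclusion hS) (inclusion_injective hS) h2

theorem derivedSeries_add_eq_bot {G : Type u} [Group G] (N : Subgroup G) [N.Normal] {a b : ℕ}
    (ha : derivedSeries N a = ⊥) (hb : derivedSeries (G ⧸ N) b = ⊥) : derivedSeries G (b + a) = ⊥ := by
  have h1 : derivedSeries G b ≤ N := by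
    have h2 := map_derivedSeries_le_derivedSeries (QuotientGroup.mk' N) b
    rw [hb, le_bot_iff, Subgroup.map_eq_bot_iff, QuotientGroup.ker_mk'] at h2
    exact h2
  have key : ∀ k, derivedSeries G (b + k) ≤ (derivedSeries N k).map N.subtype := by
    intro k
    induction k with
    | zero =>
      rw [derivedSeries_zero, ← MonoidHom.range_eq_map, range_subtype]; exact h1
    | succ k ih =>
      rw [← add_assoc, derivedSeries_succ, derivedSeries_succ, map_commutator]
      exact commutator_mono ih ih
  have h3 := key a
  rw [ha, Subgroup.map_bot, le_bot_iff] at h3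
  exact h3

theorem main (n : ℕ) : ∀ (r : ℕ) (q : Fin r → ℕ) (_ : ∀ i, (q i).Prime) (d l : Fin r → ℕ)
    (_ : ∑ i, l i = n) (G : Type u) [Group G] [Finite G],
    (∀ s : ℕ, s.Prime → s ∣ Nat.card G → ∃ i, q i = s) → (∀ i, HD (q i) (d i) G) →
    (∀ i, Cfsg.PLengthLE (q i) (l i) G) → derivedSeries G (∑ i, d i * l i) = ⊥ := by
  classical
  induction n with
  | zero =>
    intro r q hq d l hl G _ _ hcov hd hlen
    have hqf : ∀ i, Fact (q i).Prime := fun i => ⟨hq i⟩
    have hG : Nat.card G = 1 := by
      by_contra hne
      obtain ⟨s, hs, hsd⟩ := Nat.exists_prime_and_dvd hne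
      obtain ⟨i, rfl⟩ := hcov s hs hsd
      have h1 : l i = 0 := by
        have := Finset.sum_eq_zero_iff.mp hl i (Finset.mem_univ i)
        exact this
      have h2 := hlen i
      rw [h1, plengthLE_zero_iff] at h2
      exact (hs.coprime_iff_not_dvd.mp h2.symm) hsd
    have : Subsingleton G := (Nat.card_eq_one_iff_unique.mp hG).1
    exact Subsingleton.elim _ _
  | succ n ih =>
    intro r q hq d l hl G _ _ hcov hd hlen
    have hqf : ∀ i, Fact (q i).Prime := fun i => ⟨hq i⟩
    -- embed in the product of the G / O_{q_i'}
    have key : ∀ i, derivedSeries G (∑ i, d i * l i) ≤ Cfsg.pPrimeCore (q i) G := by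
      intro i
      have hLn : (Cfsg.pPrimeCore (q i) G).Normal := H1.Nilp.pPrimeCore_normal _
      have hLq := H11.Cores.pPrimeCore_quotient (G := G) (q i)
      set L := Cfsg.pPrimeCore (q i) G with hL
      have goal : derivedSeries (G ⧸ L) (∑ i, d i * l i) = ⊥ := by
        rcases Nat.eq_zero_or_pos (l i) with h0 | hpos
        · have h2 := plengthLE_quotient L (hlen i)
          rw [h0, plengthLE_zero_iff] at h2
          have h3 : (⊤ : Subgroup (G ⧸ L)) ≤ ⊥ := by
            rw [← hLq]
            exact H1.Nilp.le_pPrimeCore inferInstance (by rw [card_top]; exact h2)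
          rw [eq_bot_iff]
          exact le_top.trans h3
        · have hTn : (Cfsg.pCore (q i) (G ⧸ L)).Normal := H1.Nilp.pCore_normal _
          have hTp : IsPGroup (q i) (Cfsg.pCore (q i) (G ⧸ L)) := H1.Nilp.pCore_isPGroup _
          have hdT : derivedSeries (Cfsg.pCore (q i) (G ⧸ L)) (d i) = ⊥ := (hd i).quotient L _ hTp
          have hsum : ∑ j, Function.update l i (l i - 1) j = n := by
            have h3 : ∑ j, l j = l i + ∑ j ∈ Finset.univ.erase i, l j :=
              (Finset.add_sum_erase _ _ (Finset.mem_univ i)).symm
            have h4 : ∑ j, Function.update l i (l i - 1) j =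
                (l i - 1) + ∑ j ∈ Finset.univ.erase i, l j := by
              rw [← Finset.add_sum_erase _ _ (Finset.mem_univ i), Function.update_self]
              congr 1
              apply Finset.sum_congr rfl
              intro j hj
              rw [Function.update_of_ne (Finset.ne_of_mem_erase hj)]
            omega
          have hsum2 : ∑ j, d j * Function.update l i (l i - 1) j + d i = ∑ j, d j * l j := by
            rw [← Finset.add_sum_erase _ (fun j => d j * l j) (Finset.mem_univ i),
              ← Finset.add_sum_erase _ (fun j => d j * Function.update l i (l i - 1) j) (Finset.mem_univ i)]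
            have h5 : ∑ j ∈ Finset.univ.erase i, d j * Function.update l i (l i - 1) j =
                ∑ j ∈ Finset.univ.erase i, d j * l j := by
              apply Finset.sum_congr rfl
              intro j hj
              rw [Function.update_of_ne (Finset.ne_of_mem_erase hj)]
            simp only [Function.update_self]
            rw [h5]
            obtain ⟨m, hm⟩ : ∃ m, l i = m + 1 := ⟨l i - 1, by omega⟩
            rw [hm, Nat.add_sub_cancel]; ring
          have h6 := ih r q hq d (Function.update l i (l i - 1)) hsum
            ((G ⧸ L) ⧸ Cfsg.pCore (q i) (G ⧸ L))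
            (by
              intro s hs hsd
              apply hcov s hs
              exact hsd.trans ((Cfsg.pCore (q i) (G ⧸ L)).card_quotient_dvd_card.trans
                L.card_quotient_dvd_card))
            (fun j => ((hd j).quotient L).quotient _)
            (by
              intro j
              by_cases hj : j = i
              · subst hj
                rw [Function.update_self]
                apply plengthLE_quotient_pCore hLq
                rw [Nat.sub_add_cancel hpos]
                exact plengthLE_quotient L (hlen j)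
              · rw [Function.update_of_ne hj]
                exact plengthLE_quotient _ (plengthLE_quotient _ (hlen j)))
          have h7 := derivedSeries_add_eq_bot (Cfsg.pCore (q i) (G ⧸ L)) hdT h6
          rwa [hsum2] at h7
      have h2 := map_derivedSeries_le_derivedSeries (QuotientGroup.mk' L) (∑ i, d i * l i)
      rw [goal, le_bot_iff, Subgroup.map_eq_bot_iff, QuotientGroup.ker_mk'] at h2
      exact h2
    rw [← Subgroup.card_eq_one]
    by_contra hne
    obtain ⟨s, hs, hsd⟩ := Nat.exists_prime_and_dvd hne
    obtain ⟨i, rfl⟩ := hcov s hs (hsd.trans (card_subgroup_dvd_card _))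
    have h1 := card_dvd_of_le (key i)
    have h2 := H1.Nilp.pPrimeCore_coprime (G := G) (q i)
    exact (hs.coprime_iff_not_dvd.mp h2.symm) (hsd.trans h1)

/-- The Hall–Higman bound on derived length: let G be a finite solvable group, let p₁, …, p_r be distinct primes that include every prime dividing the order of G, and suppose that for each i the Sylow p_i-subgroups of G have derived length at most d_i and G has p_i-length at most l_i. Then G has derived length at most Σ d_i l_i. -/
theorem result {G : Type*} [Group G] [Finite G] (hG : Group.IsSolvable G) (r : ℕ) (q : Fin r → ℕ) (hq : ∀ i, (q i).Prime) (hinj : Function.Injective q) (hcover : ∀ s : ℕ, s.Prime → s ∣ Nat.card G → ∃ i, q i = s) (d l : Fin r → ℕ) (hd : ∀ i, ∀ P : Subgroup G, (haveI := Fact.mk (hq i); ∃ S : Sylow (q i) G, (S : Subgroup G) = P) → derivedSeries ↥P (d i) = ⊥) (hl : ∀ i, Cfsg.PLengthLE (q i) (l i) G) : derivedSeries G (Finset.univ.sum fun i => d i * l i) = ⊥ := by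
  apply main _ r q hq d l rfl G hcover _ hl
  intro i K hK
  have : Fact (q i).Prime := ⟨hq i⟩
  obtain ⟨S, hS⟩ := hK.exists_le_sylow
  exact derivedSeries_eq_bot_of_injective (inclusion hS) (inclusion_injective hS) (hd i S ⟨S, rfl⟩)

end Cfsg.Agent.S3791
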