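import Cfsg.Statements.S3793
import Cfsg.Agent.H22_SG2
import Cfsg.Agent.H22_DL2

set_option autoImplicit false
set_option linter.unusedSectionVars false
set_option linter.style.haveILetI false

open Cfsg

namespace Cfsg.Agent.S3793

open Subgroup Cfsg.Agent.H22
open scoped commutatorElement

universe u

/-- Fitting height at most `n` -/
def FH (n : ℕ) (G : Type u) [Group G] : Prop :=
  ∃ F : ℕ → Subgroup G, F 0 = ⊥ ∧ F n = ⊤ ∧ (∀ i, F i ≤ F (i + 1)) ∧ (∀ i, (F i).Normal) ∧
    ∀ i < n, ∃ k : ℕ, (F (i + 1)).lowerCentralSeries k ≤ F i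

theorem FH.of_quot {n : ℕ} {G : Type u} [Group G] (N : Subgroup G) [hN : N.Normal]
    (hNn : ∃ k : ℕ, N.lowerCentralSeries k = ⊥) (h : FH n (G ⧸ N)) : FH (n + 1) G := by
  obtain ⟨F, h0, hn, hm, hF, hk⟩ := h
  refine ⟨fun i => match i with
    | 0 => ⊥
    | i + 1 => (F i).comap (QuotientGroup.mk' N), rfl, ?_, ?_, ?_, ?_⟩
  · show (F n).comap _ = ⊤
    rw [hn]; rfl
  · intro i
    match i with
    | 0 => exact bot_le
    | i + 1 => exact comap_mono (hm i)
  · intro i
    match i with
    | 0 => exact (inferInstance : (⊥ : Subgroup G).Normal)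
    | i + 1 => exact (hF i).comap _
  · intro i hi
    match i with
    | 0 =>
      obtain ⟨k, hk⟩ := hNn
      refine ⟨k, ?_⟩
      show ((F 0).comap (QuotientGroup.mk' N)).lowerCentralSeries k ≤ ⊥
      have h1 : (F 0).comap (QuotientGroup.mk' N) = N := by
        rw [h0]; exact QuotientGroup.ker_mk' N
      rw [h1, hk]
    | i + 1 =>
      obtain ⟨k, hk⟩ := hk i (by omega)
      refine ⟨k, ?_⟩
      show ((F (i + 1)).comap (QuotientGroup.mk' N)).lowerCentralSeries k ≤
        (F i).comap (QuotientGroup.mk' N)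
      rw [← Subgroup.map_le_iff_le_comap, Subgroup.map_lowerCentralSeries,
        Subgroup.map_comap_eq_self_of_surjective (QuotientGroup.mk'_surjective N)]
      exact hk

theorem key {p : ℕ} [hp : Fact p.Prime] (hp2 : p ≠ 2) (n : ℕ) : ∀ {G : Type u} [Group G] [Finite G],
    Group.IsSolvable G → ∀ σ : MulAut G, σ ^ p ^ n = 1 → (∀ g : G, σ g = g → g = 1) → FH n G := by
  induction n with
  | zero =>
    intro G _ _ hG σ hσ hf
    rw [pow_zero, pow_one] at hσ
    have h1 : ∀ g : G, g = 1 := fun g => hf g (by rw [hσ]; rfl)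
    refine ⟨fun _ => ⊥, rfl, ?_, fun _ => le_rfl, fun _ => inferInstance, fun i hi => absurd hi (Nat.not_lt_zero i)⟩
    rw [eq_comm, eq_bot_iff]
    intro g _
    exact mem_bot.mpr (h1 g)
  | succ n ih =>
    intro G _ _ hG σ hσ hf
    -- the semidirect product
    let φ : zpowers σ →* MulAut G := (zpowers σ).subtype
    haveI : Finite (G ⋊[φ] zpowers σ) := Finite.of_equiv _ SemidirectProduct.equivProd.symm
    set K : Subgroup (G ⋊[φ] zpowers σ) := (SemidirectProduct.inl : G →* G ⋊[φ] zpowers σ).range with hK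
    let x : G ⋊[φ] zpowers σ := SemidirectProduct.inr ⟨σ, mem_zpowers σ⟩
    have hKn : K.Normal := by
      rw [hK, SemidirectProduct.range_inl_eq_ker_rightHom]
      infer_instance
    have hKs : Group.IsSolvable K := Group.isSolvable_of_surjective
      (f := (SemidirectProduct.inl : G →* G ⋊[φ] zpowers σ).rangeRestrict)
      (MonoidHom.rangeRestrict_surjective _)
    have hact : ∀ (i : ℕ) (g : G), x ^ i * SemidirectProduct.inl g * (x ^ i)⁻¹ =
        SemidirectProduct.inl ((σ ^ i) g) := by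
      intro i g
      show (SemidirectProduct.inr ⟨σ, mem_zpowers σ⟩ : G ⋊[φ] zpowers σ) ^ i * _ * _ = _
      rw [← map_pow, ← map_inv, ← SemidirectProduct.inl_aut]
      rfl
    have hxn : x ^ p ^ (n + 1) = 1 := by
      show (SemidirectProduct.inr ⟨σ, mem_zpowers σ⟩ : G ⋊[φ] zpowers σ) ^ p ^ (n + 1) = 1
      rw [← map_pow]
      have : (⟨σ, mem_zpowers σ⟩ : zpowers σ) ^ p ^ (n + 1) = 1 := Subtype.ext hσ
      rw [this, map_one]
    have hfx : K ⊓ centralizer ({x} : Set (G ⋊[φ] zpowers σ)) = ⊥ := by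
      rw [eq_bot_iff]
      rintro _ ⟨⟨g, rfl⟩, hg⟩
      have h1 : SemidirectProduct.inl g * x = x * SemidirectProduct.inl g :=
        mem_centralizer_singleton_iff.mp hg
      have h2 := hact 1 g
      rw [pow_one, pow_one, ← h1, mul_inv_cancel_right] at h2
      have h3 : g = σ g := SemidirectProduct.inl_injective h2
      rw [mem_bot, hf g h3.symm, map_one]
    have hcard : Nat.card K = Nat.card G :=
      (Nat.card_congr (MonoidHom.ofInjective SemidirectProduct.inl_injective).toEquiv).symm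
    have hcop : (Nat.card G).Coprime p := by
      have h1 : IsPGroup p (zpowers σ) := by
        obtain ⟨k, -, hk⟩ := (Nat.dvd_prime_pow hp.out).mp (orderOf_dvd_of_pow_eq_one hσ)
        exact IsPGroup.of_card (by rw [Nat.card_zpowers, hk])
      have h2 := h1.card_modEq_card_fixedPoints G
      have h3 : MulAction.fixedPoints (zpowers σ) G = {1} := by
        ext g
        constructor
        · intro hg
          exact hf g (hg ⟨σ, mem_zpowers σ⟩)
        · rintro rfl c
          exact map_one c.1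
      have h3' : Nat.card (MulAction.fixedPoints (zpowers σ) G) = 1 := by
        rw [h3]; exact Nat.card_unique
      rw [h3'] at h2
      rw [Nat.coprime_comm, Nat.Prime.coprime_iff_not_dvd hp.out]
      intro hd
      have h4 : 0 ≡ 1 [MOD p] := ((Nat.modEq_zero_iff_dvd.mpr hd).symm.trans h2)
      have h5 : p ∣ 1 := Nat.modEq_zero_iff_dvd.mp h4.symm
      exact hp.out.one_lt.ne' (Nat.dvd_one.mp h5)
    have hnil := SG2.nil hp2 (n := n + 1) (by omega) (Nat.card K) K x hKn le_rfl hKs
      (by rw [hcard]; exact hcop) hxn hfx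
    rw [Nat.add_sub_cancel] at hnil
    -- the subgroup of `G`
    set τ := σ ^ p ^ n with hτ
    let N : Subgroup G := closure {c | ∃ g : G, c = g * (τ g)⁻¹}
    have hNmem : ∀ g : G, g * (τ g)⁻¹ ∈ N := fun g => subset_closure ⟨g, rfl⟩
    have hNn : N.Normal := by
      constructor
      intro c hc h
      refine closure_induction (p := fun c _ => h * c * h⁻¹ ∈ N) ?_ ?_ ?_ ?_ hc
      · rintro _ ⟨g, rfl⟩
        have h1 : h * (g * (τ g)⁻¹) * h⁻¹ = (h * g * (τ (h * g))⁻¹) * (h * (τ h)⁻¹)⁻¹ := by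
          rw [map_mul]; group
        rw [h1]
        exact N.mul_mem (hNmem _) (N.inv_mem (hNmem _))
      · rw [mul_one, mul_inv_cancel]; exact N.one_mem
      · intro a b _ _ ha hb
        have h1 : h * (a * b) * h⁻¹ = (h * a * h⁻¹) * (h * b * h⁻¹) := by group
        rw [h1]; exact N.mul_mem ha hb
      · intro a _ ha
        have h1 : h * a⁻¹ * h⁻¹ = (h * a * h⁻¹)⁻¹ := by group
        rw [h1]; exact N.inv_mem ha
    have hNσ : ∀ z ∈ N, σ z ∈ N := by
      intro z hz
      refine closure_induction (p := fun c _ => σ c ∈ N) ?_ ?_ ?_ ?_ hz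
      · rintro _ ⟨g, rfl⟩
        rw [map_mul, map_inv]
        have h1 : σ (τ g) = τ (σ g) := by
          rw [hτ, ← MulAut.mul_apply, ← MulAut.mul_apply, ← pow_succ, ← pow_succ']
        rw [h1]; exact hNmem _
      · rw [map_one]; exact N.one_mem
      · intro a b _ _ ha hb
        rw [map_mul]; exact N.mul_mem ha hb
      · intro a _ ha
        rw [map_inv]; exact N.inv_mem ha
    have hNnil : ∃ k : ℕ, N.lowerCentralSeries k = ⊥ := by
      have h1 : N.map (SemidirectProduct.inl : G →* G ⋊[φ] zpowers σ) ≤ ⁅K, zpowers (x ^ p ^ n)⁆ := by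
        rw [Subgroup.map_le_iff_le_comap, closure_le]
        rintro _ ⟨g, rfl⟩
        rw [SetLike.mem_coe, Subgroup.mem_comap]
        have h2 : (SemidirectProduct.inl (g * (τ g)⁻¹) : G ⋊[φ] zpowers σ) =
            ⁅(SemidirectProduct.inl g : G ⋊[φ] zpowers σ), x ^ p ^ n⁆ := by
          rw [map_mul, map_inv, ← hact, commutatorElement_def]
          group
        rw [h2]
        exact commutator_mem_commutator ⟨g, rfl⟩ (mem_zpowers _)
      obtain ⟨k, hk⟩ := (Subgroup.isNilpotent_iff_lowerCentralSeries _).mp hnil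
      refine ⟨k, ?_⟩
      have h2 : (N.map (SemidirectProduct.inl : G →* G ⋊[φ] zpowers σ)).lowerCentralSeries k = ⊥ := by
        rw [eq_bot_iff, ← hk]
        clear hk
        induction k with
        | zero => exact h1
        | succ k ih =>
          rw [Subgroup.lowerCentralSeries_succ, Subgroup.lowerCentralSeries_succ]
          exact commutator_mono ih h1
      rw [← Subgroup.map_lowerCentralSeries] at h2
      exact (Subgroup.map_eq_bot_iff_of_injective _ SemidirectProduct.inl_injective).mp h2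
    apply FH.of_quot N hNnil
    apply ih (Group.isSolvable_of_surjective (QuotientGroup.mk'_surjective N)) (DL2.qaut σ hNσ)
    · have hpow : ∀ (i : ℕ) (g : G), ((DL2.qaut σ hNσ) ^ i) (g : G ⧸ N) = (((σ ^ i) g : G) : G ⧸ N) := by
        intro i
        induction i with
        | zero => intro g; rfl
        | succ i ih => intro g; rw [pow_succ', MulAut.mul_apply, ih, DL2.qaut_mk, pow_succ']; rfl
      ext y
      obtain ⟨g, rfl⟩ := QuotientGroup.mk_surjective y
      rw [hpow]
      show ((τ g : G) : G ⧸ N) = (g : G ⧸ N)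
      rw [QuotientGroup.eq]
      have h1 := hNn.conj_mem _ (hNmem (g⁻¹)) (g)
      have h2 : g * (g⁻¹ * (τ g⁻¹)⁻¹) * g⁻¹ = τ g * g⁻¹ := by rw [map_inv]; group
      rw [h2] at h1
      have h3 := hNn.conj_mem _ (N.inv_mem h1) (τ g)⁻¹
      have h4 : (τ g)⁻¹ * (τ g * g⁻¹)⁻¹ * (τ g)⁻¹⁻¹ = (τ g)⁻¹ * g := by group
      rwa [h4] at h3
    · intro y hy
      obtain ⟨g, rfl⟩ := QuotientGroup.mk_surjective y
      have h1 : ((σ g : G) : G ⧸ N) = (g : G ⧸ N) := hy
      rw [QuotientGroup.eq] at h1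
      -- surjectivity on `N`
      have hinj : ∀ v w : G, (σ v)⁻¹ * v = (σ w)⁻¹ * w → v = w := by
        intro v w h
        have h2 : σ (v * w⁻¹) = v * w⁻¹ := by
          rw [map_mul, map_inv]
          have h3 : (σ w)⁻¹ = (σ v)⁻¹ * v * w⁻¹ := by rw [h]; group
          rw [h3]; group
        exact mul_inv_eq_one.mp (hf _ h2)
      let f : N → N := fun v => ⟨(σ v.1)⁻¹ * v.1, N.mul_mem (N.inv_mem (hNσ _ v.2)) v.2⟩
      have hfi : Function.Injective f := fun v w h => Subtype.ext (hinj v w (congrArg Subtype.val h))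
      obtain ⟨v, hv⟩ := (Finite.injective_iff_surjective.mp hfi) ⟨(σ g)⁻¹ * g, h1⟩
      have h2 := hinj v g (congrArg Subtype.val hv)
      have h3 : g ∈ N := h2 ▸ v.2
      exact (QuotientGroup.eq_one_iff g).mpr h3

/-- The Shult–Gross Theorem -/
theorem result {G : Type*} [Group G] [Finite G] (hG : Group.IsSolvable G) {p : ℕ} (hp : p.Prime) (hp2 : p ≠ 2) (σ : MulAut G) (n : ℕ) (hσ : orderOf σ = p ^ n) (hfpf : ∀ g : G, σ g = g → g = 1) : ∃ F : Fin (n + 1) → Subgroup G, F 0 = ⊥ ∧ F (Fin.last n) = ⊤ ∧ Monotone F ∧ (∀ i, (F i).Normal) ∧ ∀ i : Fin n, ∃ k : ℕ, (F i.succ).lowerCentralSeries k ≤ F i.castSucc := by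
  haveI : Fact p.Prime := ⟨hp⟩
  obtain ⟨F, h0, hn, hm, hF, hk⟩ := key hp2 n hG σ (by rw [← hσ]; exact pow_orderOf_eq_one σ) hfpf
  refine ⟨fun i => F i, h0, hn, ?_, fun i => hF i, fun i => hk i i.2⟩
  intro i j hij
  exact monotone_nat_of_le_succ hm hij

end Cfsg.Agent.S3793
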