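import Cfsg.Statements.S3794
import Cfsg.Agent.H22_FPF

set_option autoImplicit false
open Cfsg

namespace Cfsg.Agent.S3794

open Subgroup

theorem ring_lemma {R : Type*} [Ring R] {Q : Type*} [Group Q] [Fintype Q]
    (hQ : ∀ x y : Q, x * y = y * x) (ρ : Q →* R) (σ : Q ≃* Q) (s : R)
    (hs : ∀ h, s * ρ h = ρ (σ h) * s)
    (h1 : ∀ h : Q, h * σ h * σ (σ h) * σ (σ (σ h)) = 1)
    (h2 : ∀ h : Q, 1 + ρ h * s + (ρ h * s) ^ 2 + (ρ h * s) ^ 3 = 0)
    (h3 : ∑ h, ρ h = 0)
    (hreg : ∀ x : R, (Fintype.card Q : R) * x = 0 → x = 0) : s ^ 2 = -1 := by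
  have e2 : ∀ h, (ρ h * s) ^ 2 = ρ (h * σ h) * s ^ 2 := by
    intro h
    rw [pow_two, pow_two, map_mul]
    calc ρ h * s * (ρ h * s) = ρ h * (s * ρ h) * s := by noncomm_ring
      _ = _ := by rw [hs]; noncomm_ring
  have e3 : ∀ h, (ρ h * s) ^ 3 = ρ (h * σ h * σ (σ h)) * s ^ 3 := by
    intro h
    rw [pow_succ, e2, map_mul (f := ρ) (h * σ h), pow_succ s 2, pow_two]
    calc ρ (h * σ h) * (s * s) * (ρ h * s) = ρ (h * σ h) * (s * (s * ρ h)) * s := by noncomm_ring
      _ = ρ (h * σ h) * ((s * ρ (σ h)) * s) * s := by rw [hs]; noncomm_ring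
      _ = _ := by rw [hs]; noncomm_ring
  have e4 : ∑ h, ρ (h * σ h * σ (σ h)) = 0 := by
    have : ∀ h, h * σ h * σ (σ h) = (σ (σ (σ h)))⁻¹ := fun h => eq_inv_of_mul_eq_one_left (h1 h)
    simp only [this]
    rw [← h3]
    exact Equiv.sum_comp ((σ.toEquiv.trans (σ.toEquiv.trans σ.toEquiv)).trans (Equiv.inv Q)) (fun h => ρ h)
  set E := ∑ h, ρ (h * σ h) with hE
  have e5 : (Fintype.card Q : R) + E * s ^ 2 = 0 := by
    have : ∑ h : Q, (1 + ρ h * s + ρ (h * σ h) * s ^ 2 + ρ (h * σ h * σ (σ h)) * s ^ 3) = 0 := by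
      apply Finset.sum_eq_zero
      intro h _
      rw [← e2, ← e3]
      exact h2 h
    rw [Finset.sum_add_distrib, Finset.sum_add_distrib, Finset.sum_add_distrib, ← Finset.sum_mul,
      ← Finset.sum_mul, ← Finset.sum_mul, h3, e4, zero_mul, zero_mul, add_zero, add_zero,
      Finset.sum_const, Finset.card_univ, nsmul_one] at this
    exact this
  have e6 : E * E = (Fintype.card Q : R) * E := by
    have : ∀ h : Q, ρ (h * σ h) * E = E := by
      intro h
      rw [hE, Finset.mul_sum]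
      have : ∀ k, ρ (h * σ h) * ρ (k * σ k) = ρ ((h * k) * σ (h * k)) := by
        intro k
        rw [← map_mul]
        congr 1
        rw [map_mul]
        calc h * σ h * (k * σ k) = h * (σ h * k) * σ k := by group
          _ = h * (k * σ h) * σ k := by rw [hQ (σ h) k]
          _ = _ := by group
      simp only [this]
      exact Equiv.sum_comp (Equiv.mulLeft h) (fun k => ρ (k * σ k))
    conv_lhs => rw [hE]
    rw [Finset.sum_mul, Finset.sum_congr rfl (fun h _ => this h), Finset.sum_const, Finset.card_univ,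
      nsmul_eq_mul]
  have e7 : E + E * s ^ 2 = 0 := by
    apply hreg
    have := congrArg (fun x => E * x) e5
    simp only [mul_zero, mul_add, ← mul_assoc] at this
    rw [e6] at this
    rw [mul_add, ← mul_assoc]
    rw [← this, (Nat.cast_commute (Fintype.card Q) E).eq]
  have e8 : E = (Fintype.card Q : R) := by
    have h7 : E * s ^ 2 = - E := by rw [eq_neg_iff_add_eq_zero, add_comm]; exact e7
    rw [h7] at e5
    exact (sub_eq_zero.mp (by rw [sub_eq_add_neg]; exact e5)).symm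
  rw [e8] at e5
  have := hreg (1 + s ^ 2) (by rw [mul_add, mul_one]; exact e5)
  rw [eq_neg_iff_add_eq_zero, add_comm]
  exact this

/-- Lang-type conjugacy -/
theorem poly_zero {G : Type*} [Group G] [Finite G] {σ : MulAut G} (hf : ∀ g : G, σ g = g → g = 1)
    {A : Type*} [AddCommGroup A] (ρ : G →* AddMonoid.End A) (s : AddMonoid.End A)
    (hs : ∀ g, s * ρ g = ρ (σ g) * s) (hs4 : s ^ 4 = 1) (hsf : ∀ a : A, s a = a → a = 0) (g : G) :
    1 + ρ g * s + (ρ g * s) ^ 2 + (ρ g * s) ^ 3 = 0 := by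
  obtain ⟨k, hk⟩ := H22.FPF.exists_mul_inv hf g
  have h0 : 1 + s + s ^ 2 + s ^ 3 = 0 := by
    ext a
    apply hsf
    have : s * (1 + s + s ^ 2 + s ^ 3) = 1 + s + s ^ 2 + s ^ 3 := by
      have : s * (1 + s + s ^ 2 + s ^ 3) = s + s ^ 2 + s ^ 3 + s ^ 4 := by noncomm_ring
      rw [this, hs4]; abel
    have h1 := congrArg (fun f : AddMonoid.End A => f a) this
    exact h1
  have h1 : ρ g * s = ρ k * s * ρ k⁻¹ := by
    have h2 : s * ρ k⁻¹ = ρ (σ k⁻¹) * s := hs _
    rw [mul_assoc, h2, ← mul_assoc, ← map_mul, map_inv, hk]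
  have hkk : ρ k⁻¹ * ρ k = 1 := by rw [← map_mul, inv_mul_cancel, map_one]
  have hkk' : ρ k * ρ k⁻¹ = 1 := by rw [← map_mul, mul_inv_cancel, map_one]
  have h2 : (ρ k * s * ρ k⁻¹) ^ 2 = ρ k * s ^ 2 * ρ k⁻¹ := by
    rw [pow_two, pow_two]
    calc ρ k * s * ρ k⁻¹ * (ρ k * s * ρ k⁻¹) = ρ k * s * (ρ k⁻¹ * ρ k) * s * ρ k⁻¹ := by noncomm_ring
      _ = _ := by rw [hkk]; noncomm_ring
  have h3 : (ρ k * s * ρ k⁻¹) ^ 3 = ρ k * s ^ 3 * ρ k⁻¹ := by
    rw [pow_succ, h2, pow_succ s 2]
    calc ρ k * s ^ 2 * ρ k⁻¹ * (ρ k * s * ρ k⁻¹) = ρ k * s ^ 2 * (ρ k⁻¹ * ρ k) * s * ρ k⁻¹ := by noncomm_ring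
      _ = _ := by rw [hkk]; noncomm_ring
  rw [h1, h2, h3]
  calc 1 + ρ k * s * ρ k⁻¹ + ρ k * s ^ 2 * ρ k⁻¹ + ρ k * s ^ 3 * ρ k⁻¹
      = ρ k * ρ k⁻¹ + ρ k * s * ρ k⁻¹ + ρ k * s ^ 2 * ρ k⁻¹ + ρ k * s ^ 3 * ρ k⁻¹ := by rw [hkk']
    _ = ρ k * (1 + s + s ^ 2 + s ^ 3) * ρ k⁻¹ := by noncomm_ring
    _ = 0 := by rw [h0]; simp

/-- the embedding of `MulAut V` in the endomorphism ring -/
def toEnd (V : Type*) [CommGroup V] : MulAut V →* AddMonoid.End (Additive V) where
  toFun α := MonoidHom.toAdditive α.toMonoidHom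
  map_one' := rfl
  map_mul' _ _ := rfl

theorem toEnd_apply {V : Type*} [CommGroup V] (α : MulAut V) (v : V) :
    toEnd V α (Additive.ofMul v) = Additive.ofMul (α v) := rfl

theorem key {G : Type*} [Group G] [Finite G] (hG : Group.IsSolvable G) (σ : MulAut G)
    (hσ : σ ^ 4 = 1) (hf : ∀ g : G, σ g = g → g = 1)
    (V : Subgroup G) (hVn : V.Normal) (hVb : V ≠ ⊥) (hVs : V.map σ.toMonoidHom = V)
    (hVmin : ∀ R : Subgroup G, R ≤ V → R.Normal → R.map σ.toMonoidHom = R → R = ⊥ ∨ R = V)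
    (hVc : ∀ x ∈ V, ∀ y ∈ V, x * y = y * x) (r : ℕ) (hr : r.Prime) (hVr : ∀ x ∈ V, x ^ r = 1)
    (hrV : r ∣ Nat.card V) :
    commutator G ≤ centralizer (V : Set G) := by
  classical
  have : Fact r.Prime := ⟨hr⟩
  set C := centralizer (V : Set G) with hCdef
  have hCn : C.Normal := inferInstance
  have hCs : C.map σ.toMonoidHom = C := H22.FPF.map_centralizer hVs
  let τ : MulAut (G ⧸ C) := QuotientGroup.congr C C σ hCs
  have hτ : ∀ g : G, τ (QuotientGroup.mk g) = QuotientGroup.mk (σ g) := fun g => rfl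
  have hτf : ∀ x : G ⧸ C, τ x = x → x = 1 := H22.FPF.fpf_quotient hf hCs
  let _ : CommGroup V := { (inferInstance : Group V) with mul_comm := fun a b => Subtype.ext (hVc a a.2 b b.2) }
  let R := AddMonoid.End (Additive V)
  let ρ1 : G ⧸ C →* MulAut V := QuotientGroup.lift C (MulAut.conjNormal (H := V)) (by
    intro c hc
    ext v
    rw [MulAut.conjNormal_apply]
    have := mem_centralizer_iff.mp hc v v.2
    rw [← this]; simp)
  have hρ1 : ∀ (g : G) (v : V), ((ρ1 (QuotientGroup.mk g) v : V) : G) = g * v * g⁻¹ := fun g v => rfl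
  let ρ : G ⧸ C →* R := (toEnd V).comp ρ1
  let s1 : MulAut V := (σ.subgroupMap V).trans (MulEquiv.subgroupCongr hVs)
  have hs1 : ∀ v : V, ((s1 v : V) : G) = σ v := fun v => rfl
  let s : R := toEnd V s1
  have hsρ : ∀ g, s * ρ g = ρ (τ g) * s := by
    intro x
    have : s1 * ρ1 x = ρ1 (τ x) * s1 := by
      obtain ⟨g, rfl⟩ := QuotientGroup.mk_surjective x
      ext v
      show ((s1 (ρ1 (QuotientGroup.mk g) v) : V) : G) = ((ρ1 (QuotientGroup.mk (σ g)) (s1 v) : V) : G)
      rw [hs1, hρ1, hρ1, hs1]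
      simp
    have := congrArg (toEnd V) this
    rwa [map_mul, map_mul] at this
  have hs4 : s ^ 4 = 1 := by
    show (toEnd V s1) ^ 4 = 1
    rw [← map_pow]
    have : s1 ^ 4 = 1 := by
      ext v
      have : ∀ w : G, σ (σ (σ (σ w))) = w := fun w => by
        have := congrArg (fun f : MulAut G => f w) hσ
        exact this
      exact this v
    rw [this, map_one]
  have hsf : ∀ a : Additive V, s a = a → a = 0 := by
    intro a ha
    have h1 : σ ((a.toMul : V) : G) = ((a.toMul : V) : G) := congrArg Subtype.val ha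
    have h2 := hf _ h1
    exact congrArg Additive.ofMul (Subtype.ext h2 : a.toMul = 1)
  by_cases hCtop : C = ⊤
  · rw [hCtop]; exact le_top
  have hnt : Nontrivial (G ⧸ C) := by
    rw [QuotientGroup.nontrivial_iff]; exact hCtop
  have hsolq : Group.IsSolvable (G ⧸ C) := inferInstance
  obtain ⟨Q, hQn, hQb, hQs, hQmin, hQc, q, hq, hQq, hqQ⟩ := H22.FPF.exists_minimal_invariant hsolq τ
  have : Fact q.Prime := ⟨hq⟩
  have hQp : IsPGroup q Q := fun x => ⟨1, by
    rw [pow_one]; exact Subtype.ext (hQq x x.2)⟩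
  -- fixed points of `Q` on `V`
  set Q' : Subgroup G := Q.comap (QuotientGroup.mk' C) with hQ'
  have hQ'n : Q'.Normal := inferInstance
  have hQ's : Q'.map σ.toMonoidHom = Q' := by
    apply H22.FPF.map_eq_of_forall_mem
    intro g hg
    have : τ (QuotientGroup.mk g) ∈ Q := by
      rw [← hQs]; exact ⟨_, hg, rfl⟩
    exact this
  have hF : V ⊓ centralizer (Q' : Set G) = ⊥ := by
    rcases hVmin (V ⊓ centralizer (Q' : Set G)) inf_le_left inferInstance (by
      apply H22.FPF.map_eq_of_forall_mem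
      rintro g ⟨hg1, hg2⟩
      refine ⟨(H22.FPF.map_mem_iff hVs g).mpr hg1, ?_⟩
      exact (H22.FPF.map_mem_iff (H22.FPF.map_centralizer hQ's) g).mpr hg2) with h | h
    · exact h
    · exfalso
      apply hQb
      rw [eq_bot_iff]
      intro x hx
      obtain ⟨g, rfl⟩ := QuotientGroup.mk_surjective x
      have hg : g ∈ Q' := hx
      rw [mem_bot, QuotientGroup.eq_one_iff, hCdef, mem_centralizer_iff]
      intro v hv
      rw [← h] at hv
      exact (mem_centralizer_iff.mp hv.2 g hg).symm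
  have hfix : ∀ v : V, (∀ x ∈ Q, ρ1 x v = v) → v = 1 := by
    intro v hv
    have : (v : G) ∈ V ⊓ centralizer (Q' : Set G) := by
      refine mem_inf.mpr ⟨v.2, mem_centralizer_iff.mpr ?_⟩
      intro g hg
      have := congrArg Subtype.val (hv (QuotientGroup.mk g) hg)
      rw [hρ1] at this
      exact mul_inv_eq_iff_eq_mul.mp this
    rw [hF, mem_bot] at this
    exact Subtype.ext this
  -- `q ≠ r`
  have hqr : q ≠ r := by
    rintro rfl
    let act : MulAction Q V := MulAction.compHom V (ρ1.comp Q.subtype)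
    obtain ⟨b, hb, hb1⟩ := hQp.exists_fixed_point_of_prime_dvd_card_of_fixed_point V hrV
      (a := (1 : V)) (by
        intro x
        show ρ1 x 1 = 1
        exact map_one _)
    apply hb1
    symm
    apply hfix
    intro x hx
    exact hb ⟨x, hx⟩
  -- apply the ring lemma
  let fQ : Fintype Q := Fintype.ofFinite Q
  have hτQ : ∀ x, x ∈ Q → τ x ∈ Q := fun x hx => (H22.FPF.map_mem_iff hQs x).mpr hx
  let τQ : Q ≃* Q := (τ.subgroupMap Q).trans (MulEquiv.subgroupCongr hQs)
  have hτQ1 : ∀ x : Q, ((τQ x : Q) : G ⧸ C) = τ x := fun x => rfl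
  have hpoly : ∀ x : G ⧸ C, 1 + ρ x * s + (ρ x * s) ^ 2 + (ρ x * s) ^ 3 = 0 :=
    fun x => poly_zero hτf ρ s hsρ hs4 hsf x
  have hτ4 : ∀ x, τ (τ (τ (τ x))) = x := by
    intro x
    obtain ⟨g, rfl⟩ := QuotientGroup.mk_surjective x
    rw [hτ, hτ, hτ, hτ]
    congr 1
    exact congrArg (fun f : MulAut G => f g) hσ
  have hsq : s ^ 2 = -1 := by
    apply ring_lemma (Q := Q) (fun x y => Subtype.ext (hQc x x.2 y y.2)) (ρ.comp Q.subtype) τQ s
    · intro h; exact hsρ h
    · intro h
      have h1 : τ ((h : G ⧸ C) * τ h * τ (τ h) * τ (τ (τ h))) = (h : G ⧸ C) * τ h * τ (τ h) * τ (τ (τ h)) := by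
        rw [map_mul, map_mul, map_mul, hτ4]
        have hm1 := hτQ _ h.2
        have hm2 := hτQ _ hm1
        have hm3 := hτQ _ hm2
        rw [hQc _ (Q.mul_mem (Q.mul_mem hm1 hm2) hm3) _ h.2]
        group
      exact Subtype.ext (hτf _ h1)
    · intro h; exact hpoly h
    · have hS : ∀ x : Q, ρ x * (∑ h : Q, ρ h) = ∑ h : Q, ρ h := by
        intro x
        rw [Finset.mul_sum]
        have : ∀ k : Q, ρ x * ρ k = ρ ((x * k : Q) : G ⧸ C) := fun k => by
          rw [← map_mul]; rfl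
        simp only [this]
        exact Equiv.sum_comp (Equiv.mulLeft x) (fun k : Q => ρ k)
      apply AddMonoidHom.ext
      intro v
      have : ((∑ h : Q, ρ h) v).toMul = 1 := by
        apply hfix
        intro x hx
        exact congrArg (fun f : R => (f v).toMul) (hS ⟨x, hx⟩)
      exact congrArg Additive.ofMul this
    · intro x hx
      apply AddMonoidHom.ext
      intro v
      have h1 : (Fintype.card Q) • (x v) = 0 := by
        have := congrArg (fun f : R => f v) hx
        exact this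
      have h2 : (x v).toMul ^ (Fintype.card Q) = 1 := congrArg Additive.toMul h1
      have h3 : (x v).toMul ^ r = 1 := Subtype.ext (hVr _ (x v).toMul.2)
      obtain ⟨n, hn⟩ := IsPGroup.iff_card.mp hQp
      rw [← Nat.card_eq_fintype_card, hn] at h2
      have h4 : Nat.Coprime (q ^ n) r := Nat.Coprime.pow_left n ((Nat.coprime_primes hq hr).mpr hqr)
      have h5 : orderOf (x v).toMul ∣ Nat.gcd (q ^ n) r :=
        Nat.dvd_gcd (orderOf_dvd_of_pow_eq_one h2) (orderOf_dvd_of_pow_eq_one h3)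
      rw [h4, Nat.dvd_one, orderOf_eq_one_iff] at h5
      exact congrArg Additive.ofMul h5
  have hσσ : ∀ v ∈ V, σ (σ v) = v⁻¹ := by
    intro v hv
    have := congrArg (fun f : R => (((f (Additive.ofMul (⟨v, hv⟩ : V))).toMul : V) : G)) hsq
    exact this
  have hττ : ∀ x, τ (τ x) = x := by
    intro x
    obtain ⟨g, rfl⟩ := QuotientGroup.mk_surjective x
    rw [hτ, hτ]
    symm
    rw [QuotientGroup.eq, hCdef, mem_centralizer_iff]
    intro v hv
    have hv' : g * v⁻¹ * g⁻¹ ∈ V := hVn.conj_mem _ (V.inv_mem hv) g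
    have h1 := hσσ _ hv'
    rw [map_mul, map_mul, map_mul, map_mul, hσσ _ (V.inv_mem hv), inv_inv, map_inv, map_inv] at h1
    have h2 : σ (σ g) * v * (σ (σ g))⁻¹ = g * v * g⁻¹ := by
      rw [h1]; group
    have h3 : σ (σ g) * v = g * v * g⁻¹ * σ (σ g) := by rw [← h2]; group
    calc v * (g⁻¹ * σ (σ g)) = g⁻¹ * (g * v * g⁻¹ * σ (σ g)) := by group
      _ = _ := by rw [← h3]; group
  have hinv : ∀ x, τ x = x⁻¹ := H22.FPF.map_eq_inv_of_sq hτf hττ
  have hcomm : IsMulCommutative (G ⧸ C) := ⟨⟨H22.FPF.comm_of_map_eq_inv hinv⟩⟩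
  exact Subgroup.Normal.quotient_commutative_iff_commutator_le.mp hcomm

theorem main (n : ℕ) : ∀ {G : Type*} [Group G] [Finite G] (_ : Nat.card G = n)
    (_ : Group.IsSolvable G) (σ : MulAut G) (_ : σ ^ 4 = 1) (_ : ∀ g : G, σ g = g → g = 1),
    Group.IsNilpotent (commutator G) := by
  induction n using Nat.strong_induction_on with
  | _ n ih =>
    intro G _ _ hn hG σ hσ hf
    by_cases hnt : Nontrivial G
    · obtain ⟨V, hVn, hVb, hVs, hVmin, hVc, r, hr, hVr, hrV⟩ := H22.FPF.exists_minimal_invariant hG σ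
      have hk := key hG σ hσ hf V hVn hVb hVs hVmin hVc r hr hVr hrV
      have hlt : Nat.card (G ⧸ V) < n := by
        rw [← hn, ← Subgroup.index_eq_card, ← V.card_mul_index]
        have h1 : 1 < Nat.card V := by
          rw [Subgroup.one_lt_card_iff_ne_bot]; exact hVb
        have h2 : 0 < V.index := Nat.pos_of_ne_zero V.index_ne_zero_of_finite
        nlinarith
      have hind : Group.IsNilpotent (commutator (G ⧸ V)) := ih _ hlt rfl inferInstance
        (QuotientGroup.congr V V σ hVs) (by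
          ext x
          obtain ⟨g, rfl⟩ := QuotientGroup.mk_surjective x
          have : ∀ w : G, σ (σ (σ (σ w))) = w := fun w => by
            have := congrArg (fun f : MulAut G => f w) hσ
            exact this
          show (QuotientGroup.mk (σ (σ (σ (σ g)))) : G ⧸ V) = QuotientGroup.mk g
          rw [this])
        (H22.FPF.fpf_quotient hf hVs)
      have hmem : ∀ x : commutator G, (QuotientGroup.mk' V) x ∈ commutator (G ⧸ V) := by
        intro x
        have : (commutator G).map (QuotientGroup.mk' V) ≤ commutator (G ⧸ V) := by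
          rw [_root_.commutator_def, Subgroup.map_commutator]
          exact Subgroup.commutator_mono le_top le_top
        exact this ⟨x, x.2, rfl⟩
      let f : commutator G →* commutator (G ⧸ V) :=
        ((QuotientGroup.mk' V).comp (commutator G).subtype).codRestrict _ hmem
      apply Subgroup.isNilpotent_of_ker_le_center f
      intro x hx
      rw [mem_center_iff]
      intro g
      have h1 : (x : G) ∈ V := by
        have := congrArg Subtype.val (MonoidHom.mem_ker.mp hx)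
        exact (QuotientGroup.eq_one_iff (x : G)).mp this
      have h2 := mem_centralizer_iff.mp (hk g.2) x h1
      exact Subtype.ext h2.symm
    · rw [not_nontrivial_iff_subsingleton] at hnt
      infer_instance

/-- Let G be a finite solvable group with an automorphism σ satisfying σ⁴ = 1 and fixing only the identity. Then the derived subgroup G' is nilpotent. -/
theorem result {G : Type*} [Group G] [Finite G] (hG : Group.IsSolvable G) (σ : MulAut G) (hσ : σ ^ 4 = 1) (hfpf : ∀ g : G, σ g = g → g = 1) : Group.IsNilpotent (commutator G) :=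
  main _ rfl hG σ hσ hfpf

end Cfsg.Agent.S3794
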