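import Cfsg.Statements.S3798
import Cfsg.Agent.H22_PSolv
import Cfsg.Agent.H22_Coprime3
import Cfsg.Agent.H22_FPF

set_option autoImplicit false
open Cfsg

namespace Cfsg.Agent.S3798

open Subgroup
open scoped Pointwise

theorem main {G : Type*} [Group G] [Finite G] {p : ℕ} [hp : Fact p.Prime] (hp2 : p ≠ 2)
    (hG : Cfsg.IsPSolvable p G) (h1 : Cfsg.pPrimeCore p G = ⊥)
    (htrans : ∀ U V : Subgroup G, Nat.card U = p → Nat.card V = p →
      ∃ a : MulAut G, U.map a.toMonoidHom = V) : Cfsg.PLengthLE p 1 G := by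
  have hTn : (Cfsg.pCore p G).Normal := H1.Nilp.pCore_normal p
  have hTp : IsPGroup p (Cfsg.pCore p G) := H1.Nilp.pCore_isPGroup p
  have hCT := H22.PSolv.centralizer_pCore_le hG h1
  have hTch : (Cfsg.pCore p G).Characteristic := H11.Cores.pCore_characteristic p
  set T := Cfsg.pCore p G with hT
  have hTmap : ∀ a : MulAut G, T.map a.toMonoidHom = T :=
    fun a => characteristic_iff_map_eq.mp hTch a
  obtain ⟨k, hk⟩ := IsPGroup.iff_card.mp hTp
  -- elements of order p correspond to subgroups of order p
  have hz : ∀ z : G, z ≠ 1 → z ^ p = 1 → Nat.card (zpowers z) = p := by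
    intro z hz1 hzp
    rw [Nat.card_zpowers]
    exact orderOf_eq_prime hzp hz1
  have htr : ∀ x z : G, x ≠ 1 → x ^ p = 1 → z ≠ 1 → z ^ p = 1 → ∀ L : Subgroup G,
      (∀ a : MulAut G, L.map a.toMonoidHom = L) → z ∈ L → x ∈ L := by
    intro x z hx hxp hz' hzp L hL hzL
    obtain ⟨a, ha⟩ := htrans (zpowers z) (zpowers x) (hz z hz' hzp) (hz x hx hxp)
    have h2 : (zpowers z).map a.toMonoidHom ≤ L := by
      rw [← hL a]; exact map_mono (zpowers_le.mpr hzL)
    rw [ha] at h2
    exact h2 (mem_zpowers x)
  by_cases hTb : T = ⊥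
  · -- then G is trivial
    have h2 : (⊤ : Subgroup G) ≤ ⊥ := by
      rw [hTb] at hCT
      intro x _
      apply hCT
      rw [mem_centralizer_iff]
      intro y hy
      rw [mem_bot.mp hy]; simp
    apply H22.PSolv.plengthLE_mono (Nat.zero_le 1)
    rw [H22.PSolv.plengthLE_zero_iff, ← card_top, le_bot_iff.mp h2, card_bot]
    exact Nat.coprime_one_left p
  -- a central element of order p in T
  have hVall : ∀ x : G, x ^ p = 1 → x ∈ T ⊓ centralizer (T : Set G) := by
    intro x hxp
    by_cases hx : x = 1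
    · rw [hx]; exact one_mem _
    have : Nontrivial T := (nontrivial_iff_ne_bot T).mpr hTb
    have hcn : Nontrivial (center T) := hTp.center_nontrivial
    have hcp : IsPGroup p (center T) := hTp.to_subgroup _
    obtain ⟨n, hn, hcard⟩ := hcp.nontrivial_iff_card.mp hcn
    have hpd : p ∣ Nat.card (center T) := by rw [hcard]; exact dvd_pow_self p hn.ne'
    obtain ⟨z, hz'⟩ := exists_prime_orderOf_dvd_card' p hpd
    have hzo : orderOf ((z : T) : G) = p := by rw [orderOf_coe, orderOf_coe]; exact hz'
    have hz1 : ((z : T) : G) ≠ 1 := by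
      intro h
      rw [h, orderOf_one] at hzo
      exact hp.out.ne_one hzo.symm
    apply htr x ((z : T) : G) hx hxp hz1 (hzo ▸ pow_orderOf_eq_one _)
    · intro a
      rw [Subgroup.map_inf _ _ _ a.injective, hTmap, H22.FPF.map_centralizer (hTmap a)]
    · refine mem_inf.mpr ⟨(z : T).2, mem_centralizer_iff.mpr fun y hy => ?_⟩
      exact congrArg Subtype.val (mem_center_iff.mp z.2 ⟨y, hy⟩)
  -- K = O_{p,p'}(G)
  have hKqc : (Cfsg.pPrimeCore p (G ⧸ T)).Characteristic := H11.Cores.pPrimeCore_characteristic p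
  have hKqn : (Cfsg.pPrimeCore p (G ⧸ T)).Normal := H1.Nilp.pPrimeCore_normal p
  set K := (Cfsg.pPrimeCore p (G ⧸ T)).comap (QuotientGroup.mk' T) with hK
  have hKn : K.Normal := hKqn.comap _
  have hTK : T ≤ K := H1.Hall.le_comap_mk _ _
  have hKch : ∀ a : MulAut G, K.map a.toMonoidHom = K := by
    intro a
    apply H22.FPF.map_eq_of_forall_mem
    intro x hx
    have h2 := characteristic_iff_map_eq.mp hKqc (QuotientGroup.congr T T a (hTmap a))
    have h3 : QuotientGroup.congr T T a (hTmap a) (QuotientGroup.mk x) ∈ Cfsg.pPrimeCore p (G ⧸ T) := by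
      rw [← h2]; exact ⟨_, hx, rfl⟩
    exact h3
  have hKi : (T.relIndex K).Coprime p := by
    rw [hK, H1.Hall.relIndex_comap_mk]; exact H1.Nilp.pPrimeCore_coprime p
  obtain ⟨Q, hQK, hQc, hQT, hQs⟩ := H1.Coprime.sz_exists hTK (by rw [normalizer_eq_top]; exact le_top)
    (by rw [hk]; exact (Nat.Coprime.pow_right k hKi).symm)
  have hQcop : (Nat.card Q).Coprime p := by rw [hQc]; exact hKi
  have hnT : ∀ L : Subgroup G, L ≤ normalizer (T : Set G) := fun L => by
    rw [normalizer_eq_top]; exact le_top
  by_cases hcase : ∃ z : G, z ≠ 1 ∧ z ^ p = 1 ∧ z ∈ centralizer (Q : Set G)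
  · -- Case 1
    obtain ⟨z, hz1, hzp, hzQ⟩ := hcase
    have hzK : z ∈ centralizer (K : Set G) := by
      have h2 : K ≤ centralizer ({z} : Set G) := by
        rw [← hQs]
        apply sup_le
        · intro q hq
          rw [mem_centralizer_singleton_iff]
          exact mem_centralizer_iff.mp hzQ q hq
        · intro t ht
          rw [mem_centralizer_singleton_iff]
          exact mem_centralizer_iff.mp (mem_inf.mp (hVall z hzp)).2 t ht
      rw [mem_centralizer_iff]
      intro y hy
      exact mem_centralizer_singleton_iff.mp (h2 hy)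
    have hQT' : Q ≤ centralizer (T : Set G) := by
      apply H22.Coprime3.omega_one hp2 (hnT Q) hTp hQcop
      intro x _ hxp a ha
      by_cases hx : x = 1
      · rw [hx]; simp
      have h2 := htr x z hx hxp hz1 hzp (centralizer (K : Set G))
        (fun a => H22.FPF.map_centralizer (hKch a)) hzK
      exact mem_centralizer_iff.mp h2 a (hQK ha)
    have hQb : Q = ⊥ := by
      rw [eq_bot_iff, ← hQT]
      exact le_inf le_rfl (hQT'.trans hCT)
    have hKT : K = T := by rw [← hQs, hQb, bot_sup_eq]
    have hqb : Cfsg.pPrimeCore p (G ⧸ T) = ⊥ := by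
      rw [eq_bot_iff]
      intro x hx
      obtain ⟨y, rfl⟩ := QuotientGroup.mk'_surjective T x
      have : y ∈ T := by rw [← hKT]; exact hx
      rw [mem_bot]; exact (QuotientGroup.eq_one_iff y).mpr this
    have hqb' : Cfsg.pCore p (G ⧸ T) = ⊥ := H22.PSolv.pCore_quotient
    have hTtop : T = ⊤ := by
      by_contra hne
      have : Nontrivial (G ⧸ T) := QuotientGroup.nontrivial_iff.mpr hne
      rcases H22.PSolv.pCore_or_pPrimeCore_ne_bot (H22.PSolv.isPSolvable_quotient T hG) with h | h
      · exact h hqb'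
      · exact h hqb
    apply H22.PSolv.plengthLE_one_of ⊥ T bot_le
    · rw [card_bot]; exact Nat.coprime_one_left p
    · exact ⟨k, by rw [relIndex_bot_left, hk]⟩
    · rw [hTtop, index_top]; exact Nat.coprime_one_left p
  · -- Case 2
    push Not at hcase
    have hfr : T ⊔ normalizer (Q : Set G) = ⊤ := by
      rw [eq_top_iff]
      intro g _
      have h2 : MulAut.conj g • Q ≤ Q ⊔ T := by
        rw [hQs]
        intro y hy
        rw [H1.Basic.mem_conj] at hy
        have h3 := hKn.conj_mem _ (hQK hy) g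
        have h4 : g * (g⁻¹ * y * g) * g⁻¹ = y := by group
        rwa [h4] at h3
      have hTsol : Group.IsSolvable T := by
        have := hTp.isNilpotent
        infer_instance
      obtain ⟨t, ht, hQt⟩ := H1.Coprime.sz_internal (hnT Q) h2 (H1.Basic.card_conj g Q)
        (by rw [hk]; exact Nat.Coprime.pow_right k hQcop) (Or.inr hTsol)
      have h5 : t⁻¹ * g ∈ normalizer (Q : Set G) := by
        rw [← H1.Basic.conj_eq_iff_mem_normalizer, map_mul, mul_smul, ← hQt, ← mul_smul, ← map_mul,
          inv_mul_cancel, map_one, one_smul]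
      have h6 : g = t * (t⁻¹ * g) := by group
      rw [h6]
      exact mul_mem (mem_sup_left ht) (mem_sup_right h5)
    have hHp : (Nat.card (normalizer (Q : Set G))).Coprime p := by
      rw [Nat.coprime_comm, hp.out.coprime_iff_not_dvd]
      intro hdvd
      obtain ⟨x, hx⟩ := exists_prime_orderOf_dvd_card' p hdvd
      have hxo : orderOf (x : G) = p := by rw [orderOf_coe]; exact hx
      have hxp : (x : G) ^ p = 1 := hxo ▸ pow_orderOf_eq_one _
      have hx1 : (x : G) ≠ 1 := by
        intro h
        rw [h, orderOf_one] at hxo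
        exact hp.out.ne_one hxo.symm
      have hxT := (mem_inf.mp (hVall x hxp)).1
      exact hcase x hx1 hxp (H1.Coprime.mem_centralizer_of_mem_normalizer (hnT Q) hQT hxT x.2)
    apply H22.PSolv.plengthLE_one_of ⊥ T bot_le
    · rw [card_bot]; exact Nat.coprime_one_left p
    · exact ⟨k, by rw [relIndex_bot_left, hk]⟩
    · have h2 : T.relIndex (normalizer (Q : Set G) ⊔ T) = T.relIndex (normalizer (Q : Set G)) :=
        relIndex_sup_right _ _
      rw [sup_comm, hfr, relIndex_top_right] at h2
      rw [h2]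
      exact Nat.Coprime.coprime_dvd_left (relIndex_dvd_card _ _) hHp

/-- The Gaschütz–Yen Theorem: let G be a finite p-soluble group, p an odd prime dividing its order, such that the automorphism group of G permutes the subgroups of G of order p transitively. Then G has p-length at most 1. -/
theorem result {G : Type*} [Group G] [Finite G] {p : ℕ} [Fact p.Prime] (hp : p ≠ 2) (hdvd : p ∣ Nat.card G) (hG : Cfsg.IsPSolvable p G) (htrans : ∀ U V : Subgroup G, Nat.card U = p → Nat.card V = p → ∃ a : MulAut G, U.map a.toMonoidHom = V) : Cfsg.PLengthLE p 1 G := by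
  have hNn : (Cfsg.pPrimeCore p G).Normal := H1.Nilp.pPrimeCore_normal p
  have hNch : (Cfsg.pPrimeCore p G).Characteristic := H11.Cores.pPrimeCore_characteristic p
  have hNcop : (Nat.card (Cfsg.pPrimeCore p G)).Coprime p := H1.Nilp.pPrimeCore_coprime p
  have hq := H11.Cores.pPrimeCore_quotient (G := G) p
  set N := Cfsg.pPrimeCore p G with hN
  have hNmap : ∀ a : MulAut G, N.map a.toMonoidHom = N :=
    fun a => characteristic_iff_map_eq.mp hNch a
  have hp' : p.Prime := Fact.out
  apply H22.PSolv.plengthLE_of_quotient_coprime N hNcop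
  apply main hp (H22.PSolv.isPSolvable_quotient N hG) hq
  have hlift : ∀ U : Subgroup (G ⧸ N), Nat.card U = p →
      ∃ U' : Subgroup G, Nat.card U' = p ∧ U'.map (QuotientGroup.mk' N) = U := by
    intro U hU
    have h1 : Nat.card (U.comap (QuotientGroup.mk' N)) = p * Nat.card N := by
      rw [H1.Hall.card_comap_mk, hU]
    obtain ⟨x, hx⟩ := exists_prime_orderOf_dvd_card' (G := U.comap (QuotientGroup.mk' N)) p
      (by rw [h1]; exact dvd_mul_right p _)
    have hxo : orderOf (x : G) = p := by rw [orderOf_coe]; exact hx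
    refine ⟨zpowers (x : G), by rw [Nat.card_zpowers, hxo], ?_⟩
    have hle : (zpowers (x : G)).map (QuotientGroup.mk' N) ≤ U := by
      rw [map_le_iff_le_comap, zpowers_le]
      exact x.2
    apply Subgroup.eq_of_le_of_card_ge hle
    rw [hU]
    have h2 : Nat.card ((zpowers (x : G)).map (QuotientGroup.mk' N)) ∣ p := by
      rw [← hU]; exact card_dvd_of_le hle
    rcases (Nat.dvd_prime hp').mp h2 with h3 | h3
    · exfalso
      rw [Subgroup.card_eq_one, Subgroup.map_eq_bot_iff, QuotientGroup.ker_mk', zpowers_le] at h3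
      have h4 : p ∣ Nat.card N := by
        have : zpowers (x : G) ≤ N := zpowers_le.mpr h3
        have := card_dvd_of_le this
        rwa [Nat.card_zpowers, hxo] at this
      exact (hp'.coprime_iff_not_dvd.mp (Nat.coprime_comm.mp hNcop)) h4
    · exact h3.ge
  intro U V hU hV
  obtain ⟨U', hU', rfl⟩ := hlift U hU
  obtain ⟨V', hV', rfl⟩ := hlift V hV
  obtain ⟨a, ha⟩ := htrans U' V' hU' hV'
  refine ⟨QuotientGroup.congr N N a (hNmap a), ?_⟩
  rw [← ha, Subgroup.map_map, Subgroup.map_map]
  congr 1

end Cfsg.Agent.S3798
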