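import Cfsg.Statements.S3799
import Cfsg.Agent.H19_XspB

set_option autoImplicit false
open Cfsg

namespace Cfsg.Agent.S3799

open H19.XspB Subgroup

variable {K : Type*} [Field K]

/-- the Heisenberg form -/
def Bh (K : Type*) [Field K] (m : ℕ) : LinearMap.BilinForm K (Fin m ⊕ Fin m → K) :=
  LinearMap.mk₂ K (fun v w => ∑ i, v (.inl i) * w (.inr i))
    (fun v v' w => by simp only [Pi.add_apply, add_mul, Finset.sum_add_distrib])
    (fun c v w => by simp only [Pi.smul_apply, smul_eq_mul, mul_assoc, Finset.mul_sum])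
    (fun v w w' => by simp only [Pi.add_apply, mul_add, Finset.sum_add_distrib])
    (fun c v w => by
      simp only [Pi.smul_apply, smul_eq_mul, Finset.mul_sum]
      exact Finset.sum_congr rfl (fun i _ => by ring))

theorem Bh_apply (m : ℕ) (v w : Fin m ⊕ Fin m → K) : Bh K m v w = ∑ i, v (.inl i) * w (.inr i) := rfl

theorem Bh_nondeg (m : ℕ) (v : Fin m ⊕ Fin m → K) (h : ∀ w, Bh K m v w = Bh K m w v) : v = 0 := by
  classical
  funext i
  rcases i with i | i
  · have h1 := h (Pi.single (.inr i) 1)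
    rw [Bh_apply, Bh_apply, Finset.sum_eq_single i, Finset.sum_eq_zero] at h1
    · simpa using h1
    · intro j _; simp
    · intro j _ hj; simp [hj]
    · simp
  · have h1 := h (Pi.single (.inl i) 1)
    rw [Bh_apply, Bh_apply, Finset.sum_eq_zero, Finset.sum_eq_single i] at h1
    · simpa using h1.symm
    · intro j _ hj; simp [hj]
    · simp
    · intro j _; simp

/-- the representation -/
def rep (m : ℕ) : Ex (Bh K m) →* Module.End K (K × (Fin m → K) × K) where
  toFun X :=
    { toFun := fun t => (t.1 + (∑ i, X.v (.inl i) * t.2.1 i) + X.a * t.2.2, (fun i => t.2.1 i + t.2.2 * X.v (.inr i)), t.2.2)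
      map_add' := fun s t => by
        ext
        · simp [mul_add, Finset.sum_add_distrib]; ring
        · simp; ring
        · simp
      map_smul' := fun c t => by
        ext
        · simp only [Prod.smul_fst, Prod.smul_snd, Pi.smul_apply, smul_eq_mul, RingHom.id_apply, mul_add, Finset.mul_sum]
          congr 1
          · congr 1
            exact Finset.sum_congr rfl (fun i _ => by ring)
          · ring
        · simp; ring
        · simp }
  map_one' := by
    apply LinearMap.ext
    intro t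
    simp
  map_mul' X Y := by
    apply LinearMap.ext
    intro t
    show (t.1 + (∑ i, (X * Y).v (.inl i) * t.2.1 i) + (X * Y).a * t.2.2, (fun i => t.2.1 i + t.2.2 * (X * Y).v (.inr i)), t.2.2) =
      ((t.1 + (∑ i, Y.v (.inl i) * t.2.1 i) + Y.a * t.2.2) + (∑ i, X.v (.inl i) * (t.2.1 i + t.2.2 * Y.v (.inr i))) + X.a * t.2.2,
        (fun i => (t.2.1 i + t.2.2 * Y.v (.inr i)) + t.2.2 * X.v (.inr i)), t.2.2)
    ext
    · show t.1 + (∑ i, (X.v (.inl i) + Y.v (.inl i)) * t.2.1 i) + (X.a + Y.a + ∑ i, X.v (.inl i) * Y.v (.inr i)) * t.2.2 = _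
      simp only [add_mul, mul_add, Finset.sum_add_distrib, Finset.sum_mul]
      have : (∑ i, X.v (.inl i) * (t.2.2 * Y.v (.inr i))) = ∑ i, X.v (.inl i) * Y.v (.inr i) * t.2.2 :=
        Finset.sum_congr rfl (fun i _ => by ring)
      rw [this]
      ring
    · show t.2.1 _ + t.2.2 * (X.v (.inr _) + Y.v (.inr _)) = _
      ring
    · rfl

theorem rep_inj (m : ℕ) : Function.Injective (rep (K := K) m) := by
  classical
  intro X Y h
  have h1 : ∀ t, rep m X t = rep m Y t := fun t => by rw [h]
  apply Ex.ext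
  · funext i
    rcases i with i | i
    · have h2 := congrArg Prod.fst (h1 (0, Pi.single i 1, 0))
      have h3 : (0 : K) + (∑ j, X.v (.inl j) * (Pi.single i 1 : Fin m → K) j) + X.a * 0 = 0 + (∑ j, Y.v (.inl j) * (Pi.single i 1 : Fin m → K) j) + Y.a * 0 := h2
      simpa [Pi.single_apply] using h3
    · have h2 := congrFun (congrArg (fun t : K × (Fin m → K) × K => t.2.1) (h1 (0, 0, 1))) i
      have h3 : (0 : K) + 1 * X.v (.inr i) = 0 + 1 * Y.v (.inr i) := h2
      simpa using h3
  · have h2 := congrArg Prod.fst (h1 (0, 0, 1))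
    have h3 : (0 : K) + (∑ j, X.v (.inl j) * (0 : Fin m → K) j) + X.a * 1 = 0 + (∑ j, Y.v (.inl j) * (0 : Fin m → K) j) + Y.a * 1 := h2
    simpa using h3

theorem exists_hom (m : ℕ) : ∃ f : Ex (Bh K m) →* Matrix.GeneralLinearGroup (Fin (m + 2)) K, Function.Injective f := by
  have hfr : Module.finrank K (K × (Fin m → K) × K) = Module.finrank K (Fin (m + 2) → K) := by
    simp
    ring
  let e : (K × (Fin m → K) × K) ≃ₗ[K] (Fin (m + 2) → K) := LinearEquiv.ofFinrankEq _ _ hfr
  let f : Ex (Bh K m) →* Matrix.GeneralLinearGroup (Fin (m + 2)) K :=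
    (Matrix.GeneralLinearGroup.toLin.symm.toMonoidHom.comp (LinearMap.GeneralLinearGroup.congrLinearEquiv e).toMonoidHom).comp (rep m).toHomUnits
  refine ⟨f, ?_⟩
  intro X Y h
  have h1 := (LinearMap.GeneralLinearGroup.congrLinearEquiv e).injective (Matrix.GeneralLinearGroup.toLin.symm.injective h)
  exact rep_inj m (congrArg Units.val h1)

theorem xsp_congr {E F : Type*} [Group E] [Group F] [Finite E] {p : ℕ} [Fact p.Prime] (e : E ≃* F) (hE : Cfsg.IsExtraspecial p E) :
    Cfsg.IsExtraspecial p F := by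
  haveI : Finite F := Finite.of_equiv _ e.toEquiv
  have hc : ∀ x : E, x ∈ center E ↔ e x ∈ center F := by
    intro x
    rw [mem_center_iff, mem_center_iff]
    constructor
    · intro h y
      obtain ⟨y', rfl⟩ := e.surjective y
      rw [← map_mul, ← map_mul, h]
    · intro h y
      apply e.injective
      rw [map_mul, map_mul, h]
  apply H2.Extra.isExtraspecial_of (IsPGroup.of_equiv hE.1.1 e)
  · rw [← hE.2]
    exact (Nat.card_congr (Equiv.subtypeEquiv e.toEquiv hc)).symm
  · intro a b
    obtain ⟨a', rfl⟩ := e.surjective a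
    obtain ⟨b', rfl⟩ := e.surjective b
    rw [← map_commutatorElement, ← hc]
    exact H2.Extra.comm_mem_center hE _ _
  · intro a
    obtain ⟨a', rfl⟩ := e.surjective a
    rw [← map_pow, ← hc]
    exact H2.Extra.pow_mem_center hE _
  · obtain ⟨x, y, hxy⟩ := H2.Extra.not_abelian hE
    refine ⟨e x, e y, ?_⟩
    rw [← map_commutatorElement, Ne, map_eq_one_iff e e.injective]
    exact hxy

/-- For every odd prime p and every n ≥ 1 there is an extraspecial p-group of order p^(1+2n) and exponent p; concretely, the general linear group of degree n + 2 over the field with p elements contains such a subgroup. -/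
theorem result (p : ℕ) [Fact p.Prime] (hp : p ≠ 2) (n : ℕ) (hn : 1 ≤ n) : ∃ E : Subgroup (Matrix.GeneralLinearGroup (Fin (n + 2)) (ZMod p)), Cfsg.IsExtraspecial p ↥E ∧ Nat.card E = p ^ (1 + 2 * n) ∧ ∀ x ∈ E, x ^ p = 1 := by
  classical
  haveI : NeZero p := ⟨(Fact.out : p.Prime).ne_zero⟩
  haveI : Nonempty (Fin n ⊕ Fin n) := ⟨Sum.inl ⟨0, by omega⟩⟩
  obtain ⟨f, hf⟩ := exists_hom (K := ZMod p) n
  have hx := extraspecial (p := p) (Bh_nondeg (K := ZMod p) n)
  let e : Ex (Bh (ZMod p) n) ≃* f.range := MonoidHom.ofInjective hf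
  refine ⟨f.range, ?_, ?_, ?_⟩
  · exact xsp_congr e hx
  · rw [← Nat.card_congr e.toEquiv, Ex.card, Nat.card_fun, Nat.card_zmod, Nat.card_eq_fintype_card, Fintype.card_sum, Fintype.card_fin, ← pow_succ]
    congr 1; omega
  · rintro _ ⟨X, rfl⟩
    rw [← map_pow]
    have : X ^ p = 1 := by
      apply Ex.ext
      · rw [Ex.pow_v]
        funext i
        show p • X.v i = 0
        rw [nsmul_eq_mul, ZMod.natCast_self, zero_mul]
      · rw [Ex.pow_a, nsmul_eq_mul, nsmul_eq_mul, ZMod.natCast_self, zero_mul, zero_add]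
        have h1 : ((p.choose 2 : ℕ) : ZMod p) = 0 := by
          rw [ZMod.natCast_eq_zero_iff]
          exact (Fact.out : p.Prime).dvd_choose_self (by norm_num) (lt_of_le_of_ne (Fact.out : p.Prime).two_le hp.symm)
        rw [h1, zero_mul]
        rfl
    rw [this, map_one]

end Cfsg.Agent.S3799
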