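import Cfsg.Statements.S3800
import Cfsg.Agent.H22_Basic
import Cfsg.Agent.H1_Coprime

set_option autoImplicit false
open Cfsg

namespace Cfsg.Agent.S3800

open Subgroup H22.Basic

/-- Let G be a finite group, N a normal subgroup of G whose order is prime to p, and P a p-subgroup of G. Then in G/N the normalizer of the image of P is the image of N_G(P), and the centralizer of the image of P is the image of C_G(P). -/
theorem result {G : Type*} [Group G] [Finite G] {p : ℕ} [Fact p.Prime] (N : Subgroup G) [N.Normal] (hN : (Nat.card N).Coprime p) (P : Subgroup G) (hP : IsPGroup p P) : Subgroup.normalizer ((P.map (QuotientGroup.mk' N)) : Set (G ⧸ N)) = (Subgroup.normalizer (P : Set G)).map (QuotientGroup.mk' N) ∧ Subgroup.centralizer ((P.map (QuotientGroup.mk' N)) : Set (G ⧸ N)) = (Subgroup.centralizer (P : Set G)).map (QuotientGroup.mk' N) := by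
  have hPN : P ≤ normalizer (N : Set G) := by rw [Subgroup.normalizer_eq_top N]; exact le_top
  obtain ⟨k, hk⟩ := hP.exists_card_eq
  have hcop : (Nat.card P).Coprime (Nat.card N) := by
    rw [hk]; exact Nat.Coprime.pow_left _ hN.symm
  have hsolv : Group.IsSolvable P := by
    have := hP.isNilpotent
    infer_instance
  constructor
  · apply le_antisymm
    · intro x hx
      obtain ⟨g, rfl⟩ := QuotientGroup.mk'_surjective N x
      have h1 : cj g P ≤ P ⊔ N := by
        rintro _ ⟨y, hy, rfl⟩
        have h2 : QuotientGroup.mk' N g * QuotientGroup.mk' N y * (QuotientGroup.mk' N g)⁻¹ ∈ P.map (QuotientGroup.mk' N) :=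
          (mem_normalizer_iff.mp hx (QuotientGroup.mk' N y)).mp ⟨y, hy, rfl⟩
        rw [← map_mul, ← map_inv, ← map_mul] at h2
        have h3 : g * y * g⁻¹ ∈ (P.map (QuotientGroup.mk' N)).comap (QuotientGroup.mk' N) := h2
        rwa [Subgroup.comap_map_eq, QuotientGroup.ker_mk'] at h3
      obtain ⟨n, hn, hne⟩ := H1.Coprime.sz_internal hPN h1 (card_cj g P) hcop (Or.inl hsolv)
      have hne : cj n P = cj g P := hne
      refine ⟨n⁻¹ * g, ?_, ?_⟩
      · show n⁻¹ * g ∈ normalizer (P : Set G)
        rw [mem_normalizer_iff_cj, cj_mul, ← hne, cj_inv_cj]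
      · have : QuotientGroup.mk' N n = 1 := (QuotientGroup.eq_one_iff n).mpr hn
        rw [map_mul, map_inv, this, inv_one, one_mul]
    · rintro _ ⟨g, hg, rfl⟩
      rw [mem_normalizer_iff_cj]
      have h2 : cj (QuotientGroup.mk' N g) (P.map (QuotientGroup.mk' N)) = (cj g P).map (QuotientGroup.mk' N) := by
        ext y
        constructor
        · rintro ⟨_, ⟨x, hx, rfl⟩, rfl⟩
          exact ⟨g * x * g⁻¹, conj_mem_cj hx, by simp⟩
        · rintro ⟨_, ⟨x, hx, rfl⟩, rfl⟩
          exact ⟨QuotientGroup.mk' N x, ⟨x, hx, rfl⟩, by simp⟩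
      rw [h2, cj_eq_of_mem_normalizer hg]
  · apply le_antisymm
    · intro x hx
      obtain ⟨g, rfl⟩ := QuotientGroup.mk'_surjective N x
      obtain ⟨d, hd, hgd⟩ := H1.Coprime.exists_mul_mem_centralizer hPN hcop (Or.inl hsolv) g (by
        intro a ha
        rw [← QuotientGroup.eq_one_iff]
        show QuotientGroup.mk' N (g⁻¹ * (a * g * a⁻¹)) = 1
        have h1 := mem_centralizer_iff.mp hx (QuotientGroup.mk' N a) ⟨a, ha, rfl⟩
        rw [map_mul, map_mul, map_mul, h1, map_inv, map_inv]; group)
      refine ⟨g * d, hgd, ?_⟩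
      have : QuotientGroup.mk' N d = 1 := (QuotientGroup.eq_one_iff d).mpr hd
      rw [map_mul, this, mul_one]
    · rintro _ ⟨g, hg, rfl⟩
      rw [mem_centralizer_iff]
      rintro _ ⟨y, hy, rfl⟩
      rw [← map_mul, ← map_mul, mem_centralizer_iff.mp hg y hy]

end Cfsg.Agent.S3800
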