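import Cfsg.Statements.S3950
import Cfsg.Agent.H22_Schur

set_option autoImplicit false
open Cfsg

namespace Cfsg.Agent.S3950

open Subgroup H22.Schur
open scoped commutatorElement

universe u w

/-- twisted product `X × T` -/
@[ext] structure TG (X : Type u) (T : Type w) [Group X] [AddCommGroup T] (β : X → X → T) where
  x : X
  t : T

section TG
variable {X : Type u} {T : Type w} [Group X] [AddCommGroup T] {β : X → X → T}

/-- bimultiplicative -/
structure Bi (β : X → X → T) : Prop where
  left : ∀ x x' y, β (x * x') y = β x y + β x' y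
  right : ∀ x y y', β x (y * y') = β x y + β x y'

theorem Bi.one_left (h : Bi β) (y : X) : β 1 y = 0 := by
  have := h.left 1 1 y
  rw [one_mul] at this
  exact left_eq_add.mp this

theorem Bi.one_right (h : Bi β) (x : X) : β x 1 = 0 := by
  have := h.right x 1 1
  rw [one_mul] at this
  exact left_eq_add.mp this

theorem Bi.inv_left (h : Bi β) (x : X) (y : X) : β x⁻¹ y = - β x y := by
  have := h.left x⁻¹ x y
  rw [inv_mul_cancel, h.one_left] at this
  exact eq_neg_of_add_eq_zero_left this.symm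

/-- group structure -/
@[reducible] def grp (h : Bi β) : Group (TG X T β) where
  mul a b := ⟨a.x * b.x, a.t + b.t + β a.x b.x⟩
  one := ⟨1, 0⟩
  inv a := ⟨a.x⁻¹, - a.t + β a.x a.x⟩
  mul_assoc a b c := by
    apply TG.ext
    · exact mul_assoc _ _ _
    · show a.t + b.t + β a.x b.x + c.t + β (a.x * b.x) c.x = a.t + (b.t + c.t + β b.x c.x) + β a.x (b.x * c.x)
      rw [h.left, h.right]; abel
  one_mul a := by
    apply TG.ext
    · exact one_mul _
    · show 0 + a.t + β 1 a.x = a.t
      rw [h.one_left]; abel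
  mul_one a := by
    apply TG.ext
    · exact mul_one _
    · show a.t + 0 + β a.x 1 = a.t
      rw [h.one_right]; abel
  inv_mul_cancel a := by
    apply TG.ext
    · exact inv_mul_cancel _
    · show - a.t + β a.x a.x + a.t + β a.x⁻¹ a.x = 0
      rw [h.inv_left]; abel

instance [Finite X] [Finite T] : Finite (TG X T β) :=
  Finite.of_injective (fun a => (a.x, a.t)) (by
    intro a b hab
    simp only [Prod.mk.injEq] at hab
    exact TG.ext hab.1 hab.2)

end TG

/-- two independent homs to `ZMod p` -/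
theorem exists_homs (G : Type u) [CommGroup G] [Finite G] (h : ¬ IsCyclic G) :
    ∃ (p : ℕ) (_ : Fact p.Prime) (φ₁ φ₂ : G →* Multiplicative (ZMod p)) (g k : G),
      (φ₁ g).toAdd = 1 ∧ (φ₂ g).toAdd = 0 ∧ (φ₁ k).toAdd = 0 ∧ (φ₂ k).toAdd = 1 := by
  classical
  obtain ⟨ι, _, n, hn, ⟨e⟩⟩ := CommGroup.equiv_prod_multiplicative_zmod_of_finite G
  by_cases hcop : Pairwise (Function.onFun Nat.Coprime n)
  · exfalso
    apply h
    let e' := ZMod.prodEquivPi n hcop
    have : IsAddCyclic ((i : ι) → ZMod (n i)) := isAddCyclic_of_surjective e'.toAddMonoidHom e'.surjective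
    let e2 : Multiplicative ((i : ι) → ZMod (n i)) ≃* ((i : ι) → Multiplicative (ZMod (n i))) :=
      { toFun := fun f i => Multiplicative.ofAdd (f.toAdd i)
        invFun := fun f => Multiplicative.ofAdd (fun i => (f i).toAdd)
        left_inv := fun _ => rfl
        right_inv := fun _ => rfl
        map_mul' := fun _ _ => rfl }
    exact isCyclic_of_surjective (e2.trans e.symm).toMonoidHom (e2.trans e.symm).surjective
  · unfold Pairwise at hcop
    push Not at hcop
    obtain ⟨i, j, hij, hnc⟩ := hcop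
    obtain ⟨p, hp, hpi, hpj⟩ := Nat.Prime.not_coprime_iff_dvd.mp hnc
    have := Fact.mk hp
    let ψ : ∀ (k : ι), p ∣ n k → (((i : ι) → Multiplicative (ZMod (n i))) →* Multiplicative (ZMod p)) := fun k hk =>
      (AddMonoidHom.toMultiplicative (ZMod.castHom hk (ZMod p)).toAddMonoidHom).comp (Pi.evalMonoidHom _ k)
    have hψ : ∀ k hk f, (ψ k hk f).toAdd = ZMod.castHom hk (ZMod p) (f k).toAdd := fun k hk f => rfl
    let δ : ∀ k : ι, (i : ι) → Multiplicative (ZMod (n i)) := fun k => Pi.mulSingle k (Multiplicative.ofAdd 1)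
    refine ⟨p, this, (ψ i hpi).comp e.toMonoidHom, (ψ j hpj).comp e.toMonoidHom, e.symm (δ i), e.symm (δ j), ?_, ?_, ?_, ?_⟩
    · show (ψ i hpi (e (e.symm (δ i)))).toAdd = 1
      have h1 : (δ i i).toAdd = 1 := by simp [δ]
      rw [e.apply_symm_apply, hψ, h1, map_one]
    · show (ψ j hpj (e (e.symm (δ i)))).toAdd = 0
      rw [e.apply_symm_apply, hψ]; simp [δ, Pi.mulSingle_eq_of_ne hij.symm]
    · show (ψ i hpi (e (e.symm (δ j)))).toAdd = 0
      rw [e.apply_symm_apply, hψ]; simp [δ, Pi.mulSingle_eq_of_ne hij]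
    · show (ψ j hpj (e (e.symm (δ j)))).toAdd = 1
      have h1 : (δ j j).toAdd = 1 := by simp [δ]
      rw [e.apply_symm_apply, hψ, h1, map_one]

/-- A finite abelian group has trivial Schur multiplier if and only if it is cyclic. -/
theorem result {G : Type*} [CommGroup G] [Finite G] : Cfsg.HasCyclicSchurMultiplier G 1 ↔ IsCyclic G := by
  constructor
  · intro h
    by_contra hnc
    obtain ⟨p, hp, φ₁, φ₂, g, k, h1, h2, h3, h4⟩ := exists_homs G hnc
    have := hp.out.pos
    have : NeZero p := ⟨hp.out.ne_zero⟩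
    let β : G → G → ZMod p := fun x y => (φ₁ x).toAdd * (φ₂ y).toAdd
    have hβ : Bi β := by
      constructor
      · intro x x' y
        show (φ₁ (x * x')).toAdd * (φ₂ y).toAdd = _
        rw [map_mul, toAdd_mul, add_mul]
      · intro x y y'
        show (φ₁ x).toAdd * (φ₂ (y * y')).toAdd = _
        rw [map_mul, toAdd_mul, mul_add]
    let _ := grp hβ
    have hmul : ∀ a b : TG G (ZMod p) β, a * b = ⟨a.x * b.x, a.t + b.t + β a.x b.x⟩ := fun a b => rfl
    let σ : TG G (ZMod p) β →* G := MonoidHom.mk' (fun a => a.x) (fun a b => rfl)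
    have hker : ∀ a, a ∈ σ.ker ↔ a.x = 1 := fun a => Iff.rfl
    have hc : ∀ t : ZMod p, (⟨1, t⟩ : TG G (ZMod p) β) ∈ _root_.commutator (TG G (ZMod p) β) := by
      intro t
      have e1 : (⟨g, 0⟩ : TG G (ZMod p) β) * ⟨k ^ t.val, 0⟩ = ⟨1, t⟩ * (⟨k ^ t.val, 0⟩ * ⟨g, 0⟩) := by
        rw [hmul, hmul, hmul]
        apply TG.ext
        · show g * k ^ t.val = 1 * (k ^ t.val * g)
          rw [one_mul, mul_comm]
        · show 0 + 0 + (φ₁ g).toAdd * (φ₂ (k ^ t.val)).toAdd = t + (0 + 0 + (φ₁ (k ^ t.val)).toAdd * (φ₂ g).toAdd) + β 1 _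
          rw [hβ.one_left, map_pow, toAdd_pow, h1, h4, h2]
          simp
      have e2 : (⟨1, t⟩ : TG G (ZMod p) β) = ⁅(⟨g, 0⟩ : TG G (ZMod p) β), ⟨k ^ t.val, 0⟩⁆ := by
        rw [commutatorElement_def, e1]; group
      rw [e2, _root_.commutator_def]
      exact commutator_mem_commutator (mem_top _) (mem_top _)
    have hst : IsStemExtension σ := by
      refine ⟨fun x => ⟨⟨x, 0⟩, rfl⟩, ?_, ?_⟩
      · rintro ⟨x, t⟩ ha
        have hx : x = 1 := ha
        subst hx
        rw [mem_center_iff]
        intro b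
        rw [hmul, hmul]
        apply TG.ext
        · show b.x * 1 = 1 * b.x
          rw [mul_one, one_mul]
        · show b.t + t + β b.x 1 = t + b.t + β 1 b.x
          rw [hβ.one_left, hβ.one_right]; ring
      · rintro ⟨x, t⟩ ha
        have hx : x = 1 := ha
        subst hx
        exact hc t
    have hbot := ker_eq_bot_of_trivial h _ σ hst
    have h5 : (⟨1, 1⟩ : TG G (ZMod p) β) ∈ σ.ker := rfl
    rw [hbot, mem_bot] at h5
    have h6 : (1 : ZMod p) = 0 := congrArg TG.t h5
    exact one_ne_zero h6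
  · intro h
    apply trivial_of
    intro Γ _ _ σ hσ
    obtain ⟨hs, hc, hd⟩ := hσ
    have hcomm : ∀ a b : Γ, a * b = b * a := commutative_of_cyclic_center_quotient σ hc
    rw [eq_bot_iff]
    refine hd.trans ?_
    rw [_root_.commutator_def, Subgroup.commutator_le]
    intro a _ b _
    rw [mem_bot, commutatorElement_eq_one_iff_mul_comm]
    exact hcomm a b

end Cfsg.Agent.S3950
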