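import Cfsg.Statements.S3951
import Cfsg.Agent.S3950

set_option autoImplicit false
open Cfsg

namespace Cfsg.Agent.S3951

open Subgroup H22.Schur Cfsg.Agent.S3950
open scoped commutatorElement

/-- For positive integers `m` and `n` with `n` dividing `m`, the Schur multiplier of the abelian group `ZMod m × ZMod n` (written multiplicatively) is cyclic of order `n`. In particular the elementary abelian group of order `p ^ 2` has multiplier of order `p`. -/
theorem result (m n : ℕ) [NeZero m] [NeZero n] (hnm : n ∣ m) : Cfsg.HasCyclicSchurMultiplier (Multiplicative (ZMod m × ZMod n)) n := by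
  refine ⟨?_, ?_⟩
  · let G := Multiplicative (ZMod m × ZMod n)
    let β : G → G → ZMod n := fun x y => ZMod.castHom hnm (ZMod n) x.toAdd.1 * y.toAdd.2
    have hβ : Bi β := by
      constructor
      · intro x x' y
        show ZMod.castHom hnm (ZMod n) (x * x').toAdd.1 * y.toAdd.2 = _
        rw [toAdd_mul, Prod.fst_add, map_add, add_mul]
      · intro x y y'
        show ZMod.castHom hnm (ZMod n) x.toAdd.1 * (y * y').toAdd.2 = _
        rw [toAdd_mul, Prod.snd_add, mul_add]
    let _ := grp hβ
    have hmul : ∀ a b : TG G (ZMod n) β, a * b = ⟨a.x * b.x, a.t + b.t + β a.x b.x⟩ := fun a b => rfl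
    let σ : TG G (ZMod n) β →* G := MonoidHom.mk' (fun a => a.x) (fun a b => rfl)
    have hc : ∀ t : ZMod n, (⟨1, t⟩ : TG G (ZMod n) β) ∈ _root_.commutator (TG G (ZMod n) β) := by
      intro t
      let g : G := Multiplicative.ofAdd (1, 0)
      let k : G := Multiplicative.ofAdd (0, t)
      have e1 : (⟨g, 0⟩ : TG G (ZMod n) β) * ⟨k, 0⟩ = ⟨1, t⟩ * (⟨k, 0⟩ * ⟨g, 0⟩) := by
        rw [hmul, hmul, hmul]
        apply TG.ext
        · show g * k = 1 * (k * g)
          rw [one_mul, mul_comm]
        · show 0 + 0 + ZMod.castHom hnm (ZMod n) 1 * t = t + (0 + 0 + ZMod.castHom hnm (ZMod n) 0 * 0) + β 1 _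
          rw [hβ.one_left, map_one]
          simp
      have e2 : (⟨1, t⟩ : TG G (ZMod n) β) = ⁅(⟨g, 0⟩ : TG G (ZMod n) β), ⟨k, 0⟩⁆ := by
        rw [commutatorElement_def, e1]; group
      rw [e2, _root_.commutator_def]
      exact commutator_mem_commutator (mem_top _) (mem_top _)
    have hst : IsStemExtension σ := by
      refine ⟨fun x => ⟨⟨x, 0⟩, rfl⟩, ?_, ?_⟩
      · rintro ⟨x, t⟩ ha
        have hx : x = 1 := ha
        subst hx
        rw [mem_center_iff]
        intro b
        rw [hmul, hmul]
        apply TG.ext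
        · show b.x * 1 = 1 * b.x
          rw [mul_one, one_mul]
        · show b.t + t + β b.x 1 = t + b.t + β 1 b.x
          rw [hβ.one_left, hβ.one_right]; ring
      · rintro ⟨x, t⟩ ha
        have hx : x = 1 := ha
        subst hx
        exact hc t
    refine ⟨TG G (ZMod n) β, grp hβ, inferInstance, σ, hst, ⟨?_⟩⟩
    exact {
      toFun := fun a => Multiplicative.ofAdd a.1.t
      invFun := fun t => ⟨⟨1, t.toAdd⟩, rfl⟩
      left_inv := fun a => by
        apply Subtype.ext
        have h1 : a.1.x = 1 := a.2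
        apply TG.ext
        · exact h1.symm
        · rfl
      right_inv := fun t => rfl
      map_mul' := fun a b => by
        have h1 : a.1.x = 1 := a.2
        show Multiplicative.ofAdd (a.1.t + b.1.t + β a.1.x b.1.x) = _
        rw [h1, hβ.one_left, add_zero]; rfl }
  · intro Γ _ _ σ hσ
    obtain ⟨hs, hc, hd⟩ := hσ
    let iC : CommGroup σ.ker := { (inferInstance : Group σ.ker) with
      mul_comm := fun a b => Subtype.ext (mem_center_iff.mp (hc b.2) a) }
    obtain ⟨x, hx⟩ := hs (Multiplicative.ofAdd (1, 0))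
    obtain ⟨y, hy⟩ := hs (Multiplicative.ofAdd (0, 1))
    have hall : ∀ a b : Γ, ⁅a, b⁆ ∈ σ.ker := by
      intro a b
      rw [MonoidHom.mem_ker, map_commutatorElement, commutatorElement_eq_one_iff_mul_comm, mul_comm]
    have hbr : ∀ a b b' : Γ, ⁅a, b * b'⁆ = ⁅a, b⁆ * ⁅a, b'⁆ := by
      intro a b b'
      have h1 : ⁅a, b * b'⁆ = ⁅a, b⁆ * (b * ⁅a, b'⁆ * b⁻¹) := by
        simp only [commutatorElement_def]; group
      rw [h1, mem_center_iff.mp (hc (hall a b')) b, mul_inv_cancel_right]
    have hpow : ∀ k : ℕ, ⁅x, y ^ k⁆ = ⁅x, y⁆ ^ k := by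
      intro k
      induction k with
      | zero => simp
      | succ k ih => rw [pow_succ, hbr, ih, pow_succ]
    have hyn : y ^ n ∈ σ.ker := by
      rw [MonoidHom.mem_ker, map_pow, hy, ← ofAdd_nsmul]
      have : n • ((0 : ZMod m), (1 : ZMod n)) = 0 := by
        ext <;> simp
      rw [this]; rfl
    have hcn : ⁅x, y⁆ ^ n = 1 := by
      rw [← hpow, commutatorElement_eq_one_iff_mul_comm]
      exact mem_center_iff.mp (hc hyn) x
    have hgen : closure {x, y} ⊔ σ.ker = ⊤ := by
      rw [eq_top_iff]
      intro g _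
      have hx' : x ∈ closure {x, y} := Subgroup.subset_closure (by simp)
      have hy' : y ∈ closure {x, y} := Subgroup.subset_closure (by simp)
      have : g = x ^ (σ g).toAdd.1.val * y ^ (σ g).toAdd.2.val * ((x ^ (σ g).toAdd.1.val * y ^ (σ g).toAdd.2.val)⁻¹ * g) := by group
      rw [this]
      refine mul_mem (mem_sup_left (mul_mem (pow_mem hx' _) (pow_mem hy' _))) (mem_sup_right ?_)
      have h2 : σ (x ^ (σ g).toAdd.1.val * y ^ (σ g).toAdd.2.val) = σ g := by
        rw [map_mul, map_pow, map_pow, hx, hy, ← ofAdd_nsmul, ← ofAdd_nsmul, ← ofAdd_add]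
        apply Multiplicative.toAdd.injective
        rw [toAdd_ofAdd]
        ext <;> simp
      rw [MonoidHom.mem_ker, map_mul, map_inv, h2, inv_mul_cancel]
    have hcomm : _root_.commutator Γ ≤ zpowers ⁅x, y⁆ := by
      refine (comm_le_of_sup_central _ _ hc hgen).trans ?_
      apply commutator_closure_le
      · intro s hs m hm
        have hm' : m ∈ center Γ := by
          obtain ⟨k, rfl⟩ := mem_zpowers_iff.mp hm
          exact hc (zpow_mem (hall x y) k)
        rw [mem_center_iff.mp hm' s, mul_inv_cancel_right]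
        refine ⟨hm, ?_⟩
        rw [mem_center_iff.mp hm' s⁻¹, inv_mul_cancel_right]
        exact hm
      · intro s hs t ht
        have hs : s = x ∨ s = y := by simpa using hs
        have ht : t = x ∨ t = y := by simpa using ht
        rcases hs with rfl | rfl <;> rcases ht with rfl | rfl
        · rw [commutatorElement_self]; exact one_mem _
        · exact mem_zpowers _
        · refine (inv_mem_iff (H := zpowers ⁅t, s⁆)).mp ?_
          rw [commutatorElement_inv]; exact mem_zpowers _
        · rw [commutatorElement_self]; exact one_mem _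
    let c : σ.ker := ⟨⁅x, y⁆, hall x y⟩
    have hc' : c ^ n = 1 := Subtype.ext hcn
    let f : ZMod n →+ Additive σ.ker := ZMod.lift n ⟨zmultiplesHom _ (Additive.ofMul c), by
      show ((n : ℤ) • (Additive.ofMul c)) = 0
      rw [natCast_zsmul]; exact congrArg Additive.ofMul hc'⟩
    refine ⟨AddMonoidHom.toMultiplicativeLeft f, ?_⟩
    rintro ⟨z, hz⟩
    obtain ⟨k, hk⟩ := mem_zpowers_iff.mp (hcomm (hd hz))
    refine ⟨Multiplicative.ofAdd (k : ZMod n), ?_⟩
    show Additive.toMul (f (k : ZMod n)) = _
    have : f (k : ZMod n) = k • (Additive.ofMul c) := by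
      show ZMod.lift n _ (k : ZMod n) = _
      rw [ZMod.lift_coe]; rfl
    rw [this]
    exact Subtype.ext hk

end Cfsg.Agent.S3951
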