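import Cfsg.Statements.S3952
import Cfsg.Agent.H22_Schur
import Cfsg.Agent.H3_Extraspecial

set_option autoImplicit false
open Cfsg

namespace Cfsg.Agent.S3952

open Subgroup H22.Schur
open scoped commutatorElement

theorem degree_dvd {G : Type*} [Group G] [Finite G] (Z : Subgroup G) (hZd : Z ≤ _root_.commutator G)
    (l : Z →* ℂˣ) (n : ℕ) (ρ : Representation ℂ G (Fin n → ℂ)) (h : ∀ z : Z, ρ z = (l z : ℂ) • LinearMap.id) :
    orderOf l ∣ n := by
  rw [orderOf_dvd_iff_pow_eq_one]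
  ext z
  let δ : G →* ℂˣ := MonoidHom.toHomUnits ((LinearMap.det : (Module.End ℂ (Fin n → ℂ)) →* ℂ).comp ρ)
  have h1 : δ (z : G) = 1 := Abelianization.commutator_subset_ker δ (hZd z.2)
  have h2 : ((δ (z : G) : ℂˣ) : ℂ) = (l z : ℂ) ^ n := by
    show LinearMap.det (ρ (z : G)) = _
    rw [h z, LinearMap.det_smul, LinearMap.det_id, mul_one]
    simp
  rw [h1] at h2
  show ((l z ^ n : ℂˣ) : ℂ) = 1
  rw [Units.val_pow_eq_pow_val, ← h2, Units.val_one]

theorem sq_dvd {G : Type*} [Group G] [Finite G] (Z : Subgroup G) (hZ : Z ≤ center G)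
    (hZd : Z ≤ _root_.commutator G) (l : Z →* ℂˣ) : orderOf l ^ 2 ∣ Z.index := by
  classical
  have := Fintype.ofFinite G
  have := Fintype.ofFinite Z
  have := Fintype.ofFinite (IrrCharacter G)
  set e := orderOf l with he
  have key : ∀ χ : IrrCharacter G, ∃ k : ℕ, (χ : G → ℂ) 1 * ∑ z : Z, ((l z)⁻¹ : ℂˣ) * (χ : G → ℂ) z =
      (Nat.card Z : ℂ) * ((e ^ 2 * k : ℕ) : ℂ) := by
    rintro ⟨χ, n, ρ, hρ, rfl⟩
    by_cases h : ∀ z : Z, ρ z = (l z : ℂ) • LinearMap.id
    · obtain ⟨k, hk⟩ := degree_dvd Z hZd l n ρ h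
      refine ⟨k ^ 2, ?_⟩
      have h1 : ∀ z : Z, ρ.character z = (l z : ℂ) * n := by
        intro z
        rw [Representation.character, h z, map_smul, LinearMap.trace_id, smul_eq_mul]
        simp
      have h2 : ρ.character 1 = n := by
        rw [Representation.char_one]; simp
      show ρ.character 1 * ∑ z : Z, ((l z)⁻¹ : ℂˣ) * ρ.character z = _
      have h3 : ∀ z : Z, (((l z)⁻¹ : ℂˣ) : ℂ) * ρ.character z = n := by
        intro z
        rw [h1, ← mul_assoc, ← Units.val_mul, inv_mul_cancel, Units.val_one, one_mul]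
      rw [Finset.sum_congr rfl (fun z _ => h3 z), h2, Finset.sum_const, Finset.card_univ, nsmul_eq_mul,
        ← Nat.card_eq_fintype_card]
      rw [hk, ← he]; push_cast; ring
    · push Not at h
      obtain ⟨z₀, hz₀⟩ := h
      obtain ⟨c, hc⟩ := H3.CharInt.central_scalar ρ hρ (hZ z₀.2)
      have hcl : c ≠ (l z₀ : ℂ) := by
        rintro rfl; exact hz₀ hc
      refine ⟨0, ?_⟩
      show ρ.character 1 * ∑ z : Z, ((l z)⁻¹ : ℂˣ) * ρ.character z = _
      have h1 : ∑ z : Z, (((l z)⁻¹ : ℂˣ) : ℂ) * ρ.character z =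
          (((l z₀)⁻¹ : ℂˣ) : ℂ) * c * ∑ z : Z, (((l z)⁻¹ : ℂˣ) : ℂ) * ρ.character z := by
        rw [Finset.mul_sum, ← Equiv.sum_comp (Equiv.mulRight z₀)]
        refine Finset.sum_congr rfl fun z _ => ?_
        show (((l (z * z₀))⁻¹ : ℂˣ) : ℂ) * ρ.character (z * z₀ : G) = _
        have h2 : ρ.character (z * z₀ : G) = c * ρ.character z := by
          rw [Representation.character, map_mul, hc]
          show LinearMap.trace ℂ _ (ρ z * (c • LinearMap.id)) = _
          rw [mul_smul_comm, map_smul, smul_eq_mul]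
          rfl
        rw [h2, map_mul, mul_inv, Units.val_mul]
        ring
      have h2 : (((l z₀)⁻¹ : ℂˣ) : ℂ) * c ≠ 1 := by
        intro h3
        apply hcl
        have : (l z₀ : ℂ) * ((((l z₀)⁻¹ : ℂˣ) : ℂ) * c) = c := by
          rw [← mul_assoc, ← Units.val_mul, mul_inv_cancel, Units.val_one, one_mul]
        rw [← this, h3, mul_one]
      have h3 : ∑ z : Z, (((l z)⁻¹ : ℂˣ) : ℂ) * ρ.character z = 0 := by
        by_contra hne
        apply h2
        have := mul_right_cancel₀ hne ((one_mul _).trans h1)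
        exact this.symm
      rw [h3]; simp
  choose k hk using key
  have h1 : ∑ χ : IrrCharacter G, (χ : G → ℂ) 1 * ∑ z : Z, (((l z)⁻¹ : ℂˣ) : ℂ) * (χ : G → ℂ) z = (Nat.card G : ℂ) := by
    have : ∀ χ : IrrCharacter G, (χ : G → ℂ) 1 * ∑ z : Z, (((l z)⁻¹ : ℂˣ) : ℂ) * (χ : G → ℂ) z =
        ∑ z : Z, (((l z)⁻¹ : ℂˣ) : ℂ) * ((χ : G → ℂ) 1 * (χ : G → ℂ) z) := by
      intro χ
      rw [Finset.mul_sum]
      refine Finset.sum_congr rfl fun z _ => ?_
      ring
    rw [Finset.sum_congr rfl (fun χ _ => this χ), Finset.sum_comm]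
    simp only [← Finset.mul_sum]
    rw [Finset.sum_eq_single (1 : Z)]
    · rw [Subgroup.coe_one, H3.CharComplete.sum_one_mul, if_pos rfl]; simp
    · intro z _ hz
      rw [H3.CharComplete.sum_one_mul, if_neg (fun h => hz (Subtype.ext (by simpa using h))), mul_zero]
    · intro h; exact absurd (Finset.mem_univ _) h
  rw [Finset.sum_congr rfl (fun χ _ => hk χ), ← Finset.mul_sum, ← Z.card_mul_index] at h1
  have h2 : (∑ χ : IrrCharacter G, ((e ^ 2 * k χ : ℕ) : ℂ)) = ((e ^ 2 * ∑ χ, k χ : ℕ) : ℂ) := by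
    rw [Finset.mul_sum]; push_cast; rfl
  rw [h2] at h1
  have h3 : Nat.card Z * (e ^ 2 * ∑ χ, k χ) = Nat.card Z * Z.index := by exact_mod_cast h1
  have h4 := Nat.eq_of_mul_eq_mul_left Nat.card_pos h3
  exact ⟨_, h4.symm⟩

/-- If `A` is the Schur multiplier of the finite group `Q`, then the square of the exponent of `A` divides the order of `Q`. -/
theorem result {Q : Type*} [Group Q] [Finite Q] {A : Type*} [CommGroup A] (hA : Cfsg.HasSchurMultiplier Q A) : Monoid.exponent A ^ 2 ∣ Nat.card Q := by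
  obtain ⟨⟨Γ, _, _, σ, hσ, ⟨e⟩⟩, _⟩ := hA
  have hfin : Finite A := Finite.of_equiv _ e.toEquiv
  obtain ⟨e'⟩ := CommGroup.monoidHom_mulEquiv_of_hasEnoughRootsOfUnity A ℂ
  obtain ⟨a, ha⟩ := Monoid.exists_orderOf_eq_exponent (G := A) (Monoid.ExponentExists.of_finite)
  obtain ⟨l, hl⟩ : ∃ l : A →* ℂˣ, orderOf l = Monoid.exponent A :=
    ⟨e'.symm a, by rw [← ha]; exact MulEquiv.orderOf_eq e'.symm a⟩
  have h2 := sq_dvd σ.ker hσ.2.1 hσ.2.2 (l.comp e.toMonoidHom)
  have h3 : orderOf (l.comp e.toMonoidHom) = orderOf l := by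
    apply Nat.dvd_antisymm
    · rw [orderOf_dvd_iff_pow_eq_one]
      ext x
      have : l ^ orderOf l = 1 := pow_orderOf_eq_one l
      exact congrArg Units.val (DFunLike.congr_fun this (e x))
    · rw [orderOf_dvd_iff_pow_eq_one]
      ext x
      have := DFunLike.congr_fun (pow_orderOf_eq_one (l.comp e.toMonoidHom)) (e.symm x)
      simp only [MonoidHom.pow_apply, MonoidHom.comp_apply, MulEquiv.coe_toMonoidHom, MulEquiv.apply_symm_apply, MonoidHom.one_apply] at this
      exact congrArg Units.val this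
  rw [h3, hl, Subgroup.index_ker] at h2
  have h4 : σ.range = ⊤ := MonoidHom.range_eq_top.mpr hσ.1
  rw [h4, Subgroup.card_top] at h2
  exact h2

end Cfsg.Agent.S3952
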