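import Cfsg.Statements.S3953
import Cfsg.Agent.H22_SchurTr

set_option autoImplicit false
open Cfsg

namespace Cfsg.Agent.S3953

open Subgroup H22.Schur H22.SchurTr

/-- Let `P` be a Sylow `p`-subgroup of the finite group `G`, let `A` be the Schur multiplier of `G` and `B` that of `P`. Then the `p`-primary component of `A` is isomorphic to a direct factor of `B`: there are subgroups `C` and `D` of `B` meeting trivially and generating `B`, with `C` isomorphic to the `p`-primary component of `A`. -/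
theorem result {G : Type*} [Group G] [Finite G] (p : ℕ) [Fact p.Prime] (P : Sylow p G) {A B : Type*} [CommGroup A] [CommGroup B] (hA : Cfsg.HasSchurMultiplier G A) (hB : Cfsg.HasSchurMultiplier P B) : ∃ C D : Subgroup B, C ⊓ D = ⊥ ∧ C ⊔ D = ⊤ ∧ Nonempty (CommGroup.primaryComponent A p ≃* C) := by
  have hAf : Finite A := finite_of_hasSchur hA
  obtain ⟨τ, κ, h⟩ := exists_transfer (P : Subgroup G) hA hB
  have hp := Fact.out (p := p.Prime)
  obtain ⟨k, a', ha', hcard⟩ := Nat.exists_eq_pow_mul_and_not_dvd (n := Nat.card A) Nat.card_pos.ne' p hp.ne_one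
  set m := (P : Subgroup G).index with hm
  have hcop : Nat.Coprime (a' * m) (p ^ k) := by
    apply Nat.Coprime.pow_right
    apply Nat.Coprime.mul_left
    · exact ((Nat.Prime.coprime_iff_not_dvd hp).mpr ha').symm
    · exact ((Nat.Prime.coprime_iff_not_dvd hp).mpr P.not_dvd_index).symm
  obtain ⟨u, v, huv⟩ : ∃ u v : ℤ, ((a' * m : ℕ) : ℤ) * u + ((p ^ k : ℕ) : ℤ) * v = 1 := by
    refine ⟨_, _, (Nat.gcd_eq_gcd_ab (a' * m) (p ^ k)).symm.trans ?_⟩
    rw [hcop]; rfl
  let Ap := CommGroup.primaryComponent A p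
  have hmem : ∀ x : A, x ∈ Ap ↔ x ^ p ^ k = 1 := by
    intro x
    constructor
    · rintro ⟨n, hn⟩
      rw [← orderOf_dvd_iff_pow_eq_one]
      have h1 : orderOf x ∣ p ^ k * a' := by rw [← hcard]; exact orderOf_dvd_natCard x
      have h3 : orderOf x ∣ p ^ n := orderOf_dvd_of_pow_eq_one hn
      have h2 : Nat.Coprime (p ^ n) a' := Nat.Coprime.pow_left _ ((Nat.Prime.coprime_iff_not_dvd hp).mpr ha')
      exact (h2.coprime_dvd_left h3).dvd_of_dvd_mul_right h1
    · intro hx
      exact ⟨k, hx⟩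
  let r : B →* Ap := MonoidHom.mk' (fun b => ⟨κ b ^ ((a' : ℤ) * u), by
    rw [hmem, ← zpow_natCast, ← zpow_mul]
    have : (a' : ℤ) * u * ((p ^ k : ℕ) : ℤ) = ((Nat.card A : ℕ) : ℤ) * u := by
      rw [hcard]; push_cast; ring
    rw [this, zpow_mul, zpow_natCast, pow_card_eq_one', one_zpow]⟩) (by
      intro x y
      apply Subtype.ext
      show κ (x * y) ^ _ = κ x ^ _ * κ y ^ _
      rw [map_mul, mul_zpow])
  have hr : ∀ x : Ap, r (τ x) = x := by
    intro x
    apply Subtype.ext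
    show κ (τ x) ^ ((a' : ℤ) * u) = x
    have hx := (hmem x).mp x.2
    rw [h, ← zpow_natCast, ← zpow_mul]
    have : (m : ℤ) * ((a' : ℤ) * u) = 1 - ((p ^ k : ℕ) : ℤ) * v := by
      rw [← huv]; push_cast; ring
    rw [this, zpow_sub, zpow_one, zpow_mul, zpow_natCast, hx, one_zpow, inv_one, mul_one]
  have hinj : Function.Injective (τ.comp Ap.subtype) := by
    intro x y hxy
    rw [← hr x, ← hr y]
    exact congrArg r hxy
  refine ⟨(τ.comp Ap.subtype).range, r.ker, ?_, ?_, ⟨MonoidHom.ofInjective hinj⟩⟩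
  · rw [eq_bot_iff]
    rintro b ⟨⟨x, rfl⟩, hb⟩
    have h1 : r (τ x) = 1 := hb
    rw [hr] at h1
    rw [mem_bot, h1, map_one]
  · rw [eq_top_iff]
    intro b _
    have h1 : b = τ (r b) * ((τ (r b))⁻¹ * b) := by group
    rw [h1]
    refine mul_mem (mem_sup_left ⟨r b, rfl⟩) (mem_sup_right ?_)
    rw [MonoidHom.mem_ker, map_mul, map_inv, hr, inv_mul_cancel]

end Cfsg.Agent.S3953
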