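import Cfsg.Statements.S3954
import Cfsg.Agent.H22_SchurTr

set_option autoImplicit false
open Cfsg

namespace Cfsg.Agent.S3954

open Subgroup H22.Schur H22.SchurTr

theorem embed_of_surj {X R : Type*} [CommGroup X] [Finite X] [CommGroup R] (p : X →* R)
    (hp : Function.Surjective p) : ∃ i : R →* X, Function.Injective i := by
  have : Finite R := Finite.of_surjective p hp
  obtain ⟨eR⟩ := CommGroup.monoidHom_mulEquiv_of_hasEnoughRootsOfUnity R ℂ
  obtain ⟨eX⟩ := CommGroup.monoidHom_mulEquiv_of_hasEnoughRootsOfUnity X ℂ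
  refine ⟨(eX.toMonoidHom.comp (MonoidHom.compHom' p)).comp eR.symm.toMonoidHom, ?_⟩
  intro a b hab
  have h1 : eX ((eR.symm a).comp p) = eX ((eR.symm b).comp p) := hab
  have h2 := eX.injective h1
  apply eR.symm.injective
  ext x
  obtain ⟨y, rfl⟩ := hp x
  exact congrArg Units.val (DFunLike.congr_fun h2 y)

/-- Let `U` be a subgroup of index `m` in the finite group `G`, let `A` be the Schur multiplier of `G` and `B` that of `U`. Then the subgroup of `m`-th powers of `A` is isomorphic to a subgroup of `B`. -/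
theorem result {G : Type*} [Group G] [Finite G] (U : Subgroup G) {A B : Type*} [CommGroup A] [CommGroup B] (hA : Cfsg.HasSchurMultiplier G A) (hB : Cfsg.HasSchurMultiplier U B) : ∃ C : Subgroup B, Nonempty ((powMonoidHom U.index : A →* A).range ≃* C) := by
  have hBf : Finite B := finite_of_hasSchur hB
  obtain ⟨τ, κ, h⟩ := exists_transfer U hA hB
  let R := (powMonoidHom U.index : A →* A).range
  let p : τ.range →* R := MonoidHom.mk' (fun x => ⟨κ x, by
    obtain ⟨x, a, rfl⟩ := x
    exact ⟨a, (h a).symm⟩⟩) (fun a b => Subtype.ext (map_mul κ _ _))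
  have hp : Function.Surjective p := by
    rintro ⟨x, a, rfl⟩
    exact ⟨⟨τ a, a, rfl⟩, Subtype.ext (h a)⟩
  obtain ⟨i, hi⟩ := embed_of_surj p hp
  exact ⟨(τ.range.subtype.comp i).range, ⟨MonoidHom.ofInjective (τ.range.subtype_injective.comp hi)⟩⟩

end Cfsg.Agent.S3954
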