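import Cfsg.Statements.S3955
import Cfsg.Agent.H22_Schur

set_option autoImplicit false
open Cfsg

namespace Cfsg.Agent.S3955

open Subgroup H22.Schur
open scoped commutatorElement MatrixGroups

/-- divisible targets -/
theorem ext_divisible {A B C : Type*} [CommGroup A] [CommGroup B] [CommGroup C]
    (hC : ∀ (n : ℤ), n ≠ 0 → ∀ c : C, ∃ d : C, d ^ n = c) (i : A →* B) (hi : Function.Injective i) (g : A →* C) :
    ∃ h : B →* C, ∀ a, h (i a) = g a := by
  classical
  let inst : DivisibleBy (Additive C) ℤ := {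
    div := fun a n => if h : n = 0 then 0 else Additive.ofMul (hC n h a.toMul).choose
    div_zero := fun a => by simp
    div_cancel := fun {n} a hn => by
      show n • (if h : n = 0 then 0 else Additive.ofMul (hC n h a.toMul).choose) = a
      rw [dif_neg hn]
      exact congrArg Additive.ofMul (hC n hn a.toMul).choose_spec }
  obtain ⟨h, hh⟩ := (Module.Baer.of_divisible (Additive C)).extension_property_addMonoidHom
    (MonoidHom.toAdditive i) hi (MonoidHom.toAdditive g)
  refine ⟨MonoidHom.toAdditive.symm h, fun a => ?_⟩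
  exact DFunLike.congr_fun hh (Additive.ofMul a)

theorem center_rootable (n : ℕ) (k : ℤ) (hk : k ≠ 0) (c : center (GL (Fin n) ℂ)) :
    ∃ d : center (GL (Fin n) ℂ), d ^ k = c := by
  obtain ⟨c, hc⟩ := c
  have hc' := hc
  rw [Matrix.GeneralLinearGroup.center_eq_range_scalar] at hc'
  obtain ⟨u, hu⟩ := hc'
  have key : ∃ v : ℂˣ, v ^ k = u := by
    have hk' : k.natAbs ≠ 0 := by simpa using hk
    obtain ⟨z, hz⟩ := IsAlgClosed.exists_pow_nat_eq (u : ℂ) (Nat.pos_of_ne_zero hk')
    have hz0 : z ≠ 0 := by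
      rintro rfl
      rw [zero_pow hk'] at hz
      exact u.ne_zero hz.symm
    have hv : (Units.mk0 z hz0) ^ k.natAbs = u := by
      ext; simpa using hz
    rcases Int.natAbs_eq k with h | h
    · exact ⟨Units.mk0 z hz0, by rw [h, zpow_natCast, hv]⟩
    · exact ⟨(Units.mk0 z hz0)⁻¹, by rw [h, zpow_neg, zpow_natCast, inv_pow, inv_inv, hv]⟩
  obtain ⟨v, hv⟩ := key
  refine ⟨⟨Matrix.GeneralLinearGroup.scalar (Fin n) v, ?_⟩, ?_⟩
  · rw [Matrix.GeneralLinearGroup.center_eq_range_scalar]; exact ⟨v, rfl⟩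
  · apply Subtype.ext
    show (Matrix.GeneralLinearGroup.scalar (Fin n) v) ^ k = c
    rw [← hu, ← hv, map_zpow]

/-- Let `Q` be a finite group with Schur multiplier `A`, and let `σ : Γ →* Q` be a finite stem extension whose kernel is isomorphic to `A` (a Schur covering group of `Q`). Then every homomorphism `γ` from `Q` to the quotient of `GL n ℂ` by its centre lifts along `σ`: there is a homomorphism `ρ : Γ →* GL n ℂ` which, followed by the quotient map, equals `γ ∘ σ`. -/
theorem result {Q : Type*} [Group Q] [Finite Q] {A : Type*} [CommGroup A] (hA : Cfsg.HasSchurMultiplier Q A) {Γ : Type*} [Group Γ] [Finite Γ] (σ : Γ →* Q) (hσ : Cfsg.IsStemExtension σ) (hk : Nonempty (σ.ker ≃* A)) (n : ℕ) (γ : Q →* (GL (Fin n) ℂ ⧸ Subgroup.center (GL (Fin n) ℂ))) : ∃ ρ : Γ →* GL (Fin n) ℂ, (QuotientGroup.mk' (Subgroup.center (GL (Fin n) ℂ))).comp ρ = γ.comp σ := by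
  let f := can Q
  have hf : Function.Surjective f := can_surjective Q
  obtain ⟨eA⟩ := exists_equiv f hf hA
  obtain ⟨ek⟩ := hk
  obtain ⟨g, hg⟩ := exists_lift_E f σ hσ.1 hσ.2.1 (MonoidHom.id Q)
  have hg' : σ.comp g = π f := by rw [hg]; rfl
  have hgs := lift_surj (π f) (π_surjective f hf) σ hσ g hg'
  have htr := tr_bijective f hf σ hσ (by
    rw [Nat.card_congr ek.toEquiv, Nat.card_congr eA.toEquiv]) g hg'
  have hKM : ∀ x ∈ g.ker, x ∈ M f → x = 1 := by
    intro x hx hxM
    have : tr f σ g hg' ⟨x, hxM⟩ = 1 := Subtype.ext hx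
    have h2 := (injective_iff_map_eq_one _).mp htr.1 _ this
    exact congrArg Subtype.val h2
  have hgk : g.ker ≤ (π f).ker := by
    intro x hx
    rw [MonoidHom.mem_ker, ← hg', MonoidHom.comp_apply, MonoidHom.mem_ker.mp hx, map_one]
  -- lift to GL
  let q := QuotientGroup.mk' (center (GL (Fin n) ℂ))
  have hqs : Function.Surjective q := QuotientGroup.mk'_surjective _
  have hqk : q.ker = center (GL (Fin n) ℂ) := QuotientGroup.ker_mk' _
  obtain ⟨h, hh⟩ := exists_lift_E f q hqs hqk.le γ
  have hhk : ∀ x ∈ g.ker, h x ∈ center (GL (Fin n) ℂ) := by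
    intro x hx
    rw [← hqk, MonoidHom.mem_ker]
    have := DFunLike.congr_fun hh x
    simp only [MonoidHom.comp_apply] at this
    rw [this, MonoidHom.mem_ker.mp (hgk hx), map_one]
  -- commutative group structure on the kernel
  let iC : CommGroup g.ker := { (inferInstance : Group g.ker) with
    mul_comm := fun a b => Subtype.ext (mem_center_iff.mp (ker_π_le_center f (hgk b.2)) a) }
  let i : g.ker →* Abelianization (E f) := Abelianization.of.comp g.ker.subtype
  have hi : Function.Injective i := by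
    rw [injective_iff_map_eq_one]
    rintro ⟨x, hx⟩ hix
    have h1 : x ∈ _root_.commutator (E f) := by
      rw [← Abelianization.ker_of]; exact hix
    exact Subtype.ext (hKM x hx (Subgroup.mem_inf.mpr ⟨hgk hx, h1⟩))
  let iZ : CommGroup (center (GL (Fin n) ℂ)) := { (inferInstance : Group (center (GL (Fin n) ℂ))) with
    mul_comm := fun a b => Subtype.ext (mem_center_iff.mp b.2 a) }
  let hK : g.ker →* center (GL (Fin n) ℂ) := MonoidHom.mk' (fun x => ⟨h x, hhk x x.2⟩) (fun a b =>
    Subtype.ext (map_mul h _ _))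
  obtain ⟨l, hl⟩ := ext_divisible (A := g.ker) (B := Abelianization (E f)) (C := center (GL (Fin n) ℂ)) (center_rootable n) i hi hK
  let r : E f →* GL (Fin n) ℂ := MonoidHom.mk' (fun x => h x * ((l (Abelianization.of x))⁻¹ : center (GL (Fin n) ℂ))) (by
    intro a b
    rw [map_mul, map_mul, map_mul, mul_inv, Subgroup.coe_mul]
    have := mem_center_iff.mp ((l (Abelianization.of a))⁻¹).2 (h b)
    calc h a * h b * ((((l (Abelianization.of a))⁻¹ : center (GL (Fin n) ℂ)) : GL (Fin n) ℂ) * (((l (Abelianization.of b))⁻¹ : center (GL (Fin n) ℂ)) : GL (Fin n) ℂ))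
        = h a * (h b * ((l (Abelianization.of a))⁻¹ : center (GL (Fin n) ℂ))) * ((l (Abelianization.of b))⁻¹ : center (GL (Fin n) ℂ)) := by group
      _ = _ := by rw [this]; group)
  have hrk : g.ker ≤ r.ker := by
    intro x hx
    have h1 : l (Abelianization.of x) = ⟨h x, hhk x hx⟩ := hl ⟨x, hx⟩
    show h x * ((l (Abelianization.of x))⁻¹ : center (GL (Fin n) ℂ)) = 1
    rw [h1, InvMemClass.coe_inv, mul_inv_cancel]
  refine ⟨(MonoidHom.liftOfSurjective g hgs) ⟨r, hrk⟩, ?_⟩
  ext y
  obtain ⟨x, rfl⟩ := hgs y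
  have h1 : (MonoidHom.liftOfSurjective g hgs) ⟨r, hrk⟩ (g x) = r x := MonoidHom.liftOfRightInverse_comp_apply _ _ _ _ _
  have h2 := DFunLike.congr_fun hg' x
  simp only [MonoidHom.comp_apply] at h2 ⊢
  rw [h1, h2]
  have h3 := DFunLike.congr_fun hh x
  simp only [MonoidHom.comp_apply] at h3
  rw [← h3]
  show q (h x * ((l (Abelianization.of x))⁻¹ : center (GL (Fin n) ℂ))) = q (h x)
  rw [map_mul]
  have h4 : q ((l (Abelianization.of x))⁻¹ : center (GL (Fin n) ℂ)) = 1 := by
    rw [← MonoidHom.mem_ker, hqk]; exact SetLike.coe_mem _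
  rw [h4, mul_one]

end Cfsg.Agent.S3955
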