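import Cfsg.Statements.S3956
import Cfsg.Agent.H22_Schur

set_option autoImplicit false
open Cfsg

namespace Cfsg.Agent.S3956

open Subgroup H22.Schur
open scoped commutatorElement MatrixGroups

universe u v

section ind

variable {X : Type*} [Group X] [Finite X] (Z : Subgroup X) (hZ : Z ≤ center X) (l : Z →* ℂˣ)

/-- functions transforming by `l` under the central subgroup -/
def V : Submodule ℂ (X → ℂ) where
  carrier := {φ | ∀ (z : Z) (x : X), φ (x * z) = l z * φ x}
  zero_mem' := by intro z x; simp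
  add_mem' := by
    intro a b ha hb z x
    simp only [Pi.add_apply, ha z x, hb z x]; ring
  smul_mem' := by
    intro c a ha z x
    simp only [Pi.smul_apply, ha z x, smul_eq_mul]; ring

include hZ in
/-- right translation -/
theorem exists_rep : ∃ (n : ℕ) (r : X →* GL (Fin n) ℂ), (∀ z ∈ Z, r z ∈ center (GL (Fin n) ℂ)) ∧
    ∀ z : Z, r z = 1 → l z = 1 := by
  classical
  let ρ : X →* (V Z l →ₗ[ℂ] V Z l) :=
    { toFun := fun g =>
        { toFun := fun φ => ⟨fun x => (φ : X → ℂ) (x * g), by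
            intro z x
            show (φ : X → ℂ) (x * z * g) = l z * (φ : X → ℂ) (x * g)
            rw [mul_assoc, ← mem_center_iff.mp (hZ z.2) g, ← mul_assoc]
            exact φ.2 z (x * g)⟩
          map_add' := fun a b => rfl
          map_smul' := fun c a => rfl }
      map_one' := by
        ext φ x
        show (φ : X → ℂ) (x * 1) = (φ : X → ℂ) x
        rw [mul_one]
      map_mul' := fun a b => by
        ext φ x
        show (φ : X → ℂ) (x * (a * b)) = (φ : X → ℂ) (x * a * b)
        rw [mul_assoc] }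
  have hρz : ∀ z : Z, ρ z = (l z : ℂ) • (1 : Module.End ℂ (V Z l)) := by
    intro z
    ext φ x
    exact φ.2 z x
  let b := Module.finBasis ℂ (V Z l)
  let e := LinearMap.toMatrixAlgEquiv b
  let r : X →* GL (Fin (Module.finrank ℂ (V Z l))) ℂ :=
    (Units.map (e : Module.End ℂ (V Z l) →* _)).comp (MonoidHom.toHomUnits ρ)
  have hr : ∀ g, ((r g : GL _ ℂ) : Matrix _ _ ℂ) = e (ρ g) := fun g => rfl
  refine ⟨_, r, ?_, ?_⟩
  · intro z hz
    rw [Matrix.GeneralLinearGroup.mem_center_iff_val_mem_range_scalar, hr, hρz ⟨z, hz⟩, map_smul, map_one]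
    refine ⟨l ⟨z, hz⟩, ?_⟩
    rw [Matrix.scalar_apply, Matrix.smul_one_eq_diagonal]
  · intro z hz
    have h1 : e (ρ z) = 1 := by rw [← hr, hz]; rfl
    have h2 : ρ z = 1 := by
      apply e.injective; rw [h1, map_one]
    let φ₀ : V Z l := ⟨fun x => if h : x ∈ Z then (l ⟨x, h⟩ : ℂ) else 0, by
      intro z x
      by_cases hx : x ∈ Z
      · have hxz : x * z ∈ Z := mul_mem hx z.2
        show (if h : x * z ∈ Z then (l ⟨x * z, h⟩ : ℂ) else 0) = l z * (if h : x ∈ Z then (l ⟨x, h⟩ : ℂ) else 0)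
        rw [dif_pos hx, dif_pos hxz]
        have : (⟨x * z, hxz⟩ : Z) = z * ⟨x, hx⟩ := by
          apply Subtype.ext
          exact mem_center_iff.mp (hZ z.2) x
        rw [this, map_mul, Units.val_mul]
      · have hxz : x * z ∉ Z := by
          intro h; apply hx
          have := mul_mem h (inv_mem z.2)
          rwa [mul_inv_cancel_right] at this
        show (if h : x * z ∈ Z then (l ⟨x * z, h⟩ : ℂ) else 0) = l z * (if h : x ∈ Z then (l ⟨x, h⟩ : ℂ) else 0)
        rw [dif_neg hx, dif_neg hxz, mul_zero]⟩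
    have h3 : ((ρ z φ₀ : V Z l) : X → ℂ) 1 = (φ₀ : X → ℂ) 1 := by rw [h2]; rfl
    rw [hρz z] at h3
    have h4 : (φ₀ : X → ℂ) 1 = 1 := by
      show (if h : (1 : X) ∈ Z then (l ⟨1, h⟩ : ℂ) else 0) = 1
      rw [dif_pos (one_mem _)]
      have : (⟨1, one_mem _⟩ : Z) = 1 := rfl
      rw [this, map_one, Units.val_one]
    have h5 : (l z : ℂ) * (φ₀ : X → ℂ) 1 = (φ₀ : X → ℂ) 1 := h3
    rw [h4, mul_one] at h5
    exact Units.ext h5

end ind

/-- Let `σ : Γ →* Q` be a finite stem extension of the finite group `Q` such that every homomorphism from `Q` to the quotient of `GL n ℂ` by its centre, for every `n`, lifts along `σ` to a homomorphism `Γ →* GL n ℂ`. Then `σ` is a Schur covering group of `Q`: for every finite stem extension `τ : Δ →* Q` with `Δ` in the same universe as `Q`, the kernel of `τ` is a homomorphic image of the kernel of `σ`. -/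
theorem result {Q : Type u} [Group Q] [Finite Q] {Γ : Type v} [Group Γ] [Finite Γ] (σ : Γ →* Q) (hσ : Cfsg.IsStemExtension σ) (hlift : ∀ (n : ℕ) (γ : Q →* (GL (Fin n) ℂ ⧸ Subgroup.center (GL (Fin n) ℂ))), ∃ ρ : Γ →* GL (Fin n) ℂ, (QuotientGroup.mk' (Subgroup.center (GL (Fin n) ℂ))).comp ρ = γ.comp σ) (Δ : Type u) [Group Δ] [Finite Δ] (τ : Δ →* Q) (hτ : Cfsg.IsStemExtension τ) : ∃ π : σ.ker →* τ.ker, Function.Surjective π := by
  let f := can Q
  have hf : Function.Surjective f := can_surjective Q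
  obtain ⟨g, hg⟩ := exists_lift_E f σ hσ.1 hσ.2.1 (MonoidHom.id Q)
  have hg' : σ.comp g = π f := by rw [hg]; rfl
  have hinj : Function.Injective (tr f σ g hg') := by
    rw [injective_iff_map_eq_one]
    intro m hm
    by_contra hne
    have hgm : g (m : E f) = 1 := congrArg Subtype.val hm
    obtain ⟨l', hl'⟩ := CommGroup.exists_apply_ne_one_of_hasEnoughRootsOfUnity (M f) ℂ hne
    obtain ⟨K, hK, hKM', hKM⟩ := exists_compl f (π f).ker le_rfl (sup_eq_left.mpr (M_le_ker f))
    have hn : K.Normal := normal_of_le hK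
    have hfin := finite_quot hK hKM hKM'
    let e := MulEquiv.ofBijective _ (θ_bij hK hKM hKM')
    have hst := σ_stem hK hf hKM
    obtain ⟨n, r, hr1, hr2⟩ := exists_rep (H22.Schur.σ K hK).ker hst.2.1 (l'.comp e.symm.toMonoidHom)
    let q := QuotientGroup.mk' (center (GL (Fin n) ℂ))
    have hqk : q.ker = center (GL (Fin n) ℂ) := QuotientGroup.ker_mk' _
    let γ : Q →* (GL (Fin n) ℂ ⧸ Subgroup.center (GL (Fin n) ℂ)) :=
      (MonoidHom.liftOfSurjective (H22.Schur.σ K hK) hst.1) ⟨q.comp r, by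
        intro x hx
        rw [MonoidHom.mem_ker, MonoidHom.comp_apply, ← MonoidHom.mem_ker, hqk]
        exact hr1 x hx⟩
    have hγ : ∀ x, γ (H22.Schur.σ K hK x) = q (r x) := fun x =>
      MonoidHom.liftOfRightInverse_comp_apply _ _ _ _ _
    obtain ⟨ρ, hρ⟩ := hlift n γ
    have key := lift_eq_on_comm q hqk.le (r.comp (QuotientGroup.mk' K)) (ρ.comp g) (by
      refine MonoidHom.ext (fun x => ?_)
      have h1 := DFunLike.congr_fun hρ (g x)
      have h2 := DFunLike.congr_fun hg' x
      simp only [MonoidHom.comp_apply] at h1 h2 ⊢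
      rw [h1, h2]
      exact (hγ _).symm) m (M_le_comm f m.2)
    simp only [MonoidHom.comp_apply] at key
    rw [hgm, map_one] at key
    have h3 := hr2 (e m) key
    rw [MonoidHom.comp_apply] at h3
    have h4 : e.symm.toMonoidHom (e m) = m := e.symm_apply_apply m
    rw [h4] at h3
    exact hl' h3
  let e := MulEquiv.ofBijective (tr f σ g hg') ⟨hinj, tr_surjective f hf σ hσ g hg'⟩
  obtain ⟨p, hp⟩ := exists_surj f hf τ hτ
  exact ⟨p.comp e.symm.toMonoidHom, hp.comp e.symm.surjective⟩

end Cfsg.Agent.S3956
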