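import Cfsg.Statements.S3957
import Cfsg.Agent.H22_Schur

set_option autoImplicit false
open Cfsg

namespace Cfsg.Agent.S3957

open Subgroup H22.Schur
open scoped commutatorElement

universe u v

/-- Let `Q` be a finite group with Schur multiplier `A` and let `τ : Δ →* Q` be a finite stem extension, `Δ` in the universe of `Q`. Then there is a finite stem extension `σ : Γ →* Q` with kernel isomorphic to `A` (a Schur covering group) and a surjective homomorphism `β : Γ →* Δ` with `τ ∘ β = σ`. -/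
theorem result {Q : Type u} [Group Q] [Finite Q] {A : Type v} [CommGroup A] (hA : Cfsg.HasSchurMultiplier Q A) {Δ : Type u} [Group Δ] [Finite Δ] (τ : Δ →* Q) (hτ : Cfsg.IsStemExtension τ) : ∃ (Γ : Type u) (_ : Group Γ) (_ : Finite Γ) (σ : Γ →* Q), Cfsg.IsStemExtension σ ∧ Nonempty (σ.ker ≃* A) ∧ ∃ β : Γ →* Δ, Function.Surjective β ∧ τ.comp β = σ := by
  let f := can Q
  have hf : Function.Surjective f := can_surjective Q
  obtain ⟨eA⟩ := exists_equiv f hf hA
  obtain ⟨g, hg⟩ := exists_lift_E f τ hτ.1 hτ.2.1 (MonoidHom.id Q)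
  have hg' : τ.comp g = π f := by rw [hg]; rfl
  have hgk : g.ker ≤ (π f).ker := by
    intro x hx
    rw [MonoidHom.mem_ker, ← hg', MonoidHom.comp_apply, MonoidHom.mem_ker.mp hx, map_one]
  have hsup : g.ker ⊔ M f = (π f).ker := by
    apply le_antisymm (sup_le hgk (M_le_ker f))
    intro x hx
    have h1 : g x ∈ τ.ker := by
      rw [MonoidHom.mem_ker, ← MonoidHom.comp_apply, hg']; exact hx
    obtain ⟨m, hm, hmx⟩ := lift_ker_surj f hf τ hτ g hg' _ h1
    have : x = (x * m⁻¹) * m := by group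
    rw [this]
    refine mul_mem (mem_sup_left ?_) (mem_sup_right hm)
    rw [MonoidHom.mem_ker, map_mul, map_inv, hmx, mul_inv_cancel]
  obtain ⟨K, hKL, hKM', hKM⟩ := exists_compl f g.ker hgk hsup
  have hK : K ≤ (π f).ker := hKL.trans hgk
  have hn : K.Normal := normal_of_le hK
  refine ⟨E f ⧸ K, inferInstance, finite_quot hK hKM hKM', σ K hK, σ_stem hK hf hKM,
    ⟨(MulEquiv.ofBijective _ (θ_bij hK hKM hKM')).symm.trans eA.symm⟩, QuotientGroup.lift K g (fun x hx => hKL hx), ?_, ?_⟩
  · intro d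
    obtain ⟨x, rfl⟩ := lift_surj (π f) (π_surjective f hf) τ hτ g hg' d
    exact ⟨QuotientGroup.mk' K x, rfl⟩
  · refine MonoidHom.ext (fun x => ?_)
    obtain ⟨x, rfl⟩ := QuotientGroup.mk'_surjective K x
    exact DFunLike.congr_fun hg' x

end Cfsg.Agent.S3957
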