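import Cfsg.Statements.S3958
import Cfsg.Agent.H22_Schur

set_option autoImplicit false
open Cfsg

namespace Cfsg.Agent.S3958

open Subgroup H22.Schur
open scoped commutatorElement

universe u v

/-- Let `σ : Γ →* Q` be a finite stem extension of the finite group `Q` with `Γ` of trivial Schur multiplier. Then `σ` is a Schur covering group of `Q`: for every finite stem extension `τ : Δ →* Q` with `Δ` in the same universe as `Q`, the kernel of `τ` is a homomorphic image of the kernel of `σ`. -/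
theorem result {Q : Type u} [Group Q] [Finite Q] {Γ : Type v} [Group Γ] [Finite Γ] (σ : Γ →* Q) (hσ : Cfsg.IsStemExtension σ) (hΓ : Cfsg.HasCyclicSchurMultiplier Γ 1) (Δ : Type u) [Group Δ] [Finite Δ] (τ : Δ →* Q) (hτ : Cfsg.IsStemExtension τ) : ∃ π : σ.ker →* τ.ker, Function.Surjective π := by
  let f₀ := can Γ
  have hf₀ : Function.Surjective f₀ := can_surjective Γ
  let f : FreeGroup Γ →* Q := σ.comp f₀
  have hf : Function.Surjective f := hσ.1.comp hf₀
  have hM₀ : M f₀ = ⊥ := (M_eq_bot_iff f₀ hf₀).mpr hΓ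
  have hB : B f ≤ f₀.ker := by
    exact B_le_ker_lift f σ hσ.2.1 (MonoidHom.id Q) f₀ rfl
  let g : E f →* Γ := QuotientGroup.lift (B f) f₀ hB
  have hg : σ.comp g = π f := by
    ext x; rfl
  have hinj : Function.Injective (tr f σ g hg) := by
    rw [injective_iff_map_eq_one]
    rintro ⟨m, hm⟩ h
    obtain ⟨x, rfl⟩ := QuotientGroup.mk'_surjective _ m
    have h1 : f₀ x = 1 := congrArg Subtype.val h
    have h2 : QuotientGroup.mk' (B f₀) x ∈ M f₀ := (mk_mem_M f₀).mpr ⟨h1, ((mk_mem_M f).mp hm).2⟩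
    rw [hM₀, mem_bot] at h2
    have h3 : x ∈ B f₀ := (QuotientGroup.eq_one_iff _).mp h2
    have h4 : B f₀ ≤ B f := by
      apply commutator_mono _ le_rfl
      intro y hy
      show σ (f₀ y) = 1
      rw [MonoidHom.mem_ker.mp hy, map_one]
    exact Subtype.ext ((QuotientGroup.eq_one_iff _).mpr (h4 h3))
  let e := MulEquiv.ofBijective (tr f σ g hg) ⟨hinj, tr_surjective f hf σ hσ g hg⟩
  obtain ⟨p, hp⟩ := exists_surj f hf τ hτ
  exact ⟨p.comp e.symm.toMonoidHom, hp.comp e.symm.surjective⟩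

end Cfsg.Agent.S3958
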