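import Cfsg.Statements.S3959
import Cfsg.Agent.H22_Schur

set_option autoImplicit false
open Cfsg

namespace Cfsg.Agent.S3959

open Subgroup H22.Schur
open scoped commutatorElement TensorProduct

universe u v w

/-- twisted product `X × Y × T` -/
@[ext] structure KG (X : Type u) (Y : Type v) (T : Type w) [Group X] [Group Y] [AddCommGroup T] (β : X → Y → T) where
  x : X
  y : Y
  t : T

section KG
variable {X : Type u} {Y : Type v} {T : Type w} [Group X] [Group Y] [AddCommGroup T] {β : X → Y → T}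

/-- bimultiplicative -/
structure Bi (β : X → Y → T) : Prop where
  left : ∀ x x' y, β (x * x') y = β x y + β x' y
  right : ∀ x y y', β x (y * y') = β x y + β x y'

theorem Bi.one_left (h : Bi β) (y : Y) : β 1 y = 0 := by
  have := h.left 1 1 y
  rw [one_mul] at this
  exact left_eq_add.mp this

theorem Bi.one_right (h : Bi β) (x : X) : β x 1 = 0 := by
  have := h.right x 1 1
  rw [one_mul] at this
  exact left_eq_add.mp this

theorem Bi.inv_left (h : Bi β) (x : X) (y : Y) : β x⁻¹ y = - β x y := by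
  have := h.left x⁻¹ x y
  rw [inv_mul_cancel, h.one_left] at this
  exact eq_neg_of_add_eq_zero_left this.symm

/-- group structure -/
@[reducible] def grp (h : Bi β) : Group (KG X Y T β) where
  mul a b := ⟨a.x * b.x, a.y * b.y, a.t + b.t + β a.x b.y⟩
  one := ⟨1, 1, 0⟩
  inv a := ⟨a.x⁻¹, a.y⁻¹, - a.t + β a.x a.y⟩
  mul_assoc a b c := by
    apply KG.ext
    · exact mul_assoc _ _ _
    · exact mul_assoc _ _ _
    · show a.t + b.t + β a.x b.y + c.t + β (a.x * b.x) c.y = a.t + (b.t + c.t + β b.x c.y) + β a.x (b.y * c.y)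
      rw [h.left, h.right]; abel
  one_mul a := by
    apply KG.ext
    · exact one_mul _
    · exact one_mul _
    · show 0 + a.t + β 1 a.y = a.t
      rw [h.one_left]; abel
  mul_one a := by
    apply KG.ext
    · exact mul_one _
    · exact mul_one _
    · show a.t + 0 + β a.x 1 = a.t
      rw [h.one_right]; abel
  inv_mul_cancel a := by
    apply KG.ext
    · exact inv_mul_cancel _
    · exact inv_mul_cancel _
    · show - a.t + β a.x a.y + a.t + β a.x⁻¹ a.y = 0
      rw [h.inv_left]; abel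

instance [Finite X] [Finite Y] [Finite T] : Finite (KG X Y T β) :=
  Finite.of_injective (fun a => (a.x, a.y, a.t)) (by
    intro a b hab
    simp only [Prod.mk.injEq] at hab
    exact KG.ext hab.1 hab.2.1 hab.2.2)

end KG

theorem finite_tensor (A B : Type*) [AddCommGroup A] [AddCommGroup B] [Finite A] [Finite B] :
    Finite (TensorProduct ℤ A B) := by
  have h1 : Module.Finite ℤ A := Module.Finite.iff_addGroup_fg.mpr inferInstance
  have h2 : Module.Finite ℤ B := Module.Finite.iff_addGroup_fg.mpr inferInstance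
  have h3 := Module.Finite.tensorProduct ℤ A B
  refine @Module.finite_of_fg_torsion _ _ _ h3 ?_
  intro t
  have h3 : (Nat.card A : ℤ) ≠ 0 := by exact_mod_cast Nat.card_pos.ne'
  refine ⟨⟨(Nat.card A : ℤ), mem_nonZeroDivisors_of_ne_zero h3⟩, ?_⟩
  show (Nat.card A : ℤ) • t = 0
  induction t using TensorProduct.induction_on with
  | zero => simp
  | tmul a b =>
    rw [TensorProduct.smul_tmul', natCast_zsmul, card_nsmul_eq_zero', TensorProduct.zero_tmul]
  | add x y hx hy => rw [smul_add, hx, hy, add_zero]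

section lower

variable {X : Type u} {Y : Type v} {T : Type w} [Group X] [Group Y] [AddCommGroup T] {β : X → Y → T}
variable {Q₁ : Type u} {Q₂ : Type v} [Group Q₁] [Group Q₂]

theorem lower (h : Bi β) (σ₁ : X →* Q₁) (σ₂ : Y →* Q₂) (h₁ : IsStemExtension σ₁) (h₂ : IsStemExtension σ₂)
    (hβ₁ : ∀ x ∈ σ₁.ker, ∀ y, β x y = 0) (hβ₂ : ∀ x, ∀ y ∈ σ₂.ker, β x y = 0)
    (hgen : AddSubgroup.closure {t | ∃ x y, β x y = t} = ⊤) :
    letI := grp h
    ∃ σ : KG X Y T β →* Q₁ × Q₂, IsStemExtension σ ∧ Nonempty (σ.ker ≃* (σ₁.ker × σ₂.ker × Multiplicative T)) := by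
  letI := grp h
  have hmul : ∀ a b : KG X Y T β, a * b = ⟨a.x * b.x, a.y * b.y, a.t + b.t + β a.x b.y⟩ := fun a b => rfl
  let σ : KG X Y T β →* Q₁ × Q₂ := MonoidHom.mk' (fun a => (σ₁ a.x, σ₂ a.y)) (by
    intro a b
    rw [hmul]
    simp)
  have hker : ∀ a, a ∈ σ.ker ↔ a.x ∈ σ₁.ker ∧ a.y ∈ σ₂.ker := by
    intro a
    rw [MonoidHom.mem_ker]
    show (σ₁ a.x, σ₂ a.y) = (1, 1) ↔ _
    rw [Prod.mk.injEq]; rfl
  have hmin : ∀ a b c, (⟨a, b, c⟩ : KG X Y T β) = ⟨a, b, c⟩ := fun a b c => rfl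
  let iX : X →* KG X Y T β := MonoidHom.mk' (fun x => ⟨x, 1, 0⟩) (by
    intro a b; rw [hmul]; apply KG.ext <;> simp [h.one_right])
  let iY : Y →* KG X Y T β := MonoidHom.mk' (fun y => ⟨1, y, 0⟩) (by
    intro a b; rw [hmul]; apply KG.ext <;> simp [h.one_left])
  let iT : Multiplicative T →* KG X Y T β := MonoidHom.mk' (fun t => ⟨1, 1, t.toAdd⟩) (by
    intro a b; rw [hmul]; apply KG.ext <;> simp [h.one_left])
  have hcomm : ∀ x y, ⁅iX x, iY y⁆ = iT (Multiplicative.ofAdd (β x y)) := by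
    intro x y
    rw [commutatorElement_def]
    have : iX x * iY y = iT (Multiplicative.ofAdd (β x y)) * (iY y * iX x) := by
      show (⟨x, 1, 0⟩ : KG X Y T β) * ⟨1, y, 0⟩ = ⟨1, 1, β x y⟩ * (⟨1, y, 0⟩ * ⟨x, 1, 0⟩)
      rw [hmul, hmul, hmul]
      apply KG.ext <;> simp [h.one_left]
    rw [this]; group
  refine ⟨σ, ⟨?_, ?_, ?_⟩, ⟨?_⟩⟩
  · rintro ⟨a, b⟩
    obtain ⟨x, hx⟩ := h₁.1 a
    obtain ⟨y, hy⟩ := h₂.1 b
    exact ⟨⟨x, y, 0⟩, by show (σ₁ x, σ₂ y) = _; rw [hx, hy]⟩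
  · intro a ha
    rw [hker] at ha
    rw [mem_center_iff]
    intro b
    rw [hmul, hmul]
    apply KG.ext
    · exact mem_center_iff.mp (h₁.2.1 ha.1) b.x
    · exact mem_center_iff.mp (h₂.2.1 ha.2) b.y
    · show b.t + a.t + β b.x a.y = a.t + b.t + β a.x b.y
      rw [hβ₁ _ ha.1, hβ₂ _ _ ha.2, add_comm b.t]
  · intro a ha
    rw [hker] at ha
    have e1 : a = iX a.x * iY a.y * iT (Multiplicative.ofAdd a.t) := by
      show a = (⟨a.x, 1, 0⟩ : KG X Y T β) * ⟨1, a.y, 0⟩ * ⟨1, 1, a.t⟩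
      rw [hmul, hmul]
      apply KG.ext <;> simp [h.one_right, hβ₁ _ ha.1]
    rw [e1]
    have c1 : ∀ {Z : Type _} [Group Z] (i : Z →* KG X Y T β) (z : Z), z ∈ _root_.commutator Z →
        i z ∈ _root_.commutator (KG X Y T β) := by
      intro Z _ i z hz
      have : (_root_.commutator Z).map i ≤ _root_.commutator (KG X Y T β) := by
        rw [_root_.commutator_def, _root_.commutator_def, Subgroup.map_commutator]
        exact commutator_mono le_top le_top
      exact this ⟨z, hz, rfl⟩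
    refine mul_mem (mul_mem (c1 iX _ (h₁.2.2 ha.1)) ?_) ?_
    · have : (_root_.commutator Y).map iY ≤ _root_.commutator (KG X Y T β) := by
        rw [_root_.commutator_def, _root_.commutator_def, Subgroup.map_commutator]
        exact commutator_mono le_top le_top
      exact this ⟨_, h₂.2.2 ha.2, rfl⟩
    · let S : AddSubgroup T := (Subgroup.comap iT (_root_.commutator (KG X Y T β))).toAddSubgroup'
      have hS : S = ⊤ := by
        rw [eq_top_iff, ← hgen, AddSubgroup.closure_le]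
        rintro t ⟨x, y, rfl⟩
        show iT (Multiplicative.ofAdd (β x y)) ∈ _root_.commutator (KG X Y T β)
        rw [← hcomm, _root_.commutator_def]
        exact commutator_mem_commutator (mem_top _) (mem_top _)
      have : a.t ∈ S := by rw [hS]; trivial
      exact this
  · exact {
      toFun := fun a => (⟨a.1.x, ((hker a.1).mp a.2).1⟩, ⟨a.1.y, ((hker a.1).mp a.2).2⟩, Multiplicative.ofAdd a.1.t)
      invFun := fun b => ⟨⟨b.1, b.2.1, b.2.2.toAdd⟩, (hker _).mpr ⟨b.1.2, b.2.1.2⟩⟩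
      left_inv := fun a => rfl
      right_inv := fun b => rfl
      map_mul' := fun a b => by
        have hb := hβ₁ _ ((hker a.1).mp a.2).1 b.1.y
        apply Prod.ext
        · rfl
        · apply Prod.ext
          · rfl
          · show Multiplicative.ofAdd (a.1.t + b.1.t + β a.1.x b.1.y) = _
            rw [hb, add_zero]; rfl }

end lower

section upper

variable {Q₁ : Type u} {Q₂ : Type v} [Group Q₁] [Group Q₂] {Γ : Type w} [Group Γ]

theorem comm_mul_left' {G : Type*} [Group G] (a a' b : G) (h : ⁅a', b⁆ ∈ center G) : ⁅a * a', b⁆ = ⁅a, b⁆ * ⁅a', b⁆ := by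
  have h1 : ⁅a * a', b⁆ = a * ⁅a', b⁆ * a⁻¹ * ⁅a, b⁆ := by
    simp only [commutatorElement_def]; group
  rw [h1]
  have h2 := mem_center_iff.mp h a
  rw [h2, mul_inv_cancel_right]
  exact (mem_center_iff.mp h _).symm

theorem comm_mul_right' {G : Type*} [Group G] (a b b' : G) (h : ⁅a, b'⁆ ∈ center G) : ⁅a, b * b'⁆ = ⁅a, b⁆ * ⁅a, b'⁆ := by
  have h1 : ⁅a, b * b'⁆ = ⁅a, b⁆ * (b * ⁅a, b'⁆ * b⁻¹) := by
    simp only [commutatorElement_def]; group
  rw [h1]
  have h2 := mem_center_iff.mp h b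
  rw [h2, mul_inv_cancel_right]

theorem upper (σ : Γ →* Q₁ × Q₂) (hσ : IsStemExtension σ) [Finite Q₁] [Finite Q₂] :
    ∃ p : M (can Q₁) × M (can Q₂) × Multiplicative (TensorProduct ℤ (Additive (Abelianization Q₁))
      (Additive (Abelianization Q₂))) →* σ.ker, Function.Surjective p := by
  obtain ⟨hs, hc, hd⟩ := hσ
  -- kernel is commutative
  let iC : CommGroup σ.ker := { (inferInstance : Group σ.ker) with
    mul_comm := fun a b => Subtype.ext (mem_center_iff.mp (hc b.2) a) }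
  let Γ₁ : Subgroup Γ := ((MonoidHom.snd Q₁ Q₂).comp σ).ker
  let Γ₂ : Subgroup Γ := ((MonoidHom.fst Q₁ Q₂).comp σ).ker
  have hm₁ : ∀ a, a ∈ Γ₁ ↔ (σ a).2 = 1 := fun a => Iff.rfl
  have hm₂ : ∀ a, a ∈ Γ₂ ↔ (σ a).1 = 1 := fun a => Iff.rfl
  -- sections
  have hs₁ : ∀ q : Q₁, ∃ a : Γ, σ a = (q, 1) := fun q => hs _
  have hs₂ : ∀ q : Q₂, ∃ a : Γ, σ a = (1, q) := fun q => hs _
  choose s₁ hs₁ using hs₁
  choose s₂ hs₂ using hs₂
  have hcomm : ∀ a ∈ Γ₁, ∀ b ∈ Γ₂, ⁅a, b⁆ ∈ σ.ker := by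
    intro a ha b hb
    rw [hm₁] at ha
    rw [hm₂] at hb
    rw [MonoidHom.mem_ker, map_commutatorElement]
    apply Prod.ext
    · show ⁅(σ a).1, (σ b).1⁆ = 1
      rw [hb, commutatorElement_one_right]
    · show ⁅(σ a).2, (σ b).2⁆ = 1
      rw [ha, commutatorElement_one_left]
  have hcong : ∀ a a' b b', σ a = σ a' → σ b = σ b' → ⁅a, b⁆ = ⁅a', b'⁆ := by
    intro a a' b b' h1 h2
    have e1 : a = a' * (a'⁻¹ * a) := by group
    have e2 : b = b' * (b'⁻¹ * b) := by group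
    rw [e1, e2]
    refine comm_mul_central _ _ _ _ (hc ?_) (hc ?_)
    · rw [MonoidHom.mem_ker, map_mul, map_inv, h1, inv_mul_cancel]
    · rw [MonoidHom.mem_ker, map_mul, map_inv, h2, inv_mul_cancel]
  have hs₁' : ∀ q, s₁ q ∈ Γ₁ := fun q => by rw [hm₁, hs₁]
  have hs₂' : ∀ q, s₂ q ∈ Γ₂ := fun q => by rw [hm₂, hs₂]
  let κ : Q₁ → Q₂ → σ.ker := fun q₁ q₂ => ⟨⁅s₁ q₁, s₂ q₂⁆, hcomm _ (hs₁' _) _ (hs₂' _)⟩
  have hκ : ∀ q₁ q₂, (κ q₁ q₂ : Γ) = ⁅s₁ q₁, s₂ q₂⁆ := fun _ _ => rfl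
  let κ₁ : Q₁ → (Q₂ →* σ.ker) := fun q₁ => MonoidHom.mk' (κ q₁) (by
    intro a b
    apply Subtype.ext
    rw [Subgroup.coe_mul, hκ, hκ, hκ, ← comm_mul_right' _ _ _ (hc (hcomm _ (hs₁' _) _ (hs₂' _)))]
    apply hcong _ _ _ _ rfl
    rw [map_mul, hs₂, hs₂, hs₂]; simp)
  let κ₂ : Q₁ →* (Q₂ →* σ.ker) := MonoidHom.mk' κ₁ (by
    intro a b
    ext q
    show (κ (a * b) q : Γ) = ((κ a q * κ b q : σ.ker) : Γ)
    rw [Subgroup.coe_mul, hκ, hκ, hκ, ← comm_mul_left' _ _ _ (hc (hcomm _ (hs₁' _) _ (hs₂' _)))]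
    refine hcong _ _ _ _ ?_ rfl
    rw [map_mul, hs₁, hs₁, hs₁]; simp)
  let κ₃ : Q₁ →* (Abelianization Q₂ →* σ.ker) := MonoidHom.mk' (fun q => Abelianization.lift (κ₂ q)) (by
    intro a b
    apply Abelianization.hom_ext
    ext q
    simp)
  let κ₄ : Abelianization Q₁ →* (Abelianization Q₂ →* σ.ker) := Abelianization.lift κ₃
  have hκ₄ : ∀ q₁ q₂, κ₄ (Abelianization.of q₁) (Abelianization.of q₂) = κ q₁ q₂ := by
    intro q₁ q₂
    show Abelianization.lift κ₃ (Abelianization.of q₁) _ = _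
    rw [Abelianization.lift_apply_of]
    show Abelianization.lift (κ₂ q₁) (Abelianization.of q₂) = _
    rw [Abelianization.lift_apply_of]; rfl
  let f : Additive (Abelianization Q₁) →+ (Additive (Abelianization Q₂) →+ Additive σ.ker) := AddMonoidHom.mk'
    (fun m => MonoidHom.toAdditive (κ₄ m.toMul)) (by
      intro a b
      refine AddMonoidHom.ext (fun x => ?_)
      exact DFunLike.congr_fun (map_mul κ₄ a.toMul b.toMul) x.toMul)
  let ψ : TensorProduct ℤ (Additive (Abelianization Q₁)) (Additive (Abelianization Q₂)) →+ Additive σ.ker :=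
    TensorProduct.liftAddHom f (by
      intro r m n
      rw [map_zsmul, map_zsmul]; rfl)
  have hψ : ∀ q₁ q₂, ψ (Additive.ofMul (Abelianization.of q₁) ⊗ₜ Additive.ofMul (Abelianization.of q₂)) =
      Additive.ofMul (κ q₁ q₂) := by
    intro q₁ q₂
    rw [← hκ₄]; rfl
  -- maps from multipliers
  have h1 : ∃ μ : M (can Q₁) →* σ.ker, ∀ z ∈ ⁅Γ₁, Γ₁⁆, z ∈ σ.ker → ∃ m, (μ m : Γ) = z := by
    let τ : Γ₁ →* Q₁ := (MonoidHom.fst Q₁ Q₂).comp (σ.comp Γ₁.subtype)
    have hτs : Function.Surjective τ := by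
      intro q
      exact ⟨⟨s₁ q, hs₁' q⟩, by show (σ (s₁ q)).1 = q; rw [hs₁]⟩
    have hτk : ∀ x : Γ₁, x ∈ τ.ker ↔ (x : Γ) ∈ σ.ker := by
      intro x
      have hx := (hm₁ x).mp x.2
      constructor
      · intro h; exact Prod.ext h hx
      · intro h
        have h : σ (x : Γ) = 1 := h
        show (σ (x : Γ)).1 = 1
        rw [h]; rfl
    have hτc : τ.ker ≤ center Γ₁ := by
      intro x hx
      rw [mem_center_iff]
      intro y
      exact Subtype.ext (mem_center_iff.mp (hc ((hτk x).mp hx)) y)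
    obtain ⟨g, hg⟩ := exists_lift_E (can Q₁) τ hτs hτc (MonoidHom.id Q₁)
    have hg' : τ.comp g = π (can Q₁) := by rw [hg]; rfl
    let μ := tr (can Q₁) τ g hg'
    let ι : τ.ker →* σ.ker := MonoidHom.mk' (fun x => ⟨x.1.1, (hτk x.1).mp x.2⟩) (fun a b => rfl)
    refine ⟨ι.comp μ, ?_⟩
    intro z hz hzk
    have h2 : ⁅Γ₁, Γ₁⁆ ≤ Γ₁ := Subgroup.commutator_le_self _
    have h3 : (⟨z, h2 hz⟩ : Γ₁) ∈ _root_.commutator Γ₁ := by
      have h4 : (_root_.commutator Γ₁).map Γ₁.subtype = ⁅Γ₁, Γ₁⁆ := by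
        rw [_root_.commutator_def, Subgroup.map_commutator, ← MonoidHom.range_eq_map, Subgroup.range_subtype]
      rw [← h4] at hz
      obtain ⟨y, hy, hyz⟩ := hz
      have : y = ⟨z, h2 hz⟩ := Subtype.ext hyz
      rw [← this]; exact hy
    obtain ⟨m, hm, hmz⟩ := lift_comm_surj (can Q₁) (can_surjective Q₁) τ hτc g hg' ⟨z, h2 hz⟩
      ((hτk _).mpr hzk) h3
    exact ⟨⟨m, hm⟩, congrArg Subtype.val hmz⟩
  have h2 : ∃ μ : M (can Q₂) →* σ.ker, ∀ z ∈ ⁅Γ₂, Γ₂⁆, z ∈ σ.ker → ∃ m, (μ m : Γ) = z := by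
    let τ : Γ₂ →* Q₂ := (MonoidHom.snd Q₁ Q₂).comp (σ.comp Γ₂.subtype)
    have hτs : Function.Surjective τ := by
      intro q
      exact ⟨⟨s₂ q, hs₂' q⟩, by show (σ (s₂ q)).2 = q; rw [hs₂]⟩
    have hτk : ∀ x : Γ₂, x ∈ τ.ker ↔ (x : Γ) ∈ σ.ker := by
      intro x
      have hx := (hm₂ x).mp x.2
      constructor
      · intro h; exact Prod.ext hx h
      · intro h
        have h : σ (x : Γ) = 1 := h
        show (σ (x : Γ)).2 = 1
        rw [h]; rfl
    have hτc : τ.ker ≤ center Γ₂ := by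
      intro x hx
      rw [mem_center_iff]
      intro y
      exact Subtype.ext (mem_center_iff.mp (hc ((hτk x).mp hx)) y)
    obtain ⟨g, hg⟩ := exists_lift_E (can Q₂) τ hτs hτc (MonoidHom.id Q₂)
    have hg' : τ.comp g = π (can Q₂) := by rw [hg]; rfl
    let μ := tr (can Q₂) τ g hg'
    let ι : τ.ker →* σ.ker := MonoidHom.mk' (fun x => ⟨x.1.1, (hτk x.1).mp x.2⟩) (fun a b => rfl)
    refine ⟨ι.comp μ, ?_⟩
    intro z hz hzk
    have h2 : ⁅Γ₂, Γ₂⁆ ≤ Γ₂ := Subgroup.commutator_le_self _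
    have h3 : (⟨z, h2 hz⟩ : Γ₂) ∈ _root_.commutator Γ₂ := by
      have h4 : (_root_.commutator Γ₂).map Γ₂.subtype = ⁅Γ₂, Γ₂⁆ := by
        rw [_root_.commutator_def, Subgroup.map_commutator, ← MonoidHom.range_eq_map, Subgroup.range_subtype]
      rw [← h4] at hz
      obtain ⟨y, hy, hyz⟩ := hz
      have : y = ⟨z, h2 hz⟩ := Subtype.ext hyz
      rw [← this]; exact hy
    obtain ⟨m, hm, hmz⟩ := lift_comm_surj (can Q₂) (can_surjective Q₂) τ hτc g hg' ⟨z, h2 hz⟩
      ((hτk _).mpr hzk) h3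
    exact ⟨⟨m, hm⟩, congrArg Subtype.val hmz⟩
  obtain ⟨μ₁, hμ₁⟩ := h1
  obtain ⟨μ₂, hμ₂⟩ := h2
  let ψ' : Multiplicative (TensorProduct ℤ (Additive (Abelianization Q₁)) (Additive (Abelianization Q₂))) →* σ.ker :=
    AddMonoidHom.toMultiplicativeLeft ψ
  refine ⟨MonoidHom.mk' (fun x => μ₁ x.1 * μ₂ x.2.1 * ψ' x.2.2) ?_, ?_⟩
  · intro a b
    simp only [Prod.fst_mul, Prod.snd_mul, map_mul]
    generalize μ₁ a.1 = x1
    generalize μ₁ b.1 = x2
    generalize μ₂ a.2.1 = x3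
    generalize μ₂ b.2.1 = x4
    generalize ψ' a.2.2 = x5
    generalize ψ' b.2.2 = x6
    calc x1 * x2 * (x3 * x4) * (x5 * x6) = x1 * (x2 * x3) * x4 * (x5 * x6) := by group
      _ = x1 * (x3 * x2) * x4 * (x5 * x6) := by rw [mul_comm x2 x3]
      _ = x1 * x3 * ((x2 * x4) * x5) * x6 := by group
      _ = x1 * x3 * (x5 * (x2 * x4)) * x6 := by rw [mul_comm (x2 * x4) x5]
      _ = _ := by group
  · -- the big subgroup
    let T : Subgroup Γ := ψ'.range.map σ.ker.subtype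
    have hTc : T ≤ σ.ker := by
      rintro x ⟨y, _, rfl⟩; exact y.2
    have hTn : T.Normal := by
      constructor
      intro n hn g
      have := mem_center_iff.mp (hc (hTc hn)) g
      rw [this]; simpa using hn
    have hn₁ : Γ₁.Normal := MonoidHom.normal_ker _
    have hn₂ : Γ₂.Normal := MonoidHom.normal_ker _
    let H : Subgroup Γ := ⁅Γ₁, Γ₁⁆ ⊔ ⁅Γ₂, Γ₂⁆ ⊔ T
    have hHn : H.Normal := by infer_instance
    have hTcomm : ∀ a ∈ Γ₁, ∀ b ∈ Γ₂, ⁅a, b⁆ ∈ T := by
      intro a ha b hb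
      rw [hm₁] at ha
      rw [hm₂] at hb
      have e1 : ⁅a, b⁆ = ⁅s₁ (σ a).1, s₂ (σ b).2⁆ := by
        apply hcong
        · rw [hs₁]; exact Prod.ext rfl ha
        · rw [hs₂]; exact Prod.ext hb rfl
      rw [e1, ← hκ]
      refine ⟨κ _ _, ⟨Multiplicative.ofAdd (Additive.ofMul (Abelianization.of (σ a).1) ⊗ₜ
        Additive.ofMul (Abelianization.of (σ b).2)), ?_⟩, rfl⟩
      show Additive.toMul (ψ _) = _
      exact congrArg Additive.toMul (hψ _ _)
    have hsup : Γ₁ ⊔ Γ₂ = ⊤ := by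
      rw [eq_top_iff]
      intro x _
      have e1 : x = s₁ (σ x).1 * ((s₁ (σ x).1)⁻¹ * x) := by group
      rw [e1]
      refine mul_mem (mem_sup_left (hs₁' _)) (mem_sup_right ?_)
      rw [hm₂, map_mul, map_inv, hs₁]; simp
    have hH : _root_.commutator Γ ≤ H := by
      have key : ∀ (A B : Subgroup Γ), ⁅A, B⁆ ≤ H → B.map (QuotientGroup.mk' H) ≤
          centralizer (A.map (QuotientGroup.mk' H) : Set (Γ ⧸ H)) := by
        intro A B hAB
        rintro x ⟨b, hb, rfl⟩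
        rw [mem_centralizer_iff]
        rintro y ⟨a, ha, rfl⟩
        rw [← map_mul, ← map_mul]
        have h5 : ⁅a, b⁆ ∈ H := hAB (commutator_mem_commutator ha hb)
        have h6 : ⁅a, b⁆ * (b * a) = a * b := by rw [commutatorElement_def]; group
        rw [← h6, map_mul]
        have h7 : QuotientGroup.mk' H ⁅a, b⁆ = 1 := (QuotientGroup.eq_one_iff _).mpr h5
        rw [h7, one_mul]
      have c11 : ⁅Γ₁, Γ₁⁆ ≤ H := le_sup_left.trans le_sup_left
      have c22 : ⁅Γ₂, Γ₂⁆ ≤ H := le_sup_right.trans le_sup_left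
      have c12 : ⁅Γ₁, Γ₂⁆ ≤ H := by
        refine le_trans ?_ (le_sup_right : T ≤ H)
        rw [Subgroup.commutator_le]; exact hTcomm
      have c21 : ⁅Γ₂, Γ₁⁆ ≤ H := by rw [Subgroup.commutator_comm]; exact c12
      have k11 := key _ _ c11
      have k12 := key _ _ c12
      have k21 := key _ _ c21
      have k22 := key _ _ c22
      have t : Γ₁.map (QuotientGroup.mk' H) ⊔ Γ₂.map (QuotientGroup.mk' H) = ⊤ := by
        rw [← Subgroup.map_sup, hsup, Subgroup.map_top_of_surjective _ (QuotientGroup.mk'_surjective _)]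
      have k1 : Γ₁.map (QuotientGroup.mk' H) ≤ center (Γ ⧸ H) := by
        rw [← Subgroup.centralizer_univ, ← Subgroup.coe_top, ← t, Subgroup.le_centralizer_iff]
        refine sup_le ?_ ?_
        · exact k11
        · exact k12
      have k2 : Γ₂.map (QuotientGroup.mk' H) ≤ center (Γ ⧸ H) := by
        rw [← Subgroup.centralizer_univ, ← Subgroup.coe_top, ← t, Subgroup.le_centralizer_iff]
        refine sup_le ?_ ?_
        · exact k21
        · exact k22
      have k : center (Γ ⧸ H) = ⊤ := by rw [eq_top_iff, ← t]; exact sup_le k1 k2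
      rw [_root_.commutator_def, Subgroup.commutator_le]
      intro a _ b _
      rw [← QuotientGroup.eq_one_iff]
      show QuotientGroup.mk' H ⁅a, b⁆ = 1
      rw [map_commutatorElement, commutatorElement_eq_one_iff_mul_comm]
      have : QuotientGroup.mk' H b ∈ center (Γ ⧸ H) := by rw [k]; trivial
      exact mem_center_iff.mp this _
    rintro ⟨z, hz⟩
    have hzH : z ∈ H := hH (hd hz)
    obtain ⟨ab, hab, t, ht, rfl⟩ := Subgroup.mem_sup_of_normal_right.mp hzH
    obtain ⟨a, ha, b, hb, rfl⟩ := Subgroup.mem_sup_of_normal_right.mp hab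
    have htk := hTc ht
    have habk : σ (a * b) = 1 := by
      have : a * b = (a * b * t) * t⁻¹ := by group
      rw [this, map_mul, map_inv, MonoidHom.mem_ker.mp hz, MonoidHom.mem_ker.mp htk]; simp
    have ha1 : (σ a).2 = 1 := (hm₁ a).mp (Subgroup.commutator_le_self _ ha)
    have hb1 : (σ b).1 = 1 := (hm₂ b).mp (Subgroup.commutator_le_self _ hb)
    rw [map_mul] at habk
    have ha2 : (σ a).1 = 1 := by
      have := congrArg Prod.fst habk
      rw [Prod.fst_mul, hb1, mul_one] at this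
      exact this
    have hb2 : (σ b).2 = 1 := by
      have := congrArg Prod.snd habk
      rw [Prod.snd_mul, ha1, one_mul] at this
      exact this
    obtain ⟨m₁, hm₁⟩ := hμ₁ a ha (Prod.ext ha2 ha1)
    obtain ⟨m₂, hm₂⟩ := hμ₂ b hb (Prod.ext hb1 hb2)
    obtain ⟨y, ⟨w, rfl⟩, hyt⟩ := ht
    refine ⟨(m₁, m₂, w), Subtype.ext ?_⟩
    show (μ₁ m₁ : Γ) * (μ₂ m₂ : Γ) * (ψ' w : Γ) = a * b * t
    rw [hm₁, hm₂, ← hyt]; rfl

end upper

/-- Let `Q₁` and `Q₂` be finite groups with Schur multipliers `A` and `B`. Then the Schur multiplier of `Q₁ × Q₂` is isomorphic to `A × B × (Q₁ᵃᵇ ⊗ Q₂ᵃᵇ)`, the last factor being the tensor product over the integers of the commutator quotients, written multiplicatively. -/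
theorem result {Q₁ : Type u} {Q₂ : Type v} [Group Q₁] [Group Q₂] [Finite Q₁] [Finite Q₂] {A B : Type w} [CommGroup A] [CommGroup B] (hA : Cfsg.HasSchurMultiplier Q₁ A) (hB : Cfsg.HasSchurMultiplier Q₂ B) : Cfsg.HasSchurMultiplier (Q₁ × Q₂) (A × B × Multiplicative (TensorProduct ℤ (Additive (Abelianization Q₁)) (Additive (Abelianization Q₂)))) := by
  obtain ⟨eA⟩ := exists_equiv (can Q₁) (can_surjective Q₁) hA
  obtain ⟨eB⟩ := exists_equiv (can Q₂) (can_surjective Q₂) hB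
  have : Finite (Additive (Abelianization Q₁)) := inferInstanceAs (Finite (Abelianization Q₁))
  have : Finite (Additive (Abelianization Q₂)) := inferInstanceAs (Finite (Abelianization Q₂))
  have := finite_tensor (Additive (Abelianization Q₁)) (Additive (Abelianization Q₂))
  refine ⟨?_, ?_⟩
  · obtain ⟨⟨X, _, _, σ₁, h₁, ⟨e₁⟩⟩, _⟩ := hA
    obtain ⟨⟨Y, _, _, σ₂, h₂, ⟨e₂⟩⟩, _⟩ := hB
    let β : X → Y → TensorProduct ℤ (Additive (Abelianization Q₁)) (Additive (Abelianization Q₂)) :=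
      fun x y => Additive.ofMul (Abelianization.of (σ₁ x)) ⊗ₜ Additive.ofMul (Abelianization.of (σ₂ y))
    have hβ : Bi β := by
      constructor
      · intro x x' y
        show Additive.ofMul (Abelianization.of (σ₁ (x * x'))) ⊗ₜ _ = _
        rw [map_mul, map_mul, ofMul_mul, TensorProduct.add_tmul]
      · intro x y y'
        show _ ⊗ₜ Additive.ofMul (Abelianization.of (σ₂ (y * y'))) = _
        rw [map_mul, map_mul, ofMul_mul, TensorProduct.tmul_add]
    have c1 : ∀ x ∈ σ₁.ker, ∀ y, β x y = 0 := by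
      intro x hx y
      show Additive.ofMul (Abelianization.of (σ₁ x)) ⊗ₜ _ = _
      rw [MonoidHom.mem_ker.mp hx, map_one, ofMul_one, TensorProduct.zero_tmul]
    have c2 : ∀ x, ∀ y ∈ σ₂.ker, β x y = 0 := by
      intro x y hy
      show _ ⊗ₜ Additive.ofMul (Abelianization.of (σ₂ y)) = _
      rw [MonoidHom.mem_ker.mp hy, map_one, ofMul_one, TensorProduct.tmul_zero]
    have c3 : AddSubgroup.closure {t | ∃ x y, β x y = t} = ⊤ := by
      rw [eq_top_iff]
      intro t _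
      induction t using TensorProduct.induction_on with
      | zero => exact zero_mem _
      | tmul a b =>
        apply AddSubgroup.subset_closure
        obtain ⟨q₁, hq₁⟩ := QuotientGroup.mk_surjective (a.toMul)
        obtain ⟨q₂, hq₂⟩ := QuotientGroup.mk_surjective (b.toMul)
        obtain ⟨x, hx⟩ := h₁.1 q₁
        obtain ⟨y, hy⟩ := h₂.1 q₂
        refine ⟨x, y, ?_⟩
        show Additive.ofMul (Abelianization.of (σ₁ x)) ⊗ₜ Additive.ofMul (Abelianization.of (σ₂ y)) = _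
        have e1 : (Abelianization.of (σ₁ x)) = a.toMul := by rw [hx, ← hq₁]; rfl
        have e2 : (Abelianization.of (σ₂ y)) = b.toMul := by rw [hy, ← hq₂]; rfl
        rw [e1, e2]; rfl
      | add a b ha hb => exact add_mem (ha trivial) (hb trivial)
    obtain ⟨σ, hσ, ⟨e⟩⟩ := lower hβ σ₁ σ₂ h₁ h₂ c1 c2 c3
    let _ := grp hβ
    exact ⟨KG X Y _ β, grp hβ, inferInstance, σ, hσ, ⟨e.trans (MulEquiv.prodCongr e₁ (MulEquiv.prodCongr e₂ (MulEquiv.refl _)))⟩⟩
  · intro Γ _ _ σ hσ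
    obtain ⟨p, hp⟩ := upper σ hσ
    let e := MulEquiv.prodCongr eA (MulEquiv.prodCongr eB (MulEquiv.refl (Multiplicative (TensorProduct ℤ (Additive (Abelianization Q₁)) (Additive (Abelianization Q₂))))))
    exact ⟨p.comp e.toMonoidHom, hp.comp e.surjective⟩

end Cfsg.Agent.S3959
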