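import Cfsg.Statements.S3960
import Cfsg.Agent.H22_Schur

set_option autoImplicit false
open Cfsg

namespace Cfsg.Agent.S3960

open Subgroup H22.Schur
open scoped commutatorElement

universe u

/-- A finite perfect group `Q` has a universal central extension: a finite perfect group `G` in the universe of `Q` and a surjective homomorphism `π : G →* Q` with central kernel such that for every group `X` in that universe and every surjective homomorphism `ξ : X →* Q` with central kernel there is exactly one homomorphism `η : G →* X` with `ξ ∘ η = π`. -/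
theorem result {Q : Type u} [Group Q] [Finite Q] (hQ : Group.IsPerfect Q) : ∃ (G : Type u) (_ : Group G) (_ : Finite G) (π : G →* Q), Group.IsPerfect G ∧ Function.Surjective π ∧ π.ker ≤ Subgroup.center G ∧ ∀ (X : Type u) [Group X] (ξ : X →* Q), Function.Surjective ξ → ξ.ker ≤ Subgroup.center X → ∃! η : G →* X, ξ.comp η = π := by
  let f := can Q
  have hf : Function.Surjective f := can_surjective Q
  let C : Subgroup (E f) := _root_.commutator (E f)
  let p : C →* Q := (π f).comp C.subtype
  have hmapC : C.map (π f) = ⊤ := by
    show (_root_.commutator (E f)).map (π f) = ⊤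
    rw [_root_.commutator_def, Subgroup.map_commutator, Subgroup.map_top_of_surjective _ (π_surjective f hf),
      ← _root_.commutator_def, hQ.commutator_eq_top]
  have hps : Function.Surjective p := by
    intro q
    have : q ∈ C.map (π f) := by rw [hmapC]; trivial
    obtain ⟨c, hc, rfl⟩ := this
    exact ⟨⟨c, hc⟩, rfl⟩
  have hsup : C ⊔ (π f).ker = ⊤ := by
    rw [← Subgroup.comap_map_eq, hmapC, Subgroup.comap_top]
  have hCC : ⁅C, C⁆ = C := by
    apply le_antisymm (Subgroup.commutator_le_self _)
    exact comm_le_of_sup_central C (π f).ker (ker_π_le_center f) hsup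
  have hperf : _root_.commutator C = ⊤ := by
    apply Subgroup.map_injective C.subtype_injective
    rw [_root_.commutator_def, Subgroup.map_commutator, ← MonoidHom.range_eq_map, Subgroup.range_subtype, hCC]
  refine ⟨C, inferInstance, finite_comm f, p, ⟨hperf⟩, hps, ?_, ?_⟩
  · intro x hx
    rw [mem_center_iff]
    intro y
    exact Subtype.ext (mem_center_iff.mp (ker_π_le_center f hx) y)
  · intro X _ ξ hξ hc
    obtain ⟨g, hg⟩ := exists_lift_E f ξ hξ hc (MonoidHom.id Q)
    have hg' : ξ.comp g = π f := by rw [hg]; rfl
    refine ⟨g.comp C.subtype, ?_, ?_⟩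
    · show ξ.comp (g.comp C.subtype) = p
      rw [← MonoidHom.comp_assoc, hg']
    · intro η hη
      ext x
      apply lift_eq_on_comm ξ hc
      · rw [hη, ← MonoidHom.comp_assoc, hg']
      · rw [hperf]; trivial

end Cfsg.Agent.S3960
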