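import Cfsg.Statements.S3961
import Cfsg.Agent.H22_Schur

set_option autoImplicit false
open Cfsg

namespace Cfsg.Agent.S3961

open Subgroup H22.Schur
open scoped commutatorElement

universe u v

theorem mem_center_of {Γ : Type*} [Group Γ] (hperf : _root_.commutator Γ = ⊤) (y : Γ)
    (hc : ∀ x : Γ, ⁅x, y⁆ ∈ center Γ) : y ∈ center Γ := by
  let φ : Γ →* center Γ := MonoidHom.mk' (fun x => ⟨⁅x, y⁆, hc x⟩) (by
    intro a b
    apply Subtype.ext
    show ⁅a * b, y⁆ = ⁅a, y⁆ * ⁅b, y⁆
    have h1 : ⁅a * b, y⁆ = a * ⁅b, y⁆ * a⁻¹ * ⁅a, y⁆ := by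
      simp only [commutatorElement_def]; group
    rw [h1, mem_center_iff.mp (hc b) a, mul_inv_cancel_right]
    exact (mem_center_iff.mp (hc b) _).symm)
  have h2 : φ.ker = ⊤ := by
    rw [eq_top_iff, ← hperf, _root_.commutator_def, Subgroup.commutator_le]
    intro a _ b _
    rw [MonoidHom.mem_ker, map_commutatorElement, commutatorElement_eq_one_iff_mul_comm]
    exact Subtype.ext (mem_center_iff.mp (φ b).2 _)
  refine mem_center_iff.mpr ?_
  intro x
  have h3 : x ∈ φ.ker := by rw [h2]; trivial
  have h4 : ⁅x, y⁆ = 1 := congrArg Subtype.val h3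
  exact commutatorElement_eq_one_iff_mul_comm.mp h4

theorem perfect_of_stem {Γ : Type*} {G : Type*} [Group Γ] [Group G] (σ : Γ →* G) (hσ : IsStemExtension σ)
    (hG : _root_.commutator G = ⊤) : _root_.commutator Γ = ⊤ := by
  obtain ⟨hs, hc, hd⟩ := hσ
  have h1 : (_root_.commutator Γ).map σ = ⊤ := by
    rw [_root_.commutator_def, Subgroup.map_commutator, Subgroup.map_top_of_surjective _ hs, ← _root_.commutator_def, hG]
  have h2 : _root_.commutator Γ ⊔ σ.ker = ⊤ := by
    rw [← Subgroup.comap_map_eq, h1, Subgroup.comap_top]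
  rwa [sup_eq_left.mpr hd] at h2

/-- Let `π : G →* Q` be a surjective homomorphism with central kernel from a finite perfect group `G` (a perfect cover of `Q`). Then `π` is universal, in the sense that every surjective homomorphism `ξ : X →* Q` with central kernel from a group `X` in the universe of `G` admits a homomorphism `η : G →* X` with `ξ ∘ η = π`, if and only if `G` has trivial Schur multiplier. -/
theorem result {G : Type u} {Q : Type v} [Group G] [Group Q] [Finite G] (hG : Group.IsPerfect G) (π : G →* Q) (hπ : Function.Surjective π) (hker : π.ker ≤ Subgroup.center G) : (∀ (X : Type u) [Group X] (ξ : X →* Q), Function.Surjective ξ → ξ.ker ≤ Subgroup.center X → ∃ η : G →* X, ξ.comp η = π) ↔ Cfsg.HasCyclicSchurMultiplier G 1 := by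
  have hGp := hG.commutator_eq_top
  constructor
  · intro h
    apply trivial_of
    intro Γ _ _ σ hσ
    have hΓ := perfect_of_stem σ hσ hGp
    obtain ⟨hs, hc, hd⟩ := hσ
    obtain ⟨η, hη⟩ := h Γ (π.comp σ) (hπ.comp hs) (by
      intro x hx
      have hx : π (σ x) = 1 := hx
      apply mem_center_of hΓ
      intro y
      apply hc
      rw [MonoidHom.mem_ker, map_commutatorElement, commutatorElement_eq_one_iff_mul_comm]
      exact mem_center_iff.mp (hker hx) _)
    have hid : ∀ x, σ (η x) = x := by
      intro x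
      have := lift_eq_on_comm π hker (σ.comp η) (MonoidHom.id G) (by
        rw [← MonoidHom.comp_assoc, hη]; rfl) x (by rw [hGp]; trivial)
      exact this
    have hsup : η.range ⊔ σ.ker = ⊤ := by
      rw [eq_top_iff]
      intro x _
      have : x = η (σ x) * ((η (σ x))⁻¹ * x) := by group
      rw [this]
      refine mul_mem (mem_sup_left ⟨_, rfl⟩) (mem_sup_right ?_)
      rw [MonoidHom.mem_ker, map_mul, map_inv, hid, inv_mul_cancel]
    have h1 := (comm_le_of_sup_central _ _ hc hsup).trans (Subgroup.commutator_le_self _)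
    rw [eq_bot_iff]
    intro z hz
    obtain ⟨g, rfl⟩ := h1 (hd hz)
    rw [MonoidHom.mem_ker, hid] at hz
    rw [hz, map_one, mem_bot]
  · intro h X _ ξ hξ hc
    have hf₀ : Function.Surjective (can G) := can_surjective G
    have hM : M (can G) = ⊥ := (M_eq_bot_iff (can G) hf₀).mpr h
    let C : Subgroup (E (can G)) := _root_.commutator (E (can G))
    let p : C →* G := (H22.Schur.π (can G)).comp C.subtype
    have hmapC : C.map (H22.Schur.π (can G)) = ⊤ := by
      show (_root_.commutator (E (can G))).map (H22.Schur.π (can G)) = ⊤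
      rw [_root_.commutator_def, Subgroup.map_commutator, Subgroup.map_top_of_surjective _ (π_surjective _ hf₀),
        ← _root_.commutator_def, hGp]
    have hps : Function.Surjective p := by
      intro q
      have : q ∈ C.map (H22.Schur.π (can G)) := by rw [hmapC]; trivial
      obtain ⟨c, hc, rfl⟩ := this
      exact ⟨⟨c, hc⟩, rfl⟩
    have hpi : Function.Injective p := by
      rw [injective_iff_map_eq_one]
      intro x hx
      have : (x : E (can G)) ∈ M (can G) := Subgroup.mem_inf.mpr ⟨hx, x.2⟩
      rw [hM, mem_bot] at this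
      exact Subtype.ext this
    let e := MulEquiv.ofBijective p ⟨hpi, hps⟩
    obtain ⟨g, hg⟩ := exists_lift_E (can G) ξ hξ hc π
    refine ⟨(g.comp C.subtype).comp e.symm.toMonoidHom, ?_⟩
    ext y
    obtain ⟨c, rfl⟩ := e.surjective y
    have h1 : ξ (g (c : E (can G))) = π (H22.Schur.π (can G) c) := DFunLike.congr_fun hg (c : E (can G))
    simp only [MonoidHom.comp_apply, MulEquiv.coe_toMonoidHom, MulEquiv.symm_apply_apply]
    exact h1

end Cfsg.Agent.S3961
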