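import Cfsg.Statements.S3962
import Cfsg.Agent.H22_Schur

set_option autoImplicit false
open Cfsg

namespace Cfsg.Agent.S3962

open Subgroup H22.Schur
open scoped commutatorElement

/-- Let `G` be a perfect group and `π : G →* Q` a surjective homomorphism whose kernel is central. Then `π` maps the centre of `G` onto the centre of `Q`. Taking `π` to be the map to `G ⧸ Z(G)` shows that the central quotient of a perfect group has trivial centre. -/
theorem result {G Q : Type*} [Group G] [Group Q] (hG : Group.IsPerfect G) (π : G →* Q) (hπ : Function.Surjective π) (hker : π.ker ≤ Subgroup.center G) : (Subgroup.center G).map π = Subgroup.center Q := by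
  apply le_antisymm
  · rintro x ⟨y, hy, rfl⟩
    rw [mem_center_iff]
    intro z
    obtain ⟨z, rfl⟩ := hπ z
    rw [← map_mul, ← map_mul, mem_center_iff.mp hy z]
  · intro z hz
    obtain ⟨y, rfl⟩ := hπ z
    refine ⟨y, ?_, rfl⟩
    -- x ↦ [x, y] is a hom to the centre
    have hc : ∀ x : G, ⁅x, y⁆ ∈ center G := by
      intro x
      apply hker
      rw [MonoidHom.mem_ker, map_commutatorElement, commutatorElement_eq_one_iff_mul_comm]
      exact mem_center_iff.mp hz _
    let φ : G →* center G := MonoidHom.mk' (fun x => ⟨⁅x, y⁆, hc x⟩) (by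
      intro a b
      apply Subtype.ext
      show ⁅a * b, y⁆ = ⁅a, y⁆ * ⁅b, y⁆
      have h1 : ⁅a * b, y⁆ = a * ⁅b, y⁆ * a⁻¹ * ⁅a, y⁆ := by
        simp only [commutatorElement_def]; group
      rw [h1, mem_center_iff.mp (hc b) a, mul_inv_cancel_right]
      exact (mem_center_iff.mp (hc b) _).symm)
    have h2 : φ.ker = ⊤ := by
      rw [eq_top_iff, ← hG.commutator_eq_top, _root_.commutator_def, Subgroup.commutator_le]
      intro a _ b _
      rw [MonoidHom.mem_ker, map_commutatorElement, commutatorElement_eq_one_iff_mul_comm]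
      exact Subtype.ext (mem_center_iff.mp (φ b).2 _)
    refine mem_center_iff.mpr ?_
    intro x
    have h3 : x ∈ φ.ker := by rw [h2]; trivial
    have h4 : ⁅x, y⁆ = 1 := congrArg Subtype.val h3
    exact commutatorElement_eq_one_iff_mul_comm.mp h4

end Cfsg.Agent.S3962
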