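import Cfsg.Statements.S3963
import Cfsg.Agent.H22_Schur

set_option autoImplicit false
open Cfsg

namespace Cfsg.Agent.S3963

open Subgroup H22.Schur
open scoped commutatorElement

/-- For every `n ≥ 1` the dicyclic (generalized quaternion) group of order `4 n` has trivial Schur multiplier. -/
theorem result (n : ℕ) [NeZero n] : Cfsg.HasCyclicSchurMultiplier (QuaternionGroup n) 1 := by
  have : Finite (QuaternionGroup n) := Finite.of_fintype _
  apply trivial_of
  intro Γ _ _ σ hσ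
  obtain ⟨hs, hc, hd⟩ := hσ
  obtain ⟨a, ha⟩ := hs (QuaternionGroup.a 1)
  obtain ⟨x, hx⟩ := hs (QuaternionGroup.xa 0)
  have hz : ∀ z ∈ σ.ker, ∀ y, y * z = z * y := fun z hz y => mem_center_iff.mp (hc hz) y
  have hapow : ∀ k : ℕ, σ (a ^ k) = QuaternionGroup.a (k : ZMod (2 * n)) := by
    intro k
    rw [map_pow, ha, QuaternionGroup.a_one_pow]
  -- w = x a x⁻¹ a
  obtain ⟨w, hw⟩ : ∃ w, w = x * a * x⁻¹ * a := ⟨_, rfl⟩
  have hwk : w ∈ σ.ker := by
    rw [hw, MonoidHom.mem_ker, map_mul, map_mul, map_mul, map_inv, ha, hx]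
    rw [← mul_left_inj (QuaternionGroup.xa (0 : ZMod (2 * n)))]
    have e1 : QuaternionGroup.a (1 : ZMod (2 * n)) * QuaternionGroup.xa 0 = QuaternionGroup.xa (0 - 1) := rfl
    rw [mul_assoc, e1]
    have e2 : QuaternionGroup.xa (0 - 1 : ZMod (2 * n)) = QuaternionGroup.xa 0 * QuaternionGroup.a (-1) := by
      rw [QuaternionGroup.xa_mul_a, zero_sub, zero_add]
    rw [e2, mul_assoc (QuaternionGroup.xa 0 * _), inv_mul_cancel_left, mul_assoc, QuaternionGroup.a_mul_a]
    simp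
  obtain ⟨v, hv⟩ : ∃ v, v = (a ^ n)⁻¹ * x ^ 2 := ⟨_, rfl⟩
  have hvk : v ∈ σ.ker := by
    rw [hv, MonoidHom.mem_ker, map_mul, map_inv, hapow, map_pow, hx, QuaternionGroup.xa_sq, inv_mul_cancel]
  have hxa : x * a * x⁻¹ = w * a⁻¹ := by rw [hw]; group
  have hx2 : x ^ 2 = a ^ n * v := by rw [hv]; group
  have hxan : x * a ^ n * x⁻¹ = a ^ n := by
    have h1 : a ^ n = x ^ 2 * v⁻¹ := by rw [hx2]; group
    have h2 : x * v⁻¹ = v⁻¹ * x := hz _ (inv_mem hvk) x
    rw [h1]
    calc x * (x ^ 2 * v⁻¹) * x⁻¹ = x ^ 2 * (x * v⁻¹) * x⁻¹ := by group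
      _ = x ^ 2 * (v⁻¹ * x) * x⁻¹ := by rw [h2]
      _ = _ := by group
  have hwa : Commute w a := (hz w hwk a).symm
  have hwn : w ^ n = a ^ n * a ^ n := by
    have h1 : x * a ^ n * x⁻¹ = w ^ n * (a⁻¹) ^ n := by
      rw [← conj_pow, hxa, (hwa.inv_right).mul_pow]
    rw [hxan, inv_pow] at h1
    calc w ^ n = (w ^ n * (a ^ n)⁻¹) * a ^ n := by group
      _ = a ^ n * a ^ n := by rw [← h1]
  -- c = ⁅x, a⁆
  obtain ⟨c, hcdef⟩ : ∃ c, c = w * (a⁻¹ * a⁻¹) := ⟨_, rfl⟩
  have hxac : ⁅x, a⁆ = c := by rw [commutatorElement_def, hxa, hcdef, mul_assoc]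
  have hcn : c ^ n = 1 := by
    have h1 : Commute w (a⁻¹ * a⁻¹) := (hwa.inv_right).mul_right (hwa.inv_right)
    rw [hcdef, h1.mul_pow, (Commute.refl a⁻¹).mul_pow, hwn, inv_pow]; group
  have hac : a * c * a⁻¹ = c := by
    rw [hcdef]
    have : a * (w * (a⁻¹ * a⁻¹)) * a⁻¹ = (a * w) * a⁻¹ * a⁻¹ * a⁻¹ := by group
    rw [this, ← hwa.eq]; group
  have hac' : a⁻¹ * c * a = c := by
    nth_rewrite 1 [← hac]; group
  have hxc : x * c * x⁻¹ = c⁻¹ := by
    have h1 : x * c * x⁻¹ = (x * w * x⁻¹) * ((x * a * x⁻¹)⁻¹ * (x * a * x⁻¹)⁻¹) := by rw [hcdef]; group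
    rw [h1, hxa, hz w hwk x, mul_inv_cancel_right, mul_inv_rev, inv_inv, hcdef, mul_inv_rev]
    have h2 : w * (a * w⁻¹ * (a * w⁻¹)) = (w * a) * w⁻¹ * a * w⁻¹ := by group
    rw [h2, hwa.eq, mul_inv_cancel_right]
    simp only [mul_inv_rev, inv_inv, mul_assoc]
  have hxc' : x⁻¹ * c * x = c⁻¹ := by
    have h1 : c = (x * c * x⁻¹)⁻¹ := by rw [hxc, inv_inv]
    nth_rewrite 1 [h1]; group
  -- generation
  have hgen : closure {a, x} ⊔ σ.ker = ⊤ := by
    rw [eq_top_iff]
    intro g _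
    have key : ∃ y ∈ closure {a, x}, σ y = σ g := by
      have ha' : a ∈ closure {a, x} := Subgroup.subset_closure (by simp)
      have hx' : x ∈ closure {a, x} := Subgroup.subset_closure (by simp)
      rcases hσg : σ g with i | i
      · refine ⟨a ^ i.val, pow_mem ha' _, ?_⟩
        rw [hapow, ZMod.natCast_zmod_val]
      · refine ⟨x * a ^ i.val, mul_mem hx' (pow_mem ha' _), ?_⟩
        rw [map_mul, hapow, ZMod.natCast_zmod_val, hx, QuaternionGroup.xa_mul_a, zero_add]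
    obtain ⟨y, hy, hyg⟩ := key
    have : g = y * (y⁻¹ * g) := by group
    rw [this]
    refine mul_mem (mem_sup_left hy) (mem_sup_right ?_)
    rw [MonoidHom.mem_ker, map_mul, map_inv, hyg, inv_mul_cancel]
  have hcomm : _root_.commutator Γ ≤ zpowers c := by
    refine (comm_le_of_sup_central _ _ hc hgen).trans ?_
    apply commutator_closure_le
    · intro s hs m hm
      obtain ⟨k, rfl⟩ := mem_zpowers_iff.mp hm
      have hs : s = a ∨ s = x := by simpa using hs
      have e1 : s * c ^ k * s⁻¹ = (s * c * s⁻¹) ^ k := (conj_zpow).symm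
      have e2 : s⁻¹ * c ^ k * s = (s⁻¹ * c * s) ^ k := by
        have := conj_zpow (a := s⁻¹) (b := c) (i := k)
        rw [inv_inv] at this; exact this.symm
      rw [e1, e2]
      rcases hs with rfl | rfl
      · rw [hac, hac']
        exact ⟨zpow_mem (mem_zpowers _) _, zpow_mem (mem_zpowers _) _⟩
      · rw [hxc, hxc']
        exact ⟨zpow_mem (inv_mem (mem_zpowers _)) _, zpow_mem (inv_mem (mem_zpowers _)) _⟩
    · intro s hs t ht
      have hs : s = a ∨ s = x := by simpa using hs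
      have ht : t = a ∨ t = x := by simpa using ht
      rcases hs with rfl | rfl <;> rcases ht with rfl | rfl
      · rw [commutatorElement_self]; exact one_mem _
      · rw [← commutatorElement_inv, hxac]; exact inv_mem (mem_zpowers _)
      · rw [hxac]; exact mem_zpowers _
      · rw [commutatorElement_self]; exact one_mem _
  rw [eq_bot_iff]
  intro z hzk
  have h1 := hcomm (hd hzk)
  rw [← mem_powers_iff_mem_zpowers] at h1
  obtain ⟨k, hk⟩ := h1
  have hk : c ^ k = z := hk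
  have h2 : σ (c ^ k) = 1 := by rw [hk]; exact hzk
  have h3 : σ c = QuaternionGroup.a (-2) := by
    rw [hcdef, map_mul, map_mul, map_inv, MonoidHom.mem_ker.mp hwk, one_mul, ha]
    have : (QuaternionGroup.a (1 : ZMod (2 * n)))⁻¹ = QuaternionGroup.a (-1) := rfl
    rw [this, QuaternionGroup.a_mul_a]
    congr 1; ring
  have h4 : n ∣ k := by
    have h5 : ∀ k : ℕ, σ (c ^ k) = QuaternionGroup.a (-(2 * k : ℕ) : ZMod (2 * n)) := by
      intro k
      rw [map_pow, h3]
      induction k with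
      | zero => simp
      | succ k ih =>
        rw [pow_succ, ih, QuaternionGroup.a_mul_a]
        congr 1; push_cast; ring
    rw [h5 k, QuaternionGroup.one_def, QuaternionGroup.a.injEq, neg_eq_zero, ZMod.natCast_eq_zero_iff] at h2
    exact Nat.dvd_of_mul_dvd_mul_left (by norm_num) h2
  obtain ⟨m, rfl⟩ := h4
  rw [mem_bot, ← hk, pow_mul, hcn, one_pow]

end Cfsg.Agent.S3963
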