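import Cfsg.Statements.S3964
import Mathlib
import Cfsg.Agent.H14_Schur

set_option autoImplicit false
open Cfsg

namespace Cfsg.Agent.S3964

/-- For odd `n` the dihedral group of order `2 n` has trivial Schur multiplier. -/
theorem result (n : ℕ) (hn : Odd n) : Cfsg.HasCyclicSchurMultiplier (DihedralGroup n) 1 := by
  have hn0 : n ≠ 0 := by rintro rfl; simp at hn
  haveI : NeZero n := ⟨hn0⟩
  apply Cfsg.Agent.H14.Schur.trivial_of_primes
  intro p hp Γ _ _ σ hσ hcard
  obtain ⟨Q⟩ : Nonempty (Sylow p (DihedralGroup n)) := inferInstance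
  have hcyc : IsCyclic Q := by
    by_cases hp2 : p = 2
    · subst hp2
      have h1 : Nat.card Q = 2 := by
        rw [Q.card_eq_multiplicity, DihedralGroup.nat_card, Nat.factorization_mul (by norm_num) hn0, Finsupp.add_apply,
          Nat.prime_two.factorization_self, Nat.factorization_eq_zero_of_not_dvd (fun h => by
            rw [← even_iff_two_dvd] at h
            exact (Nat.not_even_iff_odd.mpr hn) h)]
        norm_num
      exact isCyclic_of_prime_card h1
    · have h2 : ∀ x ∈ (Q : Subgroup (DihedralGroup n)), x ∈ Subgroup.zpowers (DihedralGroup.r 1 : DihedralGroup n) := by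
        intro x hx
        cases x with
        | r i =>
          rw [Subgroup.mem_zpowers_iff]
          refine ⟨(i.val : ℤ), ?_⟩
          rw [zpow_natCast, DihedralGroup.r_one_pow, ZMod.natCast_zmod_val]
        | sr i =>
          exfalso
          obtain ⟨k, hk⟩ := (IsPGroup.iff_orderOf.mp Q.isPGroup') ⟨_, hx⟩
          rw [Subgroup.orderOf_mk, DihedralGroup.orderOf_sr] at hk
          have h3 : 2 ∣ p ^ k := by rw [← hk]
          exact hp2 ((Nat.prime_dvd_prime_iff_eq Nat.prime_two hp.out).mp (Nat.prime_two.dvd_of_dvd_pow h3)).symm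
      exact isCyclic_of_injective (Subgroup.inclusion (show (Q : Subgroup (DihedralGroup n)) ≤ _ from h2))
        (Subgroup.inclusion_injective _)
  have h1 := Cfsg.Agent.H14.Schur.ker_le σ hσ hcard (Q : Subgroup (DihedralGroup n)) Q.isPGroup' Q.not_dvd_index
  -- the preimage is abelian
  obtain ⟨⟨g, hg⟩, hgen⟩ := hcyc.exists_generator
  obtain ⟨g', rfl⟩ := hσ.1 g
  have h2 : ∀ x ∈ (Q : Subgroup (DihedralGroup n)).comap σ, ∃ k : ℤ, ∃ z ∈ σ.ker, x = g' ^ k * z := by
    intro x hx
    obtain ⟨k, hk⟩ := hgen ⟨σ x, hx⟩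
    have hk' : (σ g') ^ k = σ x := congrArg Subtype.val hk
    refine ⟨k, (g' ^ k)⁻¹ * x, ?_, by group⟩
    rw [MonoidHom.mem_ker, map_mul, map_inv, map_zpow, hk', inv_mul_cancel]
  have h3 : ⁅(Q : Subgroup (DihedralGroup n)).comap σ, (Q : Subgroup (DihedralGroup n)).comap σ⁆ = ⊥ := by
    rw [Subgroup.commutator_eq_bot_iff_le_centralizer]
    intro x hx
    rw [Subgroup.mem_centralizer_iff]
    intro y hy
    obtain ⟨k, z, hz, rfl⟩ := h2 x hx
    obtain ⟨l, w, hw, rfl⟩ := h2 y hy
    have hz' := Subgroup.mem_center_iff.mp (hσ.2.1 hz)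
    have hw' := Subgroup.mem_center_iff.mp (hσ.2.1 hw)
    calc g' ^ l * w * (g' ^ k * z) = g' ^ l * (w * (g' ^ k * z)) := by group
      _ = g' ^ l * ((g' ^ k * z) * w) := by rw [← hw']
      _ = g' ^ (l + k) * z * w := by rw [zpow_add]; group
      _ = g' ^ (k + l) * z * w := by rw [add_comm]
      _ = g' ^ k * (g' ^ l * z) * w := by rw [zpow_add]; group
      _ = g' ^ k * (z * g' ^ l) * w := by rw [hz']
      _ = _ := by group
  rw [h3, le_bot_iff] at h1
  rw [h1] at hcard
  simp only [Subgroup.card_bot] at hcard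
  exact hp.out.one_lt.ne hcard

end Cfsg.Agent.S3964
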