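import Cfsg.Statements.S3965
import Mathlib
import Cfsg.Agent.H23_DihCover

set_option autoImplicit false
open Cfsg

namespace Cfsg.Agent.S3965

/-- For even `n ≥ 2` the dihedral group of order `2 n` has Schur multiplier cyclic of order `2`. -/
theorem result (n : ℕ) [NeZero n] (hn : Even n) : Cfsg.HasCyclicSchurMultiplier (DihedralGroup n) 2 := by
  obtain ⟨h1, h2⟩ := Cfsg.Agent.H23.DihCover.stem n hn
  haveI : Fact (Nat.Prime 2) := ⟨Nat.prime_two⟩
  have hZ : Nat.card (Multiplicative (ZMod 2)) = 2 := by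
    rw [Nat.card_congr Multiplicative.toAdd, Nat.card_zmod]
  have hc2 : IsCyclic (Multiplicative (ZMod 2)) := isCyclic_of_prime_card hZ
  refine ⟨⟨QuaternionGroup n, inferInstance, inferInstance, Cfsg.Agent.H23.DihCover.cover n, h1, ?_⟩, ?_⟩
  · have hc1 : IsCyclic (Cfsg.Agent.H23.DihCover.cover n).ker := isCyclic_of_prime_card h2
    exact ⟨mulEquivOfCyclicCardEq (h2.trans hZ.symm)⟩
  · intro Γ _ _ σ hσ
    have h3 := Cfsg.Agent.H23.DihCover.card_ker_le σ hσ
    have h4 : 0 < Nat.card σ.ker := Nat.card_pos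
    rcases (show Nat.card σ.ker = 1 ∨ Nat.card σ.ker = 2 by omega) with h5 | h5
    · refine ⟨1, fun x => ⟨1, ?_⟩⟩
      have h6 := (Nat.card_eq_one_iff_unique.mp h5).1
      exact Subsingleton.elim _ _
    · have hc1 : IsCyclic σ.ker := isCyclic_of_prime_card h5
      exact ⟨(mulEquivOfCyclicCardEq (hZ.trans h5.symm)).toMonoidHom, MulEquiv.surjective _⟩

end Cfsg.Agent.S3965
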