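import Cfsg.Statements.S3966
import Mathlib
import Cfsg.Agent.H23_DihCover

set_option autoImplicit false
open Cfsg

namespace Cfsg.Agent.S3966

/-- For even `n ≥ 2` the dicyclic group of order `4 n` is a stem extension of the dihedral group of order `2 n` with kernel of order `2`: there is a surjective homomorphism `QuaternionGroup n →* DihedralGroup n` whose kernel is central, lies in the commutator subgroup and has two elements. Together with the order of the multiplier this exhibits the dicyclic group as a Schur covering group of the dihedral group. -/
theorem result (n : ℕ) [NeZero n] (hn : Even n) : ∃ σ : QuaternionGroup n →* DihedralGroup n, Cfsg.IsStemExtension σ ∧ Nat.card σ.ker = 2 := by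
  exact ⟨Cfsg.Agent.H23.DihCover.cover n, Cfsg.Agent.H23.DihCover.stem n hn⟩

end Cfsg.Agent.S3966
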