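import Cfsg.Statements.S3968
import Mathlib
import Cfsg.Agent.H3_CharGal
import Cfsg.Agent.H3_CharMult
import Cfsg.Agent.H3_CharQuot
import Cfsg.Agent.H3_CharComplete
import Cfsg.Agent.H2_PGroup

set_option autoImplicit false
open Cfsg

namespace Cfsg.Agent.S3968

open Cfsg Cfsg.Agent.H3.CharBasic Cfsg.Agent.H3.CharIrr Cfsg.Agent.H3.CharComplete Cfsg.Agent.H3.CharInd
  Cfsg.Agent.H3.CharInt Cfsg.Agent.H3.CharGal Cfsg.Agent.H3.CharMult Cfsg.Agent.H3.CharQuot


/-- Let `p` be a prime and `G` a finite group with a faithful irreducible complex character of degree `p` (so `G` is an irreducible linear group in `p` variables). If `p ^ 2` divides the order of `G`, then the centre of `G` is nontrivial. -/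
theorem result {G : Type*} [Group G] [Finite G] (p : ℕ) (hp : p.Prime) (χ : Cfsg.IrrCharacter G) (hdeg : χ.1 1 = p) (hfaith : ∀ g : G, χ.1 g = χ.1 1 → g = 1) (hdiv : p ^ 2 ∣ Nat.card G) : Subgroup.center G ≠ ⊥ := by
  classical
  haveI : Fact p.Prime := ⟨hp⟩
  have := Fintype.ofFinite G
  have hχ := χ.2
  have hχc : IsCharacter G χ.1 := IsIrr.isCharacter hχ
  -- elements of norm `p` are central
  have hcent : ∀ a : G, ‖χ.1 a‖ = ‖χ.1 1‖ → a ∈ Subgroup.center G := by
    intro a ha
    rw [Subgroup.mem_center_iff]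
    intro g
    have h1 := hfaith _ (IsChar.comm_of_norm hχc ha g)
    have h2 := congrArg (fun z => z * g * a) h1
    have h3 : a * g = g * a := by simpa [mul_assoc] using h2
    exact h3.symm
  intro hZ
  have hcent' : ∀ a : G, ‖χ.1 a‖ = ‖χ.1 1‖ → a = 1 := by
    intro a ha
    have := hcent a ha
    rwa [hZ, Subgroup.mem_bot] at this
  obtain ⟨P⟩ : Nonempty (Sylow p G) := inferInstance
  obtain ⟨a, ha⟩ := IsPGroup.iff_card.mp P.isPGroup'
  have ha2 : 2 ≤ a := by
    have h1 : p ^ 2 ∣ Nat.card P := by
      rw [P.card_eq_multiplicity]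
      exact (hp.pow_dvd_iff_dvd_ordProj Nat.card_pos.ne').mp hdiv
    rw [ha] at h1
    exact (Nat.pow_dvd_pow_iff_le_right hp.one_lt).mp h1
  have hres : IsCharacter P (fun x : P => χ.1 (x : G)) := IsChar.res hχc (P : Subgroup G)
  by_cases hab : ∀ x y : P, x * y = y * x
  · -- abelian case
    have hzero : ∀ x : P, x ≠ 1 → χ.1 (x : G) = 0 := by
      intro x hx
      obtain ⟨n, ρ, hρ, hρχ⟩ := hχ
      have hfin : Module.finrank ℂ (Fin n → ℂ) = p := by
        rw [← hρχ, Representation.char_one] at hdeg
        exact_mod_cast hdeg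
      have hcop : Nat.Coprime (Module.finrank ℂ (Fin n → ℂ)) (Subgroup.centralizer ({(x : G)} : Set G)).index := by
        rw [hfin, hp.coprime_iff_not_dvd]
        intro hd
        have hle : (P : Subgroup G) ≤ Subgroup.centralizer ({(x : G)} : Set G) := by
          intro y hy
          rw [Subgroup.mem_centralizer_singleton_iff]
          exact congrArg Subtype.val (hab ⟨y, hy⟩ x)
        exact P.not_dvd_index (hd.trans (Subgroup.index_dvd_of_le hle))
      rcases burnside_lemma ρ hρ (x : G) hcop with h0 | h1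
      · rw [← hρχ, h0]
      · exfalso
        apply hx
        apply Subtype.ext
        apply hcent'
        rw [← hρχ, h1, Representation.char_one]
        simp
    obtain ⟨n, hn⟩ := ci_char_nat hres (IsIrr.isCharacter (isIrr_one (G := P)))
    rw [classInner] at hn
    have hsum : ∑ g : P, (fun x : P => χ.1 (x : G)) g * (starRingEnd ℂ) ((fun _ => (1 : ℂ)) g) = p := by
      refine (Finset.sum_eq_single (1 : P) ?_ ?_).trans ?_
      · intro b _ hb
        simp only
        rw [hzero b hb, zero_mul]
      · intro h; exact absurd (Finset.mem_univ _) h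
      · simp only [map_one, mul_one]
        exact hdeg
    have hn' : (Nat.card P : ℂ)⁻¹ * p = n := by
      rw [← hn]
      congr 1
      exact hsum.symm
    have hP0 : (Nat.card P : ℂ) ≠ 0 := by exact_mod_cast Nat.card_pos.ne'
    rw [inv_mul_eq_iff_eq_mul₀ hP0] at hn'
    have h2 : p = Nat.card P * n := by exact_mod_cast hn'
    have h3 : p ^ 2 ∣ p := by
      conv_rhs => rw [h2, ha]
      exact (pow_dvd_pow p ha2).mul_right n
    have h4 := Nat.le_of_dvd hp.pos h3
    have h5 := hp.two_le
    nlinarith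
  · -- nonabelian case
    have := Fintype.ofFinite (IrrCharacter P)
    obtain ⟨n, hn, hdec⟩ := IsChar.eq_sum_nat hres
    by_cases hnl : ∃ ψ : IrrCharacter P, n ψ ≠ 0 ∧ (ψ : P → ℂ) 1 ≠ 1
    · obtain ⟨ψ, hψn, hψ1⟩ := hnl
      obtain ⟨d, hd0, hd, hdd⟩ := IsIrr.dvd_card ψ.2
      rw [ha] at hdd
      obtain ⟨j, _, hj⟩ := (Nat.dvd_prime_pow hp).mp hdd
      have hle : d ≤ p := IsChar.degree_le' hres ψ.2 (by rw [hn]; exact_mod_cast hψn) (by
        change χ.1 ((1 : P) : G) = p
        rw [OneMemClass.coe_one]; exact hdeg) hd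
      have hdp : d = p := by
        have hj0 : j ≠ 0 := by
          rintro rfl
          rw [pow_zero] at hj
          rw [hj] at hd
          exact hψ1 (by rw [hd]; norm_num)
        apply le_antisymm hle
        rw [hj]
        exact Nat.le_self_pow hj0 p
      have heq := IsChar.eq_of_degree hres ψ.2 (by rw [hn]; exact_mod_cast hψn) (by
        rw [hd, hdp]
        change χ.1 ((1 : P) : G) = p
        rw [OneMemClass.coe_one]; exact hdeg)
      -- a central element of P
      have hPnt : (⊤ : Subgroup P) ≠ ⊥ := by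
        intro h
        apply hab
        intro x y
        have hx : x ∈ (⊤ : Subgroup P) := Subgroup.mem_top x
        have hy : y ∈ (⊤ : Subgroup P) := Subgroup.mem_top y
        rw [h, Subgroup.mem_bot] at hx hy
        rw [hx, hy]
      have hcb := Cfsg.Agent.H2.PGroup.inf_center_ne_bot P.isPGroup' hPnt
      obtain ⟨⟨z, hz⟩, hz1⟩ := Subgroup.ne_bot_iff_exists_ne_one.mp hcb
      have hzc : z ∈ Subgroup.center P := hz.2
      obtain ⟨c, hc, hcg⟩ := IsIrr.central ψ.2 hzc
      have h1 := hcg 1
      rw [one_mul, ← heq] at h1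
      have hcn : ‖c‖ = 1 := by
        have hpos : orderOf z ≠ 0 := (orderOf_pos z).ne'
        exact Complex.norm_eq_one_of_pow_eq_one hc hpos
      have h2 : ‖χ.1 (z : G)‖ = ‖χ.1 1‖ := by
        have h3 : χ.1 (z : G) = c * χ.1 1 := h1
        rw [h3, norm_mul, hcn, one_mul]
      have h3 := hcent' _ h2
      apply hz1
      apply Subtype.ext
      apply Subtype.ext
      exact h3
    · push Not at hnl
      apply hab
      intro x y
      have hw : ∀ ψ : IrrCharacter P, n ψ ≠ 0 → (ψ : P → ℂ) (x * y * x⁻¹ * y⁻¹) = (ψ : P → ℂ) 1 := by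
        intro ψ hψ
        obtain ⟨f, hf⟩ := IsChar.hom_units_of_one (IsIrr.isCharacter ψ.2) (hnl ψ hψ)
        rw [hf, hf]
        simp only [map_mul, map_inv, map_one]
        congr 1
        rw [mul_comm (f x) (f y), mul_inv_cancel_right, mul_inv_cancel]
      have h1 : χ.1 ((x * y * x⁻¹ * y⁻¹ : P) : G) = χ.1 1 := by
        have h2 := congrFun hdec (x * y * x⁻¹ * y⁻¹)
        have h3 := congrFun hdec 1
        have h4 : χ.1 ((x * y * x⁻¹ * y⁻¹ : P) : G) = χ.1 ((1 : P) : G) := by
          refine h2.trans (Eq.trans ?_ h3.symm)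
          rw [Finset.sum_apply, Finset.sum_apply]
          apply Finset.sum_congr rfl
          intro ψ _
          by_cases hψ : n ψ = 0
          · simp [hψ]
          · simp only [Pi.smul_apply]
            rw [hw ψ hψ]
        rw [h4, OneMemClass.coe_one]
      have h5 := hfaith _ h1
      have h6 : x * y * x⁻¹ * y⁻¹ = 1 := Subtype.ext h5
      have h7 := congrArg (fun z => z * y * x) h6
      simpa [mul_assoc] using h7

end Cfsg.Agent.S3968
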