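import Cfsg.Statements.S3970
import Mathlib
import Cfsg.Agent.H23_AutRank
import Cfsg.Agent.H1_Wiel

set_option autoImplicit false
open Cfsg

namespace Cfsg.Agent.S3970

universe u

theorem main (N : ℕ) : ∀ (G : Type u) [Group G] [Finite G], Nat.card G = N →
    (∀ p : ℕ, p.Prime → p ∣ Nat.card G → (∃ q : ℕ, q.Prime ∧ q ∣ Nat.card G ∧ p < q) →
      ∀ P : Sylow p G, IsMulCommutative (P : Subgroup G) ∧ Group.rank (P : Subgroup G) ≤ 2) →
    ¬ 12 ∣ Nat.card G → Group.IsSolvable G := by
  induction N using Nat.strong_induction_on with
  | _ N ih =>
    intro G _ _ hN h h12
    by_cases h1 : Nat.card G = 1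
    · have : Subsingleton G := (Nat.card_eq_one_iff_unique.mp h1).1
      exact Group.isSolvable_of_comm (fun a b => Subsingleton.elim _ _)
    · set p := (Nat.card G).minFac with hp
      have hpp : p.Prime := Nat.minFac_prime h1
      haveI : Fact p.Prime := ⟨hpp⟩
      have hpd : p ∣ Nat.card G := Nat.minFac_dvd _
      have hmin : ∀ r : ℕ, r.Prime → r ∣ Nat.card G → p ≤ r := fun r hr hrd => Nat.minFac_le_of_dvd hr.two_le hrd
      by_cases hlarge : ∃ q : ℕ, q.Prime ∧ q ∣ Nat.card G ∧ p < q
      · obtain ⟨P⟩ : Nonempty (Sylow p G) := inferInstance
        obtain ⟨hab, hrank⟩ := h p hpp hpd hlarge P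
        obtain ⟨S, hS1, hS2⟩ := Group.rank_spec (P : Subgroup G)
        obtain ⟨s, hs, hsd⟩ := Cfsg.Agent.H23.AutRank.exists_index_frattini P.isPGroup' S hS2
        have hnpc : Cfsg.HasNormalPComplement p G := by
          apply Cfsg.Agent.H2.Fusion4.npc_of_card_mulAut P hab
          intro r hr hrd hrG
          by_contra hrp
          obtain ⟨i, hi1, hi2, hi3⟩ := Cfsg.Agent.H23.AutRank.dvd_pow_sub_one P.isPGroup' hs hr hrp hrd
          have hpr : p < r := lt_of_le_of_ne (hmin r hr hrG) (Ne.symm hrp)
          have hp2 := hpp.two_le
          have hi : i = 1 ∨ i = 2 := by omega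
          rcases hi with rfl | rfl
          · rw [pow_one] at hi3
            have := Nat.le_of_dvd (by omega) hi3
            omega
          · have h2 : p ^ 2 - 1 = (p - 1) * (p + 1) := by
              obtain ⟨k, hk⟩ : ∃ k, p = k + 1 := ⟨p - 1, by omega⟩
              rw [hk]
              simp only [Nat.add_sub_cancel]
              have : (k + 1) ^ 2 = k * (k + 1 + 1) + 1 := by ring
              rw [this]
              simp
            rw [h2] at hi3
            rcases (Nat.Prime.dvd_mul hr).mp hi3 with h3 | h3
            · have := Nat.le_of_dvd (by omega) h3
              omega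
            · have h4 := Nat.le_of_dvd (by omega) h3
              have hr1 : r = p + 1 := by omega
              have hp2' : p = 2 := by
                by_contra hne
                have ho1 := hpp.odd_of_ne_two hne
                have ho2 := hr.odd_of_ne_two (by omega)
                rw [hr1] at ho2
                exact (Nat.not_even_iff_odd.mpr ho2) ho1.add_one
              rw [hp2'] at hr1
              apply h12
              have h3G : 3 ∣ Nat.card G := by
                have : r = 3 := hr1
                rw [← this]; exact hrG
              have h4G : 4 ∣ Nat.card G := by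
                have h5 : 2 ^ 2 ∣ (frattini (P : Subgroup G)).index := by
                  rw [hs, hp2']
                  exact pow_dvd_pow 2 hi2
                have h6 := h5.trans ((Subgroup.index_dvd_card _).trans (Subgroup.card_subgroup_dvd_card (P : Subgroup G)))
                norm_num at h6
                exact h6
              have : Nat.Coprime 3 4 := by norm_num
              exact this.mul_dvd_of_dvd_of_dvd h3G h4G
        obtain ⟨M, hM, hMp, k, hk⟩ := Cfsg.Agent.H2.Basic.npc_iff.mp hnpc
        have hcard := Subgroup.card_mul_index M
        have hk0 : k ≠ 0 := by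
          rintro rfl
          rw [pow_zero] at hk
          rw [hk, mul_one] at hcard
          exact hMp (hcard ▸ hpd)
        have hMsol : Group.IsSolvable M := by
          have hlt : Nat.card M < Nat.card G := by
            rw [← hcard, hk]
            have : 1 < p ^ k := Nat.one_lt_pow hk0 hpp.one_lt
            have h0 : 0 < Nat.card M := Nat.card_pos
            nlinarith
          apply ih (Nat.card M) (hN ▸ hlt) M rfl
          · rintro r hr hrM ⟨q, hq, hqM, hrq⟩ Q
            haveI : Fact r.Prime := ⟨hr⟩
            have hMG : Nat.card M ∣ Nat.card G := Subgroup.card_subgroup_dvd_card M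
            have hrp : r ≠ p := by rintro rfl; exact hMp hrM
            obtain ⟨R, hR⟩ := (Q.isPGroup'.map M.subtype).exists_le_sylow
            have hQR : (Q : Subgroup M).map M.subtype = R := by
              apply Subgroup.eq_of_le_of_card_ge hR
              rw [Subgroup.card_map_of_injective (Subgroup.subtype_injective M), Q.card_eq_multiplicity,
                R.card_eq_multiplicity, ← hcard, hk, Nat.factorization_mul Nat.card_pos.ne' (pow_ne_zero _ hpp.ne_zero),
                Finsupp.add_apply, hpp.factorization_pow, Finsupp.single_eq_of_ne hrp, add_zero]
            obtain ⟨h5, h6⟩ := h r hr (hrM.trans hMG) ⟨q, hq, hqM.trans hMG, hrq⟩ R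
            let e : (Q : Subgroup M) ≃* (R : Subgroup G) :=
              ((Q : Subgroup M).equivMapOfInjective M.subtype (Subgroup.subtype_injective M)).trans
                (MulEquiv.subgroupCongr hQR)
            constructor
            · refine ⟨⟨fun a b => ?_⟩⟩
              apply e.injective
              rw [map_mul, map_mul]
              exact mul_comm' (e a) (e b)
            · rw [Group.rank_congr e]
              exact h6
          · intro h7
            exact h12 (h7.trans (Subgroup.card_subgroup_dvd_card M))
        have hQsol : Group.IsSolvable (G ⧸ M) := by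
          have h5 : IsPGroup p (G ⧸ M) := by
            rw [IsPGroup.iff_card]
            exact ⟨k, by rw [← Subgroup.index_eq_card, hk]⟩
          haveI := h5.isNilpotent
          infer_instance
        exact Cfsg.Agent.H1.Wiel.solvable_of_normal_quotient hMsol hQsol
      · push Not at hlarge
        have h5 : IsPGroup p G := by
          rw [IsPGroup.iff_card]
          refine ⟨_, Nat.eq_prime_pow_of_unique_prime_dvd Nat.card_pos.ne' ?_⟩
          intro q hq hqd
          exact le_antisymm (hlarge q hq hqd) (hmin q hq hqd)
        haveI := h5.isNilpotent
        infer_instance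


/-- Let `G` be a finite group such that for every prime `p` dividing its order, other than the largest such prime, the Sylow `p`-subgroups are abelian and generated by at most two elements, and suppose `12` does not divide the order of `G`. Then `G` is solvable. In particular a group of cube-free order not divisible by `12` is solvable. -/
theorem result {G : Type*} [Group G] [Finite G] (h : ∀ p : ℕ, p.Prime → p ∣ Nat.card G → (∃ q : ℕ, q.Prime ∧ q ∣ Nat.card G ∧ p < q) → ∀ P : Sylow p G, IsMulCommutative (P : Subgroup G) ∧ Group.rank (P : Subgroup G) ≤ 2) (h12 : ¬ 12 ∣ Nat.card G) : Group.IsSolvable G := by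
  exact main _ G rfl h h12

end Cfsg.Agent.S3970
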