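import Cfsg.Statements.S3971
import Mathlib
import Cfsg.Agent.H23_AutRank

set_option autoImplicit false
open Cfsg

namespace Cfsg.Agent.S3971

open Subgroup in
theorem two_gen {G : Type*} [Group G] [Finite G] (C Q : Subgroup G) (hC : IsCyclic C) (hi : C.relIndex Q ≤ 2) :
    ∃ T : Finset Q, closure (T : Set Q) = ⊤ ∧ T.card ≤ 2 := by
  classical
  have hD : IsCyclic (C.subgroupOf Q) := by
    let f : C.subgroupOf Q →* C :=
      { toFun := fun x => ⟨((x : Q) : G), x.2⟩
        map_one' := rfl
        map_mul' := fun _ _ => rfl }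
    have hf : Function.Injective f := by
      intro a b hab
      have h1 : ((a : Q) : G) = ((b : Q) : G) := congrArg (fun z : C => (z : G)) hab
      exact Subtype.ext (Subtype.ext h1)
    exact isCyclic_of_injective f hf
  obtain ⟨⟨d, hd⟩, hdg⟩ := hD.exists_generator
  have hdz : C.subgroupOf Q = zpowers d := by
    apply le_antisymm
    · intro x hx
      obtain ⟨k, hk⟩ := hdg ⟨x, hx⟩
      exact ⟨k, congrArg Subtype.val hk⟩
    · rw [zpowers_le]; exact hd
  have hidx : (C.subgroupOf Q).index ≤ 2 := hi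
  by_cases h1 : C.subgroupOf Q = ⊤
  · refine ⟨{d}, ?_, by simp⟩
    rw [Finset.coe_singleton, ← zpowers_eq_closure, ← hdz, h1]
  · obtain ⟨t, ht⟩ : ∃ t, t ∉ C.subgroupOf Q := by
      by_contra hcon
      push Not at hcon
      exact h1 ((eq_top_iff' _).mpr hcon)
    refine ⟨{d, t}, ?_, Finset.card_le_two⟩
    set L := closure ((({d, t} : Finset Q)) : Set Q) with hL
    have hdL : C.subgroupOf Q ≤ L := by
      rw [hdz, zpowers_le]
      exact subset_closure (by simp)
    have htL : t ∈ L := subset_closure (by simp)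
    have h2 := relIndex_mul_index hdL
    have h3 : (C.subgroupOf Q).relIndex L ≠ 1 := by
      intro h
      rw [relIndex_eq_one] at h
      exact ht (h htL)
    have h4 : (C.subgroupOf Q).relIndex L ≠ 0 := by
      intro h
      rw [h, zero_mul] at h2
      exact index_ne_zero_of_finite h2.symm
    have h5 : L.index ≠ 0 := index_ne_zero_of_finite
    have h6 : L.index = 1 := by
      by_contra hne
      have h7 : 2 ≤ (C.subgroupOf Q).relIndex L := by omega
      have h8 : 2 ≤ L.index := by omega
      nlinarith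
    exact index_eq_one.mp h6


/-- Let `G` be a finite group of order `2 ^ a * n` with `n` odd and not divisible by `3`, and suppose `G` has an element of order `2 ^ (a - 1)` (so a Sylow `2`-subgroup has a cyclic subgroup of index at most `2`). Then `G` has a normal subgroup of order `n`. -/
theorem result {G : Type*} [Group G] [Finite G] (a n : ℕ) (hG : Nat.card G = 2 ^ a * n) (hn : Odd n) (h3 : ¬ 3 ∣ n) (hx : ∃ x : G, orderOf x = 2 ^ (a - 1)) : ∃ N : Subgroup G, N.Normal ∧ Nat.card N = n := by
  classical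
  haveI : Fact (Nat.Prime 2) := ⟨Nat.prime_two⟩
  obtain ⟨x, hx⟩ := hx
  have hn0 : n ≠ 0 := by rintro rfl; simp at hn
  have h2n : ¬ 2 ∣ n := fun h => by
    rw [← even_iff_two_dvd] at h
    exact (Nat.not_even_iff_odd.mpr hn) h
  have hxp : IsPGroup 2 (Subgroup.zpowers x) := by
    rw [IsPGroup.iff_card]
    exact ⟨a - 1, by rw [Nat.card_zpowers, hx]⟩
  obtain ⟨P, hP⟩ := hxp.exists_le_sylow
  have hcardP : Nat.card P = 2 ^ a := by
    rw [P.card_eq_multiplicity, hG, Nat.factorization_mul (by positivity) hn0, Finsupp.add_apply,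
      Nat.prime_two.factorization_pow, Nat.factorization_eq_zero_of_not_dvd h2n]
    simp
  have hrel : (Subgroup.zpowers x).relIndex (P : Subgroup G) ≤ 2 := by
    have h1 := Subgroup.relIndex_mul_relIndex ⊥ (Subgroup.zpowers x) (P : Subgroup G) bot_le hP
    rw [Subgroup.relIndex_bot_left, Subgroup.relIndex_bot_left, Nat.card_zpowers, hx, hcardP] at h1
    have h2 : 2 ^ a ≤ 2 ^ (a - 1) * 2 := by
      rw [← pow_succ]
      exact Nat.pow_le_pow_right (by norm_num) (by omega)
    rw [← h1] at h2
    exact Nat.le_of_mul_le_mul_left h2 (by positivity)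
  have hnpc : Cfsg.HasNormalPComplement 2 G := by
    apply Cfsg.Agent.H2.Fusion3.npc_of_frobenius_sylow P
    intro Q hQP g hg hgo
    have hQ : IsPGroup 2 Q := P.isPGroup'.to_le hQP
    have hrelQ : (Subgroup.zpowers x).relIndex Q ≤ 2 :=
      (Subgroup.relIndex_le_of_le_right hQP (Subgroup.index_ne_zero_of_finite (H := (Subgroup.zpowers x).subgroupOf (P : Subgroup G)))).trans hrel
    obtain ⟨T, hT, hTc⟩ := two_gen (Subgroup.zpowers x) Q inferInstance hrelQ
    obtain ⟨r, hr, hrT⟩ := Cfsg.Agent.H23.AutRank.exists_index_frattini hQ T hT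
    set α := Q.normalizerMonoidHom ⟨g, hg⟩ with hα
    have hαo : orderOf α ∣ orderOf g := by
      have h1 := orderOf_map_dvd Q.normalizerMonoidHom (⟨g, hg⟩ : Subgroup.normalizer (Q : Set G))
      rwa [Subgroup.orderOf_mk] at h1
    by_cases hα1 : α = 1
    · have h1 : (⟨g, hg⟩ : Subgroup.normalizer (Q : Set G)) ∈ Q.normalizerMonoidHom.ker := hα1
      rw [Subgroup.normalizerMonoidHom_ker, Subgroup.mem_subgroupOf] at h1
      exact h1
    · exfalso
      obtain ⟨q, hq, hqd⟩ := Nat.exists_prime_and_dvd (fun h => hα1 (orderOf_eq_one_iff.mp h))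
      have hqg : q ∣ orderOf g := hqd.trans hαo
      have hq2 : q ≠ 2 := by
        rintro rfl
        have := Nat.dvd_gcd hqg (dvd_refl 2)
        rw [hgo] at this
        norm_num at this
      obtain ⟨i, hi1, hi2, hi3⟩ := Cfsg.Agent.H23.AutRank.dvd_pow_sub_one hQ hr hq hq2
        (hqd.trans (orderOf_dvd_natCard α))
      have hq3 : q = 3 := by
        have hi : i = 1 ∨ i = 2 := by omega
        rcases hi with rfl | rfl
        · norm_num at hi3
          rw [hi3] at hq
          exact absurd hq Nat.not_prime_one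
        · norm_num at hi3
          exact (Nat.prime_dvd_prime_iff_eq hq Nat.prime_three).mp hi3
      subst hq3
      have h4 : 3 ∣ 2 ^ a * n := by
        rw [← hG]
        exact hqg.trans (orderOf_dvd_natCard g)
      rcases (Nat.Prime.dvd_mul Nat.prime_three).mp h4 with h5 | h5
      · have := Nat.prime_three.dvd_of_dvd_pow h5
        norm_num at this
      · exact h3 h5
  obtain ⟨N, hN, hN2, k, hk⟩ := Cfsg.Agent.H2.Basic.npc_iff.mp hnpc
  refine ⟨N, hN, ?_⟩
  have h1 := Subgroup.card_mul_index N
  rw [hk, hG] at h1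
  have h2 : Nat.Coprime (Nat.card N) (2 ^ a) := Nat.Coprime.pow_right a
    ((Nat.coprime_comm.mp ((Nat.Prime.coprime_iff_not_dvd Nat.prime_two).mpr hN2)))
  have h3 : Nat.Coprime n (2 ^ k) := Nat.Coprime.pow_right k
    ((Nat.coprime_comm.mp ((Nat.Prime.coprime_iff_not_dvd Nat.prime_two).mpr h2n)))
  apply Nat.dvd_antisymm
  · apply h2.dvd_of_dvd_mul_left
    rw [← h1]
    exact Dvd.intro _ rfl
  · apply h3.dvd_of_dvd_mul_right
    rw [h1]
    exact Dvd.intro_left _ rfl

end Cfsg.Agent.S3971
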