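import Cfsg.Statements.S3972
import Cfsg.Agent.H23_SRing
import Cfsg.Agent.H23_ZAction


set_option autoImplicit false
open Cfsg

namespace Cfsg.Agent.S3972

open Subgroup MulAction
open scoped Pointwise

/-- every nontrivial element of a cyclic `p`-group generates the subgroup of order `p` -/
theorem mem_zp {G : Type*} [Group G] [Finite G] {p m : ℕ} [hp : Fact p.Prime] (hm : 1 ≤ m) {g d : G} (hg : orderOf g = p ^ m)
    (hd : d ∈ zpowers g) (hd1 : d ≠ 1) : g ^ (p ^ (m - 1)) ∈ zpowers d := by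
  have hc : orderOf (g ^ (p ^ (m - 1))) = p := by
    rw [orderOf_pow, hg, Nat.gcd_eq_right (pow_dvd_pow p (Nat.sub_le _ _)), Nat.pow_div (Nat.sub_le _ _) hp.out.pos]
    have : m - (m - 1) = 1 := by omega
    rw [this, pow_one]
  have hdo : orderOf d ∣ p ^ m := by rw [← hg]; exact orderOf_dvd_of_mem_zpowers hd
  obtain ⟨j, hj, hdj⟩ := (Nat.dvd_prime_pow hp.out).1 hdo
  have hj0 : j ≠ 0 := by
    rintro rfl
    rw [pow_zero, orderOf_eq_one_iff] at hdj
    exact hd1 hdj
  obtain ⟨i, rfl⟩ := Nat.exists_eq_succ_of_ne_zero hj0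
  have he : orderOf (d ^ (p ^ i)) = p := by
    rw [orderOf_pow, hdj, Nat.gcd_eq_right (pow_dvd_pow p (Nat.le_succ i)), pow_succ, Nat.mul_div_cancel_left _ (pow_pos hp.out.pos i)]
  let c' : zpowers g := ⟨g ^ (p ^ (m - 1)), pow_mem (mem_zpowers g) _⟩
  let e' : zpowers g := ⟨d ^ (p ^ i), pow_mem hd _⟩
  have h1 : zpowers c' = zpowers e' := by
    apply H23.ZAction.eq_of_card_eq
    rw [Nat.card_zpowers, Nat.card_zpowers, ← orderOf_coe, ← orderOf_coe]
    change orderOf (g ^ (p ^ (m - 1))) = orderOf (d ^ (p ^ i))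
    rw [hc, he]
  have h2 : c' ∈ zpowers e' := by rw [← h1]; exact mem_zpowers c'
  obtain ⟨k, hk⟩ := h2
  have h3 : (d ^ (p ^ i)) ^ k = g ^ (p ^ (m - 1)) := congrArg Subtype.val hk
  rw [← h3]
  exact zpow_mem (pow_mem (mem_zpowers d) _) _


/-- Let `p` be a prime, `m ≥ 2`, and `G` a transitive but not doubly transitive permutation group on `p ^ m` points containing a permutation of order `p ^ m` (necessarily a full cycle). Then `G` is imprimitive, and the normal closure in `G` of the `p ^ (m - 1)`-th power of that permutation is an intransitive normal subgroup. -/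
theorem result {Ω : Type*} [Fintype Ω] [DecidableEq Ω] (p m : ℕ) (hp : p.Prime) (hm : 2 ≤ m) (hΩ : Fintype.card Ω = p ^ m) (G : Subgroup (Equiv.Perm Ω)) (htr : MulAction.IsPretransitive G Ω) (h2 : ¬ MulAction.IsMultiplyPretransitive G Ω 2) (g : G) (hg : orderOf g = p ^ m) : ¬ MulAction.IsPreprimitive G Ω ∧ ¬ MulAction.IsPretransitive (Subgroup.normalClosure ({g ^ (p ^ (m - 1))} : Set G)) Ω := by

  classical
  haveI : Fact p.Prime := ⟨hp⟩
  set c := g ^ (p ^ (m - 1)) with hc
  have hc1 : c ≠ 1 := by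
    intro h
    have h1 := orderOf_dvd_of_pow_eq_one h
    rw [hg] at h1
    have h2 := Nat.le_of_dvd (pow_pos hp.pos _) h1
    have h3 : p ^ (m - 1) < p ^ m := Nat.pow_lt_pow_right hp.one_lt (by omega)
    omega
  obtain ⟨ω, hω⟩ : ∃ ω : Ω, c • ω ≠ ω := by
    by_contra hcon
    push Not at hcon
    apply hc1
    apply Subtype.ext
    apply Equiv.ext
    exact hcon
  set C := zpowers g with hC
  have hCcard : Nat.card C = p ^ m := by rw [hC, Nat.card_zpowers, hg]
  have hst : ∀ d ∈ C, d • ω = ω → d = 1 := by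
    intro d hd hdω
    by_contra hd1
    have h1 := mem_zp (by omega) hg hd hd1
    apply hω
    have h2 : zpowers d ≤ stabilizer G ω := zpowers_le.2 hdω
    exact h2 h1
  have hfree : ∀ a b : C, (a : G) • ω = (b : G) • ω → a = b := by
    intro a b hab
    have h1 : ((b : G)⁻¹ * a) • ω = ω := by rw [mul_smul, hab, inv_smul_smul]
    have h2 := hst _ (mul_mem (inv_mem b.2) a.2) h1
    exact Subtype.ext (inv_mul_eq_one.1 h2).symm
  have htrC : ∀ α : Ω, ∃ a : C, (a : G) • ω = α := by
    have h1 : Function.Injective (fun a : C => (a : G) • ω) := fun a b hab => hfree a b hab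
    have h2 : Function.Bijective (fun a : C => (a : G) • ω) := by
      haveI := Fintype.ofFinite C
      rw [Fintype.bijective_iff_injective_and_card]
      refine ⟨h1, ?_⟩
      rw [hΩ, ← hCcard, Nat.card_eq_fintype_card]
    exact h2.2
  haveI : Nontrivial Ω := ⟨⟨_, _, hω⟩⟩
  have hnp : ¬ IsPreprimitive G Ω := by
    intro hprim
    apply h2
    have hs := H23.SRing.schur C ω htrC hfree hm hCcard
    rw [is_two_pretransitive_iff]
    intro a b a' b' hab hab'
    obtain ⟨g1, hg1⟩ := exists_smul_eq G a ω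
    obtain ⟨g2, hg2⟩ := exists_smul_eq G a' ω
    obtain ⟨x, hx⟩ := htrC (g1 • b)
    obtain ⟨y, hy⟩ := htrC (g2 • b')
    have hx1 : x ≠ 1 := by
      rintro rfl
      rw [Subgroup.coe_one, one_smul, ← hg1] at hx
      exact hab (smul_left_cancel _ hx)
    have hy1 : y ≠ 1 := by
      rintro rfl
      rw [Subgroup.coe_one, one_smul, ← hg2] at hy
      exact hab' (smul_left_cancel _ hy)
    obtain ⟨s, hs1, hs2⟩ := hs x y hx1 hy1
    refine ⟨g2⁻¹ * s * g1, ?_, ?_⟩
    · rw [mul_smul, mul_smul, hg1, mem_stabilizer_iff.1 hs1, inv_smul_eq_iff, hg2]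
    · rw [mul_smul, mul_smul, ← hx, hs2, hy, inv_smul_smul]
  refine ⟨hnp, ?_⟩
  -- a nontrivial block
  obtain ⟨B, hB, hBs, hBu⟩ : ∃ B : Set Ω, IsBlock G B ∧ B.Nontrivial ∧ B ≠ Set.univ := by
    by_contra hcon
    push Not at hcon
    apply hnp
    refine { toIsPretransitive := htr, isTrivialBlock_of_isBlock := fun {B} hB => ?_ }
    by_cases hs : B.Subsingleton
    · exact Or.inl hs
    · exact Or.inr (hcon B hB (Set.not_subsingleton_iff.1 hs))
  let N' : Subgroup G :=
    { carrier := {x | ∀ y : G, x • (y • B) = y • B}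
      one_mem' := fun y => one_smul _ _
      mul_mem' := fun {a b} ha hb y => by rw [mul_smul, hb, ha]
      inv_mem' := fun {a} ha y => by rw [inv_smul_eq_iff, ha] }
  haveI hN' : N'.Normal := by
    constructor
    intro x hx t y
    rw [mul_smul, mul_smul, ← mul_smul t⁻¹ y B, hx, ← mul_smul, mul_inv_cancel_left]
  have hcN : c ∈ N' := by
    intro y
    have hB' : IsBlock G (y • B) := hB.translate y
    obtain ⟨α, hα, β, hβ, hαβ⟩ := hBs
    obtain ⟨a, ha⟩ := htrC (y • α)
    obtain ⟨b, hb⟩ := htrC (y • β)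
    have hd : ((b : G) * (a : G)⁻¹) • (y • α) = y • β := by
      rw [← ha, mul_smul, inv_smul_smul, hb]
    have hd1 : (b : G) * (a : G)⁻¹ ≠ 1 := by
      intro h
      rw [h, one_smul] at hd
      exact hαβ (smul_left_cancel _ hd)
    have hst' : ((b : G) * (a : G)⁻¹) • (y • B) = y • B := by
      apply hB'.smul_eq_of_mem (a := y • α)
      · exact Set.smul_mem_smul_set hα
      · rw [hd]; exact Set.smul_mem_smul_set hβ
    have h1 := mem_zp (by omega) hg (mul_mem b.2 (inv_mem a.2)) hd1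
    have h2 : zpowers ((b : G) * (a : G)⁻¹) ≤ stabilizer G (y • B) := zpowers_le.2 hst'
    exact h2 h1
  intro htrN
  obtain ⟨α, hα⟩ := hBs.nonempty
  obtain ⟨β, hβ⟩ : ∃ β, β ∉ B := by
    by_contra hcon
    push Not at hcon
    exact hBu (Set.eq_univ_of_forall hcon)
  obtain ⟨⟨n, hn⟩, hnα⟩ := exists_smul_eq (Subgroup.normalClosure ({c} : Set G)) α β
  have h1 : Subgroup.normalClosure ({c} : Set G) ≤ N' := Subgroup.normalClosure_le_normal (by
    intro x hx
    rw [Set.mem_singleton_iff] at hx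
    rw [hx]; exact hcN)
  have h2 : n • B = B := by
    have := h1 hn 1
    rwa [one_smul] at this
  apply hβ
  rw [← h2]
  rw [← hnα]
  exact Set.smul_mem_smul_set hα


end Cfsg.Agent.S3972
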