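import Cfsg.Statements.S3973
import Mathlib

set_option autoImplicit false
open Cfsg

namespace Cfsg.Agent.S3973

open Subgroup

/-- abelianization of the free group -/
noncomputable def ab (n : ℕ) : FreeGroup (Fin n) →* Multiplicative (Fin n → ℤ) :=
  FreeGroup.lift (fun i => Multiplicative.ofAdd (Pi.single i 1))

theorem ab_surjective (n : ℕ) : Function.Surjective (ab n) := by
  intro w
  have key : ∀ w : Fin n → ℤ, Multiplicative.ofAdd w ∈ (ab n).range := by
    intro w
    have h1 : Multiplicative.ofAdd w = ∏ i, (Multiplicative.ofAdd (Pi.single i (1 : ℤ) : Fin n → ℤ)) ^ (w i) := by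
      apply Multiplicative.toAdd.injective
      rw [toAdd_ofAdd, toAdd_prod]
      simp only [toAdd_zpow, toAdd_ofAdd]
      ext j
      rw [Finset.sum_apply, Finset.sum_eq_single j]
      · simp
      · intro b _ hb
        simp [Pi.single_apply, Ne.symm hb]
      · intro h; exact absurd (Finset.mem_univ _) h
    rw [h1]
    apply Subgroup.prod_mem
    intro i _
    apply zpow_mem
    exact ⟨FreeGroup.of i, by simp [ab]⟩
  exact key w.toAdd

theorem comm_central {Γ : Type*} [Group Γ] (a b z w : Γ) (hz : ∀ g, g * z = z * g) (hw : ∀ g, g * w = w * g) :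
    a * b * a⁻¹ * b⁻¹ = a * z * (b * w) * (a * z)⁻¹ * (b * w)⁻¹ := by
  symm
  calc a * z * (b * w) * (a * z)⁻¹ * (b * w)⁻¹ = a * (z * (b * w)) * z⁻¹ * a⁻¹ * w⁻¹ * b⁻¹ := by group
    _ = a * ((b * w) * z) * z⁻¹ * a⁻¹ * w⁻¹ * b⁻¹ := by rw [hz]
    _ = a * b * (w * a⁻¹) * w⁻¹ * b⁻¹ := by group
    _ = a * b * (a⁻¹ * w) * w⁻¹ * b⁻¹ := by rw [← hw]
    _ = a * b * a⁻¹ * b⁻¹ := by group

theorem main (n : ℕ) (rels : Finset (FreeGroup (Fin n)))
    [Finite (PresentedGroup (rels : Set (FreeGroup (Fin n))))] {Γ : Type*} [Group Γ] [Finite Γ]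
    (σ : Γ →* PresentedGroup (rels : Set (FreeGroup (Fin n)))) (hσ : Cfsg.IsStemExtension σ) :
    ∃ T : Finset σ.ker, closure (T : Set σ.ker) = ⊤ ∧ T.card ≤ rels.card - n := by
  classical
  obtain ⟨hs, hc, hd⟩ := hσ
  choose x hx using fun i : Fin n => hs (PresentedGroup.of i)
  set φ : FreeGroup (Fin n) →* Γ := FreeGroup.lift x with hφ
  have h1 : σ.comp φ = PresentedGroup.mk _ := by
    apply FreeGroup.ext_hom
    intro i
    rw [MonoidHom.comp_apply, hφ, FreeGroup.lift_apply_of, hx]
    rfl
  have h1' : ∀ f, σ (φ f) = PresentedGroup.mk _ f := fun f => DFunLike.congr_fun h1 f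
  have hcen : ∀ z ∈ σ.ker, ∀ g : Γ, g * z = z * g := fun z hz => mem_center_iff.mp (hc hz)
  -- φ is surjective
  have hdec : ∀ g : Γ, ∃ f, ∃ z ∈ σ.ker, g = φ f * z := by
    intro g
    obtain ⟨f, hf⟩ := PresentedGroup.mk_surjective _ (σ g)
    refine ⟨f, (φ f)⁻¹ * g, ?_, by group⟩
    rw [MonoidHom.mem_ker, map_mul, map_inv, h1', hf, inv_mul_cancel]
  have hcomm_le : commutator Γ ≤ (commutator (FreeGroup (Fin n))).map φ := by
    rw [commutator_def, Subgroup.commutator_le]
    intro g _ g' _
    obtain ⟨f, z, hz, rfl⟩ := hdec g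
    obtain ⟨f', z', hz', rfl⟩ := hdec g'
    refine ⟨f * f' * f⁻¹ * f'⁻¹, ?_, ?_⟩
    · exact Subgroup.commutator_mem_commutator (mem_top f) (mem_top f')
    · rw [commutatorElement_def]
      simp only [map_mul, map_inv]
      exact comm_central (φ f) (φ f') z z' (hcen z hz) (hcen z' hz')
  have hker_le : σ.ker ≤ (commutator (FreeGroup (Fin n))).map φ := hd.trans hcomm_le
  -- images of relators
  have hrel : ∀ s : rels, φ s ∈ σ.ker := by
    intro s
    rw [MonoidHom.mem_ker, h1', PresentedGroup.mk_eq_one_iff]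
    exact subset_normalClosure s.2
  letI instK : CommGroup σ.ker := { (inferInstance : Group σ.ker) with
    mul_comm := fun a b => Subtype.ext (hcen b b.2 a) }
  let k : rels → σ.ker := fun s => ⟨φ s, hrel s⟩
  let κ : Multiplicative (rels → ℤ) →* σ.ker :=
    { toFun := fun v => ∏ s, k s ^ (v.toAdd s)
      map_one' := by simp
      map_mul' := by
        intro v w
        simp only [toAdd_mul, Pi.add_apply, zpow_add]
        exact Finset.prod_mul_distrib }
  let M : (rels → ℤ) →ₗ[ℤ] (Fin n → ℤ) := Fintype.linearCombination ℤ (fun s : rels => (ab n s).toAdd)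
  have hM : ∀ v, M v = ∑ s, v s • (ab n s).toAdd := fun v => Fintype.linearCombination_apply _ _ _
  -- key claim
  have hclaim : ∀ f ∈ normalClosure (rels : Set (FreeGroup (Fin n))),
      ∃ v : rels → ℤ, φ f = (κ (Multiplicative.ofAdd v) : Γ) ∧ (ab n f).toAdd = M v := by
    let H : Subgroup (FreeGroup (Fin n)) :=
      { carrier := {f | ∃ v : rels → ℤ, φ f = (κ (Multiplicative.ofAdd v) : Γ) ∧ (ab n f).toAdd = M v}
        one_mem' := ⟨0, by rw [map_one, ofAdd_zero, map_one]; rfl, by rw [map_one, map_zero]; rfl⟩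
        mul_mem' := by
          rintro f g ⟨v, hv1, hv2⟩ ⟨w, hw1, hw2⟩
          refine ⟨v + w, ?_, ?_⟩
          · rw [map_mul, hv1, hw1, ofAdd_add, map_mul]; rfl
          · rw [map_mul, toAdd_mul, hv2, hw2, map_add]
        inv_mem' := by
          rintro f ⟨v, hv1, hv2⟩
          refine ⟨-v, ?_, ?_⟩
          · rw [map_inv, hv1, ofAdd_neg, map_inv]; rfl
          · rw [map_inv, toAdd_inv, hv2, map_neg] }
    have hHn : H.Normal := by
      constructor
      rintro f ⟨v, hv1, hv2⟩ g
      refine ⟨v, ?_, ?_⟩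
      · rw [map_mul, map_mul, map_inv, hv1]
        rw [hcen _ (κ (Multiplicative.ofAdd v)).2 (φ g)]
        group
      · have h2 : ab n (g * f * g⁻¹) = ab n f := by
          rw [map_mul, map_mul, map_inv, mul_comm (ab n g), mul_inv_cancel_right]
        rw [h2, hv2]
    have hle : normalClosure (rels : Set (FreeGroup (Fin n))) ≤ H := by
      apply normalClosure_le_normal
      intro s hs'
      refine ⟨Pi.single ⟨s, hs'⟩ 1, ?_, ?_⟩
      · change φ s = ((∏ t, k t ^ ((Pi.single (⟨s, hs'⟩ : rels) (1 : ℤ) : rels → ℤ) t) : σ.ker) : Γ)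
        rw [Finset.prod_eq_single (⟨s, hs'⟩ : rels)]
        · simp [k]
        · intro b _ hb
          simp [Pi.single_apply, hb]
        · intro h; exact absurd (Finset.mem_univ _) h
      · rw [hM, Finset.sum_eq_single (⟨s, hs'⟩ : rels)]
        · simp
        · intro b _ hb
          simp [Pi.single_apply, hb]
        · intro h; exact absurd (Finset.mem_univ _) h
    exact fun f hf => hle hf
  have habcomm : ∀ f ∈ commutator (FreeGroup (Fin n)), ab n f = 1 := by
    intro f hf
    exact (Abelianization.commutator_subset_ker (ab n)) hf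
  have hsurj : ∀ z : σ.ker, ∃ v : rels → ℤ, M v = 0 ∧ κ (Multiplicative.ofAdd v) = z := by
    intro z
    obtain ⟨f, hf, hfz⟩ := hker_le z.2
    have h2 : f ∈ normalClosure (rels : Set (FreeGroup (Fin n))) := by
      rw [← PresentedGroup.mk_eq_one_iff, ← h1', hfz]
      exact z.2
    obtain ⟨v, hv1, hv2⟩ := hclaim f h2
    refine ⟨v, ?_, ?_⟩
    · rw [← hv2, habcomm f hf]; rfl
    · apply Subtype.ext
      rw [← hv1, hfz]
  -- the range of M has finite index
  have hfin : Finite ((Fin n → ℤ) ⧸ LinearMap.range M) := by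
    let q : Multiplicative (Fin n → ℤ) →* Multiplicative ((Fin n → ℤ) ⧸ LinearMap.range M) :=
      (LinearMap.range M).mkQ.toAddMonoidHom.toMultiplicative
    have hq : Function.Surjective q := by
      intro y
      obtain ⟨w, hw⟩ := (LinearMap.range M).mkQ_surjective y.toAdd
      exact ⟨Multiplicative.ofAdd w, hw⟩
    have hkill : ∀ s ∈ (rels : Set (FreeGroup (Fin n))), FreeGroup.lift (fun i => q (ab n (FreeGroup.of i))) s = 1 := by
      intro s hs'
      have h2 : FreeGroup.lift (fun i => q (ab n (FreeGroup.of i))) = q.comp (ab n) := by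
        apply FreeGroup.ext_hom
        intro i
        simp
      rw [h2, MonoidHom.comp_apply]
      have h3 : (LinearMap.range M).mkQ (ab n s).toAdd = 0 := by
        rw [Submodule.mkQ_apply, Submodule.Quotient.mk_eq_zero]
        refine ⟨Pi.single ⟨s, hs'⟩ 1, ?_⟩
        rw [hM, Finset.sum_eq_single (⟨s, hs'⟩ : rels)]
        · simp
        · intro b _ hb
          simp [Pi.single_apply, hb]
        · intro h; exact absurd (Finset.mem_univ _) h
      exact h3
    let g := PresentedGroup.toGroup hkill
    have hg : Function.Surjective g := by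
      intro y
      obtain ⟨w, rfl⟩ := hq y
      obtain ⟨f, rfl⟩ := ab_surjective n w
      refine ⟨PresentedGroup.mk _ f, ?_⟩
      have h2 : g.comp (PresentedGroup.mk _) = q.comp (ab n) := by
        apply FreeGroup.ext_hom
        intro i
        change g (PresentedGroup.of i) = _
        rw [PresentedGroup.toGroup.of]
        rfl
      exact DFunLike.congr_fun h2 f
    have : Finite (Multiplicative ((Fin n → ℤ) ⧸ LinearMap.range M)) := Finite.of_surjective g hg
    exact this
  have hrange : Module.finrank ℤ (LinearMap.range M) = n := by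
    rw [(Submodule.finiteQuotient_iff _).mp hfin, Module.finrank_fin_fun]
  have hker : Module.finrank ℤ (LinearMap.ker M) = rels.card - n := by
    have h2 := Submodule.finrank_quotient_add_finrank (LinearMap.ker M)
    rw [M.quotKerEquivRange.finrank_eq, hrange, Module.finrank_fintype_fun_eq_card, Fintype.card_coe] at h2
    omega
  let b := Module.finBasis ℤ (LinearMap.ker M)
  refine ⟨Finset.univ.image (fun i => κ (Multiplicative.ofAdd ((b i : LinearMap.ker M) : rels → ℤ))), ?_, ?_⟩
  · rw [eq_top_iff]
    intro z _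
    obtain ⟨v, hv0, hvz⟩ := hsurj z
    have h2 : v = ∑ i, (b.repr ⟨v, hv0⟩ i) • ((b i : LinearMap.ker M) : rels → ℤ) := by
      have h3 := b.sum_repr ⟨v, hv0⟩
      have h4 := congrArg (fun t : LinearMap.ker M => (t : rels → ℤ)) h3
      simp only [Submodule.coe_sum, Submodule.coe_smul] at h4
      exact h4.symm
    rw [← hvz, h2, ofAdd_sum, map_prod]
    apply Subgroup.prod_mem
    intro i _
    rw [ofAdd_zsmul, map_zpow]
    apply zpow_mem
    apply Subgroup.subset_closure
    rw [Finset.mem_coe, Finset.mem_image]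
    exact ⟨i, Finset.mem_univ _, rfl⟩
  · refine Finset.card_image_le.trans ?_
    rw [Finset.card_univ, Fintype.card_fin, hker]


/-- If a finite group is presented by `n` generators and a finite set of `r` relators, then its Schur multiplier can be generated by `r - n` elements. In particular a finite group with a presentation having as many relators as generators has trivial Schur multiplier. -/
theorem result (n : ℕ) (rels : Finset (FreeGroup (Fin n))) [Finite (PresentedGroup (rels : Set (FreeGroup (Fin n))))] {A : Type*} [CommGroup A] [Finite A] (hA : Cfsg.HasSchurMultiplier (PresentedGroup (rels : Set (FreeGroup (Fin n)))) A) : Group.rank A ≤ rels.card - n := by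
  obtain ⟨⟨Γ, _, _, σ, hσ, ⟨e⟩⟩, _⟩ := hA
  obtain ⟨T, hT, hTc⟩ := main n rels σ hσ
  classical
  have h1 : Subgroup.closure ((T.image e : Finset A) : Set A) = ⊤ := by
    rw [Finset.coe_image]
    have h2 := MonoidHom.map_closure e.toMonoidHom (T : Set σ.ker)
    rw [hT] at h2
    have h3 : (⊤ : Subgroup σ.ker).map e.toMonoidHom = ⊤ := Subgroup.map_top_of_surjective _ e.surjective
    rw [h3] at h2
    exact h2.symm
  exact (Group.rank_le h1).trans (Finset.card_image_le.trans hTc)

end Cfsg.Agent.S3973
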