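import Cfsg.Statements.S3976
import Mathlib
import Cfsg.Agent.H23_Wielandt

set_option autoImplicit false
open Cfsg

namespace Cfsg.Agent.S3976

open scoped Pointwise

/-- Let `p` be a prime and `G` a group of order `p ^ m`. For every `s ≤ m` the number of normal subgroups of `G` of order `p ^ s` is congruent to `1` modulo `p`. -/
theorem result {G : Type*} [Group G] [Finite G] (p m s : ℕ) (hp : p.Prime) (hG : Nat.card G = p ^ m) (hs : s ≤ m) : Nat.card {H : Subgroup G // H.Normal ∧ Nat.card H = p ^ s} ≡ 1 [MOD p] := by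
  haveI : Fact p.Prime := ⟨hp⟩
  have h1 := Cfsg.Agent.H23.Wielandt.card_modEq_one (G := G) p s hp (by rw [hG]; exact pow_dvd_pow p hs)
  have hP : IsPGroup p (⊤ : Subgroup G) := (IsPGroup.of_card hG).to_subgroup ⊤
  have h2 := Cfsg.Agent.H23.Wielandt.card_modEq_normalized p (⊤ : Subgroup G) hP
    (fun H => Nat.card H = p ^ s) (fun g _ H hH => by
      rw [← hH]
      exact (Nat.card_congr (Subgroup.equivSMul (MulAut.conj g) H).toEquiv).symm)
  have h3 : Nat.card {H : Subgroup G // Nat.card H = p ^ s ∧ ⊤ ≤ Subgroup.normalizer (H : Set G)} =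
      Nat.card {H : Subgroup G // H.Normal ∧ Nat.card H = p ^ s} := by
    apply Nat.card_congr
    refine Equiv.subtypeEquivRight (fun H => ?_)
    rw [top_le_iff, Subgroup.normalizer_eq_top_iff]
    exact and_comm
  rw [h3] at h2
  exact h2.symm.trans h1

end Cfsg.Agent.S3976
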