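import Cfsg.Statements.S3977
import Mathlib
import Cfsg.Agent.H23_PQuat
import Cfsg.Agent.H23_ZAction

set_option autoImplicit false
open Cfsg

namespace Cfsg.Agent.S3977

/-- Let `p` be a prime and `G` a group of order `p ^ m` which has exactly one subgroup of order `p ^ s`, where `1 ≤ s < m`, and where `s ≥ 2` if `p = 2`. Then `G` is cyclic. (For `p = 2` and `s = 1` the generalized quaternion groups also occur; that case is the classical criterion for a unique involution.) -/
theorem result {G : Type*} [Group G] [Finite G] (p m s : ℕ) (hp : p.Prime) (hG : Nat.card G = p ^ m) (hs : 1 ≤ s) (hsm : s < m) (h2 : p ≠ 2 ∨ 2 ≤ s) (huniq : ∀ H K : Subgroup G, Nat.card H = p ^ s → Nat.card K = p ^ s → H = K) : IsCyclic G := by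
  haveI : Fact p.Prime := ⟨hp⟩
  have hP : IsPGroup p G := IsPGroup.of_card hG
  have hsd : p ^ s ∣ Nat.card G := by rw [hG]; exact pow_dvd_pow p hsm.le
  obtain ⟨K, hK⟩ := Sylow.exists_subgroup_card_pow_prime (G := G) p hsd
  -- small cyclic (or any) subgroups lie in K
  have hsmall : ∀ (H : Subgroup G) (j : ℕ), Nat.card H = p ^ j → j ≤ s → H ≤ K := by
    intro H j hH hj
    obtain ⟨L, hL, hHL⟩ := Sylow.exists_subgroup_card_pow_prime_le (G := G) p hsd H hH hj
    rw [huniq K L hK hL]
    exact hHL
  have hbig : ∀ g : G, g ∉ K → K ≤ Subgroup.zpowers g := by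
    intro g hg
    obtain ⟨j, hj⟩ := (IsPGroup.iff_orderOf.mp hP) g
    have hsj : s ≤ j := by
      by_contra hlt
      rw [not_le] at hlt
      exact hg (hsmall (Subgroup.zpowers g) j (by rw [Nat.card_zpowers, hj]) hlt.le (Subgroup.mem_zpowers g))
    have h1 : Nat.card (Subgroup.zpowers (g ^ (p ^ (j - s)))) = p ^ s := by
      rw [Nat.card_zpowers, orderOf_pow_of_dvd (pow_ne_zero _ hp.ne_zero) (by rw [hj]; exact pow_dvd_pow p (Nat.sub_le _ _)),
        hj, Nat.pow_div (Nat.sub_le _ _) hp.pos]
      congr 1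
      omega
    rw [huniq K _ hK h1, Subgroup.zpowers_le]
    exact pow_mem (Subgroup.mem_zpowers g) _
  have hlt : Nat.card K < Nat.card G := by
    rw [hK, hG]
    exact Nat.pow_lt_pow_right hp.one_lt hsm
  have hKne : K ≠ ⊤ := by
    rintro rfl
    simp at hlt
  obtain ⟨g, hg⟩ : ∃ g, g ∉ K := by
    by_contra hcon
    push Not at hcon
    exact hKne ((Subgroup.eq_top_iff' K).mpr hcon)
  have hKg := hbig g hg
  have hcyc : IsCyclic K := by
    have : IsCyclic (Subgroup.zpowers g) := inferInstance
    exact isCyclic_of_injective (Subgroup.inclusion hKg) (Subgroup.inclusion_injective hKg)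
  have hu : ∀ H L : Subgroup G, Nat.card H = p → Nat.card L = p → H = L := by
    intro H L hH hL
    have h1 : H ≤ K := hsmall H 1 (by rw [hH, pow_one]) hs
    have h2 : L ≤ K := hsmall L 1 (by rw [hL, pow_one]) hs
    have h3 : H.subgroupOf K = L.subgroupOf K := by
      apply Cfsg.Agent.H23.ZAction.eq_of_card_eq
      rw [Nat.card_congr (Subgroup.subgroupOfEquivOfLe h1).toEquiv,
        Nat.card_congr (Subgroup.subgroupOfEquivOfLe h2).toEquiv, hH, hL]
    rwa [Subgroup.subgroupOf_inj, inf_of_le_left h1, inf_of_le_left h2] at h3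
  rcases Cfsg.Agent.H23.PQuat.cyclic_or_quaternion hP hu with h | ⟨rfl, n, ⟨e⟩⟩
  · exact h
  · exfalso
    have hs2 : 2 ≤ s := h2.resolve_left (by simp)
    haveI : NeZero (2 ^ n) := ⟨by positivity⟩
    have hxa : ∀ i : ZMod (2 * 2 ^ n), e.symm (QuaternionGroup.xa i) ∈ K := by
      intro i
      apply hsmall (Subgroup.zpowers (e.symm (QuaternionGroup.xa i))) 2 _ hs2 (Subgroup.mem_zpowers _)
      rw [Nat.card_zpowers, MulEquiv.orderOf_eq, QuaternionGroup.orderOf_xa]
      norm_num
    have hall : ∀ q : QuaternionGroup (2 ^ n), e.symm q ∈ K := by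
      intro q
      cases q with
      | xa i => exact hxa i
      | a i =>
        have h1 : QuaternionGroup.a i = QuaternionGroup.xa (((2 ^ n : ℕ) : ZMod (2 * 2 ^ n)) - i) * (QuaternionGroup.xa 0) := by
          rw [QuaternionGroup.xa_mul_xa]
          congr 1
          ring
        rw [h1, map_mul]
        exact mul_mem (hxa _) (hxa _)
    apply hg
    have := hall (e g)
    rwa [MulEquiv.symm_apply_apply] at this

end Cfsg.Agent.S3977
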