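import Cfsg.Statements.S3978
import Mathlib
import Cfsg.Agent.H23_Schur
import Cfsg.Agent.H14_Schur

set_option autoImplicit false
open Cfsg

namespace Cfsg.Agent.S3978

open Subgroup
open scoped commutatorElement

universe u

theorem comm_le_ker {A B : Type*} [Group A] [Group B] (f : A →* B) (hB : ∀ x y : A, f x * f y = f y * f x) :
    commutator A ≤ f.ker := by
  rw [_root_.commutator_def, Subgroup.commutator_le]
  intro a _ b _
  rw [MonoidHom.mem_ker, map_commutatorElement, commutatorElement_eq_one_iff_mul_comm]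
  exact hB _ _

abbrev G (n : ℕ) := GL (Fin n) ℂ

/-- scalar matrices -/
noncomputable def sc (n : ℕ) : ℂˣ →* G n := Matrix.GeneralLinearGroup.scalar (Fin n)

theorem mem_center_iff_sc (n : ℕ) (A : G n) : A ∈ center (G n) ↔ ∃ c, sc n c = A := by
  rw [Matrix.GeneralLinearGroup.center_eq_range_scalar]
  rfl

theorem sc_val (n : ℕ) (c : ℂˣ) : ((sc n c : G n) : Matrix (Fin n) (Fin n) ℂ) = Matrix.scalar (Fin n) (c : ℂ) := rfl

theorem sc_injective (n : ℕ) (hn : 0 < n) : Function.Injective (sc n) := by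
  intro a b hab
  have h1 := congrArg (fun A : G n => (A : Matrix (Fin n) (Fin n) ℂ) ⟨0, hn⟩ ⟨0, hn⟩) hab
  simp only [sc_val, Matrix.scalar_apply, Matrix.diagonal_apply_eq] at h1
  exact Units.ext h1

theorem det_sc (n : ℕ) (c : ℂˣ) : Matrix.GeneralLinearGroup.det (sc n c) = c ^ n := by
  apply Units.ext
  rw [Matrix.GeneralLinearGroup.val_det_apply, sc_val]
  simp

/-- lifting, given a trivial multiplier -/
theorem lift_of_trivial {Q : Type u} [Group Q] [Finite Q] (hM : Cfsg.HasCyclicSchurMultiplier Q 1) (n : ℕ) (hn : 0 < n)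
    (γ : Q →* (G n ⧸ center (G n))) :
    ∃ ρ : Q →* G n, (QuotientGroup.mk' (center (G n))).comp ρ = γ := by
  classical
  let E : Subgroup (G n × Q) :=
    { carrier := {x | (QuotientGroup.mk x.1 : G n ⧸ center (G n)) = γ x.2 ∧ Matrix.GeneralLinearGroup.det x.1 = 1}
      one_mem' := ⟨(map_one γ).symm, map_one _⟩
      mul_mem' := by
        rintro a b ⟨h1, h2⟩ ⟨h3, h4⟩
        refine ⟨?_, ?_⟩
        · change (QuotientGroup.mk (a.1 * b.1) : G n ⧸ center (G n)) = γ (a.2 * b.2)
          rw [QuotientGroup.mk_mul, h1, h3, map_mul]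
        · change Matrix.GeneralLinearGroup.det (a.1 * b.1) = 1
          rw [map_mul, h2, h4, one_mul]
      inv_mem' := by
        rintro a ⟨h1, h2⟩
        refine ⟨?_, ?_⟩
        · change (QuotientGroup.mk (a.1⁻¹) : G n ⧸ center (G n)) = γ (a.2⁻¹)
          rw [QuotientGroup.mk_inv, h1, map_inv]
        · change Matrix.GeneralLinearGroup.det (a.1⁻¹) = 1
          rw [map_inv, h2, inv_one] }
  have hE : ∀ x : G n × Q, x ∈ E ↔ (QuotientGroup.mk x.1 : G n ⧸ center (G n)) = γ x.2 ∧
      Matrix.GeneralLinearGroup.det x.1 = 1 := fun x => Iff.rfl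
  let σ : E →* Q := (MonoidHom.snd (G n) Q).comp E.subtype
  have hlift : ∀ q : Q, ∃ A : G n, (A, q) ∈ E := by
    intro q
    obtain ⟨A, hA⟩ := QuotientGroup.mk_surjective (γ q)
    obtain ⟨z, hz⟩ := IsAlgClosed.exists_pow_nat_eq ((Matrix.GeneralLinearGroup.det A : ℂˣ) : ℂ) hn
    have hz0 : z ≠ 0 := by
      rintro rfl
      rw [zero_pow hn.ne'] at hz
      exact (Units.ne_zero _) hz.symm
    let c : ℂˣ := Units.mk0 z hz0
    have hc : c ^ n = Matrix.GeneralLinearGroup.det A := Units.ext (by rw [Units.val_pow_eq_pow_val]; exact hz)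
    refine ⟨A * (sc n c)⁻¹, ?_, ?_⟩
    · change (QuotientGroup.mk (A * (sc n c)⁻¹) : G n ⧸ center (G n)) = γ q
      rw [← hA, QuotientGroup.mk_mul, QuotientGroup.mk_inv,
        (QuotientGroup.eq_one_iff (sc n c)).mpr ((mem_center_iff_sc n _).mpr ⟨c, rfl⟩), inv_one, mul_one]
    · change Matrix.GeneralLinearGroup.det (A * (sc n c)⁻¹) = 1
      rw [map_mul, map_inv, det_sc, hc, mul_inv_cancel]
  choose Aq hAq using hlift
  have hTfin : {z : G n | z ∈ center (G n) ∧ Matrix.GeneralLinearGroup.det z = 1}.Finite := by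
    haveI : NeZero n := ⟨hn.ne'⟩
    have h1 : {z : G n | z ∈ center (G n) ∧ Matrix.GeneralLinearGroup.det z = 1} ⊆
        Set.range (fun c : rootsOfUnity n ℂ => sc n c) := by
      rintro z ⟨hz1, hz2⟩
      obtain ⟨c, rfl⟩ := (mem_center_iff_sc n z).mp hz1
      rw [det_sc] at hz2
      exact ⟨⟨c, (mem_rootsOfUnity n c).mpr hz2⟩, rfl⟩
    exact (Set.finite_range _).subset h1
  haveI hEfin : Finite E := by
    have hsub : (E : Set (G n × Q)) ⊆
        (fun p : Q × G n => ((p.2 * Aq p.1, p.1) : G n × Q)) ''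
          ((Set.univ : Set Q) ×ˢ {z : G n | z ∈ center (G n) ∧ Matrix.GeneralLinearGroup.det z = 1}) := by
      rintro ⟨A, q⟩ hAE
      refine ⟨(q, A * (Aq q)⁻¹), ⟨Set.mem_univ _, ?_, ?_⟩, ?_⟩
      · rw [← QuotientGroup.eq_one_iff, QuotientGroup.mk_mul, QuotientGroup.mk_inv, ((hE _).mp hAE).1,
          ((hE _).mp (hAq q)).1, mul_inv_cancel]
      · simp only
        rw [map_mul, map_inv, ((hE _).mp hAE).2, ((hE _).mp (hAq q)).2, one_mul, inv_one]
      · simp
    exact (((Set.finite_univ).prod hTfin).image _).subset hsub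
  have hσs : Function.Surjective σ := fun q => ⟨⟨(Aq q, q), hAq q⟩, rfl⟩
  have hker : ∀ x : E, x ∈ σ.ker → (x : G n × Q).1 ∈ center (G n) := by
    intro x hx
    have h1 : (x : G n × Q).2 = 1 := hx
    have h2 := ((hE _).mp x.2).1
    rw [h1, map_one, QuotientGroup.eq_one_iff] at h2
    exact h2
  have hσc : σ.ker ≤ center E := by
    intro x hx
    rw [mem_center_iff]
    intro g
    apply Subtype.ext
    refine Prod.ext ?_ ?_
    · exact mem_center_iff.mp (hker x hx) (g : G n × Q).1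
    · have h1 : (x : G n × Q).2 = 1 := hx
      change (g : G n × Q).2 * (x : G n × Q).2 = (x : G n × Q).2 * (g : G n × Q).2
      rw [h1, mul_one, one_mul]
  obtain ⟨π, hπ⟩ := Cfsg.Agent.H23.Schur.surj_of_multiplier hM σ hσs hσc
  have htriv : ∀ x : E, x ∈ σ.ker → x ∈ commutator E → x = 1 := by
    intro x h1 h2
    obtain ⟨a, ha⟩ := hπ ⟨x, h1, h2⟩
    have h3 : a = 1 := by
      have : Subsingleton (Multiplicative (ZMod 1)) := inferInstanceAs (Subsingleton (ZMod 1))
      exact Subsingleton.elim _ _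
    rw [h3, map_one] at ha
    exact (congrArg Subtype.val ha).symm
  -- the scalar character
  have hsc := sc_injective n hn
  let r : σ.ker →* (sc n).range :=
    { toFun := fun x => ⟨((x : E) : G n × Q).1, (mem_center_iff_sc n _).mp (hker x x.2)⟩
      map_one' := rfl
      map_mul' := fun _ _ => rfl }
  let χ : σ.ker →* ℂˣ := (MonoidHom.ofInjective hsc).symm.toMonoidHom.comp r
  have hχ : ∀ x : σ.ker, sc n (χ x) = ((x : E) : G n × Q).1 := by
    intro x
    have h1 : (MonoidHom.ofInjective hsc) ((MonoidHom.ofInjective hsc).symm (r x)) = r x := MulEquiv.apply_symm_apply _ _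
    exact congrArg Subtype.val h1
  let f0 : σ.ker →* Abelianization E := Abelianization.of.comp σ.ker.subtype
  have hf0 : Function.Injective f0 := by
    rw [injective_iff_map_eq_one]
    intro x hx
    apply Subtype.ext
    apply htriv x x.2
    exact (QuotientGroup.eq_one_iff _).mp hx
  let χ' : f0.range →* ℂˣ := χ.comp (MonoidHom.ofInjective hf0).symm.toMonoidHom
  haveI : Finite (Abelianization E) := Quotient.finite _
  haveI : NeZero (Monoid.exponent (Abelianization E)) := ⟨Monoid.exponent_ne_zero_of_finite⟩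
  obtain ⟨ψ, hψ⟩ := MonoidHom.domRestrict_surjective (M := ℂ) f0.range χ'
  have hψ' : ∀ x : σ.ker, ψ (Abelianization.of (x : E)) = χ x := by
    intro x
    have h1 := DFunLike.congr_fun hψ ⟨f0 x, ⟨x, rfl⟩⟩
    have h2 : χ' ⟨f0 x, ⟨x, rfl⟩⟩ = χ x := by
      change χ ((MonoidHom.ofInjective hf0).symm ⟨f0 x, ⟨x, rfl⟩⟩) = χ x
      congr 1
      rw [MulEquiv.symm_apply_eq]
      rfl
    rw [h2] at h1
    exact h1
  let ρ' : E →* G n :=
    { toFun := fun x => (x : G n × Q).1 * (sc n (ψ (Abelianization.of x)))⁻¹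
      map_one' := by simp
      map_mul' := by
        intro x y
        have h1 : (sc n (ψ (Abelianization.of x)))⁻¹ ∈ center (G n) :=
          inv_mem ((mem_center_iff_sc n _).mpr ⟨_, rfl⟩)
        have h2 := mem_center_iff.mp h1
        change (x : G n × Q).1 * (y : G n × Q).1 * (sc n (ψ (Abelianization.of (x * y))))⁻¹ = _
        rw [map_mul, map_mul, map_mul, mul_inv_rev]
        set s := (sc n (ψ (Abelianization.of x)))⁻¹
        set t := (sc n (ψ (Abelianization.of y)))⁻¹
        calc (x : G n × Q).1 * (y : G n × Q).1 * (t * s) = (x : G n × Q).1 * (((y : G n × Q).1 * t) * s) := by group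
          _ = (x : G n × Q).1 * (s * ((y : G n × Q).1 * t)) := by rw [h2]
          _ = _ := by group }
  have hρ'k : ∀ x ∈ σ.ker, ρ' x = 1 := by
    intro x hx
    change (x : G n × Q).1 * (sc n (ψ (Abelianization.of x)))⁻¹ = 1
    rw [hψ' ⟨x, hx⟩, hχ ⟨x, hx⟩, mul_inv_cancel]
  let ρ : Q →* G n := (QuotientGroup.lift σ.ker ρ' hρ'k).comp (QuotientGroup.quotientKerEquivOfSurjective σ hσs).symm.toMonoidHom
  refine ⟨ρ, ?_⟩
  ext q
  obtain ⟨x, rfl⟩ := hσs q
  have h1 : ρ (σ x) = ρ' x := by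
    have h2 : (QuotientGroup.quotientKerEquivOfSurjective σ hσs).symm (σ x) = QuotientGroup.mk x := by
      rw [MulEquiv.symm_apply_eq]
      rfl
    change (QuotientGroup.lift σ.ker ρ' hρ'k) ((QuotientGroup.quotientKerEquivOfSurjective σ hσs).symm (σ x)) = ρ' x
    rw [h2]
    rfl
  rw [MonoidHom.comp_apply, h1]
  change (QuotientGroup.mk ((x : G n × Q).1 * (sc n (ψ (Abelianization.of x)))⁻¹) : G n ⧸ center (G n)) = γ (x : G n × Q).2
  rw [QuotientGroup.mk_mul, QuotientGroup.mk_inv,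
    (QuotientGroup.eq_one_iff (sc n _)).mpr ((mem_center_iff_sc n _).mpr ⟨_, rfl⟩), inv_one, mul_one]
  exact ((hE _).mp x.2).1

/-- the induced monomial representation -/
theorem exists_rep {Γ Q : Type*} [Group Γ] [Group Q] [Finite Q] (σ : Γ →* Q) (hs : Function.Surjective σ)
    (hc : σ.ker ≤ center Γ) (χ : σ.ker →* ℂˣ) :
    ∃ R : Γ →* G (Nat.card Q), ∀ z : σ.ker, R z = sc (Nat.card Q) (χ z) := by
  classical
  obtain ⟨s, hs'⟩ := hs.hasRightInverse
  have hs'' : ∀ q, σ (s q) = q := hs'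
  let e : Q ≃ Fin (Nat.card Q) := Finite.equivFin Q
  have hk : ∀ (x : Γ) (q : Q), (s q)⁻¹ * x * s ((σ x)⁻¹ * q) ∈ σ.ker := by
    intro x q
    rw [MonoidHom.mem_ker, map_mul, map_mul, map_inv, hs'', hs'']
    group
  let T : Γ →* ((Fin (Nat.card Q) → ℂ) →ₗ[ℂ] (Fin (Nat.card Q) → ℂ)) :=
    { toFun := fun x =>
        { toFun := fun v i => ((χ ⟨_, hk x (e.symm i)⟩ : ℂˣ) : ℂ) * v (e ((σ x)⁻¹ * e.symm i))
          map_add' := fun v w => by ext i; simp [mul_add]
          map_smul' := fun c v => by ext i; simp [mul_left_comm] }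
      map_one' := by
        ext v i
        have h1 : (⟨_, hk 1 (e.symm i)⟩ : σ.ker) = 1 := by
          apply Subtype.ext
          simp
        simp only [LinearMap.coe_mk, AddHom.coe_mk, LinearMap.coe_comp, Function.comp_apply]
        rw [h1]
        simp
      map_mul' := by
        intro x y
        ext v i
        have h1 : (⟨_, hk (x * y) (e.symm i)⟩ : σ.ker) = ⟨_, hk x (e.symm i)⟩ * ⟨_, hk y ((σ x)⁻¹ * e.symm i)⟩ := by
          apply Subtype.ext
          simp only [Subgroup.coe_mul, map_mul, mul_inv_rev]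
          group
        simp only [LinearMap.coe_mk, AddHom.coe_mk, LinearMap.coe_comp, Function.comp_apply, Module.End.mul_apply,
          Equiv.symm_apply_apply]
        rw [h1, map_mul]
        simp only [Units.val_mul, map_mul, mul_inv_rev, mul_assoc] }
  let R0 : Γ →* Matrix (Fin (Nat.card Q)) (Fin (Nat.card Q)) ℂ :=
    ((LinearMap.toMatrixAlgEquiv' : ((Fin (Nat.card Q) → ℂ) →ₗ[ℂ] (Fin (Nat.card Q) → ℂ)) ≃ₐ[ℂ] _) :
      ((Fin (Nat.card Q) → ℂ) →ₗ[ℂ] (Fin (Nat.card Q) → ℂ)) →* Matrix (Fin (Nat.card Q)) (Fin (Nat.card Q)) ℂ).comp T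
  let R : Γ →* G (Nat.card Q) := MonoidHom.toHomUnits R0
  refine ⟨R, ?_⟩
  intro z
  apply Units.ext
  rw [sc_val]
  change LinearMap.toMatrixAlgEquiv' (T z) = _
  have hT : T (z : Γ) = ((χ z : ℂˣ) : ℂ) • LinearMap.id := by
    ext v i
    have hz1 : σ (z : Γ) = 1 := z.2
    have h1 : (⟨_, hk z (e.symm i)⟩ : σ.ker) = z := by
      apply Subtype.ext
      simp only [hz1, inv_one, one_mul]
      have h2 := mem_center_iff.mp (hc z.2) (s (e.symm i))⁻¹
      rw [h2]
      group
    change ((χ ⟨_, hk z (e.symm i)⟩ : ℂˣ) : ℂ) * _ = _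
    rw [h1]
    simp [hz1]
  rw [hT, map_smul]
  have h3 : LinearMap.toMatrixAlgEquiv' (LinearMap.id : (Fin (Nat.card Q) → ℂ) →ₗ[ℂ] (Fin (Nat.card Q) → ℂ)) = 1 :=
    map_one _
  rw [h3]
  ext i j
  simp [Matrix.scalar_apply, Matrix.one_apply, Matrix.diagonal_apply]


/-- A finite group `Q` has trivial Schur multiplier if and only if, for every `n`, every homomorphism from `Q` to the projective general linear group (the quotient of `GL n ℂ` by its centre) lifts to a homomorphism into `GL n ℂ`. -/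
theorem result {Q : Type*} [Group Q] [Finite Q] : Cfsg.HasCyclicSchurMultiplier Q 1 ↔ ∀ (n : ℕ) (γ : Q →* (GL (Fin n) ℂ ⧸ Subgroup.center (GL (Fin n) ℂ))), ∃ ρ : Q →* GL (Fin n) ℂ, (QuotientGroup.mk' (Subgroup.center (GL (Fin n) ℂ))).comp ρ = γ := by
  constructor
  · intro hM n γ
    rcases Nat.eq_zero_or_pos n with rfl | hn
    · refine ⟨1, ?_⟩
      ext q
      obtain ⟨A, hA⟩ := QuotientGroup.mk_surjective (γ q)
      have h1 : A = 1 := by
        apply Units.ext
        ext i
        exact i.elim0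
      rw [← hA, h1]
      rfl
    · exact lift_of_trivial hM n hn γ
  · intro hL
    apply Cfsg.Agent.H14.Schur.trivial_of_primes
    intro p hp Γ _ _ σ hσ hcard
    obtain ⟨hs, hc, hd⟩ := hσ
    letI instK : CommGroup σ.ker := { (inferInstance : Group σ.ker) with
      mul_comm := fun a b => Subtype.ext (mem_center_iff.mp (hc b.2) a) }
    have hnt : Nontrivial σ.ker := Finite.one_lt_card_iff_nontrivial.mp (by rw [hcard]; exact hp.out.one_lt)
    obtain ⟨z, hz⟩ := exists_ne (1 : σ.ker)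
    haveI : NeZero (Monoid.exponent σ.ker) := ⟨Monoid.exponent_ne_zero_of_finite⟩
    obtain ⟨χ, hχ⟩ := CommGroup.exists_apply_ne_one_of_hasEnoughRootsOfUnity σ.ker ℂ hz
    obtain ⟨N0, hN0pos, R, hR⟩ : ∃ N0 : ℕ, 0 < N0 ∧ ∃ R : Γ →* G N0, ∀ z : σ.ker, R z = sc N0 (χ z) :=
      ⟨Nat.card Q, Nat.card_pos, exists_rep σ hs hc χ⟩
    -- the induced projective representation
    have hkill : ∀ x ∈ σ.ker, ((QuotientGroup.mk' (center (G N0))).comp R) x = 1 := by
      intro x hx
      have h1 : R x ∈ center (G N0) := by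
        rw [mem_center_iff_sc]
        exact ⟨_, (hR ⟨x, hx⟩).symm⟩
      exact (QuotientGroup.eq_one_iff _).mpr h1
    let γ : Q →* (G N0 ⧸ center (G N0)) :=
      (QuotientGroup.lift σ.ker ((QuotientGroup.mk' (center (G N0))).comp R) hkill).comp
        (QuotientGroup.quotientKerEquivOfSurjective σ hs).symm.toMonoidHom
    have hγ : ∀ x, γ (σ x) = QuotientGroup.mk (R x) := by
      intro x
      have h2 : (QuotientGroup.quotientKerEquivOfSurjective σ hs).symm (σ x) = QuotientGroup.mk x := by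
        rw [MulEquiv.symm_apply_eq]
        rfl
      change (QuotientGroup.lift σ.ker ((QuotientGroup.mk' (center (G N0))).comp R) hkill)
        ((QuotientGroup.quotientKerEquivOfSurjective σ hs).symm (σ x)) = _
      rw [h2]
      rfl
    obtain ⟨ρ, hρ⟩ := hL N0 γ
    have hc1 : ∀ x, (ρ (σ x))⁻¹ * R x ∈ center (G N0) := by
      intro x
      rw [← QuotientGroup.eq, ← hγ, ← hρ]
      rfl
    let c : Γ →* G N0 :=
      { toFun := fun x => (ρ (σ x))⁻¹ * R x
        map_one' := by simp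
        map_mul' := by
          intro x y
          have h2 := mem_center_iff.mp (hc1 x) (ρ (σ y))⁻¹
          calc (ρ (σ (x * y)))⁻¹ * R (x * y) = (ρ (σ y))⁻¹ * ((ρ (σ x))⁻¹ * R x) * R y := by
                rw [map_mul, map_mul, map_mul, mul_inv_rev]; group
            _ = ((ρ (σ x))⁻¹ * R x) * (ρ (σ y))⁻¹ * R y := by rw [h2]
            _ = _ := by group }
    have hck : commutator Γ ≤ c.ker := comm_le_ker c (fun x y => mem_center_iff.mp (hc1 y) _)
    have h3 : c z = 1 := hck (hd z.2)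
    have h4 : (ρ (σ (z : Γ)))⁻¹ * R z = 1 := h3
    have hz1 : σ (z : Γ) = 1 := z.2
    rw [hz1, map_one, inv_one, one_mul, hR] at h4
    rw [← map_one (sc N0)] at h4
    exact hχ (sc_injective N0 hN0pos h4)

end Cfsg.Agent.S3978
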