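import Cfsg.Statements.S3979
import Cfsg.Agent.H14_Schur

set_option autoImplicit false
open Cfsg

namespace Cfsg.Agent.S3979

/-- A finite cyclic group has trivial Schur multiplier: every finite stem extension of it is an isomorphism, said through `HasCyclicSchurMultiplier G 1`. -/
theorem result {G : Type*} [Group G] [Finite G] [IsCyclic G] : Cfsg.HasCyclicSchurMultiplier G 1 := by
  apply Cfsg.Agent.H14.Schur.trivial_of_primes
  intro p hp Γ _ _ σ hσ hcard
  have hcomm : ∀ a b : Γ, a * b = b * a := commutative_of_cyclic_center_quotient σ hσ.2.1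
  have h1 : σ.ker ≤ ⊥ := by
    refine hσ.2.2.trans ?_
    rw [commutator_def, Subgroup.commutator_le]
    intro a _ b _
    rw [Subgroup.mem_bot]
    exact commutatorElement_eq_one_iff_mul_comm.2 (hcomm a b)
  rw [le_bot_iff] at h1
  rw [h1, Subgroup.card_bot] at hcard
  exact hp.out.one_lt.ne hcard

end Cfsg.Agent.S3979
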