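import Cfsg.Statements.S3980
import Mathlib
import Cfsg.Agent.H23_Schur

set_option autoImplicit false
universe u v w
open Cfsg

namespace Cfsg.Agent.S3980

open Subgroup
open scoped commutatorElement

theorem comm_le_ker {A B : Type*} [Group A] [Group B] (f : A →* B) (hB : ∀ x y : B, x * y = y * x) :
    commutator A ≤ f.ker := by
  rw [_root_.commutator_def, Subgroup.commutator_le]
  intro a _ b _
  rw [MonoidHom.mem_ker, map_commutatorElement, commutatorElement_eq_one_iff_mul_comm]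
  exact hB _ _

/-- product of stem extensions -/
theorem prod_stem {Γ₁ Γ₂ Q₁ Q₂ : Type*} [Group Γ₁] [Group Γ₂] [Group Q₁] [Group Q₂] (σ₁ : Γ₁ →* Q₁) (σ₂ : Γ₂ →* Q₂)
    (h₁ : Cfsg.IsStemExtension σ₁) (h₂ : Cfsg.IsStemExtension σ₂) :
    Cfsg.IsStemExtension (σ₁.prodMap σ₂) ∧ Nonempty ((σ₁.prodMap σ₂).ker ≃* σ₁.ker × σ₂.ker) := by
  obtain ⟨hs₁, hc₁, hd₁⟩ := h₁
  obtain ⟨hs₂, hc₂, hd₂⟩ := h₂
  have hker : ∀ x : Γ₁ × Γ₂, x ∈ (σ₁.prodMap σ₂).ker ↔ x.1 ∈ σ₁.ker ∧ x.2 ∈ σ₂.ker := by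
    intro x
    rw [MonoidHom.mem_ker, MonoidHom.mem_ker, MonoidHom.mem_ker]
    exact Prod.ext_iff
  refine ⟨⟨?_, ?_, ?_⟩, ?_⟩
  · rintro ⟨a, b⟩
    obtain ⟨x, rfl⟩ := hs₁ a
    obtain ⟨y, rfl⟩ := hs₂ b
    exact ⟨(x, y), rfl⟩
  · intro x hx
    rw [hker] at hx
    rw [mem_center_iff]
    intro g
    exact Prod.ext (mem_center_iff.mp (hc₁ hx.1) g.1) (mem_center_iff.mp (hc₂ hx.2) g.2)
  · intro x hx
    rw [hker] at hx
    have e1 : (commutator Γ₁).map (MonoidHom.inl Γ₁ Γ₂) ≤ commutator (Γ₁ × Γ₂) := by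
      rw [_root_.commutator_def, Subgroup.map_commutator, _root_.commutator_def]
      exact Subgroup.commutator_mono le_top le_top
    have e2 : (commutator Γ₂).map (MonoidHom.inr Γ₁ Γ₂) ≤ commutator (Γ₁ × Γ₂) := by
      rw [_root_.commutator_def, Subgroup.map_commutator, _root_.commutator_def]
      exact Subgroup.commutator_mono le_top le_top
    have h1 : x = MonoidHom.inl Γ₁ Γ₂ x.1 * MonoidHom.inr Γ₁ Γ₂ x.2 := by simp
    rw [h1]
    exact mul_mem (e1 ⟨x.1, hd₁ hx.1, rfl⟩) (e2 ⟨x.2, hd₂ hx.2, rfl⟩)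
  · refine ⟨MulEquiv.mk' ⟨fun x => (⟨x.1.1, ((hker x.1).mp x.2).1⟩, ⟨x.1.2, ((hker x.1).mp x.2).2⟩),
      fun y => ⟨(y.1, y.2), (hker _).mpr ⟨y.1.2, y.2.2⟩⟩, fun x => rfl, fun y => rfl⟩ (fun a b => rfl)⟩

/-- bilinearity argument: the commutator of the two halves is trivial -/
theorem comm_one {Γ Q₁ Q₂ : Type*} [Group Γ] [Group Q₁] [Group Q₂] [Finite Q₁] [Finite Q₂] (σ : Γ →* Q₁ × Q₂)
    (hc : σ.ker ≤ center Γ) (hs : Function.Surjective σ)
    (hcop : Nat.Coprime (Nat.card (Abelianization Q₁)) (Nat.card (Abelianization Q₂)))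
    (x y : Γ) (hx : (σ x).2 = 1) (hy : (σ y).1 = 1) : x * y = y * x := by
  -- commutators are central
  have hcen : ∀ a b : Γ, (σ a).2 = 1 → (σ b).1 = 1 → ⁅a, b⁆ ∈ center Γ := by
    intro a b ha hb
    apply hc
    rw [MonoidHom.mem_ker, commutatorElement_def]
    simp only [map_mul, map_inv]
    refine Prod.ext ?_ ?_
    · simp [hb]
    · simp [ha]
  -- a homomorphism in the first variable
  have hmul1 : ∀ a a' b : Γ, (σ a).2 = 1 → (σ a').2 = 1 → (σ b).1 = 1 → ⁅a * a', b⁆ = ⁅a, b⁆ * ⁅a', b⁆ := by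
    intro a a' b ha ha' hb
    have h1 := mem_center_iff.mp (hcen a' b ha' hb) a
    rw [commutatorElement_def, commutatorElement_def a b]
    have h2 : a * a' * b * (a * a')⁻¹ * b⁻¹ = a * ⁅a', b⁆ * b * a⁻¹ * b⁻¹ := by
      rw [commutatorElement_def]; group
    rw [h2, h1]
    have h3 := mem_center_iff.mp (hcen a' b ha' hb) (a * b * a⁻¹ * b⁻¹)
    rw [h3]
    group
  have hmul2 : ∀ a b b' : Γ, (σ a).2 = 1 → (σ b).1 = 1 → (σ b').1 = 1 → ⁅a, b * b'⁆ = ⁅a, b⁆ * ⁅a, b'⁆ := by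
    intro a b b' ha hb hb'
    have h1 := mem_center_iff.mp (hcen a b' ha hb') b
    have h2 : ⁅a, b * b'⁆ = ⁅a, b⁆ * (b * ⁅a, b'⁆ * b⁻¹) := by
      simp only [commutatorElement_def]; group
    rw [h2, h1]
    group
  let E₁ : Subgroup Γ := (MonoidHom.snd Q₁ Q₂ |>.comp σ).ker
  let E₂ : Subgroup Γ := (MonoidHom.fst Q₁ Q₂ |>.comp σ).ker
  have hE₁ : ∀ a, a ∈ E₁ ↔ (σ a).2 = 1 := fun a => Iff.rfl
  have hE₂ : ∀ a, a ∈ E₂ ↔ (σ a).1 = 1 := fun a => Iff.rfl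
  let f₁ : E₁ →* center Γ :=
    { toFun := fun a => ⟨⁅(a : Γ), y⁆, hcen a y a.2 hy⟩
      map_one' := Subtype.ext (commutatorElement_one_left y)
      map_mul' := fun a a' => Subtype.ext (hmul1 a a' y a.2 a'.2 hy) }
  let f₂ : E₂ →* center Γ :=
    { toFun := fun b => ⟨⁅x, (b : Γ)⁆, hcen x b hx b.2⟩
      map_one' := Subtype.ext (commutatorElement_one_right x)
      map_mul' := fun b b' => Subtype.ext (hmul2 x b b' hx b.2 b'.2) }
  -- the order divides |Q₁ab|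
  have hn1 : ⁅x, y⁆ ^ (Nat.card (Abelianization Q₁)) = 1 := by
    have h1 : f₁ ⟨x, hx⟩ ^ (Nat.card (Abelianization Q₁)) = 1 := by
      rw [← map_pow]
      have h2 : (σ x).1 ^ (Nat.card (Abelianization Q₁)) ∈ commutator Q₁ := by
        have h3 : (Abelianization.of (σ x).1) ^ (Nat.card (Abelianization Q₁)) = 1 := pow_card_eq_one'
        rw [← map_pow] at h3
        exact (QuotientGroup.eq_one_iff _).mp h3
      -- lift to E₁
      have h3 : (commutator E₁).map ((MonoidHom.fst Q₁ Q₂).comp (σ.comp E₁.subtype)) = commutator Q₁ := by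
        rw [_root_.commutator_def, Subgroup.map_commutator, Subgroup.map_top_of_surjective, _root_.commutator_def]
        intro q
        obtain ⟨g, hg⟩ := hs (q, 1)
        refine ⟨⟨g, ?_⟩, ?_⟩
        · rw [hE₁, hg]
        · change (σ g).1 = q
          rw [hg]
      rw [← h3] at h2
      obtain ⟨c, hc', hcx⟩ := h2
      have h4 : f₁ c = 1 := comm_le_ker f₁ (fun u v => Subtype.ext (mem_center_iff.mp v.2 u)) hc'
      have h5 : c⁻¹ * ⟨x, hx⟩ ^ (Nat.card (Abelianization Q₁)) ∈ f₁.ker := by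
        rw [MonoidHom.mem_ker]
        apply Subtype.ext
        change ⁅((c⁻¹ * (⟨x, hx⟩ : E₁) ^ (Nat.card (Abelianization Q₁)) : E₁) : Γ), y⁆ = 1
        have h6 : ((c⁻¹ * (⟨x, hx⟩ : E₁) ^ (Nat.card (Abelianization Q₁)) : E₁) : Γ) ∈ center Γ := by
          apply hc
          rw [MonoidHom.mem_ker]
          change σ ((c : Γ)⁻¹ * x ^ (Nat.card (Abelianization Q₁))) = 1
          rw [map_mul, map_inv, map_pow]
          refine Prod.ext ?_ ?_
          · change ((σ c).1)⁻¹ * (σ x).1 ^ _ = 1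
            rw [inv_mul_eq_one]
            exact hcx
          · change ((σ c).2)⁻¹ * (σ x).2 ^ _ = 1
            rw [hx, one_pow, mul_one, inv_eq_one]
            exact c.2
        rw [commutatorElement_eq_one_iff_mul_comm]
        exact (mem_center_iff.mp h6 y).symm
      rw [MonoidHom.mem_ker, map_mul, map_inv, h4, inv_one, one_mul] at h5
      exact h5
    exact congrArg Subtype.val h1
  have hn2 : ⁅x, y⁆ ^ (Nat.card (Abelianization Q₂)) = 1 := by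
    have h1 : f₂ ⟨y, hy⟩ ^ (Nat.card (Abelianization Q₂)) = 1 := by
      rw [← map_pow]
      have h2 : (σ y).2 ^ (Nat.card (Abelianization Q₂)) ∈ commutator Q₂ := by
        have h3 : (Abelianization.of (σ y).2) ^ (Nat.card (Abelianization Q₂)) = 1 := pow_card_eq_one'
        rw [← map_pow] at h3
        exact (QuotientGroup.eq_one_iff _).mp h3
      have h3 : (commutator E₂).map ((MonoidHom.snd Q₁ Q₂).comp (σ.comp E₂.subtype)) = commutator Q₂ := by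
        rw [_root_.commutator_def, Subgroup.map_commutator, Subgroup.map_top_of_surjective, _root_.commutator_def]
        intro q
        obtain ⟨g, hg⟩ := hs (1, q)
        refine ⟨⟨g, ?_⟩, ?_⟩
        · rw [hE₂, hg]
        · change (σ g).2 = q
          rw [hg]
      rw [← h3] at h2
      obtain ⟨c, hc', hcx⟩ := h2
      have h4 : f₂ c = 1 := comm_le_ker f₂ (fun u v => Subtype.ext (mem_center_iff.mp v.2 u)) hc'
      have h5 : c⁻¹ * ⟨y, hy⟩ ^ (Nat.card (Abelianization Q₂)) ∈ f₂.ker := by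
        rw [MonoidHom.mem_ker]
        apply Subtype.ext
        change ⁅x, ((c⁻¹ * (⟨y, hy⟩ : E₂) ^ (Nat.card (Abelianization Q₂)) : E₂) : Γ)⁆ = 1
        have h6 : ((c⁻¹ * (⟨y, hy⟩ : E₂) ^ (Nat.card (Abelianization Q₂)) : E₂) : Γ) ∈ center Γ := by
          apply hc
          rw [MonoidHom.mem_ker]
          change σ ((c : Γ)⁻¹ * y ^ (Nat.card (Abelianization Q₂))) = 1
          rw [map_mul, map_inv, map_pow]
          refine Prod.ext ?_ ?_
          · change ((σ c).1)⁻¹ * (σ y).1 ^ _ = 1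
            rw [hy, one_pow, mul_one, inv_eq_one]
            exact c.2
          · change ((σ c).2)⁻¹ * (σ y).2 ^ _ = 1
            rw [inv_mul_eq_one]
            exact hcx
        rw [commutatorElement_eq_one_iff_mul_comm]
        exact mem_center_iff.mp h6 x
      rw [MonoidHom.mem_ker, map_mul, map_inv, h4, inv_one, one_mul] at h5
      exact h5
    exact congrArg Subtype.val h1
  have h7 : orderOf ⁅x, y⁆ = 1 := Nat.eq_one_of_dvd_coprimes hcop (orderOf_dvd_of_pow_eq_one hn1) (orderOf_dvd_of_pow_eq_one hn2)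
  rw [orderOf_eq_one_iff, commutatorElement_eq_one_iff_mul_comm] at h7
  exact h7


/-- Let `Q₁` and `Q₂` be finite groups whose commutator quotients have coprime orders, with Schur multipliers `A` and `B`. Then the Schur multiplier of `Q₁ × Q₂` is isomorphic to `A × B`. -/
theorem result {Q₁ : Type u} {Q₂ : Type v} [Group Q₁] [Group Q₂] [Finite Q₁] [Finite Q₂] {A B : Type w} [CommGroup A] [CommGroup B] (hA : Cfsg.HasSchurMultiplier Q₁ A) (hB : Cfsg.HasSchurMultiplier Q₂ B) (hcop : Nat.Coprime (Nat.card (Abelianization Q₁)) (Nat.card (Abelianization Q₂))) : Cfsg.HasSchurMultiplier (Q₁ × Q₂) (A × B) := by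
  obtain ⟨Γ₁, _, _, σ₁, h₁, ⟨e₁⟩⟩ := hA.1
  obtain ⟨Γ₂, _, _, σ₂, h₂, ⟨e₂⟩⟩ := hB.1
  obtain ⟨hst, ⟨e⟩⟩ := prod_stem σ₁ σ₂ h₁ h₂
  refine ⟨⟨Γ₁ × Γ₂, inferInstance, inferInstance, σ₁.prodMap σ₂, hst, ⟨e.trans (MulEquiv.prodCongr e₁ e₂)⟩⟩, ?_⟩
  intro Γ _ _ σ hσ
  obtain ⟨hs, hc, hd⟩ := hσ
  let E₁ : Subgroup Γ := (MonoidHom.snd Q₁ Q₂ |>.comp σ).ker
  let E₂ : Subgroup Γ := (MonoidHom.fst Q₁ Q₂ |>.comp σ).ker
  have hE₁ : ∀ a, a ∈ E₁ ↔ (σ a).2 = 1 := fun a => Iff.rfl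
  have hE₂ : ∀ a, a ∈ E₂ ↔ (σ a).1 = 1 := fun a => Iff.rfl
  let s₁ : E₁ →* Q₁ := (MonoidHom.fst Q₁ Q₂).comp (σ.comp E₁.subtype)
  let s₂ : E₂ →* Q₂ := (MonoidHom.snd Q₁ Q₂).comp (σ.comp E₂.subtype)
  have hk₁ : ∀ a : E₁, a ∈ s₁.ker → (a : Γ) ∈ σ.ker := by
    intro a ha
    rw [MonoidHom.mem_ker]
    exact Prod.ext ha a.2
  have hk₂ : ∀ a : E₂, a ∈ s₂.ker → (a : Γ) ∈ σ.ker := by
    intro a ha
    rw [MonoidHom.mem_ker]
    exact Prod.ext a.2 ha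
  have hss₁ : Function.Surjective s₁ := by
    intro q
    obtain ⟨g, hg⟩ := hs (q, 1)
    refine ⟨⟨g, ?_⟩, ?_⟩
    · rw [hE₁, hg]
    · change (σ g).1 = q
      rw [hg]
  have hss₂ : Function.Surjective s₂ := by
    intro q
    obtain ⟨g, hg⟩ := hs (1, q)
    refine ⟨⟨g, ?_⟩, ?_⟩
    · rw [hE₂, hg]
    · change (σ g).2 = q
      rw [hg]
  have hcc₁ : s₁.ker ≤ center E₁ := by
    intro a ha
    rw [mem_center_iff]
    intro g
    exact Subtype.ext (mem_center_iff.mp (hc (hk₁ a ha)) g)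
  have hcc₂ : s₂.ker ≤ center E₂ := by
    intro a ha
    rw [mem_center_iff]
    intro g
    exact Subtype.ext (mem_center_iff.mp (hc (hk₂ a ha)) g)
  obtain ⟨π₁, hπ₁⟩ := Cfsg.Agent.H23.Schur.surj_of_multiplier hA s₁ hss₁ hcc₁
  obtain ⟨π₂, hπ₂⟩ := Cfsg.Agent.H23.Schur.surj_of_multiplier hB s₂ hss₂ hcc₂
  have hcomm : ∀ x y : Γ, (σ x).2 = 1 → (σ y).1 = 1 → x * y = y * x := comm_one σ hc hs hcop
  let π : A × B →* σ.ker :=
    { toFun := fun q => ⟨((π₁ q.1 : E₁) : Γ) * ((π₂ q.2 : E₂) : Γ),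
        mul_mem (hk₁ _ (π₁ q.1).2.1) (hk₂ _ (π₂ q.2).2.1)⟩
      map_one' := by
        apply Subtype.ext
        simp
      map_mul' := by
        intro q r
        apply Subtype.ext
        have h1 := mem_center_iff.mp (hc (hk₁ _ (π₁ r.1).2.1)) ((π₂ q.2 : E₂) : Γ)
        change ((π₁ (q.1 * r.1) : E₁) : Γ) * ((π₂ (q.2 * r.2) : E₂) : Γ) =
          ((π₁ q.1 : E₁) : Γ) * ((π₂ q.2 : E₂) : Γ) * (((π₁ r.1 : E₁) : Γ) * ((π₂ r.2 : E₂) : Γ))
        rw [map_mul, map_mul]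
        change ((π₁ q.1 : E₁) : Γ) * ((π₁ r.1 : E₁) : Γ) * (((π₂ q.2 : E₂) : Γ) * ((π₂ r.2 : E₂) : Γ)) = _
        calc ((π₁ q.1 : E₁) : Γ) * ((π₁ r.1 : E₁) : Γ) * (((π₂ q.2 : E₂) : Γ) * ((π₂ r.2 : E₂) : Γ))
            = ((π₁ q.1 : E₁) : Γ) * (((π₁ r.1 : E₁) : Γ) * ((π₂ q.2 : E₂) : Γ)) * ((π₂ r.2 : E₂) : Γ) := by group
          _ = ((π₁ q.1 : E₁) : Γ) * (((π₂ q.2 : E₂) : Γ) * ((π₁ r.1 : E₁) : Γ)) * ((π₂ r.2 : E₂) : Γ) := by rw [h1]
          _ = _ := by group }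
  refine ⟨π, ?_⟩
  rintro ⟨k, hk⟩
  -- decomposition of Γ
  have hdec : ∀ g : Γ, ∃ x y, (σ x).2 = 1 ∧ (σ y).1 = 1 ∧ g = x * y := by
    intro g
    obtain ⟨x, hx⟩ := hs ((σ g).1, 1)
    refine ⟨x, x⁻¹ * g, by rw [hx], ?_, by group⟩
    rw [map_mul, map_inv, hx]
    simp
  have hN₁ : (⁅E₁, E₁⁆).Normal := inferInstance
  have hle : commutator Γ ≤ ⁅E₁, E₁⁆ ⊔ ⁅E₂, E₂⁆ := by
    rw [_root_.commutator_def, Subgroup.commutator_le]
    intro g _ g' _
    obtain ⟨x, y, hx, hy, rfl⟩ := hdec g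
    obtain ⟨x', y', hx', hy', rfl⟩ := hdec g'
    have h1 : ⁅x * y, x' * y'⁆ = ⁅x, x'⁆ * ⁅y, y'⁆ := by
      have a1 := hcomm x' y hx' hy
      have a2 := hcomm x y' hx hy'
      have a3 := hcomm x y hx hy
      have a4 := hcomm x' y' hx' hy'
      have c1 : Commute x' y := a1
      have c2 : Commute x y' := a2
      have c3 : Commute x y := a3
      have c4 : Commute x' y' := a4
      simp only [commutatorElement_def, mul_inv_rev]
      calc x * y * (x' * y') * (y⁻¹ * x⁻¹) * (y'⁻¹ * x'⁻¹)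
          = x * (y * x') * y' * y⁻¹ * (x⁻¹ * y'⁻¹) * x'⁻¹ := by group
        _ = x * (x' * y) * y' * y⁻¹ * (y'⁻¹ * x⁻¹) * x'⁻¹ := by
            rw [c1.symm.eq, (c2.inv_inv).eq]
        _ = x * x' * (y * y' * y⁻¹ * y'⁻¹) * (x⁻¹ * x'⁻¹) := by group
        _ = x * x' * ((x⁻¹ * x'⁻¹) * (y * y' * y⁻¹ * y'⁻¹)) := by
            have c5 : Commute (y * y' * y⁻¹ * y'⁻¹) (x⁻¹ * x'⁻¹) := by
              have d1 : Commute y (x⁻¹ * x'⁻¹) := (c3.symm.inv_right).mul_right (c1.symm.inv_right)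
              have d2 : Commute y' (x⁻¹ * x'⁻¹) := (c2.symm.inv_right).mul_right (c4.symm.inv_right)
              exact (((d1.mul_left d2).mul_left d1.inv_left).mul_left d2.inv_left)
            rw [mul_assoc (x * x'), c5.eq]
        _ = _ := by group
    rw [h1]
    exact mul_mem (mem_sup_left (Subgroup.commutator_mem_commutator hx hx'))
      (mem_sup_right (Subgroup.commutator_mem_commutator hy hy'))
  obtain ⟨c₁, hc₁, c₂, hc₂, hcc⟩ := mem_sup_of_normal_left.mp (hle (hd hk))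
  have hc₁E : c₁ ∈ E₁ := (Subgroup.commutator_le_self E₁) hc₁
  have hc₂E : c₂ ∈ E₂ := (Subgroup.commutator_le_self E₂) hc₂
  have hσk : σ c₁ * σ c₂ = 1 := by rw [← map_mul, hcc]; exact hk
  have hσ1 : (σ c₁).1 = 1 := by
    have h1 := congrArg Prod.fst hσk
    simp only [Prod.fst_mul, Prod.fst_one] at h1
    rwa [(hE₂ c₂).mp hc₂E, mul_one] at h1
  have hσ2 : (σ c₂).2 = 1 := by
    have h1 := congrArg Prod.snd hσk
    simp only [Prod.snd_mul, Prod.snd_one] at h1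
    rwa [(hE₁ c₁).mp hc₁E, one_mul] at h1
  have hm : ∀ (E : Subgroup Γ) (c : Γ) (hcE : c ∈ E), c ∈ ⁅E, E⁆ → (⟨c, hcE⟩ : E) ∈ commutator E := by
    intro E c hcE hcc
    have h1 : (commutator E).map E.subtype = ⁅E, E⁆ := by
      rw [_root_.commutator_def, Subgroup.map_commutator, ← MonoidHom.range_eq_map, Subgroup.range_subtype]
    rw [← h1] at hcc
    obtain ⟨d, hd, hdc⟩ := hcc
    have : d = ⟨c, hcE⟩ := Subtype.ext hdc
    rw [← this]
    exact hd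
  obtain ⟨a, ha⟩ := hπ₁ ⟨⟨c₁, hc₁E⟩, hσ1, hm E₁ c₁ hc₁E hc₁⟩
  obtain ⟨b, hb⟩ := hπ₂ ⟨⟨c₂, hc₂E⟩, hσ2, hm E₂ c₂ hc₂E hc₂⟩
  refine ⟨(a, b), ?_⟩
  apply Subtype.ext
  change ((π₁ a : E₁) : Γ) * ((π₂ b : E₂) : Γ) = k
  rw [ha, hb]
  exact hcc

end Cfsg.Agent.S3980
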