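import Cfsg.Statements.S3992
import Cfsg.Agent.H12_CN
import Cfsg.Agent.H1_Hall
import Cfsg.Agent.H1_Fpf
import Cfsg.Agent.H22_Hall
import Cfsg.Agent.H21_MinNorm
import Cfsg.Agent.H23_Rad
import Cfsg.Agent.H2_Card
import Cfsg.Agent.H24_Tools
import Cfsg.Agent.H1_Nilp
import Cfsg.Agent.H1_Coprime2
import Cfsg.Agent.H11_Cores

set_option autoImplicit false
open Cfsg

namespace Cfsg.Agent.S3992

open Subgroup
open scoped Pointwise

universe u

def Eppo (G : Type*) [Group G] : Prop := ∀ g : G, g ≠ 1 → IsPrimePow (orderOf g)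

theorem Eppo.no {G : Type*} [Group G] [Finite G] (h : Eppo G) {x y : G} {p q : ℕ} (hp : p.Prime) (hq : q.Prime) (hpq : p ≠ q)
    (hx : p ∣ orderOf x) (hy : q ∣ orderOf y) (hc : x * y = y * x) : False := by
  obtain ⟨a, ha⟩ := hx
  obtain ⟨b, hb⟩ := hy
  have ha0 : 0 < a := Nat.pos_of_ne_zero (by rintro rfl; rw [mul_zero] at ha; exact (orderOf_pos x).ne' ha)
  have hb0 : 0 < b := Nat.pos_of_ne_zero (by rintro rfl; rw [mul_zero] at hb; exact (orderOf_pos y).ne' hb)
  have hxa : orderOf (x ^ a) = p := by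
    rw [orderOf_pow, ha, Nat.gcd_eq_right (dvd_mul_left _ _), Nat.mul_div_cancel _ ha0]
  have hyb : orderOf (y ^ b) = q := by
    rw [orderOf_pow, hb, Nat.gcd_eq_right (dvd_mul_left _ _), Nat.mul_div_cancel _ hb0]
  have hcomm : Commute (x ^ a) (y ^ b) := (show Commute x y from hc).pow_pow a b
  have ho : orderOf (x ^ a * y ^ b) = p * q := by
    rw [hcomm.orderOf_mul_eq_mul_orderOf_of_coprime (by rw [hxa, hyb]; exact (Nat.coprime_primes hp hq).2 hpq), hxa, hyb]
  have h1 := h (x ^ a * y ^ b) (by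
    intro h1
    rw [h1, orderOf_one] at ho
    exact hp.ne_one (Nat.eq_one_of_mul_eq_one_right ho.symm))
  rw [ho] at h1
  obtain ⟨l, e, hl, he, hle⟩ := h1
  have hl' := hl.nat_prime
  have h2 : p ∣ l ^ e := hle ▸ dvd_mul_right _ _
  have h3 : q ∣ l ^ e := hle ▸ dvd_mul_left _ _
  have h4 : p = l := (Nat.prime_dvd_prime_iff_eq hp hl').mp (hp.dvd_of_dvd_pow h2)
  have h5 : q = l := (Nat.prime_dvd_prime_iff_eq hq hl').mp (hq.dvd_of_dvd_pow h3)
  exact hpq (h4.trans h5.symm)

theorem Eppo.quotient {G : Type*} [Group G] [Finite G] (h : Eppo G) (N : Subgroup G) [N.Normal] : Eppo (G ⧸ N) := by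
  intro x hx
  obtain ⟨g, rfl⟩ := QuotientGroup.mk'_surjective N x
  have h1 : orderOf (QuotientGroup.mk' N g) ∣ orderOf g := orderOf_map_dvd _ g
  have hg : g ≠ 1 := by rintro rfl; exact hx (map_one _)
  exact (h g hg).dvd h1 (by rwa [Ne, orderOf_eq_one_iff])

theorem Eppo.subgroup {G : Type*} [Group G] (h : Eppo G) (H : Subgroup G) : Eppo H := by
  intro x hx
  rw [← orderOf_coe]
  exact h x (fun h => hx (Subtype.ext h))

/-- a group whose order has a unique prime divisor -/
theorem isPGroup_of_forall {G : Type*} [Group G] [Finite G] {p : ℕ} (hp : p.Prime)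
    (h : ∀ q : ℕ, q.Prime → q ∣ Nat.card G → q = p) : IsPGroup p G := by
  exact IsPGroup.of_card (Nat.eq_prime_pow_of_unique_prime_dvd Nat.card_pos.ne' (fun {d} hd hdvd => h d hd hdvd))

/-- the radical is a p-group -/
theorem rad_part {G : Type u} [Group G] [Finite G] (h : Eppo G) (hns : ¬ Group.IsSolvable G) (R : Subgroup G) [hRn : R.Normal]
    (hRs : Group.IsSolvable ↥R) : ∃ p : ℕ, p.Prime ∧ IsPGroup p ↥R := by
  classical
  rcases eq_or_ne R ⊥ with rfl | hRb
  · exact ⟨2, Nat.prime_two, IsPGroup.of_card (n := 0) (by simp)⟩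
  obtain ⟨V0, hV0R, hV0n, hV0b, hV0min⟩ := H1.Hall.exists_minimal_normal hRn hRb
  haveI := hV0n
  have hV0s := H23.Rad.solvable_of_le hV0R hRs
  obtain ⟨p, hp, hV0p⟩ := H22.Hall.minimal_normal_isPGroup V0 hV0s hV0b hV0min
  haveI : Fact p.Prime := ⟨hp⟩
  refine ⟨p, hp, ?_⟩
  -- V := O_p(R)
  set V := (Cfsg.pCore p R).map R.subtype with hV
  haveI hVn : V.Normal := H11.Cores.map_subtype_normal_of_characteristic _ _
  have hVp : IsPGroup p V := (H1.Nilp.pCore_isPGroup p).map _
  have hVR : V ≤ R := map_subtype_le _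
  have hVmax : ∀ W : Subgroup G, W.Normal → W ≤ R → IsPGroup p W → W ≤ V := by
    intro W hW hWR hWp x hx
    have h1 : (W.subgroupOf R).Normal := hW.subgroupOf R
    exact ⟨⟨x, hWR hx⟩, H1.Nilp.le_pCore h1 hWp.comap_subtype hx, rfl⟩
  by_contra hRp
  have hVne : V ≠ R := by
    intro h1; rw [← h1] at hRp; exact hRp hVp
  set q := QuotientGroup.mk' V with hq
  have hqs := QuotientGroup.mk'_surjective V
  have hRq : (R.map q).Normal := Normal.map hRn q hqs
  have hRqb : R.map q ≠ ⊥ := by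
    intro h1
    rw [Subgroup.map_eq_bot_iff, hq, QuotientGroup.ker_mk'] at h1
    exact hVne (le_antisymm hVR h1)
  obtain ⟨Wb, hWbR, hWbn, hWbb, hWbmin⟩ := H1.Hall.exists_minimal_normal hRq hRqb
  haveI := hWbn
  have hWbs : Group.IsSolvable Wb := H23.Rad.solvable_of_le hWbR (H23.Rad.solvable_map q hRs)
  obtain ⟨r, hr, hWbr⟩ := H22.Hall.minimal_normal_isPGroup Wb hWbs hWbb hWbmin
  haveI : Fact r.Prime := ⟨hr⟩
  set W := Wb.comap q with hW
  have hWn : W.Normal := hWbn.comap q
  have hVW : V ≤ W := by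
    intro l hl
    rw [hW, mem_comap]
    have : q l = 1 := (QuotientGroup.eq_one_iff l).2 hl
    rw [this]; exact one_mem _
  have hWR : W ≤ R := by
    have h2 : W ≤ (R.map q).comap q := comap_mono hWbR
    rwa [comap_map_eq, hq, QuotientGroup.ker_mk', sup_eq_left.2 hVR] at h2
  have hWq : W.map q = Wb := map_comap_eq_self_of_surjective hqs _
  have hrel : V.relIndex W = Nat.card Wb := by
    rw [← hWq, ← MonoidHom.domRestrict_range, ← index_ker, MonoidHom.ker_domRestrict, hq, QuotientGroup.ker_mk']; rfl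
  have hrp : r ≠ p := by
    rintro rfl
    have h1 : IsPGroup r W := by
      apply hWbr.comap_of_ker_isPGroup
      rw [hq, QuotientGroup.ker_mk']; exact hVp
    have h2 := hVmax W hWn hWR h1
    apply hWbb
    rw [← hWq, Subgroup.map_eq_bot_iff, hq, QuotientGroup.ker_mk']
    exact h2
  obtain ⟨a, ha⟩ := IsPGroup.iff_card.1 hVp
  obtain ⟨b, hb⟩ := IsPGroup.iff_card.1 hWbr
  have hcop : (Nat.card V).Coprime (V.relIndex W) := by
    rw [hrel, ha, hb]
    exact Nat.Coprime.pow _ _ ((Nat.coprime_primes hp hr).2 hrp.symm)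
  obtain ⟨Q, hQW, hQc, hQd, hQs⟩ := H1.Coprime.sz_exists hVW (by rw [normalizer_eq_top]; exact le_top) hcop
  have hQp : IsPGroup r Q := IsPGroup.of_card (n := b) (by rw [hQc, hrel, hb])
  have hb0 : b ≠ 0 := by
    rintro rfl
    rw [pow_zero] at hb
    exact hWbb (Subgroup.card_eq_one.1 hb)
  have hQb : Q ≠ ⊥ := by
    rintro rfl
    rw [Subgroup.card_bot, hrel, hb] at hQc
    exact hb0 (by
      by_contra h0
      exact absurd hQc.symm (Nat.one_lt_pow h0 hr.one_lt).ne')
  -- Q is commutative of exponent r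
  haveI : Nontrivial Wb := (Subgroup.nontrivial_iff_ne_bot Wb).2 hWbb
  have hWbc : ⁅Wb, Wb⁆ = ⊥ := by
    rcases hWbmin ⁅Wb, Wb⁆ inferInstance (Subgroup.commutator_le_self Wb) with h | h
    · exact h
    · exfalso
      have h1 : commutator Wb < ⊤ := by
        haveI := hWbs
        exact Group.IsSolvable.commutator_lt_top_of_nontrivial Wb
      have h2 : (commutator Wb).map Wb.subtype = ⁅Wb, Wb⁆ := by
        rw [_root_.commutator_def, Subgroup.map_commutator, ← MonoidHom.range_eq_map, Wb.range_subtype]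
      rw [h] at h2
      have h5 : Nat.card ((commutator Wb).map Wb.subtype) = Nat.card (commutator Wb) :=
        Subgroup.card_map_of_injective Wb.subtype_injective
      have h3 : Nat.card (commutator Wb) = Nat.card Wb := by
        rw [← h5, h2]
      exact h1.ne (Subgroup.eq_top_of_card_eq _ h3)
  haveI hQc' : IsMulCommutative Q := by
    refine ⟨⟨fun x y => ?_⟩⟩
    apply Subtype.ext
    have h1 : (x : G) * y * (x : G)⁻¹ * (y : G)⁻¹ ∈ Q ⊓ V := by
      refine mem_inf.2 ⟨mul_mem (mul_mem (mul_mem x.2 y.2) (inv_mem x.2)) (inv_mem y.2), ?_⟩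
      rw [← QuotientGroup.eq_one_iff]
      change q _ = 1
      have h2 : q x ∈ Wb := hQW x.2
      have h3 : q y ∈ Wb := hQW y.2
      have h4 := Subgroup.commutator_mem_commutator h2 h3
      rw [hWbc, mem_bot] at h4
      rw [map_mul, map_mul, map_mul, map_inv, map_inv]
      exact h4
    rw [hQd, mem_bot, mul_inv_eq_one, mul_inv_eq_iff_eq_mul] at h1
    exact h1
  haveI hV0c : IsMulCommutative V0 := by
    haveI := hV0s
    haveI : Nontrivial V0 := (Subgroup.nontrivial_iff_ne_bot V0).2 hV0b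
    rw [← Subgroup.commutator_self_eq_bot_iff]
    rcases hV0min ⁅V0, V0⁆ inferInstance (Subgroup.commutator_le_self V0) with h | h
    · exact h
    · exfalso
      have h1 : commutator V0 < ⊤ := Group.IsSolvable.commutator_lt_top_of_nontrivial V0
      have h2 : (commutator V0).map V0.subtype = ⁅V0, V0⁆ := by
        rw [_root_.commutator_def, Subgroup.map_commutator, ← MonoidHom.range_eq_map, V0.range_subtype]
      rw [h] at h2
      have h5 : Nat.card ((commutator V0).map V0.subtype) = Nat.card (commutator V0) :=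
        Subgroup.card_map_of_injective V0.subtype_injective
      have h3 : Nat.card (commutator V0) = Nat.card V0 := by
        rw [← h5, h2]
      exact h1.ne (Subgroup.eq_top_of_card_eq _ h3)
  have hdvd : ∀ {s : ℕ} (hs : s.Prime) {S : Subgroup G} (hS : IsPGroup s S) (x : G), x ∈ S → x ≠ 1 → s ∣ orderOf x := by
    intro s hs S hS x hx hx1
    haveI : Fact s.Prime := ⟨hs⟩
    obtain ⟨k, hk⟩ := H24.Tools.exists_orderOf hS hx
    rw [hk]
    apply dvd_pow_self
    rintro rfl
    rw [pow_zero, orderOf_eq_one_iff] at hk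
    exact hx1 hk
  have hcyc : IsCyclic Q := H1.Fpf.isCyclic_of_fpf_comm Q V0 hV0b (by rw [normalizer_eq_top]; exact le_top) (by
    intro y hy hy1
    rw [eq_bot_iff]
    rintro v ⟨hv, hvy⟩
    rw [mem_bot]
    by_contra hv1
    exact h.no hp hr hrp.symm (hdvd hp hV0p v hv hv1) (hdvd hr hQp y hy hy1) (mem_centralizer_singleton_iff.1 hvy))
  -- Frattini
  have hfr : ∀ g : G, ∃ v ∈ V, ∃ n ∈ normalizer (Q : Set G), g = v * n := by
    intro g
    have hgQ : MulAut.conj g • Q ≤ Q ⊔ V := by
      rw [hQs]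
      intro y hy
      rw [H24.Tools.mem_conj] at hy
      have h1 := hWn.conj_mem _ (hQW hy) g
      have h2 : g * (g⁻¹ * y * g) * g⁻¹ = y := by group
      rwa [h2] at h1
    obtain ⟨v, hv, hvc⟩ := H1.Coprime.sz_internal (A := Q) (B := MulAut.conj g • Q) (K := V) (by
        rw [normalizer_eq_top]; exact le_top) hgQ (H1.Basic.card_conj _ _) (by rw [hQc]; exact hcop.symm)
        (Or.inr (H23.Rad.solvable_of_pgroup hVp))
    refine ⟨v, hv, v⁻¹ * g, ?_, by group⟩
    apply H24.Tools.mem_normalizer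
    intro z hz
    have h1 : g * z * g⁻¹ ∈ MulAut.conj g • Q := by
      rw [H24.Tools.mem_conj]
      have : g⁻¹ * (g * z * g⁻¹) * g = z := by group
      rw [this]; exact hz
    rw [← hvc, H24.Tools.mem_conj] at h1
    convert h1 using 1
    group
  -- the centraliser of Q is an r-group
  have hCr : IsPGroup r (centralizer (Q : Set G)) := by
    obtain ⟨⟨y, hy⟩, hy1⟩ := ne_bot_iff_exists_ne_one.1 hQb
    apply isPGroup_of_forall hr
    intro s hs hsd
    by_contra hsr
    haveI : Fact s.Prime := ⟨hs⟩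
    obtain ⟨x, hx⟩ := exists_prime_orderOf_dvd_card' s hsd
    refine h.no (x := (x : G)) (y := y) hs hr hsr (by rw [orderOf_coe, hx])
      (hdvd hr hQp y hy (fun h => hy1 (Subtype.ext h))) (mem_centralizer_iff.1 x.2 y hy).symm
  have hCs : Group.IsSolvable (centralizer (Q : Set G)) := H23.Rad.solvable_of_pgroup hCr
  have hNs : Group.IsSolvable (normalizer (Q : Set G)) := by
    letI : CommGroup (MulAut Q) := (IsCyclic.mulAutMulEquiv Q).toMonoidHom.commGroupOfInjective (IsCyclic.mulAutMulEquiv Q).injective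
    haveI := hCs
    refine Group.isSolvable_of_ker_le_range (Subgroup.inclusion (centralizer_le_normalizer (Q : Set G))) Q.normalizerMonoidHom ?_
    rw [Subgroup.normalizerMonoidHom_ker, Subgroup.inclusion_range]
  have hGq : Group.IsSolvable (G ⧸ V) := by
    haveI := hNs
    apply Group.isSolvable_of_surjective (f := q.comp (normalizer (Q : Set G)).subtype)
    intro x
    obtain ⟨g, rfl⟩ := hqs x
    obtain ⟨v, hv, n, hn, rfl⟩ := hfr g
    refine ⟨⟨n, hn⟩, ?_⟩
    have h1 : q v = 1 := (QuotientGroup.eq_one_iff v).2 hv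
    rw [map_mul, h1, one_mul]
    rfl
  exact hns (H23.Rad.solvable_quot V (H23.Rad.solvable_of_pgroup hVp) hGq)

/-- the simple part -/
theorem simple_part {G : Type u} [Group G] [Finite G] (h : Eppo G) (hrad : ∀ N : Subgroup G, N.Normal → Group.IsSolvable N → N = ⊥)
    (hne : Nontrivial G) : ∃ M : Subgroup G, M.Normal ∧ IsSimpleGroup ↥M ∧ ¬ IsMulCommutative ↥M ∧
        ∀ N : Subgroup G, N.Normal → N ≠ ⊥ → M ≤ N := by
  classical
  obtain ⟨M, hMn, hMb, hmin⟩ := H1.Hall.exists_minimal_normal_of_nontrivial G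
  haveI := hMn
  have hMns : ¬ Group.IsSolvable M := fun hs => hMb (hrad M hMn hs)
  obtain ⟨T, hT⟩ := H21.MinNorm.exists_MS hMb
  have hTM : T ≤ M := hT.1.1
  have hTb : T ≠ ⊥ := hT.1.2.1
  have hTM' : (T.subgroupOf M).Normal := by
    constructor
    intro t ht m
    exact hT.1.2.2 m m.2 t ht
  -- T is not an r-group
  have hTr : ∀ r : ℕ, r.Prime → ¬ IsPGroup r T := by
    intro r hr hTp
    haveI : Fact r.Prime := ⟨hr⟩
    have h1 : T.subgroupOf M ≤ Cfsg.pCore r M := H1.Nilp.le_pCore hTM' hTp.comap_subtype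
    have h2 : ((Cfsg.pCore r M).map M.subtype).Normal := H11.Cores.map_subtype_normal_of_characteristic _ _
    rcases hmin _ h2 (map_subtype_le _) with h3 | h3
    · apply hTb
      rw [eq_bot_iff, ← h3]
      intro t ht
      exact ⟨⟨t, hTM ht⟩, h1 ht, rfl⟩
    · apply hMns
      rw [← h3]
      exact H23.Rad.solvable_map _ (H23.Rad.solvable_of_pgroup (H1.Nilp.pCore_isPGroup r))
  have two : ∀ S : Subgroup G, S ≠ ⊥ → (∀ s ∈ S, ∀ t ∈ T, s * t = t * s) → False := by
    intro S hS hc
    obtain ⟨q, hq, hqS⟩ := Nat.exists_prime_and_dvd (n := Nat.card S) (fun h => hS (Subgroup.card_eq_one.1 h))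
    obtain ⟨r, hr, hrT, hrq⟩ : ∃ r : ℕ, r.Prime ∧ r ∣ Nat.card T ∧ r ≠ q := by
      by_contra hcon
      push Not at hcon
      exact hTr q hq (isPGroup_of_forall hq hcon)
    haveI : Fact q.Prime := ⟨hq⟩
    haveI : Fact r.Prime := ⟨hr⟩
    obtain ⟨s, hs⟩ := exists_prime_orderOf_dvd_card' q hqS
    obtain ⟨t, ht⟩ := exists_prime_orderOf_dvd_card' r hrT
    exact h.no (x := (s : G)) (y := (t : G)) hq hr (Ne.symm hrq) (by rw [orderOf_coe, hs]) (by rw [orderOf_coe, ht]) (hc s s.2 t t.2)
  -- T = M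
  have hTeq : T = M := by
    by_contra hne
    have hTn : ¬ T.Normal := by
      intro hn
      rcases hmin T hn hTM with h1 | h1
      · exact hTb h1
      · exact hne h1
    have hex : ∃ g : G, H21.MinNorm.cj g T ≠ T := by
      by_contra hcon
      push Not at hcon
      apply hTn
      constructor
      intro t ht g
      rw [← hcon g]
      exact H21.MinNorm.cj_mem ht
    obtain ⟨g, hg⟩ := hex
    obtain ⟨-, hcomm⟩ := (hT.cj hMn g).disj hT hg
    refine two _ (hT.cj hMn g).1.2.1 hcomm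
  subst hTeq
  refine ⟨T, hMn, ?_, ?_, ?_⟩
  · haveI : Nontrivial T := (Subgroup.nontrivial_iff_ne_bot T).2 hTb
    refine ⟨fun K hK => ?_⟩
    rcases hT.2 (K.map T.subtype) (map_subtype_le _) (by
      rintro n hn _ ⟨k, hk, rfl⟩
      exact ⟨⟨n, hn⟩ * k * ⟨n, hn⟩⁻¹, hK.conj_mem k hk _, rfl⟩) with h1 | h1
    · left
      exact (map_eq_bot_iff_of_injective _ T.subtype_injective).1 h1
    · right
      rw [eq_top_iff]
      intro x _
      have : (x : G) ∈ K.map T.subtype := by rw [h1]; exact x.2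
      obtain ⟨y, hy, hyx⟩ := this
      rwa [← Subtype.ext hyx]
  · intro hc
    exact hMns (Group.isSolvable_of_comm hc.1.1)
  · intro N hN hNb
    haveI := hN
    by_contra hle
    have h1 : T ⊓ N = ⊥ := by
      rcases hmin (T ⊓ N) inferInstance inf_le_left with h1 | h1
      · exact h1
      · exact absurd (inf_eq_left.1 h1) hle
    refine two N hNb (fun s hs t ht => ?_)
    have h2 : s * t * s⁻¹ * t⁻¹ ∈ T ⊓ N := by
      refine mem_inf.2 ⟨mul_mem (hMn.conj_mem t ht s) (inv_mem ht), ?_⟩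
      have : s * t * s⁻¹ * t⁻¹ = s * (t * s⁻¹ * t⁻¹) := by group
      rw [this]
      exact mul_mem hs (hN.conj_mem _ (inv_mem hs) t)
    rw [h1, mem_bot, mul_inv_eq_one, mul_inv_eq_iff_eq_mul] at h2
    exact h2

/-- Let G be a finite non-solvable group in which every element has prime-power order, and let R be its largest solvable normal subgroup. Then R is a p-group for some prime p; G/R has a non-abelian simple normal subgroup contained in every nontrivial normal subgroup of G/R (its unique minimal normal subgroup); and the order of every solvable subgroup of G has at most two prime divisors. -/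
theorem result {G : Type*} [Group G] [Finite G] (hns : ¬ Group.IsSolvable G) (hpp : ∀ g : G, g ≠ 1 → IsPrimePow (orderOf g))
    (R : Subgroup G) [R.Normal] (hRs : Group.IsSolvable ↥R) (hRmax : ∀ N : Subgroup G, N.Normal → Group.IsSolvable ↥N → N ≤ R) :
    (∃ p : ℕ, p.Prime ∧ IsPGroup p ↥R) ∧
      (∃ M : Subgroup (G ⧸ R), M.Normal ∧ IsSimpleGroup ↥M ∧ ¬ IsMulCommutative ↥M ∧
        ∀ N : Subgroup (G ⧸ R), N.Normal → N ≠ ⊥ → M ≤ N) ∧
      ∀ H : Subgroup G, Group.IsSolvable ↥H → (Nat.card ↥H).primeFactors.card ≤ 2 := by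

  have h : Eppo G := hpp
  refine ⟨rad_part h hns R hRs, ?_, ?_⟩
  · apply simple_part (h.quotient R)
    · intro N hN hNs
      have h1 := hRmax (N.comap (QuotientGroup.mk' R)) (hN.comap _) (H23.Rad.solvable_comap hRs hNs)
      rw [eq_bot_iff]
      intro x hx
      obtain ⟨g, rfl⟩ := QuotientGroup.mk'_surjective R x
      rw [mem_bot]
      exact (QuotientGroup.eq_one_iff g).2 (h1 hx)
    · by_contra hnt
      rw [not_nontrivial_iff_subsingleton] at hnt
      exact hns (H23.Rad.solvable_quot R hRs inferInstance)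
  · intro H hH
    haveI := hH
    apply H12.CN.higman
    intro g
    rcases eq_or_ne g 1 with h1 | h1
    · exact Or.inr h1
    · exact Or.inl (h.subgroup H g h1)


end Cfsg.Agent.S3992
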