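import Cfsg.Statements.S3994
import Mathlib
import Cfsg.Agent.H23_PiPart

set_option autoImplicit false
open Cfsg

namespace Cfsg.Agent.S3994

/-- Let G be a finite group and n a positive integer. The number of elements of G whose order is divisible by n is either 0 or divisible by the largest divisor of the order of G that is coprime to n. -/
theorem result {G : Type*} [Group G] [Finite G] (n : ℕ) (hn : 0 < n) :
    Nat.card {g : G // n ∣ orderOf g} = 0 ∨
      (Nat.card G / Nat.gcd (Nat.card G) (n ^ Nat.card G)) ∣ Nat.card {g : G // n ∣ orderOf g} := by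
  classical
  have := Fintype.ofFinite G
  right
  set N := Nat.card G with hN
  have hNpos : 0 < N := Nat.card_pos
  set a := Nat.gcd N (n ^ N) with ha
  have haN : a ∣ N := Nat.gcd_dvd_left _ _
  have hapos : 0 < a := Nat.pos_of_dvd_of_pos haN hNpos
  obtain ⟨b, hb⟩ := haN
  have hNa : N / a = b := by rw [hb]; exact Nat.mul_div_cancel_left b hapos
  rw [hNa]
  have hbpos : 0 < b := Nat.pos_of_ne_zero (by rintro rfl; omega)
  have hbn : Nat.Coprime b n := by
    rw [Nat.coprime_iff_gcd_eq_one]
    by_contra hne
    obtain ⟨q, hq, hqd⟩ := Nat.exists_prime_and_dvd hne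
    have hqb : q ∣ b := hqd.trans (Nat.gcd_dvd_left _ _)
    have hqn : q ∣ n := hqd.trans (Nat.gcd_dvd_right _ _)
    -- q * a divides N and n ^ N
    have h1 : q * a ∣ N := by
      obtain ⟨c, hc⟩ := hqb
      rw [hb, hc]
      exact ⟨c, by ring⟩
    have h2 : q * a ∣ n ^ N := by
      rw [← Nat.factorization_le_iff_dvd (Nat.mul_ne_zero hq.ne_zero hapos.ne') (pow_ne_zero _ hn.ne')]
      intro r
      by_cases hr : r.Prime
      · by_cases hrn : r ∣ n
        · have h3 : (q * a).factorization r ≤ N.factorization r :=
            (Nat.factorization_le_iff_dvd (Nat.mul_ne_zero hq.ne_zero hapos.ne') hNpos.ne').mpr h1 r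
          have h4 : N.factorization r ≤ N := (Nat.factorization_lt r hNpos.ne').le
          rw [Nat.factorization_pow]
          have h5 : 1 ≤ n.factorization r := (hr.dvd_iff_one_le_factorization hn.ne').mp hrn
          simp only [Finsupp.smul_apply, smul_eq_mul]
          nlinarith
        · have h3 : ¬ r ∣ q * a := by
            intro h
            rcases (Nat.Prime.dvd_mul hr).mp h with h4 | h4
            · rw [(Nat.prime_dvd_prime_iff_eq hr hq).mp h4] at hrn
              exact hrn hqn
            · exact hrn (hr.dvd_of_dvd_pow (h4.trans (Nat.gcd_dvd_right _ _)))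
          rw [Nat.factorization_eq_zero_of_not_dvd h3]
          exact Nat.zero_le _
      · rw [Nat.factorization_eq_zero_of_not_prime _ hr]
        exact Nat.zero_le _
    have h3 : q * a ∣ a := Nat.dvd_gcd h1 h2
    have h4 := Nat.le_of_dvd hapos h3
    have h5 := hq.two_le
    nlinarith
  have hab : Nat.Coprime a b := (Nat.Coprime.coprime_dvd_left (Nat.gcd_dvd_right _ _) (hbn.symm.pow_left N))
  obtain ⟨u, v, hu, hu', hv, hv', huv⟩ := Cfsg.Agent.H23.PiPart.exists_exponents a b hab
  have hG : ∀ g : G, g ^ (a * b) = 1 := fun g => by rw [← hb, hN]; exact pow_card_eq_one'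
  have hua : ∀ g : G, (g ^ u) ^ a = 1 := by
    intro g
    obtain ⟨k, hk⟩ := hu'
    rw [← pow_mul, hk]
    have : b * k * a = a * b * k := by ring
    rw [this, pow_mul, hG, one_pow]
  have hvb : ∀ g : G, (g ^ v) ^ b = 1 := by
    intro g
    obtain ⟨k, hk⟩ := hv'
    rw [← pow_mul, hk]
    have : a * k * b = a * b * k := by ring
    rw [this, pow_mul, hG, one_pow]
  have hord : ∀ g : G, n ∣ orderOf g ↔ n ∣ orderOf (g ^ u) := by
    intro g
    constructor
    · intro h
      have h1 : g = g ^ u * g ^ v := by
        rw [← pow_add, Cfsg.Agent.H23.PiPart.pow_modEq (hG g) huv, pow_one]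
      have h2 : orderOf g ∣ orderOf (g ^ u) * orderOf (g ^ v) := by
        conv_lhs => rw [h1]
        exact ((Commute.refl g).pow_pow u v).orderOf_mul_dvd_mul_orderOf
      have h3 : Nat.Coprime n (orderOf (g ^ v)) :=
        (Nat.Coprime.coprime_dvd_left (orderOf_dvd_of_pow_eq_one (hvb g)) hbn).symm
      exact h3.dvd_of_dvd_mul_right (h.trans h2)
    · intro h
      exact h.trans (orderOf_pow_dvd u)
  have hcount : Nat.card {g : G // n ∣ orderOf g} =
      ∑ y ∈ Finset.univ.filter (fun y : G => y ^ a = 1 ∧ n ∣ orderOf y),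
        Nat.card {z : Subgroup.centralizer ({y} : Set G) // z ^ b = 1} := by
    rw [Nat.card_eq_fintype_card, Fintype.card_subtype,
      Finset.card_eq_sum_card_fiberwise (f := fun g => g ^ u)
        (t := Finset.univ.filter (fun y : G => y ^ a = 1 ∧ n ∣ orderOf y)) (by
          intro g hg
          simp only [Finset.coe_filter, Finset.mem_univ, true_and, Set.mem_setOf_eq] at hg ⊢
          exact ⟨hua g, (hord g).mp hg⟩)]
    apply Finset.sum_congr rfl
    intro y hy
    simp only [Finset.mem_filter, Finset.mem_univ, true_and] at hy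
    rw [← Cfsg.Agent.H23.PiPart.card_fiber a b u v hG hu hu' hv hv' huv y hy.1,
      Nat.card_eq_fintype_card, Fintype.card_subtype, Finset.filter_filter]
    congr 1
    ext g
    simp only [Finset.mem_filter, Finset.mem_univ, true_and]
    constructor
    · exact fun h => h.2
    · intro h
      refine ⟨?_, h⟩
      rw [hord, h]
      exact hy.2
  rw [hcount]
  apply Cfsg.Agent.H23.PiPart.dvd_sum_of_classes
  · intro y z hyz hy
    simp only [Finset.mem_filter, Finset.mem_univ, true_and] at hy ⊢
    obtain ⟨g, rfl⟩ := isConj_iff.mp hyz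
    rw [conj_pow, hy.1]
    refine ⟨by group, ?_⟩
    have : orderOf (g * y * g⁻¹) = orderOf y := by
      have := orderOf_injective (MulAut.conj g).toMonoidHom (MulAut.conj g).injective y
      simpa using this
    rw [this]
    exact hy.2
  · intro y z hyz
    obtain ⟨g, rfl⟩ := isConj_iff.mp hyz
    refine Nat.card_congr
      { toFun := fun x => ⟨⟨g * x.1.1 * g⁻¹, ?_⟩, ?_⟩
        invFun := fun x => ⟨⟨g⁻¹ * x.1.1 * g, ?_⟩, ?_⟩
        left_inv := fun x => Subtype.ext (Subtype.ext (by simp only; group))
        right_inv := fun x => Subtype.ext (Subtype.ext (by simp only; group)) }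
    · rw [Subgroup.mem_centralizer_singleton_iff]
      have h := Subgroup.mem_centralizer_singleton_iff.mp x.1.2
      calc g * x.1.1 * g⁻¹ * (g * y * g⁻¹) = g * (x.1.1 * y) * g⁻¹ := by group
        _ = g * (y * x.1.1) * g⁻¹ := by rw [h]
        _ = _ := by group
    · apply Subtype.ext
      have h := congrArg Subtype.val x.2
      simp only [SubmonoidClass.mk_pow, OneMemClass.coe_one, conj_pow] at h ⊢
      have h' : (x.1.1) ^ b = 1 := by simpa using h
      rw [h']
      group
    · rw [Subgroup.mem_centralizer_singleton_iff]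
      have h := Subgroup.mem_centralizer_singleton_iff.mp x.1.2
      calc g⁻¹ * x.1.1 * g * y = g⁻¹ * (x.1.1 * (g * y * g⁻¹)) * g := by group
        _ = g⁻¹ * ((g * y * g⁻¹) * x.1.1) * g := by rw [h]
        _ = _ := by group
    · apply Subtype.ext
      have h := congrArg Subtype.val x.2
      simp only [SubmonoidClass.mk_pow, OneMemClass.coe_one] at h ⊢
      have h' : (x.1.1) ^ b = 1 := by simpa using h
      have h2 : (g⁻¹ * x.1.1 * g) ^ b = g⁻¹ * x.1.1 ^ b * g := by
        have := conj_pow (i := b) (a := g⁻¹) (b := x.1.1)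
        simpa using this
      rw [h2, h']
      group
  · intro y hy
    simp only [Finset.mem_filter, Finset.mem_univ, true_and] at hy
    have h1 := Cfsg.Agent.H23.Count.frobenius_gcd (G := Subgroup.centralizer ({y} : Set G)) b
    have h2 : (Subgroup.centralizer ({y} : Set G)).index * Nat.gcd b (Nat.card (Subgroup.centralizer ({y} : Set G))) ∣
        (Subgroup.centralizer ({y} : Set G)).index * Nat.card {z : Subgroup.centralizer ({y} : Set G) // z ^ b = 1} :=
      Nat.mul_dvd_mul_left _ h1
    refine dvd_trans ?_ h2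
    rw [← Nat.gcd_mul_left]
    apply Nat.dvd_gcd
    · exact Dvd.intro_left _ rfl
    · rw [mul_comm, Subgroup.card_mul_index, ← hN, hb]
      exact Dvd.intro_left _ rfl

end Cfsg.Agent.S3994
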