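import Cfsg.Statements.S3995
import Cfsg.Agent.H23_Count
import Cfsg.Agent.H23_PQuat
import Cfsg.Agent.H2_Basic
import Cfsg.Agent.H2_Fusion4


set_option autoImplicit false
open Cfsg

namespace Cfsg.Agent.S3995

open Subgroup

/-- number of elements of order `m` -/
noncomputable def S (G : Type*) [Group G] (m : ℕ) : ℕ := Nat.card {g : G // orderOf g = m}

variable {G : Type*} [Group G] [Finite G]

theorem cnt (m : ℕ) (hm : m ≠ 0) : Nat.card {g : G // g ^ m = 1} = ∑ d ∈ m.divisors, S G d := by
  classical
  haveI := Fintype.ofFinite G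
  have h1 : Nat.card {g : G // g ^ m = 1} = (Finset.univ.filter (fun g : G => g ^ m = 1)).card := by
    rw [Nat.card_eq_fintype_card, Fintype.card_subtype]
  have h2 : ∀ d, S G d = (Finset.univ.filter (fun g : G => orderOf g = d)).card := by
    intro d
    rw [S, Nat.card_eq_fintype_card, Fintype.card_subtype]
  rw [h1, Finset.card_eq_sum_card_fiberwise (f := fun g : G => orderOf g) (t := m.divisors)]
  · refine Finset.sum_congr rfl fun d hd => ?_
    rw [h2, Finset.filter_filter]
    congr 1
    ext g
    simp only [Finset.mem_filter, Finset.mem_univ, true_and]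
    constructor
    · exact fun h => h.2
    · intro h
      refine ⟨?_, h⟩
      rw [← orderOf_dvd_iff_pow_eq_one, h]
      exact Nat.dvd_of_mem_divisors hd
  · intro g hg
    simp only [Finset.coe_filter, Finset.mem_univ, true_and, Set.mem_setOf_eq] at hg
    rw [Finset.mem_coe, Nat.mem_divisors]
    exact ⟨orderOf_dvd_of_pow_eq_one hg, hm⟩

theorem sum_mul {a b : ℕ} (hab : a.Coprime b) (ha : a ≠ 0) (hb : b ≠ 0) (f : ℕ → ℕ) :
    ∑ d ∈ (a * b).divisors, f d = ∑ x ∈ a.divisors, ∑ y ∈ b.divisors, f (x * y) := by
  rw [← Finset.sum_product']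
  refine Finset.sum_nbij' (i := fun d => (d.gcd a, d.gcd b)) (j := fun z => z.1 * z.2) ?_ ?_ ?_ ?_ ?_
  · intro d _
    rw [Finset.mem_product, Nat.mem_divisors, Nat.mem_divisors]
    exact ⟨⟨Nat.gcd_dvd_right _ _, ha⟩, ⟨Nat.gcd_dvd_right _ _, hb⟩⟩
  · rintro ⟨x, y⟩ hz
    rw [Finset.mem_product, Nat.mem_divisors, Nat.mem_divisors] at hz
    rw [Nat.mem_divisors]
    exact ⟨Nat.mul_dvd_mul hz.1.1 hz.2.1, Nat.mul_ne_zero ha hb⟩
  · intro d hd
    rw [Nat.mem_divisors] at hd
    change d.gcd a * d.gcd b = d
    rw [← Nat.Coprime.gcd_mul d hab, Nat.gcd_eq_left hd.1]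
  · rintro ⟨x, y⟩ hz
    rw [Finset.mem_product, Nat.mem_divisors, Nat.mem_divisors] at hz
    have hxb : x.Coprime b := Nat.Coprime.coprime_dvd_left hz.1.1 hab
    have hya : y.Coprime a := (Nat.Coprime.coprime_dvd_right hz.2.1 hab).symm
    change ((x * y).gcd a, (x * y).gcd b) = (x, y)
    rw [Nat.Coprime.gcd_mul_right_cancel x hya, Nat.Coprime.gcd_mul_left_cancel y hxb, Nat.gcd_eq_left hz.1.1, Nat.gcd_eq_left hz.2.1]
  · intro d hd
    rw [Nat.mem_divisors] at hd
    change f d = f (d.gcd a * d.gcd b)
    rw [← Nat.Coprime.gcd_mul d hab, Nat.gcd_eq_left hd.1]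

theorem S_one : S G 1 = 1 := by
  rw [S, Nat.card_eq_one_iff_unique]
  refine ⟨⟨fun a b => Subtype.ext ?_⟩, ⟨⟨1, orderOf_one⟩⟩⟩
  rw [orderOf_eq_one_iff.1 a.2, orderOf_eq_one_iff.1 b.2]

theorem S_zero {m : ℕ} (h : ¬ ∃ g : G, orderOf g = m) : S G m = 0 := by
  rw [S, Nat.card_eq_zero]
  left
  exact ⟨fun g => h ⟨g.1, g.2⟩⟩

theorem ord_dvd {g : G} {m : ℕ} (h : m ∣ orderOf g) : ∃ x : G, orderOf x = m := by
  obtain ⟨k, hk⟩ := h
  have hk0 : k ≠ 0 := by rintro rfl; rw [mul_zero] at hk; exact (orderOf_pos g).ne' hk
  refine ⟨g ^ k, ?_⟩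
  rw [orderOf_pow, hk, Nat.gcd_eq_right (dvd_mul_left _ _), Nat.mul_div_cancel _ (Nat.pos_of_ne_zero hk0)]

theorem coprime_card {a b : ℕ} (hab : a.Coprime b) (ha : a ∣ Nat.card G) (hb : b ∣ Nat.card G) (ha0 : a ≠ 0) (hb0 : b ≠ 0) :
    a * b ∣ ∑ x ∈ a.divisors, ∑ y ∈ b.divisors, S G (x * y) := by
  rw [← sum_mul hab ha0 hb0, ← cnt _ (Nat.mul_ne_zero ha0 hb0)]
  exact H23.Count.frobenius _ (hab.mul_dvd_of_dvd_of_dvd ha hb)

/-- the copy of a finite group in `Type` -/
theorem exists_copy (P : Type*) [Group P] [Finite P] : ∃ (Q : Type) (_ : Group Q) (_ : Finite Q), Nonempty (P ≃* Q) := by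
  haveI : Finite (Shrink.{0} P) := Finite.of_equiv P (equivShrink.{0} P)
  exact ⟨Shrink.{0} P, inferInstance, inferInstance, ⟨Shrink.mulEquiv.symm⟩⟩


/-- Let G be a finite group such that the numbers of elements of each order that occurs in G (the numbers #{g : o(g) = m}, m ranging over the element orders of G) take exactly two values, 1 and some n ≠ 1. Then either G is a p-group of exponent p and order at least 3 for some prime p, or G is the quaternion group of order 8, or G is cyclic of order 4, or G ≅ Z₂ × P for a p-group P of exponent p with p an odd prime. -/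
theorem result {G : Type*} [Group G] [Finite G] (n : ℕ) (hn : n ≠ 1) (h : ((fun m : ℕ => Nat.card {g : G // orderOf g = m}) '' Set.range (orderOf : G → ℕ)) = {1, n}) :
    (∃ p : ℕ, p.Prime ∧ IsPGroup p G ∧ 3 ≤ Nat.card G ∧ Monoid.exponent G = p) ∨
      Nonempty (G ≃* QuaternionGroup 2) ∨ (IsCyclic G ∧ Nat.card G = 4) ∨
      (∃ (p : ℕ) (P : Type) (_ : Group P) (_ : Finite P), p.Prime ∧ p ≠ 2 ∧ IsPGroup p P ∧ Monoid.exponent P = p ∧
        Nonempty (G ≃* Multiplicative (ZMod 2) × P)) := by

  classical
  have hvals : ∀ g : G, S G (orderOf g) = 1 ∨ S G (orderOf g) = n := by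
    intro g
    have h1 : S G (orderOf g) ∈ ({1, n} : Set ℕ) := by
      rw [← h]; exact ⟨orderOf g, ⟨g, rfl⟩, rfl⟩
    exact h1
  obtain ⟨g0, hg0⟩ : ∃ g : G, S G (orderOf g) = n := by
    have h1 : n ∈ ((fun m : ℕ => Nat.card {g : G // orderOf g = m}) '' Set.range (orderOf : G → ℕ)) := by
      rw [h]; exact Or.inr rfl
    obtain ⟨_, ⟨g, rfl⟩, hg⟩ := h1
    exact ⟨g, hg⟩
  have hpos : ∀ g : G, 0 < S G (orderOf g) := fun g => by
    rw [S, Nat.card_pos_iff]
    exact ⟨⟨⟨g, rfl⟩⟩, inferInstance⟩
  have hn0 : 0 < n := hg0 ▸ hpos g0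
  have hbig : ∀ g : G, 3 ≤ orderOf g → S G (orderOf g) = n := by
    intro g hg
    rcases hvals g with h1 | h1
    · exfalso
      rw [S, Nat.card_eq_one_iff_unique] at h1
      obtain ⟨hs, -⟩ := h1
      have h2 : (⟨g, rfl⟩ : {x : G // orderOf x = orderOf g}) = ⟨g⁻¹, orderOf_inv g⟩ := Subsingleton.elim _ _
      have h3 : g = g⁻¹ := congrArg Subtype.val h2
      have h4 : g ^ 2 = 1 := by rw [sq]; nth_rw 2 [h3]; exact mul_inv_cancel g
      have := Nat.le_of_dvd (by norm_num) (orderOf_dvd_of_pow_eq_one h4)
      omega
    · exact h1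
  have hE : ∀ m, 3 ≤ m → S G m = 0 ∨ S G m = n := by
    intro m hm
    by_cases h1 : ∃ g : G, orderOf g = m
    · obtain ⟨g, rfl⟩ := h1
      exact Or.inr (hbig g hm)
    · exact Or.inl (S_zero h1)
  have hEpos : ∀ m, S G m = n → ∃ g : G, orderOf g = m := by
    intro m hm
    by_contra hcon
    rw [S_zero hcon] at hm
    omega
  have hdvdc : ∀ m, S G m = n → m ∣ Nat.card G := by
    intro m hm
    obtain ⟨g, rfl⟩ := hEpos m hm
    exact orderOf_dvd_natCard g
  -- primes with S p = n
  have hp1 : ∀ p : ℕ, p.Prime → S G p = n → p ∣ 1 + n := by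
    intro p hp hpn
    have h1 := H23.Count.frobenius (G := G) p (hdvdc p hpn)
    rw [cnt p hp.ne_zero, Nat.Prime.sum_divisors hp, S_one, hpn, add_comm] at h1
    exact h1
  have hcop : ∀ p : ℕ, p.Prime → S G p = n → ¬ p ∣ n := by
    intro p hp hpn hd
    have h1 := (Nat.dvd_add_left hd).1 (hp1 p hp hpn)
    exact hp.one_lt.ne' (Nat.dvd_one.1 h1)
  have hsq : ∀ p : ℕ, p.Prime → S G p = n → ¬ ∃ g : G, orderOf g = p ^ 2 := by
    rintro p hp hpn ⟨g, hg⟩
    have h3 : 3 ≤ p ^ 2 := by
      have := hp.two_le
      nlinarith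
    have h1 := H23.Count.frobenius (G := G) (p ^ 2) (hg ▸ orderOf_dvd_natCard g)
    rw [cnt _ (pow_ne_zero 2 hp.ne_zero), Nat.sum_divisors_prime_pow hp] at h1
    rw [Finset.sum_range_succ, Finset.sum_range_succ, Finset.sum_range_succ, Finset.sum_range_zero, pow_zero, pow_one, S_one, hpn] at h1
    have h2 : S G (p ^ 2) = n := by rw [← hg]; exact hbig g (hg ▸ h3)
    rw [h2] at h1
    have h4 : p ∣ 0 + 1 + n + n := (dvd_pow_self p (by norm_num)).trans h1
    have h5 : p ∣ n := by
      have h6 := hp1 p hp hpn
      have h7 : 0 + 1 + n + n = (1 + n) + n := by ring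
      rw [h7] at h4
      exact (Nat.dvd_add_right h6).1 h4
    exact hcop p hp hpn h5
  have huniq : ∀ p q : ℕ, p.Prime → q.Prime → S G p = n → S G q = n → p = q := by
    intro p q hp hq hpn hqn
    by_contra hpq
    have h1 := coprime_card (G := G) ((Nat.coprime_primes hp hq).2 hpq) (hdvdc p hpn) (hdvdc q hqn) hp.ne_zero hq.ne_zero
    rw [Nat.Prime.sum_divisors hp, Nat.Prime.sum_divisors hq, Nat.Prime.sum_divisors hq, mul_one, one_mul, one_mul, S_one, hpn, hqn] at h1
    have hpq3 : 3 ≤ p * q := by
      have := hp.two_le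
      have := hq.two_le
      nlinarith
    rcases hE (p * q) hpq3 with h2 | h2
    · rw [h2] at h1
      have h3 : p ∣ 0 + n + (n + 1) := (dvd_mul_right p q).trans h1
      have h4 := hp1 p hp hpn
      have h5 : 0 + n + (n + 1) = (1 + n) + n := by ring
      rw [h5] at h3
      exact hcop p hp hpn ((Nat.dvd_add_right h4).1 h3)
    · rw [h2] at h1
      have key : ∀ r : ℕ, r.Prime → S G r = n → r ∣ p * q → r = 2 := by
        intro r hr hrn hrd
        have h3 : r ∣ n + n + (n + 1) := hrd.trans h1
        have h4 := hp1 r hr hrn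
        have h5 : n + n + (n + 1) = (1 + n) + 2 * n := by ring
        rw [h5] at h3
        have h6 := (Nat.dvd_add_right h4).1 h3
        rcases (hr.dvd_mul).1 h6 with h7 | h7
        · exact (Nat.prime_dvd_prime_iff_eq hr Nat.prime_two).1 h7
        · exact absurd h7 (hcop r hr hrn)
      exact hpq ((key p hp hpn (dvd_mul_right _ _)).trans (key q hq hqn (dvd_mul_left _ _)).symm)
  have hprimeE : ∀ p : ℕ, p.Prime → p ∣ Nat.card G → ∃ g : G, orderOf g = p := by
    intro p hp hpd
    haveI : Fact p.Prime := ⟨hp⟩
    exact exists_prime_orderOf_dvd_card' p hpd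
  by_cases hI : (∃ g : G, orderOf g = 2) → S G 2 = n
  · -- Case I
    left
    have hall : ∀ p : ℕ, p.Prime → p ∣ Nat.card G → S G p = n := by
      intro p hp hpd
      obtain ⟨g, hg⟩ := hprimeE p hp hpd
      rcases Nat.lt_or_ge p 3 with h3 | h3
      · have : p = 2 := by have := hp.two_le; omega
        subst this
        exact hI ⟨g, hg⟩
      · rw [← hg]; exact hbig g (hg ▸ h3)
    have hcard : 3 ≤ Nat.card G := by
      by_contra hcon
      have h1 : ∀ g : G, S G (orderOf g) ≤ 1 := by
        intro g
        by_cases hg : orderOf g = 1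
        · rw [hg, S_one]
        · have h2 := orderOf_pos g
          have h3 := Nat.le_of_dvd Nat.card_pos (orderOf_dvd_natCard g)
          have h4 : orderOf g = 2 := by omega
          rw [h4, S]
          -- the identity is not counted
          have h5 : Nat.card {x : G // orderOf x = 2} < Nat.card G := by
            haveI := Fintype.ofFinite G
            rw [Nat.card_eq_fintype_card, Nat.card_eq_fintype_card]
            apply Fintype.card_subtype_lt (x := (1 : G))
            rw [orderOf_one]; norm_num
          omega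
      have h2 := h1 g0
      rw [hg0] at h2
      omega
    obtain ⟨p, hp, hpd⟩ := Nat.exists_prime_and_dvd (n := Nat.card G) (by omega)
    have hpn := hall p hp hpd
    refine ⟨p, hp, ?_, hcard, ?_⟩
    · apply IsPGroup.of_card (n := (Nat.card G).primeFactorsList.length)
      apply Nat.eq_prime_pow_of_unique_prime_dvd Nat.card_pos.ne'
      intro d hd hdd
      exact huniq d p hd hp (hall d hd hdd) hpn
    · have hP : IsPGroup p G := by
        apply IsPGroup.of_card (n := (Nat.card G).primeFactorsList.length)
        apply Nat.eq_prime_pow_of_unique_prime_dvd Nat.card_pos.ne'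
        intro d hd hdd
        exact huniq d p hd hp (hall d hd hdd) hpn
      have hexp : ∀ g : G, g ^ p = 1 := by
        intro g
        haveI : Fact p.Prime := ⟨hp⟩
        obtain ⟨k, hk⟩ := IsPGroup.iff_orderOf.1 hP g
        rw [← orderOf_dvd_iff_pow_eq_one, hk]
        have : k ≤ 1 := by
          by_contra h2
          apply hsq p hp hpn
          exact ord_dvd (g := g) (by rw [hk]; exact pow_dvd_pow p (by omega))
        calc p ^ k ∣ p ^ 1 := pow_dvd_pow p this
          _ = p := pow_one p
      have h1 : Monoid.exponent G ∣ p := Monoid.exponent_dvd_of_forall_pow_eq_one hexp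
      rcases (Nat.dvd_prime hp).1 h1 with h2 | h2
      · exfalso
        rw [Monoid.exp_eq_one_iff] at h2
        have := Nat.card_of_subsingleton (1 : G)
        omega
      · exact h2
  · push Not at hI
    obtain ⟨⟨z, hz⟩, hzn⟩ := hI
    have hz1 : S G 2 = 1 := by
      rcases hvals z with h1 | h1
      · rwa [hz] at h1
      · rw [hz] at h1; exact absurd h1 hzn
    have huz : ∀ x : G, orderOf x = 2 → x = z := by
      intro x hx
      rw [S, Nat.card_eq_one_iff_unique] at hz1
      obtain ⟨hs, -⟩ := hz1
      exact congrArg Subtype.val (Subsingleton.elim (⟨x, hx⟩ : {g : G // orderOf g = 2}) ⟨z, hz⟩)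
    have hzc : ∀ x : G, x * z = z * x := by
      intro x
      have h1 : x * z * x⁻¹ = z := huz _ (by
        rw [← hz]
        exact (MulAut.conj x).orderOf_eq z)
      rw [mul_inv_eq_iff_eq_mul] at h1
      exact h1
    have h2card : 2 ∣ Nat.card G := hz ▸ orderOf_dvd_natCard z
    have hodd : ∀ p : ℕ, p.Prime → p ≠ 2 → p ∣ Nat.card G → S G p = n := by
      intro p hp hp2 hpd
      obtain ⟨g, hg⟩ := hprimeE p hp hpd
      rw [← hg]
      apply hbig
      rw [hg]
      have := hp.two_le
      omega
    haveI : Fact (Nat.Prime 2) := ⟨Nat.prime_two⟩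
    by_cases h4 : ∃ g : G, orderOf g = 4
    · -- II.a
      obtain ⟨g4, hg4⟩ := h4
      have hS4 : S G 4 = n := by rw [← hg4]; exact hbig g4 (by rw [hg4]; norm_num)
      have h4c : 4 ∣ Nat.card G := hg4 ▸ orderOf_dvd_natCard g4
      have d4 : Nat.divisors 4 = {1, 2, 4} := by decide
      have e4 : 4 ∣ 1 + 1 + n := by
        have h1 := H23.Count.frobenius (G := G) 4 h4c
        rw [cnt 4 (by norm_num), d4, Finset.sum_insert (by decide), Finset.sum_insert (by decide), Finset.sum_singleton, S_one, hz1, hS4] at h1
        omega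
      have h8 : ¬ ∃ g : G, orderOf g = 8 := by
        rintro ⟨g8, hg8⟩
        have hS8 : S G 8 = n := by rw [← hg8]; exact hbig g8 (by rw [hg8]; norm_num)
        have d8 : Nat.divisors 8 = {1, 2, 4, 8} := by decide
        have h1 := H23.Count.frobenius (G := G) 8 (hg8 ▸ orderOf_dvd_natCard g8)
        rw [cnt 8 (by norm_num), d8, Finset.sum_insert (by decide), Finset.sum_insert (by decide), Finset.sum_insert (by decide),
          Finset.sum_singleton, S_one, hz1, hS4, hS8] at h1
        omega
      have hG2 : IsPGroup 2 G := by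
        apply IsPGroup.of_card (n := (Nat.card G).primeFactorsList.length)
        apply Nat.eq_prime_pow_of_unique_prime_dvd Nat.card_pos.ne'
        intro p hp hpd
        by_contra hp2
        have hpn := hodd p hp hp2 hpd
        have hco : Nat.Coprime 4 p := by
          have : (4 : ℕ) = 2 ^ 2 := by norm_num
          rw [this]
          exact Nat.Coprime.pow_left 2 ((Nat.coprime_primes Nat.prime_two hp).2 (Ne.symm hp2))
        have h1 := coprime_card (G := G) hco h4c hpd (by norm_num) hp.ne_zero
        rw [d4, Finset.sum_insert (by decide), Finset.sum_insert (by decide), Finset.sum_singleton, Nat.Prime.sum_divisors hp,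
          Nat.Prime.sum_divisors hp, Nat.Prime.sum_divisors hp, mul_one, mul_one, mul_one, one_mul, S_one, hz1, hS4, hpn] at h1
        have h2p : S G (2 * p) = n := by
          obtain ⟨x, hx⟩ := hprimeE p hp hpd
          have h3 : orderOf (z * x) = 2 * p := by
            rw [(show Commute z x from (hzc x).symm).orderOf_mul_eq_mul_orderOf_of_coprime, hz, hx]
            rw [hz, hx]
            exact (Nat.coprime_primes Nat.prime_two hp).2 (Ne.symm hp2)
          rw [← h3]
          apply hbig
          rw [h3]
          have := hp.two_le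
          omega
        rw [h2p] at h1
        have h5 := hp1 p hp hpn
        have h6 : p ∣ n + 1 + (n + 1 + (S G (4 * p) + n)) := (dvd_mul_left p 4).trans h1
        have h7 : p ∣ 2 := by
          rcases hE (4 * p) (by have := hp.two_le; omega) with h7 | h7
          · rw [h7] at h6
            have h8 : n + 1 + (n + 1 + (0 + n)) = 2 * (1 + n) + n := by ring
            rw [h8] at h6
            exact absurd ((Nat.dvd_add_right (h5.mul_left 2)).1 h6) (hcop p hp hpn)
          · rw [h7] at h6
            have h8 : n + 1 + (n + 1 + (n + n)) = 2 * (1 + n) + 2 * n := by ring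
            rw [h8] at h6
            have h9 := (Nat.dvd_add_right (h5.mul_left 2)).1 h6
            rcases (hp.dvd_mul).1 h9 with h10 | h10
            · exact h10
            · exact absurd h10 (hcop p hp hpn)
        exact hp2 ((Nat.prime_dvd_prime_iff_eq hp Nat.prime_two).1 h7)
      -- structure
      have hle4 : ∀ x : G, ∀ k, orderOf x = 2 ^ k → k ≤ 2 := by
        intro x k hk
        by_contra h5
        apply h8
        apply ord_dvd (g := x)
        rw [hk]
        calc 8 = 2 ^ 3 := by norm_num
          _ ∣ 2 ^ k := pow_dvd_pow 2 (by omega)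
      have hcy4 : IsCyclic G → Nat.card G = 4 := by
        intro hcyc
        obtain ⟨y, hy⟩ := hcyc.exists_generator
        have h5 : orderOf y = Nat.card G := orderOf_eq_card_of_forall_mem_zpowers hy
        obtain ⟨k, hk⟩ := IsPGroup.iff_card.1 hG2
        have h6 := hle4 y k (by rw [h5, hk])
        have h7 : 4 ≤ Nat.card G := Nat.le_of_dvd Nat.card_pos h4c
        have h8 : 2 ^ k ≤ 2 ^ 2 := Nat.pow_le_pow_right (by norm_num) h6
        rw [hk] at h7 ⊢
        omega
      rcases H23.PQuat.cyclic_or_quaternion hG2 (by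
        intro H K hH hK
        have key : ∀ L : Subgroup G, Nat.card L = 2 → L = zpowers z := by
          intro L hL
          obtain ⟨x, hx⟩ := exists_prime_orderOf_dvd_card' (G := L) 2 (by rw [hL])
          have h5 : (x : G) = z := huz _ (by rw [orderOf_coe, hx])
          symm
          apply Subgroup.eq_of_le_of_card_ge
          · rw [zpowers_le, ← h5]; exact x.2
          · rw [hL, Nat.card_zpowers, hz]
        rw [key H hH, key K hK]) with hcyc | ⟨-, k, ⟨e⟩⟩
      · right; right; left
        exact ⟨hcyc, hcy4 hcyc⟩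
      · rcases Nat.lt_or_ge 1 k with hk | hk
        · exfalso
          have h5 : orderOf (e.symm (QuaternionGroup.a 1)) = 2 ^ (k + 1) := by
            rw [MulEquiv.orderOf_eq, QuaternionGroup.orderOf_a_one, pow_succ, mul_comm]
          have := hle4 _ _ h5
          omega
        · interval_cases k
          · right; right; left
            have h5 : Nat.card G = 4 := by
              rw [Nat.card_congr e.toEquiv, Nat.card_eq_fintype_card, QuaternionGroup.card]
              norm_num
            refine ⟨?_, h5⟩
            exact isCyclic_of_orderOf_eq_card g4 (by rw [hg4, h5])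
          · right; left
            rw [pow_one] at e
            exact ⟨e⟩
    · -- II.b
      right; right; right
      let T : Sylow 2 G := default
      have hTexp : ∀ x ∈ (T : Subgroup G), x = 1 ∨ x = z := by
        intro x hx
        obtain ⟨k, hk⟩ := IsPGroup.iff_orderOf.1 T.2 ⟨x, hx⟩
        rw [← orderOf_coe] at hk
        change orderOf x = 2 ^ k at hk
        have hk1 : k ≤ 1 := by
          by_contra h5
          apply h4
          apply ord_dvd (g := x)
          rw [hk]
          calc 4 = 2 ^ 2 := by norm_num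
            _ ∣ 2 ^ k := pow_dvd_pow 2 (by omega)
        interval_cases k
        · left; exact orderOf_eq_one_iff.1 hk
        · right; exact huz x hk
      have hTz : (T : Subgroup G) = zpowers z := by
        apply le_antisymm
        · intro x hx
          rcases hTexp x hx with rfl | rfl
          · exact one_mem _
          · exact mem_zpowers _
        · obtain ⟨x, hx⟩ := ne_bot_iff_exists_ne_one.1 (T.ne_bot_of_dvd_card h2card)
          rcases hTexp x x.2 with h5 | h5
          · exact absurd (Subtype.ext h5) hx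
          · rw [zpowers_le, ← h5]; exact x.2
      have hT2 : Nat.card T = 2 := by
        change Nat.card (T : Subgroup G) = 2
        rw [hTz, Nat.card_zpowers, hz]
      have hnpc := H2.Fusion4.npc_of_normalizer_le_centralizer T (by
        intro x _
        rw [mem_centralizer_iff]
        intro y hy
        replace hy : y ∈ (T : Subgroup G) := hy
        rw [hTz] at hy
        obtain ⟨k, rfl⟩ := hy
        exact ((show Commute x z from hzc x).zpow_right k).symm)
      obtain ⟨K, hK, hKc, k, hk⟩ := H2.Basic.npc_iff.1 hnpc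
      haveI := hK
      have hKi : K.index = 2 := by
        rw [← hT2]
        exact (H2.Basic.isComplement'_sylow T hKc hk).symm.index_eq_card
      have hcardG : Nat.card K * 2 = Nat.card G := by rw [← hKi]; exact K.card_mul_index
      -- an odd prime
      have hK1 : Nat.card K ≠ 1 := by
        intro h5
        rw [h5, one_mul] at hcardG
        have h6 : orderOf g0 ∣ 2 := hcardG ▸ orderOf_dvd_natCard g0
        rcases (Nat.dvd_prime Nat.prime_two).1 h6 with h7 | h7
        · rw [h7, S_one] at hg0; exact hn hg0.symm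
        · rw [h7] at hg0; exact hzn hg0
      obtain ⟨p, hp, hpK⟩ := Nat.exists_prime_and_dvd hK1
      have hp2 : p ≠ 2 := by rintro rfl; exact hKc hpK
      have hpn := hodd p hp hp2 (hpK.trans K.card_subgroup_dvd_card)
      haveI : Fact p.Prime := ⟨hp⟩
      have hKp : IsPGroup p K := by
        apply IsPGroup.of_card (n := (Nat.card K).primeFactorsList.length)
        apply Nat.eq_prime_pow_of_unique_prime_dvd Nat.card_pos.ne'
        intro d hd hdd
        exact huniq d p hd hp (hodd d hd (by rintro rfl; exact hKc hdd) (hdd.trans K.card_subgroup_dvd_card)) hpn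
      have hKexp : ∀ x : K, x ^ p = 1 := by
        intro x
        obtain ⟨j, hj⟩ := IsPGroup.iff_orderOf.1 hKp x
        rw [← orderOf_dvd_iff_pow_eq_one, hj]
        have : j ≤ 1 := by
          by_contra h5
          apply hsq p hp hpn
          exact ord_dvd (g := (x : G)) (by rw [orderOf_coe, hj]; exact pow_dvd_pow p (by omega))
        calc p ^ j ∣ p ^ 1 := pow_dvd_pow p this
          _ = p := pow_one p
      have hKe : Monoid.exponent K = p := by
        rcases (Nat.dvd_prime hp).1 (Monoid.exponent_dvd_of_forall_pow_eq_one hKexp) with h5 | h5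
        · exfalso
          rw [Monoid.exp_eq_one_iff] at h5
          exact hK1 (Nat.card_of_subsingleton (1 : K))
        · exact h5
      obtain ⟨Q, hQ, hQf, ⟨e⟩⟩ := exists_copy K
      refine ⟨p, Q, hQ, hQf, hp, hp2, hKp.of_equiv e, ?_, ?_⟩
      · rw [← hKe]; exact (Monoid.exponent_eq_of_mulEquiv e).symm
      · have hzp : Nat.card (zpowers z) = 2 := by rw [Nat.card_zpowers, hz]
        let e2 : Multiplicative (ZMod 2) ≃* zpowers z := mulEquivOfPrimeCardEq (p := 2)
          (by rw [Nat.card_congr Multiplicative.toAdd]; exact Nat.card_zmod 2) hzp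
        let f : Multiplicative (ZMod 2) × Q →* G := MonoidHom.noncommCoprod ((zpowers z).subtype.comp e2.toMonoidHom)
          (K.subtype.comp e.symm.toMonoidHom) (by
            intro a b
            obtain ⟨k, hk⟩ := (e2 a).2
            change Commute ((e2 a : zpowers z) : G) _
            rw [← hk]
            exact (show Commute z _ from (hzc _).symm).zpow_left k)
        have hf : Function.Injective f := by
          rw [injective_iff_map_eq_one]
          rintro ⟨a, b⟩ hab
          have h5 : ((e2 a : zpowers z) : G) * ((e.symm b : K) : G) = 1 := hab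
          have h6 : ((e2 a : zpowers z) : G) ∈ K := by
            rw [eq_inv_of_mul_eq_one_left h5]; exact inv_mem (e.symm b).2
          have h7 : ((e2 a : zpowers z) : G) = 1 := by
            have h8 : orderOf ((e2 a : zpowers z) : G) ∣ 2 := by
              have h10 := orderOf_dvd_natCard (e2 a)
              rw [hzp] at h10
              rw [orderOf_coe]; exact h10
            rcases (Nat.dvd_prime Nat.prime_two).1 h8 with h9 | h9
            · exact orderOf_eq_one_iff.1 h9
            · exfalso
              apply hKc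
              rw [← h9]
              exact Subgroup.orderOf_dvd_natCard _ h6
          rw [h7, one_mul] at h5
          have h8 : a = 1 := e2.injective (by rw [map_one]; exact Subtype.ext h7)
          have h9 : b = 1 := e.symm.injective (by rw [map_one]; exact Subtype.ext h5)
          rw [h8, h9]; rfl
        have hbij : Function.Bijective f := by
          haveI := Fintype.ofFinite G
          haveI := Fintype.ofFinite (Multiplicative (ZMod 2) × Q)
          rw [Fintype.bijective_iff_injective_and_card]
          refine ⟨hf, ?_⟩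
          rw [← Nat.card_eq_fintype_card, ← Nat.card_eq_fintype_card, Nat.card_prod, ← hcardG, ← Nat.card_congr e.toEquiv,
            Nat.card_congr e2.toEquiv, hzp, mul_comm]
        exact ⟨(MulEquiv.ofBijective f hbij).symm⟩


end Cfsg.Agent.S3995
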