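import Cfsg.Statements.S3996
import Cfsg.Agent.H11_Nse3

set_option autoImplicit false
open Cfsg

namespace Cfsg.Agent.S3996

open Cfsg.Agent.H11.Nse in
theorem vals {G : Type*} [Group G] [Finite G] (h : (((fun m : ℕ => Nat.card {g : G // orderOf g = m}) '' Set.range (orderOf : G → ℕ))).ncard = 3) :
    ∃ s s' : ℕ, s ≠ 1 ∧ s' ≠ 1 ∧ s ≠ s' ∧ ∀ m, cc G m ≠ 0 → cc G m = 1 ∨ cc G m = s ∨ cc G m = s' := by
  set S := (fun m : ℕ => Nat.card {g : G // orderOf g = m}) '' Set.range (orderOf : G → ℕ) with hS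
  have h1 : (1 : ℕ) ∈ S := ⟨1, ⟨1, orderOf_one⟩, cc_one⟩
  have hm : ∀ m, cc G m ≠ 0 → cc G m ∈ S := by
    intro m hm
    obtain ⟨g, hg⟩ := cc_ne.1 hm
    exact ⟨m, ⟨g, hg⟩, rfl⟩
  obtain ⟨x, y, z, hxy, hxz, hyz, hSe⟩ := Set.ncard_eq_three.1 h
  rw [hSe] at h1 hm
  simp only [Set.mem_insert_iff, Set.mem_singleton_iff] at h1 hm
  rcases h1 with h1 | h1 | h1
  · subst h1; exact ⟨y, z, hxy.symm, hxz.symm, hyz, fun m h => hm m h⟩
  · subst h1; exact ⟨x, z, hxy, hyz.symm, hxz, fun m h => by rcases hm m h with h | h | h <;> simp [h]⟩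
  · subst h1; exact ⟨x, y, hxz, hyz, hxy, fun m h => by rcases hm m h with h | h | h <;> simp [h]⟩

open Cfsg.Agent.H11.Nse in
theorem even_cc {G : Type*} [Group G] [Finite G] (m : ℕ) (hm : 3 ≤ m) : Even (cc G m) :=
  even_iff_two_dvd.2 ((even_iff_two_dvd.1 (Nat.totient_even (by omega))).trans (cc_tot m))

/-- A finite group in which the numbers of elements of each order that occurs (the numbers #{g : o(g) = m}, m ranging over the element orders) take exactly three different values is solvable. -/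
theorem result {G : Type*} [Group G] [Finite G] (h : (((fun m : ℕ => Nat.card {g : G // orderOf g = m}) '' Set.range (orderOf : G → ℕ))).ncard = 3) : Group.IsSolvable G := by
  obtain ⟨s, s', hs, hs', hss, hv⟩ := vals h
  have hv3 : ∀ m, 3 ≤ m → Cfsg.Agent.H11.Nse.cc G m = 0 ∨ Cfsg.Agent.H11.Nse.cc G m = s ∨ Cfsg.Agent.H11.Nse.cc G m = s' := by
    intro m hm
    by_cases h0 : Cfsg.Agent.H11.Nse.cc G m = 0
    · exact Or.inl h0
    · right
      rcases hv m h0 with h1 | h1
      · have := even_cc (G := G) m hm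
        rw [h1] at this; exact absurd this (by decide)
      · exact h1
  by_cases h2 : Cfsg.Agent.H11.Nse.cc G 2 ≤ 1
  · exact Cfsg.Agent.H11.Nse.solv hv3 (Or.inl h2)
  · have h20 : Cfsg.Agent.H11.Nse.cc G 2 ≠ 0 := by omega
    have h2N : 2 ∣ Nat.card G := by
      obtain ⟨g, hg⟩ := Cfsg.Agent.H11.Nse.cc_ne.1 h20
      rw [← hg]; exact orderOf_dvd_natCard g
    have hd := (Cfsg.Agent.H11.Nse.dat0 (G := G) hv3).d1 Nat.prime_two h2N
    have hd' : 2 ∣ 1 + Cfsg.Agent.H11.Nse.cc G 2 := by exact_mod_cast hd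
    rcases hv 2 h20 with h1 | h1 | h1
    · omega
    · refine Cfsg.Agent.H11.Nse.solv (s := s') (s' := s') (fun m hm => ?_) (Or.inr rfl)
      rcases hv3 m hm with h | h | h
      · exact Or.inl h
      · exfalso
        have := even_iff_two_dvd.1 (even_cc (G := G) m hm)
        rw [h] at this
        rw [h1] at hd'
        omega
      · exact Or.inr (Or.inl h)
    · refine Cfsg.Agent.H11.Nse.solv (s := s) (s' := s) (fun m hm => ?_) (Or.inr rfl)
      rcases hv3 m hm with h | h | h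
      · exact Or.inl h
      · exact Or.inr (Or.inl h)
      · exfalso
        have := even_iff_two_dvd.1 (even_cc (G := G) m hm)
        rw [h] at this
        rw [h1] at hd'
        omega

end Cfsg.Agent.S3996
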