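import Cfsg.Statements.S3997
import Mathlib
import Cfsg.Agent.H23_OrderType

set_option autoImplicit false
open Cfsg

namespace Cfsg.Agent.S3997

open Cfsg.Agent.H23.Basic Cfsg.Agent.H23.OrderType Subgroup
open scoped Pointwise

theorem main {G H : Type*} [Group G] [Finite G] [Group H] [Finite H]
    (hT : ∀ m : ℕ, Nat.card {g : G // orderOf g = m} = Nat.card {h : H // orderOf h = m})
    (hG : Group.IsNilpotent G) : Group.IsNilpotent H := by
  obtain ⟨e, he⟩ := exists_equiv hT
  have hcard : Nat.card G = Nat.card H := Nat.card_congr e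
  have hGs := (Group.isNilpotent_of_finite_tfae (G := G)).out 0 3 |>.1 hG
  have hHs := (Group.isNilpotent_of_finite_tfae (G := H)).out 0 3
  rw [hHs]
  intro p hp P
  obtain ⟨S⟩ : Nonempty (Sylow p G) := inferInstance
  have hSn := hGs p hp S
  have hPS : Nat.card P = Nat.card S := by
    rw [P.card_eq_multiplicity, S.card_eq_multiplicity, hcard]
  have key : ∀ x : G, x ∈ (S : Subgroup G) ↔ ∀ q, q.Prime → q ∣ orderOf x → q = p := by
    apply mem_iff_of_normal_hall (S : Subgroup G) (fun q => q = p)
    · intro q hq hqd
      obtain ⟨k, hk⟩ := IsPGroup.iff_card.1 S.isPGroup'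
      rw [hk] at hqd
      exact (Nat.prime_dvd_prime_iff_eq hq hp.out).1 (hq.dvd_of_dvd_pow hqd)
    · rintro q hq hqd rfl
      exact S.not_dvd_index hqd
  have hcount : Nat.card {x : H // ∀ q, q.Prime → q ∣ orderOf x → q = p} = Nat.card S := by
    apply Nat.card_congr
    symm
    refine (e.subtypeEquiv ?_)
    intro x
    rw [he]
    exact key x
  have hset : ((P : Subgroup H) : Set H) = {x : H | ∀ q, q.Prime → q ∣ orderOf x → q = p} := by
    apply Set.eq_of_subset_of_ncard_le
    · intro x hx q hq hqx
      have h1 : q ∣ Nat.card P := by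
        refine hqx.trans ?_
        rw [← Subgroup.orderOf_mk x hx]
        exact orderOf_dvd_natCard _
      obtain ⟨k, hk⟩ := IsPGroup.iff_card.1 P.isPGroup'
      rw [hk] at h1
      exact (Nat.prime_dvd_prime_iff_eq hq hp.out).1 (hq.dvd_of_dvd_pow h1)
    · have h1 : Set.ncard {x : H | ∀ q, q.Prime → q ∣ orderOf x → q = p} = Nat.card S := hcount
      have h2 : Set.ncard ((P : Subgroup H) : Set H) = Nat.card P := rfl
      rw [h1, h2, hPS]
    · exact Set.toFinite _
  constructor
  intro x hx g
  rw [← SetLike.mem_coe, hset] at hx ⊢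
  have : orderOf (g * x * g⁻¹) = orderOf x := by
    have := MulEquiv.orderOf_eq (MulAut.conj g) x
    rwa [MulAut.conj_apply] at this
  simp only [Set.mem_ofPred_eq] at hx ⊢
  rwa [this]


/-- Let G and H be finite groups with the same order type: for every m they have the same number of elements of order m. If G is nilpotent then so is H. -/
theorem result {G H : Type*} [Group G] [Finite G] [Group H] [Finite H] (hT : (∀ m : ℕ, Nat.card {g : G // orderOf g = m} = Nat.card {h : H // orderOf h = m})) (hG : Group.IsNilpotent G) :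
    Group.IsNilpotent H := by
  exact main hT hG

end Cfsg.Agent.S3997
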