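import Cfsg.Statements.S3998
import Mathlib
import Cfsg.Agent.H23_OrderType

set_option autoImplicit false
open Cfsg

namespace Cfsg.Agent.S3998

open Cfsg.Agent.H23.Basic Cfsg.Agent.H23.OrderType Subgroup
open scoped Pointwise

theorem solvable_sup {H : Type*} [Group H] [Finite H] {p : ℕ} [hp : Fact p.Prime] (N P : Subgroup H) [N.Normal]
    (hN : Group.IsSolvable N) (hP : IsPGroup p P) : Group.IsSolvable (N ⊔ P : Subgroup H) := by
  have h1 : Group.IsSolvable (N.subgroupOf (N ⊔ P)) :=
    Group.isSolvable_of_isSolvable_injective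
      (f := (subgroupOfEquivOfLe (le_sup_left : N ≤ N ⊔ P)).toMonoidHom)
      (subgroupOfEquivOfLe (le_sup_left : N ≤ N ⊔ P)).injective
  have h2 : IsPGroup p ((N ⊔ P : Subgroup H) ⧸ N.subgroupOf (N ⊔ P)) := by
    have h3 : Nat.card ((N ⊔ P : Subgroup H) ⧸ N.subgroupOf (N ⊔ P)) = N.relIndex P :=
      relIndex_sup_left P N
    have h4 : N.relIndex P ∣ Nat.card P := relIndex_dvd_card _ _
    obtain ⟨k, hk⟩ := IsPGroup.iff_card.1 hP
    rw [hk] at h4
    obtain ⟨j, -, hj⟩ := (Nat.dvd_prime_pow hp.out).1 h4
    exact IsPGroup.of_card (h3.trans hj)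
  have h4 : Group.IsNilpotent ((N ⊔ P : Subgroup H) ⧸ N.subgroupOf (N ⊔ P)) := h2.isNilpotent
  have h5 : Group.IsSolvable ((N ⊔ P : Subgroup H) ⧸ N.subgroupOf (N ⊔ P)) := inferInstance
  apply Group.isSolvable_of_ker_le_range (N.subgroupOf (N ⊔ P)).subtype (QuotientGroup.mk' (N.subgroupOf (N ⊔ P)))
  rw [QuotientGroup.ker_mk', range_subtype]

theorem step {H : Type*} [Group H] [Finite H]
    (hall : ∀ t : ℕ, ∃ d e : ℕ, d * e = Nat.card H ∧ (∀ q, q.Prime → q ∣ d → t ≤ q) ∧
      (∀ q, q.Prime → q ∣ e → ¬ t ≤ q) ∧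
      Nat.card {x : H // ∀ q, q.Prime → q ∣ orderOf x → t ≤ q} = d) (k : ℕ) :
    ∀ t : ℕ, t + k = Nat.card H + 1 → ∃ N : Subgroup H, N.Normal ∧ Group.IsSolvable N ∧
      (∀ q, q.Prime → q ∣ Nat.card N → t ≤ q) ∧ (∀ q, q.Prime → q ∣ N.index → ¬ t ≤ q) := by
  induction' k with k ih
  · intro t ht
    refine ⟨⊥, inferInstance, inferInstance, ?_, ?_⟩
    · intro q hq hqd
      rw [card_bot] at hqd
      exact absurd (Nat.dvd_one.1 hqd) hq.one_lt.ne'
    · intro q hq hqd
      rw [index_bot] at hqd
      have := Nat.le_of_dvd Nat.card_pos hqd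
      omega
  · intro t ht
    obtain ⟨N, hN, hNs, hN1, hN2⟩ := ih (t + 1) (by omega)
    by_cases htp : t.Prime
    · have : Fact t.Prime := ⟨htp⟩
      obtain ⟨P⟩ : Nonempty (Sylow t H) := inferInstance
      set M := N ⊔ (P : Subgroup H) with hM
      have hMs : Group.IsSolvable M := solvable_sup N P hNs P.isPGroup'
      have hMc : ∀ q, q.Prime → q ∣ Nat.card M → t ≤ q := by
        intro q hq hqd
        have h1 : N.relIndex M = N.relIndex (P : Subgroup H) := relIndex_sup_left (P : Subgroup H) N
        have h2 := H2.Card.card_mul_relIndex (le_sup_left : N ≤ M)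
        rw [h1] at h2
        rw [← h2] at hqd
        rcases (Nat.Prime.dvd_mul hq).1 hqd with h | h
        · have := hN1 q hq h; omega
        · have h4 : N.relIndex (P : Subgroup H) ∣ Nat.card P := relIndex_dvd_card _ _
          obtain ⟨k, hk⟩ := IsPGroup.iff_card.1 P.isPGroup'
          have h5 := h.trans h4
          rw [hk] at h5
          exact ((Nat.prime_dvd_prime_iff_eq hq htp).1 (hq.dvd_of_dvd_pow h5)).ge
      have hMi : ∀ q, q.Prime → q ∣ M.index → ¬ t ≤ q := by
        intro q hq hqd hle
        have h1 := hN2 q hq (hqd.trans (index_dvd_of_le le_sup_left))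
        have h2 : q = t := by omega
        subst h2
        exact P.not_dvd_index (hqd.trans (index_dvd_of_le le_sup_right))
      obtain ⟨d, e, hde, hd, he, hcount⟩ := hall t
      have hMd : Nat.card M = d := eq_of_hall M.card_mul_index hde (fun q => t ≤ q) hMc hMi hd he
      have hset : (M : Set H) = {x : H | ∀ q, q.Prime → q ∣ orderOf x → t ≤ q} := by
        apply Set.eq_of_subset_of_ncard_le
        · intro x hx q hq hqx
          apply hMc q hq
          refine hqx.trans ?_
          rw [← Subgroup.orderOf_mk x hx]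
          exact orderOf_dvd_natCard _
        · have h1 : Set.ncard {x : H | ∀ q, q.Prime → q ∣ orderOf x → t ≤ q} = d := hcount
          have h2 : Set.ncard (M : Set H) = Nat.card M := rfl
          rw [h1, h2, hMd]
        · exact Set.toFinite _
      refine ⟨M, ?_, hMs, hMc, hMi⟩
      constructor
      intro x hx g
      rw [← SetLike.mem_coe, hset] at hx ⊢
      have : orderOf (g * x * g⁻¹) = orderOf x := by
        have := MulEquiv.orderOf_eq (MulAut.conj g) x
        rwa [MulAut.conj_apply] at this
      simp only [Set.mem_ofPred_eq] at hx ⊢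
      rwa [this]
    · refine ⟨N, hN, hNs, ?_, ?_⟩
      · intro q hq hqd
        have := hN1 q hq hqd; omega
      · intro q hq hqd hle
        have h1 := hN2 q hq hqd
        have : q = t := by omega
        exact htp (this ▸ hq)

theorem main {G H : Type*} [Group G] [Finite G] [Group H] [Finite H]
    (hT : ∀ m : ℕ, Nat.card {g : G // orderOf g = m} = Nat.card {h : H // orderOf h = m})
    (hG : IsSupersolvable G) : Group.IsSolvable H := by
  obtain ⟨e, he⟩ := exists_equiv hT
  have hcard : Nat.card G = Nat.card H := Nat.card_congr e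
  obtain ⟨N, hN, hNs, hN1, hN2⟩ := step (H := H) (by
    intro t
    obtain ⟨N, hN, h1, h2⟩ := exists_normal_hall_ge t _ G rfl hG
    refine ⟨Nat.card N, N.index, by rw [← hcard]; exact N.card_mul_index, h1, h2, ?_⟩
    apply Nat.card_congr
    symm
    refine (e.subtypeEquiv ?_)
    intro x
    rw [he]
    exact mem_iff_of_normal_hall N (fun q => t ≤ q) h1 h2 x) (Nat.card H + 1) 0 (by omega)
  have hi : N.index = 1 := by
    by_contra hne
    obtain ⟨q, hq, hqd⟩ := Nat.exists_prime_and_dvd hne
    exact hN2 q hq hqd (Nat.zero_le _)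
  rw [index_eq_one] at hi
  subst hi
  exact Group.isSolvable_of_isSolvable_injective (f := (topEquiv (G := H)).symm.toMonoidHom)
    (topEquiv (G := H)).symm.injective


/-- Let G and H be finite groups with the same order type (for every m the same number of elements of order m). If G is supersolvable then H is solvable. -/
theorem result {G H : Type*} [Group G] [Finite G] [Group H] [Finite H] (hT : (∀ m : ℕ, Nat.card {g : G // orderOf g = m} = Nat.card {h : H // orderOf h = m})) (hG : Cfsg.IsSupersolvable G) :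
    Group.IsSolvable H := by
  exact main hT hG

end Cfsg.Agent.S3998
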