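import Cfsg.Statements.S4002
import Cfsg.Agent.H12_CN
import Cfsg.Agent.H1_Hall

set_option autoImplicit false
open Cfsg

namespace Cfsg.Agent.S4002

theorem primes (n : ℕ) (hn : 7 ≤ n) : ∃ p q r : ℕ, p.Prime ∧ q.Prime ∧ r.Prime ∧ p < q ∧ q < r ∧ r ≤ n ∧ n < p * q := by
  rcases Nat.lt_or_ge n 32 with h | h
  · rcases Nat.lt_or_ge n 11 with h1 | h1
    · exact ⟨3, 5, 7, by norm_num, by norm_num, by norm_num, by norm_num, by norm_num, hn, by omega⟩
    · exact ⟨5, 7, 11, by norm_num, by norm_num, by norm_num, by norm_num, by norm_num, h1, by omega⟩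
  · obtain ⟨p, hp, hp1, hp2⟩ := Nat.exists_prime_lt_and_le_two_mul (n / 8) (by omega)
    obtain ⟨q, hq, hq1, hq2⟩ := Nat.exists_prime_lt_and_le_two_mul (n / 4) (by omega)
    obtain ⟨r, hr, hr1, hr2⟩ := Nat.exists_prime_lt_and_le_two_mul (n / 2) (by omega)
    refine ⟨p, q, r, hp, hq, hr, by omega, by omega, by omega, ?_⟩
    have h1 : n < 8 * p := by omega
    have h2 : n < 4 * q := by omega
    nlinarith

theorem main {G : Type*} [Group G] [Finite G] [Group.IsSolvable G] {p q r : ℕ} (hp : p.Prime) (hq : q.Prime) (hr : r.Prime)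
    (hpq : p < q) (hqr : q < r) (h1 : p ∣ Nat.card G) (h2 : q ∣ Nat.card G) (h3 : r ∣ Nat.card G)
    (hno : ∀ a b : ℕ, (a = p ∨ a = q ∨ a = r) → (b = p ∨ b = q ∨ b = r) → a ≠ b → ∀ g : G, orderOf g ≠ a * b) : False := by
  classical
  obtain ⟨a, m1, hm1, hn1⟩ := Nat.exists_eq_pow_mul_and_not_dvd (Nat.card_pos (α := G)).ne' p hp.ne_one
  have hm10 : m1 ≠ 0 := by rintro rfl; exact hm1 (dvd_zero p)
  obtain ⟨b, m2, hm2, hn2⟩ := Nat.exists_eq_pow_mul_and_not_dvd hm10 q hq.ne_one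
  have hm20 : m2 ≠ 0 := by rintro rfl; exact hm2 (dvd_zero q)
  obtain ⟨c, m3, hm3, hn3⟩ := Nat.exists_eq_pow_mul_and_not_dvd hm20 r hr.ne_one
  have hm30 : m3 ≠ 0 := by rintro rfl; exact hm3 (dvd_zero r)
  have hcard : Nat.card G = (p ^ a * q ^ b * r ^ c) * m3 := by rw [hn1, hn2, hn3]; ring
  have hcop : Nat.Coprime (p ^ a * q ^ b * r ^ c) m3 := by
    refine Nat.Coprime.mul_left (Nat.Coprime.mul_left ?_ ?_) ?_
    · refine Nat.Coprime.pow_left _ ((Nat.Prime.coprime_iff_not_dvd hp).2 fun h => hm1 ?_)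
      rw [hn2, hn3]; exact (h.mul_left _).mul_left _
    · refine Nat.Coprime.pow_left _ ((Nat.Prime.coprime_iff_not_dvd hq).2 fun h => hm2 ?_)
      rw [hn3]; exact h.mul_left _
    · exact Nat.Coprime.pow_left _ ((Nat.Prime.coprime_iff_not_dvd hr).2 hm3)
  obtain ⟨H, hH⟩ := H1.Hall.hall_exists (p ^ a * q ^ b * r ^ c) m3 hcard hcop
  have hpr : ∀ s : ℕ, s.Prime → s ∣ Nat.card H → s = p ∨ s = q ∨ s = r := by
    intro s hs hd
    rw [hH] at hd
    rcases hs.dvd_mul.1 hd with hd | hd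
    · rcases hs.dvd_mul.1 hd with hd | hd
      · exact Or.inl ((Nat.prime_dvd_prime_iff_eq hs hp).1 (hs.dvd_of_dvd_pow hd))
      · exact Or.inr (Or.inl ((Nat.prime_dvd_prime_iff_eq hs hq).1 (hs.dvd_of_dvd_pow hd)))
    · exact Or.inr (Or.inr ((Nat.prime_dvd_prime_iff_eq hs hr).1 (hs.dvd_of_dvd_pow hd)))
  have hdvd : ∀ s : ℕ, s.Prime → (s = p ∨ s = q ∨ s = r) → s ∣ Nat.card G → s ∣ Nat.card H := by
    intro s hs hs' hd
    rw [hH]
    rw [hcard] at hd
    rcases hs.dvd_mul.1 hd with h | h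
    · exact h
    · exfalso
      rcases hs' with rfl | rfl | rfl
      · apply hm1; rw [hn2, hn3]; exact (h.mul_left _).mul_left _
      · apply hm2; rw [hn3]; exact h.mul_left _
      · exact hm3 h
  have hpp : ∀ g : H, IsPrimePow (orderOf g) ∨ g = 1 := by
    intro g
    by_contra hcon
    push Not at hcon
    have h4 : orderOf g ≠ 1 := fun h => hcon.2 (orderOf_eq_one_iff.1 h)
    obtain ⟨s, hs, hsd⟩ := Nat.exists_prime_and_dvd h4
    obtain ⟨k, m, hm, hk⟩ := Nat.exists_eq_pow_mul_and_not_dvd (orderOf_pos g).ne' s hs.ne_one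
    have hk0 : k ≠ 0 := by
      rintro rfl
      rw [pow_zero, one_mul] at hk
      rw [hk] at hsd
      exact hm hsd
    have hm1' : m ≠ 1 := by
      rintro rfl
      apply hcon.1
      rw [hk, mul_one]
      exact hs.isPrimePow.pow hk0
    obtain ⟨t, ht, htd⟩ := Nat.exists_prime_and_dvd hm1'
    have hst : s ≠ t := by rintro rfl; exact hm htd
    have hst' : s * t ∣ orderOf g := by
      rw [hk]
      exact mul_dvd_mul (dvd_pow_self s hk0) htd
    obtain ⟨e, he⟩ := hst'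
    have he0 : 0 < e := by
      rcases Nat.eq_zero_or_pos e with rfl | h
      · rw [mul_zero] at he; exact absurd he (orderOf_pos g).ne'
      · exact h
    have ho : orderOf (g ^ e) = s * t := by
      rw [orderOf_pow, he, Nat.gcd_eq_right (dvd_mul_left _ _), Nat.mul_div_cancel _ he0]
    have hsH := hpr s hs (hsd.trans (orderOf_dvd_natCard g))
    have htH := hpr t ht (((htd.trans (dvd_mul_left _ _)).trans hk.symm.dvd).trans (orderOf_dvd_natCard g))
    apply hno s t hsH htH hst ((g ^ e : H) : G)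
    rw [Subgroup.orderOf_coe, ho]
  have hsol : Group.IsSolvable H := inferInstance
  have h4 := H12.CN.higman hpp
  have h5 : ({p, q, r} : Finset ℕ) ⊆ (Nat.card H).primeFactors := by
    intro s hs
    simp only [Finset.mem_insert, Finset.mem_singleton] at hs
    rw [Nat.mem_primeFactors]
    refine ⟨?_, ?_, Nat.card_pos.ne'⟩
    · rcases hs with rfl | rfl | rfl <;> assumption
    · rcases hs with rfl | rfl | rfl
      · exact hdvd _ hp (Or.inl rfl) h1
      · exact hdvd _ hq (Or.inr (Or.inl rfl)) h2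
      · exact hdvd _ hr (Or.inr (Or.inr rfl)) h3
  have h6 := Finset.card_le_card h5
  have h7 : ({p, q, r} : Finset ℕ).card = 3 := by
    rw [Finset.card_eq_three]
    exact ⟨p, q, r, hpq.ne, (hpq.trans hqr).ne, hqr.ne, rfl⟩
  omega

/-- If the set of element orders of a finite group G is {1, 2, …, n} with n ≥ 7, then G is not solvable. -/
theorem result {G : Type*} [Group G] [Finite G] (n : ℕ) (hn : 7 ≤ n) (h : Set.range (orderOf : G → ℕ) = {k : ℕ | 1 ≤ k ∧ k ≤ n}) : ¬ Group.IsSolvable G := by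

  intro hs
  obtain ⟨p, q, r, hp, hq, hr, hpq, hqr, hrn, hlt⟩ := primes n hn
  have hex : ∀ s : ℕ, 1 ≤ s → s ≤ n → s ∣ Nat.card G := by
    intro s h1 h2
    have h3 : s ∈ Set.range (orderOf : G → ℕ) := by rw [h]; exact ⟨h1, h2⟩
    obtain ⟨g, rfl⟩ := h3
    exact orderOf_dvd_natCard g
  refine main (G := G) hp hq hr hpq hqr (hex p hp.one_lt.le (by omega)) (hex q hq.one_lt.le (by omega)) (hex r hr.one_lt.le hrn) ?_
  intro a b ha hb hab g hg
  have h3 : orderOf g ∈ Set.range (orderOf : G → ℕ) := ⟨g, rfl⟩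
  rw [h, hg] at h3
  have h4 : a * b ≤ n := h3.2
  have h5 : p * q ≤ a * b := by
    rcases ha with rfl | rfl | rfl <;> rcases hb with rfl | rfl | rfl
    · exact absurd rfl hab
    · exact le_rfl
    · exact Nat.mul_le_mul_left _ hqr.le
    · rw [mul_comm]
    · exact absurd rfl hab
    · exact Nat.mul_le_mul hpq.le hqr.le
    · rw [mul_comm]; exact Nat.mul_le_mul_right _ hqr.le
    · rw [mul_comm a b]; exact Nat.mul_le_mul hpq.le hqr.le
    · exact absurd rfl hab
  omega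


end Cfsg.Agent.S4002
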