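import Cfsg.Statements.S4003
import Cfsg.Agent.H24_Miller
-- import your own Cfsg.Agent.* helpers here

set_option autoImplicit false
open Cfsg

namespace Cfsg.Agent.S4003

open Subgroup Cfsg.Agent.H24.Miller

theorem F_conj {G : Type*} [Group G] (a : ℕ) (g y : G) :
    Nat.card {x : G // x * (g * y * g⁻¹) = (g * y * g⁻¹) * x ∧ orderOf x = a} = Nat.card {x : G // x * y = y * x ∧ orderOf x = a} := by
  have hord : ∀ h x : G, orderOf (h * x * h⁻¹) = orderOf x := fun h x => by
    have h1 : h * x * h⁻¹ = MulAut.conj h x := by rw [MulAut.conj_apply]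
    rw [h1]
    exact orderOf_injective (MulAut.conj h).toMonoidHom (MulAut.conj h).injective x
  symm
  apply Nat.card_congr
  refine ⟨fun x => ⟨g * x.1 * g⁻¹, ?_, by rw [hord]; exact x.2.2⟩, fun x => ⟨g⁻¹ * x.1 * g, ?_, ?_⟩, ?_, ?_⟩
  · calc g * x.1 * g⁻¹ * (g * y * g⁻¹) = g * (x.1 * y) * g⁻¹ := by group
      _ = g * (y * x.1) * g⁻¹ := by rw [x.2.1]
      _ = _ := by group
  · calc g⁻¹ * x.1 * g * y = g⁻¹ * (x.1 * (g * y * g⁻¹)) * g := by group
      _ = g⁻¹ * ((g * y * g⁻¹) * x.1) * g := by rw [x.2.1]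
      _ = _ := by group
  · have := hord g⁻¹ x.1
    rw [inv_inv] at this
    rw [this]; exact x.2.2
  · intro x; apply Subtype.ext; simp [mul_assoc]
  · intro x; apply Subtype.ext; simp [mul_assoc]

theorem F_eq {G : Type*} [Group G] (a : ℕ) (y : G) :
    Nat.card {x : G // x * y = y * x ∧ orderOf x = a} = Nat.card {x : centralizer ({y} : Set G) // orderOf x = a} := by
  apply Nat.card_congr
  exact ⟨fun x => ⟨⟨x.1, mem_centralizer_singleton_iff.2 x.2.1⟩, by rw [orderOf_mk]; exact x.2.2⟩,
    fun x => ⟨x.1.1, mem_centralizer_singleton_iff.1 x.1.2, by rw [orderOf_coe]; exact x.2⟩, fun x => rfl, fun x => rfl⟩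

theorem count_ {G : Type*} [Group G] [Finite G] [Fintype G] [DecidableEq G] {a m : ℕ} (ha : 0 < a) (hm0 : 0 < m) (ham : a.Coprime m) :
    Nat.card {g : G // orderOf g = a * m} =
      ∑ y ∈ Finset.univ.filter (fun y : G => orderOf y = m), Nat.card {x : G // x * y = y * x ∧ orderOf x = a} := by
  classical
  obtain ⟨u, hu1, hu2⟩ : ∃ u : ℤ, (m : ℤ) ∣ u ∧ (a : ℤ) ∣ u - 1 := by
    have h1 := Nat.gcd_eq_gcd_ab a m
    rw [ham] at h1
    refine ⟨m * Nat.gcdB a m, dvd_mul_right _ _, ⟨- Nat.gcdA a m, ?_⟩⟩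
    push_cast at h1
    linarith
  have hxy : ∀ (x y : G), x * y = y * x → orderOf x = a → orderOf y = m → (x * y) ^ u = x ∧ (x * y) ^ (1 - u) = y := by
    intro x y hc hx hy
    have hcm : Commute x y := hc
    obtain ⟨k, hk⟩ := hu1
    obtain ⟨l, hl⟩ := hu2
    have e1 : y ^ u = 1 := by rw [hk, zpow_mul, zpow_natCast, ← hy, pow_orderOf_eq_one, one_zpow]
    have e2 : x ^ (u - 1) = 1 := by rw [hl, zpow_mul, zpow_natCast, ← hx, pow_orderOf_eq_one, one_zpow]
    have e3 : x ^ u = x := by
      have : u = (u - 1) + 1 := by ring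
      rw [this, zpow_add, e2, one_mul, zpow_one]
    refine ⟨by rw [hcm.mul_zpow, e1, mul_one, e3], ?_⟩
    rw [hcm.mul_zpow, zpow_sub, zpow_sub, e1, e3, zpow_one, zpow_one]
    group
  have h1 : Nat.card {g : G // orderOf g = a * m} =
      Nat.card {q : G × G // q.1 * q.2 = q.2 * q.1 ∧ orderOf q.1 = a ∧ orderOf q.2 = m} := by
    symm
    apply Nat.card_eq_of_bijective (fun q => ⟨q.1.1 * q.1.2, by
      have h1 : Commute q.1.1 q.1.2 := q.2.1
      rw [h1.orderOf_mul_eq_mul_orderOf_of_coprime (by rw [q.2.2.1, q.2.2.2]; exact ham), q.2.2.1, q.2.2.2]⟩)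
    constructor
    · rintro ⟨⟨x, y⟩, hc, hx, hy⟩ ⟨⟨x', y'⟩, hc', hx', hy'⟩ h
      have h2 : x * y = x' * y' := congrArg Subtype.val h
      have e1 := hxy x y hc hx hy
      have e2 := hxy x' y' hc' hx' hy'
      rw [h2] at e1
      apply Subtype.ext
      exact Prod.ext (e1.1.symm.trans e2.1) (e1.2.symm.trans e2.2)
    · rintro ⟨g, hg⟩
      have hcm : Commute (g ^ u) (g ^ (1 - u)) := (Commute.refl g).zpow_zpow u (1 - u)
      have hga : g ^ (a * m) = 1 := by rw [← hg, pow_orderOf_eq_one]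
      have hx : orderOf (g ^ u) ∣ a := by
        apply orderOf_dvd_of_pow_eq_one
        obtain ⟨k, hk⟩ := hu1
        rw [← zpow_natCast, ← zpow_mul, hk, show (m : ℤ) * k * a = ((a * m : ℕ) : ℤ) * k by push_cast; ring, zpow_mul,
          zpow_natCast, hga, one_zpow]
      have hy : orderOf (g ^ (1 - u)) ∣ m := by
        apply orderOf_dvd_of_pow_eq_one
        obtain ⟨k, hk⟩ := hu2
        rw [← zpow_natCast, ← zpow_mul, show (1 - u) * (m : ℤ) = ((a * m : ℕ) : ℤ) * (-k) by
          push_cast; have : 1 - u = - (a * k) := by linarith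
          rw [this]; ring, zpow_mul, zpow_natCast, hga, one_zpow]
      have hprod : g ^ u * g ^ (1 - u) = g := by rw [← zpow_add]; simp
      have hcop : (orderOf (g ^ u)).Coprime (orderOf (g ^ (1 - u))) :=
        Nat.Coprime.coprime_dvd_left hx (Nat.Coprime.coprime_dvd_right hy ham)
      have hmul := hcm.orderOf_mul_eq_mul_orderOf_of_coprime hcop
      rw [hprod, hg] at hmul
      have hle1 := Nat.le_of_dvd ha hx
      have hle2 := Nat.le_of_dvd hm0 hy
      have e1 : orderOf (g ^ u) = a := by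
        by_contra hne
        have : orderOf (g ^ u) < a := lt_of_le_of_ne hle1 hne
        nlinarith
      have e2 : orderOf (g ^ (1 - u)) = m := by
        rw [e1] at hmul
        exact (Nat.eq_of_mul_eq_mul_left ha hmul).symm
      exact ⟨⟨(g ^ u, g ^ (1 - u)), hcm, e1, e2⟩, Subtype.ext hprod⟩
  rw [h1, Nat.card_eq_fintype_card, Fintype.card_subtype,
    Finset.card_eq_sum_card_fiberwise (f := fun q : G × G => q.2) (t := Finset.univ.filter (fun y : G => orderOf y = m))]
  · apply Finset.sum_congr rfl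
    intro y hy
    rw [Finset.mem_filter] at hy
    rw [Nat.card_eq_fintype_card, Fintype.card_subtype]
    symm
    apply Finset.card_bij (fun x _ => (x, y))
    · intro x hx
      simp only [Finset.mem_filter, Finset.mem_univ, true_and] at hx ⊢
      exact ⟨⟨hx.1, hx.2, hy.2⟩, trivial⟩
    · intro x _ x' _ h
      exact congrArg Prod.fst h
    · rintro ⟨x, y'⟩ hq
      simp only [Finset.mem_filter, Finset.mem_univ, true_and] at hq
      obtain ⟨⟨h2, h3, h4⟩, rfl⟩ := hq
      exact ⟨x, by simp only [Finset.mem_filter, Finset.mem_univ, true_and]; exact ⟨h2, h3⟩, rfl⟩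
  · intro q hq
    simp only [Finset.coe_filter, Finset.mem_univ, true_and, Set.mem_ofPred_eq] at hq ⊢
    exact hq.2.2

/-- Let G be a finite group, p an odd prime dividing the order of G whose Sylow p-subgroups are not cyclic, and n = p^s·m with s > 1 and m coprime to p. Then the number of elements of G of order n is a multiple of p^s. -/
theorem result {G : Type*} [Group G] [Finite G] (p : ℕ) [Fact p.Prime] (hodd : p ≠ 2) (hpG : p ∣ Nat.card G)
    (P : Sylow p G) (hP : ¬ IsCyclic ↥(P : Subgroup G)) (s m : ℕ) (hs : 1 < s) (hm : Nat.Coprime p m) :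
    p ^ s ∣ Nat.card {g : G // orderOf g = p ^ s * m} := by
  classical
  haveI := Fintype.ofFinite G
  have hp := (Fact.out : p.Prime)
  have hm0 : 0 < m := by
    rcases Nat.eq_zero_or_pos m with h | h
    · rw [h, Nat.coprime_zero_right] at hm
      exact absurd hm hp.ne_one
    · exact h
  rw [count_ (pow_pos hp.pos s) hm0 (Nat.Coprime.pow_left s hm)]
  apply dvd_sum_class _ _ _ (fun y g => F_conj _ g y)
  · intro y _
    rw [F_eq]
    have h1 := ord_ps (G := centralizer ({y} : Set G)) (p := p) hs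
    by_cases hd : p ∣ (centralizer ({y} : Set G)).index
    · have h2 := mul_dvd_mul hd h1.1
      have h3 : p * p ^ (s - 1) = p ^ s := by rw [← pow_succ']; congr 1; omega
      rwa [h3] at h2
    · exact (h1.2 hodd (cyl_sub P hP _ hd)).mul_left _
  · intro y hy g
    rw [Finset.mem_filter] at hy ⊢
    refine ⟨Finset.mem_univ _, ?_⟩
    have h1 : g * y * g⁻¹ = MulAut.conj g y := by rw [MulAut.conj_apply]
    rw [h1, ← hy.2]
    exact orderOf_injective (MulAut.conj g).toMonoidHom (MulAut.conj g).injective y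

end Cfsg.Agent.S4003
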