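import Cfsg.Statements.S4004
import Cfsg.Agent.H11_Nse6
import Cfsg.Agent.S3996

set_option autoImplicit false
open Cfsg

namespace Cfsg.Agent.S4004

open Cfsg.Agent.H11.Nse in
theorem orders {G : Type*} [Group G] [Finite G] {s s' : ℕ} (D : Dat (cc G) (Nat.card G) s s') (p q : ℕ)
    (hp : p.Prime) (hq : q.Prime) (hp3 : 3 ≤ p) (hq3 : 3 ≤ q)
    (hpq : p ≠ q) (hpN : p ∣ Nat.card G) (hqN : q ∣ Nat.card G)
    (hpr : ∀ r : ℕ, r.Prime → r ∣ Nat.card G → r = p ∨ r = q) (g : G) :
    orderOf g = 1 ∨ orderOf g = p ∨ orderOf g = q := by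
  rcases D.val p hp3 with h | h | h
  · exact absurd h (D.pos p hp hpN)
  · rcases D.val q hq3 with h' | h' | h'
    · exact absurd h' (D.pos q hq hqN)
    · exact absurd (D.same hp hq hp3 hq3 hpq hpN hqN h h') id
    · exact core D hp hq hp3 hq3 hpq hpN hqN h h' hpr g
  · rcases D.val q hq3 with h' | h' | h'
    · exact absurd h' (D.pos q hq hqN)
    · exact core D.symm hp hq hp3 hq3 hpq hpN hqN h h' hpr g
    · exact absurd (D.symm.same hp hq hp3 hq3 hpq hpN hqN h h') id

/-- Let G be a finite group of odd order in which the numbers of elements of each order that occurs (the numbers #{g : o(g) = m}, m ranging over the element orders of G) take exactly three different values. Then the order of G has at most two prime divisors; and if it has exactly two, then every Sylow subgroup of G for a prime dividing its order has prime exponent, G is a Frobenius group, and some Frobenius complement of G has prime order. -/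
theorem result {G : Type*} [Group G] [Finite G] (hodd : Odd (Nat.card G)) (h : (((fun m : ℕ => Nat.card {g : G // orderOf g = m}) '' Set.range (orderOf : G → ℕ))).ncard = 3) :
    (Nat.card G).primeFactors.card ≤ 2 ∧
      ((Nat.card G).primeFactors.card = 2 →
        (∀ (p : ℕ) [Fact p.Prime] (P : Sylow p G), p ∣ Nat.card G → Monoid.exponent ↥(P : Subgroup G) = p) ∧
        ∃ C : Subgroup G, Cfsg.IsFrobeniusComplement C ∧ (Nat.card ↥C).Prime) := by
  classical
  obtain ⟨s, s', hs, hs', hss, hv⟩ := Cfsg.Agent.S3996.vals h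
  have hv3 : ∀ m, 3 ≤ m → Cfsg.Agent.H11.Nse.cc G m = 0 ∨ Cfsg.Agent.H11.Nse.cc G m = s ∨ Cfsg.Agent.H11.Nse.cc G m = s' := by
    intro m hm
    by_cases h0 : Cfsg.Agent.H11.Nse.cc G m = 0
    · exact Or.inl h0
    · right
      rcases hv m h0 with h1 | h1
      · have := Cfsg.Agent.S3996.even_cc (G := G) m hm
        rw [h1] at this; exact absurd this (by decide)
      · exact h1
  have h2N : ¬ 2 ∣ Nat.card G := fun h => (Nat.not_even_iff_odd.2 hodd) (even_iff_two_dvd.2 h)
  have hc2 : Cfsg.Agent.H11.Nse.cc G 2 ≤ 1 := by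
    by_contra hcon
    have : Cfsg.Agent.H11.Nse.cc G 2 ≠ 0 := by omega
    obtain ⟨g, hg⟩ := Cfsg.Agent.H11.Nse.cc_ne.1 this
    exact h2N (hg ▸ orderOf_dvd_natCard g)
  have D := Cfsg.Agent.H11.Nse.dat (G := G) hv3 hc2
  have h3 : ∀ r : ℕ, r.Prime → r ∣ Nat.card G → 3 ≤ r := by
    intro r hr hrN
    have := hr.two_le
    have h' : r ≠ 2 := by rintro rfl; exact h2N hrN
    omega
  constructor
  · by_contra hcon
    push Not at hcon
    obtain ⟨a, ha, b, hb, c, hc, hab, hac, hbc⟩ := Finset.two_lt_card.1 hcon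
    rw [Nat.mem_primeFactors] at ha hb hc
    rcases (D.two ha.1 hb.1 (h3 a ha.1 ha.2.1) (h3 b hb.1 hb.2.1) hab ha.2.1 hb.2.1).2 c hc.1 (h3 c hc.1 hc.2.1) hc.2.1 with h | h
    · exact hac h.symm
    · exact hbc h.symm
  · intro hcard
    obtain ⟨p, q, hpq, hset⟩ := Finset.card_eq_two.1 hcard
    have hpm : p ∈ (Nat.card G).primeFactors := by rw [hset]; simp
    have hqm : q ∈ (Nat.card G).primeFactors := by rw [hset]; simp
    rw [Nat.mem_primeFactors] at hpm hqm
    obtain ⟨hp, hpN, hN0⟩ := hpm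
    obtain ⟨hq, hqN, _⟩ := hqm
    have hpr : ∀ r : ℕ, r.Prime → r ∣ Nat.card G → r = p ∨ r = q := by
      intro r hr hrN
      have : r ∈ (Nat.card G).primeFactors := Nat.mem_primeFactors.2 ⟨hr, hrN, hN0⟩
      rw [hset] at this; simpa using this
    have hO := orders D p q hp hq (h3 p hp hpN) (h3 q hq hqN) hpq hpN hqN hpr
    refine ⟨?_, Cfsg.Agent.H11.Nse.struct hp hq hpq hpN hqN hO (Cfsg.Agent.H11.Nse.solv hv3 (Or.inl hc2))⟩
    intro r hr P hrN
    have hr' := hr.out
    have hall : ∀ g : ↥(P : Subgroup G), g ^ r = 1 := by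
      intro g
      obtain ⟨k, hk⟩ := (IsPGroup.iff_orderOf.1 P.isPGroup') g
      have hk' : orderOf (g : G) = r ^ k := by rw [Subgroup.orderOf_coe]; exact hk
      have hle : orderOf g ∣ r := by
        rw [← Subgroup.orderOf_coe]
        rcases hO (g : G) with h | h | h
        · rw [h]; exact one_dvd r
        · have : p ∣ r ^ k := by rw [← hk', h]
          rw [h, (Nat.prime_dvd_prime_iff_eq hp hr').1 (hp.dvd_of_dvd_pow this)]
        · have : q ∣ r ^ k := by rw [← hk', h]
          rw [h, (Nat.prime_dvd_prime_iff_eq hq hr').1 (hq.dvd_of_dvd_pow this)]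
      exact orderOf_dvd_iff_pow_eq_one.1 hle
    have hdv : Monoid.exponent ↥(P : Subgroup G) ∣ r := Monoid.exponent_dvd_of_forall_pow_eq_one hall
    rcases (Nat.dvd_prime hr').1 hdv with h | h
    · exfalso
      rw [Monoid.exp_eq_one_iff] at h
      have hne := P.ne_bot_of_dvd_card hrN
      exact hne (Subgroup.eq_bot_of_subsingleton _)
    · exact h

end Cfsg.Agent.S4004
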