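import Cfsg.Statements.S4005
import Cfsg.Agent.H1_Fpf
import Cfsg.Agent.H1_Hall
import Cfsg.Agent.H1_Schmidt2
import Cfsg.Agent.H11_Cores
import Cfsg.Agent.H2_Basic
import Cfsg.Agent.H2_Card
import Cfsg.Agent.H2_Fusion4
import Cfsg.Agent.H22_Hall
import Cfsg.Agent.H23_PBasic
import Cfsg.Agent.H24_Tools
import Cfsg.Agent.H3_Burnside


set_option autoImplicit false
open Cfsg

namespace Cfsg.Agent.S4005

open Subgroup
open scoped Pointwise

universe u

variable {G : Type u} [Group G]

/-- A p-group acting fixed-point-freely with exponent p has order p -/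
theorem card_of_fpf [Finite G] {p : ℕ} [hp : Fact p.Prime] (T V : Subgroup G) (hT : IsPGroup p T) (hTe : ∀ t ∈ T, t ^ p = 1)
    (hTb : T ≠ ⊥) (hodd : p ≠ 2 ∨ ∀ a b : T, a * b = b * a) [IsMulCommutative V] [V.Normal] (hV : V ≠ ⊥)
    (hfpf : ∀ a ∈ T, a ≠ 1 → V ⊓ centralizer {a} = ⊥) : Nat.card T = p := by
  have hcyc : IsCyclic T := by
    apply H23.PBasic.cyclic_of_unique hT hodd
    apply H23.PBasic.unique_of_abelian_cyclic hT
    intro A hA _
    haveI : IsMulCommutative (A.map T.subtype) := H1.Schmidt.isMulCommutative_map _ hA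
    have h1 := H1.Fpf.isCyclic_of_fpf_comm (A.map T.subtype) V hV (by rw [normalizer_eq_top]; exact le_top)
      (fun a ha ha1 => hfpf a (map_subtype_le _ ha) ha1)
    exact isCyclic_of_injective ((A.equivMapOfInjective _ T.subtype_injective).toMonoidHom) (MulEquiv.injective _)
  obtain ⟨g, hg⟩ := hcyc.exists_generator
  have h1 : Nat.card T = orderOf g := (orderOf_eq_card_of_forall_mem_zpowers hg).symm
  have h2 : orderOf g ∣ p := orderOf_dvd_of_pow_eq_one (Subtype.ext (hTe g g.2))
  rcases (Nat.dvd_prime hp.out).1 h2 with h3 | h3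
  · exfalso
    rw [h3] at h1
    exact hTb (Subgroup.card_eq_one.1 h1)
  · rw [h1, h3]


/-- A finite group whose set of element orders is exactly {1, 2, 3} has either a normal elementary abelian 3-subgroup of index 2 or a normal elementary abelian 2-subgroup of index 3. -/
theorem result {G : Type*} [Group G] [Finite G] (h : Set.range (orderOf : G → ℕ) = {k : ℕ | 1 ≤ k ∧ k ≤ 3}) :
    (∃ N : Subgroup G, N.Normal ∧ Cfsg.IsElementaryAbelian 3 N ∧ N.index = 2) ∨
      (∃ N : Subgroup G, N.Normal ∧ Cfsg.IsElementaryAbelian 2 N ∧ N.index = 3) := by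

  classical
  have hord : ∀ g : G, orderOf g = 1 ∨ orderOf g = 2 ∨ orderOf g = 3 := by
    intro g
    have h1 : orderOf g ∈ {k : ℕ | 1 ≤ k ∧ k ≤ 3} := by rw [← h]; exact ⟨g, rfl⟩
    obtain ⟨h2, h3⟩ := h1
    omega
  obtain ⟨a, ha⟩ : ∃ a : G, orderOf a = 2 := by
    have h1 : 2 ∈ Set.range (orderOf : G → ℕ) := by rw [h]; exact ⟨by norm_num, by norm_num⟩
    exact h1
  obtain ⟨b, hb⟩ : ∃ b : G, orderOf b = 3 := by
    have h1 : 3 ∈ Set.range (orderOf : G → ℕ) := by rw [h]; exact ⟨by norm_num, by norm_num⟩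
    exact h1
  have hpr : ∀ q : ℕ, q.Prime → q ∣ Nat.card G → q = 2 ∨ q = 3 := by
    intro q hq hqd
    haveI : Fact q.Prime := ⟨hq⟩
    obtain ⟨x, hx⟩ := exists_prime_orderOf_dvd_card' q hqd
    rcases hord x with h1 | h1 | h1
    · rw [hx] at h1; exact absurd h1 hq.ne_one
    · left; rw [← hx, h1]
    · right; rw [← hx, h1]
  have hsol : Group.IsSolvable G := by
    have h1 : Nat.card G = 2 ^ (Nat.card G).factorization 2 * (ordCompl[2] (Nat.card G)) := (Nat.ordProj_mul_ordCompl_eq_self _ 2).symm
    have h2 : ordCompl[2] (Nat.card G) ≠ 0 := (Nat.ordCompl_pos 2 Nat.card_pos.ne').ne'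
    have h3 := Nat.eq_prime_pow_of_unique_prime_dvd (p := 3) h2 (by
      intro d hd hdd
      rcases hpr d hd (hdd.trans (Nat.ordCompl_dvd _ _)) with h4 | h4
      · exfalso
        subst h4
        exact Nat.not_dvd_ordCompl Nat.prime_two Nat.card_pos.ne' hdd
      · exact h4)
    rw [h3] at h1
    exact H3.Burnside.burnside _ G 2 3 _ _ Nat.prime_two Nat.prime_three rfl h1
  have no : ∀ x y : G, orderOf x = 2 → orderOf y = 3 → x * y = y * x → False := by
    intro x y hx hy hc
    have h1 := (show Commute x y from hc).orderOf_mul_eq_mul_orderOf_of_coprime (by rw [hx, hy]; decide)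
    rw [hx, hy] at h1
    rcases hord (x * y) with h2 | h2 | h2 <;> omega
  have hnt : Nontrivial G := ⟨⟨a, 1, by rintro rfl; rw [orderOf_one] at ha; omega⟩⟩
  obtain ⟨V0, hV0n, hV0b, hV0min⟩ := H1.Hall.exists_minimal_normal_of_nontrivial G
  haveI := hV0n
  obtain ⟨p, hp, hV0p⟩ := H22.Hall.minimal_normal_isPGroup V0 inferInstance hV0b hV0min
  haveI : Fact p.Prime := ⟨hp⟩
  set V := (center V0).map V0.subtype with hV
  haveI hVn : V.Normal := H11.Cores.map_subtype_normal_of_characteristic _ _
  have hVb : V ≠ ⊥ := by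
    intro h1
    have h2 : center V0 = ⊥ := (map_eq_bot_iff_of_injective _ V0.subtype_injective).1 h1
    haveI : Nontrivial V0 := (Subgroup.nontrivial_iff_ne_bot V0).2 hV0b
    haveI := hV0p.center_nontrivial
    exact (Subgroup.nontrivial_iff_ne_bot _).1 inferInstance h2
  haveI hVc : IsMulCommutative V := H1.Schmidt.isMulCommutative_map _ inferInstance
  have hVp : IsPGroup p V := hV0p.to_le (map_subtype_le _)
  obtain ⟨⟨v, hv⟩, hv1⟩ := ne_bot_iff_exists_ne_one.1 hVb
  have hv1 : v ≠ 1 := fun h => hv1 (Subtype.ext h)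
  -- orders of elements of p-subgroups
  have hel : ∀ {s : ℕ} [Fact s.Prime] {S : Subgroup G} (hS : IsPGroup s S) (x : G), x ∈ S → x ≠ 1 → orderOf x = s := by
    intro s hs S hS x hx hx1
    obtain ⟨k, hk⟩ := H24.Tools.exists_orderOf hS hx
    have hk0 : k ≠ 0 := by
      rintro rfl
      rw [pow_zero, orderOf_eq_one_iff] at hk
      exact hx1 hk
    have h1 : s ∣ orderOf x := by rw [hk]; exact dvd_pow_self _ hk0
    have h2 : orderOf x ≠ 1 := by rwa [Ne, orderOf_eq_one_iff]
    rcases hord x with h3 | h3 | h3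
    · exact absurd h3 h2
    · rw [h3] at h1 ⊢
      exact ((Nat.prime_dvd_prime_iff_eq hs.out Nat.prime_two).1 h1).symm
    · rw [h3] at h1 ⊢
      exact ((Nat.prime_dvd_prime_iff_eq hs.out Nat.prime_three).1 h1).symm
  haveI : Fact (Nat.Prime 2) := ⟨Nat.prime_two⟩
  haveI : Fact (Nat.Prime 3) := ⟨Nat.prime_three⟩
  have hexp : ∀ {s : ℕ} [Fact s.Prime] {S : Subgroup G} (hS : IsPGroup s S) (x : G), x ∈ S → x ^ s = 1 := by
    intro s hs S hS x hx
    by_cases hx1 : x = 1
    · rw [hx1, one_pow]
    · rw [← hel hS x hx hx1]; exact pow_orderOf_eq_one x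
  have hcomm2 : ∀ {S : Subgroup G} (hS : IsPGroup 2 S), ∀ x ∈ S, ∀ y ∈ S, x * y = y * x := by
    intro S hS x hx y hy
    have h1 := hexp hS x hx
    have h2 := hexp hS y hy
    have h3 := hexp hS (x * y) (mul_mem hx hy)
    rw [sq] at h1 h2 h3
    have e1 : x⁻¹ = x := inv_eq_of_mul_eq_one_left h1
    have e2 : y⁻¹ = y := inv_eq_of_mul_eq_one_left h2
    have e3 : (x * y)⁻¹ = x * y := inv_eq_of_mul_eq_one_left h3
    rw [mul_inv_rev, e1, e2] at e3
    exact e3.symm
  let S : Sylow 2 G := default
  let T : Sylow 3 G := default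
  have hSb : (S : Subgroup G) ≠ ⊥ := S.ne_bot_of_dvd_card (ha ▸ orderOf_dvd_natCard a)
  have hTb : (T : Subgroup G) ≠ ⊥ := T.ne_bot_of_dvd_card (hb ▸ orderOf_dvd_natCard b)
  have hvo := hel hVp v hv hv1
  have hp23 : p = 2 ∨ p = 3 := hpr p hp (hvo ▸ orderOf_dvd_natCard v)
  rcases hp23 with rfl | rfl
  · right
    -- Sylow 2-subgroup is normal
    have hVS : ∀ S : Sylow 2 G, V ≤ S := fun S => hVp.le_sylow_of_normal S
    have hSC : ∀ S : Sylow 2 G, (S : Subgroup G) = centralizer {v} := by
      intro S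
      have h1 : IsPGroup 2 (centralizer {v}) := by
        apply IsPGroup.of_card (n := (Nat.card (centralizer {v} : Subgroup G)).primeFactorsList.length)
        apply Nat.eq_prime_pow_of_unique_prime_dvd Nat.card_pos.ne'
        intro d hd hdd
        rcases hpr d hd (hdd.trans (card_subgroup_dvd_card _)) with h4 | h4
        · exact h4
        · exfalso
          subst h4
          obtain ⟨y, hy⟩ := exists_prime_orderOf_dvd_card' 3 hdd
          exact no v y hvo (by rw [orderOf_coe, hy]) (mem_centralizer_singleton_iff.1 y.2).symm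
      have h2 : (S : Subgroup G) ≤ centralizer {v} := by
        intro x hx
        rw [mem_centralizer_singleton_iff]
        exact hcomm2 S.2 x hx v (hVS S hv)
      exact (S.3 h1 h2).symm
    have hSn : (S : Subgroup G).Normal := by
      constructor
      intro x hx g
      have h1 := hSC (g • S)
      rw [← hSC S] at h1
      have h3 : g * x * g⁻¹ ∈ g • S := by
        rw [H2.Basic.mem_smul_sylow]
        have : g⁻¹ * (g * x * g⁻¹) * g = x := by group
        rw [this]; exact hx
      change g * x * g⁻¹ ∈ ((g • S : Sylow 2 G) : Subgroup G) at h3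
      rwa [h1] at h3
    haveI : IsMulCommutative (S : Subgroup G) := H1.Schmidt.isMulCommutative_of_forall (hcomm2 S.2)
    refine ⟨S, hSn, ⟨this, fun x hx => hexp S.2 x hx⟩, ?_⟩
    have hT3 : Nat.card T = 3 := by
      apply card_of_fpf (T : Subgroup G) (S : Subgroup G) T.2 (fun t ht => hexp T.2 t ht) hTb (Or.inl (by norm_num)) hSb
      intro t ht ht1
      rw [eq_bot_iff]
      rintro s ⟨hs, hst⟩
      rw [mem_bot]
      by_contra hs1
      exact no s t (hel S.2 s hs hs1) (hel T.2 t ht ht1) (mem_centralizer_singleton_iff.1 hst)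
    -- index
    have h1 : IsPGroup 3 (G ⧸ (S : Subgroup G)) := by
      apply IsPGroup.of_card (n := (Nat.card (G ⧸ (S : Subgroup G))).primeFactorsList.length)
      apply Nat.eq_prime_pow_of_unique_prime_dvd Nat.card_pos.ne'
      intro d hd hdd
      rcases hpr d hd (hdd.trans ((S : Subgroup G).index_dvd_card)) with h4 | h4
      · exfalso
        subst h4
        exact S.not_dvd_index hdd
      · exact h4
    obtain ⟨n, hn⟩ := IsPGroup.iff_card.1 h1
    have h2 : Nat.card S * (S : Subgroup G).index = Nat.card G := (S : Subgroup G).card_mul_index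
    have h3 : (S : Subgroup G).index = 3 ^ n := hn
    have h4 : (Nat.card G).factorization 3 = n := by
      rw [← h2, h3, Nat.factorization_mul Nat.card_pos.ne' (by positivity), S.card_eq_multiplicity]
      simp [Nat.Prime.factorization Nat.prime_two, Nat.factorization_pow, Nat.Prime.factorization Nat.prime_three]
    have h5 := T.card_eq_multiplicity
    rw [hT3, h4] at h5
    rw [h3, ← h5]
  · left
    haveI : IsMulCommutative (S : Subgroup G) := H1.Schmidt.isMulCommutative_of_forall (hcomm2 S.2)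
    have hS2 : Nat.card S = 2 := by
      apply card_of_fpf (S : Subgroup G) V S.2 (fun t ht => hexp S.2 t ht) hSb (Or.inr (fun a b => Subtype.ext (hcomm2 S.2 a a.2 b b.2))) hVb
      intro s hs hs1
      rw [eq_bot_iff]
      rintro w ⟨hw, hws⟩
      rw [mem_bot]
      by_contra hw1
      exact no s w (hel S.2 s hs hs1) (hel hVp w hw hw1) (mem_centralizer_singleton_iff.1 hws).symm
    have hScyc : IsCyclic (S : Subgroup G) := isCyclic_of_prime_card (p := 2) hS2
    have hmin : (Nat.card G).minFac = 2 := by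
      rw [Nat.minFac_eq_two_iff]
      exact ha ▸ orderOf_dvd_natCard a
    have hnpc := H2.Fusion4.npc_of_normalizer_le_centralizer S (IsCyclic.normalizer_le_centralizer hmin hScyc)
    obtain ⟨K, hK, hKc, k, hk⟩ := H2.Basic.npc_iff.1 hnpc
    haveI := hK
    have hKi : K.index = 2 := by
      rw [← hS2]
      exact (H2.Basic.isComplement'_sylow S hKc hk).symm.index_eq_card
    have hK3 : ∀ x ∈ K, x ≠ 1 → orderOf x = 3 := by
      intro x hx hx1
      rcases hord x with h1 | h1 | h1
      · exact absurd (orderOf_eq_one_iff.1 h1) hx1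
      · exfalso
        apply hKc
        rw [← h1]
        exact Subgroup.orderOf_dvd_natCard _ hx
      · exact h1
    refine ⟨K, hK, ⟨?_, ?_⟩, hKi⟩
    · let φ : K →* K := (MulAut.conjNormal (H := K) a).toMonoidHom
      have hφ : MonoidHom.FixedPointFree φ := by
        intro x hx
        by_contra hx1
        have h1 : a * (x : G) * a⁻¹ = x := congrArg Subtype.val hx
        rw [mul_inv_eq_iff_eq_mul] at h1
        exact no a x ha (hK3 x x.2 (fun h => hx1 (Subtype.ext h))) h1
      have hinv : Function.Involutive φ := by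
        intro x
        apply Subtype.ext
        change a * (a * (x : G) * a⁻¹) * a⁻¹ = x
        have h1 : a * a = 1 := by rw [← sq, ← ha]; exact pow_orderOf_eq_one a
        have h2 : a⁻¹ = a := inv_eq_of_mul_eq_one_left h1
        have h3 : a * (a * (x : G) * a⁻¹) * a⁻¹ = (a * a) * x * (a⁻¹ * a⁻¹) := by group
        rw [h3, h2, h1, one_mul, mul_one]
      exact ⟨⟨fun x y => hφ.commute_all_of_involutive hinv x y⟩⟩
    · intro x hx
      by_cases hx1 : x = 1
      · rw [hx1, one_pow]
      · rw [← hK3 x hx hx1]; exact pow_orderOf_eq_one x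


end Cfsg.Agent.S4005
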