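import Cfsg.Statements.S4198
import Mathlib

set_option autoImplicit false
open Cfsg

namespace Cfsg.Agent.S4198

/-- possible cycle types -/
def T (n : ℕ) : Set (Multiset ℕ) := {m | m.sum ≤ n ∧ ∀ a ∈ m, 2 ≤ a}

theorem mem_T {n : ℕ} {m : Multiset ℕ} : m ∈ T n ↔ ∃ σ : Equiv.Perm (Fin n), σ.cycleType = m := by
  have := Equiv.Perm.exists_with_cycleType_iff (Fin n) (m := m)
  rw [Fintype.card_fin] at this
  exact this.symm

theorem gid1 {G : Type*} [Group G] (x y g : G) : x * y * g * (x * y)⁻¹ = x * (y * g) * y⁻¹ * x⁻¹ := by group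
theorem gid2 {G : Type*} [Group G] (x y g : G) : x * (g * y) * y⁻¹ * x⁻¹ = x * g * x⁻¹ := by group
theorem gid3 {G : Type*} [Group G] (x y g : G) : y⁻¹ * x * g * (y⁻¹ * x)⁻¹ = y⁻¹ * (x * g * x⁻¹) * y := by group
theorem gid4 {G : Type*} [Group G] (y g : G) : y⁻¹ * (y * g * y⁻¹) * y = g := by group

theorem T_finite (n : ℕ) : (T n).Finite := by
  have : T n = Set.range (fun σ : Equiv.Perm (Fin n) => σ.cycleType) := by
    ext m; rw [mem_T]; rfl
  rw [this]
  exact Set.finite_range _

theorem exists_min {m : Multiset ℕ} (hm : m ≠ 0) : ∃ a ∈ m, ∀ b ∈ m, a ≤ b := by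
  obtain ⟨x, hx⟩ := Multiset.exists_mem_of_ne_zero hm
  obtain ⟨a, ha, hmin⟩ := Finset.exists_min_image m.toFinset id ⟨x, Multiset.mem_toFinset.mpr hx⟩
  exact ⟨a, Multiset.mem_toFinset.mp ha, fun b hb => hmin b (Multiset.mem_toFinset.mpr hb)⟩

theorem T_succ (n : ℕ) (hn : 1 ≤ n) : (T (n + 1)).ncard ≤ 2 * (T n).ncard := by
  classical
  let E : Set (Multiset ℕ) := {m | m.sum = n + 1 ∧ ∀ a ∈ m, 2 ≤ a}
  have hT : T (n + 1) ⊆ T n ∪ E := by
    rintro m ⟨h1, h2⟩
    rcases Nat.lt_or_ge n m.sum with h | h
    · exact Or.inr ⟨by omega, h2⟩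
    · exact Or.inl ⟨h, h2⟩
  have hEfin : E.Finite := (T_finite (n + 1)).subset (fun m hm => ⟨hm.1.le, hm.2⟩)
  have hne : ∀ m ∈ E, m ≠ 0 := by
    rintro m ⟨h1, _⟩ rfl
    simp at h1
  let mn : Multiset ℕ → ℕ := fun m => if h : m ≠ 0 then (exists_min h).choose else 0
  have hmn : ∀ m ∈ E, mn m ∈ m ∧ ∀ b ∈ m, mn m ≤ b := by
    intro m hm
    have h := hne m hm
    simp only [mn, dif_pos h]
    exact (exists_min h).choose_spec
  let φ : Multiset ℕ → Multiset ℕ := fun m => if mn m = 2 then m.erase (mn m) else (mn m - 1) ::ₘ m.erase (mn m)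
  have hsum : ∀ m ∈ E, mn m + (m.erase (mn m)).sum = n + 1 := by
    intro m hm
    have := Multiset.cons_erase (hmn m hm).1
    rw [← hm.1]
    conv_rhs => rw [← this, Multiset.sum_cons]
  have hmap : ∀ m ∈ E, φ m ∈ T n := by
    intro m hm
    have h1 := hsum m hm
    have h2 := hm.2 _ (hmn m hm).1
    simp only [φ]
    split_ifs with h
    · refine ⟨by omega, fun a ha => hm.2 a (Multiset.mem_of_mem_erase ha)⟩
    · refine ⟨?_, fun a ha => ?_⟩
      · rw [Multiset.sum_cons]; omega
      · rcases Multiset.mem_cons.mp ha with rfl | ha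
        · omega
        · exact hm.2 a (Multiset.mem_of_mem_erase ha)
  have hinj : Set.InjOn φ E := by
    intro m1 h1 m2 h2 h12
    have s1 := hsum m1 h1
    have s2 := hsum m2 h2
    have g1 := h1.2 _ (hmn m1 h1).1
    have g2 := h2.2 _ (hmn m2 h2).1
    have hs := congrArg Multiset.sum h12
    simp only [φ] at h12 hs
    split_ifs at h12 hs with c1 c2 c2
    · rw [← Multiset.cons_erase (hmn m1 h1).1, ← Multiset.cons_erase (hmn m2 h2).1, h12, c1, c2]
    · exfalso
      rw [Multiset.sum_cons] at hs; omega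
    · exfalso
      rw [Multiset.sum_cons] at hs; omega
    · -- compare minima
      have m12 : mn m1 ≤ mn m2 := by
        have : mn m2 - 1 ∈ (mn m1 - 1) ::ₘ m1.erase (mn m1) := by rw [h12]; exact Multiset.mem_cons_self _ _
        rcases Multiset.mem_cons.mp this with h | h
        · omega
        · have := (hmn m1 h1).2 _ (Multiset.mem_of_mem_erase h)
          omega
      have m21 : mn m2 ≤ mn m1 := by
        have : mn m1 - 1 ∈ (mn m2 - 1) ::ₘ m2.erase (mn m2) := by rw [← h12]; exact Multiset.mem_cons_self _ _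
        rcases Multiset.mem_cons.mp this with h | h
        · omega
        · have := (hmn m2 h2).2 _ (Multiset.mem_of_mem_erase h)
          omega
      have heq : mn m1 = mn m2 := le_antisymm m12 m21
      rw [← heq] at h12
      have h3 := (Multiset.cons_inj_right _).mp h12
      rw [← Multiset.cons_erase (hmn m1 h1).1, ← Multiset.cons_erase (hmn m2 h2).1, ← heq, h3]
  have hE : E.ncard ≤ (T n).ncard := Set.ncard_le_ncard_of_injOn φ hmap hinj (T_finite n)
  calc (T (n + 1)).ncard ≤ (T n ∪ E).ncard := Set.ncard_le_ncard hT ((T_finite n).union hEfin)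
    _ ≤ (T n).ncard + E.ncard := Set.ncard_union_le _ _
    _ ≤ 2 * (T n).ncard := by omega

theorem part1 (n : ℕ) (hn : 5 ≤ n) :
    Nat.card (ConjClasses (alternatingGroup (Fin n))) < Nat.card (ConjClasses (Equiv.Perm (Fin n))) := by
  classical
  let A := alternatingGroup (Fin n)
  let S := Equiv.Perm (Fin n)
  -- odd part of the story: change of cycle type
  let mx : Multiset ℕ → ℕ := fun m => m.toFinset.sup id
  let ψ : Multiset ℕ → Multiset ℕ := fun m => (mx m - 1) ::ₘ m.erase (mx m)
  -- split types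
  let Split : Multiset ℕ → Prop := fun m => (∀ c ∈ m, Odd c) ∧ n ≤ m.sum + 1 ∧ (∀ i, m.count i ≤ 1) ∧ ∀ c ∈ m, 2 ≤ c
  have hmx : ∀ m : Multiset ℕ, m ≠ 0 → mx m ∈ m ∧ ∀ b ∈ m, b ≤ mx m := by
    intro m hm
    obtain ⟨x, hx⟩ := Multiset.exists_mem_of_ne_zero hm
    have hne : m.toFinset.Nonempty := ⟨x, Multiset.mem_toFinset.mpr hx⟩
    obtain ⟨y, hy, hy2⟩ := Finset.exists_mem_eq_sup m.toFinset hne id
    refine ⟨?_, fun b hb => Finset.le_sup (f := id) (Multiset.mem_toFinset.mpr hb)⟩
    simp only [mx]
    rw [hy2]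
    exact Multiset.mem_toFinset.mp hy
  have hsplitne : ∀ m, Split m → m ≠ 0 := by
    rintro m ⟨-, h2, -⟩ rfl
    simp at h2
    omega
  have hsum : ∀ m, Split m → mx m + (m.erase (mx m)).sum = m.sum := by
    intro m hm
    have := Multiset.cons_erase (hmx m (hsplitne m hm)).1
    conv_rhs => rw [← this, Multiset.sum_cons]
  have hcardm : ∀ m, Split m → (m.erase (mx m)).card + 1 = m.card := by
    intro m hm
    exact Multiset.card_erase_add_one (hmx m (hsplitne m hm)).1
  have hψinj : ∀ m1 m2, Split m1 → Split m2 → ψ m1 = ψ m2 → m1 = m2 := by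
    intro m1 m2 h1 h2 h12
    have a1 := hmx m1 (hsplitne m1 h1)
    have a2 := hmx m2 (hsplitne m2 h2)
    have o1 := h1.1 _ a1.1
    have o2 := h2.1 _ a2.1
    have hmem : mx m1 - 1 ∈ ψ m2 := by rw [← h12]; exact Multiset.mem_cons_self _ _
    have heq : mx m1 = mx m2 := by
      rcases Multiset.mem_cons.mp hmem with h | h
      · obtain ⟨k1, hk1⟩ := o1
        obtain ⟨k2, hk2⟩ := o2
        omega
      · exfalso
        have := h2.1 _ (Multiset.mem_of_mem_erase h)
        obtain ⟨k1, hk1⟩ := o1
        obtain ⟨k3, hk3⟩ := this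
        omega
    simp only [ψ] at h12
    rw [← heq] at h12
    have h3 := (Multiset.cons_inj_right _).mp h12
    rw [← Multiset.cons_erase a1.1, ← Multiset.cons_erase a2.1, ← heq, h3]
  have hψT : ∀ m, Split m → m.sum ≤ n → ψ m ∈ T n := by
    intro m hm hmn
    have h1 := hsum m hm
    have a1 := hmx m (hsplitne m hm)
    have o1 := hm.1 _ a1.1
    have g1 := hm.2.2.2 _ a1.1
    refine ⟨?_, fun a ha => ?_⟩
    · simp only [ψ]
      rw [Multiset.sum_cons]; omega
    · rcases Multiset.mem_cons.mp ha with rfl | ha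
      · obtain ⟨k, hk⟩ := o1
        omega
      · exact hm.2.2.2 a (Multiset.mem_of_mem_erase ha)
  -- ω : a permutation with the changed type
  have hω : ∀ m, ∃ σ : S, (Split m → m.sum ≤ n → σ.cycleType = ψ m) := by
    intro m
    by_cases h : Split m ∧ m.sum ≤ n
    · obtain ⟨σ, hσ⟩ := mem_T.mp (hψT m h.1 h.2)
      exact ⟨σ, fun _ _ => hσ⟩
    · exact ⟨1, fun h1 h2 => absurd ⟨h1, h2⟩ h⟩
  choose ω hω using hω
  have hωodd : ∀ m, Split m → m.sum ≤ n → Even (m.sum + m.card) → Equiv.Perm.sign (ω m) = -1 := by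
    intro m hm hmn hev
    rw [Equiv.Perm.sign_of_cycleType, hω m hm hmn]
    simp only [ψ]
    rw [Multiset.sum_cons, Multiset.card_cons]
    have h1 := hsum m hm
    have h2 := hcardm m hm
    have a1 := hmx m (hsplitne m hm)
    have g1 := hm.2.2.2 _ a1.1
    have : Odd (mx m - 1 + (m.erase (mx m)).sum + ((m.erase (mx m)).card + 1)) := by
      rw [h2]
      obtain ⟨k, hk⟩ := hev
      exact ⟨k - 1, by omega⟩
    exact this.neg_one_pow
  -- the map on classes
  let inc : ConjClasses A → ConjClasses S := ConjClasses.map A.subtype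
  let rep : ConjClasses S → S := fun C => C.out
  have hrep : ∀ C, ConjClasses.mk (rep C) = C := fun C => Quotient.out_eq C
  let g : ConjClasses A → A := fun c => c.out
  have hg : ∀ c, ConjClasses.mk (g c) = c := fun c => Quotient.out_eq c
  have hginc : ∀ c, inc c = ConjClasses.mk ((g c : S)) := by
    intro c
    conv_lhs => rw [← hg c]
    rfl
  let Good : ConjClasses A → Prop := fun c => ∃ x : S, x ∈ A ∧ x * (g c : S) * x⁻¹ = rep (inc c)
  have hconj : ∀ c, ∃ x : S, x * (g c : S) * x⁻¹ = rep (inc c) := by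
    intro c
    have h1 : ConjClasses.mk ((g c : S)) = ConjClasses.mk (rep (inc c)) := by rw [hrep, ← hginc]
    exact isConj_iff.mp (ConjClasses.mk_eq_mk_iff_isConj.mp h1)
  let Ψ : ConjClasses A → ConjClasses S := fun c => if Good c then inc c else ConjClasses.mk (ω (g c : S).cycleType)
  -- not good implies split
  have hsplit : ∀ c, ¬ Good c → Split (g c : S).cycleType := by
    intro c hc
    have hle : Subgroup.centralizer {(g c : S)} ≤ alternatingGroup (Fin n) := by
      intro y hy
      by_contra hyA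
      apply hc
      obtain ⟨x, hx⟩ := hconj c
      by_cases hxA : x ∈ A
      · exact ⟨x, hxA, hx⟩
      · refine ⟨x * y, ?_, ?_⟩
        · change x * y ∈ alternatingGroup (Fin n)
          rw [Equiv.Perm.mem_alternatingGroup] at hyA ⊢
          have hxA' : ¬ Equiv.Perm.sign x = 1 := fun h => hxA (Equiv.Perm.mem_alternatingGroup.mpr h)
          rcases Int.units_eq_one_or (Equiv.Perm.sign x) with h1 | h1
          · exact absurd h1 hxA'
          · rcases Int.units_eq_one_or (Equiv.Perm.sign y) with h2 | h2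
            · exact absurd h2 hyA
            · rw [Equiv.Perm.sign_mul, h1, h2]; rfl
        · rw [Subgroup.mem_centralizer_singleton_iff] at hy
          rw [← hx]
          calc x * y * (g c : S) * (x * y)⁻¹ = x * (y * (g c : S)) * y⁻¹ * x⁻¹ := gid1 _ _ _
            _ = x * ((g c : S) * y) * y⁻¹ * x⁻¹ := by rw [hy]
            _ = _ := gid2 _ _ _
    have h1 := (Equiv.Perm.centralizer_le_alternating_iff).mp hle
    rw [Fintype.card_fin] at h1
    exact ⟨h1.1, h1.2.1, h1.2.2, fun c hc => Equiv.Perm.two_le_of_mem_cycleType hc⟩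
  have hsn : ∀ c, (g c : S).cycleType.sum ≤ n := by
    intro c
    have := Equiv.Perm.sum_cycleType_le (g c : S)
    rwa [Fintype.card_fin] at this
  have hev : ∀ c, Even ((g c : S).cycleType.sum + (g c : S).cycleType.card) := by
    intro c
    by_contra h
    rw [Nat.not_even_iff_odd] at h
    have h1 : Equiv.Perm.sign (g c : S) = 1 := Equiv.Perm.mem_alternatingGroup.mp (g c).2
    rw [Equiv.Perm.sign_of_cycleType, h.neg_one_pow] at h1
    exact absurd h1 (by decide)
  have hsigncl : ∀ a b : S, ConjClasses.mk a = ConjClasses.mk b → Equiv.Perm.sign a = Equiv.Perm.sign b := by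
    intro a b h
    obtain ⟨x, hx⟩ := isConj_iff.mp (ConjClasses.mk_eq_mk_iff_isConj.mp h)
    rw [← hx, Equiv.Perm.sign_mul, Equiv.Perm.sign_mul, Equiv.Perm.sign_inv]
    rw [mul_comm (Equiv.Perm.sign x), mul_assoc, Int.units_mul_self, mul_one]
  have hΨinj : Function.Injective Ψ := by
    intro c c' h
    have hA1 : ∀ c, Equiv.Perm.sign (g c : S) = 1 := fun c => Equiv.Perm.mem_alternatingGroup.mp (g c).2
    by_cases h1 : Good c
    · by_cases h2 : Good c'
      · simp only [Ψ, if_pos h1, if_pos h2] at h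
        obtain ⟨x, hx, hx1⟩ := h1
        obtain ⟨y, hy, hy1⟩ := h2
        rw [← hg c, ← hg c', ConjClasses.mk_eq_mk_iff_isConj, isConj_iff]
        refine ⟨⟨y⁻¹ * x, A.mul_mem (A.inv_mem hy) hx⟩, ?_⟩
        apply Subtype.ext
        change y⁻¹ * x * (g c : S) * (y⁻¹ * x)⁻¹ = (g c' : S)
        calc y⁻¹ * x * (g c : S) * (y⁻¹ * x)⁻¹ = y⁻¹ * (x * (g c : S) * x⁻¹) * y := gid3 _ _ _
          _ = y⁻¹ * (y * (g c' : S) * y⁻¹) * y := by rw [hx1, hy1, h]
          _ = _ := gid4 _ _
      · exfalso
        simp only [Ψ, if_pos h1, if_neg h2] at h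
        rw [hginc] at h
        have h3 := hsigncl _ _ h
        rw [hA1, hωodd _ (hsplit c' h2) (hsn c') (hev c')] at h3
        exact absurd h3 (by decide)
    · by_cases h2 : Good c'
      · exfalso
        simp only [Ψ, if_neg h1, if_pos h2] at h
        rw [hginc] at h
        have h3 := hsigncl _ _ h
        rw [hA1, hωodd _ (hsplit c h1) (hsn c) (hev c)] at h3
        exact absurd h3 (by decide)
      · simp only [Ψ, if_neg h1, if_neg h2] at h
        have h3 : (ω (g c : S).cycleType).cycleType = (ω (g c' : S).cycleType).cycleType :=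
          (Equiv.Perm.isConj_iff_cycleType_eq).mp (ConjClasses.mk_eq_mk_iff_isConj.mp h)
        rw [hω _ (hsplit c h1) (hsn c), hω _ (hsplit c' h2) (hsn c')] at h3
        have h4 := hψinj _ _ (hsplit c h1) (hsplit c' h2) h3
        have h5 : inc c = inc c' := by
          rw [hginc, hginc, ConjClasses.mk_eq_mk_iff_isConj]
          exact (Equiv.Perm.isConj_iff_cycleType_eq).mpr h4
        obtain ⟨x, hx⟩ := hconj c
        obtain ⟨y, hy⟩ := hconj c'
        have hxA : Equiv.Perm.sign x = -1 := by
          rcases Int.units_eq_one_or (Equiv.Perm.sign x) with h6 | h6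
          · exact absurd ⟨x, Equiv.Perm.mem_alternatingGroup.mpr h6, hx⟩ h1
          · exact h6
        have hyA : Equiv.Perm.sign y = -1 := by
          rcases Int.units_eq_one_or (Equiv.Perm.sign y) with h6 | h6
          · exact absurd ⟨y, Equiv.Perm.mem_alternatingGroup.mpr h6, hy⟩ h2
          · exact h6
        rw [← hg c, ← hg c', ConjClasses.mk_eq_mk_iff_isConj, isConj_iff]
        refine ⟨⟨y⁻¹ * x, ?_⟩, ?_⟩
        · change y⁻¹ * x ∈ alternatingGroup (Fin n)
          rw [Equiv.Perm.mem_alternatingGroup, Equiv.Perm.sign_mul, Equiv.Perm.sign_inv, hxA, hyA]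
          rfl
        · apply Subtype.ext
          change y⁻¹ * x * (g c : S) * (y⁻¹ * x)⁻¹ = (g c' : S)
          calc y⁻¹ * x * (g c : S) * (y⁻¹ * x)⁻¹ = y⁻¹ * (x * (g c : S) * x⁻¹) * y := gid3 _ _ _
            _ = y⁻¹ * (y * (g c' : S) * y⁻¹) * y := by rw [hx, hy, h5]
            _ = _ := gid4 _ _
  -- the class of a transposition is missed
  have hmiss : ∃ C : ConjClasses S, ∀ c, Ψ c ≠ C := by
    have h01 : (⟨0, by omega⟩ : Fin n) ≠ ⟨1, by omega⟩ := by
      intro h; simp at h
    refine ⟨ConjClasses.mk (Equiv.swap (⟨0, by omega⟩ : Fin n) ⟨1, by omega⟩), fun c h => ?_⟩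
    by_cases h1 : Good c
    · simp only [Ψ, if_pos h1] at h
      rw [hginc] at h
      have h3 := hsigncl _ _ h
      rw [Equiv.Perm.sign_swap h01, Equiv.Perm.mem_alternatingGroup.mp (g c).2] at h3
      exact absurd h3 (by decide)
    · simp only [Ψ, if_neg h1] at h
      have h3 : (ω (g c : S).cycleType).cycleType = (Equiv.swap (⟨0, by omega⟩ : Fin n) ⟨1, by omega⟩).cycleType :=
        (Equiv.Perm.isConj_iff_cycleType_eq).mp (ConjClasses.mk_eq_mk_iff_isConj.mp h)
      have hsw : (Equiv.swap (⟨0, by omega⟩ : Fin n) ⟨1, by omega⟩).cycleType = {2} := by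
        have := (Equiv.Perm.card_support_eq_two.mp (Equiv.Perm.card_support_swap h01))
        exact (Equiv.Perm.isSwap_iff_cycleType.mp this)
      rw [hω _ (hsplit c h1) (hsn c), hsw] at h3
      have hs := hsplit c h1
      have h4 := congrArg Multiset.sum h3
      have h5 := congrArg Multiset.card h3
      simp only [ψ] at h4 h5
      rw [Multiset.sum_cons, Multiset.sum_singleton] at h4
      rw [Multiset.card_cons, Multiset.card_singleton] at h5
      have h6 := hsum _ hs
      have a1 := hmx _ (hsplitne _ hs)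
      have g1 := hs.2.2.2 _ a1.1
      have := hs.2.1
      omega
  obtain ⟨C, hC⟩ := hmiss
  have : Fintype (ConjClasses A) := Fintype.ofFinite _
  have : Fintype (ConjClasses S) := Fintype.ofFinite _
  rw [Nat.card_eq_fintype_card, Nat.card_eq_fintype_card]
  apply Fintype.card_lt_of_injective_of_notMem Ψ hΨinj (b := C)
  rintro ⟨c, hc⟩
  exact hC c hc

/-- For n ≥ 5 the alternating group of degree n has strictly fewer conjugacy classes than the symmetric group of degree n, and the symmetric group of degree n (whose classes correspond to the partitions of n) has at most 2^(n−2) conjugacy classes. -/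
theorem result (n : ℕ) (hn : 5 ≤ n) : Nat.card (ConjClasses (alternatingGroup (Fin n))) < Nat.card (ConjClasses (Equiv.Perm (Fin n))) ∧ Nat.card (ConjClasses (Equiv.Perm (Fin n))) ≤ 2 ^ (n - 2) := by
  refine ⟨part1 n hn, ?_⟩
  have h1 : Nat.card (ConjClasses (Equiv.Perm (Fin n))) ≤ (T n).ncard := by
    let f : ConjClasses (Equiv.Perm (Fin n)) → T n := Quotient.lift (fun σ => ⟨σ.cycleType, by
      rw [mem_T]; exact ⟨σ, rfl⟩⟩) (fun a b hab => Subtype.ext ((Equiv.Perm.isConj_iff_cycleType_eq).mp hab))
    have hf : Function.Injective f := by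
      intro a b
      refine Quotient.inductionOn₂ a b (fun a b h => ?_)
      apply Quotient.sound
      have h1 : a.cycleType = b.cycleType := congrArg Subtype.val h
      exact (Equiv.Perm.isConj_iff_cycleType_eq).mpr h1
    have : Finite (T n) := T_finite n
    have := Nat.card_le_card_of_injective f hf
    rwa [Nat.card_coe_set_eq] at this
  refine h1.trans ?_
  -- induction
  induction n, hn using Nat.le_induction with
  | base =>
    have hsub : T 5 ⊆ (({0, {2}, {3}, {4}, {5}, {2, 2}, {2, 3}} : Finset (Multiset ℕ)) : Set (Multiset ℕ)) := by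
      intro m hm
      obtain ⟨h1, h2⟩ := hm
      have hc : 2 * m.card ≤ m.sum := by
        have := Multiset.card_nsmul_le_sum h2
        rw [smul_eq_mul] at this
        omega
      have hc2 : m.card ≤ 2 := by omega
      interval_cases hcard : m.card
      · rw [Multiset.card_eq_zero] at hcard
        subst hcard
        decide
      · obtain ⟨a, rfl⟩ := Multiset.card_eq_one.mp hcard
        have h3 := h2 a (Multiset.mem_singleton_self a)
        rw [Multiset.sum_singleton] at h1
        interval_cases a <;> decide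
      · obtain ⟨a, b, rfl⟩ := Multiset.card_eq_two.mp hcard
        have h3 := h2 a (by simp)
        have h4 := h2 b (by simp)
        have h5 : a + b ≤ 5 := by simpa using h1
        have h6 : a ≤ 3 := by omega
        have h7 : b ≤ 3 := by omega
        interval_cases a <;> interval_cases b <;> first | omega | decide
    have h3 := Set.ncard_le_ncard hsub (Finset.finite_toSet _)
    rw [Set.ncard_coe_finset] at h3
    refine h3.trans ?_
    have : ({0, {2}, {3}, {4}, {5}, {2, 2}, {2, 3}} : Finset (Multiset ℕ)).card ≤ 7 := by decide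
    norm_num
  | succ n hn ih =>
    have h3 : (T (n + 1)).ncard ≤ 2 * (T n).ncard := T_succ n (by omega)
    have h4 : 2 ^ (n + 1 - 2) = 2 * 2 ^ (n - 2) := by
      rw [show n + 1 - 2 = (n - 2) + 1 by omega, pow_succ]; ring
    rw [h4]
    have h5 : Nat.card (ConjClasses (Equiv.Perm (Fin n))) ≤ (T n).ncard := by
      let f : ConjClasses (Equiv.Perm (Fin n)) → T n := Quotient.lift (fun σ => ⟨σ.cycleType, by
        rw [mem_T]; exact ⟨σ, rfl⟩⟩) (fun a b hab => Subtype.ext ((Equiv.Perm.isConj_iff_cycleType_eq).mp hab))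
      have hf : Function.Injective f := by
        intro a b
        refine Quotient.inductionOn₂ a b (fun a b h => ?_)
        apply Quotient.sound
        have h1 : a.cycleType = b.cycleType := congrArg Subtype.val h
        exact (Equiv.Perm.isConj_iff_cycleType_eq).mpr h1
      have : Finite (T n) := T_finite n
      have := Nat.card_le_card_of_injective f hf
      rwa [Nat.card_coe_set_eq] at this
    have := ih h5
    omega

end Cfsg.Agent.S4198
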