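import Cfsg.Statements.S4200
import Mathlib

set_option autoImplicit false
open Cfsg

namespace Cfsg.Agent.S4200

/-- Let Y be a subgroup of the finite group X, of index m. Then the numbers of conjugacy classes satisfy k(Y) ≤ m·k(X) and k(X) ≤ m·k(Y), and the second inequality is strict unless Y is normal in X. -/
theorem result {X : Type*} [Group X] [Finite X] (Y : Subgroup X) : Nat.card (ConjClasses Y) ≤ Y.index * Nat.card (ConjClasses X) ∧ Nat.card (ConjClasses X) ≤ Y.index * Nat.card (ConjClasses Y) ∧ (¬ Y.Normal → Nat.card (ConjClasses X) < Y.index * Nat.card (ConjClasses Y)) := by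
  classical
  have : Fintype X := Fintype.ofFinite X
  have hm : Nat.card Y * Y.index = Nat.card X := Y.card_mul_index
  have hYpos : 0 < Nat.card Y := Nat.card_pos
  have hipos : 0 < Y.index := Nat.pos_of_ne_zero Subgroup.index_ne_zero_of_finite
  have c1 : Nat.card { p : X × X // Commute p.1 p.2 } = Nat.card (ConjClasses X) * Nat.card X :=
    card_comm_eq_card_conjClasses_mul_card X
  have c2 : Nat.card { p : Y × Y // Commute p.1 p.2 } = Nat.card (ConjClasses Y) * Nat.card Y :=
    card_comm_eq_card_conjClasses_mul_card Y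
  -- counting sums
  have s1 : Nat.card { p : X × X // Commute p.1 p.2 } = ∑ x : X, Nat.card {y : X // Commute x y} := by
    rw [← Nat.card_sigma]
    exact Nat.card_congr ⟨fun p => ⟨p.1.1, p.1.2, p.2⟩, fun p => ⟨(p.1, p.2.1), p.2.2⟩, fun p => rfl, fun p => rfl⟩
  have s2 : Nat.card { p : Y × Y // Commute p.1 p.2 } = ∑ x : Y, Nat.card {y : Y // Commute x y} := by
    rw [← Nat.card_sigma]
    exact Nat.card_congr ⟨fun p => ⟨p.1.1, p.1.2, p.2⟩, fun p => ⟨(p.1, p.2.1), p.2.2⟩, fun p => rfl, fun p => rfl⟩
  have s3 : ∑ x : X, Nat.card {y : Y // Commute x (y : X)} = ∑ y : Y, Nat.card {x : X // Commute (y : X) x} := by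
    rw [← Nat.card_sigma, ← Nat.card_sigma]
    exact Nat.card_congr ⟨fun p => ⟨p.2.1, p.1, p.2.2.symm⟩, fun p => ⟨p.2.1, p.1, p.2.2.symm⟩, fun p => rfl, fun p => rfl⟩
  have hcent : ∀ x : X, Nat.card {y : X // Commute x y} =
      Nat.card {y : Y // Commute x (y : X)} * Y.relIndex (Subgroup.centralizer {x}) := by
    intro x
    have h1 : Nat.card {y : X // Commute x y} = Nat.card (Subgroup.centralizer ({x} : Set X)) :=
      Nat.card_congr (Equiv.subtypeEquivRight (fun y => by
        rw [Subgroup.mem_centralizer_singleton_iff]; exact ⟨fun h => h.eq.symm, fun h => h.symm⟩))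
    have h2 : Nat.card {y : Y // Commute x (y : X)} = Nat.card (Y ⊓ Subgroup.centralizer ({x} : Set X) : Subgroup X) := by
      refine Nat.card_congr ⟨fun y => ⟨y.1, y.1.2, ?_⟩, fun y => ⟨⟨y.1, y.2.1⟩, ?_⟩, fun y => rfl, fun y => rfl⟩
      · change (y.1 : X) ∈ Subgroup.centralizer ({x} : Set X)
        rw [Subgroup.mem_centralizer_singleton_iff]; exact y.2.eq.symm
      · have : (y.1 : X) ∈ Subgroup.centralizer ({x} : Set X) := y.2.2
        rw [Subgroup.mem_centralizer_singleton_iff] at this
        exact this.symm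
    rw [h1, h2]
    have := Subgroup.relIndex_mul_relIndex (⊥ : Subgroup X) (Y ⊓ Subgroup.centralizer ({x} : Set X)) (Subgroup.centralizer ({x} : Set X)) bot_le inf_le_right
    rw [Subgroup.relIndex_bot_left, Subgroup.relIndex_bot_left, Subgroup.inf_relIndex_right] at this
    exact this.symm
  have hle : ∀ x : X, Y.relIndex (Subgroup.centralizer {x}) ≤ Y.index := by
    intro x
    rw [← Subgroup.relIndex_top_right]
    apply Subgroup.relIndex_le_of_le_right le_top
    rw [Subgroup.relIndex_top_right]; exact hipos.ne'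
  have t1 : ∑ x : X, Nat.card {y : X // Commute x y} ≤ Y.index * ∑ x : X, Nat.card {y : Y // Commute x (y : X)} := by
    rw [Finset.mul_sum]
    apply Finset.sum_le_sum
    intro x _
    rw [hcent x, mul_comm]
    exact Nat.mul_le_mul_right _ (hle x)
  have t2 : ∑ y : Y, Nat.card {x : X // Commute (y : X) x} ≤ Y.index * ∑ x : Y, Nat.card {y : Y // Commute x y} := by
    rw [Finset.mul_sum]
    apply Finset.sum_le_sum
    intro y _
    rw [hcent y, mul_comm]
    have e : Nat.card {y_1 : Y // Commute (y : X) (y_1 : X)} = Nat.card {y_1 : Y // Commute y y_1} :=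
      Nat.card_congr (Equiv.subtypeEquivRight (fun z => by
        constructor
        · intro h; exact Subtype.ext h.eq
        · intro h; exact congrArg Subtype.val h.eq))
    rw [e]
    exact Nat.mul_le_mul_right _ (hle y)
  refine ⟨?_, ?_, ?_⟩
  · have h1 : Nat.card { p : Y × Y // Commute p.1 p.2 } ≤ Nat.card { p : X × X // Commute p.1 p.2 } := by
      apply Nat.card_le_card_of_injective (fun p : { p : Y × Y // Commute p.1 p.2 } => (⟨((p.1.1 : X), (p.1.2 : X)), show Commute (p.1.1 : X) (p.1.2 : X) from congrArg Subtype.val p.2.eq⟩ : { p : X × X // Commute p.1 p.2 }))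
      rintro ⟨⟨a, b⟩, h⟩ ⟨⟨c, d⟩, h'⟩ hh
      simp only [Subtype.mk.injEq, Prod.mk.injEq] at hh
      simp only [Subtype.mk.injEq, Prod.mk.injEq]
      exact ⟨Subtype.ext hh.1, Subtype.ext hh.2⟩
    rw [c1, c2, ← hm] at h1
    apply Nat.le_of_mul_le_mul_right _ hYpos
    calc _ ≤ _ := h1
      _ = _ := by ring
  · apply Nat.le_of_mul_le_mul_right _ (Nat.mul_pos hYpos hipos)
    calc Nat.card (ConjClasses X) * (Nat.card Y * Y.index) = _ := by rw [hm, ← c1, s1]
      _ ≤ _ := t1
      _ = _ := by rw [s3]
      _ ≤ _ := Nat.mul_le_mul_left _ t2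
      _ = _ := by rw [← s2, c2]; ring
  · intro hn
    have t1' : ∑ x : X, Nat.card {y : X // Commute x y} < Y.index * ∑ x : X, Nat.card {y : Y // Commute x (y : X)} := by
      rw [Finset.mul_sum]
      apply Finset.sum_lt_sum
      · intro x _
        rw [hcent x, mul_comm]
        exact Nat.mul_le_mul_right _ (hle x)
      · -- some element with smaller index
        by_contra hcon
        push Not at hcon
        apply hn
        refine ⟨fun y hy g => ?_⟩
        have h1 := hcon y (Finset.mem_univ _)
        rw [hcent y, mul_comm] at h1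
        have hpos : 0 < Nat.card {y_1 : Y // Commute y (y_1 : X)} := by
          have : Nonempty {y_1 : Y // Commute y (y_1 : X)} := ⟨⟨1, Commute.one_right y⟩⟩
          exact Nat.card_pos
        have h2 : Y.index ≤ Y.relIndex (Subgroup.centralizer {y}) := Nat.le_of_mul_le_mul_left h1 hpos
        -- the map C/(Y ∩ C) → X/Y is bijective
        set C := Subgroup.centralizer ({y} : Set X) with hC
        let f : (C ⧸ Y.subgroupOf C) → X ⧸ Y := Quotient.map' (fun c => (c : X)) (fun a b hab => by
          rw [QuotientGroup.leftRel_apply] at hab ⊢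
          exact hab)
        have hf : Function.Injective f := by
          intro a b
          refine QuotientGroup.induction_on a (fun a => QuotientGroup.induction_on b (fun b => ?_))
          intro h
          have h3 : (QuotientGroup.mk (a : X) : X ⧸ Y) = QuotientGroup.mk (b : X) := h
          rw [QuotientGroup.eq] at h3 ⊢
          exact h3
        have hf2 : Function.Bijective f := by
          apply (Nat.bijective_iff_injective_and_card f).mpr
          exact ⟨hf, le_antisymm (hle y) h2⟩
        obtain ⟨c, hc⟩ := hf2.2 (QuotientGroup.mk g⁻¹)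
        obtain ⟨c, rfl⟩ := QuotientGroup.mk_surjective c
        have h4 : (QuotientGroup.mk (c : X) : X ⧸ Y) = QuotientGroup.mk g⁻¹ := hc
        rw [QuotientGroup.eq] at h4
        have h5 : (c : X) * y = y * c := Subgroup.mem_centralizer_singleton_iff.mp c.2
        have h6 : g * y * g⁻¹ = ((c : X)⁻¹ * g⁻¹)⁻¹ * y * ((c : X)⁻¹ * g⁻¹) := by
          calc g * y * g⁻¹ = g * (c * y * (c : X)⁻¹) * g⁻¹ := by rw [h5]; group
            _ = _ := by group
        rw [h6]
        exact Y.mul_mem (Y.mul_mem (Y.inv_mem h4) hy) h4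
    apply Nat.lt_of_mul_lt_mul_right (a := Nat.card Y * Y.index)
    calc Nat.card (ConjClasses X) * (Nat.card Y * Y.index) = _ := by rw [hm, ← c1, s1]
      _ < _ := t1'
      _ = _ := by rw [s3]
      _ ≤ _ := Nat.mul_le_mul_left _ t2
      _ = _ := by rw [← s2, c2]; ring

end Cfsg.Agent.S4200
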