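import Cfsg.Statements.S4201
import Mathlib

set_option autoImplicit false
open Cfsg

namespace Cfsg.Agent.S4201

/-- If N is a normal subgroup of the finite group X then k(X) ≤ k(N)·k(X ⧸ N), where k denotes the number of conjugacy classes. -/
theorem result {X : Type*} [Group X] [Finite X] (N : Subgroup X) [N.Normal] : Nat.card (ConjClasses X) ≤ Nat.card (ConjClasses N) * Nat.card (ConjClasses (X ⧸ N)) := by
  classical
  have c1 : Nat.card { p : X × X // Commute p.1 p.2 } = Nat.card (ConjClasses X) * Nat.card X :=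
    card_comm_eq_card_conjClasses_mul_card X
  have c2 : Nat.card { p : N × N // Commute p.1 p.2 } = Nat.card (ConjClasses N) * Nat.card N :=
    card_comm_eq_card_conjClasses_mul_card N
  have c3 : Nat.card { p : (X ⧸ N) × (X ⧸ N) // Commute p.1 p.2 } = Nat.card (ConjClasses (X ⧸ N)) * Nat.card (X ⧸ N) :=
    card_comm_eq_card_conjClasses_mul_card (X ⧸ N)
  have hcard : Nat.card X = Nat.card (X ⧸ N) * Nat.card N := Subgroup.card_eq_card_quotient_mul_card_subgroup N
  -- choice functions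
  let y0 : X → X ⧸ N → X := fun x c => if h : ∃ y : X, (QuotientGroup.mk y : X ⧸ N) = c ∧ Commute x y then h.choose else 1
  have hy0 : ∀ x y : X, Commute x y → (QuotientGroup.mk (y0 x (QuotientGroup.mk y)) : X ⧸ N) = QuotientGroup.mk y ∧
      Commute x (y0 x (QuotientGroup.mk y)) := by
    intro x y h
    have hex : ∃ z : X, (QuotientGroup.mk z : X ⧸ N) = QuotientGroup.mk y ∧ Commute x z := ⟨y, rfl, h⟩
    simp only [y0, dif_pos hex]
    exact hex.choose_spec
  have hn : ∀ x y : X, Commute x y → (y0 x (QuotientGroup.mk y))⁻¹ * y ∈ N := by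
    intro x y h
    rw [← QuotientGroup.eq]
    exact (hy0 x y h).1
  have hnc : ∀ x y : X, Commute x y → Commute x ((y0 x (QuotientGroup.mk y))⁻¹ * y) := by
    intro x y h
    exact ((hy0 x y h).2.inv_right).mul_right h
  let F : { p : X × X // Commute p.1 p.2 } → { p : (X ⧸ N) × (X ⧸ N) // Commute p.1 p.2 } × { p : N × N // Commute p.1 p.2 } :=
    fun p =>
      let n : N := ⟨(y0 p.1.1 (QuotientGroup.mk p.1.2))⁻¹ * p.1.2, hn _ _ p.2⟩
      have hxn : Commute (n : X) p.1.1 := (hnc _ _ p.2).symm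
      (⟨(QuotientGroup.mk p.1.1, QuotientGroup.mk p.1.2), congrArg (QuotientGroup.mk' N) p.2.eq⟩,
        ⟨(n, ⟨(y0 n (QuotientGroup.mk p.1.1))⁻¹ * p.1.1, hn _ _ hxn⟩),
          Subtype.ext (hnc _ _ hxn).eq⟩)
  have hF : Function.Injective F := by
    rintro ⟨⟨a, b⟩, h⟩ ⟨⟨c, d⟩, h'⟩ hh
    have h1 : (QuotientGroup.mk a : X ⧸ N) = QuotientGroup.mk c := congrArg (fun q => q.1.1.1) hh
    have h2 : (QuotientGroup.mk b : X ⧸ N) = QuotientGroup.mk d := congrArg (fun q => q.1.1.2) hh
    have h3 : (y0 a (QuotientGroup.mk b))⁻¹ * b = (y0 c (QuotientGroup.mk d))⁻¹ * d :=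
      congrArg (fun q => ((q.2.1.1 : N) : X)) hh
    have h4 : (y0 ((y0 a (QuotientGroup.mk b))⁻¹ * b) (QuotientGroup.mk a))⁻¹ * a =
        (y0 ((y0 c (QuotientGroup.mk d))⁻¹ * d) (QuotientGroup.mk c))⁻¹ * c :=
      congrArg (fun q => ((q.2.1.2 : N) : X)) hh
    rw [h3, h1] at h4
    have hac : a = c := mul_left_cancel h4
    subst hac
    rw [h2] at h3
    have hbd : b = d := mul_left_cancel h3
    subst hbd
    rfl
  have hle := Nat.card_le_card_of_injective F hF
  rw [Nat.card_prod, c1, c2, c3, hcard] at hle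
  have hpos : 0 < Nat.card (X ⧸ N) * Nat.card N := Nat.mul_pos Nat.card_pos Nat.card_pos
  apply Nat.le_of_mul_le_mul_right _ hpos
  calc _ ≤ _ := hle
    _ = _ := by ring

end Cfsg.Agent.S4201
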