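import Cfsg.Statements.S4203
import Mathlib
import Cfsg.Agent.H24_SylCount
import Cfsg.Agent.H1_Hall
import Cfsg.Agent.H1_Wiel
import Cfsg.Agent.H3_Burnside

set_option autoImplicit false
open Cfsg

namespace Cfsg.Agent.S4203

/-- A finite group in which every maximal subgroup has index a prime or the square of a prime is solvable. -/
theorem result {G : Type*} [Group G] [Finite G] (h : ∀ M : Subgroup G, IsCoatom M → ∃ p : ℕ, p.Prime ∧ (M.index = p ∨ M.index = p ^ 2)) : Group.IsSolvable G := by
  induction' hn : Nat.card G using Nat.strong_induction_on with n ih generalizing G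
  subst hn
  rcases subsingleton_or_nontrivial G with hsub | hnt
  · infer_instance
  obtain ⟨N, hNn, hNb, hNmin⟩ := Cfsg.Agent.H1.Hall.exists_minimal_normal_of_nontrivial G
  have hNnt : Nontrivial N := (Subgroup.nontrivial_iff_ne_bot N).mpr hNb
  have hlt : Nat.card (G ⧸ N) < Nat.card G := by
    have h1 := Subgroup.card_eq_card_quotient_mul_card_subgroup N
    have h2 : 1 < Nat.card N := Finite.one_lt_card_iff_nontrivial.mpr hNnt
    have h3 : 0 < Nat.card (G ⧸ N) := Nat.card_pos
    rw [h1]
    nlinarith
  have hQ : Group.IsSolvable (G ⧸ N) := by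
    refine ih _ hlt (fun M hM => ?_) rfl
    have hMc : IsCoatom (M.comap (QuotientGroup.mk' N)) :=
      Subgroup.isCoatom_comap_of_surjective (QuotientGroup.mk'_surjective N) hM
    obtain ⟨p, hp, hpi⟩ := h _ hMc
    rw [Subgroup.index_comap_of_surjective _ (QuotientGroup.mk'_surjective N)] at hpi
    exact ⟨p, hp, hpi⟩
  refine Cfsg.Agent.H1.Wiel.solvable_of_normal_quotient (N := N) ?_ hQ
  -- the largest prime divisor of |N|
  have hNcard : Nat.card N ≠ 1 := (Finite.one_lt_card_iff_nontrivial.mpr hNnt).ne'
  have hpf : (Nat.card N).primeFactors.Nonempty := Nat.nonempty_primeFactors.mpr (Finite.one_lt_card_iff_nontrivial.mpr hNnt)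
  set q := (Nat.card N).primeFactors.max' hpf with hq
  have hqm : q ∈ (Nat.card N).primeFactors := Finset.max'_mem _ _
  have hqp : q.Prime := Nat.prime_of_mem_primeFactors hqm
  have hqd : q ∣ Nat.card N := Nat.dvd_of_mem_primeFactors hqm
  have hqmax : ∀ p : ℕ, p.Prime → p ∣ Nat.card N → p ≤ q := fun p hp hd =>
    Finset.le_max' _ _ (Nat.mem_primeFactors.mpr ⟨hp, hd, Nat.card_pos.ne'⟩)
  have : Fact q.Prime := ⟨hqp⟩
  obtain ⟨Q⟩ : Nonempty (Sylow q N) := inferInstance
  set Q' : Subgroup G := (Q : Subgroup N).map N.subtype with hQ'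
  have hQN : Q' ≤ N := Subgroup.map_subtype_le _
  have hQp : IsPGroup q Q' := Q.isPGroup'.map _
  have hQi : ¬ q ∣ Q'.relIndex N := by
    have h1 : Q'.relIndex N = (Q : Subgroup N).index := by
      rw [hQ', Subgroup.relIndex, Subgroup.subgroupOf, Subgroup.comap_map_eq_self_of_injective N.subtype_injective]
    rw [h1]; exact Q.not_dvd_index
  have hQb : Q' ≠ ⊥ := by
    intro h1
    apply hQi
    rw [h1, Subgroup.relIndex_bot_left]; exact hqd
  by_cases hnorm : Subgroup.normalizer (Q' : Set G) = ⊤
  · have hQn : Q'.Normal := Subgroup.normalizer_eq_top_iff.mp hnorm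
    have h1 : Q' = N := (hNmin Q' hQn hQN).resolve_left hQb
    rw [h1] at hQp
    have := hQp.isNilpotent
    infer_instance
  · obtain ⟨M, hM, hle⟩ := Cfsg.Agent.H24.Tools.exists_coatom_ge hnorm
    have hMN : M ⊔ N = ⊤ := by
      rw [eq_top_iff, ← Sylow.normalizer_sup_eq_top Q]
      exact sup_le_sup_right hle _
    have hMi : M.index = M.relIndex N := by
      rw [← Subgroup.relIndex_top_right]
      apply Cfsg.Agent.H1.Basic.relIndex_eq_of_factor le_top
      intro l hl
      rw [← hMN, sup_comm, Subgroup.mem_sup_of_normal_left] at hl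
      obtain ⟨k, hk, x, hx, rfl⟩ := hl
      exact ⟨k, hk, by rw [inv_mul_cancel_left]; exact hx⟩
    -- congruences
    have hQM : Q' ≤ M ⊓ N := le_inf (Subgroup.le_normalizer.trans hle) hQN
    have e1 := Cfsg.Agent.H24.SylCount.card_sylow_of Q' N hQN hQp hQi
    have hQi2 : ¬ q ∣ Q'.relIndex (M ⊓ N) := by
      intro h1
      apply hQi
      have := Subgroup.relIndex_mul_relIndex Q' (M ⊓ N) N hQM inf_le_right
      rw [← this]; exact h1.mul_right _
    have e2 := Cfsg.Agent.H24.SylCount.card_sylow_of Q' (M ⊓ N) hQM hQp hQi2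
    have c1 := card_sylow_modEq_one q N
    have c2 := card_sylow_modEq_one q (M ⊓ N : Subgroup G)
    rw [e1] at c1
    rw [e2] at c2
    have hmul := Subgroup.relIndex_mul_relIndex (Subgroup.normalizer (Q' : Set G) ⊓ N) (M ⊓ N) N
      (inf_le_inf_right _ hle) inf_le_right
    rw [Subgroup.inf_relIndex_right, Subgroup.inf_relIndex_right] at hmul
    have h3 : (Subgroup.normalizer (Q' : Set G) ⊓ N).relIndex (M ⊓ N) = (Subgroup.normalizer (Q' : Set G)).relIndex (M ⊓ N) := by
      rw [← Subgroup.inf_relIndex_right, ← Subgroup.inf_relIndex_right (Subgroup.normalizer (Q' : Set G))]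
      congr 1
      rw [inf_assoc]
      congr 1
      exact inf_eq_right.mpr inf_le_right
    rw [h3, ← hMi] at hmul
    have hcong : M.index ≡ 1 [MOD q] := by
      rw [← hmul] at c1
      have := c2.mul_right M.index
      rw [one_mul] at this
      exact this.symm.trans c1
    have hMd : M.index ∣ Nat.card N := by rw [hMi]; exact Subgroup.relIndex_dvd_card _ _
    obtain ⟨p, hp, hpi⟩ := h M hM
    have hM4 : M.index = 4 := by
      rcases hpi with hpi | hpi
      · exfalso
        rw [hpi] at hMd hcong
        have hpq := hqmax p hp hMd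
        have h4 : p % q = 1 % q := hcong
        rw [Nat.mod_eq_of_lt hqp.one_lt] at h4
        rcases Nat.eq_or_lt_of_le hpq with h5 | h5
        · rw [h5, Nat.mod_self] at h4; omega
        · rw [Nat.mod_eq_of_lt h5] at h4
          exact hp.one_lt.ne' h4
      · rw [hpi] at hMd hcong
        have hpq := hqmax p hp ((dvd_pow_self p (by norm_num)).trans hMd)
        have hpne : p ≠ q := by
          rintro h5
          rw [h5] at hcong
          have h4 : q ^ 2 % q = 1 % q := hcong
          rw [Nat.mod_eq_of_lt hqp.one_lt, Nat.pow_mod, Nat.mod_self] at h4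
          norm_num at h4
        have hpq' : p < q := lt_of_le_of_ne hpq hpne
        have h4 : q ∣ p ^ 2 - 1 := (Nat.modEq_iff_dvd' (Nat.one_le_pow _ _ hp.pos)).mp hcong.symm
        have h5 : p ^ 2 - 1 = (p + 1) * (p - 1) := by
          have := Nat.sq_sub_sq p 1
          simpa using this
        rw [h5] at h4
        rcases (hqp.dvd_mul).mp h4 with h6 | h6
        · have h7 := Nat.le_of_dvd (by omega) h6
          have h8 : q = p + 1 := by omega
          have h9 : p = 2 := by
            rcases hp.eq_two_or_odd with h | h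
            · exact h
            · exfalso
              rcases hqp.eq_two_or_odd with h' | h'
              · have := hp.two_le
                omega
              · omega
          rw [hpi, h9]; norm_num
        · have h7 := Nat.le_of_dvd (by have := hp.two_le; omega) h6
          omega
    -- N embeds in S₄
    let f : N →* Equiv.Perm (G ⧸ M) := (MulAction.toPermHom G (G ⧸ M)).comp N.subtype
    have hfker : f.ker = ⊥ := by
      rw [eq_bot_iff]
      intro x hx
      have h4 : (x : G) ∈ M.normalCore ⊓ N := by
        rw [Subgroup.normalCore_eq_ker]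
        exact Subgroup.mem_inf.mpr ⟨hx, x.2⟩
      rcases hNmin (M.normalCore ⊓ N) inferInstance inf_le_right with h5 | h5
      · rw [h5, Subgroup.mem_bot] at h4
        rw [Subgroup.mem_bot]
        exact Subtype.ext h4
      · exfalso
        have h6 : N ≤ M := by
          rw [← h5]
          exact inf_le_left.trans M.normalCore_le
        apply hM.1
        rw [← hMN, sup_eq_left.mpr h6]
    have hinj : Function.Injective f := (MonoidHom.ker_eq_bot_iff f).mp hfker
    have hd : Nat.card N ∣ 24 := by
      have h4 := Subgroup.card_dvd_of_injective f hinj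
      rwa [Nat.card_perm, ← Subgroup.index_eq_card, hM4] at h4
    have h2 : ∃ a b : ℕ, Nat.card N = 2 ^ a * 3 ^ b := by
      have h3 : Nat.card N ∈ Nat.divisors 24 := Nat.mem_divisors.mpr ⟨hd, by norm_num⟩
      have h4 : Nat.divisors 24 = {1, 2, 3, 4, 6, 8, 12, 24} := by decide
      rw [h4] at h3
      simp only [Finset.mem_insert, Finset.mem_singleton] at h3
      rcases h3 with h | h | h | h | h | h | h | h <;> rw [h]
      · exact ⟨0, 0, rfl⟩
      · exact ⟨1, 0, rfl⟩
      · exact ⟨0, 1, rfl⟩
      · exact ⟨2, 0, rfl⟩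
      · exact ⟨1, 1, rfl⟩
      · exact ⟨3, 0, rfl⟩
      · exact ⟨2, 1, rfl⟩
      · exact ⟨3, 1, rfl⟩
    obtain ⟨a, b, hab⟩ := h2
    exact Cfsg.Agent.H3.Burnside.burnside _ _ 2 3 a b Nat.prime_two Nat.prime_three rfl hab

end Cfsg.Agent.S4203
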