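import Cfsg.Statements.S4205
import Mathlib

set_option autoImplicit false
open Cfsg

namespace Cfsg.Agent.S4205

/-- In a finite group whose upper central series reaches the whole group at step `c` (nilpotent of class at most `c`), starting from any subgroup and taking normalizers `c` times reaches the whole group. -/
theorem result {G : Type*} [Group G] [Finite G] (c : ℕ) (hG : Subgroup.upperCentralSeries G c = ⊤) (H : Subgroup G) : (fun K : Subgroup G => Subgroup.normalizer (K : Set G))^[c] H = ⊤ := by
  have key : ∀ i : ℕ, Subgroup.upperCentralSeries G i ≤ (fun K : Subgroup G => Subgroup.normalizer (K : Set G))^[i] H := by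
    intro i
    induction i with
    | zero => simp
    | succ i ih =>
      rw [Function.iterate_succ_apply']
      intro g hg
      rw [Subgroup.mem_upperCentralSeries_succ_iff] at hg
      rw [Subgroup.mem_normalizer_iff]
      intro k
      have h1 : g * k * g⁻¹ * k⁻¹ ∈ (fun K : Subgroup G => Subgroup.normalizer (K : Set G))^[i] H := ih (hg k)
      constructor
      · intro hk
        have := mul_mem h1 hk
        rwa [inv_mul_cancel_right] at this
      · intro hk
        have := mul_mem (inv_mem h1) hk
        have e : (g * k * g⁻¹ * k⁻¹)⁻¹ * (g * k * g⁻¹) = k := by group
        rwa [e] at this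
  rw [eq_top_iff, ← hG]
  exact key c

end Cfsg.Agent.S4205
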