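import Cfsg.Statements.S4208
import Mathlib
import Cfsg.Agent.H24_FratAut
import Cfsg.Agent.H2_AutEA

set_option autoImplicit false
open Cfsg

namespace Cfsg.Agent.S4208

/-- Let `P` be a group of order `p^n` whose Frattini subgroup has index `p^r`. Then the order of the automorphism group of `P` divides `p^(r(n-r)) · (p^r - 1)(p^r - p) ⋯ (p^r - p^(r-1))`. -/
theorem result {P : Type*} [Group P] [Finite P] {p n r : ℕ} [Fact p.Prime] (hP : Nat.card P = p ^ n) (hr : (frattini P).index = p ^ r) : Nat.card (MulAut P) ∣ p ^ (r * (n - r)) * ∏ i ∈ Finset.range r, (p ^ r - p ^ i) := by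
  have hPG : IsPGroup p P := IsPGroup.of_card hP
  have hcomm := Cfsg.Agent.H1.Nilp.commutator_le_frattini hPG
  let f : MulAut P →* MulAut (P ⧸ frattini P) := Cfsg.Agent.H24.FratAut.toQuot P
  have h1 : Nat.card (MulAut P) = Nat.card f.ker * Nat.card f.range := by
    rw [← Subgroup.card_mul_index f.ker, Subgroup.index_ker]
  have h2 : Nat.card f.ker ∣ p ^ (r * (n - r)) := by
    apply Cfsg.Agent.H24.FratAut.card_dvd hP hr
    intro α hα x
    exact Cfsg.Agent.H24.FratAut.mem_ker_toQuot.mp hα x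
  have h3 : Nat.card f.range ∣ ∏ i ∈ Finset.range r, (p ^ r - p ^ i) := by
    have h4 := Subgroup.card_subgroup_dvd_card f.range
    have h5 : Nat.card (MulAut (P ⧸ frattini P)) = ∏ i : Fin r, (p ^ r - p ^ (i : ℕ)) := by
      apply Cfsg.Agent.H2.AutEA.card_mulAut_ea
      · refine ⟨⟨fun a b => ?_⟩⟩
        obtain ⟨a, rfl⟩ := QuotientGroup.mk_surjective a
        obtain ⟨b, rfl⟩ := QuotientGroup.mk_surjective b
        rw [← QuotientGroup.mk_mul, ← QuotientGroup.mk_mul, QuotientGroup.eq]
        apply hcomm.1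
        have : (a * b)⁻¹ * (b * a) = b⁻¹ * a⁻¹ * b⁻¹⁻¹ * a⁻¹⁻¹ := by group
        rw [this, ← commutatorElement_def, commutator_def]
        exact Subgroup.commutator_mem_commutator (Subgroup.mem_top _) (Subgroup.mem_top _)
      · intro a
        obtain ⟨a, rfl⟩ := QuotientGroup.mk_surjective a
        rw [← QuotientGroup.mk_pow, QuotientGroup.eq_one_iff]
        exact hcomm.2 a
      · rw [← Subgroup.index_eq_card]; exact hr
    rw [h5, Fin.prod_univ_eq_prod_range (fun i => p ^ r - p ^ i) r] at h4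
    exact h4
  rw [h1]
  exact Nat.mul_dvd_mul h2 h3

end Cfsg.Agent.S4208
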