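import Cfsg.Statements.S4211
import Cfsg.Agent.H2_Card
import Cfsg.Agent.H5_Dih
import Cfsg.Agent.H24_Tools
import Cfsg.Agent.H2_Basic


set_option autoImplicit false
open Cfsg

namespace Cfsg.Agent.S4211

open Subgroup

universe u

variable {G : Type u} [Group G]

/-- class-two power formula -/
theorem pow_formula {x y c : G} (hc : x * y = c * y * x) (hcx : Commute c x) (hcy : Commute c y) (a b : ℕ) :
    x ^ a * y ^ b = c ^ (a * b) * y ^ b * x ^ a := by
  have h1 : ∀ b : ℕ, x * y ^ b = c ^ b * y ^ b * x := by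
    intro b
    induction b with
    | zero => simp
    | succ b ih =>
      calc x * y ^ (b + 1) = (x * y ^ b) * y := by rw [pow_succ]; group
        _ = c ^ b * y ^ b * (x * y) := by rw [ih]; group
        _ = c ^ b * (y ^ b * c) * y * x := by rw [hc]; group
        _ = c ^ b * (c * y ^ b) * y * x := by rw [(hcy.pow_right b).eq]
        _ = _ := by rw [pow_succ, pow_succ]; group
  induction a with
  | zero => simp
  | succ a ih =>
    calc x ^ (a + 1) * y ^ b = x * (x ^ a * y ^ b) := by rw [pow_succ']; group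
      _ = (x * c ^ (a * b)) * y ^ b * x ^ a := by rw [ih]; group
      _ = (c ^ (a * b) * x) * y ^ b * x ^ a := by rw [(hcx.symm.pow_right (a * b)).eq]
      _ = c ^ (a * b) * (x * y ^ b) * x ^ a := by group
      _ = c ^ (a * b) * (c ^ b * y ^ b * x) * x ^ a := by rw [h1]
      _ = _ := by rw [Nat.succ_mul, pow_add, pow_succ' x]; group

theorem mul_pow_formula {x y c : G} (hc : x * y = c * y * x) (hcx : Commute c x) (hcy : Commute c y) (n : ℕ) :
    (y * x) ^ n = c ^ (n * (n - 1) / 2) * y ^ n * x ^ n := by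
  induction n with
  | zero => simp
  | succ n ih =>
    have h1 := pow_formula hc hcx hcy n 1
    rw [pow_one, mul_one] at h1
    have e : (n + 1) * (n + 1 - 1) / 2 = n * (n - 1) / 2 + n := by
      rcases n with _ | n
      · simp
      · have : (n + 1 + 1) * (n + 1 + 1 - 1) = (n + 1) * (n + 1 - 1) + 2 * (n + 1) := by
          simp only [Nat.add_sub_cancel]; ring
        rw [this, Nat.add_mul_div_left _ _ (by norm_num)]
    rw [pow_succ, ih, e, pow_add]
    calc c ^ (n * (n - 1) / 2) * y ^ n * x ^ n * (y * x) = c ^ (n * (n - 1) / 2) * y ^ n * (x ^ n * y) * x := by group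
      _ = c ^ (n * (n - 1) / 2) * (y ^ n * c ^ n) * y * x ^ n * x := by rw [h1]; group
      _ = c ^ (n * (n - 1) / 2) * (c ^ n * y ^ n) * y * x ^ n * x := by rw [((hcy.pow_right n).pow_left n).eq]
      _ = _ := by rw [pow_succ, pow_succ]; group

/-- an abelian group of odd part etc: smaller order of `x ^ r` -/
theorem orderOf_pow_lt [Finite G] {x : G} {r : ℕ} (hr : r.Prime) (h : r ∣ orderOf x) : orderOf (x ^ r) < orderOf x := by
  rw [orderOf_pow_of_dvd hr.pos.ne' h]
  exact Nat.div_lt_self (orderOf_pos x) hr.one_lt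

/-- minimal noncommuting pairs -/
theorem exists_quat [Finite G] (hn : ∀ H : Subgroup G, H.Normal) (hna : ∃ x y : G, x * y ≠ y * x) :
    ∃ v u : G, orderOf v = 4 ∧ orderOf u = 4 ∧ v ^ 2 = u ^ 2 ∧ v * u * v⁻¹ = u⁻¹ ∧ v * u ≠ u * v := by
  classical
  obtain ⟨x, y, hxy, hmin, hle⟩ : ∃ x y : G, x * y ≠ y * x ∧ (∀ x' y' : G, x' * y' ≠ y' * x' → orderOf x + orderOf y ≤ orderOf x' + orderOf y') ∧
      orderOf y ≤ orderOf x := by
    let P : ℕ → Prop := fun n => ∃ x y : G, x * y ≠ y * x ∧ orderOf x + orderOf y = n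
    have hex : ∃ n, P n := by
      obtain ⟨x, y, hxy⟩ := hna
      exact ⟨_, x, y, hxy, rfl⟩
    obtain ⟨x, y, hxy, hn'⟩ := Nat.find_spec hex
    have hmin : ∀ x' y' : G, x' * y' ≠ y' * x' → orderOf x + orderOf y ≤ orderOf x' + orderOf y' := by
      intro x' y' h
      rw [hn']
      exact Nat.find_min' hex ⟨x', y', h, rfl⟩
    rcases le_total (orderOf y) (orderOf x) with h | h
    · exact ⟨x, y, hxy, hmin, h⟩
    · exact ⟨y, x, hxy.symm, fun x' y' h' => by rw [add_comm (orderOf y)]; exact hmin x' y' h', h⟩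
  obtain ⟨c, hc⟩ : ∃ c, c = x * y * x⁻¹ * y⁻¹ := ⟨_, rfl⟩
  have hc1 : x * y = c * y * x := by rw [hc]; group
  have hcne : c ≠ 1 := by
    intro h
    rw [h, one_mul] at hc1
    exact hxy hc1
  have hcx : c ∈ zpowers x := by
    have h1 := (hn (zpowers x)).conj_mem _ (inv_mem (mem_zpowers x)) y
    have h2 := mul_mem (mem_zpowers x) h1
    have e : x * (y * x⁻¹ * y⁻¹) = c := by rw [hc]; group
    rwa [e] at h2
  have hcy : c ∈ zpowers y := by
    have h1 := (hn (zpowers y)).conj_mem _ (mem_zpowers y) x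
    have h2 := mul_mem h1 (inv_mem (mem_zpowers y))
    have e : x * y * x⁻¹ * y⁻¹ = c := hc.symm
    rwa [e] at h2
  have hCx : Commute c x := by
    obtain ⟨k, hk⟩ := mem_zpowers_iff.1 hcx
    rw [← hk]; exact (Commute.refl x).zpow_left k
  have hCy : Commute c y := by
    obtain ⟨k, hk⟩ := mem_zpowers_iff.1 hcy
    rw [← hk]; exact (Commute.refl y).zpow_left k
  -- primes
  have hpx : ∀ r : ℕ, r.Prime → r ∣ orderOf x → c ^ r = 1 := by
    intro r hr hd
    by_contra h
    have h1 := pow_formula hc1 hCx hCy r 1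
    rw [pow_one, mul_one] at h1
    have h2 : x ^ r * y ≠ y * x ^ r := by
      intro h3
      rw [h3, mul_assoc] at h1
      exact h (mul_eq_right.1 h1.symm)
    have h3 := hmin _ _ h2
    have h4 := orderOf_pow_lt hr hd
    omega
  have hpy : ∀ r : ℕ, r.Prime → r ∣ orderOf y → c ^ r = 1 := by
    intro r hr hd
    by_contra h
    have h1 := pow_formula hc1 hCx hCy 1 r
    rw [pow_one, one_mul] at h1
    have h2 : x * y ^ r ≠ y ^ r * x := by
      intro h3
      rw [h3, mul_assoc] at h1
      exact h (mul_eq_right.1 h1.symm)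
    have h3 := hmin _ _ h2
    have h4 := orderOf_pow_lt hr hd
    omega
  have hx1 : orderOf x ≠ 1 := by
    intro h
    rw [orderOf_eq_one_iff] at h
    rw [h] at hxy; exact hxy (by simp)
  have hy1 : orderOf y ≠ 1 := by
    intro h
    rw [orderOf_eq_one_iff] at h
    rw [h] at hxy; exact hxy (by simp)
  obtain ⟨p, hp, hpx'⟩ := Nat.exists_prime_and_dvd hx1
  haveI : Fact p.Prime := ⟨hp⟩
  have hcp : orderOf c = p := orderOf_eq_prime (hpx p hp hpx') hcne
  have huniq : ∀ r : ℕ, r.Prime → c ^ r = 1 → r = p := by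
    intro r hr h
    have := orderOf_dvd_of_pow_eq_one h
    rw [hcp] at this
    exact ((Nat.prime_dvd_prime_iff_eq hp hr).1 this).symm
  obtain ⟨m, hm⟩ : ∃ m, orderOf x = p ^ m :=
    ⟨_, Nat.eq_prime_pow_of_unique_prime_dvd (orderOf_pos x).ne' (fun {r} hr hd => huniq r hr (hpx r hr hd))⟩
  obtain ⟨n, hn'⟩ : ∃ n, orderOf y = p ^ n :=
    ⟨_, Nat.eq_prime_pow_of_unique_prime_dvd (orderOf_pos y).ne' (fun {r} hr hd => huniq r hr (hpy r hr hd))⟩
  have hm0 : 1 ≤ m := by
    by_contra h
    have : m = 0 := by omega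
    rw [this, pow_zero] at hm; exact hx1 hm
  have hn0 : 1 ≤ n := by
    by_contra h
    have : n = 0 := by omega
    rw [this, pow_zero] at hn'; exact hy1 hn'
  have hnm : n ≤ m := by
    rw [hm, hn'] at hle
    exact (Nat.pow_le_pow_iff_right hp.one_lt).1 hle
  -- c as a power
  have hroot : ∀ z : G, ∀ k : ℕ, 1 ≤ k → orderOf z = p ^ k → c ∈ zpowers z → ∃ i : ℕ, Nat.Coprime i p ∧ (z ^ i) ^ p ^ (k - 1) = c := by
    intro z k hk hz hcz
    obtain ⟨s, hs⟩ := mem_powers_iff_mem_zpowers.2 hcz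
    have hs' : z ^ s = c := hs
    have h1 : p ^ k ∣ s * p := by
      rw [← hz]
      apply orderOf_dvd_of_pow_eq_one
      rw [pow_mul, hs', ← hcp, pow_orderOf_eq_one]
    have h2 : p ^ (k - 1) ∣ s := by
      have : p ^ k = p ^ (k - 1) * p := by rw [← pow_succ]; congr 1; omega
      rw [this] at h1
      exact Nat.dvd_of_mul_dvd_mul_right hp.pos h1
    obtain ⟨i, hi⟩ := h2
    refine ⟨i, ?_, ?_⟩
    · rw [Nat.coprime_comm, Nat.Prime.coprime_iff_not_dvd hp]
      rintro ⟨j, hj⟩
      apply hcne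
      rw [← hs', hi, hj]
      have : p ^ (k - 1) * (p * j) = p ^ k * j := by
        have : p ^ k = p ^ (k - 1) * p := by rw [← pow_succ]; congr 1; omega
        rw [this]; ring
      rw [this, pow_mul, ← hz, pow_orderOf_eq_one, one_pow]
    · rw [← pow_mul, mul_comm i, ← hi, hs']
  obtain ⟨i, hi, hic⟩ := hroot x m hm0 hm hcx
  obtain ⟨j, hj, hjc⟩ := hroot y n hn0 hn' hcy
  set v := x ^ i with hv
  set w := y ^ j with hw
  have hvo : orderOf v = p ^ m := by
    rw [hv, ← hm]
    apply Nat.Coprime.orderOf_pow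
    rw [hm]; exact hi.symm.pow_left m
  have hwo : orderOf w = p ^ n := by
    rw [hw, ← hn']
    apply Nat.Coprime.orderOf_pow
    rw [hn']; exact hj.symm.pow_left n
  have hvw : v * w = c ^ (i * j) * w * v := pow_formula hc1 hCx hCy i j
  set d := c ^ (i * j) with hd
  have hdv : Commute d v := (hCx.pow_right i).pow_left _
  have hdw : Commute d w := (hCy.pow_right j).pow_left _
  have hdne : d ≠ 1 := by
    intro h
    have h1 := orderOf_dvd_of_pow_eq_one h
    rw [hcp] at h1
    rcases (Nat.Prime.dvd_mul hp).1 h1 with h2 | h2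
    · exact (Nat.Prime.coprime_iff_not_dvd hp).1 hi.symm h2
    · exact (Nat.Prime.coprime_iff_not_dvd hp).1 hj.symm h2
  have hdp : d ^ p = 1 := by rw [hd, ← pow_mul, mul_comm, pow_mul, ← hcp, pow_orderOf_eq_one, one_pow]
  have hvw' : v * w ≠ w * v := by
    intro h
    rw [h, mul_assoc] at hvw
    exact hdne (mul_eq_right.1 hvw.symm)
  -- y' = w v^{-t}
  set N := p ^ (n - 1) with hN
  set t := p ^ (m - n) with ht
  -- use a positive exponent T with v^T = v^{-t}
  obtain ⟨T, hT, hTpar⟩ : ∃ T : ℕ, v ^ T = v⁻¹ ^ t ∧ (p ∣ T ↔ p ∣ t) := by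
    refine ⟨(p ^ m - 1) * t, ?_, ?_⟩
    · rw [pow_mul]
      congr 1
      have h1 : v ^ (p ^ m - 1) * v = 1 := by
        rw [← pow_succ, Nat.sub_add_cancel (Nat.one_le_pow _ _ hp.pos), ← hvo, pow_orderOf_eq_one]
      exact eq_inv_of_mul_eq_one_left h1
    · rw [Nat.Prime.dvd_mul hp]
      constructor
      · rintro (h | h)
        · exfalso
          have h1 : p ∣ p ^ m := dvd_pow_self p (by omega)
          have h2 := (Nat.dvd_sub h1 h)
          have h3 : p ^ m - (p ^ m - 1) = 1 := by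
            have := Nat.one_le_pow m p hp.pos
            omega
          rw [h3] at h2
          exact hp.one_lt.ne' (Nat.dvd_one.1 h2)
        · exact h
      · exact Or.inr
  have hf1 : v ^ T * w = d ^ T * w * v ^ T := by
    have := pow_formula hvw hdv hdw T 1
    rw [pow_one, mul_one] at this
    exact this
  have hf2 := mul_pow_formula hf1 ((hdv.pow_right T).pow_left T) (hdw.pow_left T) N
  have hwN : w ^ N = c := hjc
  have hvN : (v ^ T) ^ N = c⁻¹ := by
    rw [hT, ← pow_mul, inv_pow, ht, hN, ← pow_add]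
    have : m - n + (n - 1) = m - 1 := by omega
    rw [this, hic]
  rw [hwN, hvN, mul_inv_cancel_right, ← pow_mul d T] at hf2
  have hkey : ¬ p ∣ T * (N * (N - 1) / 2) := by
    intro h
    have h1 : d ^ (T * (N * (N - 1) / 2)) = 1 := by
      obtain ⟨e, he⟩ := h
      rw [he, pow_mul, hdp, one_pow]
    rw [h1] at hf2
    have h2 : v * (w * v ^ T) ≠ (w * v ^ T) * v := by
      intro h3
      apply hvw'
      have h4 : v * w * v ^ T = w * v * v ^ T := by
        rw [mul_assoc, h3, mul_assoc, ← pow_succ, pow_succ']; group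
      exact mul_right_cancel h4
    have h3 := hmin _ _ h2
    have h4 : orderOf (w * v ^ T) ≤ N := Nat.le_of_dvd (pow_pos hp.pos _) (orderOf_dvd_of_pow_eq_one hf2)
    have h5 : N < p ^ n := Nat.pow_lt_pow_right hp.one_lt (by omega)
    rw [hvo, hm, hn'] at h3
    omega
  rw [Nat.Prime.dvd_mul hp, not_or, hTpar] at hkey
  obtain ⟨hk1, hk2⟩ := hkey
  have hmn : m = n := by
    by_contra h
    apply hk1
    rw [ht]; exact dvd_pow_self p (by omega)
  have hn2 : 2 ≤ n := by
    by_contra h
    apply hk2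
    have : n - 1 = 0 := by omega
    rw [hN, this]; simp
  have hpN : p ∣ N := by rw [hN]; exact dvd_pow_self p (by omega)
  have hp2 : p = 2 := by
    by_contra h
    apply hk2
    have h1 : Nat.Coprime p 2 := (Nat.coprime_primes hp Nat.prime_two).2 h
    have h2 : 2 ∣ N * (N - 1) := by
      have := Nat.even_mul_pred_self N
      exact this.two_dvd
    obtain ⟨e, he⟩ := h2
    rw [he, Nat.mul_div_cancel_left _ (by norm_num)]
    have h3 : p ∣ 2 * e := by rw [← he]; exact hpN.mul_right _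
    exact h1.dvd_of_dvd_mul_left h3
  subst hp2
  have hn2' : n = 2 := by
    by_contra h
    apply hk2
    have h1 : N = 4 * 2 ^ (n - 3) := by
      rw [hN, show (4 : ℕ) = 2 ^ 2 by norm_num, ← pow_add]; congr 1; omega
    rw [h1, show 4 * 2 ^ (n - 3) * (4 * 2 ^ (n - 3) - 1) = 2 * (2 * (2 ^ (n - 3) * (4 * 2 ^ (n - 3) - 1))) by ring,
      Nat.mul_div_cancel_left _ (by norm_num)]
    exact Dvd.intro _ rfl
  subst hn2'
  subst hmn
  have hdc : d = c := by
    rcases Nat.even_or_odd (i * j) with h | h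
    · exfalso
      obtain ⟨e, he⟩ := h
      apply hdne
      rw [hd, he, ← two_mul, pow_mul, ← hcp, pow_orderOf_eq_one, one_pow]
    · obtain ⟨e, he⟩ := h
      have hc2 : c ^ 2 = 1 := by
        have := pow_orderOf_eq_one c
        rwa [hcp] at this
      rw [hd, he, pow_add, pow_mul, hc2, one_pow, one_mul, pow_one]
  have hN2 : N = 2 := by rw [hN]; norm_num
  have e1 : v ^ 2 = c := by simpa using hic
  have e2 : w ^ 2 = c := by rw [← hN2]; exact hjc
  refine ⟨v, w, by rw [hvo]; norm_num, by rw [hwo]; norm_num, by rw [e1, e2], ?_, hvw'⟩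
  rw [hdc] at hvw
  have h3 : w ^ 4 = 1 := by
    have := pow_orderOf_eq_one w
    rw [hwo] at this
    simpa using this
  rw [hvw, mul_inv_cancel_right, ← e2, eq_inv_iff_mul_eq_one, ← pow_succ, ← pow_succ]
  exact h3


/-- A finite non-abelian group in which every subgroup is normal is the internal direct product of a subgroup isomorphic to the quaternion group of order `8`, an elementary abelian `2`-subgroup and an abelian subgroup of odd order. -/
theorem result {G : Type*} [Group G] [Finite G] (hna : ¬ IsMulCommutative G) (hn : ∀ H : Subgroup G, H.Normal) : ∃ Q E A : Subgroup G, Nonempty (Q ≃* QuaternionGroup 2) ∧ Cfsg.IsElementaryAbelian 2 E ∧ IsMulCommutative A ∧ Odd (Nat.card A) ∧ E ⊓ A = ⊥ ∧ Q ⊓ (E ⊔ A) = ⊥ ∧ Q ⊔ (E ⊔ A) = ⊤ := by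

  classical
  obtain ⟨v, w, hv, hw, hvw2, hconj, hvw⟩ := exists_quat hn (by
    by_contra h
    push Not at h
    exact hna ⟨⟨h⟩⟩)
  obtain ⟨c, hc⟩ : ∃ c, c = v ^ 2 := ⟨_, rfl⟩
  have hcw : c = w ^ 2 := by rw [hc, hvw2]
  have hv4 : v ^ 4 = 1 := by have := pow_orderOf_eq_one v; rwa [hv] at this
  have hw4 : w ^ 4 = 1 := by have := pow_orderOf_eq_one w; rwa [hw] at this
  have hc2 : c ^ 2 = 1 := by rw [hc, ← pow_mul]; exact hv4
  have hc1 : c ≠ 1 := by
    intro h
    rw [hc] at h
    have := orderOf_dvd_of_pow_eq_one h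
    rw [hv] at this
    omega
  have hwinv : w⁻¹ = c * w := by
    rw [hcw, inv_eq_iff_mul_eq_one, ← pow_succ, ← pow_succ']
    exact hw4
  have hvinv : v⁻¹ = c * v := by
    rw [hc, inv_eq_iff_mul_eq_one, ← pow_succ, ← pow_succ']
    exact hv4
  have hcv : Commute c v := by rw [hc]; exact (Commute.refl v).pow_left 2
  have hcw' : Commute c w := by rw [hcw]; exact (Commute.refl w).pow_left 2
  have hvw3 : v * w = c * w * v := by
    rw [← hwinv, ← hconj]; group
  have hconj2 : w * v * w⁻¹ = v⁻¹ := by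
    have h1 : w * v = c * (v * w) := by
      rw [hvw3]
      have : c * (c * w * v) = c ^ 2 * w * v := by rw [pow_two]; group
      rw [this, hc2, one_mul]
    rw [h1, hvinv]; group
  -- Q
  set Q : Subgroup G := zpowers v ⊔ zpowers w with hQ
  have hvQ : v ∈ Q := mem_sup_left (mem_zpowers v)
  have hwQ : w ∈ Q := mem_sup_right (mem_zpowers w)
  have hcQ : c ∈ Q := by rw [hc]; exact pow_mem hvQ 2
  set C : Subgroup G := centralizer (Q : Set G) with hC
  have hmemC : ∀ g, g ∈ C ↔ Commute g v ∧ Commute g w := by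
    intro g
    constructor
    · intro hg
      rw [hC, mem_centralizer_iff] at hg
      exact ⟨(hg v hvQ).symm, (hg w hwQ).symm⟩
    · rintro ⟨h1, h2⟩
      have h3 : Q ≤ centralizer {g} := by
        rw [hQ, sup_le_iff, zpowers_le, zpowers_le, mem_centralizer_singleton_iff, mem_centralizer_singleton_iff]
        exact ⟨h1.eq.symm, h2.eq.symm⟩
      rw [hC, mem_centralizer_iff]
      intro q hq
      exact mem_centralizer_singleton_iff.1 (h3 hq)
  have hcC : c ∈ C := (hmemC c).2 ⟨hcv, hcw'⟩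
  -- G = Q C
  have hord4 : ∀ z g : G, orderOf z = 4 → g * z * g⁻¹ = z ∨ g * z * g⁻¹ = z⁻¹ := by
    intro z g hz
    have h1 := (hn (zpowers z)).conj_mem z (mem_zpowers z) g
    obtain ⟨k, hk⟩ := mem_powers_iff_mem_zpowers.2 h1
    have hk' : z ^ k = g * z * g⁻¹ := hk
    have h2 : orderOf (g * z * g⁻¹) = 4 := by
      rw [← hz]
      have := (MulAut.conj g).orderOf_eq z
      rwa [MulAut.conj_apply] at this
    rw [← hk', ← pow_mod_orderOf, hz] at h2 ⊢
    have hz4 : z ^ 4 = 1 := by have := pow_orderOf_eq_one z; rwa [hz] at this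
    have h3 : k % 4 < 4 := Nat.mod_lt _ (by norm_num)
    interval_cases hh : k % 4
    · rw [pow_zero, orderOf_one] at h2; omega
    · left; rw [pow_one]
    · exfalso
      have h5 : (z ^ 2) ^ 2 = 1 := by rw [← pow_mul]; exact hz4
      have h6 := Nat.le_of_dvd (by norm_num) (orderOf_dvd_of_pow_eq_one h5)
      omega
    · right
      rw [eq_inv_iff_mul_eq_one, ← pow_succ]; exact hz4
  have hG : ∀ g : G, ∃ q ∈ Q, g * q ∈ C := by
    intro g
    have hvv : v * w⁻¹ * v⁻¹ = w := by
      have : (v * w * v⁻¹)⁻¹ = v * w⁻¹ * v⁻¹ := by group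
      rw [← this, hconj, inv_inv]
    have hww : w * v⁻¹ * w⁻¹ = v := by
      have : (w * v * w⁻¹)⁻¹ = w * v⁻¹ * w⁻¹ := by group
      rw [← this, hconj2, inv_inv]
    have hC' : ∀ q, g * (q * v * q⁻¹) * g⁻¹ = v → g * (q * w * q⁻¹) * g⁻¹ = w → g * q ∈ C := by
      intro q h1 h2
      rw [hmemC]
      constructor
      · change g * q * v = v * (g * q)
        calc g * q * v = (g * (q * v * q⁻¹) * g⁻¹) * (g * q) := by group
          _ = v * (g * q) := by rw [h1]
      · change g * q * w = w * (g * q)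
        calc g * q * w = (g * (q * w * q⁻¹) * g⁻¹) * (g * q) := by group
          _ = w * (g * q) := by rw [h2]
    rcases hord4 v g hv with h1 | h1 <;> rcases hord4 w g hw with h2 | h2
    · exact ⟨1, one_mem _, hC' 1 (by simpa using h1) (by simpa using h2)⟩
    · refine ⟨v, hvQ, hC' v ?_ ?_⟩
      · have : v * v * v⁻¹ = v := by group
        rw [this, h1]
      · rw [hconj]
        have : g * w⁻¹ * g⁻¹ = (g * w * g⁻¹)⁻¹ := by group
        rw [this, h2, inv_inv]
    · refine ⟨w, hwQ, hC' w ?_ ?_⟩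
      · rw [hconj2]
        have : g * v⁻¹ * g⁻¹ = (g * v * g⁻¹)⁻¹ := by group
        rw [this, h1, inv_inv]
      · have : w * w * w⁻¹ = w := by group
        rw [this, h2]
    · refine ⟨v * w, mul_mem hvQ hwQ, hC' (v * w) ?_ ?_⟩
      · have e1 : v * w * v * (v * w)⁻¹ = v * (w * v * w⁻¹) * v⁻¹ := by group
        have e2 : g * (v * v⁻¹ * v⁻¹) * g⁻¹ = (g * v * g⁻¹)⁻¹ := by group
        rw [e1, hconj2, e2, h1, inv_inv]
      · have e1 : v * w * w * (v * w)⁻¹ = v * w * v⁻¹ := by group
        have e2 : g * w⁻¹ * g⁻¹ = (g * w * g⁻¹)⁻¹ := by group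
        rw [e1, hconj, e2, h2, inv_inv]
  -- C has no element of order 4
  have hno4 : ∀ g ∈ C, g ^ 4 = 1 → g ^ 2 = 1 := by
    intro g hg hg4
    obtain ⟨hgv, hgw⟩ := (hmemC g).1 hg
    have h1 : (v * g) ^ 2 = c * g ^ 2 := by rw [hgv.symm.mul_pow, hc]
    have h2 : (v * g) ^ 4 = 1 := by rw [hgv.symm.mul_pow, hv4, hg4, one_mul]
    -- c ∈ ⟨v g⟩
    have h3 : c ∈ zpowers (v * g) := by
      have h4 := (hn (zpowers (v * g))).conj_mem _ (inv_mem (mem_zpowers (v * g))) w
      have h5 := mul_mem (mem_zpowers (v * g)) h4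
      have h6 : v * g * (w * (v * g)⁻¹ * w⁻¹) = c := by
        have e1 : w * (v * g)⁻¹ * w⁻¹ = g⁻¹ * (w * v⁻¹ * w⁻¹) := by
          have : w * g⁻¹ = g⁻¹ * w := (hgw.inv_left.eq).symm
          rw [mul_inv_rev]
          calc w * (g⁻¹ * v⁻¹) * w⁻¹ = (w * g⁻¹) * v⁻¹ * w⁻¹ := by group
            _ = _ := by rw [this]; group
        have e2 : w * v⁻¹ * w⁻¹ = v := by
          have : (w * v * w⁻¹)⁻¹ = w * v⁻¹ * w⁻¹ := by group
          rw [← this, hconj2, inv_inv]
        rw [e1, e2, hc, pow_two]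
        group
      rwa [h6] at h5
    obtain ⟨k, hk⟩ := mem_powers_iff_mem_zpowers.2 h3
    have hk' : (v * g) ^ k = c := hk
    rw [pow_eq_pow_mod k h2] at hk'
    have h4 : k % 4 < 4 := Nat.mod_lt _ (by norm_num)
    have hcomm : ∀ u : G, v * g = u → Commute u w → False := by
      intro u hu huw
      apply hvw
      have : v = u * g⁻¹ := by rw [← hu]; group
      have h5 : Commute v w := by rw [this]; exact huw.mul_left hgw.inv_left
      exact h5.eq
    interval_cases hh : k % 4
    · exact absurd (by rw [← hk', pow_zero]) hc1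
    · exact (hcomm c (by rw [← hk', pow_one]) hcw').elim
    · rw [h1] at hk'
      exact mul_eq_left.1 hk'
    · exfalso
      have h5 : v * g = c := by
        have h6 : (v * g) ^ 3 * (v * g) = 1 := by rw [← pow_succ]; exact h2
        rw [hk'] at h6
        have h7 : c * c = 1 := by rw [← pow_two]; exact hc2
        have h8 : c * (v * g) = c * c := by rw [h6, h7]
        exact mul_left_cancel h8
      exact hcomm c h5 hcw'
  -- C is abelian
  have hCn : ∀ H : Subgroup C, H.Normal := by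
    intro H
    have h1 := hn (H.map C.subtype)
    have h2 : H = (H.map C.subtype).comap C.subtype := (comap_map_eq_self_of_injective C.subtype_injective H).symm
    rw [h2]; infer_instance
  have hCab : ∀ a ∈ C, ∀ b ∈ C, a * b = b * a := by
    by_contra hcon
    push Not at hcon
    obtain ⟨a, ha, b, hb, hab⟩ := hcon
    obtain ⟨v', w', hv', -⟩ := exists_quat hCn ⟨⟨a, ha⟩, ⟨b, hb⟩, fun h => hab (congrArg Subtype.val h)⟩
    have h1 : (v' : G) ^ 4 = 1 := by
      have := pow_orderOf_eq_one v'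
      rw [hv'] at this
      exact congrArg Subtype.val this
    have h2 := hno4 v' v'.2 h1
    have h3 : v' ^ 2 = 1 := Subtype.ext h2
    have := Nat.le_of_dvd (by norm_num) (orderOf_dvd_of_pow_eq_one h3)
    omega
  -- the 2-part of C
  let C2 : Subgroup G :=
    { carrier := {g | g ∈ C ∧ g ^ 2 = 1}
      one_mem' := ⟨one_mem _, one_pow _⟩
      mul_mem' := by
        rintro a b ⟨ha, ha1⟩ ⟨hb, hb1⟩
        exact ⟨mul_mem ha hb, by rw [(show Commute a b from hCab a ha b hb).mul_pow, ha1, hb1, one_mul]⟩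
      inv_mem' := by
        rintro a ⟨ha, ha1⟩
        exact ⟨inv_mem ha, by rw [inv_pow, ha1, inv_one]⟩ }
  let A : Subgroup G :=
    { carrier := {g | g ∈ C ∧ Odd (orderOf g)}
      one_mem' := ⟨one_mem _, by rw [orderOf_one]; exact odd_one⟩
      mul_mem' := by
        rintro a b ⟨ha, ha1⟩ ⟨hb, hb1⟩
        refine ⟨mul_mem ha hb, ?_⟩
        have h1 := (show Commute a b from hCab a ha b hb).orderOf_mul_dvd_mul_orderOf
        exact (ha1.mul hb1).of_dvd_nat h1
      inv_mem' := by
        rintro a ⟨ha, ha1⟩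
        exact ⟨inv_mem ha, by rw [orderOf_inv]; exact ha1⟩ }
  -- C ≤ C2 A
  have hCdec : ∀ g ∈ C, ∃ s ∈ C2, ∃ a ∈ A, g = s * a := by
    intro g hg
    obtain ⟨s, hs, a, ha, hsa, -, ⟨k, hk⟩, ho⟩ := H2.Basic.exists_p_decomp 2 g
    have hsC : s ∈ C := (zpowers_le.2 hg) hs
    have haC : a ∈ C := (zpowers_le.2 hg) ha
    refine ⟨s, ⟨hsC, ?_⟩, a, ⟨haC, ?_⟩, hsa.symm⟩
    · -- order of s is 2^k; no elements of order 4
      by_contra hs2
      have hk2 : 2 ≤ k := by
        by_contra h
        apply hs2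
        have : k = 0 ∨ k = 1 := by omega
        rcases this with h | h
        · rw [h, pow_zero, orderOf_eq_one_iff] at hk
          rw [hk, one_pow]
        · rw [h, pow_one] at hk
          have := pow_orderOf_eq_one s
          rwa [hk] at this
      have h1 : (s ^ 2 ^ (k - 2)) ^ 4 = 1 := by
        rw [← pow_mul, show (4 : ℕ) = 2 ^ 2 by norm_num, ← pow_add, show k - 2 + 2 = k by omega, ← hk, pow_orderOf_eq_one]
      have h2 := hno4 _ (pow_mem hsC _) h1
      rw [← pow_mul, ← pow_succ, show k - 2 + 1 = k - 1 by omega] at h2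
      have h3 := orderOf_dvd_of_pow_eq_one h2
      rw [hk, Nat.pow_dvd_pow_iff_le_right (by norm_num)] at h3
      omega
    · exact (Nat.coprime_two_right).1 ho
  -- E
  obtain ⟨E, hE⟩ := (Set.toFinite {E : Subgroup G | E ≤ C2 ∧ c ∉ E}).exists_maximal
    ⟨⊥, bot_le, fun h => hc1 (mem_bot.1 h)⟩
  have hcC2 : c ∈ C2 := ⟨hcC, hc2⟩
  have hE2 : ∀ g ∈ C2, g ∈ E ∨ c * g ∈ E := by
    intro g hg
    by_contra hcon
    push Not at hcon
    have h1 : E < E ⊔ zpowers g := by
      refine lt_of_le_of_ne le_sup_left (fun h => hcon.1 ?_)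
      rw [h]; exact mem_sup_right (mem_zpowers g)
    have h2 : c ∈ E ⊔ zpowers g := by
      by_contra h2
      have h3 := hE.2 (⟨sup_le hE.1.1 (zpowers_le.2 hg), h2⟩ : (E ⊔ zpowers g) ≤ C2 ∧ c ∉ (E ⊔ zpowers g)) le_sup_left
      exact absurd h1 (not_lt_of_ge h3)
    obtain ⟨e, he, z, hz, hez⟩ := (H2.Card.mem_sup_iff' (H := zpowers g) (N := E) (by
      rw [normalizer_eq_top_iff.2 (hn E)]; exact le_top)).1 h2
    obtain ⟨k, hk⟩ := mem_powers_iff_mem_zpowers.2 hz
    have hk' : g ^ k = z := hk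
    rw [pow_eq_pow_mod k hg.2] at hk'
    rcases Nat.mod_two_eq_zero_or_one k with h | h
    · rw [h, pow_zero] at hk'
      rw [← hk', mul_one] at hez
      exact hE.1.2 (hez ▸ he)
    · rw [h, pow_one] at hk'
      apply hcon.2
      have h4 : c * g = e := by
        rw [← hez, ← hk', mul_assoc, ← pow_two, hg.2, mul_one]
      rw [h4]; exact he
  have hEA : E ⊓ A = ⊥ := by
    rw [eq_bot_iff]
    intro g hg
    have h1 : g ^ 2 = 1 := (hE.1.1 hg.1).2
    have h2 : Odd (orderOf g) := hg.2.2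
    have h3 := orderOf_dvd_of_pow_eq_one h1
    rw [mem_bot, ← orderOf_eq_one_iff]
    exact Nat.eq_one_of_dvd_coprimes ((Nat.coprime_two_right).2 h2) dvd_rfl h3
  have hEAC : E ⊔ A ≤ C := sup_le (fun g hg => (hE.1.1 hg).1) (fun g hg => hg.1)
  have hQC : ∀ q ∈ Q, q ∈ C → q = 1 ∨ q = c := by
    intro q hq hqC
    obtain ⟨a, ha, b, hb, hab⟩ := (H2.Card.mem_sup_iff' (H := zpowers w) (N := zpowers v) (by
      rw [normalizer_eq_top_iff.2 (hn _)]; exact le_top)).1 hq
    obtain ⟨k, hk⟩ := mem_powers_iff_mem_zpowers.2 ha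
    obtain ⟨l, hl⟩ := mem_powers_iff_mem_zpowers.2 hb
    have hk' : v ^ k = a := hk
    have hl' : w ^ l = b := hl
    obtain ⟨h1, h2⟩ := (hmemC q).1 hqC
    -- parity of k and l
    have hcc : c * c = 1 := by rw [← pow_two]; exact hc2
    have hpar : ∀ z : G, z ^ 2 = c → ∀ n : ℕ, z ^ n = 1 ∨ z ^ n = c ∨ z ^ n = z ∨ z ^ n = c * z := by
      intro z hz n
      have hz4 : z ^ 4 = 1 := by
        rw [show (4 : ℕ) = 2 * 2 by norm_num, pow_mul, hz, hc2]
      rw [pow_eq_pow_mod n hz4]
      have : n % 4 < 4 := Nat.mod_lt _ (by norm_num)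
      interval_cases hh : n % 4
      · left; rw [pow_zero]
      · right; right; left; rw [pow_one]
      · right; left; exact hz
      · right; right; right; rw [pow_succ, hz]
    have hnv : ¬ Commute v w := fun h => hvw h.eq
    have hcin : ∀ z : G, Commute (c * z) w → Commute z w := by
      intro z h
      have : z = c * (c * z) := by rw [← mul_assoc, hcc, one_mul]
      rw [this]; exact hcw'.mul_left h
    have hcin2 : ∀ z : G, Commute (c * z) v → Commute z v := by
      intro z h
      have : z = c * (c * z) := by rw [← mul_assoc, hcc, one_mul]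
      rw [this]; exact hcv.mul_left h
    -- q = v^k w^l, commuting with w forces v^k to commute with w
    have h3 : Commute a w := by
      have : a = q * b⁻¹ := by rw [← hab]; group
      rw [this, ← hl']
      exact h2.mul_left (((Commute.refl w).pow_left l).inv_left)
    have h4 : Commute b v := by
      have : b = a⁻¹ * q := by rw [← hab]; group
      rw [this, ← hk']
      exact ((((Commute.refl v).pow_left k).inv_left)).mul_left h1
    have ha' : a = 1 ∨ a = c := by
      rw [← hk'] at h3 ⊢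
      rcases hpar v hc.symm k with h | h | h | h
      · exact Or.inl h
      · exact Or.inr h
      · rw [h] at h3; exact absurd h3 hnv
      · rw [h] at h3; exact absurd (hcin v h3) hnv
    have hb' : b = 1 ∨ b = c := by
      rw [← hl'] at h4 ⊢
      rcases hpar w hcw.symm l with h | h | h | h
      · exact Or.inl h
      · exact Or.inr h
      · rw [h] at h4; exact absurd h4.symm hnv
      · rw [h] at h4; exact absurd (hcin2 w h4).symm hnv
    rw [← hab]
    rcases ha' with h | h <;> rcases hb' with h' | h' <;> rw [h, h']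
    · left; simp
    · right; simp
    · right; simp
    · left; exact hcc
  refine ⟨Q, E, A, ?_, ?_, ⟨⟨?_⟩⟩, ?_, hEA, ?_, ?_⟩
  · -- Q ≅ Q8
    have hcard : Nat.card Q ≤ 4 * 2 := by
      have h1 := H2.Card.card_sup_mul_card_inf (H := zpowers v) (N := zpowers w) (by
        rw [normalizer_eq_top_iff.2 (hn _)]; exact le_top)
      rw [Nat.card_zpowers, Nat.card_zpowers, hv, hw] at h1
      have h2 : 2 ≤ Nat.card (zpowers v ⊓ zpowers w : Subgroup G) := by
        have h3 : Nat.card (zpowers v ⊓ zpowers w : Subgroup G) ≠ 1 := by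
          intro h
          rw [Subgroup.card_eq_one] at h
          have h4 : c ∈ zpowers v ⊓ zpowers w := ⟨by rw [hc]; exact pow_mem (mem_zpowers v) 2, by rw [hcw]; exact pow_mem (mem_zpowers w) 2⟩
          rw [h, mem_bot] at h4
          exact hc1 h4
        have h4 : 0 < Nat.card (zpowers v ⊓ zpowers w : Subgroup G) := Nat.card_pos
        omega
      change Nat.card (zpowers v ⊔ zpowers w : Subgroup G) ≤ 4 * 2
      nlinarith
    refine H5.Dih.nonempty_quaternion (n := 2) (by norm_num) (⟨w, hwQ⟩ : Q) ⟨v, hvQ⟩ ?_ ?_ ?_ ?_ hcard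
    · rw [← orderOf_coe]; exact hw
    · apply Subtype.ext
      change v * v = w ^ 2
      rw [← pow_two, hvw2]
    · exact Subtype.ext hconj
    · intro h
      obtain ⟨k, hk⟩ := mem_zpowers_iff.1 h
      have hk' : w ^ k = v := congrArg Subtype.val hk
      apply hvw
      rw [← hk']
      exact ((Commute.refl w).zpow_left k).eq
  · refine ⟨⟨⟨fun a b => Subtype.ext (hCab a (hE.1.1 a.2).1 b (hE.1.1 b.2).1)⟩⟩, ?_⟩
    intro a ha
    exact (hE.1.1 ha).2
  · intro a b
    exact Subtype.ext (hCab a a.2.1 b b.2.1)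
  · -- odd order
    rw [← Nat.coprime_two_right]
    rw [Nat.coprime_comm, Nat.Prime.coprime_iff_not_dvd Nat.prime_two]
    intro h
    haveI : Fact (Nat.Prime 2) := ⟨Nat.prime_two⟩
    obtain ⟨a, ha⟩ := exists_prime_orderOf_dvd_card' 2 h
    rw [← orderOf_coe] at ha
    have h1 : Odd (orderOf (a : G)) := a.2.2
    rw [ha] at h1
    exact absurd h1 (by decide)
  · rw [eq_bot_iff]
    intro q hq
    rw [mem_bot]
    rcases hQC q hq.1 (hEAC hq.2) with h | h
    · exact h
    · exfalso
      obtain ⟨e, he, a, ha, hea⟩ := (H2.Card.mem_sup_iff' (H := A) (N := E) (by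
        rw [normalizer_eq_top_iff.2 (hn _)]; exact le_top)).1 hq.2
      rw [h] at hea
      have h1 : a = e⁻¹ * c := by rw [← hea]; group
      have h2 : a ^ 2 = 1 := by
        have h3 : a ∈ C2 := by rw [h1]; exact mul_mem (inv_mem (hE.1.1 he)) hcC2
        exact h3.2
      have h3 := orderOf_dvd_of_pow_eq_one h2
      have h4 : orderOf a = 1 := Nat.eq_one_of_dvd_coprimes ((Nat.coprime_two_right).2 ha.2) dvd_rfl h3
      rw [orderOf_eq_one_iff] at h4
      rw [h4, mul_one] at hea
      exact hE.1.2 (hea ▸ he)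
  · rw [eq_top_iff]
    intro g _
    obtain ⟨q, hq, hgq⟩ := hG g
    obtain ⟨s, hs, a, ha, hsa⟩ := hCdec _ hgq
    have h1 : g = s * a * q⁻¹ := by rw [← hsa]; group
    rw [h1]
    have hs' : s ∈ Q ⊔ (E ⊔ A) := by
      rcases hE2 s hs with h | h
      · exact mem_sup_right (mem_sup_left h)
      · have : s = c * (c * s) := by rw [← mul_assoc, ← pow_two, hc2, one_mul]
        rw [this]
        exact mul_mem (mem_sup_left hcQ) (mem_sup_right (mem_sup_left h))
    exact mul_mem (mul_mem hs' (mem_sup_right (mem_sup_right ha))) (inv_mem (mem_sup_left hq))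


end Cfsg.Agent.S4211
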