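import Cfsg.Statements.S4213
import Cfsg.Agent.H2_Card


set_option autoImplicit false
open Cfsg

namespace Cfsg.Agent.S4213

open Subgroup
open scoped commutatorElement

universe u

/-- a normal subgroup of prime exponent -/
theorem exists_K {G : Type u} [Group G] [Finite G] [Nontrivial G] (hG : Group.IsSolvable G) :
    ∃ p : ℕ, p.Prime ∧ ∃ K : Subgroup G, K.Normal ∧ K ≠ ⊥ ∧ ∀ x ∈ K, x ^ p = 1 := by
  classical
  obtain ⟨n, hn⟩ := hG
  have hex : ∃ n, derivedSeries G n = ⊥ := ⟨n, hn⟩
  have h0 : Nat.find hex ≠ 0 := by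
    intro h
    have := Nat.find_spec hex
    rw [h, derivedSeries_zero] at this
    exact absurd this top_ne_bot
  obtain ⟨k, hk⟩ := Nat.exists_eq_succ_of_ne_zero h0
  have h1 := Nat.find_spec hex
  rw [hk] at h1
  have h2 : derivedSeries G k ≠ ⊥ := Nat.find_min hex (by rw [hk]; exact Nat.lt_succ_self k)
  set A := derivedSeries G k with hA
  have hAn : A.Normal := derivedSeries_normal G k
  have hAc : ∀ a ∈ A, ∀ b ∈ A, a * b = b * a := by
    intro a ha b hb
    have h3 : ⁅a, b⁆ ∈ derivedSeries G (k + 1) := by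
      rw [derivedSeries_succ]; exact commutator_mem_commutator ha hb
    rw [Nat.succ_eq_add_one] at h1
    rw [h1, mem_bot, commutatorElement_eq_one_iff_mul_comm] at h3
    exact h3
  haveI : Nontrivial A := (nontrivial_iff_ne_bot A).2 h2
  obtain ⟨p, hp, hpd⟩ := Nat.exists_prime_and_dvd (Finite.one_lt_card (α := A)).ne'
  haveI : Fact p.Prime := ⟨hp⟩
  obtain ⟨z, hz⟩ := exists_prime_orderOf_dvd_card' p hpd
  rw [← orderOf_coe] at hz
  let K : Subgroup G :=
    { carrier := {x | x ∈ A ∧ x ^ p = 1}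
      one_mem' := ⟨one_mem _, one_pow _⟩
      mul_mem' := by
        rintro a b ⟨ha, ha1⟩ ⟨hb, hb1⟩
        refine ⟨mul_mem ha hb, ?_⟩
        rw [(show Commute a b from hAc a ha b hb).mul_pow, ha1, hb1, one_mul]
      inv_mem' := by
        rintro a ⟨ha, ha1⟩
        exact ⟨inv_mem ha, by rw [inv_pow, ha1, inv_one]⟩ }
  refine ⟨p, hp, K, ?_, ?_, fun x hx => hx.2⟩
  · constructor
    rintro x ⟨hx, hx1⟩ g
    exact ⟨hAn.conj_mem x hx g, by rw [conj_pow, hx1]; group⟩
  · intro h
    have h3 : (z : G) ∈ K := ⟨z.2, by have := pow_orderOf_eq_one (z : G); rwa [hz] at this⟩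
    rw [h, mem_bot] at h3
    rw [h3, orderOf_one] at hz
    exact hp.one_lt.ne hz

/-- the number of solutions -/
noncomputable def cnt (G : Type u) [Group G] (n : ℕ) : ℕ := {x : G | x ^ n = 1}.ncard

variable {G : Type u} [Group G] [Finite G]

theorem card_pre (K : Subgroup G) [K.Normal] (S : Set (G ⧸ K)) : ((QuotientGroup.mk' K) ⁻¹' S).ncard = Nat.card K * S.ncard := by
  have h1 := Nat.card_congr (QuotientGroup.preimageMkEquivSubgroupProdSet K S)
  rw [Nat.card_prod] at h1
  exact h1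

theorem sub1 {K : Subgroup G} [K.Normal] {p n m : ℕ} (hK : ∀ x ∈ K, x ^ p = 1) (h : m * p ∣ n) :
    ((QuotientGroup.mk' K) ⁻¹' {y | y ^ m = 1}) ⊆ {x : G | x ^ n = 1} := by
  intro x hx
  have h1 : (QuotientGroup.mk' K x) ^ m = 1 := hx
  rw [← map_pow] at h1
  have h2 : x ^ m ∈ K := (QuotientGroup.eq_one_iff _).1 h1
  obtain ⟨c, rfl⟩ := h
  change x ^ (m * p * c) = 1
  rw [pow_mul, pow_mul, hK _ h2, one_pow]

theorem surj2 {K : Subgroup G} [K.Normal] {p n : ℕ} (hp : p.Prime) (hK : ∀ x ∈ K, x ^ p = 1) (h : ¬ p ∣ n) :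
    {y : G ⧸ K | y ^ n = 1} ⊆ (QuotientGroup.mk' K) '' {x : G | x ^ n = 1} := by
  intro y hy
  obtain ⟨x, rfl⟩ := QuotientGroup.mk'_surjective K y
  have h1 : (QuotientGroup.mk' K x) ^ n = 1 := hy
  have h2 : x ^ n ∈ K := by
    rw [← map_pow] at h1
    exact (QuotientGroup.eq_one_iff _).1 h1
  have hcop : Nat.Coprime p n := (Nat.Prime.coprime_iff_not_dvd hp).2 h
  -- t with p t ≡ 1 mod n
  have hbez := Nat.gcd_eq_gcd_ab p n
  rw [hcop] at hbez
  refine ⟨x ^ ((p : ℤ) * Nat.gcdA p n), ?_, ?_⟩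
  · change (x ^ ((p : ℤ) * Nat.gcdA p n)) ^ n = 1
    rw [← zpow_natCast, ← zpow_mul]
    have e : (p : ℤ) * Nat.gcdA p n * n = ((n * p : ℕ) : ℤ) * Nat.gcdA p n := by push_cast; ring
    rw [e, zpow_mul, zpow_natCast, pow_mul, hK _ h2, one_zpow]
  · rw [map_zpow]
    have e : (p : ℤ) * Nat.gcdA p n = 1 - n * Nat.gcdB p n := by
      have : (1 : ℤ) = p * Nat.gcdA p n + n * Nat.gcdB p n := by exact_mod_cast hbez
      linarith
    rw [e, zpow_sub, zpow_one, zpow_mul, zpow_natCast, h1, one_zpow, inv_one, mul_one]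

theorem card_K {K : Subgroup G} {p : ℕ} (hp : p.Prime) (hK : ∀ x ∈ K, x ^ p = 1) (hK1 : K ≠ ⊥) : ∃ i, 1 ≤ i ∧ Nat.card K = p ^ i := by
  haveI : Fact p.Prime := ⟨hp⟩
  have h1 : IsPGroup p K := fun x => ⟨1, by rw [pow_one]; exact Subtype.ext (hK x x.2)⟩
  obtain ⟨i, hi⟩ := IsPGroup.iff_card.1 h1
  refine ⟨i, ?_, hi⟩
  by_contra h
  have : i = 0 := by omega
  rw [this, pow_zero] at hi
  exact hK1 (Subgroup.card_eq_one.1 hi)

/-- arithmetic trichotomy -/
theorem arith {g n p i q : ℕ} (hp : p.Prime) (hi : 1 ≤ i) (hg : g = q * p ^ i) (hn : n ∣ g) (hg0 : 0 < g) :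
    (∃ m, m * p ^ i = n ∧ m * p ∣ n ∧ m ∣ q) ∨ (¬ p ∣ n ∧ n ∣ q) ∨ (∃ s, s * p ∣ n ∧ s ∣ q ∧ n < p ^ i * s) := by
  have hn0 : 0 < n := Nat.pos_of_dvd_of_pos hn hg0
  obtain ⟨a, s, hs, hns⟩ := Nat.exists_eq_pow_mul_and_not_dvd hn0.ne' p hp.ne_one
  have hcop : Nat.Coprime s (p ^ i) := Nat.Coprime.pow_right _ ((Nat.Prime.coprime_iff_not_dvd hp).2 hs).symm
  have hsq : s ∣ q := by
    have h1 : s ∣ q * p ^ i := by
      rw [← hg]; exact (Dvd.intro_left _ hns.symm).trans hn
    exact hcop.dvd_of_dvd_mul_right h1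
  rcases Nat.lt_or_ge a i with h | h
  · rcases Nat.eq_zero_or_pos a with h0 | h0
    · right; left
      rw [h0, pow_zero, one_mul] at hns
      rw [hns]
      exact ⟨hs, hsq⟩
    · right; right
      refine ⟨s, ?_, hsq, ?_⟩
      · rw [hns, mul_comm]
        exact Nat.mul_dvd_mul_right (dvd_pow_self p h0.ne') s
      · rw [hns]
        have hs0 : 0 < s := by
          rcases Nat.eq_zero_or_pos s with h1 | h1
          · rw [h1] at hs; exact absurd (dvd_zero p) hs
          · exact h1
        exact Nat.mul_lt_mul_of_pos_right (Nat.pow_lt_pow_right hp.one_lt h) hs0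
  · left
    refine ⟨p ^ (a - i) * s, ?_, ?_, ?_⟩
    · rw [hns]
      have : p ^ a = p ^ (a - i) * p ^ i := by rw [← pow_add]; congr 1; omega
      rw [this]; ring
    · have h1 : p ^ (a - i) * s * p ^ i = n := by
        rw [hns]
        have : p ^ a = p ^ (a - i) * p ^ i := by rw [← pow_add]; congr 1; omega
        rw [this]; ring
      rw [← h1]
      exact Nat.mul_dvd_mul_left _ (dvd_pow_self p (by omega))
    · have h1 : p ^ (a - i) * s * p ^ i = n := by
        rw [hns]
        have : p ^ a = p ^ (a - i) * p ^ i := by rw [← pow_add]; congr 1; omega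
        rw [this]; ring
      have h2 : p ^ (a - i) * s * p ^ i ∣ q * p ^ i := by rw [h1, ← hg]; exact hn
      exact Nat.dvd_of_mul_dvd_mul_right (pow_pos hp.pos i) h2

theorem lower (N : ℕ) : ∀ (G : Type u) [Group G] [Finite G], Nat.card G = N → Group.IsSolvable G → ∀ n, n ∣ Nat.card G → n ≤ cnt G n := by
  induction N using Nat.strong_induction_on with
  | _ N ih =>
  intro G _ _ hGN hG n hn
  rcases subsingleton_or_nontrivial G with hs | hnt
  · have h1 : Nat.card G = 1 := Nat.card_of_subsingleton 1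
    rw [h1, Nat.dvd_one] at hn
    subst hn
    have : (1 : G) ∈ {x : G | x ^ 1 = 1} := by simp
    exact Nat.one_le_iff_ne_zero.2 (Set.ncard_ne_zero_of_mem this)
  · obtain ⟨p, hp, K, hKn, hK1, hK⟩ := exists_K hG
    obtain ⟨i, hi, hci⟩ := card_K hp hK hK1
    have hlt : Nat.card (G ⧸ K) < N := by rw [← hGN]; exact H2.Card.card_quotient_lt hK1
    have hsol : Group.IsSolvable (G ⧸ K) := inferInstance
    have hcard := K.card_eq_card_quotient_mul_card_subgroup
    rw [hci] at hcard
    have hih := ih _ hlt (G ⧸ K) rfl hsol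
    rcases arith hp hi hcard hn Nat.card_pos with ⟨m, hm, hmp, hmq⟩ | ⟨hpn, hnq⟩ | ⟨s, hsp, hsq, hlt'⟩
    · have h1 := Set.ncard_le_ncard (sub1 hK hmp) (Set.toFinite _)
      rw [card_pre, hci] at h1
      refine le_trans ?_ h1
      rw [← hm, mul_comm]
      exact Nat.mul_le_mul_left _ (hih m hmq)
    · have h1 := Set.ncard_le_ncard (surj2 hp hK hpn) (Set.toFinite _)
      refine (hih n hnq).trans (h1.trans ?_)
      exact Set.ncard_image_le (Set.toFinite _)
    · have h1 := Set.ncard_le_ncard (sub1 hK hsp) (Set.toFinite _)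
      rw [card_pre, hci] at h1
      refine le_trans ?_ h1
      exact hlt'.le.trans (Nat.mul_le_mul_left _ (hih s hsq))

theorem main (N : ℕ) : ∀ (G : Type u) [Group G] [Finite G], Nat.card G = N → Group.IsSolvable G → ∀ n, n ∣ Nat.card G → cnt G n = n →
    ∃ H : Subgroup G, H.Normal ∧ (H : Set G) = {x : G | x ^ n = 1} := by
  induction N using Nat.strong_induction_on with
  | _ N ih =>
  intro G _ _ hGN hG n hn hcnt
  rcases subsingleton_or_nontrivial G with hs | hnt
  · refine ⟨⊤, inferInstance, ?_⟩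
    ext x
    simp [Subsingleton.elim x 1]
  · obtain ⟨p, hp, K, hKn, hK1, hK⟩ := exists_K hG
    obtain ⟨i, hi, hci⟩ := card_K hp hK hK1
    have hlt : Nat.card (G ⧸ K) < N := by rw [← hGN]; exact H2.Card.card_quotient_lt hK1
    have hsol : Group.IsSolvable (G ⧸ K) := inferInstance
    have hcard := K.card_eq_card_quotient_mul_card_subgroup
    rw [hci] at hcard
    have hlow := lower _ (G ⧸ K) rfl hsol
    rcases arith hp hi hcard hn Nat.card_pos with ⟨m, hm, hmp, hmq⟩ | ⟨hpn, hnq⟩ | ⟨s, hsp, hsq, hlt'⟩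
    · have h1 := Set.ncard_le_ncard (sub1 hK hmp) (Set.toFinite _)
      change _ ≤ cnt G n at h1
      rw [card_pre, hci, hcnt, ← hm, mul_comm m] at h1
      have h2 : cnt (G ⧸ K) m = m := le_antisymm (Nat.le_of_mul_le_mul_left h1 (pow_pos hp.pos i)) (hlow m hmq)
      obtain ⟨H, hHn, hH⟩ := ih _ hlt (G ⧸ K) rfl hsol m hmq h2
      refine ⟨H.comap (QuotientGroup.mk' K), inferInstance, ?_⟩
      rw [coe_comap, hH]
      apply Set.eq_of_subset_of_ncard_le (sub1 hK hmp) _ (Set.toFinite _)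
      change cnt G n ≤ _
      rw [card_pre, hci, hcnt]
      change n ≤ p ^ i * cnt (G ⧸ K) m
      rw [h2, ← hm, mul_comm]
    · have h0 := Set.ncard_image_le (f := QuotientGroup.mk' K) (s := {x : G | x ^ n = 1}) (Set.toFinite _)
      have h1 := (Set.ncard_le_ncard (surj2 hp hK hpn) (Set.toFinite _)).trans h0
      change cnt (G ⧸ K) n ≤ cnt G n at h1
      rw [hcnt] at h1
      have h2 : cnt (G ⧸ K) n = n := le_antisymm h1 (hlow n hnq)
      obtain ⟨H, hHn, hH⟩ := ih _ hlt (G ⧸ K) rfl hsol n hnq h2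
      set M := H.comap (QuotientGroup.mk' K) with hM
      have hKM : K ≤ M := by
        intro x hx
        rw [hM, mem_comap]
        have : QuotientGroup.mk' K x = 1 := (QuotientGroup.eq_one_iff x).2 hx
        rw [this]; exact one_mem _
      have hMc : Nat.card M = p ^ i * n := by
        have h3 := card_pre K (H : Set (G ⧸ K))
        rw [hci, hH] at h3
        change _ = p ^ i * cnt (G ⧸ K) n at h3
        rw [h2] at h3
        rw [← h3, ← hH]; rfl
      have hKMc : Nat.card (K.subgroupOf M) = p ^ i := by rw [H2.Card.card_subgroupOf_of_le hKM, hci]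
      have hidx : (K.subgroupOf M).index = n := by
        have h3 := (K.subgroupOf M).card_mul_index
        rw [hKMc, hMc] at h3
        exact Nat.eq_of_mul_eq_mul_left (pow_pos hp.pos i) h3
      obtain ⟨C, hC⟩ := exists_right_complement'_of_coprime (N := K.subgroupOf M) (by
        rw [hKMc, hidx]; exact Nat.Coprime.pow_left _ ((Nat.Prime.coprime_iff_not_dvd hp).2 hpn))
      have hCc : Nat.card C = n := by rw [← hC.symm.index_eq_card, hidx]
      have hCS : ((C.map M.subtype : Subgroup G) : Set G) = {x : G | x ^ n = 1} := by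
        apply Set.eq_of_subset_of_ncard_le _ _ (Set.toFinite _)
        · rintro _ ⟨c, hc, rfl⟩
          have h3 := pow_card_eq_one' (x := (⟨c, hc⟩ : C))
          rw [hCc] at h3
          have h4 : c ^ n = 1 := congrArg Subtype.val h3
          exact congrArg Subtype.val h4
        · change cnt G n ≤ _
          rw [hcnt]
          have h3 : Nat.card (C.map M.subtype) = n := by rw [card_map_of_injective M.subtype_injective, hCc]
          exact h3.ge
      refine ⟨C.map M.subtype, ?_, hCS⟩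
      constructor
      intro x hx g
      rw [← SetLike.mem_coe, hCS] at hx ⊢
      change (g * x * g⁻¹) ^ n = 1
      rw [conj_pow, show x ^ n = 1 from hx]; group
    · exfalso
      have h1 := Set.ncard_le_ncard (sub1 hK hsp) (Set.toFinite _)
      change _ ≤ cnt G n at h1
      rw [card_pre, hci, hcnt] at h1
      have h2 := Nat.mul_le_mul_left (p ^ i) (hlow s hsq)
      change p ^ i * cnt (G ⧸ K) s ≤ n at h1
      omega


/-- If `G` is a finite solvable group and `n` divides the order of `G` and exactly `n` elements `x` of `G` satisfy `x^n = 1`, then these elements form a normal subgroup. -/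
theorem result {G : Type*} [Group G] [Finite G] [Group.IsSolvable G] (n : ℕ) (hn : n ∣ Nat.card G) (hcount : Nat.card {x : G // x ^ n = 1} = n) : ∃ H : Subgroup G, H.Normal ∧ (H : Set G) = {x : G | x ^ n = 1} := by

  exact main _ G rfl inferInstance n hn hcount


end Cfsg.Agent.S4213
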