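import Cfsg.Statements.S4214
import Cfsg.Agent.H27_HallNum

set_option autoImplicit false
open Cfsg

namespace Cfsg.Agent.S4214

/-- Let `G` be a finite solvable group of order `mn` with `gcd(m, n) = 1`. Then the number of subgroups of order `m` is a product of natural numbers each of which is a power of a prime, divides the order of some chief factor of `G` (a quotient `L/K` of normal subgroups `K < L` of `G` with no normal subgroup of `G` strictly between them), and is congruent to `1` modulo some prime divisor of `m`. -/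
theorem result {G : Type*} [Group G] [Finite G] [Group.IsSolvable G] (m n : ℕ) (hG : Nat.card G = m * n) (hmn : Nat.Coprime m n) : ∃ (k : ℕ) (f : Fin k → ℕ), Nat.card {H : Subgroup G // Nat.card H = m} = ∏ i, f i ∧ ∀ i, (∃ q e : ℕ, q.Prime ∧ f i = q ^ e) ∧ (∃ K L : Subgroup G, K.Normal ∧ L.Normal ∧ K < L ∧ (∀ M : Subgroup G, M.Normal → K ≤ M → M ≤ L → M = K ∨ M = L) ∧ f i ∣ K.relIndex L) ∧ (∃ q : ℕ, q.Prime ∧ q ∣ m ∧ f i ≡ 1 [MOD q]) := by
  obtain ⟨H, hH⟩ := H1.Hall.hall_exists m n hG hmn
  have hidx : H.index = n := H1.Hall.index_of_card hG hH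
  obtain ⟨l, hl, hlx⟩ := H27.HallNum.main _ G rfl H (by rw [hH, hidx]; exact hmn)
  refine ⟨l.length, l.get, ?_, ?_⟩
  · rw [H27.HallNum.count m n hG hmn H hH, hl, ← List.prod_ofFn, List.ofFn_get]
  · intro i
    have := hlx (l.get i) (List.get_mem l i)
    rw [hH] at this
    exact this

end Cfsg.Agent.S4214
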