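import Cfsg.Statements.S4216
import Cfsg.Agent.H2_Card
import Cfsg.Agent.H24_Tools


set_option autoImplicit false
open Cfsg

namespace Cfsg.Agent.S4216

open Subgroup MulAction
open scoped commutatorElement

universe u

variable {G : Type u} [Group G] [Finite G] {p : ℕ} [hp : Fact p.Prime]

theorem smul_eq_iff {P : Subgroup G} (u : G) (x : G ⧸ P) : u • x = x ↔ x.out⁻¹ * u * x.out ∈ P := by
  conv_lhs => rw [← x.out_eq']
  rw [MulAction.Quotient.smul_mk, eq_comm, QuotientGroup.eq, smul_eq_mul, mul_assoc]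

open Classical in
theorem key {A : Type u} [CommGroup A] (P : Sylow p G) (φ : (P : Subgroup G) →* A)
    (ψ : G → A) (hψ : ∀ g (h : g ∈ (P : Subgroup G)), ψ g = φ ⟨g, h⟩) (hψ0 : ∀ g, g ∉ (P : Subgroup G) → ψ g = 1)
    (ha : ∀ c ∈ ⁅(P : Subgroup G), (P : Subgroup G)⁆, ∀ z : G, z * c * z⁻¹ ∈ (P : Subgroup G) → ψ (z * c * z⁻¹) = 1)
    (hb : ∀ n ∈ normalizer ((P : Subgroup G) : Set G), ∀ x ∈ (P : Subgroup G), ψ (n * x * n⁻¹) = ψ x)
    {u : G} (hu : u ∈ (P : Subgroup G)) (huG : u ∈ commutator G)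
    (hmin : ∀ w ∈ (P : Subgroup G), w ∈ commutator G → orderOf w < orderOf u → ψ w = 1) : ψ u = 1 := by
  classical
  haveI := Fintype.ofFinite (G ⧸ (P : Subgroup G))
  have hmul : ∀ a ∈ (P : Subgroup G), ∀ b ∈ (P : Subgroup G), ψ (a * b) = ψ a * ψ b := by
    intro a ha b hb
    rw [hψ a ha, hψ b hb, hψ _ (mul_mem ha hb), ← map_mul]; rfl
  have hone : ψ 1 = 1 := by rw [hψ 1 (one_mem _)]; exact map_one φ
  have hpow : ∀ a ∈ (P : Subgroup G), ∀ k : ℕ, ψ (a ^ k) = ψ a ^ k := by
    intro a ha k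
    rw [hψ a ha, hψ _ (pow_mem ha k), ← map_pow]; rfl
  have hinv : ∀ a ∈ (P : Subgroup G), ψ a⁻¹ = (ψ a)⁻¹ := by
    intro a ha
    rw [hψ a ha, hψ _ (inv_mem ha), ← map_inv]; rfl
  by_cases hu1 : u = 1
  · rw [hu1]; exact hone
  have hGn : (commutator G).Normal := inferInstance
  -- elements with smaller order
  have hsmall : ∀ y : G, ∀ m : ℕ, 1 < m → m ∣ orderOf u → y⁻¹ * u ^ m * y ∈ (P : Subgroup G) → ψ (y⁻¹ * u ^ m * y) = 1 := by
    intro y m hm hmd hy
    apply hmin _ hy
    · have := hGn.conj_mem _ (pow_mem huG m) y⁻¹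
      rwa [inv_inv] at this
    · have h1 : orderOf (y⁻¹ * u ^ m * y) = orderOf (u ^ m) := by
        have := (MulAut.conj y⁻¹).orderOf_eq (u ^ m)
        rw [MulAut.conj_apply, inv_inv] at this
        exact this
      rw [h1, orderOf_pow_of_dvd (by omega) hmd]
      exact Nat.div_lt_self (orderOf_pos u) hm
  have hpu : p ∣ orderOf u := by
    obtain ⟨b, hb⟩ := H24.Tools.exists_orderOf P.2 hu
    rw [hb]
    apply dvd_pow_self
    rintro rfl
    rw [pow_zero, orderOf_eq_one_iff] at hb
    exact hu1 hb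
  let W : G ⧸ (P : Subgroup G) → A := fun x => ψ (x.out⁻¹ * u * x.out)
  have hW0 : ∀ x, u • x ≠ x → W x = 1 := fun x hx => hψ0 _ (fun h => hx ((smul_eq_iff u x).2 h))
  have hV : MonoidHom.transfer φ u = 1 := by
    have := Abelianization.commutator_subset_ker (MonoidHom.transfer φ) huG
    exact this
  have h1 : MonoidHom.transfer φ u = ∏ x, W x := by
    haveI : Fintype (Quotient (orbitRel (zpowers u) (G ⧸ (P : Subgroup G)))) := Fintype.ofFinite _
    rw [MonoidHom.transfer_eq_prod_quotient_orbitRel_zpowers_quot,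
      ← Finset.prod_fiberwise_of_maps_to (s := Finset.univ) (t := Finset.univ)
        (g := fun x : G ⧸ (P : Subgroup G) => (Quotient.mk (orbitRel (zpowers u) (G ⧸ (P : Subgroup G))) x)) (fun x _ => Finset.mem_univ _)]
    apply Finset.prod_congr rfl
    intro q _
    rw [← hψ]
    set x0 := q.out with hx0
    have hfix : ∀ x : G ⧸ (P : Subgroup G), u • x = x → ∀ y, (orbitRel (zpowers u) (G ⧸ (P : Subgroup G))) x y → y = x := by
      intro x hx y hxy
      obtain ⟨⟨g, hg⟩, hgy⟩ := (orbitRel (zpowers u) (G ⧸ (P : Subgroup G))).symm hxy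
      obtain ⟨k, rfl⟩ := mem_zpowers_iff.1 hg
      have h2 : u ^ k ∈ stabilizer G x := zpow_mem (mem_stabilizer_iff.2 hx) k
      have h3 : (u ^ k) • x = y := hgy
      rw [mem_stabilizer_iff] at h2
      rw [← h3, h2]
    have hq : ∀ x, (Quotient.mk (orbitRel (zpowers u) (G ⧸ (P : Subgroup G))) x) = q ↔
        (orbitRel (zpowers u) (G ⧸ (P : Subgroup G))) x x0 := by
      intro x
      conv_lhs => rw [← q.out_eq]
      exact Quotient.eq
    by_cases hm : u • x0 = x0
    · have h2 : Function.minimalPeriod (u • ·) x0 = 1 := Function.minimalPeriod_eq_one_iff_isFixedPt.2 hm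
      have h3 : (Finset.univ.filter (fun x => (Quotient.mk (orbitRel (zpowers u) (G ⧸ (P : Subgroup G))) x) = q)) = {x0} := by
        ext x
        rw [Finset.mem_filter, Finset.mem_singleton, hq]
        constructor
        · rintro ⟨_, h⟩
          exact hfix x0 hm x ((orbitRel (zpowers u) (G ⧸ (P : Subgroup G))).symm h)
        · rintro rfl
          exact ⟨Finset.mem_univ _, (orbitRel (zpowers u) (G ⧸ (P : Subgroup G))).refl _⟩
      rw [h3, Finset.prod_singleton, h2, pow_one]
    · have h2 : ∏ x ∈ Finset.univ.filter (fun x => (Quotient.mk (orbitRel (zpowers u) (G ⧸ (P : Subgroup G))) x) = q), W x = 1 := by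
        apply Finset.prod_eq_one
        intro x hx
        rw [Finset.mem_filter, hq] at hx
        apply hW0
        intro h
        have h3 := hfix x h x0 hx.2
        rw [h3] at hm
        exact hm h
      rw [h2]
      have hmp : 0 < Function.minimalPeriod (u • ·) x0 := by
        apply Function.minimalPeriod_pos_of_mem_periodicPts
        refine ⟨orderOf u, orderOf_pos u, ?_⟩
        rw [Function.IsPeriodicPt, smul_iterate, pow_orderOf_eq_one]
        exact one_smul G x0
      have hm1 : Function.minimalPeriod (u • ·) x0 ≠ 1 := fun h => hm (Function.minimalPeriod_eq_one_iff_isFixedPt.1 h)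
      apply hsmall
      · omega
      · apply Function.IsPeriodicPt.minimalPeriod_dvd
        rw [Function.IsPeriodicPt, smul_iterate, pow_orderOf_eq_one]
        exact one_smul G x0
      · exact QuotientGroup.out_conj_pow_minimalPeriod_mem (P : Subgroup G) u x0
  -- W is constant on P-orbits of fixed points
  have hconst : ∀ x x' : G ⧸ (P : Subgroup G), u • x = x → u • x' = x' → (∃ a ∈ (P : Subgroup G), x' = a • x) → W x' = W x := by
    rintro x x' hx hx' ⟨a, ha', hax⟩
    have h2 : (a * x.out)⁻¹ * x'.out ∈ (P : Subgroup G) := by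
      rw [← QuotientGroup.eq]
      have e1 : (QuotientGroup.mk (a * x.out) : G ⧸ (P : Subgroup G)) = a • x := by
        conv_rhs => rw [← x.out_eq']
        rfl
      rw [e1, ← hax]
      exact x'.out_eq'.symm
    obtain ⟨h, hh⟩ : ∃ h, h = (a * x.out)⁻¹ * x'.out := ⟨_, rfl⟩
    rw [← hh] at h2
    have h3 : x'.out = a * x.out * h := by rw [hh]; group
    have hxP := (smul_eq_iff u x).1 hx
    have hx'P := (smul_eq_iff u x').1 hx'
    set y := x.out with hy
    have hc : ⁅u⁻¹, a⁻¹⁆ ∈ ⁅(P : Subgroup G), (P : Subgroup G)⁆ := commutator_mem_commutator (inv_mem hu) (inv_mem ha')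
    have e2 : y⁻¹ * (a⁻¹ * u * a) * y = (y⁻¹ * u * y) * (y⁻¹ * ⁅u⁻¹, a⁻¹⁆ * y⁻¹⁻¹) := by rw [commutatorElement_def]; group
    have e3 : x'.out⁻¹ * u * x'.out = h⁻¹ * (y⁻¹ * (a⁻¹ * u * a) * y) * h := by rw [h3]; group
    have h4 : y⁻¹ * (a⁻¹ * u * a) * y ∈ (P : Subgroup G) := by
      rw [e3] at hx'P
      have := mul_mem (mul_mem h2 hx'P) (inv_mem h2)
      have e4 : h * (h⁻¹ * (y⁻¹ * (a⁻¹ * u * a) * y) * h) * h⁻¹ = y⁻¹ * (a⁻¹ * u * a) * y := by group
      rwa [e4] at this
    have h5 : y⁻¹ * ⁅u⁻¹, a⁻¹⁆ * y⁻¹⁻¹ ∈ (P : Subgroup G) := by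
      have h6 : y⁻¹ * ⁅u⁻¹, a⁻¹⁆ * y⁻¹⁻¹ = (y⁻¹ * u * y)⁻¹ * (y⁻¹ * (a⁻¹ * u * a) * y) := by rw [commutatorElement_def]; group
      rw [h6]; exact mul_mem (inv_mem hxP) h4
    change ψ (x'.out⁻¹ * u * x'.out) = ψ (y⁻¹ * u * y)
    rw [e3, hmul _ (mul_mem (inv_mem h2) h4) _ h2, hmul _ (inv_mem h2) _ h4, hinv _ h2, e2, hmul _ hxP _ h5, ha _ hc _ h5]
    rw [mul_one, mul_comm, ← mul_assoc, mul_inv_cancel, one_mul]
  -- the product over points not fixed by P
  have h2 : ∏ x ∈ Finset.univ.filter (fun x => x ∉ fixedPoints (P : Subgroup G) (G ⧸ (P : Subgroup G))), W x = 1 := by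
    haveI : Fintype (Quotient (orbitRel (P : Subgroup G) (G ⧸ (P : Subgroup G)))) := Fintype.ofFinite _
    rw [← Finset.prod_fiberwise_of_maps_to (t := Finset.univ)
        (g := fun x : G ⧸ (P : Subgroup G) => (Quotient.mk (orbitRel (P : Subgroup G) (G ⧸ (P : Subgroup G))) x)) (fun x _ => Finset.mem_univ _)]
    apply Finset.prod_eq_one
    intro O _
    rw [← Finset.prod_filter_of_ne (p := fun x => u • x = x) (fun x _ hx => by
      by_contra h
      exact hx (hW0 x h))]
    set T := Finset.filter (fun x => u • x = x) (Finset.filter (fun x => (Quotient.mk (orbitRel (P : Subgroup G) (G ⧸ (P : Subgroup G))) x) = O)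
      (Finset.univ.filter (fun x => x ∉ fixedPoints (P : Subgroup G) (G ⧸ (P : Subgroup G))))) with hT
    rcases T.eq_empty_or_nonempty with h3 | ⟨x1, hx1⟩
    · rw [h3, Finset.prod_empty]
    · have hmem : ∀ x, x ∈ T ↔ x ∈ orbit (P : Subgroup G) x1 ∧ u • x = x := by
        intro x
        rw [hT, Finset.mem_filter, Finset.mem_filter, Finset.mem_filter] at hx1
        rw [hT, Finset.mem_filter, Finset.mem_filter, Finset.mem_filter, ← hx1.1.2]
        constructor
        · rintro ⟨⟨_, h4⟩, h5⟩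
          exact ⟨Quotient.eq.1 h4, h5⟩
        · rintro ⟨h4, h5⟩
          refine ⟨⟨⟨Finset.mem_univ _, ?_⟩, Quotient.eq.2 h4⟩, h5⟩
          intro h6
          apply hx1.1.1.2
          obtain ⟨a, ha'⟩ := h4
          have h7 : a • x1 = x := ha'
          have h8 : x1 = x := by
            have h9 := h6 a⁻¹
            rw [← h7, inv_smul_smul] at h9
            rw [← h7]; exact h9
          rw [h8]; exact h6
      have hx1' := (hmem x1).1 hx1
      have h4 : ∏ x ∈ T, W x = W x1 ^ T.card := by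
        apply Finset.prod_eq_pow_card
        intro x hx
        obtain ⟨⟨a, ha'⟩, hx2⟩ := (hmem x).1 hx
        exact hconst x1 x hx1'.2 hx2 ⟨a, a.2, ha'.symm⟩
      have h5 : W x1 ^ p = 1 := by
        have hxP := (smul_eq_iff u x1).1 hx1'.2
        change ψ (x1.out⁻¹ * u * x1.out) ^ p = 1
        rw [← hpow _ hxP]
        have e1 : (x1.out⁻¹ * u * x1.out) ^ p = x1.out⁻¹ * u ^ p * x1.out := by
          have := conj_pow (a := x1.out⁻¹) (b := u) (i := p)
          rw [inv_inv] at this
          exact this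
        rw [e1]
        apply hsmall _ p hp.out.one_lt hpu
        rw [← e1]; exact pow_mem hxP p
      have h6 : p ∣ T.card := by
        haveI := Fintype.ofFinite (orbit (P : Subgroup G) x1)
        have hst : ∀ z : orbit (P : Subgroup G) x1, u • (z : G ⧸ (P : Subgroup G)) ∈ orbit (P : Subgroup G) x1 := by
          rintro ⟨z, a, ha'⟩
          exact ⟨⟨u, hu⟩ * a, by
            have h7 : a • x1 = z := ha'
            change (⟨u, hu⟩ * a) • x1 = u • z
            rw [mul_smul, h7]; rfl⟩
        let f : Function.End (orbit (P : Subgroup G) x1) := fun z => ⟨u • (z : G ⧸ (P : Subgroup G)), hst z⟩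
        obtain ⟨b, hb'⟩ := H24.Tools.exists_orderOf P.2 hu
        have hf : f ^ p ^ b = 1 := by
          have h7 : ∀ k : ℕ, ∀ z, (((f ^ k) z : orbit (P : Subgroup G) x1) : G ⧸ (P : Subgroup G)) = u ^ k • (z : G ⧸ (P : Subgroup G)) := by
            intro k
            induction k with
            | zero => intro z; rw [pow_zero, pow_zero, one_smul]; rfl
            | succ k ih =>
              intro z
              rw [pow_succ, pow_succ, mul_smul]
              exact ih (f z)
          funext z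
          apply Subtype.ext
          rw [h7, ← hb', pow_orderOf_eq_one, one_smul]; rfl
        have h7 := Equiv.Perm.card_fixedPoints_modEq hf
        have h8 : Fintype.card f.fixedPoints = T.card := by
          rw [← Fintype.card_coe]
          apply Fintype.card_congr
          exact {
            toFun := fun z => ⟨z.1.1, (hmem _).2 ⟨z.1.2, congrArg Subtype.val z.2⟩⟩
            invFun := fun z => ⟨⟨z.1, ((hmem _).1 z.2).1⟩, Subtype.ext ((hmem _).1 z.2).2⟩
            left_inv := fun z => rfl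
            right_inv := fun z => rfl }
        rw [h8] at h7
        have h9 : p ∣ Fintype.card (orbit (P : Subgroup G) x1) := by
          haveI := Fintype.ofFinite (P : Subgroup G)
          haveI := Fintype.ofFinite (stabilizer (P : Subgroup G) x1)
          have h10 := card_orbit_mul_card_stabilizer_eq_card_group (P : Subgroup G) x1
          obtain ⟨m, hm⟩ := IsPGroup.iff_card.1 P.2
          rw [Nat.card_eq_fintype_card] at hm
          rw [hm] at h10
          obtain ⟨k, -, hk⟩ := (Nat.dvd_prime_pow hp.out).1 (Dvd.intro _ h10)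
          rw [hk]
          apply dvd_pow_self
          rintro rfl
          rw [pow_zero, Fintype.card_eq_one_iff] at hk
          obtain ⟨z, hz⟩ := hk
          have hx1'' := hx1
          rw [hT, Finset.mem_filter, Finset.mem_filter, Finset.mem_filter] at hx1''
          apply hx1''.1.1.2
          intro a
          have h11 := hz ⟨a • x1, ⟨a, rfl⟩⟩
          have h12 := hz ⟨x1, ⟨1, one_smul _ _⟩⟩
          exact congrArg Subtype.val (h11.trans h12.symm)
        exact (Nat.modEq_zero_iff_dvd).1 (h7.symm.trans ((Nat.modEq_zero_iff_dvd).2 h9))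
      rw [h4]
      obtain ⟨c, hc⟩ := h6
      rw [hc, pow_mul, h5, one_pow]
  -- the points fixed by P
  have h3 : ∏ x ∈ Finset.univ.filter (fun x => x ∈ fixedPoints (P : Subgroup G) (G ⧸ (P : Subgroup G))), W x =
      ψ u ^ (Finset.univ.filter (fun x => x ∈ fixedPoints (P : Subgroup G) (G ⧸ (P : Subgroup G)))).card := by
    apply Finset.prod_eq_pow_card
    intro x hx
    rw [Finset.mem_filter] at hx
    have h4 : x.out ∈ normalizer ((P : Subgroup G) : Set G) := by
      have h5 : ∀ a ∈ (P : Subgroup G), x.out⁻¹ * a * x.out ∈ (P : Subgroup G) := fun a ha' =>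
        (smul_eq_iff a x).1 (hx.2 ⟨a, ha'⟩)
      have h6 : x.out⁻¹ ∈ normalizer ((P : Subgroup G) : Set G) := by
        rw [Subgroup.mem_normalizer_iff_map_conj_eq]
        apply H2.Card.eq_of_le_of_card_eq
        · rintro _ ⟨a, ha', rfl⟩
          have := h5 a ha'
          change x.out⁻¹ * a * x.out⁻¹⁻¹ ∈ (P : Subgroup G)
          rwa [inv_inv]
        · exact card_map_of_injective (MulAut.conj x.out⁻¹).injective
      have := inv_mem h6
      rwa [inv_inv] at this
    change ψ (x.out⁻¹ * u * x.out) = ψ u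
    have := hb _ (inv_mem h4) u hu
    rwa [inv_inv] at this
  have h4 : ψ u ^ (Finset.univ.filter (fun x => x ∈ fixedPoints (P : Subgroup G) (G ⧸ (P : Subgroup G)))).card = 1 := by
    have h40 := Finset.prod_filter_mul_prod_filter_not (Finset.univ : Finset (G ⧸ (P : Subgroup G)))
      (fun x => x ∈ fixedPoints (P : Subgroup G) (G ⧸ (P : Subgroup G))) W
    rw [h2, mul_one, h3, ← h1, hV] at h40
    exact h40
  have h5 : Nat.Coprime p (Finset.univ.filter (fun x => x ∈ fixedPoints (P : Subgroup G) (G ⧸ (P : Subgroup G)))).card := by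
    rw [Nat.Prime.coprime_iff_not_dvd hp.out]
    intro h
    have h6 := P.2.card_modEq_card_fixedPoints (G ⧸ (P : Subgroup G))
    have h7 : Nat.card (fixedPoints (P : Subgroup G) (G ⧸ (P : Subgroup G))) =
        (Finset.univ.filter (fun x => x ∈ fixedPoints (P : Subgroup G) (G ⧸ (P : Subgroup G)))).card := by
      rw [Nat.card_eq_fintype_card, Fintype.card_subtype]
    rw [h7] at h6
    have h8 : p ∣ Nat.card (G ⧸ (P : Subgroup G)) :=
      (Nat.modEq_zero_iff_dvd).1 (h6.trans ((Nat.modEq_zero_iff_dvd).2 h))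
    rw [← index_eq_card] at h8
    exact P.not_dvd_index h8
  obtain ⟨b, hb'⟩ := H24.Tools.exists_orderOf P.2 hu
  have h6 : ψ u ^ p ^ b = 1 := by rw [← hpow u hu, ← hb', pow_orderOf_eq_one, hone]
  have h7 := orderOf_dvd_of_pow_eq_one h4
  have h8 := orderOf_dvd_of_pow_eq_one h6
  have h9 := Nat.eq_one_of_dvd_coprimes (h5.pow_left b) h8 h7
  exact orderOf_eq_one_iff.1 h9


/-- Grün's first Theorem: if `P` is a Sylow `p`-subgroup of the finite group `G`, then `P ∩ G'` is the subgroup generated by `P ∩ N_G(P)'` together with the subgroups `P ∩ z P' z⁻¹` for all `z ∈ G`, where `'` denotes the derived subgroup and `N_G(P)` the normalizer of `P`. -/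
theorem result {G : Type*} [Group G] [Finite G] {p : ℕ} [Fact p.Prime] (P : Sylow p G) : (P : Subgroup G) ⊓ commutator G = ((P : Subgroup G) ⊓ ⁅Subgroup.normalizer ((P : Subgroup G) : Set G), Subgroup.normalizer ((P : Subgroup G) : Set G)⁆) ⊔ ⨆ z : G, (P : Subgroup G) ⊓ (⁅(P : Subgroup G), (P : Subgroup G)⁆).map (MulAut.conj z).toMonoidHom := by

  classical
  set S : Subgroup G := ((P : Subgroup G) ⊓ ⁅Subgroup.normalizer ((P : Subgroup G) : Set G), Subgroup.normalizer ((P : Subgroup G) : Set G)⁆) ⊔ ⨆ z : G, (P : Subgroup G) ⊓ (⁅(P : Subgroup G), (P : Subgroup G)⁆).map (MulAut.conj z).toMonoidHom with hS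
  have hSP : S ≤ (P : Subgroup G) := sup_le inf_le_left (iSup_le fun z => inf_le_left)
  have hz : ∀ z : G, (P : Subgroup G) ⊓ (⁅(P : Subgroup G), (P : Subgroup G)⁆).map (MulAut.conj z).toMonoidHom ≤ S :=
    fun z => le_sup_of_le_right (le_iSup (fun z : G => (P : Subgroup G) ⊓ (⁅(P : Subgroup G), (P : Subgroup G)⁆).map (MulAut.conj z).toMonoidHom) z)
  have hPS : ⁅(P : Subgroup G), (P : Subgroup G)⁆ ≤ S := by
    refine le_trans ?_ (hz 1)
    intro c hc
    exact ⟨Subgroup.commutator_le_self _ hc, c, hc, by simp⟩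
  apply le_antisymm
  · haveI hn : (S.subgroupOf (P : Subgroup G)).Normal := by
      constructor
      intro s hs g
      rw [mem_subgroupOf] at hs ⊢
      have h1 : ⁅(g : G), (s : G)⁆ ∈ S := hPS (commutator_mem_commutator g.2 s.2)
      have h2 := mul_mem h1 hs
      have h3 : ⁅(g : G), (s : G)⁆ * s = ((g * s * g⁻¹ : (P : Subgroup G)) : G) := by
        push_cast
        rw [commutatorElement_def]; group
      rwa [h3] at h2
    letI : CommGroup ((P : Subgroup G) ⧸ S.subgroupOf (P : Subgroup G)) :=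
      { (inferInstance : Group ((P : Subgroup G) ⧸ S.subgroupOf (P : Subgroup G))) with
        mul_comm := by
          intro a b
          obtain ⟨a, rfl⟩ := QuotientGroup.mk'_surjective _ a
          obtain ⟨b, rfl⟩ := QuotientGroup.mk'_surjective _ b
          rw [← map_mul, ← map_mul]
          apply QuotientGroup.eq.2
          rw [mem_subgroupOf]
          have h1 : ⁅(b : G)⁻¹, (a : G)⁻¹⁆ ∈ S := hPS (commutator_mem_commutator (inv_mem b.2) (inv_mem a.2))
          have h2 : ⁅(b : G)⁻¹, (a : G)⁻¹⁆ = (((a * b)⁻¹ * (b * a) : (P : Subgroup G)) : G) := by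
            push_cast
            rw [commutatorElement_def]; group
          rwa [h2] at h1 }
    let φ : (P : Subgroup G) →* ((P : Subgroup G) ⧸ S.subgroupOf (P : Subgroup G)) := QuotientGroup.mk' _
    let ψ : G → ((P : Subgroup G) ⧸ S.subgroupOf (P : Subgroup G)) := fun g => if h : g ∈ (P : Subgroup G) then φ ⟨g, h⟩ else 1
    have hψ : ∀ g (h : g ∈ (P : Subgroup G)), ψ g = φ ⟨g, h⟩ := fun g h => dif_pos h
    have hψ0 : ∀ g, g ∉ (P : Subgroup G) → ψ g = 1 := fun g h => dif_neg h
    have hψ1 : ∀ g ∈ (P : Subgroup G), (ψ g = 1 ↔ g ∈ S) := by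
      intro g h
      rw [hψ g h]
      exact (QuotientGroup.eq_one_iff _).trans mem_subgroupOf
    have main : ∀ n : ℕ, ∀ u ∈ (P : Subgroup G), u ∈ commutator G → orderOf u = n → ψ u = 1 := by
      intro n
      induction n using Nat.strong_induction_on with
      | _ n ih =>
      intro u hu huG hun
      refine key P φ ψ hψ hψ0 ?_ ?_ hu huG (fun w hw hwG hlt => ih _ (by rw [← hun]; exact hlt) w hw hwG rfl)
      · intro c hc z hzc
        rw [hψ1 _ hzc]
        exact hz z ⟨hzc, c, hc, rfl⟩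
      · intro n hn' x hx
        have h1 : n * x * n⁻¹ ∈ (P : Subgroup G) := (mem_normalizer_iff.1 hn' x).1 hx
        have h2 : n * x * n⁻¹ * x⁻¹ ∈ S := by
          apply le_sup_left (a := (P : Subgroup G) ⊓ ⁅Subgroup.normalizer ((P : Subgroup G) : Set G), Subgroup.normalizer ((P : Subgroup G) : Set G)⁆)
          exact Subgroup.mem_inf.2 ⟨mul_mem h1 (inv_mem hx), commutator_mem_commutator hn' (le_normalizer hx)⟩
        rw [hψ _ h1, hψ _ hx]
        apply QuotientGroup.eq.2
        rw [mem_subgroupOf]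
        have h3 : ((((⟨n * x * n⁻¹, h1⟩ : (P : Subgroup G))⁻¹ * ⟨x, hx⟩ : (P : Subgroup G))) : G) = x⁻¹ * (n * x * n⁻¹ * x⁻¹)⁻¹ * x := by
          push_cast
          group
        rw [h3]
        have h4 := hn.conj_mem ⟨_, hSP (inv_mem h2)⟩ (mem_subgroupOf.2 (inv_mem h2)) ⟨x⁻¹, inv_mem hx⟩
        rw [mem_subgroupOf] at h4
        have h5 : (((⟨x⁻¹, inv_mem hx⟩ : (P : Subgroup G)) * ⟨_, hSP (inv_mem h2)⟩ * (⟨x⁻¹, inv_mem hx⟩)⁻¹ : (P : Subgroup G)) : G) = x⁻¹ * (n * x * n⁻¹ * x⁻¹)⁻¹ * x := by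
          push_cast
          rw [inv_inv]
        rwa [h5] at h4
    intro u hu
    rw [← hψ1 u hu.1]
    exact main _ u hu.1 hu.2 rfl
  · apply sup_le
    · exact inf_le_inf_left _ (Subgroup.commutator_mono le_top le_top)
    · refine iSup_le fun z => inf_le_inf_left _ ?_
      rintro _ ⟨c, hc, rfl⟩
      exact (inferInstance : (commutator G).Normal).conj_mem c (Subgroup.commutator_mono le_top le_top hc) z


end Cfsg.Agent.S4216
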