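import Cfsg.Statements.S4217
import Mathlib
import Cfsg.Agent.H24_Tools
import Cfsg.Agent.H1_Gaschutz

set_option autoImplicit false
open Cfsg

namespace Cfsg.Agent.S4217

/-- Let `A` be an abelian normal subgroup of the finite group `G`. Then `A` has a complement in `G` if and only if, for every prime `p` dividing the index of `A`, there are a Sylow `p`-subgroup `S` of `G/A` and a subgroup `K` of `G` with `K ∩ A = 1` and `KA` equal to the preimage of `S` (that is, `A` has a complement in the preimage of a Sylow `p`-subgroup of `G/A`). -/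
theorem result {G : Type*} [Group G] [Finite G] (A : Subgroup G) [A.Normal] (hA : IsMulCommutative A) : (∃ K : Subgroup G, K.IsComplement' A) ↔ ∀ p : ℕ, p.Prime → p ∣ A.index → ∃ (S : Sylow p (G ⧸ A)) (K : Subgroup G), K ⊓ A = ⊥ ∧ K ⊔ A = (S : Subgroup (G ⧸ A)).comap (QuotientGroup.mk' A) := by
  classical
  constructor
  · rintro ⟨K, hK⟩ p hp hpd
    have hpf : Fact p.Prime := ⟨hp⟩
    obtain ⟨S⟩ : Nonempty (Sylow p (G ⧸ A)) := inferInstance
    refine ⟨S, K ⊓ (S : Subgroup (G ⧸ A)).comap (QuotientGroup.mk' A), ?_, ?_⟩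
    · rw [eq_bot_iff, ← hK.disjoint.eq_bot]
      exact inf_le_inf_right _ inf_le_left
    · have hAS : A ≤ (S : Subgroup (G ⧸ A)).comap (QuotientGroup.mk' A) := by
        intro a ha
        rw [Subgroup.mem_comap, (QuotientGroup.eq_one_iff a).mpr ha |> fun h => (show QuotientGroup.mk' A a = 1 from h)]
        exact Subgroup.one_mem _
      apply le_antisymm
      · exact sup_le inf_le_right hAS
      · intro x hx
        have hx' : x ∈ A ⊔ K := by rw [sup_comm, hK.sup_eq_top]; trivial
        rw [Subgroup.mem_sup_of_normal_left] at hx'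
        obtain ⟨a, ha, k, hk, rfl⟩ := hx'
        refine Subgroup.mul_mem _ (Subgroup.mem_sup_right ha) (Subgroup.mem_sup_left ?_)
        refine Subgroup.mem_inf.mpr ⟨hk, ?_⟩
        have := Subgroup.mul_mem _ (Subgroup.inv_mem _ (hAS ha)) hx
        rwa [inv_mul_cancel_left] at this
  · intro h
    have hab : ∀ a ∈ A, ∀ b ∈ A, a * b = b * a := fun a ha b hb => by
      have := hA.is_comm.comm ⟨a, ha⟩ ⟨b, hb⟩
      simpa [Subtype.ext_iff] using this
    set N := Nat.card A with hN
    have hNpos : 0 < N := Nat.card_pos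
    -- the p'-part of A
    let D : ℕ → Subgroup G := fun p =>
      { carrier := {a | a ∈ A ∧ a ^ (ordCompl[p] N) = 1}
        one_mem' := ⟨A.one_mem, one_pow _⟩
        mul_mem' := fun {a b} ha hb => ⟨A.mul_mem ha.1 hb.1, by
          rw [(show Commute a b from hab a ha.1 b hb.1).mul_pow, ha.2, hb.2, one_mul]⟩
        inv_mem' := fun {a} ha => ⟨A.inv_mem ha.1, by rw [inv_pow, ha.2, inv_one]⟩ }
    have hDA : ∀ p, D p ≤ A := fun p a ha => ha.1
    have hDn : ∀ p, (D p).Normal := fun p => ⟨fun a ha g => ⟨Subgroup.Normal.conj_mem inferInstance a ha.1 g, by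
      rw [conj_pow, ha.2]; group⟩⟩
    have key : ∀ p : ℕ, p ∈ N.primeFactors → ∃ L : Subgroup G, L ⊓ A ≤ D p ∧ L.index ≤ ordProj[p] N := by
      intro p hpm
      have hp : p.Prime := Nat.prime_of_mem_primeFactors hpm
      have hpf : Fact p.Prime := ⟨hp⟩
      have := hDn p
      let f := QuotientGroup.mk' (D p)
      have hf : Function.Surjective f := QuotientGroup.mk'_surjective _
      set B : Subgroup (G ⧸ D p) := A.map f with hB
      have hBn : B.Normal := (inferInstance : A.Normal).map f hf
      have hBc : IsMulCommutative B := by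
        refine ⟨⟨?_⟩⟩
        rintro ⟨_, a, ha, rfl⟩ ⟨_, b, hb, rfl⟩
        apply Subtype.ext
        change f a * f b = f b * f a
        rw [← map_mul, ← map_mul, hab a ha b hb]
      have hBp : IsPGroup p B := by
        rintro ⟨_, a, ha, rfl⟩
        refine ⟨N.factorization p, ?_⟩
        apply Subtype.ext
        change (f a) ^ p ^ (N.factorization p) = 1
        rw [← map_pow]
        change QuotientGroup.mk' (D p) (a ^ p ^ (N.factorization p)) = 1
        rw [← MonoidHom.mem_ker, QuotientGroup.ker_mk']
        refine ⟨A.pow_mem ha _, ?_⟩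
        rw [← pow_mul, Nat.ordProj_mul_ordCompl_eq_self]
        have := pow_card_eq_one' (x := (⟨a, ha⟩ : A))
        exact congrArg Subtype.val this
      obtain ⟨j, hj⟩ := (IsPGroup.iff_card).mp hBp
      have hjN : p ^ j ≤ ordProj[p] N := by
        have h1 : p ^ j ∣ N := by rw [← hj]; exact Subgroup.card_map_dvd _ _
        have h2 := (hp.pow_dvd_iff_le_factorization hNpos.ne').mp h1
        exact Nat.pow_le_pow_right hp.pos h2
      -- B has a complement
      have hcomp : ∃ H : Subgroup (G ⧸ D p), Subgroup.IsComplement' B H := by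
        by_cases hpi : p ∣ A.index
        · obtain ⟨S, K, hK1, hK2⟩ := h p hp hpi
          set U := (S : Subgroup (G ⧸ A)).comap (QuotientGroup.mk' A) with hU
          have hKU : K ≤ U := by rw [← hK2]; exact le_sup_left
          have hAU : A ≤ U := by rw [← hK2]; exact le_sup_right
          have hUi : (U.map f).index = U.index := by
            apply Subgroup.index_map_eq _ hf
            rw [QuotientGroup.ker_mk']
            exact (hDA p).trans hAU
          have hUi2 : U.index = (S : Subgroup (G ⧸ A)).index :=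
            Subgroup.index_comap_of_surjective _ (QuotientGroup.mk'_surjective A)
          apply Cfsg.Agent.H1.Gaschutz.gaschutz_exists B (U.map f) (Subgroup.map_mono hAU) ?_ (K.map f)
            (Subgroup.map_mono hKU) ?_ ?_
          · rw [hj, hUi, hUi2]
            exact Nat.Coprime.pow_left _ ((hp.coprime_iff_not_dvd).mpr S.not_dvd_index)
          · rw [eq_bot_iff]
            intro x hx
            rw [Subgroup.mem_inf] at hx
            obtain ⟨⟨k, hk, rfl⟩, ⟨a, ha, hak⟩⟩ := hx
            have h1 : k⁻¹ * a ∈ D p := by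
              rw [← QuotientGroup.eq]; exact hak.symm
            have h2 : k ∈ A := by
              have := A.mul_mem ha (A.inv_mem (hDA p h1))
              have e : a * (k⁻¹ * a)⁻¹ = k := by group
              rwa [e] at this
            have h3 : k ∈ K ⊓ A := Subgroup.mem_inf.mpr ⟨hk, h2⟩
            rw [hK1, Subgroup.mem_bot] at h3
            rw [Subgroup.mem_bot, h3, map_one]
          · rw [hB, ← Subgroup.map_sup, sup_comm, hK2]
        · apply Cfsg.Agent.H1.Gaschutz.gaschutz_exists B B le_rfl ?_ ⊥ bot_le (by simp) (by simp)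
          have hBi : B.index = A.index := by
            apply Subgroup.index_map_eq _ hf
            rw [QuotientGroup.ker_mk']
            exact hDA p
          rw [hj, hBi]
          exact Nat.Coprime.pow_left _ ((hp.coprime_iff_not_dvd).mpr hpi)
      obtain ⟨H, hH⟩ := hcomp
      refine ⟨H.comap f, ?_, ?_⟩
      · intro x hx
        rw [Subgroup.mem_inf, Subgroup.mem_comap] at hx
        have h1 : f x ∈ B ⊓ H := Subgroup.mem_inf.mpr ⟨⟨x, hx.2, rfl⟩, hx.1⟩
        rw [hH.disjoint.eq_bot, Subgroup.mem_bot, ← MonoidHom.mem_ker, QuotientGroup.ker_mk'] at h1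
        exact h1
      · rw [Subgroup.index_comap_of_surjective _ hf, hH.index_eq_card, hj]
        exact hjN
    choose! L hL1 hL2 using key
    let K : Subgroup G := ⨅ p : N.primeFactors, L p
    have hKA : K ⊓ A = ⊥ := by
      rw [eq_bot_iff]
      intro x hx
      rw [Subgroup.mem_inf] at hx
      rw [Subgroup.mem_bot]
      by_contra hne
      have h1 : orderOf x ≠ 1 := fun h => hne (orderOf_eq_one_iff.mp h)
      obtain ⟨q, hq, hqd⟩ := Nat.exists_prime_and_dvd h1
      have hxN : orderOf x ∣ N := by
        have := orderOf_dvd_natCard (⟨x, hx.2⟩ : A)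
        rwa [← Subgroup.orderOf_coe] at this
      have hqN : q ∈ N.primeFactors := Nat.mem_primeFactors.mpr ⟨hq, hqd.trans hxN, hNpos.ne'⟩
      have h2 : x ∈ L q := (Subgroup.mem_iInf.mp hx.1) ⟨q, hqN⟩
      have h3 : x ∈ D q := hL1 q hqN (Subgroup.mem_inf.mpr ⟨h2, hx.2⟩)
      have h4 := orderOf_dvd_of_pow_eq_one h3.2
      exact Nat.not_dvd_ordCompl hq hNpos.ne' (hqd.trans h4)
    have hKi : K.index ≤ N := by
      refine (Subgroup.index_iInf_le _).trans ?_
      calc ∏ p : N.primeFactors, (L p).index ≤ ∏ p : N.primeFactors, ordProj[(p : ℕ)] N :=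
            Finset.prod_le_prod' (fun p _ => hL2 p p.2)
        _ = ∏ p ∈ N.primeFactors, p ^ N.factorization p := Finset.prod_coe_sort N.primeFactors (fun p => p ^ N.factorization p)
        _ = N := Nat.prod_factorization_pow_eq_self hNpos.ne'
    refine ⟨K, ?_⟩
    have hcard : Nat.card K * Nat.card A = Nat.card G := by
      apply le_antisymm
      · have hinj : Function.Injective (fun x : K × A => (x.1 : G) * x.2) := by
          rintro ⟨a, b⟩ ⟨c, d⟩ hh
          simp only at hh
          have h1 : (c : G)⁻¹ * a = d * (b : G)⁻¹ := by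
            rw [inv_mul_eq_iff_eq_mul, ← mul_assoc, ← hh, mul_inv_cancel_right]
          have h2 : (c : G)⁻¹ * a ∈ K ⊓ A := Subgroup.mem_inf.mpr ⟨K.mul_mem (K.inv_mem c.2) a.2, by
            rw [h1]; exact A.mul_mem d.2 (A.inv_mem b.2)⟩
          rw [hKA, Subgroup.mem_bot] at h2
          rw [h2] at h1
          refine Prod.ext (Subtype.ext ?_) (Subtype.ext ?_)
          · exact (inv_mul_eq_one.mp h2).symm
          · exact (mul_inv_eq_one.mp h1.symm).symm
        have := Nat.card_le_card_of_injective _ hinj
        rwa [Nat.card_prod] at this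
      · rw [← K.card_mul_index]
        exact Nat.mul_le_mul_left _ hKi
    exact Subgroup.isComplement'_of_card_mul_and_disjoint hcard (disjoint_iff.mpr hKA)

end Cfsg.Agent.S4217
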