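import Cfsg.Statements.S4218
import Cfsg.Agent.H22_PSolv
import Cfsg.Agent.H22_Coprime3
import Cfsg.Agent.H11_Cores
import Cfsg.Agent.H13_Opp
import Cfsg.Agent.H23_Basic
import Cfsg.Agent.H24_Tools


set_option autoImplicit false
open Cfsg

namespace Cfsg.Agent.S4218

open Subgroup Cfsg
open scoped commutatorElement

universe u

theorem mem_frattini_equiv {A B : Type u} [Group A] [Group B] (e : A ≃* B) (x : A) : x ∈ frattini A ↔ e x ∈ frattini B := by
  rw [H1.Nilp.mem_frattini_iff, H1.Nilp.mem_frattini_iff]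
  constructor
  · intro h M hM
    have h1 : IsCoatom (M.comap e.toMonoidHom) := by
      have := (e.comapSubgroup.isCoatom_iff M).2 hM
      exact this
    exact h _ h1
  · intro h M hM
    have h1 : IsCoatom (M.map e.toMonoidHom) := by
      have := (e.mapSubgroup.isCoatom_iff M).2 hM
      exact this
    obtain ⟨y, hy, hyx⟩ := h _ h1
    have : y = x := e.injective hyx
    rw [← this]; exact hy

variable {G : Type u} [Group G] [Finite G] {p : ℕ} [hp : Fact p.Prime]

/-- elements acting trivially on the Frattini quotient of `O_p` -/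
theorem mem_of_trivial (hG : IsPSolvable p G) (h1 : pPrimeCore p G = ⊥) {y : G}
    (hy : ∀ v ∈ pCore p G, y * v * y⁻¹ * v⁻¹ ∈ (frattini (pCore p G)).map (pCore p G).subtype) : y ∈ pCore p G := by
  haveI hPn : (pCore p G).Normal := H1.Nilp.pCore_normal (G := G) p
  set Φ := (frattini (pCore p G)).map (pCore p G).subtype with hΦ
  haveI hΦn : Φ.Normal := inferInstance
  have hΦP : Φ ≤ pCore p G := map_subtype_le _
  let D : Subgroup G :=
    { carrier := {y | ∀ v ∈ pCore p G, y * v * y⁻¹ * v⁻¹ ∈ Φ}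
      one_mem' := by intro v _; simp
      mul_mem' := by
        intro a b ha hb v hv
        have e : a * b * v * (a * b)⁻¹ * v⁻¹ = (a * (b * v * b⁻¹ * v⁻¹) * a⁻¹) * (a * v * a⁻¹ * v⁻¹) := by group
        rw [e]
        exact mul_mem (hΦn.conj_mem _ (hb v hv) a) (ha v hv)
      inv_mem' := by
        intro a ha v hv
        have e : a⁻¹ * v * a⁻¹⁻¹ * v⁻¹ = (a⁻¹ * (a * v * a⁻¹ * v⁻¹) * a⁻¹⁻¹)⁻¹ := by group
        rw [e]
        exact inv_mem (hΦn.conj_mem _ (ha v hv) a⁻¹) }
  have hDn : D.Normal := by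
    constructor
    intro a ha g v hv
    have h2 := ha (g⁻¹ * v * g) (by
      have := hPn.conj_mem v hv g⁻¹
      rwa [inv_inv] at this)
    have h3 := hΦn.conj_mem _ h2 g
    have e : g * (a * (g⁻¹ * v * g) * a⁻¹ * (g⁻¹ * v * g)⁻¹) * g⁻¹ = g * a * g⁻¹ * v * (g * a * g⁻¹)⁻¹ * v⁻¹ := by group
    rwa [e] at h3
  have hDp : IsPGroup p D := by
    have hP := H1.Nilp.pCore_isPGroup (G := G) p
    rw [IsPGroup.iff_card]
    have hq : ∀ q : ℕ, q.Prime → q ∣ Nat.card D → q = p := by
      intro q hq hqd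
      by_contra hqp
      haveI : Fact q.Prime := ⟨hq⟩
      obtain ⟨⟨y, hyD⟩, hyo⟩ := exists_prime_orderOf_dvd_card' q hqd
      rw [← orderOf_coe] at hyo
      change orderOf y = q at hyo
      have h2 : y ∈ centralizer (pCore p G : Set G) := by
        apply H1.Coprime.trivial_on_frattini_quotient (zpowers y) (pCore p G) (by rw [normalizer_eq_top_iff.2 hPn]; exact le_top) ?_ ?_ (mem_zpowers y)
        · obtain ⟨m, hm⟩ := IsPGroup.iff_card.1 (hP.to_subgroup (frattini (pCore p G)))
          rw [hm, Nat.card_zpowers, hyo]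
          exact Nat.Coprime.pow_right _ ((Nat.coprime_primes hq hp.out).2 hqp)
        · intro a ha k hk
          exact ((zpowers_le.2 hyD) ha : a ∈ D) k hk
      have h3 := H22.PSolv.centralizer_pCore_le hG h1 h2
      obtain ⟨l, hl⟩ := IsPGroup.iff_orderOf.1 hP ⟨y, h3⟩
      rw [← orderOf_coe] at hl
      change orderOf y = p ^ l at hl
      rw [hyo] at hl
      exact hqp ((Nat.prime_dvd_prime_iff_eq hq hp.out).1 (hq.dvd_of_dvd_pow (Dvd.intro 1 (by rw [mul_one]; exact hl))))
    exact ⟨_, Nat.eq_prime_pow_of_unique_prime_dvd Nat.card_pos.ne' (fun {q} h3 h4 => hq q h3 h4)⟩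
  exact H1.Nilp.le_pCore hDn hDp (show y ∈ D from hy)


/-- Let `G` be a finite `p`-solvable group, `N₀ = O_{p'}(G)`, `P₁ = O_{p',p}(G)`, and let `F ≤ P₁` be the preimage of the Frattini subgroup of `P₁/N₀`. Then an element `g` of `G` induces the identity on `P₁/F` by conjugation (that is, `g x g⁻¹ x⁻¹ ∈ F` for all `x ∈ P₁`) if and only if `g ∈ P₁`: the group `G/P₁` acts faithfully on `P₁/F`. -/
theorem result {G : Type*} [Group G] [Finite G] {p : ℕ} [Fact p.Prime] (hG : Cfsg.IsPSolvable p G) (g : G) : (∀ x ∈ Cfsg.pPrimePCore p G, g * x * g⁻¹ * x⁻¹ ∈ ((frattini (↥(Cfsg.pPrimePCore p G) ⧸ (Cfsg.pPrimeCore p G).subgroupOf (Cfsg.pPrimePCore p G))).comap (QuotientGroup.mk' ((Cfsg.pPrimeCore p G).subgroupOf (Cfsg.pPrimePCore p G)))).map (Cfsg.pPrimePCore p G).subtype) ↔ g ∈ Cfsg.pPrimePCore p G := by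

  haveI hNn : (pPrimeCore p G).Normal := H1.Nilp.pPrimeCore_normal (G := G) p
  haveI hPn : (pPrimePCore p G).Normal := H13.Opp.pPrimePCore_normal
  set N := pPrimeCore p G with hN
  set P := pPrimePCore p G with hP
  -- the map P → O_p(G/N)
  let φ : P →* pCore p (G ⧸ N) := ((QuotientGroup.mk' N).comp P.subtype).codRestrict (pCore p (G ⧸ N)) (fun x => x.2)
  have hφ : ∀ x : P, ((φ x : pCore p (G ⧸ N)) : G ⧸ N) = QuotientGroup.mk' N x := fun x => rfl
  have hφs : Function.Surjective φ := by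
    rintro ⟨y, hy⟩
    obtain ⟨x, rfl⟩ := QuotientGroup.mk'_surjective N y
    exact ⟨⟨x, hy⟩, Subtype.ext rfl⟩
  have hker : φ.ker = N.subgroupOf P := by
    ext x
    rw [MonoidHom.mem_ker, mem_subgroupOf]
    constructor
    · intro h
      exact (QuotientGroup.eq_one_iff (x : G)).1 (congrArg Subtype.val h)
    · intro h
      exact Subtype.ext ((QuotientGroup.eq_one_iff (x : G)).2 h)
  let e : (P ⧸ N.subgroupOf P) ≃* pCore p (G ⧸ N) :=
    (QuotientGroup.quotientMulEquivOfEq hker.symm).trans (QuotientGroup.quotientKerEquivOfSurjective φ hφs)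
  have he : ∀ x : P, e (QuotientGroup.mk' (N.subgroupOf P) x) = φ x := fun x => rfl
  have hF : ∀ x : G, x ∈ ((frattini (P ⧸ N.subgroupOf P)).comap (QuotientGroup.mk' (N.subgroupOf P))).map P.subtype ↔
      QuotientGroup.mk' N x ∈ (frattini (pCore p (G ⧸ N))).map (pCore p (G ⧸ N)).subtype := by
    intro x
    constructor
    · rintro ⟨y, hy, rfl⟩
      refine ⟨φ y, ?_, rfl⟩
      rw [SetLike.mem_coe, ← he, ← mem_frattini_equiv e]
      exact hy
    · rintro ⟨y, hy, hyx⟩
      have hxP : x ∈ P := by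
        change QuotientGroup.mk' N x ∈ pCore p (G ⧸ N)
        rw [← hyx]; exact y.2
      refine ⟨⟨x, hxP⟩, ?_, rfl⟩
      rw [SetLike.mem_coe, mem_comap, mem_frattini_equiv e, he]
      have : φ ⟨x, hxP⟩ = y := Subtype.ext hyx.symm
      rw [this]; exact hy
  constructor
  · intro h
    have h1 : QuotientGroup.mk' N g ∈ pCore p (G ⧸ N) := by
      apply mem_of_trivial (H22.PSolv.isPSolvable_quotient N hG) (H11.Cores.pPrimeCore_quotient p)
      intro v hv
      obtain ⟨x, rfl⟩ := QuotientGroup.mk'_surjective N v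
      have h2 := (hF _).1 (h x hv)
      rw [map_mul, map_mul, map_mul, map_inv, map_inv] at h2
      exact h2
    exact h1
  · intro hg x hx
    rw [hF, map_mul, map_mul, map_mul, map_inv, map_inv]
    apply H22.Coprime3.commutator_le_map_frattini (H1.Nilp.pCore_isPGroup (G := G ⧸ N) p)
    exact commutator_mem_commutator hg hx


end Cfsg.Agent.S4218
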