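import Cfsg.Statements.S4222
import Mathlib

set_option autoImplicit false
open Cfsg

namespace Cfsg.Agent.S4222

/-- If a normal subgroup `N` of a finite group is complete (its centre is trivial and every automorphism of `N` is inner), then the group is the internal direct product of `N` and the centralizer of `N`: the centralizer is a complement to `N`. -/
theorem result {T : Type*} [Group T] [Finite T] (N : Subgroup T) [N.Normal] (hz : Subgroup.center ↥N = ⊥) (ha : Function.Surjective (MulAut.conj : ↥N →* MulAut ↥N)) : (Subgroup.centralizer (N : Set T)).IsComplement' N := by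
  apply Subgroup.isComplement'_of_disjoint_and_mul_eq_univ
  · rw [Subgroup.disjoint_def]
    intro x hx hxN
    have h1 : (⟨x, hxN⟩ : N) ∈ Subgroup.center N := by
      rw [Subgroup.mem_center_iff]
      intro g
      apply Subtype.ext
      exact (Subgroup.mem_centralizer_iff.mp hx) g g.2
    rw [hz, Subgroup.mem_bot] at h1
    exact congrArg Subtype.val h1
  · rw [Set.eq_univ_iff_forall]
    intro t
    obtain ⟨n, hn⟩ := ha (MulAut.conjNormal t)
    rw [Set.mem_mul]
    refine ⟨t * (n : T)⁻¹, ?_, n, n.2, by group⟩
    rw [SetLike.mem_coe, Subgroup.mem_centralizer_iff]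
    intro m hm
    -- conjugation by t and by n agree on N
    have h1 : ∀ k : N, t * (k : T) * t⁻¹ = n * k * (n : T)⁻¹ := by
      intro k
      have := congrArg (fun f : MulAut N => ((f k : N) : T)) hn
      simp only [MulAut.conj_apply, Subgroup.coe_mul, Subgroup.coe_inv, MulAut.conjNormal_apply] at this
      exact this.symm
    have hm' : (n : T)⁻¹ * m * n ∈ N := N.mul_mem (N.mul_mem (N.inv_mem n.2) hm) n.2
    have h2 := h1 ⟨(n : T)⁻¹ * m * n, hm'⟩
    simp only at h2
    have h3 : t * ((n : T)⁻¹ * m * n) * t⁻¹ = m := by rw [h2]; group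
    calc m * (t * (n : T)⁻¹) = (t * ((n : T)⁻¹ * m * n) * t⁻¹) * (t * (n : T)⁻¹) := by rw [h3]
      _ = t * (n : T)⁻¹ * m := by group

end Cfsg.Agent.S4222
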