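import Cfsg.Statements.S4276
import Mathlib
import Cfsg.Agent.H24_TwoTrans

set_option autoImplicit false
open Cfsg

namespace Cfsg.Agent.S4276

/-- Let G be a doubly transitive group of permutations of a finite set Ω of size n, let o ∈ Ω, and let α be an automorphism of G of odd order. Suppose that the image under α of the stabilizer of o has an orbit on Ω whose length k is coprime to n. Then α is induced by conjugation by a permutation of Ω normalizing G, and k = 1 or k = n − 1. -/
theorem result {Ω : Type*} [Fintype Ω] (G : Subgroup (Equiv.Perm Ω)) (h2 : MulAction.IsMultiplyPretransitive G Ω 2) (o : Ω) (α : MulAut G) (hα : Odd (orderOf α)) (ω : Ω) (hk : (Nat.card (MulAction.orbit ((MulAction.stabilizer G o).map α.toMonoidHom) ω)).Coprime (Fintype.card Ω)) : (∃ σ : Equiv.Perm Ω, σ ∈ Subgroup.normalizer (G : Set (Equiv.Perm Ω)) ∧ ∀ g : G, ((α g : G) : Equiv.Perm Ω) = σ * (g : Equiv.Perm Ω) * σ⁻¹) ∧ (Nat.card (MulAction.orbit ((MulAction.stabilizer G o).map α.toMonoidHom) ω) = 1 ∨ Nat.card (MulAction.orbit ((MulAction.stabilizer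 G o).map α.toMonoidHom) ω) = Fintype.card Ω - 1) := by
  classical
  set H' := (MulAction.stabilizer G o).map α.toMonoidHom with hH'
  have hcard : Nat.card (MulAction.orbit H' ω) = (MulAction.orbit H' ω).toFinset.card := by
    rw [Nat.card_eq_fintype_card, Set.toFinset_card]
  have hmem : ∀ g : G, g • o = o → α g ∈ H' := fun g hg => ⟨g, hg, rfl⟩
  have hΔ : ∀ g : G, g • o = o → ∀ x, x ∈ (MulAction.orbit H' ω).toFinset ↔ α g • x ∈ (MulAction.orbit H' ω).toFinset := by
    intro g hg x
    rw [Set.mem_toFinset, Set.mem_toFinset]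
    have h1 : α g • x = (⟨α g, hmem g hg⟩ : H') • x := rfl
    rw [h1]
    constructor
    · rintro ⟨k, rfl⟩
      exact ⟨(⟨α g, hmem g hg⟩ : H') * k, mul_smul _ _ _⟩
    · rintro ⟨k, hk⟩
      refine ⟨(⟨α g, hmem g hg⟩ : H')⁻¹ * k, ?_⟩
      simp only at hk
      simp only [mul_smul]
      rw [hk, inv_smul_smul]
  have hcardle : 1 ≤ Fintype.card Ω := Fintype.card_pos_iff.mpr ⟨o⟩
  have hconc : Nat.card (MulAction.orbit H' ω) = 1 ∨ Nat.card (MulAction.orbit H' ω) = Fintype.card Ω - 1 := by
    rcases Nat.lt_or_ge (Fintype.card Ω) 2 with h | h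
    · left
      have h1 : Fintype.card Ω = 1 := by omega
      have h2 : (MulAction.orbit H' ω).toFinset.card ≤ 1 := by rw [← h1]; exact Finset.card_le_univ _
      have h3 : 0 < (MulAction.orbit H' ω).toFinset.card := Finset.card_pos.mpr ⟨ω, by
        rw [Set.mem_toFinset]; exact MulAction.mem_orbit_self ω⟩
      rw [hcard]; omega
    · rw [hcard] at hk ⊢
      exact Cfsg.Agent.H24.TwoTrans.main G h2 o α hα _ hΔ ⟨ω, by
        rw [Set.mem_toFinset]; exact MulAction.mem_orbit_self ω⟩ hk h
  refine ⟨?_, hconc⟩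
  have htr : MulAction.IsPretransitive G Ω := by
    rcases Nat.lt_or_ge (Fintype.card Ω) 2 with h | h
    · have h1 : Fintype.card Ω ≤ 1 := by omega
      have := Fintype.card_le_one_iff_subsingleton.mp h1
      exact ⟨fun x y => ⟨1, Subsingleton.elim _ _⟩⟩
    · have : MulAction.IsMultiplyPretransitive G Ω 1 := by
        apply MulAction.isMultiplyPretransitive_of_le' (n := 2) (m := 1) (by norm_num)
        simp only [Nat.cast_ofNat, ENat.card_eq_coe_fintype_card]
        exact_mod_cast h
      exact MulAction.is_one_pretransitive_iff.mp this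
  apply (Cfsg.Agent.S4275.result G htr o α).mpr
  rcases hconc with h | h
  · refine ⟨ω, ?_⟩
    intro g hg
    have hsub : (MulAction.orbit H' ω).Subsingleton := by
      rw [Nat.card_eq_one_iff_unique] at h
      have := h.1
      exact Set.subsingleton_coe _ |>.mp this
    have h1 : (⟨g, hg⟩ : H') • ω ∈ MulAction.orbit H' ω := MulAction.mem_orbit _ _
    exact hsub h1 (MulAction.mem_orbit_self ω)
  · -- the complement is a single point
    have hc : ((MulAction.orbit H' ω).toFinset)ᶜ.card = 1 := by
      rw [Finset.card_compl, ← hcard, h]; omega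
    obtain ⟨z, hz⟩ := Finset.card_eq_one.mp hc
    refine ⟨z, fun g hg => ?_⟩
    have hz1 : z ∉ (MulAction.orbit H' ω).toFinset := by
      rw [← Finset.mem_compl, hz]; exact Finset.mem_singleton_self z
    have hz2 : g • z ∉ (MulAction.orbit H' ω).toFinset := by
      obtain ⟨g', hg', rfl⟩ := hg
      intro h3
      exact hz1 ((hΔ g' hg' z).mpr h3)
    rw [← Finset.mem_compl, hz] at hz2
    exact Finset.mem_singleton.mp hz2

end Cfsg.Agent.S4276
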