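import Cfsg.Statements.S4277
import Cfsg.Agent.H19_PrimeIdx
import Cfsg.Agent.S0675

set_option autoImplicit false
open Cfsg

namespace Cfsg.Agent.S4277

open Cfsg.Agent.H19.PrimeIdx

theorem not_dvd {p : ℕ} (hp : p.Prime) : ¬ p * p ∣ p.factorial := by
  intro h
  have h1 : p.factorial = p * (p - 1).factorial := (Nat.mul_factorial_pred hp.ne_zero).symm
  rw [h1] at h
  have h2 : p ∣ (p - 1).factorial := Nat.dvd_of_mul_dvd_mul_left hp.pos h
  have h3 := (Nat.Prime.dvd_factorial hp).1 h2
  have := hp.pos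
  omega

/-- a subgroup `N` whose commutators lie in a commutative `C` is solvable -/
theorem solv {A : Type*} [Group A] (N C : Subgroup A) (hN : ∀ a ∈ N, ∀ b ∈ N, a * b * a⁻¹ * b⁻¹ ∈ C)
    (hC : ∀ a ∈ C, ∀ b ∈ C, a * b = b * a) : Group.IsSolvable N := by
  refine ⟨2, ?_⟩
  have h1 : derivedSeries N 1 ≤ C.subgroupOf N := by
    rw [derivedSeries_succ, Subgroup.commutator_le]
    intro a _ b _
    rw [Subgroup.mem_subgroupOf]
    exact hN a a.2 b b.2
  rw [eq_bot_iff, derivedSeries_succ, Subgroup.commutator_le]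
  intro a ha b hb
  have ha' := h1 ha
  have hb' := h1 hb
  rw [Subgroup.mem_subgroupOf] at ha' hb'
  rw [Subgroup.mem_bot, commutatorElement_eq_one_iff_mul_comm]
  exact Subtype.ext (hC _ ha' _ hb')

theorem comm_case {G : Type*} [Group G] [Finite G] [IsSimpleGroup G] (h : ∀ a b : G, a * b = b * a) :
    Group.IsSolvable (MulAut G) := by
  letI : CommGroup G := { (inferInstance : Group G) with mul_comm := h }
  haveI : IsCyclic G := inferInstance
  let e := IsCyclic.mulAutMulEquiv G
  exact Group.isSolvable_of_isSolvable_injective (f := e.toMonoidHom) e.injective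

theorem act {G Ω : Type*} [Group G] [Finite G] [Fintype Ω] [MulAction G Ω] (hp : (Nat.card Ω).Prime)
    (hf : ∀ g : G, (∀ x : Ω, g • x = x) → g = 1) (ht : ∀ x y : Ω, ∃ g : G, g • x = y)
    (h2 : ∀ x y x' y' : Ω, x ≠ y → x' ≠ y' → ∃ g : G, g • x = x' ∧ g • y = y') :
    ∃ N : Subgroup (MulAut G), Group.IsSolvable N ∧ ∀ α : MulAut G, ∃ g : G, MulAut.conj g * α ∈ N := by
  classical
  set p := Nat.card Ω with hpdef
  haveI : Fact p.Prime := ⟨hp⟩
  haveI : Nontrivial Ω := by
    rw [← Finite.one_lt_card_iff_nontrivial]; exact hp.one_lt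
  have hG : Nat.card G ∣ p.factorial := by
    have hinj : Function.Injective (MulAction.toPermHom G Ω) := by
      rw [injective_iff_map_eq_one]
      intro g hg
      apply hf
      intro x
      have := congrArg (fun σ : Equiv.Perm Ω => σ x) hg
      exact this
    have h1 := Subgroup.card_dvd_of_injective _ hinj
    rw [Nat.card_perm] at h1
    exact h1
  have hpp : ¬ Nat.card Ω * Nat.card Ω ∣ Nat.card G := fun h => not_dvd hp (h.trans hG)
  obtain ⟨x0⟩ := (inferInstance : Nonempty Ω)
  have hpd : p ∣ Nat.card G := by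
    haveI : MulAction.IsPretransitive G Ω := ⟨ht⟩
    have h3 : (MulAction.stabilizer G x0).index = Nat.card Ω := MulAction.index_stabilizer_of_transitive G _
    rw [hpdef, ← h3]
    exact Subgroup.index_dvd_card _
  obtain ⟨a, ha⟩ := exists_prime_orderOf_dvd_card' p hpd
  have ha1 : a ≠ 1 := by
    rintro rfl; rw [orderOf_one] at ha; exact hp.one_lt.ne ha
  set P := Subgroup.zpowers a with hP
  have hPcard : Nat.card P = p := by rw [hP, Nat.card_zpowers, ha]
  have hPc : ∀ x ∈ P, ∀ y ∈ P, x * y = y * x := by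
    rintro _ ⟨i, rfl⟩ _ ⟨j, rfl⟩
    show a ^ i * a ^ j = a ^ j * a ^ i
    rw [← zpow_add, ← zpow_add, add_comm]
  have hPt : ∀ x y : Ω, ∃ g ∈ P, g • x = y := by
    obtain ⟨x, hx⟩ : ∃ x : Ω, a • x ≠ x := by
      by_contra h
      push Not at h
      exact ha1 (hf a h)
    have h3 : Nat.card (MulAction.orbit P x) ∣ p := by
      rw [← hPcard, Nat.card_coe_set_eq, ← MulAction.index_stabilizer]
      exact Subgroup.index_dvd_card _
    have h4 : Nat.card (MulAction.orbit P x) = p := by
      rcases (Nat.dvd_prime hp).1 h3 with h | h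
      · exfalso
        apply hx
        have h5 : Subsingleton (MulAction.orbit P x) := (Nat.card_eq_one_iff_unique.1 h).1
        have h6 := h5.elim ⟨a • x, ⟨⟨a, Subgroup.mem_zpowers a⟩, rfl⟩⟩ ⟨x, MulAction.mem_orbit_self x⟩
        exact congrArg Subtype.val h6
      · exact h
    have h5 : MulAction.orbit P x = Set.univ := by
      apply Set.eq_of_subset_of_ncard_le (Set.subset_univ _)
      rw [Set.ncard_univ, ← Nat.card_coe_set_eq, h4]
    have h6 : ∀ y : Ω, ∃ g ∈ P, g • x = y := by
      intro y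
      have : y ∈ MulAction.orbit P x := by rw [h5]; trivial
      obtain ⟨g, hg⟩ := this
      exact ⟨g, g.2, hg⟩
    intro y z
    obtain ⟨g, hg, rfl⟩ := h6 y
    obtain ⟨k, hk, rfl⟩ := h6 z
    exact ⟨k * g⁻¹, P.mul_mem hk (P.inv_mem hg), by rw [mul_smul, inv_smul_smul]⟩
  -- the subgroups
  let C : Subgroup (MulAut G) :=
    { carrier := {σ | σ a = a}
      one_mem' := rfl
      mul_mem' := fun {σ τ} hσ hτ => by
        show σ (τ a) = a
        have h1 : σ a = a := hσ
        have h2 : τ a = a := hτ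
        rw [h2, h1]
      inv_mem' := fun {σ} hσ => by
        show σ.symm a = a
        have h1 : σ a = a := hσ
        exact (MulEquiv.symm_apply_eq σ).2 h1.symm }
  have hCP : ∀ σ ∈ C, ∀ x ∈ P, σ x = x := by
    rintro σ hσ _ ⟨i, rfl⟩
    show σ (a ^ i) = a ^ i
    have h1 : σ a = a := hσ
    rw [map_zpow, h1]
  have hCc : ∀ σ ∈ C, ∀ τ ∈ C, σ * τ = τ * σ := by
    intro σ hσ τ hτ
    apply MulEquiv.ext
    intro g
    exact commute ht h2 hf hpp P hPc hPt (hCP σ hσ) (hCP τ hτ) g
  let N : Subgroup (MulAut G) :=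
    { carrier := {σ | σ a ∈ P ∧ σ.symm a ∈ P}
      one_mem' := ⟨Subgroup.mem_zpowers a, Subgroup.mem_zpowers a⟩
      mul_mem' := fun {σ τ} hσ hτ => by
        obtain ⟨⟨i, hi⟩, ⟨i', hi'⟩⟩ := hσ
        obtain ⟨⟨j, hj⟩, ⟨j', hj'⟩⟩ := hτ
        have hi : a ^ i = σ a := hi
        have hi' : a ^ i' = σ.symm a := hi'
        have hj : a ^ j = τ a := hj
        have hj' : a ^ j' = τ.symm a := hj'
        constructor
        · show σ (τ a) ∈ P
          rw [← hj, map_zpow, ← hi, ← zpow_mul]
          exact ⟨_, rfl⟩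
        · show τ.symm (σ.symm a) ∈ P
          rw [← hi', map_zpow, ← hj', ← zpow_mul]
          exact ⟨_, rfl⟩
      inv_mem' := fun {σ} hσ => ⟨hσ.2, hσ.1⟩ }
  refine ⟨N, solv N C ?_ hCc, ?_⟩
  · rintro σ hσ τ hτ
    have key : ∀ σ ∈ N, ∀ τ ∈ N, σ (τ a) = τ (σ a) := by
      rintro σ ⟨⟨i, hi⟩, _⟩ τ ⟨⟨j, hj⟩, _⟩
      have hi : a ^ i = σ a := hi
      have hj : a ^ j = τ a := hj
      rw [← hi, ← hj, map_zpow, map_zpow, ← hi, ← hj, ← zpow_mul, ← zpow_mul, mul_comm]
    show σ (τ (σ⁻¹ (τ⁻¹ a))) = a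
    have h3 := key σ⁻¹ (N.inv_mem hσ) τ⁻¹ (N.inv_mem hτ)
    rw [h3]
    show σ (τ (τ.symm (σ.symm a))) = a
    rw [MulEquiv.apply_symm_apply, MulEquiv.apply_symm_apply]
  · intro α
    have hsyl : ∀ Q : Subgroup G, Nat.card Q = p → ∃ S : Sylow p G, (S : Subgroup G) = Q := by
      intro Q hQ
      obtain ⟨S, hS⟩ := (IsPGroup.of_card (n := 1) (by rw [hQ, pow_one]) : IsPGroup p Q).exists_le_sylow
      refine ⟨S, (Subgroup.eq_of_le_of_card_ge hS ?_).symm⟩
      obtain ⟨n, hn⟩ := IsPGroup.iff_card.1 S.isPGroup'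
      have h3 : ¬ 2 ≤ n := by
        intro h
        apply hpp
        have h4 : p ^ 2 ∣ Nat.card G := (pow_dvd_pow p h).trans (hn ▸ Subgroup.card_subgroup_dvd_card (S : Subgroup G))
        rwa [pow_two] at h4
      rw [hn, hQ]
      calc p ^ n ≤ p ^ 1 := Nat.pow_le_pow_right hp.pos (by omega)
        _ = p := pow_one p
    obtain ⟨S1, hS1⟩ := hsyl P hPcard
    obtain ⟨S2, hS2⟩ := hsyl (P.map α.toMonoidHom) (by
      rw [← hPcard]
      exact (Nat.card_congr (P.equivMapOfInjective α.toMonoidHom α.injective).toEquiv).symm)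
    obtain ⟨g, hg⟩ := MulAction.exists_smul_eq G S2 S1
    have hg' : (P.map α.toMonoidHom).map (MulAut.conj g).toMonoidHom = P := by
      rw [← hS2, ← hS1, ← hg]
      rfl
    refine ⟨g, ?_, ?_⟩
    · show g * α a * g⁻¹ ∈ P
      have : g * α a * g⁻¹ ∈ (P.map α.toMonoidHom).map (MulAut.conj g).toMonoidHom :=
        ⟨α a, ⟨a, Subgroup.mem_zpowers a, rfl⟩, rfl⟩
      rwa [hg'] at this
    · have : a ∈ (P.map α.toMonoidHom).map (MulAut.conj g).toMonoidHom := by
        rw [hg']; exact Subgroup.mem_zpowers a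
      obtain ⟨_, ⟨x, hx, rfl⟩, hxa⟩ := this
      have h4 : (MulAut.conj g * α) x = a := hxa
      have h5 : (MulAut.conj g * α).symm a = x := (MulEquiv.symm_apply_eq _).2 h4.symm
      rw [h5]; exact hx

/-- A case of the Schreier conjecture: if a finite simple group G has a subgroup of prime index, then the outer automorphism group of G is solvable. -/
theorem result {G : Type*} [Group G] [Finite G] [IsSimpleGroup G] (H : Subgroup G) (hH : H.index.Prime) : Group.IsSolvable (Cfsg.Out G) := by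
  classical
  by_cases hs : Group.IsSolvable G
  · have hc := IsSimpleGroup.comm_iff_isSolvable.2 hs
    haveI := comm_case hc
    exact Group.isSolvable_of_surjective (f := QuotientGroup.mk' (Inn G)) (QuotientGroup.mk'_surjective _)
  · haveI : Finite (G ⧸ H) := inferInstance
    letI : Fintype (G ⧸ H) := Fintype.ofFinite _
    have hcard : Nat.card (G ⧸ H) = H.index := rfl
    have hcore : H.normalCore = ⊥ := by
      rcases (inferInstance : H.normalCore.Normal).eq_bot_or_eq_top with h | h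
      · exact h
      · exfalso
        have : H = ⊤ := top_le_iff.1 (h ▸ H.normalCore_le)
        rw [this, Subgroup.index_top] at hH
        exact Nat.not_prime_one hH
    have hf : ∀ g : G, (∀ x : G ⧸ H, g • x = x) → g = 1 := by
      intro g hg
      have h1 : g ∈ (MulAction.toPermHom G (G ⧸ H)).ker := by
        rw [MonoidHom.mem_ker]
        apply Equiv.ext
        intro x
        exact hg x
      rw [← Subgroup.normalCore_eq_ker, hcore] at h1
      exact Subgroup.mem_bot.1 h1
    have ht : ∀ x y : G ⧸ H, ∃ g : G, g • x = y := fun x y => MulAction.exists_smul_eq G x y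
    set K : Subgroup (Equiv.Perm (G ⧸ H)) := (MulAction.toPermHom G (G ⧸ H)).range with hK
    haveI : MulAction.IsPretransitive K (G ⧸ H) := by
      constructor
      intro x y
      obtain ⟨g, hg⟩ := ht x y
      exact ⟨⟨MulAction.toPermHom G (G ⧸ H) g, ⟨g, rfl⟩⟩, hg⟩
    have h2 : ∀ x y x' y' : G ⧸ H, x ≠ y → x' ≠ y' → ∃ g : G, g • x = x' ∧ g • y = y' := by
      rcases Cfsg.Agent.S0675.result (α := G ⧸ H) (by rw [← Nat.card_eq_fintype_card]; exact hH) K with h | h
      · exfalso
        apply hs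
        have hinj : Function.Injective (MulAction.toPermHom G (G ⧸ H)).rangeRestrict := by
          rw [injective_iff_map_eq_one]
          intro g hg
          apply hf
          intro x
          have := congrArg (fun σ : K => (σ : Equiv.Perm (G ⧸ H)) x) hg
          exact this
        exact Group.isSolvable_of_isSolvable_injective hinj
      · rw [MulAction.is_two_pretransitive_iff] at h
        intro x y x' y' h3 h4
        obtain ⟨⟨_, ⟨g, rfl⟩⟩, h5, h6⟩ := h h3 h4
        exact ⟨g, h5, h6⟩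
    obtain ⟨N, hN, hsurj⟩ := act (G := G) (Ω := G ⧸ H) hH hf ht h2
    refine Group.isSolvable_of_surjective (f := (QuotientGroup.mk' (Inn G)).comp N.subtype) ?_
    intro q
    obtain ⟨α, rfl⟩ := QuotientGroup.mk'_surjective _ q
    obtain ⟨g, hg⟩ := hsurj α
    refine ⟨⟨_, hg⟩, ?_⟩
    show QuotientGroup.mk' (Inn G) (MulAut.conj g * α) = _
    rw [map_mul]
    have : QuotientGroup.mk' (Inn G) (MulAut.conj g) = 1 := (QuotientGroup.eq_one_iff _).2 ⟨g, rfl⟩
    rw [this, one_mul]

end Cfsg.Agent.S4277
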