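import Cfsg.Statements.S4278
import Cfsg.Agent.H6_InvG2b

set_option autoImplicit false
open Cfsg

namespace Cfsg.Agent.S4278

/-- In the Chevalley group of type G₂ over a finite field of odd order, any two involutions are conjugate. -/
theorem result {F : Type*} [Field F] [Fintype F] (hF : Odd (Fintype.card F)) (s t : ↥(Cfsg.Lie.chevG2.group F)) (hs : orderOf s = 2) (ht : orderOf t = 2) : IsConj s t := by
  have hm : Cfsg.Agent.H6.Chev.modelG2.hHom (Cfsg.Agent.H6.Chev.sgn F 1) ∈ Cfsg.Lie.chevG2.group F :=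
    Cfsg.Agent.H6.Chev.modelG2.B_le_G (Cfsg.Agent.H6.Chev.Model.H_le_B (Cfsg.Agent.H6.Chev.modelG2.hHom_mem _))
  have h1 := Cfsg.Agent.H6.Chev.modelG2.isConj_cov1 hF Cfsg.Agent.H6.Chev.baseG2 Cfsg.Agent.H6.Chev.hinjG2
    Cfsg.Agent.H6.Chev.hcarG2 Cfsg.Agent.H6.Chev.ckclsG20 Cfsg.Agent.H6.Chev.ckcovG2 ⟨_, hm⟩ s rfl hs
  have h2 := Cfsg.Agent.H6.Chev.modelG2.isConj_cov1 hF Cfsg.Agent.H6.Chev.baseG2 Cfsg.Agent.H6.Chev.hinjG2
    Cfsg.Agent.H6.Chev.hcarG2 Cfsg.Agent.H6.Chev.ckclsG20 Cfsg.Agent.H6.Chev.ckcovG2 ⟨_, hm⟩ t rfl ht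
  exact h1.trans h2.symm

end Cfsg.Agent.S4278
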