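import Cfsg.Statements.S4280
import Cfsg.Agent.H6_InvF4b

set_option autoImplicit false
open Cfsg

namespace Cfsg.Agent.S4280

/-- In the Chevalley group of type F₄ over a finite field of odd order q there are exactly two conjugacy classes of involutions; the centralizer of an involution in one class has order q¹⁶(q² − 1)(q⁴ − 1)(q⁶ − 1)(q⁸ − 1), and in the other class q¹⁰(q² − 1)²(q⁴ − 1)(q⁶ − 1). -/
theorem result {F : Type*} [Field F] [Fintype F] (hF : Odd (Fintype.card F)) : ∃ s t : ↥(Cfsg.Lie.chevF4.group F), orderOf s = 2 ∧ orderOf t = 2 ∧ ¬ IsConj s t ∧ (∀ u : ↥(Cfsg.Lie.chevF4.group F), orderOf u = 2 → IsConj u s ∨ IsConj u t) ∧ Nat.card (Subgroup.centralizer ({s} : Set ↥(Cfsg.Lie.chevF4.group F))) = Fintype.card F ^ 16 * (Fintype.card F ^ 2 - 1) * (Fintype.card F ^ 4 - 1) * (Fintype.card F ^ 6 - 1) * (Fintype.card F ^ 8 - 1) ∧ Nat.card (Subgroup.centralizer ({t} :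 Set ↥(Cfsg.Lie.chevF4.group F))) = Fintype.card F ^ 10 * (Fintype.card F ^ 2 - 1) ^ 2 * (Fintype.card F ^ 4 - 1) * (Fintype.card F ^ 6 - 1) := by
  have hm1 : Cfsg.Agent.H6.Chev.modelF4.hHom (Cfsg.Agent.H6.Chev.sgn F 1) ∈ Cfsg.Lie.chevF4.group F :=
    Cfsg.Agent.H6.Chev.modelF4.B_le_G (Cfsg.Agent.H6.Chev.Model.H_le_B (Cfsg.Agent.H6.Chev.modelF4.hHom_mem _))
  have hm2 : Cfsg.Agent.H6.Chev.modelF4.hHom (Cfsg.Agent.H6.Chev.sgn F 4) ∈ Cfsg.Lie.chevF4.group F :=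
    Cfsg.Agent.H6.Chev.modelF4.B_le_G (Cfsg.Agent.H6.Chev.Model.H_le_B (Cfsg.Agent.H6.Chev.modelF4.hHom_mem _))
  have h2 := Cfsg.Agent.H6.Chev.two_ne_zero_of_odd hF
  obtain ⟨s, hs⟩ : ∃ s : ↥(Cfsg.Lie.chevF4.group F), (s : GL Cfsg.Lie.chevF4.Idx F) =
      Cfsg.Agent.H6.Chev.modelF4.hHom (Cfsg.Agent.H6.Chev.sgn F 1) := ⟨⟨_, hm1⟩, rfl⟩
  obtain ⟨t, ht⟩ : ∃ t : ↥(Cfsg.Lie.chevF4.group F), (t : GL Cfsg.Lie.chevF4.Idx F) =
      Cfsg.Agent.H6.Chev.modelF4.hHom (Cfsg.Agent.H6.Chev.sgn F 4) := ⟨⟨_, hm2⟩, rfl⟩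
  have hos := Cfsg.Agent.H6.Chev.modelF4.orderOf_mask h2 Cfsg.Agent.H6.Chev.hinjF4
    (M := 1) (i := 0) (by decide) (by decide) s hs
  have hot := Cfsg.Agent.H6.Chev.modelF4.orderOf_mask h2 Cfsg.Agent.H6.Chev.hinjF4
    (M := 4) (i := 2) (by decide) (by decide) t ht
  have hcs := Cfsg.Agent.H6.Chev.centF40 hF s hs
  have hct := Cfsg.Agent.H6.Chev.centF41 hF t ht
  have hq : 1 < Fintype.card F := Fintype.one_lt_card
  refine ⟨s, t, hos, hot, ?_, ?_, ?_, ?_⟩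
  · intro h
    have h3 := Cfsg.Agent.H6.Chev.card_centralizer_of_isConj h
    rw [hcs, hct] at h3
    have p2 : 0 < Fintype.card F ^ 2 - 1 := Nat.sub_pos_of_lt (Nat.one_lt_pow (by norm_num) hq)
    have p4 : 0 < Fintype.card F ^ 4 - 1 := Nat.sub_pos_of_lt (Nat.one_lt_pow (by norm_num) hq)
    have p6 : 0 < Fintype.card F ^ 6 - 1 := Nat.sub_pos_of_lt (Nat.one_lt_pow (by norm_num) hq)
    have p10 : 0 < Fintype.card F ^ 10 := Nat.pow_pos Fintype.card_pos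
    have h4 : Fintype.card F ^ 10 * (Fintype.card F ^ 2 - 1) * (Fintype.card F ^ 4 - 1) * (Fintype.card F ^ 6 - 1) *
        (Fintype.card F ^ 6 * (Fintype.card F ^ 8 - 1)) =
        Fintype.card F ^ 10 * (Fintype.card F ^ 2 - 1) * (Fintype.card F ^ 4 - 1) * (Fintype.card F ^ 6 - 1) *
        (Fintype.card F ^ 2 - 1) := by
      calc _ = Fintype.card F ^ 16 * ((Fintype.card F ^ 2 - 1) * (Fintype.card F ^ 4 - 1) * (Fintype.card F ^ 6 - 1) *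
          (Fintype.card F ^ 8 - 1)) := by ring
        _ = _ := h3
        _ = _ := by ring
    have h5 := Nat.eq_of_mul_eq_mul_left (by positivity) h4
    have h6 : Fintype.card F ^ 2 - 1 < Fintype.card F ^ 8 - 1 := by
      have : Fintype.card F ^ 2 < Fintype.card F ^ 8 := Nat.pow_lt_pow_right hq (by norm_num)
      omega
    have h7 : 1 ≤ Fintype.card F ^ 6 := Nat.one_le_pow _ _ Fintype.card_pos
    have h8 : Fintype.card F ^ 8 - 1 ≤ Fintype.card F ^ 6 * (Fintype.card F ^ 8 - 1) := Nat.le_mul_of_pos_left _ h7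
    omega
  · intro u hu
    exact Cfsg.Agent.H6.Chev.modelF4.isConj_cov2 hF Cfsg.Agent.H6.Chev.baseF4 Cfsg.Agent.H6.Chev.hinjF4
      Cfsg.Agent.H6.Chev.hcarF4 Cfsg.Agent.H6.Chev.ckclsF40 Cfsg.Agent.H6.Chev.ckclsF41 Cfsg.Agent.H6.Chev.ckcovF4 s t u hs ht hu
  · rw [hcs]; ring
  · rw [hct]; ring

end Cfsg.Agent.S4280
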