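import Cfsg.Statements.S4281
import Cfsg.Agent.H6_InvE8b

set_option autoImplicit false
open scoped BigOperators
open Cfsg

namespace Cfsg.Agent.S4281

/-- In the Chevalley group of type E₈ over a finite field of odd order q there are exactly two conjugacy classes of involutions; the centralizer of an involution in one class has order q⁵⁶(q⁸ − 1)·∏_{i=1}^{7}(q^{2i} − 1), and in the other class q⁶⁴(q² − 1)²(q⁶ − 1)(q⁸ − 1)(q¹⁰ − 1)(q¹² − 1)(q¹⁴ − 1)(q¹⁸ − 1). -/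
theorem result {F : Type*} [Field F] [Fintype F] (hF : Odd (Fintype.card F)) : ∃ s t : ↥(Cfsg.Lie.chevE8.group F), orderOf s = 2 ∧ orderOf t = 2 ∧ ¬ IsConj s t ∧ (∀ u : ↥(Cfsg.Lie.chevE8.group F), orderOf u = 2 → IsConj u s ∨ IsConj u t) ∧ Nat.card (Subgroup.centralizer ({s} : Set ↥(Cfsg.Lie.chevE8.group F))) = Fintype.card F ^ 56 * (Fintype.card F ^ 8 - 1) * ∏ i ∈ Finset.Icc 1 7, (Fintype.card F ^ (2 * i) - 1) ∧ Nat.card (Subgroup.centralizer ({t} : Set ↥(Cfsg.Lie.chevE8.group F))) = Fintype.card F ^ 64 * (Fintype.card F ^ 2 - 1) ^ 2 * (Fintype.card F ^ 6 - 1) * (Fintype.card F ^ 8 - 1) * (Fintype.card F ^ 10 - 1) * (Fintype.card F ^ 12 - 1) * (Fintype.card F ^ 14 - 1) * (Fintype.card F ^ 18 - 1) := by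
  have hm1 : Cfsg.Agent.H6.Chev.modelE8.hHom (Cfsg.Agent.H6.Chev.sgn F 160) ∈ Cfsg.Lie.chevE8.group F :=
    Cfsg.Agent.H6.Chev.modelE8.B_le_G (Cfsg.Agent.H6.Chev.Model.H_le_B (Cfsg.Agent.H6.Chev.modelE8.hHom_mem _))
  have hm2 : Cfsg.Agent.H6.Chev.modelE8.hHom (Cfsg.Agent.H6.Chev.sgn F 2) ∈ Cfsg.Lie.chevE8.group F :=
    Cfsg.Agent.H6.Chev.modelE8.B_le_G (Cfsg.Agent.H6.Chev.Model.H_le_B (Cfsg.Agent.H6.Chev.modelE8.hHom_mem _))
  have h2 := Cfsg.Agent.H6.Chev.two_ne_zero_of_odd hF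
  obtain ⟨s, hs⟩ : ∃ s : ↥(Cfsg.Lie.chevE8.group F), (s : GL Cfsg.Lie.chevE8.Idx F) =
      Cfsg.Agent.H6.Chev.modelE8.hHom (Cfsg.Agent.H6.Chev.sgn F 160) := ⟨⟨_, hm1⟩, rfl⟩
  obtain ⟨t, ht⟩ : ∃ t : ↥(Cfsg.Lie.chevE8.group F), (t : GL Cfsg.Lie.chevE8.Idx F) =
      Cfsg.Agent.H6.Chev.modelE8.hHom (Cfsg.Agent.H6.Chev.sgn F 2) := ⟨⟨_, hm2⟩, rfl⟩
  have hos := Cfsg.Agent.H6.Chev.modelE8.orderOf_mask h2 Cfsg.Agent.H6.Chev.hinjE8
    (M := 160) (i := 5) (by decide) (by decide) s hs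
  have hot := Cfsg.Agent.H6.Chev.modelE8.orderOf_mask h2 Cfsg.Agent.H6.Chev.hinjE8
    (M := 2) (i := 1) (by decide) (by decide) t ht
  have hcs := Cfsg.Agent.H6.Chev.centE81 hF s hs
  have hct := Cfsg.Agent.H6.Chev.centE80 hF t ht
  have hq : 1 < Fintype.card F := Fintype.one_lt_card
  refine ⟨s, t, hos, hot, ?_, ?_, ?_, ?_⟩
  · intro h
    have h3 := Cfsg.Agent.H6.Chev.card_centralizer_of_isConj h
    rw [hcs, hct] at h3
    have p : ∀ d, d ≠ 0 → 0 < Fintype.card F ^ d - 1 := fun d hd => Nat.sub_pos_of_lt (Nat.one_lt_pow hd hq)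
    have p2 := p 2 (by norm_num)
    have p6 := p 6 (by norm_num)
    have p8 := p 8 (by norm_num)
    have p10 := p 10 (by norm_num)
    have p12 := p 12 (by norm_num)
    have p14 := p 14 (by norm_num)
    have pq : 0 < Fintype.card F ^ 56 := Nat.pow_pos Fintype.card_pos
    obtain ⟨K, hK⟩ : ∃ K, K = Fintype.card F ^ 56 * (Fintype.card F ^ 2 - 1) * (Fintype.card F ^ 6 - 1) * (Fintype.card F ^ 8 - 1) *
        (Fintype.card F ^ 10 - 1) * (Fintype.card F ^ 12 - 1) * (Fintype.card F ^ 14 - 1) := ⟨_, rfl⟩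
    have hK0 : 0 < K := by rw [hK]; positivity
    have h4 : K * ((Fintype.card F ^ 8 - 1) * (Fintype.card F ^ 4 - 1)) =
        K * (Fintype.card F ^ 8 * ((Fintype.card F ^ 2 - 1) * (Fintype.card F ^ 18 - 1))) := by
      calc _ = Fintype.card F ^ 56 * ((Fintype.card F ^ 8 - 1) * (Fintype.card F ^ 2 - 1) * (Fintype.card F ^ 4 - 1) *
            (Fintype.card F ^ 6 - 1) * (Fintype.card F ^ 8 - 1) * (Fintype.card F ^ 10 - 1) * (Fintype.card F ^ 12 - 1) *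
            (Fintype.card F ^ 14 - 1)) := by rw [hK]; ring
        _ = _ := h3
        _ = _ := by rw [hK]; ring
    have h5 := Nat.eq_of_mul_eq_mul_left hK0 h4
    have h6 : Fintype.card F ^ 8 - 1 < Fintype.card F ^ 8 := Nat.sub_lt (Nat.pow_pos Fintype.card_pos) (by norm_num)
    have h7 : Fintype.card F ^ 4 - 1 ≤ Fintype.card F ^ 18 - 1 := by
      have : Fintype.card F ^ 4 ≤ Fintype.card F ^ 18 := Nat.pow_le_pow_right Fintype.card_pos (by norm_num)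
      omega
    have h8 : Fintype.card F ^ 18 - 1 ≤ (Fintype.card F ^ 2 - 1) * (Fintype.card F ^ 18 - 1) := Nat.le_mul_of_pos_left _ p2
    have h9 : (Fintype.card F ^ 8 - 1) * (Fintype.card F ^ 4 - 1) <
        Fintype.card F ^ 8 * ((Fintype.card F ^ 2 - 1) * (Fintype.card F ^ 18 - 1)) :=
      Nat.mul_lt_mul_of_lt_of_le h6 (h7.trans h8) (Nat.mul_pos p2 (p 18 (by norm_num)))
    omega
  · intro u hu
    exact (Cfsg.Agent.H6.Chev.modelE8.isConj_cov2 hF Cfsg.Agent.H6.Chev.baseE8 Cfsg.Agent.H6.Chev.hinjE8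
      Cfsg.Agent.H6.Chev.hcarE8 Cfsg.Agent.H6.Chev.ckclsE80 Cfsg.Agent.H6.Chev.ckclsE81 Cfsg.Agent.H6.Chev.ckcovE8 t s u ht hs hu).symm
  · rw [hcs]
    simp only [Finset.prod_Icc_succ_top (show 1 ≤ 7 by norm_num), Finset.prod_Icc_succ_top (show 1 ≤ 6 by norm_num),
      Finset.prod_Icc_succ_top (show 1 ≤ 5 by norm_num), Finset.prod_Icc_succ_top (show 1 ≤ 4 by norm_num),
      Finset.prod_Icc_succ_top (show 1 ≤ 3 by norm_num), Finset.prod_Icc_succ_top (show 1 ≤ 2 by norm_num),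
      Finset.prod_Icc_succ_top (show 1 ≤ 1 by norm_num)]
    norm_num
    ring
  · rw [hct]; ring

end Cfsg.Agent.S4281
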