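import Cfsg.Statements.S4283
import Cfsg.Agent.H1_Frob
import Cfsg.Agent.H24_Tools


set_option autoImplicit false
open Cfsg

namespace Cfsg.Agent.S4283

open Subgroup
open scoped Pointwise

/-- Let G be a finite group with centre Z and let K, H be abelian subgroups of G containing Z such that G/Z is a Frobenius group with complement H/Z and kernel K/Z. Then the conjugacy class sizes of G are exactly 1, [G : K] and [G : H], and these two indices are coprime. (This is the converse half of the characterization of finite groups whose conjugacy class sizes are exactly 1, m and n with m and n coprime.) -/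
theorem result {G : Type*} [Group G] [Finite G] (K H : Subgroup G) (hZK : Subgroup.center G ≤ K) (hZH : Subgroup.center G ≤ H) (hK : IsMulCommutative K) (hH : IsMulCommutative H) (hFrob : Cfsg.IsFrobeniusComplement (H.map (QuotientGroup.mk' (Subgroup.center G)))) (hker : Cfsg.frobeniusKernel (H.map (QuotientGroup.mk' (Subgroup.center G))) = (K.map (QuotientGroup.mk' (Subgroup.center G)) : Set (G ⧸ Subgroup.center G))) : Set.range (fun x : G => (Subgroup.centralizer ({x} : Set G)).index) = ({1, K.index, H.index} : Set ℕ) ∧ K.index.Coprime H.index := by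

  classical
  set π := QuotientGroup.mk' (center G) with hπ
  have hsurj : Function.Surjective π := QuotientGroup.mk'_surjective _
  have hker1 : π.ker = center G := QuotientGroup.ker_mk' _
  set H' := H.map π with hH'
  set K' := K.map π with hK'
  have hmemK : ∀ x : G, π x ∈ K' ↔ x ∈ K := by
    intro x
    constructor
    · intro h
      have h1 : x ∈ K'.comap π := h
      rwa [hK', comap_map_eq, hker1, sup_eq_left.2 hZK] at h1
    · exact fun h => ⟨x, h, rfl⟩
  have hmemH : ∀ x : G, π x ∈ H' ↔ x ∈ H := by
    intro x
    constructor
    · intro h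
      have h1 : x ∈ H'.comap π := h
      rwa [hH', comap_map_eq, hker1, sup_eq_left.2 hZH] at h1
    · exact fun h => ⟨x, h, rfl⟩
  have hone : ∀ x : G, π x = 1 ↔ x ∈ center G := fun x => QuotientGroup.eq_one_iff x
  have hcK : ∀ a ∈ K, ∀ b ∈ K, a * b = b * a := fun a ha b hb => congrArg Subtype.val (hK.1.1 ⟨a, ha⟩ ⟨b, hb⟩)
  have hcH : ∀ a ∈ H, ∀ b ∈ H, a * b = b * a := fun a ha b hb => congrArg Subtype.val (hH.1.1 ⟨a, ha⟩ ⟨b, hb⟩)
  have hkm : ∀ x : G ⧸ center G, x ∈ K' ↔ x = 1 ∨ ∀ g : G ⧸ center G, x ∉ MulAut.conj g • H' := by
    intro x
    have : x ∈ frobeniusKernel H' ↔ x ∈ (K' : Set (G ⧸ center G)) := by rw [hker]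
    exact this.symm
  -- centralizers in K
  have hCK : ∀ x ∈ K, x ∉ center G → (centralizer {x} : Subgroup G) = K := by
    intro x hx hxZ
    apply le_antisymm
    · intro y hy
      rw [mem_centralizer_singleton_iff] at hy
      rw [← hmemK, hkm]
      by_contra hcon
      push Not at hcon
      obtain ⟨hy1, g, hg⟩ := hcon
      have hx' := (hmemK x).2 hx
      rw [hkm] at hx'
      rcases hx' with h | h
      · exact hxZ ((hone x).1 h)
      · apply h g
        rw [H24.Tools.mem_conj] at hg ⊢
        apply H1.Frob.centralizer_le hFrob hg
        · intro h2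
          apply hy1
          have : π y = g * (g⁻¹ * π y * g) * g⁻¹ := by group
          rw [this, h2]; group
        · have h3 : π y * π x = π x * π y := by rw [← map_mul, ← map_mul, hy]
          calc g⁻¹ * π x * g * (g⁻¹ * π y * g) = g⁻¹ * (π x * π y) * g := by group
            _ = g⁻¹ * (π y * π x) * g := by rw [h3]
            _ = _ := by group
    · intro y hy
      rw [mem_centralizer_singleton_iff]
      exact hcK y hy x hx
  have hCH : ∀ x ∈ H, x ∉ center G → (centralizer {x} : Subgroup G) = H := by
    intro x hx hxZ
    apply le_antisymm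
    · intro y hy
      rw [mem_centralizer_singleton_iff] at hy
      rw [← hmemH]
      apply H1.Frob.centralizer_le hFrob ((hmemH x).2 hx) (fun h => hxZ ((hone x).1 h))
      rw [← map_mul, ← map_mul, hy]
    · intro y hy
      rw [mem_centralizer_singleton_iff]
      exact hcH y hy x hx
  have hHne : ∃ x ∈ H, x ∉ center G := by
    by_contra hcon
    push Not at hcon
    apply hFrob.1
    rw [eq_bot_iff]
    rintro _ ⟨x, hx, rfl⟩
    rw [mem_bot, hone]
    exact hcon x hx
  have hKcard : Nat.card K' = H'.index := by
    rw [← H1.Frob.card_kernel hFrob, hker]; rfl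
  have hKne : ∃ x ∈ K, x ∉ center G := by
    by_contra hcon
    push Not at hcon
    have h1 : K' = ⊥ := by
      rw [eq_bot_iff]
      rintro _ ⟨x, hx, rfl⟩
      rw [mem_bot, hone]
      exact hcon x hx
    rw [h1, card_bot] at hKcard
    exact hFrob.2.1 (index_eq_one.1 hKcard.symm)
  constructor
  · ext n
    simp only [Set.mem_range, Set.mem_insert_iff, Set.mem_singleton_iff]
    constructor
    · rintro ⟨x, rfl⟩
      by_cases hx : x ∈ center G
      · left
        rw [index_eq_one, eq_top_iff]
        intro y _
        rw [mem_centralizer_singleton_iff]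
        exact mem_center_iff.1 hx y
      · right
        by_cases hxK : π x ∈ K'
        · left
          rw [hCK x ((hmemK x).1 hxK) hx]
        · right
          rw [hkm] at hxK
          push Not at hxK
          obtain ⟨-, g, hg⟩ := hxK
          obtain ⟨g, rfl⟩ := hsurj g
          rw [H24.Tools.mem_conj, ← map_inv, ← map_mul, ← map_mul, hmemH] at hg
          have h1 := hCH _ hg (by
            intro h2
            apply hx
            have h3 := (inferInstance : (center G).Normal).conj_mem _ h2 g
            have h4 : g * (g⁻¹ * x * g) * g⁻¹ = x := by group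
            rwa [h4] at h3)
          have h2 : (centralizer {x} : Subgroup G) = (centralizer {g⁻¹ * x * g}).map (MulAut.conj g).toMonoidHom := by
            ext y
            rw [mem_centralizer_singleton_iff, H24.Tools.mem_map_conj, mem_centralizer_singleton_iff]
            constructor
            · intro h
              calc g⁻¹ * y * g * (g⁻¹ * x * g) = g⁻¹ * (y * x) * g := by group
                _ = g⁻¹ * (x * y) * g := by rw [h]
                _ = _ := by group
            · intro h
              calc y * x = g * (g⁻¹ * y * g * (g⁻¹ * x * g)) * g⁻¹ := by group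
                _ = g * (g⁻¹ * x * g * (g⁻¹ * y * g)) * g⁻¹ := by rw [h]
                _ = _ := by group
          rw [h2, h1]
          exact index_map_equiv H (MulAut.conj g)
    · rintro (rfl | rfl | rfl)
      · refine ⟨1, ?_⟩
        rw [index_eq_one, eq_top_iff]
        intro y _
        rw [mem_centralizer_singleton_iff]; simp
      · obtain ⟨x, hx, hxZ⟩ := hKne
        exact ⟨x, by rw [hCK x hx hxZ]⟩
      · obtain ⟨x, hx, hxZ⟩ := hHne
        exact ⟨x, by rw [hCH x hx hxZ]⟩
  · have h1 : K.index = K'.index := (index_map_eq K hsurj (by rw [hker1]; exact hZK)).symm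
    have h2 : H.index = H'.index := (index_map_eq H hsurj (by rw [hker1]; exact hZH)).symm
    have h3 : K'.index = Nat.card H' := by
      have h4 := K'.card_mul_index
      have h5 := H'.card_mul_index
      rw [hKcard] at h4
      rw [mul_comm] at h5
      exact Nat.eq_of_mul_eq_mul_left (Nat.pos_of_ne_zero index_ne_zero_of_finite) (h4.trans h5.symm)
    rw [h1, h2, h3]
    have h4 := H1.Frob.index_mod_card hFrob
    have h5 : H'.index ≡ 1 [MOD Nat.card H'] := h4
    have h6 := h5.gcd_eq
    rw [Nat.coprime_comm, Nat.Coprime, h6, Nat.gcd_one_left]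


end Cfsg.Agent.S4283
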