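import Cfsg.Statements.S4290
import Mathlib
import Cfsg.Agent.S4276

set_option autoImplicit false
open Cfsg

namespace Cfsg.Agent.S4290

/-- Let G be a doubly transitive group of permutations of a finite set Ω in which a point stabilizer is a Hall subgroup of G (its order is coprime to its index). Then every automorphism of G of odd order is induced by conjugation by a permutation of Ω normalizing G. -/
theorem result {Ω : Type*} [Fintype Ω] (G : Subgroup (Equiv.Perm Ω)) (h2 : MulAction.IsMultiplyPretransitive G Ω 2) (o : Ω) (hHall : (Nat.card (MulAction.stabilizer G o)).Coprime (MulAction.stabilizer G o).index) (α : MulAut G) (hα : Odd (orderOf α)) : ∃ σ : Equiv.Perm Ω, σ ∈ Subgroup.normalizer (G : Set (Equiv.Perm Ω)) ∧ ∀ g : G, ((α g : G) : Equiv.Perm Ω) = σ * (g : Equiv.Perm Ω) * σ⁻¹ := by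
  refine (Cfsg.Agent.S4276.result G h2 o α hα o ?_).1
  have htr : MulAction.IsPretransitive G Ω := by
    rcases Nat.lt_or_ge (Fintype.card Ω) 2 with h | h
    · have h1 : Fintype.card Ω ≤ 1 := by omega
      have := Fintype.card_le_one_iff_subsingleton.mp h1
      exact ⟨fun x y => ⟨1, Subsingleton.elim _ _⟩⟩
    · have : MulAction.IsMultiplyPretransitive G Ω 1 := by
        apply MulAction.isMultiplyPretransitive_of_le' (n := 2) (m := 1) (by norm_num)
        simp only [Nat.cast_ofNat, ENat.card_eq_coe_fintype_card]
        exact_mod_cast h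
      exact MulAction.is_one_pretransitive_iff.mp this
  have h1 : (MulAction.stabilizer G o).index = Fintype.card Ω := by
    rw [MulAction.index_stabilizer_of_transitive, Nat.card_eq_fintype_card]
  rw [h1] at hHall
  refine Nat.Coprime.coprime_dvd_left ?_ hHall
  have h3 : Nat.card ((MulAction.stabilizer G o).map α.toMonoidHom) = Nat.card (MulAction.stabilizer G o) :=
    Subgroup.card_map_of_injective α.injective
  rw [← h3]
  have h4 := MulAction.index_stabilizer ((MulAction.stabilizer G o).map α.toMonoidHom) o
  rw [← Nat.card_coe_set_eq] at h4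
  rw [← h4]
  exact Subgroup.index_dvd_card _

end Cfsg.Agent.S4290
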