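import Cfsg.Statements.S4293
import Mathlib
import Cfsg.Agent.H24_FrobEx2

set_option autoImplicit false
open Cfsg

namespace Cfsg.Agent.S4293

/-- A nontrivial finite subgroup of the multiplicative group of a division ring occurs as a Frobenius complement of some finite Frobenius group. -/
theorem result {D : Type*} [DivisionRing D] (H : Subgroup Dˣ) [Finite H] (hH : H ≠ ⊥) :
    ∃ (L : Type) (_ : Group L) (_ : Finite L) (C : Subgroup L), Cfsg.IsFrobeniusComplement C ∧ Nonempty (H ≃* C) := by
  have hnt : Nontrivial H := (Subgroup.nontrivial_iff_ne_bot H).mpr hH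
  let ι : H →* D := (Units.coeHom D).comp H.subtype
  have hιinj : Function.Injective ι := by
    intro a b hab
    exact Subtype.ext (Units.ext hab)
  let A : Subalgebra ℤ D := (MonoidAlgebra.lift ℤ D H ι).range
  have hA : ∀ h : H, ι h ∈ A := fun h => ⟨MonoidAlgebra.of ℤ H h, by simp⟩
  have hfin : Module.Finite ℤ A := by
    have : Module.Finite ℤ (MonoidAlgebra ℤ H) := by
      have h0 : Module.Finite ℤ (H →₀ ℤ) := inferInstance
      exact Module.Finite.equiv (MonoidAlgebra.coeffLinearEquiv ℤ).symm
    exact Module.Finite.of_surjective (MonoidAlgebra.lift ℤ D H ι).rangeRestrict.toLinearMap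
      (AlgHom.rangeRestrict_surjective _)
  let j : H →* A := { toFun := fun h => ⟨ι h, hA h⟩, map_one' := by ext; simp, map_mul' := fun a b => by ext; simp }
  have hpow : ∀ h : H, h ≠ 1 → ∃ w : A, w * (1 - j h) = (Nat.card H : A) := by
    intro h hh
    have hn : j h ^ Nat.card H = 1 := by rw [← map_pow, pow_card_eq_one', map_one]
    have hne : (1 : A) - j h ≠ 0 := by
      intro h0
      apply hh
      apply hιinj
      rw [map_one]
      have := congrArg Subtype.val (sub_eq_zero.mp h0)
      exact this.symm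
    have hs : ∑ i ∈ Finset.range (Nat.card H), j h ^ i = 0 := by
      have h1 : (∑ i ∈ Finset.range (Nat.card H), j h ^ i) * (1 - j h) = 0 := by
        rw [geom_sum_mul_neg, hn, sub_self]
      exact (mul_eq_zero.mp h1).resolve_right hne
    refine ⟨∑ k ∈ Finset.range (Nat.card H), ∑ i ∈ Finset.range k, j h ^ i, ?_⟩
    rw [Finset.sum_mul]
    have h2 : ∀ k ∈ Finset.range (Nat.card H), (∑ i ∈ Finset.range k, j h ^ i) * (1 - j h) = 1 - j h ^ k :=
      fun k _ => geom_sum_mul_neg _ _
    rw [Finset.sum_congr rfl h2, Finset.sum_sub_distrib, hs, sub_zero]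
    simp
  -- choice of p
  obtain ⟨p, hp, hpH, h1p⟩ : ∃ p : ℕ, p.Prime ∧ ¬ p ∣ Nat.card H ∧ ¬ ∃ a : A, (p : A) * a = 1 := by
    obtain ⟨c, hc⟩ := CharP.exists D
    rcases Nat.eq_zero_or_pos c with hc0 | hc0
    · subst hc0
      have : CharZero D := CharP.charP_to_charZero D
      obtain ⟨p, hpge, hp⟩ := Nat.exists_infinite_primes (Nat.card H + 1)
      refine ⟨p, hp, fun h => ?_, ?_⟩
      · have := Nat.le_of_dvd Nat.card_pos h
        omega
      · rintro ⟨a, ha⟩
        have hle : (⊤ : Submodule ℤ A) ≤ (Ideal.span {(p : ℤ)}) • (⊤ : Submodule ℤ A) := by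
          intro x _
          have h1 : x = (p : ℤ) • (a * x) := by
            rw [zsmul_eq_mul, ← mul_assoc]
            push_cast
            rw [ha, one_mul]
          rw [h1]
          exact Submodule.smul_mem_smul (Ideal.subset_span rfl) trivial
        obtain ⟨r, hr1, hr2⟩ := Submodule.exists_sub_one_mem_and_smul_eq_zero_of_fg_of_le_smul
          (Ideal.span {(p : ℤ)}) (⊤ : Submodule ℤ A) hfin.fg_top hle
        have h3 := hr2 1 trivial
        have h4 : (r : D) = 0 := by
          have := congrArg Subtype.val h3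
          simpa using this
        have h5 : r = 0 := by exact_mod_cast h4
        subst h5
        rw [Ideal.mem_span_singleton] at hr1
        have h6 : (p : ℤ) ∣ 1 := by
          have := (dvd_neg.mpr hr1)
          simpa using this
        have h7 : p ∣ 1 := by exact_mod_cast h6
        exact hp.one_lt.ne' (Nat.dvd_one.mp h7)
    · have hcp : c.Prime := (CharP.char_is_prime_or_zero D c).resolve_right hc0.ne'
      have : Fact c.Prime := ⟨hcp⟩
      refine ⟨c, hcp, fun h => ?_, ?_⟩
      · obtain ⟨x, hx⟩ := exists_prime_orderOf_dvd_card' c h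
        have h1 : (ι x - 1) ^ c = 0 := by
          have h2 : (ι x - 1) ^ c = ι x ^ c - 1 ^ c := sub_pow_char_of_commute c (Commute.one_right _)
          rw [h2, ← map_pow, ← hx, pow_orderOf_eq_one, map_one, one_pow, sub_self]
        have h3 := pow_eq_zero_iff hcp.ne_zero |>.mp h1
        have h4 : x = 1 := hιinj (by rw [map_one]; exact sub_eq_zero.mp h3)
        rw [h4, orderOf_one] at hx
        exact hcp.one_lt.ne hx
      · rintro ⟨a, ha⟩
        have h1 := congrArg Subtype.val ha
        have h2 : ((c : A) : D) = 0 := by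
          push_cast
          exact CharP.cast_eq_zero D c
        have h3 : ((c : A) : D) * (a : D) = 1 := h1
        rw [h2, zero_mul] at h3
        exact zero_ne_one h3
  let I : Submodule A A := Submodule.span A {(p : A)}
  have hmemI : ∀ x : A, x ∈ I ↔ ∃ a : A, a * (p : A) = x := fun x => Submodule.mem_span_singleton
  have hI1 : (1 : A) ∉ I := by
    intro h
    obtain ⟨a, ha⟩ := (hmemI 1).mp h
    exact h1p ⟨a, by rw [← ha]; exact (Nat.cast_comm p a)⟩
  have hntM : Nontrivial (A ⧸ I) := by
    refine Submodule.Quotient.nontrivial_iff.mpr ?_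
    intro h
    exact hI1 (h ▸ trivial)
  have hpM : ∀ m : A ⧸ I, p • m = 0 := by
    intro m
    obtain ⟨x, rfl⟩ := Submodule.Quotient.mk_surjective I m
    rw [← Submodule.Quotient.mk_smul, Submodule.Quotient.mk_eq_zero, hmemI]
    exact ⟨x, by rw [nsmul_eq_mul, Nat.cast_comm]⟩
  have hfinM : Finite (A ⧸ I) := by
    have hf : Module.Finite ℤ (A ⧸ I) := by
      let f : A →ₗ[ℤ] (A ⧸ I) := (I.mkQ).restrictScalars ℤ
      exact Module.Finite.of_surjective f (Submodule.mkQ_surjective I)
    have : AddGroup.FG (A ⧸ I) := Module.Finite.iff_addGroup_fg.mp hf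
    exact AddCommGroup.finite_of_fg_torsion _ (fun m =>
      isOfFinAddOrder_iff_nsmul_eq_zero.mpr ⟨p, hp.pos, hpM m⟩)
  obtain ⟨L, h1, h2, C, h3, h4, -⟩ := Cfsg.Agent.H24.FrobEx.exists_frob_module
    (R := A) (M := A ⧸ I) (j.toHomUnits) (by
      intro h hh m hm
      rw [MonoidHom.coe_toHomUnits] at hm
      obtain ⟨w, hw⟩ := hpow h hh
      have h5 : (1 - j h) • m = 0 := by rw [sub_smul, one_smul, hm, sub_self]
      have h6 : (Nat.card H : A) • m = 0 := by rw [← hw, mul_smul, h5, smul_zero]
      have h7 : (Nat.card H) • m = 0 := by rw [← h6, Nat.cast_smul_eq_nsmul]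
      have h8 := (Nat.Prime.coprime_iff_not_dvd hp).mpr hpH
      have h9 : addOrderOf m ∣ 1 := by
        rw [← h8]
        exact Nat.dvd_gcd (addOrderOf_dvd_of_nsmul_eq_zero (hpM m)) (addOrderOf_dvd_of_nsmul_eq_zero h7)
      exact AddMonoid.addOrderOf_eq_one_iff.mp (Nat.dvd_one.mp h9))
  exact ⟨L, h1, h2, C, h3, h4⟩

end Cfsg.Agent.S4293
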