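import Cfsg.Statements.S4296
import Mathlib
import Cfsg.Agent.H24_FrobSyl
import Cfsg.Agent.H24_FrobSq
import Cfsg.Agent.H9_FrobKer
import Cfsg.Agent.H1_Fixed
import Cfsg.Agent.H1_Frob

set_option autoImplicit false
open Cfsg

namespace Cfsg.Agent.S4296

/-- Let H be a Frobenius complement in a finite group, and suppose some Sylow subgroup of H is not cyclic. Then the number of elements of the Frobenius kernel (the identity together with the elements lying in no conjugate of H) is an odd perfect square. -/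
theorem result {L : Type*} [Group L] [Finite L] (H : Subgroup L) (hF : Cfsg.IsFrobeniusComplement H)
    (hZ : ∃ (p : ℕ) (_ : Fact p.Prime) (P : Sylow p H), ¬ IsCyclic P) :
    Odd (Nat.card (Cfsg.frobeniusKernel H)) ∧ IsSquare (Nat.card (Cfsg.frobeniusKernel H)) := by
  obtain ⟨N, hN, hNn, hc⟩ := H9.FrobKer.frobenius H hF
  have hNne : N ≠ ⊥ := by
    rintro rfl
    apply hF.2.1
    exact Subgroup.isComplement'_bot_left.mp hc
  have hfpf := (H1.Fixed.isFrobeniusComplement_iff N H hc hNne hF.1).mp hF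
  obtain ⟨p, hp, P, hP⟩ := hZ
  have eP := Subgroup.equivMapOfInjective (P : Subgroup H) H.subtype H.subtype_injective
  have hPp : IsPGroup p ((P : Subgroup H).map H.subtype) := P.isPGroup'.map H.subtype
  have hcardN : Nat.card (Cfsg.frobeniusKernel H) = Nat.card N := by
    rw [← hN]; rfl
  rw [hcardN]
  rcases H24.FrobSyl.pgroup_type N H hNne hfpf ((P : Subgroup H).map H.subtype) (Subgroup.map_subtype_le _) hPp with h | ⟨-, n, ⟨e⟩⟩
  · exact absurd (isCyclic_of_surjective eP.symm eP.symm.surjective) hP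
  have hn : 1 ≤ n := by
    by_contra hn0
    have : n = 0 := by omega
    subst this
    apply hP
    have : IsCyclic (QuaternionGroup (2 ^ 0)) := QuaternionGroup.quaternionGroup_one_isCyclic
    exact isCyclic_of_surjective (eP.trans e).symm (eP.trans e).symm.surjective
  obtain ⟨m, hm⟩ : ∃ m : ℕ, 2 ^ n = m + m := ⟨2 ^ (n - 1), by
    rw [← two_mul, ← pow_succ', Nat.sub_add_cancel hn]⟩
  have hmem : ∀ q, ((e.symm q : (P : Subgroup H).map H.subtype) : L) ∈ H := fun q =>
    Subgroup.map_subtype_le _ (e.symm q).2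
  let τ : QuaternionGroup (2 ^ n) →* L := (Subgroup.subtype _).comp e.symm.toMonoidHom
  have hτH : ∀ q, τ q ∈ H := hmem
  have hτinj : Function.Injective τ := fun a b hab => e.symm.injective (Subtype.ext hab)
  let i := τ (QuaternionGroup.a (m : ZMod (2 * 2 ^ n)))
  let j := τ (QuaternionGroup.xa 0)
  let z := τ (QuaternionGroup.a ((2 ^ n : ℕ) : ZMod (2 * 2 ^ n)))
  have h2m : ((2 ^ n : ℕ) : ZMod (2 * 2 ^ n)) = (m : ZMod (2 * 2 ^ n)) + (m : ZMod (2 * 2 ^ n)) := by
    have h := congrArg (Nat.cast : ℕ → ZMod (2 * 2 ^ n)) hm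
    rw [Nat.cast_add] at h
    exact h
  have hii : i * i = z := by
    change τ _ * τ _ = τ _
    rw [← map_mul, QuaternionGroup.a_mul_a, h2m]
  have hjj : j * j = z := by
    change τ _ * τ _ = τ _
    rw [← map_mul, QuaternionGroup.xa_mul_xa, add_zero, sub_zero]
  have hdouble : ((2 ^ n : ℕ) : ZMod (2 * 2 ^ n)) + ((2 ^ n : ℕ) : ZMod (2 * 2 ^ n)) = 0 := by
    rw [← Nat.cast_add, ← two_mul, ZMod.natCast_self]
  have hij : i * j = z * (j * i) := by
    change τ _ * τ _ = τ _ * (τ _ * τ _)
    rw [← map_mul, ← map_mul, ← map_mul, QuaternionGroup.a_mul_xa, QuaternionGroup.xa_mul_a,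
      QuaternionGroup.a_mul_xa]
    congr 2
    rw [h2m]; ring
  have hzz : z * z = 1 := by
    change τ _ * τ _ = 1
    rw [← map_mul, QuaternionGroup.a_mul_a, hdouble, QuaternionGroup.a_zero, map_one]
  have hz1 : z ≠ 1 := by
    intro h
    have h1 : (QuaternionGroup.a ((2 ^ n : ℕ) : ZMod (2 * 2 ^ n)) : QuaternionGroup (2 ^ n)) = 1 :=
      hτinj (by rw [map_one]; exact h)
    rw [QuaternionGroup.one_def] at h1
    injection h1 with h2
    have : NeZero (2 * 2 ^ n) := ⟨by positivity⟩
    rw [ZMod.natCast_eq_zero_iff] at h2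
    have h3 := Nat.le_of_dvd (by positivity) h2
    have h4 : 0 < 2 ^ n := by positivity
    omega
  have hzo : orderOf z = 2 := orderOf_eq_prime (by rw [sq]; exact hzz) hz1
  have hzH : z ∈ H := hτH _
  have h2H : 2 ∣ Nat.card H := by
    rw [← hzo, ← Subgroup.orderOf_mk z hzH]
    exact orderOf_dvd_natCard _
  obtain ⟨⟨s, -, -, hs2, hs3⟩, hcomm⟩ := H1.Fixed.even_complement N H hNne hfpf h2H
  have hzs : z = s := hs2 z hzH hzo
  have hinv : ∀ k ∈ N, z * k * z⁻¹ = k⁻¹ := by rw [hzs]; exact hs3
  have hodd : Odd (Nat.card N) := by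
    by_contra h
    rw [Nat.not_odd_iff_even, even_iff_two_dvd] at h
    obtain ⟨x, hx⟩ := exists_prime_orderOf_dvd_card' (G := N) 2 h
    have hx1 : (x : L) ≠ 1 := by
      intro h1
      have : x = 1 := Subtype.ext h1
      rw [this, orderOf_one] at hx
      omega
    have hxx : (x : L)⁻¹ = x := by
      rw [inv_eq_iff_mul_eq_one]
      have := pow_orderOf_eq_one x
      rw [hx, sq] at this
      exact congrArg Subtype.val this
    have h3 : (x : L) ∈ N ⊓ Subgroup.centralizer {z} := by
      refine Subgroup.mem_inf.mpr ⟨x.2, ?_⟩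
      rw [Subgroup.mem_centralizer_singleton_iff]
      have := hinv x x.2
      rw [hxx] at this
      exact (mul_inv_eq_iff_eq_mul.mp this).symm
    rw [hfpf z hzH hz1, Subgroup.mem_bot] at h3
    exact hx1 h3
  refine ⟨hodd, ?_⟩
  letI : CommGroup N := { (inferInstance : Group N) with mul_comm := fun a b => hcomm.is_comm.comm a b }
  let F : L → (Additive N →+ Additive N) := fun g => MonoidHom.toAdditive (MulAut.conjNormal (H := N) g).toMonoidHom
  have hF : ∀ (g : L) (x : Additive N), (((F g x).toMul : N) : L) = g * ((x.toMul : N) : L) * g⁻¹ := fun g x => rfl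
  refine H24.FrobSq.isSquare_card (Nat.card N) (Additive N) rfl hodd (F i) (F j) ?_ ?_ ?_
  · intro x
    apply Additive.toMul.injective
    apply Subtype.ext
    rw [hF, hF]
    change _ = (((x.toMul : N) : L))⁻¹
    rw [← hinv _ (x.toMul : N).2, ← hii]
    group
  · intro x
    apply Additive.toMul.injective
    apply Subtype.ext
    rw [hF, hF]
    change _ = (((x.toMul : N) : L))⁻¹
    rw [← hinv _ (x.toMul : N).2, ← hjj]
    group
  · intro x
    apply Additive.toMul.injective
    apply Subtype.ext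
    rw [hF, hF]
    change _ = ((((F j (F i x)).toMul : N) : L))⁻¹
    rw [← hinv _ ((F j (F i x)).toMul : N).2, hF, hF]
    calc i * (j * ((x.toMul : N) : L) * j⁻¹) * i⁻¹ = (i * j) * ((x.toMul : N) : L) * (i * j)⁻¹ := by group
      _ = _ := by rw [hij]; group

end Cfsg.Agent.S4296
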