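import Cfsg.Statements.S4295
import Mathlib
import Cfsg.Agent.H24_FrobEx2
import Cfsg.Agent.S4296
import Cfsg.Agent.H1_Frob

set_option autoImplicit false
open Cfsg

namespace Cfsg.Agent.S4295

open Cfsg.Agent

/-- `V` carries a fixed-point-free action of `Q8`. -/
def GoodAct (n : ℕ) : Prop := ∃ (V : Type) (_ : Group V) (_ : Finite V) (φ : QuaternionGroup 2 →* MulAut V),
  Nat.card V = n ∧ ∀ h : QuaternionGroup 2, h ≠ 1 → ∀ v : V, φ h v = v → v = 1

theorem q8dec : ∀ h : QuaternionGroup 2, h ≠ 1 → h = QuaternionGroup.a 2 ∨ h * h = QuaternionGroup.a 2 := by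
  decide

theorem goodAct_one : GoodAct 1 :=
  ⟨Unit, inferInstance, inferInstance, 1, by simp, fun _ _ _ _ => rfl⟩

theorem goodAct_mul {a b : ℕ} (ha : GoodAct a) (hb : GoodAct b) : GoodAct (a * b) := by
  obtain ⟨V, iV, fV, φ, hV, hφ⟩ := ha
  obtain ⟨W, iW, fW, ψ, hW, hψ⟩ := hb
  let χ : QuaternionGroup 2 →* MulAut (V × W) :=
    { toFun := fun g => MulEquiv.prodCongr (φ g) (ψ g)
      map_one' := by ext x <;> simp [MulEquiv.prodCongr]
      map_mul' := fun g h => by ext x <;> simp [MulEquiv.prodCongr] }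
  refine ⟨V × W, inferInstance, inferInstance, χ, by rw [Nat.card_prod, hV, hW], ?_⟩
  intro h hh v hv
  have h1 : φ h v.1 = v.1 := congrArg Prod.fst hv
  have h2 : ψ h v.2 = v.2 := congrArg Prod.snd hv
  exact Prod.ext (hφ h hh _ h1) (hψ h hh _ h2)

theorem goodAct_prime {p : ℕ} (hp : p.Prime) (hp2 : p ≠ 2) : GoodAct (p * p) := by
  have : Fact p.Prime := ⟨hp⟩
  obtain ⟨a, b, hab⟩ := ZMod.sq_add_sq p (-1)
  let I : Matrix (Fin 2) (Fin 2) (ZMod p) := !![0, 1; -1, 0]
  let J : Matrix (Fin 2) (Fin 2) (ZMod p) := !![a, b; b, -a]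
  have hII : I * I = -1 := by
    ext x y; fin_cases x <;> fin_cases y <;> simp [I, Matrix.mul_apply, Fin.sum_univ_two]
  have hJJ : J * J = -1 := by
    have e1 : a * a + b * b = -1 := by rw [← hab]; ring
    have e2 : b * b + a * a = -1 := by rw [← hab]; ring
    ext x y; fin_cases x <;> fin_cases y <;> simp [J, Matrix.mul_apply, Fin.sum_univ_two, e1, e2] <;> ring
  have hIJ : I * J = -(J * I) := by
    ext x y; fin_cases x <;> fin_cases y <;> simp [I, J, Matrix.mul_apply, Fin.sum_univ_two]
  have hI4 : I ^ 4 = 1 := by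
    calc I ^ 4 = (I * I) * (I * I) := by noncomm_ring
      _ = 1 := by rw [hII]; simp
  let P : ZMod (2 * 2) → Matrix (Fin 2) (Fin 2) (ZMod p) := fun i => I ^ (i.val)
  have hPadd : ∀ i j, P (i + j) = P i * P j := by
    intro i j
    simp only [P]
    rw [← pow_add, ZMod.val_add]
    exact (pow_eq_pow_mod _ hI4).symm
  have hP0 : P 0 = 1 := by simp [P]
  have hPn : P 2 = -1 := by
    change I ^ 2 = -1
    rw [sq, hII]
  have hPJ : ∀ i, P i * J = J * P (-i) := by
    have hI3 : I ^ 3 = - I := by
      calc I ^ 3 = (I * I) * I := by noncomm_ring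
        _ = -I := by rw [hII]; simp
    have hI2 : I ^ 2 = -1 := by rw [sq, hII]
    intro i
    have hi : i = 0 ∨ i = 1 ∨ i = 2 ∨ i = 3 := by revert i; decide
    rcases hi with rfl | rfl | rfl | rfl
    · simp [P]
    · change I ^ 1 * J = J * I ^ 3
      rw [hI3, pow_one, hIJ, mul_neg]
    · change I ^ 2 * J = J * I ^ 2
      rw [hI2]; simp
    · change I ^ 3 * J = J * I ^ 1
      rw [hI3, pow_one, neg_mul, hIJ, neg_neg]
  let f : QuaternionGroup 2 →* Matrix (Fin 2) (Fin 2) (ZMod p) :=
    { toFun := fun g => match g with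
        | QuaternionGroup.a i => P i
        | QuaternionGroup.xa i => J * P i
      map_one' := by
        rw [QuaternionGroup.one_def]; exact hP0
      map_mul' := by
        rintro (i | i) (j | j)
        · rw [QuaternionGroup.a_mul_a]; exact hPadd i j
        · rw [QuaternionGroup.a_mul_xa]
          change J * P (j - i) = P i * (J * P j)
          rw [← mul_assoc, hPJ, mul_assoc, ← hPadd, sub_eq_neg_add]
        · rw [QuaternionGroup.xa_mul_a]
          change J * P (i + j) = J * P i * P j
          rw [mul_assoc, hPadd]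
        · rw [QuaternionGroup.xa_mul_xa]
          change P (((2 : ℕ) : ZMod (2 * 2)) + j - i) = J * P i * (J * P j)
          have e3 : J * P i * (J * P j) = (J * (P i * J)) * P j := by noncomm_ring
          rw [e3, hPJ, ← mul_assoc, hJJ, neg_one_mul, neg_mul, ← hPadd, ← neg_one_mul, ← hPn, ← hPadd]
          congr 1
          push_cast; ring }
  have hdim2 : (2 : ZMod p) ≠ 0 := by
    intro h
    have h3 : ((2 : ℕ) : ZMod p) = 0 := by exact_mod_cast h
    rw [ZMod.natCast_eq_zero_iff] at h3
    exact hp2 ((Nat.prime_dvd_prime_iff_eq hp Nat.prime_two).mp h3)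
  let M := Fin 2 → ZMod p
  let ρ : QuaternionGroup 2 →* (Module.End (ZMod p) M)ˣ :=
    (((Matrix.toLinAlgEquiv' : Matrix (Fin 2) (Fin 2) (ZMod p) ≃ₐ[ZMod p] _).toRingEquiv.toRingHom.toMonoidHom).comp f).toHomUnits
  have hρ : ∀ h (v : M), ((ρ h : (Module.End (ZMod p) M)ˣ) : Module.End (ZMod p) M) v = (f h).mulVec v := fun h v => rfl
  let φ : QuaternionGroup 2 →* MulAut (Multiplicative M) :=
    ((MulAutMultiplicative M).symm.toMonoidHom.comp (DistribMulAction.toAddAut (Module.End (ZMod p) M)ˣ M)).comp ρ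
  have hφ : ∀ h (v : M), φ h (Multiplicative.ofAdd v) = Multiplicative.ofAdd ((f h).mulVec v) := fun h v => rfl
  refine ⟨Multiplicative M, inferInstance, inferInstance, φ, ?_, ?_⟩
  · change Nat.card (Fin 2 → ZMod p) = _
    simp [Nat.card_pi, sq]
  · intro h hh v hv
    have hv' : (f h).mulVec v.toAdd = v.toAdd := by
      have := hφ h v.toAdd
      rw [ofAdd_toAdd, hv] at this
      exact (congrArg Multiplicative.toAdd this).symm
    have hneg : (-1 : Matrix (Fin 2) (Fin 2) (ZMod p)).mulVec v.toAdd = v.toAdd := by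
      have hcase : h = QuaternionGroup.a 2 ∨ h * h = QuaternionGroup.a 2 := q8dec h hh
      rcases hcase with rfl | h2
      · rw [← hPn]; exact hv'
      · have e4 : f (h * h) = -1 := by rw [h2]; exact hPn
        rw [← e4, map_mul, ← Matrix.mulVec_mulVec, hv', hv']
    rw [Matrix.neg_mulVec, Matrix.one_mulVec] at hneg
    have h5 : (2 : ZMod p) • (v.toAdd : M) = 0 := by
      rw [two_smul]
      nth_rewrite 1 [← hneg]
      exact neg_add_cancel _
    have h6 := (smul_eq_zero.mp h5).resolve_left hdim2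
    exact Multiplicative.toAdd.injective h6

theorem goodAct (k : ℕ) (hk : Odd k) : GoodAct (k * k) := by
  induction k using Nat.strong_induction_on with
  | _ k ih =>
    by_cases h1 : k = 1
    · subst h1; exact goodAct_one
    obtain ⟨p, hp, ⟨l, rfl⟩⟩ := Nat.exists_prime_and_dvd h1
    have h2 := Nat.odd_mul.mp hk
    have hp2 : p ≠ 2 := by
      rintro rfl
      exact absurd h2.1 (by decide)
    have hl : 0 < l := h2.2.pos
    have := goodAct_mul (goodAct_prime hp hp2) (ih l (by nlinarith [hp.two_le]) h2.2)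
    have e : p * l * (p * l) = p * p * (l * l) := by ring
    rwa [e]

/-- For a natural number m the following are equivalent: (a) some finite group has a Frobenius complement isomorphic to the quaternion group of order 8 whose Frobenius kernel (the identity together with the elements lying in no conjugate of the complement) has exactly m elements; (b) m is an odd perfect square greater than 1. -/
theorem result (m : ℕ) :
    (∃ (L : Type) (_ : Group L) (_ : Finite L) (H : Subgroup L), Cfsg.IsFrobeniusComplement H ∧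
        Nonempty (H ≃* QuaternionGroup 2) ∧ Nat.card (Cfsg.frobeniusKernel H) = m) ↔
    (Odd m ∧ IsSquare m ∧ 1 < m) := by
  constructor
  · rintro ⟨L, iG, iF, H, hF, ⟨e⟩, hm⟩
    have hcH : Nat.card H = 8 := by
      rw [Nat.card_congr e.toEquiv, Nat.card_eq_fintype_card, QuaternionGroup.card]
    have := Cfsg.Agent.S4296.result H hF ⟨2, ⟨Nat.prime_two⟩, default, by
      intro hcyc
      have h2 : ((default : Sylow 2 H) : Subgroup H) = ⊤ := by
        apply Subgroup.eq_top_of_card_eq
        rw [Sylow.card_eq_multiplicity, hcH]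
        have : (8 : ℕ) = 2 ^ 3 := by norm_num
        rw [this, Nat.Prime.factorization_pow Nat.prime_two]
        simp
      have hcyc' : IsCyclic (⊤ : Subgroup H) := by rw [← h2]; exact hcyc
      have h3 : IsCyclic (QuaternionGroup 2) :=
        isCyclic_of_surjective (Subgroup.topEquiv.trans e) (Subgroup.topEquiv.trans e).surjective
      obtain ⟨g, hg⟩ := IsCyclic.exists_ofOrder_eq_natCard (α := QuaternionGroup 2)
      have h4 : Nat.card (QuaternionGroup 2) = 8 := by
        rw [Nat.card_eq_fintype_card, QuaternionGroup.card]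
      rw [h4] at hg
      have h5 : ∀ g : QuaternionGroup 2, g ^ 4 = 1 := by decide
      have h6 := orderOf_dvd_of_pow_eq_one (h5 g)
      rw [hg] at h6
      exact absurd h6 (by norm_num)⟩
    rw [hm] at this
    refine ⟨this.1, this.2, ?_⟩
    rw [← hm, H1.Frob.card_kernel hF]
    exact Subgroup.one_lt_index_of_ne_top hF.2.1
  · rintro ⟨hodd, ⟨k, rfl⟩, h1⟩
    have hk : Odd k := (Nat.odd_mul.mp hodd).1
    obtain ⟨V, iV, iF, φ, hc, hfpf⟩ := goodAct k hk
    have : Nontrivial V := by
      rw [← Finite.one_lt_card_iff_nontrivial, hc]; exact h1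
    obtain ⟨L, i1, i2, H', hF, ⟨e⟩, hidx⟩ := H24.FrobEx.exists_frob φ hfpf
    exact ⟨L, i1, i2, H', hF, ⟨e.symm⟩, by rw [H1.Frob.card_kernel hF, hidx, hc]⟩

end Cfsg.Agent.S4295
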