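import Cfsg.Statements.S4297
import Mathlib
import Cfsg.Agent.H24_FrobEx2

set_option autoImplicit false
open Cfsg

namespace Cfsg.Agent.S4297

/-- For every n ≥ 2 the dicyclic group of order 4n (generated by an element a of order 2n and an element x with x² = aⁿ and x a x⁻¹ = a⁻¹) occurs as a Frobenius complement of some finite Frobenius group. -/
theorem result (n : ℕ) (hn : 2 ≤ n) :
    ∃ (L : Type) (_ : Group L) (_ : Finite L) (H : Subgroup L), Cfsg.IsFrobeniusComplement H ∧ Nonempty (H ≃* QuaternionGroup n) := by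
  have : NeZero n := ⟨by omega⟩
  have : NeZero (2 * n) := ⟨by omega⟩
  obtain ⟨q, hqn, hq, hmod⟩ := Nat.exists_prime_gt_modEq_one (k := 2 * n) (2 * n) (by omega)
  have : Fact q.Prime := ⟨hqn⟩
  have hdvd : 2 * n ∣ q - 1 := (Nat.modEq_iff_dvd' hqn.one_lt.le).mp hmod.symm
  obtain ⟨u, hu⟩ := IsCyclic.exists_ofOrder_eq_natCard (α := (ZMod q)ˣ)
  have hcard : Nat.card (ZMod q)ˣ = q - 1 := by
    rw [Nat.card_eq_fintype_card, ZMod.card_units_eq_totient, Nat.totient_prime hqn]
  rw [hcard] at hu
  obtain ⟨k, hk⟩ := hdvd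
  have hq1 : 0 < q - 1 := by have := hqn.two_le; omega
  have hk0 : 0 < k := by
    rcases Nat.eq_zero_or_pos k with h | h
    · subst h; omega
    · exact h
  have hw : orderOf (u ^ k) = 2 * n := by
    rw [orderOf_pow_of_dvd hk0.ne' (by rw [hu, hk]; exact dvd_mul_left _ _), hu, hk, Nat.mul_div_cancel _ hk0]
  have e : Multiplicative (ZMod (2 * n)) ≃* Subgroup.zpowers (u ^ k) :=
    mulEquivOfCyclicCardEq (by rw [Nat.card_zpowers, hw, Nat.card_eq_fintype_card]; simp)
  let ζ : ZMod (2 * n) → ZMod q := fun i => (((e (Multiplicative.ofAdd i) : (ZMod q)ˣ)) : ZMod q)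
  have hadd : ∀ i j, ζ (i + j) = ζ i * ζ j := by
    intro i j
    simp only [ζ, ofAdd_add, map_mul, Subgroup.coe_mul, Units.val_mul]
  have hzero : ζ 0 = 1 := by simp only [ζ, ofAdd_zero, map_one, Subgroup.coe_one, Units.val_one]
  have hinj : ∀ i, ζ i = 1 → i = 0 := by
    intro i hi
    have h7 : ((e (Multiplicative.ofAdd i) : (ZMod q)ˣ)) = 1 := Units.ext hi
    have h8 : e (Multiplicative.ofAdd i) = 1 := Subtype.ext h7
    have h9 := (map_eq_one_iff e e.injective).mp h8
    exact Multiplicative.ofAdd.injective h9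
  have hn0 : ((n : ℕ) : ZMod (2 * n)) ≠ 0 := by
    intro h
    rw [ZMod.natCast_eq_zero_iff] at h
    have := Nat.le_of_dvd (by omega) h
    omega
  have hζn : ζ (n : ZMod (2 * n)) = -1 := by
    have h1 : ζ (n : ZMod (2 * n)) * ζ (n : ZMod (2 * n)) = 1 := by
      rw [← hadd, ← Nat.cast_add, ← two_mul, ZMod.natCast_self, hzero]
    rcases mul_self_eq_one_iff.mp h1 with h | h
    · exact absurd (hinj _ h) hn0
    · exact h
  have hnn : -(n : ZMod (2 * n)) = (n : ZMod (2 * n)) := by
    rw [neg_eq_iff_add_eq_zero, ← Nat.cast_add, ← two_mul, ZMod.natCast_self]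
  have h2q : (2 : ZMod q) ≠ 0 := by
    intro h
    have h3 : ((2 : ℕ) : ZMod q) = 0 := by exact_mod_cast h
    rw [ZMod.natCast_eq_zero_iff] at h3
    have := Nat.le_of_dvd (by norm_num) h3
    omega
  let f : QuaternionGroup n →* Matrix (Fin 2) (Fin 2) (ZMod q) :=
    { toFun := fun g => match g with
        | QuaternionGroup.a i => !![ζ i, 0; 0, ζ (-i)]
        | QuaternionGroup.xa i => !![0, ζ (-i); - ζ i, 0]
      map_one' := by
        rw [QuaternionGroup.one_def]
        simp only [neg_zero, hzero]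
        exact Matrix.one_fin_two.symm
      map_mul' := by
        rintro (i | i) (j | j)
        · rw [QuaternionGroup.a_mul_a]
          simp only [Matrix.mul_fin_two, neg_add, hadd]
          simp
        · rw [QuaternionGroup.a_mul_xa]
          simp only [Matrix.mul_fin_two, sub_eq_add_neg, neg_add, neg_neg, hadd]
          simp [mul_comm]
        · rw [QuaternionGroup.xa_mul_a]
          simp only [Matrix.mul_fin_two, neg_add, hadd]
          simp
        · rw [QuaternionGroup.xa_mul_xa]
          simp only [Matrix.mul_fin_two, neg_sub, sub_eq_add_neg, neg_add, neg_neg, hadd, hnn, hζn]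
          simp [mul_comm] }
  obtain ⟨L, h1, h2, H, h3, ⟨h4⟩, -⟩ := Cfsg.Agent.H24.FrobEx.exists_frob_module
    (R := Matrix (Fin 2) (Fin 2) (ZMod q)) (M := Matrix (Fin 2) (Fin 2) (ZMod q)) (f.toHomUnits) (by
      intro h hh m hm
      rw [MonoidHom.coe_toHomUnits, smul_eq_mul] at hm
      rcases h with i | i
      · change !![ζ i, 0; 0, ζ (-i)] * m = m at hm
        have hi : i ≠ 0 := by
          rintro rfl
          exact hh (QuaternionGroup.a_zero)
        have h5 : ζ i ≠ 1 := fun h => hi (hinj _ h)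
        have h6 : ζ (-i) ≠ 1 := fun h => hi (neg_eq_zero.mp (hinj _ h))
        ext a b
        have h7 := congrFun (congrFun hm a) b
        fin_cases a
        · have h8 : ζ i * m 0 b = m 0 b := by simpa [Matrix.mul_apply, Fin.sum_univ_two] using h7
          have h9 : (ζ i - 1) * m 0 b = 0 := by rw [sub_mul, one_mul, h8, sub_self]
          exact (mul_eq_zero.mp h9).resolve_left (sub_ne_zero.mpr h5)
        · have h8 : ζ (-i) * m 1 b = m 1 b := by simpa [Matrix.mul_apply, Fin.sum_univ_two] using h7
          have h9 : (ζ (-i) - 1) * m 1 b = 0 := by rw [sub_mul, one_mul, h8, sub_self]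
          exact (mul_eq_zero.mp h9).resolve_left (sub_ne_zero.mpr h6)
      · have h5 : f (QuaternionGroup.xa i) * (f (QuaternionGroup.xa i) * m) = m := by rw [hm, hm]
        rw [← mul_assoc, ← map_mul, QuaternionGroup.xa_mul_xa, add_sub_cancel_right] at h5
        have h6 : f (QuaternionGroup.a (n : ZMod (2 * n))) = -1 := by
          change !![ζ (n : ZMod (2 * n)), 0; 0, ζ (-(n : ZMod (2 * n)))] = -1
          rw [hnn, hζn]
          ext a b
          fin_cases a <;> fin_cases b <;> simp
        rw [h6, neg_mul, one_mul] at h5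
        have h7 : (2 : ZMod q) • m = 0 := by
          rw [two_smul]
          nth_rewrite 1 [← h5]
          exact neg_add_cancel m
        exact (smul_eq_zero.mp h7).resolve_left h2q)
  exact ⟨L, h1, h2, H, h3, ⟨h4.symm⟩⟩

end Cfsg.Agent.S4297
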