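import Cfsg.Statements.S4299
import Mathlib
import Cfsg.Agent.H24_FrobEx2

set_option autoImplicit false
open Cfsg

namespace Cfsg.Agent.S4299

/-- Every nontrivial finite cyclic group occurs as a Frobenius complement of some finite Frobenius group. -/
theorem result {C : Type*} [Group C] [Finite C] [IsCyclic C] [Nontrivial C] :
    ∃ (L : Type) (_ : Group L) (_ : Finite L) (H : Subgroup L), Cfsg.IsFrobeniusComplement H ∧ Nonempty (C ≃* H) := by
  have hn : 1 < Nat.card C := Finite.one_lt_card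
  obtain ⟨q, hqn, hq, hmod⟩ := Nat.exists_prime_gt_modEq_one (k := Nat.card C) (Nat.card C) (by omega)
  have : Fact q.Prime := ⟨hqn⟩
  have hdvd : Nat.card C ∣ q - 1 := (Nat.modEq_iff_dvd' hqn.one_lt.le).mp hmod.symm
  obtain ⟨u, hu⟩ := IsCyclic.exists_ofOrder_eq_natCard (α := (ZMod q)ˣ)
  have hcard : Nat.card (ZMod q)ˣ = q - 1 := by
    rw [Nat.card_eq_fintype_card, ZMod.card_units_eq_totient, Nat.totient_prime hqn]
  rw [hcard] at hu
  obtain ⟨k, hk⟩ := hdvd
  have hq1 : 0 < q - 1 := by have := hqn.two_le; omega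
  have hk0 : 0 < k := by
    rcases Nat.eq_zero_or_pos k with h | h
    · subst h; omega
    · exact h
  have hw : orderOf (u ^ k) = Nat.card C := by
    rw [orderOf_pow_of_dvd hk0.ne' (by rw [hu, hk]; exact dvd_mul_left _ _), hu, hk, Nat.mul_div_cancel _ hk0]
  have e : C ≃* Subgroup.zpowers (u ^ k) := mulEquivOfCyclicCardEq (by rw [Nat.card_zpowers, hw])
  obtain ⟨L, h1, h2, H, h3, h4, -⟩ := Cfsg.Agent.H24.FrobEx.exists_frob_module (R := ZMod q) (M := ZMod q)
    ((Subgroup.subtype _).comp e.toMonoidHom) (by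
      intro h hh m hm
      by_contra hm0
      apply hh
      have h5 : (((e h : (ZMod q)ˣ)) : ZMod q) * m = 1 * m := by rw [one_mul]; exact hm
      have h6 := mul_right_cancel₀ hm0 h5
      have h7 : ((e h : (ZMod q)ˣ)) = 1 := Units.ext h6
      have h8 : e h = 1 := Subtype.ext h7
      exact (map_eq_one_iff e e.injective).mp h8)
  exact ⟨L, h1, h2, H, h3, h4⟩

end Cfsg.Agent.S4299
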