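import Cfsg.Statements.S4300
import Mathlib

set_option autoImplicit false
open Cfsg

namespace Cfsg.Agent.S4300

/-- Let G act faithfully and primitively on a set X, and suppose the stabilizer of some point is a simple group. Then either G is simple, or G has a normal subgroup, neither trivial nor the whole group, that acts regularly on X (transitively with trivial point stabilizers). -/
theorem result {G : Type*} [Group G] {X : Type*} [MulAction G X] [FaithfulSMul G X]
    (hprim : MulAction.IsPreprimitive G X) (x : X) (hsimple : IsSimpleGroup (MulAction.stabilizer G x)) :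
    IsSimpleGroup G ∨ ∃ N : Subgroup G, N.Normal ∧ N ≠ ⊥ ∧ N ≠ ⊤ ∧
      MulAction.IsPretransitive N X ∧ ∀ y : X, MulAction.stabilizer N y = ⊥ := by
  by_cases hs : IsSimpleGroup G
  · exact Or.inl hs
  right
  have hnt : Nontrivial G := by
    obtain ⟨a, b, hab⟩ := hsimple.exists_pair_ne
    exact ⟨a, b, fun h => hab (Subtype.ext h)⟩
  obtain ⟨N, hN, hb, ht⟩ : ∃ N : Subgroup G, N.Normal ∧ N ≠ ⊥ ∧ N ≠ ⊤ := by
    by_contra hc
    push Not at hc
    apply hs
    refine { exists_pair_ne := hnt.exists_pair_ne, eq_bot_or_eq_top_of_normal := fun N hN => ?_ }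
    by_cases h : N = ⊥
    · exact Or.inl h
    · exact Or.inr (hc N hN h)
  have hfix : MulAction.fixedPoints N X ≠ Set.univ := by
    intro h
    apply hb
    rw [eq_bot_iff]
    intro n hn
    rw [Subgroup.mem_bot]
    apply FaithfulSMul.eq_of_smul_eq_smul (α := X)
    intro y
    have : y ∈ MulAction.fixedPoints N X := by rw [h]; trivial
    rw [one_smul]
    exact this ⟨n, hn⟩
  have htr : MulAction.IsPretransitive N X := MulAction.IsPreprimitive.isQuasiPreprimitive.isPretransitive_of_normal hfix
  refine ⟨N, hN, hb, ht, htr, ?_⟩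
  have hx : N.subgroupOf (MulAction.stabilizer G x) = ⊥ := by
    rcases hsimple.eq_bot_or_eq_top_of_normal (N.subgroupOf (MulAction.stabilizer G x)) inferInstance with h | h
    · exact h
    · exfalso
      rw [Subgroup.subgroupOf_eq_top] at h
      apply ht
      rw [eq_top_iff]
      intro g _
      obtain ⟨n, hn⟩ := MulAction.exists_smul_eq N x (g • x)
      have h1 : (n : G)⁻¹ * g ∈ MulAction.stabilizer G x := by
        rw [MulAction.mem_stabilizer_iff, mul_smul, ← hn]
        exact inv_smul_smul (n : G) x
      have := N.mul_mem n.2 (h h1)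
      rwa [mul_inv_cancel_left] at this
  intro y
  rw [eq_bot_iff]
  intro n hn
  obtain ⟨m, hm⟩ := MulAction.exists_smul_eq N x y
  have h1 : (m : G)⁻¹ * n * m ∈ MulAction.stabilizer G x := by
    rw [MulAction.mem_stabilizer_iff, mul_smul, mul_smul]
    have h2 : (m : G) • x = y := hm
    have h3 : (n : G) • y = y := hn
    rw [h2, h3, ← h2, inv_smul_smul]
  have h2 : (⟨(m : G)⁻¹ * n * m, h1⟩ : MulAction.stabilizer G x) ∈ N.subgroupOf (MulAction.stabilizer G x) := by
    rw [Subgroup.mem_subgroupOf]
    exact N.mul_mem (N.mul_mem (N.inv_mem m.2) n.2) m.2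
  rw [hx, Subgroup.mem_bot] at h2
  have h3 : (m : G)⁻¹ * n * m = 1 := congrArg Subtype.val h2
  rw [Subgroup.mem_bot]
  apply Subtype.ext
  have : (n : G) = m * ((m : G)⁻¹ * n * m) * (m : G)⁻¹ := by group
  rw [this, h3]; simp

end Cfsg.Agent.S4300
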