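import Cfsg.Statements.S4301
import Cfsg.Agent.H2_Card


set_option autoImplicit false
open Cfsg

namespace Cfsg.Agent.S4301

open Subgroup

theorem inv_app {α : Type*} (f : Equiv.Perm α) (z : α) : f⁻¹ (f z) = z := Equiv.symm_apply_apply f z

theorem exists_emb1 {X : Type*} {m : ℕ} (e : Fin (m + 2) ↪ X) (z : X) : ∃ a : Fin (m + 2) ↪ X, a 0 = z := by
  classical
  exact ⟨e.trans (Equiv.swap (e 0) z).toEmbedding, by simp⟩

theorem exists_emb2 {X : Type*} {m : ℕ} (e : Fin (m + 2) ↪ X) (x z : X) (hxz : x ≠ z) :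
    ∃ a : Fin (m + 2) ↪ X, a 0 = x ∧ a 1 = z := by
  classical
  obtain ⟨a, ha⟩ := exists_emb1 e x
  refine ⟨a.trans (Equiv.swap (a 1) z).toEmbedding, ?_, by simp⟩
  change Equiv.swap (a 1) z (a 0) = x
  rw [ha]
  apply Equiv.swap_apply_of_ne_of_ne _ hxz
  rw [← ha]
  intro h
  have := a.injective h
  exact absurd this (by simp)

/-- One-point extension of a multiply transitive group. Let X be a set and G a group of permutations of Option X (the set X with one extra point ∗ = none) all of whose elements fix ∗, such that G is k-transitive on the points of X for some k ≥ 2, X having at least k points. Suppose a permutation h of Option X and an element g of G satisfy: h interchanges ∗ with a point x of X and fixes a point y of X; g interchanges x and y; (g h)³ and h² lie in G; and for every f in G fixing x, the product h f h lies in G and fixes x. Then an element of the group generated by G and h fixes ∗ exactly when it lies in G, and that group acts (k+1)-transitively on Option X.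 -/
theorem result {X : Type*} (G : Subgroup (Equiv.Perm (Option X))) (hfix : ∀ f ∈ G, f none = none)
    (k : ℕ) (hk : 2 ≤ k) (hkX : Nonempty (Fin k ↪ X))
    (htrans : ∀ a b : Fin k ↪ X, ∃ f ∈ G, ∀ i, f (some (a i)) = some (b i))
    (h g : Equiv.Perm (Option X)) (hg : g ∈ G) (x y : X)
    (h1 : h none = some x) (h2 : h (some x) = none) (h3 : h (some y) = some y)
    (h4 : g (some x) = some y) (h5 : g (some y) = some x)
    (h6 : (g * h) ^ 3 ∈ G) (h7 : h ^ 2 ∈ G)
    (h8 : ∀ f ∈ G, f (some x) = some x → h * f * h ∈ G ∧ (h * f * h) (some x) = some x) :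
    (∀ f ∈ Subgroup.closure ((G : Set (Equiv.Perm (Option X))) ∪ {h}), f none = none ↔ f ∈ G) ∧
      MulAction.IsMultiplyPretransitive (Subgroup.closure ((G : Set (Equiv.Perm (Option X))) ∪ {h})) (Option X) (k + 1) := by

  classical
  obtain ⟨m, rfl⟩ : ∃ m, k = m + 2 := ⟨k - 2, by omega⟩
  obtain ⟨e⟩ := hkX
  have hxy : x ≠ y := by
    rintro rfl
    rw [h2] at h3
    exact absurd h3 (by simp)
  have ht1 : ∀ z w : X, ∃ f ∈ G, f (some z) = some w := by
    intro z w
    obtain ⟨a, ha⟩ := exists_emb1 e z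
    obtain ⟨b, hb⟩ := exists_emb1 e w
    obtain ⟨f, hf, hfa⟩ := htrans a b
    exact ⟨f, hf, by rw [← ha, ← hb]; exact hfa 0⟩
  have ht2 : ∀ z : X, x ≠ z → ∃ f ∈ G, f (some x) = some x ∧ f (some y) = some z := by
    intro z hz
    obtain ⟨a, ha, ha'⟩ := exists_emb2 e x y hxy
    obtain ⟨b, hb, hb'⟩ := exists_emb2 e x z hz
    obtain ⟨f, hf, hfa⟩ := htrans a b
    refine ⟨f, hf, ?_, ?_⟩
    · have := hfa 0; rwa [ha, hb] at this
    · have := hfa 1; rwa [ha', hb'] at this
  -- h g h
  have hh2 : (h ^ 2)⁻¹ ∈ G := inv_mem h7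
  have hinv : h⁻¹ = (h ^ 2)⁻¹ * h := by group
  have hghg : ∃ a ∈ G, ∃ b ∈ G, h * g * h = a * h * b := by
    refine ⟨g⁻¹ * (g * h) ^ 3 * (h ^ 2)⁻¹, mul_mem (mul_mem (inv_mem hg) h6) hh2, g⁻¹, inv_mem hg, ?_⟩
    rw [mul_assoc _ (h ^ 2)⁻¹ h, ← hinv]
    rw [pow_succ, pow_two]; group
  have hinvg : ∃ a ∈ G, ∃ b ∈ G, h⁻¹ * g * h⁻¹ = a * h * b := by
    obtain ⟨a, ha, b, hb, hab⟩ := hghg
    refine ⟨(h ^ 2)⁻¹ * a, mul_mem hh2 ha, b * (h ^ 2)⁻¹, mul_mem hb hh2, ?_⟩
    calc h⁻¹ * g * h⁻¹ = (h ^ 2)⁻¹ * (h * g * h) * (h ^ 2)⁻¹ := by rw [pow_two]; group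
      _ = (h ^ 2)⁻¹ * (a * h * b) * (h ^ 2)⁻¹ := by rw [hab]
      _ = _ := by group
  have hfh : ∀ f ∈ G, h * f * h ∈ G ∨ ∃ a ∈ G, ∃ b ∈ G, h * f * h = a * h * b := by
    intro f hf
    by_cases hfx : f (some x) = some x
    · exact Or.inl (h8 f hf hfx).1
    · right
      obtain ⟨z, hz⟩ : ∃ z, f (some x) = some z := by
        cases hfz : f (some x) with
        | none =>
          have h9 := hfix f hf
          rw [← h9] at hfz
          exact absurd (f.injective hfz) (by simp)
        | some z => exact ⟨z, rfl⟩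
      have hzx : x ≠ z := by
        rintro rfl; exact hfx hz
      obtain ⟨f1, hf1, hf1x, hf1y⟩ := ht2 z hzx
      have hf2 : g⁻¹ * f1⁻¹ * f ∈ G := mul_mem (mul_mem (inv_mem hg) (inv_mem hf1)) hf
      have hf2x : (g⁻¹ * f1⁻¹ * f) (some x) = some x := by
        simp only [Equiv.Perm.coe_mul, Function.comp_apply]
        rw [hz, ← hf1y, inv_app, ← h4, inv_app]
      obtain ⟨a1, -⟩ := h8 f1 hf1 hf1x
      obtain ⟨a2, -⟩ := h8 _ hf2 hf2x
      obtain ⟨a, ha, b, hb, hab⟩ := hinvg
      refine ⟨(h * f1 * h) * a, mul_mem a1 ha, b * (h * (g⁻¹ * f1⁻¹ * f) * h), mul_mem hb a2, ?_⟩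
      calc h * f * h = (h * f1 * h) * (h⁻¹ * g * h⁻¹) * (h * (g⁻¹ * f1⁻¹ * f) * h) := by group
        _ = (h * f1 * h) * (a * h * b) * (h * (g⁻¹ * f1⁻¹ * f) * h) := by rw [hab]
        _ = _ := by group
  set K := closure ((G : Set (Equiv.Perm (Option X))) ∪ {h}) with hK
  have hGK : G ≤ K := fun f hf => subset_closure (Or.inl hf)
  have hhK : h ∈ K := subset_closure (Or.inr rfl)
  have hdec : ∀ f ∈ K, f ∈ G ∨ ∃ a ∈ G, ∃ b ∈ G, f = a * h * b := by
    intro f hf
    refine closure_induction (p := fun f _ => f ∈ G ∨ ∃ a ∈ G, ∃ b ∈ G, f = a * h * b) ?_ ?_ ?_ ?_ hf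
    · rintro f (hf | hf)
      · exact Or.inl hf
      · rw [Set.mem_singleton_iff] at hf
        exact Or.inr ⟨1, one_mem _, 1, one_mem _, by rw [hf]; group⟩
    · exact Or.inl (one_mem _)
    · rintro p q _ _ (hp | ⟨a, ha, b, hb, rfl⟩) (hq | ⟨c, hc, d, hd, rfl⟩)
      · exact Or.inl (mul_mem hp hq)
      · exact Or.inr ⟨p * c, mul_mem hp hc, d, hd, by group⟩
      · exact Or.inr ⟨a, ha, b * q, mul_mem hb hq, by group⟩
      · rcases hfh (b * c) (mul_mem hb hc) with h9 | ⟨a', ha', b', hb', h9⟩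
        · left
          have : a * h * b * (c * h * d) = a * (h * (b * c) * h) * d := by group
          rw [this]
          exact mul_mem (mul_mem ha h9) hd
        · right
          refine ⟨a * a', mul_mem ha ha', b' * d, mul_mem hb' hd, ?_⟩
          calc a * h * b * (c * h * d) = a * (h * (b * c) * h) * d := by group
            _ = a * (a' * h * b') * d := by rw [h9]
            _ = _ := by group
    · rintro p _ (hp | ⟨a, ha, b, hb, rfl⟩)
      · exact Or.inl (inv_mem hp)
      · right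
        refine ⟨b⁻¹ * (h ^ 2)⁻¹, mul_mem (inv_mem hb) hh2, a⁻¹, inv_mem ha, ?_⟩
        rw [pow_two]; group
  refine ⟨?_, ?_⟩
  · intro f hf
    constructor
    · intro hfn
      rcases hdec f hf with h9 | ⟨a, ha, b, hb, rfl⟩
      · exact h9
      · exfalso
        simp only [Equiv.Perm.coe_mul, Function.comp_apply] at hfn
        rw [hfix b hb, h1] at hfn
        have h10 := hfix a ha
        rw [← h10] at hfn
        exact absurd (a.injective hfn) (by simp)
    · exact fun h9 => hfix f h9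
  · -- transitivity
    let std : Fin (m + 2 + 1) → Option X := Fin.cons none (fun i => some (e i))
    have key : ∀ a : Fin (m + 2 + 1) ↪ Option X, ∃ f ∈ K, ∀ i, f (a i) = std i := by
      intro a
      obtain ⟨f1, hf1, hf1a⟩ : ∃ f1 ∈ K, f1 (a 0) = none := by
        cases ha0 : a 0 with
        | none => exact ⟨1, one_mem _, by rfl⟩
        | some z =>
          obtain ⟨g1, hg1, hg1z⟩ := ht1 z x
          refine ⟨h * g1, mul_mem hhK (hGK hg1), ?_⟩
          simp only [Equiv.Perm.coe_mul, Function.comp_apply]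
          rw [hg1z, h2]
      have hne : ∀ i : Fin (m + 2), ∃ z, f1 (a i.succ) = some z := by
        intro i
        cases hz : f1 (a i.succ) with
        | none =>
          rw [← hf1a] at hz
          have := a.injective (f1.injective hz)
          exact absurd this (Fin.succ_ne_zero i)
        | some z => exact ⟨z, rfl⟩
      choose b hb using hne
      have hbi : Function.Injective b := by
        intro i j hij
        have h9 : f1 (a i.succ) = f1 (a j.succ) := by rw [hb, hb, hij]
        exact Fin.succ_injective _ (a.injective (f1.injective h9))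
      obtain ⟨f2, hf2, hf2b⟩ := htrans ⟨b, hbi⟩ e
      refine ⟨f2 * f1, mul_mem (hGK hf2) hf1, ?_⟩
      intro i
      refine Fin.cases ?_ ?_ i
      · simp only [Equiv.Perm.coe_mul, Function.comp_apply]
        rw [hf1a, hfix f2 hf2]; rfl
      · intro i
        simp only [Equiv.Perm.coe_mul, Function.comp_apply]
        rw [hb]
        exact hf2b i
    constructor
    intro a b
    obtain ⟨f, hf, hfa⟩ := key a
    obtain ⟨f', hf', hfb⟩ := key b
    refine ⟨⟨f'⁻¹ * f, mul_mem (inv_mem hf') hf⟩, ?_⟩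
    ext1 i
    change (f'⁻¹ * f) (a i) = b i
    simp only [Equiv.Perm.coe_mul, Function.comp_apply]
    rw [hfa, ← hfb, inv_app]


end Cfsg.Agent.S4301
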