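import Cfsg.Statements.S4305
import Cfsg.Agent.H24_SThree9

set_option autoImplicit false
open Cfsg

namespace Cfsg.Agent.S4305

/-- Let the symmetric group of degree 3 act by automorphisms on a finite solvable group `G` of order prime to 6, so that only the identity of `G` is fixed by all of it. Then the derived subgroup of `G` is nilpotent. -/
theorem result {G : Type*} [Group G] [Finite G] [Group.IsSolvable G]
    [MulDistribMulAction (Equiv.Perm (Fin 3)) G] (hcop : (Nat.card G).Coprime 6)
    (hfpf : ∀ g : G, (∀ a : Equiv.Perm (Fin 3), a • g = g) → g = 1) :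
    Group.IsNilpotent ↥(commutator G) := by
  let φ : Equiv.Perm (Fin 3) →* MulAut G := MulDistribMulAction.toMulAut (Equiv.Perm (Fin 3)) G
  have hφ : ∀ a g, φ a g = a • g := fun a g => rfl
  let H : Subgroup (G ⋊[φ] Equiv.Perm (Fin 3)) := (SemidirectProduct.inl : G →* G ⋊[φ] Equiv.Perm (Fin 3)).range
  have hinj : Function.Injective (SemidirectProduct.inl : G →* G ⋊[φ] Equiv.Perm (Fin 3)) := SemidirectProduct.inl_injective
  have hcard : Nat.card H = Nat.card G := Nat.card_congr (MonoidHom.ofInjective hinj).toEquiv.symm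
  haveI : Finite (G ⋊[φ] Equiv.Perm (Fin 3)) := Finite.of_equiv _ SemidirectProduct.equivProd.symm
  have hHn : H.Normal := by
    have : H = (SemidirectProduct.rightHom : G ⋊[φ] Equiv.Perm (Fin 3) →* Equiv.Perm (Fin 3)).ker :=
      SemidirectProduct.range_inl_eq_ker_rightHom
    rw [this]; infer_instance
  have hHs : Group.IsSolvable H :=
    Group.isSolvable_of_surjective (f := (SemidirectProduct.inl : G →* G ⋊[φ] Equiv.Perm (Fin 3)).rangeRestrict)
      (MonoidHom.rangeRestrict_surjective _)
  have key := Cfsg.Agent.H24.SThree.main _ (G ⋊[φ] Equiv.Perm (Fin 3)) SemidirectProduct.inr H rfl hHn (by rw [hcard]; exact hcop)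
    (by
      rintro _ ⟨g, rfl⟩ hc
      have : g = 1 := hfpf g (fun a => by
        have h1 := hc a
        have h2 := SemidirectProduct.inl_aut (φ := φ) a g
        rw [h1, mul_assoc, ← map_mul, mul_inv_cancel, map_one, mul_one] at h2
        rw [← hφ]
        exact hinj h2)
      rw [this, map_one]) hHs
  have h1 : (commutator G).map (SemidirectProduct.inl : G →* G ⋊[φ] Equiv.Perm (Fin 3)) = ⁅H, H⁆ := by
    rw [commutator_def, Subgroup.map_commutator, ← MonoidHom.range_eq_map]
  rw [← h1] at key
  exact (Group.isNilpotent_congr ((commutator G).equivMapOfInjective _ hinj)).2 key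

end Cfsg.Agent.S4305
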