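import Cfsg.Statements.S4321
import Cfsg.Agent.H23_PSing2


set_option autoImplicit false
open Cfsg

namespace Cfsg.Agent.S4321
open Subgroup in
theorem walk2 {G : Type*} [Group G] [Finite G] {p : ℕ} [Fact p.Prime]
    (hZ : ¬ p ∣ Nat.card (center G)) {g h : G} (hg : p ∣ orderOf g) (hh : p ∣ orderOf h) {r s : ℕ}
    (hr : r ∣ (centralizer ({g} : Set G)).index) (hs : s ∣ (centralizer ({h} : Set G)).index) :
    ∃ t u : ℕ, t.Prime ∧ u.Prime ∧
      (∃ z : G, p ∣ orderOf z ∧ r ∣ (centralizer ({z} : Set G)).index ∧ t ∣ (centralizer ({z} : Set G)).index) ∧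
      (∃ z : G, p ∣ orderOf z ∧ t ∣ (centralizer ({z} : Set G)).index ∧ u ∣ (centralizer ({z} : Set G)).index) ∧
      (∃ z : G, p ∣ orderOf z ∧ u ∣ (centralizer ({z} : Set G)).index ∧ s ∣ (centralizer ({z} : Set G)).index) := by
  by_cases hc : Nat.Coprime (centralizer ({g} : Set G)).index (centralizer ({h} : Set G)).index
  · by_cases hph : p ∣ (centralizer ({h} : Set G)).index
    · have hpg : ¬ p ∣ (centralizer ({g} : Set G)).index := fun h' =>
        Nat.not_coprime_of_dvd_of_dvd (Fact.out : p.Prime).one_lt h' hph hc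
      obtain ⟨t, u, ht, hu, ⟨z1, a1, a2, a3⟩, ⟨z2, b1, b2, b3⟩, ⟨z3, c1, c2, c3⟩⟩ :=
        H23.PSing.walk hZ hh hg hc.symm hpg hs hr
      exact ⟨u, t, hu, ht, ⟨z3, c1, c3, c2⟩, ⟨z2, b1, b3, b2⟩, ⟨z1, a1, a3, a2⟩⟩
    · exact H23.PSing.walk hZ hg hh hc hph hr hs
  · obtain ⟨t, ht, ht1, ht2⟩ := Nat.Prime.not_coprime_iff_dvd.mp hc
    exact ⟨t, t, ht, ht, ⟨g, hg, hr, ht1⟩, ⟨g, hg, ht1, ht1⟩, ⟨h, hh, ht2, hs⟩⟩

/-- Let `G` be a finite group and `p` a prime not dividing the order of the centre of `G`. Consider the primes dividing the size of some conjugacy class of a `p`-singular element (an element of order divisible by `p`), two of them adjacent when their product divides such a class size. Then any two distinct such primes are joined by a path with at most 3 edges (the graph is connected of diameter at most 3). -/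
theorem result {G : Type*} [Group G] [Finite G] (p : ℕ) [Fact p.Prime]
    (hZ : ¬ p ∣ Nat.card ↥(Subgroup.center G)) (r s : ℕ) (hr : (r.Prime ∧ ∃ x : G, p ∣ orderOf x ∧ r ∣ (Subgroup.centralizer ({x} : Set G)).index)) (hs : (s.Prime ∧ ∃ x : G, p ∣ orderOf x ∧ s ∣ (Subgroup.centralizer ({x} : Set G)).index)) (hrs : r ≠ s) :
    (∃ x : G, p ∣ orderOf x ∧ r * s ∣ (Subgroup.centralizer ({x} : Set G)).index) ∨ (∃ t : ℕ, (t.Prime ∧ ∃ x : G, p ∣ orderOf x ∧ t ∣ (Subgroup.centralizer ({x} : Set G)).index) ∧ t ≠ r ∧ t ≠ s ∧ (∃ x : G, p ∣ orderOf x ∧ r * t ∣ (Subgroup.centralizer ({x} : Set G)).index) ∧ (∃ x : G, p ∣ orderOf x ∧ t * s ∣ (Subgroup.centralizer ({x} : Set G)).index)) ∨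
      (∃ t u : ℕ, (t.Prime ∧ ∃ x : G, p ∣ orderOf x ∧ t ∣ (Subgroup.centralizer ({x} : Set G)).index) ∧ (u.Prime ∧ ∃ x : G, p ∣ orderOf x ∧ u ∣ (Subgroup.centralizer ({x} : Set G)).index) ∧ t ≠ r ∧ u ≠ s ∧ t ≠ u ∧ (∃ x : G, p ∣ orderOf x ∧ r * t ∣ (Subgroup.centralizer ({x} : Set G)).index) ∧ (∃ x : G, p ∣ orderOf x ∧ t * u ∣ (Subgroup.centralizer ({x} : Set G)).index) ∧ (∃ x : G, p ∣ orderOf x ∧ u * s ∣ (Subgroup.centralizer ({x} : Set G)).index)) := by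
  obtain ⟨hrp, g, hg, hrg⟩ := hr
  obtain ⟨hsp, h, hh, hsh⟩ := hs
  obtain ⟨t, u, ht, hu, ⟨z1, a1, a2, a3⟩, ⟨z2, b1, b2, b3⟩, ⟨z3, c1, c2, c3⟩⟩ := walk2 hZ hg hh hrg hsh
  have adj : ∀ a b : ℕ, a.Prime → b.Prime → a ≠ b → ∀ z : G, p ∣ orderOf z →
      a ∣ (Subgroup.centralizer ({z} : Set G)).index → b ∣ (Subgroup.centralizer ({z} : Set G)).index →
      ∃ x : G, p ∣ orderOf x ∧ a * b ∣ (Subgroup.centralizer ({x} : Set G)).index := by
    intro a b ha hb hab z hz h1 h2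
    exact ⟨z, hz, Nat.Coprime.mul_dvd_of_dvd_of_dvd ((Nat.coprime_primes ha hb).mpr hab) h1 h2⟩
  by_cases e1 : r = t
  · subst e1
    by_cases e2 : r = u
    · subst e2
      left
      exact adj r s hrp hsp hrs z3 c1 c2 c3
    · by_cases e3 : u = s
      · subst e3
        left
        exact adj r u hrp hsp hrs z2 b1 b2 b3
      · right; left
        exact ⟨u, ⟨hu, z2, b1, b3⟩, Ne.symm e2, e3, adj r u hrp hu e2 z2 b1 b2 b3, adj u s hu hsp e3 z3 c1 c2 c3⟩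
  · by_cases e2 : t = s
    · subst e2
      left
      exact adj r t hrp hsp hrs z1 a1 a2 a3
    · by_cases e3 : u = s
      · subst e3
        right; left
        exact ⟨t, ⟨ht, z1, a1, a3⟩, Ne.symm e1, e2, adj r t hrp ht e1 z1 a1 a2 a3, adj t u ht hsp e2 z2 b1 b2 b3⟩
      · by_cases e4 : t = u
        · subst e4
          right; left
          exact ⟨t, ⟨ht, z1, a1, a3⟩, Ne.symm e1, e2, adj r t hrp ht e1 z1 a1 a2 a3, adj t s ht hsp e2 z3 c1 c2 c3⟩
        · right; right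
          exact ⟨t, u, ⟨ht, z1, a1, a3⟩, ⟨hu, z3, c1, c2⟩, Ne.symm e1, e3, e4, adj r t hrp ht e1 z1 a1 a2 a3,
            adj t u ht hu e4 z2 b1 b2 b3, adj u s hu hsp e3 z3 c1 c2 c3⟩


end Cfsg.Agent.S4321
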