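import Cfsg.Statements.S4421
import Mathlib

set_option autoImplicit false
open Cfsg

namespace Cfsg.Agent.S4421

/-- A factorization of a normalizer from two-step control of fusion. Let `G` be a finite group and `A ≤ S ≤ H` subgroups of `G` such that: (i) `S` controls the `G`-fusion of `A` in the sense that every `G`-conjugate of `A` lying in `S` is an `S`-conjugate of `A`; (ii) `H` controls the `G`-fusion of `S` in the same sense; (iii) every conjugate of `S` by an element of the normalizer of `A` lies in `H`. Then `N_G(A) = N_H(A) · (N_G(S) ∩ N_G(A))`: every element of the normalizer of `A` is a product of an element of `H` normalizing `A` and an element normalizing both `S` and `A`. -/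
theorem result {G : Type*} [Group G] [Finite G] (A S H : Subgroup G)
    (hAS : A ≤ S) (hSH : S ≤ H)
    (h1 : ∀ g : G, A.map (MulAut.conj g).toMonoidHom ≤ S → ∃ s ∈ S, A.map (MulAut.conj g).toMonoidHom = A.map (MulAut.conj s).toMonoidHom)
    (h2 : ∀ g : G, S.map (MulAut.conj g).toMonoidHom ≤ H → ∃ y ∈ H, S.map (MulAut.conj g).toMonoidHom = S.map (MulAut.conj y).toMonoidHom)
    (h3 : ∀ x ∈ Subgroup.normalizer (A : Set G), S.map (MulAut.conj x).toMonoidHom ≤ H) :
    ∀ x ∈ Subgroup.normalizer (A : Set G), ∃ y ∈ H ⊓ Subgroup.normalizer (A : Set G),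
      ∃ z ∈ Subgroup.normalizer (S : Set G) ⊓ Subgroup.normalizer (A : Set G), x = y * z := by
  have hmap : ∀ (K : Subgroup G) (g x : G), x ∈ K.map (MulAut.conj g).toMonoidHom ↔ g⁻¹ * x * g ∈ K := by
    intro K g x
    constructor
    · rintro ⟨y, hy, rfl⟩
      simp only [MulEquiv.toMonoidHom_eq_coe, MonoidHom.coe_coe, MulAut.conj_apply]
      have : g⁻¹ * (g * y * g⁻¹) * g = y := by group
      rw [this]; exact hy
    · intro h
      refine ⟨_, h, ?_⟩
      simp only [MulEquiv.toMonoidHom_eq_coe, MonoidHom.coe_coe, MulAut.conj_apply]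
      group
  intro x hx
  obtain ⟨y, hy, hyx⟩ := h2 x (h3 x hx)
  have hxA : ∀ a : G, a ∈ A ↔ x * a * x⁻¹ ∈ A := Subgroup.mem_normalizer_iff.mp hx
  set z := y⁻¹ * x with hz
  have hzS : ∀ s : G, s ∈ S ↔ z * s * z⁻¹ ∈ S := by
    intro s
    have h4 : x * s * x⁻¹ ∈ S.map (MulAut.conj x).toMonoidHom ↔ s ∈ S := by
      rw [hmap]
      have : x⁻¹ * (x * s * x⁻¹) * x = s := by group
      rw [this]
    rw [← h4, hyx, hmap]
    have : y⁻¹ * (x * s * x⁻¹) * y = z * s * z⁻¹ := by rw [hz]; group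
    rw [this]
  have hzA : A.map (MulAut.conj z).toMonoidHom ≤ S := by
    rintro _ ⟨a, ha, rfl⟩
    exact (hzS a).mp (hAS ha)
  obtain ⟨s, hs, hsz⟩ := h1 z hzA
  have hw : s⁻¹ * z ∈ Subgroup.normalizer (A : Set G) := by
    rw [Subgroup.mem_normalizer_iff]
    intro a
    have h4 : z * a * z⁻¹ ∈ A.map (MulAut.conj z).toMonoidHom ↔ a ∈ A := by
      rw [hmap]
      have : z⁻¹ * (z * a * z⁻¹) * z = a := by group
      rw [this]
    rw [← h4, hsz, hmap]
    have : s⁻¹ * (z * a * z⁻¹) * s = s⁻¹ * z * a * (s⁻¹ * z)⁻¹ := by group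
    rw [this]
  refine ⟨y * s, ⟨H.mul_mem hy (hSH hs), ?_⟩, s⁻¹ * z, ⟨?_, hw⟩, by rw [hz]; group⟩
  · have e : y * s = x * (s⁻¹ * z)⁻¹ := by rw [hz]; group
    rw [e]
    exact Subgroup.mul_mem _ hx (Subgroup.inv_mem _ hw)
  · change _ ∈ Subgroup.normalizer (S : Set G)
    rw [Subgroup.mem_normalizer_iff]
    intro t
    rw [hzS t]
    have e : s⁻¹ * z * t * (s⁻¹ * z)⁻¹ = s⁻¹ * (z * t * z⁻¹) * s := by group
    rw [e]
    constructor
    · intro h
      exact S.mul_mem (S.mul_mem (S.inv_mem hs) h) hs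
    · intro h
      have := S.mul_mem (S.mul_mem hs h) (S.inv_mem hs)
      have e2 : s * (s⁻¹ * (z * t * z⁻¹) * s) * s⁻¹ = z * t * z⁻¹ := by group
      rwa [e2] at this

end Cfsg.Agent.S4421
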