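import Cfsg.Statements.S4422
import Cfsg.Agent.H24_Zsig

set_option autoImplicit false
open Cfsg

namespace Cfsg.Agent.S4422

/-- Primitive divisors of `q^e - 1` are congruent to 1 modulo `e`. Let `q ≥ 2` and `e ≥ 1` be natural numbers and let `m` be a divisor of `q^e - 1` that is coprime to `q^i - 1` for every `1 ≤ i < e` (so `m` divides the primitive part of `q^e - 1`, the largest such divisor). Then `m ≡ 1 (mod e)`. -/
theorem result (q e m : ℕ) (hq : 2 ≤ q) (he : 1 ≤ e)
    (hm : m ∣ q ^ e - 1) (hcop : ∀ i : ℕ, 1 ≤ i → i < e → Nat.Coprime m (q ^ i - 1)) :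
    m % e = 1 % e := by
  -- every prime divisor of `m` is `1` modulo `e`
  have hprime : ∀ l : ℕ, l.Prime → l ∣ m → l ≡ 1 [MOD e] := by
    intro l hl hlm
    have : Fact l.Prime := ⟨hl⟩
    have h1 : orderOf (q : ZMod l) ∣ e :=
      (Cfsg.Agent.H24.Zsig.prime_dvd_pow_sub_one_iff hl (by omega)).mp (hlm.trans hm)
    have h2 : orderOf (q : ZMod l) = e := by
      have hpos : 0 < orderOf (q : ZMod l) := Nat.pos_of_dvd_of_pos h1 (by omega)
      have hle := Nat.le_of_dvd (by omega) h1
      by_contra hne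
      have h3 : l ∣ q ^ (orderOf (q : ZMod l)) - 1 :=
        (Cfsg.Agent.H24.Zsig.prime_dvd_pow_sub_one_iff hl (by omega)).mpr dvd_rfl
      have h4 := hcop _ hpos (by omega)
      have h5 := Nat.dvd_gcd hlm h3
      rw [h4] at h5
      exact hl.ne_one (Nat.dvd_one.mp h5)
    have hq0 : (q : ZMod l) ≠ 0 := by
      intro h0
      have := pow_orderOf_eq_one (q : ZMod l)
      rw [h0, orderOf_zero] at this
      rw [h0, orderOf_zero] at h2
      omega
    have h6 : orderOf (q : ZMod l) ∣ l - 1 := ZMod.orderOf_dvd_card_sub_one hq0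
    rw [h2] at h6
    exact ((Nat.modEq_iff_dvd' hl.one_le).mpr h6).symm
  have hm0 : m ≠ 0 := by
    rintro rfl
    rw [zero_dvd_iff] at hm
    have : 1 < q ^ e := Nat.one_lt_pow (by omega) (by omega)
    omega
  have key : ∀ m : ℕ, m ≠ 0 → (∀ l : ℕ, l.Prime → l ∣ m → l ≡ 1 [MOD e]) → m ≡ 1 [MOD e] := by
    intro m
    induction m using Nat.recOnMul with
    | zero => intro h; exact absurd rfl h
    | one => intro _ _; exact Nat.ModEq.refl 1
    | prime p hp => intro _ h; exact h p hp dvd_rfl
    | mul a b iha ihb =>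
      intro h0 h
      have ha := iha (by rintro rfl; simp at h0) (fun l hl hla => h l hl (hla.mul_right _))
      have hb := ihb (by rintro rfl; simp at h0) (fun l hl hla => h l hl (hla.mul_left _))
      simpa using ha.mul hb
  exact key m hm0 hprime

end Cfsg.Agent.S4422
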