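import Cfsg.Statements.S4423
import Cfsg.Agent.H24_Zsig2

set_option autoImplicit false
open Cfsg

namespace Cfsg.Agent.S4423

/-- Size of the primitive part of `q^e - 1`. For a prime power `q` and `e ≥ 3`, call a divisor of `q^e - 1` primitive when it is coprime to `q^i - 1` for every `1 ≤ i < e`; the primitive part is the largest primitive divisor. Apart from thirteen exceptional pairs, the primitive part is at least `3e + 1`: there is a primitive divisor `m ≥ 3e + 1` unless `(q, e)` is `(2, 6)` (where every primitive divisor is 1), one of `(2,4), (2,10), (2,12), (2,18), (3,4), (3,6), (5,6)` (where the primitive part is exactly `e + 1`), or one of `(2,3), (2,8), (2,20), (4,3), (4,6)` (where it is exactly `2e + 1`). The statement asserts the existence of a primitive divisor `m ≥ 3e + 1` outside the thirteen pairs, and that every primitive divisor is at most `2e + 1` for the thirteen pairs. -/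
theorem result (q e : ℕ) (hq : IsPrimePow q) (he : 3 ≤ e) :
    ((q, e) ∉ [(2, 6), (2, 4), (2, 10), (2, 12), (2, 18), (3, 4), (3, 6), (5, 6), (2, 3), (2, 8), (2, 20), (4, 3), (4, 6)] →
      ∃ m : ℕ, m ∣ q ^ e - 1 ∧ (∀ i : ℕ, 1 ≤ i → i < e → Nat.Coprime m (q ^ i - 1)) ∧ 3 * e + 1 ≤ m) ∧
    ((q, e) ∈ [(2, 6), (2, 4), (2, 10), (2, 12), (2, 18), (3, 4), (3, 6), (5, 6), (2, 3), (2, 8), (2, 20), (4, 3), (4, 6)] →
      ∀ m : ℕ, m ∣ q ^ e - 1 → (∀ i : ℕ, 1 ≤ i → i < e → Nat.Coprime m (q ^ i - 1)) → m ≤ 2 * e + 1) := by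
  have h2q : 2 ≤ q := hq.two_le
  constructor
  · intro h
    exact Cfsg.Agent.H24.Zsig2.large_prim_part q e h2q he h
  · intro h m hm hc
    have key : ∀ (q e a k : ℕ), q ^ e - 1 = a * k → (∀ l : ℕ, l.Prime → l ∣ k → ∃ i : ℕ, 1 ≤ i ∧ i < e ∧ l ∣ q ^ i - 1) →
        m ∣ q ^ e - 1 → (∀ i : ℕ, 1 ≤ i → i < e → Nat.Coprime m (q ^ i - 1)) → 0 < a → a ≤ 2 * e + 1 →
        m ≤ 2 * e + 1 := by
      intro q e a k h1 h2 h3 h4 h5 h6
      have h7 : Nat.Coprime m k := by
        by_contra hnc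
        obtain ⟨l, hl, hlg⟩ := Nat.exists_prime_and_dvd hnc
        obtain ⟨i, hi1, hi2, hi3⟩ := h2 l hl (hlg.trans (Nat.gcd_dvd_right _ _))
        have := Nat.dvd_gcd (hlg.trans (Nat.gcd_dvd_left _ _)) hi3
        rw [h4 i hi1 hi2] at this
        exact hl.ne_one (Nat.dvd_one.mp this)
      rw [h1] at h3
      exact (Nat.le_of_dvd h5 (h7.dvd_of_dvd_mul_right h3)).trans h6
    have key2 : ∀ (q e a k i j : ℕ), q ^ e - 1 = a * k → k ∣ ((q ^ i - 1) * (q ^ j - 1)) ^ 5 → 1 ≤ i → i < e →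
        1 ≤ j → j < e →
        m ∣ q ^ e - 1 → (∀ i : ℕ, 1 ≤ i → i < e → Nat.Coprime m (q ^ i - 1)) → 0 < a → a ≤ 2 * e + 1 →
        m ≤ 2 * e + 1 := by
      intro q e a k i j h1 h2 hi1 hi2 hj1 hj2 h3 h4 h5 h6
      refine key q e a k h1 ?_ h3 h4 h5 h6
      intro l hl hlk
      have := hl.dvd_of_dvd_pow (hlk.trans h2)
      rcases (Nat.Prime.dvd_mul hl).mp this with h | h
      · exact ⟨i, hi1, hi2, h⟩
      · exact ⟨j, hj1, hj2, h⟩
    simp only [List.mem_cons, Prod.mk.injEq, List.not_mem_nil, or_false] at h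
    rcases h with ⟨rfl, rfl⟩ | ⟨rfl, rfl⟩ | ⟨rfl, rfl⟩ | ⟨rfl, rfl⟩ | ⟨rfl, rfl⟩ | ⟨rfl, rfl⟩ | ⟨rfl, rfl⟩ |
      ⟨rfl, rfl⟩ | ⟨rfl, rfl⟩ | ⟨rfl, rfl⟩ | ⟨rfl, rfl⟩ | ⟨rfl, rfl⟩ | ⟨rfl, rfl⟩
    · exact key2 2 6 1 63 2 3 (by norm_num) (by norm_num) (by norm_num) (by norm_num) (by norm_num) (by norm_num) hm hc (by norm_num) (by norm_num)
    · exact key2 2 4 5 3 2 3 (by norm_num) (by norm_num) (by norm_num) (by norm_num) (by norm_num) (by norm_num) hm hc (by norm_num) (by norm_num)
    · exact key2 2 10 11 93 2 5 (by norm_num) (by norm_num) (by norm_num) (by norm_num) (by norm_num) (by norm_num) hm hc (by norm_num) (by norm_num)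
    · exact key2 2 12 13 315 4 6 (by norm_num) (by norm_num) (by norm_num) (by norm_num) (by norm_num) (by norm_num) hm hc (by norm_num) (by norm_num)
    · exact key2 2 18 19 13797 6 9 (by norm_num) (by norm_num) (by norm_num) (by norm_num) (by norm_num) (by norm_num) hm hc (by norm_num) (by norm_num)
    · exact key2 3 4 5 16 2 3 (by norm_num) (by norm_num) (by norm_num) (by norm_num) (by norm_num) (by norm_num) hm hc (by norm_num) (by norm_num)
    · exact key2 3 6 7 104 2 3 (by norm_num) (by norm_num) (by norm_num) (by norm_num) (by norm_num) (by norm_num) hm hc (by norm_num) (by norm_num)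
    · exact key2 5 6 7 2232 2 3 (by norm_num) (by norm_num) (by norm_num) (by norm_num) (by norm_num) (by norm_num) hm hc (by norm_num) (by norm_num)
    · exact key2 2 3 7 1 1 2 (by norm_num) (by norm_num) (by norm_num) (by norm_num) (by norm_num) (by norm_num) hm hc (by norm_num) (by norm_num)
    · exact key2 2 8 17 15 4 2 (by norm_num) (by norm_num) (by norm_num) (by norm_num) (by norm_num) (by norm_num) hm hc (by norm_num) (by norm_num)
    · exact key2 2 20 41 25575 4 10 (by norm_num) (by norm_num) (by norm_num) (by norm_num) (by norm_num) (by norm_num) hm hc (by norm_num) (by norm_num)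
    · exact key2 4 3 7 9 1 2 (by norm_num) (by norm_num) (by norm_num) (by norm_num) (by norm_num) (by norm_num) hm hc (by norm_num) (by norm_num)
    · exact key2 4 6 13 315 2 3 (by norm_num) (by norm_num) (by norm_num) (by norm_num) (by norm_num) (by norm_num) hm hc (by norm_num) (by norm_num)

end Cfsg.Agent.S4423
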