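import Cfsg.Statements.S4437
import Cfsg.Agent.H25_ExtFMT

set_option autoImplicit false
open Cfsg

namespace Cfsg.Agent.S4437

open Cfsg.Agent.H25.Red Cfsg.Agent.H25.KG Cfsg.Agent.H25.BPTr Cfsg.Agent.H25.BPDef Cfsg.Agent.H25.FMT Cfsg.Agent.H25.IndQ Cfsg.Agent.H25.ExtFMT

/-- Let P be a p-subgroup of the finite group G, H = P·C_G(P), and b a block of H (relative to a maximal ideal M of the algebraic integers containing p) having P as a defect group; let B be the block of G induced by b. Let T be the stabilizer of b in N_G(P): the elements g of N_G(P) such that the g-conjugate of every member of b is again a member of b. Then B has defect group P if and only if p does not divide the index of H in T. -/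
theorem result {G : Type*} [Group G] [Fintype G] (p : ℕ) [Fact p.Prime] (M : Ideal Cfsg.AlgInt) (hM : Cfsg.IsPModular p M) (P : Subgroup G) (hP : IsPGroup p P) (H : Subgroup G) [Fintype H] (hH : H = P ⊔ Subgroup.centralizer (P : Set G)) (b : Set (Cfsg.IrrCharacter H)) (hb : Cfsg.IsPBlock M b) (hbP : Cfsg.IsDefectGroup p M b (P.subgroupOf H)) (B : Set (Cfsg.IrrCharacter G)) (hind : Cfsg.IsInducedBlock M H b B) (T : Subgroup G) (hT : ∀ g : G, g ∈ T ↔ (g ∈ Subgroup.normalizer (P : Set G) ∧ ∀ θ ∈ b, ∀ θ' : Cfsg.IrrCharacter H, (∀ h h' : H, (h' : G) = g * h * g⁻¹ → (θ' : H → ℂ) h' = (θ : H → ℂ) h) → θ' ∈ b)) : Cfsg.IsDefectGroup p M B P ↔ ¬ p ∣ H.relIndex T := by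
  have := hM.2.1
  have := charP_KM M hM
  have hPH : P ≤ H := hH ▸ le_sup_left
  have hCH : Ce P ≤ H := hH ▸ le_sup_right
  have hHN : H ≤ Nm P := hH.le.trans (sup_le Subgroup.le_normalizer (Ce_le_Nm P))
  have hB := hind.2.1
  rw [defectH_iff' hM hb hPH] at hbP
  have hbe := isBlk_ep hb
  have heC : IsBlk (Ce P) (ep M H b) := blk_of_PC hM hP hPH hCH hH.le hbe
  rw [ind_iff hM hP hPH hCH hHN hb hB] at hind
  have hbp : BP p (epG M B) P (ep M H b) := ⟨hP, isBlk_epG hB, heC, hind⟩
  have hT' : ∀ g, g ∈ T ↔ g ∈ Nm P ∧ cnj g (ep M H b) = ep M H b := by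
    intro g
    rw [hT]
    apply and_congr_right
    intro hg
    have hHg : H25.KG.cs g H = H := by
      rw [hH, H25.KG.cs, Subgroup.map_sup]
      change H25.KG.cs g P ⊔ H25.KG.cs g (Ce P) = _
      rw [mem_normalizer_iff_cs.1 hg, cs_Nm_Ce hg]
    have hc : H = H25.KG.cs g H := hHg.symm
    rw [← ep_conj g hc]
    constructor
    · intro h
      obtain ⟨θ, hθ⟩ := H10.BlockIdem.block_nonempty hb
      have h1 := h θ hθ (H10.BlockEFM.tr (cI g hc).symm θ) (fun x x' hx => by
        have hx' : x' = cI g hc x := Subtype.ext hx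
        rw [H10.BlockEFM.tr_apply, hx', MulEquiv.symm_apply_apply])
      rw [H10.BlockIdem.block_eq_of_mem (isPBlock_tB (cI g hc) hb) hb (tr_mem_tB (cI g hc) hθ) h1]
    · intro h θ hθ θ' hθ'
      have h1 := ep_inj (isPBlock_tB (cI g hc) hb) hb h
      rw [← h1]
      exact ⟨θ, hθ, fun x => hθ' x _ rfl⟩
  rw [← top_iff hM hP hH hbe hbP hT', defectG_iff hM hB]
  constructor
  · intro h; exact top_of_dgh h hbp
  · intro h; exact Cfsg.Agent.H25.BPDef.Top.dgh h hbp

end Cfsg.Agent.S4437
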