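import Cfsg.Statements.S4446
import Cfsg.Agent.H3_GlCyc3

set_option autoImplicit false
open Cfsg

namespace Cfsg.Agent.S4446

open Cfsg.Agent.H3.CharBasic Cfsg.Agent.H3.CharIrr Cfsg.Agent.H25.Glaub Cfsg.Agent.H3.GlCyc

/-- Let the finite group Γ be generated by a normal subgroup G and a cyclic subgroup S of coprime orders, C = G ⊓ C(S), and let χ be an S-invariant irreducible character of G with canonical extension χ̂ to Γ (the extension whose determinantal order is coprime to the order of S). Then there are exactly one irreducible character β of C and one sign ε such that χ̂(c s) = ε β(c) for every c ∈ C and every generator s of S; this β is a constituent of the restriction of χ to C; distinct S-invariant χ give distinct β; and every irreducible character of C arises in this way. -/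
theorem result {Γ : Type*} [Group Γ] [Fintype Γ] (G S : Subgroup Γ) [Fintype G] (hnorm : ∀ s ∈ S, ∀ g ∈ G, s * g * s⁻¹ ∈ G) (hcop : (Nat.card G).Coprime (Nat.card S)) (htop : G ⊔ S = ⊤) (hcyc : IsCyclic S) (C : Subgroup Γ) [Fintype C] (hC : C = G ⊓ Subgroup.centralizer (S : Set Γ)) (hCG : C ≤ G) : (∀ (χ : Cfsg.IrrCharacter G) (χh : Cfsg.IrrCharacter Γ), (∀ s ∈ S, ∀ g g' : G, (g' : Γ) = s * g * s⁻¹ → (χ : G → ℂ) g' = (χ : G → ℂ) g) → (∀ g : G, (χh : Γ → ℂ) g = (χ : G → ℂ) g) → (Cfsg.detOrder (χh : Γ → ℂ)).Coprime (Nat.card S) → (∃! βε : Cfsg.IrrCharacter C × ℤ, (βε.2 = 1 ∨ βε.2 = -1) ∧ ∀ c : C, ∀ s : Γ, Subgroup.zpowers s = S → (χh : Γ → ℂ) ((c : Γ) * s) = (βε.2 : ℂ) * (βε.1 : C → ℂ) c) ∧ ∀ β : Cfsg.IrrCharacter C, ∀ ε : ℤ, (ε = 1 ∨ ε = -1) → (∀ c : C, ∀ s : Γ, Subgroup.zpowers s = S → (χh : Γ → ℂ) ((c : Γ) * s) = (ε : ℂ) * (β : C → ℂ) c) → Cfsg.classInner (fun c :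 C => (χ : G → ℂ) ⟨c, hCG c.2⟩) (β : C → ℂ) ≠ 0) ∧ (∀ (χ χ' : Cfsg.IrrCharacter G) (χh χh' : Cfsg.IrrCharacter Γ), (∀ s ∈ S, ∀ g g' : G, (g' : Γ) = s * g * s⁻¹ → (χ : G → ℂ) g' = (χ : G → ℂ) g) → (∀ s ∈ S, ∀ g g' : G, (g' : Γ) = s * g * s⁻¹ → (χ' : G → ℂ) g' = (χ' : G → ℂ) g) → (∀ g : G, (χh : Γ → ℂ) g = (χ : G → ℂ) g) → (∀ g : G, (χh' : Γ → ℂ) g = (χ' : G → ℂ) g) → (Cfsg.detOrder (χh : Γ → ℂ)).Coprime (Nat.card S) → (Cfsg.detOrder (χh' : Γ → ℂ)).Coprime (Nat.card S) → ∀ β : Cfsg.IrrCharacter C, ∀ ε ε' : ℤ, (ε = 1 ∨ ε = -1) → (ε' = 1 ∨ ε' = -1) → (∀ c : C, ∀ s : Γ, Subgroup.zpowers s = S → (χh : Γ → ℂ) ((c : Γ) * s) = (ε : ℂ) * (β : C → ℂ) c) → (∀ c : C, ∀ s : Γ, Subgroup.zpowers s = S → (χh' : Γ → ℂ) ((c : Γ) * s) = (ε' : ℂ) * (β : C → ℂ) c) → χ = χ') ∧ (∀ β : Cfsg.IrrCharacter C, ∃ (χ : Cfsg.IrrCharacter G) (χh : Cfsg.IrrCharacter Γ) (ε : ℤ), (∀ s ∈ S, ∀ g g' : G,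 (g' : Γ) = s * g * s⁻¹ → (χ : G → ℂ) g' = (χ : G → ℂ) g) ∧ (∀ g : G, (χh : Γ → ℂ) g = (χ : G → ℂ) g) ∧ (Cfsg.detOrder (χh : Γ → ℂ)).Coprime (Nat.card S) ∧ (ε = 1 ∨ ε = -1) ∧ ∀ c : C, ∀ s : Γ, Subgroup.zpowers s = S → (χh : Γ → ℂ) ((c : Γ) * s) = (ε : ℂ) * (β : C → ℂ) c) := by
  classical
  obtain ⟨g, hg⟩ := hcyc.exists_generator
  have hs0 : Subgroup.zpowers (g : Γ) = S := by
    ext x
    constructor
    · rintro ⟨k, rfl⟩; exact S.zpow_mem g.2 k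
    · intro hx
      obtain ⟨k, hk⟩ := hg ⟨x, hx⟩
      exact ⟨k, by simpa using congrArg (fun z : S => (z : Γ)) hk⟩
  have hs0S : (g : Γ) ∈ S := g.2
  refine ⟨?_, ?_, ?_⟩
  · intro χ χh hinv hext hdet
    have hres : (fun g : G => (χh : Γ → ℂ) g) = (χ : G → ℂ) := funext hext
    have hr : Cfsg.IsIrrCharacter G (fun g : G => (χh : Γ → ℂ) g) := by rw [hres]; exact χ.2
    refine ⟨?_, ?_⟩
    · obtain ⟨β, ε, hε, h⟩ := exists_main hnorm hcop htop hC hs0 χh.2 hr hdet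
      refine ⟨(β, ε), ⟨hε, h⟩, ?_⟩
      rintro ⟨β', ε'⟩ ⟨hε', h'⟩
      obtain ⟨h1, h2⟩ := sign_unique β'.2 β.2 hε' hε (fun c => by
        rw [← h c _ hs0]; exact (h' c _ hs0).symm)
      exact Prod.ext (Subtype.ext h1) h2
    · intro β ε hε h
      have h1 := constituent hC hs0S χh.2 β.2 hε (fun c => h c _ hs0)
      have h2 : (fun c : C => (χ : G → ℂ) ⟨c, hCG c.2⟩) = fun c : C => (χh : Γ → ℂ) c := by
        funext c
        exact (hext ⟨c, hCG c.2⟩).symm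
      rw [h2]
      exact h1
  · intro χ χ' χh χh' hinv hinv' hext hext' hdet hdet' β ε ε' hε hε' h h'
    have hres : (fun g : G => (χh : Γ → ℂ) g) = (χ : G → ℂ) := funext hext
    have hres' : (fun g : G => (χh' : Γ → ℂ) g) = (χ' : G → ℂ) := funext hext'
    apply Subtype.ext
    rw [← hres, ← hres']
    exact injective hnorm hcop htop hC hs0 χh.2 χh'.2 (by rw [hres]; exact χ.2) (by rw [hres']; exact χ'.2) β.2 hε hε'
      (fun c => h c _ hs0) (fun c => h' c _ hs0)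
  · intro β
    exact surjective hnorm hcop htop hC hcyc β

end Cfsg.Agent.S4446
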