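import Cfsg.Statements.S4447
import Cfsg.Agent.H3_GlInv

set_option autoImplicit false
open Cfsg

namespace Cfsg.Agent.S4447

open Cfsg.Agent.H3.GlInv Cfsg.Agent.H25.GlaubCore

/-- Inside a finite group Γ let S normalise G and also normalise a normal subgroup N of G, with the order of S coprime to the index of N in G and S or G/N solvable. Then for every S-invariant irreducible character χ of G, the restriction of χ to N has an S-invariant irreducible constituent. -/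
theorem result {Γ : Type*} [Group Γ] [Fintype Γ] (G S N : Subgroup Γ) [Fintype G] [Fintype N] (hnorm : ∀ s ∈ S, ∀ g ∈ G, s * g * s⁻¹ ∈ G) (hNG : N ≤ G) [hNn : (N.subgroupOf G).Normal] (hNS : ∀ s ∈ S, ∀ n ∈ N, s * n * s⁻¹ ∈ N) (hcop : (N.relIndex G).Coprime (Nat.card S)) (hsolv : Group.IsSolvable S ∨ Group.IsSolvable (G ⧸ N.subgroupOf G)) (χ : Cfsg.IrrCharacter G) (hinv : (∀ s ∈ S, ∀ g g' : G, (g' : Γ) = s * g * s⁻¹ → (χ : G → ℂ) g' = (χ : G → ℂ) g)) : ∃ θ : Cfsg.IrrCharacter N, Cfsg.classInner (fun n : N => (χ : G → ℂ) ⟨n, hNG n.2⟩) (θ : N → ℂ) ≠ 0 ∧ (∀ s ∈ S, ∀ g g' : N, (g' : Γ) = s * g * s⁻¹ → (θ : N → ℂ) g' = (θ : N → ℂ) g) := by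
  have hGN : Cfsg.Agent.H25.Glaub2.Nrm G N := fun g hg n hn =>
    Subgroup.mem_subgroupOf.mp (hNn.conj_mem ⟨n, hNG hn⟩ (Subgroup.mem_subgroupOf.mpr hn) ⟨g, hg⟩)
  obtain ⟨θ, h1, h2⟩ := down (G := G) (S := S) (N := N) hnorm hNS hNG hGN hcop (hsolv.imp id fun h _ => h) χ hinv
  refine ⟨θ, ?_, h2⟩
  have h3 := mlt_spec (Subgroup.inclusion hNG) χ θ
  intro h0
  apply h1
  have h4 : (fun c : N => (χ : G → ℂ) (Subgroup.inclusion hNG c)) = fun n : N => (χ : G → ℂ) ⟨n, hNG n.2⟩ := rfl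
  rw [h4, h0] at h3
  exact_mod_cast h3.symm

end Cfsg.Agent.S4447
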