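import Cfsg.Statements.S4451
import Cfsg.Agent.H3_GlCyc4

set_option autoImplicit false
open Cfsg

namespace Cfsg.Agent.S4451

open Cfsg.Agent.H3.CharBasic Cfsg.Agent.H3.CharIrr Cfsg.Agent.H3.CharComplete Cfsg.Agent.H3.CharInd Cfsg.Agent.H25.Glaub Cfsg.Agent.H3.GlCyc

/-- Let the finite group Γ be generated by a normal subgroup G and a cyclic subgroup S of coprime orders such that every non-identity element of S has the same centraliser C = G ⊓ C(S) in G. Let χ be an S-invariant irreducible character of G, χ̂ its canonical extension to Γ (determinantal order coprime to the order of S), and β the irreducible character of C with χ̂(c s) = ε₀ β(c) for c ∈ C and generators s of S (ε₀ = ±1). Then there are a sign ε = ±1, which may differ from ε₀, and a linear character μ of S with μ² = 1, such that: (a) χ̂(c x) = ε β(c) μ(x) for all c ∈ C and all x ∈ S other than 1; (b) the restriction of χ to C equals |S|·ϑ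 + ε β for some character ϑ of C or ϑ = 0; (c) |S| divides χ(1) − ε β(1). -/
theorem result {Γ : Type*} [Group Γ] [Fintype Γ] (G S : Subgroup Γ) [Fintype G] (hnorm : ∀ s ∈ S, ∀ g ∈ G, s * g * s⁻¹ ∈ G) (hcop : (Nat.card G).Coprime (Nat.card S)) (htop : G ⊔ S = ⊤) (hcyc : IsCyclic S) (C : Subgroup Γ) [Fintype C] (hC : C = G ⊓ Subgroup.centralizer (S : Set Γ)) (hCG : C ≤ G) (hfpf : ∀ x ∈ S, x ≠ 1 → G ⊓ Subgroup.centralizer ({x} : Set Γ) = C) (χ : Cfsg.IrrCharacter G) (hinv : (∀ s ∈ S, ∀ g g' : G, (g' : Γ) = s * g * s⁻¹ → (χ : G → ℂ) g' = (χ : G → ℂ) g)) (χh : Cfsg.IrrCharacter Γ) (hext : (∀ g : G, (χh : Γ → ℂ) g = (χ : G → ℂ) g)) (hdet : (Cfsg.detOrder (χh : Γ → ℂ)).Coprime (Nat.card S)) (β : Cfsg.IrrCharacter C) (ε₀ : ℤ) (hε₀ : ε₀ = 1 ∨ ε₀ = -1) (hβ : ∀ c : C, ∀ s : Γ, Subgroup.zpowers s = S → (χh : Γ → ℂ) ((c : Γ) * s) = (ε₀ : ℂ) * (β : C → ℂ) c) : ∃ ε : ℤ, (ε = 1 ∨ ε = -1) ∧ (∃ μ : S → ℂ, Cfsg.IsCharacter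 S μ ∧ μ 1 = 1 ∧ (∀ x : S, μ x * μ x = 1) ∧ ∀ c : C, ∀ x : S, x ≠ 1 → (χh : Γ → ℂ) ((c : Γ) * x) = (ε : ℂ) * (β : C → ℂ) c * μ x) ∧ (∃ ϑ : C → ℂ, Cfsg.IsCharacter C ϑ ∧ (fun c : C => (χ : G → ℂ) ⟨c, hCG c.2⟩) = fun c => (Nat.card S : ℂ) * ϑ c + (ε : ℂ) * (β : C → ℂ) c) ∧ (Nat.card S : ℤ) ∣ (Cfsg.charDegree (χ : G → ℂ) : ℤ) - ε * (Cfsg.charDegree (β : C → ℂ) : ℤ) := by
  classical
  have : Fintype S := Fintype.ofFinite _
  have : Fintype (Cfsg.IrrCharacter S) := Fintype.ofFinite _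
  have : Fintype (Cfsg.IrrCharacter C) := Fintype.ofFinite _
  obtain ⟨g, hg⟩ := hcyc.exists_generator
  have hs0 : Subgroup.zpowers (g : Γ) = S := by
    ext x
    constructor
    · rintro ⟨k, rfl⟩; exact S.zpow_mem g.2 k
    · intro hx
      obtain ⟨k, hk⟩ := hg ⟨x, hx⟩
      exact ⟨k, by simpa using congrArg (fun z : S => (z : Γ)) hk⟩
  have hG : G.Normal := normal_of hnorm htop
  have hidx := index_of hnorm htop hcop
  have hcomm := comm_of hC
  have hcommS : ∀ a b : S, a * b = b * a := (IsCyclic.commGroup (α := S)).mul_comm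
  have hres : (fun g : G => (χh : Γ → ℂ) g) = (χ : G → ℂ) := funext hext
  have hr : Cfsg.IsIrrCharacter G (fun g : G => (χh : Γ → ℂ) g) := by rw [hres]; exact χ.2
  have hresC : (fun c : C => (χ : G → ℂ) ⟨c, hCG c.2⟩) = fun c : C => (χh : Γ → ℂ) c := by
    funext c
    exact (hext ⟨c, hCG c.2⟩).symm
  obtain ⟨dχ, -, hdχ⟩ := IsIrr.one_eq_nat χ.2
  obtain ⟨dβ, -, hdβ⟩ := IsIrr.one_eq_nat β.2
  have hcχ : Cfsg.charDegree (χ : G → ℂ) = dχ := by rw [Cfsg.charDegree, hdχ]; simp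
  have hcβ : Cfsg.charDegree (β : C → ℂ) = dβ := by rw [Cfsg.charDegree, hdβ]; simp
  rw [hcχ, hcβ]
  -- part (c) follows from part (b)
  have hpartc : ∀ (ε : ℤ) (ϑ : C → ℂ), Cfsg.IsCharacter C ϑ → ((fun c : C => (χ : G → ℂ) ⟨c, hCG c.2⟩) = fun c => (Nat.card S : ℂ) * ϑ c + (ε : ℂ) * (β : C → ℂ) c) →
      (Nat.card S : ℤ) ∣ (dχ : ℤ) - ε * (dβ : ℤ) := by
    intro ε ϑ hϑ h
    obtain ⟨dϑ, hdϑ⟩ := IsChar.one_eq_nat hϑ
    have h1 := congrFun h 1
    have h2 : (χ : G → ℂ) ⟨((1 : C) : Γ), hCG (1 : C).2⟩ = dχ := hdχ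
    simp only [h2, hdϑ, hdβ] at h1
    refine ⟨dϑ, ?_⟩
    have h3 : (dχ : ℂ) - ε * dβ = (Nat.card S : ℂ) * dϑ := by rw [h1]; ring
    exact_mod_cast h3
  by_cases hg1 : g = 1
  · -- trivial `S`
    have hS1 : ∀ x : S, x = 1 := by
      intro x
      obtain ⟨k, hk⟩ := hg x
      rw [hg1] at hk
      rw [← hk]; simp
    have h1 : ∀ c : C, (χh : Γ → ℂ) c = (ε₀ : ℂ) * (β : C → ℂ) c := by
      intro c
      have := hβ c g hs0
      rw [hg1] at this
      simpa using this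
    have hb : (fun c : C => (χ : G → ℂ) ⟨c, hCG c.2⟩) = fun c => (Nat.card S : ℂ) * (0 : C → ℂ) c + (ε₀ : ℂ) * (β : C → ℂ) c := by
      rw [hresC]
      funext c
      rw [h1 c]; simp
    refine ⟨ε₀, hε₀, ⟨fun _ => 1, IsIrr.isCharacter isIrr_one, rfl, fun _ => one_mul 1, fun c x hx => absurd (hS1 x) hx⟩,
      ⟨0, IsChar.zero, hb⟩, hpartc _ _ IsChar.zero hb⟩
  -- coefficients
  choose n hn using fun (β' : Cfsg.IrrCharacter C) (x : S) => aa_int hidx hCG hcomm hcop χh.2 hr hdet β'.2 x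
  have hCx : ∀ x : S, x ≠ 1 → C = G ⊓ Subgroup.centralizer ({(x : Γ)} : Set Γ) := fun x hx =>
    (hfpf x x.2 (fun h => hx (Subtype.ext h))).symm
  have hnorm1 : ∀ x : S, x ≠ 1 → ∑ β' : Cfsg.IrrCharacter C, n β' x * n β' x = 1 := by
    intro x hx
    have h1 := ci_eq_sum (fun c : C => (χh : Γ → ℂ) (c * x)) (fun c : C => (χh : Γ → ℂ) (c * x)) (isClass_CS hcomm χh.2 x.2)
    rw [inner_self hcop χh.2 hr x.2 (hCx x hx)] at h1
    have h3 : (1 : ℂ) = ∑ β' : Cfsg.IrrCharacter C, (n β' x : ℂ) * (n β' x : ℂ) := by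
      rw [h1]
      refine Finset.sum_congr rfl fun β' _ => ?_
      have h4 : Cfsg.classInner (fun c : C => (χh : Γ → ℂ) (c * x)) (β' : C → ℂ) = n β' x := hn β' x
      rw [h4, map_intCast]
    exact_mod_cast h3.symm
  have hsq : ∀ (β' : Cfsg.IrrCharacter C) (x : S), x ≠ 1 → n β' x * n β' x ≤ 1 := by
    intro β' x hx
    rw [← hnorm1 x hx]
    exact Finset.single_le_sum (f := fun β' => n β' x * n β' x) (fun _ _ => mul_self_nonneg _) (Finset.mem_univ β')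
  have hv : ∀ (β' : Cfsg.IrrCharacter C) (x : S), x ≠ 1 → aa S (χh : Γ → ℂ) (β' : C → ℂ) x = 0 ∨ aa S (χh : Γ → ℂ) (β' : C → ℂ) x = 1 ∨ aa S (χh : Γ → ℂ) (β' : C → ℂ) x = -1 := by
    intro β' x hx
    have h1 := hsq β' x hx
    have h2 : n β' x = 0 ∨ n β' x = 1 ∨ n β' x = -1 := by
      have h3 : n β' x ≤ 1 := by nlinarith
      have h4 : -1 ≤ n β' x := by nlinarith
      omega
    rw [hn β' x]
    rcases h2 with h | h | h <;> rw [h] <;> simp
  have hsmall := fun β' : Cfsg.IrrCharacter C => small_values hcommS (aa_char hcomm (IsIrr.isCharacter χh.2) β'.2) (hv β')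
  -- the coefficient of `β` at a generator
  have hbg : aa S (χh : Γ → ℂ) (β : C → ℂ) g = ε₀ := by
    show Cfsg.classInner (fun c : C => (χh : Γ → ℂ) (c * g)) (β : C → ℂ) = ε₀
    have h5 : (fun c : C => (χh : Γ → ℂ) (c * g)) = (ε₀ : ℂ) • (β : C → ℂ) := funext (fun c => hβ c g hs0)
    rw [h5, ci_smul_left, ci_irr_self β.2, mul_one]
  rcases hsmall β with ⟨k, h1, -⟩ | ⟨k, ε, μ, hε, h1, h2⟩
  · exfalso
    rw [h1 g hg1] at hbg
    rcases hε₀ with rfl | rfl <;> simp at hbg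
  have hεn : ‖(ε : ℂ)‖ = 1 := by rcases hε with rfl | rfl <;> simp
  have hne : ∀ x : S, x ≠ 1 → n β x * n β x = 1 := by
    intro x hx
    have h3 := h1 x hx
    have h4 : ‖(n β x : ℂ)‖ = 1 := by
      rw [← hn β x, h3, norm_mul, hεn, irr_norm hcommS, one_mul]
    have h5 : n β x ≠ 0 := by
      intro h; rw [h] at h4; simp at h4
    have h6 := hsq β x hx
    have h7 : 0 < n β x * n β x := mul_self_pos.mpr h5
    omega
  have hother : ∀ β' : Cfsg.IrrCharacter C, β' ≠ β → ∀ x : S, x ≠ 1 → n β' x = 0 := by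
    intro β' hne' x hx
    have h3 := hnorm1 x hx
    rw [← Finset.add_sum_erase _ _ (Finset.mem_univ β), hne x hx] at h3
    have h4 : ∑ β' ∈ Finset.univ.erase β, n β' x * n β' x = 0 := by linarith
    have := (Finset.sum_eq_zero_iff_of_nonneg (fun _ _ => mul_self_nonneg _)).mp h4 β' (Finset.mem_erase.mpr ⟨hne', Finset.mem_univ _⟩)
    exact mul_self_eq_zero.mp this
  have hμsq : ∀ x : S, (μ : S → ℂ) x * (μ : S → ℂ) x = 1 := by
    intro x
    by_cases hx : x = 1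
    · rw [hx, irr_one hcommS, one_mul]
    · have h3 := h1 x hx
      rw [hn β x] at h3
      have h4 : ((n β x * n β x : ℤ) : ℂ) = 1 := by rw [hne x hx]; simp
      push_cast at h4
      rw [h3] at h4
      rcases hε with rfl | rfl
      · simpa using h4
      · simpa using h4
  have hk : ∀ β' : Cfsg.IrrCharacter C, β' ≠ β → ∃ k : ℕ, aa S (χh : Γ → ℂ) (β' : C → ℂ) 1 = (Nat.card S : ℂ) * k := by
    intro β' hne'
    rcases hsmall β' with ⟨k, -, h3⟩ | ⟨k, ε', μ', hε', h3, -⟩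
    · exact ⟨k, h3⟩
    · exfalso
      have h4 := h3 g hg1
      rw [hn β' g, hother β' hne' g hg1] at h4
      have h5 : ‖(ε' : ℂ)‖ = 1 := by rcases hε' with rfl | rfl <;> simp
      have h6 := congrArg norm h4
      rw [norm_mul, h5, irr_norm hcommS] at h6
      simp at h6
  choose kk hkk using hk
  let K : Cfsg.IrrCharacter C → ℕ := fun β' => if h : β' = β then k else kk β' h
  have hK : ∀ β' : Cfsg.IrrCharacter C, aa S (χh : Γ → ℂ) (β' : C → ℂ) 1 = (Nat.card S : ℂ) * K β' + if β' = β then (ε : ℂ) else 0 := by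
    intro β'
    by_cases h : β' = β
    · subst h
      simp only [K, dif_pos, if_true]
      exact h2
    · simp only [K, dif_neg h, if_neg h, add_zero]
      exact hkk β' h
  have hϑ : Cfsg.IsCharacter C (∑ β' : Cfsg.IrrCharacter C, K β' • (β' : C → ℂ)) :=
    IsChar.sum _ _ fun β' _ => IsChar.nsmul (IsIrr.isCharacter β'.2) _
  have hb : (fun c : C => (χ : G → ℂ) ⟨c, hCG c.2⟩) = fun c => (Nat.card S : ℂ) * (∑ β' : Cfsg.IrrCharacter C, K β' • (β' : C → ℂ)) c + (ε : ℂ) * (β : C → ℂ) c := by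
    rw [hresC]
    funext c
    have h3 := expand_apply (fun c : C => (χh : Γ → ℂ) c) (IsChar.isClass (IsChar.res (IsIrr.isCharacter χh.2) C)) c
    rw [h3, Finset.sum_apply, Finset.mul_sum]
    have h4 : ∀ β' : Cfsg.IrrCharacter C, Cfsg.classInner (fun c : C => (χh : Γ → ℂ) c) (β' : C → ℂ) * (β' : C → ℂ) c =
        (Nat.card S : ℂ) * (K β' • (β' : C → ℂ)) c + if β' = β then (ε : ℂ) * (β' : C → ℂ) c else 0 := by
      intro β'
      rw [← aa_one (S := S), hK β', Pi.smul_apply, nsmul_eq_mul]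
      split_ifs <;> ring
    rw [Finset.sum_congr rfl fun β' _ => h4 β', Finset.sum_add_distrib]
    simp
  refine ⟨ε, hε, ⟨(μ : S → ℂ), IsIrr.isCharacter μ.2, irr_one hcommS μ, hμsq, ?_⟩, ⟨_, hϑ, hb⟩, hpartc _ _ hϑ hb⟩
  intro c x hx
  have h3 := expand_apply (fun c : C => (χh : Γ → ℂ) (c * x)) (isClass_CS hcomm χh.2 x.2) c
  rw [Finset.sum_eq_single β] at h3
  · have h4 : Cfsg.classInner (fun c : C => (χh : Γ → ℂ) (c * x)) (β : C → ℂ) = ε * (μ : S → ℂ) x := h1 x hx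
    rw [h4] at h3
    rw [h3]; ring
  · intro β' _ hne'
    have h4 : Cfsg.classInner (fun c : C => (χh : Γ → ℂ) (c * x)) (β' : C → ℂ) = n β' x := hn β' x
    rw [h4, hother β' hne' x hx]; simp
  · intro h; exact absurd (Finset.mem_univ _) h

end Cfsg.Agent.S4451
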