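import Cfsg.Statements.S4452
import Cfsg.Agent.H3_GK
import Cfsg.Agent.H25_Glaub3

set_option autoImplicit false
open Cfsg

namespace Cfsg.Agent.S4452

open Cfsg.Agent.H3.CharBasic Cfsg.Agent.H3.CharIrr Cfsg.Agent.H3.CharInd Cfsg.Agent.H25.Glaub Cfsg.Agent.H25.Glaub2
open scoped Pointwise

theorem compl_of {G : Type*} [Group G] [Finite G] (K H : Subgroup G) [K.Normal] (hKH : K ⊔ H = ⊤)
    (hcop : (Nat.card K).Coprime (Nat.card H)) : Subgroup.IsComplement' K H := by
  apply Subgroup.isComplement'_of_disjoint_and_mul_eq_univ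
  · exact Subgroup.disjoint_of_coprime_natCard hcop
  · rw [← Subgroup.normal_mul, hKH]; rfl

theorem card_hom {A B : Type*} [Group A] [Group B] (e : A ≃* B) : Nat.card (A →* ℂˣ) = Nat.card (B →* ℂˣ) :=
  Nat.card_congr (e.monoidHomCongrLeftEquiv)

theorem card_irr_congr {A B : Type*} [Group A] [Group B] (e : A ≃* B) : Nat.card (Cfsg.IrrCharacter A) = Nat.card (Cfsg.IrrCharacter B) := by
  refine Nat.card_congr ⟨fun χ => ⟨fun x => (χ : A → ℂ) (e.symm x), (isIrr_comp_iff e.symm).mpr χ.2⟩,
    fun χ => ⟨fun x => (χ : B → ℂ) (e x), (isIrr_comp_iff e).mpr χ.2⟩, ?_, ?_⟩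
  · intro χ
    apply Subtype.ext
    funext x
    simp
  · intro χ
    apply Subtype.ext
    funext x
    simp

/-- Let the finite group G be the product of a normal subgroup K and a solvable subgroup H of coprime orders, and let N = N_G(H). Then the number of irreducible characters of G of degree coprime to the order of H equals the number of irreducible characters of N of degree coprime to the order of H. (The two sets are in fact in a canonical bijection; only the equality of their sizes is stated here.) -/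
theorem result {G : Type*} [Group G] [Finite G] (K H : Subgroup G) [K.Normal] (hKH : K ⊔ H = ⊤) (hcop : (Nat.card K).Coprime (Nat.card H)) (hsolv : Group.IsSolvable H) : Nat.card {χ : Cfsg.IrrCharacter G // (Cfsg.charDegree (χ : G → ℂ)).Coprime (Nat.card H)} = Nat.card {η : Cfsg.IrrCharacter (Subgroup.normalizer (H : Set G)) // (Cfsg.charDegree (η : Subgroup.normalizer (H : Set G) → ℂ)).Coprime (Nat.card H)} := by
  classical
  have : Fintype G := Fintype.ofFinite _
  have : Fintype K := Fintype.ofFinite _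
  have hc := compl_of K H hKH hcop
  have hidx : K.index = Nat.card H := hc.symm.index_eq_card
  obtain ⟨N, hN⟩ : ∃ N : Subgroup G, N = Subgroup.normalizer (H : Set G) := ⟨_, rfl⟩
  rw [← hN]
  have hHN : H ≤ N := by rw [hN]; exact Subgroup.le_normalizer
  have : Fintype N := Fintype.ofFinite _
  have hsup : K.subgroupOf N ⊔ H.subgroupOf N = ⊤ := by
    rw [eq_top_iff]
    intro n _
    have h1 : (n : G) ∈ (K : Set G) * (H : Set G) := by
      rw [← Subgroup.normal_mul, hKH]; trivial
    obtain ⟨k, hk, h, hh, hkh⟩ := h1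
    have hkh : k * h = n := hkh
    have hkN : k ∈ N := by
      have : k = n * h⁻¹ := by rw [← hkh]; group
      rw [this]; exact N.mul_mem n.2 (N.inv_mem (hHN hh))
    have h2 : n = (⟨k, hkN⟩ : N) * ⟨h, hHN hh⟩ := Subtype.ext hkh.symm
    rw [h2]
    exact Subgroup.mul_mem_sup (Subgroup.mem_subgroupOf.mpr hk) (Subgroup.mem_subgroupOf.mpr hh)
  have hcH : Nat.card (H.subgroupOf N) = Nat.card H := Nat.card_congr (Subgroup.subgroupOfEquivOfLe hHN).toEquiv
  have hcap : K ⊓ N = K ⊓ Subgroup.centralizer (H : Set G) := by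
    apply le_antisymm
    · intro x hx
      refine ⟨hx.1, ?_⟩
      show x ∈ Subgroup.centralizer (H : Set G)
      rw [Subgroup.mem_centralizer_iff]
      intro h hh
      have hxN : x ∈ N := hx.2
      rw [hN, Subgroup.mem_normalizer_iff] at hxN
      have h1 : x * h * x⁻¹ * h⁻¹ ∈ H := H.mul_mem ((hxN h).mp hh) (H.inv_mem hh)
      have h2 : x * h * x⁻¹ * h⁻¹ ∈ K := by
        have : x * h * x⁻¹ * h⁻¹ = x * (h * x⁻¹ * h⁻¹) := by group
        rw [this]
        exact K.mul_mem hx.1 (Subgroup.Normal.conj_mem inferInstance _ (K.inv_mem hx.1) h)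
      have h3 : x * h * x⁻¹ * h⁻¹ = 1 := Subgroup.disjoint_def.mp hc.disjoint h2 h1
      have h4 : x * h = h * x := by
        have := congrArg (fun z => z * h * x) h3
        simp only [one_mul] at this
        rw [← this]; group
      exact h4.symm
    · refine inf_le_inf_left _ ?_
      rw [hN]
      exact Subgroup.centralizer_le_normalizer _
  have hcard : (Nat.card (K.subgroupOf N)).Coprime (Nat.card (H.subgroupOf N)) := by
    rw [hcH]
    refine Nat.Coprime.coprime_dvd_left ?_ hcop
    rw [← Subgroup.card_map_of_injective N.subtype_injective (K := K.subgroupOf N), Subgroup.subgroupOf_map_subtype]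
    exact Subgroup.card_dvd_of_le inf_le_left
  have hc' := compl_of (K.subgroupOf N) (H.subgroupOf N) hsup hcard
  have hidx' : (K.subgroupOf N).index = Nat.card H := by rw [hc'.symm.index_eq_card, hcH]
  have e1 : (G ⧸ K) ≃* H := Subgroup.IsComplement'.QuotientMulEquiv hc.symm
  have e2 : (N ⧸ K.subgroupOf N) ≃* H.subgroupOf N := Subgroup.IsComplement'.QuotientMulEquiv hc'.symm
  have e3 : H.subgroupOf N ≃* H := Subgroup.subgroupOfEquivOfLe hHN
  have h1 := Cfsg.Agent.H3.GK.count K (by rw [hidx]; exact hcop)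
  have h2 := Cfsg.Agent.H3.GK.count (K.subgroupOf N) (by rw [hidx', ← hcH]; exact hcard)
  rw [hidx] at h1
  rw [hidx'] at h2
  rw [h1, h2, card_hom e1, card_hom (e2.trans e3)]
  congr 1
  -- invariant characters of `K`
  have hnrm : Nrm H K := fun h _ k hk => Subgroup.Normal.conj_mem inferInstance _ hk h
  have : Fintype ↥(K ⊓ Subgroup.centralizer (H : Set G)) := Fintype.ofFinite _
  have h3 := Cfsg.Agent.H25.Glaub3.card_inv_irr (G := K) (S := H) (C := K ⊓ Subgroup.centralizer (H : Set G)) hnrm hsolv hcop rfl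
  have h4 : Nat.card {θ : Cfsg.IrrCharacter K // ∀ (g : G) (n : K), (θ : K → ℂ) ⟨g * n * g⁻¹, Subgroup.Normal.conj_mem inferInstance (n : G) n.2 g⟩ = (θ : K → ℂ) n} =
      Nat.card {χ : Cfsg.IrrCharacter K // TInv H (χ : K → ℂ)} := by
    apply Nat.card_congr
    apply Equiv.subtypeEquivRight
    intro θ
    constructor
    · intro h s hs g g' hg'
      rw [← h s g]
      exact congrArg (θ : K → ℂ) (Subtype.ext hg')
    · intro h g n
      have h5 : g ∈ (K : Set G) * (H : Set G) := by
        rw [← Subgroup.normal_mul, hKH]; trivial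
      obtain ⟨k, hk, s, hs, hks⟩ := h5
      have hks : k * s = g := hks
      have h6 : s * n * s⁻¹ ∈ K := hnrm s hs n n.2
      have h7 : (⟨g * n * g⁻¹, Subgroup.Normal.conj_mem inferInstance (n : G) n.2 g⟩ : K) = ⟨k, hk⟩ * ⟨s * n * s⁻¹, h6⟩ * (⟨k, hk⟩ : K)⁻¹ := by
        apply Subtype.ext
        show g * n * g⁻¹ = k * (s * n * s⁻¹) * k⁻¹
        rw [← hks]; group
      rw [h7, IsChar.isClass (IsIrr.isCharacter θ.2)]
      exact h s hs n _ rfl
  have h5 : Nat.card {θ : Cfsg.IrrCharacter (K.subgroupOf N) // ∀ (g : N) (n : K.subgroupOf N), (θ : K.subgroupOf N → ℂ) ⟨g * n * g⁻¹, Subgroup.Normal.conj_mem inferInstance (n : N) n.2 g⟩ = (θ : K.subgroupOf N → ℂ) n} =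
      Nat.card (Cfsg.IrrCharacter (K.subgroupOf N)) := by
    apply Nat.card_congr
    apply Equiv.subtypeUnivEquiv
    intro θ g n
    have h5 : g ∈ ((K.subgroupOf N : Subgroup N) : Set N) * ((H.subgroupOf N : Subgroup N) : Set N) := by
      rw [← Subgroup.normal_mul, hsup]; trivial
    obtain ⟨k, hk, s, hs, hks⟩ := h5
    have hks : k * s = g := hks
    have h6 : s * (n : N) * s⁻¹ = n := by
      have hnc : ((n : N) : G) ∈ K ⊓ Subgroup.centralizer (H : Set G) := by
        rw [← hcap]; exact ⟨Subgroup.mem_subgroupOf.mp n.2, (n : N).2⟩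
      have h8 := Subgroup.mem_centralizer_iff.mp hnc.2 (s : G) (Subgroup.mem_subgroupOf.mp hs)
      rw [mul_inv_eq_iff_eq_mul]
      exact Subtype.ext h8
    have h7 : (⟨g * n * g⁻¹, Subgroup.Normal.conj_mem inferInstance (n : N) n.2 g⟩ : K.subgroupOf N) = ⟨k, hk⟩ * n * (⟨k, hk⟩ : K.subgroupOf N)⁻¹ := by
      apply Subtype.ext
      show g * (n : N) * g⁻¹ = k * n * k⁻¹
      rw [← hks]
      have : k * s * (n : N) * (k * s)⁻¹ = k * (s * n * s⁻¹) * k⁻¹ := by group
      rw [this, h6]
    rw [h7, IsChar.isClass (IsIrr.isCharacter θ.2)]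
  rw [h4, h3]
  refine Eq.trans ?_ h5.symm
  apply card_irr_congr
  have e4 : K.subgroupOf N ≃* (K ⊓ N : Subgroup G) := by
    rw [← Subgroup.inf_subgroupOf_right]
    exact Subgroup.subgroupOfEquivOfLe inf_le_right
  exact (e4.trans (MulEquiv.subgroupCongr hcap)).symm

end Cfsg.Agent.S4452
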