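import Cfsg.Statements.S4467
import Cfsg.Agent.H10_P467a
import Cfsg.Agent.H10_PpDeg
import Cfsg.Agent.H3_GalP

set_option autoImplicit false
open Cfsg

universe u

namespace Cfsg.Agent.S4467

open scoped ComplexConjugate commutatorElement
open Cfsg.Agent Cfsg.Agent.H3.CharBasic Cfsg.Agent.H3.CharIrr Cfsg.Agent.H3.CharInt Cfsg.Agent.H3.CharCalc
  Cfsg.Agent.H3.CharComplete Cfsg.Agent.H3.CharInd Cfsg.Agent.H3.CharMult Cfsg.Agent.H3.CharQuot
  Cfsg.Agent.H3.Clifford Cfsg.Agent.H1.Deg Cfsg.Agent.H1.Basic Cfsg.Agent.H10.PpDeg Cfsg.Agent.H10.P467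

theorem index_dvd {G : Type*} [Group G] [Fintype G] {N : Subgroup G} (hN : N.Normal) [Fintype N] {χ : G → ℂ}
    (hχ : IsIrrCharacter G χ) {θ : N → ℂ} (hθ : IsIrrCharacter N θ) (h0 : classInner (fun n : N => χ n) θ ≠ 0) :
    (inertia hN θ).index ∣ charDegree χ ∧ charDegree θ ∣ charDegree χ := by
  have h1 := clifford_degree hN hχ hθ h0
  obtain ⟨m, hm⟩ := ci_char_nat (IsChar.res (IsIrr.isCharacter hχ) N) (IsIrr.isCharacter hθ)
  have h2 : charDegree χ = m * (inertia hN θ).index * charDegree θ := by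
    apply deg_eq
    rw [h1, hm, Nat.cast_mul, Nat.cast_mul, coe_deg (IsIrr.isCharacter hθ)]
  constructor
  · exact ⟨m * charDegree θ, by rw [h2]; ring⟩
  · exact ⟨m * (inertia hN θ).index, by rw [h2]; ring⟩

/-- central elements act by the same scalar on a constituent -/
theorem const_central {G : Type*} [Group G] [Fintype G] {X : Subgroup G} [Fintype X] {χ : G → ℂ}
    (hχ : IsIrrCharacter G χ) {φ : X → ℂ} (hφ : IsIrrCharacter X φ)
    (h0 : classInner (fun n : X => χ n) φ ≠ 0) {w : X} (hw : (w : G) ∈ Subgroup.center G) (hne : χ w ≠ χ 1) :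
    φ w ≠ φ 1 := by
  have hwX : w ∈ Subgroup.center X := by
    rw [Subgroup.mem_center_iff]
    intro g
    exact Subtype.ext (Subgroup.mem_center_iff.1 hw g)
  obtain ⟨c, hc1, hc⟩ := IsIrr.central hχ hw
  obtain ⟨d, hd1, hd⟩ := IsIrr.central hφ hwX
  intro h
  have hd2 : d = 1 := by
    have := hd 1
    rw [one_mul, h] at this
    exact (mul_right_cancel₀ (IsIrr.one_ne_zero hφ) (by rw [one_mul]; exact this)).symm
  have hc2 : c ≠ 1 := by
    rintro rfl
    have := hc 1
    rw [one_mul, one_mul] at this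
    exact hne this
  apply h0
  have key : ∑ g : X, χ g * conj (φ g) = c * ∑ g : X, χ g * conj (φ g) := by
    conv_lhs => rw [← Equiv.sum_comp (Equiv.mulRight w) (fun g : X => χ g * conj (φ g))]
    rw [Finset.mul_sum]
    refine Finset.sum_congr rfl fun g _ => ?_
    show χ ((g * w : X) : G) * conj (φ (g * w)) = _
    rw [Subgroup.coe_mul, hc, hd, hd2, one_mul]
    ring
  have e1 : classInner (fun n : X => χ n) φ = c * classInner (fun n : X => χ n) φ := by
    show (Nat.card X : ℂ)⁻¹ * ∑ g : X, χ g * conj (φ g) = c * ((Nat.card X : ℂ)⁻¹ * ∑ g : X, χ g * conj (φ g))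
    conv_lhs => rw [key]
    ring
  have e2 : (1 - c) * classInner (fun n : X => χ n) φ = 0 := by
    rw [sub_mul, one_mul, ← e1, sub_self]
  exact (mul_eq_zero.1 e2).resolve_left (sub_ne_zero.2 hc2.symm)

/-- the case where `G` is generated by its `p`-elements -/
theorem final {G : Type u} [Group G] [Fintype G] {p : ℕ} [hp : Fact p.Prime] (hs : Group.IsSolvable G)
    (hgen : Subgroup.closure {x : G | ∃ k, x ^ p ^ k = 1} = ⊤) {χ : G → ℂ} (hχ : IsIrrCharacter G χ)
    (hfaith : ∀ g : G, χ g = χ 1 → g = 1) (hgood : Good p (charDegree χ)) : Subgroup.center G = ⊤ := by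
  classical
  have htopOf : ∀ X : Subgroup G, (∀ (x : G) (k : ℕ), x ^ p ^ k = 1 → x ∈ X) → X = ⊤ := by
    intro X hX
    rw [eq_top_iff, ← hgen, Subgroup.closure_le]
    rintro x ⟨k, hk⟩
    exact hX x k hk
  have hinert : ∀ (N : Subgroup G) (hN : N.Normal) [Fintype N] (θ : N → ℂ), IsIrrCharacter N θ →
      classInner (fun n : N => χ n) θ ≠ 0 → inertia hN θ = ⊤ := by
    intro N hN _ θ hθ h0
    apply htopOf
    intro x k hk
    exact mem_of_good _ G rfl hs _ (hgood.dvd (index_dvd hN hχ hθ h0).1) x k hk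
  have hAZ : ∀ A : Subgroup G, A.Normal → (∀ a b : A, a * b = b * a) → A ≤ Subgroup.center G := by
    intro A hAn hAc a ha
    haveI : Fintype A := Fintype.ofFinite _
    obtain ⟨θ, hθ, h0⟩ := exists_constituent_res (H := A) hχ
    have hT := hinert A hAn θ hθ h0
    have h1 := clifford_invariant hAn hχ hθ h0 (fun g => (mem_inertia hAn θ g).1 (hT ▸ Subgroup.mem_top g))
    have hθ1 : θ 1 = 1 := IsIrr.one_of_comm hAc hθ
    obtain ⟨f, hf⟩ := IsChar.hom_units_of_one (IsIrr.isCharacter hθ) hθ1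
    have h2 : ‖θ ⟨a, ha⟩‖ = 1 := by
      rw [hf]
      have h3 : (f ⟨a, ha⟩ : ℂ) ^ (Nat.card A) = 1 := by
        rw [← Units.val_pow_eq_pow_val, ← map_pow, pow_card_eq_one', map_one, Units.val_one]
      exact Complex.norm_eq_one_of_pow_eq_one h3 Nat.card_pos.ne'
    have h4 : ‖χ a‖ = ‖χ 1‖ := by
      have e1 := congrFun h1 ⟨a, ha⟩
      have e2 := congrFun h1 1
      rw [Pi.smul_apply, smul_eq_mul] at e1 e2
      rw [Subgroup.coe_one] at e2
      change χ a = _ at e1
      rw [e1, e2, norm_mul, norm_mul, h2, hθ1, norm_one]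
    rw [Subgroup.mem_center_iff]
    intro g
    have h5 := hfaith _ (IsChar.comm_of_norm (IsIrr.isCharacter hχ) h4 g)
    have h6 : a * g = (a * g * a⁻¹ * g⁻¹) * (g * a) := by group
    rw [h6, h5, one_mul]
  by_contra hne
  -- a minimal noncentral normal subgroup
  obtain ⟨K, ⟨hK, hKc⟩, hmin⟩ := (Set.toFinite {K : Subgroup G | K.Normal ∧ ¬ K ≤ Subgroup.center G}).exists_minimal
    ⟨⊤, inferInstance, fun h => hne (top_le_iff.1 h)⟩
  have hmin' : ∀ L : Subgroup G, L.Normal → L ≤ K → L ≠ K → L ≤ Subgroup.center G := by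
    intro L hL hLK hLne
    by_contra h
    exact hLne (le_antisymm hLK (hmin ⟨hL, h⟩ hLK))
  haveI : Fintype K := Fintype.ofFinite _
  have hKb : K ≠ ⊥ := by
    rintro rfl
    exact hKc bot_le
  have hK' : ⁅K, K⁆ ≤ Subgroup.center G :=
    hmin' _ inferInstance (Subgroup.commutator_le_self K) (Group.IsSolvable.commutator_lt_of_ne_bot hKb).ne
  have hcom : ∀ a ∈ K, ∀ b ∈ K, a * b * a⁻¹ * b⁻¹ ∈ Subgroup.center G := fun a ha b hb =>
    hK' (Subgroup.commutator_mem_commutator ha hb)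
  have hZK : ∀ k : K, k ∈ Subgroup.center K ↔ (k : G) ∈ Subgroup.center G := by
    intro k
    constructor
    · intro hk
      refine hAZ ((Subgroup.center K).map K.subtype) inferInstance ?_ ⟨k, hk, rfl⟩
      rintro ⟨_, a, ha, rfl⟩ ⟨_, b, hb, rfl⟩
      apply Subtype.ext
      show K.subtype a * K.subtype b = K.subtype b * K.subtype a
      rw [← map_mul, Subgroup.mem_center_iff.1 hb a, map_mul]
    · intro hk
      rw [Subgroup.mem_center_iff]
      intro g
      exact Subtype.ext (Subgroup.mem_center_iff.1 hk g)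
  -- `K` is nilpotent
  have hKnil : Group.IsNilpotent K := by
    apply H1.Hall.isNilpotent_of_class_two
    rw [Subgroup.commutator_eq_bot_iff_le_centralizer]
    intro z hz
    rw [Subgroup.mem_centralizer_iff]
    intro g _
    exact Subgroup.mem_center_iff.1 (hK' hz) g
  obtain ⟨r, hr, hKr⟩ : ∃ r : ℕ, r.Prime ∧ IsPGroup r K := by
    by_contra hcon
    push Not at hcon
    apply hKc
    apply H1.Nilp.le_of_sylow_le
    intro r hr
    let S : Sylow r K := default
    refine ⟨S, ?_⟩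
    apply hmin' _ (H1.Nilp.sylow_map_normal_of_nilpotent hK hKnil S) (Subgroup.map_subtype_le _)
    intro e
    apply hcon r hr.out
    have h1 := S.2.map K.subtype
    rw [e] at h1
    exact h1
  haveI : Fact r.Prime := ⟨hr⟩
  have hdeg : ∀ (X : Subgroup G) [Fintype X], X ≤ K → (∀ k : X, k ∈ Subgroup.center X → (k : G) ∈ Subgroup.center G) →
      ∃ φ : X → ℂ, IsIrrCharacter X φ ∧ classInner (fun x : X => χ x) φ ≠ 0 ∧
        charDegree φ ^ 2 * Nat.card (Subgroup.center X) = Nat.card X := by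
    intro X _ hXK hXc
    obtain ⟨φ, hφ, h0⟩ := exists_constituent_res (H := X) hχ
    refine ⟨φ, hφ, h0, H3.GalP.degree_eq hφ (coe_deg (IsIrr.isCharacter hφ)).symm ?_⟩
    intro g hg
    obtain ⟨l, hl⟩ : ∃ l : X, l * g ≠ g * l := by
      by_contra hcon
      push Not at hcon
      exact hg (Subgroup.mem_center_iff.2 hcon)
    have hz : ((g⁻¹ * l * g * l⁻¹ : X) : G) ∈ Subgroup.center G := by
      have := hcom (g : G)⁻¹ (K.inv_mem (hXK g.2)) l (hXK l.2)
      rw [inv_inv] at this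
      exact this
    have hzX : (g⁻¹ * l * g * l⁻¹ : X) ∈ Subgroup.center X := by
      rw [Subgroup.mem_center_iff]
      intro y
      exact Subtype.ext (Subgroup.mem_center_iff.1 hz y)
    refine H3.GalP.vanish' hφ hzX (x := l) (by group) ?_
    apply const_central hχ hφ h0 hz
    intro h
    apply hl
    have h1 := hfaith _ h
    have h2 : (g⁻¹ * l * g * l⁻¹ : X) = 1 := Subtype.ext h1
    calc l * g = g * (g⁻¹ * l * g * l⁻¹) * l := by group
      _ = g * l := by rw [h2, mul_one]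
  obtain ⟨θ, hθ, hθ0, hθd⟩ := hdeg K le_rfl (fun k hk => (hZK k).1 hk)
  have hθn : charDegree θ ∣ charDegree χ := (index_dvd hK hχ hθ hθ0).2
  obtain ⟨a, ha⟩ := IsPGroup.iff_card.1 hKr
  have hθr : charDegree θ ∣ r ^ a := by
    rw [← ha, ← hθd, pow_two, mul_assoc]
    exact dvd_mul_right _ _
  have hθ1 : charDegree θ ≠ 1 := by
    intro h
    rw [h, one_pow, one_mul] at hθd
    have h1 : Subgroup.center K = ⊤ := Subgroup.eq_top_of_card_eq _ hθd
    apply hKc
    intro k hk
    exact (hZK ⟨k, hk⟩).1 (h1 ▸ Subgroup.mem_top _)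
  have hrp : r ≠ p := by
    rintro rfl
    obtain ⟨b, -, hb⟩ := (Nat.dvd_prime_pow hr).1 hθr
    have hb0 : b ≠ 0 := by
      rintro rfl
      exact hθ1 (by rw [hb, pow_zero])
    exact hgood.not_dvd hr ((dvd_pow_self r hb0).trans (hb ▸ hθn))
  have hKp : (Nat.card K).Coprime p := by
    rw [ha]
    exact Nat.Coprime.pow_left a ((Nat.coprime_primes hr hp.out).2 hrp)
  -- a `p`-element acting nontrivially
  obtain ⟨x, e, hx, hxK⟩ : ∃ (x : G) (e : ℕ), x ^ p ^ e = 1 ∧ ¬ K ≤ Subgroup.centralizer {x} := by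
    by_contra hcon
    push Not at hcon
    apply hKc
    have h1 : Subgroup.centralizer (K : Set G) = ⊤ := by
      apply htopOf
      intro x k hk
      rw [Subgroup.mem_centralizer_iff]
      intro g hg
      exact (Subgroup.mem_centralizer_singleton_iff.1 (hcon x k hk hg))
    intro k hk
    rw [Subgroup.mem_center_iff]
    intro g
    have h2 : g ∈ Subgroup.centralizer (K : Set G) := by rw [h1]; trivial
    exact ((Subgroup.mem_centralizer_iff.1 h2) k hk).symm
  obtain ⟨C, hC⟩ : ∃ C, C = (K ⊓ Subgroup.centralizer {x} : Subgroup G) := ⟨_, rfl⟩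
  haveI : Fintype C := Fintype.ofFinite _
  have hCK : C ≤ K := by rw [hC]; exact inf_le_left
  have hmod := index_mod K hKp hx
  rw [← hC] at hmod
  have hCmem : ∀ g, g ∈ C ↔ g ∈ K ∧ x * g * x⁻¹ = g := by
    intro g
    rw [hC, Subgroup.mem_inf, Subgroup.mem_centralizer_singleton_iff]
    constructor
    · rintro ⟨h1, h2⟩
      exact ⟨h1, by rw [← h2, mul_inv_cancel_right]⟩
    · rintro ⟨h1, h2⟩
      exact ⟨h1, (mul_inv_eq_iff_eq_mul.1 h2).symm⟩
  have hZC : ∀ c : C, c ∈ Subgroup.center C → (c : G) ∈ Subgroup.center G := by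
    rintro ⟨c, hcC⟩ hc
    show c ∈ Subgroup.center G
    have hcK := hCK hcC
    have hcx := ((hCmem c).1 hcC).2
    have hcC' : ∀ d ∈ C, d * c = c * d := by
      intro d hd
      exact congrArg Subtype.val (Subgroup.mem_center_iff.1 hc ⟨d, hd⟩)
    refine (hZK ⟨c, hcK⟩).1 ?_
    rw [Subgroup.mem_center_iff]
    rintro ⟨k, hk⟩
    apply Subtype.ext
    show k * c = c * k
    -- the fixed point argument
    have hu : (k⁻¹ * (x * k * x⁻¹)) * c = c * (k⁻¹ * (x * k * x⁻¹)) := by
      have hz := hcom k⁻¹ (K.inv_mem hk) c hcK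
      rw [inv_inv] at hz
      set ζ := k⁻¹ * c * k * c⁻¹ with hζ
      have e1 : c * k * c⁻¹ = k * ζ := by rw [hζ]; group
      have e2 : c * (x * k * x⁻¹) * c⁻¹ = x * k * x⁻¹ * ζ := by
        calc c * (x * k * x⁻¹) * c⁻¹ = (x * c * x⁻¹) * (x * k * x⁻¹) * (x * c * x⁻¹)⁻¹ := by rw [hcx]
          _ = x * (c * k * c⁻¹) * x⁻¹ := by group
          _ = x * k * (ζ * x⁻¹) := by rw [e1]; group
          _ = x * k * (x⁻¹ * ζ) := by rw [Subgroup.mem_center_iff.1 hz x⁻¹]
          _ = x * k * x⁻¹ * ζ := by group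
      have e3 : c * (k⁻¹ * (x * k * x⁻¹)) * c⁻¹ = k⁻¹ * (x * k * x⁻¹) := by
        calc c * (k⁻¹ * (x * k * x⁻¹)) * c⁻¹ = (c * k * c⁻¹)⁻¹ * (c * (x * k * x⁻¹) * c⁻¹) := by group
          _ = (k * ζ)⁻¹ * (x * k * x⁻¹ * ζ) := by rw [e1, e2]
          _ = ζ⁻¹ * (k⁻¹ * (x * k * x⁻¹)) * ζ := by group
          _ = ζ⁻¹ * (ζ * (k⁻¹ * (x * k * x⁻¹))) := by rw [mul_assoc, Subgroup.mem_center_iff.1 hz (k⁻¹ * (x * k * x⁻¹))]
          _ = k⁻¹ * (x * k * x⁻¹) := by group
      exact (mul_inv_eq_iff_eq_mul.1 e3).symm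
    let K₁ : Subgroup G := K ⊓ Subgroup.centralizer {c}
    have hK₁ : ∀ g, g ∈ K₁ ↔ g ∈ K ∧ g * c = c * g := by
      intro g
      rw [Subgroup.mem_inf, Subgroup.mem_centralizer_singleton_iff]
    have hxK₁ : ∀ v ∈ K₁, x * v * x⁻¹ ∈ K₁ := by
      intro v hv
      rw [hK₁] at hv ⊢
      refine ⟨hK.conj_mem v hv.1 x, ?_⟩
      calc x * v * x⁻¹ * c = x * v * x⁻¹ * (x * c * x⁻¹) := by rw [hcx]
        _ = x * (v * c) * x⁻¹ := by group
        _ = x * (c * v) * x⁻¹ := by rw [hv.2]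
        _ = (x * c * x⁻¹) * (x * v * x⁻¹) := by group
        _ = c * (x * v * x⁻¹) := by rw [hcx]
    have huK₁ : k⁻¹ * (x * k * x⁻¹) ∈ K₁ := by
      rw [hK₁]
      exact ⟨K.mul_mem (K.inv_mem hk) (hK.conj_mem k hk x), hu⟩
    let f : K₁ → K₁ := fun v => ⟨(k⁻¹ * (x * k * x⁻¹)) * (x * v * x⁻¹), K₁.mul_mem huK₁ (hxK₁ v v.2)⟩
    have hit : ∀ (j : ℕ) (v : K₁), ((f^[j] v : K₁) : G) = k⁻¹ * (x ^ j * (k * v) * (x ^ j)⁻¹) := by
      intro j
      induction j with
      | zero => intro v; simp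
      | succ j ih =>
        intro v
        rw [Function.iterate_succ_apply']
        show (k⁻¹ * (x * k * x⁻¹)) * (x * ((f^[j] v : K₁) : G) * x⁻¹) = _
        rw [ih, pow_succ']
        group
    have hf : f^[p ^ e] = id := by
      funext v
      apply Subtype.ext
      rw [hit, hx]; simp
    have hfm := H3.BlkGal.card_fixed_mod f hf
    have hK₁p : (Nat.card K₁).Coprime p := hKp.coprime_dvd_left (Subgroup.card_dvd_of_le inf_le_left)
    have hne : Nonempty {v // f v = v} := by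
      by_contra hcon
      rw [not_nonempty_iff] at hcon
      rw [Nat.card_of_isEmpty (α := {v // f v = v})] at hfm
      exact (Nat.Prime.coprime_iff_not_dvd hp.out).1 hK₁p.symm ((Nat.modEq_zero_iff_dvd).1 hfm)
    obtain ⟨v, hv⟩ := hne
    have hv' : (k⁻¹ * (x * k * x⁻¹)) * (x * v * x⁻¹) = (v : G) := congrArg Subtype.val hv
    have hkv : k * (v : G) ∈ C := by
      rw [hCmem]
      refine ⟨K.mul_mem hk ((hK₁ v).1 v.2).1, ?_⟩
      calc x * (k * v) * x⁻¹ = k * ((k⁻¹ * (x * k * x⁻¹)) * (x * v * x⁻¹)) := by group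
        _ = k * v := by rw [hv']
    have h1 := hcC' _ hkv
    have h2 := ((hK₁ v).1 v.2).2
    have h3 : k * c * (v : G) = c * k * v := by
      calc k * c * (v : G) = k * (c * v) := by group
        _ = k * (v * c) := by rw [h2]
        _ = k * v * c := by group
        _ = c * (k * v) := h1
        _ = c * k * v := by group
    exact mul_right_cancel h3
  obtain ⟨φ, hφ, hφ0, hφd⟩ := hdeg C hCK hZC
  have hcz : Nat.card (Subgroup.center C) = Nat.card (Subgroup.center K) := by
    refine Nat.card_congr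
      { toFun := fun c => ⟨⟨(c.1 : G), hCK c.1.2⟩, (hZK _).2 (hZC c.1 c.2)⟩
        invFun := fun k => ⟨⟨(k.1 : G), ?_⟩, ?_⟩
        left_inv := fun c => rfl
        right_inv := fun c => rfl }
    · rw [hCmem]
      refine ⟨k.1.2, ?_⟩
      rw [Subgroup.mem_center_iff.1 ((hZK k.1).1 k.2) x, mul_inv_cancel_right]
    · rw [Subgroup.mem_center_iff]
      intro g
      exact Subtype.ext (Subgroup.mem_center_iff.1 ((hZK k.1).1 k.2) g)
  have hrel : Nat.card C * C.relIndex K = Nat.card K := by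
    rw [← Subgroup.relIndex_bot_left, ← Subgroup.relIndex_bot_left, Subgroup.relIndex_mul_relIndex _ _ _ bot_le hCK]
  have hzpos : 0 < Nat.card (Subgroup.center K) := Nat.card_pos
  have hsq : charDegree θ ^ 2 = charDegree φ ^ 2 * C.relIndex K := by
    apply Nat.eq_of_mul_eq_mul_right hzpos
    rw [hθd, ← hrel, ← hφd, hcz]
    ring
  have hdv : charDegree φ ∣ charDegree θ := by
    rw [← Nat.pow_dvd_pow_iff two_ne_zero]
    exact ⟨_, hsq⟩
  obtain ⟨t, ht⟩ := hdv
  have hφpos := deg_pos hφ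
  have ht2 : t ^ 2 = C.relIndex K := by
    rw [ht, mul_pow] at hsq
    exact Nat.eq_of_mul_eq_mul_left (pow_pos hφpos 2) hsq
  have ht1 : t ≠ 1 := by
    rintro rfl
    rw [one_pow] at ht2
    have := Subgroup.relIndex_eq_one.1 ht2.symm
    apply hxK
    intro g hg
    have h1 := this hg
    rw [hC] at h1
    exact h1.2
  have htθ : t ∣ charDegree θ := ⟨charDegree φ, by rw [ht, mul_comm]⟩
  obtain ⟨b, -, hb⟩ := (Nat.dvd_prime_pow hr).1 (htθ.trans hθr)
  have hb0 : b ≠ 0 := by
    rintro rfl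
    exact ht1 (by rw [hb, pow_zero])
  refine hgood t (by rw [hb]; exact hr.isPrimePow.pow hb0) (htθ.trans hθn) ?_
  rw [← ht2] at hmod
  have h1 : ((t : ℤ) ^ 2) ≡ 1 [ZMOD p] := by
    have := (Int.natCast_modEq_iff).2 hmod
    push_cast at this
    exact this
  have h2 : (p : ℤ) ∣ ((t : ℤ) - 1) * ((t : ℤ) + 1) := by
    have h3 := h1.symm.dvd
    have e : ((t : ℤ) - 1) * ((t : ℤ) + 1) = (t : ℤ) ^ 2 - 1 := by ring
    rw [e]; exact h3
  rcases (Nat.prime_iff_prime_int.1 hp.out).dvd_or_dvd h2 with h3 | h3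
  · right; right
    exact ((Int.modEq_iff_dvd).2 h3).symm
  · left
    refine ((Int.modEq_iff_dvd).2 ?_).symm
    rw [sub_neg_eq_add]; exact h3

theorem exists_const {G : Type*} [Group G] [Fintype G] {N : Subgroup G} (hN : N.Normal) [Fintype N] {χ : G → ℂ}
    (hχ : IsIrrCharacter G χ) {g : N} (hg : χ g ≠ χ 1) :
    ∃ θ : N → ℂ, IsIrrCharacter N θ ∧ charDegree θ ∣ charDegree χ ∧ θ g ≠ θ 1 := by
  classical
  haveI : Fintype (IrrCharacter N) := Fintype.ofFinite _
  by_contra hcon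
  push Not at hcon
  apply hg
  obtain ⟨n, hn, hs⟩ := IsChar.eq_sum_nat (IsChar.res (IsIrr.isCharacter hχ) N)
  have h1 := congrFun hs g
  have h2 := congrFun hs 1
  rw [Finset.sum_apply] at h1 h2
  change χ g = _ at h1
  change χ ((1 : N) : G) = _ at h2
  rw [Subgroup.coe_one] at h2
  rw [h1, h2]
  refine Finset.sum_congr rfl fun θ _ => ?_
  rw [Pi.smul_apply, Pi.smul_apply]
  by_cases h0 : n θ = 0
  · rw [h0, Nat.cast_zero, zero_smul, zero_smul]
  · have h3 := (index_dvd hN hχ θ.2 (by rw [hn]; exact_mod_cast h0)).2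
    rw [hcon θ θ.2 h3]

theorem aux (p : ℕ) [hp : Fact p.Prime] (n : ℕ) : ∀ (G : Type u) [Group G] [Finite G],
    Nat.card G = n → Group.IsSolvable G →
    (∀ g : G, g ≠ 1 → ∃ χ : G → ℂ, IsIrrCharacter G χ ∧ Good p (charDegree χ) ∧ χ g ≠ χ 1) →
    ∀ P : Sylow p G, (P : Subgroup G).Normal := by
  induction n using Nat.strong_induction_on with | _ n ih => ?_
  intro G _ _ hn hs hG P
  classical
  haveI := Fintype.ofFinite G
  obtain ⟨N, hNdef⟩ : ∃ N : Subgroup G, N = Subgroup.closure {x : G | ∃ k, x ^ p ^ k = 1} := ⟨_, rfl⟩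
  haveI hNn : N.Normal := by
    rw [hNdef]
    constructor
    intro x hx g
    have h1 : (Subgroup.closure {x : G | ∃ k, x ^ p ^ k = 1}).map (MulAut.conj g).toMonoidHom ≤
        Subgroup.closure {x : G | ∃ k, x ^ p ^ k = 1} := by
      rw [MonoidHom.map_closure, Subgroup.closure_le]
      rintro _ ⟨y, ⟨k, hk⟩, rfl⟩
      apply Subgroup.subset_closure
      refine ⟨k, ?_⟩
      show (g * y * g⁻¹) ^ p ^ k = 1
      rw [conj_pow, hk]; group
    exact h1 ⟨x, hx, rfl⟩
  have hPN : (P : Subgroup G) ≤ N := by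
    intro x hx
    rw [hNdef]
    apply Subgroup.subset_closure
    obtain ⟨k, hk⟩ := P.2 ⟨x, hx⟩
    exact ⟨k, congrArg Subtype.val hk⟩
  by_cases hN : N = ⊤
  · by_cases hf : ∃ χ : G → ℂ, IsIrrCharacter G χ ∧ Good p (charDegree χ) ∧ ∀ g : G, χ g = χ 1 → g = 1
    · obtain ⟨χ, hχ, hgood, hfaith⟩ := hf
      have h1 := final hs (hNdef.symm.trans hN) hχ hfaith hgood
      constructor
      intro x hx g
      have h2 : x ∈ Subgroup.center G := by rw [h1]; trivial
      rw [Subgroup.mem_center_iff.1 h2 g, mul_inv_cancel_right]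
      exact hx
    · push Not at hf
      let I := {χ : G → ℂ // IsIrrCharacter G χ ∧ Good p (charDegree χ)}
      let K : I → Subgroup G := fun χ => chKer χ.1 (IsIrr.isCharacter χ.2.1)
      have hKn : ∀ χ, (K χ).Normal := fun χ => chKer_normal (IsIrr.isCharacter χ.2.1)
      have hnorm : ∀ χ, ((P : Subgroup G) ⊔ K χ).Normal := by
        intro χ
        haveI := hKn χ
        obtain ⟨g, hg, hg1⟩ := hf χ.1 χ.2.1 χ.2.2
        have hb : K χ ≠ ⊥ := by
          intro e
          have : g ∈ K χ := hg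
          rw [e, Subgroup.mem_bot] at this
          exact hg1 this
        have h1 := ih (Nat.card (G ⧸ K χ)) (hn ▸ H1.SZ.card_quotient_lt hb) (G ⧸ K χ) rfl inferInstance (by
          intro y hy
          obtain ⟨x, rfl⟩ := QuotientGroup.mk_surjective y
          have hx : χ.1 x ≠ χ.1 1 := by
            intro h
            exact hy ((QuotientGroup.eq_one_iff x).2 h)
          obtain ⟨ψ, hψ, hψx⟩ := IsIrr.descend χ.2.1 (K χ) (fun k hk => hk)
          refine ⟨ψ, hψ, ?_, ?_⟩
          · have h2 : charDegree ψ = charDegree χ.1 := by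
              unfold charDegree
              rw [← hψx 1]; rfl
            rw [h2]; exact χ.2.2
          · intro h
            apply hx
            rw [← hψx x, ← hψx 1]
            exact h) (P.mapSurjective (QuotientGroup.mk'_surjective (K χ)))
        have h2 := h1.comap (QuotientGroup.mk' (K χ))
        have h3 : ((P.mapSurjective (QuotientGroup.mk'_surjective (K χ)) : Sylow p (G ⧸ K χ)) : Subgroup (G ⧸ K χ)) =
          (P : Subgroup G).map (QuotientGroup.mk' (K χ)) := rfl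
        rwa [h3, Subgroup.comap_map_eq, QuotientGroup.ker_mk'] at h2
      obtain ⟨D, hD⟩ : ∃ D : Subgroup G, D = ⨅ χ : I, ((P : Subgroup G) ⊔ K χ) := ⟨_, rfl⟩
      have hDn : D.Normal := by
        rw [hD]
        exact Subgroup.normal_iInf_normal hnorm
      have hPD : (P : Subgroup G) ≤ D := by
        rw [hD]
        exact le_iInf fun χ => le_sup_left
      have hDp : IsPGroup p D := by
        obtain ⟨a, ha⟩ := IsPGroup.iff_card.1 P.2
        rintro ⟨y, hy⟩
        refine ⟨a, Subtype.ext ?_⟩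
        show y ^ p ^ a = 1
        by_contra hne
        obtain ⟨χ, hχ, hgood, hχy⟩ := hG _ hne
        apply hχy
        haveI := hKn ⟨χ, hχ, hgood⟩
        rw [hD, Subgroup.mem_iInf] at hy
        obtain ⟨u, hu, v, hv, rfl⟩ := Subgroup.mem_sup_of_normal_right.1 (hy ⟨χ, hχ, hgood⟩)
        have h1 : (u * v) ^ p ^ a ∈ K ⟨χ, hχ, hgood⟩ := by
          rw [← QuotientGroup.eq_one_iff, QuotientGroup.mk_pow, QuotientGroup.mk_mul, (QuotientGroup.eq_one_iff v).2 hv,
            mul_one, ← QuotientGroup.mk_pow]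
          have h2 : u ^ p ^ a = 1 := by
            rw [← ha]
            have := pow_card_eq_one' (x := (⟨u, hu⟩ : (P : Subgroup G)))
            exact congrArg Subtype.val this
          rw [h2, QuotientGroup.mk_one]
        exact h1
      have := P.3 hDp hPD
      rw [← this]; exact hDn
  · haveI : Fintype N := Fintype.ofFinite _
    have h1 := ih (Nat.card N) (by rw [← hn]; exact H1.SZ.card_subgroup_lt hN) N rfl inferInstance (by
      intro g hg
      obtain ⟨χ, hχ, hgood, hχg⟩ := hG g (fun h => hg (Subtype.ext h))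
      obtain ⟨θ, hθ, hd, hθg⟩ := exists_const hNn hχ (g := g) hχg
      exact ⟨θ, hθ, hgood.dvd hd, hθg⟩) (P.subtype hPN)
    have h2 : ((P.subtype hPN : Sylow p N) : Subgroup N).Characteristic := (P.subtype hPN).characteristic_of_normal h1
    have h3 : (((P.subtype hPN : Sylow p N) : Subgroup N).map N.subtype).Normal := inferInstance
    have h4 : ((P.subtype hPN : Sylow p N) : Subgroup N).map N.subtype = P := by
      rw [Sylow.coe_subtype, Subgroup.map_subgroupOf_eq_of_le hPN]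
    rwa [h4] at h3

/-- Let the finite solvable group G have a faithful irreducible character of degree n, and suppose that for the prime p a Sylow p-subgroup of G is not normal. Then n is divisible by a prime power q > 1 with q congruent to −1, 0 or 1 modulo p. -/
theorem result {G : Type*} [Group G] [Finite G] (χ : Cfsg.IrrCharacter G) (hfaith : ∀ g : G, (χ : G → ℂ) g = (χ : G → ℂ) 1 → g = 1) (n : ℕ) (hn : Cfsg.charDegree (χ : G → ℂ) = n) (hsolv : Group.IsSolvable G) (p : ℕ) (hp : p.Prime) (P : Sylow p G) (hP : ¬ (P : Subgroup G).Normal) : ∃ q : ℕ, IsPrimePow q ∧ q ∣ n ∧ ((q : ℤ) ≡ -1 [ZMOD p] ∨ (q : ℤ) ≡ 0 [ZMOD p] ∨ (q : ℤ) ≡ 1 [ZMOD p]) := by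
  by_contra h
  haveI : Fact p.Prime := ⟨hp⟩
  have hgood : Good p (charDegree (χ : G → ℂ)) := fun q hq hqn h3 => h ⟨q, hq, hn ▸ hqn, h3⟩
  exact hP (aux p _ G rfl hsolv (fun g hg => ⟨χ, χ.2, hgood, fun h => hg (hfaith g h)⟩) P)

end Cfsg.Agent.S4467
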