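import Cfsg.Statements.S4470
import Cfsg.Agent.H3_Arc
import Cfsg.Agent.H3_Unit
import Cfsg.Agent.H3_CharQuot

set_option autoImplicit false
open Cfsg

namespace Cfsg.Agent.S4470

/-- Let the finite group G have a faithful character of degree n. Then G has an abelian normal subgroup A such that every abelian subgroup H of G satisfies [H : H ⊓ A] ≤ 12^n. -/
theorem result {G : Type*} [Group G] [Finite G] (χ : G → ℂ) (hχ : Cfsg.IsCharacter G χ) (hfaith : ∀ g : G, χ g = χ 1 → g = 1) (n : ℕ) (hn : Cfsg.charDegree χ = n) : ∃ A : Subgroup G, A.Normal ∧ (∀ x ∈ A, ∀ y ∈ A, x * y = y * x) ∧ ∀ H : Subgroup G, (∀ x ∈ H, ∀ y ∈ H, x * y = y * x) → (A.subgroupOf H).index ≤ 12 ^ n := by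
  classical
  have : Fintype G := Fintype.ofFinite _
  obtain ⟨m, ρ, rfl⟩ := hχ
  have hm : m = n := by
    rw [← hn, Cfsg.charDegree, Representation.char_one]
    simp
  subst hm
  have hf : Function.Injective ρ := by
    intro x y hxy
    have h1 : ρ (x * y⁻¹) = 1 := by
      rw [map_mul, hxy, ← map_mul, mul_inv_cancel, map_one]
    have h2 := hfaith _ ((Cfsg.Agent.H3.CharQuot.rep_eq_one_iff ρ _).mp h1)
    exact mul_inv_eq_one.mp h2
  obtain ⟨E, σ, hE, hσu, hσf⟩ := Cfsg.Agent.H3.Unit.exists_unitary ρ hf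
  obtain ⟨A, hA, hA', hA''⟩ := Cfsg.Agent.H3.Arc.exists_abelian (E := E) (G := G) σ hσu hσf
  exact ⟨A, hA, hA', fun H hH => by rw [← hE]; exact hA'' H hH⟩

end Cfsg.Agent.S4470
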