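import Cfsg.Statements.S4472
import Cfsg.Agent.H3_PIdx2

set_option autoImplicit false
open Cfsg

namespace Cfsg.Agent.S4472

/-- Let the finite p-solvable group G have a faithful character of degree n, and let p^a be the index of O_p(G) in a Sylow p-subgroup of G (the p-part of [G : O_p(G)]). Then a ≤ Σ_{i ≥ 0} ⌊n / ((p − 1) p^i)⌋ (a finite sum; the terms vanish for p^i > n). -/
theorem result {G : Type*} [Group G] [Finite G] (χ : G → ℂ) (hχ : Cfsg.IsCharacter G χ) (hfaith : ∀ g : G, χ g = χ 1 → g = 1) (n : ℕ) (hn : Cfsg.charDegree χ = n) (p : ℕ) (hp : p.Prime) (hsolv : Cfsg.IsPSolvable p G) : ((Cfsg.pCore p G).index).factorization p ≤ ∑ i ∈ Finset.range (n + 1), n / ((p - 1) * p ^ i) := by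
  classical
  have hpF := Fact.mk hp
  have : Fintype G := Fintype.ofFinite _
  obtain ⟨m, hm⟩ := Cfsg.Agent.H3.CharIrr.IsChar.one_eq_nat hχ
  have hmn : m = n := by
    rw [← hn, charDegree, hm, Complex.natCast_re, Nat.floor_natCast]
  rw [hmn] at hm
  exact Cfsg.Agent.H3.PIdx.main hsolv hχ hfaith hm

end Cfsg.Agent.S4472
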