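import Cfsg.Statements.S4483
import Cfsg.Agent.H25_Odd

set_option autoImplicit false
open Cfsg

namespace Cfsg.Agent.S4483


/-- Let G be a finite group of order 2^n·g₀ with g₀ odd, and M a maximal ideal of the algebraic integers containing 2. Every real-valued irreducible character of G of odd degree lies in the principal 2-block; consequently G has at most 2^(2n) real-valued irreducible characters of odd degree. -/
theorem result {G : Type*} [Group G] [Finite G] (M : Ideal Cfsg.AlgInt) (hM : Cfsg.IsPModular 2 M) : (∀ χ : Cfsg.IrrCharacter G, (∀ g : G, ((χ : G → ℂ) g).im = 0) → Odd (Cfsg.charDegree (χ : G → ℂ)) → χ ∈ Cfsg.principalBlock M G) ∧ Nat.card {χ : Cfsg.IrrCharacter G // (∀ g : G, ((χ : G → ℂ) g).im = 0) ∧ Odd (Cfsg.charDegree (χ : G → ℂ))} ≤ 2 ^ (2 * (Nat.card G).factorization 2) := by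
  haveI := Fintype.ofFinite G
  haveI : Fintype (IrrCharacter G) := Fintype.ofFinite _
  haveI := hM.2.1
  have key : ∀ χ : Cfsg.IrrCharacter G, (∀ g : G, ((χ : G → ℂ) g).im = 0) →
      Odd (Cfsg.charDegree (χ : G → ℂ)) → χ ∈ Cfsg.principalBlock M G := by
    intro χ hreal hodd
    have h1 : (charDegree (χ : G → ℂ)).factorization 2 = 0 :=
      Nat.factorization_eq_zero_of_not_dvd (fun h => (Nat.not_even_iff_odd.2 hodd) ((even_iff_two_dvd).2 h))
    have h2 := H25.Odd.principal_of_dual hM (H10.BlockIdem.isPBlock_blockOf χ)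
      (H10.BlockIdem.mem_blockOf_self χ) (H10.BlockIdem.mem_blockOf_self χ) h1
      (fun g _ => ((Complex.conj_eq_iff_im).2 (hreal g)).symm)
    rw [← h2]
    exact H10.BlockIdem.mem_blockOf_self χ
  refine ⟨key, ?_⟩
  have h1 : Nat.card {χ : Cfsg.IrrCharacter G // (∀ g : G, ((χ : G → ℂ) g).im = 0) ∧
      Odd (Cfsg.charDegree (χ : G → ℂ))} ≤ Nat.card (principalBlock M G) :=
    Nat.card_le_card_of_injective
      (fun χ => (⟨χ.1, key χ.1 χ.2.1 χ.2.2⟩ : principalBlock M G))
      (fun a b h => Subtype.ext (congrArg (fun z : principalBlock M G => (z : IrrCharacter G)) h))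
  refine h1.trans ?_
  have hB : IsPBlock M (principalBlock M G) := H10.BlockKer.principal_isPBlock
  have h2 := H25.BlockReg.feit (p := 2) hM hB
  have h3 : Nat.card (principalBlock M G) ≤
      ∑ᶠ χ ∈ principalBlock M G, 2 ^ (2 * blockHeight 2 (principalBlock M G) (χ : G → ℂ)) := by
    have h4 : Nat.card (principalBlock M G) = ∑ᶠ χ ∈ principalBlock M G, 1 := by
      rw [finsum_mem_eq_finite_toFinset_sum _ (Set.toFinite _), Finset.sum_const, smul_eq_mul, mul_one,
        Nat.card_coe_set_eq, Set.ncard_eq_toFinset_card _ (Set.toFinite _)]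
    rw [h4, finsum_mem_eq_finite_toFinset_sum _ (Set.toFinite _),
      finsum_mem_eq_finite_toFinset_sum _ (Set.toFinite _)]
    exact Finset.sum_le_sum fun χ _ => Nat.one_le_two_pow
  have h5 : blockDefect 2 (principalBlock M G) ≤ (Nat.card G).factorization 2 := by
    have := H25.BlockReg.mB_add (p := 2) (H10.BlockKer.triv_mem (G := G) (M := M))
    omega
  have h6 : 2 ^ (2 * blockDefect 2 (principalBlock M G)) ≤ 2 ^ (2 * (Nat.card G).factorization 2) :=
    Nat.pow_le_pow_right (by norm_num) (by omega)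
  have h7 : 1 ≤ 2 ^ (2 * (Nat.card G).factorization 2) := Nat.one_le_two_pow
  generalize Nat.card (principalBlock M G) = a at *
  rcases Nat.eq_zero_or_pos ((Nat.card G).factorization 2) with h8 | h8
  · rw [h8] at h6 h7 ⊢
    simp at h6 h7 ⊢
    omega
  · have h9 : 4 ≤ 2 ^ (2 * (Nat.card G).factorization 2) := by
      calc 4 = 2 ^ 2 := by norm_num
        _ ≤ _ := Nat.pow_le_pow_right (by norm_num) (by omega)
    omega

end Cfsg.Agent.S4483
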