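import Cfsg.Statements.S4487
import Cfsg.Agent.H25_Cov2
import Cfsg.Agent.H1_Nilp

set_option autoImplicit false
open Cfsg

namespace Cfsg.Agent.S4487

open Cfsg.Agent.H25.Red Cfsg.Agent.H25.KG Cfsg.Agent.H25.BPTr Cfsg.Agent.H25.BPMain Cfsg.Agent.H25.BPDef Cfsg.Agent.H25.BPNorm Cfsg.Agent.H25.BPSub Cfsg.Agent.H25.Cov Cfsg.Agent.H25.Cov2 Cfsg.Agent.H10.BlockIdem

/-- Let G be a finite group and p a prime such that G has no non-trivial normal subgroup of order prime to p and C_G(O_p(G)) ≤ O_p(G). Then G has a single p-block: any two irreducible characters lie in the same block relative to every maximal ideal M of the algebraic integers containing p. -/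
theorem result {G : Type*} [Group G] [Finite G] (p : ℕ) [Fact p.Prime] (M : Ideal Cfsg.AlgInt) (hM : Cfsg.IsPModular p M) (hcore : Cfsg.pPrimeCore p G = ⊥) (hconstr : Subgroup.centralizer ((Cfsg.pCore p G) : Set G) ≤ Cfsg.pCore p G) (χ ψ : Cfsg.IrrCharacter G) : Cfsg.SameBlock M (χ : G → ℂ) (ψ : G → ℂ) := by
  have := hM.2.1
  have := charP_KM M hM
  haveI : Fintype G := Fintype.ofFinite _
  have hPp : IsPGroup p (Cfsg.pCore p G) := H1.Nilp.pCore_isPGroup p
  have hPn : (Cfsg.pCore p G).Normal := H1.Nilp.pCore_normal p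
  have key : ∀ B : Set (IrrCharacter G), IsPBlock M B → epG M B = 1 := by
    intro B hB
    have hb := isBlk_epG hB
    have hsupp : ∀ x, (epG M B).coeff x ≠ 0 → x = 1 := by
      intro x hx
      have h1 : x ∈ Ce (Cfsg.pCore p G) :=
        supp_of_normal hM hPp le_top (fun y _ => by
          rw [Subgroup.normalizer_eq_top (Cfsg.pCore p G)]; exact Subgroup.mem_top y) hb.mem hb.idem x hx
      have h2 := idem_preg hM hb.mem hb.idem hx
      obtain ⟨k, hk⟩ := (IsPGroup.iff_orderOf.1 hPp) ⟨x, hconstr h1⟩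
      rw [Subgroup.orderOf_mk] at hk
      rcases Nat.eq_zero_or_pos k with h0 | h0
      · rw [h0, pow_zero, orderOf_eq_one_iff] at hk; exact hk
      · exact absurd (hk ▸ dvd_pow_self p h0.ne') h2
    have hc : epG M B = algebraMap (KM M) (MonoidAlgebra (KM M) G) ((epG M B).coeff 1) := by
      classical
      apply ext_c
      intro x
      rw [MonoidAlgebra.coe_algebraMap, Function.comp_apply, MonoidAlgebra.coeff_single, Finsupp.single_apply]
      by_cases h : 1 = x
      · rw [if_pos h, ← h]; rfl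
      · rw [if_neg h]
        by_contra h'
        exact h (hsupp x h').symm
    have hinj : Function.Injective (algebraMap (KM M) (MonoidAlgebra (KM M) G)) := (algebraMap (KM M) (MonoidAlgebra (KM M) G)).injective
    have h3 : (epG M B).coeff 1 * (epG M B).coeff 1 = (epG M B).coeff 1 := by
      apply hinj
      rw [map_mul, ← hc]
      exact hb.idem
    have h4 : (epG M B).coeff 1 ≠ 0 := by
      intro h
      rw [h, map_zero] at hc
      exact hb.ne hc
    have h5 : (epG M B).coeff 1 = 1 := mul_left_cancel₀ h4 (by rw [h3, mul_one])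
    rw [hc, h5, map_one]
  have h1 : blockOf M (χ : G → ℂ) = blockOf M (ψ : G → ℂ) :=
    epG_inj (isPBlock_blockOf χ) (isPBlock_blockOf ψ) (by rw [key _ (isPBlock_blockOf χ), key _ (isPBlock_blockOf ψ)])
  have h2 : ψ ∈ blockOf M (χ : G → ℂ) := by rw [h1]; exact mem_blockOf_self ψ
  exact mem_blockOf.1 h2

end Cfsg.Agent.S4487
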