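import Cfsg.Statements.S4490
import Cfsg.Agent.H25_Odd

set_option autoImplicit false
open Cfsg

namespace Cfsg.Agent.S4490


/-- Let G be a finite group and M a maximal ideal of the algebraic integers containing 2. Every 2-block B of G whose defect groups are the Sylow 2-subgroups of G (a block of full defect) and which is not the principal block is different from its complex-conjugate block, the block formed by the complex conjugates of the members of B. -/
theorem result {G : Type*} [Group G] [Finite G] (M : Ideal Cfsg.AlgInt) (hM : Cfsg.IsPModular 2 M) (B : Set (Cfsg.IrrCharacter G)) (hB : Cfsg.IsPBlock M B) (P : Sylow 2 G) (hfull : Cfsg.IsDefectGroup 2 M B (P : Subgroup G)) (hnp : B ≠ Cfsg.principalBlock M G) : {ψ : Cfsg.IrrCharacter G | ∃ χ ∈ B, (ψ : G → ℂ) = fun g => (starRingEnd ℂ) ((χ : G → ℂ) g)} ≠ B := by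
  haveI := Fintype.ofFinite G
  haveI := hM.2.1
  intro hEq
  obtain ⟨χ, hχ, h0⟩ := H10.BlockHZ.exists_height_zero (p := 2) hB
  have hd : charDegree (χ : G → ℂ) = charDegree (χ : G → ℂ) := rfl
  have hcard := H10.BlockMain.card_defectGroup hM hB hfull
  have hdef : (Nat.card G).factorization 2 = blockDefect 2 B := by
    have h1 := P.card_eq_multiplicity
    rw [h1] at hcard
    exact Nat.pow_right_injective (le_refl 2) hcard
  have hmB : H25.BlockReg.mB 2 B = 0 := by
    have := H25.BlockReg.mB_add (p := 2) hχ
    omega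
  have hodd : (charDegree (χ : G → ℂ)).factorization 2 = 0 := by
    have h1 := H25.BlockReg.height_eq (p := 2) B χ
    rw [h0, hmB] at h1
    omega
  let χ' : IrrCharacter G := ⟨fun g => (starRingEnd ℂ) ((χ : G → ℂ) g), H3.CharInd.IsIrr.conj χ.2⟩
  have hχ' : χ' ∈ B := by
    rw [← hEq]
    exact ⟨χ, hχ, rfl⟩
  exact hnp (H25.Odd.principal_of_dual hM hB hχ hχ' hodd (fun g _ => rfl))

end Cfsg.Agent.S4490
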