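import Cfsg.Statements.S4493
import Cfsg.Agent.H1_Deg

set_option autoImplicit false
open Cfsg

namespace Cfsg.Agent.S4493

/-- Let G be a finite solvable group and p a prime. Then G has a normal abelian Sylow p-subgroup if and only if no irreducible character degree of G is divisible by p. -/
theorem result {G : Type*} [Group G] [Finite G] (hsolv : Group.IsSolvable G) (p : ℕ) (hp : p.Prime) : (∃ P : Subgroup G, P.Normal ∧ (∀ x ∈ P, ∀ y ∈ P, x * y = y * x) ∧ IsPGroup p P ∧ ¬ p ∣ P.index) ↔ ∀ χ : Cfsg.IrrCharacter G, ¬ p ∣ Cfsg.charDegree (χ : G → ℂ) := by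
  have hpf : Fact p.Prime := ⟨hp⟩
  constructor
  · rintro ⟨P, hn, hc, -, hi⟩ χ
    exact Cfsg.Agent.H1.Deg.pd_of_abelian P hc hi χ χ.2
  · intro h
    let P : Sylow p G := default
    obtain ⟨h1, h2⟩ := Cfsg.Agent.H1.Deg.ito_psolv
      (Cfsg.Agent.H22.PSolv.isPSolvable_of_isSolvable hsolv) (fun χ hχ => h ⟨χ, hχ⟩) P
    exact ⟨P, h1, h2, P.2, P.not_dvd_index⟩

end Cfsg.Agent.S4493
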