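import Cfsg.Statements.S4494
import Cfsg.Agent.H25_BlockReg

set_option autoImplicit false
open Cfsg

namespace Cfsg.Agent.S4494

open Cfsg.Agent.H25.BlockReg Cfsg.Agent.H25.Elem Cfsg.Agent.H10.BlockIdem Cfsg.Agent.H10.BlockOrth


/-- The Brauer–Feit bound. Let B be a p-block of the finite group G (relative to a maximal ideal M of the algebraic integers containing p) and let d be its defect. Then the number k(B) of irreducible characters in B satisfies k(B) ≤ p^(2d)/4 + 1, stated here as 4·k(B) ≤ p^(2d) + 4. -/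
theorem result {G : Type*} [Group G] [Finite G] (p : ℕ) [Fact p.Prime] (M : Ideal Cfsg.AlgInt) (hM : Cfsg.IsPModular p M) (B : Set (Cfsg.IrrCharacter G)) (hB : Cfsg.IsPBlock M B) : 4 * Nat.card B ≤ p ^ (2 * Cfsg.blockDefect p B) + 4 := by
  classical
  have : Fintype G := Fintype.ofFinite G
  have : Fintype (IrrCharacter G) := Fintype.ofFinite _
  refine le_trans ?_ (feit hM hB)
  rw [finsum_mem_irr]
  have h1 : Nat.card B = ∑ χ : IrrCharacter G, if χ ∈ B then 1 else 0 := by
    rw [Nat.card_eq_fintype_card, Finset.sum_boole, Fintype.card_subtype]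
    simp
  rw [h1]
  refine Nat.mul_le_mul_left _ (Finset.sum_le_sum fun χ _ => ?_)
  split_ifs
  · exact Nat.one_le_pow _ _ hM.1.pos
  · exact le_rfl

end Cfsg.Agent.S4494
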