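import Cfsg.Statements.S4495
import Mathlib

set_option autoImplicit false
open Cfsg

namespace Cfsg.Agent.S4495

/-- Let the finite group G contain an element x of prime order p with C_G(x) = ⟨x⟩, and let t be the number of conjugacy classes of elements of order p. If t ≠ p − 1 then the commutator subgroup has index at most (p − 1)/t; if t = p − 1 it has index exactly p. -/
theorem result {G : Type*} [Group G] [Finite G] (p : ℕ) (hp : p.Prime) (x : G) (hx : orderOf x = p) (hC : Subgroup.centralizer ({x} : Set G) = Subgroup.zpowers x) (t : ℕ) (ht : Nat.card {C : ConjClasses G // ∃ g ∈ C.carrier, orderOf g = p} = t) : (t ≠ p - 1 → (commutator G).index * t ≤ p - 1) ∧ (t = p - 1 → (commutator G).index = p) := by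
  classical
  haveI : Fact p.Prime := ⟨hp⟩
  set P : Subgroup G := Subgroup.zpowers x with hPdef
  have hPc : Nat.card P = p := by rw [hPdef, Nat.card_zpowers, hx]
  have hxP : x ∈ P := Subgroup.mem_zpowers x
  -- a nontrivial element of P generates P
  have hgen : ∀ y ∈ P, y ≠ 1 → Subgroup.zpowers y = P := by
    intro y hy hy1
    have h1 : Subgroup.zpowers y ≤ P := by rwa [Subgroup.zpowers_le]
    have h2 : Nat.card (Subgroup.zpowers y) ∣ p := hPc ▸ Subgroup.card_dvd_of_le h1
    rcases (Nat.dvd_prime hp).mp h2 with h3 | h3
    · exfalso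
      apply hy1
      rw [Nat.card_zpowers, orderOf_eq_one_iff] at h3
      exact h3
    · exact Subgroup.eq_of_le_of_card_ge h1 (by rw [h3, hPc])
  have hord : ∀ y ∈ P, y ≠ 1 → orderOf y = p := by
    intro y hy hy1
    rw [← Nat.card_zpowers, hgen y hy hy1, hPc]
  have hcen : ∀ y ∈ P, y ≠ 1 → ∀ g : G, g * y = y * g → g ∈ P := by
    intro y hy hy1 g hg
    have h1 : x ∈ Subgroup.zpowers y := by rw [hgen y hy hy1]; exact hxP
    have h2 : g ∈ Subgroup.centralizer ({x} : Set G) := by
      rw [Subgroup.mem_centralizer_iff]
      intro z hz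
      rw [Set.mem_singleton_iff.mp hz]
      obtain ⟨k, rfl⟩ := Subgroup.mem_zpowers_iff.mp h1
      have h3 : Commute g y := hg
      exact ((h3.zpow_right k).eq).symm
    rw [hC] at h2
    exact h2
  have hcomm : ∀ y ∈ P, ∀ z ∈ P, y * z = z * y := by
    intro y hy z hz
    obtain ⟨i, rfl⟩ := Subgroup.mem_zpowers_iff.mp hy
    obtain ⟨j, rfl⟩ := Subgroup.mem_zpowers_iff.mp hz
    rw [← zpow_add, ← zpow_add, add_comm]
  -- P is Sylow
  have hPp : IsPGroup p P := IsPGroup.of_card (n := 1) (by rw [hPc, pow_one])
  obtain ⟨Q, hQ⟩ := hPp.exists_le_sylow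
  have hQP : (Q : Subgroup G) = P := by
    have hxQ : x ∈ (Q : Subgroup G) := hQ hxP
    haveI : Nontrivial (Q : Subgroup G) := ⟨⟨⟨x, hxQ⟩, 1, by
      intro h
      have h1 : x = 1 := congrArg Subtype.val h
      rw [h1, orderOf_one] at hx
      exact hp.one_lt.ne hx⟩⟩
    haveI : Nontrivial (Subgroup.center (Q : Subgroup G)) := Q.2.center_nontrivial
    obtain ⟨⟨z, hz⟩, hz1⟩ := exists_ne (1 : Subgroup.center (Q : Subgroup G))
    have hz1' : (z : G) ≠ 1 := by
      intro h
      apply hz1
      exact Subtype.ext (Subtype.ext h)
    rw [Subgroup.mem_center_iff] at hz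
    have hzP : (z : G) ∈ P := by
      have h1 := hz ⟨x, hxQ⟩
      have h2 : x * (z : G) = (z : G) * x := congrArg Subtype.val h1
      exact hcen x hxP (by
        intro h
        rw [h, orderOf_one] at hx
        exact hp.one_lt.ne hx) z h2.symm
    apply le_antisymm _ hQ
    intro g hg
    have h1 := hz ⟨g, hg⟩
    have h2 : g * (z : G) = (z : G) * g := congrArg Subtype.val h1
    exact hcen z hzP hz1' g h2
  set N : Subgroup G := Subgroup.normalizer (P : Set G) with hN
  have hPN : P ≤ N := Subgroup.le_normalizer
  have hx1 : x ≠ 1 := by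
    intro h
    rw [h, orderOf_one] at hx
    exact hp.one_lt.ne hx
  set e := (P.subgroupOf N).index with he
  -- counting
  have hcount : t * e = p - 1 := by
    let S := {y : G // y ∈ P ∧ y ≠ 1}
    haveI : Fintype G := Fintype.ofFinite G
    haveI : Fintype P := Fintype.ofFinite P
    haveI : Fintype {C : ConjClasses G // ∃ g ∈ C.carrier, orderOf g = p} := Fintype.ofFinite _
    have hS : Nat.card S = p - 1 := by
      have h1 : Nat.card {y : P // ¬ (y = 1)} = Nat.card P - Nat.card {y : P // y = 1} := by
        rw [Nat.card_eq_fintype_card, Nat.card_eq_fintype_card, Nat.card_eq_fintype_card]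
        exact Fintype.card_subtype_compl _
      have h2 : Nat.card {y : P // y = 1} = 1 := by
        rw [Nat.card_eq_fintype_card, Fintype.card_subtype_eq]
      rw [h2, hPc] at h1
      rw [← h1]
      apply Nat.card_congr
      exact { toFun := fun y => ⟨⟨y.1, y.2.1⟩, fun h => y.2.2 (congrArg Subtype.val h)⟩
              invFun := fun y => ⟨y.1.1, y.1.2, fun h => y.2 (Subtype.ext h)⟩
              left_inv := fun y => rfl
              right_inv := fun y => rfl }
    let φ : S → {C : ConjClasses G // ∃ g ∈ C.carrier, orderOf g = p} := fun y =>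
      ⟨ConjClasses.mk y.1, y.1, ConjClasses.mem_carrier_mk, hord y.1 y.2.1 y.2.2⟩
    have hfib : ∀ C, Nat.card {y : S // φ y = C} = e := by
      rintro ⟨C, g, hgC, hgo⟩
      -- g is conjugate into P
      have hgp : IsPGroup p (Subgroup.zpowers g) :=
        IsPGroup.of_card (n := 1) (by rw [Nat.card_zpowers, hgo, pow_one])
      obtain ⟨R, hR⟩ := hgp.exists_le_sylow
      obtain ⟨a, ha⟩ := MulAction.exists_smul_eq G R Q
      have hy0 : a * g * a⁻¹ ∈ P := by
        rw [← hQP, ← ha]
        rw [Sylow.coe_subgroup_smul, Subgroup.mem_pointwise_smul_iff_inv_smul_mem]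
        have : (MulAut.conj a)⁻¹ • (a * g * a⁻¹) = g := by
          rw [← map_inv, MulAut.smul_def, MulAut.conj_apply]; group
        rw [this]
        exact hR (Subgroup.mem_zpowers g)
      set y := a * g * a⁻¹ with hy
      have hy1 : y ≠ 1 := by
        intro h
        have : g = 1 := by
          have h2 : a * g = a := by
            have := congrArg (· * a) h
            simpa [hy, mul_assoc] using this
          simpa using h2
        rw [this, orderOf_one] at hgo
        exact hp.one_lt.ne hgo
      have hCy : C = ConjClasses.mk y := by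
        have h1 : ConjClasses.mk g = C := ConjClasses.mem_carrier_iff_mk_eq.mp hgC
        rw [← h1, ConjClasses.mk_eq_mk_iff_isConj]
        exact isConj_iff.mpr ⟨a, rfl⟩
      have hfn : ∀ n : N, (n : G) * y * (n : G)⁻¹ ∈ P ∧ (n : G) * y * (n : G)⁻¹ ≠ 1 := by
        intro n
        refine ⟨(Subgroup.mem_normalizer_iff.mp n.2 y).mp hy0, ?_⟩
        intro h
        apply hy1
        have := congrArg (fun z => (n : G)⁻¹ * z * n) h
        simpa [mul_assoc] using this
      let f : N → {z : S // φ z = ⟨C, g, hgC, hgo⟩} := fun n =>
        ⟨⟨(n : G) * y * (n : G)⁻¹, hfn n⟩, by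
          apply Subtype.ext
          change ConjClasses.mk ((n : G) * y * (n : G)⁻¹) = C
          rw [hCy, ConjClasses.mk_eq_mk_iff_isConj]
          exact (isConj_iff.mpr ⟨(n : G), rfl⟩ : IsConj y _).symm⟩
      have hff : ∀ n m : N, f n = f m ↔ n⁻¹ * m ∈ P.subgroupOf N := by
        intro n m
        have h1 : f n = f m ↔ (n : G) * y * (n : G)⁻¹ = (m : G) * y * (m : G)⁻¹ := by
          constructor
          · intro h
            exact congrArg (fun z : {z : S // φ z = ⟨C, g, hgC, hgo⟩} => (z.1.1 : G)) h
          · intro h
            exact Subtype.ext (Subtype.ext h)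
        rw [h1, Subgroup.mem_subgroupOf]
        constructor
        · intro h
          apply hcen y hy0 hy1
          push_cast
          calc (n : G)⁻¹ * m * y = (n : G)⁻¹ * (m * y * (m : G)⁻¹) * m := by group
            _ = (n : G)⁻¹ * (n * y * (n : G)⁻¹) * m := by rw [h]
            _ = y * ((n : G)⁻¹ * m) := by group
        · intro h
          have h2 := hcomm _ h y hy0
          push_cast at h2
          calc (n : G) * y * (n : G)⁻¹ = (n : G) * (y * ((n : G)⁻¹ * m)) * (m : G)⁻¹ := by group
            _ = (n : G) * (((n : G)⁻¹ * m) * y) * (m : G)⁻¹ := by rw [h2]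
            _ = (m : G) * y * (m : G)⁻¹ := by group
      have hbij : Function.Bijective
          (fun q : N ⧸ P.subgroupOf N => Quotient.liftOn' q f (by
            intro n m hnm
            rw [QuotientGroup.leftRel_apply] at hnm
            exact (hff n m).mpr hnm)) := by
        constructor
        · intro q r
          induction q using QuotientGroup.induction_on with
          | H n =>
            induction r using QuotientGroup.induction_on with
            | H m =>
              intro h
              exact QuotientGroup.eq.mpr ((hff n m).mp h)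
        · rintro ⟨⟨z, hz, hz1⟩, hzC⟩
          have h1 : ConjClasses.mk z = ConjClasses.mk y := by
            rw [← hCy]; exact congrArg Subtype.val hzC
          rw [ConjClasses.mk_eq_mk_iff_isConj] at h1
          obtain ⟨b, hb⟩ := isConj_iff.mp h1.symm
          have hbN : b ∈ N := by
            have hb1 : ∀ h ∈ P, b * h * b⁻¹ ∈ P := by
              intro h hh
              rw [← hgen y hy0 hy1] at hh
              obtain ⟨k, rfl⟩ := Subgroup.mem_zpowers_iff.mp hh
              rw [← conj_zpow, hb]
              exact P.zpow_mem hz k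
            have hb2 : ∀ h ∈ P, b⁻¹ * h * b ∈ P := by
              intro h hh
              rw [← hgen z hz hz1] at hh
              obtain ⟨k, rfl⟩ := Subgroup.mem_zpowers_iff.mp hh
              have : b⁻¹ * z ^ k * b = y ^ k := by
                rw [← hb, conj_zpow]; group
              rw [this]
              exact P.zpow_mem hy0 k
            rw [hN, Subgroup.mem_normalizer_iff]
            intro h
            constructor
            · exact hb1 h
            · intro hh
              have := hb2 _ hh
              have h4 : b⁻¹ * (b * h * b⁻¹) * b = h := by group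
              rwa [h4] at this
          refine ⟨QuotientGroup.mk ⟨b, hbN⟩, ?_⟩
          exact Subtype.ext (Subtype.ext hb)
      rw [he, Subgroup.index, Nat.card_eq_of_bijective _ hbij]
    have h3 : Nat.card S = Nat.card (Σ C : {C : ConjClasses G // ∃ g ∈ C.carrier, orderOf g = p},
        {y : S // φ y = C}) := Nat.card_congr (Equiv.sigmaFiberEquiv φ).symm
    rw [Nat.card_sigma, Finset.sum_congr rfl (fun C _ => hfib C), Finset.sum_const,
      Finset.card_univ, smul_eq_mul, ← Nat.card_eq_fintype_card, ht, hS] at h3
    exact h3.symm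
  have hpp : 0 < p - 1 := by have := hp.one_lt; omega
  have hepos : 0 < e := by
    rcases Nat.eq_zero_or_pos e with h | h
    · rw [h, mul_zero] at hcount; omega
    · exact h
  constructor
  · -- t ≠ p - 1
    intro htp
    have he1 : e ≠ 1 := by
      intro h; rw [h, mul_one] at hcount; exact htp hcount
    have hex : ∃ n ∈ N, n ∉ P := by
      by_contra hcon
      push Not at hcon
      apply he1
      rw [he, Subgroup.index_eq_one, Subgroup.subgroupOf_eq_top]
      exact hcon
    obtain ⟨n, hn, hnP⟩ := hex
    have hcx : n * x * n⁻¹ * x⁻¹ ∈ P := P.mul_mem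
      ((Subgroup.mem_normalizer_iff.mp hn x).mp hxP) (P.inv_mem hxP)
    have hcx1 : n * x * n⁻¹ * x⁻¹ ≠ 1 := by
      intro h
      apply hnP
      apply hcen x hxP hx1
      have h2 : n * x * n⁻¹ = x := mul_inv_eq_one.mp h
      calc n * x = (n * x * n⁻¹) * n := by group
        _ = x * n := by rw [h2]
    have hPG : P ≤ commutator G := by
      rw [← hgen _ hcx hcx1, Subgroup.zpowers_le]
      exact Subgroup.commutator_mem_commutator (Subgroup.mem_top n) (Subgroup.mem_top x)
    have hsup : N ⊔ commutator G = ⊤ := by
      let Q' : Sylow p (commutator G) := Q.subtype (by rw [hQP]; exact hPG)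
      have h1 := Sylow.normalizer_sup_eq_top Q'
      have h2 : ((Q' : Subgroup (commutator G)).map (commutator G).subtype) = P := by
        have : (Q' : Subgroup (commutator G)) = (Q : Subgroup G).subgroupOf (commutator G) := rfl
        rw [this, hQP, Subgroup.subgroupOf_map_subtype, inf_eq_left.mpr hPG]
      rw [h2] at h1
      exact h1
    have hidx : (commutator G).index ∣ e := by
      have h1 : (commutator G).relIndex N ∣ P.relIndex N :=
        Subgroup.relIndex_dvd_of_le_left N hPG
      have h2 : (commutator G).relIndex N = (commutator G).index := by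
        rw [← Subgroup.relIndex_top_right, ← hsup, Subgroup.relIndex_sup_right]
      rw [← h2]
      exact h1
    calc (commutator G).index * t ≤ e * t := Nat.mul_le_mul_right _ (Nat.le_of_dvd hepos hidx)
      _ = p - 1 := by rw [mul_comm]; exact hcount
  · intro htp
    have he1 : e = 1 := by
      rw [htp] at hcount
      exact Nat.eq_of_mul_eq_mul_left hpp (by rw [hcount, mul_one])
    have hNP : N ≤ P := by
      rw [he, Subgroup.index_eq_one, Subgroup.subgroupOf_eq_top] at he1
      exact he1
    have hNC : Subgroup.normalizer ((Q : Subgroup G) : Set G) ≤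
        Subgroup.centralizer ((Q : Subgroup G) : Set G) := by
      rw [hQP]
      intro n hn
      rw [Subgroup.mem_centralizer_iff]
      intro z hz
      exact hcomm z hz n (hNP hn)
    have hcompl := MonoidHom.ker_transferSylow_isComplement' Q hNC
    set K := (MonoidHom.transferSylow Q hNC).ker with hK
    rw [hQP] at hcompl
    have hKi : K.index = p := by rw [hcompl.symm.index_eq_card, hPc]
    have hKn : K.Normal := inferInstance
    have h1 : commutator G ≤ K := by
      haveI : K.Normal := hKn
      haveI hcyc : IsCyclic (G ⧸ K) := isCyclic_of_prime_card (p := p) (by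
        rw [← Subgroup.index]; exact hKi)
      have hcm : ∀ a b : G ⧸ K, a * b = b * a := by
        letI := IsCyclic.commGroup (α := G ⧸ K)
        intro a b
        exact mul_comm a b
      rw [commutator_def, Subgroup.commutator_le]
      intro a _ b _
      rw [← QuotientGroup.eq_one_iff]
      have := hcm (a : G ⧸ K) (b : G ⧸ K)
      rw [commutatorElement_def, QuotientGroup.mk_mul, QuotientGroup.mk_mul, QuotientGroup.mk_mul,
        QuotientGroup.mk_inv, QuotientGroup.mk_inv, this]
      group
    have h2 : K ≤ commutator G := by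
      let f : K → K := fun k => ⟨(k : G) * x * (k : G)⁻¹ * x⁻¹, by
        have : (k : G) * x * (k : G)⁻¹ * x⁻¹ = (k : G) * (x * (k : G)⁻¹ * x⁻¹) := by group
        rw [this]
        exact K.mul_mem k.2 (hKn.conj_mem _ (K.inv_mem k.2) x)⟩
      have hinj : Function.Injective f := by
        intro k l hkl
        have h3 : (k : G) * x * (k : G)⁻¹ * x⁻¹ = (l : G) * x * (l : G)⁻¹ * x⁻¹ :=
          congrArg Subtype.val hkl
        have h4 : (k : G) * x * (k : G)⁻¹ = (l : G) * x * (l : G)⁻¹ := mul_right_cancel h3
        have h5 : (l : G)⁻¹ * k ∈ P := by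
          apply hcen x hxP hx1
          calc (l : G)⁻¹ * k * x = (l : G)⁻¹ * (k * x * (k : G)⁻¹) * k := by group
            _ = (l : G)⁻¹ * (l * x * (l : G)⁻¹) * k := by rw [h4]
            _ = x * ((l : G)⁻¹ * k) := by group
        have h6 : (l : G)⁻¹ * k ∈ K := K.mul_mem (K.inv_mem l.2) k.2
        have h7 : (l : G)⁻¹ * k ∈ K ⊓ P := ⟨h6, h5⟩
        rw [hcompl.disjoint.eq_bot, Subgroup.mem_bot, inv_mul_eq_one] at h7
        exact Subtype.ext h7.symm
      have hsurj : Function.Surjective f := Finite.surjective_of_injective hinj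
      intro k hk
      obtain ⟨l, hl⟩ := hsurj ⟨k, hk⟩
      have h3 : (l : G) * x * (l : G)⁻¹ * x⁻¹ = k := congrArg Subtype.val hl
      rw [← h3]
      exact Subgroup.commutator_mem_commutator (Subgroup.mem_top (l : G)) (Subgroup.mem_top x)
    rw [le_antisymm h1 h2, hKi]

end Cfsg.Agent.S4495
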