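import Cfsg.Statements.S4731
import Mathlib
import Cfsg.Agent.H26_Defect2
import Cfsg.Agent.H10_BlockKer
import Cfsg.Agent.H10_BlockHZ

set_option autoImplicit false
open Cfsg

namespace Cfsg.Agent.S4731

open Cfsg Cfsg.Agent.H3.CharIrr Cfsg.Agent.H3.CharComplete Cfsg.Agent.H10.BlockAlg Cfsg.Agent.H10.BlockLoc Cfsg.Agent.H10.BlockIdem Cfsg.Agent.H10.BlockOrth Cfsg.Agent.H26.Basic

/-- Let p ≠ q be primes, M_p and M_q maximal ideals of the algebraic integers containing p and q respectively, and G a finite group with no element of order pq; let q^b be the q-part of the order of G. For a p-block B_p (relative to M_p), a q-block B_q (relative to M_q) and a p-singular element y, the sum of χ(1)χ(y) over the irreducible characters χ lying in both B_p and B_q is q^b times an algebraic integer. -/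
theorem result {G : Type*} [Group G] [Finite G] (p q : ℕ) [Fact p.Prime] [Fact q.Prime] (hpq : p ≠ q) (Mp Mq : Ideal Cfsg.AlgInt) (hMp : Cfsg.IsPModular p Mp) (hMq : Cfsg.IsPModular q Mq) (hno : ∀ g : G, orderOf g ≠ p * q) (b : ℕ) (hb : (Nat.card G).factorization q = b) (Bp : Set (Cfsg.IrrCharacter G)) (hBp : Cfsg.IsPBlock Mp Bp) (Bq : Set (Cfsg.IrrCharacter G)) (hBq : Cfsg.IsPBlock Mq Bq) (y : G) (hy : p ∣ orderOf y) : ∃ ω : Cfsg.AlgInt, ∑ᶠ χ ∈ Bp ∩ Bq, (Cfsg.charDegree (χ : G → ℂ) : ℂ) * (χ : G → ℂ) y = (q : ℂ) ^ b * (ω : ℂ) := by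
  classical
  haveI := Fintype.ofFinite G
  haveI : Fintype (IrrCharacter G) := Fintype.ofFinite _
  haveI := hMq.2.1
  have hp : p.Prime := Fact.out
  have hq : q.Prime := Fact.out
  -- q-singular elements are p-regular
  have hreg : ∀ u : G, q ∣ orderOf u → ¬ p ∣ orderOf u := by
    intro u hqu hpu
    have h1 : p * q ∣ orderOf u := ((Nat.coprime_primes hp hq).2 hpq).mul_dvd_of_dvd_of_dvd hpu hqu
    obtain ⟨k, hk⟩ := h1
    have hk0 : k ≠ 0 := by rintro rfl; rw [mul_zero] at hk; exact (orderOf_pos u).ne' hk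
    apply hno (u ^ k)
    rw [orderOf_pow_of_dvd hk0 (hk ▸ Dvd.intro_left _ rfl), hk, Nat.mul_div_cancel _ (Nat.pos_of_ne_zero hk0)]
  set g : G → ℂ := fun u => ∑ χ : IrrCharacter G, (if χ ∈ Bp then (χ : G → ℂ) y * (χ : G → ℂ) u else 0) with hg
  have hg0 : ∀ u : G, q ∣ orderOf u → g u = 0 := fun u hu => weak_orth' hMp hBp u y (hreg u hu) hy
  have hgc : ∀ ψ : IrrCharacter G, classInner g (ψ : G → ℂ) = if ψ ∈ Bp then (ψ : G → ℂ) y else 0 := by
    intro ψ
    have h1 : g = ∑ χ : IrrCharacter G, (if χ ∈ Bp then (χ : G → ℂ) y else 0) • (χ : G → ℂ) := by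
      funext u
      rw [Finset.sum_apply]
      refine Finset.sum_congr rfl fun χ _ => ?_
      rw [Pi.smul_apply, smul_eq_mul, ite_mul, zero_mul]
    rw [h1, ci_sum_irr]
  have hh : ∀ u : G, blockPart Bq g u = ∑ χ : IrrCharacter G, (if χ ∈ Bp ∩ Bq then (χ : G → ℂ) y * (χ : G → ℂ) u else 0) := by
    intro u
    rw [blockPart_apply]
    simp_rw [Finset.mul_sum]
    rw [Finset.sum_comm]
    refine Finset.sum_congr rfl fun χ _ => ?_
    have h1 : ∀ c : ℂ, ∑ x : G, (Nat.card G : ℂ)⁻¹ * (g x * (c * (starRingEnd ℂ) ((χ : G → ℂ) x))) = c * (if χ ∈ Bp then (χ : G → ℂ) y else 0) := by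
      intro c
      rw [← hgc χ, classInner, Finset.mul_sum, Finset.mul_sum]
      exact Finset.sum_congr rfl fun x _ => by ring
    by_cases h2 : χ ∈ Bq
    · simp only [if_pos h2]
      rw [h1]
      by_cases h3 : χ ∈ Bp
      · rw [if_pos h3, if_pos ⟨h3, h2⟩, mul_comm]
      · rw [if_neg h3, if_neg (fun h => h3 h.1), mul_zero]
    · simp only [if_neg h2]
      rw [if_neg (fun h => h2 h.2)]
      simp
  have hv : ∀ u : G, q ∣ orderOf u → blockPart Bq g u = 0 := by
    intro u hu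
    rw [blockPart_apply, Finset.sum_eq_zero, mul_zero]
    intro x _
    by_cases hx : q ∣ orderOf x
    · rw [hg0 x hx, zero_mul]
    · have h1 := weak_orth hMq hBq x u hx hu
      have h2 := congrArg (starRingEnd ℂ) h1
      rw [map_sum, map_zero] at h2
      have h3 : ∑ χ : IrrCharacter G, (if χ ∈ Bq then (χ : G → ℂ) u * (starRingEnd ℂ) ((χ : G → ℂ) x) else 0) = 0 := by
        refine (Finset.sum_congr rfl fun χ _ => ?_).trans h2
        split_ifs
        · rw [map_mul, Complex.conj_conj, mul_comm]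
        · rw [map_zero]
      rw [h3, mul_zero]
  obtain ⟨Q⟩ : Nonempty (Sylow q G) := inferInstance
  have hQ : Nat.card (Q : Subgroup G) = q ^ b := by
    rw [← hb]; exact Q.card_eq_multiplicity
  have hm : ∀ χ : IrrCharacter G, ∃ m : ℕ, ∑ u : (Q : Subgroup G), (χ : G → ℂ) u = (Nat.card (Q : Subgroup G) : ℂ) * m := fun χ =>
    Cfsg.Agent.H10.BlockMain.sum_char_subgroup (IsIrr.isCharacter χ.2) (Q : Subgroup G)
  choose m hm using hm
  have h1 : blockPart Bq g 1 = ∑ u : (Q : Subgroup G), blockPart Bq g u := by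
    rw [Finset.sum_eq_single (1 : (Q : Subgroup G))]
    · rfl
    · intro u _ hu
      apply hv
      have := Cfsg.Agent.H10.BlockNormal.pgroup_singular (p := q) Q.isPGroup' u.2 (fun h => hu (Subtype.ext h))
      exact this
    · intro h; exact absurd (Finset.mem_univ _) h
  have h2 : ∑ u : (Q : Subgroup G), blockPart Bq g u = (q : ℂ) ^ b * ∑ χ : IrrCharacter G, (if χ ∈ Bp ∩ Bq then (χ : G → ℂ) y * (m χ : ℂ) else 0) := by
    simp_rw [hh]
    rw [Finset.sum_comm, Finset.mul_sum]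
    refine Finset.sum_congr rfl fun χ _ => ?_
    split_ifs
    · rw [← Finset.mul_sum, hm χ, hQ]; push_cast; ring
    · simp
  have hint : IsIntegral ℤ (∑ χ : IrrCharacter G, (if χ ∈ Bp ∩ Bq then (χ : G → ℂ) y * (m χ : ℂ) else 0)) := by
    apply IsIntegral.sum
    intro χ _
    split_ifs
    · exact (integral_val χ y).mul (Cfsg.Agent.H26.Basic.isIntegral_natCast _)
    · exact isIntegral_zero
  refine ⟨⟨_, hint⟩, ?_⟩
  rw [finsum_mem_irr]
  show _ = (q : ℂ) ^ b * ∑ χ : IrrCharacter G, (if χ ∈ Bp ∩ Bq then (χ : G → ℂ) y * (m χ : ℂ) else 0)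
  rw [← h2, ← h1, hh]
  refine Finset.sum_congr rfl fun χ _ => ?_
  split_ifs
  · rw [cd_eq, mul_comm]
  · rfl

end Cfsg.Agent.S4731
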