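import Cfsg.Statements.S4498
import Cfsg.Agent.H25_Odd
import Cfsg.Agent.S4731

set_option autoImplicit false
open Cfsg

namespace Cfsg.Agent.S4498


/-- Let p and q be distinct primes dividing the order of the finite group G, and suppose G has no element of order p·q. Fix maximal ideals M_p over p and M_q over q of the algebraic integers. Then the principal p-block and the principal q-block of G have a non-principal irreducible character in common. -/
theorem result {G : Type*} [Group G] [Finite G] (p q : ℕ) [Fact p.Prime] [Fact q.Prime] (hpq : p ≠ q) (hp : p ∣ Nat.card G) (hq : q ∣ Nat.card G) (hno : ∀ g : G, orderOf g ≠ p * q) (Mp Mq : Ideal Cfsg.AlgInt) (hMp : Cfsg.IsPModular p Mp) (hMq : Cfsg.IsPModular q Mq) : ∃ χ : Cfsg.IrrCharacter G, (χ : G → ℂ) ≠ (fun _ => 1) ∧ χ ∈ Cfsg.principalBlock Mp G ∧ χ ∈ Cfsg.principalBlock Mq G := by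
  haveI := Fintype.ofFinite G
  haveI := hMp.2.1
  haveI := hMq.2.1
  by_contra hcon
  push Not at hcon
  obtain ⟨y, hy⟩ := exists_prime_orderOf_dvd_card' p hp
  have hp' : principalBlock Mp G ∩ principalBlock Mq G = {H10.BlockKer.triv G} := by
    ext χ
    rw [Set.mem_singleton_iff]
    constructor
    · rintro ⟨h1, h2⟩
      by_contra h3
      exact hcon χ (fun h => h3 (Subtype.ext h)) h1 h2
    · rintro rfl
      exact ⟨H10.BlockKer.triv_mem, H10.BlockKer.triv_mem⟩
  obtain ⟨ω, hω⟩ := S4731.result p q hpq Mp Mq hMp hMq hno _ rfl (principalBlock Mp G)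
    H10.BlockKer.principal_isPBlock (principalBlock Mq G) H10.BlockKer.principal_isPBlock y
    (by rw [hy])
  rw [hp', finsum_mem_singleton, H10.Char.charDegree_eq (H10.BlockKer.triv G).2,
    H10.BlockKer.triv_coe, H10.BlockKer.triv_coe, one_mul] at hω
  have hq' : (Nat.card G).factorization q ≠ 0 := by
    intro h
    exact (Nat.factorization_eq_zero_iff _ _).1 h |>.elim (fun h => h (Fact.out))
      (fun h => h.elim (fun h => h hq) (fun h => Nat.card_pos.ne' h))
  have h1 : MemLocalIdeal Mq (1 : ℂ) := by
    rw [hω]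
    refine H10.BlockLoc.ideal_mul_right ?_ (H10.BlockLoc.memLocalRing_of_algInt hMq.2.1.ne_top ω)
    have := (H10.BlockLoc.ideal_natCast_iff hMq (q ^ (Nat.card G).factorization q)).2
      (dvd_pow_self q hq')
    simpa using this
  exact H10.BlockLoc.one_notMem_ideal h1

end Cfsg.Agent.S4498
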