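import Cfsg.Statements.S4502
import Cfsg.Agent.S4635
import Cfsg.Agent.S0920
import Cfsg.Agent.H7_TMc

set_option autoImplicit false
set_option linter.style.haveILetI false
open Cfsg

namespace Cfsg.Agent.S4502

open Cfsg.Agent.H7.TMc

theorem result {G : Type*} [Group G] [Finite G] (p : ℕ) [Fact p.Prime] (hdiv : p ∣ Nat.card G) (hsq : ¬ p ^ 2 ∣ Nat.card G) (P : Sylow p G) : Nat.card {χ : Cfsg.IrrCharacter G // ¬ p ∣ Cfsg.charDegree (χ : G → ℂ)} = Nat.card (ConjClasses (Subgroup.normalizer ((P : Subgroup G) : Set G))) := by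
  classical
  have hp : p.Prime := Fact.out
  obtain ⟨M, hM⟩ := Cfsg.Agent.H26.Kernel.exists_isPModular p hp
  haveI := hM.2.1
  haveI : Fintype G := Fintype.ofFinite G
  have h1 := fact_one hdiv hsq
  have hPc := card_sylow h1 P
  set N := Subgroup.normalizer ((P : Subgroup G) : Set G) with hNdef
  haveI : Fintype N := Fintype.ofFinite N
  have hPN : (P : Subgroup G) ≤ N := Subgroup.le_normalizer
  have hNdiv : p ∣ Nat.card N := by
    rw [← hPc]; exact Subgroup.card_dvd_of_le hPN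
  have hNsq : ¬ p ^ 2 ∣ Nat.card N := fun h => hsq (h.trans (Subgroup.card_subgroup_dvd_card N))
  have h1N := fact_one hNdiv hNsq
  let PN : Sylow p N := P.subtype hPN
  have hPNe : (PN : Subgroup N) = (P : Subgroup G).subgroupOf N := rfl
  have hnorm : (PN : Subgroup N).Normal := by
    rw [hPNe, hNdef]
    infer_instance
  haveI : Finite (IrrCharacter G) := inferInstance
  haveI : Finite (IrrCharacter N) := inferInstance
  haveI : Fintype {B : Set (IrrCharacter G) // IsPBlock M B ∧ IsDefectGroup p M B (P : Subgroup G)} := Fintype.ofFinite _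
  haveI : Fintype {b : Set (IrrCharacter N) // IsPBlock M b ∧ IsDefectGroup p M b (PN : Subgroup N)} := Fintype.ofFinite _
  have hG := card_eq_sum hM h1 P
  have hN := card_eq_sum hM h1N PN
  have hall : Nat.card {ψ : IrrCharacter N // ¬ p ∣ charDegree (ψ : N → ℂ)} = Nat.card (IrrCharacter N) :=
    Nat.card_congr (Equiv.subtypeUnivEquiv (degree_of_normal hM h1N PN hnorm))
  rw [← Cfsg.Agent.H3.CharComplete.card_irr, ← hall, hG, hN]
  have hFMT := Cfsg.Agent.S0920.result p M hM (P : Subgroup G) P.isPGroup'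
  -- the inverse Brauer map
  have hex : ∀ B : {B : Set (IrrCharacter G) // IsPBlock M B ∧ IsDefectGroup p M B (P : Subgroup G)},
      ∃ b : {b : Set (IrrCharacter N) // IsPBlock M b ∧ IsDefectGroup p M b (PN : Subgroup N)},
        IsInducedBlock M N b.1 B.1 := by
    intro B
    obtain ⟨b, ⟨hb1, hb2, hb3⟩, -⟩ := hFMT.2 B.1 B.2.1 B.2.2
    exact ⟨⟨b, hb1, hb2⟩, hb3⟩
  choose g hg using hex
  have hinj : Function.Injective g := by
    intro B B' h
    have h2 := hg B'
    rw [← h] at h2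
    exact Subtype.ext (induced_unique hM (hg B) h2)
  have hsurj : Function.Surjective g := by
    intro b
    obtain ⟨B, hB1, hB2, hB3⟩ := hFMT.1 b.1 b.2.1 b.2.2
    refine ⟨⟨B, hB1, hB2⟩, ?_⟩
    apply Subtype.ext
    exact (hFMT.2 B hB1 hB2).unique ⟨(g ⟨B, hB1, hB2⟩).2.1, (g ⟨B, hB1, hB2⟩).2.2, hg ⟨B, hB1, hB2⟩⟩
      ⟨b.2.1, b.2.2, hB3⟩
  refine Fintype.sum_equiv (Equiv.ofBijective g ⟨hinj, hsurj⟩) _ _ ?_
  intro B
  have hne : (P : Subgroup G) ≠ ⊥ := by
    intro h
    rw [h, Subgroup.card_bot] at hPc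
    exact hp.one_lt.ne hPc
  have hcyc : IsCyclic (P : Subgroup G) := isCyclic_of_prime_card hPc
  exact (Cfsg.Agent.S4635.result p M hM B.1 B.2.1 (P : Subgroup G) B.2.2 hne hcyc (P : Subgroup G) le_rfl hPc
    N rfl (g B).1 (g B).2.2 (hg B)).1.symm

end Cfsg.Agent.S4502
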