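import Cfsg.Statements.S4503
import Mathlib
import Cfsg.Agent.H9_DgH

set_option autoImplicit false
open Cfsg

namespace Cfsg.Agent.S4503

/-- Let G be a finite group whose order is divisible by the prime p exactly once and which has no normal subgroup of order p. Then every faithful character χ of G has degree at least (p − 1)/2: 2·χ(1) + 1 ≥ p. -/
theorem result {G : Type*} [Group G] [Finite G] (p : ℕ) (hp : p.Prime) (hdiv : p ∣ Nat.card G) (hsq : ¬ p ^ 2 ∣ Nat.card G) (hnn : ∀ H : Subgroup G, H.Normal → Nat.card H ≠ p) (χ : G → ℂ) (hχ : Cfsg.IsCharacter G χ) (hfaith : ∀ g : G, χ g = χ 1 → g = 1) : p ≤ 2 * Cfsg.charDegree χ + 1 := by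
  by_contra hcon
  push Not at hcon
  obtain ⟨H, hH, hc⟩ := Cfsg.Agent.H9.Dg.final hp hdiv hsq hχ hfaith (by omega)
  exact hnn H hH hc

end Cfsg.Agent.S4503
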