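import Cfsg.Statements.S4506
import Cfsg.Agent.S4425
import Cfsg.Agent.H3_CharGal
import Cfsg.Agent.H3_CharMult

set_option autoImplicit false
open Cfsg

namespace Cfsg.Agent.S4506

open Cfsg Cfsg.Agent.H3.CharIrr Cfsg.Agent.H3.CharComplete Cfsg.Agent.H3.CharBasic Cfsg.Agent.H3.CharGal
  Cfsg.Agent.H3.CharInt Cfsg.Agent.H3.CharInd Cfsg.Agent.H3.CharMult Cfsg.Agent.H10.Char
open scoped ComplexConjugate

/-- p-conjugate characters agree on p-regular elements -/
theorem agree {G : Type*} [Group G] [Finite G] {p : ℕ} (hp : p.Prime) {χ ψ : G → ℂ} (hχ : IsCharacter G χ)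
    {σ : ℂ ≃+* ℂ} (hσ : σ (Complex.exp (2 * Real.pi * Complex.I / ((Nat.card G / p ^ (Nat.card G).factorization p) : ℕ))) =
      Complex.exp (2 * Real.pi * Complex.I / ((Nat.card G / p ^ (Nat.card G).factorization p) : ℕ)))
    (hψ : ψ = fun g => σ (χ g)) {g : G} (hg : ¬ p ∣ orderOf g) : ψ g = χ g := by
  set n := Nat.card G / p ^ (Nat.card G).factorization p with hn
  have hn0 : n ≠ 0 := (Nat.ordCompl_pos p Nat.card_pos.ne').ne'
  have hdvd : orderOf g ∣ n := by
    have h1 : orderOf g ∣ p ^ (Nat.card G).factorization p * n := by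
      rw [hn, Nat.ordProj_mul_ordCompl_eq_self]
      exact orderOf_dvd_natCard g
    exact (Nat.Coprime.pow_right _ ((hp.coprime_iff_not_dvd.2 hg).symm)).dvd_of_dvd_mul_left h1
  obtain ⟨d, z, -, hz, hc⟩ := IsChar.exists_roots hχ n hn0 g (orderOf_dvd_iff_pow_eq_one.1 hdvd)
  have h1 := hc 1
  simp only [pow_one] at h1
  haveI : NeZero n := ⟨hn0⟩
  rw [hψ]
  show σ (χ g) = χ g
  rw [h1, map_sum]
  refine Finset.sum_congr rfl fun i _ => ?_
  obtain ⟨j, -, hj⟩ := (Complex.isPrimitiveRoot_exp n hn0).eq_pow_of_pow_eq_one (hz i)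
  rw [← hj, map_pow, hσ]


/-- Let G be a finite group, p a prime, p^a the p-part of the order of G and g′ its p′-part. Call two irreducible characters p-conjugate when one is obtained from the other by applying a field automorphism of ℂ that fixes the g′-th roots of unity, and let r be the number of characters p-conjugate to the irreducible character χ (χ included). Then the exponent of p in r·χ(1) is at most a; and if p^a divides r·χ(1) then p^a already divides χ(1). -/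
theorem result {G : Type*} [Group G] [Finite G] (p : ℕ) (hp : p.Prime) (χ : Cfsg.IrrCharacter G) (r : ℕ) (hr : Nat.card {ψ : Cfsg.IrrCharacter G // ∃ σ : ℂ ≃+* ℂ, σ (Complex.exp (2 * Real.pi * Complex.I / ((Nat.card G / p ^ (Nat.card G).factorization p) : ℕ))) = Complex.exp (2 * Real.pi * Complex.I / ((Nat.card G / p ^ (Nat.card G).factorization p) : ℕ)) ∧ (ψ : G → ℂ) = fun g => σ ((χ : G → ℂ) g)} = r) : (r * Cfsg.charDegree (χ : G → ℂ)).factorization p ≤ (Nat.card G).factorization p ∧ (p ^ (Nat.card G).factorization p ∣ r * Cfsg.charDegree (χ : G → ℂ) → p ^ (Nat.card G).factorization p ∣ Cfsg.charDegree (χ : G → ℂ)) := by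
  classical
  haveI := Fintype.ofFinite G
  haveI : Fintype (IrrCharacter G) := Fintype.ofFinite _
  haveI : Fact p.Prime := ⟨hp⟩
  set a := (Nat.card G).factorization p with ha
  set b := (charDegree (χ : G → ℂ)).factorization p with hb
  have hdeg0 : charDegree (χ : G → ℂ) ≠ 0 := (charDegree_pos χ.2).ne'
  have hdeg : (charDegree (χ : G → ℂ) : ℂ) = (χ : G → ℂ) 1 := charDegree_eq χ.2
  have hba : b ≤ a := by
    obtain ⟨n, hn0, hn, hdvd⟩ := IsIrr.dvd_card χ.2
    have h1 : charDegree (χ : G → ℂ) = n := by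
      have := hdeg.trans hn
      exact_mod_cast this
    rw [hb, h1, ha]
    exact (Nat.factorization_le_iff_dvd hn0.ne' Nat.card_pos.ne').2 hdvd p
  set S : Finset (IrrCharacter G) := Finset.univ.filter (fun ψ : IrrCharacter G => ∃ σ : ℂ ≃+* ℂ,
    σ (Complex.exp (2 * Real.pi * Complex.I / ((Nat.card G / p ^ a) : ℕ))) =
      Complex.exp (2 * Real.pi * Complex.I / ((Nat.card G / p ^ a) : ℕ)) ∧ (ψ : G → ℂ) = fun g => σ ((χ : G → ℂ) g)) with hS
  have hrS : S.card = r := by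
    rw [← hr, Nat.card_eq_fintype_card, Fintype.card_subtype]
  set F : G → ℂ := fun x : G => if p ∣ orderOf x then (0 : ℂ) else ((p ^ (a - b) : ℕ) : ℂ) * (χ : G → ℂ) x with hF
  have hFgen : IsGeneralizedCharacter G F := (Cfsg.Agent.S4425.result p χ).1
  have hFcl := IsGen.isClass hFgen
  -- inner products
  obtain ⟨m, hm⟩ := ci_gen_int hFgen (IsGen.of_irr χ.2)
  have hSm : ∀ ψ ∈ S, classInner F (ψ : G → ℂ) = m := by
    intro ψ hψ
    obtain ⟨σ, hσ, hψσ⟩ := (Finset.mem_filter.1 hψ).2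
    rw [← hm, classInner, classInner]
    congr 1
    refine Finset.sum_congr rfl fun g _ => ?_
    by_cases hg : p ∣ orderOf g
    · have : F g = 0 := if_pos hg
      rw [this, zero_mul, zero_mul]
    · rw [agree hp (IsIrr.isCharacter χ.2) hσ hψσ hg]
  have hFF : classInner F F = ((p ^ (a - b) : ℕ) : ℂ) * m := by
    rw [← hm, classInner, classInner, mul_left_comm]
    congr 1
    rw [Finset.mul_sum]
    refine Finset.sum_congr rfl fun g _ => ?_
    by_cases hg : p ∣ orderOf g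
    · have : F g = 0 := if_pos hg
      rw [this, zero_mul, zero_mul, mul_zero]
    · have : F g = ((p ^ (a - b) : ℕ) : ℂ) * (χ : G → ℂ) g := if_neg hg
      rw [this, map_mul, map_natCast]
      ring
  choose w hw using fun ψ : IrrCharacter G => ci_gen_int hFgen (IsGen.of_irr ψ.2)
  have hpars : ((p ^ (a - b) : ℕ) : ℤ) * m = ∑ ψ : IrrCharacter G, (w ψ) ^ 2 := by
    have h1 := ci_eq_sum F F hFcl
    rw [hFF] at h1
    have h2 : (((p ^ (a - b) : ℕ) : ℤ) * m : ℂ) = ((∑ ψ : IrrCharacter G, (w ψ) ^ 2 : ℤ) : ℂ) := by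
      push_cast at h1 ⊢
      rw [h1]
      refine Finset.sum_congr rfl fun ψ _ => ?_
      rw [hw ψ]
      simp [sq]
    exact_mod_cast h2
  have hwS : ∀ ψ ∈ S, w ψ = m := by
    intro ψ hψ
    have := (hw ψ).symm.trans (hSm ψ hψ)
    exact_mod_cast this
  have hppos : (0 : ℤ) < ((p ^ (a - b) : ℕ) : ℤ) := by exact_mod_cast pow_pos hp.pos _
  have hm0 : m ≠ 0 := by
    intro h0
    rw [h0, Int.cast_zero, mul_zero] at hFF
    have h1 := congrFun (ci_self_eq_zero hFF) 1
    have h2 : F 1 = ((p ^ (a - b) : ℕ) : ℂ) * (χ : G → ℂ) 1 := if_neg (by rw [orderOf_one]; exact hp.one_lt.ne' ∘ Nat.dvd_one.1)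
    rw [h2] at h1
    rcases mul_eq_zero.1 h1 with h3 | h3
    · exact (pow_pos hp.pos (a - b)).ne' (by exact_mod_cast h3)
    · exact irr_one_ne χ.2 h3
  have hmpos : 0 < m := by
    have h1 : 0 ≤ ((p ^ (a - b) : ℕ) : ℤ) * m := by rw [hpars]; exact Finset.sum_nonneg fun _ _ => sq_nonneg _
    have h2 : 0 ≤ m := nonneg_of_mul_nonneg_right h1 hppos
    omega
  have hsumS : ∑ ψ ∈ S, (w ψ) ^ 2 = (r : ℤ) * m ^ 2 := by
    rw [Finset.sum_congr rfl (fun ψ hψ => by rw [hwS ψ hψ]), Finset.sum_const, hrS, nsmul_eq_mul]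
  have hsplit : ((p ^ (a - b) : ℕ) : ℤ) * m = (r : ℤ) * m ^ 2 + ∑ ψ ∈ Sᶜ, (w ψ) ^ 2 := by
    rw [hpars, ← hsumS, Finset.sum_add_sum_compl]
  have hnn : 0 ≤ ∑ ψ ∈ Sᶜ, (w ψ) ^ 2 := Finset.sum_nonneg fun _ _ => sq_nonneg _
  have hrm : (r : ℤ) * m ≤ ((p ^ (a - b) : ℕ) : ℤ) := by
    have h1 : ((r : ℤ) * m) * m ≤ ((p ^ (a - b) : ℕ) : ℤ) * m := by nlinarith
    exact le_of_mul_le_mul_right h1 hmpos
  have hχS : χ ∈ S := Finset.mem_filter.2 ⟨Finset.mem_univ _, RingEquiv.refl ℂ, rfl, rfl⟩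
  have hr0 : r ≠ 0 := by rw [← hrS]; exact (Finset.card_pos.2 ⟨χ, hχS⟩).ne'
  have hrle : r ≤ p ^ (a - b) := by
    have h1 : (r : ℤ) ≤ (r : ℤ) * m := le_mul_of_one_le_right (by positivity) (by omega)
    exact_mod_cast h1.trans hrm
  have hfac : (r * charDegree (χ : G → ℂ)).factorization p = r.factorization p + b := by
    rw [Nat.factorization_mul hr0 hdeg0]; rfl
  have hrp : p ^ (r.factorization p) ≤ r := Nat.ordProj_le p hr0
  constructor
  · rw [hfac]
    have h1 : p ^ (r.factorization p) ≤ p ^ (a - b) := hrp.trans hrle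
    have h2 := (Nat.pow_le_pow_iff_right hp.one_lt).1 h1
    omega
  · intro hdvd
    rw [hp.pow_dvd_iff_le_factorization (mul_ne_zero hr0 hdeg0), hfac] at hdvd
    have h1 : p ^ (a - b) ≤ p ^ (r.factorization p) := Nat.pow_le_pow_right hp.pos (by omega)
    have hreq : r = p ^ (a - b) := le_antisymm hrle (h1.trans hrp)
    have hm1 : m = 1 := by
      rw [← hreq] at hrm
      have h2 : (0 : ℤ) < r := by exact_mod_cast Nat.pos_of_ne_zero hr0
      nlinarith
    have hz : ∑ ψ ∈ Sᶜ, (w ψ) ^ 2 = 0 := by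
      rw [← hreq, hm1] at hsplit
      linarith
    have hw0 : ∀ ψ, ψ ∉ S → w ψ = 0 := by
      intro ψ hψ
      have := (Finset.sum_eq_zero_iff_of_nonneg (fun _ _ => sq_nonneg _)).1 hz ψ (Finset.mem_compl.2 hψ)
      exact pow_eq_zero_iff (two_ne_zero) |>.1 this
    have hFe : ∀ g, F g = ∑ ψ ∈ S, (ψ : G → ℂ) g := by
      intro g
      rw [expand_apply F hFcl g, ← Finset.sum_add_sum_compl S, Finset.sum_eq_zero (s := Sᶜ), add_zero]
      · refine Finset.sum_congr rfl fun ψ hψ => ?_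
        rw [hw, hwS ψ hψ, hm1, Int.cast_one, one_mul]
      · intro ψ hψ
        rw [hw, hw0 ψ (Finset.mem_compl.1 hψ), Int.cast_zero, zero_mul]
    obtain ⟨P⟩ : Nonempty (Sylow p G) := inferInstance
    obtain ⟨Q, hQ⟩ : ∃ Q : Subgroup G, Q = (P : Subgroup G) := ⟨_, rfl⟩
    have hQp : IsPGroup p Q := by rw [hQ]; exact P.isPGroup'
    haveI : Fintype Q := Fintype.ofFinite _
    obtain ⟨n, hn⟩ := ci_char_nat (IsChar.res (IsIrr.isCharacter χ.2) Q) (IsChar.one (G := Q))
    have hcP : Nat.card Q = p ^ a := by rw [hQ]; exact Sylow.card_eq_multiplicity P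
    have hsum : ∑ x : Q, (χ : G → ℂ) x = (p ^ a : ℕ) * (n : ℂ) := by
      rw [← hn, ← hcP, classInner, ← mul_assoc, mul_inv_cancel₀ (Nat.cast_ne_zero.2 Nat.card_pos.ne'), one_mul]
      refine Finset.sum_congr rfl fun x _ => ?_
      simp
    have hsumψ : ∀ ψ ∈ S, ∑ x : Q, (ψ : G → ℂ) x = (p ^ a : ℕ) * (n : ℂ) := by
      intro ψ hψ
      obtain ⟨σ, hσ, hψσ⟩ := (Finset.mem_filter.1 hψ).2
      rw [Finset.sum_congr rfl (fun (x : Q) _ => congrFun hψσ (x : G)), ← map_sum, hsum, map_mul, map_natCast, map_natCast]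
    have h3 : ∑ x : Q, F x = ((p ^ (a - b) : ℕ) : ℂ) * (χ : G → ℂ) 1 := by
      rw [Finset.sum_eq_single (1 : Q)]
      · exact if_neg (by rw [OneMemClass.coe_one, orderOf_one]; exact hp.one_lt.ne' ∘ Nat.dvd_one.1)
      · intro x _ hx
        apply if_pos
        obtain ⟨k, hk⟩ := (IsPGroup.iff_orderOf.1 hQp) x
        rw [Subgroup.orderOf_coe, hk]
        apply dvd_pow_self
        rintro rfl
        rw [pow_zero, orderOf_eq_one_iff] at hk
        exact hx hk
      · intro h; exact absurd (Finset.mem_univ _) h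
    have h4 : ∑ x : Q, F x = (r : ℂ) * ((p ^ a : ℕ) * (n : ℂ)) := by
      rw [Finset.sum_congr rfl (fun (x : Q) _ => hFe x), Finset.sum_comm, Finset.sum_congr rfl hsumψ,
        Finset.sum_const, hrS, nsmul_eq_mul]
    rw [h3, ← hreq, ← hdeg] at h4
    have h5 := mul_left_cancel₀ (by exact_mod_cast hr0) h4
    have h6 : charDegree (χ : G → ℂ) = p ^ a * n := by exact_mod_cast h5
    exact ⟨n, h6⟩

end Cfsg.Agent.S4506
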