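import Cfsg.Statements.S4636
import Cfsg.Agent.H12_Core

set_option autoImplicit false
open scoped Pointwise
open Cfsg

namespace Cfsg.Agent.S4636

open scoped Pointwise

/-- Let P be a nontrivial cyclic p-subgroup of the finite group G and Z its subgroup of order p. For every x outside N_G(Z), P meets its conjugate xPx⁻¹ trivially; consequently N_G(Q) ≤ N_G(Z) for every nontrivial subgroup Q of P. -/
theorem result {G : Type*} [Group G] [Finite G] (p : ℕ) [Fact p.Prime] (P : Subgroup G) (hP : IsPGroup p P) (hP1 : P ≠ ⊥) (hcyc : IsCyclic P) (Z : Subgroup G) (hZ : Z ≤ P) (hZcard : Nat.card Z = p) : (∀ x : G, x ∉ Subgroup.normalizer (Z : Set G) → P ⊓ MulAut.conj x • P = ⊥) ∧ ∀ Q : Subgroup G, Q ≤ P → Q ≠ ⊥ → Subgroup.normalizer (Q : Set G) ≤ Subgroup.normalizer (Z : Set G) := by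
  have hp : p.Prime := Fact.out
  have hcard : ∀ (x : G) (A : Subgroup G), Nat.card (MulAut.conj x • A : Subgroup G) = Nat.card A := fun x A =>
    Nat.card_congr (Subgroup.equivSMul (MulAut.conj x) A).toEquiv.symm
  have key : ∀ x : G, P ⊓ MulAut.conj x • P ≠ ⊥ → x ∈ Subgroup.normalizer (Z : Set G) := by
    intro x hne
    have hI : IsPGroup p (P ⊓ MulAut.conj x • P : Subgroup G) := hP.to_le inf_le_left
    have hdvd : p ∣ Nat.card (P ⊓ MulAut.conj x • P : Subgroup G) := by
      obtain ⟨k, hk⟩ := IsPGroup.iff_card.1 hI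
      rcases Nat.eq_zero_or_pos k with h | h
      · rw [h, pow_zero] at hk
        exact absurd (Subgroup.card_eq_one.mp hk) hne
      · rw [hk]; exact dvd_pow_self p h.ne'
    obtain ⟨⟨z, hz⟩, hzo⟩ := exists_prime_orderOf_dvd_card' p hdvd
    rw [Subgroup.orderOf_mk] at hzo
    have h1 : Nat.card (Subgroup.zpowers z) = p := by rw [Nat.card_zpowers, hzo]
    have h2 : Subgroup.zpowers z = Z := H12.Core.cyclic_eq_of_card_eq' hcyc (by rw [Subgroup.zpowers_le]; exact hz.1) hZ (by rw [h1, hZcard])
    have hcyc' : IsCyclic (MulAut.conj x • P : Subgroup G) := by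
      have := (Subgroup.equivSMul (MulAut.conj x) P)
      exact isCyclic_of_surjective this.toMonoidHom this.surjective
    have h3 : Subgroup.zpowers z = MulAut.conj x • Z := H12.Core.cyclic_eq_of_card_eq' hcyc' (by rw [Subgroup.zpowers_le]; exact hz.2)
      (Subgroup.pointwise_smul_le_pointwise_smul_iff.mpr hZ) (by rw [h1, hcard, hZcard])
    have h4 : MulAut.conj x • Z = Z := h3.symm.trans h2
    rw [Subgroup.mem_normalizer_iff]
    intro h
    constructor
    · intro hh
      have : MulAut.conj x • h ∈ MulAut.conj x • Z := Subgroup.smul_mem_pointwise_smul _ _ _ hh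
      rw [h4] at this
      exact this
    · intro hh
      rw [← h4] at hh
      rw [Subgroup.mem_pointwise_smul_iff_inv_smul_mem] at hh
      have h5 : (MulAut.conj x)⁻¹ • (x * h * x⁻¹) = h := by
        rw [← map_inv]; simp [mul_assoc]
      rwa [h5] at hh
  refine ⟨fun x hx => by_contra fun h => hx (key x h), fun Q hQ hQ1 g hg => key g ?_⟩
  intro hbot
  apply hQ1
  rw [eq_bot_iff, ← hbot]
  refine le_inf hQ ?_
  intro y hy
  rw [Subgroup.mem_pointwise_smul_iff_inv_smul_mem]
  apply hQ
  have : (MulAut.conj g)⁻¹ • y = g⁻¹ * y * g := by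
    rw [← map_inv]; simp
  rw [this]
  have h1 := (Subgroup.mem_normalizer_iff.mp hg (g⁻¹ * y * g)).mpr (by
    have h3 : g * (g⁻¹ * y * g) * g⁻¹ = y := by group
    rw [h3]; exact hy)
  exact h1

end Cfsg.Agent.S4636
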