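import Cfsg.Statements.S4642
import Cfsg.Agent.H25_Star
import Cfsg.Agent.H11_Cores
import Cfsg.Agent.H1_Nilp
import Cfsg.Agent.H22_PSolv
import Cfsg.Agent.H25_BPInd

set_option autoImplicit false
open Cfsg

namespace Cfsg.Agent.S4642

open Cfsg.Agent.H25.Red Cfsg.Agent.H25.KG Cfsg.Agent.H25.BPTr Cfsg.Agent.H25.BPMain Cfsg.Agent.H25.BPDef Cfsg.Agent.H25.BPNorm Cfsg.Agent.H25.BPSub Cfsg.Agent.H25.Cov Cfsg.Agent.H25.Cov2 Cfsg.Agent.H25.Star Cfsg.Agent.H10.BlockIdem Cfsg.Agent.H25.FMT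

/-- Let G be a finite group, p a prime, M a maximal ideal of the algebraic integers containing p, K the largest normal subgroup of G of order prime to p, and L the preimage in G of the largest normal p-subgroup of G/K. Let Q be a Sylow p-subgroup of L and suppose C_G(Q) ≤ L. Let θ be an irreducible character of K invariant under conjugation by every element of G, and let B be the set of irreducible characters of G whose restriction to K contains θ. Then B is a block of G, every Sylow p-subgroup of G is a defect group of B, and B is of principal type: for every p-subgroup R of G exactly one block of C_G(R) induces B. -/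
theorem result {G : Type*} [Group G] [Fintype G] (p : ℕ) [Fact p.Prime] (M : Ideal Cfsg.AlgInt) (hM : Cfsg.IsPModular p M) (K : Subgroup G) (hK : K = Cfsg.pPrimeCore p G) [Fintype K] (L : Subgroup G) (hL : L = Cfsg.pPrimePCore p G) (Q : Subgroup G) (hQL : Q ≤ L) (hQp : IsPGroup p Q) (hQS : ¬ p ∣ Q.relIndex L) (hCQ : Subgroup.centralizer (Q : Set G) ≤ L) (θ : Cfsg.IrrCharacter K) (hθ : ∀ g : G, Cfsg.IsConjCharOf K g (θ : K → ℂ) (θ : K → ℂ)) (B : Set (Cfsg.IrrCharacter G)) (hBdef : ∀ χ : Cfsg.IrrCharacter G, χ ∈ B ↔ Cfsg.classInner (fun k : K => (χ : G → ℂ) k) (θ : K → ℂ) ≠ 0) : Cfsg.IsPBlock M B ∧ (∀ S : Sylow p G, Cfsg.IsDefectGroup p M B S) ∧ ∀ R : Subgroup G, IsPGroup p R → ∃! f : Set (Cfsg.IrrCharacter (Subgroup.centralizer (R : Set G))), Cfsg.IsInducedBlock M (Subgroup.centralizer (R : Set G)) f B := by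
  have := hM.2.1
  have := charP_KM M hM
  have hKn : K.Normal := by rw [hK]; exact H1.Nilp.pPrimeCore_normal p
  have hKp : ¬ p ∣ Nat.card K := by
    have h1 : (Nat.card K).Coprime p := by rw [hK]; exact H11.Cores.pPrimeCore_coprime p
    exact (Nat.Prime.coprime_iff_not_dvd Fact.out).1 h1.symm
  have hKL : K ≤ L := by
    rw [hK, hL]
    intro x hx
    show QuotientGroup.mk' (pPrimeCore p G) x ∈ pCore p (G ⧸ pPrimeCore p G)
    rw [QuotientGroup.mk'_apply, (QuotientGroup.eq_one_iff x).2 hx]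
    exact Subgroup.one_mem _
  have hLn : L.Normal := by
    rw [hL]
    haveI : (Cfsg.pCore p (G ⧸ Cfsg.pPrimeCore p G)).Normal := H1.Nilp.pCore_normal p
    exact Subgroup.Normal.comap inferInstance _
  have hidx : ∃ m : ℕ, K.relIndex L = p ^ m := by
    have h1 : IsPGroup p (L.map (QuotientGroup.mk' K)) := by
      have h0 : (L.map (QuotientGroup.mk' K)) ≤ Cfsg.pCore p (G ⧸ K) := by
        subst hL
        unfold pPrimePCore
        subst hK
        exact Subgroup.map_comap_le _ _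
      exact (H11.Cores.pCore_isPGroup (p := p)).to_le h0
    obtain ⟨m, hm⟩ := IsPGroup.iff_card.1 h1
    refine ⟨m, ?_⟩
    rw [← hm, ← Subgroup.relIndex_ker, QuotientGroup.ker_mk']
  have hKQ : K ⊔ Q = L := by
    apply le_antisymm (sup_le hKL hQL)
    rw [← Subgroup.relIndex_eq_one]
    obtain ⟨m, hm⟩ := hidx
    have h1 : (K ⊔ Q).relIndex L ∣ p ^ m := hm ▸ Subgroup.relIndex_dvd_of_le_left L le_sup_left
    have h2 : (K ⊔ Q).relIndex L ∣ Q.relIndex L := Subgroup.relIndex_dvd_of_le_left L le_sup_right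
    have h3 : Nat.Coprime (p ^ m) (Q.relIndex L) := ((Nat.Prime.coprime_iff_not_dvd Fact.out).2 hQS).pow_left m
    exact Nat.eq_one_of_dvd_coprimes h3 h1 h2
  have hnK : ∀ A : Subgroup G, A ≤ Nm K := fun A a _ => by
    show a ∈ Subgroup.normalizer (K : Set G)
    rw [Subgroup.normalizer_eq_top K]; exact Subgroup.mem_top a
  have hfix : Fix ⊤ (ep M K (blockOf M (θ : K → ℂ))) := fix_ep hM hKp (fun g _ => hθ g)
  have heK := isBlk_ep (isPBlock_blockOf (M := M) θ)
  have hstar : IsBlk ⊤ (ep M K (blockOf M (θ : K → ℂ))) := by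
    refine star hM hKp heK hfix hQp (hKQ ▸ hLn) ?_
    intro x hx hxp
    exact mem_of_preg (hnK L) (hKQ ▸ H25.ExtFMT.relIndex_pow (hnK Q) hQp) (hCQ hx) hxp
  obtain ⟨B', hB', hBe, h1⟩ := block_eq hM hKp hstar
  have hBB : B = B' := by
    ext χ; rw [hBdef, h1]
  rw [hBB]
  refine ⟨hB', ?_, ?_⟩
  · intro S
    rw [defectG_iff hM hB', hBe]
    refine full_defect hM hKp heK hfix hstar S.isPGroup' ?_
    intro R hR
    obtain ⟨S', hS'⟩ := hR.exists_le_sylow
    calc Nat.card R ≤ Nat.card S' := Nat.card_le_card_of_injective _ (Subgroup.inclusion_injective hS')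
      _ = Nat.card S := by rw [Sylow.card_eq_multiplicity, Sylow.card_eq_multiplicity]
  · intro R hR
    have hblk := tr_blk hM hKp hR (hnK R) heK (hfix.mono le_top)
    obtain ⟨Q', hQ', -⟩ := exists_isSyl (p := p) (L ⊓ Ce R) (Q := ⊥) IsPGroup.of_bot bot_le
    have hN'p : ¬ p ∣ Nat.card (Ce R ⊓ K : Subgroup G) := fun h => hKp (h.trans (Subgroup.card_dvd_of_le inf_le_right))
    have hsup : Ce R ⊓ K ⊔ Q' = L ⊓ Ce R := by
      apply le_antisymm (sup_le (le_inf (inf_le_right.trans hKL) inf_le_left) hQ'.le)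
      rw [← Subgroup.relIndex_eq_one]
      obtain ⟨m, hm⟩ := hidx
      have h2 : (Ce R ⊓ K ⊔ Q').relIndex (L ⊓ Ce R) ∣ p ^ m := by
        refine (Subgroup.relIndex_dvd_of_le_left _ le_sup_left).trans ?_
        rw [← hm, ← Subgroup.inf_relIndex_right, show Ce R ⊓ K ⊓ (L ⊓ Ce R) = K ⊓ (L ⊓ Ce R) from by
          apply le_antisymm
          · exact inf_le_inf_right _ inf_le_right
          · exact le_inf (le_inf (inf_le_right.trans inf_le_right) inf_le_left) inf_le_right,
          Subgroup.inf_relIndex_right]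
        exact H22.PSolv.relIndex_dvd_relIndex_of_normal inf_le_left
      obtain ⟨S, hS⟩ := hQ'.exists_sylow
      have h3 : ¬ p ∣ Q'.relIndex (L ⊓ Ce R) := by
        rw [Subgroup.relIndex, ← hS]
        exact S.not_dvd_index
      have h4 : (Ce R ⊓ K ⊔ Q').relIndex (L ⊓ Ce R) ∣ Q'.relIndex (L ⊓ Ce R) := Subgroup.relIndex_dvd_of_le_left _ le_sup_right
      exact Nat.eq_one_of_dvd_coprimes (((Nat.Prime.coprime_iff_not_dvd Fact.out).2 h3).pow_left m) h2 h4
    have hnC : ∀ A : Subgroup G, A.Normal → Ce R ≤ Nm (A ⊓ Ce R) := by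
      intro A hA
      intro x hx
      rw [mem_normalizer_iff_cs]
      have h5 : H25.KG.cs x A = A := H25.Cov.cs_normal x
      have h6 : H25.KG.cs x (Ce R) = Ce R := mem_normalizer_iff_cs.1 (Subgroup.le_normalizer hx)
      rw [H25.KG.cs, Subgroup.map_inf _ _ _ (MulAut.conj x).injective, ← H25.KG.cs, ← H25.KG.cs, h5, h6]
    have hstar2 : IsBlk (Ce R) (tr (Ce R) (ep M K (blockOf M (θ : K → ℂ)))) := by
      refine star_rel hM (N := Ce R ⊓ K) (Q := Q') inf_le_left ?_ hN'p hblk ?_ (hQ'.le.trans inf_le_right) hQ'.pg ?_ ?_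
      · rw [inf_comm]; exact hnC K hKn
      · exact Fix.tr Subgroup.le_normalizer (hfix.mono le_top)
      · rw [hsup]; exact hnC L hLn
      · intro x hx hxQ hxp
        refine ⟨hx, ?_⟩
        refine mem_of_cent hKp hQp hKQ hLn hCQ hR (Q' := Q') ?_ hx hxp hxQ
        rw [← hsup]
        exact sup_le_sup_right inf_le_right _
    have htr : tr (Ce R) (epG M B') = tr (Ce R) (ep M K (blockOf M (θ : K → ℂ))) := by rw [hBe]
    obtain ⟨f, hf, hfe⟩ := exists_ep hstar2
    have hiff : ∀ f' : Set (IrrCharacter (Ce R)), IsInducedBlock M (Ce R) f' B' ↔ IsPBlock M f' ∧ ep M (Ce R) f' = ep M (Ce R) f := by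
      intro f'
      have h7 : IsBrauerPairOf p M B' R f' ↔ IsPGroup p R ∧ IsInducedBlock M (Ce R) f' B' := H25.BPInd.bpo_iff_induced hM
      have h8 : IsInducedBlock M (Ce R) f' B' ↔ IsBrauerPairOf p M B' R f' := by rw [h7]; exact ⟨fun h => ⟨hR, h⟩, fun h => h.2⟩
      rw [h8, H25.BPMain.bpo_iff]
      constructor
      · rintro ⟨-, h9, h10⟩
        refine ⟨h9, ?_⟩
        have h11 := h10.tr
        rw [htr, ← hfe] at h11
        exact ((isBlk_ep hf).eq_of_mul (isBlk_ep h9) (by rw [h11]; exact (isBlk_ep h9).ne)).symm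
      · rintro ⟨h9, h10⟩
        refine ⟨hB', h9, ⟨hR, isBlk_epG hB', isBlk_ep h9, ?_⟩⟩
        rw [htr, ← hfe, h10, (isBlk_ep hf).idem]
    refine ⟨f, (hiff f).2 ⟨hf, rfl⟩, ?_⟩
    intro f' hf'
    obtain ⟨h9, h10⟩ := (hiff f').1 hf'
    exact ep_inj h9 hf h10

end Cfsg.Agent.S4642
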