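import Cfsg.Statements.S4645
import Cfsg.Agent.H25_Cyk

set_option autoImplicit false
open Cfsg

namespace Cfsg.Agent.S4645

open Cfsg.Agent.H25.Red Cfsg.Agent.H25.KG Cfsg.Agent.H25.BPTr Cfsg.Agent.H25.BPMain Cfsg.Agent.H25.BPDef
  Cfsg.Agent.H25.Fus Cfsg.Agent.H25.Nilp Cfsg.Agent.H25.NilpAb Cfsg.Agent.H25.Cyk

/-- Let B be a block of the finite group G relative to a maximal ideal M of the algebraic integers containing the prime p, with a nontrivial cyclic defect group P; let c be a block of C_G(P) inducing B and T the stabilizer of c in N_G(P). Let Q be a nontrivial subgroup of P (so C_G(P) ≤ C_G(Q)), f the block of C_G(Q) induced by c inside C_G(Q), and T' the stabilizer of f in N_G(Q). Then T' = T·C_G(Q), the index of C_G(Q) in T' equals the index of C_G(P) in T, f has p-regular rank 1, and f is a nilpotent block of C_G(Q). -/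
theorem result {G : Type*} [Group G] [Finite G] (p : ℕ) [Fact p.Prime] (M : Ideal Cfsg.AlgInt) (hM : Cfsg.IsPModular p M) (B : Set (Cfsg.IrrCharacter G)) (hB : Cfsg.IsPBlock M B) (P : Subgroup G) (hPD : Cfsg.IsDefectGroup p M B P) (hP1 : P ≠ ⊥) (hcyc : IsCyclic P) (c : Set (Cfsg.IrrCharacter (Subgroup.centralizer (P : Set G)))) (hc : Cfsg.IsInducedBlock M (Subgroup.centralizer (P : Set G)) c B) (T : Subgroup G) (hT : ∀ g : G, g ∈ T ↔ (g ∈ Subgroup.normalizer (P : Set G) ∧ Cfsg.StabilizesBlock (Subgroup.centralizer (P : Set G)) c g)) (Q : Subgroup G) (hQP : Q ≤ P) (hQ1 : Q ≠ ⊥) (f : Set (Cfsg.IrrCharacter (Subgroup.centralizer (Q : Set G)))) (hf : Cfsg.IsInducedBlockIn M (Subgroup.centralizer (Q : Set G)) (Subgroup.centralizer (P : Set G)) c f) (T' : Subgroup G) (hT' : ∀ g : G, g ∈ T' ↔ (g ∈ Subgroup.normalizer (Q : Set G) ∧ Cfsg.StabilizesBlock (Subgroup.centralizer (Q : Set G)) f g)) : T' = T ⊔ Subgroup.centralizer (Q : Set G) ∧ (Subgroup.centralizer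 (Q : Set G)).relIndex T' = (Subgroup.centralizer (P : Set G)).relIndex T ∧ Cfsg.blockRank p f = 1 ∧ Cfsg.IsNilpotentBlock p M f := by
  have := hM.2.1
  have := charP_KM M hM
  haveI : Fintype G := Fintype.ofFinite _
  obtain ⟨hcb, hbp, htop⟩ := data hM hB hPD hc
  have hTeq := H25.NilpAb.mem_T_iff hcb hT
  have hab := cyc_comm hcyc
  have hfb := hf.2.1
  have hle := (indIn_ab_iff hM hbp.pg hab hQP hcb hfb).1 hf
  have hT'eq := H25.NilpAb.mem_T_iff hfb hT'
  have hnil : IsNilpotentBlock p M f := by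
    rw [nilpH_iff', and_iff_right hfb, nilp_ab_rel hM hbp htop hab hle, inf_Ce hM hbp htop hcyc hQP hQ1]
  refine ⟨?_, ?_, ?_, hnil⟩
  · rw [hTeq, hT'eq]; exact Nf_eq hM hbp htop hcyc hle
  · rw [hTeq, hT'eq]; exact relIdx hM hbp htop hcyc hle hQ1
  · haveI : Fintype (Subgroup.centralizer (Q : Set G)) := Fintype.ofFinite _
    obtain ⟨hB', hn⟩ := nilp_iff.1 hnil
    exact (H25.STs.nil_rank hM hB' hn).1

end Cfsg.Agent.S4645
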