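import Cfsg.Statements.S4646
import Cfsg.Agent.H25_Princ

set_option autoImplicit false
open Cfsg

namespace Cfsg.Agent.S4646


/-- For a finite group G, a prime p and a maximal ideal M of the algebraic integers containing p: the principal block of G is nilpotent if and only if its p-regular rank is 1 (the trivial Brauer character is its only irreducible Brauer character). -/
theorem result {G : Type*} [Group G] [Finite G] (p : ℕ) [Fact p.Prime] (M : Ideal Cfsg.AlgInt) (hM : Cfsg.IsPModular p M) : Cfsg.IsNilpotentBlock p M (Cfsg.principalBlock M G) ↔ Cfsg.blockRank p (Cfsg.principalBlock M G) = 1 := by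
  haveI : Fintype G := Fintype.ofFinite _
  exact ⟨fun h => H25.Princ.rank_of_npc hM (H25.Princ.npc_of_nilp hM h), fun h => H25.Princ.nilp_of_npc hM (H25.Princ.npc_of_rank hM h)⟩

end Cfsg.Agent.S4646
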