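import Cfsg.Statements.S4649
import Cfsg.Agent.H25_Cyw
import Cfsg.Agent.H25_STs
import Cfsg.Agent.H25_Nilp

set_option autoImplicit false
open Cfsg

namespace Cfsg.Agent.S4649


/-- A block with cyclic defect group, of a finite group relative to a maximal ideal M of the algebraic integers containing the prime p, is nilpotent if and only if its p-regular rank is 1 (it has a unique irreducible Brauer character). -/
theorem result {G : Type*} [Group G] [Finite G] (p : ℕ) [Fact p.Prime] (M : Ideal Cfsg.AlgInt) (hM : Cfsg.IsPModular p M) (B : Set (Cfsg.IrrCharacter G)) (hB : Cfsg.IsPBlock M B) (P : Subgroup G) (hPD : Cfsg.IsDefectGroup p M B P) (hcyc : IsCyclic P) : Cfsg.IsNilpotentBlock p M B ↔ Cfsg.blockRank p B = 1 := by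
  have := hM.2.1
  have := Cfsg.Agent.H25.Red.charP_KM M hM
  haveI : Fintype G := Fintype.ofFinite _
  obtain ⟨E, hbp, htop⟩ := Cfsg.Agent.H25.STs.exists_max_of hM hB hPD
  constructor
  · intro h
    exact (Cfsg.Agent.H25.STs.nil_rank hM hB (Cfsg.Agent.H25.Nilp.nilp_iff.1 h).2).1
  · intro h
    rw [Cfsg.Agent.H25.Nilp.nilp_iff, and_iff_right hB, Cfsg.Agent.H25.Nilp.nilp_ab_iff hM hbp htop (Cfsg.Agent.H25.Cyk.cyc_comm hcyc)]
    by_cases hP1 : P = ⊥
    · subst hP1
      intro g _
      rw [Subgroup.mem_centralizer_iff]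
      intro x hx
      rw [Subgroup.mem_bot.1 hx, one_mul, mul_one]
    · have h1 := Cfsg.Agent.H25.Cyw.lower' hM hB hbp htop hcyc hP1
      rw [h] at h1
      have h2 : (Cfsg.Agent.H25.KG.Ce P).relIndex (Cfsg.Agent.H25.Fus.Nf P E) = 1 := by
        have h3 : (Cfsg.Agent.H25.KG.Ce P).relIndex (Cfsg.Agent.H25.Fus.Nf P E) ≠ 0 := by
          rw [Subgroup.relIndex]
          exact Subgroup.index_ne_zero_of_finite
        omega
      exact Subgroup.relIndex_eq_one.1 h2

end Cfsg.Agent.S4649
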