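import Cfsg.Statements.S4650
import Cfsg.Agent.H25_NilpAb

set_option autoImplicit false
open Cfsg

namespace Cfsg.Agent.S4650

open Cfsg.Agent.H25.Red Cfsg.Agent.H25.KG Cfsg.Agent.H25.BPTr Cfsg.Agent.H25.BPMain Cfsg.Agent.H25.BPDef Cfsg.Agent.H25.FMT Cfsg.Agent.H25.Fus Cfsg.Agent.H25.Nilp Cfsg.Agent.H25.NilpAb

/-- Let B be a block of the finite group G relative to a maximal ideal M of the algebraic integers containing the prime p, with a nontrivial commutative defect group P; let c be a block of C_G(P) inducing B and T the stabilizer of c in N_G(P). Then T/C_G(P) acts freely on the non-identity elements of P (an element of T fixing a non-identity element of P under conjugation lies in C_G(P)) if and only if, for every nontrivial subgroup Q of P, the block of C_G(Q) induced by c inside C_G(Q) is a nilpotent block of C_G(Q). -/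
theorem result {G : Type*} [Group G] [Finite G] (p : ℕ) [Fact p.Prime] (M : Ideal Cfsg.AlgInt) (hM : Cfsg.IsPModular p M) (B : Set (Cfsg.IrrCharacter G)) (hB : Cfsg.IsPBlock M B) (P : Subgroup G) (hPD : Cfsg.IsDefectGroup p M B P) (hPab : ∀ x ∈ P, ∀ y ∈ P, x * y = y * x) (hP1 : P ≠ ⊥) (c : Set (Cfsg.IrrCharacter (Subgroup.centralizer (P : Set G)))) (hc : Cfsg.IsInducedBlock M (Subgroup.centralizer (P : Set G)) c B) (T : Subgroup G) (hT : ∀ g : G, g ∈ T ↔ (g ∈ Subgroup.normalizer (P : Set G) ∧ Cfsg.StabilizesBlock (Subgroup.centralizer (P : Set G)) c g)) : (∀ g ∈ T, ∀ x ∈ P, x ≠ 1 → g * x * g⁻¹ = x → g ∈ Subgroup.centralizer (P : Set G)) ↔ ∀ Q : Subgroup G, Q ≤ P → Q ≠ ⊥ → ∀ f : Set (Cfsg.IrrCharacter (Subgroup.centralizer (Q : Set G))), Cfsg.IsInducedBlockIn M (Subgroup.centralizer (Q : Set G)) (Subgroup.centralizer (P : Set G)) c f → Cfsg.IsNilpotentBlock p M f := by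
  have := hM.2.1
  have := charP_KM M hM
  haveI : Fintype G := Fintype.ofFinite _
  obtain ⟨hcb, hbp, htop⟩ := data hM hB hPD hc
  have hTeq := H25.NilpAb.mem_T_iff hcb hT
  constructor
  · intro h Q hQP hQ1 f hf
    have hfb := hf.2.1
    have hle := (indIn_ab_iff hM hbp.pg hPab hQP hcb hfb).1 hf
    rw [nilpH_iff', and_iff_right hfb, nilp_ab_rel hM hbp htop hPab hle]
    rintro g ⟨hg, hgQ⟩
    obtain ⟨⟨x, hx⟩, hx1'⟩ := Subgroup.ne_bot_iff_exists_ne_one.1 hQ1
    have hx1 : x ≠ 1 := fun h => hx1' (Subtype.ext h)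
    have hgT : g ∈ T := by rw [hTeq]; exact hg
    refine h g hgT x (hQP hx) hx1 ?_
    have h1 := Subgroup.mem_centralizer_iff.1 hgQ x hx
    rw [← h1]; group
  · intro h g hg x hx hx1 hgx
    have hQP : Subgroup.zpowers x ≤ P := by rw [Subgroup.zpowers_le]; exact hx
    obtain ⟨f', hf', hle⟩ := le_exists hbp.pg hbp.be hQP
    obtain ⟨f, hf, rfl⟩ := exists_ep hf'
    have h1 := h (Subgroup.zpowers x) hQP (by rw [Ne, Subgroup.zpowers_eq_bot]; exact hx1) f
      ((indIn_ab_iff hM hbp.pg hPab hQP hcb hf).2 hle)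
    rw [nilpH_iff', and_iff_right hf, nilp_ab_rel hM hbp htop hPab hle] at h1
    apply h1
    refine ⟨hTeq ▸ hg, ?_⟩
    show g ∈ Ce (Subgroup.zpowers x)
    rw [Subgroup.mem_centralizer_iff]
    intro y hy
    obtain ⟨n, rfl⟩ := Subgroup.mem_zpowers_iff.1 hy
    have h2 : Commute x g := by
      have : g * x = g * x * g⁻¹ * g := by group
      show x * g = g * x
      rw [this, hgx]
    exact (h2.zpow_left n).eq

end Cfsg.Agent.S4650
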