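import Cfsg.Statements.S4652
import Cfsg.Agent.H25_BPInd

set_option autoImplicit false
open Cfsg

namespace Cfsg.Agent.S4652


/-- Fix a prime p and a maximal ideal M of the algebraic integers containing p. The defect groups of the principal p-block of a finite group G are exactly the Sylow p-subgroups of G: a subgroup D is a defect group of the principal block if and only if D is a Sylow p-subgroup. -/
theorem result {G : Type*} [Group G] [Fintype G] (p : ℕ) [Fact p.Prime] (M : Ideal Cfsg.AlgInt) (hM : Cfsg.IsPModular p M) (D : Subgroup G) : Cfsg.IsDefectGroup p M (Cfsg.principalBlock M G) D ↔ ∃ S : Sylow p G, (S : Subgroup G) = D := by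
  exact Cfsg.Agent.H25.BPInd.defect_principal hM D

end Cfsg.Agent.S4652
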