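import Cfsg.Statements.S4654
import Cfsg.Agent.H25_BPNorm2

set_option autoImplicit false
open Cfsg

namespace Cfsg.Agent.S4654

open Cfsg.Agent.H25.Red Cfsg.Agent.H25.KG Cfsg.Agent.H25.BPTr Cfsg.Agent.H25.BPMain Cfsg.Agent.H25.BPDef Cfsg.Agent.H25.BPNorm Cfsg.Agent.H25.BPSub Cfsg.Agent.H25.Cov Cfsg.Agent.H25.Cov2 Cfsg.Agent.H25.Cov3 Cfsg.Agent.H25.BPNorm2

/-- Fix a prime p and a maximal ideal M of the algebraic integers containing p. Let P be a normal p-subgroup of the finite group G, B a p-block of G and e a p-block of C_G(P) such that (P, e) is a Brauer pair of B (as P is normal, this says that e occurs in the idempotent of B, which is supported on C_G(P)). Let T be the stabilizer of e in G under conjugation. Then the idempotent of e is a block idempotent of T: some block E of T has, at every element of T, the same idempotent coefficient as e (zero off C_G(P)); and the idempotent of B is the sum of the distinct G-conjugates of the idempotent of e: its coefficient at g is the sum over all x in G of the coefficient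 of e at x⁻¹ g x, divided by the order of T. -/
theorem result {G : Type*} [Group G] [Fintype G] (p : ℕ) [Fact p.Prime] (M : Ideal Cfsg.AlgInt) (hM : Cfsg.IsPModular p M) (P : Subgroup G) [P.Normal] (hP : IsPGroup p P) (B : Set (Cfsg.IrrCharacter G)) (e : Set (Cfsg.IrrCharacter (Subgroup.centralizer (P : Set G)))) (hBe : Cfsg.IsBrauerPairOf p M B P e) (T : Subgroup G) (hT : ∀ x : G, x ∈ T ↔ Cfsg.StabilizesBlock (Subgroup.centralizer (P : Set G)) e x) : (∃ E : Set (Cfsg.IrrCharacter T), Cfsg.IsPBlock M E ∧ ∀ t : T, Cfsg.blockCoeff E t = Cfsg.subgroupBlockCoeff (Subgroup.centralizer (P : Set G)) e (t : G)) ∧ ∀ g : G, Cfsg.blockCoeff B g = (Nat.card T : ℂ)⁻¹ * ∑ x : G, Cfsg.subgroupBlockCoeff (Subgroup.centralizer (P : Set G)) e (x⁻¹ * g * x) := by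
  have := hM.2.1
  have := charP_KM M hM
  haveI : Fintype (H25.KG.Ce P) := Fintype.ofFinite _
  have hPn : P.Normal := inferInstance
  have hnn : ∀ K : Subgroup G, (⊤ : Subgroup G) ≤ Subgroup.normalizer (P : Set G) := fun K => by
    rw [Subgroup.normalizer_eq_top]
  obtain ⟨hB, he, hbp⟩ := bpo_iff.1 hBe
  have hT' : ∀ x, x ∈ T ↔ cnj x (ep M (Ce P) e) = ep M (Ce P) e := by
    intro x
    rw [hT, stabilizes_iff he]
    constructor
    · exact fun h => h.2
    · intro h
      refine ⟨?_, h⟩
      haveI := Ce_normal hPn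
      rw [Subgroup.normalizer_eq_top]; exact Subgroup.mem_top x
  constructor
  · obtain ⟨F, hF, _, h⟩ := exists_stab hM (T := T) (Q := P) hP
      (fun x hx => (hT' x).2 (fix_of_supp (isBlk_ep he).mem.1 x hx))
      (le_top.trans (hnn ⊤)) (fun x hx => (hT' x).2 ((isBlk_ep he).mem.2 x hx)) he (fun t ht => (hT t).1 ht)
    exact ⟨F, hF, h⟩
  · intro g
    have hne : epG M B * ep M (Ce P) e ≠ 0 := by
      intro h0
      have h1 := hbp.tr
      rw [tr_of_supp (supp_of_normal hM hP le_top (hnn ⊤) (isBlk_epG hB).mem (isBlk_epG hB).idem), h0] at h1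
      exact (isBlk_ep he).ne h1.symm
    rw [blockCoeff_eq hM hPn hP hB he hne, clI_avg (Ce_normal hPn) he hT']

end Cfsg.Agent.S4654
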