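import Cfsg.Statements.S4656
import Cfsg.Agent.H25_BPDef

set_option autoImplicit false
open Cfsg

namespace Cfsg.Agent.S4656

open Cfsg.Agent.H25.Red Cfsg.Agent.H25.KG Cfsg.Agent.H25.BPTr Cfsg.Agent.H25.BPMain Cfsg.Agent.H25.BPDef


/-- Fix a prime p and a maximal ideal M of the algebraic integers containing p. Let (P, e) be a Brauer pair of the finite group G and Q a normal subgroup of P. Then there is exactly one p-block f of C_G(Q) that is stable under conjugation by P and such that e occurs in the Brauer-map image at P of the idempotent of f; that is, exactly one f with (Q, f) normally below (P, e). -/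
theorem result {G : Type*} [Group G] [Fintype G] (p : ℕ) [Fact p.Prime] (M : Ideal Cfsg.AlgInt) (hM : Cfsg.IsPModular p M) (P Q : Subgroup G) (e : Set (Cfsg.IrrCharacter (Subgroup.centralizer (P : Set G)))) (hPe : Cfsg.IsBrauerPair p M P e) (hQP : Q ≤ P) (hPN : P ≤ Subgroup.normalizer (Q : Set G)) : ∃! f : Set (Cfsg.IrrCharacter (Subgroup.centralizer (Q : Set G))), Cfsg.IsNormalSubpair p M Q f P e := by
  have := hM.2.1
  have := charP_KM M hM
  obtain ⟨hPp, he⟩ := hPe
  obtain ⟨f', hns⟩ := ns_exists hPp (isBlk_ep he) hQP hPN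
  obtain ⟨f, hf, rfl⟩ := exists_ep hns.bf
  refine ⟨f, nsp_iff.2 ⟨hf, he, hns⟩, ?_⟩
  intro g hg
  obtain ⟨hg1, _, hg2⟩ := nsp_iff.1 hg
  exact ep_inj hg1 hf (ns_unique hg2 hns)

end Cfsg.Agent.S4656
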