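import Cfsg.Statements.S4657
import Cfsg.Agent.H25_BPDef

set_option autoImplicit false
open Cfsg

namespace Cfsg.Agent.S4657

open Cfsg.Agent.H25.Red Cfsg.Agent.H25.KG Cfsg.Agent.H25.BPTr Cfsg.Agent.H25.BPMain Cfsg.Agent.H25.BPDef


/-- Fix a prime p and a maximal ideal M of the algebraic integers containing p. Every Brauer pair (P, e) of the finite group G is a Brauer pair of exactly one p-block B of G. -/
theorem result {G : Type*} [Group G] [Fintype G] (p : ℕ) [Fact p.Prime] (M : Ideal Cfsg.AlgInt) (hM : Cfsg.IsPModular p M) (P : Subgroup G) (e : Set (Cfsg.IrrCharacter (Subgroup.centralizer (P : Set G)))) (hPe : Cfsg.IsBrauerPair p M P e) : ∃! B : Set (Cfsg.IrrCharacter G), Cfsg.IsBrauerPairOf p M B P e := by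
  have := hM.2.1
  have := charP_KM M hM
  obtain ⟨hPp, he⟩ := hPe
  obtain ⟨f', hns⟩ := ns_exists (Q := ⊥) hPp (isBlk_ep he) bot_le (by
    intro x _
    rw [mem_normalizer_iff_cs]
    exact Subgroup.map_bot _)
  have hbp := hns.bp
  obtain ⟨B, hB, rfl⟩ := exists_epG hbp.bB
  refine ⟨B, bpo_iff.2 ⟨hB, he, hbp⟩, ?_⟩
  intro B' hB'
  obtain ⟨h1, _, h2⟩ := bpo_iff.1 hB'
  exact epG_inj h1 hB (ns_unique h2.ns hns)

end Cfsg.Agent.S4657
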