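import Cfsg.Statements.S4661
import Cfsg.Agent.H25_BPSub

set_option autoImplicit false
open Cfsg

namespace Cfsg.Agent.S4661

open Cfsg.Agent.H25.Red Cfsg.Agent.H25.KG Cfsg.Agent.H25.BPTr Cfsg.Agent.H25.BPMain Cfsg.Agent.H25.BPDef Cfsg.Agent.H25.BPNorm Cfsg.Agent.H25.BPSub

/-- Fix a prime p and a maximal ideal M of the algebraic integers containing p. Let (P, e) be a maximal Brauer pair of the p-block B of the finite group G, Q ≤ P, and f the p-block of C_G(Q) with (Q, f) ≤ (P, e). Then C_P(Q) is contained in a defect group of f (as a block of the group C_G(Q)); and for some x in G the conjugate pair (x Q x⁻¹, conjugate of f) again lies below (P, e) and C_P(x Q x⁻¹) is a defect group of the conjugate of f in C_G(x Q x⁻¹). -/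
theorem result {G : Type*} [Group G] [Fintype G] (p : ℕ) [Fact p.Prime] (M : Ideal Cfsg.AlgInt) (hM : Cfsg.IsPModular p M) (B : Set (Cfsg.IrrCharacter G)) (P Q : Subgroup G) (e : Set (Cfsg.IrrCharacter (Subgroup.centralizer (P : Set G)))) (f : Set (Cfsg.IrrCharacter (Subgroup.centralizer (Q : Set G)))) (hmax : Cfsg.IsMaximalBrauerPair p M B P e) (hQP : Q ≤ P) (hf : Cfsg.IsPBlock M f) (hle : Cfsg.SubpairLE p M Q f P e) : (∃ D : Subgroup (Subgroup.centralizer (Q : Set G)), Cfsg.IsDefectGroup p M f D ∧ (P ⊓ Subgroup.centralizer (Q : Set G)).subgroupOf (Subgroup.centralizer (Q : Set G)) ≤ D) ∧ ∃ x : G, Cfsg.SubpairLE p M (Q.map (MulAut.conj x).toMonoidHom) (Cfsg.conjBlock Q x f) P e ∧ Cfsg.IsDefectGroup p M (Cfsg.conjBlock Q x f) ((P ⊓ Subgroup.centralizer ((Q.map (MulAut.conj x).toMonoidHom) : Set G)).subgroupOf (Subgroup.centralizer ((Q.map (MulAut.conj x).toMonoidHom) : Set G))) := by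
  have := hM.2.1
  have := charP_KM M hM
  obtain ⟨hB, he, hbp, htop⟩ := max_iff.1 hmax
  have hle' := le_of_sle hle
  have hQp := hbp.pg.to_le hQP
  have hbq : BP p (epG M B) Q (ep M (Ce Q) f) := hbp.down hle'
  obtain ⟨D0, hD0⟩ := exists_DGH hM (isBlk_ep hf)
  have hCn : Ce Q ≤ Subgroup.normalizer (Q : Set G) := by
    intro x hx
    rw [Subgroup.mem_normalizer_iff]
    intro y
    have h2 : ∀ z ∈ Q, x * z * x⁻¹ = z := fun z hz => by
      rw [← Subgroup.mem_centralizer_iff.1 hx z hz, mul_inv_cancel_right]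
    constructor
    · intro hy; rw [h2 y hy]; exact hy
    · intro hy
      have h3 := Subgroup.mem_centralizer_iff.1 hx _ hy
      have h4 : x * y * x⁻¹ = y := by
        have h5 : x * (x * y * x⁻¹) = x * y := by rw [← h3]; group
        exact mul_left_cancel h5
      rwa [h4] at hy
  constructor
  · obtain ⟨h1, h2⟩ := lemA hbp.pg hbp.be hle' (R := P ⊓ Ce Q) inf_le_left (inf_le_right.trans hCn)
    obtain ⟨x, hx, hle2⟩ := hD0.max _ inf_le_right (hbp.pg.to_le inf_le_left) h1
    have h3 := hD0.conj (isBlk_ep hf).mem.2 hx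
    refine ⟨(cs x D0).subgroupOf (Ce Q), (defectH_iff' hM hf h3.le).2 h3, ?_⟩
    intro y hy
    exact Subgroup.mem_subgroupOf.2 (hle2 (Subgroup.mem_subgroupOf.1 hy))
  · obtain ⟨x, hx, hD⟩ := exists_conj hbp htop hbq hD0 hCn (isBlk_ep hf).mem.2
    refine ⟨x, ?_, ?_⟩
    · rw [sle_iff he (isPBlock_conjBlock hf), ep_conjBlock]
      exact hx
    · rw [defectH_iff' hM (isPBlock_conjBlock hf) inf_le_right, ep_conjBlock]
      have h4 : cs x (Ce Q) = Ce (cs x Q) := (centralizer_cs x Q).symm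
      rw [h4] at hD
      exact hD

end Cfsg.Agent.S4661
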