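import Cfsg.Statements.S4662
import Cfsg.Agent.H25_BPSub

set_option autoImplicit false
open Cfsg

namespace Cfsg.Agent.S4662

open Cfsg.Agent.H25.Red Cfsg.Agent.H25.KG Cfsg.Agent.H25.BPTr Cfsg.Agent.H25.BPMain Cfsg.Agent.H25.BPDef Cfsg.Agent.H25.BPNorm Cfsg.Agent.H25.BPSub

/-- Fix a prime p and a maximal ideal M of the algebraic integers containing p. Let (P, e) be a maximal Brauer pair of the p-block B of the finite group G, Q ≤ P, and f the p-block of C_G(Q) with (Q, f) ≤ (P, e). Let T be the stabilizer of f in N_G(Q). Then the idempotent of f is a block idempotent of T, and N_P(Q) is contained in a defect group of that block of T; moreover for some x in G the conjugate pair (x Q x⁻¹, conjugate of f) again lies below (P, e) and, with T' the stabilizer of the conjugate of f in N_G(x Q x⁻¹), N_P(x Q x⁻¹) is a defect group of the block of T' whose idempotent is that of the conjugate of f. -/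
theorem result {G : Type*} [Group G] [Fintype G] (p : ℕ) [Fact p.Prime] (M : Ideal Cfsg.AlgInt) (hM : Cfsg.IsPModular p M) (B : Set (Cfsg.IrrCharacter G)) (P Q : Subgroup G) (e : Set (Cfsg.IrrCharacter (Subgroup.centralizer (P : Set G)))) (f : Set (Cfsg.IrrCharacter (Subgroup.centralizer (Q : Set G)))) (hmax : Cfsg.IsMaximalBrauerPair p M B P e) (hQP : Q ≤ P) (hf : Cfsg.IsPBlock M f) (hle : Cfsg.SubpairLE p M Q f P e) (T : Subgroup G) (hT : ∀ y : G, y ∈ T ↔ y ∈ Subgroup.normalizer (Q : Set G) ∧ Cfsg.StabilizesBlock (Subgroup.centralizer (Q : Set G)) f y) : (∃ F : Set (Cfsg.IrrCharacter T), Cfsg.IsPBlock M F ∧ (∀ t : T, Cfsg.blockCoeff F t = Cfsg.subgroupBlockCoeff (Subgroup.centralizer (Q : Set G)) f (t : G)) ∧ ∃ D : Subgroup T, Cfsg.IsDefectGroup p M F D ∧ (P ⊓ Subgroup.normalizer (Q : Set G)).subgroupOf T ≤ D) ∧ ∃ x : G, Cfsg.SubpairLE p M (Q.map (MulAut.conj x).toMonoidHom) (Cfsg.conjBlock Q x f) P e ∧ ∀ (T' : Subgroup G), (∀ y : G, y ∈ T' ↔ y ∈ Subgroup.normalizer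 ((Q.map (MulAut.conj x).toMonoidHom) : Set G) ∧ Cfsg.StabilizesBlock (Subgroup.centralizer ((Q.map (MulAut.conj x).toMonoidHom) : Set G)) (Cfsg.conjBlock Q x f) y) → ∃ F' : Set (Cfsg.IrrCharacter T'), Cfsg.IsPBlock M F' ∧ (∀ t : T', Cfsg.blockCoeff F' t = Cfsg.subgroupBlockCoeff (Subgroup.centralizer ((Q.map (MulAut.conj x).toMonoidHom) : Set G)) (Cfsg.conjBlock Q x f) (t : G)) ∧ Cfsg.IsDefectGroup p M F' ((P ⊓ Subgroup.normalizer ((Q.map (MulAut.conj x).toMonoidHom) : Set G)).subgroupOf T') := by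
  have := hM.2.1
  have := charP_KM M hM
  obtain ⟨hB, he, hbp, htop⟩ := max_iff.1 hmax
  have hle' := le_of_sle hle
  have hQp := hbp.pg.to_le hQP
  have hbq : BP p (epG M B) Q (ep M (Ce Q) f) := hbp.down hle'
  -- facts about stabilizers
  have gen : ∀ (Q : Subgroup G) (f : Set (Cfsg.IrrCharacter (Subgroup.centralizer (Q : Set G)))),
      IsPGroup p Q → Cfsg.IsPBlock M f → ∀ (T : Subgroup G), (∀ y : G, y ∈ T ↔ y ∈ Subgroup.normalizer (Q : Set G) ∧
        Cfsg.StabilizesBlock (Subgroup.centralizer (Q : Set G)) f y) →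
      T ≤ Subgroup.normalizer (Q : Set G) ∧ (∀ y : G, y ∈ T ↔ y ∈ Subgroup.normalizer (Q : Set G) ∧
        cnj y (ep M (Ce Q) f) = ep M (Ce Q) f) ∧ Ce Q ≤ T ∧ Q ≤ T := by
    intro Q f hQ hf T hT
    have h1 : ∀ y : G, y ∈ T ↔ y ∈ Subgroup.normalizer (Q : Set G) ∧ cnj y (ep M (Ce Q) f) = ep M (Ce Q) f := by
      intro y
      rw [hT, stabilizes_iff hf]
      constructor
      · rintro ⟨h2, _, h3⟩; exact ⟨h2, h3⟩
      · rintro ⟨h2, h3⟩; exact ⟨h2, norm_le_norm_Ce Q h2, h3⟩
    have hCn : Ce Q ≤ Subgroup.normalizer (Q : Set G) := by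
      intro x hx
      rw [Subgroup.mem_normalizer_iff]
      intro y
      have h2 : ∀ z ∈ Q, x * z * x⁻¹ = z := fun z hz => by
        rw [← Subgroup.mem_centralizer_iff.1 hx z hz, mul_inv_cancel_right]
      constructor
      · intro hy; rw [h2 y hy]; exact hy
      · intro hy
        have h3 := Subgroup.mem_centralizer_iff.1 hx _ hy
        have h4 : x * y * x⁻¹ = y := by
          have h5 : x * (x * y * x⁻¹) = x * y := by rw [← h3]; group
          exact mul_left_cancel h5
        rwa [h4] at hy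
    refine ⟨fun y hy => ((h1 y).1 hy).1, h1, fun y hy => (h1 y).2 ⟨hCn hy, (isBlk_ep hf).mem.2 y hy⟩, fun y hy =>
      (h1 y).2 ⟨Subgroup.le_normalizer hy, fix_of_supp (isBlk_ep hf).mem.1 y hy⟩⟩
  obtain ⟨hTn, hT', hCT, hQT⟩ := gen Q f hQp hf T hT
  have hfixT : Fix T (ep M (Ce Q) f) := fun y hy => ((hT' y).1 hy).2
  obtain ⟨F, hF, hFe, hFc⟩ := exists_stab hM hQp hQT hTn hCT hf (fun t ht => ((hT t).1 ht).2)
  obtain ⟨D0, hD0⟩ := exists_DGH hM (isBlk_ep hF)
  rw [hFe] at hD0
  constructor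
  · refine ⟨F, hF, hFc, ?_⟩
    have hPN : P ⊓ Subgroup.normalizer (Q : Set G) ≤ T := by
      intro y hy
      have h1 := lemA hbp.pg hbp.be hle' (R := P ⊓ Subgroup.normalizer (Q : Set G)) inf_le_left inf_le_right
      exact (hT' y).2 ⟨hy.2, h1.2 y hy⟩
    obtain ⟨h1, h2⟩ := lemA hbp.pg hbp.be hle' (R := P ⊓ Subgroup.normalizer (Q : Set G)) inf_le_left inf_le_right
    obtain ⟨x, hx, hle2⟩ := hD0.max _ hPN (hbp.pg.to_le inf_le_left) h1
    have h3 := hD0.conj hfixT hx
    refine ⟨(cs x D0).subgroupOf T, (defectH_iff' hM hF h3.le).2 (by rw [hFe]; exact h3), ?_⟩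
    intro y hy
    exact Subgroup.mem_subgroupOf.2 (hle2 (Subgroup.mem_subgroupOf.1 hy))
  · obtain ⟨x, hx, hD⟩ := exists_conj hbp htop hbq hD0 hTn hfixT
    have hf' : Cfsg.IsPBlock M (Cfsg.conjBlock Q x f) := isPBlock_conjBlock hf
    refine ⟨x, ?_, ?_⟩
    · rw [sle_iff he hf', ep_conjBlock]
      exact hx
    · intro T' hT2
      obtain ⟨hTn', hT3, hCT', hQT'⟩ := gen (cs x Q) (Cfsg.conjBlock Q x f) (hQp.map _) hf' T' hT2
      have hTT : T' = cs x T := by
        ext y
        rw [hT3, mem_cs, hT', ep_conjBlock, normalizer_cs, mem_cs]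
        apply and_congr_right
        intro _
        constructor
        · intro h
          have := congrArg (cnj x⁻¹) h
          rw [cnj_inv_cnj, ← cnj_mul_apply, ← cnj_mul_apply] at this
          exact this
        · intro h
          have := congrArg (cnj x) h
          rw [← cnj_mul_apply] at this
          have h9 : x * (x⁻¹ * y * x) = y * x := by group
          rw [h9, cnj_mul_apply] at this
          exact this
      obtain ⟨F', hF', hFe', hFc'⟩ := exists_stab hM (hQp.map _) hQT' hTn' hCT' hf' (fun t ht => ((hT2 t).1 ht).2)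
      refine ⟨F', hF', hFc', ?_⟩
      have h6 : P ⊓ Subgroup.normalizer ((cs x Q : Subgroup G) : Set G) = P ⊓ cs x T := by
        rw [← hTT]
        apply le_antisymm
        · refine le_inf inf_le_left ?_
          intro y hy
          have h7 := lemA hbp.pg hbp.be hx (R := P ⊓ Subgroup.normalizer ((cs x Q : Subgroup G) : Set G)) inf_le_left inf_le_right
          refine (hT3 y).2 ⟨hy.2, ?_⟩
          rw [ep_conjBlock]
          exact h7.2 y hy
        · exact inf_le_inf_left _ hTn'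
      have h8 : IsDefectGroup p M F' ((P ⊓ Subgroup.normalizer ((cs x Q : Subgroup G) : Set G)).subgroupOf T') := by
        rw [defectH_iff' hM hF' (by rw [h6, hTT]; exact inf_le_right), h6, hFe', ep_conjBlock, hTT]
        exact hD
      exact h8

end Cfsg.Agent.S4662
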