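import Cfsg.Statements.S4664
import Cfsg.Agent.H3_CharGal
import Cfsg.Agent.H10_BlockOrth

set_option autoImplicit false
open Cfsg

namespace Cfsg.Agent.S4664

open Cfsg.Agent.H3.CharGal Cfsg.Agent.H10.BlockIdem Cfsg.Agent.H10.BlockOrth Cfsg.Agent.H3.CharIrr
open scoped ComplexConjugate


/-- Fix a prime p and a maximal ideal M of the algebraic integers containing p, and let B be a p-block of the finite group G. Let m be the p'-part of the order of G and η = exp(2πi/m). Then every coefficient of the idempotent of B lies in the cyclotomic field ℚ(η). -/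
theorem result {G : Type*} [Group G] [Fintype G] (p : ℕ) [Fact p.Prime] (M : Ideal Cfsg.AlgInt) (hM : Cfsg.IsPModular p M) (B : Set (Cfsg.IrrCharacter G)) (hB : Cfsg.IsPBlock M B) (g : G) : Cfsg.blockCoeff B g ∈ IntermediateField.adjoin ℚ ({Complex.exp (2 * Real.pi * Complex.I / ((Nat.card G / p ^ (Nat.card G).factorization p : ℕ) : ℂ))} : Set ℂ) := by
  classical
  have : Fintype (IrrCharacter G) := Fintype.ofFinite _
  have hMax := hM.2.1
  by_cases hg : p ∣ orderOf g
  · rw [blockCoeff_eq_zero hM hB g hg]; exact zero_mem _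
  · set n := Nat.card G / p ^ (Nat.card G).factorization p with hn
    have hn0 : n ≠ 0 := by
      rw [hn]
      exact (Nat.div_pos (Nat.ordProj_le p Nat.card_pos.ne') (pow_pos hM.1.pos _)).ne'
    have : NeZero n := ⟨hn0⟩
    have hord : g ^ n = 1 := by
      have h1 : orderOf g ∣ p ^ (Nat.card G).factorization p * n := by
        rw [hn, Nat.mul_div_cancel' (Nat.ordProj_dvd _ _)]
        exact orderOf_dvd_natCard g
      have h2 : Nat.Coprime (orderOf g) (p ^ (Nat.card G).factorization p) :=
        Nat.Coprime.pow_right _ ((Nat.Prime.coprime_iff_not_dvd hM.1).2 hg).symm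
      exact orderOf_dvd_iff_pow_eq_one.1 (h2.dvd_of_dvd_mul_left h1)
    have hmem : ∀ χ : IrrCharacter G, ∀ x : G, x ^ n = 1 → (χ : G → ℂ) x ∈ Cyc n := fun χ x hx =>
      IsChar.mem_cyc (IsIrr.isCharacter χ.2) x hx
    have key : blockCoeff B g ∈ Cyc n := by
      rw [blockCoeff_eq_sum]
      apply mul_mem
      · exact inv_mem (natCast_mem _ _)
      · apply sum_mem
        intro χ _
        split_ifs
        · apply mul_mem (hmem χ 1 (one_pow n))
          rw [← IsChar.inv_eq_conj (IsIrr.isCharacter χ.2)]
          exact hmem χ _ (by rw [inv_pow, hord, inv_one])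
        · exact zero_mem _
    exact key

end Cfsg.Agent.S4664
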