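import Cfsg.Statements.S4668
import Cfsg.Agent.H25_BPNorm2
import Cfsg.Agent.H11_AxB

set_option autoImplicit false
open Cfsg

namespace Cfsg.Agent.S4668

open Cfsg.Agent.H25.Red Cfsg.Agent.H25.KG Cfsg.Agent.H25.BPTr Cfsg.Agent.H25.BPNorm2

/-- Fix a prime p and a maximal ideal M of the algebraic integers containing p. Let Q₀ < Q₁ < ⋯ < Q_m be a strictly increasing chain of p-subgroups of the finite group G and N the intersection of their normalizers. Then every block idempotent of N is supported on C_G(Q_m): for every p-block E of N, the idempotent coefficient of E vanishes at every element of N outside C_G(Q_m). -/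
theorem result {G : Type*} [Group G] [Fintype G] (p : ℕ) [Fact p.Prime] (M : Ideal Cfsg.AlgInt) (hM : Cfsg.IsPModular p M) (m : ℕ) (Q : Fin (m + 1) → Subgroup G) (hQ : StrictMono Q) (hQp : ∀ i, IsPGroup p (Q i)) (N : Subgroup G) (hN : ∀ g : G, g ∈ N ↔ ∀ i, g ∈ Subgroup.normalizer (Q i : Set G)) (E : Set (Cfsg.IrrCharacter N)) (hE : Cfsg.IsPBlock M E) (n : N) (hn : (n : G) ∉ Subgroup.centralizer (Q (Fin.last m) : Set G)) : Cfsg.blockCoeff E n = 0 := by
  have := hM.2.1
  have := charP_KM M hM
  haveI : Fintype N := Fintype.ofFinite _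
  by_cases hreg : p ∣ orderOf n
  · exact H10.BlockOrth.blockCoeff_eq_zero hM hE n hreg
  -- the normal p-subgroup R = Q_m ∩ N of N
  let R : Subgroup N := (Q (Fin.last m)).subgroupOf N
  have hRn : R.Normal := by
    constructor
    intro x hx g
    rw [Subgroup.mem_subgroupOf] at hx ⊢
    exact (Subgroup.mem_normalizer_iff.1 ((hN g).1 g.2 (Fin.last m)) x).1 hx
  have hRp : IsPGroup p R := (hQp (Fin.last m)).comap_of_injective _ (Subgroup.subtype_injective _)
  haveI : Fintype (H25.KG.Ce R) := Fintype.ofFinite _
  by_cases hnR : n ∈ H25.KG.Ce R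
  · exfalso
    apply hn
    have hord : (orderOf (n : G)).Coprime p := by
      rw [Subgroup.orderOf_coe]
      exact ((Nat.Prime.coprime_iff_not_dvd (Fact.out : p.Prime)).2 hreg).symm
    have key : ∀ i : ℕ, ∀ hi : i < m + 1, ∀ x ∈ Q ⟨i, hi⟩, Commute (n : G) x := by
      intro i
      induction i with
      | zero =>
        intro hi x hx
        have hxN : x ∈ N := by
          rw [hN]
          intro j
          apply Subgroup.le_normalizer
          exact hQ.monotone (Fin.zero_le j) hx
        have hxR : (⟨x, hxN⟩ : N) ∈ R := Subgroup.mem_subgroupOf.2 (hQ.monotone (Fin.zero_le _) hx)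
        have := Subgroup.mem_centralizer_iff.1 hnR _ hxR
        exact (congrArg Subtype.val this).symm
      | succ i ih =>
        intro hi
        have hi' : i < m + 1 := by omega
        have hle : Q ⟨i, hi'⟩ ≤ Q ⟨i + 1, hi⟩ := hQ.monotone (by rw [Fin.mk_le_mk]; omega)
        refine H11.AxB.commute_of_AxB p (n : G) hord (Q ⟨i, hi'⟩) (hQp _) (ih hi') (Q ⟨i + 1, hi⟩) (hQp _)
          ((hN n).1 n.2 _) (hle.trans Subgroup.le_normalizer) ?_
        intro x hx hcx
        have hxN : x ∈ N := by
          rw [hN]
          intro j
          by_cases hj : (j : ℕ) ≤ i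
          · have hjle : Q j ≤ Q ⟨i, hi'⟩ := hQ.monotone (by rw [Fin.le_def]; exact hj)
            rw [Subgroup.mem_normalizer_iff]
            intro y
            have hc : ∀ z ∈ Q j, x * z * x⁻¹ = z := fun z hz => by
              rw [(hcx z (hjle hz)).eq, mul_inv_cancel_right]
            constructor
            · intro hy; rw [hc y hy]; exact hy
            · intro hy
              have h3 := hc _ hy
              have h4 : x * y * x⁻¹ = y := by
                have h5 : x * (x * y * x⁻¹) = x * y := by
                  have := (hcx _ (hjle hy)).eq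
                  rw [this]; group
                exact mul_left_cancel h5
              rwa [h4] at hy
          · apply Subgroup.le_normalizer
            exact hQ.monotone (by rw [Fin.le_def]; show i + 1 ≤ (j : ℕ); omega) hx
        have hxR : (⟨x, hxN⟩ : N) ∈ R := Subgroup.mem_subgroupOf.2 (hQ.monotone (Fin.le_last _) hx)
        have := Subgroup.mem_centralizer_iff.1 hnR _ hxR
        exact (congrArg Subtype.val this).symm
    rw [Subgroup.mem_centralizer_iff]
    intro x hx
    exact (key m (Nat.lt_succ_self m) x hx).eq.symm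
  · exact blockCoeff_supp hM hRn hRp hE hnR

end Cfsg.Agent.S4668
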