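import Cfsg.Statements.S4670
import Cfsg.Agent.H25_FMT

set_option autoImplicit false
open Cfsg

namespace Cfsg.Agent.S4670

open Cfsg.Agent.H25.Red Cfsg.Agent.H25.KG Cfsg.Agent.H25.BPTr Cfsg.Agent.H25.BPMain Cfsg.Agent.H25.BPDef Cfsg.Agent.H25.BPNorm Cfsg.Agent.H25.BPSub Cfsg.Agent.H25.Cov Cfsg.Agent.H25.Cov2 Cfsg.Agent.H25.Cov3 Cfsg.Agent.H25.FMT

/-- Fix a prime p and a maximal ideal M of the algebraic integers containing p. Let P be a p-subgroup of the finite group G and H a subgroup containing N_G(P). For every p-block B of G with defect group P there is exactly one p-block c of H with defect group P whose idempotent agrees with that of B, modulo the local ideal at M, at every element of C_G(P) (their Brauer-map images at P coincide); and every p-block c of H with defect group P arises in this way from exactly one such B. This is the Brauer correspondence over H. -/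
theorem result {G : Type*} [Group G] [Fintype G] (p : ℕ) [Fact p.Prime] (M : Ideal Cfsg.AlgInt) (hM : Cfsg.IsPModular p M) (P H : Subgroup G) (hP : IsPGroup p P) (hH : Subgroup.normalizer (P : Set G) ≤ H) : (∀ B : Set (Cfsg.IrrCharacter G), Cfsg.IsPBlock M B → Cfsg.IsDefectGroup p M B P → ∃! c : Set (Cfsg.IrrCharacter H), Cfsg.IsPBlock M c ∧ Cfsg.IsDefectGroup p M c (P.subgroupOf H) ∧ ∀ x : G, x ∈ Subgroup.centralizer (P : Set G) → Cfsg.MemLocalIdeal M (Cfsg.blockCoeff B x - Cfsg.subgroupBlockCoeff H c x)) ∧ (∀ c : Set (Cfsg.IrrCharacter H), Cfsg.IsPBlock M c → Cfsg.IsDefectGroup p M c (P.subgroupOf H) → ∃! B : Set (Cfsg.IrrCharacter G), Cfsg.IsPBlock M B ∧ Cfsg.IsDefectGroup p M B P ∧ ∀ x : G, x ∈ Subgroup.centralizer (P : Set G) → Cfsg.MemLocalIdeal M (Cfsg.blockCoeff B x - Cfsg.subgroupBlockCoeff H c x)) := by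
  have := hM.2.1
  have := charP_KM M hM
  have hPH : P ≤ H := Subgroup.le_normalizer.trans hH
  constructor
  · intro B hB hD
    rw [defectG_iff hM hB] at hD
    obtain ⟨h1, h2⟩ := fmtA hM (isBlk_epG hB) hD
    obtain ⟨c', hc', h3, h4⟩ := fmtB' hM hH h1 h2
    obtain ⟨c, hc, rfl⟩ := exists_ep hc'
    refine ⟨c, ⟨hc, (defectH_iff' hM hc hPH).2 h3, (tr_eq_iff hB hc P).1 h4.symm⟩, ?_⟩
    rintro c2 ⟨hc2, h5, h6⟩
    have h7 := (tr_eq_iff hB hc2 P).2 h6
    apply ep_inj hc2 hc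
    apply fmt_unique' (isBlk_ep hc2) hc' hPH hP
    · rw [← h7]; exact h1.ne
    · rw [← h7, h4]
  · intro c hc hD
    rw [defectH_iff' hM hc hPH] at hD
    obtain ⟨h1, h2⟩ := fmtA' hM (isBlk_ep hc) hH hD
    obtain ⟨B', hB', h3, h4⟩ := fmtB hM h1 h2
    obtain ⟨B, hB, rfl⟩ := exists_epG hB'
    refine ⟨B, ⟨hB, (defectG_iff hM hB).2 h3, (tr_eq_iff hB hc P).1 h4⟩, ?_⟩
    rintro B2 ⟨hB2, h5, h6⟩
    have h7 := (tr_eq_iff hB2 hc P).2 h6
    apply epG_inj hB2 hB
    apply fmt_unique (isBlk_epG hB2) hB' hP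
    · rw [h7]; exact h1.ne
    · rw [h7, h4]

end Cfsg.Agent.S4670
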