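import Cfsg.Statements.S4671
import Cfsg.Agent.H25_Cov3

set_option autoImplicit false
open Cfsg

namespace Cfsg.Agent.S4671

open Cfsg.Agent.H25.Red Cfsg.Agent.H25.KG Cfsg.Agent.H25.BPTr Cfsg.Agent.H25.BPMain Cfsg.Agent.H25.BPDef Cfsg.Agent.H25.BPNorm Cfsg.Agent.H25.BPSub Cfsg.Agent.H25.Cov Cfsg.Agent.H25.Cov2 Cfsg.Agent.H25.Cov3

/-- Fix a prime p and a maximal ideal M of the algebraic integers containing p. Let N be a normal subgroup of the finite group G, B a p-block of G and P a defect group of B. Then there is a p-block c of N, stable under conjugation by P and covered by B (some member of B has a constituent in c on restriction to N), such that P ∩ N is a defect group of c. -/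
theorem result {G : Type*} [Group G] [Fintype G] (p : ℕ) [Fact p.Prime] (M : Ideal Cfsg.AlgInt) (hM : Cfsg.IsPModular p M) (N : Subgroup G) [N.Normal] [Fintype N] (B : Set (Cfsg.IrrCharacter G)) (hB : Cfsg.IsPBlock M B) (P : Subgroup G) (hP : Cfsg.IsDefectGroup p M B P) : ∃ c : Set (Cfsg.IrrCharacter N), Cfsg.IsPBlock M c ∧ (∀ x ∈ P, Cfsg.StabilizesBlock N c x) ∧ (∃ χ ∈ B, ∃ θ ∈ c, Cfsg.classInner (fun n : N => (χ : G → ℂ) n) (θ : N → ℂ) ≠ 0) ∧ Cfsg.IsDefectGroup p M c ((P ⊓ N).subgroupOf N) := by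
  have := hM.2.1
  have := charP_KM M hM
  have hN : N.Normal := inferInstance
  have hBb := isBlk_epG hB
  rw [defectG_iff hM hB] at hP
  obtain ⟨b, hb, hne⟩ := exists_covered N hBb
  obtain ⟨Q, hQ⟩ := exists_DGH (p := p) hM hb
  obtain ⟨g, hfix, hne2, hD⟩ := knorr hBb hb hne hP hQ
  obtain ⟨c, hc, hce⟩ := exists_ep (cnj_blk hb g)
  have hnn : (⊤ : Subgroup G) ≤ Subgroup.normalizer (N : Set G) := by rw [Subgroup.normalizer_eq_top]
  refine ⟨c, hc, fun x hx => (stabilizes_iff hc x).2 ⟨hnn (Subgroup.mem_top x), by rw [hce]; exact hfix x hx⟩, ?_, ?_⟩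
  · rw [cov_iff hN hB hc, hce]
    exact (cov_cnj hBb g).2 hne
  · rw [defectH_iff' hM hc inf_le_right, hce]
    exact hD

end Cfsg.Agent.S4671
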