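import Cfsg.Statements.S4672
import Cfsg.Agent.H25_Cov3

set_option autoImplicit false
open Cfsg

namespace Cfsg.Agent.S4672

open Cfsg.Agent.H25.Red Cfsg.Agent.H25.KG Cfsg.Agent.H25.BPTr Cfsg.Agent.H25.BPMain Cfsg.Agent.H25.BPDef Cfsg.Agent.H25.BPNorm Cfsg.Agent.H25.BPSub Cfsg.Agent.H25.Cov Cfsg.Agent.H25.Cov2 Cfsg.Agent.H25.Cov3

/-- Fix a prime p and a maximal ideal M of the algebraic integers containing p. Let N be a normal subgroup of the finite group G of p-power index and c a p-block of N stable under conjugation by G. Then the idempotent of c is a block idempotent of G: there is a p-block B of G whose idempotent coefficients agree with those of c on N and vanish off N; and for every defect group P of such a block B, G = NP and P ∩ N is a defect group of c. -/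
theorem result {G : Type*} [Group G] [Fintype G] (p : ℕ) [Fact p.Prime] (M : Ideal Cfsg.AlgInt) (hM : Cfsg.IsPModular p M) (N : Subgroup G) [N.Normal] (hN : ∃ k : ℕ, N.index = p ^ k) (c : Set (Cfsg.IrrCharacter N)) (hc : Cfsg.IsPBlock M c) (hst : ∀ x : G, Cfsg.StabilizesBlock N c x) : (∃ B : Set (Cfsg.IrrCharacter G), Cfsg.IsPBlock M B ∧ ∀ g : G, Cfsg.blockCoeff B g = Cfsg.subgroupBlockCoeff N c g) ∧ ∀ B : Set (Cfsg.IrrCharacter G), Cfsg.IsPBlock M B → (∀ g : G, Cfsg.blockCoeff B g = Cfsg.subgroupBlockCoeff N c g) → ∀ P : Subgroup G, Cfsg.IsDefectGroup p M B P → N ⊔ P = ⊤ ∧ Cfsg.IsDefectGroup p M c ((P ⊓ N).subgroupOf N) := by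
  have := hM.2.1
  have := charP_KM M hM
  have hnn : (⊤ : Subgroup G) ≤ Subgroup.normalizer (N : Set G) := by rw [Subgroup.normalizer_eq_top]
  have hcb := isBlk_ep hc
  have hfix : Fix ⊤ (ep M N c) := fun g _ => ((stabilizes_iff hc g).1 (hst g)).2
  have hidx' : ∃ m : ℕ, N.relIndex ⊤ = p ^ m := by rw [Subgroup.relIndex_top_right]; exact hN
  constructor
  · obtain ⟨B, hB, hBe⟩ := exists_epG (blk_of_index hM le_top hnn hidx' hcb hfix)
    exact ⟨B, hB, bc_eq_of_ep hB hc hst hBe⟩
  · intro B hB hBc P hP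
    have hBe : epG M B = ep M N c := by
      apply ext_c; intro x
      rw [epG_c, ep_c, hBc]
    rw [defectG_iff hM hB, hBe] at hP
    refine ⟨sup_eq_top hM hN hcb hfix hP, ?_⟩
    obtain ⟨Q, hQ⟩ := exists_DGH (p := p) hM hcb
    obtain ⟨g, _, _, hD⟩ := knorr (hBe ▸ isBlk_epG hB) hcb (by rw [hcb.idem]; exact hcb.ne) hP hQ
    rw [hfix g (Subgroup.mem_top g)] at hD
    rw [defectH_iff' hM hc inf_le_right]
    exact hD

end Cfsg.Agent.S4672
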