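import Cfsg.Statements.S4673
import Cfsg.Agent.H25_Cov3

set_option autoImplicit false
open Cfsg

namespace Cfsg.Agent.S4673

open Cfsg.Agent.H25.Red Cfsg.Agent.H25.KG Cfsg.Agent.H25.BPTr Cfsg.Agent.H25.BPMain Cfsg.Agent.H25.BPDef Cfsg.Agent.H25.BPNorm Cfsg.Agent.H25.BPSub Cfsg.Agent.H25.Cov Cfsg.Agent.H25.Cov2 Cfsg.Agent.H25.Cov3

/-- Fix a prime p and a maximal ideal M of the algebraic integers containing p. Let N ≤ L be normal subgroups of the finite group G with L/N a p-group, let B be a p-block of G covering the p-block c of N (some member of B has a constituent in c on restriction to N), and suppose that N contains a defect group of B. Then the stabilizer T of c in G satisfies T ∩ L = N. -/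
theorem result {G : Type*} [Group G] [Fintype G] (p : ℕ) [Fact p.Prime] (M : Ideal Cfsg.AlgInt) (hM : Cfsg.IsPModular p M) (N L : Subgroup G) [N.Normal] [L.Normal] [Fintype N] (hNL : N ≤ L) (hLN : ∃ k : ℕ, (N.subgroupOf L).index = p ^ k) (B : Set (Cfsg.IrrCharacter G)) (hB : Cfsg.IsPBlock M B) (c : Set (Cfsg.IrrCharacter N)) (hc : Cfsg.IsPBlock M c) (hcov : (∃ χ ∈ B, ∃ θ ∈ c, Cfsg.classInner (fun n : N => (χ : G → ℂ) n) (θ : N → ℂ) ≠ 0)) (hD : ∃ D : Subgroup G, Cfsg.IsDefectGroup p M B D ∧ D ≤ N) (T : Subgroup G) (hT : ∀ x : G, x ∈ T ↔ Cfsg.StabilizesBlock N c x) : T ⊓ L = N := by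
  have := hM.2.1
  have := charP_KM M hM
  have hN : N.Normal := inferInstance
  obtain ⟨D, hD, hDN⟩ := hD
  rw [defectG_iff hM hB] at hD
  apply le_antisymm
  · rintro g ⟨hg1, hg2⟩
    exact mem_of_stable hM hNL hLN (isBlk_epG hB) (isBlk_ep hc) ((cov_iff hN hB hc).1 hcov) hD hDN hg2
      ((stabilizes_iff hc g).1 ((hT g).1 hg1)).2
  · intro g hg
    have hnn : (⊤ : Subgroup G) ≤ Subgroup.normalizer (N : Set G) := by rw [Subgroup.normalizer_eq_top]
    exact ⟨(hT g).2 ((stabilizes_iff hc g).2 ⟨hnn (Subgroup.mem_top g), (isBlk_ep hc).mem.2 g hg⟩), hNL hg⟩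

end Cfsg.Agent.S4673
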