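import Cfsg.Statements.S4674
import Cfsg.Agent.H25_CovRel

set_option autoImplicit false
open Cfsg

namespace Cfsg.Agent.S4674

open Cfsg.Agent.H25.Red Cfsg.Agent.H25.KG Cfsg.Agent.H25.BPTr Cfsg.Agent.H25.BPMain Cfsg.Agent.H25.BPDef Cfsg.Agent.H25.BPNorm Cfsg.Agent.H25.BPSub Cfsg.Agent.H25.Cov Cfsg.Agent.H25.Cov2 Cfsg.Agent.H25.Cov3 Cfsg.Agent.H25.FMT Cfsg.Agent.H25.IndQ Cfsg.Agent.H25.HK Cfsg.Agent.H25.CovRel

/-- Fix a prime p and a maximal ideal M of the algebraic integers containing p. Let N be a normal subgroup of the finite group G, Q a p-subgroup of N, H = N_G(Q) and L = H ∩ N = N_N(Q). Let d be a p-block of N with defect group Q and e the p-block of L with defect group Q that induces d inside N (its Brauer correspondent). Then block induction from H to G is a bijection from the p-blocks of H covering e onto the p-blocks of G covering d: every block of H covering e induces exactly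 one block of G, and that block covers d; and every block of G covering d is induced by exactly one block of H covering e. -/
theorem result {G : Type*} [Group G] [Fintype G] (p : ℕ) [Fact p.Prime] (M : Ideal Cfsg.AlgInt) (hM : Cfsg.IsPModular p M) (N : Subgroup G) [N.Normal] [Fintype N] (Q : Subgroup G) (hQ : IsPGroup p Q) (hQN : Q ≤ N) [Fintype ↥(Subgroup.normalizer (Q : Set G) ⊓ N)] (d : Set (Cfsg.IrrCharacter N)) (hd : Cfsg.IsPBlock M d) (hdQ : Cfsg.IsDefectGroup p M d (Q.subgroupOf N)) (e : Set (Cfsg.IrrCharacter ↥(Subgroup.normalizer (Q : Set G) ⊓ N))) (he : Cfsg.IsPBlock M e) (heQ : Cfsg.IsDefectGroup p M e (Q.subgroupOf (Subgroup.normalizer (Q : Set G) ⊓ N))) (hed : Cfsg.IsInducedBlockIn M N (Subgroup.normalizer (Q : Set G) ⊓ N) e d) : (∀ c : Set (Cfsg.IrrCharacter ↥(Subgroup.normalizer (Q : Set G))), Cfsg.IsPBlock M c → (∃ ψ ∈ c, ∃ ξ ∈ e, Cfsg.classInner (fun l : ↥(Subgroup.normalizer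 (Q : Set G) ⊓ N) => (ψ : ↥(Subgroup.normalizer (Q : Set G)) → ℂ) (Subgroup.inclusion inf_le_left l)) (ξ : ↥(Subgroup.normalizer (Q : Set G) ⊓ N) → ℂ) ≠ 0) → ∃! B : Set (Cfsg.IrrCharacter G), Cfsg.IsInducedBlock M (Subgroup.normalizer (Q : Set G)) c B ∧ (∃ χ ∈ B, ∃ θ ∈ d, Cfsg.classInner (fun n : N => (χ : G → ℂ) n) (θ : N → ℂ) ≠ 0)) ∧ (∀ B : Set (Cfsg.IrrCharacter G), Cfsg.IsPBlock M B → (∃ χ ∈ B, ∃ θ ∈ d, Cfsg.classInner (fun n : N => (χ : G → ℂ) n) (θ : N → ℂ) ≠ 0) → ∃! c : Set (Cfsg.IrrCharacter ↥(Subgroup.normalizer (Q : Set G))), (Cfsg.IsPBlock M c ∧ ∃ ψ ∈ c, ∃ ξ ∈ e, Cfsg.classInner (fun l : ↥(Subgroup.normalizer (Q : Set G) ⊓ N) => (ψ : ↥(Subgroup.normalizer (Q : Set G)) → ℂ) (Subgroup.inclusion inf_le_left l)) (ξ : ↥(Subgroup.normalizer (Q : Set G) ⊓ N) → ℂ) ≠ 0) ∧ Cfsg.IsInducedBlock M (Subgroup.normalizer (Q : Set G)) c B) := by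
  have := hM.2.1
  have := charP_KM M hM
  have hN : N.Normal := inferInstance
  have hKN : Nm Q ⊓ N ≤ N := inf_le_right
  have hQK : Q ≤ Nm Q ⊓ N := le_inf Subgroup.le_normalizer hQN
  have hdb := isBlk_ep hd
  rw [defectH_iff' hM hd hQN] at hdQ
  rw [defectH_iff' hM he hQK] at heQ
  rw [indIn_iff' hM hQ hKN hQK (fun x hx => ⟨Ce_le_Nm Q hx.1, hx.2⟩) inf_le_left he hd] at hed
  have htr : tr (Ce Q) (ep M N d) = ep M (Nm Q ⊓ N) e :=
    (fmtA_rel hM hdb hdQ).1.eq_of_mul (isBlk_ep he) (by rw [hed]; exact (isBlk_ep he).ne)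
  obtain ⟨hk1, hk2⟩ := hk hM hdb hdQ htr (isBlk_ep he) heQ
  have hnK : Nm Q ≤ Nm (Nm Q ⊓ N) := by
    intro x hx
    rw [mem_normalizer_iff_cs, inf_comm]
    have h3 : cs x (Nm Q) = Nm Q := mem_normalizer_iff_cs.1 (Subgroup.le_normalizer hx)
    have h4 : cs x (N ⊓ Nm Q) = N ⊓ Nm Q := by
      rw [inf_comm, ← cs_inf_normal, h3]
    exact h4
  have hcov : ∀ c : Set (Cfsg.IrrCharacter ↥(Subgroup.normalizer (Q : Set G))), Cfsg.IsPBlock M c →
      ((∃ ψ ∈ c, ∃ ξ ∈ e, Cfsg.classInner (fun l : ↥(Subgroup.normalizer (Q : Set G) ⊓ N) => (ψ : ↥(Subgroup.normalizer (Q : Set G)) → ℂ) (Subgroup.inclusion inf_le_left l)) (ξ : ↥(Subgroup.normalizer (Q : Set G) ⊓ N) → ℂ) ≠ 0) ↔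
      ep M (Nm Q) c * ep M (Nm Q ⊓ N) e ≠ 0) := fun c hc => cov_rel inf_le_left hnK hc he
  have hind : ∀ (c : Set (Cfsg.IrrCharacter ↥(Subgroup.normalizer (Q : Set G)))) (B : Set (Cfsg.IrrCharacter G)),
      Cfsg.IsPBlock M c → Cfsg.IsPBlock M B → (Cfsg.IsInducedBlock M (Subgroup.normalizer (Q : Set G)) c B ↔
        tr (Ce Q) (epG M B) * ep M (Nm Q) c = ep M (Nm Q) c) := fun c B hc hB =>
    ind_iff hM hQ Subgroup.le_normalizer (Ce_le_Nm Q) le_rfl hc hB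
  constructor
  · intro c hc hce
    rw [hcov c hc] at hce
    haveI : Fintype (Subgroup.normalizer (Q : Set G)) := Fintype.ofFinite _
    obtain ⟨B, hB⟩ := H10.BlockInd.exists_inducedBlock Q (Subgroup.normalizer (Q : Set G)) hM hQ Subgroup.le_normalizer
      (Ce_le_Nm Q) le_rfl hc
    refine ⟨B, ⟨hB, ?_⟩, ?_⟩
    · rw [cov_iff hN hB.2.1 hd]
      exact hk1 _ _ (isBlk_ep hc) hce (isBlk_epG hB.2.1) ((hind c B hc hB.2.1).1 hB)
    · rintro B' ⟨hB', _⟩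
      exact H10.BlockInd.isInducedBlock_unique _ hB' hB
  · intro B hB hBd
    rw [cov_iff hN hB hd] at hBd
    obtain ⟨c', hc', h1, h2, h3⟩ := hk2 _ (isBlk_epG hB) hBd
    obtain ⟨c, hc, rfl⟩ := exists_ep hc'
    refine ⟨c, ⟨⟨hc, (hcov c hc).2 h1⟩, (hind c B hc hB).2 h2⟩, ?_⟩
    rintro c2 ⟨⟨hc2, h4⟩, h5⟩
    exact ep_inj hc2 hc (h3 _ (isBlk_ep hc2) ((hcov c2 hc2).1 h4) ((hind c2 B hc2 hB).1 h5))

end Cfsg.Agent.S4674
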