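import Cfsg.Statements.S4679
import Cfsg.Agent.H25_Fus

set_option autoImplicit false
open Cfsg

namespace Cfsg.Agent.S4679

open Cfsg.Agent.H25.Red Cfsg.Agent.H25.KG Cfsg.Agent.H25.BPTr Cfsg.Agent.H25.BPMain Cfsg.Agent.H25.BPDef Cfsg.Agent.H25.FMT Cfsg.Agent.H25.Fus

/-- Fix a prime p and a maximal ideal M of the algebraic integers containing p, a p-block B of the finite group G with maximal Brauer pair (P, e), its fusion system F on P, a Brauer pair (Q, f) ≤ (P, e), and let T be the stabilizer of f in N_G(Q). Then Q is fully normalized in F if and only if N_P(Q) is a defect group of the block of T whose idempotent is that of f. -/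
theorem result {G : Type*} [Group G] [Fintype G] (p : ℕ) [Fact p.Prime] (M : Ideal Cfsg.AlgInt) (hM : Cfsg.IsPModular p M) (B : Set (Cfsg.IrrCharacter G)) (P : Subgroup G) (e : Set (Cfsg.IrrCharacter (Subgroup.centralizer (P : Set G)))) (hmax : Cfsg.IsMaximalBrauerPair p M B P e) (F : Cfsg.FusionSystem P) (hF : Cfsg.IsBlockFusionSystemOn p M B P e F) (Q : Subgroup G) (f : Set (Cfsg.IrrCharacter (Subgroup.centralizer (Q : Set G)))) (hQP : Q ≤ P) (hf : Cfsg.IsPBlock M f) (hle : Cfsg.SubpairLE p M Q f P e) (T : Subgroup G) (hT : ∀ y : G, y ∈ T ↔ y ∈ Subgroup.normalizer (Q : Set G) ∧ Cfsg.StabilizesBlock (Subgroup.centralizer (Q : Set G)) f y) : F.IsFullyNormalized Q ↔ ∃ F' : Set (Cfsg.IrrCharacter T), Cfsg.IsPBlock M F' ∧ (∀ t : T, Cfsg.blockCoeff F' t = Cfsg.subgroupBlockCoeff (Subgroup.centralizer (Q : Set G)) f (t : G)) ∧ Cfsg.IsDefectGroup p M F' ((P ⊓ Subgroup.normalizer (Q : Set G)).subgroupOf T) := by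
  have := hM.2.1
  have := charP_KM M hM
  obtain ⟨h1, h2, h3, h4⟩ := max_iff.1 hmax
  have hle' := le_of_sle hle
  obtain ⟨hQ, hfb⟩ := hle'.pair h3.pg h3.be
  have hTeq : T = Nf Q (ep M (Ce Q) f) := by
    ext y
    rw [hT, stabilizes_iff hf, mem_Nf]
    exact ⟨fun h => ⟨h.1, h.2.2⟩, fun h => ⟨h.1, norm_le_norm_Ce Q h.1, h.2⟩⟩
  have hPT : P ⊓ Nm Q ≤ T := by
    rw [hTeq, ← inf_Nf h3 hle']
    exact inf_le_right
  rw [fn_iff hM h3 h4 hle' (isBF_of hF), ← hTeq]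
  have hrd : ∀ F' : Set (Cfsg.IrrCharacter T), (∀ t : T, Cfsg.blockCoeff F' t = Cfsg.subgroupBlockCoeff (Subgroup.centralizer (Q : Set G)) f (t : G)) →
      ep M T F' = ep M (Ce Q) f := by
    intro F' h5
    apply ext_c
    intro x
    rw [ep_c, ep_c]
    by_cases hx : x ∈ T
    · rw [sbc_mem F' hx, h5 ⟨x, hx⟩]
    · rw [sbc_notMem F' hx, sbc_notMem f (fun h => hx (hTeq ▸ Ce_le_Nf hfb h))]
  constructor
  · intro hD
    obtain ⟨F', h5, h6, h7⟩ := H25.BPNorm.exists_stab hM hQ (T := T) (hTeq ▸ le_Nf hfb) (hTeq ▸ inf_le_left) (hTeq ▸ Ce_le_Nf hfb) hf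
      (fun t ht => ((hT t).1 ht).2)
    refine ⟨F', h5, h7, ?_⟩
    rw [defectH_iff' hM h5 hPT, h6]
    exact hD
  · rintro ⟨F', h5, h6, h7⟩
    rw [defectH_iff' hM h5 hPT, hrd F' h6] at h7
    exact h7

end Cfsg.Agent.S4679
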