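import Cfsg.Statements.S4681
import Cfsg.Agent.H25_Fus
import Cfsg.Agent.H25_BPInd
import Cfsg.Agent.H27_FusGrp

set_option autoImplicit false
open Cfsg

namespace Cfsg.Agent.S4681

open Cfsg.Agent.H25.Red Cfsg.Agent.H25.KG Cfsg.Agent.H25.BPTr Cfsg.Agent.H25.BPMain Cfsg.Agent.H25.BPDef Cfsg.Agent.H25.FMT Cfsg.Agent.H25.Fus

/-- Fix a prime p and a maximal ideal M of the algebraic integers containing p. Let B₀ be the principal p-block of the finite group G, P a Sylow p-subgroup and e₀ the principal p-block of C_G(P). Then (P, e₀) is a maximal Brauer pair of B₀, and the fusion system of B₀ on (P, e₀) is the fusion system of G on P: its maps from each subgroup of P are exactly the conjugation maps into P by elements of G. -/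
theorem result {G : Type*} [Group G] [Fintype G] (p : ℕ) [Fact p.Prime] (M : Ideal Cfsg.AlgInt) (hM : Cfsg.IsPModular p M) (S : Sylow p G) : Cfsg.IsMaximalBrauerPair p M (Cfsg.principalBlock M G) (S : Subgroup G) (Cfsg.principalBlock M (Subgroup.centralizer ((S : Subgroup G) : Set G))) ∧ ∀ F : Cfsg.FusionSystem (S : Subgroup G), Cfsg.IsBlockFusionSystemOn p M (Cfsg.principalBlock M G) (S : Subgroup G) (Cfsg.principalBlock M (Subgroup.centralizer ((S : Subgroup G) : Set G))) F → ∀ Q : Subgroup G, F.Hom Q = (Cfsg.groupFusionSystem (S : Subgroup G)).Hom Q := by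
  have := hM.2.1
  have := charP_KM M hM
  have hpr : ∀ (Q : Subgroup G), IsPBlock M (principalBlock M (Ce Q)) := fun Q => by
    haveI : Fintype (Ce Q) := Fintype.ofFinite _
    exact H10.BlockKer.principal_isPBlock
  have hprG : IsPBlock M (principalBlock M G) := H10.BlockKer.principal_isPBlock
  have hbp : ∀ (Q : Subgroup G), IsPGroup p Q → BP p (epG M (principalBlock M G)) Q (ep M (Ce Q) (principalBlock M (Ce Q))) := fun Q hQ =>
    (bpo_iff.1 ((H25.BPInd.third hM hQ (hpr Q)).2 rfl)).2.2
  have huniq : ∀ (Q : Subgroup G) (f : MonoidAlgebra (KM M) G), BP p (epG M (principalBlock M G)) Q f →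
      f = ep M (Ce Q) (principalBlock M (Ce Q)) := by
    intro Q f h
    obtain ⟨f', hf', rfl⟩ := exists_ep h.be
    have h1 : IsBrauerPairOf p M (principalBlock M G) Q f' := bpo_iff.2 ⟨hprG, hf', h⟩
    rw [(H25.BPInd.third hM h.pg hf').1 h1]
  have hS := hbp S S.isPGroup'
  have hmax : Cfsg.IsMaximalBrauerPair p M (Cfsg.principalBlock M G) (S : Subgroup G) (Cfsg.principalBlock M (Subgroup.centralizer ((S : Subgroup G) : Set G))) := by
    rw [max_iff]
    refine ⟨hprG, hpr S, hS, S.isPGroup', hS.be, ?_⟩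
    intro R e' h
    exact S.is_maximal' h.pP h.le
  refine ⟨hmax, ?_⟩
  intro F hF Q
  have hBF := isBF_of hF
  apply H27.Fus.hom_eq_of_map
  intro φ
  rw [hBF, H27.Fus.map_gfs]
  constructor
  · rintro ⟨g, hg, h1⟩
    refine ⟨hg.le, fun x hx => ?_, g, h1⟩
    rw [h1 x hx]
    apply hg.le'
    rw [mem_cs]
    have : g⁻¹ * (g * x * g⁻¹) * g = x := by group
    rw [this]; exact hx
  · rintro ⟨h1, h2, g, h3⟩
    refine ⟨g, ?_, h3⟩
    obtain ⟨f, -, h4⟩ := le_exists hS.pg hS.be h1
    refine ⟨f, h4, ?_⟩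
    have hle : H25.KG.cs g Q ≤ S := by
      intro y hy
      rw [mem_cs] at hy
      have h5 := h2 _ hy
      rw [h3 _ hy] at h5
      have : g * (g⁻¹ * y * g) * g⁻¹ = y := by group
      rwa [this] at h5
    obtain ⟨f', -, h5⟩ := le_exists hS.pg hS.be hle
    have h6 := huniq _ _ ((hS.down h4).cnj g)
    have h7 := huniq _ _ (hS.down h5)
    rw [h6, ← h7]
    exact h5

end Cfsg.Agent.S4681
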