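import Cfsg.Statements.S4682
import Cfsg.Agent.H25_Nilp

set_option autoImplicit false
open Cfsg

namespace Cfsg.Agent.S4682

open Cfsg.Agent.H25.Red Cfsg.Agent.H25.KG Cfsg.Agent.H25.BPTr Cfsg.Agent.H25.BPMain Cfsg.Agent.H25.BPDef Cfsg.Agent.H25.FMT Cfsg.Agent.H25.Fus Cfsg.Agent.H25.Nilp

/-- Fix a prime p and a maximal ideal M of the algebraic integers containing p, a p-block B of the finite group G with maximal Brauer pair (P, e), P abelian, and a Brauer pair (Q, f) ≤ (P, e). Let T_Q be the stabilizer of f in N_G(Q) and T_P the stabilizer of e in N_G(P). Then every element of T_Q is a product of an element of T_P and an element of C_G(Q); and the index of C_G(Q) in T_Q equals the index of T_P ∩ C_G(Q) in T_P ∩ N_G(Q). -/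
theorem result {G : Type*} [Group G] [Fintype G] (p : ℕ) [Fact p.Prime] (M : Ideal Cfsg.AlgInt) (hM : Cfsg.IsPModular p M) (B : Set (Cfsg.IrrCharacter G)) (P : Subgroup G) (e : Set (Cfsg.IrrCharacter (Subgroup.centralizer (P : Set G)))) (hmax : Cfsg.IsMaximalBrauerPair p M B P e) (hab : ∀ x ∈ P, ∀ y ∈ P, x * y = y * x) (Q : Subgroup G) (f : Set (Cfsg.IrrCharacter (Subgroup.centralizer (Q : Set G)))) (hQP : Q ≤ P) (hf : Cfsg.IsPBlock M f) (hle : Cfsg.SubpairLE p M Q f P e) (TQ : Subgroup G) (hTQ : ∀ y : G, y ∈ TQ ↔ y ∈ Subgroup.normalizer (Q : Set G) ∧ Cfsg.StabilizesBlock (Subgroup.centralizer (Q : Set G)) f y) (TP : Subgroup G) (hTP : ∀ y : G, y ∈ TP ↔ y ∈ Subgroup.normalizer (P : Set G) ∧ Cfsg.StabilizesBlock (Subgroup.centralizer (P : Set G)) e y) : (∀ x ∈ TQ, ∃ y ∈ TP, ∃ c ∈ Subgroup.centralizer (Q : Set G), x = y * c) ∧ ((Subgroup.centralizer (Q : Set G)).subgroupOf TQ).index = ((TP ⊓ Subgroup.centralizer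 (Q : Set G)).subgroupOf (TP ⊓ Subgroup.normalizer (Q : Set G))).index := by
  have := hM.2.1
  have := charP_KM M hM
  obtain ⟨h1, h2, h3, h4⟩ := max_iff.1 hmax
  have hle' := le_of_sle hle
  have hTQ' : ∀ y, y ∈ TQ ↔ y ∈ Nf Q (ep M (Ce Q) f) := by
    intro y
    rw [hTQ, stabilizes_iff hf, mem_Nf]
    exact ⟨fun h => ⟨h.1, h.2.2⟩, fun h => ⟨h.1, norm_le_norm_Ce Q h.1, h.2⟩⟩
  have hTP' : ∀ y, y ∈ TP ↔ y ∈ Nf P (ep M (Ce P) e) := by
    intro y
    rw [hTP, stabilizes_iff h2, mem_Nf]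
    exact ⟨fun h => ⟨h.1, h.2.2⟩, fun h => ⟨h.1, norm_le_norm_Ce P h.1, h.2⟩⟩
  have key : ∀ x ∈ TQ, ∃ y ∈ TP, y⁻¹ * x ∈ Ce Q := by
    intro x hx
    rw [hTQ'] at hx
    obtain ⟨y, hy, h5⟩ := ab_control hM h3 h4 hab (FR.of_stab hx.1 hle' hx.2)
    exact ⟨y, (hTP' y).2 hy, h5⟩
  refine ⟨fun x hx => ?_, ?_⟩
  · obtain ⟨y, hy, h5⟩ := key x hx
    exact ⟨y, hy, y⁻¹ * x, h5, by group⟩
  · have hCT : Ce Q ≤ TQ := fun x hx => (hTQ' x).2 (Ce_le_Nf (isBlk_ep hf) hx)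
    have hsub : TP ⊓ Nm Q ≤ TQ := by
      rintro y ⟨hy, hyQ⟩
      replace hy : y ∈ TP := hy
      replace hyQ : y ∈ Nm Q := hyQ
      rw [hTP'] at hy
      rw [hTQ']
      have h5 : FR p P (ep M (Ce P) e) P y := FR.of_stab hy.1 (LE.refl _ _) hy.2
      exact ⟨hyQ, (FR.mono h3.pg h3.be h5 hQP).stab h3.pg h3.be hyQ hle'⟩
    have hTQeq : TQ = Ce Q ⊔ (TP ⊓ Nm Q) := by
      apply le_antisymm
      · intro x hx
        obtain ⟨y, hy, h5⟩ := key x hx
        have h6 : x = y * (y⁻¹ * x) := by group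
        have hyQ : y ∈ Nm Q := by
          have h7 : y = x * (y⁻¹ * x)⁻¹ := by group
          rw [h7]
          exact (Nm Q).mul_mem ((hTQ' x).1 hx).1 ((Nm Q).inv_mem (Ce_le_Nm Q h5))
        rw [h6]
        exact Subgroup.mul_mem _ (Subgroup.mem_sup_right ⟨hy, hyQ⟩) (Subgroup.mem_sup_left h5)
      · exact sup_le hCT hsub
    have h7 : (Ce Q).relIndex TQ = (Ce Q).relIndex (TP ⊓ Nm Q) := by
      conv_lhs => rw [hTQeq]
      exact H25.ExtFMT.relIndex_sup (inf_le_right.trans (norm_le_norm_Ce Q))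
    have h8 : Ce Q ⊓ (TP ⊓ Nm Q) = TP ⊓ Ce Q := by
      apply le_antisymm
      · exact le_inf (inf_le_right.trans inf_le_left) inf_le_left
      · exact le_inf inf_le_right (le_inf inf_le_left (inf_le_right.trans (Ce_le_Nm Q)))
    show (Ce Q).relIndex TQ = (TP ⊓ Ce Q).relIndex (TP ⊓ Nm Q)
    rw [h7, ← Subgroup.inf_relIndex_right, h8]

end Cfsg.Agent.S4682
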