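import Cfsg.Statements.S4683
import Cfsg.Agent.H25_Sub
import Cfsg.Agent.H25_BPInd

set_option autoImplicit false
open Cfsg

namespace Cfsg.Agent.S4683


/-- Fix a prime p and a maximal ideal M of the algebraic integers containing p, a p-block B of the finite group G, a p-element u and a p-block e of C = C_G(u) such that (⟨u⟩, e) is a Brauer pair of B (a Brauer element of B). For χ ∈ B let χ_u be the e-part of the class function c ↦ χ(u c) on C and χ_u' the e-part of c ↦ χ(u⁻¹ c). Then the sum over χ ∈ B and over the p-regular elements s of C of χ_u(s)·χ_u'(s⁻¹) equals the order of C times the p-regular rank of e (the number of irreducible Brauer characters of e). -/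
theorem result {G : Type*} [Group G] [Fintype G] (p : ℕ) [Fact p.Prime] (M : Ideal Cfsg.AlgInt) (hM : Cfsg.IsPModular p M) (B : Set (Cfsg.IrrCharacter G)) (u : G) (hu : ∃ k : ℕ, orderOf u = p ^ k) (e : Set (Cfsg.IrrCharacter (Subgroup.centralizer (Subgroup.zpowers u : Set G)))) (hBe : Cfsg.IsBrauerPairOf p M B (Subgroup.zpowers u) e) : ∑ᶠ χ ∈ B, ∑ᶠ s : Subgroup.centralizer (Subgroup.zpowers u : Set G), Cfsg.pRegularPart p (Cfsg.blockPart e (fun c : Subgroup.centralizer (Subgroup.zpowers u : Set G) => (χ : G → ℂ) (u * c))) s * Cfsg.blockPart e (fun c : Subgroup.centralizer (Subgroup.zpowers u : Set G) => (χ : G → ℂ) (u⁻¹ * c)) s⁻¹ = (Nat.card (Subgroup.centralizer (Subgroup.zpowers u : Set G)) : ℂ) * (Cfsg.blockRank p e : ℂ) := by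
  classical
  have hind := ((H25.BPInd.bpo_iff_induced hM).1 hBe).2
  have hH := H10.BlockSMT2.centralizer_zpowers u
  have key : ∀ (H : Subgroup G) (hH : H = Subgroup.centralizer ({u} : Set G))
      (e : Set (IrrCharacter H)) (hind : IsInducedBlock M H e B),
      ∑ᶠ χ ∈ B, ∑ᶠ s : H, pRegularPart p (blockPart e (fun c : H => (χ : G → ℂ) (u * c))) s *
        blockPart e (fun c : H => (χ : G → ℂ) (u⁻¹ * c)) s⁻¹ =
        (Nat.card H : ℂ) * (blockRank p e : ℂ) := by
    intro H hH e hind
    subst hH
    haveI : Fintype (IrrCharacter G) := Fintype.ofFinite _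
    haveI : Fintype (Subgroup.centralizer ({u} : Set G)) := Fintype.ofFinite _
    haveI : Fintype (IrrCharacter (Subgroup.centralizer ({u} : Set G))) := Fintype.ofFinite _
    rw [← H25.Sub.norm_sum hM hu hind.1, H10.BlockOrth.finsum_mem_irr]
    refine Finset.sum_congr rfl fun χ _ => ?_
    by_cases hχ : χ ∈ B
    · rw [if_pos hχ, finsum_eq_sum_of_fintype]
      refine Finset.sum_congr rfl fun y _ => ?_
      rw [H25.BlockReg3.pReg_apply]
      split_ifs
      · exact zero_mul _
      · rw [H25.Sub.bp_inv]
        rfl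
    · rw [if_neg hχ]
      symm
      refine Finset.sum_eq_zero fun y _ => ?_
      split_ifs with hy
      · rfl
      · rw [H25.Sub.bp_zero hM hu hind hχ y hy, zero_mul]
  exact key _ hH e hind

end Cfsg.Agent.S4683
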