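import Cfsg.Statements.S4693
import Cfsg.Agent.H25_Nilp3
import Cfsg.Agent.H25_FR2

set_option autoImplicit false
open Cfsg

namespace Cfsg.Agent.S4693

open Cfsg.Agent.H25.Red Cfsg.Agent.H25.KG Cfsg.Agent.H25.BPTr Cfsg.Agent.H25.BPMain Cfsg.Agent.H25.BPDef Cfsg.Agent.H25.FMT Cfsg.Agent.H25.Fus Cfsg.Agent.H25.Nilp

/-- Fix a prime p and a maximal ideal M of the algebraic integers containing p, a p-block B of the finite group G with maximal Brauer pair (P, e) and fusion system F on P, and a Brauer pair (Q, f) ≤ (P, e) with Q centric in F. Suppose every element of G normalizes Q and stabilizes f. Then the idempotent of B agrees with that of f modulo M at every element of G, and f is the idempotent of a nilpotent block of Q·C_G(Q): some p-block of Q·C_G(Q) has the idempotent coefficients of f and is nilpotent. -/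
theorem result {G : Type*} [Group G] [Fintype G] (p : ℕ) [Fact p.Prime] (M : Ideal Cfsg.AlgInt) (hM : Cfsg.IsPModular p M) (B : Set (Cfsg.IrrCharacter G)) (P : Subgroup G) (e : Set (Cfsg.IrrCharacter (Subgroup.centralizer (P : Set G)))) (hmax : Cfsg.IsMaximalBrauerPair p M B P e) (F : Cfsg.FusionSystem P) (hF : Cfsg.IsBlockFusionSystemOn p M B P e F) (Q : Subgroup G) (f : Set (Cfsg.IrrCharacter (Subgroup.centralizer (Q : Set G)))) (hQP : Q ≤ P) (hf : Cfsg.IsPBlock M f) (hle : Cfsg.SubpairLE p M Q f P e) (hcen : F.IsCentric Q) (hG : ∀ x : G, x ∈ Subgroup.normalizer (Q : Set G) ∧ Cfsg.StabilizesBlock (Subgroup.centralizer (Q : Set G)) f x) : (∀ g : G, Cfsg.MemLocalIdeal M (Cfsg.blockCoeff B g - Cfsg.subgroupBlockCoeff (Subgroup.centralizer (Q : Set G)) f g)) ∧ ∃ F' : Set (Cfsg.IrrCharacter ↥(Q ⊔ Subgroup.centralizer (Q : Set G))), Cfsg.IsPBlock M F' ∧ (∀ t : ↥(Q ⊔ Subgroup.centralizer (Q : Set G)), Cfsg.blockCoeff F' t = Cfsg.subgroupBlockCoeff (Subgroup.centralizer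 (Q : Set G)) f (t : G)) ∧ Cfsg.IsNilpotentBlock p M F' := by
  have := hM.2.1
  have := charP_KM M hM
  obtain ⟨h1, h2, h3, h4⟩ := max_iff.1 hmax
  have hle' := le_of_sle hle
  obtain ⟨hQ, hfb⟩ := hle'.pair h3.pg h3.be
  have hD := (centric_iff hM h3 h4 hle' (isBF_of hF)).1 hcen
  constructor
  · have hfix : Fix ⊤ (ep M (Ce Q) f) := fun x _ => ((stabilizes_iff hf x).1 (hG x).2).2
    have hfG : IsBlk ⊤ (ep M (Ce Q) f) :=
      H25.BPNorm.isBlk_stab hM hQ le_top (fun x _ => (hG x).1) le_top hfb hfix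
    have hbp := h3.down hle'
    have hne : epG M B * ep M (Ce Q) f ≠ 0 := by
      intro h0
      have h5 := hbp.tr
      rw [← H25.FR2.tr_mul_supp hfb.mem.1, h0, map_zero] at h5
      exact hfb.ne h5.symm
    have heq := (isBlk_epG h1).eq_of_mul hfG hne
    intro g
    rw [← rd_eq_iff]
    · have h6 := congrArg (fun a : MonoidAlgebra (KM M) G => a.coeff g) heq
      exact h6
    · have h7 := H10.BlockIdem.eB_mem_ZI h1 g
      rwa [H10.BlockIdem.eB_coeff] at h7
    · exact sbc_ring hf g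
  · have hQC : Q ≤ Nm (Ce Q) := Subgroup.le_normalizer.trans (norm_le_norm_Ce Q)
    have hst : ∀ t ∈ Q ⊔ Ce Q, StabilizesBlock (Subgroup.centralizer (Q : Set G)) f t := fun t _ => (hG t).2
    obtain ⟨F', h5, h6, h7⟩ := H25.BPNorm.exists_stab hM hQ (T := Q ⊔ Ce Q) le_sup_left
      (fun x _ => (hG x).1) le_sup_right hf hst
    refine ⟨F', h5, h7, ?_⟩
    rw [nilpH_iff', and_iff_right h5, h6, sup_comm]
    exact nilp_sup_cent hM hQ hfb hD

end Cfsg.Agent.S4693
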