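import Cfsg.Statements.S4696
import Cfsg.Agent.H25_Czc

set_option autoImplicit false
open Cfsg

namespace Cfsg.Agent.S4696


/-- Let p be a prime, M a maximal ideal of the algebraic integers containing p, and B a p-block of the finite group G whose defect group D is cyclic of order p^a with a ≥ 1. Let C = C_G(D), let b be a block of C inducing B, let T be the stabilizer of b in N_G(D) (the elements g of N_G(D) such that the g-conjugate of every member of b is again in b), and let e be the index of C in T (the inertial index of B). Then e divides p − 1, every irreducible character in B has height zero, and B is the disjoint union of a set X of e characters and a set Y of (p^a − 1)/e characters, the members of Y agreeing on p-regular elements, for which there are signs δ_χ = ±1 (χ ∈ X) and δ₀ = ±1 such that: for every ψ ∈ Y and every p-regular g, δ₀ ψ(g) + Σ_{χ ∈ X} δ_χ χ(g) =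 0; for all χ, χ' ∈ X the integers δ_χ χ(1) and δ_χ' χ'(1) are congruent modulo p^a; and for ψ ∈ Y and χ ∈ X, ψ(1) ≡ −e δ₀ δ_χ χ(1) modulo p^a. -/
theorem result {G : Type*} [Group G] [Finite G] (p : ℕ) [Fact p.Prime] (M : Ideal Cfsg.AlgInt) (hM : Cfsg.IsPModular p M) (D : Subgroup G) (hD : IsCyclic D) (a : ℕ) (ha : 1 ≤ a) (hDa : Nat.card D = p ^ a) (B : Set (Cfsg.IrrCharacter G)) (hB : Cfsg.IsPBlock M B) (hBD : Cfsg.IsDefectGroup p M B D) (b : Set (Cfsg.IrrCharacter (Subgroup.centralizer (D : Set G)))) (hind : Cfsg.IsInducedBlock M (Subgroup.centralizer (D : Set G)) b B) (T : Subgroup G) (hT : ∀ g : G, g ∈ T ↔ (g ∈ Subgroup.normalizer (D : Set G) ∧ ∀ θ ∈ b, ∀ θ' : Cfsg.IrrCharacter (Subgroup.centralizer (D : Set G)), (∀ h h' : Subgroup.centralizer (D : Set G), (h' : G) = g * h * g⁻¹ → (θ' : Subgroup.centralizer (D : Set G) → ℂ) h' = (θ : Subgroup.centralizer (D : Set G) → ℂ)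 h) → θ' ∈ b)) (e : ℕ) (he : (Subgroup.centralizer (D : Set G)).relIndex T = e) : e ∣ p - 1 ∧ (∀ χ ∈ B, Cfsg.blockHeight p B (χ : G → ℂ) = 0) ∧ ∃ X Y : Set (Cfsg.IrrCharacter G), B = X ∪ Y ∧ Disjoint X Y ∧ Nat.card X = e ∧ Nat.card Y = (p ^ a - 1) / e ∧ (∀ ψ ∈ Y, ∀ ψ' ∈ Y, ∀ g : G, ¬ p ∣ orderOf g → (ψ : G → ℂ) g = (ψ' : G → ℂ) g) ∧ ∃ (δ : Cfsg.IrrCharacter G → ℤ) (δ₀ : ℤ), (∀ χ ∈ X, δ χ = 1 ∨ δ χ = -1) ∧ (δ₀ = 1 ∨ δ₀ = -1) ∧ (∀ ψ ∈ Y, ∀ g : G, ¬ p ∣ orderOf g → (δ₀ : ℂ) * (ψ : G → ℂ) g + ∑ᶠ χ ∈ X, (δ χ : ℂ) * (χ : G → ℂ) g = 0) ∧ (∀ χ ∈ X, ∀ χ' ∈ X, δ χ * (Cfsg.charDegree (χ : G → ℂ) : ℤ) ≡ δ χ' * (Cfsg.charDegree (χ' : G → ℂ) : ℤ) [ZMOD (p : ℤ) ^ a]) ∧ (∀ ψ ∈ Y, ∀ χ ∈ X, (Cfsg.charDegree (ψ : G → ℂ) : ℤ) ≡ -((e : ℤ) * δ₀ * δ χ * (Cfsg.charDegree (χ : G → ℂ) : ℤ)) [ZMOD (p : ℤ) ^ a]) := by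
  have := hM.2.1
  have := Cfsg.Agent.H25.Red.charP_KM M hM
  haveI : Fintype G := Fintype.ofFinite _
  obtain ⟨h1, h2, h3, h4, X, Y, δ, ε, hmem, hdis, hXc, hYc, hδ, hε, hrel, hcX, hcY⟩ :=
    Cfsg.Agent.H25.Czc.core hM hD ha hDa hB hBD hind hT he
  refine ⟨h1, h4, (X : Set (IrrCharacter G)), (Y : Set (IrrCharacter G)), ?_, ?_, ?_, ?_, ?_, δ, -ε, hδ, ?_, ?_, hcX, ?_⟩
  · ext χ
    rw [hmem χ, Set.mem_union, Finset.mem_coe, Finset.mem_coe]
  · exact Finset.disjoint_coe.2 hdis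
  · rw [Nat.card_coe_set_eq, Set.ncard_coe_finset, hXc]
  · rw [Nat.card_coe_set_eq, Set.ncard_coe_finset, ← hYc, Nat.mul_div_cancel_left _ h2]
  · intro ψ hψ ψ' hψ' g hg
    have e1 := hrel ψ hψ g hg
    rw [← hrel ψ' hψ' g hg] at e1
    have e2 : (ε : ℂ) ≠ 0 := by rcases hε with h | h <;> rw [h] <;> norm_num
    exact mul_left_cancel₀ e2 e1
  · rcases hε with h | h <;> rw [h]
    · right; rfl
    · left; norm_num
  · intro ψ hψ g hg
    rw [finsum_mem_coe_finset, ← hrel ψ hψ g hg]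
    push_cast; ring
  · intro ψ hψ χ hχ
    have := hcY ψ hψ χ hχ
    have e1 : -((e : ℤ) * -ε * δ χ * (charDegree (χ : G → ℂ) : ℤ)) = (e : ℤ) * ε * δ χ * (charDegree (χ : G → ℂ) : ℤ) := by ring
    rw [e1]
    exact this

end Cfsg.Agent.S4696
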