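import Cfsg.Statements.S4715
import Cfsg.Agent.H25_ExtFMT
import Cfsg.Agent.H25_CenSec3

set_option autoImplicit false
open Cfsg

namespace Cfsg.Agent.S4715

open Cfsg.Agent.H25.Red Cfsg.Agent.H25.KG Cfsg.Agent.H25.BPTr Cfsg.Agent.H25.BPDef Cfsg.Agent.H25.FMT Cfsg.Agent.H25.IndQ Cfsg.Agent.H25.ExtFMT


/-- Let p be a prime, M a maximal ideal of the algebraic integers containing p, B a p-block of the finite group G with defect group D of order p^d, H = D·C_G(D), b a block of H inducing B, T the stabilizer of b in N_G(D) and e = [T : H] the inertial index of B; let n be the integer with p^n ≤ e < p^(n+1) and p^c the order of the centre of D. Then every irreducible character in B has height h with h + c ≤ n + d. -/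
theorem result {G : Type*} [Group G] [Finite G] (p : ℕ) [Fact p.Prime] (M : Ideal Cfsg.AlgInt) (hM : Cfsg.IsPModular p M) (B : Set (Cfsg.IrrCharacter G)) (hB : Cfsg.IsPBlock M B) (D : Subgroup G) (hBD : Cfsg.IsDefectGroup p M B D) (d : ℕ) (hDd : Nat.card D = p ^ d) (H : Subgroup G) (hH : H = D ⊔ Subgroup.centralizer (D : Set G)) (b : Set (Cfsg.IrrCharacter H)) (hind : Cfsg.IsInducedBlock M H b B) (T : Subgroup G) (hT : ∀ g : G, g ∈ T ↔ (g ∈ Subgroup.normalizer (D : Set G) ∧ ∀ θ ∈ b, ∀ θ' : Cfsg.IrrCharacter H, (∀ h h' : H, (h' : G) = g * h * g⁻¹ → (θ' : H → ℂ) h' = (θ : H → ℂ) h) → θ' ∈ b)) (e : ℕ) (he : H.relIndex T = e) (n : ℕ) (hn : p ^ n ≤ e ∧ e < p ^ (n + 1)) (c : ℕ) (hc : Nat.card (Subgroup.center D) = p ^ c) : ∀ χ ∈ B, Cfsg.blockHeight p B (χ : G → ℂ) + c ≤ n + d := by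
  haveI := Fintype.ofFinite G
  haveI := hM.2.1
  haveI := charP_KM M hM
  haveI : Fintype H := Fintype.ofFinite _
  have hP : IsPGroup p D := H10.BlockDefect.IsDefectGroup.isPGroup' hBD
  have hPH : D ≤ H := hH ▸ le_sup_left
  have hCH : Ce D ≤ H := hH ▸ le_sup_right
  have hHN : H ≤ Nm D := hH.le.trans (sup_le Subgroup.le_normalizer (Ce_le_Nm D))
  have hb := hind.1
  have hbe := isBlk_ep hb
  have heC : IsBlk (Ce D) (ep M H b) := blk_of_PC hM hP hPH hCH hH.le hbe
  rw [ind_iff hM hP hPH hCH hHN hb hB] at hind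
  have hbp : BP p (epG M B) D (ep M H b) := ⟨hP, isBlk_epG hB, heC, hind⟩
  have hT' : ∀ g, g ∈ T ↔ g ∈ Nm D ∧ cnj g (ep M H b) = ep M H b := by
    intro g
    rw [hT]
    apply and_congr_right
    intro hg
    have hHg : H25.KG.cs g H = H := by
      rw [hH, H25.KG.cs, Subgroup.map_sup]
      change H25.KG.cs g D ⊔ H25.KG.cs g (Ce D) = _
      rw [mem_normalizer_iff_cs.1 hg, cs_Nm_Ce hg]
    have hc : H = H25.KG.cs g H := hHg.symm
    rw [← ep_conj g hc]
    constructor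
    · intro h
      obtain ⟨θ, hθ⟩ := H10.BlockIdem.block_nonempty hb
      have h1 := h θ hθ (H10.BlockEFM.tr (cI g hc).symm θ) (fun x x' hx => by
        have hx' : x' = cI g hc x := Subtype.ext hx
        rw [H10.BlockEFM.tr_apply, hx', MulEquiv.symm_apply_apply])
      rw [H10.BlockIdem.block_eq_of_mem (isPBlock_tB (cI g hc) hb) hb (tr_mem_tB (cI g hc) hθ) h1]
    · intro h θ hθ θ' hθ'
      have h1 := ep_inj (isPBlock_tB (cI g hc) hb) hb h
      rw [← h1]
      exact ⟨θ, hθ, fun x => hθ' x _ rfl⟩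
  have htop : H25.KG.Top p D (ep M H b) := top_of_dgh ((defectG_iff hM hB).1 hBD) hbp
  intro χ hχ
  have h1 := H25.CenSec3.height_bound hM hB hbp htop (H := H) (T := T) hH.le
    (fun g hg => (hT' g).2 hg) hχ
  rw [hc, hDd, he, ← pow_add] at h1
  have h2 : p ^ (c + Cfsg.blockHeight p B (χ : G → ℂ)) < p ^ (d + (n + 1)) := by
    rw [pow_add p d]
    exact lt_of_le_of_lt h1 (Nat.mul_lt_mul_of_pos_left hn.2 (pow_pos (Fact.out : p.Prime).pos _))
  have h3 := (Nat.pow_lt_pow_iff_right (Fact.out : p.Prime).one_lt).1 h2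
  omega

end Cfsg.Agent.S4715
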