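import Cfsg.Statements.S4718
import Cfsg.Agent.H25_Landau
import Cfsg.Agent.H25_BlockReg
import Cfsg.Agent.H10_BlockKer

set_option autoImplicit false
universe u
open Cfsg

namespace Cfsg.Agent.S4718


/-- Let p be a prime and a a natural number. There is a bound N such that every finite group whose Sylow p-subgroups have order p^a and whose only p-block (relative to a maximal ideal of the algebraic integers containing p) is the principal block has order at most N. -/
theorem result (p : ℕ) [Fact p.Prime] (a : ℕ) : ∃ N : ℕ, ∀ (G : Type u) [Group G] [Finite G] (M : Ideal Cfsg.AlgInt), Cfsg.IsPModular p M → (Nat.card G).factorization p = a → (∀ B : Set (Cfsg.IrrCharacter G), Cfsg.IsPBlock M B → B = Cfsg.principalBlock M G) → Nat.card G ≤ N := by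
  obtain ⟨N, hN⟩ := H25.Landau.landau.{u} (p ^ (2 * a) + 4)
  refine ⟨N, fun G _ _ M hM ha hall => hN G ?_⟩
  classical
  haveI : Fintype G := Fintype.ofFinite G
  haveI := hM.2.1
  haveI : Fintype (IrrCharacter G) := Fintype.ofFinite _
  rw [← H3.CharComplete.card_irr]
  have h1 : principalBlock M G = Set.univ := by
    ext χ
    refine ⟨fun _ => Set.mem_univ _, fun _ => ?_⟩
    rw [← hall _ (H10.BlockIdem.isPBlock_blockOf χ)]
    exact H10.BlockIdem.mem_blockOf_self χ
  have h2 := H25.BlockReg.feit hM (H10.BlockKer.principal_isPBlock (M := M) (G := G))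
  rw [h1, H25.BlockReg.defect_eq, ha, finsum_mem_univ, finsum_eq_sum_of_fintype] at h2
  have h3 : Nat.card (IrrCharacter G) ≤ ∑ χ : IrrCharacter G,
      p ^ (2 * blockHeight p (Set.univ : Set (IrrCharacter G)) (χ : G → ℂ)) := by
    rw [Nat.card_eq_fintype_card, ← Finset.card_univ, Finset.card_eq_sum_ones]
    exact Finset.sum_le_sum fun χ _ => Nat.one_le_pow _ _ (Fact.out : p.Prime).pos
  have h4 : p ^ (2 * (a - H25.BlockReg.mB p (Set.univ : Set (IrrCharacter G)))) ≤ p ^ (2 * a) :=
    Nat.pow_le_pow_right (Fact.out : p.Prime).pos (by omega)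
  omega

end Cfsg.Agent.S4718
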