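import Cfsg.Statements.S4719
import Mathlib
import Cfsg.Agent.H26_FG
import Cfsg.Agent.S4718
import Cfsg.Agent.H26_One

set_option autoImplicit false
universe u
open Cfsg

namespace Cfsg.Agent.S4719

open Cfsg.Agent.H10.BlockInd Cfsg.Agent.H10.BlockMain Cfsg.Agent.H10.BlockFMT Cfsg.Agent.H10.BlockKer

theorem centralizer_one_block {G : Type u} [Group G] [Finite G] {M : Ideal AlgInt}
    (hM : IsPModular 2 M) (r : ℕ) (A : Subgroup G) (hA : IsPGroup 2 A)
    (hAc : A ≤ Subgroup.centralizer (A : Set G)) (hcard : 2 ^ r ≤ Nat.card A)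
    (hG : ∀ B : Set (IrrCharacter G), IsPBlock M B → B ≠ principalBlock M G → blockDefect 2 B < r)
    (b : Set (IrrCharacter (Subgroup.centralizer (A : Set G)))) (hb : IsPBlock M b) :
    b = principalBlock M _ := by
  classical
  haveI : Fintype G := Fintype.ofFinite G
  haveI : Fintype (Subgroup.centralizer (A : Set G)) := Fintype.ofFinite _
  haveI := hM.2.1
  haveI : Fact (Nat.Prime 2) := ⟨Nat.prime_two⟩
  have hn := Subgroup.centralizer_le_normalizer (A : Set G)
  obtain ⟨B, hB⟩ := exists_inducedBlock A (Subgroup.centralizer (A : Set G)) hM hA hAc le_rfl hn hb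
  obtain ⟨D, hD, hAD⟩ := le_defect_of_induced A (Subgroup.centralizer (A : Set G)) hM hA hAc hn hB
  have h1 : Nat.card D = 2 ^ blockDefect 2 B := card_defectGroup hM hB.2.1 hD
  have h2 : 2 ^ r ≤ 2 ^ blockDefect 2 B := by
    rw [← h1]; exact hcard.trans (Subgroup.card_le_of_le hAD)
  have h3 : r ≤ blockDefect 2 B := (Nat.pow_le_pow_iff_right (by norm_num)).1 h2
  have h4 : B = principalBlock M G := by
    by_contra h
    exact absurd (hG B hB.2.1 h) (by omega)
  rw [h4] at hB
  exact (third_main hM (Subgroup.centralizer (A : Set G)) (b := b) ⟨_, hB⟩).1 hB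

/-- adjoining an involution -/
def adj {G : Type u} [Group G] (B : Subgroup G) (u : G) (hu : u * u = 1)
    (hc : ∀ x ∈ B, u * x = x * u) : Subgroup G where
  carrier := {x | x ∈ B ∨ u * x ∈ B}
  one_mem' := Or.inl B.one_mem
  mul_mem' := by
    rintro x y (hx | hx) (hy | hy)
    · exact Or.inl (B.mul_mem hx hy)
    · refine Or.inr ?_
      have := B.mul_mem hx hy
      rwa [← mul_assoc, ← hc x hx, mul_assoc] at this
    · refine Or.inr ?_
      have := B.mul_mem hx hy
      rwa [mul_assoc] at this
    · refine Or.inl ?_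
      have := B.mul_mem hx hy
      have e : u * x * (u * y) = x * y := by
        have h1 := hc _ hx
        rw [← mul_assoc u u x, hu, one_mul] at h1
        calc u * x * (u * y) = (u * x * u) * y := by group
          _ = x * y := by rw [← h1]
      rwa [e] at this
  inv_mem' := by
    rintro x (hx | hx)
    · exact Or.inl (B.inv_mem hx)
    · refine Or.inr ?_
      have h1 := hc _ hx
      rw [← mul_assoc u u x, hu, one_mul] at h1
      have h2 := B.inv_mem hx
      have e : u * x⁻¹ = (u * x)⁻¹ := by
        have hui : u⁻¹ = u := inv_eq_of_mul_eq_one_left hu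
        have h3 : x = u * x * u := h1
        calc u * x⁻¹ = u * (u * x * u)⁻¹ := by rw [← h3]
          _ = (u * u⁻¹) * x⁻¹ * u⁻¹ := by group
          _ = (u * x)⁻¹ := by group
      rw [e]
      exact h2

theorem adj_card {G : Type u} [Group G] [Finite G] (B : Subgroup G) (u : G) (hu : u * u = 1)
    (hc : ∀ x ∈ B, u * x = x * u) (huB : u ∉ B) :
    Nat.card (adj B u hu hc) = 2 * Nat.card B := by
  classical
  have h1 : ((adj B u hu hc : Subgroup G) : Set G) = (B : Set G) ∪ (fun x => u * x) '' (B : Set G) := by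
    ext x
    constructor
    · rintro (hx | hx)
      · exact Or.inl hx
      · refine Or.inr ⟨u * x, hx, ?_⟩
        change u * (u * x) = x
        rw [← mul_assoc, hu, one_mul]
    · rintro (hx | ⟨y, hy, rfl⟩)
      · exact Or.inl hx
      · refine Or.inr ?_
        change u * (u * y) ∈ B
        rw [← mul_assoc, hu, one_mul]; exact hy
  have h2 : Disjoint (B : Set G) ((fun x => u * x) '' (B : Set G)) := by
    rw [Set.disjoint_left]
    rintro x hx ⟨y, hy, rfl⟩
    apply huB
    have h3 : u * y ∈ B := hx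
    have := B.mul_mem h3 (B.inv_mem hy)
    rwa [mul_inv_cancel_right] at this
  have h3 : ∀ H : Subgroup G, Nat.card H = (H : Set G).ncard := fun H => rfl
  rw [h3, h3, h1, Set.ncard_union_eq h2 (Set.toFinite _) (Set.toFinite _),
    Set.ncard_image_of_injective _ (mul_right_injective u), two_mul]

theorem step (a : ℕ) (i : ℕ) : ∃ N : ℕ, ∀ (G : Type u) [Group G] [Finite G] (M : Ideal AlgInt)
    (r : ℕ) (E B : Subgroup G), IsPModular 2 M → ¬ 2 ^ (a + 1) ∣ Nat.card G →
    (∀ B : Set (IrrCharacter G), IsPBlock M B → B ≠ principalBlock M G → blockDefect 2 B < r) →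
    (∀ x ∈ E, x * x = 1) → Nat.card E = 2 ^ (r + 1) → B ≤ E → Nat.card B * 2 ^ i = 2 ^ r →
    Nat.card (Subgroup.centralizer (B : Set G)) ≤ N := by
  classical
  have hcomm : ∀ (G : Type u) [Group G] (E : Subgroup G), (∀ x ∈ E, x * x = 1) →
      ∀ x ∈ E, ∀ y ∈ E, x * y = y * x := by
    intro G _ E hE x hx y hy
    have h1 := hE _ hx
    have h2 := hE _ hy
    have h3 := hE _ (E.mul_mem hx hy)
    calc x * y = x⁻¹ * (x * x) * (y * y) * y⁻¹ := by group
      _ = x⁻¹ * y⁻¹ := by rw [h1, h2]; group
      _ = x⁻¹ * y⁻¹ := rfl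
      _ = (y * x)⁻¹ := by group
      _ = y * x := inv_eq_of_mul_eq_one_left (hE _ (E.mul_mem hy hx))
  have hfac : ∀ (G : Type u) [Group G] [Finite G] (H : Subgroup G),
      ¬ 2 ^ (a + 1) ∣ Nat.card G → ¬ 2 ^ (a + 1) ∣ Nat.card H := fun G _ _ H h h' =>
    h (h'.trans (Subgroup.card_subgroup_dvd_card H))
  induction i with
  | zero =>
    haveI : Fact (Nat.Prime 2) := ⟨Nat.prime_two⟩
    have h1 := fun a' : ℕ => S4718.result.{u} 2 a'
    choose N hN using h1
    refine ⟨∑ a' ∈ Finset.range (a + 1), N a', fun G _ _ M r E B hM ha hG hE hEc hBE hBc => ?_⟩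
    rw [pow_zero, mul_one] at hBc
    have hBab : B ≤ Subgroup.centralizer (B : Set G) := by
      intro x hx
      rw [Subgroup.mem_centralizer_iff]
      intro y hy
      exact hcomm G E hE y (hBE hy) x (hBE hx)
    have hBp : IsPGroup 2 B := IsPGroup.of_card hBc
    have h2 := hN ((Nat.card (Subgroup.centralizer (B : Set G))).factorization 2)
      (Subgroup.centralizer (B : Set G)) M hM rfl
      (centralizer_one_block hM r B hBp hBab hBc.ge hG)
    have h3 : (Nat.card (Subgroup.centralizer (B : Set G))).factorization 2 ≤ a := by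
      by_contra h
      push Not at h
      exact hfac G _ ha ((Nat.Prime.pow_dvd_iff_le_factorization Nat.prime_two Nat.card_pos.ne').2 h)
    exact h2.trans (Finset.single_le_sum (f := N) (fun _ _ => Nat.zero_le _)
      (Finset.mem_range.2 (by omega)))
  | succ i ih =>
    obtain ⟨c, hc⟩ := ih
    obtain ⟨N, hN⟩ := H26.FG.main.{u} c a
    refine ⟨N, fun G _ _ M r E B hM ha hG hE hEc hBE hBc => ?_⟩
    have hlt : Nat.card B < Nat.card E := by
      rw [hEc, pow_succ, ← hBc, pow_succ]
      have h1 : 0 < Nat.card B := Nat.card_pos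
      have h2 : 0 < 2 ^ i := by positivity
      nlinarith
    obtain ⟨u, huE, huB⟩ : ∃ u ∈ E, u ∉ B := by
      by_contra h
      push Not at h
      exact absurd (Subgroup.card_le_of_le (show E ≤ B from h)) (by omega)
    have huc : ∀ x ∈ B, u * x = x * u := fun x hx => hcomm G E hE u huE x (hBE hx)
    have hle : ∀ (w : G) (hw : w ∈ E) (hwc : ∀ x ∈ B, w * x = x * w), adj B w (hE w hw) hwc ≤ E := by
      rintro w hw hwc x (hx | hx)
      · exact hBE hx
      · have := E.mul_mem hw (hBE hx)
        rwa [← mul_assoc, hE w hw, one_mul] at this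
    have hlt2 : Nat.card (adj B u (hE u huE) huc) < Nat.card E := by
      rw [adj_card B u _ _ huB, hEc, pow_succ, ← hBc, pow_succ]
      have h1 : 0 < Nat.card B := Nat.card_pos
      have h2 : 0 < 2 ^ i := by positivity
      nlinarith
    obtain ⟨v, hvE, hvB⟩ : ∃ v ∈ E, v ∉ adj B u (hE u huE) huc := by
      by_contra h
      push Not at h
      exact absurd (Subgroup.card_le_of_le (show E ≤ adj B u (hE u huE) huc from h)) (by omega)
    have hvB1 : v ∉ B := fun h => hvB (Or.inl h)
    have huvB : u * v ∉ B := fun h => hvB (Or.inr h)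
    have hmemC : ∀ x ∈ E, x ∈ Subgroup.centralizer (B : Set G) := by
      intro x hx
      rw [Subgroup.mem_centralizer_iff]
      intro y hy
      exact hcomm G E hE y (hBE hy) x hx
    have hcen : ∀ (w : G) (hw : w ∈ E), w ∉ B → Nat.card (Subgroup.centralizer
        {(⟨w, hmemC w hw⟩ : Subgroup.centralizer (B : Set G))}) ≤ c := by
      intro w hw hwB
      have hwc : ∀ x ∈ B, w * x = x * w := fun x hx => hcomm G E hE w hw x (hBE hx)
      have h1 := hc G M r E (adj B w (hE w hw) hwc) hM ha hG hE hEc (hle w hw hwc) (by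
        rw [adj_card B w _ _ hwB, ← hBc, pow_succ]; ring)
      refine le_trans ?_ h1
      have h2 : ∀ x : (Subgroup.centralizer
        {(⟨w, hmemC w hw⟩ : Subgroup.centralizer (B : Set G))}),
          ((x : Subgroup.centralizer (B : Set G)) : G) ∈
            Subgroup.centralizer ((adj B w (hE w hw) hwc : Subgroup G) : Set G) := by
        rintro ⟨⟨x, hx⟩, hx2⟩
        rw [Subgroup.mem_centralizer_singleton_iff] at hx2
        have hx3 : x * w = w * x := congrArg Subtype.val hx2
        rw [Subgroup.mem_centralizer_iff] at hx ⊢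
        rintro y (hy | hy)
        · exact hx y hy
        · have h3 := hx _ hy
          have h4 : y = w * (w * y) := by rw [← mul_assoc, hE w hw, one_mul]
          change y * x = x * y
          rw [h4, mul_assoc w (w * y) x, h3, ← mul_assoc, ← hx3, mul_assoc]
      refine Nat.card_le_card_of_injective (fun x => (⟨_, h2 x⟩ :
        Subgroup.centralizer ((adj B w (hE w hw) hwc : Subgroup G) : Set G))) ?_
      intro x y hxy
      exact Subtype.ext (Subtype.ext (Subtype.mk.inj hxy))
    refine hN (Subgroup.centralizer (B : Set G)) ⟨u, hmemC u huE⟩ ⟨v, hmemC v hvE⟩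
      ⟨Subtype.ext (hE u huE), Subtype.ext (hE v hvE), Subtype.ext (hcomm G E hE u huE v hvE),
        ?_, ?_, ?_, hcen u huE huB, hcen v hvE hvB1, hcen (u * v) (E.mul_mem huE hvE) huvB⟩
      (hfac G _ ha)
    · intro h
      have h1 : u = 1 := congrArg Subtype.val h
      exact huB (by rw [h1]; exact B.one_mem)
    · intro h
      have h1 : v = 1 := congrArg Subtype.val h
      exact hvB1 (by rw [h1]; exact B.one_mem)
    · intro h
      have h1 : u * v = 1 := congrArg Subtype.val h
      exact huvB (by rw [h1]; exact B.one_mem)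


/-- For every natural number a there is a bound N with the following property. Let G be a finite group with Sylow 2-subgroups of order 2^a and r ≥ 0 such that G has no non-principal 2-block (relative to a maximal ideal of the algebraic integers containing 2) of defect ≥ r, and suppose a Sylow 2-subgroup of G contains an elementary abelian subgroup of order 2^(r+1). Then the order of G is at most N. -/
theorem result (a : ℕ) : ∃ N : ℕ, ∀ (G : Type u) [Group G] [Finite G] (M : Ideal Cfsg.AlgInt) (r : ℕ) (P : Sylow 2 G), Cfsg.IsPModular 2 M → Nat.card P = 2 ^ a → (∀ B : Set (Cfsg.IrrCharacter G), Cfsg.IsPBlock M B → B ≠ Cfsg.principalBlock M G → Cfsg.blockDefect 2 B < r) → (∃ E : Subgroup G, E ≤ (P : Subgroup G) ∧ IsMulCommutative E ∧ (∀ x ∈ E, x * x = 1) ∧ Nat.card E = 2 ^ (r + 1)) → Nat.card G ≤ N := by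
  classical
  haveI : Fact (Nat.Prime 2) := ⟨Nat.prime_two⟩
  have h := fun i : ℕ => step.{u} a i
  choose N hN using h
  refine ⟨∑ i ∈ Finset.range (a + 1), N i, fun G _ _ M r P hM hP hG hex => ?_⟩
  obtain ⟨E, hEP, -, hE, hEc⟩ := hex
  have hr : r ≤ a := by
    have h1 := Subgroup.card_le_of_le hEP
    have h2 : Nat.card (P : Subgroup G) = 2 ^ a := hP
    rw [hEc, h2] at h1
    have := (Nat.pow_le_pow_iff_right (by norm_num)).1 h1
    omega
  have ha : ¬ 2 ^ (a + 1) ∣ Nat.card G := by
    intro h1
    have h2 : Nat.card P = 2 ^ (Nat.card G).factorization 2 := P.card_eq_multiplicity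
    rw [hP] at h2
    have h3 := Nat.pow_right_injective (le_refl 2) h2
    have h4 := (Nat.Prime.pow_dvd_iff_le_factorization Nat.prime_two Nat.card_pos.ne').1 h1
    change a = (Nat.card G).factorization 2 at h3
    omega
  have h1 := hN r G M r E ⊥ hM ha hG hE hEc bot_le (by rw [Subgroup.card_bot, one_mul])
  have h2 : Subgroup.centralizer ((⊥ : Subgroup G) : Set G) = ⊤ := by
    rw [Subgroup.eq_top_iff']
    intro x
    rw [Subgroup.mem_centralizer_iff]
    intro y hy
    rw [SetLike.mem_coe, Subgroup.mem_bot] at hy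
    rw [hy, one_mul, mul_one]
  rw [h2, Subgroup.card_top] at h1
  exact h1.trans (Finset.single_le_sum (f := N) (fun _ _ => Nat.zero_le _)
      (Finset.mem_range.2 (by omega)))

end Cfsg.Agent.S4719
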