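import Cfsg.Statements.S4720
import Mathlib
import Cfsg.Agent.H26_PBSum

set_option autoImplicit false
open Cfsg

namespace Cfsg.Agent.S4720

open Cfsg Cfsg.Agent.H3.CharIrr Cfsg.Agent.H3.CharComplete Cfsg.Agent.H3.CharInd Cfsg.Agent.H26.Basic Cfsg.Agent.H26.BP Cfsg.Agent.H26.PBSum Cfsg.Agent.H10.BlockLoc Cfsg.Agent.H10.BlockIdem Cfsg.Agent.H10.BlockKer Cfsg.Agent.H10.BlockOrth Cfsg.Agent.H10.BlockSMT2

/-- Let p be a prime, M a maximal ideal of the algebraic integers containing p, P a p-subgroup of the finite group G, N a subgroup with P ≤ N ≤ N_G(P), and U a nonempty subset of P normalized by N such that an element of U and an element of P that are conjugate in G are already conjugate in N, and such that λ(C_G(y)) = w·#C_N(y) for every y ∈ U with one rational number w, where λ(X) denotes the sum of the squares of the degrees of the irreducible characters in the principal p-block of X. For a complex function θ on P and χ in the principal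 block of G put a_χ(θ) = #P⁻¹ Σ_{y ∈ P} χ(y) θ(y⁻¹). Then for generalized characters θ, η of P with θ vanishing outside U, Σ_χ a_χ(θ)·conj(a_χ(η)) = (w/#P²)·Σ_{y ∈ P} θ(y)·conj(Σ_{x ∈ N} η(x y x⁻¹)) (η extended by zero off P; the conjugates lie in P), the first sum over the principal p-block of G. -/
theorem result {G : Type*} [Group G] [Finite G] (p : ℕ) [Fact p.Prime] (M : Ideal Cfsg.AlgInt) (hM : Cfsg.IsPModular p M) (P : Subgroup G) (hP : IsPGroup p P) (N : Subgroup G) (hPN : P ≤ N) (hNN : N ≤ Subgroup.normalizer (P : Set G)) (U : Set G) (hUne : U.Nonempty) (hUP : U ⊆ (P : Set G)) (hUN : ∀ n ∈ N, ∀ u ∈ U, n * u * n⁻¹ ∈ U) (hfus : ∀ u ∈ U, ∀ g : G, g * u * g⁻¹ ∈ (P : Set G) → ∃ n ∈ N, n * u * n⁻¹ = g * u * g⁻¹) (w : ℚ) (hw : ∀ y ∈ U, ((∑ᶠ ψ ∈ Cfsg.principalBlock M ↥(Subgroup.centralizer ({y} : Set G)), Cfsg.charDegree (ψ : ↥(Subgroup.centralizer ({y} : Set G)) → ℂ) ^ 2) : ℚ) = w * Nat.card ↥(N ⊓ Subgroup.centralizer ({y} : Set G)))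 (θ η : ↥P → ℂ) (hθ : Cfsg.IsGeneralizedCharacter ↥P θ) (hη : Cfsg.IsGeneralizedCharacter ↥P η) (hθU : ∀ y : ↥P, (y : G) ∉ U → θ y = 0) : ∑ᶠ χ ∈ Cfsg.principalBlock M G, ((Nat.card ↥P : ℂ)⁻¹ * ∑ᶠ y : ↥P, (χ : G → ℂ) (y : G) * θ y⁻¹) * (starRingEnd ℂ) ((Nat.card ↥P : ℂ)⁻¹ * ∑ᶠ y : ↥P, (χ : G → ℂ) (y : G) * η y⁻¹) = ((w : ℂ) / ((Nat.card ↥P : ℂ) ^ 2)) * ∑ᶠ y : ↥P, θ y * (starRingEnd ℂ) (∑ᶠ x : ↥N, Cfsg.extendByZero P η ((x : G) * (y : G) * (x : G)⁻¹)) := by
  classical
  haveI := Fintype.ofFinite G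
  haveI : Fintype P := Fintype.ofFinite P
  haveI : Fintype N := Fintype.ofFinite N
  haveI : Fintype (IrrCharacter G) := Fintype.ofFinite _
  haveI := hM.2.1
  have hp : p.Prime := Fact.out
  have hBP : IsPBlock M (principalBlock M G) := principal_isPBlock
  have hpel : ∀ y ∈ P, ∃ k : ℕ, orderOf y = p ^ k := by
    intro y hy
    obtain ⟨k, hk⟩ := (IsPGroup.iff_orderOf.1 hP) ⟨y, hy⟩
    exact ⟨k, by rw [← hk]; exact (Subgroup.orderOf_mk y hy).symm⟩
  -- block sums
  have hS : ∀ y ∈ U, ∀ z ∈ P, ∑ χ : IrrCharacter G, (if χ ∈ principalBlock M G then (starRingEnd ℂ) ((χ : G → ℂ) y) * (χ : G → ℂ) z else 0) =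
      if IsConj y z then (w : ℂ) * (Nat.card ↥(N ⊓ Subgroup.centralizer ({y} : Set G)) : ℂ) else 0 := by
    intro y hy z hz
    split_ifs with hc
    · haveI : Fintype (IrrCharacter (Subgroup.centralizer ({y} : Set G))) := Fintype.ofFinite _
      have h1 := sum_sq_principal hM (hpel y (hUP hy))
      have h2 : ∑ χ : IrrCharacter G, (if χ ∈ principalBlock M G then (starRingEnd ℂ) ((χ : G → ℂ) y) * (χ : G → ℂ) z else 0) =
          ∑ χ : IrrCharacter G, (if χ ∈ principalBlock M G then (χ : G → ℂ) y * (starRingEnd ℂ) ((χ : G → ℂ) y) else 0) := by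
        refine Finset.sum_congr rfl fun χ _ => ?_
        rw [IsClass.eq_of_isConj (IsIrr.isClass χ.2) hc, mul_comm]
      rw [h2, h1]
      have h3 := hw y hy
      rw [finsum_mem_irr] at h3
      have h4 := congrArg (fun q : ℚ => (q : ℂ)) h3
      push_cast at h4
      rw [← h4]
      refine Finset.sum_congr rfl fun ψ _ => ?_
      split_ifs
      · rw [← cd_eq]; push_cast; rfl
      · simp
    · have h1 := block_orth hM (isPPart_self hp (hpel z hz)) (isPPart_self hp (hpel y (hUP hy))) (fun h => hc h.symm) hBP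
      refine (Finset.sum_congr rfl fun χ _ => ?_).trans h1
      rw [inv_eq, mul_comm]
  -- counting
  have hcount : ∀ y ∈ U, ∀ z : P, ((Finset.univ.filter (fun x : N => (x : G) * y * (x : G)⁻¹ = (z : G))).card : ℂ) =
      if IsConj y (z : G) then (Nat.card ↥(N ⊓ Subgroup.centralizer ({y} : Set G)) : ℂ) else 0 := by
    intro y hy z
    split_ifs with hc
    · obtain ⟨g, hg⟩ := isConj_iff.1 hc
      obtain ⟨n, hn, hnz⟩ := hfus y hy g (by rw [hg]; exact z.2)
      rw [hg] at hnz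
      norm_cast
      rw [← Fintype.card_subtype, ← Nat.card_eq_fintype_card]
      apply Nat.card_congr
      refine ⟨fun x => ⟨n⁻¹ * (x.1 : G), ?_, ?_⟩, fun c => ⟨⟨n * (c : G), N.mul_mem hn c.2.1⟩, ?_⟩, fun x => ?_, fun c => ?_⟩
      · exact N.mul_mem (N.inv_mem hn) x.1.2
      · show n⁻¹ * (x.1 : G) ∈ Subgroup.centralizer ({y} : Set G)
        rw [Subgroup.mem_centralizer_iff]
        intro y' hy'
        rw [Set.mem_singleton_iff.1 hy']
        have h2 : n⁻¹ * (x.1 : G) * y = y * (n⁻¹ * (x.1 : G)) := by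
          have h3 : (x.1 : G) * y * (x.1 : G)⁻¹ = n * y * n⁻¹ := x.2.trans hnz.symm
          have h4 : (x.1 : G) * y = n * y * n⁻¹ * (x.1 : G) := by rw [← h3]; group
          rw [mul_assoc, h4]; group
        exact h2.symm
      · have h1 := c.2.2
        have h2 : y * (c : G) = (c : G) * y := Subgroup.mem_centralizer_iff.1 h1 y (Set.mem_singleton y)
        show n * (c : G) * y * (n * (c : G))⁻¹ = (z : G)
        rw [← hnz]
        have h3 : n * (c : G) * y * (n * (c : G))⁻¹ = n * ((c : G) * y) * (c : G)⁻¹ * n⁻¹ := by group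
        rw [h3, ← h2]; group
      · apply Subtype.ext; apply Subtype.ext
        show n * (n⁻¹ * (x.1 : G)) = _
        group
      · apply Subtype.ext
        show n⁻¹ * (n * (c : G)) = _
        group
    · rw [Nat.cast_eq_zero, Finset.card_eq_zero, Finset.filter_eq_empty_iff]
      intro x _ hx
      exact hc (isConj_iff.2 ⟨_, hx⟩)
  have hext : ∀ y ∈ U, ∑ x : N, extendByZero P η ((x : G) * y * (x : G)⁻¹) = ∑ z : P, η z * (if IsConj y (z : G) then (Nat.card ↥(N ⊓ Subgroup.centralizer ({y} : Set G)) : ℂ) else 0) := by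
    intro y hy
    have h1 : ∀ x : N, extendByZero P η ((x : G) * y * (x : G)⁻¹) = ∑ z : P, η z * (if (x : G) * y * (x : G)⁻¹ = (z : G) then (1:ℂ) else 0) := by
      intro x
      have hx : (x : G) * y * (x : G)⁻¹ ∈ P := (Subgroup.mem_normalizer_iff.1 (hNN x.2) y).1 (hUP hy)
      rw [ext_mem P η hx, Finset.sum_eq_single ⟨_, hx⟩]
      · rw [if_pos rfl, mul_one]
      · intro z _ hz
        rw [if_neg, mul_zero]
        intro h
        exact hz (Subtype.ext h.symm)
      · intro h; exact absurd (Finset.mem_univ _) h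
    simp_rw [h1]
    rw [Finset.sum_comm]
    refine Finset.sum_congr rfl fun z _ => ?_
    rw [← Finset.mul_sum, ← hcount y hy z, Finset.card_filter]
    push_cast
    rfl
  -- inverse values
  have hinvg : ∀ ξ : ↥P → ℂ, IsGeneralizedCharacter ↥P ξ → ∀ χ : IrrCharacter G, ∑ᶠ y : ↥P, (χ : G → ℂ) (y : G) * ξ y⁻¹ = ∑ y : ↥P, (starRingEnd ℂ) ((χ : G → ℂ) (y : G)) * ξ y := by
    intro ξ _ χ
    rw [finsum_eq_sum_of_fintype, ← Equiv.sum_comp (Equiv.inv P)]
    refine Finset.sum_congr rfl fun y _ => ?_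
    show (χ : G → ℂ) ((y⁻¹ : P) : G) * ξ (y⁻¹)⁻¹ = _
    rw [inv_inv, Subgroup.coe_inv, inv_eq]
  rw [finsum_mem_irr]
  have hL : ∀ χ : IrrCharacter G, (if χ ∈ principalBlock M G then ((Nat.card ↥P : ℂ)⁻¹ * ∑ᶠ y : ↥P, (χ : G → ℂ) (y : G) * θ y⁻¹) * (starRingEnd ℂ) ((Nat.card ↥P : ℂ)⁻¹ * ∑ᶠ y : ↥P, (χ : G → ℂ) (y : G) * η y⁻¹) else 0) =
      ∑ y : P, ∑ z : P, ((Nat.card ↥P : ℂ)⁻¹ ^ 2 * θ y * (starRingEnd ℂ) (η z)) * (if χ ∈ principalBlock M G then (starRingEnd ℂ) ((χ : G → ℂ) y) * (χ : G → ℂ) z else 0) := by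
    intro χ
    split_ifs
    · rw [hinvg θ hθ, hinvg η hη, map_mul, map_inv₀, map_natCast, map_sum, Finset.mul_sum, Finset.mul_sum, Finset.sum_mul_sum]
      refine Finset.sum_congr rfl fun y _ => Finset.sum_congr rfl fun z _ => ?_
      rw [map_mul, Complex.conj_conj]; ring
    · simp
  simp_rw [hL]
  rw [Finset.sum_comm]
  simp_rw [Finset.sum_comm (s := (Finset.univ : Finset (IrrCharacter G)))]
  rw [finsum_eq_sum_of_fintype, Finset.mul_sum]
  refine Finset.sum_congr rfl fun y _ => ?_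
  by_cases hy : (y : G) ∈ U
  · rw [finsum_eq_sum_of_fintype, hext (y : G) hy, map_sum]
    simp_rw [← Finset.mul_sum]
    rw [Finset.mul_sum, Finset.mul_sum]
    refine Finset.sum_congr rfl fun z _ => ?_
    rw [hS y hy z z.2, map_mul]
    split_ifs
    · rw [map_natCast]; ring
    · rw [map_zero]; ring
  · rw [hθU y hy]; simp

end Cfsg.Agent.S4720
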