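import Cfsg.Statements.S4721
import Mathlib
import Cfsg.Agent.H26_ExA

set_option autoImplicit false
open Cfsg

namespace Cfsg.Agent.S4721

open Cfsg.Agent.H26.Ex3 Cfsg.Agent.H26.Ex2 Cfsg.Agent.H26.Basic Cfsg.Agent.H10.BlockKer Cfsg.Agent.H10.BlockIdem

/-- Let p be a prime, M a maximal ideal of the algebraic integers containing p, and G a finite group with a nontrivial abelian Sylow p-subgroup P, N = N_G(P), C = C_G(P), such that N/C is cyclic of order 3, #P > 4, and C_G(y) ∩ N = C for every non-identity y ∈ P. Then the principal p-block is the disjoint union of a set X of exactly 3 characters containing the principal character and a set Y of (#P − 1)/3 characters, with signs a_χ = ±1 (χ ∈ X, a = 1 at the principal character) and δ = ±1 such that every χ ∈ X takes the value a_χ at every element whose p-part is a non-identity element of P, and there is a map ζ from the non-principal linear characters of P onto Y, constant on N-conjugacy classes,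 with ζ_ψ(z) = δ·Σ ψ'(y) over the N-orbit of ψ, for z with p-part y ≠ 1 in P. If moreover G has an involution lying in no proper normal subgroup of G, then exactly two of the three numbers −δ and a_χ (χ ∈ X non-principal) equal −1, and the product of the degrees of the two non-principal members of X and of any member of Y is a perfect square. -/
theorem result {G : Type*} [Group G] [Finite G] (p : ℕ) [Fact p.Prime] (M : Ideal Cfsg.AlgInt) (hM : Cfsg.IsPModular p M) (P : Sylow p G) (hab : IsMulCommutative P) (hP1 : Nat.card P ≠ 1) (hCN : (Subgroup.centralizer ((P : Subgroup G) : Set G)).relIndex (Subgroup.normalizer ((P : Subgroup G) : Set G)) = 3) (hcyc : ∃ g : G, g ∈ Subgroup.normalizer ((P : Subgroup G) : Set G) ∧ Subgroup.centralizer ((P : Subgroup G) : Set G) ⊔ Subgroup.zpowers g = Subgroup.normalizer ((P : Subgroup G) : Set G)) (hm2 : 3 + 1 < Nat.card P) (hfrob : ∀ y : G, y ∈ (P : Subgroup G) → y ≠ 1 → Subgroup.centralizer ({y} : Set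 G) ⊓ Subgroup.normalizer ((P : Subgroup G) : Set G) = Subgroup.centralizer ((P : Subgroup G) : Set G)) : ∃ (X Y : Set (Cfsg.IrrCharacter G)), Cfsg.principalBlock M G = X ∪ Y ∧ Disjoint X Y ∧ Nat.card X = 3 ∧ Nat.card Y = (Nat.card P - 1) / 3 ∧ (∃ χ₁ ∈ X, (χ₁ : G → ℂ) = fun _ => 1) ∧ ∃ (a : Cfsg.IrrCharacter G → ℤ) (δ : ℤ) (ζ : (↥(P : Subgroup G) →* ℂˣ) → Cfsg.IrrCharacter G), (δ = 1 ∨ δ = -1) ∧ (∀ χ ∈ X, (a χ = 1 ∨ a χ = -1) ∧ ∀ z y : G, Cfsg.IsPPart p z y → y ∈ (P : Subgroup G) → y ≠ 1 → (χ : G → ℂ) z = (a χ : ℂ)) ∧ (∀ ψ : ↥(P : Subgroup G) →* ℂˣ, ψ ≠ 1 → ζ ψ ∈ Y) ∧ (∀ η ∈ Y, ∃ ψ : ↥(P : Subgroup G) →* ℂˣ, ψ ≠ 1 ∧ ζ ψ = η) ∧ (∀ ψ ψ' : ↥(P : Subgroup G) →* ℂˣ, ψ ≠ 1 → (∃ n : G, n ∈ Subgroup.normalizer ((P : Subgroup G) : Set G) ∧ ∀ w w' : ↥(P : Subgroup G), (w' : G) = n * w * n⁻¹ → ψ' w' = ψ w) → ζ ψ' = ζ ψ) ∧ (∀ ψ : ↥(P : Subgroup G) →* ℂˣ, ψ ≠ 1 → ∀ (z : G) (y : ↥(P : Subgroup G)), Cfsg.IsPPart p z (y : G) → (y : G) ≠ 1 → (ζ ψ : G → ℂ)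 z = (δ : ℂ) * ∑ᶠ ψ' ∈ {ψ' : ↥(P : Subgroup G) →* ℂˣ | ∃ n : G, n ∈ Subgroup.normalizer ((P : Subgroup G) : Set G) ∧ ∀ w w' : ↥(P : Subgroup G), (w' : G) = n * w * n⁻¹ → ψ' w' = ψ w}, ((ψ' y : ℂˣ) : ℂ)) ∧ ((∃ t : G, orderOf t = 2 ∧ ∀ K : Subgroup G, K.Normal → t ∈ K → K = ⊤) → Nat.card {χ : Cfsg.IrrCharacter G // χ ∈ X ∧ (χ : G → ℂ) ≠ (fun _ => 1) ∧ a χ = -1} + (if δ = 1 then 1 else 0) = 2 ∧ ∀ η ∈ Y, IsSquare (Cfsg.charDegree (η : G → ℂ) * ∏ᶠ χ ∈ {χ : Cfsg.IrrCharacter G | χ ∈ X ∧ (χ : G → ℂ) ≠ fun _ => 1}, Cfsg.charDegree (χ : G → ℂ))) := by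
  classical
  haveI := Fintype.ofFinite G
  haveI : Fintype (IrrCharacter G) := Fintype.ofFinite _
  haveI := hM.2.1
  have hab' : ∀ x ∈ (P : Subgroup G), ∀ z ∈ (P : Subgroup G), x * z = z * x := fun x hx z hz =>
    congrArg Subtype.val (hab.is_comm.comm (⟨x, hx⟩ : P) ⟨z, hz⟩)
  obtain ⟨a, D, hN, ⟨g, hgN, hga⟩, hsec⟩ := setup hM P hab' hCN hm2 hfrob
  obtain ⟨X2, X3, a2, a3, δ, z, O⟩ := core D
  have htr : (triv G : IrrCharacter G) ∈ principalBlock M G := triv_mem
  have hfn : ∀ χ : IrrCharacter G, ((χ : G → ℂ) = fun _ => 1) ↔ χ = triv G := by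
    intro χ
    constructor
    · intro h
      apply Subtype.ext
      rw [h]; funext g; exact (triv_coe g).symm
    · rintro rfl
      funext g; exact triv_coe g
  -- the relation
  have hrel : ∀ ψ ψ' : ↥(P : Subgroup G) →* ℂˣ, (∃ n : G, n ∈ Subgroup.normalizer ((P : Subgroup G) : Set G) ∧
      ∀ w w' : ↥(P : Subgroup G), (w' : G) = n * w * n⁻¹ → ψ' w' = ψ w) ↔ R a ψ ψ' := by
    intro ψ ψ'
    constructor
    · rintro ⟨n, hn, h⟩
      rcases hN n hn with h1 | h1 | h1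
      · left
        ext w
        rw [h w w (h1 w).symm]
      · right; left
        ext w
        rw [MonoidHom.comp_apply, h w (a w) (h1 w).symm]
      · right; right
        ext w
        rw [MonoidHom.comp_apply, MonoidHom.comp_apply, h w (a (a w)) (h1 w).symm]
    · rintro (h | h | h)
      · refine ⟨1, Subgroup.one_mem _, fun w w' hw => ?_⟩
        have : w' = w := Subtype.ext (by rw [hw]; group)
        rw [this, h]
      · refine ⟨g, hgN, fun w w' hw => ?_⟩
        have : w' = a w := Subtype.ext (by rw [hw, hga])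
        rw [this, ← h]; rfl
      · refine ⟨g * g, Subgroup.mul_mem _ hgN hgN, fun w w' hw => ?_⟩
        have : w' = a (a w) := Subtype.ext (by rw [hw, ← hga, ← hga]; group)
        rw [this, ← h]; rfl
  have hset : ∀ ψ : ↥(P : Subgroup G) →* ℂˣ, {ψ' : ↥(P : Subgroup G) →* ℂˣ | ∃ n : G,
      n ∈ Subgroup.normalizer ((P : Subgroup G) : Set G) ∧
      ∀ w w' : ↥(P : Subgroup G), (w' : G) = n * w * n⁻¹ → ψ' w' = ψ w} = ↑(cls a ψ) := by
    intro ψ
    ext ψ'
    rw [Set.mem_setOf_eq, hrel, Finset.mem_coe, mem_cls D]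
  have hX : ∀ χ : IrrCharacter G, χ ∈ ({triv G, X2, X3} : Set (IrrCharacter G)) ↔
      χ = triv G ∨ χ = X2 ∨ χ = X3 := fun χ => by
    rw [Set.mem_insert_iff, Set.mem_insert_iff, Set.mem_singleton_iff]
  obtain ⟨ψ0, hψ0⟩ := exists_hom_ne D
  refine ⟨{triv G, X2, X3}, {χ | ∃ ψ, ψ ≠ 1 ∧ χ = z ψ}, ?_, ?_, ?_, ?_, ⟨triv G, (hX _).2 (Or.inl rfl),
    (hfn _).2 rfl⟩, fun χ => if χ = X2 then a2 else if χ = X3 then a3 else 1, δ, z, O.sd, ?_, ?_, ?_,
    ?_, ?_, ?_⟩
  · ext χ
    rw [Set.mem_union, hX, Set.mem_setOf_eq]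
    constructor
    · intro h
      rcases O.complete D h with h1 | h1 | h1 | h1
      · exact Or.inl (Or.inl h1)
      · exact Or.inl (Or.inr (Or.inl h1))
      · exact Or.inl (Or.inr (Or.inr h1))
      · exact Or.inr h1
    · rintro ((h | h | h) | ⟨ψ, hψ, h⟩)
      · rw [h]; exact htr
      · rw [h]; exact O.m2.1
      · rw [h]; exact O.m3.1
      · rw [h]; exact (O.mz ψ hψ).1
  · rw [Set.disjoint_left]
    rintro χ h ⟨ψ, hψ, h'⟩
    have hm := O.mz ψ hψ
    rcases (hX χ).1 h with h1 | h1 | h1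
    · exact hm.2.1 (h'.symm.trans h1)
    · exact hm.2.2.1 (h'.symm.trans h1)
    · exact hm.2.2.2 (h'.symm.trans h1)
  · have h1 : ({triv G, X2, X3} : Set (IrrCharacter G)) = (({triv G, X2, X3} : Finset (IrrCharacter G)) : Set (IrrCharacter G)) := by
      simp
    change Set.ncard ({triv G, X2, X3} : Set (IrrCharacter G)) = 3
    rw [h1, Set.ncard_coe_finset, Finset.card_insert_of_notMem, Finset.card_insert_of_notMem,
      Finset.card_singleton]
    · rw [Finset.mem_singleton]; exact O.ne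
    · rw [Finset.mem_insert, Finset.mem_singleton]
      rintro (h | h)
      · exact O.m2.2 h.symm
      · exact O.m3.2 h.symm
  · have h1 := O.card_Y D
    change Set.ncard {χ : IrrCharacter G | ∃ ψ, ψ ≠ 1 ∧ χ = z ψ} = (Nat.card P - 1) / 3
    have h2 : Nat.card (P : Subgroup G) = Nat.card P := rfl
    omega
  · intro χ hχ
    rcases (hX χ).1 hχ with h | h | h
    · have n2 : χ ≠ X2 := by rw [h]; exact O.m2.2.symm
      have n3 : χ ≠ X3 := by rw [h]; exact O.m3.2.symm
      simp only [if_neg n2, if_neg n3]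
      refine ⟨by simp, fun z y _ _ _ => ?_⟩
      rw [h, triv_coe]; norm_num
    · simp only [if_pos h]
      refine ⟨O.s2, fun z y hz hy hy1 => ?_⟩
      rw [h, hsec ⟨y, hy⟩ (fun h => hy1 (congrArg Subtype.val h)) z hz X2 O.m2.1]
      exact O.val2 D (fun h => hy1 (congrArg Subtype.val h))
    · have n2 : χ ≠ X2 := by rw [h]; exact O.ne.symm
      simp only [if_neg n2, if_pos h]
      refine ⟨O.s3, fun z y hz hy hy1 => ?_⟩
      rw [h, hsec ⟨y, hy⟩ (fun h => hy1 (congrArg Subtype.val h)) z hz X3 O.m3.1]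
      exact O.val3 D (fun h => hy1 (congrArg Subtype.val h))
  · intro ψ hψ
    exact ⟨ψ, hψ, rfl⟩
  · rintro η ⟨ψ, hψ, rfl⟩
    exact ⟨ψ, hψ, rfl⟩
  · intro ψ ψ' hψ h
    have hR := (hrel ψ ψ').1 h
    exact ((O.inj ψ ψ' hψ (cls_ne_one D hψ hR)).2 hR).symm
  · intro ψ hψ w y hw hy
    have hy1 : y ≠ 1 := fun h => hy (by rw [h]; rfl)
    rw [hsec y hy1 w hw (z ψ) (O.mz ψ hψ).1, O.valz D hψ hy1, hset ψ, finsum_mem_coe_finset]
  · rintro ⟨t, ht, htop⟩
    by_cases hp2 : p = 2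
    · exfalso
      subst hp2
      have ht2 : IsPGroup 2 (Subgroup.zpowers t) := IsPGroup.of_card (n := 1) (by
        rw [Nat.card_zpowers, ht, pow_one])
      obtain ⟨Q, hQ⟩ := ht2.exists_le_sylow
      obtain ⟨c, hc⟩ := MulAction.exists_smul_eq G Q P
      have htP : c * t * c⁻¹ ∈ (P : Subgroup G) := by
        rw [← hc, Sylow.coe_subgroup_smul]
        exact Subgroup.smul_mem_pointwise_smul _ (MulAut.conj c) _ (hQ (Subgroup.mem_zpowers t))
      refine two_false D O (fun y hy => loc P y.2 hab' (hfrob y y.2 (fun h => hy (Subtype.ext h))))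
        ⟨c * t * c⁻¹, htP⟩ ?_ ?_
      · change orderOf (c * t * c⁻¹) = 2
        rw [← ht]
        exact orderOf_injective (MulAut.conj c).toMonoidHom (MulAut.conj c).injective t
      · intro K hK hK2
        apply htop K hK
        have h1 := hK.conj_mem _ hK2 c⁻¹
        have e : c⁻¹ * (c * t * c⁻¹) * c⁻¹⁻¹ = t := by group
        rwa [e] at h1
    · have hset2 : {χ : IrrCharacter G | χ ∈ ({triv G, X2, X3} : Set (IrrCharacter G)) ∧
          (χ : G → ℂ) ≠ fun _ => 1} = {X2, X3} := by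
        ext χ
        rw [Set.mem_setOf_eq, hX, Ne, hfn, Set.mem_insert_iff, Set.mem_singleton_iff]
        constructor
        · rintro ⟨h | h | h, h'⟩
          · exact absurd h h'
          · exact Or.inl h
          · exact Or.inr h
        · rintro (h | h)
          · exact ⟨Or.inr (Or.inl h), by rw [h]; exact O.m2.2⟩
          · exact ⟨Or.inr (Or.inr h), by rw [h]; exact O.m3.2⟩
      constructor
      · have hsgn := (odd_main D O hp2 ht htop hψ0).1
        have hcard : Nat.card {χ : IrrCharacter G // χ ∈ ({triv G, X2, X3} : Set (IrrCharacter G)) ∧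
            (χ : G → ℂ) ≠ (fun _ => 1) ∧ (if χ = X2 then a2 else if χ = X3 then a3 else 1) = -1} =
            Set.ncard {χ : IrrCharacter G | (χ = X2 ∧ a2 = -1) ∨ (χ = X3 ∧ a3 = -1)} := by
          have e : {χ : IrrCharacter G | χ ∈ ({triv G, X2, X3} : Set (IrrCharacter G)) ∧
            (χ : G → ℂ) ≠ (fun _ => 1) ∧ (if χ = X2 then a2 else if χ = X3 then a3 else 1) = -1} =
            {χ : IrrCharacter G | (χ = X2 ∧ a2 = -1) ∨ (χ = X3 ∧ a3 = -1)} := by
            ext χ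
            have h5 : χ ∈ ({triv G, X2, X3} : Set (IrrCharacter G)) ∧ (χ : G → ℂ) ≠ (fun _ => 1) ↔
                χ = X2 ∨ χ = X3 := by
              have := Set.ext_iff.1 hset2 χ
              rw [Set.mem_setOf_eq] at this
              rw [this, Set.mem_insert_iff, Set.mem_singleton_iff]
            rw [Set.mem_setOf_eq, Set.mem_setOf_eq, ← and_assoc, h5]
            constructor
            · rintro ⟨h | h, h'⟩
              · rw [if_pos h] at h'; exact Or.inl ⟨h, h'⟩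
              · rw [if_neg (by rw [h]; exact O.ne.symm), if_pos h] at h'; exact Or.inr ⟨h, h'⟩
            · rintro (⟨h, h'⟩ | ⟨h, h'⟩)
              · exact ⟨Or.inl h, by rw [if_pos h]; exact h'⟩
              · exact ⟨Or.inr h, by rw [if_neg (by rw [h]; exact O.ne.symm), if_pos h]; exact h'⟩
          rw [← e]; rfl
        rw [hcard]
        rcases hsgn with ⟨h1, h2, h3⟩ | ⟨h1, h2, h3⟩ | ⟨h1, h2, h3⟩
        · have e : {χ : IrrCharacter G | (χ = X2 ∧ a2 = -1) ∨ (χ = X3 ∧ a3 = -1)} = {X2, X3} := by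
            ext χ; simp [h1, h2]
          rw [e, Set.ncard_pair O.ne, if_neg (by rw [h3]; norm_num)]
        · have e : {χ : IrrCharacter G | (χ = X2 ∧ a2 = -1) ∨ (χ = X3 ∧ a3 = -1)} = {X2} := by
            ext χ; simp [h1, h2]
          rw [e, Set.ncard_singleton, if_pos h3]
        · have e : {χ : IrrCharacter G | (χ = X2 ∧ a2 = -1) ∨ (χ = X3 ∧ a3 = -1)} = {X3} := by
            ext χ; simp [h1, h2]
          rw [e, Set.ncard_singleton, if_pos h3]
      · rintro η ⟨ψ, hψ, rfl⟩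
        have h1 := (odd_main D O hp2 ht htop hψ).2
        rw [hset2, finprod_mem_pair O.ne]
        exact h1

end Cfsg.Agent.S4721
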