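import Cfsg.Statements.S4722
import Mathlib
import Cfsg.Agent.H26_BP
import Cfsg.Agent.H10_BlockKer
import Cfsg.Agent.H10_PPart
import Cfsg.Agent.H10_BlockSMT2
import Cfsg.Agent.H3_CharCalc
import Cfsg.Agent.H26_Kernel

set_option autoImplicit false
open Cfsg

namespace Cfsg.Agent.S4722

open Cfsg Cfsg.Agent.H3.CharIrr Cfsg.Agent.H3.CharComplete Cfsg.Agent.H3.CharInd Cfsg.Agent.H26.Basic Cfsg.Agent.H26.BP Cfsg.Agent.H10.BlockLoc Cfsg.Agent.H10.BlockIdem Cfsg.Agent.H10.BlockKer Cfsg.Agent.H10.BlockOrth Cfsg.Agent.H10.BlockSMT2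

theorem ppart_inv {G : Type*} [Group G] {p : ℕ} {g x : G} (h : IsPPart p g x) : IsPPart p g⁻¹ x⁻¹ := by
  obtain ⟨y, hy, hc, hk, hn⟩ := h
  refine ⟨y⁻¹, ?_, hc.inv_inv, by simpa using hk, by simpa using hn⟩
  rw [← hy, hc.eq, mul_inv_rev]

/-- if `h = t₁ t₂` is a product of two involutions then `t₁` inverts the `p`-part of `h` -/
theorem inverts {G : Type*} [Group G] [Finite G] {p : ℕ} [Fact p.Prime] {h z t₁ t₂ : G} (h1 : t₁ * t₁ = 1) (h2 : t₂ * t₂ = 1)
    (hh : t₁ * t₂ = h) (hz : IsPPart p h z) : t₁ * z * t₁⁻¹ = z⁻¹ := by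
  have e1 : t₁⁻¹ = t₁ := by rw [inv_eq_iff_mul_eq_one]; exact h1
  have e2 : t₂⁻¹ = t₂ := by rw [inv_eq_iff_mul_eq_one]; exact h2
  have e3 : t₁ * h * t₁⁻¹ = h⁻¹ := by
    rw [← hh, mul_inv_rev, e1, e2]
    have : t₁ * (t₁ * t₂) * t₁ = (t₁ * t₁) * t₂ * t₁ := by group
    rw [this, h1, one_mul]
  have h3 := Cfsg.Agent.H10.PPart.conj_ppart hz t₁
  rw [e3] at h3
  exact Cfsg.Agent.H10.PPart.ppart_unique h3 (ppart_inv hz)

/-- Let M be a maximal ideal of the algebraic integers containing 2, P a 2-subgroup of the finite group G, U a subset of P, and t an involution of G such that no element of U is inverted by any conjugate of t. Let θ be a generalized character of P vanishing outside U, and for χ in the principal 2-block B₀ put a_χ = #P⁻¹ Σ_{y ∈ P} χ(y) θ(y⁻¹). Then Σ_{χ ∈ B₀} a_χ χ(t)^2/χ(1) = 0, Σ_{χ ∈ B₀} a_χ χ(1) = 0 and Σ_{χ ∈ B₀} a_χ χ(t) = 0. If moreover #P⁻¹ Σ_{y ∈ P} θ(y) ≠ 0, then either at least two of the a_χ have positive real part and at least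 two have negative real part, or G has a proper normal subgroup containing O_2'(G) and t. -/
theorem result {G : Type*} [Group G] [Finite G] (M : Ideal Cfsg.AlgInt) (hM : Cfsg.IsPModular 2 M) (P : Subgroup G) (hP : IsPGroup 2 P) (U : Set G) (hUP : U ⊆ (P : Set G)) (t : G) (ht : orderOf t = 2) (hinv : ∀ u ∈ U, ∀ g : G, (g * t * g⁻¹) * u * (g * t * g⁻¹)⁻¹ ≠ u⁻¹) (θ : ↥P → ℂ) (hθ : Cfsg.IsGeneralizedCharacter ↥P θ) (hθU : ∀ y : ↥P, (y : G) ∉ U → θ y = 0) : (∑ᶠ χ ∈ Cfsg.principalBlock M G, ((Nat.card ↥P : ℂ)⁻¹ * ∑ᶠ y : ↥P, (χ : G → ℂ) (y : G) * θ y⁻¹) * (χ : G → ℂ) t ^ 2 / (χ : G → ℂ) 1 = 0) ∧ (∑ᶠ χ ∈ Cfsg.principalBlock M G, ((Nat.card ↥P : ℂ)⁻¹ * ∑ᶠ y : ↥P, (χ : G → ℂ) (y : G) * θ y⁻¹) * (χ : G → ℂ) 1 = 0) ∧ (∑ᶠ χ ∈ Cfsg.principalBlock M G, ((Nat.card ↥P : ℂ)⁻¹ * ∑ᶠ y : ↥P, (χ : G → ℂ) (y : G) * θ y⁻¹) * (χ : G → ℂ) t = 0) ∧ ((Nat.card ↥P : ℂ)⁻¹ * ∑ᶠ y : ↥P, θ y ≠ 0 → (2 ≤ Nat.card {χ : Cfsg.IrrCharacter G // χ ∈ Cfsg.principalBlock M G ∧ 0 < (((Nat.card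 ↥P : ℂ)⁻¹ * ∑ᶠ y : ↥P, (χ : G → ℂ) (y : G) * θ y⁻¹)).re} ∧ 2 ≤ Nat.card {χ : Cfsg.IrrCharacter G // χ ∈ Cfsg.principalBlock M G ∧ (((Nat.card ↥P : ℂ)⁻¹ * ∑ᶠ y : ↥P, (χ : G → ℂ) (y : G) * θ y⁻¹)).re < 0}) ∨ ∃ K : Subgroup G, K.Normal ∧ K ≠ ⊤ ∧ Cfsg.pPrimeCore 2 G ≤ K ∧ t ∈ K) := by
  classical
  haveI := Fintype.ofFinite G
  haveI : Fintype P := Fintype.ofFinite P
  haveI : Fintype (IrrCharacter G) := Fintype.ofFinite _
  haveI := hM.2.1
  haveI : Fact (Nat.Prime 2) := ⟨Nat.prime_two⟩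
  have hBP : IsPBlock M (principalBlock M G) := principal_isPBlock
  have htt : t * t = 1 := by rw [← sq, ← ht, pow_orderOf_eq_one]
  have htinv : t⁻¹ = t := by rw [inv_eq_iff_mul_eq_one]; exact htt
  have ht1 : t ≠ 1 := by rintro rfl; rw [orderOf_one] at ht; omega
  set c : IrrCharacter G → ℂ := fun χ => ((Nat.card ↥P : ℂ)⁻¹ * ∑ᶠ y : ↥P, (χ : G → ℂ) (y : G) * θ y⁻¹) with hc
  have hcsum : ∀ χ : IrrCharacter G, c χ = (Nat.card ↥P : ℂ)⁻¹ * ∑ y : ↥P, (χ : G → ℂ) (y : G) * θ y⁻¹ := by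
    intro χ; rw [hc]; dsimp only; rw [finsum_eq_sum_of_fintype]
  -- inverse of θ
  have hθinv : ∀ y : P, θ y⁻¹ = (starRingEnd ℂ) (θ y) := by
    obtain ⟨a, b, ha, hb, rfl⟩ := hθ
    intro y
    rw [Pi.sub_apply, Pi.sub_apply, IsChar.inv_eq_conj ha, IsChar.inv_eq_conj hb, map_sub]
  have hcint : ∀ χ : IrrCharacter G, ∃ n : ℤ, c χ = n := by
    intro χ
    obtain ⟨n, hn⟩ := ci_gen_int (IsGen.of_char (IsChar.res (IsIrr.isCharacter χ.2) P)) hθ
    refine ⟨n, ?_⟩
    rw [← hn, hcsum, classInner]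
    congr 1
    exact Finset.sum_congr rfl fun y _ => by rw [hθinv]
  choose n hn using hcint
  -- properties of the support
  have hsupp : ∀ y : P, θ y⁻¹ ≠ 0 → ((y : G)⁻¹) ∈ U := by
    intro y hy
    by_contra h
    exact hy (hθU y⁻¹ (by simpa using h))
  -- if F vanishes on inverses of elements of U then the sum vanishes
  have hgen : ∀ F : IrrCharacter G → ℂ, (∀ y : G, y⁻¹ ∈ U → ∑ χ : IrrCharacter G, (if χ ∈ principalBlock M G then (χ : G → ℂ) y * F χ else 0) = 0) →
      ∑ χ : IrrCharacter G, (if χ ∈ principalBlock M G then c χ * F χ else 0) = 0 := by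
    intro F hF
    have h1 : ∀ χ : IrrCharacter G, (if χ ∈ principalBlock M G then c χ * F χ else 0) =
        ∑ y : P, (Nat.card ↥P : ℂ)⁻¹ * θ y⁻¹ * (if χ ∈ principalBlock M G then (χ : G → ℂ) (y : G) * F χ else 0) := by
      intro χ
      split_ifs
      · rw [hcsum, Finset.mul_sum, Finset.sum_mul]
        exact Finset.sum_congr rfl fun y _ => by ring
      · simp
    simp_rw [h1]
    rw [Finset.sum_comm]
    apply Finset.sum_eq_zero
    intro y _
    rw [← Finset.mul_sum]
    by_cases h2 : θ y⁻¹ = 0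
    · rw [h2]; simp
    · rw [hF (y : G) (hsupp y h2), mul_zero]
  have hpel : ∀ y : G, y⁻¹ ∈ U → ∃ k : ℕ, orderOf y = 2 ^ k := by
    intro y hy
    obtain ⟨k, hk⟩ := (IsPGroup.iff_orderOf.1 hP) ⟨y⁻¹, hUP hy⟩
    exact ⟨k, by rw [← orderOf_inv y, ← hk]; exact (Subgroup.orderOf_mk y⁻¹ (hUP hy)).symm⟩
  have hne1 : ∀ y : G, y⁻¹ ∈ U → y ≠ 1 := by
    rintro y hy rfl
    have := hinv _ hy 1
    apply this
    simp
  have hsing : ∀ y : G, y⁻¹ ∈ U → 2 ∣ orderOf y := by
    intro y hy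
    obtain ⟨k, hk⟩ := hpel y hy
    rw [hk]
    apply dvd_pow_self
    rintro rfl
    rw [pow_zero, orderOf_eq_one_iff] at hk
    exact hne1 y hy hk
  -- (2)
  have E2 : ∑ χ : IrrCharacter G, (if χ ∈ principalBlock M G then c χ * (χ : G → ℂ) 1 else 0) = 0 := by
    apply hgen (fun χ => (χ : G → ℂ) 1)
    intro y hy
    exact weak_orth' hM hBP 1 y (by rw [orderOf_one]; norm_num) (hsing y hy)
  -- (3)
  have htp : ∃ k : ℕ, orderOf t = 2 ^ k := ⟨1, by rw [ht]; norm_num⟩
  have E3 : ∑ χ : IrrCharacter G, (if χ ∈ principalBlock M G then c χ * (χ : G → ℂ) t else 0) = 0 := by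
    apply hgen (fun χ => (χ : G → ℂ) t)
    intro y hy
    have h1 := block_orth hM (isPPart_self Nat.prime_two (hpel y hy)) (isPPart_self Nat.prime_two htp) (by
      intro hcj
      obtain ⟨g, hg⟩ := isConj_iff.1 hcj.symm
      apply hinv _ hy g
      have hyy : y * y = 1 := by
        rw [← hg]
        have : g * t * g⁻¹ * (g * t * g⁻¹) = g * (t * t) * g⁻¹ := by group
        rw [this, htt]; group
      have hyi : y⁻¹ = y := by rw [inv_eq_iff_mul_eq_one]; exact hyy
      rw [hg, hyi, hyi, hyy, one_mul]) hBP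
    rw [htinv] at h1
    exact h1
  -- (1)
  have E1 : ∑ χ : IrrCharacter G, (if χ ∈ principalBlock M G then c χ * ((χ : G → ℂ) t ^ 2 / (χ : G → ℂ) 1) else 0) = 0 := by
    apply hgen (fun χ => (χ : G → ℂ) t ^ 2 / (χ : G → ℂ) 1)
    intro y hy
    set f : G → ℂ := ∑ χ : IrrCharacter G, ((χ : G → ℂ) t ^ 2 / (χ : G → ℂ) 1) • (χ : G → ℂ) with hf
    have hfc : IsClassFunction G f := isClass_sum _ _ fun χ _ => isClass_smul _ _ (IsIrr.isClass χ.2)
    have h0 : ∀ u z : G, IsPPart 2 u z → IsConj y z → f u = 0 := by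
      intro u z hu hyz
      have h1 := Cfsg.Agent.H3.CharCalc.class_mult t t u⁻¹
      have h2 : (Finset.univ.filter (fun p : G × G => p.1 * t * p.1⁻¹ * (p.2 * t * p.2⁻¹) = u⁻¹)) = ∅ := by
        rw [Finset.filter_eq_empty_iff]
        rintro ⟨a, b⟩ _ hab
        dsimp only at hab
        have h3 := inverts (p := 2) (z := z⁻¹) (by have : a * t * a⁻¹ * (a * t * a⁻¹) = a * (t * t) * a⁻¹ := by group
                                                   rw [this, htt]; group) (by have : b * t * b⁻¹ * (b * t * b⁻¹) = b * (t * t) * b⁻¹ := by group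
                                                                              rw [this, htt]; group) hab (ppart_inv hu)
        obtain ⟨g, hg⟩ := isConj_iff.1 hyz
        apply hinv _ hy (g⁻¹ * a)
        rw [← hg] at h3
        have h4 : a * t * a⁻¹ * (g * y * g⁻¹)⁻¹ * (a * t * a⁻¹)⁻¹ = (g * y⁻¹ * g⁻¹)⁻¹ := by rw [h3]; group
        have h5 : g⁻¹ * a * t * (g⁻¹ * a)⁻¹ * y⁻¹ * (g⁻¹ * a * t * (g⁻¹ * a)⁻¹)⁻¹ = g⁻¹ * (a * t * a⁻¹ * (g * y * g⁻¹)⁻¹ * (a * t * a⁻¹)⁻¹) * g := by group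
        rw [h5, h4]; group
      rw [h2, Finset.card_empty, Nat.cast_zero] at h1
      have h3 := (mul_eq_zero.1 h1.symm).resolve_left card_cast_ne_zero
      rw [hf, Finset.sum_apply]
      refine (Finset.sum_congr rfl fun χ _ => ?_).trans h3
      rw [Pi.smul_apply, smul_eq_mul, ← inv_eq, inv_inv]
      ring
    have h1 := section_vanish hM hfc (hpel y hy) h0 hBP (isPPart_self Nat.prime_two (hpel y hy)) (IsConj.refl y)
    rw [blockPart_eq_sum] at h1
    refine (Finset.sum_congr rfl fun χ _ => ?_).trans h1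
    rw [hf, ci_sum_irr]
    split_ifs
    · ring
    · rfl
  refine ⟨?_, ?_, ?_, ?_⟩
  · rw [finsum_mem_irr]
    refine (Finset.sum_congr rfl fun χ _ => ?_).trans E1
    split_ifs
    · rw [hc]; ring
    · rfl
  · rw [finsum_mem_irr]; exact E2
  · rw [finsum_mem_irr]; exact E3
  · intro h1
    have htr : (triv G : IrrCharacter G) ∈ principalBlock M G := triv_mem
    have hctriv : c (triv G) ≠ 0 := by
      rw [hcsum]
      have h2 : ∑ y : ↥P, ((triv G : IrrCharacter G) : G → ℂ) (y : G) * θ y⁻¹ = ∑ y : P, θ y := by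
        simp_rw [triv_coe, one_mul]
        exact Equiv.sum_comp (Equiv.inv P) θ
      rw [h2, ← finsum_eq_sum_of_fintype]
      exact h1
    -- real values at t
    have hreal : ∀ χ : IrrCharacter G, ∃ r : ℝ, (χ : G → ℂ) t = r := by
      intro χ
      have h2 := inv_eq χ t
      rw [htinv] at h2
      exact ⟨((χ : G → ℂ) t).re, (Complex.conj_eq_iff_re.1 h2.symm).symm⟩
    choose r hr using hreal
    set d : IrrCharacter G → ℝ := fun χ => (charDegree (χ : G → ℂ) : ℝ) with hd
    have hdc : ∀ χ : IrrCharacter G, (χ : G → ℂ) 1 = (d χ : ℂ) := fun χ => by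
      rw [hd, ← cd_eq]; simp
    have hdpos : ∀ χ : IrrCharacter G, 0 < d χ := fun χ => by
      have := cd_pos χ
      show (0:ℝ) < (charDegree (χ : G → ℂ) : ℝ)
      exact_mod_cast this
    -- the key identity
    have key : ∀ lam : ℝ, ∑ χ : IrrCharacter G, (if χ ∈ principalBlock M G then (n χ : ℝ) * ((r χ + lam * d χ) ^ 2 / d χ) else 0) = 0 := by
      intro lam
      have h2 : (((∑ χ : IrrCharacter G, (if χ ∈ principalBlock M G then (n χ : ℝ) * ((r χ + lam * d χ) ^ 2 / d χ) else 0) : ℝ)) : ℂ) =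
          ∑ χ : IrrCharacter G, (if χ ∈ principalBlock M G then c χ * ((χ : G → ℂ) t ^ 2 / (χ : G → ℂ) 1) else 0) + 2 * lam * ∑ χ : IrrCharacter G, (if χ ∈ principalBlock M G then c χ * (χ : G → ℂ) t else 0) + lam ^ 2 * ∑ χ : IrrCharacter G, (if χ ∈ principalBlock M G then c χ * (χ : G → ℂ) 1 else 0) := by
        rw [Finset.mul_sum, Finset.mul_sum, ← Finset.sum_add_distrib, ← Finset.sum_add_distrib]
        push_cast
        refine Finset.sum_congr rfl fun χ _ => ?_
        split_ifs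
        · rw [hn, hr, hdc]
          have : (d χ : ℂ) ≠ 0 := by exact_mod_cast (hdpos χ).ne'
          push_cast
          field_simp
          ring
        · simp
      rw [E1, E2, E3] at h2
      simp only [mul_zero, add_zero] at h2
      exact_mod_cast h2
    -- kernel
    have hkerK : ∀ χ : IrrCharacter G, χ ∈ principalBlock M G → χ ≠ triv G → r χ = d χ → ∃ K : Subgroup G, K.Normal ∧ K ≠ ⊤ ∧ pPrimeCore 2 G ≤ K ∧ t ∈ K := by
      intro χ hχ hχt hrd
      refine ⟨Cfsg.Agent.H26.Kernel.kerS (χ : G → ℂ) (IsIrr.isCharacter χ.2), Cfsg.Agent.H26.Kernel.kerS_normal _ _, ?_, ?_, ?_⟩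
      · intro htop
        apply hχt
        apply Subtype.ext
        have h2 : (χ : G → ℂ) = fun _ => (χ : G → ℂ) 1 := by
          funext g
          exact (Cfsg.Agent.H26.Kernel.mem_kerS _ g).1 (by rw [htop]; exact Subgroup.mem_top g)
        by_contra hne
        have h3 := ci_irr_ne χ.2 (triv G).2 hne
        rw [classInner] at h3
        have h4 : ∑ g : G, (χ : G → ℂ) g * (starRingEnd ℂ) (((triv G : IrrCharacter G) : G → ℂ) g) = (Nat.card G : ℂ) * (χ : G → ℂ) 1 := by
          simp_rw [triv_coe, map_one, mul_one]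
          rw [h2]
          simp
        rw [h4] at h3
        have h5 := one_ne χ
        have h6 : (Nat.card G : ℂ) ≠ 0 := card_cast_ne_zero
        rw [inv_mul_cancel_left₀ h6] at h3
        exact h5 h3
      · intro g hg
        have h2 : pPrimeCore 2 G ≤ Cfsg.Agent.H26.Kernel.kerS (χ : G → ℂ) (IsIrr.isCharacter χ.2) := by
          apply sSup_le
          rintro N ⟨hN, hcop⟩ u hu
          haveI := hN
          rw [Cfsg.Agent.H26.Kernel.mem_kerS]
          exact principal_ker hM N (by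
            intro h
            rw [Nat.coprime_comm, Nat.Prime.coprime_iff_not_dvd Nat.prime_two] at hcop
            exact hcop h) hχ u hu
        exact h2 hg
      · rw [Cfsg.Agent.H26.Kernel.mem_kerS, hr, hdc, hrd]
    by_contra hcon
    rw [not_or] at hcon
    obtain ⟨hcon1, hcon2⟩ := hcon
    have hrt : r (triv G) = 1 := by
      have h2 := hr (triv G)
      rw [triv_coe] at h2
      exact_mod_cast h2.symm
    have hdt : d (triv G) = 1 := by
      have h2 := hdc (triv G)
      rw [triv_coe] at h2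
      exact_mod_cast h2.symm
    have hnt : (n (triv G) : ℝ) ≠ 0 := by
      intro h2
      apply hctriv
      rw [hn]
      exact_mod_cast h2
    have E2' : ∑ χ : IrrCharacter G, (if χ ∈ principalBlock M G then (n χ : ℝ) * d χ else 0) = 0 := by
      have h2 : (((∑ χ : IrrCharacter G, (if χ ∈ principalBlock M G then (n χ : ℝ) * d χ else 0) : ℝ)) : ℂ) = 0 := by
        refine Eq.trans ?_ E2
        push_cast
        refine Finset.sum_congr rfl fun χ _ => ?_
        rw [hn, hdc]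
        split_ifs
        · push_cast; rfl
        · simp
      exact_mod_cast h2
    have hsgn : ∀ s : ℝ, s ≠ 0 → ¬ (∀ χ ψ : IrrCharacter G, χ ∈ principalBlock M G → ψ ∈ principalBlock M G → 0 < s * n χ → 0 < s * n ψ → χ = ψ) := by
      intro s hs huniq
      by_cases hex : ∃ ψ : IrrCharacter G, ψ ∈ principalBlock M G ∧ 0 < s * n ψ
      · obtain ⟨ψ, hψ, hψ0⟩ := hex
        have h2 := key (- r ψ / d ψ)
        have h3 : ∑ χ : IrrCharacter G, (if χ ∈ principalBlock M G then (- (s * (n χ : ℝ))) * ((r χ + (- r ψ / d ψ) * d χ) ^ 2 / d χ) else 0) = 0 := by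
          have : ∀ χ : IrrCharacter G, (if χ ∈ principalBlock M G then (- (s * (n χ : ℝ))) * ((r χ + (- r ψ / d ψ) * d χ) ^ 2 / d χ) else 0) = (-s) * (if χ ∈ principalBlock M G then (n χ : ℝ) * ((r χ + (- r ψ / d ψ) * d χ) ^ 2 / d χ) else 0) := by
            intro χ
            split_ifs
            · ring
            · ring
          simp_rw [this]
          rw [← Finset.mul_sum, h2, mul_zero]
        have hψz : r ψ + (- r ψ / d ψ) * d ψ = 0 := by
          have := (hdpos ψ).ne'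
          field_simp
          ring
        have h4 : ∀ χ : IrrCharacter G, χ ∈ Finset.univ → 0 ≤ (if χ ∈ principalBlock M G then (- (s * (n χ : ℝ))) * ((r χ + (- r ψ / d ψ) * d χ) ^ 2 / d χ) else 0) := by
          intro χ _
          split_ifs with hχ
          · by_cases hχψ : χ = ψ
            · rw [hχψ, hψz]; simp
            · apply mul_nonneg
              · rw [neg_nonneg]
                by_contra h5
                push Not at h5
                exact hχψ (huniq χ ψ hχ hψ h5 hψ0)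
              · exact div_nonneg (sq_nonneg _) (hdpos χ).le
          · exact le_rfl
        have h5 := (Finset.sum_eq_zero_iff_of_nonneg h4).1 h3
        have h6 : ∀ χ : IrrCharacter G, χ ∈ principalBlock M G → (n χ : ℝ) ≠ 0 → r χ = r ψ / d ψ * d χ := by
          intro χ hχ hχ0
          have h7 := h5 χ (Finset.mem_univ _)
          rw [if_pos hχ] at h7
          have h8 := (mul_eq_zero.1 h7).resolve_left (neg_ne_zero.2 (mul_ne_zero hs hχ0))
          have h9 := (div_eq_zero_iff.1 h8).resolve_right (hdpos χ).ne'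
          have h10 := pow_eq_zero_iff (two_ne_zero) |>.1 h9
          have h11 : r χ = -((- r ψ / d ψ) * d χ) := by linarith
          rw [h11]; ring
        have h7 := h6 (triv G) htr hnt
        rw [hrt, hdt, mul_one] at h7
        by_cases hψt : ψ = triv G
        · -- some other character
          have h8 : ∃ χ : IrrCharacter G, χ ∈ principalBlock M G ∧ χ ≠ triv G ∧ (n χ : ℝ) ≠ 0 := by
            by_contra hno
            push Not at hno
            rw [Finset.sum_eq_single (triv G), if_pos htr, hdt, mul_one] at E2'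
            · exact hnt E2'
            · intro χ _ hχ
              split_ifs with hχB
              · rw [hno χ hχB hχ, zero_mul]
              · rfl
            · intro h; exact absurd (Finset.mem_univ _) h
          obtain ⟨χ, hχ, hχt, hχ0⟩ := h8
          have h9 := h6 χ hχ hχ0
          rw [← h7, one_mul] at h9
          exact hcon2 (hkerK χ hχ hχt h9)
        · apply hcon2
          apply hkerK ψ hψ hψt
          have := (hdpos ψ).ne'
          field_simp at h7
          exact h7.symm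
      · push Not at hex
        have h3 : ∑ χ : IrrCharacter G, (if χ ∈ principalBlock M G then (- (s * (n χ : ℝ))) * d χ else 0) = 0 := by
          have : ∀ χ : IrrCharacter G, (if χ ∈ principalBlock M G then (- (s * (n χ : ℝ))) * d χ else 0) = (-s) * (if χ ∈ principalBlock M G then (n χ : ℝ) * d χ else 0) := by
            intro χ
            split_ifs
            · ring
            · ring
          simp_rw [this]
          rw [← Finset.mul_sum, E2', mul_zero]
        have h4 : ∀ χ : IrrCharacter G, χ ∈ Finset.univ → 0 ≤ (if χ ∈ principalBlock M G then (- (s * (n χ : ℝ))) * d χ else 0) := by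
          intro χ _
          split_ifs with hχ
          · apply mul_nonneg
            · rw [neg_nonneg]; exact hex χ hχ
            · exact (hdpos χ).le
          · exact le_rfl
        have h5 := (Finset.sum_eq_zero_iff_of_nonneg h4).1 h3 (triv G) (Finset.mem_univ _)
        rw [if_pos htr, hdt, mul_one] at h5
        exact (neg_ne_zero.2 (mul_ne_zero hs hnt)) h5
    have hre : ∀ χ : IrrCharacter G, (((Nat.card ↥P : ℂ)⁻¹ * ∑ᶠ y : ↥P, (χ : G → ℂ) (y : G) * θ y⁻¹)).re = n χ := by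
      intro χ
      have h2 : (Nat.card ↥P : ℂ)⁻¹ * ∑ᶠ y : ↥P, (χ : G → ℂ) (y : G) * θ y⁻¹ = n χ := hn χ
      rw [h2, Complex.intCast_re]
    apply hcon1
    constructor
    · by_contra h2
      push Not at h2
      apply hsgn 1 one_ne_zero
      intro χ ψ hχ hψ h3 h4
      have h5 : Subsingleton {χ : IrrCharacter G // χ ∈ principalBlock M G ∧ 0 < (((Nat.card ↥P : ℂ)⁻¹ * ∑ᶠ y : ↥P, (χ : G → ℂ) (y : G) * θ y⁻¹)).re} := by
        rw [← Finite.card_le_one_iff_subsingleton]; omega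
      have h6 := h5.elim ⟨χ, hχ, by rw [hre]; simpa using h3⟩ ⟨ψ, hψ, by rw [hre]; simpa using h4⟩
      exact Subtype.ext_iff.1 h6
    · by_contra h2
      push Not at h2
      apply hsgn (-1) (by norm_num)
      intro χ ψ hχ hψ h3 h4
      have h5 : Subsingleton {χ : IrrCharacter G // χ ∈ principalBlock M G ∧ (((Nat.card ↥P : ℂ)⁻¹ * ∑ᶠ y : ↥P, (χ : G → ℂ) (y : G) * θ y⁻¹)).re < 0} := by
        rw [← Finite.card_le_one_iff_subsingleton]; omega
      have h6 := h5.elim ⟨χ, hχ, by rw [hre]; linarith⟩ ⟨ψ, hψ, by rw [hre]; linarith⟩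
      exact Subtype.ext_iff.1 h6

end Cfsg.Agent.S4722
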