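import Cfsg.Statements.S4723
import Mathlib
import Cfsg.Agent.H26_Stab

set_option autoImplicit false
open Cfsg

namespace Cfsg.Agent.S4723

open Cfsg Cfsg.Agent.H3.CharIrr Cfsg.Agent.H3.CharComplete Cfsg.Agent.H3.CharInd Cfsg.Agent.H26.Basic Cfsg.Agent.H3.Clifford Cfsg.Agent.H10.BlockLoc Cfsg.Agent.H10.BlockAlg Cfsg.Agent.H10.BlockIdem Cfsg.Agent.H10.BlockCov Cfsg.Agent.H10.BlockEFM Cfsg.Agent.H26.Stab

open scoped ComplexConjugate

theorem cd_tr {K L : Type*} [Group K] [Fintype K] [Group L] [Fintype L] (e : K ≃* L) (χ : IrrCharacter L) :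
    charDegree ((tr e χ : IrrCharacter K) : K → ℂ) = charDegree (χ : L → ℂ) := by
  have h1 := cd_eq (tr e χ)
  have h2 := cd_eq χ
  rw [tr_apply, map_one, ← h2] at h1
  exact_mod_cast h1

/-- Let p be a prime, M a maximal ideal of the algebraic integers containing p, H a normal subgroup of the finite group G and b a p-block of H. Let T be the stabilizer of b in G. Then b contains a character θ of height zero whose own stabilizer in G (the elements g with θ(g h g⁻¹) = θ(h) for all h ∈ H) has index prime to p in T, i.e. contains a Sylow p-subgroup of T. -/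
theorem result {G : Type*} [Group G] [Finite G] (p : ℕ) [Fact p.Prime] (M : Ideal Cfsg.AlgInt) (hM : Cfsg.IsPModular p M) (H : Subgroup G) [H.Normal] (b : Set (Cfsg.IrrCharacter ↥H)) (hb : Cfsg.IsPBlock M b) (T : Subgroup G) (hT : (∀ g : G, g ∈ T ↔ ∀ θ ∈ b, ∀ θ' : Cfsg.IrrCharacter ↥H, (∀ h h' : ↥H, (h' : G) = g * h * g⁻¹ → (θ' : ↥H → ℂ) h' = (θ : ↥H → ℂ) h) → θ' ∈ b)) : ∃ θ ∈ b, Cfsg.blockHeight p b (θ : ↥H → ℂ) = 0 ∧ ∃ S : Subgroup G, S ≤ T ∧ (∀ g : G, g ∈ S ↔ (g ∈ T ∧ ∀ h h' : ↥H, (h' : G) = g * h * g⁻¹ → (θ : ↥H → ℂ) h' = (θ : ↥H → ℂ) h)) ∧ ¬ p ∣ S.relIndex T := by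
  classical
  haveI : Fintype G := Fintype.ofFinite G
  haveI := hM.2.1
  have hHn : H.Normal := inferInstance
  have hHT : H ≤ T := by
    intro g hg
    rw [hT]
    intro θ hθ θ' h
    have : θ' = θ := by
      apply Subtype.ext
      funext x
      have h1 := h x (⟨g, hg⟩ * x * (⟨g, hg⟩ : H)⁻¹) rfl
      rw [← h1]
      exact (IsIrr.isClass θ'.2 x ⟨g, hg⟩).symm
    rw [this]; exact hθ
  haveI : Fintype T := Fintype.ofFinite T
  haveI : Fintype H := Fintype.ofFinite H
  haveI : Fintype (H.subgroupOf T) := Fintype.ofFinite _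
  have hN' : (H.subgroupOf T).Normal := hHn.subgroupOf T
  set e : H.subgroupOf T ≃* H := Subgroup.subgroupOfEquivOfLe hHT with he
  have he_coe : ∀ n : H.subgroupOf T, ((e n : H) : G) = ((n : T) : G) := fun _ => rfl
  let b' : Set (IrrCharacter (H.subgroupOf T)) := {θ' | tr e.symm θ' ∈ b}
  obtain ⟨θ₀, hθ₀⟩ := block_nonempty hb
  have hmem' : ∀ θ : IrrCharacter H, θ ∈ b → tr e θ ∈ b' := by
    intro θ hθ
    show tr e.symm (tr e θ) ∈ b
    rw [tr_symm_tr]; exact hθ
  have hb' : IsPBlock M b' := by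
    have h1 : b' = blockOf M ((tr e θ₀ : IrrCharacter (H.subgroupOf T)) : H.subgroupOf T → ℂ) := by
      ext θ'
      rw [mem_blockOf, ← tr_tr_symm e θ', sameBlock_tr_iff]
      show tr e.symm (tr e (tr e.symm θ')) ∈ b ↔ _
      rw [tr_symm_tr, block_eq_blockOf hb hθ₀, mem_blockOf]
    rw [h1]
    exact isPBlock_blockOf _
  have hst : Stable hN' b' := by
    intro t θ' hθ'
    have ht := (hT (t : G)⁻¹).1 (T.inv_mem t.2)
    refine ht (tr e.symm θ') hθ' (tr e.symm (cjI hN' t θ')) ?_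
    intro h h' hh
    rw [tr_apply, tr_apply, cjI_coe, cj_apply]
    refine congrArg (θ' : ↥(H.subgroupOf T) → ℂ) (Subtype.ext (Subtype.ext ?_))
    have h1 : (((e.symm h' : H.subgroupOf T) : T) : G) = (h' : G) := by
      rw [← he_coe, MulEquiv.apply_symm_apply]
    have h2 : (((e.symm h : H.subgroupOf T) : T) : G) = (h : G) := by
      rw [← he_coe, MulEquiv.apply_symm_apply]
    show (t : G) * (((e.symm h' : H.subgroupOf T) : T) : G) * (t : G)⁻¹ = (((e.symm h : H.subgroupOf T) : T) : G)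
    rw [h1, h2, hh]; group
  obtain ⟨θ', hθ', hh, hidx⟩ := stable_case hN' hM hb' hst
  refine ⟨tr e.symm θ', hθ', ?_, (inertia hN' (θ' : _ → ℂ)).map T.subtype, ?_, ?_, ?_⟩
  · rw [blockHeight, cd_tr]
    rw [blockHeight] at hh
    have h1 : ((fun χ : IrrCharacter H => (charDegree (χ : H → ℂ)).factorization p) '' b) =
        ((fun χ : IrrCharacter (H.subgroupOf T) => (charDegree (χ : H.subgroupOf T → ℂ)).factorization p) '' b') := by
      ext k
      constructor
      · rintro ⟨χ, hχ, rfl⟩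
        exact ⟨tr e χ, hmem' χ hχ, by show (charDegree _).factorization p = _; rw [cd_tr]⟩
      · rintro ⟨χ, hχ, rfl⟩
        exact ⟨tr e.symm χ, hχ, by show (charDegree _).factorization p = _; rw [cd_tr]⟩
    rw [h1]
    exact hh
  · exact Subgroup.map_subtype_le _
  · intro g
    have key : ∀ (t : T), t ∈ inertia hN' (θ' : _ → ℂ) ↔ ∀ h h' : H, (h' : G) = (t : G) * h * (t : G)⁻¹ →
        ((tr e.symm θ' : IrrCharacter H) : H → ℂ) h' = ((tr e.symm θ' : IrrCharacter H) : H → ℂ) h := by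
      intro t
      rw [mem_inertia]
      constructor
      · intro h x x' hx
        rw [tr_apply, tr_apply]
        have h3 := congrFun h (e.symm x)
        rw [cj_apply] at h3
        rw [← h3]
        refine congrArg (θ' : ↥(H.subgroupOf T) → ℂ) (Subtype.ext (Subtype.ext ?_))
        have h1 : (((e.symm x' : H.subgroupOf T) : T) : G) = (x' : G) := by
          rw [← he_coe, MulEquiv.apply_symm_apply]
        have h2 : (((e.symm x : H.subgroupOf T) : T) : G) = (x : G) := by
          rw [← he_coe, MulEquiv.apply_symm_apply]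
        show (((e.symm x' : H.subgroupOf T) : T) : G) = (t : G) * (((e.symm x : H.subgroupOf T) : T) : G) * (t : G)⁻¹
        rw [h1, h2, hx]
      · intro h
        funext n
        rw [cj_apply]
        have h3 := h (e n) (e ⟨t * n * t⁻¹, hN'.conj_mem n n.2 t⟩) rfl
        rw [tr_apply, tr_apply, MulEquiv.symm_apply_apply, MulEquiv.symm_apply_apply] at h3
        exact h3
    constructor
    · rintro ⟨t, ht, rfl⟩
      exact ⟨t.2, (key t).1 ht⟩
    · rintro ⟨hgT, h⟩
      exact ⟨⟨g, hgT⟩, (key ⟨g, hgT⟩).2 h, rfl⟩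
  · rw [Subgroup.relIndex, Subgroup.subgroupOf, Subgroup.comap_map_eq_self_of_injective T.subtype_injective]
    exact hidx

end Cfsg.Agent.S4723
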