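import Cfsg.Statements.S4727
import Mathlib
import Cfsg.Agent.H26_PiKer3
import Cfsg.Agent.H10_BlockSMT2
import Cfsg.Agent.H26_BP

set_option autoImplicit false
open Cfsg

namespace Cfsg.Agent.S4727

open Cfsg.Agent.H25.Red Cfsg.Agent.H25.KG Cfsg.Agent.H25.BPTr Cfsg.Agent.H25.BPDef Cfsg.Agent.H25.BPMain Cfsg.Agent.H25.FMT Cfsg.Agent.H26.PiKer Cfsg.Agent.H26.PiKer2 Cfsg.Agent.H26.PiKer3 Cfsg.Agent.H12.Core Cfsg.Agent.H10.BlockSMT2 Cfsg.Agent.H10.BlockAlg Cfsg.Agent.H10.BlockIdem Cfsg.Agent.H3.CharIrr Cfsg.Agent.H10.Char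

/-- Let p be a prime, π a set of primes containing p, M a maximal ideal of the algebraic integers containing p, and B a p-block of the finite group G with defect group D; let B₁ be the block of N_G(D) with defect group D that induces B (the Brauer correspondent of B). Suppose every element of O_π'(N_G(D)), the largest normal subgroup of N_G(D) whose order has no prime divisor in π, lies in the kernel of every member of B₁. If y is a p-element whose centralizer C has a normal Hall π'-subgroup (every element of C whose order has no prime divisor in π lies in O_π'(C)), then χ(y x) = χ(y) for every χ ∈ B and every x ∈ C whose order has no prime divisor in π. -/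
theorem result {G : Type*} [Group G] [Finite G] (p : ℕ) [Fact p.Prime] (M : Ideal Cfsg.AlgInt) (hM : Cfsg.IsPModular p M) (π : Set ℕ) (hpπ : p ∈ π) (B : Set (Cfsg.IrrCharacter G)) (hB : Cfsg.IsPBlock M B) (D : Subgroup G) (hBD : Cfsg.IsDefectGroup p M B D) (B₁ : Set (Cfsg.IrrCharacter ↥(Subgroup.normalizer (D : Set G)))) (hB₁ : Cfsg.IsInducedBlock M (Subgroup.normalizer (D : Set G)) B₁ B) (hB₁D : Cfsg.IsDefectGroup p M B₁ (D.subgroupOf (Subgroup.normalizer (D : Set G)))) (hker : ∀ n : ↥(Subgroup.normalizer (D : Set G)), n ∈ Cfsg.piCore {q | q ∉ π} ↥(Subgroup.normalizer (D : Set G)) → n ∈ Cfsg.blockKer B₁) (y : G) (hy : ∃ k : ℕ, orderOf y = p ^ k) (hC : ∀ x : ↥(Subgroup.centralizer ({y} : Set G)), (∀ q : ℕ, q.Prime → q ∣ orderOf x → q ∉ π) → x ∈ Cfsg.piCore {q | q ∉ π} ↥(Subgroup.centralizer ({y} : Set G))) : ∀ χ ∈ B, ∀ x : G, x ∈ Subgroup.centralizer ({y} : Set G) → (∀ q : ℕ, q.Prime → q ∣ orderOf x → q ∉ π) → (χ : G → ℂ) (y * x) = (χ : G → ℂ) y := by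
  classical
  haveI : Fintype G := Fintype.ofFinite G
  have := hM.2.1
  have := charP_KM M hM
  have hσ : p ∉ {q | q ∉ π} := fun h => h hpπ
  obtain ⟨e, he, ht, hBe⟩ := exists_top_pair hM hB hBD hB₁
  have h1 := (ker_iff' hM hσ hB₁.1).2 hker
  have h2 := (top_iff_corr hM hσ ht.pg (isBlk_ep hB₁.1) ht.blk hBe).2 h1
  intro χ hχ x hxC hx
  haveI : Fintype (Subgroup.centralizer ({y} : Set G)) := Fintype.ofFinite _
  haveI : Fintype (IrrCharacter (Subgroup.centralizer ({y} : Set G))) := Fintype.ofFinite _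
  -- the class function
  let F : Subgroup.centralizer ({y} : Set G) → ℂ := fun c => (χ : G → ℂ) (y * (c : G))
  have hcl : IsClassFunction (Subgroup.centralizer ({y} : Set G)) F := by
    intro c a
    show (χ : G → ℂ) (y * ((a * c * a⁻¹ : Subgroup.centralizer ({y} : Set G)) : G)) = _
    have h1 := Subgroup.mem_centralizer_singleton_iff.1 a.2
    have e : y * ((a * c * a⁻¹ : Subgroup.centralizer ({y} : Set G)) : G) =
        (a : G) * (y * (c : G)) * (a : G)⁻¹ := by
      simp only [Subgroup.coe_mul, Subgroup.coe_inv]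
      calc y * ((a : G) * c * (a : G)⁻¹) = (y * a) * c * (a : G)⁻¹ := by group
        _ = ((a : G) * y) * c * (a : G)⁻¹ := by rw [h1]
        _ = _ := by group
    rw [e]
    exact irr_class χ.2 _ _
  have hsum : ∀ g, F g = ∑ b ∈ blocks (Subgroup.centralizer ({y} : Set G)) M, blockPart b F g := by
    intro g
    have h3 : ∑ b ∈ blocks (Subgroup.centralizer ({y} : Set G)) M, ((eB b : ZC (Subgroup.centralizer ({y} : Set G))) : MonoidAlgebra ℂ (Subgroup.centralizer ({y} : Set G))) = 1 := by
      have := congrArg (fun z : ZC (Subgroup.centralizer ({y} : Set G)) => (z : MonoidAlgebra ℂ (Subgroup.centralizer ({y} : Set G)))) (sum_eB (G := Subgroup.centralizer ({y} : Set G)) (M := M))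
      simpa using this
    rw [Finset.sum_congr rfl fun b _ => blockPart_eq_lin b hcl g, ← map_sum, ← Finset.sum_mul, h3, one_mul, lin_single, one_mul]
  have hxr : ¬ p ∣ orderOf (⟨x, hxC⟩ : Subgroup.centralizer ({y} : Set G)) := by
    rw [Subgroup.orderOf_mk]
    intro hd
    exact hx p Fact.out hd hpπ
  have h1r : ¬ p ∣ orderOf (1 : Subgroup.centralizer ({y} : Set G)) := by
    rw [orderOf_one]; exact fun h => (Fact.out : p.Prime).one_lt.ne' (Nat.dvd_one.1 h)
  have hxO : (⟨x, hxC⟩ : Subgroup.centralizer ({y} : Set G)) ∈ piCore {q | q ∉ π} ↥(Subgroup.centralizer ({y} : Set G)) := by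
    apply hC
    intro q hq hd
    rw [Subgroup.orderOf_mk] at hd
    exact hx q hq hd
  have hz : Subgroup.centralizer (Subgroup.zpowers y : Set G) = Subgroup.centralizer ({y} : Set G) := centralizer_zpowers y
  have key : ∀ b ∈ blocks (Subgroup.centralizer ({y} : Set G)) M, blockPart b F ⟨x, hxC⟩ = blockPart b F 1 := by
    intro b hb
    rw [mem_blocks] at hb
    by_cases hind : IsInducedBlock M (Subgroup.centralizer ({y} : Set G)) b B
    · -- the kernel contains x
      have hP : IsPGroup p (Subgroup.zpowers y) := zpowers_isPGroup hy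
      have hPH := zpowers_le_centralizer y
      have hCH : Ce (Subgroup.zpowers y) ≤ Subgroup.centralizer ({y} : Set G) := hz.le
      have hbb := isBlk_ep (M := M) hb
      have hne : tr (Ce (Subgroup.zpowers y)) (ep M (Subgroup.centralizer ({y} : Set G)) b) ≠ 0 := by
        rw [tr_of_supp (show Supp (Ce (Subgroup.zpowers y)) _ from by rw [Ce, hz]; exact hbb.mem.1)]
        exact hbb.ne
      have h4 := ker_of_ind hM hσ he ht h2 hind hP hPH hCH hne
      have h5 := (ker_iff' hM hσ hb).1 h4 _ hxO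
      rw [Cfsg.Agent.H26.BP.blockPart_eq_sum, Cfsg.Agent.H26.BP.blockPart_eq_sum]
      refine Finset.sum_congr rfl fun ψ _ => ?_
      by_cases hψ : ψ ∈ b
      · rw [if_pos hψ, if_pos hψ, h5 ψ hψ]
      · rw [if_neg hψ, if_neg hψ]
    · rw [brauer_smt hM hy hB hχ hb hind _ hxr, brauer_smt hM hy hB hχ hb hind _ h1r]
  have h6 : F ⟨x, hxC⟩ = F 1 := by
    rw [hsum, hsum 1]
    exact Finset.sum_congr rfl key
  have h7 : F 1 = (χ : G → ℂ) y := by
    show (χ : G → ℂ) (y * ((1 : Subgroup.centralizer ({y} : Set G)) : G)) = _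
    rw [Subgroup.coe_one, mul_one]
  rw [← h7, ← h6]

end Cfsg.Agent.S4727
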