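import Cfsg.Statements.S4728
import Mathlib
import Cfsg.Agent.H26_PiKer3
import Cfsg.Agent.H25_ExtFMT

set_option autoImplicit false
open Cfsg

namespace Cfsg.Agent.S4728

open Cfsg.Agent.H25.Red Cfsg.Agent.H25.KG Cfsg.Agent.H25.BPTr Cfsg.Agent.H25.BPDef Cfsg.Agent.H25.BPMain Cfsg.Agent.H25.FMT Cfsg.Agent.H25.ExtFMT Cfsg.Agent.H26.PiKer Cfsg.Agent.H26.PiKer2 Cfsg.Agent.H26.PiKer3 Cfsg.Agent.H12.Core

/-- Let p be a prime, π a set of primes containing p, M a maximal ideal of the algebraic integers containing p, B a p-block of the finite group G with defect group D, and B₁ the block of N_G(D) with defect group D inducing B. Let D₀ be a p-subgroup, H₀ = D₀·C_G(D₀), and b a block of H₀ inducing B. Write O_π'(X) for the largest normal subgroup of X whose order has no prime divisor in π. Suppose that O_π'(C_G(D₀)) is a normal Hall π'-subgroup of C_G(D₀) (it contains every element of C_G(D₀) whose order has no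 prime divisor in π) and that every element of it lies in the kernel of every member of b. Then every element of O_π'(N_G(D)) lies in the kernel of every member of B₁. -/
theorem result {G : Type*} [Group G] [Finite G] (p : ℕ) [Fact p.Prime] (M : Ideal Cfsg.AlgInt) (hM : Cfsg.IsPModular p M) (π : Set ℕ) (hpπ : p ∈ π) (B : Set (Cfsg.IrrCharacter G)) (hB : Cfsg.IsPBlock M B) (D : Subgroup G) (hBD : Cfsg.IsDefectGroup p M B D) (B₁ : Set (Cfsg.IrrCharacter ↥(Subgroup.normalizer (D : Set G)))) (hB₁ : Cfsg.IsInducedBlock M (Subgroup.normalizer (D : Set G)) B₁ B) (hB₁D : Cfsg.IsDefectGroup p M B₁ (D.subgroupOf (Subgroup.normalizer (D : Set G)))) (D₀ : Subgroup G) (hD₀ : IsPGroup p D₀) (H₀ : Subgroup G) (hH₀ : H₀ = D₀ ⊔ Subgroup.centralizer (D₀ : Set G)) (b : Set (Cfsg.IrrCharacter ↥H₀)) (hb : Cfsg.IsInducedBlock M H₀ b B) (hcompl : ∀ x : ↥(Subgroup.centralizer (D₀ : Set G)), (∀ q : ℕ, q.Prime → q ∣ orderOf x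 → q ∉ π) → x ∈ Cfsg.piCore {q | q ∉ π} ↥(Subgroup.centralizer (D₀ : Set G))) (hkerb : ∀ x : ↥(Subgroup.centralizer (D₀ : Set G)), x ∈ Cfsg.piCore {q | q ∉ π} ↥(Subgroup.centralizer (D₀ : Set G)) → ∀ θ ∈ b, ∀ h : ↥H₀, (h : G) = (x : G) → (θ : ↥H₀ → ℂ) h = (θ : ↥H₀ → ℂ) 1) : ∀ n : ↥(Subgroup.normalizer (D : Set G)), n ∈ Cfsg.piCore {q | q ∉ π} ↥(Subgroup.normalizer (D : Set G)) → n ∈ Cfsg.blockKer B₁ := by
  classical
  haveI : Fintype G := Fintype.ofFinite G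
  have := hM.2.1
  have := charP_KM M hM
  have hσ : p ∉ {q | q ∉ π} := fun h => h hpπ
  obtain ⟨e, he, ht, hBe⟩ := exists_top_pair hM hB hBD hB₁
  have hPH : D₀ ≤ H₀ := hH₀ ▸ le_sup_left
  have hCH : Ce D₀ ≤ H₀ := hH₀ ▸ le_sup_right
  have hHN : H₀ ≤ Nm D₀ := hH₀.le.trans (sup_le Subgroup.le_normalizer (Ce_le_Nm D₀))
  have hbe := isBlk_ep (M := M) hb.1
  have heC : IsBlk (Ce D₀) (ep M H₀ b) := blk_of_PC hM hD₀ hPH hCH hH₀.le hbe
  have hbt := (Cfsg.Agent.H25.IndQ.ind_iff hM hD₀ hPH hCH hHN hb.1 hB).1 hb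
  have hbp : BP p (epG M B) D₀ (ep M H₀ b) := ⟨hD₀, isBlk_epG hB, heC, hbt⟩
  have hker : ep M H₀ b * uN (KM M) (piCoreOf {q | q ∉ π} (Ce D₀)) = ep M H₀ b := by
    rw [ker_iff hM ((piCoreOf_le _ _).trans hCH) (hHN.trans ((norm_le_norm_Ce D₀).trans (normalizer_le_normalizer_piCoreOf _ _)))
      (not_dvd_O hσ _) hb.1]
    intro h hh θ hθ
    obtain ⟨x, hx, hxh⟩ := hh
    exact hkerb x hx θ hθ h hxh.symm
  have hcl : Cl {q | q ∉ π} (Ce D₀) := by
    intro x hx hq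
    refine (mem_O (⟨x, hx⟩ : Ce D₀)).2 (hcompl ⟨x, hx⟩ ?_)
    intro q hqp hd
    rw [Subgroup.orderOf_mk] at hd
    exact hq q hqp hd
  have h2 := top_of_pair hσ he ht hbp hcl hker
  have h1 := (top_iff_corr hM hσ ht.pg (isBlk_ep hB₁.1) ht.blk hBe).1 h2
  exact (ker_iff' hM hσ hB₁.1).1 h1

end Cfsg.Agent.S4728
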