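import Cfsg.Statements.S4729
import Mathlib
import Cfsg.Agent.H26_BP
import Cfsg.Agent.H10_BlockKer
import Cfsg.Agent.H10_PPart

set_option autoImplicit false
open Cfsg

namespace Cfsg.Agent.S4729

open Cfsg Cfsg.Agent.H3.CharIrr Cfsg.Agent.H3.CharComplete Cfsg.Agent.H3.CharInd Cfsg.Agent.H3.CharBasic Cfsg.Agent.H26.Basic Cfsg.Agent.H10.BlockLoc Cfsg.Agent.H10.BlockIdem Cfsg.Agent.H10.BlockKer

theorem mem_isPGroup_of {G : Type*} [Group G] [Finite G] {p : ℕ} [hp : Fact p.Prime] (C : Subgroup G)
    (h : ∀ y ∈ C, ¬ p ∣ orderOf y → y = 1) : IsPGroup p C := by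
  rw [IsPGroup.iff_orderOf]
  rintro ⟨g, hg⟩
  obtain ⟨x, y, hxy, hc, ⟨k, hk⟩, hy⟩ := Cfsg.Agent.H10.PPart.exists_ppart (p := p) g
  have hxg : x ∈ Subgroup.zpowers g := Cfsg.Agent.H10.PPart.ppart_mem_zpowers' ⟨y, hxy, hc, ⟨k, hk⟩, hy⟩
  have hxC : x ∈ C := (Subgroup.zpowers_le.2 hg) hxg
  have hyC : y ∈ C := by
    have : y = x⁻¹ * g := by rw [← hxy]; group
    rw [this]; exact C.mul_mem (C.inv_mem hxC) hg
  have h1 := h y hyC hy
  refine ⟨k, ?_⟩
  rw [Subgroup.orderOf_mk, ← hk, ← hxy, h1, mul_one]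

/-- the determinant of an endomorphism with an eigenbasis -/
theorem det_of_eigenbasis {V : Type*} [AddCommGroup V] [Module ℂ V] {ι : Type*} [Fintype ι] [DecidableEq ι]
    (b : Module.Basis ι ℂ V) (f : Module.End ℂ V) (ζ : ι → ℂ) (h : ∀ i, f (b i) = ζ i • b i) :
    LinearMap.det f = ∏ i, ζ i := by
  rw [← LinearMap.det_toMatrix b]
  have : LinearMap.toMatrix b b f = Matrix.diagonal ζ := by
    ext i j
    rw [LinearMap.toMatrix_apply, h, map_smul, Finsupp.smul_apply, Module.Basis.repr_self, Matrix.diagonal_apply]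
    by_cases hij : i = j
    · subst hij; simp
    · rw [if_neg hij, Finsupp.single_eq_of_ne (by exact hij)]; simp
  rw [this, Matrix.det_diagonal]

theorem geom_zero {z : ℂ} {n : ℕ} (h1 : z ^ n = 1) (h : z ≠ 1) : ∑ k ∈ Finset.range n, z ^ k = 0 := by
  have := mul_geom_sum z n
  rw [h1, sub_self] at this
  exact (mul_eq_zero.1 this).resolve_left (sub_ne_zero.2 h)

/-- Let p be a prime, M a maximal ideal of the algebraic integers containing p, G a finite perfect group and P a Sylow p-subgroup. If the principal p-block of G contains a faithful irreducible character of degree less than 2p, then the centralizer of P is a p-group. -/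
theorem result {G : Type*} [Group G] [Finite G] (p : ℕ) [Fact p.Prime] (M : Ideal Cfsg.AlgInt) (hM : Cfsg.IsPModular p M) (hperf : commutator G = ⊤) (P : Sylow p G) (χ : Cfsg.IrrCharacter G) (hχ : χ ∈ Cfsg.principalBlock M G) (hfaith : ∀ g : G, (χ : G → ℂ) g = (χ : G → ℂ) 1 → g = 1) (hdeg : Cfsg.charDegree (χ : G → ℂ) < 2 * p) : IsPGroup p ↥(Subgroup.centralizer ((P : Subgroup G) : Set G)) := by
  classical
  haveI := Fintype.ofFinite G
  haveI := hM.2.1
  have hp : p.Prime := Fact.out
  have hBP : IsPBlock M (principalBlock M G) := principal_isPBlock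
  apply mem_isPGroup_of
  intro y hy hreg
  set n := orderOf y with hn
  have hn0 : n ≠ 0 := (orderOf_pos y).ne'
  -- values
  have hval : ∀ k : ℕ, MemLocalIdeal M ((χ : G → ℂ) (y ^ k) - (χ : G → ℂ) 1) := by
    intro k
    have h1 := block_sameBlock hBP triv_mem hχ (y ^ k)
    rw [centralChar, centralChar, triv_coe, triv_coe, div_one, mul_one] at h1
    have h2 : ¬ p ∣ (Subgroup.centralizer ({y ^ k} : Set G)).index := by
      intro hd
      have h3 : (P : Subgroup G) ≤ Subgroup.centralizer ({y ^ k} : Set G) := by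
        intro u hu
        rw [Subgroup.mem_centralizer_iff]
        rintro _ rfl
        have h4 : Commute y u := (Subgroup.mem_centralizer_iff.1 hy u hu).symm
        exact h4.pow_left k
      exact P.not_dvd_index (hd.trans (Subgroup.index_dvd_of_le h3))
    set c := (Subgroup.centralizer ({y ^ k} : Set G)).index with hc
    have hc0 : (c : ℂ) ≠ 0 := by
      intro h; apply h2; rw [Nat.cast_eq_zero.1 h]; exact dvd_zero p
    have h5 : (χ : G → ℂ) (y ^ k) - (χ : G → ℂ) 1 = (- (χ : G → ℂ) 1 * (c : ℂ)⁻¹) * ((c : ℂ) - c * (χ : G → ℂ) (y ^ k) / (χ : G → ℂ) 1) := by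
      have := one_ne χ
      field_simp
      ring
    rw [h5]
    apply ideal_mul_left
    · apply ring_mul
      · exact ring_neg (memLocalRing_of_integral hM.2.1.ne_top (integral_val χ _))
      · exact ring_inv_natCast hM h2
    · exact h1
  obtain ⟨m, ρ, hρ, hρχ⟩ := χ.2
  have hχ1 : (χ : G → ℂ) 1 = (Module.finrank ℂ (Fin m → ℂ) : ℂ) := by rw [← hρχ, Representation.char_one]
  obtain ⟨b, ζ, hζ, hζn, hζc⟩ := exists_eigenbasis_rep ρ y n hn0 (pow_orderOf_eq_one y)
  have hdeg' : Module.finrank ℂ (Fin m → ℂ) < 2 * p := by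
    have h1 := cd_eq χ
    rw [hχ1] at h1
    have h2 : charDegree (χ : G → ℂ) = Module.finrank ℂ (Fin m → ℂ) := by exact_mod_cast h1
    rw [← h2]; exact hdeg
  have hζc' : ∀ k : ℕ, (χ : G → ℂ) (y ^ k) = ∑ i, ζ i ^ k := by
    intro k
    have := hζc k
    rw [← hρχ]
    simpa using this
  -- divisibility of multiplicities
  set N : ℂ → ℕ := fun z => (Finset.univ.filter (fun i => ζ i = z)).card with hN
  have hdvd : ∀ i, ζ i ≠ 1 → p ∣ N (ζ i) := by
    intro i hi
    have hz0 : ζ i ≠ 0 := by
      intro h; have := hζn i; rw [h, zero_pow hn0] at this; exact zero_ne_one this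
    have h1 : ∑ k ∈ Finset.range n, (ζ i)⁻¹ ^ k * ∑ j, ζ j ^ k = (n : ℂ) * (N (ζ i) : ℂ) := by
      have h2 : ∀ k, (ζ i)⁻¹ ^ k * ∑ j, ζ j ^ k = ∑ j, (ζ j * (ζ i)⁻¹) ^ k := by
        intro k
        rw [Finset.mul_sum]
        exact Finset.sum_congr rfl fun j _ => by rw [mul_pow, mul_comm]
      simp_rw [h2]
      rw [Finset.sum_comm, hN]
      dsimp only
      rw [Finset.card_filter]
      push_cast
      rw [Finset.mul_sum]
      refine Finset.sum_congr rfl fun j _ => ?_
      split_ifs with h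
      · rw [h, mul_inv_cancel₀ hz0]; simp
      · rw [geom_zero, mul_zero]
        · rw [mul_pow, hζn j, inv_pow, hζn i, inv_one, mul_one]
        · intro h3
          apply h
          rwa [mul_inv_eq_one₀ hz0] at h3
    have h3 : MemLocalIdeal M ((n : ℂ) * (N (ζ i) : ℂ)) := by
      have h4 : (n : ℂ) * (N (ζ i) : ℂ) = ∑ k ∈ Finset.range n, (ζ i)⁻¹ ^ k * ((χ : G → ℂ) (y ^ k) - (χ : G → ℂ) 1) := by
        simp_rw [mul_sub]
        rw [Finset.sum_sub_distrib, ← Finset.sum_mul, geom_zero (by rw [inv_pow, hζn i, inv_one]) (by intro h; exact hi (inv_eq_one.1 h)), zero_mul, sub_zero, ← h1]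
        exact Finset.sum_congr rfl fun k _ => by rw [hζc']
      rw [h4]
      apply ideal_sum
      intro k _
      apply ideal_mul_left
      · apply ring_pow
        apply memLocalRing_of_integral hM.2.1.ne_top
        refine ⟨Polynomial.X ^ n - 1, Polynomial.monic_X_pow_sub_C 1 hn0, ?_⟩
        have : (ζ i)⁻¹ ^ n = 1 := by rw [inv_pow, hζn i, inv_one]
        rw [Polynomial.eval₂_sub, Polynomial.eval₂_X_pow, Polynomial.eval₂_one, this, sub_self]
      · exact hval k
    rw [← Nat.cast_mul, ideal_natCast_iff hM] at h3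
    exact (hp.dvd_mul.1 h3).resolve_left hreg
  -- all eigenvalues are one
  have hall : ∀ i, ζ i = 1 := by
    by_contra hcon
    push Not at hcon
    obtain ⟨i, hi⟩ := hcon
    have hge : ∀ j, ζ j ≠ 1 → p ≤ N (ζ j) := by
      intro j hj
      apply Nat.le_of_dvd _ (hdvd j hj)
      rw [hN]
      exact Finset.card_pos.2 ⟨j, Finset.mem_filter.2 ⟨Finset.mem_univ _, rfl⟩⟩
    have honly : ∀ j, ζ j = 1 ∨ ζ j = ζ i := by
      intro j
      by_contra hcon
      push Not at hcon
      have h1 := hge i hi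
      have h2 := hge j hcon.1
      have h3 : N (ζ i) + N (ζ j) ≤ Module.finrank ℂ (Fin m → ℂ) := by
        rw [hN]
        dsimp only
        rw [← Finset.card_union_of_disjoint]
        · refine (Finset.card_le_univ _).trans ?_
          rw [Fintype.card_fin]
        · rw [Finset.disjoint_left]
          intro k hk hk'
          rw [Finset.mem_filter] at hk hk'
          exact hcon.2 (hk'.2.symm.trans hk.2)
      omega
    have hNi : N (ζ i) = p := by
      have h1 := hge i hi
      have h2 : N (ζ i) ≤ Module.finrank ℂ (Fin m → ℂ) := by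
        rw [hN]
        refine (Finset.card_le_univ _).trans ?_
        rw [Fintype.card_fin]
      obtain ⟨c, hc⟩ := hdvd i hi
      have h3 : c < 2 := by
        by_contra h
        push Not at h
        have : p * 2 ≤ p * c := Nat.mul_le_mul_left p h
        omega
      have h4 : c ≠ 0 := by rintro rfl; rw [mul_zero] at hc; have := hp.pos; omega
      have h5 : c = 1 := by omega
      rw [hc, h5, mul_one]
    -- determinant
    let D : G →* ℂˣ := (Units.map (LinearMap.det : Module.End ℂ (Fin m → ℂ) →* ℂ)).comp (MonoidHom.toHomUnits ρ)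
    have hD : ∀ g, D g = 1 := by
      intro g
      have h1 : commutator G ≤ D.ker := Abelianization.commutator_subset_ker D
      rw [hperf] at h1
      exact h1 (Subgroup.mem_top g)
    have hdet : LinearMap.det (ρ y) = 1 := by
      have := congrArg Units.val (hD y)
      exact this
    rw [det_of_eigenbasis b (ρ y) ζ (fun i => by simpa using hζ 1 i)] at hdet
    have h6 : ∏ j, ζ j = ζ i ^ p := by
      rw [← hNi, hN]
      dsimp only
      rw [← Finset.prod_const, ← Finset.prod_filter_mul_prod_filter_not Finset.univ (fun j => ζ j = ζ i)]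
      rw [Finset.prod_congr rfl (g := fun _ => ζ i) (fun j hj => (Finset.mem_filter.1 hj).2)]
      rw [Finset.prod_eq_one (s := Finset.univ.filter (fun j => ¬ ζ j = ζ i)), mul_one]
      intro j hj
      exact (honly j).resolve_right (Finset.mem_filter.1 hj).2
    rw [h6] at hdet
    have h7 := orderOf_dvd_of_pow_eq_one hdet
    have h8 := orderOf_dvd_of_pow_eq_one (hζn i)
    rcases (Nat.dvd_prime hp).1 h7 with h9 | h9
    · exact hi (orderOf_eq_one_iff.1 h9)
    · rw [h9] at h8; exact hreg h8
  apply hfaith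
  have h1 := hζc' 1
  rw [pow_one] at h1
  rw [h1, hχ1]
  simp [hall]

end Cfsg.Agent.S4729
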