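import Cfsg.Statements.S4730
import Mathlib
import Cfsg.Agent.H26_Kernel
import Cfsg.Agent.H10_BlockMain
import Cfsg.Agent.H3_Burnside

set_option autoImplicit false
open Cfsg

namespace Cfsg.Agent.S4730

open Cfsg.Agent.H26.Kernel Cfsg.Agent.H26.Basic Cfsg.Agent.H3.CharIrr Cfsg.Agent.H3.CharInd Cfsg.Agent.H3.CharComplete Cfsg.Agent.H10.BlockLoc Cfsg.Agent.H10.BlockIdem

/-- Let p be a prime, M a maximal ideal of the algebraic integers containing p, and G a finite group with trivial centre, Sylow p-subgroup P of order p^a and centre Z(P) of order p^b. If χ is a faithful irreducible character of G whose degree is a power of p, then the p-block of χ has defect at most a − b; in particular, if P is abelian then χ lies in a block of defect zero. -/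
theorem result {G : Type*} [Group G] [Finite G] (p : ℕ) [Fact p.Prime] (M : Ideal Cfsg.AlgInt) (hM : Cfsg.IsPModular p M) (hZ : Subgroup.center G = ⊥) (P : Sylow p G) (a b : ℕ) (ha : Nat.card P = p ^ a) (hb : Nat.card (Subgroup.center ↥(P : Subgroup G)) = p ^ b) (χ : Cfsg.IrrCharacter G) (hfaith : ∀ g : G, (χ : G → ℂ) g = (χ : G → ℂ) 1 → g = 1) (n : ℕ) (hdeg : Cfsg.charDegree (χ : G → ℂ) = p ^ n) : Cfsg.blockDefect p (Cfsg.blockOf M (χ : G → ℂ)) ≤ a - b ∧ (IsMulCommutative ↥(P : Subgroup G) → Cfsg.blockDefect p (Cfsg.blockOf M (χ : G → ℂ)) = 0) := by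
  classical
  haveI : Fintype G := Fintype.ofFinite G
  haveI := hM.2.1
  have hp : p.Prime := Fact.out
  have hIP : ∀ z : ℂ, IsIntegral ℤ z → MemLocalRing M z := fun z hz => memLocalRing_of_integral hM.2.1.ne_top hz
  -- the image of Z(P) in G
  let Z : Subgroup G := (Subgroup.center ↥(P : Subgroup G)).map (P : Subgroup G).subtype
  have hZcard : Nat.card Z = p ^ b := by
    rw [← hb]
    exact Nat.card_congr (Subgroup.equivMapOfInjective _ _ (P : Subgroup G).subtype_injective).symm.toEquiv
  have hPcen : ∀ z ∈ Z, (P : Subgroup G) ≤ Subgroup.centralizer ({z} : Set G) := by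
    rintro z ⟨w, hw, rfl⟩ u hu
    rw [Subgroup.mem_centralizer_singleton_iff]
    have := Subgroup.mem_center_iff.1 hw ⟨u, hu⟩
    exact congrArg Subtype.val this
  have hidx : ∀ z ∈ Z, ¬ p ∣ (Subgroup.centralizer ({z} : Set G)).index := by
    intro z hz h
    exact P.not_dvd_index (h.trans (Subgroup.index_dvd_of_le (hPcen z hz)))
  -- chi vanishes on Z \ 1
  have hvan : ∀ z ∈ Z, z ≠ 1 → (χ : G → ℂ) z = 0 := by
    intro z hz hz1
    obtain ⟨m, ρ, hρ, hρχ⟩ := χ.2
    have hfr : Module.finrank ℂ (Fin m → ℂ) = p ^ n := by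
      have h1 : (charDegree (χ : G → ℂ) : ℂ) = (Module.finrank ℂ (Fin m → ℂ) : ℂ) := by
        rw [cd_eq, ← hρχ, Representation.char_one]
      rw [hdeg] at h1
      exact_mod_cast h1.symm
    have hcop : Nat.Coprime (Module.finrank ℂ (Fin m → ℂ)) (Subgroup.centralizer ({z} : Set G)).index := by
      rw [hfr]
      exact Nat.Coprime.pow_left _ ((Nat.Prime.coprime_iff_not_dvd hp).2 (hidx z hz))
    rcases Cfsg.Agent.H3.CharGal.burnside_lemma ρ hρ z hcop with h | h
    · rw [← hρχ]; exact h
    · exfalso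
      apply hz1
      rw [Cfsg.Agent.H3.CharBasic.norm_char_eq_iff] at h
      obtain ⟨c, hc⟩ := h
      have h2 : z ∈ Subgroup.center G := by
        rw [Subgroup.mem_center_iff]
        intro g
        have h3 : (χ : G → ℂ) (g * z * g⁻¹ * z⁻¹) = (χ : G → ℂ) 1 := by
          rw [← hρχ, Representation.character, Representation.character]
          congr 1
          have hz' : ρ z * ρ z⁻¹ = 1 := by rw [← map_mul, mul_inv_cancel, map_one]
          have hg' : ρ g * ρ g⁻¹ = 1 := by rw [← map_mul, mul_inv_cancel, map_one]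
          rw [map_mul, map_mul, map_mul, map_one]
          calc ρ g * ρ z * ρ g⁻¹ * ρ z⁻¹ = ρ g * (c • LinearMap.id) * ρ g⁻¹ * ρ z⁻¹ := by rw [hc]
            _ = (c • LinearMap.id) * (ρ g * ρ g⁻¹) * ρ z⁻¹ := by
                ext v; simp
            _ = ρ z * ρ z⁻¹ := by rw [hg', mul_one, hc]
            _ = 1 := hz'
        have h4 := hfaith _ h3
        rw [mul_inv_eq_one, mul_inv_eq_iff_eq_mul] at h4
        exact h4
      rw [hZ] at h2
      exact Subgroup.mem_bot.1 h2
  -- all members of the block have degree divisible by p^b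
  have hkey : ∀ ψ ∈ blockOf M (χ : G → ℂ), b ≤ (charDegree (ψ : G → ℂ)).factorization p := by
    intro ψ hψ
    haveI : Fintype Z := Fintype.ofFinite Z
    obtain ⟨m, hm⟩ := Cfsg.Agent.H10.BlockMain.sum_char_subgroup (IsIrr.isCharacter ψ.2) Z
    have hψ1 : (charDegree (ψ : G → ℂ) : ℂ) ≠ 0 := by exact_mod_cast (cd_pos ψ).ne'
    -- each value ratio in the ideal
    have h1 : ∀ z ∈ Z, z ≠ 1 → MemLocalIdeal M ((ψ : G → ℂ) z / (charDegree (ψ : G → ℂ) : ℂ)) := by
      intro z hz hz1
      have h2 := hψ z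
      rw [centralChar, hvan z hz hz1, mul_zero, zero_div, zero_sub, centralChar, mul_div_assoc, ← cd_eq] at h2
      have h3 := ideal_neg h2
      rw [neg_neg] at h3
      have h4 : MemLocalRing M (((Subgroup.centralizer ({z} : Set G)).index : ℂ)⁻¹) := ring_inv_natCast hM (hidx z hz)
      have h5 := ideal_mul_left h4 h3
      rwa [inv_mul_cancel_left₀ (by exact_mod_cast Subgroup.index_ne_zero_of_finite)] at h5
    have h2 : (m : ℂ) * (p ^ b : ℕ) / (charDegree (ψ : G → ℂ) : ℂ) = 1 + ∑ z ∈ Finset.univ.erase (1 : Z), (ψ : G → ℂ) (z : G) / (charDegree (ψ : G → ℂ) : ℂ) := by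
      rw [hZcard] at hm
      rw [mul_comm, ← hm, ← Finset.add_sum_erase _ _ (Finset.mem_univ (1 : Z)), add_div, OneMemClass.coe_one, ← cd_eq, div_self hψ1, Finset.sum_div]
    have h3 : ¬ MemLocalIdeal M ((m : ℂ) * (p ^ b : ℕ) / (charDegree (ψ : G → ℂ) : ℂ)) := by
      intro h
      have h4 : MemLocalIdeal M (∑ z ∈ Finset.univ.erase (1 : Z), (ψ : G → ℂ) (z : G) / (charDegree (ψ : G → ℂ) : ℂ)) := by
        apply ideal_sum
        intro z hz
        exact h1 z z.2 (fun h => Finset.ne_of_mem_erase hz (Subtype.ext h))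
      have h5 := ideal_sub h h4
      rw [h2, add_sub_cancel_right] at h5
      exact one_notMem_ideal h5
    by_contra hlt
    push Not at hlt
    apply h3
    rw [mul_div_assoc]
    apply ideal_mul_left (ring_natCast _)
    apply Cfsg.Agent.H10.BlockMain.ideal_nat_div hM (pow_ne_zero _ hp.ne_zero) (cd_pos ψ).ne'
    rw [Nat.Prime.factorization_pow hp, Finsupp.single_eq_same]
    exact hlt
  have hG : (Nat.card G).factorization p = a := by
    have h1 := P.card_eq_multiplicity
    have h2 : p ^ a = p ^ (Nat.card G).factorization p := by rw [← h1, ← ha]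
    exact (Nat.pow_right_injective hp.two_le h2).symm
  have hmain : Cfsg.blockDefect p (Cfsg.blockOf M (χ : G → ℂ)) ≤ a - b := by
    unfold Cfsg.blockDefect
    rw [hG]
    apply Nat.sub_le_sub_left
    have hne : (blockOf M (χ : G → ℂ)).Nonempty := ⟨χ, mem_blockOf_self χ⟩
    obtain ⟨ψ, hψ, h⟩ := Nat.sInf_mem (hne.image (fun ψ : IrrCharacter G => (charDegree (ψ : G → ℂ)).factorization p))
    rw [← h]
    exact hkey ψ hψ
  refine ⟨hmain, fun hcomm => ?_⟩
  have hab : a = b := by
    have h1 : Subgroup.center ↥(P : Subgroup G) = ⊤ := by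
      rw [eq_top_iff]
      intro x _
      rw [Subgroup.mem_center_iff]
      intro y
      exact hcomm.1.1 y x
    rw [h1, Subgroup.card_top] at hb
    have h2 : p ^ a = p ^ b := by rw [← hb, ← ha]
    exact Nat.pow_right_injective hp.two_le h2
  rw [hab, Nat.sub_self] at hmain
  exact Nat.le_zero.1 hmain

end Cfsg.Agent.S4730
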