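import Cfsg.Statements.S4734
import Mathlib
import Cfsg.Agent.H26_PiKer3

set_option autoImplicit false
open Cfsg

namespace Cfsg.Agent.S4734

open Cfsg.Agent.H25.Red Cfsg.Agent.H25.KG Cfsg.Agent.H25.BPTr Cfsg.Agent.H25.BPDef Cfsg.Agent.H25.BPMain Cfsg.Agent.H25.FMT Cfsg.Agent.H26.PiKer Cfsg.Agent.H26.PiKer2 Cfsg.Agent.H26.PiKer3

/-- Let p be a prime, π a set of primes containing p, M a maximal ideal of the algebraic integers containing p, B a p-block of the finite group G with defect group D, and B₁ the block of N_G(D) with defect group D inducing B. Write O_π'(X) for the largest normal subgroup of X whose order has no prime divisor in π, and suppose every element of O_π'(N_G(D)) lies in the kernel of every member of B₁. Let G₀ be a subgroup and B₀ a block of G₀ with defect group D₀ such that C_G(D₀) ≤ G₀ and B₀ induces B. Then every element of O_π'(G₀) lies in the kernel of every member of B₀. -/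
theorem result {G : Type*} [Group G] [Finite G] (p : ℕ) [Fact p.Prime] (M : Ideal Cfsg.AlgInt) (hM : Cfsg.IsPModular p M) (π : Set ℕ) (hpπ : p ∈ π) (B : Set (Cfsg.IrrCharacter G)) (hB : Cfsg.IsPBlock M B) (D : Subgroup G) (hBD : Cfsg.IsDefectGroup p M B D) (B₁ : Set (Cfsg.IrrCharacter ↥(Subgroup.normalizer (D : Set G)))) (hB₁ : Cfsg.IsInducedBlock M (Subgroup.normalizer (D : Set G)) B₁ B) (hB₁D : Cfsg.IsDefectGroup p M B₁ (D.subgroupOf (Subgroup.normalizer (D : Set G)))) (hker : ∀ n : ↥(Subgroup.normalizer (D : Set G)), n ∈ Cfsg.piCore {q | q ∉ π} ↥(Subgroup.normalizer (D : Set G)) → n ∈ Cfsg.blockKer B₁) (G₀ : Subgroup G) (B₀ : Set (Cfsg.IrrCharacter ↥G₀)) (hB₀ : Cfsg.IsInducedBlock M G₀ B₀ B) (D₀ : Subgroup ↥G₀) (hD₀ : Cfsg.IsDefectGroup p M B₀ D₀) (hC : Subgroup.centralizer ((D₀.map G₀.subtype : Subgroup G) : Set G) ≤ G₀) : ∀ x : ↥G₀, x ∈ Cfsg.piCore {q | q ∉ π} ↥G₀ → x ∈ Cfsg.blockKer B₀ := by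
  classical
  haveI : Fintype G := Fintype.ofFinite G
  have := hM.2.1
  have := charP_KM M hM
  have hσ : p ∉ {q | q ∉ π} := fun h => h hpπ
  obtain ⟨e, he, ht, hBe⟩ := exists_top_pair hM hB hBD hB₁
  have h1 := (ker_iff' hM hσ hB₁.1).2 hker
  have h2 := (top_iff_corr hM hσ ht.pg (isBlk_ep hB₁.1) ht.blk hBe).2 h1
  have h3 := (defectH_iff hM hB₀.1).1 hD₀
  have h4 := ker_of_ind hM hσ he ht h2 hB₀ h3.pg h3.le hC h3.ne
  exact (ker_iff' hM hσ hB₀.1).1 h4

end Cfsg.Agent.S4734
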