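import Cfsg.Statements.S4735
import Mathlib
import Cfsg.Agent.H26_B0

set_option autoImplicit false
open Cfsg

namespace Cfsg.Agent.S4735

open Cfsg Cfsg.Agent.H3.CharIrr Cfsg.Agent.H3.CharComplete Cfsg.Agent.H26.Basic Cfsg.Agent.H26.BP Cfsg.Agent.H26.B0 Cfsg.Agent.H26.GalConj Cfsg.Agent.H10.BlockIdem Cfsg.Agent.H10.BlockKer Cfsg.Agent.H10.BlockOrth Cfsg.Agent.H10.BlockQuot

theorem normSq_eq {G : Type*} [Group G] [Finite G] (χ : IrrCharacter G) (x : G) :
    ((Complex.normSq ((χ : G → ℂ) x) : ℝ) : ℂ) = (χ : G → ℂ) x * (χ : G → ℂ) x⁻¹ := by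
  haveI := Fintype.ofFinite G
  rw [inv_eq, Complex.mul_conj]

theorem sum_normSq {G : Type*} [Group G] [Fintype G] [Fintype (IrrCharacter G)] (x : G) :
    ∑ χ : IrrCharacter G, Complex.normSq ((χ : G → ℂ) x) = (Nat.card (Subgroup.centralizer ({x} : Set G)) : ℝ) := by
  classical
  have h1 := orth2 x x
  rw [if_pos (IsConj.refl x)] at h1
  have h2 : ((∑ χ : IrrCharacter G, Complex.normSq ((χ : G → ℂ) x) : ℝ) : ℂ) = ((Nat.card (Subgroup.centralizer ({x} : Set G)) : ℝ) : ℂ) := by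
    push_cast
    rw [← h1]
    exact Finset.sum_congr rfl fun χ _ => by rw [Complex.mul_conj]
  exact_mod_cast h2

/-- Let p be a prime, M a maximal ideal of the algebraic integers containing p, G a finite group, H = O_p'(G) and Ḡ = G/H. For x ∈ G write λ(G, x) for the sum of |χ(x)|^2 over the irreducible characters χ in the principal p-block of G. Then λ(G, x) is a positive integer, λ(G, x) = λ(Ḡ, x̄) where x̄ is the image of x, and λ(G, x) ≤ #C_Ḡ(x̄). Moreover λ(G, 1) = [G : H] if and only if the principal block is the only p-block of Ḡ. -/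
theorem result {G : Type*} [Group G] [Finite G] (p : ℕ) [Fact p.Prime] (M : Ideal Cfsg.AlgInt) (hM : Cfsg.IsPModular p M) (x : G) : (∃ n : ℕ, 0 < n ∧ ∑ᶠ χ ∈ Cfsg.principalBlock M G, Complex.normSq ((χ : G → ℂ) x) = n) ∧ ∑ᶠ χ ∈ Cfsg.principalBlock M G, Complex.normSq ((χ : G → ℂ) x) = ∑ᶠ ψ ∈ Cfsg.principalBlock M (G ⧸ Cfsg.pPrimeCore p G), Complex.normSq ((ψ : G ⧸ Cfsg.pPrimeCore p G → ℂ) (QuotientGroup.mk x)) ∧ ∑ᶠ χ ∈ Cfsg.principalBlock M G, Complex.normSq ((χ : G → ℂ) x) ≤ (Nat.card ↥(Subgroup.centralizer ({(QuotientGroup.mk x : G ⧸ Cfsg.pPrimeCore p G)} : Set (G ⧸ Cfsg.pPrimeCore p G))) : ℝ) ∧ ((∑ᶠ χ ∈ Cfsg.principalBlock M G, Cfsg.charDegree (χ : G → ℂ) ^ 2) = (Cfsg.pPrimeCore p G).index ↔ ∀ B : Set (Cfsg.IrrCharacter (G ⧸ Cfsg.pPrimeCore p G)), Cfsg.IsPBlock M B → B = Cfsg.principalBlock M (G ⧸ Cfsg.pPrimeCore p G)) := by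
  classical
  haveI := Fintype.ofFinite G
  haveI : Fintype (IrrCharacter G) := Fintype.ofFinite _
  haveI : Fintype (G ⧸ pPrimeCore p G) := Fintype.ofFinite _
  haveI : Fintype (IrrCharacter (G ⧸ pPrimeCore p G)) := Fintype.ofFinite _
  haveI := hM.2.1
  have hbij := bijOn_infl (G := G) (p := p) hM
  have htr : (triv G : IrrCharacter G) ∈ principalBlock M G := triv_mem
  have hB : ∀ y : G, ∑ᶠ χ ∈ principalBlock M G, Complex.normSq ((χ : G → ℂ) y) = ∑ᶠ ψ ∈ principalBlock M (G ⧸ pPrimeCore p G), Complex.normSq ((ψ : G ⧸ pPrimeCore p G → ℂ) (QuotientGroup.mk y)) := by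
    intro y
    exact (finsum_mem_eq_of_bijOn (infl (pPrimeCore p G)) hbij (fun ψ _ => rfl)).symm
  have hle : ∀ y : G ⧸ pPrimeCore p G, ∑ᶠ ψ ∈ principalBlock M (G ⧸ pPrimeCore p G), Complex.normSq ((ψ : G ⧸ pPrimeCore p G → ℂ) y) ≤ (Nat.card ↥(Subgroup.centralizer ({y} : Set (G ⧸ pPrimeCore p G))) : ℝ) := by
    intro y
    rw [finsum_mem_irr, ← sum_normSq y]
    apply Finset.sum_le_sum
    intro ψ _
    split_ifs
    · exact le_rfl
    · exact Complex.normSq_nonneg _
  refine ⟨?_, hB x, ?_, ?_⟩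
  · obtain ⟨k, hk⟩ := int_sum_sq (Finset.univ.filter (fun χ : IrrCharacter G => χ ∈ principalBlock M G)) (fun m hm χ hχ => by
      rw [Finset.mem_filter] at hχ ⊢
      exact ⟨Finset.mem_univ _, powI_mem_principal hχ.2 m hm⟩) x
    have h1 : ∑ᶠ χ ∈ principalBlock M G, Complex.normSq ((χ : G → ℂ) x) = (k : ℝ) := by
      have h2 : ((∑ᶠ χ ∈ principalBlock M G, Complex.normSq ((χ : G → ℂ) x) : ℝ) : ℂ) = ((k : ℝ) : ℂ) := by
        rw [Complex.ofReal_intCast, ← hk, finsum_mem_irr, Finset.sum_filter]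
        push_cast
        refine Finset.sum_congr rfl fun χ _ => ?_
        split_ifs
        · exact normSq_eq χ x
        · simp
      exact_mod_cast h2
    have h3 : (1 : ℝ) ≤ ∑ᶠ χ ∈ principalBlock M G, Complex.normSq ((χ : G → ℂ) x) := by
      rw [finsum_mem_irr]
      have h4 : (1 : ℝ) = (if (triv G : IrrCharacter G) ∈ principalBlock M G then Complex.normSq (((triv G : IrrCharacter G) : G → ℂ) x) else 0) := by
        rw [if_pos htr, triv_coe, Complex.normSq_one]
      rw [h4]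
      apply Finset.single_le_sum (f := fun χ : IrrCharacter G => if χ ∈ principalBlock M G then Complex.normSq ((χ : G → ℂ) x) else 0) _ (Finset.mem_univ _)
      intro χ _
      split_ifs
      · exact Complex.normSq_nonneg _
      · exact le_rfl
    rw [h1] at h3
    have h5 : 1 ≤ k := by exact_mod_cast h3
    refine ⟨k.toNat, by omega, ?_⟩
    rw [h1]
    have : ((k.toNat : ℤ) : ℝ) = (k : ℝ) := by rw [Int.toNat_of_nonneg (by omega)]
    exact_mod_cast this.symm
  · rw [hB x]; exact hle _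
  · -- degrees
    have hdeg : ∀ {H : Type _} [Group H] [Finite H] (S : Set (IrrCharacter H)) [Fintype (IrrCharacter H)], ((∑ᶠ χ ∈ S, charDegree (χ : H → ℂ) ^ 2 : ℕ) : ℝ) = ∑ᶠ χ ∈ S, Complex.normSq ((χ : H → ℂ) 1) := by
      intro H _ _ S _
      haveI := Fintype.ofFinite H
      rw [finsum_mem_irr, finsum_mem_irr]
      push_cast
      refine Finset.sum_congr rfl fun χ _ => ?_
      split_ifs
      · rw [← cd_eq, Complex.normSq_natCast]; push_cast; ring
      · simp
    have hidx : ((pPrimeCore p G).index : ℝ) = ∑ ψ : IrrCharacter (G ⧸ pPrimeCore p G), Complex.normSq ((ψ : G ⧸ pPrimeCore p G → ℂ) 1) := by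
      rw [sum_normSq, Subgroup.index]
      have : Subgroup.centralizer ({(1 : G ⧸ pPrimeCore p G)} : Set (G ⧸ pPrimeCore p G)) = ⊤ := by
        rw [eq_top_iff]; intro g _
        rw [Subgroup.mem_centralizer_singleton_iff]; simp
      rw [this, Subgroup.card_top]
    have hkey : (∑ᶠ χ ∈ principalBlock M G, charDegree (χ : G → ℂ) ^ 2) = (pPrimeCore p G).index ↔ principalBlock M (G ⧸ pPrimeCore p G) = Set.univ := by
      rw [← Nat.cast_inj (R := ℝ), hdeg, hB 1, hidx, finsum_mem_irr, QuotientGroup.mk_one]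
      constructor
      · intro h
        rw [Finset.sum_eq_sum_iff_of_le] at h
        · rw [Set.eq_univ_iff_forall]
          intro ψ
          by_contra hψ
          have h1 := h ψ (Finset.mem_univ _)
          rw [if_neg hψ] at h1
          have h2 := Complex.normSq_eq_zero.1 h1.symm
          exact one_ne ψ h2
        · intro ψ _
          split_ifs
          · exact le_rfl
          · exact Complex.normSq_nonneg _
      · intro h
        refine Finset.sum_congr rfl fun ψ _ => ?_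
        rw [if_pos]
        rw [h]; exact Set.mem_univ _
    rw [hkey]
    constructor
    · intro h B hB'
      obtain ⟨ψ, hψ⟩ := block_nonempty hB'
      exact block_eq_of_mem hB' principal_isPBlock hψ (by rw [h]; exact Set.mem_univ _)
    · intro h
      rw [Set.eq_univ_iff_forall]
      intro ψ
      rw [← h _ (isPBlock_blockOf ψ)]
      exact mem_blockOf_self ψ

end Cfsg.Agent.S4735
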