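import Cfsg.Statements.S4955
import Mathlib
import Cfsg.Agent.H26_GalSum
import Cfsg.Agent.H26_BP
import Cfsg.Agent.H3_Clifford
import Cfsg.Agent.H10_BlockHZ

set_option autoImplicit false
open Cfsg

namespace Cfsg.Agent.S4955

open Cfsg Cfsg.Agent.H3.CharIrr Cfsg.Agent.H3.CharComplete Cfsg.Agent.H26.Basic Cfsg.Agent.H26.GalConj Cfsg.Agent.H26.GalSum Cfsg.Agent.H26.BP Cfsg.Agent.H3.Clifford Cfsg.Agent.H10.BlockLoc

/-- values at elements of a normal abelian `p`-subgroup of `p'`-index do not vanish -/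
theorem val_ne_zero {X : Type*} [Group X] [Fintype X] (p : ℕ) [hp : Fact p.Prime] (V : Subgroup X) [hVn : V.Normal] (hVp : IsPGroup p V) (hidx : ¬ p ∣ V.index) (hab : ∀ a ∈ V, ∀ b ∈ V, a * b = b * a) (χ : IrrCharacter X) (v : X) (hv : v ∈ V) : (χ : X → ℂ) v ≠ 0 := by
  classical
  haveI : Fintype V := Fintype.ofFinite _
  obtain ⟨M, hM⟩ := Cfsg.Agent.H26.Kernel.exists_isPModular p hp.out
  haveI := hM.2.1
  obtain ⟨ψ, hψ, h1⟩ := Cfsg.Agent.H3.CharMult.exists_constituent_res (H := V) χ.2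
  have hcl := clifford hVn χ.2 hψ h1
  have hψ1 : ψ 1 = 1 := Cfsg.Agent.H3.CharMult.IsIrr.one_of_comm (fun a b => Subtype.ext (hab a a.2 b b.2)) hψ
  have h2 := congrFun hcl ⟨v, hv⟩
  rw [Pi.smul_apply, Finset.sum_apply, smul_eq_mul] at h2
  intro h0
  have h3 : (χ : X → ℂ) ((⟨v, hv⟩ : V) : X) = 0 := h0
  rw [h3] at h2
  have h4 := (mul_eq_zero.1 h2.symm).resolve_left h1
  -- modulo M
  have h5 : MemLocalIdeal M (∑ φ ∈ orb hVn ψ, φ ⟨v, hv⟩ - ((orb hVn ψ).card : ℂ)) := by
    have : ∑ φ ∈ orb hVn ψ, φ ⟨v, hv⟩ - ((orb hVn ψ).card : ℂ) = ∑ φ ∈ orb hVn ψ, (φ ⟨v, hv⟩ - φ 1) := by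
      rw [Finset.sum_sub_distrib]
      congr 1
      rw [Finset.sum_congr rfl (g := fun _ => (1:ℂ))]
      · simp
      · intro φ hφ
        obtain ⟨g, rfl⟩ := (mem_orb hVn ψ φ).1 hφ
        rw [cj_apply_one, hψ1]
    rw [this]
    apply ideal_sum
    intro φ hφ
    obtain ⟨g, rfl⟩ := (mem_orb hVn ψ φ).1 hφ
    apply val_sub_mem hM (IsIrr.isCharacter ((cj_isIrr hVn g).2 hψ))
    obtain ⟨k, hk⟩ := (IsPGroup.iff_orderOf.1 hVp) ⟨v, hv⟩
    exact ⟨k, hk⟩
  rw [h4, zero_sub] at h5
  have h6 := ideal_neg h5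
  rw [neg_neg, ideal_natCast_iff hM, card_orb_eq_index] at h6
  exact hidx (h6.trans (Subgroup.index_dvd_of_le (le_inertia hVn (IsIrr.isClass hψ))))

/-- Let X be a finite group with an abelian normal Sylow p-subgroup V (a normal p-subgroup of index prime to p in which any two elements commute), and let G be a complement to V in X. Then for every v in V, writing C for the centralizer of v in G, the number k(X) of conjugacy classes of X satisfies k(X) ≤ (order of C)·(order of V) − ((order of G) − k(G)); the statement is written with the subtracted term moved to the left. In particular, if some v in V is centralized by no nonidentity element of G, then k(X) is at most the order of V. -/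
theorem result {X : Type*} [Group X] [Finite X] (p : ℕ) [Fact p.Prime] (V : Subgroup X) [V.Normal] (hVp : IsPGroup p V) (hidx : ¬ p ∣ V.index) (hab : ∀ a ∈ V, ∀ b ∈ V, a * b = b * a) (G : Subgroup X) (hGV : Subgroup.IsComplement' V G) (v : X) (hv : v ∈ V) : Nat.card (ConjClasses X) + Nat.card G ≤ Nat.card ↥(G ⊓ Subgroup.centralizer ({v} : Set X)) * Nat.card V + Nat.card (ConjClasses G) := by
  classical
  haveI := Fintype.ofFinite X
  haveI : Fintype (IrrCharacter X) := Fintype.ofFinite _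
  set K : Finset (IrrCharacter X) := Finset.univ.filter (fun ψ : IrrCharacter X => ∀ n ∈ V, (ψ : X → ℂ) n = (ψ : X → ℂ) 1) with hK
  set S : Finset (IrrCharacter X) := Finset.univ.filter (fun ψ : IrrCharacter X => ¬ ∀ n ∈ V, (ψ : X → ℂ) n = (ψ : X → ℂ) 1) with hS
  have hcardK : K.card = Nat.card (ConjClasses G) := by
    rw [hK, card_ker V]
    exact card_conjClasses_congr (Subgroup.IsComplement'.QuotientMulEquiv hGV.symm)
  have hcardG : V.index = Nat.card G := by
    have := Nat.card_congr (Subgroup.IsComplement'.QuotientMulEquiv hGV.symm).toEquiv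
    rw [Subgroup.index, this]
  have hcardtot : K.card + S.card = Nat.card (ConjClasses X) := by
    rw [hK, hS, Finset.card_filter_add_card_filter_not, Finset.card_univ, ← Nat.card_eq_fintype_card, card_irr]
  -- the inequality on S
  have hle := card_le_sum_char S (fun m hm χ hχ => by
    rw [hS, Finset.mem_filter] at hχ ⊢
    refine ⟨Finset.mem_univ _, fun h => hχ.2 fun u hu => ?_⟩
    obtain ⟨k, -, hk⟩ := exists_inv_exp hm Nat.card_pos.ne'
    have h1 := h (u ^ k) (V.pow_mem hu k)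
    rw [powI_apply, powI_apply, one_pow, ← pow_mul, mul_comm, pow_mod_card u hk] at h1
    exact h1) v (fun χ _ => val_ne_zero p V hVp hidx hab χ v hv)
  have htot := sum_normSq v
  rw [← Finset.sum_filter_add_sum_filter_not Finset.univ (fun ψ : IrrCharacter X => ∀ n ∈ V, (ψ : X → ℂ) n = (ψ : X → ℂ) 1)] at htot
  have hKsum : ∑ χ ∈ K, Complex.normSq ((χ : X → ℂ) v) = (Nat.card G : ℝ) := by
    have h1 := sum_sq_ker V
    rw [hcardG] at h1
    have h2 : ((∑ χ ∈ K, Complex.normSq ((χ : X → ℂ) v) : ℝ) : ℂ) = ((Nat.card G : ℝ) : ℂ) := by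
      push_cast
      rw [← h1]
      refine Finset.sum_congr rfl fun χ hχ => ?_
      rw [Finset.mem_filter] at hχ
      rw [hχ.2 v hv, ← cd_eq, Complex.normSq_natCast]
      push_cast; ring
    exact_mod_cast h2
  have hcent : Nat.card (Subgroup.centralizer ({v} : Set X)) = Nat.card ↥(G ⊓ Subgroup.centralizer ({v} : Set X)) * Nat.card V := by
    rw [mul_comm, ← Nat.card_prod]
    symm
    apply Nat.card_eq_of_bijective (fun x : V × ↥(G ⊓ Subgroup.centralizer ({v} : Set X)) => (⟨(x.1 : X) * (x.2 : X), by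
      apply Subgroup.mul_mem _ _ x.2.2.2
      rw [Subgroup.mem_centralizer_singleton_iff]
      exact hab x.1 x.1.2 v hv⟩ : Subgroup.centralizer ({v} : Set X)))
    constructor
    · rintro ⟨a, b⟩ ⟨c, d⟩ h
      have h1 : (a : X) * (b : X) = (c : X) * (d : X) := congrArg Subtype.val h
      have h2 := hGV.1 (a₁ := (a, ⟨b, b.2.1⟩)) (a₂ := (c, ⟨d, d.2.1⟩)) h1
      rw [Prod.mk.injEq] at h2
      have h3 : (b : X) = (d : X) := by
        have h4 := congrArg (fun z : ↥G => (z : X)) h2.2
        exact h4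
      exact Prod.ext h2.1 (Subtype.ext h3)
    · rintro ⟨x, hx⟩
      obtain ⟨⟨a, b⟩, hab'⟩ := hGV.2 x
      have h1 : (a : X) * (b : X) = x := hab'
      have h2 : (b : X) ∈ Subgroup.centralizer ({v} : Set X) := by
        have : (b : X) = (a : X)⁻¹ * x := by rw [← h1]; group
        rw [this]
        apply Subgroup.mul_mem _ _ hx
        apply Subgroup.inv_mem
        rw [Subgroup.mem_centralizer_singleton_iff]
        exact hab a a.2 v hv
      exact ⟨(a, ⟨b, b.2, h2⟩), Subtype.ext h1⟩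
  have hfin : ((Nat.card (ConjClasses X) + Nat.card G : ℕ) : ℝ) ≤ ((Nat.card ↥(G ⊓ Subgroup.centralizer ({v} : Set X)) * Nat.card V + Nat.card (ConjClasses G) : ℕ) : ℝ) := by
    rw [← hcent, ← hcardtot, ← hcardK]
    push_cast
    have h1 : (Nat.card G : ℝ) + ∑ χ ∈ S, Complex.normSq ((χ : X → ℂ) v) = (Nat.card (Subgroup.centralizer ({v} : Set X)) : ℝ) := by
      rw [← hKsum]; exact htot
    linarith
  exact_mod_cast hfin

end Cfsg.Agent.S4955
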