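import Cfsg.Statements.S4956
import Mathlib
-- import your own Cfsg.Agent.* helpers here

set_option autoImplicit false
open Cfsg

namespace Cfsg.Agent.S4956

/-- first cohomology vanishing in multiplicative form. -/
theorem conj_of_pow_eq_one {X : Type*} [Group X] [Finite X] (V : Subgroup X) [V.Normal]
    (hab : ∀ a ∈ V, ∀ b ∈ V, a * b = b * a) (n : ℕ) (hn : Nat.Coprime n (Nat.card V))
    (h : X) (hh : h ^ n = 1) (v : X) (hv : v ∈ V) (hvh : (v * h) ^ n = 1) :
    ∃ w ∈ V, w * h * w⁻¹ = v * h := by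
  classical
  let _ : CommGroup V := { (inferInstance : Group V) with
    mul_comm := fun a b => Subtype.ext (hab a a.2 b b.2) }
  let φ : V →* V := (MulAut.conjNormal h : MulAut V).toMonoidHom
  have hφ : ∀ w : V, ((φ w : V) : X) = h * w * h⁻¹ := fun w => MulAut.conjNormal_apply h w
  let v' : V := ⟨v, hv⟩
  let P : ℕ → V := fun k => ∏ j ∈ Finset.range k, (φ^[j]) v'
  have hP0 : P 0 = 1 := by simp [P]
  have hPs : ∀ k, φ (P k) = v'⁻¹ * P (k + 1) := by
    intro k
    simp only [P]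
    rw [Finset.prod_range_succ', map_prod]
    simp only [Function.iterate_zero, id, Function.iterate_succ_apply']
    rw [mul_comm (∏ j ∈ Finset.range k, φ (φ^[j] v')) v', inv_mul_cancel_left]
  have hpow : ∀ k, (v * h) ^ k = (P k : X) * h ^ k := by
    intro k
    induction k with
    | zero => simp [hP0]
    | succ k ih =>
      rw [pow_succ', ih]
      have h1 := congrArg (fun z : V => (z : X)) (hPs k)
      simp only [hφ, Subgroup.coe_mul, Subgroup.coe_inv] at h1
      have h2 : (P (k+1) : X) = v * (h * (P k : X) * h⁻¹) := by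
        rw [h1]; simp [v']
      rw [h2, pow_succ']
      group
  have hPn : P n = 1 := by
    have := hpow n
    rw [hvh, hh, mul_one] at this
    exact Subtype.ext this.symm
  let W : V := ∏ k ∈ Finset.range n, P k
  have hW : φ W = v'⁻¹ ^ n * W := by
    simp only [W]
    rw [map_prod]
    simp only [hPs]
    rw [Finset.prod_mul_distrib, Finset.prod_const, Finset.card_range]
    congr 1
    have e1 := Finset.prod_range_succ P n
    have e2 := Finset.prod_range_succ' P n
    rw [e1, hPn, hP0, mul_one, mul_one] at e2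
    exact e2.symm
  obtain ⟨m, hm⟩ : ∃ m : ℕ, v' ^ (n * m) = v' := by
    have : Nat.Coprime n (orderOf v') :=
      Nat.Coprime.coprime_dvd_right (orderOf_dvd_natCard v') hn
    obtain ⟨m, hm⟩ := exists_pow_eq_self_of_coprime this
    exact ⟨m, by rw [pow_mul]; exact hm⟩
  refine ⟨((W ^ m : V) : X), (W ^ m).2, ?_⟩
  have h3 : φ (W ^ m) = (v' ^ (n * m))⁻¹ * W ^ m := by
    rw [map_pow, hW, mul_pow, ← pow_mul, inv_pow]
  rw [hm] at h3
  have h4 := congrArg (fun z : V => (z : X)) h3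
  simp only [hφ, Subgroup.coe_mul, Subgroup.coe_inv, v'] at h4
  have h5 : h * ((W ^ m : V) : X) * h⁻¹ * ((W^m : V) : X)⁻¹ = v⁻¹ := by rw [h4]; group
  have h6 : ((W ^ m : V) : X) * h * ((W^m : V) : X)⁻¹ * h⁻¹ = v := by
    have h7 := congrArg (fun z => z⁻¹) h5
    simp only [mul_inv_rev, inv_inv] at h7
    rw [← h7]; group
  rw [← h6]; group

theorem mem_V_of_pow {X : Type*} [Group X] [Finite X] (V : Subgroup X) [V.Normal]
    (G : Subgroup X) (hGV : Subgroup.IsComplement' V G) (hcop : (Nat.card V).Coprime (Nat.card G))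
    (u : X) (hu : u ^ Nat.card V = 1) : u ∈ V := by
  rw [← QuotientGroup.eq_one_iff, ← orderOf_eq_one_iff]
  have h1 : orderOf (u : X ⧸ V) ∣ Nat.card V := by
    apply orderOf_dvd_of_pow_eq_one
    rw [← QuotientGroup.mk_pow, hu]; rfl
  have h2 : orderOf (u : X ⧸ V) ∣ Nat.card G := by
    have h3 := hGV.symm.index_eq_card
    rw [← h3]
    exact orderOf_dvd_natCard _
  exact Nat.eq_one_of_dvd_coprimes hcop h1 h2

theorem unique_dec {X : Type*} [Group X] (V G : Subgroup X) (hGV : Subgroup.IsComplement' V G)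
    {v v' g g' : X} (hv : v ∈ V) (hv' : v' ∈ V) (hg : g ∈ G) (hg' : g' ∈ G) (h : v * g = v' * g') :
    v = v' ∧ g = g' := by
  have := hGV.1 (a₁ := (⟨v, hv⟩, ⟨g, hg⟩)) (a₂ := (⟨v', hv'⟩, ⟨g', hg'⟩)) h
  simpa using this

theorem lemmaA {X : Type*} [Group X] [Finite X] (V : Subgroup X) [V.Normal]
    (hab : ∀ a ∈ V, ∀ b ∈ V, a * b = b * a) (G : Subgroup X) (hGV : Subgroup.IsComplement' V G)
    (hcop : (Nat.card V).Coprime (Nat.card G)) (s s' h h' : X) (hs : s ∈ V) (hs' : s' ∈ V)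
    (hh : h ∈ G) (hh' : h' ∈ G) (hsh : Commute s h) (hsh' : Commute s' h')
    (hc : IsConj (s * h) (s' * h')) : ∃ g ∈ G, g * s * g⁻¹ = s' ∧ g * h * g⁻¹ = h' := by
  obtain ⟨m, hm1, hm2⟩ := Nat.chineseRemainder hcop 1 0
  have hV : ∀ t ∈ V, t ^ m = t := by
    intro t ht
    have h1 : t ^ Nat.card V = 1 := by
      have := pow_card_eq_one' (x := (⟨t, ht⟩ : V))
      exact congrArg Subtype.val this
    have := pow_eq_pow_of_modEq hm1 h1
    rwa [pow_one] at this
  have hG : ∀ t ∈ G, t ^ m = 1 := by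
    intro t ht
    have h1 : t ^ Nat.card G = 1 := by
      have := pow_card_eq_one' (x := (⟨t, ht⟩ : G))
      exact congrArg Subtype.val this
    have := pow_eq_pow_of_modEq hm2 h1
    rwa [pow_zero] at this
  obtain ⟨c, hc⟩ := isConj_iff.1 hc
  have h1 : c * s * c⁻¹ = s' := by
    have := congrArg (fun z => z ^ m) hc
    simp only [conj_pow, hsh.mul_pow, hsh'.mul_pow, hV s hs, hV s' hs', hG h hh, hG h' hh', mul_one] at this
    exact this
  have h2 : c * h * c⁻¹ = h' := by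
    have : c * (s * h) * c⁻¹ = (c * s * c⁻¹) * (c * h * c⁻¹) := by group
    rw [this, h1] at hc
    exact mul_left_cancel hc
  obtain ⟨⟨⟨v, hv⟩, ⟨g, hg⟩⟩, hvg⟩ := hGV.2 c
  simp only at hvg
  refine ⟨g, hg, ?_, ?_⟩
  · have h3 : g * s * g⁻¹ ∈ V := Subgroup.Normal.conj_mem inferInstance s hs g
    have h4 : c * s * c⁻¹ = v * (g * s * g⁻¹) * v⁻¹ := by rw [← hvg]; group
    rw [h4, hab v hv _ h3, mul_inv_cancel_right] at h1
    exact h1
  · have h4 : c * h * c⁻¹ = (v * ((g * h * g⁻¹) * v⁻¹ * (g * h * g⁻¹)⁻¹)) * (g * h * g⁻¹) := by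
      rw [← hvg]; group
    have h5 : (v * ((g * h * g⁻¹) * v⁻¹ * (g * h * g⁻¹)⁻¹)) ∈ V :=
      V.mul_mem hv (Subgroup.Normal.conj_mem inferInstance v⁻¹ (V.inv_mem hv) _)
    have h6 : g * h * g⁻¹ ∈ G := G.mul_mem (G.mul_mem hg hh) (G.inv_mem hg)
    rw [h4, ← one_mul h'] at h2
    exact (unique_dec V G hGV h5 V.one_mem h6 hh' h2).2

theorem lemmaB {X : Type*} [Group X] [Finite X] (V : Subgroup X) [V.Normal]
    (hab : ∀ a ∈ V, ∀ b ∈ V, a * b = b * a) (G : Subgroup X) (hGV : Subgroup.IsComplement' V G)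
    (hcop : (Nat.card V).Coprime (Nat.card G)) (S : Finset X)
    (hrep : ∀ v ∈ V, ∃! s, s ∈ S ∧ ∃ g ∈ G, g * v * g⁻¹ = s) (x : X) :
    ∃ s ∈ S, ∃ h ∈ G ⊓ Subgroup.centralizer ({s} : Set X), IsConj (s * h) x := by
  obtain ⟨m, hm1, hm2⟩ := Nat.chineseRemainder hcop 1 0
  obtain ⟨m', hm1', hm2'⟩ := Nat.chineseRemainder hcop 0 1
  have hX : Nat.card V * Nat.card G = Nat.card X := hGV.card_mul_card
  have hxX : x ^ (Nat.card V * Nat.card G) = 1 := by rw [hX]; exact pow_card_eq_one'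
  have hsum : x ^ m * x ^ m' = x := by
    rw [← pow_add]
    have h1 : m + m' ≡ 1 [MOD Nat.card V] := by simpa using hm1.add hm1'
    have h2 : m + m' ≡ 1 [MOD Nat.card G] := by simpa using hm2.add hm2'
    have h3 : m + m' ≡ 1 [MOD Nat.card V * Nat.card G] := (Nat.modEq_and_modEq_iff_modEq_mul hcop).1 ⟨h1, h2⟩
    have := pow_eq_pow_of_modEq h3 hxX
    rwa [pow_one] at this
  have hu : (x ^ m) ^ Nat.card V = 1 := by
    obtain ⟨k, hk⟩ := (Nat.modEq_zero_iff_dvd.1 hm2)
    rw [← pow_mul, hk, show Nat.card G * k * Nat.card V = (Nat.card V * Nat.card G) * k by ring, pow_mul, hxX, one_pow]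
  have hy : (x ^ m') ^ Nat.card G = 1 := by
    obtain ⟨k, hk⟩ := (Nat.modEq_zero_iff_dvd.1 hm1')
    rw [← pow_mul, hk, show Nat.card V * k * Nat.card G = (Nat.card V * Nat.card G) * k by ring, pow_mul, hxX, one_pow]
  have huV := mem_V_of_pow V G hGV hcop _ hu
  obtain ⟨s, ⟨hsS, g, hg, hgs⟩, -⟩ := hrep _ huV
  -- replace x by its conjugate
  set y := g * x ^ m' * g⁻¹ with hydef
  have hyn : y ^ Nat.card G = 1 := by rw [hydef, conj_pow, hy]; group
  have hxy : g * x * g⁻¹ = s * y := by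
    rw [← hgs, hydef]
    conv_lhs => rw [← hsum]
    group
  have hsV : s ∈ V := by rw [← hgs]; exact Subgroup.Normal.conj_mem inferInstance _ huV g
  have hcomm : Commute s y := by
    rw [← hgs, hydef]
    have : Commute (x ^ m) (x ^ m') := (Commute.refl x).pow_pow m m'
    show _ * _ = _ * _
    have h1 : g * x ^ m * g⁻¹ * (g * x ^ m' * g⁻¹) = g * (x ^ m * x ^ m') * g⁻¹ := by group
    have h2 : g * x ^ m' * g⁻¹ * (g * x ^ m * g⁻¹) = g * (x ^ m' * x ^ m) * g⁻¹ := by group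
    rw [h1, h2, this.eq]
  obtain ⟨⟨⟨v, hv⟩, ⟨h, hh⟩⟩, hvh⟩ := hGV.2 y
  simp only at hvh
  have hhs : h * s * h⁻¹ = s := by
    have h3 : h * s * h⁻¹ ∈ V := Subgroup.Normal.conj_mem inferInstance s hsV h
    have h4 : y * s * y⁻¹ = s := by rw [← hcomm.eq]; group
    rw [← hvh] at h4
    have h5 : v * h * s * (v * h)⁻¹ = v * (h * s * h⁻¹) * v⁻¹ := by group
    rw [h5, hab v hv _ h3, mul_inv_cancel_right] at h4
    exact h4
  have hhn : h ^ Nat.card G = 1 := by
    have := pow_card_eq_one' (x := (⟨h, hh⟩ : G))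
    exact congrArg Subtype.val this
  obtain ⟨w, hw, hwh⟩ := conj_of_pow_eq_one V hab (Nat.card G) hcop.symm h hhn v hv (by rw [hvh]; exact hyn)
  refine ⟨s, hsS, h, ⟨hh, ?_⟩, ?_⟩
  · refine Subgroup.mem_centralizer_singleton_iff.2 ?_
    rw [mul_inv_eq_iff_eq_mul] at hhs
    exact hhs
  · have h6 : IsConj (s * h) (s * y) := by
      rw [isConj_iff]
      refine ⟨w, ?_⟩
      have : w * (s * h) * w⁻¹ = (w * s * w⁻¹) * (w * h * w⁻¹) := by group
      rw [this, hwh, hvh, hab w hw s hsV, mul_inv_cancel_right]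
    refine h6.trans ?_
    rw [← hxy]
    exact (isConj_iff.2 ⟨g, rfl⟩ : IsConj x (g * x * g⁻¹)).symm

/-- Let X be a finite group, V an abelian normal subgroup of X (any two elements of V commute) and G a complement to V in X whose order is coprime to that of V. Let S be a set of representatives of the orbits of G on V under conjugation: S lies in V and every element of V is conjugate under G to exactly one member of S. Then the number of conjugacy classes of X equals the sum, over s in S, of the number of conjugacy classes of the centralizer of s in G. -/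
theorem result {X : Type*} [Group X] [Finite X] (V : Subgroup X) [V.Normal] (hab : ∀ a ∈ V, ∀ b ∈ V, a * b = b * a) (G : Subgroup X) (hGV : Subgroup.IsComplement' V G) (hcop : (Nat.card V).Coprime (Nat.card G)) (S : Finset X) (hSV : ∀ s ∈ S, s ∈ V) (hrep : ∀ v ∈ V, ∃! s, s ∈ S ∧ ∃ g ∈ G, g * v * g⁻¹ = s) : Nat.card (ConjClasses X) = ∑ s ∈ S, Nat.card (ConjClasses ↥(G ⊓ Subgroup.centralizer ({s} : Set X))) := by
  classical
  rw [← Finset.sum_coe_sort S (fun s => Nat.card (ConjClasses ↥(G ⊓ Subgroup.centralizer ({s} : Set X))))]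
  rw [← Nat.card_sigma]
  symm
  have hout : ∀ (s : S) (c : ConjClasses ↥(G ⊓ Subgroup.centralizer ({(s : X)} : Set X))),
      ∃ h : ↥(G ⊓ Subgroup.centralizer ({(s : X)} : Set X)), ConjClasses.mk h = c := by
    intro s c; exact ConjClasses.mk_surjective c
  choose out hout using hout
  refine Nat.card_congr (Equiv.ofBijective (fun p => ConjClasses.mk ((p.1 : X) * (out p.1 p.2 : X))) ⟨?_, ?_⟩)
  · rintro ⟨s, c⟩ ⟨s', c'⟩ h
    simp only [ConjClasses.mk_eq_mk_iff_isConj] at h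
    have hcm : ∀ (s : S) (c : ConjClasses ↥(G ⊓ Subgroup.centralizer ({(s : X)} : Set X))),
        Commute (s : X) (out s c : X) := fun s c =>
      ((Subgroup.mem_centralizer_singleton_iff.1 (out s c).2.2)).symm
    obtain ⟨g, hg, hgs, hgh⟩ := lemmaA V hab G hGV hcop s s' (out s c) (out s' c') (hSV s s.2) (hSV s' s'.2)
      (out s c).2.1 (out s' c').2.1 (hcm s c) (hcm s' c') h
    have hss : s = s' := by
      obtain ⟨t, -, ht⟩ := hrep s (hSV s s.2)
      apply Subtype.ext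
      rw [ht s ⟨s.2, 1, G.one_mem, by group⟩, ht s' ⟨s'.2, g, hg, hgs⟩]
    subst hss
    congr 1
    rw [← hout s c, ← hout s c', ConjClasses.mk_eq_mk_iff_isConj, isConj_iff]
    refine ⟨⟨g, hg, ?_⟩, Subtype.ext hgh⟩
    refine Subgroup.mem_centralizer_singleton_iff.2 ?_
    rwa [mul_inv_eq_iff_eq_mul] at hgs
  · intro c
    obtain ⟨x, rfl⟩ := ConjClasses.mk_surjective c
    obtain ⟨s, hs, h, hh, hx⟩ := lemmaB V hab G hGV hcop S hrep x
    refine ⟨⟨⟨s, hs⟩, ConjClasses.mk ⟨h, hh⟩⟩, ?_⟩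
    simp only
    rw [ConjClasses.mk_eq_mk_iff_isConj]
    refine IsConj.trans ?_ hx
    have h1 := hout ⟨s, hs⟩ (ConjClasses.mk ⟨h, hh⟩)
    rw [ConjClasses.mk_eq_mk_iff_isConj, isConj_iff] at h1
    obtain ⟨⟨g, hgG, hgC⟩, hg⟩ := h1
    rw [isConj_iff]
    refine ⟨g, ?_⟩
    have h2 := congrArg Subtype.val hg
    simp only [Subgroup.coe_mul, Subgroup.coe_inv] at h2
    have hgC' := Subgroup.mem_centralizer_singleton_iff.1 hgC
    have h3 : g * s * g⁻¹ = s := by rw [hgC']; group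
    have h4 : ∀ z : X, g * (s * z) * g⁻¹ = (g * s * g⁻¹) * (g * z * g⁻¹) := fun z => by group
    rw [h4, h3, h2]

end Cfsg.Agent.S4956
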