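import Cfsg.Statements.S4964
import Mathlib
import Cfsg.Agent.H10_BlockQuot
import Cfsg.Agent.H22_Coprime3
import Cfsg.Agent.H1_Coprime2

set_option autoImplicit false
open Cfsg

namespace Cfsg.Agent.S4964

open Cfsg Cfsg.Agent.H3.CharIrr Cfsg.Agent.H3.CharComplete Cfsg.Agent.H3.CharInd Cfsg.Agent.H3.CharBasic Cfsg.Agent.H10.BlockLoc Cfsg.Agent.H10.BlockTrace Cfsg.Agent.H10.Char Cfsg.Agent.H10.BlockAlg Cfsg.Agent.H10.BlockIdem Cfsg.Agent.H10.BlockOrth Cfsg.Agent.H10.BlockDefect Cfsg.Agent.H10.BlockNormal Cfsg.Agent.H10.BlockInd Cfsg.Agent.H10.BlockMain Cfsg.Agent.H10.PPart Cfsg.Agent.H10.BlockSMT Cfsg.Agent.H10.BlockSMT2 Cfsg.Agent.H10.BlockHZ Cfsg.Agent.H10.BlockK Cfsg.Agent.H10.BlockKer Cfsg.Agent.H10.BlockQuot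

theorem reg_centralizes {G : Type*} [Group G] [Finite G] (p : ℕ) [hp : Fact p.Prime]
    (D : Subgroup G) [D.Normal] (hD : IsPGroup p D) {g : G} (hg : ¬ p ∣ orderOf g)
    (hc : ∀ d ∈ D, g * d * g⁻¹ * d⁻¹ ∈ ⁅D, D⁆) : g ∈ Subgroup.centralizer (D : Set G) := by
  have hA : Subgroup.zpowers g ≤ Subgroup.normalizer (D : Set G) := by
    rw [Subgroup.normalizer_eq_top]; exact le_top
  have hcop : (Nat.card (Subgroup.zpowers g)).Coprime (Nat.card (frattini D)) := by
    rw [Nat.card_zpowers]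
    obtain ⟨k, hk⟩ := (IsPGroup.iff_card.1 (hD.to_subgroup (frattini D)))
    rw [hk]
    exact Nat.Coprime.pow_right _ ((Nat.Prime.coprime_iff_not_dvd hp.out).2 hg).symm
  have h := Cfsg.Agent.H1.Coprime.trivial_on_frattini_quotient (Subgroup.zpowers g) D hA hcop ?_
  · exact h (Subgroup.mem_zpowers g)
  · -- the set of elements acting trivially mod D'
    let N : Subgroup G := ⁅D, D⁆
    have hN : N ≤ (frattini D).map D.subtype :=
      Cfsg.Agent.H22.Coprime3.commutator_le_map_frattini hD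
    intro a ha k hk
    apply hN
    haveI : N.Normal := Subgroup.commutator_normal D D
    have key : ∀ d ∈ D, Commute (QuotientGroup.mk g : G ⧸ N) (QuotientGroup.mk d) := by
      intro d hd
      have h1 := hc d hd
      show (QuotientGroup.mk g : G ⧸ N) * QuotientGroup.mk d = QuotientGroup.mk d * QuotientGroup.mk g
      rw [← QuotientGroup.mk_mul, ← QuotientGroup.mk_mul, eq_comm, QuotientGroup.eq]
      have h2 : (d * g)⁻¹ * (g * d) = (d*g)⁻¹ * (g * d * g⁻¹ * d⁻¹) * ((d*g)⁻¹)⁻¹ := by group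
      rw [h2]
      exact Subgroup.Normal.conj_mem ‹_› _ h1 _
    obtain ⟨n, rfl⟩ := Subgroup.mem_zpowers_iff.1 ha
    have h3 : Commute (QuotientGroup.mk (g ^ n) : G ⧸ N) (QuotientGroup.mk k) := by
      rw [QuotientGroup.mk_zpow]
      exact (key k hk).zpow_left n
    show g ^ n * k * (g ^ n)⁻¹ * k⁻¹ ∈ N
    rw [← QuotientGroup.eq_one_iff]
    rw [QuotientGroup.mk_mul, QuotientGroup.mk_mul, QuotientGroup.mk_mul, h3.eq]
    rw [QuotientGroup.mk_inv, QuotientGroup.mk_inv]
    group

theorem same_of_infl {G : Type*} [Group G] [Fintype G] (p : ℕ) [hp : Fact p.Prime]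
    {M : Ideal AlgInt} (hM : IsPModular p M)
    (D : Subgroup G) [hDn : D.Normal] (hD : IsPGroup p D) (N : Subgroup G) [hN : N.Normal]
    (hND : N = ⁅D, D⁆) [Fintype (G ⧸ N)]
    {χ ψ : IrrCharacter (G ⧸ N)}
    (h : SameBlock M ((infl N χ : IrrCharacter G) : G → ℂ) ((infl N ψ : IrrCharacter G) : G → ℂ)) :
    SameBlock M (χ : G ⧸ N → ℂ) (ψ : G ⧸ N → ℂ) := by
  classical
  haveI := hM.2.1
  haveI : Fintype (IrrCharacter (G ⧸ N)) := Fintype.ofFinite _
  haveI : Fintype (ConjClasses (G ⧸ N)) := Fintype.ofFinite _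
  have hNleD : N ≤ D := by rw [hND]; exact Subgroup.commutator_le_left D D
  have hNp : IsPGroup p N := hD.to_le hNleD
  have hDbn : (D.map (QuotientGroup.mk' N)).Normal :=
    Subgroup.Normal.map hDn _ (QuotientGroup.mk'_surjective N)
  have hDbp : IsPGroup p (D.map (QuotientGroup.mk' N)) := hD.map _
  have hcn : (Subgroup.centralizer (D : Set G)).Normal := Subgroup.normal_centralizer
  set b := blockOf M (χ : G ⧸ N → ℂ) with hb
  have hbb : IsPBlock M b := isPBlock_blockOf χ
  -- regular elements centralizing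
  have hreg : ∀ g : G, ¬ p ∣ orderOf g →
      (QuotientGroup.mk g : G ⧸ N) ∈ Subgroup.centralizer ((D.map (QuotientGroup.mk' N) : Subgroup (G ⧸ N)) : Set (G ⧸ N)) →
      g ∈ Subgroup.centralizer (D : Set G) := by
    intro g hg hc
    refine reg_centralizes p D hD hg ?_
    intro d hd
    rw [← hND, ← QuotientGroup.eq_one_iff]
    have := Subgroup.mem_centralizer_iff.1 hc (QuotientGroup.mk d) ⟨d, hd, rfl⟩
    rw [QuotientGroup.mk_mul, QuotientGroup.mk_mul, QuotientGroup.mk_mul, ← this,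
      QuotientGroup.mk_inv, QuotientGroup.mk_inv]
    group
  let z : ZC G := ⟨ofFun (fun g => if p ∣ orderOf g ∨ g ∉ Subgroup.centralizer (D : Set G) then 0 else
      ((eB b : ZC (G ⧸ N)) : MonoidAlgebra ℂ (G ⧸ N)).coeff (QuotientGroup.mk g)), by
    rw [mem_center_iff]
    intro x y
    show (if p ∣ orderOf (y * x * y⁻¹) ∨ (y * x * y⁻¹) ∉ Subgroup.centralizer (D : Set G) then (0:ℂ) else ((eB b : ZC (G ⧸ N)) : MonoidAlgebra ℂ (G ⧸ N)).coeff
      (QuotientGroup.mk (y * x * y⁻¹))) = if p ∣ orderOf x ∨ x ∉ Subgroup.centralizer (D : Set G) then 0 else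
      ((eB b : ZC (G ⧸ N)) : MonoidAlgebra ℂ (G ⧸ N)).coeff (QuotientGroup.mk x)
    rw [orderOf_conj]
    have h1 : y * x * y⁻¹ ∈ Subgroup.centralizer (D : Set G) ↔ x ∈ Subgroup.centralizer (D : Set G) := by
      constructor
      · intro h
        have := hcn.conj_mem _ h y⁻¹
        simpa [mul_assoc] using this
      · intro h; exact hcn.conj_mem _ h y
    have : ((eB b : ZC (G ⧸ N)) : MonoidAlgebra ℂ (G ⧸ N)).coeff (QuotientGroup.mk (y * x * y⁻¹)) =
      ((eB b : ZC (G ⧸ N)) : MonoidAlgebra ℂ (G ⧸ N)).coeff (QuotientGroup.mk x) :=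
      (mem_center_iff _).1 (eB b).2 (QuotientGroup.mk x) (QuotientGroup.mk y)
    rw [this]
    simp only [h1]⟩
  have hz : ∀ g, (z : MonoidAlgebra ℂ G).coeff g = if p ∣ orderOf g ∨ g ∉ Subgroup.centralizer (D : Set G) then 0 else
      ((eB b : ZC (G ⧸ N)) : MonoidAlgebra ℂ (G ⧸ N)).coeff (QuotientGroup.mk g) := fun g => rfl
  have hzI : z ∈ ZI G M := by
    intro g
    rw [hz]
    split_ifs with hg
    · exact ring_zero
    · exact eB_mem_ZI hbb _
  have hpush : ∀ x : G ⧸ N, (pushZ N z : MonoidAlgebra ℂ (G ⧸ N)).coeff x =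
      if x ∈ Subgroup.centralizer ((D.map (QuotientGroup.mk' N) : Subgroup (G ⧸ N)) : Set (G ⧸ N)) then
        (eB b : MonoidAlgebra ℂ (G ⧸ N)).coeff x else 0 := by
    intro x
    rw [pushZ_coeff]
    by_cases hx : p ∣ orderOf x
    · rw [eB_coeff, blockCoeff_eq_zero hM hbb x hx, ite_self]
      apply Finset.sum_eq_zero
      intro g _
      by_cases hg : (QuotientGroup.mk g : G ⧸ N) = x
      · rw [if_pos hg, hz]
        have : p ∣ orderOf g := by
          refine hx.trans ?_
          rw [← hg]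
          exact orderOf_map_dvd (QuotientGroup.mk' N) g
        rw [if_pos (Or.inl this)]
      · rw [if_neg hg]
    · by_cases hxc : x ∈ Subgroup.centralizer ((D.map (QuotientGroup.mk' N) : Subgroup (G ⧸ N)) : Set (G ⧸ N))
      · rw [if_pos hxc]
        obtain ⟨g₀, hg₀⟩ := QuotientGroup.mk_surjective x
        obtain ⟨u, v, huv, hcomm, hu, hv⟩ := exists_ppart (p := p) g₀
        have hxu : (QuotientGroup.mk u : G ⧸ N) = 1 := by
          have h1 : IsPPart p x (QuotientGroup.mk u : G ⧸ N) := by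
            refine ⟨QuotientGroup.mk v, ?_, ?_, ?_, ?_⟩
            · rw [← QuotientGroup.mk_mul, huv, hg₀]
            · show (QuotientGroup.mk u : G ⧸ N) * QuotientGroup.mk v = QuotientGroup.mk v * QuotientGroup.mk u
              rw [← QuotientGroup.mk_mul, ← QuotientGroup.mk_mul, hcomm.eq]
            · obtain ⟨k, hk⟩ := hu
              have : orderOf (QuotientGroup.mk u : G ⧸ N) ∣ p ^ k := by
                rw [← hk]; exact orderOf_map_dvd (QuotientGroup.mk' N) u
              obtain ⟨j, _, hj⟩ := (Nat.dvd_prime_pow hM.1).1 this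
              exact ⟨j, hj⟩
            · intro hd
              exact hv (hd.trans (orderOf_map_dvd (QuotientGroup.mk' N) v))
          exact (ppart_regular_iff h1).2 hx
        have hxv : (QuotientGroup.mk v : G ⧸ N) = x := by
          rw [← hg₀, ← huv, QuotientGroup.mk_mul, hxu, one_mul]
        have hvC : v ∈ Subgroup.centralizer (D : Set G) := hreg v hv (by rw [hxv]; exact hxc)
        rw [Finset.sum_eq_single v]
        · rw [if_pos hxv, hz, if_neg (by rintro (h | h); exacts [hv h, h hvC]), hxv]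
        · intro g _ hne
          by_cases hg : (QuotientGroup.mk g : G ⧸ N) = x
          · rw [if_pos hg, hz]
            by_cases hgr : p ∣ orderOf g ∨ g ∉ Subgroup.centralizer (D : Set G)
            · rw [if_pos hgr]
            · exfalso
              apply hne
              push Not at hgr
              have hw : v⁻¹ * g ∈ N := by
                rw [← QuotientGroup.eq]
                rw [hxv, hg]
              have hcw : Commute (v⁻¹ * g) v := Subgroup.mem_centralizer_iff.1 hvC _ (hNleD hw)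
              have hwp : ∃ k : ℕ, orderOf (v⁻¹ * g) = p ^ k := by
                obtain ⟨k, hk⟩ := IsPGroup.iff_orderOf.1 hNp ⟨_, hw⟩
                exact ⟨k, by rwa [Subgroup.orderOf_mk] at hk⟩
              have e1 : (v⁻¹ * g) * v = 1 * g := by
                have h5 : (v⁻¹ * g) * v = v * (v⁻¹ * g) := hcw
                rw [h5]; group
              have := parts_unique e1 hcw (Commute.one_left g) hwp ⟨0, by simp⟩ hv hgr.1
              exact this.2.symm
          · rw [if_neg hg]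
        · intro h; exact absurd (Finset.mem_univ _) h
      · rw [if_neg hxc]
        apply Finset.sum_eq_zero
        intro g _
        by_cases hg : (QuotientGroup.mk g : G ⧸ N) = x
        · rw [if_pos hg, hz]
          have : g ∉ Subgroup.centralizer (D : Set G) := by
            intro hgc
            apply hxc
            rw [Subgroup.mem_centralizer_iff]
            rintro _ ⟨d, hd, rfl⟩
            rw [← hg]
            have := Subgroup.mem_centralizer_iff.1 hgc d hd
            show (QuotientGroup.mk d : G ⧸ N) * QuotientGroup.mk g = QuotientGroup.mk g * QuotientGroup.mk d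
            rw [← QuotientGroup.mk_mul, this, QuotientGroup.mk_mul]
          rw [if_pos (Or.inr this)]
        · rw [if_neg hg]
  -- om is computed by pushZ z
  have hom : ∀ φ : IrrCharacter (G ⧸ N), MemLocalIdeal M (om φ (pushZ N z) - om φ (eB b)) := by
    intro φ
    rw [om_eq_sum φ (pushZ N z), om_eq_sum φ (eB b), ← Finset.sum_sub_distrib]
    refine ideal_sum _ _ fun C _ => ?_
    rw [hpush, ← sub_mul]
    split_ifs with hC
    · rw [sub_self, zero_mul]; exact ideal_zero
    · rw [zero_sub]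
      refine ideal_mul_left ?_ ?_
      · exact ring_neg (eB_mem_ZI hbb _)
      · exact om_cs_mem_ideal hM _ hDbp φ hC
  have h1 := om_sub_mem_of_sameBlock h hzI
  rw [← om_pushZ, ← om_pushZ] at h1
  have h2 : MemLocalIdeal M (om χ (eB b) - om ψ (eB b)) := by
    have e : om χ (eB b) - om ψ (eB b) = (om χ (pushZ N z) - om ψ (pushZ N z)) -
      (om χ (pushZ N z) - om χ (eB b)) + (om ψ (pushZ N z) - om ψ (eB b)) := by ring
    rw [e]
    exact ideal_add (ideal_sub h1 (hom χ)) (hom ψ)
  rw [om_eB, om_eB, if_pos (mem_blockOf_self χ)] at h2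
  by_cases hψ : ψ ∈ b
  · exact hψ
  · rw [if_neg hψ, sub_zero] at h2
    exact absurd h2 one_notMem_ideal

/-- Let D be a normal p-subgroup of the finite group G, let D′ be its commutator subgroup (normal in G), and fix a maximal ideal M of the algebraic integers containing p. Then (i) two irreducible characters of G ⧸ D′ lie in the same p-block if and only if their inflations to G do, and (ii) every p-block of G contains the inflation of some irreducible character of G ⧸ D′; so inflation induces a bijection between the p-blocks of G ⧸ D′ and the p-blocks of G. -/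
theorem result {G : Type*} [Group G] [Finite G] (p : ℕ) [Fact p.Prime] (M : Ideal Cfsg.AlgInt) (hM : Cfsg.IsPModular p M) (D : Subgroup G) [D.Normal] (hD : IsPGroup p D) : (∀ χ ψ : Cfsg.IrrCharacter (G ⧸ ⁅D, D⁆), Cfsg.SameBlock M (χ : G ⧸ ⁅D, D⁆ → ℂ) (ψ : G ⧸ ⁅D, D⁆ → ℂ) ↔ Cfsg.SameBlock M ((χ : G ⧸ ⁅D, D⁆ → ℂ) ∘ QuotientGroup.mk) ((ψ : G ⧸ ⁅D, D⁆ → ℂ) ∘ QuotientGroup.mk)) ∧ ∀ B : Set (Cfsg.IrrCharacter G), Cfsg.IsPBlock M B → ∃ χ : Cfsg.IrrCharacter (G ⧸ ⁅D, D⁆), ∃ θ ∈ B, (θ : G → ℂ) = (χ : G ⧸ ⁅D, D⁆ → ℂ) ∘ QuotientGroup.mk := by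
  classical
  haveI : Fintype G := Fintype.ofFinite G
  haveI : Fintype (G ⧸ ⁅D, D⁆) := Fintype.ofFinite _
  haveI := hM.2.1
  refine ⟨fun χ ψ => ⟨fun h => sameBlock_infl ⁅D, D⁆ h, fun h =>
    same_of_infl p hM D hD ⁅D, D⁆ rfl h⟩, ?_⟩
  intro B hB
  obtain ⟨θ, hθ, hk⟩ := exists_mem_ker hM hB D hD
  obtain ⟨χ, hχ⟩ := exists_infl ⁅D, D⁆ (ψ := θ) (fun u hu => hk u (Subgroup.commutator_le_left D D hu))
  refine ⟨χ, θ, hθ, ?_⟩
  rw [← hχ]
  rfl

end Cfsg.Agent.S4964
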