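import Cfsg.Statements.S4965
import Mathlib.GroupTheory.CommutingProbability
import Mathlib.GroupTheory.SemidirectProduct
-- import your own Cfsg.Agent.* helpers here

set_option autoImplicit false
open Cfsg

namespace Cfsg.Agent.S4965

/-- Let X be a finite group with an abelian normal subgroup V. -/
theorem result {X : Type*} [Group X] [Finite X] (V : Subgroup X) [V.Normal] (hab : ∀ a ∈ V, ∀ b ∈ V, a * b = b * a) (φ : X ⧸ V →* MulAut ↥V) (hφ : ∀ (x : X) (v : ↥V), ((φ (QuotientGroup.mk x) v : ↥V) : X) = x * v * x⁻¹) : Nat.card (ConjClasses X) ≤ Nat.card (ConjClasses (SemidirectProduct ↥V (X ⧸ V) φ)) := by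
  classical
  have hS : Finite (SemidirectProduct ↥V (X ⧸ V) φ) := Finite.of_equiv _ SemidirectProduct.equivProd.symm
  have hcard : Nat.card (SemidirectProduct ↥V (X ⧸ V) φ) = Nat.card X := by
    rw [Nat.card_congr (SemidirectProduct.equivProd), Nat.card_prod, mul_comm,
      ← Subgroup.card_eq_card_quotient_mul_card_subgroup]
  have hX := card_comm_eq_card_conjClasses_mul_card X
  have hS' := card_comm_eq_card_conjClasses_mul_card (SemidirectProduct ↥V (X ⧸ V) φ)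
  have hpos : 0 < Nat.card X := Nat.card_pos
  -- base points
  have hbase : ∀ ab : (X ⧸ V) × (X ⧸ V), ∃ p : X × X,
      (∃ q : X × X, Commute q.1 q.2 ∧ (QuotientGroup.mk q.1 : X ⧸ V) = ab.1 ∧ (QuotientGroup.mk q.2 : X ⧸ V) = ab.2) →
        Commute p.1 p.2 ∧ (QuotientGroup.mk p.1 : X ⧸ V) = ab.1 ∧ (QuotientGroup.mk p.2 : X ⧸ V) = ab.2 := by
    intro ab
    by_cases h : ∃ q : X × X, Commute q.1 q.2 ∧ (QuotientGroup.mk q.1 : X ⧸ V) = ab.1 ∧ (QuotientGroup.mk q.2 : X ⧸ V) = ab.2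
    · exact ⟨h.choose, fun _ => h.choose_spec⟩
    · exact ⟨1, fun h' => absurd h' h⟩
  choose base hbase using hbase
  have key : ∀ p : {p : X × X // Commute p.1 p.2},
      Commute (base (QuotientGroup.mk p.1.1, QuotientGroup.mk p.1.2)).1 (base (QuotientGroup.mk p.1.1, QuotientGroup.mk p.1.2)).2 ∧
      (QuotientGroup.mk (base (QuotientGroup.mk p.1.1, QuotientGroup.mk p.1.2)).1 : X ⧸ V) = QuotientGroup.mk p.1.1 ∧
      (QuotientGroup.mk (base (QuotientGroup.mk p.1.1, QuotientGroup.mk p.1.2)).2 : X ⧸ V) = QuotientGroup.mk p.1.2 := by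
    intro p
    exact hbase (QuotientGroup.mk p.1.1, QuotientGroup.mk p.1.2) ⟨p.1, p.2, rfl, rfl⟩
  have hmem : ∀ (x x0 : X), (QuotientGroup.mk x0 : X ⧸ V) = QuotientGroup.mk x → x * x0⁻¹ ∈ V := by
    intro x x0 h
    have h1 : (QuotientGroup.mk (x * x0⁻¹) : X ⧸ V) = 1 := by
      rw [QuotientGroup.mk_mul, QuotientGroup.mk_inv, h, mul_inv_cancel]
    exact (QuotientGroup.eq_one_iff _).1 h1
  have hcomm : ∀ (x y x0 y0 : X) (_ : Commute x y) (_ : Commute x0 y0)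
      (hx : (QuotientGroup.mk x0 : X ⧸ V) = QuotientGroup.mk x) (hy : (QuotientGroup.mk y0 : X ⧸ V) = QuotientGroup.mk y),
      Commute (⟨⟨x * x0⁻¹, hmem _ _ hx⟩, QuotientGroup.mk x⟩ : SemidirectProduct ↥V (X ⧸ V) φ)
        ⟨⟨y * y0⁻¹, hmem _ _ hy⟩, QuotientGroup.mk y⟩ := by
    intro x y x0 y0 hxy h1 h2 h3
    apply SemidirectProduct.ext
    · apply Subtype.ext
      simp only [SemidirectProduct.mul_left, Subgroup.coe_mul]
      rw [← h2, ← h3, hφ, hφ]
      have e1 : (x * x0⁻¹) * (x0 * (y * y0⁻¹) * x0⁻¹) = (x * y) * (y0⁻¹ * x0⁻¹) := by group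
      have e2 : (y * y0⁻¹) * (y0 * (x * x0⁻¹) * y0⁻¹) = (y * x) * (x0⁻¹ * y0⁻¹) := by group
      rw [e1, e2, hxy.eq]
      congr 1
      rw [← mul_inv_rev, ← mul_inv_rev, h1.eq]
    · simp only [SemidirectProduct.mul_right]
      rw [← QuotientGroup.mk_mul, ← QuotientGroup.mk_mul, hxy.eq]
  let f : {p : X × X // Commute p.1 p.2} →
      {p : (SemidirectProduct ↥V (X ⧸ V) φ) × (SemidirectProduct ↥V (X ⧸ V) φ) // Commute p.1 p.2} :=
    fun p => ⟨(⟨⟨p.1.1 * (base (QuotientGroup.mk p.1.1, QuotientGroup.mk p.1.2)).1⁻¹, hmem _ _ (key p).2.1⟩, QuotientGroup.mk p.1.1⟩,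
        ⟨⟨p.1.2 * (base (QuotientGroup.mk p.1.1, QuotientGroup.mk p.1.2)).2⁻¹, hmem _ _ (key p).2.2⟩, QuotientGroup.mk p.1.2⟩),
        hcomm _ _ _ _ p.2 (key p).1 (key p).2.1 (key p).2.2⟩
  have hf : Function.Injective f := by
    rintro ⟨⟨x, y⟩, hxy⟩ ⟨⟨x', y'⟩, hxy'⟩ h
    have h1 := congrArg (fun q => (q.1.1.right, q.1.2.right)) h
    have h2 := congrArg (fun q => ((q.1.1.left : X), (q.1.2.left : X))) h
    simp only [f, Prod.mk.injEq] at h1 h2
    obtain ⟨h1a, h1b⟩ := h1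
    obtain ⟨h2a, h2b⟩ := h2
    rw [h1a, h1b] at h2a h2b
    have ex := mul_right_cancel h2a
    have ey := mul_right_cancel h2b
    subst ex; subst ey; rfl
  have hle := Nat.card_le_card_of_injective f hf
  rw [hX, hS', hcard] at hle
  exact Nat.le_of_mul_le_mul_right hle hpos

end Cfsg.Agent.S4965
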