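import Cfsg.Statements.S4967
import Cfsg.Agent.H23_IrrField


set_option autoImplicit false
open Cfsg

namespace Cfsg.Agent.S4967


/-- Let F be a finite field with r elements and of characteristic p, H a finite abelian group of order prime to p, and V a faithful irreducible representation of H over F of dimension n (faithful: distinct elements act differently; irreducible: the only H-invariant subspaces are 0 and V). Call V self-dual when it carries a nondegenerate H-invariant bilinear form. If n = 1 and V is self-dual then H has order at most 2. If n ≥ 2 then V is self-dual if and only if n is even and the order of H divides r^(n/2) + 1. -/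
theorem result {F : Type*} [Field F] [Fintype F] (p : ℕ) [Fact p.Prime] [CharP F p] {H : Type*} [CommGroup H] [Finite H] (hcop : ¬ p ∣ Nat.card H) {V : Type*} [AddCommGroup V] [Module F V] [FiniteDimensional F V] (ρ : Representation F H V) (hfaith : Function.Injective ρ) (hirr : ∀ U : Submodule F V, (∀ h : H, ∀ u ∈ U, ρ h u ∈ U) → U = ⊥ ∨ U = ⊤) : (Module.finrank F V = 1 → (∃ B : LinearMap.BilinForm F V, B.Nondegenerate ∧ ∀ h : H, ∀ x y : V, B (ρ h x) (ρ h y) = B x y) → Nat.card H ≤ 2) ∧ (2 ≤ Module.finrank F V → ((∃ B : LinearMap.BilinForm F V, B.Nondegenerate ∧ ∀ h : H, ∀ x y : V, B (ρ h x) (ρ h y) = B x y) ↔ (Even (Module.finrank F V) ∧ Nat.card H ∣ Fintype.card F ^ (Module.finrank F V / 2) + 1))) := by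
  classical
  refine ⟨?_, ?_⟩
  · rintro h1 ⟨B, hB, hinv⟩
    haveI : Nontrivial V := Module.nontrivial_of_finrank_pos (R := F) (by omega)
    rcases Cfsg.Agent.H23.IrrField.card_of_form ρ hfaith hirr B hB hinv with ⟨_, h2⟩ | ⟨h2, _⟩
    · exact Nat.le_of_dvd (by norm_num) h2
    · rw [h1] at h2
      exact absurd h2 (by decide)
  · intro h2
    haveI : Nontrivial V := Module.nontrivial_of_finrank_pos (R := F) (by omega)
    constructor
    · rintro ⟨B, hB, hinv⟩
      rcases Cfsg.Agent.H23.IrrField.card_of_form ρ hfaith hirr B hB hinv with ⟨h3, _⟩ | h3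
      · omega
      · exact h3
    · rintro ⟨_, h3⟩
      exact Cfsg.Agent.H23.IrrField.form_of_card ρ hirr _ h3


end Cfsg.Agent.S4967
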