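import Cfsg.Statements.S5013
import Cfsg.Agent.H13_RO

set_option autoImplicit false
open Cfsg

namespace Cfsg.Agent.S5013

/-- In a rank one group with unipotent subgroups A and B (conjugation written g H g⁻¹), for every non-identity a in A the non-identity b in B with b⁻¹ A b = a⁻¹ B a is unique, every non-identity b in B arises in this way from exactly one such a (so a ↦ b(a) is a bijection between the non-identity elements of A and of B), and no non-identity element of A normalizes B (and vice versa). -/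
theorem result {G : Type*} [Group G] {A B : Subgroup G} (h : Cfsg.IsRankOnePair A B) :
    (∀ a ∈ A, a ≠ 1 → ∃! b : G, b ∈ B ∧ b ≠ 1 ∧ Cfsg.conjBy A b⁻¹ = Cfsg.conjBy B a⁻¹) ∧
    (∀ b ∈ B, b ≠ 1 → ∃! a : G, a ∈ A ∧ a ≠ 1 ∧ Cfsg.conjBy A b⁻¹ = Cfsg.conjBy B a⁻¹) ∧
    A ⊓ Subgroup.normalizer (B : Set G) = ⊥ ∧ B ⊓ Subgroup.normalizer (A : Set G) = ⊥ := by
  have h0 := h
  refine ⟨?_, ?_, H13.RO.inf_norm h, H13.RO.inf_norm (H13.RO.symm h)⟩
  · intro a ha ha1
    obtain ⟨b, hb, hb1, hbe⟩ := h.cond_left a ha ha1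
    refine ⟨b, ⟨hb, hb1, hbe⟩, ?_⟩
    rintro b' ⟨hb', hb1', hbe'⟩
    have := H13.RO.unique_gen h (H13.RO.right_mem h) H13.RO.left_mem h.ne (B.inv_mem hb') (B.inv_mem hb)
      (hbe'.trans hbe.symm)
    exact inv_injective this
  · intro b hb hb1
    obtain ⟨a, ha, ha1, hae⟩ := h.cond_right b hb hb1
    refine ⟨a, ⟨ha, ha1, hae.symm⟩, ?_⟩
    rintro a' ⟨ha', ha1', hae'⟩
    have := H13.RO.unique_gen h H13.RO.left_mem (H13.RO.right_mem h) h.ne.symm (A.inv_mem ha') (A.inv_mem ha)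
      (hae'.symm.trans hae.symm)
    exact inv_injective this

end Cfsg.Agent.S5013
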