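import Cfsg.Statements.S5014
import Cfsg.Agent.H13_RO

set_option autoImplicit false
open Cfsg

namespace Cfsg.Agent.S5014

/-- Let X = ⟨A, B⟩ be a rank one group with unipotent subgroups A and B and let Ω be the set of conjugates of A under X. Then Ω has at least three members, X acts doubly transitively on Ω by conjugation (any two ordered pairs of distinct members are carried to one another by a single element of X), and A acts regularly on Ω with A removed: for C, D in Ω different from A there is exactly one element of A conjugating C to D. -/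
theorem result {G : Type*} [Group G] {A B : Subgroup G} (h : Cfsg.IsRankOnePair A B) :
    (∃ C₁ ∈ Cfsg.unipotentSubgroups A B, ∃ C₂ ∈ Cfsg.unipotentSubgroups A B, ∃ C₃ ∈ Cfsg.unipotentSubgroups A B,
      C₁ ≠ C₂ ∧ C₁ ≠ C₃ ∧ C₂ ≠ C₃) ∧
    (∀ C₁ ∈ Cfsg.unipotentSubgroups A B, ∀ C₂ ∈ Cfsg.unipotentSubgroups A B, ∀ D₁ ∈ Cfsg.unipotentSubgroups A B,
      ∀ D₂ ∈ Cfsg.unipotentSubgroups A B, C₁ ≠ C₂ → D₁ ≠ D₂ →
        ∃ x ∈ A ⊔ B, Cfsg.conjBy C₁ x = D₁ ∧ Cfsg.conjBy C₂ x = D₂) ∧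
    (∀ C ∈ Cfsg.unipotentSubgroups A B, ∀ D ∈ Cfsg.unipotentSubgroups A B, C ≠ A → D ≠ A →
      ∃! a : G, a ∈ A ∧ Cfsg.conjBy C a = D) := by
  refine ⟨?_, ?_, ?_⟩
  · obtain ⟨a, ha, ha1⟩ := H13.RO.exists_ne (H13.RO.left_ne_bot h)
    have h3 := H13.RO.third h ha ha1
    exact ⟨A, H13.RO.left_mem, B, H13.RO.right_mem h, Cfsg.conjBy B a,
      H13.RO.cj_mem (H13.RO.right_mem h) (Subgroup.mem_sup_left ha), h.ne, h3.2.symm, h3.1.symm⟩
  · intro C₁ h1 C₂ h2 D₁ h3 D₂ h4 hC hD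
    exact H13.RO.two_trans h h1 h2 h3 h4 hC hD
  · intro C hC D hD hCA hDA
    obtain ⟨a, ha, hae⟩ := H13.RO.trans_left h hC hD hCA hDA
    refine ⟨a, ⟨ha, hae⟩, ?_⟩
    rintro a' ⟨ha', hae'⟩
    exact H13.RO.unique_gen h H13.RO.left_mem hC hCA ha' ha (hae'.trans hae.symm)

end Cfsg.Agent.S5014
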