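import Cfsg.Statements.S5015
import Cfsg.Agent.H13_RO

set_option autoImplicit false
open Cfsg

namespace Cfsg.Agent.S5015

/-- Let a group Y act doubly transitively on a set Ω with at least three points, and suppose that the stabilizer of a point α contains a nilpotent subgroup A, normalized by that stabilizer, which acts regularly on the points other than α. Then for any y in Y moving α, the subgroups A and y A y⁻¹ are the unipotent subgroups of a rank one group, and the normal closure of A in Y (the subgroup generated by all conjugates of A) is generated by A and y A y⁻¹ alone. -/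
theorem result {Y Ω : Type*} [Group Y] [MulAction Y Ω]
    (h2 : MulAction.IsMultiplyPretransitive Y Ω 2) (hΩ : 3 ≤ ENat.card Ω) (α : Ω) (A : Subgroup Y)
    (hA : A ≤ MulAction.stabilizer Y α) (hAn : ∀ y ∈ MulAction.stabilizer Y α, Cfsg.conjBy A y = A)
    (hnil : Group.IsNilpotent A) (hreg : ∀ β γ : Ω, β ≠ α → γ ≠ α → ∃! a : Y, a ∈ A ∧ a • β = γ)
    (y : Y) (hy : y ∉ MulAction.stabilizer Y α) :
    Cfsg.IsRankOnePair A (Cfsg.conjBy A y) ∧ Subgroup.normalClosure (A : Set Y) = A ⊔ Cfsg.conjBy A y := by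
  classical
  -- the root group at γ
  have hwd : ∀ g h : Y, g • α = h • α → Cfsg.conjBy A g = Cfsg.conjBy A h := by
    intro g h hgh
    have h1 : h⁻¹ * g ∈ MulAction.stabilizer Y α := by
      rw [MulAction.mem_stabilizer_iff, mul_smul, hgh, inv_smul_smul]
    have h2 := hAn _ h1
    have h3 := congrArg (fun C => Cfsg.conjBy C h) h2
    simp only [H13.RO.cj_mul] at h3
    rwa [mul_inv_cancel_left] at h3
  have hβ : y • α ≠ α := by
    rwa [MulAction.mem_stabilizer_iff] at hy
  have htr : ∀ β γ : Ω, ∃ g : Y, g • β = γ := by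
    intro β γ
    have : MulAction.IsPretransitive Y Ω := by
      haveI := h2
      exact MulAction.isPretransitive_of_is_two_pretransitive
    exact this.exists_smul_eq β γ
  -- regularity of B
  have hfixB : ∀ g : Y, ∀ b ∈ Cfsg.conjBy A g, b • (g • α) = g • α := by
    intro g b hb
    rw [H13.RO.mem_cj] at hb
    have := hA hb
    rw [MulAction.mem_stabilizer_iff, mul_smul, mul_smul, inv_smul_eq_iff] at this
    exact this
  have hregB : ∀ g : Y, ∀ β γ : Ω, β ≠ g • α → γ ≠ g • α → ∃! b : Y, b ∈ Cfsg.conjBy A g ∧ b • β = γ := by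
    intro g β γ hβ hγ
    obtain ⟨a, ⟨ha, hae⟩, hau⟩ := hreg (g⁻¹ • β) (g⁻¹ • γ)
      (fun h => hβ (by rw [← h, smul_inv_smul])) (fun h => hγ (by rw [← h, smul_inv_smul]))
    refine ⟨g * a * g⁻¹, ⟨?_, ?_⟩, ?_⟩
    · rw [H13.RO.mem_cj]
      have : g⁻¹ * (g * a * g⁻¹) * g = a := by group
      rwa [this]
    · rw [mul_smul, mul_smul, hae, smul_inv_smul]
    · rintro b ⟨hb, hbe⟩
      rw [H13.RO.mem_cj] at hb
      have := hau (g⁻¹ * b * g) ⟨hb, by rw [mul_smul, mul_smul, smul_inv_smul, hbe]⟩
      rw [← this]; group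
  have main : ∀ g h : Y, g • α ≠ h • α → Cfsg.RankOneCondition (Cfsg.conjBy A g) (Cfsg.conjBy A h) := by
    intro g h hgh a ha ha1
    have h1 : a⁻¹ • (h • α) ≠ h • α := by
      intro h2
      have h3 := (hregB g (h • α) (h • α) hgh.symm hgh.symm).unique
        ⟨(Cfsg.conjBy A g).inv_mem ha, h2⟩ ⟨one_mem _, one_smul _ _⟩
      exact ha1 (by rw [← inv_inv a, h3, inv_one])
    have h1' : a⁻¹ • (h • α) ≠ g • α := by
      intro h2
      have h3 := hfixB g a ha
      rw [← h2, smul_inv_smul] at h3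
      exact h1 h3.symm
    obtain ⟨b, ⟨hb, hbe⟩, -⟩ := hregB h (g • α) (a⁻¹ • (h • α)) hgh h1
    refine ⟨b⁻¹, inv_mem hb, ?_, ?_⟩
    · intro h2
      rw [inv_eq_one] at h2
      rw [h2, one_smul] at hbe
      exact h1' hbe.symm
    · rw [inv_inv, H13.RO.cj_mul, H13.RO.cj_mul]
      apply hwd
      rw [mul_smul, mul_smul, hbe]
  have hne : A ≠ Cfsg.conjBy A y := by
    intro hAy
    obtain ⟨γ, hγ1, hγ2⟩ : ∃ γ : Ω, γ ≠ α ∧ γ ≠ y • α := by
      by_contra hcon
      push Not at hcon
      have : ENat.card Ω ≤ 2 := by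
        have hu : (Set.univ : Set Ω) ⊆ {α, y • α} := by
          intro γ _
          by_cases h1 : γ = α
          · left; exact h1
          · right; exact hcon γ h1
        calc ENat.card Ω = (Set.univ : Set Ω).encard := (Set.encard_univ Ω).symm
          _ ≤ ({α, y • α} : Set Ω).encard := Set.encard_le_encard hu
          _ ≤ 2 := (Set.encard_insert_le _ _).trans (by rw [Set.encard_singleton]; norm_num)
      have h3 : (3 : ℕ∞) ≤ 2 := hΩ.trans this
      exact absurd h3 (by decide)
    obtain ⟨a, ⟨ha, hae⟩, -⟩ := hreg (y • α) γ hβ hγ1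
    have h1 := hfixB y a (by rw [← hAy]; exact ha)
    rw [hae] at h1
    exact hγ2 h1
  have hnilc : Group.IsNilpotent (Cfsg.conjBy A y) :=
    Group.nilpotent_of_surjective ((MulAut.conj y).toMonoidHom.subgroupMap A)
      ((MulAut.conj y).toMonoidHom.subgroupMap_surjective A)
  have hc1 : Cfsg.conjBy A (1 : Y) = A := H13.RO.cj_one A
  refine ⟨⟨hne, hnil, hnilc, ?_, ?_⟩, ?_⟩
  · have := main 1 y (by rw [one_smul]; exact hβ.symm)
    rwa [hc1] at this
  · have := main y 1 (by rw [one_smul]; exact hβ)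
    rwa [hc1] at this
  · apply le_antisymm
    · rw [Subgroup.normalClosure, Subgroup.closure_le]
      intro x hx
      rw [Group.mem_conjugatesOfSet_iff] at hx
      obtain ⟨a, ha, hax⟩ := hx
      obtain ⟨g, rfl⟩ := isConj_iff.1 hax
      by_cases hgα : g • α = α
      · have h1 := hAn g hgα
        apply Subgroup.mem_sup_left
        rw [← h1, H13.RO.mem_cj]
        have : g⁻¹ * (g * a * g⁻¹) * g = a := by group
        rwa [this]
      · obtain ⟨a', ⟨ha', hae'⟩, -⟩ := hreg (y • α) (g • α) hβ hgα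
        rw [← mul_smul] at hae'
        have h1 := hwd _ _ hae'
        have h2 : g * a * g⁻¹ ∈ Cfsg.conjBy A g := by
          rw [H13.RO.mem_cj]
          have : g⁻¹ * (g * a * g⁻¹) * g = a := by group
          rwa [this]
        rw [← h1, ← H13.RO.cj_mul, H13.RO.mem_cj] at h2
        have h3 : a' ∈ A ⊔ Cfsg.conjBy A y := Subgroup.mem_sup_left ha'
        have h4 : a'⁻¹ * (g * a * g⁻¹) * a' ∈ A ⊔ Cfsg.conjBy A y := Subgroup.mem_sup_right h2
        have h5 := mul_mem (mul_mem h3 h4) (inv_mem h3)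
        have : a' * (a'⁻¹ * (g * a * g⁻¹) * a') * a'⁻¹ = g * a * g⁻¹ := by group
        rw [this] at h5
        exact h5
    · rw [sup_le_iff]
      refine ⟨Subgroup.le_normalClosure, ?_⟩
      intro x hx
      rw [H13.RO.mem_cj] at hx
      have h1 : y⁻¹ * x * y ∈ Subgroup.normalClosure (A : Set Y) := Subgroup.subset_normalClosure hx
      have h2 := (Subgroup.normalClosure_normal (s := (A : Set Y))).conj_mem _ h1 y
      have : y * (y⁻¹ * x * y) * y⁻¹ = x := by group
      rwa [this] at h2

end Cfsg.Agent.S5015
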