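import Cfsg.Statements.S5018
import Cfsg.Agent.H13_RO

set_option autoImplicit false
open Cfsg

namespace Cfsg.Agent.S5018

open scoped commutatorElement

/-- A rank one group is not nilpotent, and its second centre equals its centre. -/
theorem result {X : Type*} [Group X] {A B : Subgroup X} (h : Cfsg.IsRankOneGroup X A B) :
    Subgroup.upperCentralSeries X 2 = Subgroup.center X ∧ ¬ Group.IsNilpotent X := by
  refine ⟨?_, H13.RO.isNilpotent_absurd h⟩
  have h1 : Subgroup.center X ≤ Subgroup.upperCentralSeries X 2 := by
    rw [← Subgroup.upperCentralSeries_one]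
    exact Subgroup.upperCentralSeries_mono X (by norm_num)
  refine le_antisymm ?_ h1
  rcases H13.RO.normal_or h (Subgroup.upperCentralSeries X 2) inferInstance with h2 | h2
  · exfalso
    have hnil := H13.RO.nilpotent_quot h (Subgroup.upperCentralSeries X 2) h2
    let g : X ⧸ Subgroup.center X →* X ⧸ Subgroup.upperCentralSeries X 2 :=
      QuotientGroup.map _ _ (MonoidHom.id X) (by simpa using h1)
    have h3 : Group.IsNilpotent (X ⧸ Subgroup.center X) := by
      refine Subgroup.isNilpotent_of_ker_le_center g ?_
      intro y hy
      obtain ⟨x, rfl⟩ := QuotientGroup.mk'_surjective _ y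
      have hx : x ∈ Subgroup.upperCentralSeries X 2 := by
        have : g (QuotientGroup.mk' _ x) = QuotientGroup.mk' _ x := rfl
        rw [MonoidHom.mem_ker, this] at hy
        exact (QuotientGroup.eq_one_iff x).1 hy
      rw [Subgroup.mem_center_iff]
      intro z
      obtain ⟨z, rfl⟩ := QuotientGroup.mk'_surjective _ z
      have h4 := (Subgroup.mem_upperCentralSeries_succ_iff).1 hx z
      rw [Subgroup.upperCentralSeries_one] at h4
      have h5 : QuotientGroup.mk' (Subgroup.center X) ⁅x, z⁆ = 1 :=
        (QuotientGroup.eq_one_iff (N := Subgroup.center X) _).2 h4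
      rw [map_commutatorElement, commutatorElement_eq_one_iff_mul_comm] at h5
      exact h5.symm
    exact H13.RO.isNilpotent_absurd h (Subgroup.isNilpotent_of_ker_le_center
      (QuotientGroup.mk' (Subgroup.center X)) (by rw [QuotientGroup.ker_mk']))
  · exact h2

end Cfsg.Agent.S5018
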