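import Cfsg.Statements.S5019
import Cfsg.Agent.H13_QM

set_option autoImplicit false
open Cfsg

namespace Cfsg.Agent.S5019

/-- Let X be a rank one group with abelian unipotent subgroups A and B, and suppose X acts on an abelian group N (written additively) in such a way that A acts quadratically, meaning a' • (a • n − n) = a • n − n for all a, a' in A and n in N, while X as a whole does not: y • (x • n − n) ≠ x • n − n for some x, y in X and n in N. Then X is a special rank one group. -/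
theorem result {X : Type*} [Group X] {A B : Subgroup X} (h : Cfsg.IsRankOneGroup X A B)
    (hab : Cfsg.HasAbelianUnipotents A B) {N : Type*} [AddCommGroup N] [DistribMulAction X N]
    (hq : ∀ a ∈ A, ∀ a' ∈ A, ∀ n : N, a' • (a • n - n) = a • n - n)
    (hX : ∃ x y : X, ∃ n : N, y • (x • n - n) ≠ x • n - n) : Cfsg.IsSpecialRankOnePair A B := by
  obtain ⟨hT, hp⟩ := h
  have hA := H13.QM.cm_le_fx hq
  have hB : H13.QM.cm N B ≤ H13.QM.fx N B := by
    obtain ⟨x, -, hx⟩ := H13.RO.right_mem hp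
    have := H13.QM.cm_le_fx (H13.QM.quad_conj hq x)
    rwa [← hx] at this
  have hne : ¬ H13.QM.cm N (A ⊔ B) ≤ H13.QM.fx N (A ⊔ B) := by
    intro hle
    obtain ⟨x, y, n, hxy⟩ := hX
    apply hxy
    exact hle (H13.QM.sub_mem_cm (by rw [hT]; exact Subgroup.mem_top _) n) y
      (by rw [hT]; exact Subgroup.mem_top _)
  refine ⟨hp, ?_⟩
  have main : ∀ a ∈ A, a ≠ 1 → ∀ b ∈ B, b ≠ 1 → Cfsg.conjBy A b = Cfsg.conjBy B a →
      b * a⁻¹ * b⁻¹ = a * b * a⁻¹ := by
    intro a ha ha1 b hb hb1 hab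
    have hkey : ∀ v ∈ H13.QM.cm N (A ⊔ B), (b * a⁻¹ * b⁻¹) • v = (a * b * a⁻¹) • v := by
      intro v hv
      rw [H13.QM.cm_sup] at hv
      obtain ⟨u, hu, w, hw, rfl⟩ := AddSubgroup.mem_sup.1 hv
      have hu' : (b * a⁻¹ * b⁻¹) • u = (a * b * a⁻¹) • u := by
        set w' := b • u - u with hw'
        have hz := H13.QM.rel hp hA hB ha hb hab hu
        rw [← hw'] at hz
        set z := u - (a • w' - w') with hzd
        have e0 : b • u = u + w' := by rw [hw']; abel
        have e1 : a • w' = w' + u - z := by rw [hzd]; abel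
        have e2 : b⁻¹ • u = u - w' := by
          have := H13.QM.inv_sub hB hb u
          rw [← hw'] at this
          rw [sub_eq_iff_eq_add] at this; rw [this]; abel
        have e3 : a⁻¹ • w' = w' - u + z := by
          have := H13.QM.inv_sub hA ha w'
          rw [sub_eq_iff_eq_add] at this; rw [this, e1]; abel
        have e4 : a⁻¹ • u = u := hA hu _ (A.inv_mem ha)
        have e5 : b • w' = w' := hB (H13.QM.sub_mem_cm hb u) b hb
        have e6 : a • u = u := hA hu _ ha
        have e7 : b • z = z := hz b (Subgroup.mem_sup_right hb)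
        rw [mul_smul, mul_smul, mul_smul, mul_smul, e2, smul_sub, e3, e4, smul_sub, smul_add, smul_sub,
          e0, e5, e7, smul_add, e6, e1]
        abel
      have hw' : (b * a⁻¹ * b⁻¹) • w = (a * b * a⁻¹) • w := by
        set u' := a • w - w with hu'
        have hz := H13.QM.rel (H13.RO.symm hp) hB hA hb ha hab.symm hw
        rw [← hu', sup_comm] at hz
        set z := w - (b • u' - u') with hzd
        have e0 : b • u' = u' + w - z := by rw [hzd]; abel
        have e1 : a⁻¹ • w = w - u' := by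
          have := H13.QM.inv_sub hA ha w
          rw [← hu'] at this
          rw [sub_eq_iff_eq_add] at this; rw [this]; abel
        have e2 : b⁻¹ • w = w := hB hw _ (B.inv_mem hb)
        have e3 : b • w = w := hB hw _ hb
        have e5 : a • u' = u' := hA (H13.QM.sub_mem_cm ha w) a ha
        have e7 : a • z = z := hz a (Subgroup.mem_sup_left ha)
        have e8 : w - (u' + w - z) = z - u' := by abel
        rw [mul_smul, mul_smul, mul_smul, mul_smul, e2, e1, smul_sub, e3, e0, e8, smul_sub, e7, e5]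
      rw [smul_add, smul_add, hu', hw']
    -- x := b⁻¹ * ((b a⁻¹ b⁻¹) * (a b a⁻¹)⁻¹) * b ∈ A acts trivially on [N, X]
    have hx : b⁻¹ * ((b * a⁻¹ * b⁻¹) * (a * b * a⁻¹)⁻¹) * b ∈ A := by
      rw [← H13.RO.mem_cj]
      refine mul_mem ?_ (inv_mem ?_)
      · rw [H13.RO.mem_cj]
        have : b⁻¹ * (b * a⁻¹ * b⁻¹) * b = a⁻¹ := by group
        rw [this]; exact A.inv_mem ha
      · rw [hab, H13.RO.mem_cj]
        have : a⁻¹ * (a * b * a⁻¹) * a = b := by group
        rwa [this]
    have h1 := H13.QM.nontriv hp hA hB hne hx (by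
      intro v hv
      have hinv : ∀ g ∈ A ⊔ B, ∀ v ∈ H13.QM.cm N (A ⊔ B), g • v ∈ H13.QM.cm N (A ⊔ B) :=
        fun g hg v hv => H13.QM.cm_conj (fun x hx => mul_mem (mul_mem hg hx) (inv_mem hg)) hv
      have hbv := hinv b (Subgroup.mem_sup_right hb) v hv
      have h2 : (a * b * a⁻¹)⁻¹ • (b • v) ∈ H13.QM.cm N (A ⊔ B) := hinv _ (inv_mem
        (mul_mem (mul_mem (Subgroup.mem_sup_left ha) (Subgroup.mem_sup_right hb))
        (inv_mem (Subgroup.mem_sup_left ha)))) _ hbv
      have h3 := hkey _ h2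
      rw [smul_inv_smul] at h3
      have h4 : (b⁻¹ * ((b * a⁻¹ * b⁻¹) * (a * b * a⁻¹)⁻¹) * b) • v = v := by
        rw [mul_smul, mul_smul, mul_smul (b * a⁻¹ * b⁻¹), h3, inv_smul_smul]
      rw [h4, sub_self]
      exact zero_mem _)
    have h2 : (b * a⁻¹ * b⁻¹) * (a * b * a⁻¹)⁻¹ = 1 := by
      have : (b * a⁻¹ * b⁻¹) * (a * b * a⁻¹)⁻¹ = b * (b⁻¹ * ((b * a⁻¹ * b⁻¹) * (a * b * a⁻¹)⁻¹) * b) * b⁻¹ := by
        group
      rw [this, h1]; group
    exact mul_inv_eq_one.1 h2
  intro a ha ha1 b hb hb1 hab'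
  have h1 := main a⁻¹ (A.inv_mem ha) (inv_ne_one.2 ha1) b⁻¹ (B.inv_mem hb) (inv_ne_one.2 hb1) hab'
  simpa using h1

end Cfsg.Agent.S5019
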