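import Cfsg.Statements.S5020
import Cfsg.Agent.H13_SP2
import Cfsg.Agent.H13_SPR
import Cfsg.Agent.H11_Components

set_option autoImplicit false
open Cfsg

namespace Cfsg.Agent.S5020

/-- Let X be a special rank one group with abelian unipotent subgroups A and B, and H = N(A) ∩ N(B) its diagonal subgroup. Then either A has at most three elements and X is isomorphic to SL₂(2), SL₂(3) or PSL₂(3); or X = X' A with the commutator subgroup X' quasisimple and the commutator subgroup ⁅A, H⁆ having more than three elements. -/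
theorem result {X : Type*} [Group X] {A B : Subgroup X} (h : Cfsg.IsRankOneGroup X A B)
    (hs : Cfsg.IsSpecialRankOnePair A B) (hab : Cfsg.HasAbelianUnipotents A B) :
    (ENat.card A ≤ 3 ∧ (Nonempty (X ≃* Matrix.SpecialLinearGroup (Fin 2) (ZMod 2)) ∨
        Nonempty (X ≃* Matrix.SpecialLinearGroup (Fin 2) (ZMod 3)) ∨
        Nonempty (X ≃* Matrix.ProjectiveSpecialLinearGroup (Fin 2) (ZMod 3)))) ∨
    (commutator X ⊔ A = ⊤ ∧ Cfsg.IsQuasisimple (commutator X) ∧
      3 < ENat.card ↥(⁅A, Cfsg.rankOneDiagonal A B⁆ : Subgroup X)) := by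
  obtain ⟨hT, hp⟩ := h
  have hAc : ∀ x ∈ A, ∀ y ∈ A, x * y = y * x := by
    intro x hx y hy
    exact congrArg Subtype.val (hab.1.is_comm.comm (⟨x, hx⟩ : A) ⟨y, hy⟩)
  have hBc : ∀ x ∈ B, ∀ y ∈ B, x * y = y * x := by
    intro x hx y hy
    exact congrArg Subtype.val (hab.2.is_comm.comm (⟨x, hx⟩ : B) ⟨y, hy⟩)
  by_cases hc : 3 < ENat.card A
  · right
    have h1 := H13.SP.sup_perfect hs hAc hBc hc
    have h2 : commutator X = ⊤ := by
      rw [commutator_def, ← hT]; exact h1
    refine ⟨by rw [h2]; exact top_sup_eq _, ?_, ?_⟩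
    · have hq : Cfsg.IsQuasisimple X := by
        refine H13.RO.isQuasisimple_of ⟨h2⟩ ?_ (H13.RO.center_ne_top ⟨hT, hp⟩)
        intro N hN
        rcases H13.RO.normal_or ⟨hT, hp⟩ N hN with h3 | h3
        · left
          have := hN
          have := H13.RO.nilpotent_quot ⟨hT, hp⟩ N h3
          by_contra hne
          have : Nontrivial (X ⧸ N) := QuotientGroup.nontrivial_iff.2 hne
          have h4 : commutator (X ⧸ N) = ⊤ := by
            rw [commutator_def, ← Subgroup.map_top_of_surjective _ (QuotientGroup.mk'_surjective N), ← Subgroup.map_commutator,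
              ← commutator_def, h2]
          have h5 : Group.IsSolvable (X ⧸ N) := inferInstance
          have h6 := Group.IsSolvable.commutator_lt_top_of_nontrivial (X ⧸ N)
          exact absurd h4 h6.ne
        · exact Or.inr h3
      rw [h2]
      exact H11.Components.IsQuasisimple.of_mulEquiv hq Subgroup.topEquiv.symm
    · rw [H13.SP.comm_eq hs hAc hBc hc]; exact hc
  · left
    rw [not_lt] at hc
    refine ⟨hc, ?_⟩
    obtain ⟨a, ha, ha1⟩ := H13.RO.exists_ne (H13.RO.left_ne_bot hp)
    obtain ⟨b, hb, hb1, hbe⟩ := H13.RO.cond hp ha ha1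
    have hrel := H13.SP.rel1 hs ha ha1 hb hb1 hbe
    have hcn : Finite A ∧ Nat.card A ≤ 3 := by
      have hf : Finite A := by
        rw [← ENat.card_lt_top]
        exact lt_of_le_of_lt hc (by decide)
      refine ⟨hf, ?_⟩
      rw [ENat.card_eq_coe_natCard] at hc
      exact_mod_cast hc
    have hcB : Finite B ∧ Nat.card B ≤ 3 := by
      have hc' := hc
      rw [H13.SP.card_eq hp] at hc'
      have hf : Finite B := by
        rw [← ENat.card_lt_top]
        exact lt_of_le_of_lt hc' (by decide)
      refine ⟨hf, ?_⟩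
      rw [ENat.card_eq_coe_natCard] at hc'
      exact_mod_cast hc'
    have hAB : Nat.card A = Nat.card B := by
      obtain ⟨hf, -⟩ := hcn
      obtain ⟨hf', -⟩ := hcB
      have := H13.SP.card_eq hp
      rw [ENat.card_eq_coe_natCard, ENat.card_eq_coe_natCard] at this
      exact_mod_cast this
    obtain ⟨hf, hcn⟩ := hcn
    obtain ⟨hf', hcB⟩ := hcB
    have hne : a * b ≠ b * a := by
      intro h
      have h1 := H13.RO.third hp ha ha1
      apply h1.2
      have h3 : b = a⁻¹ := by
        have e1 : a * b * a⁻¹ = b := by rw [h]; group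
        have e2 : b * a⁻¹ * b⁻¹ = a⁻¹ := by
          have : b * a⁻¹ = a⁻¹ * b := by
            have : a * (b * a⁻¹) = a * (a⁻¹ * b) := by
              rw [← mul_assoc, h]; group
            exact mul_left_cancel this
          rw [this]; group
        rw [e1, e2] at hrel; exact hrel
      exfalso
      have h4 : b ∈ A ⊓ B := Subgroup.mem_inf.2 ⟨by rw [h3]; exact A.inv_mem ha, hb⟩
      rw [H13.RO.inf_eq_bot hp] at h4
      exact hb1 (Subgroup.mem_bot.1 h4)
    have hgen : ∀ (C : Subgroup X) (c : X), Finite C → Nat.card C ≤ 3 → c ∈ C → c ≠ 1 → C = Subgroup.zpowers c := by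
      intro C c hf hC hc hc1
      have h2 : Subgroup.zpowers c ≤ C := by rw [Subgroup.zpowers_le]; exact hc
      refine (Subgroup.eq_of_le_of_card_ge h2 ?_).symm
      have h3 : Nat.card (Subgroup.zpowers c) ∣ Nat.card C := Subgroup.card_dvd_of_le h2
      have h4 : 1 < Nat.card (Subgroup.zpowers c) := by
        have : Finite (Subgroup.zpowers c) := Finite.of_injective _ (Subgroup.inclusion_injective h2)
        rw [Subgroup.one_lt_card_iff_ne_bot]
        intro h
        exact hc1 (Subgroup.zpowers_eq_bot.1 h)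
      have h6 : Nat.card (Subgroup.zpowers c) ≤ Nat.card C := Nat.le_of_dvd Nat.card_pos h3
      have h5 : 0 < Nat.card C := Nat.card_pos
      interval_cases h : Nat.card C <;> interval_cases h' : Nat.card (Subgroup.zpowers c) <;> omega
    have hX : Subgroup.closure {a, b} = ⊤ := by
      rw [← hT, hgen A a hf hcn ha ha1, hgen B b hf' hcB hb hb1, Subgroup.zpowers_eq_closure,
        Subgroup.zpowers_eq_closure, ← Subgroup.closure_union]
      congr 1
    have hA1 : Nat.card A = 2 ∨ Nat.card A = 3 := by
      have h4 : 1 < Nat.card A := by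
        rw [Subgroup.one_lt_card_iff_ne_bot]
        exact H13.RO.left_ne_bot hp
      omega
    have hpow : ∀ (C : Subgroup X) (c : X), c ∈ C → c ^ Nat.card C = 1 := by
      intro C c hc
      have := pow_card_eq_one' (x := (⟨c, hc⟩ : C))
      exact congrArg Subtype.val this
    rcases hA1 with h2 | h3
    · left
      refine H13.SPR.rec2' (a := a) (b := b) ?_ ?_ hrel hX hne
      · rw [← h2]; exact hpow A a ha
      · rw [← h2, hAB]; exact hpow B b hb
    · right
      refine H13.SPR.rec3 (a := a) (b := b) ?_ ?_ hrel hX hne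
      · rw [← h3]; exact hpow A a ha
      · rw [← h3, hAB]; exact hpow B b hb

end Cfsg.Agent.S5020
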