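import Cfsg.Statements.S5021
import Cfsg.Agent.H13_SP

set_option autoImplicit false
open Cfsg

namespace Cfsg.Agent.S5021

/-- In a special rank one group with abelian unipotent subgroups A and B, either A is an elementary abelian p-group for some prime p, or A is torsion-free and divisible (every element of A has an n-th root in A for every positive n). -/
theorem result {X : Type*} [Group X] {A B : Subgroup X} (h : Cfsg.IsRankOneGroup X A B)
    (hs : Cfsg.IsSpecialRankOnePair A B) (hab : Cfsg.HasAbelianUnipotents A B) :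
    (∃ p : ℕ, p.Prime ∧ Cfsg.IsElementaryAbelian p A) ∨
    ((∀ a ∈ A, a ≠ 1 → ¬ IsOfFinOrder a) ∧ ∀ a ∈ A, ∀ n : ℕ, 0 < n → ∃ c ∈ A, c ^ n = a) := by
  have hAc : ∀ x ∈ A, ∀ y ∈ A, x * y = y * x := by
    intro x hx y hy
    exact congrArg Subtype.val (hab.1.is_comm.comm (⟨x, hx⟩ : A) ⟨y, hy⟩)
  have hBc : ∀ x ∈ B, ∀ y ∈ B, x * y = y * x := by
    intro x hx y hy
    exact congrArg Subtype.val (hab.2.is_comm.comm (⟨x, hx⟩ : B) ⟨y, hy⟩)
  have hpowc := @H13.SP.mul_pow_comm X _ A hAc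
  by_cases htf : ∀ a ∈ A, a ≠ 1 → ¬ IsOfFinOrder a
  · right
    refine ⟨htf, ?_⟩
    obtain ⟨w, hw, hw1⟩ := H13.RO.exists_ne (H13.RO.left_ne_bot h.2)
    have htf' : ∀ a ∈ A, ∀ n : ℕ, 0 < n → a ^ n = 1 → a = 1 := by
      intro a ha n hn han
      by_contra ha1
      exact htf a ha ha1 (isOfFinOrder_iff_pow_eq_one.2 ⟨n, hn, han⟩)
    -- for each n > 0 and y: y ∈ A^n or y² ∈ A^n
    have hd : ∀ n : ℕ, 0 < n → ∀ y ∈ A, ∃ v ∈ A, v ^ n = y ∨ v ^ n = y * y := by
      intro n hn y hy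
      by_cases hv : ∃ v ∈ A, v ^ n = y
      · obtain ⟨v, hv, hve⟩ := hv
        exact ⟨v, hv, Or.inl hve⟩
      · push Not at hv
        obtain ⟨v, hv, hve⟩ := H13.SP.divis hs hAc hBc hw hy
          (fun h => hw1 (htf' w hw n hn h)) hv hn.ne'
        exact ⟨v, hv, Or.inr hve⟩
    -- square roots
    have h2 : ∀ y ∈ A, ∃ v ∈ A, v ^ 2 = y := by
      intro y hy
      obtain ⟨v, hv, hve | hve⟩ := hd 4 (by norm_num) y hy
      · exact ⟨v ^ 2, A.pow_mem hv 2, by rw [← pow_mul]; exact hve⟩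
      · refine ⟨v, hv, ?_⟩
        have h3 : (v ^ 2 * y⁻¹) ^ 2 = 1 := by
          rw [hpowc (A.pow_mem hv 2) (A.inv_mem hy), ← pow_mul, hve, inv_pow, pow_two]
          group
        have h4 := htf' _ (A.mul_mem (A.pow_mem hv 2) (A.inv_mem hy)) 2 (by norm_num) h3
        exact mul_inv_eq_one.1 h4
    have hP : ∀ n : ℕ, 0 < n → ∀ y ∈ A, ∃ v ∈ A, v ^ n = y := by
      intro n
      induction n using Nat.recOnMul with
      | zero => intro h; exact absurd h (lt_irrefl 0)
      | one => intro _ y hy; exact ⟨y, hy, pow_one y⟩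
      | prime p hpp =>
        intro _ y hy
        rcases hpp.eq_two_or_odd' with rfl | hodd
        · exact h2 y hy
        · obtain ⟨m, hm⟩ := hodd
          obtain ⟨v, hv, hve | hve⟩ := hd p hpp.pos y hy
          · exact ⟨v, hv, hve⟩
          · refine ⟨y * (v ^ m)⁻¹, A.mul_mem hy (A.inv_mem (A.pow_mem hv m)), ?_⟩
            rw [hpowc hy (A.inv_mem (A.pow_mem hv m)), inv_pow, ← pow_mul, mul_comm m p, pow_mul, hve, hm,
              ← pow_two, ← pow_mul, pow_succ']
            group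
      | mul a b ha hb =>
        intro hab y hy
        have ha0 : 0 < a := Nat.pos_of_ne_zero (by rintro rfl; simp at hab)
        have hb0 : 0 < b := Nat.pos_of_ne_zero (by rintro rfl; simp at hab)
        obtain ⟨u, hu, hue⟩ := ha ha0 y hy
        obtain ⟨v, hv, hve⟩ := hb hb0 u hu
        exact ⟨v, hv, by rw [mul_comm, pow_mul, hve, hue]⟩
    intro a ha n hn
    exact hP n hn a ha
  · left
    push Not at htf
    obtain ⟨a, ha, ha1, hfin⟩ := htf
    obtain ⟨p, hpp, hpd⟩ := Nat.exists_prime_and_dvd (n := orderOf a) (by rwa [Ne, orderOf_eq_one_iff])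
    obtain ⟨z, hz, hz1, hzp⟩ : ∃ a' ∈ A, a' ≠ 1 ∧ a' ^ p = 1 := by
      refine ⟨a ^ (orderOf a / p), A.pow_mem ha _, ?_, ?_⟩
      · intro h1
        have h2 := orderOf_dvd_of_pow_eq_one h1
        have h3 : 0 < orderOf a := hfin.orderOf_pos
        have h4 : 0 < orderOf a / p := Nat.div_pos (Nat.le_of_dvd h3 hpd) hpp.pos
        have h5 := Nat.le_of_dvd h4 h2
        exact absurd h5 (not_le.2 (Nat.div_lt_self h3 hpp.one_lt))
      · rw [← pow_mul, Nat.div_mul_cancel hpd, pow_orderOf_eq_one]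
    refine ⟨p, hpp, hab.1, ?_⟩
    intro y hy
    by_contra hyp
    have h1 := H13.SP.torsion hs hAc hBc hz hy hz1 hzp hyp
    rcases hpp.eq_two_or_odd' with rfl | hodd
    · exact hyp (H13.SP.no_four hs hAc hBc hy h1)
    · have h2 : (y ^ p) ^ 2 = 1 := by rw [← pow_mul, mul_comm]; exact h1
      have h3 : z ^ 2 ≠ 1 := by
        intro h3
        obtain ⟨m, hm⟩ := hodd
        rw [hm, pow_succ, pow_mul, h3, one_pow, one_mul] at hzp
        exact hz1 hzp
      have h4 := H13.SP.torsion hs hAc hBc (A.pow_mem hy p) hz hyp h2 h3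
      obtain ⟨m, hm⟩ := hodd
      have h5 : orderOf z ∣ p := orderOf_dvd_of_pow_eq_one hzp
      have h6 : orderOf z ∣ 2 * 2 := orderOf_dvd_of_pow_eq_one h4
      have h7 : Nat.Coprime p (2 * 2) := by
        rw [Nat.coprime_mul_iff_right]
        have : Nat.Coprime p 2 := (Nat.coprime_two_right).2 ⟨m, hm⟩
        exact ⟨this, this⟩
      have h8 : orderOf z ∣ 1 := by rw [← h7.gcd_eq_one]; exact Nat.dvd_gcd h5 h6
      exact hz1 (orderOf_eq_one_iff.1 (Nat.dvd_one.1 h8))

end Cfsg.Agent.S5021
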