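import Cfsg.Statements.S5022
import Cfsg.Agent.H1_RsA
import Cfsg.Agent.S2426
import Cfsg.Agent.S5016

set_option autoImplicit false
open Cfsg

namespace Cfsg.Agent.S5022

open Cfsg.Agent.H1.Rs Cfsg.Agent.H13.RO Cfsg.Agent.H13.SP in
/-- Let X be a special rank one group with abelian unipotent subgroups A and B, where A is an elementary abelian p-group for the prime p. Then for every non-identity a in A and the non-identity b in B with b⁻¹ A b = a⁻¹ B a, the subgroup generated by a and b is isomorphic to SL₂(p) or to PSL₂(p). -/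
theorem result {X : Type*} [Group X] {A B : Subgroup X} (h : Cfsg.IsRankOneGroup X A B)
    (hs : Cfsg.IsSpecialRankOnePair A B) (hab : Cfsg.HasAbelianUnipotents A B)
    {p : ℕ} [Fact p.Prime] (hA : Cfsg.IsElementaryAbelian p A)
    {a b : X} (ha : a ∈ A) (ha1 : a ≠ 1) (hb : b ∈ B) (hb1 : b ≠ 1) (hab' : Cfsg.conjBy A b⁻¹ = Cfsg.conjBy B a⁻¹) :
    Nonempty (↥(Subgroup.closure ({a, b} : Set X)) ≃* Matrix.SpecialLinearGroup (Fin 2) (ZMod p)) ∨
    Nonempty (↥(Subgroup.closure ({a, b} : Set X)) ≃* Matrix.ProjectiveSpecialLinearGroup (Fin 2) (ZMod p)) := by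
  classical
  have hp : p.Prime := Fact.out
  have hAc : ∀ x ∈ A, ∀ y ∈ A, x * y = y * x := fun x hx y hy =>
    congrArg Subtype.val (hab.1.is_comm.comm (⟨x, hx⟩ : A) ⟨y, hy⟩)
  have hBc : ∀ x ∈ B, ∀ y ∈ B, x * y = y * x := fun x hx y hy =>
    congrArg Subtype.val (hab.2.is_comm.comm (⟨x, hx⟩ : B) ⟨y, hy⟩)
  have hAp : ∀ x ∈ A, x ^ p = 1 := hA.2
  have hBp := expB hs hAp
  have hbe : conjBy A b = conjBy B a := by
    have := inv_cond hs (A.inv_mem ha) (inv_ne_one.2 ha1) (B.inv_mem hb) (inv_ne_one.2 hb1) hab'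
    rwa [inv_inv, inv_inv] at this
  have C : ∀ s : ZMod p, s ≠ 0 → conjBy A (E b s⁻¹) = conjBy B (E a s) :=
    fun s hs0 => claim hs hAc hBc hAp hBp ha ha1 hb hb1 hbe hs0
  have C' : ∀ s : ZMod p, s ≠ 0 → conjBy B (E a s⁻¹) = conjBy A (E b s) := by
    intro s hs0
    have := C s⁻¹ (inv_ne_zero hs0)
    rw [inv_inv] at this
    exact this.symm
  obtain ⟨e, -, -⟩ := Cfsg.Agent.S2426.result (K := ZMod p)
  let f : Bool × ZMod p → X := fun q => bif q.1 then E a q.2 else E b q.2
  have hr : ∀ r ∈ ({g : FreeGroup (Bool × ZMod p) | ∃ (b : Bool) (t u : ZMod p), g = FreeGroup.of (b, t) * FreeGroup.of (b, u) * (FreeGroup.of (b, t + u))⁻¹} ∪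
          {g | ∃ (b : Bool) (t u : ZMod p), t ≠ 0 ∧
            g = (FreeGroup.of (b, t) * FreeGroup.of (!b, -t⁻¹) * FreeGroup.of (b, t)) * FreeGroup.of (b, u) *
                  (FreeGroup.of (b, t) * FreeGroup.of (!b, -t⁻¹) * FreeGroup.of (b, t))⁻¹ * (FreeGroup.of (!b, -(t⁻¹ ^ 2 * u)))⁻¹}),
      FreeGroup.lift f r = 1 := by
    rintro r (⟨c, t, u, rfl⟩ | ⟨c, t, u, ht, rfl⟩)
    · simp only [map_mul, map_inv, FreeGroup.lift_apply_of]
      cases c
      · show E b t * E b u * (E b (t + u))⁻¹ = 1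
        rw [E_add (hBp b hb), mul_inv_cancel]
      · show E a t * E a u * (E a (t + u))⁻¹ = 1
        rw [E_add (hAp a ha), mul_inv_cancel]
    · simp only [map_mul, map_inv, FreeGroup.lift_apply_of]
      cases c
      · exact key (special_symm hs) hb hb1 ha ha1 (hBp b hb) (hAp a ha) C' ht u
      · exact key hs ha ha1 hb hb1 (hAp a ha) (hBp b hb) C ht u
  let F := PresentedGroup.toGroup hr
  let φ : Matrix.SpecialLinearGroup (Fin 2) (ZMod p) →* X := F.comp e.symm.toMonoidHom
  have hFof : ∀ q, F (PresentedGroup.of q) = f q := fun q => PresentedGroup.toGroup.of hr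
  have hφe : ∀ x, φ (e x) = F x := by
    intro x
    show F (e.symm (e x)) = F x
    rw [e.symm_apply_apply]
  have hφa : φ (e (PresentedGroup.of (true, 1))) = a := by
    rw [hφe, hFof]
    exact E_one a
  have hφb : φ (e (PresentedGroup.of (false, 1))) = b := by
    rw [hφe, hFof]
    exact E_one b
  have hrange : Subgroup.closure ({a, b} : Set X) = φ.range := by
    apply le_antisymm
    · rw [Subgroup.closure_le]
      rintro x (rfl | rfl)
      · exact ⟨_, hφa⟩
      · exact ⟨_, hφb⟩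
    · rintro _ ⟨g, rfl⟩
      have h1 : φ g = F (e.symm g) := rfl
      rw [h1]
      have h2 : F.range ≤ Subgroup.closure ({a, b} : Set X) := by
        rw [MonoidHom.range_eq_map, ← PresentedGroup.closure_range_of, MonoidHom.map_closure, Subgroup.closure_le]
        rintro _ ⟨_, ⟨⟨c, t⟩, rfl⟩, rfl⟩
        rw [hFof]
        have hacl : a ∈ Subgroup.closure ({a, b} : Set X) := Subgroup.subset_closure (Or.inl rfl)
        have hbcl : b ∈ Subgroup.closure ({a, b} : Set X) := Subgroup.subset_closure (Or.inr rfl)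
        cases c
        · show E b t ∈ Subgroup.closure ({a, b} : Set X)
          exact E_mem hbcl t
        · show E a t ∈ Subgroup.closure ({a, b} : Set X)
          exact E_mem hacl t
      exact h2 ⟨_, rfl⟩
  obtain ⟨hR, -, hab2⟩ := Cfsg.Agent.S5016.result (ZMod p)
  have hker : φ.ker ≤ Subgroup.center _ := by
    rcases normal_or hR φ.ker inferInstance with h1 | h1
    · exfalso
      have h2 : φ.range ≤ (lowerUnipotentSL2 (ZMod p)).map φ := by
        rw [MonoidHom.range_eq_map, ← h1, Subgroup.map_sup]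
        apply sup_le _ le_rfl
        rintro _ ⟨x, hx, rfl⟩
        rw [MonoidHom.mem_ker.1 hx]
        exact one_mem _
      obtain ⟨x, hx, hxa⟩ := h2 ⟨_, hφa⟩
      obtain ⟨y, hy, hyb⟩ := h2 ⟨_, hφb⟩
      have h3 : x * y = y * x := congrArg Subtype.val (hab2.1.is_comm.comm (⟨x, hx⟩ : lowerUnipotentSL2 (ZMod p)) ⟨y, hy⟩)
      have h4 : a * b = b * a := by
        rw [← hxa, ← hyb, ← map_mul, h3, map_mul]
      have h5 : a ∈ conjBy A b := by
        rw [mem_cj]
        have : b⁻¹ * a * b = a := by rw [mul_assoc, h4, inv_mul_cancel_left]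
        rwa [this]
      rw [hbe, mem_cj] at h5
      have h6 : a ∈ A ⊓ B := ⟨ha, by
        have : a⁻¹ * a * a = a := by group
        rwa [this] at h5⟩
      rw [inf_eq_bot hs.1, Subgroup.mem_bot] at h6
      exact ha1 h6
    · exact h1
  have hcen : ∀ z ∈ Subgroup.center (Matrix.SpecialLinearGroup (Fin 2) (ZMod p)), z = 1 ∨ z = -1 := by
    intro z hz
    obtain ⟨r, hr1, hr2⟩ := Matrix.SpecialLinearGroup.mem_center_iff.1 hz
    have h1 : r = 1 ∨ r = -1 := by
      rw [Fintype.card_fin] at hr1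
      have h2 : (r - 1) * (r + 1) = 0 := by
        have : (r - 1) * (r + 1) = r ^ 2 - 1 := by ring
        rw [this, hr1, sub_self]
      rcases mul_eq_zero.1 h2 with h3 | h3
      · left; exact sub_eq_zero.1 h3
      · right; exact eq_neg_of_add_eq_zero_left h3
    rcases h1 with rfl | rfl
    · left
      apply Subtype.ext
      rw [← hr2]
      simp
    · right
      apply Subtype.ext
      rw [← hr2]
      show (Matrix.scalar (Fin 2)) (-1 : ZMod p) = ((-1 : Matrix.SpecialLinearGroup (Fin 2) (ZMod p)) : Matrix (Fin 2) (Fin 2) (ZMod p))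
      rw [Matrix.SpecialLinearGroup.coe_neg, Matrix.SpecialLinearGroup.coe_one, map_neg, map_one]
  by_cases hbot : φ.ker = ⊥
  · left
    exact ⟨(MulEquiv.subgroupCongr hrange).trans (MonoidHom.ofInjective ((MonoidHom.ker_eq_bot_iff φ).1 hbot)).symm⟩
  · right
    have hkc : φ.ker = Subgroup.center _ := by
      apply le_antisymm hker
      obtain ⟨z, hz, hz1⟩ : ∃ z ∈ φ.ker, z ≠ 1 := by
        by_contra hno
        push Not at hno
        exact hbot ((Subgroup.eq_bot_iff_forall _).2 hno)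
      have hz2 : z = -1 := (hcen z (hker hz)).resolve_left hz1
      intro x hx
      rcases hcen x hx with rfl | rfl
      · exact one_mem _
      · rw [← hz2]; exact hz
    exact ⟨(MulEquiv.subgroupCongr hrange).trans ((QuotientGroup.quotientKerEquivRange φ).symm.trans
      (QuotientGroup.quotientMulEquivOfEq hkc))⟩

end Cfsg.Agent.S5022
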