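import Cfsg.Statements.S5023
import Cfsg.Agent.H13_QM

set_option autoImplicit false
open Cfsg

namespace Cfsg.Agent.S5023

/-- Let X be a rank one group with unipotent subgroups A and B that acts faithfully on an abelian group V (written additively) with A acting quadratically: a' • (a • v − v) = a • v − v for all a, a' in A and v in V. Then A is either torsion-free or an elementary abelian p-group for some prime p. -/
theorem result {X : Type*} [Group X] {A B : Subgroup X} (h : Cfsg.IsRankOneGroup X A B)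
    {V : Type*} [AddCommGroup V] [DistribMulAction X V] (hf : ∀ x : X, (∀ v : V, x • v = v) → x = 1)
    (hq : ∀ a ∈ A, ∀ a' ∈ A, ∀ v : V, a' • (a • v - v) = a • v - v) :
    (∀ a ∈ A, a ≠ 1 → ¬ IsOfFinOrder a) ∨ ∃ p : ℕ, p.Prime ∧ Cfsg.IsElementaryAbelian p A := by
  have hc : Subgroup.center X ≠ ⊤ := H13.RO.center_ne_top h
  obtain ⟨hT, hp⟩ := h
  have hA := H13.QM.cm_le_fx hq
  have hB : H13.QM.cm V B ≤ H13.QM.fx V B := by
    obtain ⟨x, -, hx⟩ := H13.RO.right_mem hp
    have := H13.QM.cm_le_fx (H13.QM.quad_conj hq x)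
    rwa [← hx] at this
  have hinj : ∀ x y : X, (∀ v : V, x • v = y • v) → x = y := by
    intro x y hxy
    have := hf (y⁻¹ * x) (fun v => by rw [mul_smul, hxy, inv_smul_smul])
    exact (inv_mul_eq_one.1 this).symm
  have hne : ¬ H13.QM.cm V (A ⊔ B) ≤ H13.QM.fx V (A ⊔ B) := by
    intro hle
    apply hc
    rw [eq_top_iff]
    intro x _
    rw [Subgroup.mem_center_iff]
    intro y
    apply hinj
    intro v
    have hx : x ∈ A ⊔ B := by rw [hT]; exact Subgroup.mem_top _
    have hy : y ∈ A ⊔ B := by rw [hT]; exact Subgroup.mem_top _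
    have h1 := hle (H13.QM.sub_mem_cm hx v) y hy
    have h2 := hle (H13.QM.sub_mem_cm hy v) x hx
    rw [smul_sub] at h1 h2
    rw [mul_smul, mul_smul]
    have h3 : y • x • v = x • v - v + y • v := by rw [← h1]; abel
    have h4 : x • y • v = y • v - v + x • v := by rw [← h2]; abel
    rw [h3, h4]; abel
  have hpow : ∀ a ∈ A, ∀ n : ℕ, ∀ v : V, (a ^ n) • v = v + n • (a • v - v) := by
    intro a ha n v
    induction n with
    | zero => simp
    | succ n ih =>
      rw [pow_succ', mul_smul, ih, smul_add, succ_nsmul]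
      have h1 : a • (n • (a • v - v)) = n • (a • v - v) := by
        rw [← smul_comm, hq a ha a ha v]
      rw [h1]; abel
  by_cases htf : ∀ a ∈ A, a ≠ 1 → ¬ IsOfFinOrder a
  · exact Or.inl htf
  right
  push Not at htf
  obtain ⟨a, ha, ha1, hfin⟩ := htf
  obtain ⟨p, hpp, hpd⟩ := Nat.exists_prime_and_dvd (n := orderOf a) (by rwa [Ne, orderOf_eq_one_iff])
  obtain ⟨a', ha', ha1', hap'⟩ : ∃ a' ∈ A, a' ≠ 1 ∧ a' ^ p = 1 := by
    refine ⟨a ^ (orderOf a / p), A.pow_mem ha _, ?_, ?_⟩
    · intro h1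
      have h2 := orderOf_dvd_of_pow_eq_one h1
      have h3 : 0 < orderOf a := hfin.orderOf_pos
      have h4 : 0 < orderOf a / p := Nat.div_pos (Nat.le_of_dvd h3 hpd) hpp.pos
      have h5 := Nat.le_of_dvd h4 h2
      exact absurd h5 (not_le.2 (Nat.div_lt_self h3 hpp.one_lt))
    · rw [← pow_mul, Nat.div_mul_cancel hpd, pow_orderOf_eq_one]
  refine ⟨p, hpp, ?_, ?_⟩
  · refine ⟨⟨?_⟩⟩
    rintro ⟨x, hx⟩ ⟨y, hy⟩
    apply Subtype.ext
    apply hinj
    intro v
    show (x * y) • v = (y * x) • v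
    have h1 := hq x hx y hy v
    have h2 := hq y hy x hx v
    rw [smul_sub] at h1 h2
    rw [mul_smul, mul_smul]
    have h3 : y • x • v = x • v - v + y • v := by rw [← h1]; abel
    have h4 : x • y • v = y • v - v + x • v := by rw [← h2]; abel
    rw [h3, h4]; abel
  · intro a1 ha1m
    apply H13.QM.nontriv hp hA hB hne (A.pow_mem ha1m p)
    intro v hv
    rw [hpow a1 ha1m p v, add_sub_cancel_left]
    set u := a1 • v - v with hu
    have hum : u ∈ H13.QM.cm V A := H13.QM.sub_mem_cm ha1m v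
    obtain ⟨b', hb', -, hbe'⟩ := H13.RO.cond hp ha' ha1'
    have h1 := H13.QM.rel hp hA hB ha' hb' hbe' hum
    have h2 := (H13.QM.fx V (A ⊔ B)).nsmul_mem h1 p
    rw [smul_sub] at h2
    have h3 : p • (a' • (b' • u - u) - (b' • u - u)) = 0 := by
      have := hpow a' ha' p (b' • u - u)
      rw [hap', one_smul] at this
      exact (left_eq_add.1 this)
    rwa [h3, sub_zero] at h2

end Cfsg.Agent.S5023
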