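import Cfsg.Statements.S5026
import Cfsg.Agent.H13_RS

set_option autoImplicit false
open Cfsg

namespace Cfsg.Agent.S5026

/-- Let S be a degenerate set of abstract root subgroups of G (a set of abstract transvection groups) and let a, b be commuting non-identity elements of members of S with a b ≠ 1. Then the members of S centralizing a b are exactly those centralizing both a and b. -/
theorem result {G : Type*} [Group G] {S : Set (Subgroup G)} (hS : Cfsg.IsRootSubgroupSet S) (hdeg : Cfsg.IsDegenerateRootSet S)
    {a b : G} (ha : a ∈ Cfsg.rootElements S) (hb : b ∈ Cfsg.rootElements S) (hab : a * b = b * a) (hab1 : a * b ≠ 1) :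
    Cfsg.centralizingMembers S (Subgroup.zpowers (a * b)) =
      Cfsg.centralizingMembers S (Subgroup.zpowers a) ∩ Cfsg.centralizingMembers S (Subgroup.zpowers b) := by
  obtain ⟨ha1, A, hA, haA⟩ := ha
  obtain ⟨hb1, B, hB, hbB⟩ := hb
  have hz : ∀ x : G, ∀ C : Subgroup G, C ≤ Subgroup.centralizer ((Subgroup.zpowers x : Subgroup G) : Set G) ↔
      ∀ c ∈ C, c * x = x * c := by
    intro x C
    constructor
    · intro h c hc
      have := h hc
      rw [Subgroup.mem_centralizer_iff] at this
      exact (this x (Subgroup.mem_zpowers x)).symm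
    · intro h c hc
      rw [Subgroup.mem_centralizer_iff]
      rintro _ ⟨n, rfl⟩
      exact ((show Commute c x from h c hc).zpow_right n).symm
  have hpair : ∀ C D : Subgroup G, C ∈ S → D ∈ S → (⁅C, D⁆ = ⊥ ∨ Cfsg.IsRankOnePair C D) := by
    intro C D hC hD
    rcases hS.pair C hC D hD with h | h | h
    · exact Or.inl h
    · exact Or.inr h
    · exact absurd h (hdeg C hC D hD)
  ext C
  constructor
  · rintro ⟨hC, hCab⟩
    rw [hz] at hCab
    have main : ∀ c ∈ C, c * a = a * c := by
      by_contra hcon
      have hCA : Cfsg.IsRankOnePair C A := by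
        rcases hpair C A hC hA with h | h
        · exact absurd (fun c hc => H13.RS.comm_iff.1 h c hc a haA) hcon
        · exact h
      have hCB : Cfsg.IsRankOnePair C B := by
        rcases hpair C B hC hB with h | h
        · exfalso
          apply hcon
          intro c hc
          have h1 := H13.RS.comm_iff.1 h c hc b hbB
          have h2 := hCab c hc
          have h3 : c * a * b = a * c * b := by
            rw [mul_assoc, h2, mul_assoc, mul_assoc, h1]
          exact mul_right_cancel h3
        · exact h
      -- C^a = C^{b⁻¹}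
      have h1 : Cfsg.conjBy C (b⁻¹) = Cfsg.conjBy C a := by
        have h2 : Cfsg.conjBy C (b * a) = C := by
          rw [H13.RO.cj_eq_iff, ← hab]
          apply Subgroup.centralizer_le_normalizer
          rw [H13.RS.cen_iff]
          exact hCab
        have h3 := congrArg (fun C => Cfsg.conjBy C b⁻¹) h2
        simp only [H13.RO.cj_mul, inv_mul_cancel_left] at h3
        exact h3.symm
      obtain ⟨c1, hc1, -, hc1e⟩ := H13.RO.cond (H13.RO.symm hCA) haA ha1
      obtain ⟨c2, hc2, -, hc2e⟩ := H13.RO.cond (H13.RO.symm hCB) (B.inv_mem hbB) (inv_ne_one.2 hb1)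
      -- conjBy A c1 = conjBy C a; conjBy B c2 = conjBy C b⁻¹
      have h2 : B = Cfsg.conjBy A (c2⁻¹ * c1) := by
        rw [← H13.RO.cj_mul, hc1e, ← h1, ← hc2e, H13.RO.cj_mul, inv_mul_cancel, H13.RO.cj_one]
      have hBΩ : B ∈ Cfsg.unipotentSubgroups C A := by
        rw [h2]
        exact H13.RO.cj_mem (H13.RO.right_mem hCA) (Subgroup.mem_sup_left (C.mul_mem (C.inv_mem hc2) hc1))
      have h3 : B = A := by
        -- b commutes with a hence fixes A
        have h4 : Cfsg.conjBy B a = B ∨ True := Or.inr trivial
        have h5 : Cfsg.conjBy A b = A := by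
          -- a fixes only A; a fixes b A
          have hb' : b ∈ C ⊔ A := H13.RO.Om_le hBΩ hbB
          have h6 := H13.RO.fix_only hCA (H13.RO.right_mem hCA)
            (H13.RO.cj_mem (H13.RO.right_mem hCA) hb') haA ha1 (by
              rw [H13.RO.cj_mul, hab, ← H13.RO.cj_mul, H13.RO.cj_self haA])
          exact h6
        exact (H13.RO.fix_only hCA hBΩ (H13.RO.right_mem hCA) hbB hb1 h5).symm
      subst h3
      have h4 := H13.RO.eq_one (H13.RO.symm hCA) (B.mul_mem haA hbB) (by
        rw [H13.RO.cj_eq_iff]
        apply Subgroup.centralizer_le_normalizer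
        rw [H13.RS.cen_iff]
        exact hCab)
      exact hab1 h4
    refine ⟨⟨hC, (hz _ _).2 main⟩, ⟨hC, (hz _ _).2 ?_⟩⟩
    intro c hc
    have h1 := main c hc
    have h2 := hCab c hc
    have h3 : a * (c * b) = a * (b * c) := by
      rw [← mul_assoc, ← h1, mul_assoc, h2, mul_assoc]
    exact mul_left_cancel h3
  · rintro ⟨⟨hC, h1⟩, ⟨-, h2⟩⟩
    rw [hz] at h1 h2
    refine ⟨hC, (hz _ _).2 ?_⟩
    intro c hc
    rw [← mul_assoc, h1 c hc, mul_assoc, h2 c hc, mul_assoc]

end Cfsg.Agent.S5026
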