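import Cfsg.Statements.S5027
import Cfsg.Agent.H13_RS

set_option autoImplicit false
open Cfsg

namespace Cfsg.Agent.S5027

open scoped commutatorElement

/-- Let S be a set of abstract root subgroups of G such that every member of S has a rank one partner in S (the graph of rank one pairs on S has no isolated vertex). Then the second centre of G equals its centre. -/
theorem result {G : Type*} [Group G] {S : Set (Subgroup G)} (hS : Cfsg.IsRootSubgroupSet S)
    (hF : ∀ A ∈ S, ¬ Cfsg.IsIsolatedIn (Cfsg.FAdj S) S A) : Subgroup.upperCentralSeries G 2 = Subgroup.center G := by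
  refine le_antisymm ?_ ?_
  · intro z hz
    have hz' : ∀ y : G, ⁅z, y⁆ ∈ Subgroup.center G := by
      intro y
      have := (Subgroup.mem_upperCentralSeries_succ_iff (n := 1)).1 hz y
      rwa [Subgroup.upperCentralSeries_one] at this
    have h1 : (⨆ A ∈ S, A) ≤ Subgroup.centralizer {z} := by
      refine iSup₂_le ?_
      intro A hA a ha
      rw [Subgroup.mem_centralizer_iff]
      rintro y rfl
      by_cases ha1 : a = 1
      · rw [ha1, mul_one, one_mul]
      obtain ⟨B, hB, h⟩ := H13.RS.nonisol (hF A hA) hA
      have h2 := H13.RS.not_root hS hA hB h (z := ⁅y, a⁆) (by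
        rw [H13.RS.cen_iff]
        intro x _
        exact Subgroup.mem_center_iff.1 (hz' a) x) ha ha1 (hS.conj_mem A hA y) (by
          rw [H13.RO.mem_cj]
          have : y⁻¹ * (⁅y, a⁆ * a) * y = a := by rw [commutatorElement_def]; group
          rwa [this])
      exact commutatorElement_eq_one_iff_mul_comm.1 h2.1
    rw [hS.generates] at h1
    rw [Subgroup.mem_center_iff]
    intro g
    have h2 := h1 (Subgroup.mem_top g)
    rw [Subgroup.mem_centralizer_iff] at h2
    exact (h2 z rfl).symm
  · rw [← Subgroup.upperCentralSeries_one]
    exact Subgroup.upperCentralSeries_mono G (by norm_num)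

end Cfsg.Agent.S5027
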