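import Cfsg.Statements.S5029
import Cfsg.Agent.H13_RS2

set_option autoImplicit false
open Cfsg

namespace Cfsg.Agent.S5029

open scoped commutatorElement

/-- Let S be a set of abstract root subgroups of G, A ∈ S having a rank one partner in S, and B ∈ S with C = ⁅A, B⁆ ∈ S. Then the members of S contained in AC are the conjugates of A by elements of B together with C, they partition AC, the members of S inside AC partition AC so that A is a line partner of C, and for every non-identity a ∈ A the map b ↦ a⁻¹ b⁻¹ a b is an isomorphism from B onto C. -/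
theorem result {G : Type*} [Group G] {S : Set (Subgroup G)} (hS : Cfsg.IsRootSubgroupSet S)
    {A B : Subgroup G} (hA : ¬ Cfsg.IsIsolatedIn (Cfsg.FAdj S) S A) (hAS : A ∈ S) (hB : B ∈ S) (hC : ⁅A, B⁆ ∈ S) :
    Cfsg.membersIn S (A ⊔ ⁅A, B⁆) = (fun b : G => Cfsg.conjBy A b) '' (B : Set G) ∪ {⁅A, B⁆} ∧
    Cfsg.IsSubgroupPartition (A ⊔ ⁅A, B⁆) (Cfsg.membersIn S (A ⊔ ⁅A, B⁆)) ∧
    A ∈ Cfsg.linePartners S ⁅A, B⁆ ∧
    ∀ a ∈ A, a ≠ 1 → ∃ φ : ↥B ≃* ↥⁅A, B⁆, ∀ b : ↥B, (φ b : G) = a⁻¹ * (b : G)⁻¹ * a * b := by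
  have hNI : H13.RS.NI S A := H13.RS.nonisol hA hAS
  have h := H13.RS.rcc_of_mem hS hAS hB hC
  refine ⟨H13.RS.membersIn_eq hS hAS hNI h, H13.RS.partition hS hAS hNI h, ?_, ?_⟩
  · refine ⟨⟨hAS, H13.RS.rcc_ne hS hAS h, ?_⟩, ?_⟩
    · rw [H13.RS.comm_iff]
      intro c hc a ha
      exact (H13.RS.rcc_comm_left h a ha c hc).symm
    · rw [sup_comm]
      exact H13.RS.partition hS hAS hNI h
  · intro a ha ha1
    have ha' : a⁻¹ ∈ A := A.inv_mem ha
    have ha1' : a⁻¹ ≠ 1 := inv_ne_one.2 ha1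
    let φ : ↥B →* ↥(⁅A, B⁆ : Subgroup G) := MonoidHom.mk'
      (fun b => ⟨⁅a⁻¹, (b : G)⁻¹⁆, Subgroup.commutator_mem_commutator ha' (B.inv_mem b.2)⟩) (by
        intro b b'
        apply Subtype.ext
        show ⁅a⁻¹, ((b : G) * b')⁻¹⁆ = ⁅a⁻¹, (b : G)⁻¹⁆ * ⁅a⁻¹, (b' : G)⁻¹⁆
        rw [H13.RS.abel hS hB b.2 b'.2, mul_inv_rev]
        exact H13.RS.rcc_mul_right h ha' (B.inv_mem b.2) (B.inv_mem b'.2))
    have hφ : Function.Bijective φ := by
      constructor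
      · rw [injective_iff_map_eq_one]
        intro b hb
        have h1 : ⁅a⁻¹, (b : G)⁻¹⁆ = 1 := congrArg Subtype.val hb
        have h2 := H13.RS.rcc_inj hS hAS hNI h ha' ha1' (B.inv_mem b.2) h1
        apply Subtype.ext
        exact inv_eq_one.1 h2
      · rintro ⟨c, hc⟩
        obtain ⟨b, hb, hbc⟩ := H13.RS.rcc_surj h ha' ha1' hc
        refine ⟨⟨b⁻¹, B.inv_mem hb⟩, ?_⟩
        apply Subtype.ext
        show ⁅a⁻¹, (b⁻¹)⁻¹⁆ = c
        rw [inv_inv, hbc]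
    refine ⟨MulEquiv.ofBijective φ hφ, ?_⟩
    intro b
    show ⁅a⁻¹, (b : G)⁻¹⁆ = _
    rw [commutatorElement_def, inv_inv, inv_inv]

end Cfsg.Agent.S5029
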