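import Cfsg.Statements.S5030
import Cfsg.Agent.H13_RS6

set_option autoImplicit false
open Cfsg

namespace Cfsg.Agent.S5030

/-- Let S be a set of abstract root subgroups of G and A, B, C ∈ S with ⁅A, B⁆ ∈ S and ⁅B, C⁆ ∈ S, where A and C are different and commute. For a non-identity b ∈ B put X = ⟨A, b⁻¹ C b⟩ and Y = ⟨b⁻¹ A b, C⟩ and R = ⟨A, B, C⟩. Then X and Y are either both abelian or both nilpotent of class exactly two; X and Y commute elementwise; XY is normal in R with R = (XY) B; and R is nilpotent. -/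
theorem result {G : Type*} [Group G] {S : Set (Subgroup G)} (hS : Cfsg.IsRootSubgroupSet S)
    {A B C : Subgroup G} (hA : A ∈ S) (hB : B ∈ S) (hC : C ∈ S) (hAB : ⁅A, B⁆ ∈ S) (hBC : ⁅B, C⁆ ∈ S)
    (hAC : C ∈ Cfsg.commutingPartners S A)
    {b : G} (hb : b ∈ B) (hb1 : b ≠ 1) :
    ((IsMulCommutative ↥(A ⊔ Cfsg.conjBy C b⁻¹) ∧ IsMulCommutative ↥(Cfsg.conjBy A b⁻¹ ⊔ C)) ∨
      ((¬ IsMulCommutative ↥(A ⊔ Cfsg.conjBy C b⁻¹) ∧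
          ⁅⁅A ⊔ Cfsg.conjBy C b⁻¹, A ⊔ Cfsg.conjBy C b⁻¹⁆, A ⊔ Cfsg.conjBy C b⁻¹⁆ = ⊥) ∧
        (¬ IsMulCommutative ↥(Cfsg.conjBy A b⁻¹ ⊔ C) ∧
          ⁅⁅Cfsg.conjBy A b⁻¹ ⊔ C, Cfsg.conjBy A b⁻¹ ⊔ C⁆, Cfsg.conjBy A b⁻¹ ⊔ C⁆ = ⊥))) ∧
    ⁅A ⊔ Cfsg.conjBy C b⁻¹, Cfsg.conjBy A b⁻¹ ⊔ C⁆ = ⊥ ∧
    (∀ r ∈ A ⊔ B ⊔ C, Cfsg.conjBy ((A ⊔ Cfsg.conjBy C b⁻¹) ⊔ (Cfsg.conjBy A b⁻¹ ⊔ C)) r =
      (A ⊔ Cfsg.conjBy C b⁻¹) ⊔ (Cfsg.conjBy A b⁻¹ ⊔ C)) ∧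
    ((A ⊔ Cfsg.conjBy C b⁻¹) ⊔ (Cfsg.conjBy A b⁻¹ ⊔ C)) ⊔ B = A ⊔ B ⊔ C ∧
    Group.IsNilpotent ↥(A ⊔ B ⊔ C) := by
  have hAC' : ⁅A, C⁆ = ⊥ := hAC.2.2
  have h : H13.RS.Tri S A B C := ⟨hS, hA, hB, hC, H13.RS.rcc_of_mem hS hA hB hAB,
    H13.RS.rcc_symm (H13.RS.rcc_of_mem hS hB hC hBC), H13.RS.comm_iff.1 hAC'⟩
  have hβ : b⁻¹ ∈ B := B.inv_mem hb
  have hβ1 : b⁻¹ ≠ 1 := inv_ne_one.2 hb1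
  refine ⟨?_, ?_, ?_, ?_, h.nilp hβ hβ1⟩
  · by_cases h0 : ⁅A, Cfsg.conjBy C b⁻¹⁆ = ⊥
    · left
      refine ⟨h.N1_comm hβ h0, ?_⟩
      rw [sup_comm]
      exact h.symm.N1_comm hβ ((h.bot_iff hβ hβ1).1 h0)
    · right
      refine ⟨h.N1_noncomm hβ h0, ?_⟩
      rw [sup_comm (Cfsg.conjBy A b⁻¹) C]
      exact h.symm.N1_noncomm hβ (fun h1 => h0 ((h.bot_iff hβ hβ1).2 h1))
  · exact H13.RS.comm_iff.2 (h.N12 hβ)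
  · intro r hr
    rw [h.L_eq hβ hβ1]
    exact H13.RO.cj_eq_iff.2 (h.R_norm_L hr)
  · rw [h.L_eq hβ hβ1]
    exact h.L_sup_B

end Cfsg.Agent.S5030
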