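import Cfsg.Statements.S5033
import Cfsg.Agent.H13_SP2
import Cfsg.Agent.H13_RS6
import Cfsg.Agent.H13_RS8
import Cfsg.Agent.H11_Components

set_option autoImplicit false
open Cfsg

namespace Cfsg.Agent.S5033

open scoped commutatorElement

/-- Quasisimplicity criterion for groups generated by abstract root subgroups. Let S be a set of abstract root subgroups of G with more than one member such that: the graph of rank one pairs on S is connected; no two different members of S have the same set of commuting members of S; if S is degenerate then every member of S has more than three elements; and every rank one pair in S is special. Then for every A ∈ S one has G = G' A with A ∩ G' ≠ 1, and the commutator subgroup G' is quasisimple. Moreover G is perfect if S is non-degenerate, or if some rank one pair A, B in S generates a perfect group. -/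
theorem result {G : Type*} [Group G] {S : Set (Subgroup G)} (hS : Cfsg.IsRootSubgroupSet S) (h2 : ∃ A ∈ S, ∃ B ∈ S, A ≠ B)
    (h1 : Cfsg.IsConnectedFamily (Cfsg.FAdj S) S)
    (h2' : ∀ A ∈ S, ∀ C ∈ S, A ≠ C → Cfsg.centralizingMembers S A ≠ Cfsg.centralizingMembers S C)
    (h3 : Cfsg.IsDegenerateRootSet S → ∀ A ∈ S, 3 < ENat.card A)
    (h4 : ∀ A ∈ S, ∀ B ∈ Cfsg.rankOnePartners S A, Cfsg.IsSpecialRankOnePair A B) :
    (∀ A ∈ S, commutator G ⊔ A = ⊤ ∧ A ⊓ commutator G ≠ ⊥) ∧ Cfsg.IsQuasisimple ↥(commutator G) ∧
    (Cfsg.IsNondegenerateRootSet S → commutator G = ⊤) ∧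
    ((∃ A ∈ S, ∃ B ∈ Cfsg.rankOnePartners S A, Group.IsPerfect ↥(A ⊔ B)) → commutator G = ⊤) := by
  obtain ⟨hcl, A0, hA0, hN0⟩ := (H13.RS.connected_iff hS h2).1 h1
  obtain ⟨B0, hB0, hr0⟩ := hN0
  have hNI := H13.RS.class_NI hcl hS ⟨A0, hA0, B0, hB0, hr0⟩
  have hconj : ∀ N : Subgroup G, N.Normal → (∃ A ∈ S, A ≤ N) → N = ⊤ := by
    rintro N hN ⟨A, hA, hAN⟩
    rw [eq_top_iff, ← hS.generates]
    refine iSup₂_le ?_
    intro B hB
    obtain ⟨g, rfl⟩ := hcl.2 A hA B hB
    intro x hx
    rw [H13.RO.mem_cj] at hx
    have h3 := hN.conj_mem _ (hAN hx) g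
    have e : g * (g⁻¹ * x * g) * g⁻¹ = x := by group
    rwa [e] at h3
  have hperf : ∀ A ∈ S, ∀ B ∈ S, Cfsg.IsRankOnePair A B → Cfsg.IsDegenerateRootSet S → ⁅A ⊔ B, A ⊔ B⁆ = A ⊔ B := by
    intro A hA B hB hAB hd
    exact H13.SP.sup_perfect (h4 A hA B ⟨hB, hAB⟩) (fun x hx y hy => H13.RS.abel hS hA hx hy)
      (fun x hx y hy => H13.RS.abel hS hB hx hy) (h3 hd A hA)
  have hGp : commutator G = ⊤ := by
    by_cases hd : Cfsg.IsDegenerateRootSet S
    · refine hconj _ inferInstance ⟨A0, hA0, ?_⟩
      have h5 := hperf A0 hA0 B0 hB0 hr0 hd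
      refine le_sup_left.trans (h5.symm.le.trans ?_)
      exact Subgroup.commutator_mono le_top le_top
    · unfold Cfsg.IsDegenerateRootSet at hd
      push Not at hd
      obtain ⟨A, hA, B, hB, hr⟩ := hd
      exact hconj _ inferInstance ⟨⁅A, B⁆, hr.1, Subgroup.commutator_mono le_top le_top⟩
  refine ⟨fun A hA => ⟨by rw [hGp]; exact top_sup_eq _, by rw [hGp, inf_top_eq]; exact hS.ne_bot A hA⟩, ?_,
    fun _ => hGp, fun _ => hGp⟩
  have hq : Cfsg.IsQuasisimple G := by
    refine H13.RO.isQuasisimple_of ⟨hGp⟩ ?_ ?_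
    · intro N hN
      by_cases hfix : ∀ A ∈ S, ∀ n ∈ N, Cfsg.conjBy A n = A
      · right
        intro n hn
        rw [Subgroup.mem_center_iff]
        intro g
        have hg : g ∈ (⨆ A ∈ S, A : Subgroup G) := by rw [hS.generates]; exact Subgroup.mem_top g
        have hle : (⨆ A ∈ S, A : Subgroup G) ≤ Subgroup.centralizer {n} := by
          refine iSup₂_le ?_
          intro A hA a ha
          rw [Subgroup.mem_centralizer_iff]
          intro u hu
          rw [Set.mem_singleton_iff.1 hu]
          obtain ⟨B, hB, hAB⟩ := hNI A hA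
          have e1 : n * a * n⁻¹ * a⁻¹ ∈ A :=
            A.mul_mem ((Subgroup.mem_normalizer_iff.1 (H13.RO.cj_eq_iff.1 (hfix A hA n hn)) a).1 ha) (A.inv_mem ha)
          have e2 : n * a * n⁻¹ * a⁻¹ ∈ N := by
            have := N.mul_mem hn (hN.conj_mem _ (N.inv_mem hn) a)
            simpa [mul_assoc] using this
          have e3 := H13.RO.eq_one hAB e1 (hfix B hB _ e2)
          calc n * a = (n * a * n⁻¹ * a⁻¹) * (a * n) := by group
            _ = a * n := by rw [e3, one_mul]
        have h5 := hle hg
        rw [Subgroup.mem_centralizer_iff] at h5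
        exact (h5 n rfl).symm
      · left
        push Not at hfix
        obtain ⟨A, hA, n, hn, hne⟩ := hfix
        -- find D centralising A but not A^n (n possibly replaced)
        have hD : ∃ A ∈ S, ∃ n ∈ N, ∃ D ∈ S, (∀ a ∈ A, ∀ d ∈ D, a * d = d * a) ∧
            ¬ (∀ a ∈ Cfsg.conjBy A n, ∀ d ∈ D, a * d = d * a) := by
          have h5 := h2' A hA _ (hS.conj_mem A hA n) (Ne.symm hne)
          by_contra hcon
          push Not at hcon
          apply h5
          ext D
          constructor
          · rintro ⟨hD, hDA⟩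
            refine ⟨hD, ?_⟩
            have h6 := hcon A hA n hn D hD (fun a ha d hd =>
              (H13.RS.cen_iff.1 (hDA hd) a ha))
            intro d hd
            rw [H13.RS.cen_iff]
            intro a ha
            exact h6 a ha d hd
          · rintro ⟨hD, hDA⟩
            refine ⟨hD, ?_⟩
            have h6 := hcon (Cfsg.conjBy A n) (hS.conj_mem A hA n) n⁻¹ (N.inv_mem hn) D hD (fun a ha d hd =>
              (H13.RS.cen_iff.1 (hDA hd) a ha))
            rw [H13.RO.cj_mul, inv_mul_cancel, H13.RO.cj_one] at h6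
            intro d hd
            rw [H13.RS.cen_iff]
            intro a ha
            exact h6 a ha d hd
        obtain ⟨A, hA, n, hn, D, hD, hAD, hCD⟩ := hD
        have hC : Cfsg.conjBy A n ∈ S := hS.conj_mem A hA n
        -- [C, D] ≤ N
        have hCDN : ∀ c ∈ Cfsg.conjBy A n, ∀ d ∈ D, c * d * c⁻¹ * d⁻¹ ∈ N := by
          intro c hc d hd
          rw [H13.RO.mem_cj] at hc
          set a := n⁻¹ * c * n with ha
          have hca : c = n * a * n⁻¹ := by rw [ha]; group
          have hx : c * a⁻¹ ∈ N := by
            have := N.mul_mem hn (hN.conj_mem _ (N.inv_mem hn) a)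
            rw [hca]
            simpa [mul_assoc] using this
          have e1 := N.mul_mem hx (hN.conj_mem _ (N.inv_mem hx) d)
          have e2 : c * a⁻¹ * (d * (c * a⁻¹)⁻¹ * d⁻¹) = c * d * c⁻¹ * d⁻¹ := by
            have h6 : Commute a d := hAD a hc d hd
            have h7 : a⁻¹ * d * a = d := by
              rw [mul_assoc, ← h6.eq]; group
            calc c * a⁻¹ * (d * (c * a⁻¹)⁻¹ * d⁻¹) = c * (a⁻¹ * d * a) * c⁻¹ * d⁻¹ := by group
              _ = _ := by rw [h7]
          rwa [e2] at e1
        set C := Cfsg.conjBy A n with hCdef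
        rcases hS.pair C hC D hD with h5 | h5 | h5
        · exact absurd (H13.RS.comm_iff.1 h5) hCD
        · by_cases hd : Cfsg.IsDegenerateRootSet S
          · refine hconj N hN ⟨C, hC, ?_⟩
            have h6 := hperf C hC D hD h5 hd
            -- image of C ⊔ D in G/N is commutative
            have h7 : (C ⊔ D) ≤ N := by
              have h8 : ⁅C ⊔ D, C ⊔ D⁆ ≤ N := by
                have := hN
                have h9 : ⁅(C ⊔ D).map (QuotientGroup.mk' N), (C ⊔ D).map (QuotientGroup.mk' N)⁆ = ⊥ := by
                  have e0 : ∀ X ∈ S, ∀ x ∈ X.map (QuotientGroup.mk' N), ∀ y ∈ X.map (QuotientGroup.mk' N), x * y = y * x := by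
                    rintro X hX _ ⟨x, hx, rfl⟩ _ ⟨y, hy, rfl⟩
                    rw [← map_mul, ← map_mul, H13.RS.abel hS hX hx hy]
                  have e1 : ∀ x ∈ C.map (QuotientGroup.mk' N), ∀ y ∈ D.map (QuotientGroup.mk' N), x * y = y * x := by
                    rintro _ ⟨x, hx, rfl⟩ _ ⟨y, hy, rfl⟩
                    have h10 := (QuotientGroup.eq_one_iff (N := N) _).2 (hCDN x hx y hy)
                    have h11 : QuotientGroup.mk' N (x * y * x⁻¹ * y⁻¹) = 1 := h10
                    rw [map_mul, map_mul, map_mul, map_inv, map_inv] at h11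
                    rw [mul_inv_eq_one, mul_inv_eq_iff_eq_mul] at h11
                    exact h11
                  rw [Subgroup.map_sup, H13.RS.comm_iff]
                  exact H13.RS.comm_sup_sup (e0 C hC) e1 (fun x hx y hy => (e1 y hy x hx).symm) (e0 D hD)
                rw [← Subgroup.map_commutator, Subgroup.map_eq_bot_iff, QuotientGroup.ker_mk'] at h9
                exact h9
              exact h6.symm.le.trans h8
            exact le_sup_left.trans h7
          · unfold Cfsg.IsDegenerateRootSet at hd
            push Not at hd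
            have hex := H13.RS.class_rcc hcl hS hd
            obtain ⟨P, hP, hr⟩ := hex C hC
            have hl : ⁅C, P⁆ ∈ Cfsg.linePartners S C := H13.RS.line_symm hr.1 (H13.RS.line_of_rcc hS hC (hNI C hC) hr)
            obtain ⟨E, hE, -, hED⟩ := H13.RS.pencil hS hNI hC hl hD h5
            have hab := H13.RS.line_abel hS hC hl
            -- D ≤ C N
            have hDC : ∀ d ∈ D, ∃ c ∈ C, c⁻¹ * d ∈ N := by
              intro d' hd'
              obtain ⟨c, hc, hc1⟩ := H13.RO.exists_ne (hS.ne_bot C hC)
              obtain ⟨d, hd, hd1, hde⟩ := H13.RO.cond h5 hc hc1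
              have e1 : c * d' * c⁻¹ ∈ Cfsg.conjBy C d := by
                rw [hde, H13.RO.mem_cj]
                have : c⁻¹ * (c * d' * c⁻¹) * c = d' := by group
                rwa [this]
              rw [H13.RO.mem_cj] at e1
              refine ⟨_, e1, ?_⟩
              set c' := d⁻¹ * (c * d' * c⁻¹) * d with hc'
              have e2 := hCDN c hc d' hd'
              have e3 := hCDN c' e1 d hd
              -- c d' c⁻¹ = d c' d⁻¹
              have e4 : c * d' * c⁻¹ = d * c' * d⁻¹ := by rw [hc']; group
              rw [e4] at e2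
              -- d c' d⁻¹ d'⁻¹ ∈ N ; c' d c'⁻¹ d⁻¹ ∈ N
              have e5 := N.mul_mem e3 e2
              have e6 : c' * d * c'⁻¹ * d⁻¹ * (d * c' * d⁻¹ * d'⁻¹) = c' * d'⁻¹ := by group
              rw [e6] at e5
              have e7 := hN.conj_mem _ (N.inv_mem e5) c'⁻¹
              have e8 : c'⁻¹ * (c' * d'⁻¹)⁻¹ * c'⁻¹⁻¹ = c'⁻¹ * d' := by group
              rwa [e8] at e7
            refine hconj N hN ⟨⁅E, D⁆, hED.1, ?_⟩
            rw [Subgroup.commutator_le]
            intro e he d hd
            obtain ⟨c, hc, hcd⟩ := hDC d hd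
            rw [commutatorElement_def]
            have h6 : Commute e c := hab e (hE.2 he) c (Subgroup.mem_sup_left hc)
            have e1 := hN.conj_mem _ (hN.conj_mem _ hcd c) e
            have e2 := N.mul_mem e1 (hN.conj_mem _ (N.inv_mem hcd) c)
            have h7 : e * c * e⁻¹ = c := by rw [h6.eq]; group
            have e3 : e * (c * (c⁻¹ * d) * c⁻¹) * e⁻¹ * (c * (c⁻¹ * d)⁻¹ * c⁻¹) = e * d * (c⁻¹ * e⁻¹ * c) * d⁻¹ := by
              group
            have h8 : c⁻¹ * e⁻¹ * c = e⁻¹ := by
              have : Commute e⁻¹ c := h6.inv_left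
              rw [mul_assoc, this.eq]; group
            rw [e3, h8] at e2
            exact e2
        · refine hconj N hN ⟨⁅C, D⁆, h5.1, ?_⟩
          rw [Subgroup.commutator_le]
          intro c hc d hd
          rw [commutatorElement_def]
          exact hCDN c hc d hd
    · intro hc
      apply H13.RS.rank_noncomm hr0
      rw [H13.RS.comm_iff]
      intro a _ b _
      have : b ∈ Subgroup.center G := by rw [hc]; exact Subgroup.mem_top _
      exact Subgroup.mem_center_iff.1 this a
  rw [hGp]
  exact H11.Components.IsQuasisimple.of_mulEquiv hq Subgroup.topEquiv.symm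

end Cfsg.Agent.S5033
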