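import Cfsg.Statements.S5034
import Cfsg.Agent.H13_RS8

set_option autoImplicit false
open Cfsg

namespace Cfsg.Agent.S5034

/-- Let S be a non-degenerate class of abstract root subgroups of G, A ∈ S and B a rank one partner of A. Then some line partner C of A has ⁅B, C⁆ ∈ S, and the rank one pair A, B is special. -/
theorem result {G : Type*} [Group G] {S : Set (Subgroup G)} (hS : Cfsg.IsRootSubgroupClass S) (hnd : Cfsg.IsNondegenerateRootSet S)
    {A B : Subgroup G} (hA : A ∈ S) (hB : B ∈ Cfsg.rankOnePartners S A) :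
    (∃ C ∈ Cfsg.linePartners S A, C ∈ Cfsg.commutatorPartners S B) ∧ Cfsg.IsSpecialRankOnePair A B := by
  obtain ⟨hR, hcl⟩ := hS
  obtain ⟨-, hrk, hrc⟩ := hnd
  have hNI := H13.RS.class_NI hcl hR hrk
  have hex := H13.RS.class_rcc hcl hR hrc
  obtain ⟨P, hP, hr⟩ := hex A hA
  have hl : ⁅A, P⁆ ∈ Cfsg.linePartners S A := H13.RS.line_symm hr.1 (H13.RS.line_of_rcc hR hA (hNI A hA) hr)
  obtain ⟨C3, hC3, hl3, hr3, hsp, hn, h3⟩ := H13.RS.line_natmod hR hNI hA hB.1 hB.2 hl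
  refine ⟨⟨C3, hl3, hC3.1, ?_⟩, hn.special⟩
  rw [Subgroup.commutator_comm]
  exact hr3.1

end Cfsg.Agent.S5034
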