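import Cfsg.Statements.S5040
import Cfsg.Agent.H13_RS8

set_option autoImplicit false
open Cfsg

namespace Cfsg.Agent.S5040

/-- Let S be a non-degenerate class of abstract root subgroups of G and Δ a weak TI-subset of S. Then the members of Δ commute with one another elementwise. -/
theorem result {G : Type*} [Group G] {S : Set (Subgroup G)} (hS : Cfsg.IsRootSubgroupClass S) (hnd : Cfsg.IsNondegenerateRootSet S)
    {Δ : Set (Subgroup G)} (hΔ : Cfsg.IsWeakTISubset S Δ) : Cfsg.IsAbelianFamily Δ := by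
  obtain ⟨hR, hcl⟩ := hS
  obtain ⟨-, hrk, hrc⟩ := hnd
  have hNI := H13.RS.class_NI hcl hR hrk
  have hex := H13.RS.class_rcc hcl hR hrc
  intro A hA B hB
  exact H13.RS.comm_iff.1 (H13.RS.ti_abel hR hNI hΔ.1 hΔ.2.2.2 hcl hex hΔ.2.2.1 A hA B hB)

end Cfsg.Agent.S5040
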