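import Cfsg.Statements.S5043
import Mathlib
import Cfsg.Agent.H5_Tv2
import Cfsg.Agent.H5_SL

set_option autoImplicit false
open Matrix
open Cfsg

namespace Cfsg.Agent.S5043

open Matrix Module Cfsg.Agent.H5.Tv

/-- Let k be a field and n a natural number. In SL_{n+3}(k) (so in every dimension at least 3) the conjugates of the root subgroup of elementary transvections 1 + c E₁₂ (c ∈ k) — that is, the groups of transvections attached to an incident point–hyperplane pair — form a non-degenerate class of abstract k-root subgroups of SL_{n+3}(k) whose graph of rank one pairs is connected. -/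
theorem result (k : Type*) [Field k] (n : ℕ) :
    Cfsg.IsRootSubgroupClass {A : Subgroup (Matrix.SpecialLinearGroup (Fin (n + 3)) k) |
        ∃ g : Matrix.SpecialLinearGroup (Fin (n + 3)) k,
          A = Cfsg.conjBy (Subgroup.closure {t : Matrix.SpecialLinearGroup (Fin (n + 3)) k |
            ∃ c : k, (t : Matrix (Fin (n + 3)) (Fin (n + 3)) k) = Matrix.transvection 0 1 c}) g} ∧
    Cfsg.IsNondegenerateRootSet {A : Subgroup (Matrix.SpecialLinearGroup (Fin (n + 3)) k) |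
        ∃ g : Matrix.SpecialLinearGroup (Fin (n + 3)) k,
          A = Cfsg.conjBy (Subgroup.closure {t : Matrix.SpecialLinearGroup (Fin (n + 3)) k |
            ∃ c : k, (t : Matrix (Fin (n + 3)) (Fin (n + 3)) k) = Matrix.transvection 0 1 c}) g} ∧
    Cfsg.IsKRootSubgroupSet k {A : Subgroup (Matrix.SpecialLinearGroup (Fin (n + 3)) k) |
        ∃ g : Matrix.SpecialLinearGroup (Fin (n + 3)) k,
          A = Cfsg.conjBy (Subgroup.closure {t : Matrix.SpecialLinearGroup (Fin (n + 3)) k |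
            ∃ c : k, (t : Matrix (Fin (n + 3)) (Fin (n + 3)) k) = Matrix.transvection 0 1 c}) g} ∧
    Cfsg.IsConnectedFamily (Cfsg.FAdj {A : Subgroup (Matrix.SpecialLinearGroup (Fin (n + 3)) k) |
        ∃ g : Matrix.SpecialLinearGroup (Fin (n + 3)) k,
          A = Cfsg.conjBy (Subgroup.closure {t : Matrix.SpecialLinearGroup (Fin (n + 3)) k |
            ∃ c : k, (t : Matrix (Fin (n + 3)) (Fin (n + 3)) k) = Matrix.transvection 0 1 c}) g})
      {A : Subgroup (Matrix.SpecialLinearGroup (Fin (n + 3)) k) |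
        ∃ g : Matrix.SpecialLinearGroup (Fin (n + 3)) k,
          A = Cfsg.conjBy (Subgroup.closure {t : Matrix.SpecialLinearGroup (Fin (n + 3)) k |
            ∃ c : k, (t : Matrix (Fin (n + 3)) (Fin (n + 3)) k) = Matrix.transvection 0 1 c}) g} := by
  classical
  set N := n + 3 with hN
  have hs : ∀ i : Fin (n + 3), (Pi.single i 1 : Fin (n + 3) → k) ≠ 0 := by
    intro i h; have := congrFun h i; simp at this
  have hd : ∀ i j : Fin (n + 3), i ≠ j → (Pi.single i 1 : Fin (n + 3) → k) ⬝ᵥ (Pi.single j 1) = 0 := by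
    intro i j hij
    simp [Pi.single_apply, hij, hij.symm]
  have hd1 : ∀ i : Fin (n + 3), (Pi.single i 1 : Fin (n + 3) → k) ⬝ᵥ (Pi.single i 1) = 1 := by
    intro i
    simp
  have h01 : (0 : Fin (n + 3)) ≠ 1 := by simp
  have h02 : (0 : Fin (n + 3)) ≠ 2 := by
    intro h; have := congrArg Fin.val h; simp [Fin.val_ofNat] at this
    rw [Nat.mod_eq_of_lt (by omega)] at this; omega
  have h12 : (1 : Fin (n + 3)) ≠ 2 := by
    intro h; have := congrArg Fin.val h; simp [Fin.val_ofNat] at this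
    rw [Nat.mod_eq_of_lt (by omega)] at this; omega
  have hcl : Subgroup.closure {t : Matrix.SpecialLinearGroup (Fin (n + 3)) k |
      ∃ c : k, (t : Matrix (Fin (n + 3)) (Fin (n + 3)) k) = Matrix.transvection 0 1 c} =
      TT (Pi.single 0 1 : Fin (n + 3) → k) (Pi.single 1 1) (hd 1 0 h01.symm) := by
    have h1 : {t : Matrix.SpecialLinearGroup (Fin (n + 3)) k |
        ∃ c : k, (t : Matrix (Fin (n + 3)) (Fin (n + 3)) k) = Matrix.transvection 0 1 c} =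
        (TT (Pi.single 0 1 : Fin (n + 3) → k) (Pi.single 1 1) (hd 1 0 h01.symm) : Set _) := by
      ext t
      constructor
      · rintro ⟨c, hc⟩
        refine ⟨c, Subtype.ext ?_⟩
        rw [hc, single_eq, TV_coe, smul_vecMulVec]
      · rintro ⟨c, rfl⟩
        refine ⟨c, ?_⟩
        rw [single_eq, TV_coe, smul_vecMulVec]
    rw [h1, Subgroup.closure_eq]
  have hS : {A : Subgroup (Matrix.SpecialLinearGroup (Fin (n + 3)) k) |
          ∃ g : Matrix.SpecialLinearGroup (Fin (n + 3)) k,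
            A = Cfsg.conjBy (Subgroup.closure {t : Matrix.SpecialLinearGroup (Fin (n + 3)) k |
              ∃ c : k, (t : Matrix (Fin (n + 3)) (Fin (n + 3)) k) = Matrix.transvection 0 1 c}) g} =
      {A | ∃ (u φ : Fin (n + 3) → k) (h : φ ⬝ᵥ u = 0), u ≠ 0 ∧ φ ≠ 0 ∧ A = TT u φ h} := by
    rw [hcl]
    ext A
    constructor
    · rintro ⟨g, rfl⟩
      refine ⟨_, _, conj_dot g (hd 1 0 h01.symm), ?_, ?_, TT_conj g _ _ _⟩
      · intro h
        have h2 := congrArg (fun v => ((g⁻¹ : Matrix.SpecialLinearGroup (Fin (n + 3)) k) : Matrix (Fin (n + 3)) (Fin (n + 3)) k) *ᵥ v) h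
        simp only [Matrix.mulVec_mulVec, Matrix.mulVec_zero] at h2
        rw [← Matrix.SpecialLinearGroup.coe_mul, inv_mul_cancel, Matrix.SpecialLinearGroup.coe_one, Matrix.one_mulVec] at h2
        exact hs 0 h2
      · intro h
        have h2 := congrArg (fun v => v ᵥ* (g : Matrix (Fin (n + 3)) (Fin (n + 3)) k)) h
        simp only [Matrix.vecMul_vecMul, Matrix.zero_vecMul] at h2
        rw [← Matrix.SpecialLinearGroup.coe_mul, inv_mul_cancel, Matrix.SpecialLinearGroup.coe_one, Matrix.vecMul_one] at h2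
        exact hs 1 h2
    · rintro ⟨u, φ, h, hu, hφ, rfl⟩
      obtain ⟨g, hg1, hg2⟩ := exists_SL hu hφ h
      refine ⟨g, ?_⟩
      rw [TT_conj]
      refine TT_congr _ _ one_ne_zero one_ne_zero ?_ ?_
      · rw [one_smul, hg1]
      · rw [one_smul, ← hg2, Matrix.vecMul_vecMul, ← Matrix.SpecialLinearGroup.coe_mul, mul_inv_cancel,
          Matrix.SpecialLinearGroup.coe_one, Matrix.vecMul_one]
  rw [hS]
  set S : Set (Subgroup (Matrix.SpecialLinearGroup (Fin (n + 3)) k)) :=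
    {A | ∃ (u φ : Fin (n + 3) → k) (h : φ ⬝ᵥ u = 0), u ≠ 0 ∧ φ ≠ 0 ∧ A = TT u φ h} with hSd
  have hcomm0 : ∀ (u φ w ψ : Fin (n + 3) → k) (h : φ ⬝ᵥ u = 0) (h' : ψ ⬝ᵥ w = 0), φ ⬝ᵥ w = 0 → ψ ⬝ᵥ u = 0 →
      ⁅TT u φ h, TT w ψ h'⁆ = ⊥ := by
    intro u φ w ψ h h' h1 h2
    rw [eq_bot_iff, Subgroup.commutator_le]
    rintro _ ⟨a, rfl⟩ _ ⟨b, rfl⟩
    rw [Subgroup.mem_bot, commutatorElement_eq_one_iff_mul_comm]
    exact TV_comm h h' h1 h2 a b
  have hcase1 : ∀ (u φ w ψ : Fin (n + 3) → k) (h : φ ⬝ᵥ u = 0) (h' : ψ ⬝ᵥ w = 0), u ≠ 0 → ψ ≠ 0 → φ ⬝ᵥ w ≠ 0 → ψ ⬝ᵥ u = 0 →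
      Cfsg.RootCommutatorCase S (TT u φ h) (TT w ψ h') := by
    intro u φ w ψ h h' hu hψ h1 h2
    exact root_case S h h' h2 h1 (fun a b => TV_commutator u φ w ψ h h' h2 a b) ⟨u, ψ, h2, hu, hψ, rfl⟩
      (fun a c => TV_comm h2 h h2 h c a) (fun a c => (TV_comm h' h2 h2 h' a c).symm)
  have hcase2 : ∀ (u φ w ψ : Fin (n + 3) → k) (h : φ ⬝ᵥ u = 0) (h' : ψ ⬝ᵥ w = 0), w ≠ 0 → φ ≠ 0 → φ ⬝ᵥ w = 0 → ψ ⬝ᵥ u ≠ 0 →
      Cfsg.RootCommutatorCase S (TT u φ h) (TT w ψ h') := by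
    intro u φ w ψ h h' hw hφ h1 h2
    exact root_case S h h' h1 (neg_ne_zero.2 h2) (fun a b => TV_commutator' u φ w ψ h h' h1 a b) ⟨w, φ, h1, hw, hφ, rfl⟩
      (fun a c => TV_comm h1 h h h1 c a) (fun a c => TV_comm h1 h' h1 h' c a)
  have hset : Cfsg.IsRootSubgroupSet S := by
    refine ⟨?_, ?_, ?_, ?_, ?_⟩
    · rintro _ ⟨u, φ, h, hu, hφ, rfl⟩
      refine ⟨⟨?_⟩⟩
      rintro ⟨_, a, rfl⟩ ⟨_, b, rfl⟩
      apply Subtype.ext
      show TV u φ h a * TV u φ h b = TV u φ h b * TV u φ h a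
      rw [TV_mul, TV_mul]
      exact congrArg (TV u φ h) (add_comm a b)
    · rintro _ ⟨u, φ, h, hu, hφ, rfl⟩ hb
      have : TV u φ h 1 ∈ TT u φ h := ⟨1, rfl⟩
      rw [hb, Subgroup.mem_bot] at this
      exact TV_ne h hu hφ one_ne_zero this
    · rw [eq_top_iff, ← Cfsg.Agent.H5.SL.closure_transvections, Subgroup.closure_le]
      rintro _ ⟨i, j, hij, a, rfl⟩
      have h1 : TT (Pi.single i 1 : Fin (n + 3) → k) (Pi.single j 1) (hd j i hij.symm) ≤ ⨆ A ∈ S, A :=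
        le_iSup₂_of_le _ ⟨_, _, hd j i hij.symm, hs i, hs j, rfl⟩ le_rfl
      apply h1
      refine ⟨a, Subtype.ext ?_⟩
      show Matrix.transvection i j a = _
      rw [single_eq, TV_coe, smul_vecMulVec]
    · rintro _ ⟨u, φ, h, hu, hφ, rfl⟩ g
      refine ⟨_, _, conj_dot g h, ?_, ?_, TT_conj g _ _ _⟩
      · intro h1
        have h2 := congrArg (fun v => ((g⁻¹ : Matrix.SpecialLinearGroup (Fin (n + 3)) k) : Matrix (Fin (n + 3)) (Fin (n + 3)) k) *ᵥ v) h1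
        simp only [Matrix.mulVec_mulVec, Matrix.mulVec_zero] at h2
        rw [← Matrix.SpecialLinearGroup.coe_mul, inv_mul_cancel, Matrix.SpecialLinearGroup.coe_one, Matrix.one_mulVec] at h2
        exact hu h2
      · intro h1
        have h2 := congrArg (fun v => v ᵥ* (g : Matrix (Fin (n + 3)) (Fin (n + 3)) k)) h1
        simp only [Matrix.vecMul_vecMul, Matrix.zero_vecMul] at h2
        rw [← Matrix.SpecialLinearGroup.coe_mul, inv_mul_cancel, Matrix.SpecialLinearGroup.coe_one, Matrix.vecMul_one] at h2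
        exact hφ h2
    · rintro _ ⟨u, φ, h, hu, hφ, rfl⟩ _ ⟨w, ψ, h', hw, hψ, rfl⟩
      by_cases h1 : φ ⬝ᵥ w = 0
      · by_cases h2 : ψ ⬝ᵥ u = 0
        · exact Or.inl (hcomm0 u φ w ψ h h' h1 h2)
        · exact Or.inr (Or.inr (hcase2 u φ w ψ h h' hw hφ h1 h2))
      · by_cases h2 : ψ ⬝ᵥ u = 0
        · exact Or.inr (Or.inr (hcase1 u φ w ψ h h' hu hψ h1 h2))
        · exact Or.inr (Or.inl (rank_pair h h' h1 h2))
  -- rank one pairs are the non-degenerate ones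
  have hrank : ∀ (u φ w ψ : Fin (n + 3) → k) (h : φ ⬝ᵥ u = 0) (h' : ψ ⬝ᵥ w = 0), u ≠ 0 → φ ≠ 0 → w ≠ 0 → ψ ≠ 0 →
      Cfsg.IsRankOnePair (TT u φ h) (TT w ψ h') → ψ ⬝ᵥ u = 0 → φ ⬝ᵥ w = 0 := by
    intro u φ w ψ h h' hu hφ hw hψ hr h2
    by_contra h1
    obtain ⟨b, ⟨d, rfl⟩, hb1, hb2⟩ := hr.cond_left (TV u φ h 1) ⟨1, rfl⟩ (TV_ne h hu hφ one_ne_zero)
    rw [TT_conj, TT_conj] at hb2
    have hne : (φ ᵥ* (((TV w ψ h' d)⁻¹)⁻¹ : Matrix.SpecialLinearGroup (Fin (n + 3)) k).1) ≠ 0 := by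
      intro h3
      have h4 := congrArg (fun v => v ⬝ᵥ w) h3
      simp only [zero_dotProduct] at h4
      rw [inv_inv] at h4
      change (φ ᵥ* (TV w ψ h' d : Matrix (Fin (n + 3)) (Fin (n + 3)) k)) ⬝ᵥ w = 0 at h4
      rw [TV_vecMul, add_dotProduct, smul_dotProduct, h', smul_zero, add_zero] at h4
      exact h1 h4
    obtain ⟨c, hc⟩ := TT_eq_imp hne hb2
    rw [TV_inv, TV_inv, TV_mulVec, TV_mulVec, h2, mul_zero, zero_smul, add_zero] at hc
    -- u = c • (w - d u)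
    have h5 := congrArg (fun v => φ ⬝ᵥ v) hc
    simp only [dotProduct_smul, dotProduct_add, h, smul_zero, add_zero, smul_eq_mul, mul_zero] at h5
    have h6 : c = 0 := by
      rcases mul_eq_zero.1 h5.symm with h7 | h7
      · exact h7
      · exact absurd h7 h1
    rw [h6, zero_smul] at hc
    exact hu hc
  have hnd : ∀ (u φ w ψ : Fin (n + 3) → k) (h : φ ⬝ᵥ u = 0) (h' : ψ ⬝ᵥ w = 0), u ≠ 0 → φ ≠ 0 → w ≠ 0 → ψ ≠ 0 →
      Cfsg.IsRankOnePair (TT u φ h) (TT w ψ h') → φ ⬝ᵥ w ≠ 0 ∧ ψ ⬝ᵥ u ≠ 0 := by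
    intro u φ w ψ h h' hu hφ hw hψ hr
    have hr' : Cfsg.IsRankOnePair (TT w ψ h') (TT u φ h) := ⟨hr.ne.symm, hr.nilpotent_right, hr.nilpotent_left, hr.cond_right, hr.cond_left⟩
    have e1 := hrank u φ w ψ h h' hu hφ hw hψ hr
    have e2 := hrank w ψ u φ h' h hw hψ hu hφ hr'
    have e3 : ¬ (φ ⬝ᵥ w = 0 ∧ ψ ⬝ᵥ u = 0) := by
      rintro ⟨h1, h2⟩
      obtain ⟨b, ⟨d, rfl⟩, hb1, hb2⟩ := hr.cond_left (TV u φ h 1) ⟨1, rfl⟩ (TV_ne h hu hφ one_ne_zero)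
      rw [TT_conj, TT_conj] at hb2
      apply hr.ne
      have f1 : TT u φ h = TT (((TV w ψ h' d)⁻¹ : Matrix.SpecialLinearGroup (Fin (n + 3)) k).1 *ᵥ u)
          (φ ᵥ* (((TV w ψ h' d)⁻¹)⁻¹ : Matrix.SpecialLinearGroup (Fin (n + 3)) k).1) (conj_dot _ h) := by
        refine (TT_congr _ _ one_ne_zero one_ne_zero ?_ ?_).symm
        · rw [one_smul, TV_inv, TV_mulVec, h2, mul_zero, zero_smul, add_zero]
        · rw [one_smul, inv_inv, TV_vecMul, h1, mul_zero, zero_smul, add_zero]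
      have f2 : TT w ψ h' = TT (((TV u φ h 1)⁻¹ : Matrix.SpecialLinearGroup (Fin (n + 3)) k).1 *ᵥ w)
          (ψ ᵥ* (((TV u φ h 1)⁻¹)⁻¹ : Matrix.SpecialLinearGroup (Fin (n + 3)) k).1) (conj_dot _ h') := by
        refine (TT_congr _ _ one_ne_zero one_ne_zero ?_ ?_).symm
        · rw [one_smul, TV_inv, TV_mulVec, h1, mul_zero, zero_smul, add_zero]
        · rw [one_smul, inv_inv, TV_vecMul, h2, mul_zero, zero_smul, add_zero]
      rw [f1, f2]
      exact hb2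
    constructor
    · intro h1
      exact e3 ⟨h1, e2 h1⟩
    · intro h2
      exact e3 ⟨e1 h2, h2⟩
  refine ⟨⟨hset, ?_, ?_⟩, ⟨?_, ?_, ?_⟩, ⟨hset, ?_⟩, ?_⟩
  · exact ⟨_, _, _, hd 1 0 h01.symm, hs 0, hs 1, rfl⟩
  · have hstd : ∀ A ∈ S, ∃ g, A = Cfsg.conjBy (TT (Pi.single 0 1 : Fin (n + 3) → k) (Pi.single 1 1) (hd 1 0 h01.symm)) g := by
      intro A hA
      rw [← hS, hcl] at hA
      exact hA
    intro A hA B hB
    obtain ⟨g, rfl⟩ := hstd A hA
    obtain ⟨g', rfl⟩ := hstd B hB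
    refine ⟨g' * g⁻¹, ?_⟩
    rw [Cfsg.conjBy, Cfsg.conjBy, Cfsg.conjBy, Subgroup.map_map]
    congr 1
    apply MonoidHom.ext
    intro x
    show g' * x * g'⁻¹ = (g' * g⁻¹) * (g * x * g⁻¹) * (g' * g⁻¹)⁻¹
    group
  · refine ⟨_, ⟨_, _, hd 1 0 h01.symm, hs 0, hs 1, rfl⟩, _, ⟨_, _, hd 2 0 h02.symm, hs 0, hs 2, rfl⟩, ?_,
      hcomm0 _ _ _ _ _ _ (hd 1 0 h01.symm) (hd 2 0 h02.symm)⟩
    intro he
    obtain ⟨c, hc⟩ : TV (Pi.single 0 1 : Fin (n + 3) → k) (Pi.single 1 1) (hd 1 0 h01.symm) 1 ∈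
        TT (Pi.single 0 1 : Fin (n + 3) → k) (Pi.single 2 1) (hd 2 0 h02.symm) := by rw [← he]; exact ⟨1, rfl⟩
    have h1 := congrArg (fun g : Matrix.SpecialLinearGroup (Fin (n + 3)) k => (g : Matrix (Fin (n + 3)) (Fin (n + 3)) k) *ᵥ (Pi.single 1 1)) hc
    simp only [TV_mulVec, hd1, hd 2 1 h12.symm, mul_zero, zero_smul, add_zero, mul_one, one_smul] at h1
    exact hs 0 (add_eq_left.1 h1)
  · refine ⟨_, ⟨_, _, hd 1 0 h01.symm, hs 0, hs 1, rfl⟩, _, ⟨_, _, hd 0 1 h01, hs 1, hs 0, rfl⟩, rank_pair _ _ ?_ ?_⟩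
    · rw [hd1]; exact one_ne_zero
    · rw [hd1]; exact one_ne_zero
  · refine ⟨_, ⟨_, _, hd 1 0 h01.symm, hs 0, hs 1, rfl⟩, _, ⟨_, _, hd 2 1 h12.symm, hs 1, hs 2, rfl⟩,
      hcase1 _ _ _ _ _ _ (hs 0) (hs 2) ?_ (hd 2 0 h02.symm)⟩
    rw [hd1]; exact one_ne_zero
  · rintro _ ⟨u, φ, h, hu, hφ, rfl⟩ _ ⟨w, ψ, h', hw, hψ, rfl⟩ hr
    obtain ⟨h1, h2⟩ := hnd u φ w ψ h h' hu hφ hw hψ hr
    exact exists_phi h h' h1 h2
  · rintro _ ⟨u, φ, h, hu, hφ, rfl⟩ _ ⟨w, ψ, h', hw, hψ, rfl⟩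
    -- choose z outside both hyperplanes
    obtain ⟨z, hz1, hz2⟩ : ∃ z, φ ⬝ᵥ z ≠ 0 ∧ ψ ⬝ᵥ z ≠ 0 := by
      obtain ⟨i, hi⟩ := Function.ne_iff.1 hφ
      obtain ⟨j, hj⟩ := Function.ne_iff.1 hψ
      have ei : φ ⬝ᵥ (Pi.single i 1) ≠ 0 := by rw [dotProduct_single, mul_one]; exact hi
      have ej : ψ ⬝ᵥ (Pi.single j 1) ≠ 0 := by rw [dotProduct_single, mul_one]; exact hj
      by_cases e1 : ψ ⬝ᵥ (Pi.single i 1) = 0
      · by_cases e2 : φ ⬝ᵥ (Pi.single j 1) = 0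
        · refine ⟨Pi.single i 1 + Pi.single j 1, ?_, ?_⟩
          · rw [dotProduct_add, e2, add_zero]; exact ei
          · rw [dotProduct_add, e1, zero_add]; exact ej
        · exact ⟨_, e2, ej⟩
      · exact ⟨_, ei, e1⟩
    -- functionals vanishing on z
    have hfun : ∀ v : Fin (n + 3) → k, (∀ c : k, v ≠ c • z) → ∃ χ : Fin (n + 3) → k, χ ⬝ᵥ z = 0 ∧ χ ⬝ᵥ v ≠ 0 := by
      intro v hv
      have h1 : v ∉ Submodule.span k {z} := by
        intro h2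
        obtain ⟨c, hc⟩ := Submodule.mem_span_singleton.1 h2
        exact hv c hc.symm
      obtain ⟨f, hf1, hf2⟩ := Submodule.exists_le_ker_of_notMem h1
      have hd2 : ∀ v, ((dotProductEquiv k (Fin (n + 3))).symm f) ⬝ᵥ v = f v := by
        intro v
        have := LinearMap.congr_fun ((dotProductEquiv k (Fin (n + 3))).apply_symm_apply f) v
        exact this
      refine ⟨(dotProductEquiv k (Fin (n + 3))).symm f, ?_, ?_⟩
      · rw [hd2]; exact hf2 (Submodule.mem_span_singleton_self z)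
      · rw [hd2]; exact hf1
    obtain ⟨χ, hχz, hχu, hχw⟩ : ∃ χ : Fin (n + 3) → k, χ ⬝ᵥ z = 0 ∧ χ ⬝ᵥ u ≠ 0 ∧ χ ⬝ᵥ w ≠ 0 := by
      obtain ⟨χ₁, a1, a2⟩ := hfun u (by
        rintro c hc
        have h1 := congrArg (fun v => φ ⬝ᵥ v) hc
        simp only [dotProduct_smul, h, smul_eq_mul] at h1
        rcases mul_eq_zero.1 h1.symm with h2 | h2
        · rw [h2, zero_smul] at hc; exact hu hc
        · exact hz1 h2)
      obtain ⟨χ₂, b1, b2⟩ := hfun w (by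
        rintro c hc
        have h1 := congrArg (fun v => ψ ⬝ᵥ v) hc
        simp only [dotProduct_smul, h', smul_eq_mul] at h1
        rcases mul_eq_zero.1 h1.symm with h2 | h2
        · rw [h2, zero_smul] at hc; exact hw hc
        · exact hz2 h2)
      by_cases e1 : χ₁ ⬝ᵥ w = 0
      · by_cases e2 : χ₂ ⬝ᵥ u = 0
        · refine ⟨χ₁ + χ₂, ?_, ?_, ?_⟩
          · rw [add_dotProduct, a1, b1, add_zero]
          · rw [add_dotProduct, e2, add_zero]; exact a2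
          · rw [add_dotProduct, e1, zero_add]; exact b2
        · exact ⟨χ₂, b1, e2, b2⟩
      · exact ⟨χ₁, a1, a2, e1⟩
    have hz0 : z ≠ 0 := by rintro rfl; exact hz1 (dotProduct_zero _)
    have hχ0 : χ ≠ 0 := by rintro rfl; exact hχu (zero_dotProduct _)
    have hA : TT u φ h ∈ S := ⟨u, φ, h, hu, hφ, rfl⟩
    have hB : TT w ψ h' ∈ S := ⟨w, ψ, h', hw, hψ, rfl⟩
    have hZ : TT z χ hχz ∈ S := ⟨z, χ, hχz, hz0, hχ0, rfl⟩
    exact (Relation.ReflTransGen.single ⟨hA, hZ, rank_pair h hχz hz1 hχu⟩).tail ⟨hZ, hB, rank_pair hχz h' hχw hz2⟩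

end Cfsg.Agent.S5043
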