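import Cfsg.Statements.S5045
import Cfsg.Agent.H13_RI3
import Cfsg.Agent.H11_Cores

set_option autoImplicit false
open Cfsg

namespace Cfsg.Agent.S5045

/-- Let G be a finite group generated by a set D of root involutions, and W the set of members of D whose product with every other member of D has even order or is trivial (the isolated vertices of the odd-order-product graph on D). Then W is conjugation-invariant and generates a normal 2-subgroup of G meeting D in exactly W; the commutator of two members of D lying in different connected components of that graph, each with more than one member, lies in the subgroup generated by W; and for a in such a component, every member of D commuting with a, different from a and with product with a in D, lies in that component or in W. -/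
theorem result {G : Type*} [Group G] [Finite G] {D : Set G} (hD : Cfsg.IsRootInvolutionSet D) :
    (∀ w ∈ {w | Cfsg.IsIsolatedElem (Cfsg.OddAdj D) D w}, ∀ g : G, g * w * g⁻¹ ∈ {w | Cfsg.IsIsolatedElem (Cfsg.OddAdj D) D w}) ∧
    (Subgroup.closure {w | Cfsg.IsIsolatedElem (Cfsg.OddAdj D) D w}).Normal ∧
    IsPGroup 2 ↥(Subgroup.closure {w | Cfsg.IsIsolatedElem (Cfsg.OddAdj D) D w}) ∧
    (Subgroup.closure {w | Cfsg.IsIsolatedElem (Cfsg.OddAdj D) D w} : Set G) ∩ D = {w | Cfsg.IsIsolatedElem (Cfsg.OddAdj D) D w} ∧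
    (∀ a ∈ D, ∀ b ∈ D, (∃ a' ∈ Cfsg.elemComponentOf (Cfsg.OddAdj D) D a, a' ≠ a) →
      (∃ b' ∈ Cfsg.elemComponentOf (Cfsg.OddAdj D) D b, b' ≠ b) →
      Cfsg.elemComponentOf (Cfsg.OddAdj D) D a ≠ Cfsg.elemComponentOf (Cfsg.OddAdj D) D b →
        a * b * a⁻¹ * b⁻¹ ∈ Subgroup.closure {w | Cfsg.IsIsolatedElem (Cfsg.OddAdj D) D w}) ∧
    (∀ a ∈ D, (∃ a' ∈ Cfsg.elemComponentOf (Cfsg.OddAdj D) D a, a' ≠ a) →
      Cfsg.productPartners D a ⊆ Cfsg.elemComponentOf (Cfsg.OddAdj D) D a ∪ {w | Cfsg.IsIsolatedElem (Cfsg.OddAdj D) D w}) := by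
  set I := {w | Cfsg.IsIsolatedElem (Cfsg.OddAdj D) D w} with hI
  have hconj : ∀ w ∈ I, ∀ g : G, g * w * g⁻¹ ∈ I := by
    intro w hw g
    refine ⟨hD.conj_mem w hw.1 g, ?_⟩
    have h1 : ¬ ∃ x, x ∈ Cfsg.oddPartners D (g * w * g⁻¹) := by
      rintro ⟨x, hx⟩
      have h2 := H13.RI.odd_cj hD g⁻¹ hx
      have e : g⁻¹ * (g * w * g⁻¹) * g⁻¹⁻¹ = w := by group
      rw [e] at h2
      exact (hw.2 _).1 (H13.RI.adj_of_odd hw.1 h2)
    intro b
    exact ⟨fun h => h1 ⟨b, H13.RI.odd_of_adj h⟩, fun h => h1 ⟨b, H13.RI.odd_of_adj (H13.RI.adj_symm hD h)⟩⟩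
  have : Fact (Nat.Prime 2) := ⟨Nat.prime_two⟩
  have hn : (Subgroup.closure I).Normal := by
    refine ⟨fun n hn g => ?_⟩
    induction hn using Subgroup.closure_induction with
    | mem x hx => exact Subgroup.subset_closure (hconj x hx g)
    | one => simp
    | mul x y _ _ hx hy =>
      have : g * (x * y) * g⁻¹ = (g * x * g⁻¹) * (g * y * g⁻¹) := by group
      rw [this]; exact mul_mem hx hy
    | inv x _ hx =>
      have : g * x⁻¹ * g⁻¹ = (g * x * g⁻¹)⁻¹ := by group
      rw [this]; exact inv_mem hx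
  have hp : IsPGroup 2 ↥(Subgroup.closure I) := by
    have h1 : Subgroup.closure I ≤ Cfsg.pCore 2 G := by
      rw [Subgroup.closure_le]
      intro w hw
      exact H13.RI.isol_core hD hw
    exact (H11.Cores.pCore_isPGroup (p := 2) (G := G)).to_le h1
  refine ⟨hconj, hn, hp, ?_, ?_, ?_⟩
  · apply Set.Subset.antisymm
    · rintro w ⟨hw, hwD⟩
      exact H13.RI.core_isol hD hn hp hwD hw
    · intro w hw
      exact ⟨Subgroup.subset_closure hw, hw.1⟩
  · intro a ha b hb hna hnb hne
    obtain ⟨x, hx⟩ := H13.RI.comp_nonisol hD hna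
    obtain ⟨y, hy⟩ := H13.RI.comp_nonisol hD hnb
    have hR : ¬ H13.RI.R D a b := by
      intro h
      apply hne
      ext c
      exact ⟨fun hc => ⟨hc.1, (H13.RI.R_symm hD h).trans hc.2⟩, fun hc => ⟨hc.1, h.trans hc.2⟩⟩
    rcases H13.RI.tri hD ha hb with h | h | h
    · have : a * b * a⁻¹ * b⁻¹ = 1 := by rw [h.eq]; group
      rw [this]; exact one_mem _
    · exact absurd (Relation.ReflTransGen.single (H13.RI.adj_of_odd ha h)) hR
    · obtain ⟨c, hc, hca, hcb, h1, h2, h3, h4⟩ := H13.RI.four_rel hD ha h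
      have hcI : c ∈ I := by
        by_contra hnI
        obtain ⟨w, hw⟩ := (H13.RI.isol_iff hD hc).1 hnI
        have r1 := H13.RI.line hD ha hc hca.symm h3 hx hw
        have r2 := H13.RI.line hD hb hc hcb.symm h4 hy hw
        exact hR (r1.trans (H13.RI.R_symm hD r2))
      have e : a * b * a⁻¹ * b⁻¹ = c := by
        rw [H13.RI.inv' hD ha, H13.RI.inv' hD hb, h2, mul_assoc, hcb.eq, ← mul_assoc, H13.RI.sq hD hb, one_mul]
      rw [e]; exact Subgroup.subset_closure hcI
  · intro a ha hna e he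
    obtain ⟨x, hx⟩ := H13.RI.comp_nonisol hD hna
    obtain ⟨⟨heD, hea, hne⟩, hm⟩ := he
    by_cases hI' : e ∈ I
    · exact Or.inr hI'
    · left
      obtain ⟨w, hw⟩ := (H13.RI.isol_iff hD heD).1 hI'
      exact ⟨heD, H13.RI.line hD ha heD (show Commute a e from hea.symm) (by rw [← hea]; exact hm) hx hw⟩

end Cfsg.Agent.S5045
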