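import Cfsg.Statements.S5046
import Cfsg.Agent.H13_RI5

set_option autoImplicit false
open Cfsg

namespace Cfsg.Agent.S5046

/-- Let G be a finite group generated by a set D of root involutions whose odd-order-product graph is connected, and d ∈ D. Then the members e of D with the same commuting members as d are exactly those for which the union of the commuting members of d and the members whose product with d has order 4 equals the corresponding union for e. -/
theorem result {G : Type*} [Group G] [Finite G] {D : Set G} (hD : Cfsg.IsRootInvolutionSet D)
    (hc : Cfsg.IsConnectedSet (Cfsg.OddAdj D) D) {d : G} (hd : d ∈ D) :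
    Cfsg.sameCommutingClass D d =
      {e | e ∈ D ∧ Cfsg.commutingMembers D d ∪ Cfsg.fourPartners D d = Cfsg.commutingMembers D e ∪ Cfsg.fourPartners D e} := by
  ext e
  constructor
  · rintro ⟨he, h⟩
    refine ⟨he, ?_⟩
    rw [H13.RI.union_eq hD hd, H13.RI.union_eq hD he, (H13.RI.same_iff hD hc hd he).1 h]
  · rintro ⟨he, h⟩
    refine ⟨he, ?_⟩
    rw [H13.RI.same_iff hD hc hd he]
    rw [H13.RI.union_eq hD hd, H13.RI.union_eq hD he] at h
    have key : ∀ u : G, Cfsg.oddPartners D u = D \ (D \ Cfsg.oddPartners D u) := by
      intro u
      rw [Set.diff_diff_cancel_left (fun x hx => hx.1)]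
    rw [key d, key e, h]

end Cfsg.Agent.S5046
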