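import Cfsg.Statements.S5048
import Cfsg.Agent.H13_RI5

set_option autoImplicit false
open Cfsg

namespace Cfsg.Agent.S5048

/-- Let G be a finite group generated by a set D of root involutions whose odd-order-product graph is connected, with some product of two different commuting members of D again in D. Then the largest solvable normal subgroup of G is the preimage of the centre of G/O₂(G), and the quotient of G by it is a simple group. -/
theorem result {G : Type*} [Group G] [Finite G] {D : Set G} (hD : Cfsg.IsRootInvolutionSet D)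
    (hc : Cfsg.IsConnectedSet (Cfsg.OddAdj D) D) (hDD : (D ∩ Cfsg.commutingProducts D).Nonempty) :
    Cfsg.solvableRadical G = Cfsg.twoZCore G ∧ IsSimpleGroup (G ⧸ Cfsg.twoZCore G) := by
  obtain ⟨c, hcD, a, ha, b, hb, hab, hab1, rfl⟩ := hDD
  have hab' : Commute a b := hab
  have hb2 := H13.RI.sq hD hb
  have ha2 := H13.RI.sq hD ha
  have hbab : b ≠ a := by
    rintro rfl; exact hab1 ha2
  obtain ⟨x0, hx0⟩ := H13.RI.connected_nonisol hD hc ha hb hbab.symm
  have hclass : ∀ N : Subgroup G, N.Normal → (∃ d ∈ D, d ∈ N) → N = ⊤ := by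
    rintro N hN ⟨d, hd, hdN⟩
    rw [eq_top_iff, ← hD.generates, Subgroup.closure_le]
    intro e he
    obtain ⟨g, rfl⟩ := H13.RI.R_exists_conj hD hd (hc d hd e he)
    exact hN.conj_mem d hdN g
  have : Fact (Nat.Prime 2) := ⟨Nat.prime_two⟩
  have hp2 := H11.Cores.pCore_isPGroup (p := 2) (G := G)
  -- G perfect
  have hperf : commutator G = ⊤ := by
    apply hclass _ inferInstance
    refine ⟨b, hb, ?_⟩
    obtain ⟨g, hg⟩ := H13.RI.R_exists_conj hD ha (hc a ha _ hcD)
    -- a * b = g a g⁻¹, so b = a⁻¹ g a g⁻¹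
    have : b = a⁻¹ * g * a⁻¹⁻¹ * g⁻¹ := by
      have h1 : b = a⁻¹ * (a * b) := by group
      rw [h1, hg]; group
    rw [this]
    exact Subgroup.commutator_mem_commutator (Subgroup.mem_top a⁻¹) (Subgroup.mem_top g)
  have hnorm : ∀ N : Subgroup G, N.Normal → N = ⊤ ∨ N ≤ Cfsg.twoZCore G := by
    intro N hN
    by_cases hcase : ∀ n ∈ N, ∀ d ∈ D, d * (n * d * n⁻¹) ∈ Cfsg.pCore 2 G
    · right
      intro n hn
      rw [Cfsg.twoZCore, Subgroup.mem_comap, Subgroup.mem_center_iff]
      intro y
      obtain ⟨g, rfl⟩ := QuotientGroup.mk'_surjective (Cfsg.pCore 2 G) y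
      have hg : g ∈ Subgroup.closure D := by rw [hD.generates]; exact Subgroup.mem_top _
      induction hg using Subgroup.closure_induction with
      | mem d hd =>
        have h1 := hcase n hn d hd
        have h2 : QuotientGroup.mk' (Cfsg.pCore 2 G) (d * (n * d * n⁻¹)) = 1 := (QuotientGroup.eq_one_iff _).2 h1
        have h3 : QuotientGroup.mk' (Cfsg.pCore 2 G) d * QuotientGroup.mk' (Cfsg.pCore 2 G) d = 1 := by
          rw [← map_mul, H13.RI.sq hD hd, map_one]
        rw [map_mul, map_mul, map_mul, map_inv] at h2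
        set d' := QuotientGroup.mk' (Cfsg.pCore 2 G) d
        set n' := QuotientGroup.mk' (Cfsg.pCore 2 G) n
        have h4 : n' * d' * n'⁻¹ = d' := by
          calc n' * d' * n'⁻¹ = (d' * d') * (n' * d' * n'⁻¹) := by rw [h3, one_mul]
            _ = d' * (d' * (n' * d' * n'⁻¹)) := by group
            _ = d' := by rw [h2, mul_one]
        rw [mul_inv_eq_iff_eq_mul] at h4
        exact h4.symm
      | one => rw [map_one, one_mul, mul_one]
      | mul u v _ _ hu hv => rw [map_mul, mul_assoc, hv, ← mul_assoc, hu, mul_assoc]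
      | inv u _ hu =>
        rw [map_inv]
        exact (show Commute _ _ from hu).inv_left.eq
    · left
      push Not at hcase
      obtain ⟨n, hn, d, hd, hnd⟩ := hcase
      -- some n' with d (d^{n'}) odd
      have hex : ∃ n ∈ N, ∃ d ∈ D, n * d * n⁻¹ ∈ Cfsg.oddPartners D d := by
        by_contra hcon
        push Not at hcon
        apply hnd
        -- d ∈ O₂(N ⊔ ⟨d⟩)
        set M : Subgroup G := N ⊔ Subgroup.zpowers d with hM
        have hdM : d ∈ M := Subgroup.mem_sup_right (Subgroup.mem_zpowers d)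
        have hnM : n ∈ M := Subgroup.mem_sup_left hn
        have hmem : (⟨d, hdM⟩ : M) ∈ Cfsg.pCore 2 M := by
          by_contra hO
          have ho : orderOf (⟨d, hdM⟩ : M) = 2 := by
            rw [Subgroup.orderOf_mk]; exact hD.orderOf_eq d hd
          obtain ⟨w, hw1, hw2, hw3, g, hg⟩ := H19.BS.exists_odd_inverted ho hO
          have h2 : (g : G) * d * (g : G)⁻¹ = d * w := congrArg Subtype.val hg
          -- g = m * d^k
          have hgM : (g : G) ∈ N ⊔ Subgroup.zpowers d := g.2
          rw [Subgroup.mem_sup_of_normal_left] at hgM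
          obtain ⟨m, hm, t, ht, hmt⟩ := hgM
          have htd : Commute t d := by
            obtain ⟨k, rfl⟩ := Subgroup.mem_zpowers_iff.1 ht
            exact (Commute.refl d).zpow_left k
          have h3 : m * d * m⁻¹ = d * w := by
            rw [← h2, ← hmt]
            calc m * d * m⁻¹ = m * (d * t) * t⁻¹ * m⁻¹ := by group
              _ = m * t * d * (m * t)⁻¹ := by rw [← htd.eq]; group
          apply hcon m hm d hd
          rw [h3]
          refine ⟨by rw [← h3]; exact hD.conj_mem d hd m, ?_, ?_⟩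
          · intro h4
            apply hw1
            apply Subtype.ext
            exact mul_left_cancel (h4.trans (mul_one d).symm)
          · rw [← mul_assoc, H13.RI.sq hD hd, one_mul, Subgroup.orderOf_coe]; exact hw2
        -- hence d * d^n ∈ O₂(N) ≤ O₂(G)
        have h5 : (⟨d, hdM⟩ : M) * (⟨n, hnM⟩ * ⟨d, hdM⟩ * ⟨n, hnM⟩⁻¹) ∈ Cfsg.pCore 2 M :=
          mul_mem hmem ((inferInstance : (Cfsg.pCore 2 M).Normal).conj_mem _ hmem _)
        have hK : ((((Cfsg.pCore 2 M).map M.subtype).subgroupOf N)).Normal := by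
          refine ⟨fun k hk u => ?_⟩
          rw [Subgroup.mem_subgroupOf] at hk ⊢
          obtain ⟨q, hq, hqk⟩ := hk
          have huM : (u : G) ∈ M := Subgroup.mem_sup_left u.2
          refine ⟨⟨u, huM⟩ * q * ⟨u, huM⟩⁻¹, (inferInstance : (Cfsg.pCore 2 M).Normal).conj_mem _ hq _, ?_⟩
          simp only [map_mul, map_inv, hqk, Subgroup.coe_mul, Subgroup.coe_inv, Subgroup.subtype_apply]
        have hsub := (Subgroup.Normal.isSubnormal hK).trans' (Subgroup.Normal.isSubnormal hN)
        have hpK : IsPGroup 2 ↥((((Cfsg.pCore 2 M).map M.subtype).subgroupOf N).map N.subtype) := by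
          refine ((H11.Cores.pCore_isPGroup (p := 2) (G := M)).map M.subtype).to_le ?_
          rintro _ ⟨k, hk, rfl⟩
          exact Subgroup.mem_subgroupOf.1 hk
        apply H11.Cores.le_pCore_of_isSubnormal 2 hsub hpK
        have hdn : d * (n * d * n⁻¹) ∈ N := by
          have h6 := hN.conj_mem n hn d
          have h7 : d * (n * d * n⁻¹) = (d * n * d⁻¹) * n⁻¹ := by
            rw [H13.RI.inv' hD hd]; group
          rw [h7]; exact N.mul_mem h6 (N.inv_mem hn)
        refine ⟨⟨_, hdn⟩, ?_, rfl⟩
        rw [SetLike.mem_coe, Subgroup.mem_subgroupOf]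
        exact ⟨_, h5, rfl⟩
      obtain ⟨n, hn, d, hd, hodd⟩ := hex
      obtain ⟨g, rfl⟩ := H13.RI.R_exists_conj hD ha (hc a ha d hd)
      set d := g * a * g⁻¹ with hdd
      set z := g * b * g⁻¹ with hzz
      set x := n * d * n⁻¹ with hxx
      have hz : z ∈ D := hD.conj_mem b hb g
      have hdz : Commute d z := H13.RI.comm_cj g hab'
      have hdzD : d * z ∈ D := by
        have h1 := hD.conj_mem _ hcD g
        have h2 : g * (a * b) * g⁻¹ = d * z := by rw [hdd, hzz]; group
        rwa [h2] at h1
      have hd2 := H13.RI.sq hD hd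
      have hz2 := H13.RI.sq hD hz
      have hx2 := H13.RI.sq hD hodd.1
      have hdx : d * x ∈ N := by
        have h6 := hN.conj_mem n hn d
        have h7 : d * x = (d * n * d⁻¹) * n⁻¹ := by
          rw [H13.RI.inv' hD hd, hxx]; group
        rw [h7]; exact N.mul_mem h6 (N.inv_mem hn)
      have hzx : (z * x) ^ 2 ∈ N := by
        have h8 : (z * x) ^ 2 = (z * d) * (d * x) * (z * d)⁻¹ * (d * x) := by
          rw [H13.RI.mul_comm_inv hz2 hd2, pow_two]
          have e1 : (z * d) * (d * x) * (d * z) * (d * x) = z * (d * d) * x * (d * z * d) * x := by group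
          have e2 : d * z * d = z := by rw [hdz.eq, mul_assoc, hd2, mul_one]
          rw [e1, e2, hd2, mul_one]; group
        rw [h8]
        exact N.mul_mem (hN.conj_mem _ hdx _) hdx
      rcases H13.RI.tri hD hz hodd.1 with h | h | h
      · exact absurd h (H13.RI.no_comm hD hd hz hdz hdzD hodd)
      · obtain ⟨m, hm⟩ := h.2.2
        have h9 : z * x = ((z * x) ^ 2) ^ (m + 1) := by
          rw [← pow_mul]
          have : 2 * (m + 1) = orderOf (z * x) + 1 := by rw [hm]; ring
          rw [this, pow_succ, pow_orderOf_eq_one, one_mul]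
        have h10 : z * x ∈ N := by rw [h9]; exact N.pow_mem hzx _
        apply hclass N hN
        refine ⟨d * z, hdzD, ?_⟩
        have h11 : d * z = (d * x) * (z * x)⁻¹ := by
          rw [H13.RI.mul_comm_inv hz2 hx2]
          calc d * z = d * (x * x) * z := by rw [hx2, mul_one]
            _ = _ := by group
        rw [h11]
        exact N.mul_mem hdx (N.inv_mem h10)
      · exact hclass N hN ⟨_, H13.RI.four_mem hD hz h, hzx⟩
  -- G not solvable
  have hnsol : ¬ Group.IsSolvable G := by
    intro hs
    have : Nontrivial G := ⟨a, 1, H13.RI.ne_one hD ha⟩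
    exact absurd hperf (Group.IsSolvable.commutator_lt_top_of_nontrivial G).ne
  have hZs : Group.IsSolvable ↥(Cfsg.twoZCore G) := by
    have hle : Cfsg.pCore 2 G ≤ Cfsg.twoZCore G := by
      intro q hq
      rw [Cfsg.twoZCore, Subgroup.mem_comap]
      have : QuotientGroup.mk' (Cfsg.pCore 2 G) q = 1 := (QuotientGroup.eq_one_iff _).2 hq
      rw [this]; exact one_mem _
    have hs1 : Group.IsSolvable ↥(Cfsg.pCore 2 G) := by
      have := hp2.isNilpotent
      infer_instance
    let g : ↥(Cfsg.twoZCore G) →* ↥(Subgroup.center (G ⧸ Cfsg.pCore 2 G)) :=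
      ((QuotientGroup.mk' (Cfsg.pCore 2 G)).comp (Cfsg.twoZCore G).subtype).codRestrict _ (fun x => x.2)
    have hs2 : Group.IsSolvable ↥(Subgroup.center (G ⧸ Cfsg.pCore 2 G)) :=
      Group.isSolvable_of_comm (fun u v => Subtype.ext (Subgroup.mem_center_iff.1 v.2 u))
    refine Group.isSolvable_of_ker_le_range (Subgroup.inclusion hle) g ?_
    intro x hx
    have h1 : QuotientGroup.mk' (Cfsg.pCore 2 G) (x : G) = 1 := congrArg Subtype.val (MonoidHom.mem_ker.1 hx)
    have h2 : (x : G) ∈ Cfsg.pCore 2 G := (QuotientGroup.eq_one_iff _).1 h1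
    exact ⟨⟨x, h2⟩, rfl⟩
  have hZne : Cfsg.twoZCore G ≠ ⊤ := by
    intro h
    rw [h] at hZs
    apply hnsol
    exact Group.isSolvable_of_surjective (f := (Subgroup.topEquiv (G := G)).toMonoidHom) (Subgroup.topEquiv (G := G)).surjective
  refine ⟨le_antisymm ?_ ?_, ?_⟩
  · refine sSup_le ?_
    rintro N ⟨hN, hs⟩
    rcases hnorm N hN with h | h
    · exfalso
      rw [h] at hs
      apply hnsol
      exact Group.isSolvable_of_surjective (f := (Subgroup.topEquiv (G := G)).toMonoidHom) (Subgroup.topEquiv (G := G)).surjective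
    · exact h
  · exact le_sSup ⟨inferInstance, hZs⟩
  · have : Nontrivial (G ⧸ Cfsg.twoZCore G) := QuotientGroup.nontrivial_iff.2 hZne
    refine ⟨fun H hH => ?_⟩
    rcases hnorm _ (hH.comap (QuotientGroup.mk' (Cfsg.twoZCore G))) with h | h
    · right
      have := congrArg (Subgroup.map (QuotientGroup.mk' (Cfsg.twoZCore G))) h
      rw [Subgroup.map_comap_eq_self_of_surjective (QuotientGroup.mk'_surjective _)] at this
      rw [this]
      exact Subgroup.map_top_of_surjective _ (QuotientGroup.mk'_surjective _)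
    · left
      rw [Subgroup.eq_bot_iff_forall]
      intro y hy
      obtain ⟨x, rfl⟩ := QuotientGroup.mk'_surjective (Cfsg.twoZCore G) y
      exact (QuotientGroup.eq_one_iff _).2 (h hy)

end Cfsg.Agent.S5048
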