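import Cfsg.Statements.S5049
import Cfsg.Agent.H13_RI5

set_option autoImplicit false
open Cfsg

namespace Cfsg.Agent.S5049

open scoped commutatorElement

/-- Let G be a finite group generated by a set D of odd transpositions (root involutions with no product of order 4), Q = O₂(G), and for a ∈ D let Q_a be the commutator subgroup of Q with a. Then every member of D commuting with a centralizes Q_a; and for b ∈ D with ab of odd order greater than 1, the centralizer of ab in Q is the intersection of the centralizers of a and b in Q. -/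
theorem result {G : Type*} [Group G] [Finite G] {D : Set G} (hD : Cfsg.IsOddTranspositionSet D) {a : G} (ha : a ∈ D) :
    (∀ e ∈ Cfsg.commutingMembers D a, ∀ q ∈ ⁅Cfsg.pCore 2 G, Subgroup.zpowers a⁆, e * q = q * e) ∧
    (∀ b ∈ Cfsg.oddPartners D a,
      Cfsg.pCore 2 G ⊓ Subgroup.centralizer {a * b} = Cfsg.pCore 2 G ⊓ Subgroup.centralizer {a} ⊓ Subgroup.centralizer {b}) := by
  have hR := hD.1
  have ha2 := H13.RI.sq hR ha
  have : Fact (Nat.Prime 2) := ⟨Nat.prime_two⟩
  have hp2 := H11.Cores.pCore_isPGroup (p := 2) (G := G)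
  have hN : (Cfsg.pCore 2 G).Normal := inferInstance
  -- no four
  have hno4 : ∀ u ∈ D, ∀ v ∈ D, (∃ k : ℕ, (u * v) ^ 2 ^ k = 1) → Commute u v := by
    rintro u hu v hv ⟨k, hk⟩
    rcases H13.RI.tri hR hu hv with h | h | h
    · exact h
    · exfalso
      have h1 : orderOf (u * v) ∣ 2 ^ k := orderOf_dvd_of_pow_eq_one hk
      have h2 := Nat.Coprime.eq_one_of_dvd (Nat.Coprime.pow_right k ((Nat.coprime_two_right).2 h.2.2)) h1
      rw [orderOf_eq_one_iff] at h2
      exact H13.RI.rho_ne hR hu h h2
    · exact absurd h.2 (hD.2 u hu v hv)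
  -- e ∈ C_D(a), q ∈ O₂ : e commutes with q a q⁻¹
  have key : ∀ e ∈ Cfsg.commutingMembers D a, ∀ q ∈ Cfsg.pCore 2 G, Commute e (q * a * q⁻¹) := by
    rintro e ⟨he, hea⟩ q hq
    have hea' : Commute e a := hea
    apply hno4 e he _ (hR.conj_mem a ha q)
    -- (e * a^q)^2 ∈ O₂
    have h1 : (e * (q * a * q⁻¹)) ^ 2 ∈ Cfsg.pCore 2 G := by
      rw [← QuotientGroup.eq_one_iff]
      have h2 : ((q : G) : G ⧸ Cfsg.pCore 2 G) = 1 := (QuotientGroup.eq_one_iff _).2 hq
      have h3 : ((e * (q * a * q⁻¹) : G) : G ⧸ Cfsg.pCore 2 G) = ((e * a : G) : G ⧸ Cfsg.pCore 2 G) := by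
        simp only [QuotientGroup.mk_mul, QuotientGroup.mk_inv, h2]
        simp
      rw [QuotientGroup.mk_pow, h3, ← QuotientGroup.mk_pow, hea'.mul_pow, pow_two, pow_two, H13.RI.sq hR he, ha2, one_mul]
      rfl
    obtain ⟨k, hk⟩ := hp2 ⟨_, h1⟩
    refine ⟨k + 1, ?_⟩
    have hk' := congrArg Subtype.val hk
    simp only [Subgroup.coe_pow, Subgroup.coe_one] at hk'
    rw [pow_succ', pow_mul]
    exact hk'
  constructor
  · intro e he q hq
    have hle : ⁅Cfsg.pCore 2 G, Subgroup.zpowers a⁆ ≤ Subgroup.centralizer {e} := by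
      rw [Subgroup.commutator_le]
      intro g hg s hs
      obtain ⟨i, rfl⟩ := Subgroup.mem_zpowers_iff.1 hs
      rw [Subgroup.mem_centralizer_iff]
      intro u hu
      rw [Set.mem_singleton_iff.1 hu]
      have hea' : Commute e a := he.2
      have h1 : Commute e ⁅g, a ^ i⁆ := by
        rw [commutatorElement_def, ← conj_zpow, ← zpow_neg]
        exact ((key e he g hg).zpow_right i).mul_right (hea'.zpow_right _)
      exact h1.eq
    have := hle hq
    rw [Subgroup.mem_centralizer_iff] at this
    exact this e rfl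
  · intro b hb
    apply le_antisymm
    · intro q hq
      obtain ⟨hq1, hq2⟩ := Subgroup.mem_inf.1 hq
      rw [Subgroup.mem_centralizer_iff] at hq2
      have hqab : Commute (a * b) q := hq2 (a * b) rfl
      -- u = a * (q a q⁻¹)
      have hc := key a ⟨ha, rfl⟩ q hq1
      set u := a * (q * a * q⁻¹) with hu
      have hb2 := H13.RI.sq hR hb.1
      -- q a q⁻¹ = a * u
      have e1 : q * a * q⁻¹ = a * u := by rw [hu, ← mul_assoc, ha2, one_mul]
      -- u commutes with a
      have hua : Commute u a := (Commute.refl a).mul_left hc.symm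
      -- u commutes with a * b
      have hrel := H13.RI.rho_rel ha2 hb2
      have hub : Commute u (a * b) := by
        have h1 : (q * a * q⁻¹) * (a * b) * (q * a * q⁻¹) = (a * b)⁻¹ := by
          have h2 : q⁻¹ * (a * b) * q = a * b := by rw [mul_assoc, hqab.eq]; group
          calc (q * a * q⁻¹) * (a * b) * (q * a * q⁻¹) = q * (a * (q⁻¹ * (a * b) * q) * a) * q⁻¹ := by group
            _ = q * (a * b)⁻¹ * q⁻¹ := by rw [h2, hrel]
            _ = (a * b)⁻¹ := by rw [← hqab.inv_left.eq]; group
        have hq2' : (q * a * q⁻¹) * (q * a * q⁻¹) = 1 := H13.RI.sq hR (hR.conj_mem a ha q)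
        show u * (a * b) = (a * b) * u
        have h3 : (q * a * q⁻¹) * (a * b) = (a * b)⁻¹ * (q * a * q⁻¹) := by
          rw [← h1]
          calc (q * a * q⁻¹) * (a * b) = (q * a * q⁻¹) * (a * b) * 1 := by group
            _ = _ := by rw [← hq2']; group
        have h4 : a * (a * b)⁻¹ = (a * b) * a := by
          rw [← hrel, ← mul_assoc, ← mul_assoc, ha2, one_mul]
        rw [hu, mul_assoc, h3, ← mul_assoc, h4]; group
      have hub' : Commute u b := by
        have : b = a * (a * b) := by rw [← mul_assoc, ha2, one_mul]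
        rw [this]; exact hua.mul_right hub
      have hu1 : u = 1 := by
        by_contra hu1
        have hu2 : u * u = 1 := by
          have h5 : (a * u) * (a * u) = 1 := by rw [← e1]; exact H13.RI.sq hR (hR.conj_mem a ha q)
          calc u * u = (a * a) * u * u := by rw [ha2, one_mul]
            _ = a * (a * u) * u := by group
            _ = a * (u * a) * u := by rw [hua.eq]
            _ = (a * u) * (a * u) := by group
            _ = 1 := h5
        have hau : a * u ∈ D := by rw [← e1]; exact hR.conj_mem a ha q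
        have ho : orderOf u = 2 := orderOf_eq_prime (by rw [pow_two, hu2]) hu1
        have h6 : orderOf (u * (a * b)) = 2 * orderOf (a * b) := by
          rw [hub.orderOf_mul_eq_mul_orderOf_of_coprime, ho]
          rw [ho]
          exact (Nat.coprime_two_left).2 hb.2.2
        refine H13.RI.no_bad hR hau hb.1 hb.2.2 ?_ (by rw [← h6, ← hua.eq]; congr 1; group)
        intro h
        rw [orderOf_eq_one_iff] at h
        exact H13.RI.rho_ne hR ha hb h
      rw [hu1, mul_one] at e1
      have hqa : Commute a q := by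
        show a * q = q * a
        rw [mul_inv_eq_iff_eq_mul] at e1
        exact e1.symm
      have hqb : Commute b q := by
        have : b = a * (a * b) := by rw [← mul_assoc, ha2, one_mul]
        rw [this]; exact hqa.mul_left hqab
      refine Subgroup.mem_inf.2 ⟨Subgroup.mem_inf.2 ⟨hq1, ?_⟩, ?_⟩
      · rw [Subgroup.mem_centralizer_iff]
        intro v hv
        rw [Set.mem_singleton_iff.1 hv]; exact hqa.eq
      · rw [Subgroup.mem_centralizer_iff]
        intro v hv
        rw [Set.mem_singleton_iff.1 hv]; exact hqb.eq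
    · intro q hq
      obtain ⟨hq1, hq2⟩ := Subgroup.mem_inf.1 hq
      obtain ⟨hq0, hq1⟩ := Subgroup.mem_inf.1 hq1
      rw [Subgroup.mem_centralizer_iff] at hq1 hq2
      refine Subgroup.mem_inf.2 ⟨hq0, ?_⟩
      rw [Subgroup.mem_centralizer_iff]
      intro v hv
      rw [Set.mem_singleton_iff.1 hv]
      exact ((show Commute a q from hq1 a rfl).mul_left (hq2 b rfl)).eq

end Cfsg.Agent.S5049
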