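import Cfsg.Statements.S5057
import Mathlib
import Cfsg.Agent.H21_AutA6Syl2
import Cfsg.Agent.H20_AltOrd

set_option autoImplicit false
open Cfsg

namespace Cfsg.Agent.S5057

open Equiv

theorem conj_A6 (a b : alternatingGroup (Fin 6)) (ha : orderOf a = 2) (hb : orderOf b = 2) :
    ∃ g : alternatingGroup (Fin 6), b = g * a * g⁻¹ := by
  have h1 := Cfsg.Agent.H21.AutA6.type22 a ha
  have h2 := Cfsg.Agent.H21.AutA6.type22 b hb
  obtain ⟨g, hg⟩ := isConj_iff.mp (Perm.isConj_iff_cycleType_eq.mpr (h1.trans h2.symm))
  obtain ⟨c, hc, hc2⟩ : ∃ c ∈ (a : Perm (Fin 6)).cycleFactorsFinset, c.support.card = 2 := by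
    have h3 : 2 ∈ (a : Perm (Fin 6)).cycleType := by rw [h1]; simp
    rw [Perm.cycleType_def, Multiset.mem_map] at h3
    obtain ⟨c, hc, hc2⟩ := h3
    exact ⟨c, hc, hc2⟩
  have hcomm : c * (a : Perm (Fin 6)) = (a : Perm (Fin 6)) * c := (Perm.self_mem_cycle_factors_commute hc).eq
  have hsc : Perm.sign c = -1 := (Perm.card_support_eq_two.mp hc2).sign_eq
  rcases Int.units_eq_one_or (Perm.sign g) with h4 | h4
  · exact ⟨⟨g, Perm.mem_alternatingGroup.mpr h4⟩, Subtype.ext hg.symm⟩
  · refine ⟨⟨g * c, Perm.mem_alternatingGroup.mpr (by rw [Perm.sign_mul, h4, hsc]; decide)⟩, Subtype.ext ?_⟩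
    show (b : Perm (Fin 6)) = g * c * a * (g * c)⁻¹
    rw [← hg]
    calc g * (a : Perm (Fin 6)) * g⁻¹ = g * ((a : Perm (Fin 6)) * c) * c⁻¹ * g⁻¹ := by group
      _ = g * (c * a) * c⁻¹ * g⁻¹ := by rw [hcomm]
      _ = g * c * a * (g * c)⁻¹ := by group

theorem ord_mem (a : alternatingGroup (Fin 6)) : orderOf a = 1 ∨ orderOf a = 2 ∨ orderOf a = 3 ∨ orderOf a = 4 ∨ orderOf a = 5 := by
  have h : orderOf a ∈ Set.range (orderOf : alternatingGroup (Fin 6) → ℕ) := ⟨a, rfl⟩
  rw [Cfsg.Agent.H20.AltOrd.range_alt6] at h
  simpa using h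

/-- The involutions of the alternating group of degree 6 form a class of root involutions (a single conjugacy class of involutions generating the group, any two of which commute, have product of odd order, or have product of order 4 whose square is again an involution of the class), and the product of any two of them has order at most 5. -/
theorem result :
    Cfsg.IsRootInvolutionClass {g : ↥(alternatingGroup (Fin 6)) | orderOf g = 2} ∧
    ∀ d ∈ {g : ↥(alternatingGroup (Fin 6)) | orderOf g = 2}, ∀ e ∈ {g : ↥(alternatingGroup (Fin 6)) | orderOf g = 2},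
      orderOf (d * e) ≤ 5 := by
  classical
  haveI hs : IsSimpleGroup (alternatingGroup (Fin 6)) := alternatingGroup.isSimpleGroup (by simp)
  obtain ⟨t, ht⟩ : ∃ t : alternatingGroup (Fin 6), orderOf t = 2 := by
    have h : (2 : ℕ) ∈ Set.range (orderOf : alternatingGroup (Fin 6) → ℕ) := by
      rw [Cfsg.Agent.H20.AltOrd.range_alt6]; simp
    exact h
  have hconj : ∀ d : alternatingGroup (Fin 6), orderOf d = 2 → ∀ g : alternatingGroup (Fin 6), orderOf (g * d * g⁻¹) = 2 := by
    intro d hd g
    have := orderOf_injective (MulAut.conj g).toMonoidHom (MulAut.conj g).injective d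
    rw [hd] at this
    simpa using this
  refine ⟨⟨⟨fun d hd => hd, ?_, hconj, ?_⟩, ⟨t, ht⟩, fun a ha b hb => conj_A6 a b ha hb⟩, ?_⟩
  · have hn : (Subgroup.closure {g : alternatingGroup (Fin 6) | orderOf g = 2}).Normal := by
      refine ⟨fun x hx g => ?_⟩
      induction hx using Subgroup.closure_induction with
      | mem x hx => exact Subgroup.subset_closure (hconj x hx g)
      | one => simpa using Subgroup.one_mem _
      | mul x y _ _ hx hy =>
        have : g * (x * y) * g⁻¹ = (g * x * g⁻¹) * (g * y * g⁻¹) := by group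
        rw [this]; exact Subgroup.mul_mem _ hx hy
      | inv x _ hx =>
        have : g * x⁻¹ * g⁻¹ = (g * x * g⁻¹)⁻¹ := by group
        rw [this]; exact Subgroup.inv_mem _ hx
    rcases hn.eq_bot_or_eq_top with h | h
    · exfalso
      have h1 : t ∈ Subgroup.closure {g : alternatingGroup (Fin 6) | orderOf g = 2} := Subgroup.subset_closure ht
      rw [h, Subgroup.mem_bot] at h1
      rw [h1, orderOf_one] at ht
      norm_num at ht
    · exact h
  · intro a ha b hb
    have ha2 : a * a = 1 := by rw [← pow_two, ← (ha : orderOf a = 2), pow_orderOf_eq_one]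
    have hb2 : b * b = 1 := by rw [← pow_two, ← (hb : orderOf b = 2), pow_orderOf_eq_one]
    rcases ord_mem (a * b) with h | h | h | h | h
    · right; left; rw [h]; decide
    · left
      have h2 : (a * b) * (a * b) = 1 := by rw [← pow_two, ← h, pow_orderOf_eq_one]
      calc a * b = a * b * (b * b) * (a * a) := by rw [ha2, hb2, mul_one, mul_one]
        _ = a * (b * b) * b * a * a := by group
        _ = (a * a) * (a * b * (a * b))⁻¹ * (a * b) := by rw [h2, ha2, hb2]; simp only [mul_one, one_mul, inv_one]; rw [mul_assoc (a * b), ha2, mul_one]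
        _ = b * a := by
          rw [h2, ha2, inv_one, one_mul, one_mul]
          have h3 : a * b * (a * b) * (b * a) = b * a := by rw [h2, one_mul]
          rw [← h3]
          have h4 : a * b * (a * b) * (b * a) = a * b * a * (b * b) * a := by group
          rw [h4, hb2, mul_one, mul_assoc, ha2, mul_one]
    · right; left; rw [h]; decide
    · right; right
      refine ⟨h, ?_⟩
      show orderOf ((a * b) ^ 2) = 2
      rw [orderOf_pow, h]; norm_num
    · right; left; rw [h]; decide
  · intro a _ b _
    rcases ord_mem (a * b) with h | h | h | h | h <;> rw [h] <;> norm_num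

end Cfsg.Agent.S5057
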