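import Cfsg.Statements.S5058
import Mathlib
import Cfsg.Agent.H5_Tv
import Cfsg.Agent.H5_SL

set_option autoImplicit false
open Matrix
open Cfsg

namespace Cfsg.Agent.S5058

open Matrix Module Cfsg.Agent.H5.Tv

section prods
variable {F : Type*} [Field F] {m : ℕ}

theorem vmul (u φ w ψ : Fin m → F) : vecMulVec u φ * vecMulVec w ψ = (φ ⬝ᵥ w) • vecMulVec u ψ := by
  rw [vecMulVec_mul_vecMulVec, vecMulVec_smul]

/-- products of odd order -/
theorem odd_of [CharP F 2] [Finite F] (x : Matrix.SpecialLinearGroup (Fin m) F) (N : Matrix (Fin m) (Fin m) F)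
    (hx : (x : Matrix (Fin m) (Fin m) F) = 1 + N) (ρ : F) (hρ : ρ ≠ 0) (hN : N * N * N = ρ • (N * N) + ρ • N) :
    Odd (orderOf x) := by
  classical
  have h2 : (2 : F) = 0 := CharTwo.two_eq_zero
  by_contra hno
  rw [Nat.not_odd_iff_even] at hno
  obtain ⟨k, hk⟩ := hno
  have hpos : 0 < orderOf x := orderOf_pos x
  set y := x ^ k with hy
  have hy1 : y ≠ 1 := by
    intro h
    have := orderOf_dvd_of_pow_eq_one h
    have := Nat.le_of_dvd (by omega) this
    omega
  have hy2 : y * y = 1 := by rw [hy, ← pow_add, ← hk, pow_orderOf_eq_one]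
  set f := Matrix.toLinAlgEquiv' N with hf
  set P : Polynomial F := Polynomial.X ^ 3 + Polynomial.C ρ * Polynomial.X ^ 2 + Polynomial.C ρ * Polynomial.X with hP
  have hP2 : (2 : Polynomial F) = 0 := by
    have := congrArg Polynomial.C h2
    rw [map_ofNat, map_zero] at this
    exact this
  have hsep : P.Separable := by
    rw [Polynomial.Separable]
    have hd : Polynomial.derivative P = Polynomial.X ^ 2 + Polynomial.C ρ := by
      rw [hP]
      simp only [Polynomial.derivative_add, Polynomial.derivative_mul, Polynomial.derivative_C, Polynomial.derivative_X_pow,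
        Polynomial.derivative_X, zero_mul, zero_add, mul_one]
      push_cast
      simp only [map_ofNat]
      linear_combination (Polynomial.X ^ 2 + Polynomial.C ρ * Polynomial.X) * hP2
    rw [hd]
    refine ⟨-Polynomial.C (ρ⁻¹ * ρ⁻¹), Polynomial.C (ρ⁻¹ * ρ⁻¹) * (Polynomial.X + Polynomial.C ρ), ?_⟩
    have h3 : Polynomial.C (ρ⁻¹ * ρ⁻¹) * (Polynomial.C ρ * Polynomial.C ρ) = 1 := by
      rw [← Polynomial.C_mul, ← Polynomial.C_mul]
      rw [show ρ⁻¹ * ρ⁻¹ * (ρ * ρ) = 1 by field_simp]
      rfl
    rw [hP]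
    linear_combination h3
  have haev : Polynomial.aeval f P = 0 := by
    rw [hP]
    simp only [map_add, map_mul, map_pow, Polynomial.aeval_X, Polynomial.aeval_C]
    have h3 : N * N * N + ρ • (N * N) + ρ • N = 0 := by
      rw [hN]
      have : ∀ Z : Matrix (Fin m) (Fin m) F, Z + Z = 0 := by
        intro Z
        rw [← two_smul F Z, h2, zero_smul]
      calc _ = (ρ • (N * N) + ρ • (N * N)) + (ρ • N + ρ • N) := by abel
        _ = 0 := by rw [this, this, add_zero]
    have h4 := congrArg Matrix.toLinAlgEquiv' h3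
    rw [map_zero, map_add, map_add, map_smul, map_smul, map_mul, map_mul, ← hf] at h4
    rw [Algebra.algebraMap_eq_smul_one, smul_mul_assoc, one_mul, smul_mul_assoc, one_mul]
    rw [← h4]
    simp only [pow_succ, pow_zero, one_mul]
  have hss := Module.End.isSemisimple_of_squarefree_aeval_eq_zero hsep.squarefree haev
  have hss2 := hss.aeval ((1 + Polynomial.X) ^ k - 1)
  have hM : Polynomial.aeval f ((1 + Polynomial.X) ^ k - 1 : Polynomial F) = Matrix.toLinAlgEquiv' ((y : Matrix (Fin m) (Fin m) F) - 1) := by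
    rw [hy, Matrix.SpecialLinearGroup.coe_pow, hx]
    simp [hf]
  rw [hM] at hss2
  have hnil : IsNilpotent (Matrix.toLinAlgEquiv' ((y : Matrix (Fin m) (Fin m) F) - 1)) := by
    refine ⟨2, ?_⟩
    rw [← map_pow, pow_two]
    have h5 : (y : Matrix (Fin m) (Fin m) F) * y = 1 := by
      rw [← Matrix.SpecialLinearGroup.coe_mul, hy2, Matrix.SpecialLinearGroup.coe_one]
    have h6 : ((y : Matrix (Fin m) (Fin m) F) - 1) * ((y : Matrix (Fin m) (Fin m) F) - 1) = 0 := by
      have : ((y : Matrix (Fin m) (Fin m) F) - 1) * ((y : Matrix (Fin m) (Fin m) F) - 1) =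
          (y : Matrix (Fin m) (Fin m) F) * y + 1 - (2 : F) • (y : Matrix (Fin m) (Fin m) F) := by
        rw [two_smul]; noncomm_ring
      rw [this, h5, h2, zero_smul, sub_zero, ← two_smul F (1 : Matrix (Fin m) (Fin m) F), h2, zero_smul]
    rw [h6, map_zero]
  have h7 := Module.End.eq_zero_of_isNilpotent_isSemisimple hnil hss2
  rw [map_eq_zero_iff _ (Matrix.toLinAlgEquiv' : Matrix (Fin m) (Fin m) F ≃ₐ[F] _).injective, sub_eq_zero] at h7
  exact hy1 (Subtype.ext h7)

end prods

/-- Let F be a finite field of characteristic 2 and n a natural number. Then the transvections of SL_{n+3}(F) (so in every dimension at least 3) (the conjugates of the elementary matrices 1 + c E₁₂, c ≠ 0) form a class of root involutions of SL_{n+3}(F); when F has two elements they form a class of {3,4}⁺-transpositions (every product of odd order has order 1 or 3). -/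
theorem result (F : Type*) [Field F] [Fintype F] [CharP F 2] (n : ℕ) :
    Cfsg.IsRootInvolutionClass {t : Matrix.SpecialLinearGroup (Fin (n + 3)) F | ∃ c : F, c ≠ 0 ∧
        ∃ g : Matrix.SpecialLinearGroup (Fin (n + 3)) F, ((g⁻¹ * t * g : Matrix.SpecialLinearGroup (Fin (n + 3)) F) :
          Matrix (Fin (n + 3)) (Fin (n + 3)) F) = Matrix.transvection 0 1 c} ∧
    (Fintype.card F = 2 → Cfsg.IsThreeFourPlusTranspositionSet {t : Matrix.SpecialLinearGroup (Fin (n + 3)) F | ∃ c : F, c ≠ 0 ∧
        ∃ g : Matrix.SpecialLinearGroup (Fin (n + 3)) F, ((g⁻¹ * t * g : Matrix.SpecialLinearGroup (Fin (n + 3)) F) :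
          Matrix (Fin (n + 3)) (Fin (n + 3)) F) = Matrix.transvection 0 1 c}) := by
  classical
  have h2 : (2 : F) = 0 := CharTwo.two_eq_zero
  have hzz : ∀ Z : Matrix (Fin (n + 3)) (Fin (n + 3)) F, Z + Z = 0 := by
    intro Z
    rw [← two_smul F Z, h2, zero_smul]
  set D : Set (Matrix.SpecialLinearGroup (Fin (n + 3)) F) := {t : Matrix.SpecialLinearGroup (Fin (n + 3)) F | ∃ c : F, c ≠ 0 ∧
          ∃ g : Matrix.SpecialLinearGroup (Fin (n + 3)) F, ((g⁻¹ * t * g : Matrix.SpecialLinearGroup (Fin (n + 3)) F) :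
            Matrix (Fin (n + 3)) (Fin (n + 3)) F) = Matrix.transvection 0 1 c} with hD
  have hmem : ∀ t, t ∈ D ↔ ∃ u φ : Fin (n + 3) → F, u ≠ 0 ∧ φ ≠ 0 ∧ φ ⬝ᵥ u = 0 ∧
      (t : Matrix (Fin (n + 3)) (Fin (n + 3)) F) = 1 + Matrix.vecMulVec u φ := fun t => mem_iff t
  have hne : ∀ u φ : Fin (n + 3) → F, u ≠ 0 → φ ≠ 0 → vecMulVec u φ ≠ 0 := by
    intro u φ hu hφ h
    obtain ⟨i, hi⟩ := Function.ne_iff.1 hu
    obtain ⟨j, hj⟩ := Function.ne_iff.1 hφ
    have := congrFun (congrFun h i) j
    rw [vecMulVec_apply] at this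
    exact (mul_ne_zero hi hj) this
  have hsq : ∀ t ∈ D, t * t = 1 := by
    intro t ht
    obtain ⟨u, φ, hu, hφ, h0, ht⟩ := (hmem t).1 ht
    apply Subtype.ext
    rw [Matrix.SpecialLinearGroup.coe_mul, ht, Matrix.SpecialLinearGroup.coe_one]
    have : (1 + vecMulVec u φ) * (1 + vecMulVec u φ) = 1 + (vecMulVec u φ + vecMulVec u φ) + vecMulVec u φ * vecMulVec u φ := by
      noncomm_ring
    rw [this, hzz, vmul, h0, zero_smul, add_zero, add_zero]
  have hne1 : ∀ t ∈ D, t ≠ 1 := by
    intro t ht h1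
    obtain ⟨u, φ, hu, hφ, h0, ht⟩ := (hmem t).1 ht
    rw [h1, Matrix.SpecialLinearGroup.coe_one] at ht
    exact hne u φ hu hφ (left_eq_add.1 ht)
  have hord : ∀ t ∈ D, orderOf t = 2 := fun t ht => orderOf_eq_prime (by rw [pow_two]; exact hsq t ht) (hne1 t ht)
  have hconj : ∀ d ∈ D, ∀ g : Matrix.SpecialLinearGroup (Fin (n + 3)) F, g * d * g⁻¹ ∈ D := by
    rintro d ⟨c, hc, h, hh⟩ g
    refine ⟨c, hc, g * h, ?_⟩
    have h1 : (g * h)⁻¹ * (g * d * g⁻¹) * (g * h) = h⁻¹ * d * h := by group
    rw [h1]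
    exact hh
  have hgen : Subgroup.closure D = ⊤ := by
    rw [eq_top_iff, ← Cfsg.Agent.H5.SL.closure_transvections, Subgroup.closure_le]
    rintro _ ⟨i, j, hij, a, rfl⟩
    by_cases ha : a = 0
    · rw [ha]
      have : Matrix.SpecialLinearGroup.transvection hij (0 : F) = 1 := by
        apply Subtype.ext
        show Matrix.transvection i j (0 : F) = 1
        rw [Matrix.transvection_zero]
      rw [this]; exact Subgroup.one_mem _
    · apply Subgroup.subset_closure
      rw [hmem]
      refine ⟨a • Pi.single i 1, Pi.single j 1, ?_, ?_, ?_, ?_⟩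
      · intro h; have := congrFun h i; simp at this; exact ha this
      · intro h; have := congrFun h j; simp at this
      · simp [Pi.single_apply, hij]
      · show Matrix.transvection i j a = _
        exact single_eq a i j
  have hpair : ∀ a ∈ D, ∀ b ∈ D, (a * b = b * a ∨ Odd (orderOf (a * b)) ∨ (orderOf (a * b) = 4 ∧ (a * b) ^ 2 ∈ D)) ∧
      (Fintype.card F = 2 → Odd (orderOf (a * b)) → orderOf (a * b) = 1 ∨ orderOf (a * b) = 3) := by
    intro a ha b hb
    have ha' := ha
    have hb' := hb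
    obtain ⟨u, φ, hu, hφ, h0, hau⟩ := (hmem a).1 ha
    obtain ⟨w, ψ, hw, hψ, h0', hbw⟩ := (hmem b).1 hb
    set d := φ ⬝ᵥ w with hd
    set e := ψ ⬝ᵥ u with he
    set A := vecMulVec u φ with hA
    set B := vecMulVec w ψ with hB
    set C := vecMulVec u ψ with hC
    set E := vecMulVec w φ with hE
    have AA : A * A = 0 := by rw [hA, vmul, h0, zero_smul]
    have BB : B * B = 0 := by rw [hB, vmul, h0', zero_smul]
    have AB : A * B = d • C := by rw [hA, hB, vmul]
    have BA : B * A = e • E := by rw [hA, hB, vmul]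
    have AC : A * C = 0 := by rw [hA, hC, vmul, h0, zero_smul]
    have CA : C * A = e • A := by rw [hA, hC, vmul]
    have CB : C * B = 0 := by rw [hB, hC, vmul, h0', zero_smul]
    have BC : B * C = e • B := by rw [hB, hC, vmul]
    have CC : C * C = e • C := by rw [hC, vmul]
    have AE : A * E = d • A := by rw [hA, hE, vmul]
    have BE : B * E = 0 := by rw [hB, hE, vmul, h0', zero_smul]
    have CE : C * E = 0 := by rw [hC, hE, vmul, h0', zero_smul]
    set N := A + B + d • C with hN
    have hab : ((a * b : Matrix.SpecialLinearGroup (Fin (n + 3)) F) : Matrix (Fin (n + 3)) (Fin (n + 3)) F) = 1 + N := by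
      rw [Matrix.SpecialLinearGroup.coe_mul, hau, hbw, hN, ← AB]
      noncomm_ring
    have hNN : N * N = d • C + e • E + (d * e) • N := by
      rw [hN]
      simp only [add_mul, mul_add, smul_mul_assoc, mul_smul_comm, AA, BB, AB, BA, AC, CA, CB, BC, CC, smul_zero, smul_add,
        smul_smul]
      module
    have hsq2 : ((a * b) ^ 2 : Matrix.SpecialLinearGroup (Fin (n + 3)) F) = (a * b) * (a * b) := pow_two _
    have hsqc : (((a * b) ^ 2 : Matrix.SpecialLinearGroup (Fin (n + 3)) F) : Matrix (Fin (n + 3)) (Fin (n + 3)) F) = 1 + N * N := by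
      rw [hsq2, Matrix.SpecialLinearGroup.coe_mul, hab]
      have : (1 + N) * (1 + N) = 1 + (N + N) + N * N := by noncomm_ring
      rw [this, hzz, add_zero]
    have four : (a * b) ^ 2 ∈ D → orderOf (a * b) = 4 := by
      intro h
      have := orderOf_eq_prime_pow (x := a * b) (p := 2) (n := 1) (by rw [pow_one]; exact hne1 _ h) (by
        rw [show 2 ^ (1 + 1) = 2 * 2 by norm_num, pow_mul, pow_two]
        exact hsq _ h)
      rw [this]; norm_num
    by_cases hd0 : d = 0
    · by_cases he0 : e = 0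
      · have hcomm : a * b = b * a := by
          apply Subtype.ext
          rw [Matrix.SpecialLinearGroup.coe_mul, Matrix.SpecialLinearGroup.coe_mul, hau, hbw]
          have e1 : (1 + A) * (1 + B) = 1 + A + B + A * B := by noncomm_ring
          have e2 : (1 + B) * (1 + A) = 1 + A + B + B * A := by noncomm_ring
          rw [e1, e2, AB, BA, hd0, he0, zero_smul, zero_smul]
        refine ⟨Or.inl hcomm, fun _ hodd => ?_⟩
        have h4 : (a * b) ^ 2 = 1 := by
          rw [pow_two]
          calc a * b * (a * b) = a * b * (b * a) := by rw [hcomm]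
            _ = a * (b * b) * a := by group
            _ = 1 := by rw [hsq b hb', mul_one, hsq a ha']
        have h5 := orderOf_dvd_of_pow_eq_one h4
        rcases (Nat.dvd_prime Nat.prime_two).1 h5 with h6 | h6
        · exact Or.inl h6
        · rw [h6] at hodd; exact absurd hodd (by decide)
      · have hm : (a * b) ^ 2 ∈ D := by
          rw [hmem]
          refine ⟨e • w, φ, smul_ne_zero he0 hw, hφ, ?_, ?_⟩
          · rw [dotProduct_smul, ← hd, hd0, smul_zero]
          · rw [hsqc, hNN, hd0, zero_smul, zero_mul, zero_smul, add_zero, zero_add, hE, smul_vecMulVec]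
        have h4 := four hm
        exact ⟨Or.inr (Or.inr ⟨h4, hm⟩), fun _ hodd => by rw [h4] at hodd; exact absurd hodd (by decide)⟩
    · by_cases he0 : e = 0
      · have hm : (a * b) ^ 2 ∈ D := by
          rw [hmem]
          refine ⟨d • u, ψ, smul_ne_zero hd0 hu, hψ, ?_, ?_⟩
          · rw [dotProduct_smul, ← he, he0, smul_zero]
          · rw [hsqc, hNN, he0, zero_smul, mul_zero, zero_smul, add_zero, add_zero, hC, smul_vecMulVec]
        have h4 := four hm
        exact ⟨Or.inr (Or.inr ⟨h4, hm⟩), fun _ hodd => by rw [h4] at hodd; exact absurd hodd (by decide)⟩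
      · have hNNN : N * N * N = (d * e) • (N * N) + (d * e) • N := by
          have e1 : (d • C + e • E) * N = (d * e) • N := by
            rw [hN]
            have EA : E * A = 0 := by rw [hE, hA, vmul, h0, zero_smul]
            have EB : E * B = d • B := by rw [hE, hB, vmul]
            have EC : E * C = 0 := by rw [hE, hC, vmul, h0, zero_smul]
            simp only [add_mul, mul_add, smul_mul_assoc, mul_smul_comm, CA, CB, CC, EA, EB, EC, smul_zero, smul_add,
              smul_smul]
            module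
          conv_lhs => rw [hNN, add_mul, e1, smul_mul_assoc]
          exact add_comm _ _
        have hodd := odd_of (a * b) N hab (d * e) (mul_ne_zero hd0 he0) hNNN
        refine ⟨Or.inr (Or.inl hodd), fun hc _ => ?_⟩
        have hde : d * e = 1 := by
          have h5 := FiniteField.pow_card_sub_one_eq_one (d * e) (mul_ne_zero hd0 he0)
          rw [hc] at h5
          simpa using h5
        have h6 : (a * b) ^ 3 = 1 := by
          apply Subtype.ext
          rw [pow_succ, Matrix.SpecialLinearGroup.coe_mul, hsqc, hab, Matrix.SpecialLinearGroup.coe_one]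
          rw [hde, one_smul, one_smul] at hNNN
          have e2 : (1 + N * N) * (1 + N) = 1 + N + N * N + N * N * N := by noncomm_ring
          rw [e2, hNNN]
          have e3 : 1 + N + N * N + (N * N + N) = 1 + (N + N) + (N * N + N * N) := by abel
          rw [e3, hzz, hzz, add_zero, add_zero]
        have h7 := orderOf_dvd_of_pow_eq_one h6
        exact (Nat.dvd_prime Nat.prime_three).1 h7
  have hset : Cfsg.IsRootInvolutionSet D := ⟨hord, hgen, hconj, fun a ha b hb => (hpair a ha b hb).1⟩
  refine ⟨⟨hset, ?_, ?_⟩, fun hc => ⟨hset, fun a ha b hb hodd => (hpair a ha b hb).2 hc hodd⟩⟩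
  · obtain ⟨t, ht⟩ : ∃ t : Matrix.SpecialLinearGroup (Fin (n + 3)) F, (t : Matrix (Fin (n + 3)) (Fin (n + 3)) F) = Matrix.transvection 0 1 1 :=
      ⟨⟨Matrix.transvection 0 1 1, Matrix.det_transvection_of_ne _ _ (by simp) _⟩, rfl⟩
    exact ⟨t, 1, one_ne_zero, 1, by rw [inv_one, one_mul, mul_one, ht]⟩
  · have hstd : ∀ a ∈ D, ∃ g : Matrix.SpecialLinearGroup (Fin (n + 3)) F,
        (a : Matrix (Fin (n + 3)) (Fin (n + 3)) F) = (g : Matrix (Fin (n + 3)) (Fin (n + 3)) F) * (1 + vecMulVec (Pi.single 0 1) (Pi.single 1 1)) *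
          ((g⁻¹ : Matrix.SpecialLinearGroup (Fin (n + 3)) F) : Matrix (Fin (n + 3)) (Fin (n + 3)) F) := by
      intro a ha
      obtain ⟨u, φ, hu, hφ, h0, hau⟩ := (hmem a).1 ha
      obtain ⟨g, hg1, hg2⟩ := exists_SL hu hφ h0
      refine ⟨g, ?_⟩
      rw [conj_eq, hg1, ← hg2, Matrix.vecMul_vecMul, ← Matrix.SpecialLinearGroup.coe_mul, mul_inv_cancel,
        Matrix.SpecialLinearGroup.coe_one, Matrix.vecMul_one, hau]
    intro a ha b hb
    obtain ⟨g, hg⟩ := hstd a ha
    obtain ⟨h, hh⟩ := hstd b hb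
    obtain ⟨t, ht⟩ : ∃ t : Matrix.SpecialLinearGroup (Fin (n + 3)) F, (t : Matrix (Fin (n + 3)) (Fin (n + 3)) F) = 1 + vecMulVec (Pi.single 0 1) (Pi.single 1 1) := by
      refine ⟨⟨Matrix.transvection 0 1 1, Matrix.det_transvection_of_ne _ _ (by simp) _⟩, ?_⟩
      show Matrix.transvection 0 1 1 = _
      rw [single_eq, one_smul]
    have ea : a = g * t * g⁻¹ := by
      apply Subtype.ext
      rw [Matrix.SpecialLinearGroup.coe_mul, Matrix.SpecialLinearGroup.coe_mul, ht]
      exact hg
    have eb : b = h * t * h⁻¹ := by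
      apply Subtype.ext
      rw [Matrix.SpecialLinearGroup.coe_mul, Matrix.SpecialLinearGroup.coe_mul, ht]
      exact hh
    refine ⟨h * g⁻¹, ?_⟩
    rw [ea, eb]
    group

end Cfsg.Agent.S5058
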