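import Cfsg.Statements.S5059
import Mathlib

set_option autoImplicit false
universe u
open Cfsg

namespace Cfsg.Agent.S5059

open LinearMap in
private theorem aux_mul {k : Type u} [Field k] {M : Type u} [AddCommGroup M] [Module k M] {a b : M →ₗ[k] M}
    (hab : a * b = 0) (c : k) : (1 + c • a) * (1 + c • b) = 1 + c • (a + b) := by
  rw [mul_add, add_mul, add_mul, one_mul, one_mul, mul_one, smul_mul_smul_comm, hab, smul_zero, add_zero, smul_add]
  abel

/-- Let k be a field of characteristic not 2 with k not of order 3, M a finite-dimensional k-vector space and G ≤ GL(M) such that (G, M) is a quadratic pair (M irreducible for G, and G generated by its quadratically acting elements σ whose scalar family 1 + c(σ − 1), c ∈ k, lies in G). Write 𝒬_d for the quadratic elements of G of minimal commutator rank, E(σ) for the subgroup generated by the members of 𝒬_d with the same fixed space and commutator space as σ, and Σ for the set of these subgroups. Then for σ ∈ 𝒬_d the subgroup E(σ) consists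 exactly of those members together with the identity, it is abelian, and if k has prime characteristic p every element of E(σ) has order dividing p. -/
theorem result {k : Type u} [Field k] (hk2 : ringChar k ≠ 2) (hk3 : Nat.card k ≠ 3)
    {M : Type u} [AddCommGroup M] [Module k M] [FiniteDimensional k M]
    {G : Subgroup (LinearMap.GeneralLinearGroup k M)} (hG : Cfsg.IsQuadraticPair G)
    {σ : LinearMap.GeneralLinearGroup k M} (hσ : σ ∈ Cfsg.minimalQuadraticElements G) :
    (Cfsg.sameActionSubgroup G σ : Set (LinearMap.GeneralLinearGroup k M)) = Cfsg.sameActionClass G σ ∪ {1} ∧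
    IsMulCommutative ↥(Cfsg.sameActionSubgroup G σ) ∧
    (∀ p : ℕ, p.Prime → ringChar k = p → ∀ x ∈ Cfsg.sameActionSubgroup G σ, x ^ p = 1) := by
  classical
  set C := Cfsg.sameActionClass G σ with hC
  -- basic facts
  have hrk : ∀ τ ∈ C, LinearMap.range ((τ : M →ₗ[k] M) - 1) ≤ LinearMap.ker ((σ : M →ₗ[k] M) - 1) := by
    rintro τ ⟨hτ, hk, hr⟩
    rw [← hk]
    rintro _ ⟨m, rfl⟩
    rw [LinearMap.mem_ker]
    exact LinearMap.congr_fun hτ.1.2.1.1 m
  have hprod : ∀ τ ∈ C, ∀ υ ∈ C, ((τ : M →ₗ[k] M) - 1) * ((υ : M →ₗ[k] M) - 1) = 0 := by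
    intro τ hτ υ hυ
    ext m
    have h1 := hrk υ hυ ⟨m, rfl⟩
    rw [← hτ.2.1, LinearMap.mem_ker] at h1
    exact h1
  have hmulc : ∀ τ ∈ C, ∀ υ ∈ C, ((τ * υ : LinearMap.GeneralLinearGroup k M) : M →ₗ[k] M) - 1 =
      ((τ : M →ₗ[k] M) - 1) + ((υ : M →ₗ[k] M) - 1) := by
    intro τ hτ υ hυ
    have h1 := hprod τ hτ υ hυ
    rw [Units.val_mul]
    have h2 : (τ : M →ₗ[k] M) * (υ : M →ₗ[k] M) - 1 =
      ((τ : M →ₗ[k] M) - 1) * ((υ : M →ₗ[k] M) - 1) + (((τ : M →ₗ[k] M) - 1) + ((υ : M →ₗ[k] M) - 1)) := by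
      noncomm_ring
    rw [h2, h1, zero_add]
  have hone : ∀ τ : LinearMap.GeneralLinearGroup k M, (τ : M →ₗ[k] M) - 1 = 0 → τ = 1 := by
    intro τ h
    apply Units.ext
    rw [Units.val_one]
    exact sub_eq_zero.1 h
  have hquad : ∀ τ ∈ C, ((τ : M →ₗ[k] M) - 1) * ((τ : M →ₗ[k] M) - 1) = 0 := fun τ hτ => hτ.1.1.2.1.1
  have hfam : ∀ τ ∈ C, ∀ c : k, ∃ υ : LinearMap.GeneralLinearGroup k M, υ ∈ G ∧
      (υ : M →ₗ[k] M) = 1 + c • ((τ : M →ₗ[k] M) - 1) := by
    intro τ hτ c
    have h1 := hquad τ hτ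
    set a := (τ : M →ₗ[k] M) - 1 with ha
    have e1 : (1 + c • a) * (1 + (-c) • a) = 1 := by
      rw [mul_add, add_mul, add_mul, one_mul, mul_one, one_mul, smul_mul_smul_comm, h1, smul_zero, add_zero, neg_smul]
      abel
    have e2 : (1 + (-c) • a) * (1 + c • a) = 1 := by
      rw [mul_add, add_mul, add_mul, one_mul, mul_one, one_mul, smul_mul_smul_comm, h1, smul_zero, add_zero, neg_smul]
      abel
    refine ⟨⟨1 + c • a, 1 + (-c) • a, e1, e2⟩, ?_, rfl⟩
    exact hτ.1.1.2.2 ⟨c, rfl⟩
  have hrank : ∀ τ ∈ Cfsg.quadraticElements G, Cfsg.commutatorRank σ ≤ Cfsg.commutatorRank τ := hσ.2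
  have hmul : ∀ τ ∈ C, ∀ υ ∈ C, τ * υ ∈ C ∪ {1} := by
    intro τ hτ υ hυ
    by_cases h1 : τ * υ = 1
    · exact Or.inr h1
    left
    have hm := hmulc τ hτ υ hυ
    set a := (τ : M →ₗ[k] M) - 1 with ha
    set b := (υ : M →ₗ[k] M) - 1 with hb
    have hab : a * b = 0 := hprod τ hτ υ hυ
    have hba : b * a = 0 := hprod υ hυ τ hτ
    have haa : a * a = 0 := hquad τ hτ
    have hbb : b * b = 0 := hquad υ hυ
    have hq : τ * υ ∈ Cfsg.quadraticElements G := by
      refine ⟨G.mul_mem hτ.1.1.1 hυ.1.1.1, ⟨?_, ?_⟩, ?_⟩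
      · rw [hm, add_mul, mul_add, mul_add, hab, hba, haa, hbb]; simp
      · intro h2; exact h1 (hone _ h2)
      · rintro x ⟨c, hx⟩
        rw [hm] at hx
        obtain ⟨x1, hx1, hx1'⟩ := hfam τ hτ c
        obtain ⟨x2, hx2, hx2'⟩ := hfam υ hυ c
        have : x = x1 * x2 := by
          apply Units.ext
          rw [Units.val_mul, hx, hx1', hx2']
          exact (aux_mul hab c).symm
        rw [this]
        exact G.mul_mem hx1 hx2
    have hle1 : LinearMap.range (((τ * υ : LinearMap.GeneralLinearGroup k M) : M →ₗ[k] M) - 1) ≤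
        LinearMap.range ((σ : M →ₗ[k] M) - 1) := by
      rw [hm]
      rintro _ ⟨m, rfl⟩
      rw [LinearMap.add_apply]
      refine Submodule.add_mem _ ?_ ?_
      · rw [← hτ.2.2]; exact ⟨m, rfl⟩
      · rw [← hυ.2.2]; exact ⟨m, rfl⟩
    have hle2 : LinearMap.ker ((σ : M →ₗ[k] M) - 1) ≤
        LinearMap.ker (((τ * υ : LinearMap.GeneralLinearGroup k M) : M →ₗ[k] M) - 1) := by
      intro m hmk
      rw [hm, LinearMap.mem_ker, LinearMap.add_apply]
      have e1 : a m = 0 := by
        have := hmk; rw [← hτ.2.1] at this; exact this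
      have e2 : b m = 0 := by
        have := hmk; rw [← hυ.2.1] at this; exact this
      rw [e1, e2, add_zero]
    have hr := hrank _ hq
    have hreq : LinearMap.range (((τ * υ : LinearMap.GeneralLinearGroup k M) : M →ₗ[k] M) - 1) =
        LinearMap.range ((σ : M →ₗ[k] M) - 1) := Submodule.eq_of_le_of_finrank_le hle1 hr
    refine ⟨⟨hq, ?_⟩, ?_, hreq⟩
    · intro x hx
      have e : Cfsg.commutatorRank (τ * υ) = Cfsg.commutatorRank σ := by
        unfold Cfsg.commutatorRank; rw [hreq]
      rw [e]; exact hrank x hx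
    · refine (Submodule.eq_of_le_of_finrank_le hle2 ?_).symm
      have f1 := LinearMap.finrank_range_add_finrank_ker (((τ * υ : LinearMap.GeneralLinearGroup k M) : M →ₗ[k] M) - 1)
      have f2 := LinearMap.finrank_range_add_finrank_ker ((σ : M →ₗ[k] M) - 1)
      rw [hreq] at f1
      omega
  have hinvc : ∀ τ ∈ C, ((τ⁻¹ : LinearMap.GeneralLinearGroup k M) : M →ₗ[k] M) = 1 - ((τ : M →ₗ[k] M) - 1) := by
    intro τ hτ
    have h1 := hquad τ hτ
    rw [Units.inv_eq_of_mul_eq_one_right]
    have : (τ : M →ₗ[k] M) = 1 + ((τ : M →ₗ[k] M) - 1) := by abel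
    rw [this]
    set a := (τ : M →ₗ[k] M) - 1
    have e : (1 + a) * (1 - (1 + a - 1)) = 1 - a * a := by noncomm_ring
    rw [e, h1, sub_zero]
  have hinv : ∀ τ ∈ C, τ⁻¹ ∈ C := by
    intro τ hτ
    have hi := hinvc τ hτ
    have hi' : ((τ⁻¹ : LinearMap.GeneralLinearGroup k M) : M →ₗ[k] M) - 1 = -((τ : M →ₗ[k] M) - 1) := by
      rw [hi]; abel
    have hker : LinearMap.ker (((τ⁻¹ : LinearMap.GeneralLinearGroup k M) : M →ₗ[k] M) - 1) =
        LinearMap.ker ((τ : M →ₗ[k] M) - 1) := by
      rw [hi']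
      ext m
      rw [LinearMap.mem_ker, LinearMap.mem_ker, LinearMap.neg_apply, neg_eq_zero]
    have hran : LinearMap.range (((τ⁻¹ : LinearMap.GeneralLinearGroup k M) : M →ₗ[k] M) - 1) =
        LinearMap.range ((τ : M →ₗ[k] M) - 1) := by
      rw [hi', LinearMap.range_neg]
    refine ⟨⟨⟨G.inv_mem hτ.1.1.1, ⟨?_, ?_⟩, ?_⟩, ?_⟩, hker.trans hτ.2.1, hran.trans hτ.2.2⟩
    · rw [hi', neg_mul_neg]; exact hquad τ hτ
    · rw [hi', Ne, neg_eq_zero]; exact hτ.1.1.2.1.2
    · rintro x ⟨c, hx⟩
      apply hτ.1.1.2.2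
      refine ⟨-c, ?_⟩
      rw [hx, hi', smul_neg, neg_smul]
    · intro x hx
      have e : Cfsg.commutatorRank τ⁻¹ = Cfsg.commutatorRank τ := by
        unfold Cfsg.commutatorRank; rw [hran]
      rw [e]; exact hτ.1.2 x hx
  have hset : (Cfsg.sameActionSubgroup G σ : Set (LinearMap.GeneralLinearGroup k M)) = C ∪ {1} := by
    apply Set.Subset.antisymm
    · let H : Subgroup (LinearMap.GeneralLinearGroup k M) :=
        { carrier := C ∪ {1}
          one_mem' := Or.inr rfl
          mul_mem' := by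
            rintro x y (hx | hx) (hy | hy)
            · exact hmul x hx y hy
            · rw [Set.mem_singleton_iff] at hy; rw [hy, mul_one]; exact Or.inl hx
            · rw [Set.mem_singleton_iff] at hx; rw [hx, one_mul]; exact Or.inl hy
            · rw [Set.mem_singleton_iff] at hx hy; rw [hx, hy, one_mul]; exact Or.inr rfl
          inv_mem' := by
            rintro x (hx | hx)
            · exact Or.inl (hinv x hx)
            · rw [Set.mem_singleton_iff] at hx; rw [hx, inv_one]; exact Or.inr rfl }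
      have hle : Cfsg.sameActionSubgroup G σ ≤ H := (Subgroup.closure_le H).2 (fun x hx => Or.inl hx)
      exact fun x hx => hle hx
    · rintro x (hx | hx)
      · exact Subgroup.subset_closure hx
      · rw [Set.mem_singleton_iff] at hx; rw [hx]; exact Subgroup.one_mem _
  refine ⟨hset, ?_, ?_⟩
  · refine ⟨⟨?_⟩⟩
    rintro ⟨x, hx⟩ ⟨y, hy⟩
    apply Subtype.ext
    show x * y = y * x
    have hx' : x ∈ C ∪ {1} := by rw [← hset]; exact hx
    have hy' : y ∈ C ∪ {1} := by rw [← hset]; exact hy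
    rcases hx' with hx' | hx'
    · rcases hy' with hy' | hy'
      · apply Units.ext
        have e1 := hmulc x hx' y hy'
        have e2 := hmulc y hy' x hx'
        rw [add_comm] at e2
        exact sub_left_inj.1 (e1.trans e2.symm)
      · rw [Set.mem_singleton_iff] at hy'; rw [hy', mul_one, one_mul]
    · rw [Set.mem_singleton_iff] at hx'; rw [hx', mul_one, one_mul]
  · intro p hp hkp x hx
    have hx' : x ∈ C ∪ {1} := by rw [← hset]; exact hx
    rcases hx' with hx' | hx'
    · have hn : ∀ n : ℕ, ((x ^ n : LinearMap.GeneralLinearGroup k M) : M →ₗ[k] M) = 1 + (n : k) • ((x : M →ₗ[k] M) - 1) := by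
        intro n
        induction n with
        | zero => simp
        | succ n ih =>
          have h1 := hquad x hx'
          rw [pow_succ, Units.val_mul, ih]
          have e : (x : M →ₗ[k] M) = 1 + ((x : M →ₗ[k] M) - 1) := by abel
          set a := (x : M →ₗ[k] M) - 1
          rw [e, mul_add, add_mul, add_mul, mul_one, mul_one, one_mul, smul_mul_assoc, h1, smul_zero, add_zero]
          push_cast
          rw [add_smul, one_smul]
          abel
      apply Units.ext
      rw [hn p, ← hkp]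
      have : ((ringChar k : ℕ) : k) = 0 := by exact ringChar.Nat.cast_ringChar
      rw [this, zero_smul, add_zero, Units.val_one]
    · rw [Set.mem_singleton_iff] at hx'; rw [hx', one_pow]

end Cfsg.Agent.S5059
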