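import Cfsg.Statements.S5070
import Mathlib
import Cfsg.Agent.H5_Symp
import Cfsg.Agent.H5_SL

set_option autoImplicit false
open Matrix
open Cfsg

namespace Cfsg.Agent.S5070

open Matrix Cfsg.Agent.H5.Symp
open scoped commutatorElement

section base
variable {F : Type*} [Field F] {m : ℕ}

/-- the transvection group of a vector -/
def TS (p : Fin m ⊕ Fin m → F) : Subgroup (Matrix.symplecticGroup (Fin m) F) where
  carrier := {g | ∃ c : F, g = T p c}
  mul_mem' := by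
    rintro _ _ ⟨a, rfl⟩ ⟨b, rfl⟩
    exact ⟨a + b, T_mul_T p a b⟩
  one_mem' := ⟨0, (T_zero p).symm⟩
  inv_mem' := by
    rintro _ ⟨a, rfl⟩
    refine ⟨-a, ?_⟩
    rw [inv_eq_iff_mul_eq_one, T_mul_T, add_neg_cancel, T_zero]

theorem mem_TS {p : Fin m ⊕ Fin m → F} {g : Matrix.symplecticGroup (Fin m) F} : g ∈ TS p ↔ ∃ c : F, g = T p c := Iff.rfl

theorem T_inv (p : Fin m ⊕ Fin m → F) (c : F) : (T p c)⁻¹ = T p (-c) := by
  rw [inv_eq_iff_mul_eq_one, T_mul_T, add_neg_cancel, T_zero]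

theorem TS_eq (p : Fin m ⊕ Fin m → F) :
    Subgroup.closure {g : ↥(Matrix.symplecticGroup (Fin m) F) | ∃ c : F, ∀ v : Fin m ⊕ Fin m → F,
          (g : Matrix (Fin m ⊕ Fin m) (Fin m ⊕ Fin m) F) *ᵥ v =
            v + (c * (v ⬝ᵥ (Matrix.J (Fin m) F *ᵥ p))) • p} = TS p := by
  have h1 : {g : ↥(Matrix.symplecticGroup (Fin m) F) | ∃ c : F, ∀ v : Fin m ⊕ Fin m → F,
          (g : Matrix (Fin m ⊕ Fin m) (Fin m ⊕ Fin m) F) *ᵥ v =
            v + (c * (v ⬝ᵥ (Matrix.J (Fin m) F *ᵥ p))) • p} = (TS p : Set _) := by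
    ext g
    constructor
    · rintro ⟨c, hc⟩
      refine ⟨c, Sp_ext fun x => ?_⟩
      rw [hc, T_apply]; rfl
    · rintro ⟨c, rfl⟩
      exact ⟨c, fun v => T_apply p c v⟩
  rw [h1, Subgroup.closure_eq]

theorem TS_smul {a : F} (ha : a ≠ 0) (p : Fin m ⊕ Fin m → F) : TS (a • p) = TS p := by
  ext g
  rw [mem_TS, mem_TS]
  constructor
  · rintro ⟨c, rfl⟩
    exact ⟨_, T_smul a p c⟩
  · rintro ⟨c, rfl⟩
    refine ⟨(a ^ 2)⁻¹ * c, ?_⟩
    rw [T_smul, mul_inv_cancel_left₀ (pow_ne_zero 2 ha)]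

theorem TS_conj (g : Matrix.symplecticGroup (Fin m) F) (p : Fin m ⊕ Fin m → F) :
    Cfsg.conjBy (TS p) g = TS ((g : Matrix (Fin m ⊕ Fin m) (Fin m ⊕ Fin m) F) *ᵥ p) := by
  ext x
  rw [mem_TS]
  constructor
  · rintro ⟨_, ⟨c, rfl⟩, rfl⟩
    exact ⟨c, conj_T g p c⟩
  · rintro ⟨c, rfl⟩
    exact ⟨T p c, ⟨c, rfl⟩, conj_T g p c⟩

theorem T_ne {p : Fin m ⊕ Fin m → F} (hp : p ≠ 0) {c : F} (hc : c ≠ 0) : T p c ≠ 1 := by
  intro h
  obtain ⟨v, hv⟩ := exists_ne hp
  have h1 := T_apply p c v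
  rw [h] at h1
  have h2 : (c * Cfsg.sympForm m F v p) • p = 0 := by
    have h3 : ((1 : Matrix.symplecticGroup (Fin m) F) : Matrix (Fin m ⊕ Fin m) (Fin m ⊕ Fin m) F) *ᵥ v = v := by simp
    rw [h3] at h1
    exact left_eq_add.1 h1
  rcases smul_eq_zero.1 h2 with h4 | h4
  · rw [swap p v] at h4
    exact (mul_ne_zero hc (neg_ne_zero.2 hv)) h4
  · exact hp h4

theorem TS_comm {p q : Fin m ⊕ Fin m → F} (h : Cfsg.sympForm m F p q = 0) (a b : F) : T p a * T q b = T q b * T p a := by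
  have h' : Cfsg.sympForm m F q p = 0 := by rw [swap p q, h, neg_zero]
  apply Sp_ext
  intro x
  rw [Submonoid.coe_mul, Submonoid.coe_mul, ← Matrix.mulVec_mulVec, ← Matrix.mulVec_mulVec, T_apply, T_apply, T_apply,
    T_apply, add_left, add_left, smul_left, smul_left, h, h', mul_zero, mul_zero, add_zero, add_zero]
  abel

theorem comm_imp {p q : Fin m ⊕ Fin m → F} (h : T p 1 * T q (-1) = T q (-1) * T p 1) : Cfsg.sympForm m F p q = 0 := by
  have h1 := conj_T (T p 1) q (-1)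
  rw [h, mul_inv_cancel_right] at h1
  rw [T_apply, one_mul] at h1
  have h2 := congrArg (fun g : Matrix.symplecticGroup (Fin m) F => (g : Matrix (Fin m ⊕ Fin m) (Fin m ⊕ Fin m) F) *ᵥ q) h1
  simp only [T_apply, self, mul_zero, zero_smul, add_zero] at h2
  have h3 := left_eq_add.1 h2
  rw [add_right, self, zero_add, smul_right] at h3
  rcases smul_eq_zero.1 h3 with h4 | h4
  · have : Cfsg.sympForm m F q p * Cfsg.sympForm m F q p = 0 := by
      rw [← neg_eq_zero]; rw [← h4]; ring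
    rw [swap q p, mul_self_eq_zero.1 this, neg_zero]
  · have h5 := congrArg (fun v => Cfsg.sympForm m F v p) h4
    simp only [add_left, smul_left, self, mul_zero, add_zero] at h5
    have h6 : Cfsg.sympForm m F (0 : Fin m ⊕ Fin m → F) p = 0 := by
      have := smul_left (m := m) (0 : F) p p
      rwa [zero_smul, zero_mul] at this
    rw [h6] at h5
    rw [swap q p, h5, neg_zero]

theorem rank_cond {p q : Fin m ⊕ Fin m → F} (hpq : Cfsg.sympForm m F p q ≠ 0) : Cfsg.RankOneCondition (TS p) (TS q) := by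
  have hq : q ≠ 0 := by
    rintro rfl
    apply hpq
    have := smul_right (m := m) (0 : F) p p
    rwa [zero_smul, zero_mul] at this
  rintro _ ⟨c, rfl⟩ hc1
  have hc : c ≠ 0 := by rintro rfl; exact hc1 (T_zero p)
  set l := Cfsg.sympForm m F p q with hl
  have hl2 : Cfsg.sympForm m F q p = -l := swap p q
  refine ⟨T q (-(c * l ^ 2)⁻¹), ⟨_, rfl⟩, T_ne hq (neg_ne_zero.2 (inv_ne_zero (mul_ne_zero hc (pow_ne_zero 2 hpq)))), ?_⟩
  rw [T_inv, T_inv, TS_conj, TS_conj, T_apply, T_apply, hl2, ← hl]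
  have h1 : q + (-c * -l) • p = (c * l) • (p + (- -(c * l ^ 2)⁻¹ * l) • q) := by
    rw [smul_add, smul_smul]
    have : c * l * (- -(c * l ^ 2)⁻¹ * l) = 1 := by field_simp
    rw [this, one_smul, add_comm]
    congr 2
    ring
  rw [h1, TS_smul (mul_ne_zero hc hpq)]

theorem rank_pair {p q : Fin m ⊕ Fin m → F} (hpq : Cfsg.sympForm m F p q ≠ 0) : Cfsg.IsRankOnePair (TS p) (TS q) := by
  have hqp : Cfsg.sympForm m F q p ≠ 0 := by rw [swap p q]; exact neg_ne_zero.2 hpq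
  have hnil : ∀ p : Fin m ⊕ Fin m → F, Group.IsNilpotent (TS p) := by
    intro p
    letI : CommGroup (TS p) := { (inferInstance : Group (TS p)) with
      mul_comm := by
        rintro ⟨_, a, rfl⟩ ⟨_, b, rfl⟩
        apply Subtype.ext
        show T p a * T p b = T p b * T p a
        rw [T_mul_T, T_mul_T, add_comm] }
    exact CommGroup.isNilpotent
  refine ⟨?_, hnil p, hnil q, rank_cond hpq, rank_cond hqp⟩
  intro h
  obtain ⟨c, hc⟩ : T p 1 ∈ TS q := by rw [← h]; exact ⟨1, rfl⟩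
  have h1 := congrArg (fun g : Matrix.symplecticGroup (Fin m) F => (g : Matrix (Fin m ⊕ Fin m) (Fin m ⊕ Fin m) F) *ᵥ q) hc
  simp only [T_apply, self, mul_zero, zero_smul, add_zero, one_mul] at h1
  have h2 := add_eq_left.1 h1
  rcases smul_eq_zero.1 h2 with h3 | h3
  · exact hqp h3
  · apply hpq
    rw [h3]
    have := smul_left (m := m) (0 : F) p q
    rwa [zero_smul, zero_mul] at this

/-- the embedded `SL₂` -/
theorem exists_phi {p q : Fin m ⊕ Fin m → F} (hpq : Cfsg.sympForm m F p q ≠ 0) : Cfsg.IsPSL2PairOver F (TS p) (TS q) := by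
  classical
  set l := Cfsg.sympForm m F p q with hl
  have hl2 : Cfsg.sympForm m F q p = -l := swap p q
  let s : (Fin m ⊕ Fin m → F) →ₗ[F] F := l⁻¹ • (H5.Conc.sympB m F).flip q
  let t : (Fin m ⊕ Fin m → F) →ₗ[F] F := l⁻¹ • (H5.Conc.sympB m F) p
  have hs : ∀ x, s x = l⁻¹ * Cfsg.sympForm m F x q := fun x => by
    show l⁻¹ * (H5.Conc.sympB m F) x q = _
    rw [H5.Conc.sympB_apply]
  have ht : ∀ x, t x = l⁻¹ * Cfsg.sympForm m F p x := fun x => by
    show l⁻¹ * (H5.Conc.sympB m F) p x = _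
    rw [H5.Conc.sympB_apply]
  let L : Matrix (Fin 2) (Fin 2) F → ((Fin m ⊕ Fin m → F) →ₗ[F] (Fin m ⊕ Fin m → F)) := fun g =>
    LinearMap.id + ((g 0 0 - 1) • s + g 0 1 • t).smulRight p + (g 1 0 • s + (g 1 1 - 1) • t).smulRight q
  have hL : ∀ g x, L g x = x + ((g 0 0 - 1) * s x + g 0 1 * t x) • p + (g 1 0 * s x + (g 1 1 - 1) * t x) • q := fun g x => rfl
  have sp : s p = 1 := by rw [hs, ← hl, inv_mul_cancel₀ hpq]
  have sq : s q = 0 := by rw [hs, self, mul_zero]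
  have tp : t p = 0 := by rw [ht, self, mul_zero]
  have tq : t q = 1 := by rw [ht, ← hl, inv_mul_cancel₀ hpq]
  have sL : ∀ g x, s (L g x) = g 0 0 * s x + g 0 1 * t x := by
    intro g x
    rw [hL, map_add, map_add, map_smul, map_smul, sp, sq, smul_eq_mul, smul_eq_mul]; ring
  have tL : ∀ g x, t (L g x) = g 1 0 * s x + g 1 1 * t x := by
    intro g x
    rw [hL, map_add, map_add, map_smul, map_smul, tp, tq, smul_eq_mul, smul_eq_mul]; ring
  have hLmul : ∀ g h, L (g * h) = L g * L h := by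
    intro g h
    apply LinearMap.ext
    intro x
    rw [Module.End.mul_apply, hL g, sL, tL, hL h, hL]
    simp only [Matrix.mul_apply, Fin.sum_univ_two]
    module
  have hL1 : L 1 = 1 := by
    apply LinearMap.ext
    intro x
    rw [hL]; simp
  have hfs : ∀ x, Cfsg.sympForm m F x q = l * s x := fun x => by rw [hs, mul_inv_cancel_left₀ hpq]
  have hft : ∀ x, Cfsg.sympForm m F p x = l * t x := fun x => by rw [ht, mul_inv_cancel_left₀ hpq]
  have hfs' : ∀ x, Cfsg.sympForm m F q x = - (l * s x) := fun x => by rw [swap x q, hfs]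
  have hft' : ∀ x, Cfsg.sympForm m F x p = - (l * t x) := fun x => by rw [swap p x, hft]
  have hform : ∀ g : Matrix.SpecialLinearGroup (Fin 2) F, ∀ x y, Cfsg.sympForm m F (L g x) (L g y) = Cfsg.sympForm m F x y := by
    intro g x y
    have hdet : (g : Matrix (Fin 2) (Fin 2) F) 0 0 * (g : Matrix (Fin 2) (Fin 2) F) 1 1 - (g : Matrix (Fin 2) (Fin 2) F) 0 1 * (g : Matrix (Fin 2) (Fin 2) F) 1 0 = 1 := by
      have := g.2
      rwa [Matrix.det_fin_two] at this
    rw [hL, hL]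
    simp only [add_left, add_right, smul_left, smul_right, self, hfs, hft, hfs', hft', sp, sq, tp, tq, map_add, map_smul,
      smul_eq_mul]
    linear_combination (l * (s x * t y - t x * s y)) * hdet
  have hmem : ∀ g : Matrix.SpecialLinearGroup (Fin 2) F, LinearMap.toMatrix' (L g) ∈ Matrix.symplecticGroup (Fin m) F := by
    intro g
    rw [H5.Conc.mem_symplecticGroup_iff]
    intro x y
    rw [LinearMap.toMatrix'_mulVec, LinearMap.toMatrix'_mulVec]
    exact hform g x y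
  let φ : Matrix.SpecialLinearGroup (Fin 2) F →* Matrix.symplecticGroup (Fin m) F :=
    { toFun := fun g => ⟨LinearMap.toMatrix' (L g), hmem g⟩
      map_one' := by
        apply Subtype.ext
        show LinearMap.toMatrix' (L ((1 : Matrix.SpecialLinearGroup (Fin 2) F) : Matrix (Fin 2) (Fin 2) F)) = 1
        rw [Matrix.SpecialLinearGroup.coe_one, hL1]
        exact LinearMap.toMatrix'_one
      map_mul' := by
        intro g h
        apply Subtype.ext
        show LinearMap.toMatrix' (L ((g * h : Matrix.SpecialLinearGroup (Fin 2) F) : Matrix (Fin 2) (Fin 2) F)) =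
          LinearMap.toMatrix' (L g) * LinearMap.toMatrix' (L h)
        rw [Matrix.SpecialLinearGroup.coe_mul, hLmul]
        exact LinearMap.toMatrix'_mul _ _ }
  have hφ : ∀ g x, ((φ g : Matrix.symplecticGroup (Fin m) F) : Matrix (Fin m ⊕ Fin m) (Fin m ⊕ Fin m) F) *ᵥ x = L g x := by
    intro g x
    show LinearMap.toMatrix' (L g) *ᵥ x = _
    rw [LinearMap.toMatrix'_mulVec]
  have hup : ∀ g : Matrix.SpecialLinearGroup (Fin 2) F, (g : Matrix (Fin 2) (Fin 2) F) 1 0 = 0 → (g : Matrix (Fin 2) (Fin 2) F) 0 0 = 1 →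
      (g : Matrix (Fin 2) (Fin 2) F) 1 1 = 1 → φ g = T p (-((g : Matrix (Fin 2) (Fin 2) F) 0 1 * l⁻¹)) := by
    intro g h1 h2 h3
    apply Sp_ext
    intro x
    rw [hφ, T_apply, hL, h1, h2, h3, hft']
    simp only [sub_self, zero_mul, zero_add, add_zero, zero_smul]
    congr 2
    field_simp
  have hlow : ∀ g : Matrix.SpecialLinearGroup (Fin 2) F, (g : Matrix (Fin 2) (Fin 2) F) 0 1 = 0 → (g : Matrix (Fin 2) (Fin 2) F) 0 0 = 1 →
      (g : Matrix (Fin 2) (Fin 2) F) 1 1 = 1 → φ g = T q ((g : Matrix (Fin 2) (Fin 2) F) 1 0 * l⁻¹) := by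
    intro g h1 h2 h3
    apply Sp_ext
    intro x
    rw [hφ, T_apply, hL, h1, h2, h3, hfs]
    simp only [sub_self, zero_mul, zero_add, add_zero, zero_smul]
    congr 2
    field_simp
  have mapU : (Cfsg.upperUnipotentSL2 F).map φ = TS p := by
    rw [Cfsg.upperUnipotentSL2, MonoidHom.map_closure]
    apply le_antisymm
    · rw [Subgroup.closure_le]
      rintro _ ⟨g, ⟨h1, h2, h3⟩, rfl⟩
      exact ⟨_, hup g h1 h2 h3⟩
    · rintro _ ⟨c, rfl⟩
      apply Subgroup.subset_closure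
      obtain ⟨g, hg⟩ : ∃ g : Matrix.SpecialLinearGroup (Fin 2) F, (g : Matrix (Fin 2) (Fin 2) F) = !![1, -(c * l); 0, 1] :=
        ⟨⟨!![1, -(c * l); 0, 1], by simp [Matrix.det_fin_two]⟩, rfl⟩
      refine ⟨g, ⟨by rw [hg]; rfl, by rw [hg]; rfl, by rw [hg]; rfl⟩, ?_⟩
      rw [hup g (by rw [hg]; rfl) (by rw [hg]; rfl) (by rw [hg]; rfl), hg]
      congr 1
      show -(-(c * l) * l⁻¹) = c
      field_simp
  have mapL : (Cfsg.lowerUnipotentSL2 F).map φ = TS q := by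
    rw [Cfsg.lowerUnipotentSL2, MonoidHom.map_closure]
    apply le_antisymm
    · rw [Subgroup.closure_le]
      rintro _ ⟨g, ⟨h1, h2, h3⟩, rfl⟩
      exact ⟨_, hlow g h1 h2 h3⟩
    · rintro _ ⟨c, rfl⟩
      apply Subgroup.subset_closure
      obtain ⟨g, hg⟩ : ∃ g : Matrix.SpecialLinearGroup (Fin 2) F, (g : Matrix (Fin 2) (Fin 2) F) = !![1, 0; c * l, 1] :=
        ⟨⟨!![1, 0; c * l, 1], by simp [Matrix.det_fin_two]⟩, rfl⟩
      refine ⟨g, ⟨by rw [hg]; rfl, by rw [hg]; rfl, by rw [hg]; rfl⟩, ?_⟩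
      rw [hlow g (by rw [hg]; rfl) (by rw [hg]; rfl) (by rw [hg]; rfl), hg]
      congr 1
      show c * l * l⁻¹ = c
      field_simp
  have htop : Cfsg.upperUnipotentSL2 F ⊔ Cfsg.lowerUnipotentSL2 F = ⊤ := by
    rw [eq_top_iff, ← Cfsg.Agent.H5.SL.closure_transvections, Subgroup.closure_le]
    rintro _ ⟨i, j, hij, a, rfl⟩
    have hc : ((Matrix.SpecialLinearGroup.transvection hij a : Matrix.SpecialLinearGroup (Fin 2) F) : Matrix (Fin 2) (Fin 2) F) =
        Matrix.transvection i j a := rfl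
    fin_cases i <;> fin_cases j
    · exact absurd rfl hij
    · apply Subgroup.mem_sup_left
      apply Subgroup.subset_closure
      refine ⟨?_, ?_, ?_⟩ <;> rw [hc] <;> simp [Matrix.transvection]
    · apply Subgroup.mem_sup_right
      apply Subgroup.subset_closure
      refine ⟨?_, ?_, ?_⟩ <;> rw [hc] <;> simp [Matrix.transvection]
    · exact absurd rfl hij
  refine ⟨φ, ?_, ?_, mapU, mapL⟩
  · rw [← mapU, ← mapL, ← Subgroup.map_sup, htop, MonoidHom.range_eq_map]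
  · have : φ.ker = ⊥ := by
      rw [eq_bot_iff]
      intro g hg
      rw [MonoidHom.mem_ker] at hg
      have h1 : ∀ x, L g x = x := by
        intro x
        rw [← hφ, hg]; simp
      have e1 := sL g p
      have e2 := sL g q
      have e3 := tL g p
      have e4 := tL g q
      rw [h1] at e1 e2 e3 e4
      simp only [sp, sq, tp, tq, mul_one, mul_zero, add_zero, zero_add] at e1 e2 e3 e4
      rw [Subgroup.mem_bot]
      apply Subtype.ext
      ext i j
      rw [Matrix.SpecialLinearGroup.coe_one]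
      fin_cases i <;> fin_cases j
      · exact e1.symm
      · exact e2.symm
      · exact e3.symm
      · exact e4.symm
    rw [this]; exact bot_le

end base

/-- Let F be a field, m a natural number and V = F^{2(m+1)} with the standard non-degenerate alternating form f(u, v) = uᵀ J v. For a non-zero vector p let T(p) be the group of symplectic transvections v ↦ v + c f(v, p) p, c ∈ F. Then the subgroups T(p), p ≠ 0, generate the symplectic group Sp_{2(m+1)}(F) and form a degenerate class of abstract F-root subgroups of it (any two of them either commute elementwise or are the unipotent subgroups of a rank one group that is an image of SL₂(F) with central kernel, never the commutator case), and their graph of rank one pairs is connected. -/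
theorem result (F : Type*) [Field F] (m : ℕ) :
    Cfsg.IsRootSubgroupClass {A : Subgroup ↥(Matrix.symplecticGroup (Fin (m + 1)) F) | ∃ p : Fin (m + 1) ⊕ Fin (m + 1) → F, p ≠ 0 ∧
        A = Subgroup.closure {g : ↥(Matrix.symplecticGroup (Fin (m + 1)) F) | ∃ c : F, ∀ v : Fin (m + 1) ⊕ Fin (m + 1) → F,
          (g : Matrix (Fin (m + 1) ⊕ Fin (m + 1)) (Fin (m + 1) ⊕ Fin (m + 1)) F) *ᵥ v =
            v + (c * (v ⬝ᵥ (Matrix.J (Fin (m + 1)) F *ᵥ p))) • p}} ∧
    Cfsg.IsDegenerateRootSet {A : Subgroup ↥(Matrix.symplecticGroup (Fin (m + 1)) F) | ∃ p : Fin (m + 1) ⊕ Fin (m + 1) → F, p ≠ 0 ∧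
        A = Subgroup.closure {g : ↥(Matrix.symplecticGroup (Fin (m + 1)) F) | ∃ c : F, ∀ v : Fin (m + 1) ⊕ Fin (m + 1) → F,
          (g : Matrix (Fin (m + 1) ⊕ Fin (m + 1)) (Fin (m + 1) ⊕ Fin (m + 1)) F) *ᵥ v =
            v + (c * (v ⬝ᵥ (Matrix.J (Fin (m + 1)) F *ᵥ p))) • p}} ∧
    Cfsg.IsKRootSubgroupSet F {A : Subgroup ↥(Matrix.symplecticGroup (Fin (m + 1)) F) | ∃ p : Fin (m + 1) ⊕ Fin (m + 1) → F, p ≠ 0 ∧
        A = Subgroup.closure {g : ↥(Matrix.symplecticGroup (Fin (m + 1)) F) | ∃ c : F, ∀ v : Fin (m + 1) ⊕ Fin (m + 1) → F,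
          (g : Matrix (Fin (m + 1) ⊕ Fin (m + 1)) (Fin (m + 1) ⊕ Fin (m + 1)) F) *ᵥ v =
            v + (c * (v ⬝ᵥ (Matrix.J (Fin (m + 1)) F *ᵥ p))) • p}} ∧
    Cfsg.IsConnectedFamily (Cfsg.FAdj {A : Subgroup ↥(Matrix.symplecticGroup (Fin (m + 1)) F) | ∃ p : Fin (m + 1) ⊕ Fin (m + 1) → F, p ≠ 0 ∧
        A = Subgroup.closure {g : ↥(Matrix.symplecticGroup (Fin (m + 1)) F) | ∃ c : F, ∀ v : Fin (m + 1) ⊕ Fin (m + 1) → F,
          (g : Matrix (Fin (m + 1) ⊕ Fin (m + 1)) (Fin (m + 1) ⊕ Fin (m + 1)) F) *ᵥ v =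
            v + (c * (v ⬝ᵥ (Matrix.J (Fin (m + 1)) F *ᵥ p))) • p}})
      {A : Subgroup ↥(Matrix.symplecticGroup (Fin (m + 1)) F) | ∃ p : Fin (m + 1) ⊕ Fin (m + 1) → F, p ≠ 0 ∧
        A = Subgroup.closure {g : ↥(Matrix.symplecticGroup (Fin (m + 1)) F) | ∃ c : F, ∀ v : Fin (m + 1) ⊕ Fin (m + 1) → F,
          (g : Matrix (Fin (m + 1) ⊕ Fin (m + 1)) (Fin (m + 1) ⊕ Fin (m + 1)) F) *ᵥ v =
            v + (c * (v ⬝ᵥ (Matrix.J (Fin (m + 1)) F *ᵥ p))) • p}} := by
  classical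
  have hS : {A : Subgroup ↥(Matrix.symplecticGroup (Fin (m + 1)) F) | ∃ p : Fin (m + 1) ⊕ Fin (m + 1) → F, p ≠ 0 ∧
          A = Subgroup.closure {g : ↥(Matrix.symplecticGroup (Fin (m + 1)) F) | ∃ c : F, ∀ v : Fin (m + 1) ⊕ Fin (m + 1) → F,
            (g : Matrix (Fin (m + 1) ⊕ Fin (m + 1)) (Fin (m + 1) ⊕ Fin (m + 1)) F) *ᵥ v =
              v + (c * (v ⬝ᵥ (Matrix.J (Fin (m + 1)) F *ᵥ p))) • p}} =
      {A | ∃ p : Fin (m + 1) ⊕ Fin (m + 1) → F, p ≠ 0 ∧ A = TS p} := by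
    ext A
    constructor
    · rintro ⟨p, hp, rfl⟩; exact ⟨p, hp, TS_eq p⟩
    · rintro ⟨p, hp, rfl⟩; exact ⟨p, hp, (TS_eq p).symm⟩
  rw [hS]
  set S : Set (Subgroup ↥(Matrix.symplecticGroup (Fin (m + 1)) F)) := {A | ∃ p : Fin (m + 1) ⊕ Fin (m + 1) → F, p ≠ 0 ∧ A = TS p} with hSd
  have hbot : ∀ A ∈ S, A ≠ ⊥ := by
    rintro _ ⟨p, hp, rfl⟩ h
    have : T p (1 : F) ∈ TS p := ⟨1, rfl⟩
    rw [h, Subgroup.mem_bot] at this
    exact T_ne hp one_ne_zero this
  have hcomm0 : ∀ p q : Fin (m + 1) ⊕ Fin (m + 1) → F, Cfsg.sympForm (m + 1) F p q = 0 → ⁅TS p, TS q⁆ = ⊥ := by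
    intro p q h
    rw [eq_bot_iff, Subgroup.commutator_le]
    rintro _ ⟨a, rfl⟩ _ ⟨b, rfl⟩
    rw [Subgroup.mem_bot, commutatorElement_eq_one_iff_mul_comm]
    exact TS_comm h a b
  have hset : Cfsg.IsRootSubgroupSet S := by
    refine ⟨?_, hbot, ?_, ?_, ?_⟩
    · rintro _ ⟨p, hp, rfl⟩
      refine ⟨⟨?_⟩⟩
      rintro ⟨_, a, rfl⟩ ⟨_, b, rfl⟩
      apply Subtype.ext
      show T p a * T p b = T p b * T p a
      rw [T_mul_T, T_mul_T]
      exact congrArg (T p) (add_comm a b)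
    · rw [eq_top_iff, ← H_eq_top, H, Subgroup.closure_le]
      rintro A ⟨w, c, hA⟩
      have hA' : A = T w c := Subtype.ext hA
      by_cases hw : w = 0
      · have : A = 1 := by
          rw [hA', hw]
          apply Sp_ext
          intro x
          rw [T_apply, smul_zero, add_zero]; simp
        rw [this]; exact Subgroup.one_mem _
      · have h1 : TS w ≤ ⨆ A ∈ S, A := le_iSup₂_of_le (TS w) ⟨w, hw, rfl⟩ le_rfl
        exact h1 ⟨c, hA'⟩
    · rintro _ ⟨p, hp, rfl⟩ g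
      refine ⟨_, ?_, TS_conj g p⟩
      intro h
      apply hp
      have h2 := congrArg (fun v => ((g⁻¹ : ↥(Matrix.symplecticGroup (Fin (m + 1)) F)) : Matrix (Fin (m + 1) ⊕ Fin (m + 1)) (Fin (m + 1) ⊕ Fin (m + 1)) F) *ᵥ v) h
      simp only [Matrix.mulVec_mulVec, Matrix.mulVec_zero] at h2
      rw [← Submonoid.coe_mul, inv_mul_cancel] at h2
      simpa using h2
    · rintro _ ⟨p, hp, rfl⟩ _ ⟨q, hq, rfl⟩
      by_cases h : Cfsg.sympForm (m + 1) F p q = 0
      · exact Or.inl (hcomm0 p q h)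
      · exact Or.inr (Or.inl (rank_pair h))
  have hzero : ∀ p : Fin (m + 1) ⊕ Fin (m + 1) → F, Cfsg.sympForm (m + 1) F p 0 = 0 := by
    intro p
    have := smul_right (m := m + 1) (0 : F) p p
    rwa [zero_smul, zero_mul] at this
  refine ⟨⟨hset, ?_, ?_⟩, ?_, ⟨hset, ?_⟩, ?_⟩
  · exact ⟨TS (Pi.single (Sum.inl 0) 1), _, by intro h; have := congrFun h (Sum.inl 0); simp at this, rfl⟩
  · rintro _ ⟨p, hp, rfl⟩ _ ⟨q, hq, rfl⟩
    obtain ⟨g, -, hg⟩ := H_transitive hp hq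
    exact ⟨g, by rw [TS_conj, hg]⟩
  · rintro _ ⟨p, hp, rfl⟩ _ ⟨q, hq, rfl⟩ ⟨h1, h2, -, -⟩
    by_cases h : Cfsg.sympForm (m + 1) F p q = 0
    · rw [hcomm0 p q h] at h1
      exact hbot _ h1 rfl
    · have hc := h2 ⁅T p (1 : F), T q (1 : F)⁆ (Subgroup.commutator_mem_commutator ⟨1, rfl⟩ ⟨1, rfl⟩) (T p 1)
        (Subgroup.mem_sup_left ⟨1, rfl⟩)
      rw [commutatorElement_def] at hc
      have h3 : T p (1 : F) * (T q 1 * (T p 1)⁻¹ * (T q 1)⁻¹) = (T q 1 * (T p 1)⁻¹ * (T q 1)⁻¹) * T p 1 := by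
        have := congrArg (fun z => (T p (1 : F))⁻¹ * z) hc
        calc _ = T p 1 * T q 1 * (T p 1)⁻¹ * (T q 1)⁻¹ := by group
          _ = (T p 1)⁻¹ * (T p 1 * (T p 1 * T q 1 * (T p 1)⁻¹ * (T q 1)⁻¹)) := by group
          _ = (T p 1)⁻¹ * (T p 1 * T q 1 * (T p 1)⁻¹ * (T q 1)⁻¹ * T p 1) := this.symm
          _ = _ := by group
      rw [T_inv p, conj_T, T_apply, one_mul] at h3
      have h4 := comm_imp h3
      rw [add_right, self, zero_add, smul_right] at h4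
      exact (mul_ne_zero h h) h4
  · rintro _ ⟨p, hp, rfl⟩ _ ⟨q, hq, rfl⟩ hr
    apply exists_phi
    intro h
    obtain ⟨b, ⟨d, rfl⟩, hb1, hb2⟩ := hr.cond_left (T p 1) ⟨1, rfl⟩ (T_ne hp one_ne_zero)
    rw [T_inv, T_inv, TS_conj, TS_conj, T_apply, T_apply, h, swap p q, h, neg_zero, mul_zero, mul_zero, zero_smul, zero_smul,
      add_zero, add_zero] at hb2
    exact hr.ne hb2
  · rintro _ ⟨p, hp, rfl⟩ _ ⟨q, hq, rfl⟩
    obtain ⟨z, hz1, hz2⟩ := exists_ne_two hp hq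
    have hz : z ≠ 0 := by
      rintro rfl
      exact hz1 (hzero p)
    have hz3 : Cfsg.sympForm (m + 1) F z q ≠ 0 := by rw [swap q z]; exact neg_ne_zero.2 hz2
    exact (Relation.ReflTransGen.single ⟨⟨p, hp, rfl⟩, ⟨z, hz, rfl⟩, rank_pair hz1⟩).tail
      ⟨⟨z, hz, rfl⟩, ⟨q, hq, rfl⟩, rank_pair hz3⟩

end Cfsg.Agent.S5070
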