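import Cfsg.Statements.S5087
import Mathlib
import Cfsg.Agent.H27_FusNorm2

set_option autoImplicit false
open Cfsg

namespace Cfsg.Agent.S5087

open Cfsg.Agent.H27.Fus in
theorem aux {Ω : Type*} [Group Ω] {S : Subgroup Ω} [Finite S] (F : Cfsg.FusionSystem S) (P Q : Subgroup Ω) (hQP : Q ≤ P)
    (hPS : P ≤ S) : (∀ α ∈ F.autGroup P, (Q.subgroupOf P).map α.toMonoidHom = Q.subgroupOf P) ↔
      ∀ f, Iso F P P f → im Q f = Q := by
  constructor
  · intro h f hf
    have h1 := h _ hf.aut_mem
    have h3 := hf.map.mono hQP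
    apply le_antisymm
    · rw [im_le_iff h3]
      intro x hx
      have h4 : hf.aut ⟨x, hQP hx⟩ ∈ Q.subgroupOf P := by
        rw [← h1]; exact ⟨⟨x, hQP hx⟩, hx, rfl⟩
      exact h4
    · intro y hy
      have h4 : (⟨y, hQP hy⟩ : P) ∈ (Q.subgroupOf P).map hf.aut.toMonoidHom := by rw [h1]; exact hy
      obtain ⟨x, hx, hxy⟩ := h4
      rw [h3.mem_im]
      exact ⟨x, hx, congrArg Subtype.val hxy⟩
  · intro h α hα
    have hi := (mem_autGroup_iff hPS).1 hα
    have h1 := h _ hi
    have h3 := hi.map.mono hQP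
    ext y
    constructor
    · rintro ⟨x, hx, rfl⟩
      show ((α x : P) : Ω) ∈ Q
      rw [← totA_apply, ← h1]; exact h3.apply_mem_im hx
    · intro hy
      have h4 : (y : Ω) ∈ Q := hy
      rw [← h1, h3.mem_im] at h4
      obtain ⟨x, hx, hxy⟩ := h4
      refine ⟨⟨x, hQP hx⟩, hx, Subtype.ext ?_⟩
      show ((α ⟨x, hQP hx⟩ : P) : Ω) = y
      rw [← hxy, totA_of_mem]

/-- In a saturated fusion system over a finite p-group S, a subgroup Q is normal in the system if and only if every subgroup P that equals S or is essential contains Q and every element of Aut_F(P) maps Q onto itself. -/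
theorem result {Ω : Type*} [Group Ω] {S : Subgroup Ω} [Finite S] (p : ℕ) [Fact p.Prime] (hS : IsPGroup p S) (F : Cfsg.FusionSystem S) (hF : F.IsSaturated p) (Q : Subgroup Ω) : F.IsNormal Q ↔ ∀ P : Subgroup Ω, (P = S ∨ F.IsEssential p P) → (Q ≤ P ∧ ∀ α ∈ F.autGroup P, (Q.subgroupOf P).map α.toMonoidHom = Q.subgroupOf P) := by
  constructor
  · intro h P hP
    have hPS : P ≤ S := by
      rcases hP with rfl | hP
      · exact le_rfl
      · exact hP.1.1
    have hQP : Q ≤ P := by
      rcases hP with rfl | hP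
      · exact h.1
      · exact Cfsg.Agent.H27.Fus.normal_le_radical hS h hP.1 (Cfsg.Agent.H27.Fus.essential_radical hS hP)
    refine ⟨hQP, (aux F P Q hQP hPS).2 fun f hf => ?_⟩
    exact Cfsg.Agent.H27.Fus.StronglyClosed.im_eq (Cfsg.Agent.H27.Fus.IsNormal.strong h) hf.map hQP
  · intro h
    refine Cfsg.Agent.H27.Fus.normal_of_essential hS hF fun P hP => ?_
    have h1 := h P hP
    refine ⟨h1.1, (aux F P Q h1.1 ?_).1 h1.2⟩
    rcases hP with rfl | hP
    · exact le_rfl
    · exact hP.1.1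

end Cfsg.Agent.S5087
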