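import Cfsg.Statements.S5088
import Mathlib
import Cfsg.Agent.H27_FusNorm2

set_option autoImplicit false
open Cfsg

namespace Cfsg.Agent.S5088

/-- In a saturated fusion system over a finite p-group, a subgroup Q is normal in the system if and only if there is a chain of subgroups 1 = Q₀ ≤ Q₁ ≤ ⋯ ≤ Qₙ = Q such that each Qᵢ with i ≥ 1 is strongly closed in the system and [Q, Qᵢ] ≤ Qᵢ₋₁. -/
theorem result {Ω : Type*} [Group Ω] {S : Subgroup Ω} [Finite S] (p : ℕ) [Fact p.Prime] (hS : IsPGroup p S) (F : Cfsg.FusionSystem S) (hF : F.IsSaturated p) (Q : Subgroup Ω) : F.IsNormal Q ↔ ∃ (n : ℕ) (Qs : Fin (n + 1) → Subgroup Ω), Qs 0 = ⊥ ∧ Qs (Fin.last n) = Q ∧ Monotone Qs ∧ ∀ i : Fin n, F.StronglyClosed (Qs i.succ) ∧ ⁅Q, Qs i.succ⁆ ≤ Qs (Fin.castSucc i) := by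
  constructor
  · intro h
    obtain ⟨n, C, h0, hn, hm, hc, hC⟩ := Cfsg.Agent.H27.Fus.exists_fin_chain hS h
    exact ⟨n, C, h0, hn, hm, fun i => ⟨Cfsg.Agent.H27.Fus.IsNormal.strong (hC _), hc i⟩⟩
  · rintro ⟨n, C, h0, hn, hm, hC⟩
    have hall : ∀ i, F.StronglyClosed (C i) := by
      intro i
      rcases Fin.eq_zero_or_eq_succ i with rfl | ⟨j, rfl⟩
      · rw [h0]; exact Cfsg.Agent.H27.Fus.IsNormal.strong (Cfsg.Agent.H27.Fus.isNormal_bot F)
      · exact (hC j).1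
    exact Cfsg.Agent.H27.Fus.normal_of_fin_chain hS hF (hn ▸ hall _) n C h0 hn hm
      (fun i => Cfsg.Agent.H27.Fus.StronglyClosed.weakly (hall _)) fun i => (hC i).2

end Cfsg.Agent.S5088
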