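import Cfsg.Statements.S5089
import Mathlib
import Cfsg.Agent.H27_FusNorm2

set_option autoImplicit false
open Cfsg

namespace Cfsg.Agent.S5089

/-- A saturated fusion system over a finite p-group has a nontrivial subgroup that is normal in the system (O_p(F) ≠ 1) if and only if some nontrivial abelian subgroup is strongly closed in the system. -/
theorem result {Ω : Type*} [Group Ω] {S : Subgroup Ω} [Finite S] (p : ℕ) [Fact p.Prime] (hS : IsPGroup p S) (F : Cfsg.FusionSystem S) (hF : F.IsSaturated p) : F.core ≠ ⊥ ↔ ∃ Q : Subgroup Ω, Q ≠ ⊥ ∧ IsMulCommutative Q ∧ F.StronglyClosed Q := by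
  constructor
  · intro h
    obtain ⟨U, h1, h2, h3, -⟩ := Cfsg.Agent.H27.Fus.exists_abelian hS (Cfsg.Agent.H27.Fus.core_normal F) h
    exact ⟨U, h1, h2, Cfsg.Agent.H27.Fus.IsNormal.strong h3⟩
  · rintro ⟨Q, h1, h2, h3⟩ h4
    have := Cfsg.Agent.H27.Fus.le_core (Cfsg.Agent.H27.Fus.abelian_normal hS hF h3 h2)
    rw [h4] at this
    exact h1 (le_bot_iff.1 this)

end Cfsg.Agent.S5089
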