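import Cfsg.Statements.S5106
import Mathlib
import Cfsg.Agent.H27_FusNorm2

set_option autoImplicit false
open Cfsg

namespace Cfsg.Agent.S5106

/-- In a saturated fusion system over a finite p-group S, a subgroup R ≤ S is normal in the system if and only if every map of the system whose source is a subgroup of R is the restriction of an element of Aut_F(R). -/
theorem result {Ω : Type*} [Group Ω] {S : Subgroup Ω} [Finite S] (p : ℕ) [Fact p.Prime] (hS : IsPGroup p S) (F : Cfsg.FusionSystem S) (hF : F.IsSaturated p) (R : Subgroup Ω) (hRS : R ≤ S) : F.IsNormal R ↔ ∀ (P : Subgroup Ω) (hPR : P ≤ R) (φ : P →* Ω), φ ∈ F.Hom P → ∃ α ∈ F.autGroup R, ∀ x : P, ((α (Subgroup.inclusion hPR x) : R) : Ω) = φ x := by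
  constructor
  · intro h P hPR φ hφ
    obtain ⟨g, hg, h1, h2⟩ := (Cfsg.Agent.H27.Fus.isNormal_iff.1 h).2 P _ (Cfsg.Agent.H27.Fus.map_tot hφ)
    rw [sup_eq_right.2 hPR] at hg
    have hi := hg.iso_of_im_eq h2
    refine ⟨hi.aut, hi.aut_mem, fun x => ?_⟩
    rw [Cfsg.Agent.H27.Fus.Iso.aut_apply]
    rw [Subgroup.coe_inclusion, h1 x x.2, Cfsg.Agent.H27.Fus.tot_apply]
  · intro h
    refine Cfsg.Agent.H27.Fus.normal_of_control hS hF hRS fun P f hPR hf => ?_
    obtain ⟨φ, hφ, hφf⟩ := hf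
    obtain ⟨α, hα, h1⟩ := h P hPR φ hφ
    refine ⟨α, hα, fun x hx hxP => ?_⟩
    have := h1 ⟨x, hxP⟩
    rw [hφf] at this
    exact this

end Cfsg.Agent.S5106
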