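import Cfsg.Statements.S5107
import Mathlib
import Cfsg.Agent.H27_FusNorm2

set_option autoImplicit false
open Cfsg

namespace Cfsg.Agent.S5107

open Cfsg.Agent.H27.Fus

/-- If a Sylow p-subgroup S of a finite group G has nilpotency class at most two and its centre is strongly closed in S with respect to G, then every map of the fusion system of G on S is conjugation by an element of N_G(S), and S is the largest subgroup normal in that fusion system. -/
theorem result {G : Type*} [Group G] [Finite G] (p : ℕ) [Fact p.Prime] (S : Sylow p G) (hcl : ⁅(S : Subgroup G), (S : Subgroup G)⁆ ≤ (S : Subgroup G) ⊓ Subgroup.centralizer ((S : Subgroup G) : Set G)) (hZ : Cfsg.IsStronglyClosed ((S : Subgroup G) ⊓ Subgroup.centralizer ((S : Subgroup G) : Set G)) (S : Subgroup G)) : (∀ (P : Subgroup G) (φ : P →* G), φ ∈ (Cfsg.groupFusionSystem (S : Subgroup G)).Hom P → ∃ g ∈ Subgroup.normalizer ((S : Subgroup G) : Set G), ∀ x : P, φ x = g * (x : G) * g⁻¹) ∧ (Cfsg.groupFusionSystem (S : Subgroup G)).core = S := by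
  set Z : Subgroup G := (S : Subgroup G) ⊓ Subgroup.centralizer ((S : Subgroup G) : Set G) with hZdef
  have hF := saturated_gfs S
  have hsc : (Cfsg.groupFusionSystem (S : Subgroup G)).StronglyClosed Z := by
    rw [stronglyClosed_iff]
    refine ⟨hZ.1, fun P f hf x hx hxZ => ?_⟩
    obtain ⟨hP, hfS, g, hg⟩ := map_gfs.1 hf
    rw [hg x hx]
    exact hZ.2 x hxZ g (by rw [← hg x hx]; exact hfS x hx)
  have hSS : (Cfsg.groupFusionSystem (S : Subgroup G)).StronglyClosed (S : Subgroup G) :=
    stronglyClosed_iff.2 ⟨le_rfl, fun P f hf x hx _ => hf.mem hx⟩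
  have hbot := IsNormal.strong (isNormal_bot (Cfsg.groupFusionSystem (S : Subgroup G)))
  have hN : (Cfsg.groupFusionSystem (S : Subgroup G)).IsNormal (S : Subgroup G) := by
    refine normal_of_fin_chain S.isPGroup' hF hSS 2 (fun i => if i = 0 then ⊥ else if i = 1 then Z else S) rfl rfl ?_ ?_ ?_
    · intro i j hij
      fin_cases i <;> fin_cases j <;> simp at hij ⊢
      exact hZ.1
    · intro i
      fin_cases i
      · simpa using StronglyClosed.weakly hbot
      · simpa using StronglyClosed.weakly hsc
    · intro i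
      fin_cases i
      · show ⁅(S : Subgroup G), Z⁆ ≤ ⊥
        rw [Subgroup.commutator_le]
        intro a ha b hb
        rw [Subgroup.mem_bot, commutatorElement_eq_one_iff_mul_comm]
        exact (Subgroup.mem_centralizer_iff.1 hb.2 a ha)
      · exact hcl
  refine ⟨fun P φ hφ => ?_, le_antisymm (core_normal _).1 (le_core hN)⟩
  obtain ⟨g, hg, h1, h2⟩ := (isNormal_iff.1 hN).2 P _ (map_tot hφ)
  have hle := (map_tot hφ).le
  rw [sup_eq_right.2 hle] at hg
  obtain ⟨-, h3, c, hc⟩ := map_gfs.1 hg
  refine ⟨c, ?_, fun x => ?_⟩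
  · rw [Subgroup.mem_normalizer_iff]
    intro y
    constructor
    · intro hy; rw [← hc y hy]; exact h3 y hy
    · intro hy
      have h4 := h2.symm.le hy
      obtain ⟨x, hx, hxy⟩ := hg.mem_im.1 h4
      rw [hc x hx] at hxy
      have h5 : x = y := by simpa using hxy
      rw [← h5]; exact hx
  · rw [← tot_apply φ, ← h1 x x.2, hc x (hle x.2)]

end Cfsg.Agent.S5107
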