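import Cfsg.Statements.S5112
import Mathlib
import Cfsg.Agent.H27_Aut2

set_option autoImplicit false
open Cfsg

namespace Cfsg.Agent.S5112

open H27.Fus H27.Grp

/-- If S is a dihedral or generalized quaternion 2-group of order at least 16, then in every saturated fusion system over S (at the prime 2) the automorphism group Aut_F(S) consists of the inner automorphisms of S. -/
theorem result {Ω : Type*} [Group Ω] {S : Subgroup Ω} [Finite S] (n : ℕ) (hn : 4 ≤ n) (hshape : Nonempty (S ≃* DihedralGroup (2 ^ (n - 1))) ∨ Nonempty (S ≃* QuaternionGroup (2 ^ (n - 2)))) (F : Cfsg.FusionSystem S) (hF : F.IsSaturated 2) : F.autGroup S = Cfsg.Inn S := by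
  obtain ⟨hpow, hS⟩ : (∀ α : MulAut S, ∃ K, α ^ (2 ^ K) = 1) ∧ IsPGroup 2 S := by
    rcases hshape with ⟨⟨e⟩⟩ | ⟨⟨e⟩⟩
    · refine ⟨pow_two_dihedral (n - 1) (by omega) e, ?_⟩
      have : NeZero (2 ^ (n - 1)) := ⟨by positivity⟩
      have : Nat.card S = 2 ^ (n - 1 + 1) := by
        rw [Nat.card_congr e.toEquiv, DihedralGroup.nat_card]; ring
      exact IsPGroup.of_card this
    · refine ⟨pow_two_quaternion (n - 2) (by omega) e, ?_⟩
      have : NeZero (2 ^ (n - 2)) := ⟨by positivity⟩
      have : Nat.card S = 2 ^ (n - 2 + 2) := by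
        rw [Nat.card_congr e.toEquiv, Nat.card_eq_fintype_card, QuaternionGroup.card]; ring
      exact IsPGroup.of_card this
  exact aut_eq_inn hS hF (isPGroup_aut_of_pow hpow _)

end Cfsg.Agent.S5112
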