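import Cfsg.Statements.S5122
import Mathlib
import Cfsg.Agent.H27_FusGrp

set_option autoImplicit false
open Cfsg

namespace Cfsg.Agent.S5122

/-- Let G be a finite group with Sylow p-subgroup S. Every subgroup P of S has a G-conjugate Q ≤ S such that N_S(Q) is a Sylow p-subgroup of N_G(Q); and for any Q ≤ S with that property, C_S(Q) is a Sylow p-subgroup of C_G(Q) and the automorphisms of Q induced by N_S(Q) form a Sylow p-subgroup of those induced by N_G(Q). -/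
theorem result {G : Type*} [Group G] [Finite G] (p : ℕ) [Fact p.Prime] (S : Sylow p G) : (∀ P : Subgroup G, P ≤ S → ∃ g : G, P.map (MulAut.conj g).toMonoidHom ≤ S ∧ (∃ R : Sylow p ↥(Subgroup.normalizer ((P.map (MulAut.conj g).toMonoidHom : Subgroup G) : Set G)), (R : Subgroup ↥(Subgroup.normalizer ((P.map (MulAut.conj g).toMonoidHom : Subgroup G) : Set G))) = (Cfsg.FusionSystem.normalizerIn (S : Subgroup G) (P.map (MulAut.conj g).toMonoidHom)).subgroupOf (Subgroup.normalizer ((P.map (MulAut.conj g).toMonoidHom : Subgroup G) : Set G)))) ∧ ∀ Q : Subgroup G, Q ≤ S → (∃ R : Sylow p ↥(Subgroup.normalizer (Q : Set G)), (R : Subgroup ↥(Subgroup.normalizer (Q : Set G))) = (Cfsg.FusionSystem.normalizerIn (S : Subgroup G) Q).subgroupOf (Subgroup.normalizer (Q : Set G))) → (∃ R : Sylow p ↥(Subgroup.centralizer (Q : Set G)), (R : Subgroup ↥(Subgroup.centralizer (Q : Set G))) = (Cfsg.FusionSystem.centralizerIn (S : Subgroup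 G) Q).subgroupOf (Subgroup.centralizer (Q : Set G))) ∧ (∃ R : Sylow p ↥(Cfsg.autInducedBy ⊤ Q), (R : Subgroup ↥(Cfsg.autInducedBy ⊤ Q)) = (Cfsg.autInducedBy (S : Subgroup G) Q).subgroupOf (Cfsg.autInducedBy ⊤ Q)) := by
  refine ⟨fun P hP => ?_, fun Q hQ hR => ?_⟩
  · obtain ⟨g, -, h1, h2⟩ := Cfsg.Agent.H27.Fus.exists_good_grp (Cfsg.Agent.H27.Fus.isSyl_sylow S) hP
    rw [Cfsg.Agent.H27.Fus.nrmIn_top, Cfsg.Agent.H27.Fus.isSyl_nrm_iff] at h2
    exact ⟨g, h1, h2⟩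
  · rw [← Cfsg.Agent.H27.Fus.isSyl_nrm_iff] at hR
    have hR' := hR
    rw [← Cfsg.Agent.H27.Fus.nrmIn_top] at hR'
    have h1 := Cfsg.Agent.H27.Fus.isSyl_cen_of_nrm le_top hR'
    have h2 := Cfsg.Agent.H27.Fus.isSyl_aut_of_nrm le_top hR'
    rw [Cfsg.Agent.H27.Fus.cenIn_top, Cfsg.Agent.H27.Fus.isSyl_cen_iff] at h1
    exact ⟨h1, (Cfsg.Agent.H27.Grp.isSyl_iff h2.le).1 h2⟩

end Cfsg.Agent.S5122
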