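import Cfsg.Statements.S5123
import Mathlib
import Cfsg.Agent.H27_FusGrp

set_option autoImplicit false
open Cfsg

namespace Cfsg.Agent.S5123

open Cfsg.Agent.H27.Fus Cfsg.Agent.H27.Grp
theorem aux {G : Type*} [Group G] [Finite G] (p : ℕ) [Fact p.Prime] (S : Sylow p G) (P : Subgroup G) (g : G)
    (hN : IsSyl p (Cfsg.FusionSystem.normalizerIn (S : Subgroup G) (cj g P)) (Cfsg.FusionSystem.normalizerIn ⊤ (cj g P))) :
    ∃ a ∈ Cfsg.FusionSystem.centralizerIn ⊤ (cj g P), cj a (cj g ((Cfsg.FusionSystem.normalizerIn (S : Subgroup G) P) ⊓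
    (Cfsg.FusionSystem.normalizerIn (S : Subgroup G) (cj g P) ⊔ Subgroup.centralizer ((cj g P : Subgroup G) : Set G)).comap
      (MulAut.conj g).toMonoidHom)) ≤ S := by
  refine push_conj le_top hN ?_ ?_ ?_
  · rintro _ ⟨x, ⟨hx, -⟩, rfl⟩
    rw [← cj_nrmIn (H := ⊤) trivial]
    exact conj_mem_cj ⟨trivial, hx.2⟩
  · exact (S.isPGroup'.to_le (inf_le_left.trans nrm_le)).map _
  · rintro _ ⟨x, ⟨hx, hx'⟩, rfl⟩
    obtain ⟨t, ht, h⟩ := act_of_mem_sup hx'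
    exact ⟨t, ht.1, h⟩

/-- Let G be a finite group with Sylow p-subgroup S, P, Q ≤ S and g ∈ G with gPg⁻¹ = Q, and suppose N_S(Q) is a Sylow p-subgroup of N_G(Q). Let N be the set of x ∈ N_S(P) with gxg⁻¹ ∈ N_S(Q)C_G(Q). Then some h ∈ C_G(Q) satisfies (hg)N(hg)⁻¹ ≤ S. -/
theorem result {G : Type*} [Group G] [Finite G] (p : ℕ) [Fact p.Prime] (S : Sylow p G) (P Q : Subgroup G) (hP : P ≤ S) (hQ : Q ≤ S) (g : G) (hg : P.map (MulAut.conj g).toMonoidHom = Q) (hN : (∃ R : Sylow p ↥(Subgroup.normalizer (Q : Set G)), (R : Subgroup ↥(Subgroup.normalizer (Q : Set G))) = (Cfsg.FusionSystem.normalizerIn (S : Subgroup G) Q).subgroupOf (Subgroup.normalizer (Q : Set G)))) : ∃ h ∈ Subgroup.centralizer (Q : Set G), ((Cfsg.FusionSystem.normalizerIn (S : Subgroup G) P) ⊓ (Cfsg.FusionSystem.normalizerIn (S : Subgroup G) Q ⊔ Subgroup.centralizer (Q : Set G)).comap (MulAut.conj g).toMonoidHom).map (MulAut.conj (h *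 g)).toMonoidHom ≤ S := by
  rw [← isSyl_nrm_iff, ← nrmIn_top] at hN
  subst hg
  obtain ⟨a, ha, haX⟩ := aux p S P g hN
  refine ⟨a, ha.2, ?_⟩
  have h1 : ∀ A : Subgroup G, A.map (MulAut.conj (a * g)).toMonoidHom = cj a (A.map (MulAut.conj g).toMonoidHom) :=
    fun A => (cj_cj a g A).symm
  rw [h1]
  exact haX

end Cfsg.Agent.S5123
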