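import Cfsg.Statements.S5128
import Mathlib
import Cfsg.Agent.H27_FusNorm2

set_option autoImplicit false
open Cfsg

namespace Cfsg.Agent.S5128

open Cfsg.Agent.H27.Fus

/-- In a saturated fusion system over a finite p-group S, the product of two strongly closed subgroups is strongly closed. -/
theorem result {Ω : Type*} [Group Ω] {S : Subgroup Ω} [Finite S] (p : ℕ) [Fact p.Prime] (hS : IsPGroup p S) (F : Cfsg.FusionSystem S) (hF : F.IsSaturated p) (T₁ T₂ : Subgroup Ω) (h₁ : F.StronglyClosed T₁) (h₂ : F.StronglyClosed T₂) : F.StronglyClosed (T₁ ⊔ T₂) := by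
  rw [stronglyClosed_iff]
  refine ⟨sup_le h₁.1 h₂.1, fun P f hf x hx hxT => ?_⟩
  obtain ⟨g, hg, hgf⟩ := ext_mod hS hF h₁ P f hf
  have hn : T₂ ≤ Subgroup.normalizer (T₁ : Set Ω) := fun y hy => (StronglyClosed.le_normalizer h₁ (h₂.1 hy)).2
  rw [sup_comm] at hxT
  obtain ⟨b, hb, a, ha, rfl⟩ := mem_sup_nrm hn hxT
  have hbP : b ∈ P ⊔ T₁ := by
    have := (P ⊔ T₁).mul_mem (Subgroup.mem_sup_left hx) (Subgroup.mem_sup_right (T₁.inv_mem ha))
    simpa using this
  have h3 : g (b * a) = g b * g a := hg.mul hbP (Subgroup.mem_sup_right ha)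
  have h4 := hgf _ hx
  have hgb : g b ∈ T₂ := (stronglyClosed_iff.1 h₂).2 _ _ hg b hbP hb
  have hga : g a ∈ T₁ := (stronglyClosed_iff.1 h₁).2 _ _ hg a (Subgroup.mem_sup_right ha) ha
  have h5 : f (b * a) = g b * g a * ((g (b * a))⁻¹ * f (b * a)) := by rw [h3]; group
  rw [h5]
  exact (T₁ ⊔ T₂).mul_mem ((T₁ ⊔ T₂).mul_mem (Subgroup.mem_sup_right hgb) (Subgroup.mem_sup_left hga))
    (Subgroup.mem_sup_left h4)

end Cfsg.Agent.S5128
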