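import Cfsg.Statements.S5139
import Mathlib
import Cfsg.Agent.H27_Ix6

set_option autoImplicit false
open Cfsg

namespace Cfsg.Agent.S5139

open Cfsg.Agent.H27.Fus Cfsg.Agent.H27.Grp Cfsg.Agent.H27.Ix

/-- Let G be a finite group with Sylow p-subgroup S and O^p(G) the subgroup generated by the elements of order prime to p. Then the p-residual subsystem of the fusion system of G on S — the saturated subsystem of p-power index over the hyperfocal subgroup — is the fusion system of O^p(G) on S ∩ O^p(G): its maps are exactly the conjugation maps by elements of O^p(G) between subgroups of S ∩ O^p(G). -/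
theorem result {G : Type*} [Group G] [Finite G] (p : ℕ) [Fact p.Prime] (S : Sylow p G) (E : Cfsg.FusionSystem ((Cfsg.groupFusionSystem (S : Subgroup G)).hyperfocalSubgroup p)) (hE : (Cfsg.groupFusionSystem (S : Subgroup G)).IsPResidual p E) : ∃ h : (S : Subgroup G) ⊓ Cfsg.pResidual p G ≤ Cfsg.pResidual p G, ∀ P : Subgroup G, E.Hom P = (Cfsg.fusionSystemOfSubgroup (Cfsg.pResidual p G) ((S : Subgroup G) ⊓ Cfsg.pResidual p G) h).Hom P := by
  have hS : IsSyl p (S : Subgroup G) ⊤ := isSyl_top_iff.2 ⟨S, rfl⟩
  refine ⟨inf_le_right, fun P => hom_eq_of_map fun f => ?_⟩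
  have hn := Cfsg.Agent.H2.Fusion.pResidual_normal (G := G) p
  have h1 := pix_group hS
  have hsat : (fusionSystemOfSubgroup (pResidual p G) ((S : Subgroup G) ⊓ pResidual p G) inf_le_right).IsSaturated p :=
    saturated_fss (hS.inf le_top (by rw [Subgroup.normalizer_eq_top]))
  exact PIx.unique' S.2 (hyp_gfs hS) hE.1 hsat (pix_iff.1 hE.2) h1 P f

end Cfsg.Agent.S5139
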