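import Cfsg.Statements.S5159
import Mathlib
import Cfsg.Agent.H27_Solv2

set_option autoImplicit false
open Cfsg

namespace Cfsg.Agent.S5159

open H27.Fus H27.Grp Cfsg.FusionSystem

/-- Let F be a saturated fusion system over a finite p-group S, E a normal subsystem over T, and D the factor system of F modulo T (read through any homomorphism on S with kernel T). Then F is solvable if and only if E and D are solvable (solvable, for a system over a subgroup S: for every subgroup R other than S that is strongly closed in F, the factor system of F modulo R has a nontrivial subgroup normal in it). -/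
theorem result {Ω : Type*} [Group Ω] {S : Subgroup Ω} [Finite S] (p : ℕ) [Fact p.Prime] (hS : IsPGroup p S) (F : Cfsg.FusionSystem S) (hF : F.IsSaturated p) {T : Subgroup Ω} (E : Cfsg.FusionSystem T) (hE : E.IsNormalIn F p) {Ω' : Type*} [Group Ω'] {S' : Subgroup Ω'} (θ : S →* Ω') (D : Cfsg.FusionSystem S') (hD : F.IsFactorSystem T θ D) : F.IsSolvableSystem ↔ (E.IsSolvableSystem ∧ D.IsSolvableSystem) := by
    obtain ⟨⟨hEs, -, hEi⟩, -⟩ := hE
    have hi := inv_iff.1 hEi
    have hTS := hi.strong.1
    haveI : Finite T := finite_of_le hTS
    obtain ⟨hd, -⟩ := isFactorSystem_iff.1 hD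
    haveI : Finite S' := finite_S' hd
    have hDs := factor_saturated hS hF hD hi.strong
    constructor
    · intro h
      have hch := ch_of_solv hS hF h
      refine ⟨solv_of_ch (isPGroup_mono hS hTS) hEs ?_, solv_of_ch (isPGroup_S' hd hS) hDs ?_⟩
      · have := ch_inter hi.sub hch
        rwa [bot_inf_eq, inf_eq_right.2 hTS] at this
      · have := ch_image hD hch
        have e1 : imageAlong θ ⊥ = ⊥ := by
          rw [eq_bot_iff]
          rintro _ ⟨x, hx, rfl⟩
          have hx1 : (x : Ω) = 1 := hx
          have : x = 1 := Subtype.ext hx1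
          rw [this]
          exact Subgroup.mem_bot.2 (map_one θ)
        have e2 : imageAlong θ S = S' := by
          rw [← hd.range]
          unfold FusionSystem.imageAlong
          rw [Subgroup.subgroupOf_self]
          exact (MonoidHom.range_eq_map θ).symm
        rwa [e1, e2] at this
    · rintro ⟨h1, h2⟩
      have hc1 := ch_inv hS hEs hi h1
      have hc2 := ch_pre hS hF hi.strong hD (ch_of_solv (isPGroup_S' hd hS) hDs h2)
      refine solv_of_ch hS hF ?_
      have e1 : preimageAlong θ ⊥ = T := by
        ext x
        rw [mem_preimageAlong]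
        exact ⟨fun h => (hd.ker x h.1).1 (Subgroup.mem_bot.1 h.2), fun h => ⟨hTS h, Subgroup.mem_bot.2 ((hd.ker x (hTS h)).2 h)⟩⟩
      rw [e1, pre_S' hd] at hc2
      exact Ch.trans hc1 hc2

end Cfsg.Agent.S5159
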