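import Cfsg.Statements.S5160
import Mathlib
import Cfsg.Agent.H27_FusInv3

set_option autoImplicit false
open Cfsg

namespace Cfsg.Agent.S5160

open H27.Fus H27.Grp

/-- Let G be a finite group with nontrivial Sylow p-subgroup S and F its fusion system on S. Suppose (a) no nontrivial proper subgroup of S is strongly closed in F, and (b) the automorphisms of S induced by G are generated by those induced, for R running over the fully normalized radical centric subgroups of F, by the subgroup of N_G(R) generated by its elements of p-power order. Then F is simple. -/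
theorem result {G : Type*} [Group G] [Finite G] (p : ℕ) [Fact p.Prime] (S : Sylow p G) (hS1 : (S : Subgroup G) ≠ ⊥) (ha : ∀ T : Subgroup G, (Cfsg.groupFusionSystem (S : Subgroup G)).StronglyClosed T → T = ⊥ ∨ T = (S : Subgroup G)) (hb : Cfsg.autInducedBy ⊤ (S : Subgroup G) = ⨆ (R : Subgroup G) (_ : (Cfsg.groupFusionSystem (S : Subgroup G)).IsFullyNormalized R ∧ (Cfsg.groupFusionSystem (S : Subgroup G)).IsRadical p R ∧ (Cfsg.groupFusionSystem (S : Subgroup G)).IsCentric R), Cfsg.autInducedBy (Subgroup.closure {g : G | g ∈ Subgroup.normalizer (R : Set G) ∧ ∃ k : ℕ, orderOf g = p ^ k}) (S : Subgroup G)) : (Cfsg.groupFusionSystem (S : Subgroup G)).IsSimple p := by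
  have hSyl := isSyl_sylow S
  have hSp : IsPGroup p (S : Subgroup G) := S.isPGroup'
  have hF : (groupFusionSystem (S : Subgroup G)).IsSaturated p := saturated_gfs S
  refine ⟨hF, hS1, fun T E hE => ?_⟩
  obtain ⟨hEs, -, hI, -⟩ := normalIn_iff.1 hE
  rcases ha T hI.strong with h | h
  · exact Or.inl h
  subst h
  refine Or.inr ⟨rfl, fun P => hom_eq_of_map fun f => ⟨hI.sub P f, fun hf => hI.eq_of_top (fun f hf => ?_) P f hf⟩⟩
  have h1 : hf.aut ∈ autInducedBy ⊤ (S : Subgroup G) := by
    have e : (groupFusionSystem (S : Subgroup G)).autGroup (S : Subgroup G) = autInducedBy ⊤ (S : Subgroup G) := by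
      rw [gfs_eq, autGroup_fss le_rfl]
    exact e ▸ hf.aut_mem
  have key : autInducedBy ⊤ (S : Subgroup G) ≤ E.autGroup (S : Subgroup G) := by
    rw [hb]
    refine iSup_le fun R => iSup_le fun hR => ?_
    obtain ⟨hRn, -, hRc⟩ := hR
    intro α hα
    obtain ⟨g, hg, hαg⟩ := mem_autInducedBy.1 hα
    have hmS : Map (groupFusionSystem (S : Subgroup G)) (S : Subgroup G) (fun x => g * x * g⁻¹) :=
      map_gfs.2 ⟨le_rfl, fun x hx => by rw [← hαg ⟨x, hx⟩]; exact (α _).2, g, fun x hx => rfl⟩
    refine mem_autGroup_of (hI.top_of_gen hSp hEs hF hRn hRc hmS ?_) hαg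
    have hmemF : ∀ (b : G) (hb : b ∈ Subgroup.normalizer (R : Set G)),
        cjA R b hb ∈ (groupFusionSystem (S : Subgroup G)).autGroup R := by
      intro b hb
      rw [gfs_eq, autGroup_fss hRn.1]
      exact cjA_mem hb trivial
    clear hαg hα hmS
    induction hg using Subgroup.closure_induction with
    | mem g hg =>
      obtain ⟨hgN, k, hk⟩ := hg
      refine ⟨cjA R g hgN, Subgroup.subset_closure ⟨hmemF g hgN, ?_⟩, fun x => rfl⟩
      intro y
      obtain ⟨m, hm⟩ := Subgroup.mem_zpowers_iff.1 y.2
      have h2 : ∀ n : ℕ, ∀ x : R, ((cjA R g hgN ^ n) x : G) = g ^ n * x * (g ^ n)⁻¹ := by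
        intro n
        induction n with
        | zero => intro x; simp
        | succ n ih =>
          intro x
          rw [pow_succ, MulAut.mul_apply, ih, cjA_apply, pow_succ]
          group
      have h3 : cjA R g hgN ^ (p ^ k) = 1 := by
        ext x
        rw [h2, ← hk, pow_orderOf_eq_one]
        simp
      refine ⟨k, Subtype.ext ?_⟩
      show (y : MulAut R) ^ p ^ k = 1
      rw [← hm, ← zpow_natCast, ← zpow_mul, mul_comm m, zpow_mul, zpow_natCast, h3, one_zpow]
    | one => exact ⟨1, one_mem _, fun x => by simp⟩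
    | mul a b _ _ iha ihb =>
      obtain ⟨α, hα, ha⟩ := iha
      obtain ⟨β, hβ, hb⟩ := ihb
      refine ⟨α * β, mul_mem hα hβ, fun x => ?_⟩
      rw [MulAut.mul_apply, ha, hb]; group
    | inv a _ iha =>
      obtain ⟨α, hα, ha⟩ := iha
      refine ⟨α⁻¹, inv_mem hα, fun x => ?_⟩
      have := ha (α⁻¹ x)
      rw [MulAut.apply_inv_self] at this
      rw [this]; group
  exact ((mem_autGroup_iff le_rfl).1 (key h1)).congr fun x hx => totA_of_mem _ hx

end Cfsg.Agent.S5160
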