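import Cfsg.Statements.S5164
-- import your own Cfsg.Agent.* helpers here

set_option autoImplicit false
open Cfsg

namespace Cfsg.Agent.S5164

open Equiv Equiv.Perm

/-- a `p`-group acting on a set with fewer than `p²` points acts commutatively -/
theorem comm_of_small {p n : ℕ} [hp : Fact p.Prime] (hn : n < p ^ 2) (S : Subgroup (Perm (Fin n))) (hS : IsPGroup p S)
    (a b : Perm (Fin n)) (ha : a ∈ S) (hb : b ∈ S) : a * b = b * a := by
  classical
  ext i
  congr 1
  set O := MulAction.orbit S i with hO
  set f := MulAction.toPermHom S O with hf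
  have hcO : Nat.card O ≤ n := by
    have := Nat.card_le_card_of_injective (Subtype.val : O → Fin n) Subtype.val_injective
    rwa [Nat.card_eq_fintype_card (α := Fin n), Fintype.card_fin] at this
  obtain ⟨k, hk⟩ := IsPGroup.card_orbit hS i
  have hk1 : k ≤ 1 := by
    by_contra h
    push Not at h
    have : p ^ 2 ≤ p ^ k := Nat.pow_le_pow_right hp.out.pos h
    have h3 : Nat.card O = p ^ k := hk
    omega
  have hdvd : Nat.card f.range ∣ (Nat.card O).factorial := by
    rw [← Nat.card_perm]
    exact Subgroup.card_subgroup_dvd_card _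
  have hfp : IsPGroup p f.range := IsPGroup.of_surjective hS f.rangeRestrict f.rangeRestrict_surjective
  obtain ⟨m, hm⟩ := IsPGroup.iff_card.1 hfp
  have hm1 : m ≤ 1 := by
    by_contra h
    push Not at h
    have h1 : p ^ 2 ∣ p.factorial := by
      have h2 : (Nat.card O).factorial ∣ p.factorial := by
        apply Nat.factorial_dvd_factorial
        have h3 : Nat.card O = p ^ k := hk
        rw [h3]
        calc p ^ k ≤ p ^ 1 := Nat.pow_le_pow_right hp.out.pos hk1
          _ = p := pow_one p
      refine (pow_dvd_pow p h).trans ?_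
      rw [← hm]
      exact hdvd.trans h2
    have h4 := hp.out.pos
    have h5 : p.factorial = p * (p - 1).factorial := (Nat.mul_factorial_pred h4.ne').symm
    rw [h5, pow_two] at h1
    have h6 := Nat.dvd_of_mul_dvd_mul_left h4 h1
    have h7 := (hp.out.dvd_factorial).1 h6
    omega
  have hcyc : IsCyclic f.range := by
    interval_cases m
    · rw [pow_zero] at hm
      haveI : Subsingleton f.range := (Nat.card_eq_one_iff_unique.1 hm).1
      infer_instance
    · rw [pow_one] at hm
      exact isCyclic_of_prime_card hm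
  have hcomm : f ⟨a, ha⟩ * f ⟨b, hb⟩ = f ⟨b, hb⟩ * f ⟨a, ha⟩ := by
    letI := hcyc.commGroup
    have := mul_comm (⟨f ⟨a, ha⟩, ⟨_, rfl⟩⟩ : f.range) ⟨f ⟨b, hb⟩, ⟨_, rfl⟩⟩
    exact congrArg Subtype.val this
  have h1 := congrArg (fun g : Perm O => ((g ⟨i, MulAction.mem_orbit_self i⟩ : O) : Fin n)) hcomm
  exact h1

theorem comm_of_sylow {G : Type*} [Group G] [Finite G] {p : ℕ} [hp : Fact p.Prime] (S : Sylow p G)
    (hS : IsMulCommutative S) {R : Type*} [Group R] (f : R →* G) (hR : IsPGroup p R) (x y : R) :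
    f x * f y = f y * f x := by
  have h1 : IsPGroup p f.range := IsPGroup.of_surjective hR f.rangeRestrict f.rangeRestrict_surjective
  obtain ⟨T, hT⟩ := h1.exists_le_sylow
  obtain ⟨g, hg⟩ := MulAction.exists_smul_eq G T S
  have key : ∀ z : R, g * f z * g⁻¹ ∈ (S : Subgroup G) := by
    intro z
    rw [← hg]
    have h2 : f z ∈ (T : Subgroup G) := hT ⟨z, rfl⟩
    exact ⟨f z, h2, rfl⟩
  have h2 := congrArg Subtype.val (mul_comm' (⟨_, key x⟩ : S) ⟨_, key y⟩)
  have h3 : g * f x * g⁻¹ * (g * f y * g⁻¹) = g * f y * g⁻¹ * (g * f x * g⁻¹) := h2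
  have h4 : g * (f x * f y) * g⁻¹ = g * (f y * f x) * g⁻¹ := by
    rw [show g * (f x * f y) * g⁻¹ = g * f x * g⁻¹ * (g * f y * g⁻¹) by group, h3]; group
  exact mul_left_cancel (mul_right_cancel h4)

/-- the embedding of alternating groups -/
noncomputable def emb {m n : ℕ} (h : m ≤ n) : alternatingGroup (Fin m) →* alternatingGroup (Fin n) :=
  ((viaEmbeddingHom (Fin.castLEEmb h)).comp (alternatingGroup (Fin m)).subtype).codRestrict _ (by
    classical
    intro x
    rw [mem_alternatingGroup]
    have h1 : Perm.sign (viaEmbedding x.1 (Fin.castLEEmb h)) = Perm.sign x.1 := by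
      rw [viaEmbedding]
      convert Perm.sign_extendDomain x.1 _
    have h2 : Perm.sign x.1 = 1 := x.2
    rw [h2] at h1
    exact h1)

theorem emb_injective {m n : ℕ} (h : m ≤ n) : Function.Injective (emb h) := by
  intro x y hxy
  have h1 := congrArg Subtype.val hxy
  exact Subtype.ext (viaEmbeddingHom_injective _ h1)

theorem odd_case {p : ℕ} [hp : Fact p.Prime] (hp2 : p ≠ 2) (S : Sylow p (alternatingGroup (Fin (p ^ 2)))) :
    ¬ IsMulCommutative S := by
  classical
  intro hS
  have hp3 : 3 ≤ p := by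
    have := hp.out.two_le
    omega
  have hpp : p ≤ p ^ 2 := by nlinarith
  haveI : Nontrivial (Fin (p ^ 2)) := Fin.nontrivial_iff_two_le.2 (by nlinarith)
  -- a `p`-cycle
  obtain ⟨c, hc, hcs⟩ : ∃ c : Perm (Fin (p ^ 2)), c.IsCycle ∧ c.support.card = p := by
    obtain ⟨g, hg⟩ := (Perm.exists_with_cycleType_iff (Fin (p ^ 2)) (m := {p})).2 ⟨by
      rw [Multiset.sum_singleton, Fintype.card_fin]; exact hpp, by
      intro a ha; rw [Multiset.mem_singleton] at ha; omega⟩
    have h1 : g.IsCycle := by
      rw [← Perm.card_cycleType_eq_one, hg, Multiset.card_singleton]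
    refine ⟨g, h1, ?_⟩
    rw [← Perm.sum_cycleType, hg, Multiset.sum_singleton]
  have hco : orderOf c = p := by rw [hc.orderOf, hcs]
  have hcA : c ∈ alternatingGroup (Fin (p ^ 2)) := by
    rw [mem_alternatingGroup, hc.sign, hcs]
    have : Odd p := hp.out.odd_of_ne_two hp2
    rw [this.neg_one_pow, neg_neg]
  set c' : alternatingGroup (Fin (p ^ 2)) := ⟨c, hcA⟩ with hc'
  have hco' : orderOf c' = p := by rw [← Subgroup.orderOf_coe]; exact hco
  have hzp : IsPGroup p (Subgroup.zpowers c') := by
    apply IsPGroup.of_card (n := 1)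
    rw [Nat.card_zpowers, hco', pow_one]
  obtain ⟨T, hT⟩ := hzp.exists_le_sylow
  have hTc : ∀ t ∈ (T : Subgroup (alternatingGroup (Fin (p ^ 2)))), t * c' = c' * t := by
    intro t ht
    have := comm_of_sylow S hS (T : Subgroup (alternatingGroup (Fin (p ^ 2)))).subtype T.isPGroup' ⟨t, ht⟩
      ⟨c', hT (Subgroup.mem_zpowers c')⟩
    exact this
  set D : Fin (p ^ 2) → Prop := fun i => i ∈ c.support with hD
  have hTD : ∀ t ∈ (T : Subgroup (alternatingGroup (Fin (p ^ 2)))), ∀ i, D i ↔ D (t.1 i) := by
    intro t ht i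
    have h1 : t.1 * c = c * t.1 := congrArg Subtype.val (hTc t ht)
    have h2 : t.1 (c i) = c (t.1 i) := congrArg (fun g : Perm (Fin (p ^ 2)) => g i) h1
    simp only [hD, Perm.mem_support]
    constructor
    · intro h h3
      rw [← h2] at h3
      exact h (t.1.injective h3)
    · intro h h3
      apply h
      rw [← h2, h3]
  let φ₁ : T →* Perm {i // D i} := MonoidHom.mk' (fun t => t.1.1.subtypePerm (fun i => (hTD t.1 t.2 i).symm)) (fun a b => by ext; rfl)
  let φ₂ : T →* Perm {i // ¬ D i} := MonoidHom.mk' (fun t => t.1.1.subtypePerm (fun i => not_congr (hTD t.1 t.2 i).symm))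
    (fun a b => by ext; rfl)
  have hinj : Function.Injective (φ₁.prod φ₂) := by
    rw [injective_iff_map_eq_one]
    intro t ht
    have h1 : φ₁ t = 1 := congrArg Prod.fst ht
    have h2 : φ₂ t = 1 := congrArg Prod.snd ht
    apply Subtype.ext
    apply Subtype.ext
    apply Equiv.ext
    intro i
    by_cases hi : D i
    · exact congrArg Subtype.val (congrArg (fun g : Perm {i // D i} => g ⟨i, hi⟩) h1)
    · exact congrArg Subtype.val (congrArg (fun g : Perm {i // ¬ D i} => g ⟨i, hi⟩) h2)
  have hdvd : Nat.card T ∣ p.factorial * (p * (p - 1)).factorial := by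
    have h1 := Subgroup.card_dvd_of_injective _ hinj
    have h2 : Nat.card {i // D i} = p := by
      rw [Nat.card_eq_fintype_card, Fintype.card_subtype]
      refine Eq.trans ?_ hcs
      congr 1; ext i; simp [hD]
    have h3 : Nat.card {i // ¬ D i} = p * (p - 1) := by
      rw [Nat.card_eq_fintype_card, Fintype.card_subtype_compl, Fintype.card_fin, ← Nat.card_eq_fintype_card, h2,
        Nat.mul_sub, mul_one, pow_two]
    rw [Nat.card_prod, Nat.card_perm, Nat.card_perm, h2, h3] at h1
    exact h1
  have hv1 : padicValNat p p.factorial = 1 := by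
    have := padicValNat_factorial_mul (p := p) 1
    rw [mul_one] at this
    rw [this, Nat.factorial_one, padicValNat.one]
  have hv2 : padicValNat p (p * (p - 1)).factorial = p - 1 := by
    rw [padicValNat_factorial_mul]
    have : padicValNat p (p - 1).factorial = 0 := by
      apply padicValNat.eq_zero_of_not_dvd
      intro h
      have := (hp.out.dvd_factorial).1 h
      omega
    rw [this, zero_add]
  have hv3 : padicValNat p (p ^ 2).factorial = p + 1 := by
    rw [pow_two, padicValNat_factorial_mul, hv1, add_comm]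
  have hA : p ^ (p + 1) ∣ Nat.card (alternatingGroup (Fin (p ^ 2))) := by
    have h1 := two_mul_nat_card_alternatingGroup (α := Fin (p ^ 2))
    rw [Nat.card_perm, Nat.card_eq_fintype_card (α := Fin (p ^ 2)), Fintype.card_fin] at h1
    have h2 : p ^ (p + 1) ∣ 2 * Nat.card (alternatingGroup (Fin (p ^ 2))) := by
      rw [h1, ← hv3]
      exact pow_padicValNat_dvd
    exact (Nat.Coprime.pow_left _ ((Nat.coprime_primes hp.out Nat.prime_two).2 hp2)).dvd_of_dvd_mul_left h2
  have hT' := (T.pow_dvd_card_of_pow_dvd_card hA).trans hdvd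
  have hne : p.factorial * (p * (p - 1)).factorial ≠ 0 := by positivity
  rw [padicValNat_dvd_iff_le hne, padicValNat.mul (by positivity) (by positivity), hv1, hv2] at hT'
  omega

/-- the dihedral group of order 8 in `A₆` -/
def d8 : DihedralGroup 4 → Perm (Fin 6)
  | DihedralGroup.r i => (c[0, 1, 2, 3] * c[4, 5]) ^ i.val
  | DihedralGroup.sr i => (c[0, 2] * c[4, 5]) * (c[0, 1, 2, 3] * c[4, 5]) ^ i.val

theorem d8_mul (x y : DihedralGroup 4) : d8 (x * y) = d8 x * d8 y := by
  revert x y
  decide

theorem d8_sign (x : DihedralGroup 4) : Perm.sign (d8 x) = 1 := by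
  revert x
  decide

def d8hom : DihedralGroup 4 →* alternatingGroup (Fin 6) :=
  MonoidHom.mk' (fun x => ⟨d8 x, d8_sign x⟩) (fun x y => Subtype.ext (d8_mul x y))

theorem d8hom_coe (x : DihedralGroup 4) : (d8hom x).1 = d8 x := rfl

theorem d8_pgroup : IsPGroup 2 (DihedralGroup 4) := by
  apply IsPGroup.of_card (n := 3)
  rw [DihedralGroup.nat_card]
  norm_num

theorem d8_ne : (d8hom (DihedralGroup.r 1 * DihedralGroup.sr 0)).1 ≠ (d8hom (DihedralGroup.sr 0 * DihedralGroup.r 1)).1 := by
  rw [d8hom_coe, d8hom_coe, d8_mul, d8_mul]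
  decide

/-- For n ≥ 6 and a prime p, a nontrivial Sylow p-subgroup of the alternating group of degree n is abelian if and only if n < p². -/
theorem result (n p : ℕ) (hn : 6 ≤ n) [Fact p.Prime] (S : Sylow p (alternatingGroup (Fin n))) (hS : (S : Subgroup (alternatingGroup (Fin n))) ≠ ⊥) : IsMulCommutative S ↔ n < p ^ 2 := by
  classical
  constructor
  · intro hSc
    by_contra hn2
    push Not at hn2
    by_cases hp2 : p = 2
    · subst hp2
      have h1 := comm_of_sylow S hSc ((emb hn).comp d8hom) d8_pgroup (DihedralGroup.r 1) (DihedralGroup.sr 0)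
      rw [← map_mul, ← map_mul, MonoidHom.comp_apply, MonoidHom.comp_apply] at h1
      exact d8_ne (congrArg Subtype.val (emb_injective hn h1))
    · obtain ⟨T⟩ : Nonempty (Sylow p (alternatingGroup (Fin (p ^ 2)))) := inferInstance
      apply odd_case hp2 T
      refine ⟨⟨?_⟩⟩
      intro a b
      apply Subtype.ext
      apply emb_injective hn2
      have h1 := comm_of_sylow S hSc ((emb hn2).comp (T : Subgroup (alternatingGroup (Fin (p ^ 2)))).subtype) T.isPGroup' a b
      rw [← map_mul, ← map_mul] at h1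
      exact h1
  · intro hn2
    refine ⟨⟨?_⟩⟩
    intro a b
    apply Subtype.ext
    apply Subtype.ext
    exact comm_of_small hn2 ((S : Subgroup (alternatingGroup (Fin n))).map (alternatingGroup (Fin n)).subtype)
      (S.isPGroup'.map _) a.1.1 b.1.1 ⟨a.1, a.2, rfl⟩ ⟨b.1, b.2, rfl⟩

end Cfsg.Agent.S5164
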