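import Cfsg.Statements.S5311
import Cfsg.Agent.H27_Cmp1

set_option autoImplicit false
open Cfsg Cfsg.FusionSystem Cfsg.Agent.H27.Fus

namespace Cfsg.Agent.S5311

/-- The layer of a saturated fusion system F over a finite p-group S is characteristic in F: for every automorphism α of S that is an automorphism of F (α and its inverse are morphisms from F to F) and every layer E of F over T, α carries T onto T and, for every map φ of E with source P, the map induced by α on α(P) (that is, α ∘ φ ∘ α⁻¹) is a map of E. -/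
theorem result {Ω : Type*} [Group Ω] {S : Subgroup Ω} [Finite S] (p : ℕ) [Fact p.Prime] (hS : IsPGroup p S) (F : Cfsg.FusionSystem S) (hF : F.IsSaturated p)
    (α : ↥S ≃* ↥S) (hα : F.IsMorphism F (S.subtype.comp α.toMonoidHom))
    (hα' : F.IsMorphism F (S.subtype.comp α.symm.toMonoidHom))
    {T : Subgroup Ω} (E : Cfsg.FusionSystem T) (hE : E.IsLayerOf F p) :
    Cfsg.FusionSystem.imageAlong (S.subtype.comp α.toMonoidHom) T = T ∧
      ∀ (P : Subgroup Ω) (φ : ↥P →* Ω), φ ∈ E.Hom P →
        ∀ φ' : ↥(Cfsg.FusionSystem.imageAlong (S.subtype.comp α.toMonoidHom) P) →* Ω,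
          Cfsg.FusionSystem.InducedAlong (S.subtype.comp α.toMonoidHom) φ φ' →
            φ' ∈ E.Hom (Cfsg.FusionSystem.imageAlong (S.subtype.comp α.toMonoidHom) P) := by
  haveI : Finite S := inferInstance
  set a : S →* Ω := S.subtype.comp α.toMonoidHom with ha
  set b : S →* Ω := S.subtype.comp α.symm.toMonoidHom with hb
  have hta : ∀ x (hx : x ∈ S), tt a x = (α ⟨x, hx⟩ : Ω) := fun x hx => tt_of_mem a hx
  have htb : ∀ x (hx : x ∈ S), tt b x = (α.symm ⟨x, hx⟩ : Ω) := fun x hx => tt_of_mem b hx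
  have hg : GIso S S (tt a) (tt b) := by
    refine ⟨?_, ?_, ?_, ?_, ?_⟩
    · intro x hx; rw [hta x hx]; exact (α ⟨x, hx⟩).2
    · intro x hx; rw [htb x hx]; exact (α.symm ⟨x, hx⟩).2
    · intro x hx
      rw [hta x hx, htb _ (α ⟨x, hx⟩).2]
      show (α.symm (α ⟨x, hx⟩) : Ω) = x
      rw [MulEquiv.symm_apply_apply]
    · intro x hx
      rw [htb x hx, hta _ (α.symm ⟨x, hx⟩).2]
      show (α (α.symm ⟨x, hx⟩) : Ω) = x
      rw [MulEquiv.apply_symm_apply]
    · intro x hx y hy; exact tt_mul a hx hy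
  have key : ∀ (c d : S →* Ω), GIso S S (tt c) (tt d) → F.IsMorphism F c → ∀ P f, Map F P f →
      Map F (imj P (tt c)) (tt c ∘ f ∘ tt d) := by
    intro c d hcd hm P f hf
    obtain ⟨f', hf', hI⟩ := ((isMorphism_iff c).1 hm).2 P f hf
    have e : imageAlong c P = imj P (tt c) := by
      ext y
      rw [mem_imageAlong c hf.le, hcd.mem_imj hf.le]
    rw [e] at hf'
    refine hf'.congr fun y hy => ?_
    obtain ⟨x, hx, rfl⟩ := (hcd.mem_imj hf.le).1 hy
    simp only [Function.comp]
    rw [hcd.kj x (hf.le hx)]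
    exact hI x hx
  have h : FIso F F (tt a) (tt b) := ⟨hg, key a b hg hα, key b a hg.symm hα'⟩
  have hTS : T ≤ S := hE.1.1.2.2.2.1.1
  haveI : Finite T := Finite.of_injective (Subgroup.inclusion hTS) (Subgroup.inclusion_injective _)
  -- the transported system
  have hgT := h.symm.toGIso.sub hTS
  have hDE := fiso_push hgT E
  have hDn : (pushFS hgT E).IsNormalIn F p := FIso.normalIn hS h.symm hDE hE.1
  have hle : E.IsSubsystemOf (pushFS hgT E) := by
    refine hE.2.2 _ _ hDn fun U C hC => ?_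
    have hUS : U ≤ S := subn_le hC.1
    have hCC := fiso_push (h.toGIso.sub hUS) C
    have h1 := hE.2.1 _ _ (FIso.component hS hUS h hCC hC)
    rw [isSubsystemOf_iff] at h1 ⊢
    intro P f hf
    have h2 := hDE.map _ _ (h1 _ _ (hCC.map _ _ hf))
    rw [h.toGIso.imj_imj (hf.le.trans hUS)] at h2
    refine h2.congr fun x hx => ?_
    simp only [Function.comp]
    rw [h.kj x (hUS (hf.le hx)), h.kj _ (hUS (hf.mem hx))]
  rw [isSubsystemOf_iff] at hle
  have hstep : ∀ P f, Map E P f → Map E (imj P (tt a)) (tt a ∘ f ∘ tt b) := by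
    intro P f hf
    exact hDE.map' _ _ (hle P f hf)
  have himg : ∀ P, P ≤ S → imageAlong a P = imj P (tt a) := by
    intro P hP
    ext y
    rw [mem_imageAlong a hP, h.toGIso.mem_imj hP]
  constructor
  · rw [himg T hTS]
    have h1 : imj T (tt a) ≤ T := (hstep T id (map_id E le_rfl)).le
    refine Subgroup.eq_of_le_of_card_ge h1 ?_
    rw [Nat.card_congr (h.toGIso.eqv hTS).toEquiv]
  · intro P φ hφ φ' hI
    have hm := map_tot hφ
    have hPS : P ≤ S := hm.le.trans hTS
    have h2 := hstep P _ hm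
    rw [← himg P hPS] at h2
    refine hom_mem_of_map h2 fun y => ?_
    obtain ⟨x, hx, hxy⟩ := (mem_imageAlong a hPS).1 y.2
    have hIi := (inducedAlong_iff (f := tot φ) (f' := tot φ') a (fun x => (tot_apply φ x).symm) (fun x => (tot_apply φ' x).symm)).1 hI
    have h3 := hIi.2.2.2 x hx
    simp only [Function.comp]
    rw [← hxy, h.kj x (hPS hx), ← h3, hxy, tot_apply]

end Cfsg.Agent.S5311
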