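import Cfsg.Statements.S5345
import Cfsg.Agent.H28_Basic

set_option autoImplicit false
open Cfsg

namespace Cfsg.Agent.S5345

open Cfsg.Agent.H28.Basic in
theorem result {G : Type*} [Group G] [Finite G] {D : Set G} (hD : Cfsg.IsThreeTranspositionGroup D) (T : Sylow 2 G) : IsMulCommutative (Subgroup.closure {d : G | d ∈ D ∧ d ∈ T}) ∧ {d : G | d ∈ D ∧ d ∈ T}.ncard = Cfsg.commutingWidth D := by
  have hS := hD.1
  -- members of a 2-subgroup commute
  have hcomm : ∀ (P : Subgroup G), IsPGroup 2 P → ∀ a ∈ D, a ∈ P → ∀ b ∈ D, b ∈ P → Commute a b := by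
    intro P hP a ha haP b hb hbP
    apply tt_commute_of_orderOf_coprime_three hS ha hb
    obtain ⟨k, hk⟩ := hP ⟨a * b, P.mul_mem haP hbP⟩
    have hk' : (a * b) ^ (2 ^ k) = 1 := by simpa [Subtype.ext_iff] using hk
    intro h3
    have := h3.trans (orderOf_dvd_of_pow_eq_one hk')
    have := (Nat.Prime.dvd_of_dvd_pow Nat.prime_three this)
    omega
  constructor
  · refine ⟨⟨?_⟩⟩
    have hset : ∀ x ∈ {d : G | d ∈ D ∧ d ∈ T}, ∀ y ∈ {d : G | d ∈ D ∧ d ∈ T}, x * y = y * x := by
      rintro x ⟨hx, hxT⟩ y ⟨hy, hyT⟩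
      exact (hcomm T T.isPGroup' x hx hxT y hy hyT).eq
    intro x y
    exact (Subgroup.closureCommGroupOfComm hset).mul_comm x y
  · -- the width
    set N := {d : G | d ∈ D ∧ d ∈ T}.ncard with hN
    have hub : ∀ n ∈ {n : ℕ | ∃ E : Set G, E ⊆ D ∧ E.Finite ∧ (∀ a ∈ E, ∀ b ∈ E, Commute a b) ∧ E.ncard = n}, n ≤ N := by
      rintro n ⟨E, hED, hEf, hEc, rfl⟩
      -- the closure of E is a 2-group
      have hE2 : IsPGroup 2 (Subgroup.closure E) := by
        have hc : ∀ x ∈ E, ∀ y ∈ E, x * y = y * x := fun x hx y hy => (hEc x hx y hy).eq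
        letI := Subgroup.closureCommGroupOfComm hc
        intro x
        refine ⟨1, ?_⟩
        have : ∀ y (hy : y ∈ Subgroup.closure E), (⟨y, hy⟩ : Subgroup.closure E) ^ 2 = 1 := by
          intro y hy
          refine Subgroup.closure_induction (p := fun y hy => (⟨y, hy⟩ : Subgroup.closure E) ^ 2 = 1) ?_ ?_ ?_ ?_ hy
          · intro z hz
            ext
            simp [pow_two, tt_sq hS (hED hz)]
          · ext; simp
          · intro y z hy hz h1 h2
            have : (⟨y * z, mul_mem hy hz⟩ : Subgroup.closure E) = ⟨y, hy⟩ * ⟨z, hz⟩ := rfl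
            rw [this, mul_pow, h1, h2, one_mul]
          · intro y hy h1
            have : (⟨y⁻¹, inv_mem hy⟩ : Subgroup.closure E) = (⟨y, hy⟩)⁻¹ := rfl
            rw [this, inv_pow, h1, inv_one]
        simpa using this x x.2
      obtain ⟨Q, hQ⟩ := hE2.exists_le_sylow
      obtain ⟨g, hg⟩ := MulAction.exists_smul_eq G Q T
      have himg : (fun x => g * x * g⁻¹) '' E ⊆ {d : G | d ∈ D ∧ d ∈ T} := by
        rintro _ ⟨x, hx, rfl⟩
        refine ⟨hD.2.1 g x (hED hx), ?_⟩
        have hxQ : x ∈ Q := hQ (Subgroup.subset_closure hx)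
        have : g * x * g⁻¹ ∈ (g • Q : Sylow 2 G) := by
          rw [← SetLike.mem_coe, Sylow.coe_smul]
          exact ⟨x, hxQ, by simp [MulAut.conj_apply]⟩
        rw [hg] at this
        exact this
      have hinj : Function.Injective (fun x : G => g * x * g⁻¹) := by
        intro x y hxy
        simpa using hxy
      calc E.ncard = ((fun x => g * x * g⁻¹) '' E).ncard := (Set.ncard_image_of_injective E hinj).symm
        _ ≤ N := Set.ncard_le_ncard himg (Set.toFinite _)
    have hmem : N ∈ {n : ℕ | ∃ E : Set G, E ⊆ D ∧ E.Finite ∧ (∀ a ∈ E, ∀ b ∈ E, Commute a b) ∧ E.ncard = n} :=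
      ⟨{d : G | d ∈ D ∧ d ∈ T}, fun x hx => hx.1, Set.toFinite _,
        fun a ha b hb => hcomm T T.isPGroup' a ha.1 ha.2 b hb.1 hb.2, rfl⟩
    exact (IsGreatest.csSup_eq ⟨hmem, hub⟩).symm

end Cfsg.Agent.S5345
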