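import Cfsg.Statements.S5346
import Cfsg.Agent.H28_TW
import Cfsg.Agent.H28_Basic

set_option autoImplicit false
open Cfsg

namespace Cfsg.Agent.S5346

open Cfsg.Agent Cfsg.Agent.H28.TW Cfsg.Agent.H28.Basic

theorem width_one_iff {G : Type*} [Group G] [Finite G] {D : Set G} (hne : D.Nonempty) :
    commutingWidth D = 1 ↔ ∀ a ∈ D, ∀ b ∈ D, Commute a b → a = b := by
  have hbdd : BddAbove {n : ℕ | ∃ E : Set G, E ⊆ D ∧ E.Finite ∧ (∀ a ∈ E, ∀ b ∈ E, Commute a b) ∧ E.ncard = n} := by
    refine ⟨Nat.card G, ?_⟩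
    rintro n ⟨E, -, -, -, rfl⟩
    rw [← Set.ncard_univ]
    exact Set.ncard_le_ncard (Set.subset_univ _) Set.finite_univ
  constructor
  · intro h a ha b hb hab
    by_contra hne'
    have h2 : 2 ≤ commutingWidth D := by
      refine le_csSup hbdd ⟨{a, b}, ?_, Set.toFinite _, ?_, Set.ncard_pair hne'⟩
      · intro x hx
        rcases hx with rfl | rfl
        · exact ha
        · exact hb
      · intro x hx y hy
        rcases hx with rfl | rfl <;> rcases hy with rfl | rfl
        · exact Commute.refl _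
        · exact hab
        · exact hab.symm
        · exact Commute.refl _
    omega
  · intro h
    apply le_antisymm
    · refine csSup_le ⟨0, ∅, Set.empty_subset _, Set.finite_empty, by simp, by simp⟩ ?_
      rintro n ⟨E, hE, hfin, hcomm, rfl⟩
      rw [Set.ncard_le_one hfin]
      exact fun a ha b hb => h a (hE ha) b (hE hb) (hcomm a ha b hb)
    · obtain ⟨a, ha⟩ := hne
      refine le_csSup hbdd ⟨{a}, ?_, Set.toFinite _, ?_, Set.ncard_singleton a⟩
      · intro x hx
        rcases hx with rfl
        exact ha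
      · intro x hx y hy
        rcases hx with rfl
        rcases hy with rfl
        exact Commute.refl _

/-- Let D be a conjugation-invariant generating set of 3-transpositions of a finite group G and d a member of D. Then D has width 1 (no two different members of D commute) if and only if G is the product of the subgroup generated by d with the largest normal 3-subgroup of G. -/
theorem result {G : Type*} [Group G] [Finite G] {D : Set G} (hD : Cfsg.IsThreeTranspositionGroup D) {d : G} (hd : d ∈ D) : Cfsg.commutingWidth D = 1 ↔ Subgroup.zpowers d ⊔ Cfsg.pCore 3 G = ⊤ := by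
  have hne : D.Nonempty := ⟨d, hd⟩
  rw [width_one_iff hne]
  have hord : ∀ a ∈ D, orderOf a = 2 := fun a ha => hD.1.1 a ha
  constructor
  · intro h
    have hconj : conjugatesOf d ⊆ D := by
      intro x hx
      obtain ⟨g, rfl⟩ := isConj_iff.1 (show IsConj d x from hx)
      exact hD.2.1 g d hd
    have hcl : ∀ a ∈ D, a ∈ conjugatesOf d := by
      intro a ha
      by_cases hda : Commute d a
      · rw [← h d hd a ha hda]; exact mem_conjugatesOf_self
      · refine isConj_iff.2 ⟨d * a, ?_⟩
        have h1 := tt_braid hD.1 hd ha hda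
        have h2 := tt_sq hD.1 hd
        have h3 := tt_sq hD.1 ha
        calc d * a * d * (d * a)⁻¹ = a * d * a * (d * a)⁻¹ := by rw [h1]
          _ = a * (d * a) * (d * a)⁻¹ := by group
          _ = a := by group
    have hprod : ∀ a ∈ conjugatesOf d, ∀ b ∈ conjugatesOf d, ∃ k : ℕ, orderOf (a * b) = 3 ^ k := by
      intro a ha b hb
      by_cases hab : Commute a b
      · refine ⟨0, ?_⟩
        rw [h a (hconj ha) b (hconj hb) hab, tt_sq hD.1 (hconj hb), orderOf_one, pow_zero]
      · exact ⟨1, by rw [tt_orderOf_mul hD.1 (hconj ha) (hconj hb) hab, pow_one]⟩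
    rw [eq_top_iff, ← hD.2.2, Subgroup.closure_le]
    intro a ha
    have h1 := mul_mem_pCore (hord d hd) hprod mem_conjugatesOf_self (hcl a ha)
    have h2 : a = d⁻¹ * (d * a) := by group
    rw [h2]
    exact Subgroup.mul_mem_sup (Subgroup.inv_mem _ (Subgroup.mem_zpowers d)) h1
  · intro h a ha b hb hab
    have hp : IsPGroup 3 (pCore 3 G) := H11.Cores.pCore_isPGroup 3
    have hform : ∀ a ∈ D, ∃ u ∈ pCore 3 G, a = d * u := by
      intro a ha
      have h1 : a ∈ Subgroup.zpowers d ⊔ pCore 3 G := by rw [h]; exact Subgroup.mem_top _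
      obtain ⟨z, hz, u, hu, hzu⟩ := Subgroup.mem_sup_of_normal_right.1 h1
      have hz' : z = 1 ∨ z = d := by
        obtain ⟨k, rfl⟩ := Subgroup.mem_zpowers_iff.1 hz
        rcases Int.even_or_odd k with ⟨m, hm⟩ | ⟨m, hm⟩
        · left
          rw [hm, ← two_mul, zpow_mul, zpow_ofNat, pow_two, tt_sq hD.1 hd, one_zpow]
        · right
          rw [hm, zpow_add, zpow_mul, zpow_ofNat, pow_two, tt_sq hD.1 hd, one_zpow, one_mul, zpow_one]
      rcases hz' with rfl | rfl
      · exfalso
        rw [one_mul] at hzu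
        obtain ⟨k, hk⟩ := IsPGroup.iff_orderOf.1 hp ⟨u, hu⟩
        rw [Subgroup.orderOf_mk, hzu, hord a ha] at hk
        have : Odd (3 ^ k) := Odd.pow (by decide)
        rw [← hk] at this
        exact absurd this (by decide)
      · exact ⟨u, hu, hzu.symm⟩
    obtain ⟨u, hu, hau⟩ := hform a ha
    obtain ⟨v, hv, hbv⟩ := hform b hb
    have h1 : a * b ∈ pCore 3 G := by
      have h2 : a * b = a⁻¹ * b := by rw [tt_inv hD.1 ha]
      rw [h2, hau, hbv]
      have : (d * u)⁻¹ * (d * v) = u⁻¹ * v := by group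
      rw [this]
      exact Subgroup.mul_mem _ (Subgroup.inv_mem _ hu) hv
    obtain ⟨k, hk⟩ := IsPGroup.iff_orderOf.1 hp ⟨_, h1⟩
    rw [Subgroup.orderOf_mk] at hk
    have h3 : (a * b) ^ 2 = 1 := (commute_iff_sq (tt_sq hD.1 ha) (tt_sq hD.1 hb)).1 hab
    have h4 := orderOf_dvd_of_pow_eq_one h3
    rw [hk] at h4
    have h5 : Nat.Coprime (3 ^ k) 2 := Nat.Coprime.pow_left _ (by norm_num)
    have h6 := Nat.Coprime.eq_one_of_dvd h5 h4
    rw [← hk, orderOf_eq_one_iff] at h6
    have h7 := eq_inv_of_mul_eq_one_left h6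
    rw [h7, tt_inv hD.1 hb]

end Cfsg.Agent.S5346
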