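import Cfsg.Statements.S5348
import Cfsg.Agent.H28_Basic

set_option autoImplicit false
open Cfsg

namespace Cfsg.Agent.S5348

open Cfsg.Agent.H28.Basic in
theorem result {G : Type*} [Group G] [Finite G] {D : Set G} (hD : Cfsg.IsThreeTranspositionGroup D) {d : G} (hd : d ∈ D) : {v : G | v ∈ D ∧ ∀ e ∈ D, Commute v e ↔ Commute d e} = {d} ∨ {w : G | w ∈ D ∧ {y : G | y ∈ D ∧ y ≠ d ∧ Commute d y} = {y : G | y ∈ D ∧ y ≠ w ∧ Commute w y}} = {d} := by
  by_contra hcon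
  push Not at hcon
  obtain ⟨h1, h2⟩ := hcon
  have hex1 : ∃ v, v ∈ D ∧ (∀ e ∈ D, Commute v e ↔ Commute d e) ∧ v ≠ d := by
    by_contra hno
    push Not at hno
    apply h1
    ext v
    simp only [Set.mem_setOf_eq, Set.mem_singleton_iff]
    constructor
    · rintro ⟨hv, hv'⟩; exact hno v hv hv'
    · rintro rfl; exact ⟨hd, fun e _ => Iff.rfl⟩
  have hex2 : ∃ w, w ∈ D ∧ {y : G | y ∈ D ∧ y ≠ d ∧ Commute d y} = {y : G | y ∈ D ∧ y ≠ w ∧ Commute w y} ∧ w ≠ d := by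
    by_contra hno
    push Not at hno
    apply h2
    ext w
    simp only [Set.mem_setOf_eq, Set.mem_singleton_iff]
    constructor
    · rintro ⟨hw, hw'⟩; exact hno w hw hw'
    · rintro rfl; exact ⟨hd, rfl⟩
  obtain ⟨v, hv, hv', hvd⟩ := hex1
  obtain ⟨w, hw, hw', hwd⟩ := hex2
  have hdv : Commute d v := (hv' v hv).mp (Commute.refl v)
  have hvw : v ∈ {y : G | y ∈ D ∧ y ≠ w ∧ Commute w y} := by
    rw [← hw']; exact ⟨hv, hvd, hdv⟩
  have hdw : Commute d w := (hv' w hw).mp hvw.2.2.symm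
  have : w ∈ {y : G | y ∈ D ∧ y ≠ d ∧ Commute d y} := ⟨hw, hwd, hdw⟩
  rw [hw'] at this
  exact this.2.1 rfl

end Cfsg.Agent.S5348
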