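import Cfsg.Statements.S5351
import Cfsg.Agent.H28_TT1
import Cfsg.Agent.S5348

set_option autoImplicit false
open Cfsg

namespace Cfsg.Agent.S5351

open Cfsg.Agent Cfsg.Agent.H28.VW Cfsg.Agent.H28.TT1 Cfsg.Agent.H28.Basic Cfsg.Agent.H11.FStar



/-- Let D be a conjugacy class of 3-transpositions generating the finite group G, with at least two members. Then for every prime p > 3 the largest normal p-subgroup of G is central, and exactly one of the following holds: the largest normal 2-subgroup of G is not central; the largest normal 3-subgroup of G is not central; the layer of G (the product of its components) is non-trivial. -/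
theorem result {G : Type*} [Group G] [Finite G] {D : Set G} (hD : Cfsg.IsThreeTranspositionClass D) (hD2 : ∃ a ∈ D, ∃ b ∈ D, a ≠ b) : (∀ p : ℕ, p.Prime → 3 < p → Cfsg.pCore p G ≤ Subgroup.center G) ∧ ((¬ Cfsg.pCore 2 G ≤ Subgroup.center G ∧ Cfsg.pCore 3 G ≤ Subgroup.center G ∧ Cfsg.layer G = ⊥) ∨ (Cfsg.pCore 2 G ≤ Subgroup.center G ∧ ¬ Cfsg.pCore 3 G ≤ Subgroup.center G ∧ Cfsg.layer G = ⊥) ∨ (Cfsg.pCore 2 G ≤ Subgroup.center G ∧ Cfsg.pCore 3 G ≤ Subgroup.center G ∧ Cfsg.layer G ≠ ⊥)) := by
  refine ⟨fun p hp hp3 => pCore_le_center hD hp hp3, ?_⟩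
  have hS := hD.1
  have hc := cls_conj hD
  have h23 : pCore 2 G ≤ Subgroup.center G ∨ pCore 3 G ≤ Subgroup.center G := by
    obtain ⟨d, hd, -⟩ := hD.2.1
    have hG : IsThreeTranspositionGroup D := ⟨hD.1, cls_conj hD, hD.2.2⟩
    rcases S5348.result hG hd with h | h
    · left
      apply le_center_of_comm hD inferInstance hd
      intro x hx
      have h3 : x * d * x⁻¹ ∈ Vcl D d := by
        rw [Vcl_eq hS hc hd]
        refine ⟨hc x d hd, ?_⟩
        have h2 : d⁻¹ * (x * d * x⁻¹) = (d⁻¹ * x * d) * x⁻¹ := by group
        rw [h2]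
        refine mul_mem ?_ (inv_mem hx)
        have := (inferInstance : (pCore 2 G).Normal).conj_mem x hx d⁻¹
        simpa using this
      have h4 : x * d * x⁻¹ = d := by
        have : x * d * x⁻¹ ∈ ({d} : Set G) := by rw [← h]; exact h3
        exact this
      show d * x = x * d
      calc d * x = (x * d * x⁻¹) * x := by rw [h4]
        _ = x * d := by group
    · right
      apply le_center_of_comm hD inferInstance hd
      intro x hx
      have h3 : x * d * x⁻¹ ∈ Wcl D d := by
        rw [Wcl_orbit hS hc hd]
        exact ⟨x, hx, rfl⟩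
      have h4 : x * d * x⁻¹ = d := by
        have : x * d * x⁻¹ ∈ ({d} : Set G) := by rw [← h]; exact h3
        exact this
      show d * x = x * d
      calc d * x = (x * d * x⁻¹) * x := by rw [h4]
        _ = x * d := by group
  by_cases h2 : pCore 2 G ≤ Subgroup.center G
  · by_cases h3 : pCore 3 G ≤ Subgroup.center G
    · right; right
      refine ⟨h2, h3, fun hbot => ?_⟩
      have h4 := (layer_eq_bot_iff_generalizedFitting (G := G)).1 hbot
      have h5 := centralizer_generalizedFitting_le (G := G)
      rw [h4] at h5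
      have h6 := fitting_le_center hD h2 h3
      have h7 : (⊤ : Subgroup G) ≤ Subgroup.center G := by
        intro x _
        apply h6
        apply h5
        rw [Subgroup.mem_centralizer_iff]
        intro y hy
        exact ((Subgroup.mem_center_iff.1 (h6 hy)) x).symm
      obtain ⟨d, hd, -⟩ := hD.2.1
      exact not_center hD hD2 hd (h7 (Subgroup.mem_top d))
    · right; left
      exact ⟨h2, h3, layer_bot_of_three hD h3⟩
  · left
    exact ⟨h2, h23.resolve_left h2, layer_bot_of_two hD h2⟩

end Cfsg.Agent.S5351
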