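import Cfsg.Statements.S5354
import Cfsg.Agent.H28_TT3

set_option autoImplicit false
open Cfsg

namespace Cfsg.Agent.S5354

open Cfsg.Agent.H28.TT1 Cfsg.Agent.H28.TT2 Cfsg.Agent.H28.TT3



/-- Let D be a conjugation-invariant generating set of 3-transpositions of the finite group G on which G acts primitively by conjugation, and suppose two different members of D commute (width at least 2). Then G has a quasisimple normal subgroup L of index at most 2 with the generalized Fitting subgroup of G equal to L times the centre, the commuting graph of D is connected, and for d in D the subgroup generated by the members of D commuting with d is a maximal D-subgroup: it is proper, and every subgroup generated by members of D that contains it is either it or G. -/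
theorem result {G : Type*} [Group G] [Finite G] {D : Set G} (hD : Cfsg.IsThreeTranspositionGroup D) (hprim : Cfsg.IsPrimitiveUnderConj D) (hw : ∃ a ∈ D, ∃ b ∈ D, a ≠ b ∧ Commute a b) : (∃ L : Subgroup G, L.Normal ∧ Cfsg.IsQuasisimple L ∧ L.index ≤ 2 ∧ Cfsg.generalizedFittingSubgroup G = L ⊔ Subgroup.center G) ∧ (Cfsg.commutingGraph D).Connected ∧ ∀ d ∈ D, Subgroup.closure {y : G | y ∈ D ∧ Commute d y} ≠ ⊤ ∧ ∀ H : Subgroup G, Cfsg.IsDSubgroup D H → Subgroup.closure {y : G | y ∈ D ∧ Commute d y} ≤ H → H = Subgroup.closure {y : G | y ∈ D ∧ Commute d y} ∨ H = ⊤ := by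
  have hcl := prim_class hD hprim
  have h2 := prim_two hD hprim
  have h3 := prim_three hD hprim hw
  have hconn := prim_connected hD hprim hw
  refine ⟨?_, hconn, fun d hd => ⟨?_, fun H hH hM => prim_maximal hD hprim hw hd H hH hM⟩⟩
  · obtain ⟨L, hLn, hL, hF⟩ := exists_comp hcl hprim.2.1 h2 h3
    exact ⟨L, hLn, hL, index_of_connected hcl hprim.2.1 hL (centralizer_le hcl h2 h3 hF) hconn, hF⟩
  · intro htop
    apply not_center hcl hprim.2.1 hd
    rw [Subgroup.mem_center_iff]
    intro g
    have hg : g ∈ Subgroup.closure {y : G | y ∈ D ∧ Commute d y} := by rw [htop]; trivial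
    have hle : Subgroup.closure {y : G | y ∈ D ∧ Commute d y} ≤ Subgroup.centralizer ({d} : Set G) := by
      rw [Subgroup.closure_le]
      rintro y ⟨-, hy⟩
      rw [SetLike.mem_coe, Subgroup.mem_centralizer_singleton_iff]
      exact hy.eq.symm
    have := hle hg
    rw [Subgroup.mem_centralizer_singleton_iff] at this
    exact this

end Cfsg.Agent.S5354
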