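import Cfsg.Statements.S5355
import Cfsg.Agent.H28_TT1

set_option autoImplicit false
open Cfsg

namespace Cfsg.Agent.S5355

open Cfsg.Agent Cfsg.Agent.H28.Basic Cfsg.Agent.H28.VW Cfsg.Agent.H28.TT1



/-- Let D be a conjugacy class of 3-transpositions generating the finite group G, with at least two members, and d a member of D. Suppose that every member of D commuting with d commutes with exactly the same members of D as d does, and that exactly one member of D other than d commutes with d. Then G is isomorphic to the symmetric group of degree 4. -/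
theorem result {G : Type*} [Group G] [Finite G] {D : Set G} (hD : Cfsg.IsThreeTranspositionClass D) (hD2 : ∃ a ∈ D, ∃ b ∈ D, a ≠ b) {d : G} (hd : d ∈ D) (hV : {y : G | y ∈ D ∧ Commute d y} = {v : G | v ∈ D ∧ ∀ e ∈ D, Commute v e ↔ Commute d e}) (hm : {y : G | y ∈ D ∧ Commute d y}.ncard = 2) : Nonempty (G ≃* Equiv.Perm (Fin 4)) := by
  have hS := hD.1
  have hc := cls_conj hD
  -- partners
  have hpart : ∀ x ∈ D, ∃ x' ∈ D, x' ≠ x ∧ Commute x x' ∧ (∀ y ∈ D, Commute x y → y = x ∨ y = x') ∧ ∀ e ∈ D, Commute x' e ↔ Commute x e := by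
    intro x hx
    obtain ⟨g, rfl⟩ := cls_isConj hD hd hx
    obtain ⟨p, q, hpq, hset⟩ := Set.ncard_eq_two.1 hm
    have hdS : d ∈ {y : G | y ∈ D ∧ Commute d y} := ⟨hd, Commute.refl d⟩
    have hex : ∃ d' ∈ D, d' ≠ d ∧ Commute d d' ∧ (∀ y ∈ D, Commute d y → y = d ∨ y = d') := by
      rw [hset] at hdS
      rcases hdS with h | h
      · have hq : q ∈ {y : G | y ∈ D ∧ Commute d y} := by rw [hset]; exact Or.inr rfl
        refine ⟨q, hq.1, fun h' => hpq (h ▸ h').symm, hq.2, fun y hy hdy => ?_⟩
        have : y ∈ {y : G | y ∈ D ∧ Commute d y} := ⟨hy, hdy⟩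
        rw [hset] at this
        rcases this with h2 | h2
        · left; rw [h2, h]
        · right; exact h2
      · have h : d = q := h
        have hp : p ∈ {y : G | y ∈ D ∧ Commute d y} := by rw [hset]; exact Or.inl rfl
        refine ⟨p, hp.1, fun h' => hpq (h'.trans h), hp.2, fun y hy hdy => ?_⟩
        have : y ∈ {y : G | y ∈ D ∧ Commute d y} := ⟨hy, hdy⟩
        rw [hset] at this
        rcases this with h2 | h2
        · right; exact h2
        · left; rw [show y = q from h2, h]
    obtain ⟨d', hd', hne, hcom, hall⟩ := hex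
    have hV' : ∀ e ∈ D, Commute d' e ↔ Commute d e := by
      have : d' ∈ {y : G | y ∈ D ∧ Commute d y} := ⟨hd', hcom⟩
      rw [hV] at this
      exact this.2
    refine ⟨g * d' * g⁻¹, hc g d' hd', ?_, (commute_conj_iff _ _ _).2 hcom, ?_, ?_⟩
    · intro h; exact hne (mul_left_cancel (mul_right_cancel h))
    · intro y hy hcy
      have h1 : g⁻¹ * y * g⁻¹⁻¹ ∈ D := hc g⁻¹ y hy
      have h2 : Commute d (g⁻¹ * y * g⁻¹⁻¹) := by
        rw [← commute_conj_iff g]
        have : g * (g⁻¹ * y * g⁻¹⁻¹) * g⁻¹ = y := by group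
        rw [this]; exact hcy
      rcases hall _ h1 h2 with h | h
      · left; rw [← h]; group
      · right; rw [← h]; group
    · intro e he
      have h1 : g⁻¹ * e * g⁻¹⁻¹ ∈ D := hc g⁻¹ e he
      have h2 := hV' _ h1
      have : e = g * (g⁻¹ * e * g⁻¹⁻¹) * g⁻¹ := by group
      rw [this, commute_conj_iff, commute_conj_iff]
      exact h2
  -- the S₄ on two pairs
  have hs4 : ∀ x y x' y' : G, x ∈ D → y ∈ D → x' ∈ D → y' ∈ D → ¬ Commute x y → x' ≠ x → Commute x x' → (∀ e ∈ D, Commute x' e ↔ Commute x e) →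
      y' ≠ y → (∀ z ∈ D, Commute y z → z = y ∨ z = y') →
      ∃ φ : Equiv.Perm (Fin 4) →* G, Function.Injective φ ∧ φ (Equiv.swap 0 1) = x ∧ φ (Equiv.swap 1 2) = y ∧ φ (Equiv.swap 2 3) = x' ∧ φ (Equiv.swap 0 3) = y' := by
    intro x y x' y' hx hy hx' hy' hxy hne hcom hV' hney hall
    have hx'y : ¬ Commute x' y := fun h => hxy ((hV' y hy).1 h)
    obtain ⟨φ, hφ, h01, h12, h23⟩ := S5344.result hS hx hy hx' (Ne.symm hne) hcom hxy (fun h => hx'y h.symm)
    refine ⟨φ, hφ, h01, h12, h23, ?_⟩
    have e03 : φ (Equiv.swap 0 3) = (x' * y) * x * (x' * y)⁻¹ := by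
      rw [← h01, ← h12, ← h23, ← map_mul, ← map_inv, ← map_mul, ← map_mul]
      congr 1
      decide
    have hD3 : φ (Equiv.swap 0 3) ∈ D := by rw [e03]; exact hc _ x hx
    have hc3 : Commute y (φ (Equiv.swap 0 3)) := by
      rw [← h12, Commute, SemiconjBy, ← map_mul, ← map_mul]
      congr 1
      decide
    rcases hall _ hD3 hc3 with h | h
    · exfalso
      rw [← h12] at h
      have := hφ h
      revert this
      decide
    · exact h
  obtain ⟨d', hd', hdd', hcdd', halld, hVd⟩ := hpart d hd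
  obtain ⟨e, he, hde⟩ := exists_ncomm hD hD2 hd
  obtain ⟨e', he', hee', hcee', halle, hVe⟩ := hpart e he
  obtain ⟨φ, hφ, h01, h12, h23, h03⟩ := hs4 d e d' e' hd he hd' he' hde hdd' hcdd' hVd hee' halle
  set f := φ (Equiv.swap 0 2) with hf
  set f' := φ (Equiv.swap 1 3) with hf'
  have hfD : f ∈ D := by
    have : f = e * d * e⁻¹ := by
      rw [hf, ← h01, ← h12, ← map_mul, ← map_inv, ← map_mul]
      congr 1
      decide
    rw [this]; exact hc e d hd
  have hf'D : f' ∈ D := by
    have : f' = e * d' * e⁻¹ := by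
      rw [hf', ← h23, ← h12, ← map_mul, ← map_inv, ← map_mul]
      congr 1
      decide
    rw [this]; exact hc e d' hd'
  have hff' : f' ≠ f := by
    intro h
    have := hφ h
    revert this
    decide
  have hcff' : Commute f f' := by
    rw [hf, hf', Commute, SemiconjBy, ← map_mul, ← map_mul]
    congr 1
    decide
  have hallf : ∀ y ∈ D, Commute f y → y = f ∨ y = f' := by
    obtain ⟨f'', hf''D, hne, hcom, hall, _⟩ := hpart f hfD
    rcases hall f' hf'D hcff' with h | h
    · exact absurd h hff'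
    · rw [h]; exact hall
  have key : ∀ g ∈ D, g ∈ Set.range φ := by
    intro g hg
    by_contra hgr
    have hn : ∀ x, x ∈ Set.range φ → g ≠ x := fun x hx h => hgr (h ▸ hx)
    have hgd : ¬ Commute d g := by
      intro h
      rcases halld g hg h with h | h
      · exact hn d ⟨_, h01⟩ h
      · exact hn d' ⟨_, h23⟩ h
    have hge : ¬ Commute e g := by
      intro h
      rcases halle g hg h with h | h
      · exact hn e ⟨_, h12⟩ h
      · exact hn e' ⟨_, h03⟩ h
    have hgf : ¬ Commute f g := by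
      intro h
      rcases hallf g hg h with h | h
      · exact hn f ⟨_, rfl⟩ h
      · exact hn f' ⟨_, rfl⟩ h
    obtain ⟨g', hg', hgg', hcgg', hallg, hVg⟩ := hpart g hg
    -- the relation (R)
    have hR : ∀ x y x' y' : G, x ∈ D → y ∈ D → x' ∈ D → y' ∈ D → ¬ Commute x y → x' ≠ x → Commute x x' → (∀ e ∈ D, Commute x' e ↔ Commute x e) →
        y' ≠ y → (∀ z ∈ D, Commute y z → z = y ∨ z = y') → x * (y * y') * x⁻¹ = (y * y') * (x * x') := by
      intro x y x' y' hx hy hx' hy' hxy hne hcom hV' hney hall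
      obtain ⟨ψ, hψ, g01, g12, g23, g03⟩ := hs4 x y x' y' hx hy hx' hy' hxy hne hcom hV' hney hall
      rw [← g01, ← g12, ← g23, ← g03, ← map_mul, ← map_mul, ← map_mul, ← map_inv, ← map_mul, ← map_mul]
      congr 1
      decide
    have tdte : (d * d') * (e * e') = f * f' := by
      rw [← h01, ← h23, ← h12, ← h03, hf, hf', ← map_mul, ← map_mul, ← map_mul, ← map_mul]
      congr 1
      decide
    have tdte' : (d * d') * (e * e') = (e * e') * (d * d') := by
      rw [← h01, ← h23, ← h12, ← h03, ← map_mul, ← map_mul, ← map_mul, ← map_mul]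
      congr 1
      decide
    have td1 : d * d' ≠ 1 := fun h => hdd' (by have := eq_inv_of_mul_eq_one_right h; rw [this, tt_inv hS hd])
    have tg1 : g * g' ≠ 1 := fun h => hgg' (by have := eq_inv_of_mul_eq_one_right h; rw [this, tt_inv hS hg])
    have sq : ∀ x x' : G, x ∈ D → x' ∈ D → Commute x x' → (x * x') * (x * x') = 1 := by
      intro x x' hx hx' h
      have := (commute_iff_sq (tt_sq hS hx) (tt_sq hS hx')).1 h
      rwa [pow_two] at this
    -- h = e g e⁻¹
    have hhD : e * g * e⁻¹ ∈ D := hc e g hg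
    have hh'D : e * g' * e⁻¹ ∈ D := hc e g' hg'
    have hTh : (e * g * e⁻¹) * (e * g' * e⁻¹) = (g * g') * (e * e') := by
      have := hR e g e' g' he hg he' hg' hge hee' hcee' hVe hgg' hallg
      rw [← this]; group
    have hne' : e * g' * e⁻¹ ≠ e * g * e⁻¹ := fun h => hgg' (mul_left_cancel (mul_right_cancel h))
    have hcom' : Commute (e * g * e⁻¹) (e * g' * e⁻¹) := (commute_conj_iff _ _ _).2 hcgg'
    have hallh : ∀ z ∈ D, Commute (e * g * e⁻¹) z → z = e * g * e⁻¹ ∨ z = e * g' * e⁻¹ := by
      obtain ⟨h'', hh''D, hne, hcom, hall, _⟩ := hpart _ hhD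
      rcases hall _ hh'D hcom' with h | h
      · exact absurd h hne'
      · rw [h]; exact hall
    have hdh : ¬ Commute d (e * g * e⁻¹) := by
      intro hcm
      -- T h = T d
      have hT : (e * g * e⁻¹) * (e * g' * e⁻¹) = d * d' := by
        rcases halld _ hhD hcm with h | h
        · rcases hallh d' hd' (by rw [h]; exact hcdd') with h2 | h2
          · exact absurd (h2.trans h) hdd'
          · rw [h, ← h2]
        · rcases hallh d hd (by rw [h]; exact hcdd'.symm) with h2 | h2
          · exact absurd (h.symm.trans h2.symm) hdd'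
          · rw [h, ← h2, hcdd'.eq]
      rw [hTh] at hT
      -- T g = T f
      have hTg : g * g' = f * f' := by
        rw [← tdte, ← hT, mul_assoc, sq e e' he he' hcee', mul_one]
      have hr := hR g f g' f' hg hfD hg' hf'D (fun h => hgf h.symm) hgg' hcgg' hVg hff' hallf
      rw [← hTg, sq g g' hg hg' hcgg'] at hr
      apply tg1
      calc g * g' = g⁻¹ * (g * (g * g') * g⁻¹) * g := by group
        _ = 1 := by rw [hr]; group
    have h1 := hR d (e * g * e⁻¹) d' (e * g' * e⁻¹) hd hhD hd' hh'D hdh hdd' hcdd' hVd hne' hallh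
    have h2 := hR d g d' g' hd hg hd' hg' hgd hdd' hcdd' hVd hgg' hallg
    have h3 := hR d e d' e' hd he hd' he' hde hdd' hcdd' hVd hee' halle
    rw [hTh] at h1
    have h4 : d * (g * g' * (e * e')) * d⁻¹ = (d * (g * g') * d⁻¹) * (d * (e * e') * d⁻¹) := by group
    rw [h4, h2, h3, ← tdte'] at h1
    have h5 : g * g' * (d * d') * (d * d' * (e * e')) = g * g' * (e * e') := by
      calc g * g' * (d * d') * (d * d' * (e * e')) = g * g' * ((d * d') * (d * d')) * (e * e') := by group
        _ = g * g' * (e * e') := by rw [sq d d' hd hd' hcdd', mul_one]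
    rw [h5] at h1
    apply td1
    have h6 : g * g' * (e * e') * 1 = g * g' * (e * e') * (d * d') := by rw [mul_one]; exact h1
    exact (mul_left_cancel h6).symm
  have hsurj : Function.Surjective φ := by
    rw [← MonoidHom.range_eq_top, eq_top_iff, ← hD.2.2, Subgroup.closure_le]
    exact key
  exact ⟨(MulEquiv.ofBijective φ ⟨hφ, hsurj⟩).symm⟩

end Cfsg.Agent.S5355
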