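import Cfsg.Statements.S5356
import Cfsg.Agent.H28_TT4

set_option autoImplicit false
open Cfsg

namespace Cfsg.Agent.S5356

open Cfsg.Agent Cfsg.Agent.H28.Basic Cfsg.Agent.H28.VW Cfsg.Agent.H28.TT1 Cfsg.Agent.H28.TT4



/-- Let D be a conjugacy class of 3-transpositions generating the finite group G, with at least two members, and d a member of D such that every member of D commuting with d commutes with exactly the same members of D as d. Then there is a Sylow 3-subgroup P of G normalized by d such that G is generated by d, P and the largest normal 2-subgroup of G. -/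
theorem result {G : Type*} [Group G] [Finite G] {D : Set G} (hD : Cfsg.IsThreeTranspositionClass D) (hD2 : ∃ a ∈ D, ∃ b ∈ D, a ≠ b) {d : G} (hd : d ∈ D) (hV : {y : G | y ∈ D ∧ Commute d y} = {v : G | v ∈ D ∧ ∀ e ∈ D, Commute v e ↔ Commute d e}) : ∃ P : Sylow 3 G, d ∈ Subgroup.normalizer (P : Set G) ∧ Subgroup.zpowers d ⊔ (P : Subgroup G) ⊔ Cfsg.pCore 2 G = ⊤ := by
  have hc := cls_conj hD
  have hV2 : ∀ a ∈ D, ∀ b ∈ D, Commute a b → a⁻¹ * b ∈ pCore 2 G := by
    intro a ha b hb hab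
    obtain ⟨g, rfl⟩ := cls_isConj hD hd ha
    have h1 : g⁻¹ * b * g⁻¹⁻¹ ∈ D := hc g⁻¹ b hb
    have h2 : Commute d (g⁻¹ * b * g⁻¹⁻¹) := by
      rw [← commute_conj_iff g]
      have : g * (g⁻¹ * b * g⁻¹⁻¹) * g⁻¹ = b := by group
      rw [this]; exact hab
    have h3 : g⁻¹ * b * g⁻¹⁻¹ ∈ {y : G | y ∈ D ∧ Commute d y} := ⟨h1, h2⟩
    rw [hV, (S5349.result hD hD2 hd).1] at h3
    have h4 := (inferInstance : (pCore 2 G).Normal).conj_mem _ h3.2 g
    have h5 : g * (d⁻¹ * (g⁻¹ * b * g⁻¹⁻¹)) * g⁻¹ = (g * d * g⁻¹)⁻¹ * b := by group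
    rwa [h5] at h4
  obtain ⟨P, hP, hPt, -, -⟩ := main hD hD2 hd hV2
  exact ⟨P, hP, hPt⟩

end Cfsg.Agent.S5356
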