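import Cfsg.Statements.S5358
import Cfsg.Agent.H28_RF2

set_option autoImplicit false
open scoped MatrixGroups
open Cfsg

namespace Cfsg.Agent.S5358

open Cfsg Cfsg.Agent Cfsg.Agent.H28 Cfsg.Agent.H16.Quad



/-- Let Q be a non-degenerate quadratic form on the n-dimensional coordinate space over the field with three elements and u, v vectors of the same non-zero norm Q(u) = Q(v) spanning different lines (v ≠ u and v ≠ −u). Then the reflection matrices of u and v commute if and only if u and v are orthogonal for the polar form of Q. -/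
theorem result (n : ℕ) (Q : QuadraticForm (ZMod 3) (Fin n → ZMod 3)) (hQ : (QuadraticMap.polarBilin Q).Nondegenerate) (u v : Fin n → ZMod 3) (hu : Q u ≠ 0) (huv : Q u = Q v) (h1 : v ≠ u) (h2 : v ≠ -u) : Commute (Cfsg.reflectionMatrix (⇑Q) u) (Cfsg.reflectionMatrix (⇑Q) v) ↔ QuadraticMap.polar (⇑Q) u v = 0 := by
  have hv : Q v ≠ 0 := by rw [← huv]; exact hu
  have key : Commute (Cfsg.reflectionMatrix (⇑Q) u) (Cfsg.reflectionMatrix (⇑Q) v) ↔ rf Q u * rf Q v = rf Q v * rf Q u := by
    constructor
    · intro h
      apply Subtype.ext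
      apply LinearEquiv.ext
      intro x
      have h1 : (Cfsg.reflectionMatrix (⇑Q) u * Cfsg.reflectionMatrix (⇑Q) v).mulVec x =
        (Cfsg.reflectionMatrix (⇑Q) v * Cfsg.reflectionMatrix (⇑Q) u).mulVec x := by rw [h.eq]
      rw [← Matrix.mulVec_mulVec, ← Matrix.mulVec_mulVec, reflectionMatrix_mulVec, reflectionMatrix_mulVec,
        reflectionMatrix_mulVec, reflectionMatrix_mulVec] at h1
      exact h1
    · intro h
      apply mat_ext
      intro x
      rw [← Matrix.mulVec_mulVec, ← Matrix.mulVec_mulVec, reflectionMatrix_mulVec, reflectionMatrix_mulVec,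
        reflectionMatrix_mulVec, reflectionMatrix_mulVec]
      exact congrArg (fun g : OG Q => g.1 x) h
  rw [key]
  exact ⟨RF.rf_comm_iff hu hv h1 h2, RF.rf_comm_of⟩

end Cfsg.Agent.S5358
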