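import Cfsg.Statements.S5359
import Cfsg.Agent.H28_RF

set_option autoImplicit false
open scoped MatrixGroups
open Cfsg

namespace Cfsg.Agent.S5359

open Cfsg Cfsg.Agent Cfsg.Agent.H28



/-- Let Q be a non-degenerate quadratic form on the n-dimensional coordinate space over the field with three elements, n odd and at least 5, and c a non-zero scalar. Then the subgroup of the isometry group of Q generated by the reflections in vectors of norm c has index 2 in the isometry group. -/
theorem result (n : ℕ) (hn : 5 ≤ n) (hodd : Odd n) (Q : QuadraticForm (ZMod 3) (Fin n → ZMod 3)) (hQ : (QuadraticMap.polarBilin Q).Nondegenerate) (c : ZMod 3) (hc : c ≠ 0) : (Cfsg.reflectionSubgroup (⇑Q) c).index = 2 := by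
  have h2 : (2 : ZMod 3) ≠ 0 := by decide
  have h := RF.cl_index h2 hn Q hQ c hc
  have hset : {g : ↥(Cfsg.isometryGroup (ZMod 3) ⇑Q) | ∃ (v : Fin n → ZMod 3) (t : ZMod 3), t ≠ 0 ∧ Q v = c * t ^ 2 ∧ ((g : Matrix.GeneralLinearGroup (Fin n) (ZMod 3)) : Matrix (Fin n) (Fin n) (ZMod 3)) = Cfsg.reflectionMatrix ⇑Q v} = Cfsg.reflectionsOfNorm (⇑Q) c := by
    have hsq : ∀ t : ZMod 3, t ≠ 0 → t ^ 2 = 1 := by decide
    ext g
    constructor
    · rintro ⟨v, t, ht, hv, hg⟩
      rw [hsq t ht, mul_one] at hv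
      exact ⟨v, hv, hg⟩
    · rintro ⟨v, hv, hg⟩
      exact ⟨v, 1, one_ne_zero, by rw [one_pow, mul_one]; exact hv, hg⟩
  rw [hset] at h
  exact h

end Cfsg.Agent.S5359
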