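import Cfsg.Statements.S5360
import Cfsg.Agent.H28_RF3
import Cfsg.Agent.H28_TT2

set_option autoImplicit false
open scoped MatrixGroups
open Cfsg

namespace Cfsg.Agent.S5360

open Cfsg Cfsg.Agent Cfsg.Agent.H28 Cfsg.Agent.H16.Quad



/-- Let Q be a non-degenerate quadratic form on the n-dimensional coordinate space over the field with three elements, n ≥ 5, c a non-zero scalar, and R the subgroup of the isometry group generated by the reflections of norm c. Then the commutator subgroup of R is quasisimple of index at most 2, the generalized Fitting subgroup of R is the product of the centre and the commutator subgroup, and R acts primitively by conjugation on its reflections of norm c. -/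
theorem result (n : ℕ) (hn : 5 ≤ n) (Q : QuadraticForm (ZMod 3) (Fin n → ZMod 3)) (hQ : (QuadraticMap.polarBilin Q).Nondegenerate) (c : ZMod 3) (hc : c ≠ 0) : Cfsg.IsQuasisimple (commutator ↥(Cfsg.reflectionSubgroup (⇑Q) c)) ∧ (commutator ↥(Cfsg.reflectionSubgroup (⇑Q) c)).index ≤ 2 ∧ Cfsg.generalizedFittingSubgroup ↥(Cfsg.reflectionSubgroup (⇑Q) c) = Subgroup.center ↥(Cfsg.reflectionSubgroup (⇑Q) c) ⊔ commutator ↥(Cfsg.reflectionSubgroup (⇑Q) c) ∧ Cfsg.IsPrimitiveUnderConj {g : ↥(Cfsg.reflectionSubgroup (⇑Q) c) | (g : ↥(Cfsg.isometryGroup (ZMod 3) (⇑Q))) ∈ Cfsg.reflectionsOfNorm (⇑Q) c} := by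
  have hD := RF.DD_class (c := c) hQ (by omega : 4 ≤ n) hc
  have hD2 := RF.DD_two (c := c) hQ hn hc
  have h2 := RF.DD_two_core (c := c) hQ hn hc
  have h3 := RF.DD_three_core (c := c) hQ hn hc
  have hconn := RF.DD_connected (c := c) hQ hn hc
  obtain ⟨L, hLn, hL, hF⟩ := TT2.exists_comp hD hD2 h2 h3
  have hC := TT2.centralizer_le hD h2 h3 hF
  have hidx := TT2.index_of_connected hD hD2 hL hC hconn
  have hLc : L = commutator ↥(Cfsg.reflectionSubgroup (⇑Q) c) := by
    apply le_antisymm
    · haveI : Group.IsPerfect L := hL.1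
      have h4 : ⁅L, L⁆ = L := Subgroup.isPerfect_iff.1 hL.1
      rw [← h4, commutator_def]
      exact Subgroup.commutator_mono le_top le_top
    · rw [← Subgroup.Normal.quotient_commutative_iff_commutator_le]
      have hcard : Nat.card (↥(Cfsg.reflectionSubgroup (⇑Q) c) ⧸ L) ≤ 2 := hidx
      have hpos : 0 < Nat.card (↥(Cfsg.reflectionSubgroup (⇑Q) c) ⧸ L) := Nat.card_pos
      interval_cases hk : Nat.card (↥(Cfsg.reflectionSubgroup (⇑Q) c) ⧸ L)
      · haveI := (Nat.card_eq_one_iff_unique.1 hk).1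
        exact ⟨⟨fun a b => Subsingleton.elim _ _⟩⟩
      · haveI : Fact (Nat.Prime 2) := ⟨Nat.prime_two⟩
        haveI : IsCyclic (↥(Cfsg.reflectionSubgroup (⇑Q) c) ⧸ L) := isCyclic_of_prime_card hk
        exact IsCyclic.commutative
  subst hLc
  refine ⟨hL, hidx, ?_, ?_⟩
  · rw [hF, sup_comm]
  · exact TT2.primitive_of_index hD hD2 h2 h3 hL hF hidx

end Cfsg.Agent.S5360
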