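import Cfsg.Statements.S5361
import Cfsg.Agent.H28_TT3

set_option autoImplicit false
open Cfsg

namespace Cfsg.Agent.S5361

open Cfsg.Agent Cfsg.Agent.H28.Basic Cfsg.Agent.H28.TT1 Cfsg.Agent.H28.TT2 Cfsg.Agent.H28.TT3 Cfsg.Agent.H11.Components
open scoped commutatorElement

theorem center_not_solvable {G : Type*} [Group G] [Finite G] {D : Set G} (hD : Cfsg.IsThreeTranspositionClass D)
    (hZ : Subgroup.center G = ⊥) (hw : ∃ a ∈ D, ∃ b ∈ D, a ≠ b ∧ Commute a b) (hs : IsSimpleGroup (commutator G)) :
    ¬ Group.IsSolvable (commutator G) := by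
  have hS := hD.1
  intro hsol
  have hcomm := IsSimpleGroup.comm_iff_isSolvable.2 hsol
  obtain ⟨a, ha, b, hb, hab, hcab⟩ := hw
  have hz : a * b ∈ commutator G := by
    obtain ⟨g, rfl⟩ := cls_isConj hD ha hb
    have h1 : ⁅a, g⁆ ∈ commutator G := Subgroup.commutator_mem_commutator (Subgroup.mem_top _) (Subgroup.mem_top _)
    rw [commutatorElement_def, tt_inv hS ha] at h1
    have : a * (g * a * g⁻¹) = a * g * a * g⁻¹ := by group
    rw [this]; exact h1
  have hz1 : a * b ≠ 1 := by
    intro h
    apply hab
    have := eq_inv_of_mul_eq_one_left h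
    rw [this, tt_inv hS hb]
  let z : commutator G := ⟨a * b, hz⟩
  have hz2 : z * z = 1 := by
    apply Subtype.ext
    have := (commute_iff_sq (tt_sq hS ha) (tt_sq hS hb)).1 hcab
    rw [pow_two] at this
    exact this
  have hn : (Subgroup.zpowers z).Normal := ⟨fun n hn g => by rw [hcomm g n, mul_inv_cancel_right]; exact hn⟩
  have htop : Subgroup.zpowers z = ⊤ := by
    rcases hs.eq_bot_or_eq_top_of_normal _ hn with h | h
    · exfalso
      rw [Subgroup.zpowers_eq_bot] at h
      exact hz1 (congrArg Subtype.val h)
    · exact h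
  have hall : ∀ x : commutator G, x = 1 ∨ x = z := by
    intro x
    have hx : x ∈ Subgroup.zpowers z := by rw [htop]; trivial
    obtain ⟨k, rfl⟩ := Subgroup.mem_zpowers_iff.1 hx
    rcases Int.even_or_odd k with ⟨m, hm⟩ | ⟨m, hm⟩
    · left
      rw [hm, ← two_mul, zpow_mul, zpow_ofNat, pow_two, hz2, one_zpow]
    · right
      rw [hm, zpow_add, zpow_mul, zpow_ofNat, pow_two, hz2, one_zpow, one_mul, zpow_one]
  have hzc : a * b ∈ Subgroup.center G := by
    rw [Subgroup.mem_center_iff]
    intro g
    have h1 : g * (a * b) * g⁻¹ ∈ commutator G := (inferInstance : (commutator G).Normal).conj_mem _ hz g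
    rcases hall ⟨_, h1⟩ with h | h
    · exfalso
      have h2 : g * (a * b) * g⁻¹ = 1 := congrArg Subtype.val h
      apply hz1
      calc a * b = g⁻¹ * (g * (a * b) * g⁻¹) * g := by group
        _ = 1 := by rw [h2]; group
    · have h2 : g * (a * b) * g⁻¹ = a * b := congrArg Subtype.val h
      calc g * (a * b) = (g * (a * b) * g⁻¹) * g := by group
        _ = a * b * g := by rw [h2]
  rw [hZ, Subgroup.mem_bot] at hzc
  exact hz1 hzc

theorem comm_index {G : Type*} [Group G] [Finite G] {D : Set G} (hD : Cfsg.IsThreeTranspositionClass D) :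
    (commutator G).index ≤ 2 := by
  have hS := hD.1
  obtain ⟨d, hd, -⟩ := hD.2.1
  have htop : Subgroup.zpowers d ⊔ commutator G = ⊤ := by
    rw [eq_top_iff, ← hD.2.2, Subgroup.closure_le]
    intro x hx
    obtain ⟨g, rfl⟩ := cls_isConj hD hd hx
    have : g * d * g⁻¹ = d * (d⁻¹ * g * d * g⁻¹) := by group
    rw [SetLike.mem_coe, this]
    refine Subgroup.mul_mem_sup (Subgroup.mem_zpowers d) ?_
    have h1 : ⁅d⁻¹, g⁆ ∈ commutator G := Subgroup.commutator_mem_commutator (Subgroup.mem_top _) (Subgroup.mem_top _)
    rw [commutatorElement_def, inv_inv] at h1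
    exact h1
  have h2 : (commutator G).relIndex (Subgroup.zpowers d ⊔ commutator G) = (commutator G).relIndex (Subgroup.zpowers d) := Subgroup.relIndex_sup_right _ _
  rw [htop, Subgroup.relIndex_top_right] at h2
  rw [h2]
  have h3 : (commutator G).relIndex (Subgroup.zpowers d) ∣ Nat.card (Subgroup.zpowers d) := Subgroup.relIndex_dvd_card _ _
  rw [Nat.card_zpowers, hS.1 d hd] at h3
  exact Nat.le_of_dvd (by norm_num) h3

theorem core_central {G : Type*} [Group G] [Finite G] (p : ℕ) [Fact p.Prime] (hs : IsSimpleGroup (commutator G))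
    (hns : ¬ Group.IsSolvable (commutator G)) : pCore p G ≤ Subgroup.center G := by
  have hn : ((pCore p G).subgroupOf (commutator G)).Normal := inferInstance
  have hinf : pCore p G ⊓ commutator G = ⊥ := by
    rcases hs.eq_bot_or_eq_top_of_normal _ hn with h | h
    · rw [Subgroup.subgroupOf_eq_bot] at h
      exact h.eq_bot
    · exfalso
      have h1 : commutator G ≤ pCore p G := Subgroup.subgroupOf_eq_top.1 h
      have h2 : IsPGroup p (commutator G) := (H11.Cores.pCore_isPGroup (G := G) p).to_le h1
      haveI := h2.isNilpotent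
      exact hns inferInstance
  intro x hx
  rw [Subgroup.mem_center_iff]
  intro g
  have h1 : ⁅g, x⁆ ∈ pCore p G ⊓ commutator G := by
    refine ⟨?_, Subgroup.commutator_mem_commutator (Subgroup.mem_top _) (Subgroup.mem_top _)⟩
    rw [commutatorElement_def]
    exact Subgroup.mul_mem _ ((inferInstance : (pCore p G).Normal).conj_mem x hx g) (Subgroup.inv_mem _ hx)
  rw [hinf, Subgroup.mem_bot, commutatorElement_eq_one_iff_mul_comm] at h1
  exact h1

/-- Let D be a conjugacy class of 3-transpositions generating the finite group G, and suppose the centre of G is trivial and some two different members of D commute. Then the following are equivalent: (1) the commutator subgroup of G is simple (possibly of prime order); (2) G acts primitively on D by conjugation; (3) the largest normal 2-subgroup and the largest normal 3-subgroup of G are trivial and the commuting graph of D is connected. -/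
theorem result {G : Type*} [Group G] [Finite G] {D : Set G} (hD : Cfsg.IsThreeTranspositionClass D) (hZ : Subgroup.center G = ⊥) (hw : ∃ a ∈ D, ∃ b ∈ D, a ≠ b ∧ Commute a b) : (IsSimpleGroup (commutator G) ↔ Cfsg.IsPrimitiveUnderConj D) ∧ (Cfsg.IsPrimitiveUnderConj D ↔ (Cfsg.pCore 2 G = ⊥ ∧ Cfsg.pCore 3 G = ⊥ ∧ (Cfsg.commutingGraph D).Connected)) := by
  have hD2 : ∃ a ∈ D, ∃ b ∈ D, a ≠ b := by
    obtain ⟨a, ha, b, hb, hab, _⟩ := hw
    exact ⟨a, ha, b, hb, hab⟩
  have hDG : Cfsg.IsThreeTranspositionGroup D := ⟨hD.1, cls_conj hD, hD.2.2⟩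
  haveI : Fact (Nat.Prime 2) := ⟨Nat.prime_two⟩
  haveI : Fact (Nat.Prime 3) := ⟨Nat.prime_three⟩
  refine ⟨⟨fun hs => ?_, fun hprim => ?_⟩, ⟨fun hprim => ?_, fun h => ?_⟩⟩
  · have hns := center_not_solvable hD hZ hw hs
    have h2 := core_central 2 hs hns
    have h3 := core_central 3 hs hns
    obtain ⟨L, hLn, hL, hF⟩ := exists_comp hD hD2 h2 h3
    have hLc : IsComponent L := ⟨Subgroup.Normal.isSubnormal inferInstance, hL⟩
    have hLL := IsComponent.perfect hLc
    have hle : L ≤ commutator G := by
      rw [← hLL]; exact Subgroup.commutator_mono le_top le_top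
    have heq : L = commutator G := by
      apply le_antisymm hle
      have hn : (L.subgroupOf (commutator G)).Normal := inferInstance
      rcases hs.eq_bot_or_eq_top_of_normal _ hn with h | h
      · exfalso
        rw [Subgroup.subgroupOf_eq_bot] at h
        have : L = ⊥ := by
          have := h.eq_bot
          rwa [inf_eq_left.2 hle] at this
        exact IsComponent.ne_bot hLc this
      · exact Subgroup.subgroupOf_eq_top.1 h
    exact primitive_of_index hD hD2 h2 h3 hL hF (by rw [heq]; exact comm_index hD)
  · have h2 := prim_two hDG hprim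
    have h3 := prim_three hDG hprim hw
    obtain ⟨L, hLn, hL, hF⟩ := exists_comp hD hD2 h2 h3
    have hC := centralizer_le hD h2 h3 hF
    have hidx := index_of_connected hD hD2 hL hC (prim_connected hDG hprim hw)
    have hLc : IsComponent L := ⟨Subgroup.Normal.isSubnormal inferInstance, hL⟩
    have hLL := IsComponent.perfect hLc
    have heq : commutator G = L := by
      apply le_antisymm
      · have hcardle : Nat.card (G ⧸ L) ≤ 2 := hidx
        have hcomm : ∀ x y : G ⧸ L, x * y = y * x := by
          have hpos : 0 < Nat.card (G ⧸ L) := Nat.card_pos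
          have h12 : Nat.card (G ⧸ L) = 1 ∨ Nat.card (G ⧸ L) = 2 := by omega
          rcases h12 with h | h
          · haveI := (Nat.card_eq_one_iff_unique.1 h).1
            intro x y; exact Subsingleton.elim _ _
          · haveI : IsCyclic (G ⧸ L) := isCyclic_of_prime_card h
            letI := IsCyclic.commGroup (α := G ⧸ L)
            intro x y; exact mul_comm x y
        rw [commutator_def, Subgroup.commutator_le]
        intro x _ y _
        rw [← QuotientGroup.eq_one_iff, commutatorElement_def, QuotientGroup.mk_mul, QuotientGroup.mk_mul, QuotientGroup.mk_mul, hcomm (x : G ⧸ L) y, ← QuotientGroup.mk_mul, ← QuotientGroup.mk_mul, ← QuotientGroup.mk_mul]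
        have : y * x * x⁻¹ * y⁻¹ = 1 := by group
        rw [this, QuotientGroup.mk_one]
      · rw [← hLL]; exact Subgroup.commutator_mono le_top le_top
    rw [heq]
    haveI := IsQuasisimple.nontrivial hL
    refine ⟨fun N hN => ?_⟩
    rcases IsQuasisimple.normal_eq_top_or_le_center hL N with h | h
    · right; exact h
    · left
      rw [eq_bot_iff]
      refine h.trans ?_
      intro x hx
      have h5 : (x : G) ∈ Subgroup.center G := by
        apply hC
        rw [Subgroup.mem_centralizer_iff]
        intro y hy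
        exact congrArg Subtype.val ((Subgroup.mem_center_iff.1 hx) ⟨y, hy⟩)
      rw [hZ, Subgroup.mem_bot] at h5
      rw [Subgroup.mem_bot]
      exact Subtype.ext h5
  · have h2 := prim_two hDG hprim
    have h3 := prim_three hDG hprim hw
    rw [hZ] at h2 h3
    exact ⟨le_bot_iff.1 h2, le_bot_iff.1 h3, prim_connected hDG hprim hw⟩
  · obtain ⟨h2, h3, hconn⟩ := h
    have h2' : pCore 2 G ≤ Subgroup.center G := by rw [h2]; exact bot_le
    have h3' : pCore 3 G ≤ Subgroup.center G := by rw [h3]; exact bot_le
    obtain ⟨L, hLn, hL, hF⟩ := exists_comp hD hD2 h2' h3'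
    have hC := centralizer_le hD h2' h3' hF
    exact primitive_of_index hD hD2 h2' h3' hL hF (index_of_connected hD hD2 hL hC hconn)

end Cfsg.Agent.S5361
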