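import Cfsg.Statements.S5363
import Cfsg.Agent.H28_Basic

set_option autoImplicit false
open Cfsg

namespace Cfsg.Agent.S5363

open Cfsg.Agent.H28.Basic

/-- for involutions a, b: conjugating `b` or `a` by powers of `ab`. -/
theorem dih_conj_pow {G : Type*} [Group G] {a b : G} (ha : a * a = 1) (hb : b * b = 1) (n : ℕ) :
    (a * b) ^ n * a * ((a * b) ^ n)⁻¹ = (a * b) ^ (2 * n) * a := by
  have ha' : a⁻¹ = a := inv_eq_of_mul_eq_one_left ha
  have hb' : b⁻¹ = b := inv_eq_of_mul_eq_one_left hb
  have h1 : a * (a * b) * a⁻¹ = (a * b)⁻¹ := by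
    rw [mul_inv_rev, ha', hb', ← mul_assoc, ha, one_mul]
  have h2 : a * (a * b) ^ n * a⁻¹ = ((a * b) ^ n)⁻¹ := by
    rw [← _root_.conj_pow, h1, inv_pow]
  have h3 : a * ((a * b) ^ n)⁻¹ = (a * b) ^ n * a := by
    have : a * ((a * b) ^ n)⁻¹ * a⁻¹ = (a * b) ^ n := by
      have := congrArg (·⁻¹) h2
      simpa [mul_assoc] using this
    calc a * ((a * b) ^ n)⁻¹ = a * ((a * b) ^ n)⁻¹ * a⁻¹ * a := by rw [inv_mul_cancel_right]
      _ = (a * b) ^ n * a := by rw [this]
  rw [mul_assoc, h3, ← mul_assoc, ← pow_add, two_mul]

theorem result {G : Type*} [Group G] [Finite G] {D : Set G} (hinv : ∀ d ∈ D, orderOf d = 2) (hconj : ∀ g : G, ∀ d ∈ D, g * d * g⁻¹ ∈ D) : (∀ a ∈ D, ∀ b ∈ D, Odd (orderOf (a * b)) ∨ orderOf (a * b) = 2) ↔ ∀ a ∈ D, ∀ b ∈ D, b ≠ a → Commute a b → {y : G | y ∈ D ∧ Commute (a * b) y} = {y : G | y ∈ D ∧ Commute a y} ∩ {y : G | y ∈ D ∧ Commute b y} := by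
  constructor
  · intro h a ha b hb hba hab
    have haa := mul_self_of_orderOf (hinv a ha)
    have hbb := mul_self_of_orderOf (hinv b hb)
    ext y
    constructor
    · rintro ⟨hy, hty⟩
      have hyy := mul_self_of_orderOf (hinv y hy)
      have hya : Commute y a := by
        rcases h y hy a ha with hodd | h2
        · -- order of y*b is 2*order(y*a)
          set t := a * b with ht
          have htt : t * t = 1 := by
            rw [ht]
            calc a * b * (a * b) = a * (b * a) * b := by simp only [mul_assoc]
              _ = a * (a * b) * b := by rw [hab.eq]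
              _ = (a * a) * (b * b) := by simp only [mul_assoc]
              _ = 1 := by rw [haa, hbb, one_mul]
          have ht1 : t ≠ 1 := by
            intro h1
            apply hba
            have := eq_inv_of_mul_eq_one_right (ht ▸ h1)
            rw [inv_of_orderOf (hinv a ha)] at this
            exact this
          have hto : orderOf t = 2 := by
            rw [orderOf_eq_iff (by norm_num)]
            refine ⟨by rw [pow_two]; exact htt, ?_⟩
            intro m hm hm0
            interval_cases m
            simpa using ht1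
          have hta : Commute t a := by
            rw [ht]; exact (Commute.refl a).mul_left hab.symm
          have htya : Commute (y * a) t := (hty.symm.mul_left hta.symm)
          have hyb : y * b = (y * a) * t := by
            rw [ht]
            calc y * b = y * (a * a) * b := by rw [haa, mul_one]
              _ = _ := by simp only [mul_assoc]
          have hcop : Nat.Coprime (orderOf (y * a)) (orderOf t) := by
            rw [hto]; exact Nat.coprime_two_right.mpr hodd
          have hord : orderOf (y * b) = orderOf (y * a) * 2 := by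
            rw [hyb, htya.orderOf_mul_eq_mul_orderOf_of_coprime hcop, hto]
          rcases h y hy b hb with hodd' | h2'
          · rw [hord] at hodd'
            exact absurd hodd' (by simp)
          · have h1 : orderOf (y * a) = 1 := by omega
            rw [orderOf_eq_one_iff] at h1
            have : y = a := by
              have := eq_inv_of_mul_eq_one_left h1
              rwa [inv_of_orderOf (hinv a ha)] at this
            rw [this]
        · rw [commute_iff_sq hyy haa, ← h2, pow_orderOf_eq_one]
      have hyb : Commute y b := by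
        have : b = a * (a * b) := by rw [← mul_assoc, haa, one_mul]
        rw [this]
        exact hya.mul_right hty.symm
      exact ⟨⟨hy, hya.symm⟩, ⟨hy, hyb.symm⟩⟩
    · rintro ⟨⟨hy, h1⟩, ⟨_, h2⟩⟩
      exact ⟨hy, h1.mul_left h2⟩
  · intro h a ha b hb
    have haa := mul_self_of_orderOf (hinv a ha)
    have hbb := mul_self_of_orderOf (hinv b hb)
    by_contra hcon
    push Not at hcon
    obtain ⟨hne, hne2⟩ := hcon
    rw [Nat.not_odd_iff_even] at hne
    obtain ⟨k, hk⟩ := hne
    rw [← two_mul] at hk
    have hpos : 0 < orderOf (a * b) := orderOf_pos _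
    have hk2 : 2 ≤ k := by
      rcases k with _ | _ | k
      · omega
      · omega
      · omega
    set z := (a * b) ^ k with hz
    have hzz : z * z = 1 := by
      rw [hz, ← pow_add, ← two_mul, ← hk, pow_orderOf_eq_one]
    have hz1 : z ≠ 1 := by
      intro h1
      have := orderOf_dvd_of_pow_eq_one h1
      have := Nat.le_of_dvd (by omega) this
      omega
    -- a inverts ab, so commutes with z
    have hzi : z⁻¹ = z := inv_eq_of_mul_eq_one_left hzz
    have haz : Commute a z := by
      have h0 := dih_conj_pow haa hbb k
      -- (ab)^k a (ab)^{-k} = (ab)^{2k} a = a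
      rw [← hk, pow_orderOf_eq_one, one_mul] at h0
      exact (mul_inv_eq_iff_eq_mul.mp h0).symm
    have hbz : Commute b z := by
      have h1 : Commute (a * b) z := (Commute.refl (a * b)).pow_right k
      have h2 : b = a * (a * b) := by rw [← mul_assoc, haa, one_mul]
      rw [h2]; exact haz.mul_left h1
    -- a * z ∈ D
    have hazD : z * a ∈ D := by
      rcases Nat.even_or_odd' k with ⟨m, hm | hm⟩
      · -- k = 2m
        have := dih_conj_pow haa hbb m
        rw [← hm, ← hz] at this
        rw [← this]
        exact hconj _ a ha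
      · -- k = 2m+1 : z a = (ab)^{2m} a b a
        have h1 := dih_conj_pow haa hbb m
        have h2 : z * a = (a * b) ^ m * (a * b * a) * ((a * b) ^ m)⁻¹ := by
          have : (a * b) ^ m * (a * b * a) * ((a * b) ^ m)⁻¹ = (a * b) * ((a * b) ^ m * a * ((a * b) ^ m)⁻¹) := by
            have h3 : (a * b) ^ m * (a * b) = (a * b) * (a * b) ^ m := by
              rw [← pow_succ, pow_succ']
            calc (a * b) ^ m * (a * b * a) * ((a * b) ^ m)⁻¹ = ((a * b) ^ m * (a * b)) * a * ((a * b) ^ m)⁻¹ := by
                  simp only [mul_assoc]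
              _ = _ := by rw [h3]; simp only [mul_assoc]
          rw [this, h1, ← mul_assoc, ← pow_succ', hz, hm]
        rw [h2]
        apply hconj
        have := hconj a b hb
        rwa [inv_of_orderOf (hinv a ha)] at this
    have hne : z * a ≠ a := by
      intro h1; exact hz1 (by simpa using h1)
    have h3 := h a ha (z * a) hazD hne (haz.mul_right (Commute.refl a))
    have h4 : a * (z * a) = z := by
      rw [← mul_assoc, haz.eq, mul_assoc, haa, mul_one]
    rw [h4] at h3
    have h5 : b ∈ {y : G | y ∈ D ∧ Commute z y} := ⟨hb, hbz.symm⟩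
    rw [h3] at h5
    have h6 : Commute a b := h5.1.2
    have h7 := (commute_iff_sq haa hbb).mp h6
    have h8 := Nat.le_of_dvd (by norm_num) (orderOf_dvd_of_pow_eq_one h7)
    omega

end Cfsg.Agent.S5363
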