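import Cfsg.Statements.S5364
import Cfsg.Agent.H28_Basic

set_option autoImplicit false
open Cfsg

namespace Cfsg.Agent.S5364

open Cfsg.Agent.H28.Basic in
theorem result {G : Type*} [Group G] [Finite G] {D : Set G} (hinv : ∀ d ∈ D, orderOf d = 2) (hconj : ∀ g : G, ∀ d ∈ D, g * d * g⁻¹ ∈ D) (t : G) (ht : orderOf t = 2) (htZ : t ∈ Subgroup.center G) (hDt : ∀ d ∈ D, d * t ∉ D) [(Subgroup.zpowers t).Normal] (himg : Cfsg.IsThreeTranspositionSet ((QuotientGroup.mk : G → G ⧸ Subgroup.zpowers t) '' D)) : Cfsg.IsThreeTranspositionSet D := by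
  have htt := mul_self_of_orderOf ht
  have hzp : ∀ x : G, x ∈ Subgroup.zpowers t → x = 1 ∨ x = t := by
    intro x hx
    obtain ⟨k, rfl⟩ := Subgroup.mem_zpowers_iff.mp hx
    rcases Int.even_or_odd k with ⟨m, hm⟩ | ⟨m, hm⟩
    · left
      rw [hm, ← two_mul, zpow_mul]
      have : t ^ (2 : ℤ) = 1 := by rw [zpow_two]; exact htt
      rw [this, one_zpow]
    · right
      rw [hm, zpow_add, zpow_mul]
      have : t ^ (2 : ℤ) = 1 := by rw [zpow_two]; exact htt
      rw [this, one_zpow, one_mul, zpow_one]
  have htc : ∀ x : G, x * t = t * x := fun x => Subgroup.mem_center_iff.mp htZ x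
  refine ⟨hinv, ?_⟩
  intro a ha b hb
  have haa := mul_self_of_orderOf (hinv a ha)
  have hbb := mul_self_of_orderOf (hinv b hb)
  have hai := inv_of_orderOf (hinv a ha)
  have hbi := inv_of_orderOf (hinv b hb)
  rcases himg.2 _ ⟨a, ha, rfl⟩ _ ⟨b, hb, rfl⟩ with h2 | h3
  · left
    have : (a * b) ^ 2 ∈ Subgroup.zpowers t := by
      rw [← QuotientGroup.eq_one_iff]; exact_mod_cast h2
    rcases hzp _ this with h | h
    · exact h
    · exfalso
      apply hDt b hb
      have h1 : a * b * a⁻¹ = b * t := by
        rw [hai]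
        calc a * b * a = (a * b) ^ 2 * b := by
              rw [pow_two]; calc a * b * a = a * b * a * (b * b) := by rw [hbb, mul_one]
                _ = _ := by simp only [mul_assoc]
          _ = b * t := by rw [h, htc]
      rw [← h1]; exact hconj a b hb
  · right
    have : (a * b) ^ 3 ∈ Subgroup.zpowers t := by
      rw [← QuotientGroup.eq_one_iff]; exact_mod_cast h3
    rcases hzp _ this with h | h
    · exact h
    · exfalso
      apply hDt b hb
      have h1 : (a * b) * a * (a * b)⁻¹ = b * t := by
        rw [mul_inv_rev, hai, hbi]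
        calc (a * b) * a * (b * a) = (a * b) ^ 3 * b := by
              calc (a * b) * a * (b * a) = (a * b) * a * (b * a) * (b * b) := by rw [hbb, mul_one]
                _ = _ := by simp only [pow_succ, pow_zero, one_mul, mul_assoc]
          _ = b * t := by rw [h, htc]
      rw [← h1]; exact hconj (a * b) a ha

end Cfsg.Agent.S5364
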