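import Cfsg.Statements.S5365
import Cfsg.Agent.H28_S5
import Cfsg.Agent.H28_VW2
import Cfsg.Agent.H28_Dih

set_option autoImplicit false
open Cfsg

namespace Cfsg.Agent.S5365

open Cfsg.Agent.H28.Basic Cfsg.Agent.H28.S5 Cfsg.Agent.H28.VW

def Nb {G : Type*} [Group G] (D : Set G) (d : G) : Set G := {y : G | y ∈ D ∧ y ≠ d ∧ Commute d y}

theorem p3' : ∀ x y z : Equiv.Perm (Fin 3), (x * x = 1 ∧ x ≠ 1 ∧ y * y = 1 ∧ y ≠ 1 ∧ z * z = 1 ∧ z ≠ 1 ∧ x ≠ y) →
    x * y ≠ y * x ∧ (z = x ∨ z = y ∨ z = x * y * x) := by decide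

theorem p3 (x y z : Equiv.Perm (Fin 3)) (h1 : x * x = 1) (h2 : x ≠ 1) (h3 : y * y = 1) (h4 : y ≠ 1) (h5 : z * z = 1) (h6 : z ≠ 1)
    (h7 : x ≠ y) : x * y ≠ y * x ∧ (z = x ∨ z = y ∨ z = x * y * x) := p3' x y z ⟨h1, h2, h3, h4, h5, h6, h7⟩

theorem m01 : t0 * t1 ∈ alternatingGroup (Fin 5) := by
  rw [Equiv.Perm.mem_alternatingGroup, map_mul, t0, t1, Equiv.Perm.sign_swap (by decide), Equiv.Perm.sign_swap (by decide)]; rfl
theorem m12 : t1 * t2 ∈ alternatingGroup (Fin 5) := by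
  rw [Equiv.Perm.mem_alternatingGroup, map_mul, t1, t2, Equiv.Perm.sign_swap (by decide), Equiv.Perm.sign_swap (by decide)]; rfl
theorem m23 : t2 * t3 ∈ alternatingGroup (Fin 5) := by
  rw [Equiv.Perm.mem_alternatingGroup, map_mul, t2, t3, Equiv.Perm.sign_swap (by decide), Equiv.Perm.sign_swap (by decide)]; rfl

theorem e3 : t3 = ((t2 * t3) * (t1 * t0 * (t2 * t1))) * t0 * ((t2 * t3) * (t1 * t0 * (t2 * t1)))⁻¹ := by decide
theorem e2 : t2 = (t1 * t0 * (t2 * t1)) * t0 * (t1 * t0 * (t2 * t1))⁻¹ := by decide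
theorem e32 : t3 * t2 * t3 = (t3 * (t1 * t0 * (t2 * t1))) * t0 * (t3 * (t1 * t0 * (t2 * t1)))⁻¹ := by decide

theorem s4rel {G : Type*} [Group G] (a x d : G) (ha : a * a = 1) (hx : x * x = 1) (hd : d * d = 1)
    (hax : a * x * a = x * a * x) (hxd : d * x * d = x * d * x) (had : d * a = a * d) (hne : a * d ≠ 1) :
    (a * d) * x * (a * d)⁻¹ ≠ x ∧ Commute x ((a * d) * x * (a * d)⁻¹) := by
  obtain ⟨ι, i0, i1, i2⟩ := exists_hom_s4 a x d ha hx hd hax.symm hxd had
  have hinj := s4_hom_injective ι (by rw [map_mul, i0, i2]; exact hne)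
  have e : (a * d) * x * (a * d)⁻¹ = ι (Equiv.swap 0 3) := by
    rw [← i0, ← i1, ← i2, ← map_mul, ← map_inv, ← map_mul, ← map_mul]
    congr 1; decide
  rw [e, ← i1]
  constructor
  · intro h
    have := hinj h
    revert this; decide
  · show ι _ * ι _ = ι _ * ι _
    rw [← map_mul, ← map_mul]
    exact congrArg ι (by decide)

theorem p3c : ∀ x : Equiv.Perm (Fin 3), (∀ y, x * y = y * x) → x = 1 := by decide

theorem p3nc : ¬ ∀ x y : Equiv.Perm (Fin 3), x * y = y * x := by decide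

theorem p5c : ∀ g : Equiv.Perm (Fin 5), g * (t0 * t1) = (t0 * t1) * g → g * (t1 * t2) = (t1 * t2) * g → g * (t2 * t3) = (t2 * t3) * g → g = 1 := by
  decide +kernel

theorem loc2 {G : Type*} [Group G] {D : Set G} (hD : IsThreeTranspositionSet D) (d : G)
    (h : Nonempty (↥(Subgroup.closure (Nb D d)) ≃* Equiv.Perm (Fin 3))) :
    ∀ a ∈ Nb D d, ∀ b ∈ Nb D d, a ≠ b → ¬ Commute a b ∧ ∀ y ∈ Nb D d, y = a ∨ y = b ∨ y = a * b * a := by
  obtain ⟨e⟩ := h
  have key : ∀ a (ha : a ∈ Nb D d), e ⟨a, Subgroup.subset_closure ha⟩ * e ⟨a, Subgroup.subset_closure ha⟩ = 1 ∧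
      e ⟨a, Subgroup.subset_closure ha⟩ ≠ 1 := by
    intro a ha
    constructor
    · rw [← map_mul, ← map_one e]
      congr 1
      exact Subtype.ext (tt_sq hD ha.1)
    · intro h
      have h1 : (⟨a, Subgroup.subset_closure ha⟩ : ↥(Subgroup.closure (Nb D d))) = 1 := e.injective (by rw [h, map_one])
      exact tt_ne_one hD ha.1 (congrArg Subtype.val h1)
  intro a ha b hb hab
  have hne : e ⟨a, Subgroup.subset_closure ha⟩ ≠ e ⟨b, Subgroup.subset_closure hb⟩ := fun h =>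
    hab (congrArg Subtype.val (e.injective h))
  constructor
  · intro hc
    refine (p3 _ _ _ (key a ha).1 (key a ha).2 (key b hb).1 (key b hb).2 (key b hb).1 (key b hb).2 hne).1 ?_
    rw [← map_mul, ← map_mul]
    congr 1
    exact Subtype.ext hc.eq
  · intro y hy
    rcases (p3 _ _ _ (key a ha).1 (key a ha).2 (key b hb).1 (key b hb).2 (key y hy).1 (key y hy).2 hne).2 with h | h | h
    · exact Or.inl (congrArg Subtype.val (e.injective h))
    · exact Or.inr (Or.inl (congrArg Subtype.val (e.injective h)))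
    · rw [← map_mul, ← map_mul] at h
      exact Or.inr (Or.inr (congrArg Subtype.val (e.injective h)))

theorem loc1 {G : Type*} [Group G] {D : Set G} (d : G)
    (h : Nonempty (↥(Subgroup.closure (Nb D d)) ≃* Equiv.Perm (Fin 3))) :
    ∃ a ∈ Nb D d, ∃ b ∈ Nb D d, a ≠ b := by
  by_contra hcon
  push Not at hcon
  obtain ⟨e⟩ := h
  have hcomm : ∀ x ∈ Subgroup.closure (Nb D d), ∀ y ∈ Subgroup.closure (Nb D d), x * y = y * x := by
    intro x hx y hy
    have h1 : Subgroup.closure (Nb D d) ≤ Subgroup.centralizer (Nb D d) := by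
      rw [Subgroup.closure_le]
      intro a ha
      rw [SetLike.mem_coe, Subgroup.mem_centralizer_iff]
      intro b hb
      rw [hcon a ha b hb]
    have h2 : Subgroup.closure (Nb D d) ≤ Subgroup.centralizer ({x} : Set G) := by
      rw [Subgroup.closure_le]
      intro a ha
      rw [SetLike.mem_coe, Subgroup.mem_centralizer_singleton_iff]
      have := Subgroup.mem_centralizer_iff.mp (h1 hx) a ha
      exact this
    exact (Subgroup.mem_centralizer_singleton_iff.mp (h2 hy)).symm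
  apply p3nc
  intro x y
  obtain ⟨x', rfl⟩ := e.surjective x
  obtain ⟨y', rfl⟩ := e.surjective y
  rw [← map_mul, ← map_mul]
  congr 1
  exact Subtype.ext (hcomm _ x'.2 _ y'.2)

theorem nb_mul {G : Type*} [Group G] {D : Set G} (hD : IsThreeTranspositionSet D) (hc : ∀ g : G, ∀ d ∈ D, g * d * g⁻¹ ∈ D)
    {d a b : G} (ha : a ∈ Nb D d) (hb : b ∈ Nb D d) : a * b * a ∈ Nb D d := by
  have haa := tt_sq hD ha.1
  have hai := tt_inv hD ha.1
  refine ⟨?_, ?_, ?_⟩
  · have := hc a b hb.1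
    rwa [hai] at this
  · intro h
    apply hb.2.1
    have h2 : b = a * (a * b * a) * a := by
      calc b = (a * a) * b * (a * a) := by rw [haa]; group
        _ = _ := by group
    rw [h2, h, mul_assoc, ha.2.2.eq, ← mul_assoc, haa, one_mul]
  · exact (ha.2.2.mul_right hb.2.2).mul_right ha.2.2

theorem nb_conj {G : Type*} [Group G] {D : Set G} (hc : ∀ g : G, ∀ d ∈ D, g * d * g⁻¹ ∈ D) (g : G)
    {d a : G} (ha : a ∈ Nb D d) : g * a * g⁻¹ ∈ Nb D (g * d * g⁻¹) := by
  refine ⟨hc g a ha.1, ?_, ?_⟩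
  · intro h
    exact ha.2.1 (by simpa using h)
  · exact (commute_conj_iff g d a).mpr ha.2.2

theorem nb_symm {G : Type*} [Group G] {D : Set G} {d a : G} (hd : d ∈ D) (ha : a ∈ Nb D d) : d ∈ Nb D a :=
  ⟨hd, fun h => ha.2.1 h.symm, ha.2.2.symm⟩

/-- the main case: the symmetric group of degree 5 -/
theorem case2 {G : Type*} [Group G] {D : Set G} (hD : IsThreeTranspositionSet D) (hc : ∀ g : G, ∀ d ∈ D, g * d * g⁻¹ ∈ D)
    (hloc : ∀ d ∈ D, Nonempty (↥(Subgroup.closure (Nb D d)) ≃* Equiv.Perm (Fin 3)))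
    (hcase : ∀ d ∈ D, ∀ a ∈ Nb D d, ∀ b ∈ Nb D d, a ≠ b → ∀ f ∈ Nb D a, f ∈ Nb D b → f = d) (hne : D.Nonempty) :
    Nonempty (↥(Subgroup.closure D) ≃* Equiv.Perm (Fin 5)) := by
  obtain ⟨d, hd⟩ := hne
  obtain ⟨a, ha, b, hb, hab⟩ := loc1 d (hloc d hd)
  have hncab : ¬ Commute a b := (loc2 hD d (hloc d hd) a ha b hb hab).1
  obtain ⟨p, hp, hpd⟩ : ∃ p ∈ Nb D a, p ≠ d := by
    obtain ⟨x, hx, y, hy, hxy⟩ := loc1 a (hloc a ha.1)
    by_cases h : x = d
    · exact ⟨y, hy, fun h' => hxy (h.trans h'.symm)⟩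
    · exact ⟨x, hx, h⟩
  have hda : d ∈ Nb D a := nb_symm hd ha
  have hncpd : ¬ Commute p d := (loc2 hD a (hloc a ha.1) p hp d hda hpd).1
  have hncpb : ¬ Commute p b := by
    intro h
    apply hpd
    refine hcase d hd a ha b hb hab p hp ⟨hp.1, ?_, h.symm⟩
    rintro rfl
    exact hncab hp.2.2
  obtain ⟨φ, f0, f1, f2, f3⟩ := exists_hom a b p d (tt_sq hD ha.1) (tt_sq hD hb.1) (tt_sq hD hp.1) (tt_sq hD hd)
    (tt_braid hD hb.1 ha.1 (fun h => hncab h.symm)) (tt_braid hD hp.1 hb.1 hncpb) (tt_braid hD hd hp.1 (fun h => hncpd h.symm))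
    hp.2.2.eq.symm hda.2.2.eq.symm hb.2.2.eq
  -- injectivity
  have hinj : Function.Injective φ := by
    rw [injective_iff_map_eq_one]
    by_contra hcon
    push Not at hcon
    obtain ⟨g, hg, hg1⟩ := hcon
    have hA : (φ.ker.subgroupOf (alternatingGroup (Fin 5))) = ⊥ ∨ (φ.ker.subgroupOf (alternatingGroup (Fin 5))) = ⊤ :=
      (alternatingGroup.isSimpleGroup_five).eq_bot_or_eq_top_of_normal _ inferInstance
    rcases hA with hA | hA
    · apply hg1
      have hcen : ∀ h ∈ alternatingGroup (Fin 5), g * h = h * g := by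
        intro h hh
        have h1 : g * h * g⁻¹ * h⁻¹ ∈ φ.ker := by
          rw [MonoidHom.mem_ker, map_mul, map_mul, map_mul, map_inv, map_inv, hg]; simp
        have h2 : g * h * g⁻¹ * h⁻¹ ∈ alternatingGroup (Fin 5) := by
          rw [Equiv.Perm.mem_alternatingGroup] at hh ⊢
          rw [map_mul, map_mul, map_mul, map_inv, map_inv, hh]; simp
        have h3 : (⟨_, h2⟩ : ↥(alternatingGroup (Fin 5))) ∈ φ.ker.subgroupOf (alternatingGroup (Fin 5)) := by
          rw [Subgroup.mem_subgroupOf]; exact h1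
        rw [hA, Subgroup.mem_bot] at h3
        have h4 := congrArg Subtype.val h3
        have h5 : g * h * g⁻¹ * h⁻¹ = 1 := h4
        rw [mul_inv_eq_one, mul_inv_eq_iff_eq_mul] at h5
        exact h5
      exact p5c g (hcen _ m01) (hcen _ m12) (hcen _ m23)
    · have h2 : t0 * t1 ∈ alternatingGroup (Fin 5) := m01
      have h3 : (⟨_, h2⟩ : ↥(alternatingGroup (Fin 5))) ∈ φ.ker.subgroupOf (alternatingGroup (Fin 5)) := by
        rw [hA]; trivial
      rw [Subgroup.mem_subgroupOf, MonoidHom.mem_ker] at h3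
      have h4 : a * b = 1 := by rw [← f0, ← f1, ← map_mul]; exact h3
      apply hncab
      rw [(eq_inv_of_mul_eq_one_left h4)]
      exact (Commute.refl b).inv_left
  -- the conjugates of `t0` go into D
  let C : Set G := {x | ∃ σ : Equiv.Perm (Fin 5), x = φ (σ * t0 * σ⁻¹)}
  have hCD : C ⊆ D := by
    rintro x ⟨σ, rfl⟩
    rw [map_mul, map_mul, map_inv, f0]
    exact hc _ _ ha.1
  have hCa : Nb D a ⊆ C := by
    intro y hy
    rcases (loc2 hD a (hloc a ha.1) d hda p hp (fun h => hpd h.symm)).2 y hy with h | h | h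
    · refine ⟨(t2 * t3) * (t1 * t0 * (t2 * t1)), ?_⟩
      rw [← e3, f3, h]
    · refine ⟨t1 * t0 * (t2 * t1), ?_⟩
      rw [← e2, f2, h]
    · refine ⟨t3 * (t1 * t0 * (t2 * t1)), ?_⟩
      rw [← e32, map_mul, map_mul, f3, f2, h]
  have hCN : ∀ x ∈ C, Nb D x ⊆ C := by
    rintro x ⟨σ, rfl⟩ y hy
    have h1 := nb_conj hc (φ σ)⁻¹ hy
    have h2 : (φ σ)⁻¹ * φ (σ * t0 * σ⁻¹) * (φ σ)⁻¹⁻¹ = a := by
      rw [map_mul, map_mul, map_inv, f0]; group
    rw [h2] at h1
    obtain ⟨τ, hτ⟩ := hCa h1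
    refine ⟨σ * τ, ?_⟩
    have h3 : y = φ σ * ((φ σ)⁻¹ * y * (φ σ)⁻¹⁻¹) * (φ σ)⁻¹ := by group
    rw [h3, hτ, ← map_inv, ← map_mul, ← map_mul]
    exact congrArg φ (by group)
  have haC : a ∈ C := ⟨1, by rw [one_mul, inv_one, mul_one, f0]⟩
  have hdC : d ∈ C := hCa hda
  have hDC : D ⊆ C := by
    intro e he
    by_contra heC
    have hadi : (a * d)⁻¹ = a * d := by
      rw [mul_inv_rev, tt_inv hD ha.1, tt_inv hD hd, ha.2.2.eq]
    have key : ∀ x ∈ D, x ∉ C → (a * d) * x * (a * d)⁻¹ ∈ Nb D x := by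
      intro x hx hxC
      have n1 : ¬ Commute a x := by
        intro h
        apply hxC
        by_cases hxa : x = a
        · rw [hxa]; exact haC
        · exact hCN a haC ⟨hx, hxa, h⟩
      have n2 : ¬ Commute d x := by
        intro h
        apply hxC
        by_cases hxa : x = d
        · rw [hxa]; exact hdC
        · exact hCN d hdC ⟨hx, hxa, h⟩
      have b1 := tt_braid hD ha.1 hx n1
      have b2 := tt_braid hD hd hx n2
      have had : a * d ≠ 1 := fun h => ha.2.1 (by rw [eq_inv_of_mul_eq_one_left h, tt_inv hD hd])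
      have h3 := s4rel a x d (tt_sq hD ha.1) (tt_sq hD hx) (tt_sq hD hd) b1 b2 ha.2.2.eq had
      exact ⟨hc _ _ hx, h3.1, h3.2⟩
    have he1 := key e he heC
    obtain ⟨y, hy, hyne⟩ : ∃ y ∈ Nb D e, y ≠ (a * d) * e * (a * d)⁻¹ := by
      obtain ⟨x, hx, y, hy, hxy⟩ := loc1 e (hloc e he)
      by_cases h : x = (a * d) * e * (a * d)⁻¹
      · exact ⟨y, hy, fun h' => hxy (h.trans h'.symm)⟩
      · exact ⟨x, hx, h⟩
    have hyC : y ∉ C := fun h => heC (hCN y h (nb_symm he hy))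
    have hy1 := key y hy.1 hyC
    have hy2 := nb_conj hc (a * d) hy
    have h5 := hcase e he _ he1 y hy (fun h => hyne h.symm) _ hy2 hy1
    apply hyne
    have h6 : (a * d) * (a * d) = 1 := by
      nth_rw 1 [← hadi]; exact inv_mul_cancel _
    rw [← h5, hadi]
    calc y = ((a * d) * (a * d)) * y * ((a * d) * (a * d)) := by rw [h6]; group
      _ = _ := by group
  -- conclusion
  have hrange : Subgroup.closure D = φ.range := by
    apply le_antisymm
    · rw [Subgroup.closure_le]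
      intro x hx
      obtain ⟨σ, rfl⟩ := hDC hx
      exact ⟨_, rfl⟩
    · have h1 : (⊤ : Subgroup (Equiv.Perm (Fin 5))) ≤ (Subgroup.closure D).comap φ := by
        rw [← Equiv.Perm.closure_isSwap, Subgroup.closure_le]
        rintro σ hσ
        show φ σ ∈ Subgroup.closure D
        apply Subgroup.subset_closure
        apply hCD
        obtain ⟨i, j, hij, rfl⟩ := hσ
        obtain ⟨c, hcc⟩ := isConj_iff.mp (Equiv.Perm.isConj_swap (show (0 : Fin 5) ≠ 1 by decide) hij)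
        exact ⟨c, by rw [← hcc]; rfl⟩
      rintro _ ⟨σ, rfl⟩
      exact h1 (Subgroup.mem_top σ)
  rw [hrange]
  exact ⟨(MonoidHom.ofInjective hinj).symm⟩

/-- the degenerate case -/
theorem case1 {G : Type*} [Group G] [Finite G] {D : Set G} (hD : IsThreeTranspositionSet D) (hc : ∀ g : G, ∀ d ∈ D, g * d * g⁻¹ ∈ D)
    (hloc : ∀ d ∈ D, Nonempty (↥(Subgroup.closure (Nb D d)) ≃* Equiv.Perm (Fin 3)))
    (hcore : ∀ d ∈ D, Nat.card (pCore 3 ↥(Subgroup.centralizer ({d} : Set G))) = 3)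
    {d a b f : G} (hd : d ∈ D) (ha : a ∈ Nb D d) (hb : b ∈ Nb D d) (hab : a ≠ b) (hfa : f ∈ Nb D a) (hfb : f ∈ Nb D b) (hfd : f ≠ d) :
    Nonempty (↥(Subgroup.closure D) ≃* Equiv.Perm (Fin 3) × Equiv.Perm (Fin 3)) := by
  have hncab : ¬ Commute a b := (loc2 hD d (hloc d hd) a ha b hb hab).1
  have hda := nb_symm hd ha
  have hdb := nb_symm hd hb
  have hncdf : ¬ Commute d f := (loc2 hD a (hloc a ha.1) d hda f hfa (fun h => hfd h.symm)).1
  have aa := tt_sq hD ha.1
  have bb := tt_sq hD hb.1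
  have dd := tt_sq hD hd
  have ff := tt_sq hD hfa.1
  have bab := tt_braid hD ha.1 hb.1 hncab
  have bdf := tt_braid hD hd hfa.1 hncdf
  have hda' : ∀ y ∈ Nb D a, y = d ∨ y = f ∨ y = d * f * d := (loc2 hD a (hloc a ha.1) d hda f hfa (fun h => hfd h.symm)).2
  have hdb' : ∀ y ∈ Nb D b, y = d ∨ y = f ∨ y = d * f * d := (loc2 hD b (hloc b hb.1) d hdb f hfb (fun h => hfd h.symm)).2
  have hfd1 : f ∈ D := hfa.1
  have haf := nb_symm ha.1 hfa
  have hbf := nb_symm hb.1 hfb
  have hdd' : ∀ y ∈ Nb D d, y = a ∨ y = b ∨ y = a * b * a := (loc2 hD d (hloc d hd) a ha b hb hab).2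
  have hff' : ∀ y ∈ Nb D f, y = a ∨ y = b ∨ y = a * b * a := (loc2 hD f (hloc f hfd1) a haf b hbf hab).2
  -- equality of neighbourhoods
  have hNab : Nb D a = Nb D b := by
    ext y
    constructor
    · intro hy
      rcases hda' y hy with h | h | h
      · rw [h]; exact hdb
      · rw [h]; exact hfb
      · rw [h]; exact nb_mul hD hc hdb hfb
    · intro hy
      rcases hdb' y hy with h | h | h
      · rw [h]; exact hda
      · rw [h]; exact hfa
      · rw [h]; exact nb_mul hD hc hda hfa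
  have hNdf : Nb D d = Nb D f := by
    ext y
    constructor
    · intro hy
      rcases hdd' y hy with h | h | h
      · rw [h]; exact haf
      · rw [h]; exact hbf
      · rw [h]; exact nb_mul hD hc haf hbf
    · intro hy
      rcases hff' y hy with h | h | h
      · rw [h]; exact ha
      · rw [h]; exact hb
      · rw [h]; exact nb_mul hD hc ha hb
  have hWa := Wcl_eq hD hc ha.1
  have hWd := Wcl_eq hD hc hd
  have hNn : (pCore 3 G).Normal := inferInstance
  have habN : a * b ∈ pCore 3 G := by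
    have h : b ∈ Wcl D a := ⟨hb.1, hNab⟩
    rw [hWa] at h
    have := h.2
    rwa [tt_inv hD ha.1] at this
  have hdfN : d * f ∈ pCore 3 G := by
    have h : f ∈ Wcl D d := ⟨hfd1, hNdf⟩
    rw [hWd] at h
    have := h.2
    rwa [tt_inv hD hd] at this
  -- the elements of the 3-core centralizing `a`
  have hcen : ∀ n ∈ pCore 3 G, Commute a n → n ∈ Subgroup.zpowers (d * f) := by
    intro n hn hna
    set Ca := Subgroup.centralizer ({a} : Set G)
    have h1 : IsPGroup 3 ↥((pCore 3 G).subgroupOf Ca) := (H11.Cores.pCore_isPGroup (G := G) 3).comap_subtype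
    have h2 : (pCore 3 G).subgroupOf Ca ≤ pCore 3 ↥Ca := Cfsg.Agent.H11.Cores.le_pCore (G := ↥Ca) 3 h1
    have hdfC : d * f ∈ Ca := by
      rw [Subgroup.mem_centralizer_singleton_iff]
      exact (hda.2.2.mul_right hfa.2.2).symm.eq
    have h3 : Subgroup.zpowers (⟨d * f, hdfC⟩ : ↥Ca) ≤ pCore 3 ↥Ca := by
      rw [Subgroup.zpowers_le]
      apply h2
      rw [Subgroup.mem_subgroupOf]
      exact hdfN
    have h4 : Nat.card (Subgroup.zpowers (⟨d * f, hdfC⟩ : ↥Ca)) = 3 := by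
      rw [Nat.card_zpowers, ← Subgroup.orderOf_coe]
      exact tt_orderOf_mul hD hd hfd1 hncdf
    have h5 : Subgroup.zpowers (⟨d * f, hdfC⟩ : ↥Ca) = pCore 3 ↥Ca :=
      Subgroup.eq_of_le_of_card_ge h3 (by rw [h4, hcore a ha.1])
    have hnC : n ∈ Ca := by
      rw [Subgroup.mem_centralizer_singleton_iff]; exact hna.symm.eq
    have h6 : (⟨n, hnC⟩ : ↥Ca) ∈ pCore 3 ↥Ca := h2 (by rw [Subgroup.mem_subgroupOf]; exact hn)
    rw [← h5] at h6
    obtain ⟨k, hk⟩ := h6
    exact ⟨k, congrArg Subtype.val hk⟩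
  -- `a * d` inverts the core
  have hinv : ∀ n ∈ pCore 3 G, (d * a) * n * (d * a)⁻¹ = n⁻¹ := by
    intro n hn
    have hex : ∃ i : ℕ, Commute a ((a * b) ^ i * n) := by
      have h1 : n * a * n⁻¹ ∈ Nb D d := by
        have h2 : n * a * n⁻¹ ∈ Wcl D a := by
          rw [hWa]
          refine ⟨hc n a ha.1, ?_⟩
          have : a⁻¹ * (n * a * n⁻¹) = (a⁻¹ * n * a⁻¹⁻¹) * n⁻¹ := by group
          rw [this]
          exact mul_mem (hNn.conj_mem n hn _) (inv_mem hn)
        exact nb_symm h2.1 (by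
          have h3 : Nb D a = Nb D (n * a * n⁻¹) := h2.2
          rw [← h3]; exact hda)
      have bb3 : (a * b) ^ 3 = 1 := tt_cube hD ha.1 hb.1 hncab
      have c1 : (a * b) * (a * b * a) * (a * b)⁻¹ = a := by
        calc (a * b) * (a * b * a) * (a * b)⁻¹ = (a * b) * (b * a * b) * (a * b)⁻¹ := by rw [bab]
          _ = a * (b * b) * a * a⁻¹ := by group
          _ = a := by rw [bb]; group
      have c2 : (a * b) * b * (a * b)⁻¹ = a * b * a := by
        calc (a * b) * b * (a * b)⁻¹ = a * b * a⁻¹ := by group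
          _ = _ := by rw [tt_inv hD ha.1]
      rcases hdd' _ h1 with h | h | h
      · refine ⟨0, ?_⟩
        rw [pow_zero, one_mul]
        show a * n = n * a
        nth_rw 1 [← h]; group
      · refine ⟨2, ?_⟩
        show a * ((a * b) ^ 2 * n) = (a * b) ^ 2 * n * a
        have h2 : (a * b) ^ 2 * n * a = ((a * b) * ((a * b) * (n * a * n⁻¹) * (a * b)⁻¹) * (a * b)⁻¹) * ((a * b) ^ 2 * n) := by
          rw [pow_two]; group
        rw [h2, h, c2, c1]
      · refine ⟨1, ?_⟩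
        show a * ((a * b) ^ 1 * n) = (a * b) ^ 1 * n * a
        have h2 : (a * b) ^ 1 * n * a = ((a * b) * (n * a * n⁻¹) * (a * b)⁻¹) * ((a * b) ^ 1 * n) := by
          rw [pow_one]; group
        rw [h2, h, c1]
    obtain ⟨i, hi⟩ := hex
    obtain ⟨k, hk⟩ := hcen _ (mul_mem (pow_mem habN i) hn) hi
    have hk : (d * f) ^ k = (a * b) ^ i * n := hk
    have z1 : (d * a) * (a * b) * (d * a)⁻¹ = (a * b)⁻¹ := by
      calc (d * a) * (a * b) * (d * a)⁻¹ = d * (a * a) * (b * a⁻¹) * d⁻¹ := by group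
        _ = d * (b * a) * d⁻¹ := by rw [aa, tt_inv hD ha.1]; group
        _ = (a * b)⁻¹ := by
          rw [(hb.2.2.mul_right ha.2.2).eq, mul_inv_rev, tt_inv hD ha.1, tt_inv hD hb.1]; group
    have z2 : (d * a) * (d * f) * (d * a)⁻¹ = (d * f)⁻¹ := by
      calc (d * a) * (d * f) * (d * a)⁻¹ = d * (a * (d * f)) * a⁻¹ * d⁻¹ := by group
        _ = d * (d * f * a) * a⁻¹ * d⁻¹ := by rw [(hda.2.2.mul_right hfa.2.2).eq]
        _ = (d * d) * f * d⁻¹ := by group
        _ = (d * f)⁻¹ := by rw [dd, mul_inv_rev, tt_inv hD hd, tt_inv hD hfd1]; group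
    have hn' : n = ((a * b) ^ i)⁻¹ * (d * f) ^ k := by rw [hk]; group
    have hcc : Commute (a * b) (d * f) := (hda.2.2.mul_right hfa.2.2).mul_left (hdb.2.2.mul_right hfb.2.2)
    have e1 : (d * a) * n * (d * a)⁻¹ = (((d * a) * (a * b) * (d * a)⁻¹) ^ i)⁻¹ * ((d * a) * (d * f) * (d * a)⁻¹) ^ k := by
      rw [hn', conj_pow, conj_zpow]; group
    rw [e1, z1, z2, hn', inv_pow, inv_inv, inv_zpow, mul_inv_rev (((a * b) ^ i)⁻¹), inv_inv]
    exact ((hcc.pow_left i).zpow_right k).inv_right.eq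
  -- everything is in the six elements
  have hall : ∀ e ∈ D, e ∈ Nb D d ∨ e ∈ Nb D a := by
    intro e he
    by_cases hed : Commute d e
    · by_cases h : e = d
      · right; rw [h]; exact hda
      · left; exact ⟨he, h, hed⟩
    by_cases hea : Commute a e
    · by_cases h : e = a
      · left; rw [h]; exact ha
      · right; exact ⟨he, h, hea⟩
    exfalso
    have ee := tt_sq hD he
    obtain ⟨ι, i0, i1, i2⟩ := exists_hom_s4 d e a dd ee aa (tt_braid hD hd he hed).symm (tt_braid hD ha.1 he hea) ha.2.2.eq.symm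
    have hzw : (d * a) * (e * (d * a) * e⁻¹) = (d * e * d⁻¹) * (d * a) * (d * e * d⁻¹)⁻¹ := by
      rw [← i0, ← i1, ← i2]
      simp only [← map_mul, ← map_inv]
      exact congrArg ι (by decide)
    have hinvc : ∀ g : G, ∀ n ∈ pCore 3 G, (g * (d * a) * g⁻¹) * n * (g * (d * a) * g⁻¹)⁻¹ = n⁻¹ := by
      intro g n hn
      have h1 := hinv (g⁻¹ * n * g⁻¹⁻¹) (hNn.conj_mem n hn g⁻¹)
      calc (g * (d * a) * g⁻¹) * n * (g * (d * a) * g⁻¹)⁻¹ = g * ((d * a) * (g⁻¹ * n * g⁻¹⁻¹) * (d * a)⁻¹) * g⁻¹ := by group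
        _ = n⁻¹ := by rw [h1]; group
    have h1 := hinvc (d * e * d⁻¹) (a * b) habN
    rw [← hzw] at h1
    have h2 : (d * a * (e * (d * a) * e⁻¹)) * (a * b) * (d * a * (e * (d * a) * e⁻¹))⁻¹ = a * b := by
      calc (d * a * (e * (d * a) * e⁻¹)) * (a * b) * (d * a * (e * (d * a) * e⁻¹))⁻¹
          = (d * a) * ((e * (d * a) * e⁻¹) * (a * b) * (e * (d * a) * e⁻¹)⁻¹) * (d * a)⁻¹ := by group
        _ = (d * a) * (a * b)⁻¹ * (d * a)⁻¹ := by rw [hinvc e _ habN]
        _ = ((d * a) * (a * b) * (d * a)⁻¹)⁻¹ := by group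
        _ = a * b := by rw [hinv _ habN, inv_inv]
    rw [h2] at h1
    apply hncab
    rw [commute_iff_sq aa bb, pow_two]
    nth_rw 1 [h1]
    exact inv_mul_cancel _
  -- the isomorphism
  obtain ⟨e₁⟩ := hloc d hd
  obtain ⟨e₂⟩ := hloc a ha.1
  let φ₁ : Equiv.Perm (Fin 3) →* G := (Subgroup.closure (Nb D d)).subtype.comp e₁.symm.toMonoidHom
  let φ₂ : Equiv.Perm (Fin 3) →* G := (Subgroup.closure (Nb D a)).subtype.comp e₂.symm.toMonoidHom
  have r1 : ∀ x, φ₁ x ∈ Subgroup.closure (Nb D d) := fun x => (e₁.symm x).2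
  have r2 : ∀ x, φ₂ x ∈ Subgroup.closure (Nb D a) := fun x => (e₂.symm x).2
  have s1 : ∀ y ∈ Subgroup.closure (Nb D d), ∃ x, φ₁ x = y := fun y hy => ⟨e₁ ⟨y, hy⟩, by
    show ((e₁.symm (e₁ ⟨y, hy⟩) : ↥(Subgroup.closure (Nb D d))) : G) = y
    rw [MulEquiv.symm_apply_apply]⟩
  have s2 : ∀ y ∈ Subgroup.closure (Nb D a), ∃ x, φ₂ x = y := fun y hy => ⟨e₂ ⟨y, hy⟩, by
    show ((e₂.symm (e₂ ⟨y, hy⟩) : ↥(Subgroup.closure (Nb D a))) : G) = y
    rw [MulEquiv.symm_apply_apply]⟩
  have j1 : Function.Injective φ₁ := Subtype.val_injective.comp e₁.symm.injective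
  have j2 : Function.Injective φ₂ := Subtype.val_injective.comp e₂.symm.injective
  have hcomm0 : ∀ x ∈ Nb D d, ∀ y ∈ Nb D a, Commute x y := by
    intro x hx y hy
    have hxd : ∀ y ∈ Nb D a, Commute a y ∧ Commute b y := fun y hy => ⟨hy.2.2, by rw [hNab] at hy; exact hy.2.2⟩
    rcases hdd' x hx with h | h | h
    · rw [h]; exact (hxd y hy).1
    · rw [h]; exact (hxd y hy).2
    · rw [h]; exact ((hxd y hy).1.mul_left (hxd y hy).2).mul_left (hxd y hy).1
  have hcomm : ∀ x ∈ Subgroup.closure (Nb D d), ∀ y ∈ Subgroup.closure (Nb D a), Commute x y := by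
    intro x hx y hy
    have h1 : Subgroup.closure (Nb D d) ≤ Subgroup.centralizer (Nb D a) := by
      rw [Subgroup.closure_le]
      intro x hx
      rw [SetLike.mem_coe, Subgroup.mem_centralizer_iff]
      intro y hy
      exact (hcomm0 x hx y hy).symm.eq
    have h2 : Subgroup.closure (Nb D a) ≤ Subgroup.centralizer ({x} : Set G) := by
      rw [Subgroup.closure_le]
      intro y hy
      rw [SetLike.mem_coe, Subgroup.mem_centralizer_singleton_iff]
      exact Subgroup.mem_centralizer_iff.mp (h1 hx) y hy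
    exact (Subgroup.mem_centralizer_singleton_iff.mp (h2 hy)).symm
  have hcφ : ∀ x y, Commute (φ₁ x) (φ₂ y) := fun x y => hcomm _ (r1 x) _ (r2 y)
  let Φ : Equiv.Perm (Fin 3) × Equiv.Perm (Fin 3) →* G := φ₁.noncommCoprod φ₂ hcφ
  have hΦ : ∀ x y, Φ (x, y) = φ₁ x * φ₂ y := fun x y => rfl
  have hinjΦ : Function.Injective Φ := by
    rw [injective_iff_map_eq_one]
    rintro ⟨x, y⟩ hxy
    rw [hΦ] at hxy
    have h1 : x = 1 := by
      apply p3c
      intro w
      apply j1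
      rw [map_mul, map_mul, eq_inv_of_mul_eq_one_left hxy, ← map_inv]
      exact (hcφ w y⁻¹).symm.eq
    have h2 : y = 1 := by
      rw [h1, map_one, one_mul] at hxy
      exact j2 (by rw [hxy, map_one])
    rw [h1, h2]; rfl
  have hrange : Subgroup.closure D = Φ.range := by
    apply le_antisymm
    · rw [Subgroup.closure_le]
      intro e he
      rcases hall e he with h | h
      · obtain ⟨x, hx⟩ := s1 e (Subgroup.subset_closure h)
        exact ⟨(x, 1), by rw [hΦ, map_one, mul_one, hx]⟩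
      · obtain ⟨x, hx⟩ := s2 e (Subgroup.subset_closure h)
        exact ⟨(1, x), by rw [hΦ, map_one, one_mul, hx]⟩
    · rintro _ ⟨⟨x, y⟩, rfl⟩
      rw [hΦ]
      exact mul_mem (Subgroup.closure_mono (fun _ h => h.1) (r1 x)) (Subgroup.closure_mono (fun _ h => h.1) (r2 y))
  rw [hrange]
  exact ⟨(MonoidHom.ofInjective hinjΦ).symm⟩

/-- Let D be a non-empty conjugation-invariant set of involutions of a finite group G satisfying the 3-transposition order conditions, and suppose that for every d in D the members of D other than d commuting with d generate a subgroup isomorphic to the symmetric group of degree 3, and the largest normal 3-subgroup of the centralizer of d has order 3. Then the subgroup generated by D is isomorphic to the symmetric group of degree 5 or to the direct product of two symmetric groups of degree 3. -/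
theorem result {G : Type*} [Group G] [Finite G] {D : Set G} (hD : Cfsg.IsThreeTranspositionSet D) (hconj : ∀ g : G, ∀ d ∈ D, g * d * g⁻¹ ∈ D) (hne : D.Nonempty) (hloc : ∀ d ∈ D, Nonempty (↥(Subgroup.closure {y : G | y ∈ D ∧ y ≠ d ∧ Commute d y}) ≃* Equiv.Perm (Fin 3)) ∧ Nat.card (Cfsg.pCore 3 ↥(Subgroup.centralizer ({d} : Set G))) = 3) : Nonempty (↥(Subgroup.closure D) ≃* Equiv.Perm (Fin 5)) ∨ Nonempty (↥(Subgroup.closure D) ≃* Equiv.Perm (Fin 3) × Equiv.Perm (Fin 3)) := by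
  by_cases h : ∀ d ∈ D, ∀ a ∈ Nb D d, ∀ b ∈ Nb D d, a ≠ b → ∀ f ∈ Nb D a, f ∈ Nb D b → f = d
  · left
    exact case2 hD hconj (fun d hd => (hloc d hd).1) h hne
  · right
    push Not at h
    obtain ⟨d, hd, a, ha, b, hb, hab, f, hfa, hfb, hfd⟩ := h
    exact case1 hD hconj (fun d hd => (hloc d hd).1) (fun d hd => (hloc d hd).2) hd ha hb hab hfa hfb hfd

end Cfsg.Agent.S5365
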