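import Cfsg.Statements.S5366
import Cfsg.Agent.H28_FS2

set_option autoImplicit false
open Cfsg

namespace Cfsg.Agent.S5366

open Cfsg Cfsg.Agent Cfsg.Agent.H28



/-- Let L be a nondegenerate Fischer space on the point type X (every point on a line). Then for every point x the map t(x) — sending a point collinear with x to the third point of their common line and fixing every other point — is a permutation of X of order 2 and an automorphism of the line system; and the set of all t(x) satisfies the 3-transposition order conditions in the permutation group of X (any two have product of order at most 3). -/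
theorem result {X : Type*} (L : Set (Set X)) (hL : Cfsg.IsFischerSpace L) (hnd : Cfsg.LineSystem.IsNondegenerate L) : (∀ x : X, ∃ σ : Equiv.Perm X, ⇑σ = Cfsg.LineSystem.lineMap L x ∧ orderOf σ = 2 ∧ Cfsg.LineSystem.IsIso L L σ) ∧ Cfsg.IsThreeTranspositionSet {σ : Equiv.Perm X | ∃ x : X, ⇑σ = Cfsg.LineSystem.lineMap L x} := by
  have Q := FS.fs_FQ hL
  have hQ := FS.fs_QL hL
  have mk : ∀ x : X, ∃ σ : Equiv.Perm X, ⇑σ = Cfsg.LineSystem.lineMap L x :=
    fun x => ⟨(show Function.Involutive (Cfsg.LineSystem.lineMap L x) from Q.inv x).toPerm, rfl⟩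
  have hsq : ∀ (x : X) (σ : Equiv.Perm X), ⇑σ = Cfsg.LineSystem.lineMap L x → σ * σ = 1 := by
    intro x σ hσ
    ext y
    rw [Equiv.Perm.mul_apply, hσ, Q.inv]; rfl
  have hord : ∀ (x : X) (σ : Equiv.Perm X), ⇑σ = Cfsg.LineSystem.lineMap L x → orderOf σ = 2 := by
    intro x σ hσ
    refine orderOf_eq_prime (by rw [pow_two]; exact hsq x σ hσ) ?_
    rintro rfl
    obtain ⟨l, hl, hx⟩ := hnd x
    obtain ⟨p, q, r, hpq, hpr, hqr, hlpqr⟩ := Set.ncard_eq_three.1 (hL.2.1 l hl)
    have : ∃ y ∈ l, x ≠ y := by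
      by_cases h : x = p
      · exact ⟨q, by rw [hlpqr]; simp, by rw [h]; exact hpq⟩
      · exact ⟨p, by rw [hlpqr]; simp, h⟩
    obtain ⟨y, hy, hxy⟩ := this
    rw [← hQ] at hl
    have h1 := (FS.third_of_mem Q hl hx hy hxy).1
    apply h1
    rw [← hσ]; rfl
  refine ⟨fun x => ?_, ?_, ?_⟩
  · obtain ⟨σ, hσ⟩ := mk x
    refine ⟨σ, hσ, hord x σ hσ, ?_⟩
    intro l
    rw [← hQ]
    constructor
    · intro hl
      rw [hσ]; exact FS.op_image Q hl
    · intro hl
      have h1 := FS.op_image Q (x := x) hl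
      rw [← hσ, ← Set.image_comp] at h1
      have h2 : (⇑σ ∘ ⇑σ) = id := by
        funext y
        have := congrArg (fun τ : Equiv.Perm X => τ y) (hsq x σ hσ)
        exact this
      rw [h2, Set.image_id] at h1
      exact h1
  · rintro σ ⟨x, hσ⟩
    exact hord x σ hσ
  · rintro σ ⟨x, hσ⟩ τ ⟨y, hτ⟩
    have conjr : ∀ (x y z : X) (σ τ ρ : Equiv.Perm X), ⇑σ = Cfsg.LineSystem.lineMap L x → ⇑τ = Cfsg.LineSystem.lineMap L y →
        ⇑ρ = Cfsg.LineSystem.lineMap L z → z = Cfsg.LineSystem.lineMap L x y → σ * τ * σ = ρ := by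
      intro x y z σ τ ρ h1 h2 h3 h4
      ext w
      rw [Equiv.Perm.mul_apply, Equiv.Perm.mul_apply, h1, h2, h3, h4, Q.dist, Q.inv]
    have hs := hsq x σ hσ
    have ht := hsq y τ hτ
    by_cases h : Cfsg.LineSystem.lineMap L x y = y
    · left
      have h1 := conjr x y y σ τ τ hσ hτ hτ h.symm
      rw [pow_two]
      calc σ * τ * (σ * τ) = (σ * τ * σ) * τ := by group
        _ = 1 := by rw [h1, ht]
    · right
      obtain ⟨ρ, hρ⟩ := mk (Cfsg.LineSystem.lineMap L x y)
      have h1 := conjr x y _ σ τ ρ hσ hτ hρ rfl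
      have h2 := conjr y x _ τ σ ρ hτ hσ hρ (Q.braid x y h)
      calc (σ * τ) ^ 3 = (σ * τ * σ) * (τ * σ * τ) := by simp only [pow_succ, pow_zero, one_mul]; group
        _ = (σ * τ * σ) * (σ * τ * σ) := by rw [h2, ← h1]
        _ = σ * τ * (σ * σ) * τ * σ := by group
        _ = σ * (τ * τ) * σ := by rw [hs]; group
        _ = 1 := by rw [ht, mul_one, hs]

end Cfsg.Agent.S5366
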