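import Cfsg.Statements.S5367
import Cfsg.Agent.H28_FS3

set_option autoImplicit false
open Cfsg

namespace Cfsg.Agent.S5367

open Cfsg Cfsg.Agent Cfsg.Agent.H28



/-- Let D be a conjugation-invariant generating set of 3-transpositions of a finite group G. Then the line system on D whose lines are the triples {x, y, y x y⁻¹} for non-commuting members x, y of D is a Fischer space: two points lie on at most one line, lines have three points, and two different meeting lines generate a subspace isomorphic to the dual affine plane of order two or to the affine plane of order three. -/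
theorem result {G : Type*} [Group G] [Finite G] {D : Set G} (hD : Cfsg.IsThreeTranspositionGroup D) : Cfsg.IsFischerSpace (Cfsg.threeTranspositionLines D) := by
  have Q := FS.dop_FQ hD
  rw [FS.lines_eq hD]
  refine ⟨FS.partialLinear Q, fun l hl => FS.ncard_three Q hl, ?_⟩
  rintro l hl m hm hlm ⟨a, hal, ham⟩
  have ex : ∀ l ∈ FS.QL (FS.dop hD), a ∈ l → ∃ b ∈ l, a ≠ b := by
    intro l hl ha
    obtain ⟨p, q, r, hpq, hpr, hqr, hlpqr⟩ := Set.ncard_eq_three.1 (FS.ncard_three Q hl)
    by_cases h : a = p
    · exact ⟨q, by rw [hlpqr]; simp, by rw [h]; exact hpq⟩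
    · exact ⟨p, by rw [hlpqr]; simp, h⟩
  obtain ⟨b, hb, hab⟩ := ex l hl hal
  obtain ⟨c, hc, hac⟩ := ex m hm ham
  obtain ⟨h1, h2⟩ := FS.third_of_mem Q hl hal hb hab
  obtain ⟨h3, h4⟩ := FS.third_of_mem Q hm ham hc hac
  have h1' : ¬ Commute (a : G) b := fun h => h1 ((FS.dop_eq_iff hD a b).2 h)
  have h3' : ¬ Commute (a : G) c := fun h => h3 ((FS.dop_eq_iff hD a c).2 h)
  have key : ∀ c' ∈ m, a ≠ c' → b ≠ c' := by
    rintro c' hc' hac' rfl
    exact hlm (FS.partialLinear Q l hl m hm a b hab hal hb ham hc')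
  by_cases hbc : Commute (b : G) c
  · left
    rw [h2, h4]
    exact FS.caseA hD h1' h3' hbc (key c hc hac)
  by_cases hbc' : Commute (b : G) (FS.dop hD a c : D)
  · left
    have h5 : FS.dop hD a c ∈ m := by rw [h4]; simp
    have h6 : a ≠ FS.dop hD a c := (FS.op_ne_left Q h3).symm
    obtain ⟨h7, h8⟩ := FS.third_of_mem Q hm ham h5 h6
    rw [h2, h8]
    exact FS.caseA hD h1' (fun h => h7 ((FS.dop_eq_iff hD a _).2 h)) hbc' (key _ h5 h6)
  · right
    rw [h2, h4]
    exact FS.caseB hD h1' h3' hbc hbc'

end Cfsg.Agent.S5367
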