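import Cfsg.Statements.S5392
import Cfsg.Agent.H28_M2S

set_option autoImplicit false
open Cfsg

namespace Cfsg.Agent.S5392

open Cfsg Cfsg.Agent.H7.Co Cfsg.Agent.H7.Co3 Cfsg.Agent.H7.Co4 Cfsg.Agent.H7.Co5 Cfsg.Agent.H7.Co6 Cfsg.Agent.H7.LV Cfsg.Agent.H7.L2 Cfsg.Agent.H28 Cfsg.Agent.H28.M2L Cfsg.Agent.H28.M2A

/-- vectors -/
def u3 : leechLattice := mkv 6012360753245510218275694343128167617964933110548413145401927807366543217182775031461004928172733526144977469448 (by decide +kernel) (by decide +kernel)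
def v3 : leechLattice := mkv 4809888602596411592251961864670007025873776061092905699077450036231213978748888314989940191928948925324818120712 (by decide +kernel) (by decide +kernel)
def q3 : leechLattice := mkv 3607416451947312966228229386211846433782619011637398202537307753658088046272454973127906858754034823134020370444 (by decide +kernel) (by decide +kernel)
def v4 : leechLattice := mkv 4809888602596411592251961864670007025873776061092905673969426218569707395620320208916062104815431832249226231820 (by decide +kernel) (by decide +kernel)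
def q4 : leechLattice := mkv 3607416451947312966228229386211846433782619011637398202536924629772871574057865386371119281458130138370654076936 (by decide +kernel) (by decide +kernel)

theorem u3_nm : Nm u3 = 32 := by
  show sqNorm (u3 : GolayPt → ℤ) = 32
  rw [show (u3 : GolayPt → ℤ) = dec _ from rfl]; decide +kernel
theorem v3_nm : Nm v3 = 32 := by
  show sqNorm (v3 : GolayPt → ℤ) = 32
  rw [show (v3 : GolayPt → ℤ) = dec _ from rfl]; decide +kernel
theorem v4_nm : Nm v4 = 32 := by
  show sqNorm (v4 : GolayPt → ℤ) = 32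
  rw [show (v4 : GolayPt → ℤ) = dec _ from rfl]; decide +kernel
theorem q3_nm : Nm q3 = 48 := by
  show sqNorm (q3 : GolayPt → ℤ) = 48
  rw [show (q3 : GolayPt → ℤ) = dec _ from rfl]; decide +kernel
theorem q4_nm : Nm q4 = 64 := by
  show sqNorm (q4 : GolayPt → ℤ) = 64
  rw [show (q4 : GolayPt → ℤ) = dec _ from rfl]; decide +kernel
theorem d3 : Dt u3 v3 = -8 := by
  show dotInt (u3 : GolayPt → ℤ) v3 = -8
  rw [show (u3 : GolayPt → ℤ) = dec _ from rfl, show (v3 : GolayPt → ℤ) = dec _ from rfl]; decide +kernel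
theorem d4 : Dt u3 v4 = 0 := by
  show dotInt (u3 : GolayPt → ℤ) v4 = 0
  rw [show (u3 : GolayPt → ℤ) = dec _ from rfl, show (v4 : GolayPt → ℤ) = dec _ from rfl]; decide +kernel
theorem e3 : Dt u3 q3 + Dt v3 q3 = -32 := by
  show dotInt (u3 : GolayPt → ℤ) q3 + dotInt (v3 : GolayPt → ℤ) q3 = -32
  rw [show (u3 : GolayPt → ℤ) = dec _ from rfl, show (v3 : GolayPt → ℤ) = dec _ from rfl, show (q3 : GolayPt → ℤ) = dec _ from rfl]; decide +kernel
theorem e4 : Dt u3 q4 + Dt v4 q4 = -48 := by
  show dotInt (u3 : GolayPt → ℤ) q4 + dotInt (v4 : GolayPt → ℤ) q4 = -48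
  rw [show (u3 : GolayPt → ℤ) = dec _ from rfl, show (v4 : GolayPt → ℤ) = dec _ from rfl, show (q4 : GolayPt → ℤ) = dec _ from rfl]; decide +kernel

theorem ker_two (g : Co0) (hg : ∀ v : leechLattice, Cg (g • v) v) : g = 1 ∨ g = m1 := by
  let K : Subgroup Co0 :=
    { carrier := {g | ∀ v : leechLattice, Cg (g • v) v}
      one_mem' := by intro v; rw [one_smul]; exact Cg.refl v
      mul_mem' := by
        intro a b ha hb v
        rw [mul_smul]
        exact (ha (b • v)).trans (hb v)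
      inv_mem' := by
        intro a ha v
        have := ha (a⁻¹ • v)
        rw [smul_inv_smul] at this
        exact this.symm }
  have hmem : ∀ {g}, g ∈ K ↔ ∀ v : leechLattice, Cg (g • v) v := Iff.rfl
  have hsq : ∀ g ∈ K, g * g = 1 := by
    intro g hg
    apply ext32
    intro x hx
    rw [mul_smul, one_smul]
    have h1 : g ∈ cs x := hmem.1 hg x
    rcases (mem_cs_short (by omega)).1 h1 with h2 | h2
    · rw [h2, h2]
    · rw [h2, smul_neg'', h2, neg_neg]
  have hK2 : IsPGroup 2 K := by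
    rintro ⟨g, hg⟩
    exact ⟨1, Subtype.ext (by
      show g ^ 2 ^ 1 = 1
      rw [pow_one, pow_two]; exact hsq g hg)⟩
  have hm1 : m1 ∈ K := by
    rw [hmem]; intro v; rw [m1_smul]; exact Cg.neg v
  have hN := M2S.no_two u3_nm (K ⊓ MulAction.stabilizer Co0 u3) (hK2.to_le inf_le_left) (fun n hn => hn.2) (by
    rintro a ha n ⟨hn1, hn2⟩
    have hn2' : n • u3 = u3 := hn2
    have hai : a⁻¹ • u3 = u3 := by rw [inv_smul_eq_iff, ha]
    refine ⟨?_, ?_⟩
    · show ∀ v : leechLattice, Cg ((a * n * a⁻¹) • v) v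
      intro v
      rw [mul_smul, mul_smul]
      have h1 : Cg (n • (a⁻¹ • v)) (a⁻¹ • v) := hn1 (a⁻¹ • v)
      have := h1.smul a
      rwa [smul_inv_smul] at this
    · show (a * n * a⁻¹) • u3 = u3
      rw [mul_smul, mul_smul, hai, hn2', ha])
  rcases (mem_cs_short (by rw [u3_nm]; norm_num)).1 (show g ∈ cs u3 from hg u3) with h | h
  · left
    have : g ∈ K ⊓ MulAction.stabilizer Co0 u3 := ⟨hg, h⟩
    rw [hN] at this
    exact Subgroup.mem_bot.1 this
  · right
    have h3 : m1 * g ∈ K ⊓ MulAction.stabilizer Co0 u3 := by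
      refine ⟨K.mul_mem hm1 hg, ?_⟩
      show (m1 * g) • u3 = u3
      rw [mul_smul, h, m1_smul, neg_neg]
    rw [hN, Subgroup.mem_bot] at h3
    have h4 : m1 * m1 = (1 : Co0) := hsq m1 hm1
    have : g = m1 * (m1 * g) := by rw [← mul_assoc, h4, one_mul]
    rw [this, h3, mul_one]

theorem all_of (S : Set leechLattice) (hadd : ∀ v ∈ S, ∀ w ∈ S, v + w ∈ S) (hcg : ∀ v w, Cg v w → w ∈ S → v ∈ S)
    (hg : ∀ (g : Co0), ∀ v ∈ S, g • v ∈ S) (x : leechLattice) (hx : x ∈ S) (hx0 : ¬ Cg x 0) (v : leechLattice) : v ∈ S := by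
  have h3p : Nm (u3 + v3) = 48 := by rw [nm_add, u3_nm, v3_nm, d3]; norm_num
  have h4p : Nm (u3 + v4) = 64 := by rw [nm_add, u3_nm, v4_nm, d4]; norm_num
  have h3r : Nm (u3 + v3 + q3) = 32 := by rw [nm_add, h3p, q3_nm, dt_add, e3]; norm_num
  have h4r : Nm (u3 + v4 + q4) = 32 := by rw [nm_add, h4p, q4_nm, dt_add, e4]; norm_num
  obtain ⟨w, hw, hwn⟩ := short_rep x
  have hwS : w ∈ S := hcg w x hw.symm hx
  have hex : ∃ r ∈ S, Nm r = 32 := by
    rcases types hwn with rfl | h | h | h
    · exact absurd hw hx0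
    · exact ⟨w, hwS, h⟩
    · obtain ⟨a, ha⟩ := trans48 w (u3 + v3) h h3p
      obtain ⟨b, hb⟩ := trans48 w q3 h q3_nm
      exact ⟨u3 + v3 + q3, hadd _ (ha ▸ hg a w hwS) _ (hb ▸ hg b w hwS), h3r⟩
    · obtain ⟨a, ha⟩ := trans64 w (u3 + v4) h h4p
      obtain ⟨b, hb⟩ := trans64 w q4 h q4_nm
      exact ⟨u3 + v4 + q4, hadd _ (ha ▸ hg a w hwS) _ (hb ▸ hg b w hwS), h4r⟩
  obtain ⟨r, hr, hrn⟩ := hex
  have hall : ∀ y, Nm y = 32 → y ∈ S := by
    intro y hy
    obtain ⟨a, ha⟩ := trans32 r y hrn hy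
    rw [← ha]; exact hg a r hr
  obtain ⟨w', hw', hwn'⟩ := short_rep v
  apply hcg v w' hw'
  rcases types hwn' with rfl | h | h | h
  · have h1 := hall u3 u3_nm
    have h2 : (0 : leechLattice) = u3 + (-u3) := by rw [add_neg_cancel]
    rw [h2]
    exact hadd _ h1 _ (hall _ (by rw [nm_neg, u3_nm]))
  · exact hall _ h
  · obtain ⟨a, ha⟩ := trans48 (u3 + v3) w' h3p h
    rw [← ha]
    exact hg a _ (hadd _ (hall _ u3_nm) _ (hall _ v3_nm))
  · obtain ⟨a, ha⟩ := trans64 (u3 + v4) w' h4p h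
    rw [← ha]
    exact hg a _ (hadd _ (hall _ u3_nm) _ (hall _ v4_nm))

/-- The Leech lattice modulo twice itself is a faithful irreducible module for the first Conway group: an automorphism of the rank-24 lattice built from the length-24 code that moves every lattice vector only by twice a lattice vector lies in the centre of the automorphism group (the centre consists of ±1, which act trivially there, so the kernel is exactly the centre), and an additive subgroup lying between twice the lattice and the lattice that is invariant under all lattice automorphisms is one of the two. -/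
theorem result : (∀ g : ↥Cfsg.Co0, (∀ v : ↥Cfsg.leechLattice, ∃ w : ↥Cfsg.leechLattice, ((g • v : ↥Cfsg.leechLattice) : Cfsg.GolayPt → ℤ) - (v : Cfsg.GolayPt → ℤ) = 2 • (w : Cfsg.GolayPt → ℤ)) → g ∈ Subgroup.center ↥Cfsg.Co0) ∧ ∀ M : AddSubgroup (Cfsg.GolayPt → ℤ), (∀ v ∈ Cfsg.leechLattice, (2 : ℤ) • v ∈ M) → M ≤ Cfsg.leechLattice → (∀ g : ↥Cfsg.Co0, ∀ v : ↥Cfsg.leechLattice, (v : Cfsg.GolayPt → ℤ) ∈ M → ((g • v : ↥Cfsg.leechLattice) : Cfsg.GolayPt → ℤ) ∈ M) → (∀ x ∈ M, ∃ w ∈ Cfsg.leechLattice, x = (2 : ℤ) • w) ∨ M = Cfsg.leechLattice := by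
  constructor
  · intro g hg
    rw [center_eq]
    apply ker_two
    intro v
    obtain ⟨w, hw⟩ := hg v
    refine ⟨w, Subtype.ext ?_⟩
    show ((g • v : leechLattice) : GolayPt → ℤ) = (v : GolayPt → ℤ) + ((w : GolayPt → ℤ) + (w : GolayPt → ℤ))
    rw [← two_nsmul, ← hw]
    abel
  · intro M hM2 hMle hMg
    by_cases hex : ∃ x ∈ M, ¬ ∃ w ∈ leechLattice, x = (2 : ℤ) • w
    · right
      obtain ⟨x, hx, hx0⟩ := hex
      apply le_antisymm hMle
      intro v hv
      have key := all_of {v : leechLattice | (v : GolayPt → ℤ) ∈ M} (fun v hv w hw => M.add_mem hv hw) (by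
        rintro v w ⟨y, rfl⟩ hw
        show (w : GolayPt → ℤ) + ((y : GolayPt → ℤ) + y) ∈ M
        apply M.add_mem hw
        have := hM2 y y.2
        rwa [two_smul] at this) (fun g v hv => hMg g v hv) ⟨x, hMle hx⟩ hx (by
        intro h
        obtain ⟨y, hy⟩ := cg_zero.1 h
        apply hx0
        refine ⟨y, y.2, ?_⟩
        have := congrArg Subtype.val hy
        rw [two_smul]
        exact this) ⟨v, hv⟩
      exact key
    · left
      intro x hx
      by_contra h
      exact hex ⟨x, hx, h⟩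

end Cfsg.Agent.S5392
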