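import Cfsg.Statements.S5393
import Cfsg.Agent.H28_Mod

set_option autoImplicit false
open Cfsg

namespace Cfsg.Agent.S5393

open Cfsg.Agent.H7.Golay Cfsg.Agent.H7.Oct Cfsg.Agent.H7.M24 Cfsg.Agent.H28.Mod
open scoped Pointwise



/-- The length-24 code built from the squares modulo 23 contains the all-ones word, and the code modulo the all-ones word is an irreducible module over the field with two elements for the code's automorphism group: a subspace of the code that contains the all-ones word and is invariant under every coordinate permutation preserving the code is either the span of the all-ones word or the whole code. -/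
theorem result : (fun _ : Cfsg.GolayPt => (1 : ZMod 2)) ∈ Cfsg.golayCode ∧ ∀ W : Submodule (ZMod 2) (Cfsg.GolayPt → ZMod 2), (fun _ => (1 : ZMod 2)) ∈ W → W ≤ Cfsg.golayCode → (∀ σ ∈ Cfsg.M24, ∀ w ∈ W, (fun p => w (σ.symm p)) ∈ W) → W = Submodule.span (ZMod 2) {fun _ => (1 : ZMod 2)} ∨ W = Cfsg.golayCode := by
  constructor
  · rw [← ind_univ, ind_mem_code, mem_supports_iff']
    decide +kernel
  · intro W h1 hle hW
    have hW' : H28.Mod.Inv W := hW
    have h24 : Fintype.card GolayPt = 24 := by decide
    by_cases h : ∃ w ∈ W, w ≠ 0 ∧ w ≠ fun _ => (1 : ZMod 2)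
    · right
      obtain ⟨w, hw, hw0, hw1⟩ := h
      apply le_antisymm hle
      refine code_le_of_word hW' (s := support₂ w) ?_ ?_ ?_ ?_
      · exact ⟨w, hle hw, rfl⟩
      · intro h0
        apply hw0
        rw [← ind_support w, h0, ind_empty]
      · intro h0
        apply hw1
        rw [← ind_support w, h0, ind_univ]
      · rw [ind_support]; exact hw
    · left
      push Not at h
      apply le_antisymm
      · intro w hw
        by_cases hw0 : w = 0
        · rw [hw0]; exact Submodule.zero_mem _
        · rw [h w hw hw0]
          exact Submodule.mem_span_singleton_self _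
      · rw [Submodule.span_singleton_le_iff_mem]
        exact h1

end Cfsg.Agent.S5393
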