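import Cfsg.Statements.S5394
import Cfsg.Agent.H28_Cls2

set_option autoImplicit false
open Cfsg

namespace Cfsg.Agent.S5394

open Cfsg.Agent.H7.Golay Cfsg.Agent.H7.Oct Cfsg.Agent.H28.Cls

/-- The automorphism group of the length-24 code built from the squares modulo 23 has exactly two conjugacy classes of involutions: an involution either fixes exactly the eight points of an octad or has no fixed points, both kinds occur, and any two involutions of the same kind are conjugate in the group. -/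
theorem result : (∀ g ∈ Cfsg.M24, orderOf g = 2 → (Finset.univ.filter fun p => g p = p) ∈ Cfsg.octads ∨ ∀ p, g p ≠ p) ∧ (∃ g ∈ Cfsg.M24, orderOf g = 2 ∧ (Finset.univ.filter fun p => g p = p) ∈ Cfsg.octads) ∧ (∃ g ∈ Cfsg.M24, orderOf g = 2 ∧ ∀ p, g p ≠ p) ∧ ∀ g ∈ Cfsg.M24, ∀ h ∈ Cfsg.M24, orderOf g = 2 → orderOf h = 2 → ((∀ p, g p ≠ p) ↔ (∀ p, h p ≠ p)) → ∃ k ∈ Cfsg.M24, k * g * k⁻¹ = h := by
  refine ⟨fun g hg h2 => ?_, ⟨zA, zA_mem, order_zA, octad_zA⟩, ⟨zB, zB_mem, order_zB, card_zero_iff.1 card_fix_zB⟩,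
    fun g hg h hh h1 h2 hiff => ?_⟩
  · rcases inv_fix hg h2 with h | h
    · exact Or.inl h
    · exact Or.inr (card_zero_iff.1 h)
  · apply inv_conj hg hh h1 h2
    rw [← card_zero_iff, ← card_zero_iff] at hiff
    rcases inv_fix hg h1 with a | a <;> rcases inv_fix hh h2 with b | b
    · rw [a.2, b.2]
    · have := a.2; have := hiff.2 b; omega
    · have := b.2; have := hiff.1 a; omega
    · rw [a, b]

end Cfsg.Agent.S5394
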