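import Cfsg.Statements.S5396
import Cfsg.Agent.H28_XspC

set_option autoImplicit false
open Cfsg

namespace Cfsg.Agent.S5396

open Cfsg Cfsg.Agent Cfsg.Agent.H28 Cfsg.Agent.H16.Quad



/-- For every n ≥ 1 there exist finite extraspecial 2-groups of order 2^(2n+1) whose 2-rank (the largest rank of an elementary abelian subgroup) is n, and ones whose 2-rank is n + 1 (so for each such order there are two non-isomorphic extraspecial 2-groups, told apart by their 2-rank). -/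
theorem result (n : ℕ) (hn : 1 ≤ n) : ∀ r ∈ ({n, n + 1} : Set ℕ), ∃ (E : Type) (_ : Group E) (_ : Finite E), Cfsg.IsExtraspecial 2 E ∧ Nat.card E = 2 ^ (2 * n + 1) ∧ sSup {k : ℕ | ∃ A : Subgroup E, Cfsg.IsElementaryAbelian 2 A ∧ Nat.card A = 2 ^ k} = r := by
  intro r hr
  rcases hr with rfl | rfl
  · -- minus type
    obtain ⟨m, rfl⟩ : ∃ m, r = m + 1 := ⟨r - 1, by omega⟩
    have hab : ∀ z₁ z₂ : ZMod 2, z₁ ^ 2 + 1 * z₁ * z₂ + 1 * z₂ ^ 2 = 0 → z₁ = 0 ∧ z₂ = 0 := by decide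
    have h1 := minusQ_isMinus (F := ZMod 2) m hab
    have h2 := nd_minusQ (F := ZMod 2) m hab
    obtain ⟨E, i1, i2, h3, h4, h5⟩ := XspC.main (minusQ (ZMod 2) m 1 1) h2 (n := m + 1) (by omega) (by rw [h1.1]; ring)
      h1.exists_ts (fun U hU => h1.ts_le h2 hU)
    exact ⟨E, i1, i2, h3, h4, h5⟩
  · have h1 := plusQ_isPlus (F := ZMod 2) n
    have h2 := nd_plusQ (F := ZMod 2) n
    obtain ⟨E, i1, i2, h3, h4, h5⟩ := XspC.main (plusQ (ZMod 2) n) h2 (n := n) hn h1.1
      h1.exists_ts (fun U hU => by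
        have := ts_finrank_le h2 hU
        rw [h1.1] at this
        omega)
    exact ⟨E, i1, i2, h3, h4, h5⟩

end Cfsg.Agent.S5396
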