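import Cfsg.Statements.S5407
import Cfsg.Agent.H28_Mon3

set_option autoImplicit false
open Cfsg

namespace Cfsg.Agent.S5407

open Cfsg.Agent.H28.Mon



/-- Let G be a finite group of Monster type at the involution z with Q the extraspecial normal subgroup of order 2^25 of C = C_G(z) (so C/Q is identified with the first Conway group with Q modulo its centre the Leech lattice modulo 2, and z is not weakly closed in Q). Then under any such identification ψ of the Leech lattice modulo 2 with Q modulo its centre, an element x of Q is a conjugate of z other than z exactly when x modulo the centre is the image under ψ of a lattice vector of squared length 64 in the coordinates used here, that is, of norm 8 in the customary normalisation in which the minimal vectors have norm 4 (twice the minimal norm). -/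
theorem result {G : Type*} [Group G] [Finite G] (z : G) (Q : Subgroup (Subgroup.centralizer ({z} : Set G))) [Q.Normal] (hM : Cfsg.IsOfMonsterType z Q) (e : (Subgroup.centralizer ({z} : Set G)) ⧸ Q ≃* Cfsg.Spor.Co1) (ψ : Cfsg.leechLattice → Q ⧸ Subgroup.center Q) (hψ : Cfsg.IsLeechModTwoIso Q e ψ) (x : Q) : (IsConj z ((x : Subgroup.centralizer ({z} : Set G)) : G) ∧ ((x : Subgroup.centralizer ({z} : Set G)) : G) ≠ z) ↔ ∃ v : Cfsg.leechLattice, Cfsg.sqNorm (v : Cfsg.GolayPt → ℤ) = 64 ∧ ψ v = QuotientGroup.mk x := by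
  obtain ⟨hS, -, -, -⟩ := hM
  have M := ms_of hS hψ
  constructor
  · rintro ⟨hc, hne⟩
    obtain ⟨g, hg⟩ := isConj_iff.1 hc
    obtain ⟨v, ⟨q, hq, hqx⟩, h1⟩ := M.type4 (xr_of hS (mem_Qm.2 ⟨x, rfl⟩) hne hg)
    have : q = x := Subtype.ext (Subtype.ext hqx)
    rw [this] at hq
    exact ⟨v, h1, hq⟩
  · rintro ⟨v, h1, hv⟩
    obtain ⟨g, ⟨hgc, hgQ⟩, hgz⟩ := hS.2.2.2.2
    have hgQ' : g * z * g⁻¹ ∈ Qm Q := mem_Qm_of ⟨hgc, hgQ⟩
    obtain ⟨v0, hv0, h0⟩ := M.type4 (xr_of hS hgQ' hgz rfl)
    have hv' : RelD ψ v ((x : Subgroup.centralizer ({z} : Set G)) : G) := ⟨x, hv, rfl⟩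
    obtain ⟨c, -, hcs⟩ := M.conj_of_type hv0 hv' (Or.inr (Or.inr ⟨h0, h1⟩))
    refine ⟨isConj_iff.2 ⟨c * g, by rw [← hcs]; group⟩, ?_⟩
    have hn : ¬ H28.M2L.Cg v 0 := by
      apply H28.M2A.not_cg_zero (le_of_eq h1)
      rintro rfl
      rw [show Cfsg.sqNorm ((0 : Cfsg.leechLattice) : Cfsg.GolayPt → ℤ) = 0 from H7.Co.nm_zero_iff.2 rfl] at h1
      norm_num at h1
    exact (M.ne_of hv' hn).2

end Cfsg.Agent.S5407
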