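import Cfsg.Statements.S5408
import Cfsg.Agent.H28_Mon3

set_option autoImplicit false
open Cfsg

namespace Cfsg.Agent.S5408

open Cfsg.Agent.H28.Mon



/-- Let G be a finite group of Monster type at the involution z with Q the extraspecial normal subgroup of order 2^25 of C = C_G(z) (so C/Q is identified with the first Conway group with Q modulo its centre the Leech lattice modulo 2, and z is not weakly closed in Q). Then Q is of plus type: it contains an elementary abelian subgroup of order 2^13. -/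
theorem result {G : Type*} [Group G] [Finite G] (z : G) (Q : Subgroup (Subgroup.centralizer ({z} : Set G))) [Q.Normal] (hM : Cfsg.IsOfMonsterType z Q) : ∃ E : Subgroup Q, Cfsg.IsElementaryAbelian 2 E ∧ Nat.card E = 2 ^ 13 := by
  obtain ⟨hS, e, ψ, hI⟩ := hM
  have M := ms_of hS hI
  obtain ⟨g, ⟨hgc, hgQ⟩, hgz⟩ := hS.2.2.2.2
  have hgQ' : g * z * g⁻¹ ∈ Qm Q := mem_Qm_of ⟨hgc, hgQ⟩
  have S := xr_of hS hgQ' hgz rfl
  obtain ⟨v, -, -, a, -, h, -⟩ := M.main4 S
  set E : Subgroup G := Qm Q ⊓ (Qm Q).map (MulAut.conj g).toMonoidHom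
  let f : Q →* G := (Subgroup.centralizer ({z} : Set G)).subtype.comp Q.subtype
  have hf : Function.Injective f := (Subgroup.centralizer ({z} : Set G)).subtype_injective.comp Q.subtype_injective
  have hE : E ≤ f.range := by
    intro x hx
    obtain ⟨q, hq⟩ := mem_Qm.1 hx.1
    exact ⟨q, hq⟩
  have hmap : (E.comap f).map f = E := by
    rw [Subgroup.map_comap_eq]
    exact inf_eq_right.2 hE
  refine ⟨E.comap f, ⟨⟨⟨?_⟩⟩, ?_⟩, ?_⟩
  · rintro ⟨x, hx⟩ ⟨y, hy⟩
    apply Subtype.ext
    apply hf
    have := MS.E_comm S.h.toXsp S.h'.toXsp S.hxz hx hy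
    rw [← map_mul, ← map_mul] at this
    exact this
  · intro x hx
    apply hf
    have := MS.E_sq S.h.toXsp S.h'.toXsp S.hxz hx
    rw [← map_mul, ← pow_two] at this
    rw [map_one]
    exact this
  · rw [← h]
    conv_rhs => rw [← hmap]
    exact Nat.card_congr ((E.comap f).equivMapOfInjective f hf).toEquiv

end Cfsg.Agent.S5408
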