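import Cfsg.Statements.S5410
import Cfsg.Agent.H28_Mon3

set_option autoImplicit false
open Cfsg

namespace Cfsg.Agent.S5410

open Cfsg Cfsg.Agent.H28.Mon Cfsg.Agent.H28.Large Cfsg.Agent.H7.Co Cfsg.Agent.H7.Co3 Cfsg.Agent.H7.Co4 Cfsg.Agent.H7.Co5 Cfsg.Agent.H7.Co6 Cfsg.Agent.H28.M2L Cfsg.Agent.H28.M2A Cfsg.Agent.H28.M2N



/-- Let G be a finite group of Monster type at the involution z with Q the extraspecial normal subgroup of order 2^25 of C = C_G(z) (so C/Q is identified with the first Conway group with Q modulo its centre the Leech lattice modulo 2, and z is not weakly closed in Q). Let g in G with s = g z g⁻¹ a member of Q other than z, let X be the image in C/Q of the centralizer of s in C, and let E be the image in C/Q of the intersection of g Q g⁻¹ with C. Then E is a normal subgroup of X, elementary abelian of order 2^11, and it has a complement in X isomorphic to the Mathieu group of degree 24 (the automorphism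 group of the length-24 binary Golay code). -/
theorem result {G : Type*} [Group G] [Finite G] (z : G) (Q : Subgroup (Subgroup.centralizer ({z} : Set G))) [Q.Normal] (hM : Cfsg.IsOfMonsterType z Q) (s : G) (hsQ : ∃ hsc : s ∈ Subgroup.centralizer ({z} : Set G), (⟨s, hsc⟩ : Subgroup.centralizer ({z} : Set G)) ∈ Q) (hs : IsConj z s) (hs1 : s ≠ z) (g : G) (hg : g * z * g⁻¹ = s) (X E : Subgroup ((Subgroup.centralizer ({z} : Set G)) ⧸ Q)) (hX : X = ((Subgroup.centralizer ({z} : Set G) ⊓ Subgroup.centralizer ({s} : Set G)).subgroupOf (Subgroup.centralizer ({z} : Set G))).map (QuotientGroup.mk' Q)) (hE : E = (((Q.map (Subgroup.centralizer ({z} : Set G)).subtype).map (MulAut.conj g).toMonoidHom ⊓ Subgroup.centralizer ({z} : Set G)).subgroupOf (Subgroup.centralizer ({z} : Set G))).map (QuotientGroup.mk' Q)) : E ≤ X ∧ (∀ x ∈ X, ∀ y ∈ E, x * y * x⁻¹ ∈ E) ∧ Cfsg.IsElementaryAbelian 2 E ∧ Nat.card E = 2 ^ 11 ∧ ∃ K : Subgroup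 ((Subgroup.centralizer ({z} : Set G)) ⧸ Q), K ≤ X ∧ E ⊓ K = ⊥ ∧ E ⊔ K = X ∧ Nonempty (K ≃* Cfsg.M24) := by
  obtain ⟨hS, e, ψ, hI⟩ := hM
  have M := ms_of hS hI
  have S := xr_of hS (mem_Qm_of hsQ) hs1 hg
  obtain ⟨v, hv, h64, a, ha, hcard, him, hcs⟩ := M.main4 S
  have h0 : ¬ Cg v 0 := by
    apply not_cg_zero (by omega)
    rintro rfl
    rw [nm_zero_iff.2 rfl] at h64
    omega
  set Q' : Subgroup G := (Qm Q).map (MulAut.conj g).toMonoidHom with hQ'
  -- the homomorphism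
  let T : Co0 →* ((Subgroup.centralizer ({z} : Set G)) ⧸ Q) := e.symm.toMonoidHom.comp (QuotientGroup.mk' (Subgroup.center Co0))
  have hT : ∀ γ c, ActD e γ c ↔ ∃ hc : c ∈ Subgroup.centralizer ({z} : Set G), T γ = QuotientGroup.mk ⟨c, hc⟩ := by
    intro γ c
    constructor
    · rintro ⟨hc, h⟩
      refine ⟨hc, ?_⟩
      show e.symm (QuotientGroup.mk γ) = _
      rw [h, e.symm_apply_apply]
    · rintro ⟨hc, h⟩
      refine ⟨hc, ?_⟩
      rw [← h]
      show _ = e (e.symm (QuotientGroup.mk γ))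
      rw [e.apply_symm_apply]
  have hTk : ∀ γ, T γ = 1 ↔ γ = 1 ∨ γ = m1 := by
    intro γ
    rw [← center_eq, ← QuotientGroup.eq_one_iff]
    show e.symm (QuotientGroup.mk γ) = 1 ↔ _
    rw [MulEquivClass.map_eq_one_iff]
  have hXmem : ∀ x, x ∈ X ↔ ∃ γ ∈ cs v, T γ = x := by
    intro x
    rw [hX]
    constructor
    · rintro ⟨c, ⟨hc1, hc2⟩, rfl⟩
      obtain ⟨γ, hγ⟩ := M.act_ex' (c := (c : G)) (Subgroup.mem_centralizer_singleton_iff.1 hc1)
      refine ⟨γ, M.cs_of_comm hv hγ ?_, ?_⟩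
      · have h1 : (c : G) * s = s * c := Subgroup.mem_centralizer_singleton_iff.1 hc2
        rw [h1, mul_inv_cancel_right]
      · obtain ⟨hc, h⟩ := (hT _ _).1 hγ
        exact h
    · rintro ⟨γ, hγ, rfl⟩
      obtain ⟨c, hc, hcs'⟩ := M.lift_cs hv h0 hγ
      obtain ⟨hc', h⟩ := (hT _ _).1 hc
      exact ⟨⟨c, hc'⟩, ⟨hc', Subgroup.mem_centralizer_singleton_iff.2 hcs'⟩, h.symm⟩
  have hEmem : ∀ x, x ∈ E ↔ ∃ γ ∈ M.im (XR.P Q' z), T γ = x := by
    intro x
    rw [hE]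
    constructor
    · rintro ⟨c, ⟨hc1, hc2⟩, rfl⟩
      have hcz : (c : G) * z = z * c := Subgroup.mem_centralizer_singleton_iff.1 hc2
      obtain ⟨γ, hγ⟩ := M.act_ex' (c := (c : G)) hcz
      refine ⟨γ, ⟨c, XR.mem_P.2 ⟨hc1, hcz⟩, hγ⟩, ?_⟩
      obtain ⟨hc, h⟩ := (hT _ _).1 hγ
      exact h
    · rintro ⟨γ, ⟨p, hp, hγ⟩, rfl⟩
      obtain ⟨hc', h⟩ := (hT _ _).1 hγ
      exact ⟨⟨p, hc'⟩, ⟨(XR.mem_P.1 hp).1, hc'⟩, h.symm⟩
  have hcen : ∀ γ : Co0, m1 * γ = γ * m1 := fun γ =>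
    (Subgroup.mem_center_iff.1 ((center_eq m1).2 (Or.inr rfl)) γ).symm
  have hm1D : m1 ∈ DD := by
    have h1 := (him m1).1 (M.m1_mem_im _)
    rwa [← hcen a, mul_inv_cancel_right] at h1
  let J : Co0 →* ((Subgroup.centralizer ({z} : Set G)) ⧸ Q) := T.comp (MulAut.conj a⁻¹).toMonoidHom
  have hJ : ∀ δ, J δ = T (a⁻¹ * δ * a) := by
    intro δ
    show T (a⁻¹ * δ * a⁻¹⁻¹) = _
    rw [inv_inv]
  have hJk : ∀ δ, J δ = 1 ↔ δ = 1 ∨ δ = m1 := by
    intro δ
    rw [hJ, hTk]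
    constructor
    · rintro (h | h)
      · left
        have : δ = a * (a⁻¹ * δ * a) * a⁻¹ := by group
        rw [this, h]; group
      · right
        have : δ = a * (a⁻¹ * δ * a) * a⁻¹ := by group
        rw [this, h, ← hcen a, mul_inv_cancel_right]
    · rintro (rfl | rfl)
      · left; group
      · right; rw [← hcen, inv_mul_cancel_right]
  have hXJ : ∀ x, x ∈ X ↔ ∃ δ ∈ NN, J δ = x := by
    intro x
    rw [hXmem]
    constructor
    · rintro ⟨γ, hγ, rfl⟩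
      refine ⟨_, (hcs γ).1 hγ, ?_⟩
      rw [hJ]; congr 1; group
    · rintro ⟨δ, hδ, rfl⟩
      refine ⟨a⁻¹ * δ * a, ?_, (hJ δ).symm⟩
      rw [hcs]
      have : a * (a⁻¹ * δ * a) * a⁻¹ = δ := by group
      rw [this]; exact hδ
  have hEJ : ∀ x, x ∈ E ↔ ∃ δ ∈ DD, J δ = x := by
    intro x
    rw [hEmem]
    constructor
    · rintro ⟨γ, hγ, rfl⟩
      refine ⟨_, (him γ).1 hγ, ?_⟩
      rw [hJ]; congr 1; group
    · rintro ⟨δ, hδ, rfl⟩
      refine ⟨a⁻¹ * δ * a, ?_, (hJ δ).symm⟩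
      rw [him]
      have : a * (a⁻¹ * δ * a) * a⁻¹ = δ := by group
      rw [this]; exact hδ
  have hinj : Function.Injective (J.comp mon) := by
    rw [injective_iff_map_eq_one]
    intro σ hσ
    have h1 : J (mon σ) = 1 := hσ
    rw [hJk] at h1
    apply DD_inf_mon
    rcases h1 with h1 | h1
    · rw [h1]; exact one_mem _
    · rw [h1]; exact hm1D
  refine ⟨?_, ?_, ⟨⟨⟨?_⟩⟩, ?_⟩, ?_, (J.comp mon).range, ?_, ?_, ?_, ⟨(MonoidHom.ofInjective hinj).symm⟩⟩
  · intro x hx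
    obtain ⟨δ, hδ, rfl⟩ := (hEJ x).1 hx
    exact (hXJ _).2 ⟨δ, DD_le hδ, rfl⟩
  · intro x hx y hy
    obtain ⟨γ, hγ, rfl⟩ := (hXmem x).1 hx
    obtain ⟨δ, hδ, rfl⟩ := (hEmem y).1 hy
    rw [hEmem]
    exact ⟨_, M.im_normal S hv h0 hγ hδ, by rw [map_mul, map_mul, map_inv]⟩
  · rintro ⟨x, hx⟩ ⟨y, hy⟩
    obtain ⟨γ, hγ, rfl⟩ := (hEJ x).1 hx
    obtain ⟨δ, hδ, rfl⟩ := (hEJ y).1 hy
    apply Subtype.ext
    show J γ * J δ = J δ * J γ
    rw [← map_mul, ← map_mul, DD_comm hγ hδ]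
  · intro x hx
    obtain ⟨γ, hγ, rfl⟩ := (hEJ x).1 hx
    rw [pow_two, ← map_mul, DD_sq hγ, map_one]
  · have hcount := M.count S
    rw [hcard] at hcount
    have hfin : Finite ((Subgroup.centralizer ({z} : Set G)) ⧸ Q) := inferInstance
    have key := double_count (E : Set ((Subgroup.centralizer ({z} : Set G)) ⧸ Q)) (M.im (XR.P Q' z) : Set Co0) (Set.toFinite _) (Set.toFinite _)
      (fun x γ => T γ = x) 2 1 ?_ ?_
    · have e1 : (E : Set ((Subgroup.centralizer ({z} : Set G)) ⧸ Q)).ncard = Nat.card E := rfl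
      have e2 : (M.im (XR.P Q' z) : Set Co0).ncard = Nat.card (M.im (XR.P Q' z)) := rfl
      rw [e1, e2] at key
      omega
    · intro x hx
      obtain ⟨γ, hγ, rfl⟩ := (hEmem x).1 hx
      have : {b | b ∈ (M.im (XR.P Q' z) : Set Co0) ∧ T b = T γ} = {γ, m1 * γ} := by
        ext b
        constructor
        · rintro ⟨hb, hb'⟩
          have h1 : T (b * γ⁻¹) = 1 := by rw [map_mul, hb', map_inv, mul_inv_cancel]
          rcases (hTk _).1 h1 with h2 | h2
          · left; exact mul_inv_eq_one.1 h2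
          · right; exact mul_inv_eq_iff_eq_mul.1 h2
        · rintro (rfl | rfl)
          · exact ⟨hγ, rfl⟩
          · refine ⟨mul_mem (M.m1_mem_im _) hγ, ?_⟩
            rw [map_mul, (hTk m1).2 (Or.inr rfl), one_mul]
      rw [this]
      apply Set.ncard_pair
      intro h
      apply m1_ne
      have h1 : (1 : Co0) * γ = m1 * γ := by rw [one_mul]; exact h
      exact (mul_right_cancel h1).symm
    · intro γ hγ
      have : {x | x ∈ (E : Set ((Subgroup.centralizer ({z} : Set G)) ⧸ Q)) ∧ T γ = x} = {T γ} := by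
        ext x
        constructor
        · rintro ⟨_, h⟩; exact h.symm
        · rintro rfl; exact ⟨(hEmem _).2 ⟨γ, hγ, rfl⟩, rfl⟩
      rw [this, Set.ncard_singleton]
  · rintro x ⟨σ, rfl⟩
    exact (hXJ _).2 ⟨mon σ, mon_mem σ, rfl⟩
  · rw [Subgroup.eq_bot_iff_forall]
    rintro x ⟨hx, σ, rfl⟩
    obtain ⟨δ, hδ, h⟩ := (hEJ _).1 hx
    have h1 : J (δ⁻¹ * mon σ) = 1 := by
      rw [map_mul, map_inv, h]
      exact inv_mul_cancel _
    have h2 : mon σ ∈ DD := by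
      have h3 : mon σ = δ * (δ⁻¹ * mon σ) := by group
      rw [h3]
      apply mul_mem hδ
      rcases (hJk _).1 h1 with h4 | h4
      · rw [h4]; exact one_mem _
      · rw [h4]; exact hm1D
    rw [DD_inf_mon h2, map_one]
  · apply le_antisymm
    · apply sup_le
      · intro x hx
        obtain ⟨δ, hδ, rfl⟩ := (hEJ x).1 hx
        exact (hXJ _).2 ⟨δ, DD_le hδ, rfl⟩
      · rintro x ⟨σ, rfl⟩
        exact (hXJ _).2 ⟨mon σ, mon_mem σ, rfl⟩
    · intro x hx
      obtain ⟨δ, hδ, rfl⟩ := (hXJ x).1 hx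
      obtain ⟨d, hd, σ, rfl⟩ := NN_split hδ
      rw [map_mul]
      exact mul_mem (Subgroup.mem_sup_left ((hEJ _).2 ⟨d, hd, rfl⟩)) (Subgroup.mem_sup_right ⟨σ, rfl⟩)

end Cfsg.Agent.S5410
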