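import Cfsg.Statements.S5411
import Cfsg.Agent.H28_Mon3

set_option autoImplicit false
open Cfsg

namespace Cfsg.Agent.S5411

open Cfsg.Agent.H28.Mon



/-- Let G be a finite group of Monster type at the involution z with Q the extraspecial normal subgroup of order 2^25 of C = C_G(z) (so C/Q is identified with the first Conway group with Q modulo its centre the Leech lattice modulo 2, and z is not weakly closed in Q). Then C acts transitively by conjugation on the involutions of Q that are not conjugate to z in G. -/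
theorem result {G : Type*} [Group G] [Finite G] (z : G) (Q : Subgroup (Subgroup.centralizer ({z} : Set G))) [Q.Normal] (hM : Cfsg.IsOfMonsterType z Q) (s t : G) (hsQ : ∃ hsc : s ∈ Subgroup.centralizer ({z} : Set G), (⟨s, hsc⟩ : Subgroup.centralizer ({z} : Set G)) ∈ Q) (htQ : ∃ htc : t ∈ Subgroup.centralizer ({z} : Set G), (⟨t, htc⟩ : Subgroup.centralizer ({z} : Set G)) ∈ Q) (hs2 : orderOf s = 2) (ht2 : orderOf t = 2) (hs : ¬ IsConj z s) (ht : ¬ IsConj z t) : ∃ h ∈ Subgroup.centralizer ({z} : Set G), h * s * h⁻¹ = t := by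
  obtain ⟨hS, e, ψ, hI⟩ := hM
  have M := ms_of hS hI
  obtain ⟨g, ⟨hgc, hgQ⟩, hgz⟩ := hS.2.2.2.2
  have hgQ' : g * z * g⁻¹ ∈ Qm Q := mem_Qm_of ⟨hgc, hgQ⟩
  obtain ⟨v0, hv0, h0⟩ := M.type4 (xr_of hS hgQ' hgz rfl)
  have key : ∀ s : G, s ∈ Qm Q → orderOf s = 2 → ¬ IsConj z s → ∃ v, RelD ψ v s ∧ H7.Co.Nm v = 32 := by
    intro s hsQ hs2 hs
    have h1 : s ≠ 1 := by
      rintro rfl
      rw [orderOf_one] at hs2
      norm_num at hs2
    have h2 : s ≠ z := by
      rintro rfl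
      exact hs (IsConj.refl _)
    have h3 : s * s = 1 := by
      have := pow_orderOf_eq_one s
      rw [hs2, pow_two] at this
      exact this
    obtain ⟨v, hv, h4⟩ := M.inv_type hsQ h1 h2 h3
    rcases h4 with h4 | h4
    · exact ⟨v, hv, h4⟩
    · exfalso
      apply hs
      obtain ⟨c, -, hcs⟩ := M.conj_of_type hv0 hv (Or.inr (Or.inr ⟨h0, h4⟩))
      rw [isConj_iff]
      exact ⟨c * g, by rw [← hcs]; group⟩
  obtain ⟨v, hv, h1⟩ := key s (mem_Qm_of hsQ) hs2 hs
  obtain ⟨w, hw, h2⟩ := key t (mem_Qm_of htQ) ht2 ht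
  obtain ⟨c, hc, hct⟩ := M.conj_of_type hv hw (Or.inl ⟨h1, h2⟩)
  exact ⟨c, Subgroup.mem_centralizer_singleton_iff.2 hc, hct⟩

end Cfsg.Agent.S5411
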