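import Cfsg.Statements.S5412
import Cfsg.Agent.H28_Mon7

set_option autoImplicit false
open Cfsg

namespace Cfsg.Agent.S5412

open Cfsg.Agent.H28.Mon



/-- Let G be a finite group of Monster type at the involution z with Q the extraspecial normal subgroup of order 2^25 of C = C_G(z) (so C/Q is identified with the first Conway group with Q modulo its centre the Leech lattice modulo 2, and z is not weakly closed in Q). Let t be an involution of Q not conjugate to z in G. Then the centralizer of t modulo the subgroup generated by t is a group of Baby Monster type (an involution whose centralizer D has generalized Fitting subgroup R extraspecial of order 2^23 with D/R identified with the second Conway group acting on R modulo its centre as on the vectors of the Leech lattice modulo 2 orthogonal to a short vector, modulo that vector; the involution not weakly closed in R). -/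
theorem result {G : Type*} [Group G] [Finite G] (z : G) (Q : Subgroup (Subgroup.centralizer ({z} : Set G))) [Q.Normal] (hM : Cfsg.IsOfMonsterType z Q) (t : G) (htQ : ∃ htc : t ∈ Subgroup.centralizer ({z} : Set G), (⟨t, htc⟩ : Subgroup.centralizer ({z} : Set G)) ∈ Q) (ht2 : orderOf t = 2) (ht : ¬ IsConj z t) [hn : ((Subgroup.zpowers t).subgroupOf (Subgroup.centralizer ({t} : Set G))).Normal] : Cfsg.IsOfBabyMonsterType (↥(Subgroup.centralizer ({t} : Set G)) ⧸ (Subgroup.zpowers t).subgroupOf (Subgroup.centralizer ({t} : Set G))) := by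
  obtain ⟨hS, e, ψ, hI⟩ := hM
  have M := ms_of hS hI
  obtain ⟨g, ⟨hgc, hgQ⟩, hgz⟩ := hS.2.2.2.2
  have hgQ' : g * z * g⁻¹ ∈ Qm Q := mem_Qm_of ⟨hgc, hgQ⟩
  have S := xr_of hS hgQ' hgz rfl
  obtain ⟨v, hv, hv32⟩ := M.type2_of_inv S (mem_Qm_of htQ) ht2 ht
  obtain ⟨b, hb⟩ := H7.Co.trans32 v Cfsg.Spor.leechU hv32 nmU
  have hzt : z ∈ HH t := by
    rw [Subgroup.mem_centralizer_singleton_iff]
    exact M.pre.zc t (mem_Qm_of htQ)
  have B : BM z t (Qm Q) (fun v x => RelD ψ (b⁻¹ • v) x) (fun g c => ActD e (b⁻¹ * g * b) c) :=
    ⟨M.twist b, by rw [← hb, inv_smul_smul]; exact hv, hzt⟩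
  exact B.main (hn := hn) S

end Cfsg.Agent.S5412
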