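import Cfsg.Statements.S5420
import Cfsg.Agent.H28_Xsp
import Cfsg.Agent.H1_Nilp

set_option autoImplicit false
open Cfsg
open scoped commutatorElement

namespace Cfsg.Agent.S5420

open Cfsg.Agent.H28.Xsp

/-- Let Q be an extraspecial 2-subgroup of the finite group G whose centralizer in G is its centre Z and which is normal in the centralizer of Z. If Z lies in the largest normal 2-subgroup of G, then Q is a large extraspecial 2-subgroup of G: it normalizes no non-trivial subgroup of G of odd order. -/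
theorem result {G : Type*} [Group G] [Finite G] (Q : Subgroup G) (hL1 : Cfsg.IsExtraspecial 2 ↥Q) (hL2 : Subgroup.centralizer (Q : Set G) = ((Subgroup.center ↥Q).map Q.subtype)) (hL3 : Subgroup.centralizer (((Subgroup.center ↥Q).map Q.subtype) : Set G) ≤ Subgroup.normalizer (Q : Set G)) (hZ : ((Subgroup.center ↥Q).map Q.subtype) ≤ Cfsg.pCore 2 G) : Cfsg.IsLargeExtraspecial Q := by
  haveI : Fact (Nat.Prime 2) := ⟨Nat.prime_two⟩
  obtain ⟨z, h⟩ := Xsp.exists_of_isExtraspecial hL1
  refine ⟨hL1, hL2, hL3, ?_⟩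
  intro K hK hQK
  rw [h.center_map] at hL2 hL3 hZ
  have hzO : z ∈ Cfsg.pCore 2 G := hZ (Subgroup.mem_zpowers z)
  haveI hN : (Cfsg.pCore 2 G).Normal := H1.Nilp.pCore_normal 2
  have hdisj : K ⊓ Cfsg.pCore 2 G = ⊥ := by
    apply Subgroup.eq_bot_of_card_eq
    have h1 : Nat.card (K ⊓ Cfsg.pCore 2 G : Subgroup G) ∣ Nat.card K :=
      Subgroup.card_dvd_of_le inf_le_left
    obtain ⟨n, hn⟩ := ((H1.Nilp.pCore_isPGroup (G := G) 2).to_le inf_le_right : IsPGroup 2 (K ⊓ Cfsg.pCore 2 G : Subgroup G)).exists_card_eq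
    rw [hn] at h1 ⊢
    rcases n with _ | n
    · rfl
    · exfalso
      have h2 : 2 ∣ Nat.card K := (dvd_pow_self 2 (by omega)).trans h1
      rw [← Nat.not_even_iff_odd] at hK
      exact hK (even_iff_two_dvd.mpr h2)
  have hKz : K ≤ Subgroup.centralizer ((Subgroup.zpowers z : Subgroup G) : Set G) := by
    intro k hk
    have h1 : k * z * k⁻¹ * z⁻¹ ∈ K ⊓ Cfsg.pCore 2 G := by
      rw [Subgroup.mem_inf]
      constructor
      · have h2 : z * k⁻¹ * z⁻¹ ∈ K := by
          have := (Subgroup.mem_normalizer_iff.mp (hQK h.mem) k⁻¹).mp (K.inv_mem hk)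
          exact this
        have : k * z * k⁻¹ * z⁻¹ = k * (z * k⁻¹ * z⁻¹) := by group
        rw [this]; exact K.mul_mem hk h2
      · exact mul_mem (hN.conj_mem z hzO k) (inv_mem hzO)
    rw [hdisj, Subgroup.mem_bot] at h1
    have h2 : k * z = z * k := by
      rw [mul_inv_eq_one, mul_inv_eq_iff_eq_mul] at h1
      exact h1
    rw [Subgroup.mem_centralizer_iff]
    intro y hy
    rw [SetLike.mem_coe, mem_zpowers_of_sq h.sq] at hy
    rcases hy with rfl | rfl
    · simp
    · exact h2.symm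
  have hKQ : K ≤ Subgroup.centralizer (Q : Set G) := by
    intro k hk
    rw [Subgroup.mem_centralizer_iff]
    intro q hq
    have hkN := hL3 (hKz hk)
    have h1 : k * q * k⁻¹ ∈ Q := (Subgroup.mem_normalizer_iff.mp hkN q).mp hq
    have h2 : q * k⁻¹ * q⁻¹ ∈ K := (Subgroup.mem_normalizer_iff.mp (hQK hq) k⁻¹).mp (K.inv_mem hk)
    have h3 : k * q * k⁻¹ * q⁻¹ ∈ K ⊓ Q := by
      rw [Subgroup.mem_inf]
      constructor
      · have : k * q * k⁻¹ * q⁻¹ = k * (q * k⁻¹ * q⁻¹) := by group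
        rw [this]; exact K.mul_mem hk h2
      · exact Q.mul_mem h1 (Q.inv_mem hq)
    have h4 : K ⊓ Q = ⊥ := by
      apply Subgroup.eq_bot_of_card_eq
      have h1 : Nat.card (K ⊓ Q : Subgroup G) ∣ Nat.card K :=
        Subgroup.card_dvd_of_le inf_le_left
      obtain ⟨n, hn⟩ := (h.isPGroup.to_le inf_le_right : IsPGroup 2 (K ⊓ Q : Subgroup G)).exists_card_eq
      rw [hn] at h1 ⊢
      rcases n with _ | n
      · rfl
      · exfalso
        have h2 : 2 ∣ Nat.card K := (dvd_pow_self 2 (by omega)).trans h1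
        rw [← Nat.not_even_iff_odd] at hK
        exact hK (even_iff_two_dvd.mpr h2)
    rw [h4, Subgroup.mem_bot, mul_inv_eq_one, mul_inv_eq_iff_eq_mul] at h3
    exact h3.symm
  rw [hL2] at hKQ
  apply Subgroup.eq_bot_of_card_eq
  have h1 : Nat.card K ∣ 2 := by
    rw [← h.card_zpowers]; exact Subgroup.card_dvd_of_le hKQ
  rcases (Nat.dvd_prime Nat.prime_two).mp h1 with h2 | h2
  · exact h2
  · rw [h2] at hK
    exact absurd hK (by decide)

end Cfsg.Agent.S5420
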