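import Cfsg.Statements.S5422
import Cfsg.Agent.H28_FourGrp

set_option autoImplicit false
open Cfsg

namespace Cfsg.Agent.S5422

open Cfsg.Agent.H28.Xsp Cfsg.Agent.H28.Large

/-- Let Q be an extraspecial 2-subgroup of the finite group G whose centralizer in G is its centre Z and which is normal in the centralizer of Z; suppose Q has width at least 2 (order 2^(2w+1) with w ≥ 2) and g is an element of G not normalizing Z with g Z g⁻¹ inside Q. Then Z lies inside g Q g⁻¹; writing V for the subgroup generated by Z and g Z g⁻¹ (a four-group), the normalizer of V induces on V its full automorphism group, that is, the centralizer of V has index 6 in the normalizer of V; and Q is a large extraspecial 2-subgroup of G. -/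
theorem result {G : Type*} [Group G] [Finite G] (Q : Subgroup G) (hL1 : Cfsg.IsExtraspecial 2 ↥Q) (hL2 : Subgroup.centralizer (Q : Set G) = ((Subgroup.center ↥Q).map Q.subtype)) (hL3 : Subgroup.centralizer (((Subgroup.center ↥Q).map Q.subtype) : Set G) ≤ Subgroup.normalizer (Q : Set G)) (w : ℕ) (hw : 2 ≤ w) (hcard : Nat.card ↥Q = 2 ^ (2 * w + 1)) (g : G) (hg : g ∉ Subgroup.normalizer (((Subgroup.center ↥Q).map Q.subtype) : Set G)) (hZg : (((Subgroup.center ↥Q).map Q.subtype)).map (MulAut.conj g).toMonoidHom ≤ Q) : ((Subgroup.center ↥Q).map Q.subtype) ≤ (Q).map (MulAut.conj g).toMonoidHom ∧ (Subgroup.centralizer ((((Subgroup.center ↥Q).map Q.subtype) ⊔ (((Subgroup.center ↥Q).map Q.subtype)).map (MulAut.conj g).toMonoidHom : Subgroup G) : Set G)).relIndex (Subgroup.normalizer ((((Subgroup.center ↥Q).map Q.subtype) ⊔ (((Subgroup.center ↥Q).map Q.subtype)).map (MulAut.conj g).toMonoidHom : Subgroup G) : Set G)) = 6 ∧ Cfsg.IsLargeExtraspecial Q := by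
  obtain ⟨z, h⟩ := Pre.exists_of hL1 hL2 hL3
  rw [h.center_map] at hg hZg ⊢
  set x := g * z * g⁻¹ with hx
  have hmap : (Subgroup.zpowers z).map (MulAut.conj g).toMonoidHom = Subgroup.zpowers x := by
    rw [MonoidHom.map_zpowers]; rfl
  rw [hmap] at hZg ⊢
  have hxQ : x ∈ Q := hZg (Subgroup.mem_zpowers x)
  have hzQ' := h.sym_conj g hxQ
  have h' := h.conj g
  rw [← hx] at h'
  have hxz : x ≠ z := by
    intro h1
    apply hg
    apply Subgroup.centralizer_le_normalizer
    rw [centralizer_zpowers_eq, Subgroup.mem_centralizer_singleton_iff, ← mul_inv_eq_iff_eq_mul,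
      ← hx, h1]
  have hzx : z * x = x * z := h.zc x hxQ
  refine ⟨by rw [Subgroup.zpowers_le]; exact hzQ', ?_, ?_⟩
  · have hV : Subgroup.zpowers z ⊔ Subgroup.zpowers x = Subgroup.closure ({x, z} : Set G) := by
      apply le_antisymm
      · apply sup_le
        · rw [Subgroup.zpowers_le]; exact Subgroup.subset_closure (by simp)
        · rw [Subgroup.zpowers_le]; exact Subgroup.subset_closure (by simp)
      · rw [Subgroup.closure_le]
        intro y hy
        rcases hy with hy | hy
        · rw [hy]; exact Subgroup.mem_sup_right (Subgroup.mem_zpowers x)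
        · rw [Set.mem_singleton_iff] at hy
          rw [hy]; exact Subgroup.mem_sup_left (Subgroup.mem_zpowers z)
    rw [hV]
    obtain ⟨q, hq, hqx⟩ := h.exists_move hxQ h'.ne hxz
    obtain ⟨y, hy, hyz⟩ := h'.exists_move hzQ' h.ne hxz.symm
    exact relIndex_six h'.ne h.ne hxz h'.sq h.sq hzx
      (by rw [← h.zc q hq, mul_inv_cancel_right]) hqx
      (by rw [← h'.zc y hy, mul_inv_cancel_right]) (by rw [hyz, hzx])
  · apply h.large_of_core hxQ h'.ne hxz h'.sq (Q.map (MulAut.conj g).toMonoidHom)
      (h.isPGroup.map _) hzQ'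
    intro c hc n hn
    exact h'.conj_mem_of_comm hc hn

end Cfsg.Agent.S5422
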