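import Cfsg.Statements.S5423
import Cfsg.Agent.H28_Hol3

set_option autoImplicit false
open Cfsg

namespace Cfsg.Agent.S5423

open Subgroup

/-- Let G be a finite group that is the split extension of an elementary abelian normal subgroup U of order 2^(n+1), n ≥ 1, by its full automorphism group: U has a complement M in G whose conjugation action on U is faithful and realizes every automorphism of U. Let Z be a subgroup of U of order 2 and Q the largest normal 2-subgroup of the centralizer C of Z. Then Q is extraspecial of order 2^(2n+1) with an elementary abelian subgroup of order 2^(n+1) (plus type), Q is a large extraspecial 2-subgroup of G, and C is the split extension of Q by the general linear group of degree n over the field with two elements. -/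
theorem result {G : Type*} [Group G] [Finite G] (n : ℕ) (hn : 1 ≤ n) (U M : Subgroup G) [U.Normal] (hU : Cfsg.IsElementaryAbelian 2 U) (hUcard : Nat.card ↥U = 2 ^ (n + 1)) (hUM : U ⊓ M = ⊥) (hUM' : U ⊔ M = ⊤) (hfaith : ∀ m ∈ M, (∀ u ∈ U, m * u * m⁻¹ = u) → m = 1) (hfull : ∀ φ : ↥U ≃* ↥U, ∃ m ∈ M, ∀ u : ↥U, ((φ u : ↥U) : G) = m * u * m⁻¹) (Z : Subgroup G) (hZU : Z ≤ U) (hZ : Nat.card ↥Z = 2) (Q : Subgroup G) (hQ : Q = (Cfsg.pCore 2 ↥(Subgroup.centralizer (Z : Set G))).map (Subgroup.centralizer (Z : Set G)).subtype) : Cfsg.IsExtraspecial 2 ↥Q ∧ Nat.card ↥Q = 2 ^ (2 * n + 1) ∧ (∃ E : Subgroup G, E ≤ Q ∧ Cfsg.IsElementaryAbelian 2 E ∧ Nat.card ↥E = 2 ^ (n + 1)) ∧ Cfsg.IsLargeExtraspecial Q ∧ ∃ K : Subgroup G, K ≤ Subgroup.centralizer (Z : Set G) ∧ Q ⊓ K = ⊥ ∧ Q ⊔ K = Subgroup.centralizer (Z : Set G) ∧ Nonempty (↥K ≃* Matrix.GeneralLinearGroup (Fin n) (ZMod 2)) := by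
  obtain ⟨z, hzZ, hz1⟩ : ∃ z ∈ Z, z ≠ 1 := by
    by_contra hcon
    push Not at hcon
    have : Z = ⊥ := (Subgroup.eq_bot_iff_forall Z).mpr hcon
    rw [this, Subgroup.card_bot] at hZ
    exact absurd hZ (by norm_num)
  have hZz : Z = Subgroup.zpowers z := by
    symm
    apply Subgroup.eq_of_le_of_card_ge (by rw [Subgroup.zpowers_le]; exact hzZ)
    have h1 : orderOf z ∣ Nat.card Z := Subgroup.orderOf_dvd_natCard Z hzZ
    rw [hZ] at h1
    rw [hZ, Nat.card_zpowers]
    rcases (Nat.dvd_prime Nat.prime_two).mp h1 with h2 | h2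
    · rw [orderOf_eq_one_iff] at h2; exact absurd h2 hz1
    · rw [h2]
  have hcZ : Subgroup.centralizer (Z : Set G) = Subgroup.centralizer ({z} : Set G) := by
    rw [hZz]; exact H28.Large.centralizer_zpowers_eq z
  rw [hcZ] at hQ ⊢
  obtain ⟨T, μ, H, hT⟩ := H28.Hol.exists_hol n ⊤ U M hU hUcard (by rw [Subgroup.normalizer_eq_top]) le_top hUM
    (by rw [hUM']) hfaith hfull (fun _ _ _ _ _ => Subgroup.mem_top _) (hZU hzZ) hz1
  rw [← hT] at hQ ⊢
  exact H.all hn Q hQ

end Cfsg.Agent.S5423
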