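import Cfsg.Statements.S5427
import Cfsg.Agent.H28_FSet

set_option autoImplicit false
open Cfsg

namespace Cfsg.Agent.S5427

open Cfsg.Agent.H28.Xsp Cfsg.Agent.H28.Large

/-- Let z be an involution of the finite group G whose centralizer C has generalized Fitting subgroup Q, an extraspecial 2-group of width at least 2 (order 2^(2w+1), w ≥ 2). Let K be a subgroup of G such that the subgroup U generated by the K-conjugates of z is abelian and C is generated by the C-conjugates of U. Suppose that either some K-conjugate of z other than z lies in Q, or some element u of U ∩ Q outside the subgroup generated by z has z in the largest normal 2-subgroup of its centralizer. Then G is simple and Q is a large extraspecial 2-subgroup of G. -/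
theorem result {G : Type*} [Group G] [Finite G] (z : G) (hz : orderOf z = 2) (Q : Subgroup G) (hQC : Q ≤ Subgroup.centralizer ({z} : Set G)) (hF : (Cfsg.generalizedFittingSubgroup ↥(Subgroup.centralizer ({z} : Set G))).map (Subgroup.centralizer ({z} : Set G)).subtype = Q) (hQ : Cfsg.IsExtraspecial 2 ↥Q) (w : ℕ) (hw : 2 ≤ w) (hcard : Nat.card ↥Q = 2 ^ (2 * w + 1)) (K U : Subgroup G) (hU : U = Subgroup.closure {x : G | ∃ k ∈ K, x = k * z * k⁻¹}) (hUab : IsMulCommutative ↥U) (hgen : Subgroup.closure {x : G | ∃ c ∈ Subgroup.centralizer ({z} : Set G), ∃ u ∈ U, x = c * u * c⁻¹} = Subgroup.centralizer ({z} : Set G)) (h3 : (∃ k ∈ K, k * z * k⁻¹ ∈ Q ∧ k * z * k⁻¹ ≠ z) ∨ ∃ u ∈ U ⊓ Q, u ∉ Subgroup.zpowers z ∧ (∃ hz' : z ∈ Subgroup.centralizer ({u} : Set G), (⟨z, hz'⟩ : ↥(Subgroup.centralizer ({u} : Set G))) ∈ Cfsg.pCore 2 ↥(Subgroup.centralizer ({u} : Set G)))) : IsSimpleGroup G ∧ Cfsg.IsLargeExtraspecial Q := by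
  have h : Pre Q z := pre_of_F hz hF hQ
  have hlarge : Cfsg.IsLargeExtraspecial Q := by
    rcases h3 with ⟨k, _, hk1, hk2⟩ | ⟨u, hu, huz, hz', hcore⟩
    · exact h.large_of_conj k hk1 hk2
    · obtain ⟨huU, huQ⟩ := Subgroup.mem_inf.mp hu
      rw [mem_zpowers_of_sq h.sq] at huz
      push Not at huz
      have huu : u * u = 1 := by
        have hsq : ∀ v ∈ U, v * v = 1 := by
          intro v hv
          have hcomm : ∀ a ∈ U, ∀ b ∈ U, a * b = b * a := by
            intro a ha b hb
            have := hUab.is_comm.comm (⟨a, ha⟩ : U) ⟨b, hb⟩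
            exact congrArg Subtype.val this
          have hmem : v ∈ Subgroup.closure {x : G | ∃ k ∈ K, x = k * z * k⁻¹} := hU ▸ hv
          have hcl : ∀ w, w ∈ Subgroup.closure {x : G | ∃ k ∈ K, x = k * z * k⁻¹} → w ∈ U := by
            intro w hw; rw [hU]; exact hw
          induction hmem using Subgroup.closure_induction with
          | mem a ha =>
            obtain ⟨k, _, rfl⟩ := ha
            calc k * z * k⁻¹ * (k * z * k⁻¹) = k * (z * z) * k⁻¹ := by group
              _ = 1 := by rw [h.sq]; group
          | one => simp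
          | mul a b ha' hb' ha hb =>
            have ha'' := hcl a ha'
            have hb'' := hcl b hb'
            calc a * b * (a * b) = a * (b * a) * b := by group
              _ = a * (a * b) * b := by rw [hcomm a ha'' b hb'']
              _ = (a * a) * (b * b) := by group
              _ = 1 := by rw [ha ha'', hb hb'', one_mul]
          | inv a ha' ha =>
            have := ha (hcl a ha')
            rw [← mul_inv_rev, this, inv_one]
        exact hsq u huU
      exact h.large_of_core huQ huz.1 huz.2 huu (coreC u) (coreC_isPGroup u) ⟨⟨z, hz'⟩, hcore, rfl⟩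
        (fun c hc n hn => coreC_conj_mem u hc hn)
  refine ⟨?_, hlarge⟩
  have hnt : Nontrivial G := ⟨⟨z, 1, h.ne⟩⟩
  refine ⟨fun N hN => ?_⟩
  by_cases hN1 : N = ⊥
  · exact Or.inl hN1
  right
  have hzN : z ∈ N := h.mem_of_normal hlarge N hN1
  have hUN : U ≤ N := by
    rw [hU, Subgroup.closure_le]
    rintro _ ⟨k, _, rfl⟩
    exact hN.conj_mem z hzN k
  have hCN : Subgroup.centralizer ({z} : Set G) ≤ N := by
    rw [← hgen, Subgroup.closure_le]
    rintro _ ⟨c, _, u, hu, rfl⟩
    exact hN.conj_mem u (hUN hu) c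
  have hQN : Q ≤ N := hQC.trans hCN
  have := Cfsg.Agent.S5433.result Q hlarge N hQN
  rw [h.norm_eq, sup_eq_left.mpr hCN] at this
  exact this

end Cfsg.Agent.S5427
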