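import Cfsg.Statements.S5428
import Cfsg.Agent.H28_OddIdx

set_option autoImplicit false
open Cfsg

namespace Cfsg.Agent.S5428

open Cfsg.Agent.H28.Xsp Cfsg.Agent.H28.Large

/-- Let z be an involution of the finite group G with centralizer C whose generalized Fitting subgroup Q extraspecial (as a 2-group), let A be a subgroup of C of odd order, and let R be the centralizer of A in Q; suppose R has order at least 32, the largest normal subgroup of odd order of the centralizer of the subgroup generated by A and R lies in A, the order of that centralizer is not divisible by 4, and g is an element of G with g z g⁻¹ in R but outside the centre Z of Q. Let M be the subgroup generated by A and the centralizer of A (A is normal in it). Then: the centralizer in M of the subgroup generated by R and A, joined with A, equals the subgroup generated by A and Z; the image of R in M/A is a large extraspecial 2-subgroup of M/A; and g z g⁻¹ is conjugate to z inside the subgroup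 generated by R and the centralizer of A in g Q g⁻¹. -/
theorem result {G : Type*} [Group G] [Finite G] (z : G) (hz : orderOf z = 2) (Q : Subgroup G) (hQC : Q ≤ Subgroup.centralizer ({z} : Set G)) (hF : (Cfsg.generalizedFittingSubgroup ↥(Subgroup.centralizer ({z} : Set G))).map (Subgroup.centralizer ({z} : Set G)).subtype = Q) (hQ : Cfsg.IsExtraspecial 2 ↥Q) (A : Subgroup G) (hA : A ≤ Subgroup.centralizer ({z} : Set G)) (hAodd : Odd (Nat.card ↥A)) (R : Subgroup G) (hR : R = Q ⊓ Subgroup.centralizer (A : Set G)) (hR32 : 32 ≤ Nat.card ↥R) (hO : (Cfsg.oddCore ↥(Subgroup.centralizer ((A ⊔ R : Subgroup G) : Set G))).map (Subgroup.centralizer ((A ⊔ R : Subgroup G) : Set G)).subtype ≤ A) (h4 : ¬ 4 ∣ Nat.card ↥(Subgroup.centralizer ((A ⊔ R : Subgroup G) : Set G))) (g : G) (hgR : g * z * g⁻¹ ∈ R) (hgZ : g * z * g⁻¹ ∉ ((Subgroup.center ↥Q).map Q.subtype)) (M : Subgroup G) (hM : M = Subgroup.centralizer (A : Set G) ⊔ A) [hn : (A.subgroupOf M).Normal] : (M ⊓ Subgroup.centralizer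 ((R ⊔ A : Subgroup G) : Set G)) ⊔ A = A ⊔ ((Subgroup.center ↥Q).map Q.subtype) ∧ Cfsg.IsLargeExtraspecial ((R.subgroupOf M).map (QuotientGroup.mk' (A.subgroupOf M))) ∧ ∃ x ∈ R ⊔ ((Q).map (MulAut.conj g).toMonoidHom ⊓ Subgroup.centralizer (A : Set G)), x * (g * z * g⁻¹) * x⁻¹ = z := by
  have h : Pre Q z := pre_of_F hz hF hQ
  have hRmem : ∀ r, r ∈ R ↔ r ∈ Q ∧ ∀ a ∈ A, a * r = r * a := by
    intro r; rw [hR, Subgroup.mem_inf, Subgroup.mem_centralizer_iff]; rfl
  have hgQ : g * z * g⁻¹ ∈ Q := ((hRmem _).mp hgR).1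
  have h' := h.conj g
  have hzQ' := h.sym_conj g hgQ
  rw [h.center_map] at hgZ ⊢
  rw [mem_zpowers_of_sq h.sq] at hgZ
  push Not at hgZ
  obtain ⟨hx1, hxz⟩ := hgZ
  generalize hxdef : g * z * g⁻¹ = x at *
  set Q' := Q.map (MulAut.conj g).toMonoidHom with hQ'
  have hzx : z * x = x * z := h.zc x hgQ
  have hAz : ∀ a ∈ A, a * z = z * a := fun a ha => Subgroup.mem_centralizer_singleton_iff.mp (hA ha)
  have hAx : ∀ a ∈ A, a * x = x * a := ((hRmem x).mp hgR).2
  obtain ⟨q, hq, hqA, hqx⟩ := h.exists_cent_not_comm hAz hAodd hgQ hAx hx1 hxz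
  obtain ⟨y, hy, hyA, hyz⟩ := h'.exists_cent_not_comm hAx hAodd hzQ' hAz h.ne hxz.symm
  have hqx' : q * x * q⁻¹ = z * x := h.conj_eq_of_not_comm hq hgQ hqx
  have hyz' : y * z * y⁻¹ = x * z := h'.conj_eq_of_not_comm hy hzQ' hyz
  have hyx : y * x * y⁻¹ = x := by rw [← h'.zc y hy, mul_inv_cancel_right]
  have hu : (y * q) * x * (y * q)⁻¹ = z := by
    calc (y * q) * x * (y * q)⁻¹ = y * (q * x * q⁻¹) * y⁻¹ := by group
      _ = y * (z * x) * y⁻¹ := by rw [hqx']
      _ = (y * z * y⁻¹) * (y * x * y⁻¹) := by group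
      _ = (x * z) * x := by rw [hyz', hyx]
      _ = (z * x) * x := by rw [hzx]
      _ = z := by rw [mul_assoc, h'.sq, mul_one]
  have hqR : q ∈ R := (hRmem q).mpr ⟨hq, hqA⟩
  have hyR' : y ∈ Q' ⊓ Subgroup.centralizer (A : Set G) := by
    rw [Subgroup.mem_inf, Subgroup.mem_centralizer_iff]; exact ⟨hy, hyA⟩
  have hzR : z ∈ R := (hRmem z).mpr ⟨h.mem, hAz⟩
  have hCM : Subgroup.centralizer (A : Set G) ≤ M := by rw [hM]; exact le_sup_left
  have hAM : A ≤ M := by rw [hM]; exact le_sup_right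
  have hRC : R ≤ Subgroup.centralizer (A : Set G) := by rw [hR]; exact inf_le_right
  have hRM : R ≤ M := hRC.trans hCM
  -- D = C(A ⊔ R)
  set D := Subgroup.centralizer ((A ⊔ R : Subgroup G) : Set G) with hD
  have hDmem : ∀ d, d ∈ D ↔ (∀ a ∈ A, a * d = d * a) ∧ (∀ r ∈ R, r * d = d * r) := by
    intro d
    constructor
    · intro hd
      rw [hD, Subgroup.mem_centralizer_iff] at hd
      exact ⟨fun a ha => hd a (Subgroup.mem_sup_left ha), fun r hr => hd r (Subgroup.mem_sup_right hr)⟩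
    · rintro ⟨h1, h2⟩
      have h3 : A ⊔ R ≤ Subgroup.centralizer ({d} : Set G) := by
        apply sup_le
        · intro a ha; rw [Subgroup.mem_centralizer_singleton_iff]; exact h1 a ha
        · intro r hr; rw [Subgroup.mem_centralizer_singleton_iff]; exact h2 r hr
      rw [hD, Subgroup.mem_centralizer_iff]
      intro w hw
      exact Subgroup.mem_centralizer_singleton_iff.mp (h3 hw)
  have hzD : z ∈ D := (hDmem z).mpr ⟨hAz, fun r hr => (h.zc r ((hRmem r).mp hr).1).symm⟩
  have hDcase : ∀ d ∈ D, d ∈ A ∨ z * d ∈ A := by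
    obtain ⟨O, hOn, hOodd, hOD⟩ := exists_odd_normal (D := ↥D) h4 ⟨z, hzD⟩ (Subtype.ext h.sq)
      (fun h1 => h.ne (congrArg Subtype.val h1))
    have hOle : O ≤ Cfsg.oddCore ↥D := H1.Nilp.le_pPrimeCore hOn (Nat.coprime_two_right.mpr hOodd)
    intro d hd
    rcases hOD ⟨d, hd⟩ with h1 | h1
    · left; exact hO ⟨_, hOle h1, rfl⟩
    · right; exact hO ⟨_, hOle h1, rfl⟩
  have hDcase' : ∀ c, (∀ a ∈ A, a * c = c * a) → (∀ r ∈ R, r * c = c * r) → c ∈ A ∨ z * c ∈ A :=
    fun c h1 h2 => hDcase c ((hDmem c).mpr ⟨h1, h2⟩)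
  -- M decomposition
  have hMdec : ∀ m ∈ M, ∃ c, (∀ a ∈ A, a * c = c * a) ∧ ∃ a ∈ A, m = c * a := by
    intro m hm
    rw [hM, H2.Card.mem_sup_iff (Subgroup.centralizer_le_normalizer _)] at hm
    obtain ⟨c, hc, a, ha, hca⟩ := hm
    exact ⟨c, Subgroup.mem_centralizer_iff.mp hc, a, ha, hca.symm⟩
  -- odd order elements of A with fourth power trivial
  have hApow : ∀ b ∈ A, b ^ 4 = 1 → b = 1 := by
    intro b hb h1
    have h2 : orderOf b ∣ 4 := orderOf_dvd_of_pow_eq_one h1
    have h3 : orderOf b ∣ Nat.card A := by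
      have := orderOf_dvd_natCard (⟨b, hb⟩ : A)
      rwa [Subgroup.orderOf_mk] at this
    have h5 : Nat.Coprime 4 (Nat.card A) := by
      have : (4 : ℕ) = 2 ^ 2 := rfl
      rw [this]
      exact (Nat.coprime_two_left.mpr hAodd).pow_left 2
    have h6 := Nat.Coprime.eq_one_of_dvd (Nat.Coprime.coprime_dvd_left h2 h5) h3
    rwa [orderOf_eq_one_iff] at h6
  have hzA : z ∉ A := by
    intro h1
    apply h.ne
    apply hApow z h1
    exact h.pow_four h.mem
  -- key: c ∈ C(A), s ∈ R, [c,s] ∈ A → commute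
  have hkey : ∀ c, (∀ a ∈ A, a * c = c * a) → ∀ s ∈ R, c * s * c⁻¹ * s⁻¹ ∈ A → c * s = s * c := by
    intro c hc s hs hcs
    obtain ⟨hsQ, hsA⟩ := (hRmem s).mp hs
    set b := c * s * c⁻¹ * s⁻¹ with hb
    have hbs : b * s = c * s * c⁻¹ := by rw [hb]; group
    have hcom : Commute b s := hsA b hcs
    have h1 : (b * s) ^ 4 = b ^ 4 * s ^ 4 := hcom.mul_pow 4
    have h2 : (c * s * c⁻¹) ^ 4 = 1 := by
      rw [_root_.conj_pow, h.pow_four hsQ]; group
    rw [hbs, h2, h.pow_four hsQ, mul_one] at h1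
    have h3 := hApow b hcs h1.symm
    rw [h3, one_mul] at hbs
    exact (mul_inv_eq_iff_eq_mul.mp hbs.symm)
  have hred : ∀ m ∈ M, ∀ c, (∀ a ∈ A, a * c = c * a) → ∀ a ∈ A, m = c * a → ∀ s ∈ R,
      m * s * m⁻¹ = c * s * c⁻¹ := by
    rintro m _ c hc a ha rfl s hs
    have := ((hRmem s).mp hs).2 a ha
    calc c * a * s * (c * a)⁻¹ = c * (a * s) * a⁻¹ * c⁻¹ := by group
      _ = c * (s * a) * a⁻¹ * c⁻¹ := by rw [this]
      _ = _ := by group
  refine ⟨?_, ?_, y * q, mul_mem (Subgroup.mem_sup_right hyR') (Subgroup.mem_sup_left hqR), hu⟩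
  · rw [sup_comm R A, ← hD]
    apply le_antisymm
    · apply sup_le
      · intro d hd
        rcases hDcase d (Subgroup.mem_inf.mp hd).2 with h1 | h1
        · exact Subgroup.mem_sup_left h1
        · have h2 : d = z * (z * d) := by rw [← mul_assoc, h.sq, one_mul]
          rw [h2]
          exact mul_mem (Subgroup.mem_sup_right (Subgroup.mem_zpowers z)) (Subgroup.mem_sup_left h1)
      · exact le_sup_left
    · apply sup_le le_sup_right
      rw [Subgroup.zpowers_le]
      exact Subgroup.mem_sup_left (Subgroup.mem_inf.mpr ⟨hRM hzR, hzD⟩)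
  · have hpre := pre_quot (M := M) (N₀ := A) (R := R) hRM hzR hzA h.sq
      (fun r hr => h.zc r ((hRmem r).mp hr).1)
      (fun r hr s hs => h.comm r ((hRmem r).mp hr).1 s ((hRmem s).mp hs).1)
      (fun r hr => h.sqr r ((hRmem r).mp hr).1)
      (by
        intro m hm hms
        obtain ⟨c, hc, a, ha, hmca⟩ := hMdec m hm
        have h1 : ∀ s ∈ R, c * s = s * c := by
          intro s hs
          apply hkey c hc s hs
          have := hms s hs
          rwa [hred m hm c hc a ha hmca s hs] at this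
        rcases hDcase' c hc (fun r hr => (h1 r hr).symm) with h2 | h2
        · left; rw [hmca]; exact A.mul_mem h2 ha
        · right; rw [hmca, ← mul_assoc]; exact A.mul_mem h2 ha)
      (by
        intro m hm hmz r hr
        obtain ⟨c, hc, a, ha, hmca⟩ := hMdec m hm
        rw [hred m hm c hc a ha hmca z hzR] at hmz
        have hcz := hkey c hc z hzR hmz
        rw [hred m hm c hc a ha hmca r hr, hRmem]
        obtain ⟨hr1, hr2⟩ := (hRmem r).mp hr
        refine ⟨h.conj_mem_of_comm hcz hr1, ?_⟩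
        intro b hb
        have hcb := hc b hb
        have hcb' : b * c⁻¹ = c⁻¹ * b := by
          calc b * c⁻¹ = c⁻¹ * (c * b) * c⁻¹ := by group
            _ = c⁻¹ * (b * c) * c⁻¹ := by rw [hcb]
            _ = _ := by group
        calc b * (c * r * c⁻¹) = (b * c) * r * c⁻¹ := by group
          _ = c * (b * r) * c⁻¹ := by rw [hcb]; group
          _ = c * r * (b * c⁻¹) := by rw [hr2 b hb]; group
          _ = _ := by rw [hcb']; group)
      ⟨q, hqR, x, hgR, hqx⟩
    have hyC : y ∈ Subgroup.centralizer (A : Set G) := (Subgroup.mem_inf.mp hyR').2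
    have huM : (y * q)⁻¹ ∈ M := inv_mem (mul_mem (hCM hyC) (hRM hqR))
    have hxeq : (⟨(y * q)⁻¹, huM⟩ : ↥M) * ⟨z, hRM hzR⟩ * (⟨(y * q)⁻¹, huM⟩ : ↥M)⁻¹ = ⟨x, hRM hgR⟩ := by
      apply Subtype.ext
      show (y * q)⁻¹ * z * ((y * q)⁻¹)⁻¹ = x
      rw [← hu]; group
    apply hpre.large_of_conj (QuotientGroup.mk' _ ⟨(y * q)⁻¹, huM⟩)
    · rw [← map_inv, ← map_mul, ← map_mul, hxeq]
      exact ⟨⟨x, hRM hgR⟩, Subgroup.mem_subgroupOf.mpr hgR, rfl⟩
    · rw [← map_inv, ← map_mul, ← map_mul, hxeq]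
      intro h1
      rw [mk_eq_iff] at h1
      have h2 : x * z⁻¹ ∈ A := h1
      have h3 : (x * z⁻¹) ^ 4 = 1 := h.pow_four (Q.mul_mem hgQ (Q.inv_mem h.mem))
      exact hxz (mul_inv_eq_one.mp (hApow _ h2 h3))

end Cfsg.Agent.S5428
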