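import Cfsg.Statements.S5429
import Cfsg.Agent.H28_Quot

set_option autoImplicit false
open Cfsg

namespace Cfsg.Agent.S5429

open Cfsg.Agent.H28.Xsp Cfsg.Agent.H28.Large

/-- Let z be an involution of the finite group G with centralizer C whose generalized Fitting subgroup Q is extraspecial of width at least 3 (order 2^(2w+1), w ≥ 3); let g be an element of G with g z g⁻¹ in Q but outside the centre Z of Q, and t an involution lying in both Q and g Q g⁻¹ that is not conjugate to z; write P for the centralizer of t in Q and suppose that the elements of C acting trivially by conjugation on P modulo the subgroup generated by t and z are exactly the elements of Q. Then the image of P in the centralizer of t modulo the subgroup generated by t is a large extraspecial 2-subgroup there, and g z g⁻¹ is conjugate to z inside the subgroup generated by P and the centralizer of t in g Q g⁻¹. -/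
theorem result {G : Type*} [Group G] [Finite G] (z : G) (hz : orderOf z = 2) (Q : Subgroup G) (hQC : Q ≤ Subgroup.centralizer ({z} : Set G)) (hF : (Cfsg.generalizedFittingSubgroup ↥(Subgroup.centralizer ({z} : Set G))).map (Subgroup.centralizer ({z} : Set G)).subtype = Q) (hQ : Cfsg.IsExtraspecial 2 ↥Q) (w : ℕ) (hw : 3 ≤ w) (hcard : Nat.card ↥Q = 2 ^ (2 * w + 1)) (g : G) (hgQ : g * z * g⁻¹ ∈ Q) (hgZ : g * z * g⁻¹ ∉ ((Subgroup.center ↥Q).map Q.subtype)) (t : G) (ht : orderOf t = 2) (htQ : t ∈ Q ⊓ (Q).map (MulAut.conj g).toMonoidHom) (htz : ¬ IsConj z t) (P : Subgroup G) (hP : P = Q ⊓ Subgroup.centralizer ({t} : Set G)) (hCP : ∀ c ∈ Subgroup.centralizer ({z} : Set G), (∀ x ∈ P, ∃ y ∈ Subgroup.closure ({t, z} : Set G), c * x * c⁻¹ = x * y) ↔ c ∈ Q) [hn : ((Subgroup.zpowers t).subgroupOf (Subgroup.centralizer ({t} : Set G))).Normal] : Cfsg.IsLargeExtraspecial ((P.subgroupOf (Subgroup.centralizer ({t} : Set G))).map (QuotientGroup.mk' ((Subgroup.zpowers t).subgroupOf (Subgroup.centralizer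 ({t} : Set G))))) ∧ ∃ x ∈ P ⊔ ((Q).map (MulAut.conj g).toMonoidHom ⊓ Subgroup.centralizer ({t} : Set G)), x * (g * z * g⁻¹) * x⁻¹ = z := by
  have h : Pre Q z := pre_of_F hz hF hQ
  have htt := H28.Basic.mul_self_of_orderOf ht
  obtain ⟨htQ1, htQ2⟩ := Subgroup.mem_inf.mp htQ
  have h' := h.conj g
  have hzQ' := h.sym_conj g hgQ
  rw [h.center_map, mem_zpowers_of_sq h.sq] at hgZ
  push Not at hgZ
  obtain ⟨hx1, hxz⟩ := hgZ
  have hzconj : IsConj z (g * z * g⁻¹) := isConj_iff.mpr ⟨g, rfl⟩
  generalize hxdef : g * z * g⁻¹ = x at *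
  set Q' := Q.map (MulAut.conj g).toMonoidHom with hQ'
  have hti : t⁻¹ = t := inv_eq_of_mul_eq_one_left htt
  have htne1 : t ≠ 1 := by rintro rfl; simp at ht
  have htnez : t ≠ z := by
    intro h1; exact htz (h1 ▸ IsConj.refl _)
  have hzt : z * t = t * z := h.zc t htQ1
  have hxt : x * t = t * x := h'.zc t htQ2
  have hzx : z * x = x * z := h.zc x hgQ
  -- zt is conjugate to t
  obtain ⟨q₀, hq₀, hq₀t⟩ := h.exists_move htQ1 htne1 htnez
  have hztconj : IsConj t (z * t) := isConj_iff.mpr ⟨q₀, hq₀t⟩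
  have hz_ne : ∀ y, IsConj z y → y ≠ t ∧ y ≠ z * t := by
    intro y hy
    refine ⟨?_, ?_⟩
    · rintro rfl; exact htz hy
    · rintro rfl; exact htz (hy.trans hztconj.symm)
  -- C_Q(C_Q(t)) ⊆ {1, t, z, zt}
  have hdc : ∀ c ∈ Q, (∀ p ∈ Q, p * t = t * p → p * c = c * p) → c = 1 ∨ c = t ∨ c = z ∨ c = z * t := by
    intro c hc hcp
    have hV : z ∈ Subgroup.closure ({t, z} : Set G) := Subgroup.subset_closure (by simp)
    have hVQ : Subgroup.closure ({t, z} : Set G) ≤ Q := by
      rw [Subgroup.closure_le]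
      intro y hy
      rcases hy with hy | hy
      · rw [hy]; exact htQ1
      · rw [Set.mem_singleton_iff] at hy; rw [hy]; exact h.mem
    have hd := h.double_centralizer hV hVQ
    apply mem_pair htt h.sq hzt
    rw [← hd, Subgroup.mem_inf, Subgroup.mem_centralizer_iff]
    refine ⟨hc, ?_⟩
    intro p hp
    obtain ⟨hp1, hp2⟩ := Subgroup.mem_inf.mp hp
    exact hcp p hp1 (Subgroup.mem_centralizer_iff.mp hp2 t (Subgroup.subset_closure (by simp))).symm
  -- q ∈ P not commuting with x
  have hexq : ∃ q ∈ Q, q * t = t * q ∧ q * x ≠ x * q := by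
    by_contra hcon
    push Not at hcon
    rcases hdc x hgQ hcon with h1 | h1 | h1 | h1
    · exact hx1 h1
    · exact (hz_ne x hzconj).1 h1
    · exact hxz h1
    · exact (hz_ne x hzconj).2 h1
  -- y ∈ C_{Q'}(t) not commuting with z
  have htx : t ≠ x := fun h1 => (hz_ne x hzconj).1 h1.symm
  have hexy : ∃ y ∈ Q', y * t = t * y ∧ y * z ≠ z * y := by
    by_contra hcon
    push Not at hcon
    have hV : x ∈ Subgroup.closure ({t, x} : Set G) := Subgroup.subset_closure (by simp)
    have hVQ : Subgroup.closure ({t, x} : Set G) ≤ Q' := by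
      rw [Subgroup.closure_le]
      intro y hy
      rcases hy with hy | hy
      · rw [hy]; exact htQ2
      · rw [Set.mem_singleton_iff] at hy; rw [hy]; exact h'.mem
    have hd := h'.double_centralizer hV hVQ
    have h1 : z ∈ Subgroup.closure ({t, x} : Set G) := by
      rw [← hd, Subgroup.mem_inf, Subgroup.mem_centralizer_iff]
      refine ⟨hzQ', ?_⟩
      intro p hp
      obtain ⟨hp1, hp2⟩ := Subgroup.mem_inf.mp hp
      exact hcon p hp1 (Subgroup.mem_centralizer_iff.mp hp2 t (Subgroup.subset_closure (by simp))).symm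
    rcases mem_pair htt h'.sq hxt h1 with h1 | h1 | h1 | h1
    · exact h.ne h1
    · exact htnez h1.symm
    · exact hxz h1.symm
    · apply (hz_ne x hzconj).2
      calc x = x * (t * t) := by rw [htt, mul_one]
        _ = (x * t) * t := by group
        _ = z * t := by rw [← h1]
  obtain ⟨q, hq, hqt, hqx⟩ := hexq
  obtain ⟨y, hy, hyt, hyz⟩ := hexy
  have hqx' : q * x * q⁻¹ = z * x := h.conj_eq_of_not_comm hq hgQ hqx
  have hyz' : y * z * y⁻¹ = x * z := h'.conj_eq_of_not_comm hy hzQ' hyz
  have hyx : y * x * y⁻¹ = x := by rw [← h'.zc y hy, mul_inv_cancel_right]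
  have hu : (y * q) * x * (y * q)⁻¹ = z := by
    calc (y * q) * x * (y * q)⁻¹ = y * (q * x * q⁻¹) * y⁻¹ := by group
      _ = y * (z * x) * y⁻¹ := by rw [hqx']
      _ = (y * z * y⁻¹) * (y * x * y⁻¹) := by group
      _ = (x * z) * x := by rw [hyz', hyx]
      _ = (z * x) * x := by rw [hzx]
      _ = z := by rw [mul_assoc, h'.sq, mul_one]
  have hqP : q ∈ P := by rw [hP, Subgroup.mem_inf, Subgroup.mem_centralizer_singleton_iff]; exact ⟨hq, hqt⟩
  have hyP : y ∈ Q' ⊓ Subgroup.centralizer ({t} : Set G) := by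
    rw [Subgroup.mem_inf, Subgroup.mem_centralizer_singleton_iff]; exact ⟨hy, hyt⟩
  refine ⟨?_, y * q, mul_mem (Subgroup.mem_sup_right hyP) (Subgroup.mem_sup_left hqP), hu⟩
  -- largeness
  have hPmem : ∀ p, p ∈ P ↔ p ∈ Q ∧ p * t = t * p := by
    intro p; rw [hP, Subgroup.mem_inf, Subgroup.mem_centralizer_singleton_iff]
  have hPM : P ≤ Subgroup.centralizer ({t} : Set G) := by rw [hP]; exact inf_le_right
  have hzP : z ∈ P := (hPmem z).mpr ⟨h.mem, hzt⟩
  -- elements of C(t) with [m,z] ∈ ⟨t⟩ centralize z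
  have hmz : ∀ m : G, m * t = t * m → m * z * m⁻¹ * z⁻¹ ∈ Subgroup.zpowers t → m * z = z * m := by
    intro m hm hmt
    rcases (mem_zpowers_of_sq htt).mp hmt with h1 | h1
    · exact mul_inv_eq_iff_eq_mul.mp (mul_inv_eq_one.mp h1)
    · exfalso
      have h2 : m * z * m⁻¹ = z * t := by
        rw [hzt]; exact mul_inv_eq_iff_eq_mul.mp h1
      exact (hz_ne (z * t) (isConj_iff.mpr ⟨m, h2⟩)).2 rfl
  have hpre := pre_quot (M := Subgroup.centralizer ({t} : Set G)) (N₀ := Subgroup.zpowers t) (R := P)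
    hPM hzP
    (by
      rw [mem_zpowers_of_sq htt]
      push Not
      exact ⟨h.ne, htnez.symm⟩)
    h.sq (fun r hr => h.zc r ((hPmem r).mp hr).1)
    (fun r hr s hs => h.comm r ((hPmem r).mp hr).1 s ((hPmem s).mp hs).1)
    (fun r hr => h.sqr r ((hPmem r).mp hr).1)
    (by
      intro m hm hms
      rw [Subgroup.mem_centralizer_singleton_iff] at hm
      have hmz' := hmz m hm (hms z hzP)
      have hmQ : m ∈ Q := by
        apply (hCP m (Subgroup.mem_centralizer_singleton_iff.mpr hmz')).mp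
        intro s hs
        have h1 := hms s hs
        refine ⟨s⁻¹ * (m * s * m⁻¹), ?_, by group⟩
        have h2 : s⁻¹ * (m * s * m⁻¹) = s⁻¹ * (m * s * m⁻¹ * s⁻¹) * s := by group
        rw [h2]
        have hst := ((hPmem s).mp hs).2
        have h3 : s⁻¹ * (m * s * m⁻¹ * s⁻¹) * s = m * s * m⁻¹ * s⁻¹ := by
          rcases (mem_zpowers_of_sq htt).mp h1 with h4 | h4
          · rw [h4]; group
          · rw [h4]
            calc s⁻¹ * t * s = s⁻¹ * (t * s) := by group
              _ = s⁻¹ * (s * t) := by rw [hst]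
              _ = t := by group
        rw [h3]
        have : Subgroup.zpowers t ≤ Subgroup.closure ({t, z} : Set G) := by
          rw [Subgroup.zpowers_le]; exact Subgroup.subset_closure (by simp)
        exact this h1
      have hmcomm : ∀ p ∈ Q, p * t = t * p → p * m = m * p := by
        intro p hp hpt
        have h1 := hms p ((hPmem p).mpr ⟨hp, hpt⟩)
        rcases h.comm m hmQ p hp with h2 | h2
        · exact h2.symm
        · exfalso
          have h3 : m * p * m⁻¹ * p⁻¹ = z := by rw [h2]; group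
          rw [h3, mem_zpowers_of_sq htt] at h1
          rcases h1 with h1 | h1
          · exact h.ne h1
          · exact htnez h1.symm
      rw [mem_zpowers_of_sq htt, mem_zpowers_of_sq htt]
      rcases hdc m hmQ hmcomm with h1 | h1 | h1 | h1
      · left; left; exact h1
      · left; right; exact h1
      · right; left; rw [h1]; exact h.sq
      · right; right; rw [h1, ← mul_assoc, h.sq, one_mul])
    (by
      intro m hm hmz1 r hr
      rw [Subgroup.mem_centralizer_singleton_iff] at hm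
      have hmz' := hmz m hm hmz1
      obtain ⟨hr1, hr2⟩ := (hPmem r).mp hr
      rw [hPmem]
      refine ⟨h.conj_mem_of_comm hmz' hr1, ?_⟩
      calc m * r * m⁻¹ * t = m * r * (m⁻¹ * (t * m)) * m⁻¹ := by group
        _ = m * r * (m⁻¹ * (m * t)) * m⁻¹ := by rw [hm]
        _ = m * (r * t) * m⁻¹ := by group
        _ = m * (t * r) * m⁻¹ := by rw [hr2]
        _ = (m * t) * r * m⁻¹ := by group
        _ = (t * m) * r * m⁻¹ := by rw [hm]
        _ = _ := by group)
    ⟨q, hqP, x, (hPmem x).mpr ⟨hgQ, hxt⟩, hqx⟩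
  have huM : (y * q)⁻¹ ∈ Subgroup.centralizer ({t} : Set G) := by
    apply inv_mem
    rw [Subgroup.mem_centralizer_singleton_iff]
    calc y * q * t = y * (q * t) := by group
      _ = (y * t) * q := by rw [hqt]; group
      _ = _ := by rw [hyt]; group
  have hxM : x ∈ Subgroup.centralizer ({t} : Set G) := Subgroup.mem_centralizer_singleton_iff.mpr hxt
  have hxeq : (⟨(y * q)⁻¹, huM⟩ : ↥(Subgroup.centralizer ({t} : Set G))) * ⟨z, hPM hzP⟩ *
      (⟨(y * q)⁻¹, huM⟩ : ↥(Subgroup.centralizer ({t} : Set G)))⁻¹ = ⟨x, hxM⟩ := by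
    apply Subtype.ext
    show (y * q)⁻¹ * z * ((y * q)⁻¹)⁻¹ = x
    rw [← hu]; group
  apply hpre.large_of_conj (QuotientGroup.mk' _ ⟨(y * q)⁻¹, huM⟩)
  · rw [← map_inv, ← map_mul, ← map_mul, hxeq]
    exact ⟨⟨x, hxM⟩, Subgroup.mem_subgroupOf.mpr ((hPmem x).mpr ⟨hgQ, hxt⟩), rfl⟩
  · rw [← map_inv, ← map_mul, ← map_mul, hxeq]
    intro h1
    rw [mk_eq_iff] at h1
    have h2 : x * z⁻¹ ∈ Subgroup.zpowers t := h1
    rcases (mem_zpowers_of_sq htt).mp h2 with h3 | h3
    · exact hxz (mul_inv_eq_one.mp h3)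
    · apply (hz_ne x hzconj).2
      rw [hzt]; exact mul_inv_eq_iff_eq_mul.mp h3

end Cfsg.Agent.S5429
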