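import Cfsg.Statements.S5430
import Cfsg.Agent.H28_XR2

set_option autoImplicit false
open Cfsg

namespace Cfsg.Agent.S5430

open Cfsg.Agent.H28.Xsp Cfsg.Agent.H28.Large

/-- Let Q be a large extraspecial 2-subgroup of the finite group G (extraspecial; centralizer equal to its centre; normal in the centralizer of its centre; normalizing no non-trivial subgroup of odd order) with centre generated by z, an involution, of width w ≥ 2 (order 2^(2w+1)); let g be an element outside the centralizer H of z with g z g⁻¹ in Q; write V for the subgroup generated by z and g z g⁻¹, X for the subgroup generated by Q and g Q g⁻¹, R for the subgroup generated by the centralizer of z in g Q g⁻¹ and the centralizer of g z g⁻¹ in Q, and E for the intersection of Q and g Q g⁻¹. Then R is the centralizer of V in X and is the largest normal 2-subgroup of X, and X/R is isomorphic to the symmetric group of degree 3; moreover the normalizer of V is the product of X and the centralizer of V in H, X is normal in it,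 and modulo R it is the direct product of X/R and of the centralizer of V in H modulo R. -/
theorem result {G : Type*} [Group G] [Finite G] (Q : Subgroup G) (hQ : Cfsg.IsLargeExtraspecial Q) (z : G) (hz : ((Subgroup.center ↥Q).map Q.subtype) = Subgroup.zpowers z) (hz2 : orderOf z = 2) (w : ℕ) (hw : 2 ≤ w) (hcard : Nat.card ↥Q = 2 ^ (2 * w + 1)) (g : G) (hgH : g ∉ Subgroup.centralizer ({z} : Set G)) (hgQ : g * z * g⁻¹ ∈ Q) (V X R E : Subgroup G) (hV : V = Subgroup.closure ({z, g * z * g⁻¹} : Set G)) (hX : X = Q ⊔ (Q).map (MulAut.conj g).toMonoidHom) (hR : R = ((Q).map (MulAut.conj g).toMonoidHom ⊓ Subgroup.centralizer ({z} : Set G)) ⊔ (Q ⊓ Subgroup.centralizer ({g * z * g⁻¹} : Set G))) (hE : E = Q ⊓ (Q).map (MulAut.conj g).toMonoidHom) : R = X ⊓ Subgroup.centralizer (V : Set G) ∧ R = (Cfsg.pCore 2 ↥X).map X.subtype ∧ (∃ h : (R.subgroupOf X).Normal, Nonempty (↥X ⧸ R.subgroupOf X ≃* Equiv.Perm (Fin 3))) ∧ Subgroup.normalizer (V : Set G) = X ⊔ (Subgroup.centralizer ({z} : Set G) ⊓ Subgroup.centralizer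 (V : Set G)) ∧ (∀ y ∈ Subgroup.normalizer (V : Set G), ∀ x ∈ X, y * x * y⁻¹ ∈ X) ∧ R ≤ Subgroup.centralizer ({z} : Set G) ⊓ Subgroup.centralizer (V : Set G) ∧ (∀ x ∈ X, ∀ c ∈ Subgroup.centralizer ({z} : Set G) ⊓ Subgroup.centralizer (V : Set G), x * c * x⁻¹ * c⁻¹ ∈ R) ∧ X ⊓ (Subgroup.centralizer ({z} : Set G) ⊓ Subgroup.centralizer (V : Set G)) = R := by
  obtain ⟨z', h⟩ := Pre.of_large hQ
  have hzz' : z = z' := by
    have h1 := h.center_map
    rw [hz] at h1
    have h2 : z ∈ Subgroup.zpowers z' := h1 ▸ Subgroup.mem_zpowers z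
    rcases (mem_zpowers_of_sq h.sq).mp h2 with h3 | h3
    · exfalso; rw [h3] at hz2; simp at hz2
    · exact h3
  subst hzz'
  have S : XR Q (Q.map (MulAut.conj g).toMonoidHom) z (g * z * g⁻¹) g :=
    { h := h, hQ' := rfl, hxg := rfl, hxQ := hgQ
      hxz := by
        intro h1
        apply hgH
        rw [Subgroup.mem_centralizer_singleton_iff]
        exact mul_inv_eq_iff_eq_mul.mp h1 }
  have hV' : V = XR.V z (g * z * g⁻¹) := by
    rw [hV, XR.V, Set.pair_comm]
  subst hV' hX hR hE
  have hCC : Subgroup.centralizer ({z} : Set G) ⊓ Subgroup.centralizer ((XR.V z (g * z * g⁻¹) : Subgroup G) : Set G)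
      = Subgroup.centralizer ((XR.V z (g * z * g⁻¹) : Subgroup G) : Set G) := by
    apply inf_eq_right.mpr
    intro c hc
    exact Subgroup.mem_centralizer_singleton_iff.mpr (S.mem_CV.mp hc).2
  rw [hCC]
  obtain ⟨f, hf, hk⟩ := S.exists_hom
  refine ⟨S.X_inf_CV, S.R_eq_pCore, ?_, ?_, ?_, S.R_le_CV, ?_, S.X_inf_CV.symm⟩
  · have hn : ((XR.R Q (Q.map (MulAut.conj g).toMonoidHom) z (g * z * g⁻¹)).subgroupOf
        (Q ⊔ (Q.map (MulAut.conj g).toMonoidHom))).Normal := by rw [← hk]; infer_instance
    refine ⟨hn, ⟨?_⟩⟩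
    exact (QuotientGroup.quotientMulEquivOfEq hk.symm).trans
      (QuotientGroup.quotientKerEquivOfSurjective f hf)
  · apply le_antisymm
    · intro n hn
      obtain ⟨u, hu, hc⟩ := S.exists_X hn
      have : n = u * (u⁻¹ * n) := by group
      rw [this]
      exact mul_mem (Subgroup.mem_sup_left hu) (Subgroup.mem_sup_right hc)
    · exact sup_le S.X_le_NV (Subgroup.centralizer_le_normalizer _)
  · intro n hn v hv
    obtain ⟨u, hu, hc⟩ := S.exists_X hn
    have h1 := S.CV_le_NX hc hv
    have h2 : n * v * n⁻¹ = u * ((u⁻¹ * n) * v * (u⁻¹ * n)⁻¹) * u⁻¹ := by group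
    rw [h2]
    exact mul_mem (mul_mem hu h1) (inv_mem hu)
  · intro u hu c hc
    exact S.comm_X_CV hc hu

end Cfsg.Agent.S5430
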