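import Cfsg.Statements.S5431
import Cfsg.Agent.H28_XR2

set_option autoImplicit false
open Cfsg
open scoped commutatorElement

namespace Cfsg.Agent.S5431

open Cfsg.Agent.H28.Xsp Cfsg.Agent.H28.Large

/-- an element acting trivially on `Q` modulo `z` acts as an inner automorphism. -/
theorem inner_of_trivial {G : Type*} [Group G] [Finite G] {Q : Subgroup G} {z c : G} (h : Xsp Q z)
    (hcz : c * z = z * c)
    (hc : ∀ q ∈ Q, c * q * c⁻¹ = q ∨ c * q * c⁻¹ = z * q) :
    ∃ q₁ ∈ Q, ∀ q ∈ Q, c * q * c⁻¹ = q₁ * q * q₁⁻¹ := by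
  set T : Subgroup G := Q ⊓ Subgroup.centralizer ({c} : Set G) with hT
  have hTm : ∀ q, q ∈ T ↔ q ∈ Q ∧ q * c = c * q := by
    intro q; rw [hT, Subgroup.mem_inf, Subgroup.mem_centralizer_singleton_iff]
  have hzT : z ∈ T := (hTm z).mpr ⟨h.mem, hcz.symm⟩
  have hTQ : T ≤ Q := inf_le_left
  by_cases htop : T = Q
  · refine ⟨1, Q.one_mem, fun q hq => ?_⟩
    have h1 : q ∈ T := htop.symm ▸ hq
    rw [mul_inv_eq_iff_eq_mul]
    rw [← ((hTm q).mp h1).2]; group
  · have hd := h.duality hzT hTQ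
    have hlt : Nat.card T < Nat.card Q := H2.Card.card_lt_of_lt (lt_of_le_of_ne hTQ htop)
    have hlt' : 2 < Nat.card (Q ⊓ Subgroup.centralizer (T : Set G) : Subgroup G) := by
      by_contra hcon
      push Not at hcon
      have : Nat.card T * Nat.card (Q ⊓ Subgroup.centralizer (T : Set G) : Subgroup G)
          ≤ Nat.card T * 2 := Nat.mul_le_mul_left _ hcon
      omega
    have hex : ∃ g ∈ (Q ⊓ Subgroup.centralizer (T : Set G) : Subgroup G),
        g ∉ Subgroup.zpowers z := by
      by_contra hcon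
      push Not at hcon
      have h1 : (Q ⊓ Subgroup.centralizer (T : Set G) : Subgroup G) ≤ Subgroup.zpowers z := hcon
      have h2 := Nat.card_le_card_of_injective _ (Subgroup.inclusion_injective h1)
      rw [h.card_zpowers] at h2
      omega
    obtain ⟨g, hg, hgz⟩ := hex
    rw [Subgroup.mem_inf] at hg
    have hgT := Subgroup.mem_centralizer_iff.mp hg.2
    rw [mem_zpowers_of_sq h.sq] at hgz
    push Not at hgz
    refine ⟨g, hg.1, fun q hq => ?_⟩
    by_cases hx : q ∈ T
    · have h1 := ((hTm q).mp hx).2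
      rw [← h1, mul_inv_cancel_right, ← hgT q hx, mul_inv_cancel_right]
    · have hne : ∀ w ∈ Q, w ∉ T → c * w * c⁻¹ = z * w := by
        intro w hw hwT
        rcases hc w hw with h1 | h1
        · exact absurd ((hTm w).mpr ⟨hw, (mul_inv_eq_iff_eq_mul.mp h1).symm⟩) hwT
        · exact h1
      rw [hne q hq hx]
      symm
      apply h.conj_eq_of_not_comm hg.1 hq
      intro hgx
      obtain ⟨y, hyQ, hy⟩ := h.exists_not_comm hg.1 hgz.1 hgz.2
      have hyT : y ∉ T := fun hyT => hy (hgT y hyT).symm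
      have hxy : q * y ∈ T := by
        rw [hTm]
        refine ⟨Q.mul_mem hq hyQ, ?_⟩
        symm
        rw [← mul_inv_eq_iff_eq_mul]
        calc c * (q * y) * c⁻¹ = (c * q * c⁻¹) * (c * y * c⁻¹) := by group
          _ = (z * q) * (z * y) := by rw [hne q hq hx, hne y hyQ hyT]
          _ = (q * z) * (z * y) := by rw [h.zc q hq]
          _ = q * (z * z) * y := by group
          _ = q * y := by rw [h.sq, mul_one]
      have h2 := hgT _ hxy
      apply hy
      have h3 : q * (g * y) = q * (y * g) := by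
        calc q * (g * y) = (q * g) * y := by group
          _ = (g * q) * y := by rw [hgx]
          _ = g * (q * y) := by group
          _ = (q * y) * g := h2.symm
          _ = _ := by group
      exact mul_left_cancel h3

/-- Let Q be a large extraspecial 2-subgroup of the finite group G (extraspecial; centralizer equal to its centre; normal in the centralizer of its centre; normalizing no non-trivial subgroup of odd order) with centre generated by z, an involution, of width w ≥ 2 (order 2^(2w+1)); let g be an element outside the centralizer H of z with g z g⁻¹ in Q; write V for the subgroup generated by z and g z g⁻¹, X for the subgroup generated by Q and g Q g⁻¹, R for the subgroup generated by the centralizer of z in g Q g⁻¹ and the centralizer of g z g⁻¹ in Q, and E for the intersection of Q and g Q g⁻¹. Then V is the centre of R, E lies in the second centre of R, R is nilpotent of class at most 3, E and R/E are elementary abelian, R/E is the direct product of the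 images of the centralizer of g z g⁻¹ in Q and of the centralizer of z in g Q g⁻¹ (R is their product and they meet in E), and the commutator subgroup of X and E lies in V. -/
theorem result {G : Type*} [Group G] [Finite G] (Q : Subgroup G) (hQ : Cfsg.IsLargeExtraspecial Q) (z : G) (hz : ((Subgroup.center ↥Q).map Q.subtype) = Subgroup.zpowers z) (hz2 : orderOf z = 2) (w : ℕ) (hw : 2 ≤ w) (hcard : Nat.card ↥Q = 2 ^ (2 * w + 1)) (g : G) (hgH : g ∉ Subgroup.centralizer ({z} : Set G)) (hgQ : g * z * g⁻¹ ∈ Q) (V X R E : Subgroup G) (hV : V = Subgroup.closure ({z, g * z * g⁻¹} : Set G)) (hX : X = Q ⊔ (Q).map (MulAut.conj g).toMonoidHom) (hR : R = ((Q).map (MulAut.conj g).toMonoidHom ⊓ Subgroup.centralizer ({z} : Set G)) ⊔ (Q ⊓ Subgroup.centralizer ({g * z * g⁻¹} : Set G))) (hE : E = Q ⊓ (Q).map (MulAut.conj g).toMonoidHom) : (Subgroup.center ↥R).map R.subtype = V ∧ E ≤ (Subgroup.upperCentralSeries ↥R 2).map R.subtype ∧ Subgroup.upperCentralSeries ↥R 3 = ⊤ ∧ Cfsg.IsElementaryAbelian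 2 E ∧ (∀ x ∈ R, ∀ y ∈ R, x * y * x⁻¹ * y⁻¹ ∈ E ∧ x ^ 2 ∈ E) ∧ ((Q).map (MulAut.conj g).toMonoidHom ⊓ Subgroup.centralizer ({z} : Set G)) ⊓ (Q ⊓ Subgroup.centralizer ({g * z * g⁻¹} : Set G)) = E ∧ ⁅X, E⁆ ≤ V := by
  obtain ⟨z', h⟩ := Pre.of_large hQ
  have hzz' : z = z' := by
    have h1 := h.center_map
    rw [hz] at h1
    have h2 : z ∈ Subgroup.zpowers z' := h1 ▸ Subgroup.mem_zpowers z
    rcases (mem_zpowers_of_sq h.sq).mp h2 with h3 | h3
    · exfalso; rw [h3] at hz2; simp at hz2
    · exact h3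
  subst hzz'
  have S : XR Q (Q.map (MulAut.conj g).toMonoidHom) z (g * z * g⁻¹) g :=
    { h := h, hQ' := rfl, hxg := rfl, hxQ := hgQ
      hxz := by
        intro h1
        apply hgH
        rw [Subgroup.mem_centralizer_singleton_iff]
        exact mul_inv_eq_iff_eq_mul.mp h1 }
  have hV' : V = XR.V z (g * z * g⁻¹) := by
    rw [hV, XR.V, Set.pair_comm]
  clear hV
  subst hX
  generalize hxdef : g * z * g⁻¹ = x at *
  generalize hQ'def : Q.map (MulAut.conj g).toMonoidHom = Q' at *
  have hR' : R = XR.R Q Q' z x := hR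
  clear hR
  subst hR' hE hV'
  set E : Subgroup G := Q ⊓ Q' with hE
  set R : Subgroup G := XR.R Q Q' z x with hR
  set V : Subgroup G := XR.V z x with hV
  have hx' := S.h'
  have hER : E ≤ R := S.E_le_P.trans le_sup_right
  have hVE : V ≤ E := S.V_le_E
  -- E elementary abelian
  have hEsq : ∀ e ∈ E, e * e = 1 := by
    intro e he
    obtain ⟨h1, h2⟩ := Subgroup.mem_inf.mp he
    rcases h.sqr e h1 with h3 | h3
    · exact h3
    · rcases hx'.sqr e h2 with h4 | h4
      · exact h4
      · exact absurd (h4.symm.trans h3) S.hxz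
  have hEcomm : ∀ a ∈ E, ∀ b ∈ E, a * b = b * a := by
    intro a ha b hb
    obtain ⟨h1, h2⟩ := Subgroup.mem_inf.mp ha
    obtain ⟨h3, h4⟩ := Subgroup.mem_inf.mp hb
    rcases h.comm a h1 b h3 with h5 | h5
    · exact h5
    · rcases hx'.comm a h2 b h4 with h6 | h6
      · exact h6
      · exact absurd (mul_right_cancel (h6.symm.trans h5)) S.hxz
  -- commutators and squares of R in E
  have hcommE : ∀ a ∈ R, ∀ b ∈ R, a * b * a⁻¹ * b⁻¹ ∈ E := by
    -- E is normal in R, quotient commutative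
    have hEn : ∀ r ∈ R, ∀ e ∈ E, r * e * r⁻¹ ∈ E := by
      intro r hr e he
      obtain ⟨h1, h2⟩ := Subgroup.mem_inf.mp he
      exact Subgroup.mem_inf.mpr ⟨S.CV_conj_Q (S.R_le_CV hr) h1, S.CV_conj_Q' (S.R_le_CV hr) h2⟩
    -- for a ∈ P, b ∈ P'
    have hPP' : ∀ p ∈ XR.P Q x, ∀ p' ∈ XR.P Q' z, p * p' * p⁻¹ * p'⁻¹ ∈ E := by
      intro p hp p' hp'
      have h1 := S.P_eq.mp hp
      have h2 := S.P'_eq.mp hp'
      rw [hE, Subgroup.mem_inf]
      constructor
      · have := S.CV_conj_Q h2.2 (Q.inv_mem h1.1)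
        have h3 : p * p' * p⁻¹ * p'⁻¹ = p * (p' * p⁻¹ * p'⁻¹) := by group
        rw [h3]; exact Q.mul_mem h1.1 this
      · exact Q'.mul_mem (S.CV_conj_Q' h1.2 h2.1) (Q'.inv_mem h2.1)
    have hzE : z ∈ E := hVE (S.mem_V.mpr (by simp))
    have hxE : x ∈ E := hVE (S.mem_V.mpr (by simp))
    have hPP : ∀ p ∈ XR.P Q x, ∀ q ∈ XR.P Q x, p * q * p⁻¹ * q⁻¹ ∈ E := by
      intro p hp q hq
      rcases h.comm p (XR.mem_P.mp hp).1 q (XR.mem_P.mp hq).1 with h1 | h1
      · rw [h1]
        have : q * p * p⁻¹ * q⁻¹ = 1 := by group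
        rw [this]; exact one_mem _
      · rw [h1]
        have : z * (q * p) * p⁻¹ * q⁻¹ = z := by group
        rw [this]; exact hzE
    have hP'P' : ∀ p ∈ XR.P Q' z, ∀ q ∈ XR.P Q' z, p * q * p⁻¹ * q⁻¹ ∈ E := by
      intro p hp q hq
      rcases hx'.comm p (XR.mem_P.mp hp).1 q (XR.mem_P.mp hq).1 with h1 | h1
      · rw [h1]
        have : q * p * p⁻¹ * q⁻¹ = 1 := by group
        rw [this]; exact one_mem _
      · rw [h1]
        have : x * (q * p) * p⁻¹ * q⁻¹ = x := by group
        rw [this]; exact hxE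
    -- commutator with a product
    have hmulr : ∀ a b c : G, a ∈ R → b ∈ R → c ∈ R → a * b * a⁻¹ * b⁻¹ ∈ E → a * c * a⁻¹ * c⁻¹ ∈ E →
        a * (b * c) * a⁻¹ * (b * c)⁻¹ ∈ E := by
      intro a b c ha hb hc h1 h2
      have : a * (b * c) * a⁻¹ * (b * c)⁻¹ = (a * b * a⁻¹ * b⁻¹) * (b * (a * c * a⁻¹ * c⁻¹) * b⁻¹) := by group
      rw [this]; exact E.mul_mem h1 (hEn b hb _ h2)
    have hmull : ∀ a b c : G, a ∈ R → b ∈ R → c ∈ R → a * c * a⁻¹ * c⁻¹ ∈ E → b * c * b⁻¹ * c⁻¹ ∈ E →
        (a * b) * c * (a * b)⁻¹ * c⁻¹ ∈ E := by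
      intro a b c ha hb hc h1 h2
      have : (a * b) * c * (a * b)⁻¹ * c⁻¹ = (a * (b * c * b⁻¹ * c⁻¹) * a⁻¹) * (a * c * a⁻¹ * c⁻¹) := by group
      rw [this]; exact E.mul_mem (hEn a ha _ h2) h1
    have hinvc : ∀ a b : G, a * b * a⁻¹ * b⁻¹ ∈ E → b * a * b⁻¹ * a⁻¹ ∈ E := by
      intro a b h1
      have : b * a * b⁻¹ * a⁻¹ = (a * b * a⁻¹ * b⁻¹)⁻¹ := by group
      rw [this]; exact E.inv_mem h1
    have hPR : XR.P Q x ≤ R := le_sup_right
    have hP'R : XR.P Q' z ≤ R := le_sup_left
    intro a ha b hb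
    obtain ⟨p, hp, p', hp', rfl⟩ := S.mem_R.mp ha
    obtain ⟨q, hq, q', hq', rfl⟩ := S.mem_R.mp hb
    apply hmull p p' (q * q') (hPR hp) (hP'R hp') hb
    · exact hmulr p q q' (hPR hp) (hPR hq) (hP'R hq') (hPP p hp q hq) (hPP' p hp q' hq')
    · exact hmulr p' q q' (hP'R hp') (hPR hq) (hP'R hq') (hinvc _ _ (hPP' q hq p' hp'))
        (hP'P' p' hp' q' hq')
  have hsqE : ∀ a ∈ R, a ^ 2 ∈ E := by
    intro a ha
    obtain ⟨p, hp, p', hp', rfl⟩ := S.mem_R.mp ha
    have hzE : z ∈ E := hVE (S.mem_V.mpr (by simp))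
    have hxE : x ∈ E := hVE (S.mem_V.mpr (by simp))
    have hpp : p * p ∈ E := by
      rcases h.sqr p (XR.mem_P.mp hp).1 with h1 | h1 <;> rw [h1]
      · exact one_mem _
      · exact hzE
    have hpp' : p' * p' ∈ E := by
      rcases hx'.sqr p' (XR.mem_P.mp hp').1 with h1 | h1 <;> rw [h1]
      · exact one_mem _
      · exact hxE
    have h1 : (p * p') ^ 2 = (p * p) * ((p⁻¹ * p' * (p⁻¹)⁻¹ * p'⁻¹) * (p' * p')) := by
      rw [pow_two]; group
    rw [h1]
    apply E.mul_mem hpp
    apply E.mul_mem _ hpp'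
    exact hcommE p⁻¹ (inv_mem (Subgroup.mem_sup_right hp)) p' (Subgroup.mem_sup_left hp')
  -- centre
  have hPV : ∀ c ∈ Q, (∀ p ∈ XR.P Q x, p * c = c * p) → c ∈ V := by
    intro c hc hcp
    have hd := h.double_centralizer (R := V) (S.mem_V.mpr (by simp)) S.V_le_Q
    rw [← hd, Subgroup.mem_inf, Subgroup.mem_centralizer_iff]
    refine ⟨hc, ?_⟩
    intro p hp
    apply hcp p
    rw [S.P_eq]
    exact Subgroup.mem_inf.mp hp
  have hcenter : (Subgroup.center ↥R).map R.subtype = V := by
    apply le_antisymm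
    · rintro _ ⟨⟨c, hcR⟩, hc, rfl⟩
      show c ∈ V
      have hcc : ∀ r ∈ R, r * c = c * r := by
        intro r hr
        have := Subgroup.mem_center_iff.mp hc ⟨r, hr⟩
        exact congrArg Subtype.val this
      have hcCV := S.R_le_CV hcR
      have hcz := (S.mem_CV.mp hcCV).2
      -- c acts on Q trivially mod z
      have hact : ∀ q ∈ Q, c * q * c⁻¹ = q ∨ c * q * c⁻¹ = z * q := by
        intro q hq
        set u := c * q * c⁻¹ * q⁻¹ with hu
        have huQ : u ∈ Q := Q.mul_mem (S.CV_conj_Q hcCV hq) (Q.inv_mem hq)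
        have huc : ∀ r ∈ R, r * u = u * r := by
          intro r hr
          -- q c⁻¹ q⁻¹ commutes with r
          have h1 : q⁻¹ * r * q ∈ R := by
            have := S.Q_conj_R (Q.inv_mem hq) hr
            simpa using this
          have h2 := hcc _ h1
          have h3 : r * (q * c⁻¹ * q⁻¹) = (q * c⁻¹ * q⁻¹) * r := by
            have h4 : (q⁻¹ * r * q) * c⁻¹ = c⁻¹ * (q⁻¹ * r * q) := by
              calc (q⁻¹ * r * q) * c⁻¹ = c⁻¹ * (c * (q⁻¹ * r * q)) * c⁻¹ := by group
                _ = c⁻¹ * ((q⁻¹ * r * q) * c) * c⁻¹ := by rw [h2]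
                _ = _ := by group
            calc r * (q * c⁻¹ * q⁻¹) = q * ((q⁻¹ * r * q) * c⁻¹) * q⁻¹ := by group
              _ = q * (c⁻¹ * (q⁻¹ * r * q)) * q⁻¹ := by rw [h4]
              _ = _ := by group
          have h5 : u = c * (q * c⁻¹ * q⁻¹) := by rw [hu]; group
          rw [h5]
          calc r * (c * (q * c⁻¹ * q⁻¹)) = (r * c) * (q * c⁻¹ * q⁻¹) := by group
            _ = c * (r * (q * c⁻¹ * q⁻¹)) := by rw [hcc r hr]; group
            _ = _ := by rw [h3]; group
        have huV : u ∈ V := hPV u huQ (fun p hp => huc p (Subgroup.mem_sup_right hp))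
        have hcq : c * q * c⁻¹ = u * q := by rw [hu]; group
        -- if q ∈ P then u = 1
        rcases h.conj_eq hq S.hxQ with h1 | h1
        · left
          have hqP : q ∈ XR.P Q x := XR.mem_P.mpr ⟨hq, mul_inv_eq_iff_eq_mul.mp h1⟩
          rw [← hcc q (Subgroup.mem_sup_right hqP), mul_inv_cancel_right]
        · -- u * (q u q⁻¹) = 1
          have h2 : (u * q) * (u * q) = q * q := by
            rw [← hcq]
            calc c * q * c⁻¹ * (c * q * c⁻¹) = c * (q * q) * c⁻¹ := by group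
              _ = q * q := by
                rcases h.sqr q hq with h3 | h3
                · rw [h3]; group
                · rw [h3, hcz, mul_inv_cancel_right]
          have h3 : u * (q * u * q⁻¹) = 1 := by
            have h4 : u * (q * u * q⁻¹) * (q * q) = q * q := by
              calc u * (q * u * q⁻¹) * (q * q) = (u * q) * (u * q) := by group
                _ = q * q := h2
            exact (mul_eq_right (a := u * (q * u * q⁻¹))).mp h4
          rcases S.mem_V.mp huV with h4 | h4 | h4 | h4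
          · left; rw [hcq, h4, one_mul]
          · exfalso
            rw [h4, h1] at h3
            apply h.ne
            calc z = (z * x) * x := by rw [mul_assoc, hx'.sq, mul_one]
              _ = (x * z) * x := by rw [S.hzx]
              _ = x * (z * x) := by group
              _ = 1 := h3
          · right; rw [hcq, h4]
          · exfalso
            have h5 : q * (z * x) * q⁻¹ = x := by
              calc q * (z * x) * q⁻¹ = (q * z * q⁻¹) * (q * x * q⁻¹) := by group
                _ = z * (z * x) := by rw [S.q_z hq, h1]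
                _ = x := by rw [← mul_assoc, h.sq, one_mul]
            rw [h4, h5, mul_assoc, hx'.sq, mul_one] at h3
            exact h.ne h3
      obtain ⟨q₁, hq₁, hq₁'⟩ := inner_of_trivial h.toXsp hcz hact
      have hcQ : c ∈ Q := by
        have h1 : q₁⁻¹ * c ∈ Subgroup.centralizer (Q : Set G) := by
          rw [Subgroup.mem_centralizer_iff]
          intro q hq
          have h2 := hq₁' q hq
          calc q * (q₁⁻¹ * c) = q₁⁻¹ * (q₁ * q * q₁⁻¹) * c := by group
            _ = q₁⁻¹ * (c * q * c⁻¹) * c := by rw [h2]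
            _ = _ := by group
        rw [h.cent] at h1
        have h2 : q₁⁻¹ * c ∈ Q := by
          have : Subgroup.zpowers z ≤ Q := by rw [Subgroup.zpowers_le]; exact h.mem
          exact this h1
        have h3 : c = q₁ * (q₁⁻¹ * c) := by group
        rw [h3]; exact Q.mul_mem hq₁ h2
      exact hPV c hcQ (fun p hp => hcc p (Subgroup.mem_sup_right hp))
    · intro v hv
      have hvR : v ∈ R := hER (hVE hv)
      refine ⟨⟨v, hvR⟩, ?_, rfl⟩
      rw [SetLike.mem_coe, Subgroup.mem_center_iff]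
      intro r
      apply Subtype.ext
      have := Subgroup.mem_centralizer_iff.mp (S.R_le_CV r.2) v hv
      exact this.symm
  have hcenmem : ∀ c : ↥R, (c : G) ∈ V → c ∈ Subgroup.center ↥R := by
    intro c hc
    rw [← hcenter] at hc
    obtain ⟨d, hd, hdc⟩ := hc
    have : d = c := Subtype.ext hdc
    rwa [← this]
  -- [X, E] ≤ V
  have hXE : ∀ u ∈ Q ⊔ Q', ∀ e ∈ E, u * e * u⁻¹ * e⁻¹ ∈ V := by
    have hQE : ∀ q ∈ Q, ∀ e ∈ E, q * e * q⁻¹ * e⁻¹ ∈ V := by
      intro q hq e he
      rcases h.conj_eq hq (Subgroup.mem_inf.mp he).1 with h1 | h1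
      · rw [h1, mul_inv_cancel]; exact one_mem _
      · rw [h1, mul_inv_cancel_right]; exact S.mem_V.mpr (by simp)
    have hQ'E : ∀ q ∈ Q', ∀ e ∈ E, q * e * q⁻¹ * e⁻¹ ∈ V := by
      intro q hq e he
      rcases hx'.conj_eq hq (Subgroup.mem_inf.mp he).2 with h1 | h1
      · rw [h1, mul_inv_cancel]; exact one_mem _
      · rw [h1, mul_inv_cancel_right]; exact S.mem_V.mpr (by simp)
    intro u hu
    rw [← Subgroup.closure_eq Q, ← Subgroup.closure_eq Q', ← Subgroup.closure_union] at hu
    have hVn : ∀ u ∈ Q ⊔ Q', ∀ v ∈ V, u * v * u⁻¹ ∈ V := fun u hu v hv =>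
      (Subgroup.mem_normalizer_iff.mp (S.X_le_NV hu) v).mp hv
    have hmem' : ∀ u, u ∈ Subgroup.closure ((Q : Set G) ∪ (Q' : Set G)) → u ∈ Q ⊔ Q' := by
      intro u hu
      rwa [Subgroup.closure_union, Subgroup.closure_eq, Subgroup.closure_eq] at hu
    induction hu using Subgroup.closure_induction with
    | mem a ha =>
      rcases ha with ha | ha
      · exact hQE a ha
      · exact hQ'E a ha
    | one => intro e he; simp
    | mul a b ha' hb' ha hb =>
      intro e he
      have : (a * b) * e * (a * b)⁻¹ * e⁻¹ = (a * (b * e * b⁻¹ * e⁻¹) * a⁻¹) * (a * e * a⁻¹ * e⁻¹) := by group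
      rw [this]
      exact V.mul_mem (hVn a (hmem' a ha') _ (hb e he)) (ha e he)
    | inv a ha' ha =>
      intro e he
      have : a⁻¹ * e * a⁻¹⁻¹ * e⁻¹ = a⁻¹ * (a * e * a⁻¹ * e⁻¹)⁻¹ * a⁻¹⁻¹ := by group
      rw [this]
      exact hVn a⁻¹ (inv_mem (hmem' a ha')) _ (V.inv_mem (ha e he))
  have hE2 : ∀ e : ↥R, (e : G) ∈ E → e ∈ Subgroup.upperCentralSeries ↥R 2 := by
    intro e he
    rw [Subgroup.mem_upperCentralSeries_succ_iff]
    intro y
    rw [Subgroup.upperCentralSeries_one]
    apply hcenmem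
    rw [commutatorElement_def]
    show (e : G) * y * (e : G)⁻¹ * (y : G)⁻¹ ∈ V
    have h1 := V.inv_mem (hXE y (XR.R_le_X y.2) e he)
    have h2 : (y * e * (y : G)⁻¹ * (e : G)⁻¹)⁻¹ = (e : G) * y * (e : G)⁻¹ * (y : G)⁻¹ := by group
    rwa [h2] at h1
  refine ⟨hcenter, ?_, ?_, ?_, ?_, S.P_inf_P', ?_⟩
  · intro e he
    exact ⟨⟨e, hER he⟩, hE2 ⟨e, hER he⟩ he, rfl⟩
  · rw [eq_top_iff]
    intro r _
    rw [Subgroup.mem_upperCentralSeries_succ_iff]
    intro y
    apply hE2
    rw [commutatorElement_def]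
    exact hcommE r r.2 y y.2
  · constructor
    · constructor
      constructor
      rintro ⟨a, ha⟩ ⟨b, hb⟩
      exact Subtype.ext (hEcomm a ha b hb)
    · rintro a ha
      rw [pow_two]
      exact hEsq a ha
  · intro a ha b hb
    exact ⟨hcommE a ha b hb, hsqE a ha⟩
  · rw [Subgroup.commutator_le]
    intro u hu e he
    rw [commutatorElement_def]
    exact hXE u hu e he

end Cfsg.Agent.S5431
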