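import Cfsg.Statements.S5434
import Cfsg.Agent.H28_Large
import Cfsg.Agent.H1_Coprime2

set_option autoImplicit false
open Cfsg
open scoped commutatorElement

namespace Cfsg.Agent.S5434

open Cfsg.Agent.H28.Xsp Cfsg.Agent.H28.Large

/-- Let Q be a large extraspecial 2-subgroup of the finite group G (extraspecial; centralizer equal to its centre; normal in the centralizer of its centre; normalizing no non-trivial subgroup of odd order), and A a non-trivial subgroup of odd order of the normalizer of Q. Then Q is the central product of the centralizer of A in Q and the commutator subgroup [Q, A] (they generate Q and commute elementwise), [Q, A] is extraspecial, and the centralizer of A in Q is either the centre of Q or extraspecial. -/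
theorem result {G : Type*} [Group G] [Finite G] (Q : Subgroup G) (hQ : Cfsg.IsLargeExtraspecial Q) (A : Subgroup G) (hA : A ≤ Subgroup.normalizer (Q : Set G)) (hAodd : Odd (Nat.card ↥A)) (hA1 : A ≠ ⊥) : (Q ⊓ Subgroup.centralizer (A : Set G)) ⊔ ⁅Q, A⁆ = Q ∧ (∀ x ∈ Q ⊓ Subgroup.centralizer (A : Set G), ∀ y ∈ ⁅Q, A⁆, x * y = y * x) ∧ Cfsg.IsExtraspecial 2 ↥⁅Q, A⁆ ∧ (Q ⊓ Subgroup.centralizer (A : Set G) = ((Subgroup.center ↥Q).map Q.subtype) ∨ Cfsg.IsExtraspecial 2 ↥(Q ⊓ Subgroup.centralizer (A : Set G))) := by
  have : Fact (Nat.Prime 2) := ⟨Nat.prime_two⟩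
  obtain ⟨z, h⟩ := Pre.of_large hQ
  have hcop : (Nat.card A).Coprime (Nat.card Q) := by
    obtain ⟨n, hn⟩ := h.isPGroup.exists_card_eq
    rw [hn]
    exact (Nat.coprime_two_right.mpr hAodd).pow_right n
  have hsolv : Group.IsSolvable A ∨ Group.IsSolvable Q := by
    right
    have : Group.IsNilpotent Q := h.isPGroup.isNilpotent
    infer_instance
  have hsup := H1.Coprime.commutator_sup_centralizer A Q hA hcop hsolv
  have hcc := H1.Coprime.commutator_commutator_eq A Q hA hcop hsolv
  have hle : ⁅Q, A⁆ ≤ Q := H1.Coprime.commutator_le_of_le_normalizer hA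
  -- z commutes with A
  have hAz : ∀ a ∈ A, a * z = z * a := by
    intro a ha
    have := hA ha
    rw [h.norm_eq] at this
    exact Subgroup.mem_centralizer_singleton_iff.mp this
  set C := Q ⊓ Subgroup.centralizer (A : Set G) with hC
  have hzC : z ∈ C := by
    rw [hC, Subgroup.mem_inf, Subgroup.mem_centralizer_iff]
    exact ⟨h.mem, fun a ha => hAz a ha⟩
  have hAz' : A ≤ Subgroup.centralizer ((Subgroup.zpowers z : Subgroup G) : Set G) := by
    intro a ha
    rw [centralizer_zpowers_eq, Subgroup.mem_centralizer_singleton_iff]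
    exact hAz a ha
  have hQQ : ⁅Q, Q⁆ ≤ Subgroup.zpowers z := by
    rw [Subgroup.commutator_le]
    intro x hx y hy
    rw [mem_zpowers_of_sq h.sq, commutatorElement_def]
    rcases h.comm x hx y hy with h1 | h1
    · left; rw [h1]; group
    · right; rw [h1]; group
  -- [C, [Q,A]] = 1 by three subgroups
  have hthree : ⁅⁅Q, A⁆, C⁆ = ⊥ := by
    apply Subgroup.commutator_commutator_eq_bot_of_rotate
    · -- ⁅⁅A, C⁆, Q⁆ = ⊥
      have h1 : ⁅A, C⁆ = ⊥ := by
        rw [Subgroup.commutator_eq_bot_iff_le_centralizer, Subgroup.le_centralizer_iff]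
        exact inf_le_right
      rw [h1, Subgroup.commutator_bot_left]
    · -- ⁅⁅C, Q⁆, A⁆ = ⊥
      rw [Subgroup.commutator_eq_bot_iff_le_centralizer, Subgroup.le_centralizer_iff]
      apply hAz'.trans
      apply Subgroup.centralizer_le
      exact (Subgroup.commutator_mono inf_le_left le_rfl).trans hQQ
  have hcomm : ∀ x ∈ C, ∀ y ∈ ⁅Q, A⁆, x * y = y * x := by
    intro x hx y hy
    rw [Subgroup.commutator_eq_bot_iff_le_centralizer] at hthree
    exact Subgroup.mem_centralizer_iff.mp (hthree hy) x hx
  have hgen : ∀ q ∈ Q, ∃ x ∈ ⁅Q, A⁆, ∃ c ∈ C, q = x * c := by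
    intro q hq
    exact H1.Coprime.exists_mul_of_coprime hA hcop hsolv hq
  -- [Q,A] nonabelian
  have hnonab : ∃ x ∈ ⁅Q, A⁆, ∃ y ∈ ⁅Q, A⁆, x * y ≠ y * x := by
    by_contra hcon
    push Not at hcon
    -- then [Q,A] ≤ Z
    have h1 : ⁅Q, A⁆ ≤ Subgroup.zpowers z := by
      intro x hx
      rw [mem_zpowers_of_sq h.sq]
      apply h.cen x (hle hx)
      intro y hy
      obtain ⟨u, hu, c, hc, rfl⟩ := hgen y hy
      calc x * (u * c) = (x * u) * c := by group
        _ = (u * x) * c := by rw [hcon x hx u hu]
        _ = u * (c * x) := by rw [mul_assoc, hcomm c hc x hx]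
        _ = _ := by group
    have h2 : ⁅⁅Q, A⁆, A⁆ = ⊥ := by
      rw [Subgroup.commutator_eq_bot_iff_le_centralizer, Subgroup.le_centralizer_iff]
      exact hAz'.trans (Subgroup.centralizer_le h1)
    rw [hcc, Subgroup.commutator_eq_bot_iff_le_centralizer, Subgroup.le_centralizer_iff, h.cent] at h2
    apply hA1
    apply Subgroup.eq_bot_of_card_eq
    have h3 : Nat.card A ∣ 2 := by
      rw [← h.card_zpowers]; exact Subgroup.card_dvd_of_le h2
    rcases (Nat.dvd_prime Nat.prime_two).mp h3 with h4 | h4
    · exact h4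
    · rw [h4] at hAodd
      exact absurd hAodd (by decide)
  have hzQA : z ∈ ⁅Q, A⁆ := by
    obtain ⟨x, hx, y, hy, hxy⟩ := hnonab
    have h1 := (h.comm x (hle hx) y (hle hy)).resolve_left hxy
    have h2 : z = x * y * x⁻¹ * y⁻¹ := by rw [h1]; group
    rw [h2]
    exact mul_mem (mul_mem (mul_mem hx hy) (inv_mem hx)) (inv_mem hy)
  have hX : Xsp ⁅Q, A⁆ z :=
    { mem := hzQA
      ne := h.ne
      sq := h.sq
      zc := fun x hx => h.zc x (hle hx)
      comm := fun x hx y hy => h.comm x (hle hx) y (hle hy)
      sqr := fun x hx => h.sqr x (hle hx)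
      cen := by
        intro x hx hc
        apply h.cen x (hle hx)
        intro y hy
        obtain ⟨u, hu, c, hc', rfl⟩ := hgen y hy
        calc x * (u * c) = (x * u) * c := by group
          _ = (u * x) * c := by rw [hc u hu]
          _ = u * (c * x) := by rw [mul_assoc, hcomm c hc' x hx]
          _ = _ := by group }
  have hCle : C ≤ Q := inf_le_left
  have hXC : Xsp C z :=
    { mem := hzC
      ne := h.ne
      sq := h.sq
      zc := fun x hx => h.zc x (hCle hx)
      comm := fun x hx y hy => h.comm x (hCle hx) y (hCle hy)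
      sqr := fun x hx => h.sqr x (hCle hx)
      cen := by
        intro x hx hc
        apply h.cen x (hCle hx)
        intro y hy
        obtain ⟨u, hu, c, hc', rfl⟩ := hgen y hy
        calc x * (u * c) = (x * u) * c := by group
          _ = (u * x) * c := by rw [hcomm x hx u hu]
          _ = u * (x * c) := by group
          _ = u * (c * x) := by rw [hc c hc']
          _ = _ := by group }
  refine ⟨by rw [sup_comm]; exact hsup, hcomm, hX.isExtraspecial hnonab, ?_⟩
  by_cases hab : ∃ x ∈ C, ∃ y ∈ C, x * y ≠ y * x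
  · right; exact hXC.isExtraspecial hab
  · left
    push Not at hab
    rw [h.center_map]
    apply le_antisymm
    · intro x hx
      rw [mem_zpowers_of_sq h.sq]
      exact hXC.cen x hx (fun y hy => hab x hx y hy)
    · rw [Subgroup.zpowers_le]; exact hzC

end Cfsg.Agent.S5434
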