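import Cfsg.Statements.S5436
import Cfsg.Agent.H28_FSet

set_option autoImplicit false
open Cfsg

namespace Cfsg.Agent.S5436

open Cfsg.Agent.H28.Xsp Cfsg.Agent.H28.Large

/-- Let z be an involution of the finite group G with centralizer H whose generalized Fitting subgroup Q is extraspecial of width at least 2 (order 2^(2w+1), w ≥ 2); suppose some conjugate of z other than z lies in Q, H/Q is a non-abelian simple group, H acts irreducibly by conjugation on Q modulo the subgroup generated by z (the only H-invariant subgroups of Q containing z are that subgroup and Q), and Q is not the subgroup generated by the conjugates of z lying in H. Then G is simple. -/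
theorem result {G : Type*} [Group G] [Finite G] (z : G) (hz : orderOf z = 2) (Q : Subgroup (Subgroup.centralizer ({z} : Set G))) [Q.Normal] (hF : Cfsg.generalizedFittingSubgroup ↥(Subgroup.centralizer ({z} : Set G)) = Q) (hQ : Cfsg.IsExtraspecial 2 ↥Q) (w : ℕ) (hw : 2 ≤ w) (hcard : Nat.card ↥Q = 2 ^ (2 * w + 1)) (hnwc : ∃ g : G, (∃ hq : g * z * g⁻¹ ∈ Subgroup.centralizer ({z} : Set G), (⟨g * z * g⁻¹, hq⟩ : Subgroup.centralizer ({z} : Set G)) ∈ Q) ∧ g * z * g⁻¹ ≠ z) (hsimp : IsSimpleGroup (↥(Subgroup.centralizer ({z} : Set G)) ⧸ Q)) (hna : ¬ IsMulCommutative (↥(Subgroup.centralizer ({z} : Set G)) ⧸ Q)) (hirr : ∀ W : Subgroup (Subgroup.centralizer ({z} : Set G)), W.Normal → W ≤ Q → (W = Q ∨ ∀ x ∈ W, (x : G) ∈ Subgroup.zpowers z)) (hwcl : Subgroup.closure {x : Subgroup.centralizer ({z} : Set G) | IsConj z (x : G)} ≠ Q) : IsSimpleGroup G := by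
  set Q₀ : Subgroup G := Q.map (Subgroup.centralizer ({z} : Set G)).subtype with hQ₀
  have hXQ : ∃ v, Xsp (⊤ : Subgroup ↥Q) v := Xsp.top_of_isExtraspecial hQ
  have hQ₀E : Cfsg.IsExtraspecial 2 ↥Q₀ := by
    obtain ⟨v, hv⟩ := hXQ
    have h1 : Xsp Q (v : (Subgroup.centralizer ({z} : Set G))) := Xsp.top_iff.mp hv
    have h2 := h1.map (Subgroup.centralizer ({z} : Set G)).subtype (Subgroup.subtype_injective _)
    apply h2.isExtraspecial
    obtain ⟨x, hx, y, hy, hxy⟩ := Xsp.not_comm_of_isExtraspecial hQ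
    refine ⟨x, ⟨x, hx, rfl⟩, y, ⟨y, hy, rfl⟩, ?_⟩
    intro h3
    exact hxy (Subtype.ext h3)
  have h : Pre Q₀ z := pre_of_F hz (by rw [hQ₀, ← hF]) hQ₀E
  obtain ⟨g, ⟨hgH, hgQ⟩, hgz⟩ := hnwc
  have hgQ₀ : g * z * g⁻¹ ∈ Q₀ := ⟨⟨_, hgH⟩, hgQ, rfl⟩
  have hlarge : Cfsg.IsLargeExtraspecial Q₀ := h.large_of_conj g hgQ₀ hgz
  have hnt : Nontrivial G := ⟨⟨z, 1, h.ne⟩⟩
  have hzH : z ∈ (Subgroup.centralizer ({z} : Set G)) := by rw [Subgroup.mem_centralizer_singleton_iff]
  refine ⟨fun N hN => ?_⟩
  by_cases hN1 : N = ⊥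
  · exact Or.inl hN1
  right
  have hzN : z ∈ N := h.mem_of_normal hlarge N hN1
  have hQN : Q ≤ N.subgroupOf (Subgroup.centralizer ({z} : Set G)) := by
    rcases hirr (Q ⊓ N.subgroupOf (Subgroup.centralizer ({z} : Set G))) inferInstance inf_le_left with h1 | h1
    · rw [← h1]; exact inf_le_right
    · exfalso
      have h2 := h1 ⟨g * z * g⁻¹, hgH⟩ (Subgroup.mem_inf.mpr ⟨hgQ, by
        rw [Subgroup.mem_subgroupOf]; exact hN.conj_mem z hzN g⟩)
      rcases (mem_zpowers_of_sq h.sq).mp h2 with h3 | h3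
      · exact (h.conj g).ne h3
      · exact hgz h3
  have hQ₀N : Q₀ ≤ N := by
    rintro _ ⟨y, hy, rfl⟩
    exact Subgroup.mem_subgroupOf.mp (hQN hy)
  have hsup := Cfsg.Agent.S5433.result Q₀ hlarge N hQ₀N
  rw [h.norm_eq] at hsup
  -- N ∩ (Subgroup.centralizer ({z} : Set G)) is Q or (Subgroup.centralizer ({z} : Set G))
  have hcase : N.subgroupOf (Subgroup.centralizer ({z} : Set G)) = ⊤ := by
    have hn : ((N.subgroupOf (Subgroup.centralizer ({z} : Set G))).map (QuotientGroup.mk' Q)).Normal :=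
      Subgroup.Normal.map inferInstance _ (QuotientGroup.mk'_surjective Q)
    rcases hsimp.eq_bot_or_eq_top_of_normal _ hn with h1 | h1
    · exfalso
      have h2 : N.subgroupOf (Subgroup.centralizer ({z} : Set G)) ≤ Q := by
        intro y hy
        have h3 : QuotientGroup.mk' Q y ∈ ((N.subgroupOf (Subgroup.centralizer ({z} : Set G))).map (QuotientGroup.mk' Q)) := ⟨y, hy, rfl⟩
        rw [h1, Subgroup.mem_bot] at h3
        exact (QuotientGroup.eq_one_iff y).mp h3
      apply hwcl
      set D := Subgroup.closure {x : ↥(Subgroup.centralizer ({z} : Set G)) | IsConj z (x : G)} with hD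
      have hDQ : D ≤ Q := by
        rw [hD, Subgroup.closure_le]
        intro y hy
        apply h2
        rw [Subgroup.mem_subgroupOf]
        obtain ⟨c, hc⟩ := isConj_iff.mp hy
        rw [← hc]
        exact hN.conj_mem z hzN c
      have hDn : D.Normal := by
        constructor
        intro y hy c
        rw [hD] at hy ⊢
        induction hy using Subgroup.closure_induction with
        | mem a ha =>
          apply Subgroup.subset_closure
          show IsConj z ((c * a * c⁻¹ : ↥(Subgroup.centralizer ({z} : Set G))) : G)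
          have ha' : IsConj z (a : G) := ha
          exact ha'.trans (isConj_iff.mpr ⟨c, rfl⟩)
        | one => rw [mul_one, mul_inv_cancel]; exact one_mem _
        | mul a b _ _ ha hb =>
          have : c * (a * b) * c⁻¹ = (c * a * c⁻¹) * (c * b * c⁻¹) := by group
          rw [this]; exact mul_mem ha hb
        | inv a _ ha =>
          have : c * a⁻¹ * c⁻¹ = (c * a * c⁻¹)⁻¹ := by group
          rw [this]; exact inv_mem ha
      rcases hirr D hDn hDQ with h4 | h4
      · exact h4
      · exfalso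
        have h5 := h4 ⟨g * z * g⁻¹, hgH⟩ (Subgroup.subset_closure (isConj_iff.mpr ⟨g, rfl⟩))
        rcases (mem_zpowers_of_sq h.sq).mp h5 with h3 | h3
        · exact (h.conj g).ne h3
        · exact hgz h3
    · rw [eq_top_iff]
      intro y _
      have h3 : QuotientGroup.mk' Q y ∈ ((N.subgroupOf (Subgroup.centralizer ({z} : Set G))).map (QuotientGroup.mk' Q)) := by
        rw [h1]; exact Subgroup.mem_top _
      obtain ⟨u, hu, huy⟩ := h3
      have h4 : u⁻¹ * y ∈ Q := QuotientGroup.eq.mp huy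
      have h5 : y = u * (u⁻¹ * y) := by group
      rw [h5]
      exact mul_mem hu (hQN h4)
  have hHN : (Subgroup.centralizer ({z} : Set G)) ≤ N := by
    intro y hy
    have : (⟨y, hy⟩ : ↥(Subgroup.centralizer ({z} : Set G))) ∈ N.subgroupOf (Subgroup.centralizer ({z} : Set G)) := by rw [hcase]; exact Subgroup.mem_top _
    exact Subgroup.mem_subgroupOf.mp this
  rw [sup_eq_left.mpr hHN] at hsup
  exact hsup

end Cfsg.Agent.S5436
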