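import Cfsg.Statements.S5437

set_option autoImplicit false
open Cfsg

namespace Cfsg.Agent.S5437

theorem result {G : Type*} [Group G] [Finite G] (I : Set G) (hI : ∀ x ∈ I, orderOf x = 2) (hIc : ∀ g : G, ∀ x ∈ I, g * x * g⁻¹ ∈ I) (H : Subgroup G) : ((∀ x ∈ I, x ∈ H → (∀ g : G, g * x * g⁻¹ ∈ H → ∃ h ∈ H, h * x * h⁻¹ = g * x * g⁻¹) ∧ Subgroup.centralizer ({x} : Set G) ≤ H) ↔ (∀ g : G, g ∉ H → ∀ x ∈ I, ¬ (x ∈ H ∧ x ∈ (H : Subgroup G).map (MulAut.conj g).toMonoidHom))) ∧ ((∀ g : G, g ∉ H → ∀ x ∈ I, ¬ (x ∈ H ∧ x ∈ (H : Subgroup G).map (MulAut.conj g).toMonoidHom)) ↔ ∀ x ∈ I, x ∈ H → ∃! c : G ⧸ H, x • c = c) := by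
  have hmem : ∀ g x : G, x ∈ (H : Subgroup G).map (MulAut.conj g).toMonoidHom ↔ g⁻¹ * x * g ∈ H := by
    intro g x
    constructor
    · rintro ⟨y, hy, rfl⟩
      have : g⁻¹ * (g * y * g⁻¹) * g = y := by group
      change g⁻¹ * (g * y * g⁻¹) * g ∈ H
      rw [this]; exact hy
    · intro h
      refine ⟨_, h, ?_⟩
      change g * (g⁻¹ * x * g) * g⁻¹ = x
      group
  constructor
  · constructor
    · rintro h g hg x hx ⟨hxH, hxg⟩
      rw [hmem] at hxg
      obtain ⟨h1, h2⟩ := h x hx hxH
      obtain ⟨k, hk, hk'⟩ := h1 g⁻¹ (by simpa using hxg)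
      have h3 : g * k ∈ Subgroup.centralizer ({x} : Set G) := by
        rw [Subgroup.mem_centralizer_singleton_iff]
        have h4 : k * x = g⁻¹ * x * g * k := by
          rw [mul_inv_eq_iff_eq_mul] at hk'
          simpa using hk'
        rw [mul_assoc, h4]; group
      have h5 := h2 h3
      apply hg
      have := H.mul_mem h5 (H.inv_mem hk)
      simpa using this
    · intro h x hx hxH
      refine ⟨fun g hg => ?_, fun g hg => ?_⟩
      · by_cases hgH : g ∈ H
        · exact ⟨g, hgH, rfl⟩
        · exfalso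
          apply h g hgH (g * x * g⁻¹) (hIc g x hx)
          refine ⟨hg, ?_⟩
          rw [hmem]
          have : g⁻¹ * (g * x * g⁻¹) * g = x := by group
          rwa [this]
      · by_contra hgH
        apply h g hgH x hx
        refine ⟨hxH, ?_⟩
        rw [hmem]
        rw [Subgroup.mem_centralizer_singleton_iff] at hg
        have : g⁻¹ * x * g = x := by
          rw [mul_assoc, ← hg, inv_mul_cancel_left]
        rwa [this]
  · have hfix : ∀ x g : G, x • (QuotientGroup.mk g : G ⧸ H) = QuotientGroup.mk g ↔ g⁻¹ * x * g ∈ H := by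
      intro x g
      rw [MulAction.Quotient.smul_mk, eq_comm, QuotientGroup.eq, smul_eq_mul, mul_assoc]
    constructor
    · intro h x hx hxH
      refine ⟨QuotientGroup.mk 1, ?_, ?_⟩
      · change x • (QuotientGroup.mk 1 : G ⧸ H) = QuotientGroup.mk 1
        rw [hfix]; simpa using hxH
      · intro c
        induction c using QuotientGroup.induction_on with
        | H g =>
          intro hc
          change x • (QuotientGroup.mk g : G ⧸ H) = QuotientGroup.mk g at hc
          rw [hfix] at hc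
          by_contra hne
          apply h g ?_ x hx ⟨hxH, (hmem g x).mpr hc⟩
          intro hgH
          apply hne
          rw [eq_comm, QuotientGroup.eq]
          simpa using hgH
    · rintro h g hg x hx ⟨hxH, hxg⟩
      rw [hmem] at hxg
      obtain ⟨c, _, hc⟩ := h x hx hxH
      have h1 := hc (QuotientGroup.mk 1) ((hfix x 1).mpr (by simpa using hxH))
      have h2 := hc (QuotientGroup.mk g) ((hfix x g).mpr hxg)
      rw [← h1, eq_comm, QuotientGroup.eq] at h2
      exact hg (by simpa using h2)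

end Cfsg.Agent.S5437
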