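import Cfsg.Statements.S5438

set_option autoImplicit false
open Cfsg

namespace Cfsg.Agent.S5438

theorem result {G : Type*} [Group G] [Finite G] (z : G) (hz : Cfsg.IsTwoCentralInvolution z) (H : Subgroup G) (hzH : z ∈ H) (hfix : ∀ g : G, g⁻¹ * z * g ∈ H → g ∈ H) : Odd H.index ∧ ∀ x ∈ H, (∃ k : ℕ, orderOf x = 2 ^ k) → ∀ g : G, g * x * g⁻¹ ∈ H → ∃ h ∈ H, h * x * h⁻¹ = g * x * g⁻¹ := by
  obtain ⟨hz2, P, hzP, hPc⟩ := hz
  have hPH : (P : Subgroup G) ≤ H := by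
    intro g hg
    apply hfix
    have : g⁻¹ * z * g = z := by
      rw [mul_assoc, ← hPc g hg, inv_mul_cancel_left]
    rwa [this]
  have hodd : Odd H.index := by
    rw [← Nat.not_even_iff_odd, even_iff_two_dvd]
    intro h
    have h1 := P.not_dvd_index
    exact h1 (h.trans (Subgroup.index_dvd_of_le hPH))
  refine ⟨hodd, ?_⟩
  -- uniqueness of fixed cosets of conjugates of z
  have hfixc : ∀ x g : G, x • (QuotientGroup.mk g : G ⧸ H) = QuotientGroup.mk g ↔ g⁻¹ * x * g ∈ H := by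
    intro x g
    rw [MulAction.Quotient.smul_mk, eq_comm, QuotientGroup.eq, smul_eq_mul, mul_assoc]
  have huniq : ∀ k a b : G, a⁻¹ * (k * z * k⁻¹) * a ∈ H → b⁻¹ * (k * z * k⁻¹) * b ∈ H →
      (QuotientGroup.mk a : G ⧸ H) = QuotientGroup.mk b := by
    intro k a b ha hb
    have h1 : k⁻¹ * a ∈ H := hfix _ (by
      have : (k⁻¹ * a)⁻¹ * z * (k⁻¹ * a) = a⁻¹ * (k * z * k⁻¹) * a := by group
      rwa [this])
    have h2 : k⁻¹ * b ∈ H := hfix _ (by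
      have : (k⁻¹ * b)⁻¹ * z * (k⁻¹ * b) = b⁻¹ * (k * z * k⁻¹) * b := by group
      rwa [this])
    rw [QuotientGroup.eq]
    have := H.mul_mem (H.inv_mem h1) h2
    simpa [mul_assoc] using this
  -- every 2-element of H commutes with some H-conjugate of z
  have hcz : ∀ x ∈ H, (∃ k : ℕ, orderOf x = 2 ^ k) → ∃ h ∈ H, Commute x (h * z * h⁻¹) := by
    rintro x hx ⟨k, hk⟩
    -- P as a Sylow subgroup of H
    let PH : Sylow 2 H := P.subtype hPH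
    have hxP : IsPGroup 2 (Subgroup.zpowers (⟨x, hx⟩ : H)) := by
      apply IsPGroup.of_card (n := k)
      rw [Nat.card_zpowers, ← hk]
      exact Subgroup.orderOf_mk x hx
    obtain ⟨Q, hQ⟩ := hxP.exists_le_sylow
    obtain ⟨h, hh⟩ := MulAction.exists_smul_eq H PH Q
    refine ⟨h, h.2, ?_⟩
    have hxQ : (⟨x, hx⟩ : H) ∈ Q := hQ (Subgroup.mem_zpowers _)
    rw [← hh, ← SetLike.mem_coe, Sylow.coe_smul] at hxQ
    obtain ⟨y, hy, hyx⟩ := hxQ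
    have hyP : (y : G) ∈ P := hy
    have hyx' : (h : G) * y * (h : G)⁻¹ = x := by
      have := congrArg Subtype.val hyx
      simpa [MulAut.conj_apply] using this
    have hc : Commute (y : G) z := hPc y hyP
    rw [← hyx']
    exact (SemiconjBy.conj_iff).mpr hc
  intro x hx hx2 g hg
  obtain ⟨h₁, hh₁, hc₁⟩ := hcz x hx hx2
  have hgx2 : ∃ k : ℕ, orderOf (g * x * g⁻¹) = 2 ^ k := by
    obtain ⟨k, hk⟩ := hx2
    refine ⟨k, ?_⟩
    rw [← hk]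
    have := orderOf_injective (MulAut.conj g).toMonoidHom (MulAut.conj g).injective x
    simpa using this
  obtain ⟨h₂, hh₂, hc₂⟩ := hcz _ hg hgx2
  -- two involutions in C(x)
  set C := Subgroup.centralizer ({x} : Set G) with hC
  have hz1 : h₁ * z * h₁⁻¹ ∈ C := by
    rw [hC, Subgroup.mem_centralizer_singleton_iff]; exact hc₁.eq.symm
  have hz2' : (g⁻¹ * h₂) * z * (g⁻¹ * h₂)⁻¹ ∈ C := by
    rw [hC, Subgroup.mem_centralizer_singleton_iff]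
    have h3 : Commute (g⁻¹ * (g * x * g⁻¹) * (g⁻¹)⁻¹) (g⁻¹ * (h₂ * z * h₂⁻¹) * (g⁻¹)⁻¹) :=
      SemiconjBy.conj_iff.mpr hc₂
    have h4 : g⁻¹ * (g * x * g⁻¹) * (g⁻¹)⁻¹ = x := by group
    have h5 : g⁻¹ * (h₂ * z * h₂⁻¹) * (g⁻¹)⁻¹ = (g⁻¹ * h₂) * z * (g⁻¹ * h₂)⁻¹ := by group
    rw [h4, h5] at h3
    exact h3.eq.symm
  have hord : ∀ k : G, ∀ hk : k * z * k⁻¹ ∈ C, IsPGroup 2 (Subgroup.zpowers (⟨k * z * k⁻¹, hk⟩ : C)) := by
    intro k hk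
    apply IsPGroup.of_card (n := 1)
    rw [Nat.card_zpowers, Subgroup.orderOf_mk]
    have := orderOf_injective (MulAut.conj k).toMonoidHom (MulAut.conj k).injective z
    simp only [MulEquiv.coe_toMonoidHom, MulAut.conj_apply] at this
    rw [this, hz2, pow_one]
  obtain ⟨T₁, hT₁⟩ := (hord h₁ hz1).exists_le_sylow
  obtain ⟨T₂, hT₂⟩ := (hord _ hz2').exists_le_sylow
  obtain ⟨c, hc⟩ := MulAction.exists_smul_eq C T₂ T₁
  have hm1 : (⟨h₁ * z * h₁⁻¹, hz1⟩ : C) ∈ T₁ := hT₁ (Subgroup.mem_zpowers _)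
  have hm2 : c * (⟨(g⁻¹ * h₂) * z * (g⁻¹ * h₂)⁻¹, hz2'⟩ : C) * c⁻¹ ∈ T₁ := by
    have : (⟨(g⁻¹ * h₂) * z * (g⁻¹ * h₂)⁻¹, hz2'⟩ : C) ∈ T₂ := hT₂ (Subgroup.mem_zpowers _)
    rw [← hc, ← SetLike.mem_coe, Sylow.coe_smul]
    exact ⟨_, this, by simp [MulAut.conj_apply]⟩
  -- T₁ fixes a coset
  haveI : Fact (Nat.Prime 2) := ⟨Nat.prime_two⟩
  have hfixpt : ∃ q : G ⧸ H, ∀ t : C, t ∈ T₁ → (t : G) • q = q := by
    have hT : IsPGroup 2 (T₁ : Subgroup C) := T₁.isPGroup'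
    letI : MulAction (T₁ : Subgroup C) (G ⧸ H) :=
      MulAction.compHom (G ⧸ H) ((C.subtype).comp (T₁ : Subgroup C).subtype)
    have hne := hT.nonempty_fixed_point_of_prime_not_dvd_card (G ⧸ H) (by
      intro h2
      rw [← Subgroup.index] at h2
      exact (Nat.not_even_iff_odd.mpr hodd) (even_iff_two_dvd.mpr h2))
    obtain ⟨q, hq⟩ := hne
    exact ⟨q, fun t ht => hq ⟨t, ht⟩⟩
  obtain ⟨q, hq⟩ := hfixpt
  obtain ⟨a, rfl⟩ := QuotientGroup.mk_surjective q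
  have e1 := hq _ hm1
  have e2 := hq _ hm2
  have e2' : ((c : G) * g⁻¹ * h₂) * z * ((c : G) * g⁻¹ * h₂)⁻¹ = (c : G) * ((g⁻¹ * h₂) * z * (g⁻¹ * h₂)⁻¹) * (c : G)⁻¹ := by group
  have e2'' : (((c : G) * g⁻¹ * h₂) * z * ((c : G) * g⁻¹ * h₂)⁻¹) • (QuotientGroup.mk a : G ⧸ H) = QuotientGroup.mk a := by
    rw [e2']; exact e2
  have e1' : (h₁ * z * h₁⁻¹) • (QuotientGroup.mk a : G ⧸ H) = QuotientGroup.mk a := e1
  rw [hfixc] at e1' e2''
  -- z-conjugate h₁ fixes coset h₁ H = H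
  have f1 := huniq h₁ a h₁ e1' (by
    have : h₁⁻¹ * (h₁ * z * h₁⁻¹) * h₁ = z := by group
    rwa [this])
  have f2 := huniq ((c : G) * g⁻¹ * h₂) a ((c : G) * g⁻¹ * h₂) e2'' (by
    have : ((c : G) * g⁻¹ * h₂)⁻¹ * (((c : G) * g⁻¹ * h₂) * z * ((c : G) * g⁻¹ * h₂)⁻¹) * ((c : G) * g⁻¹ * h₂) = z := by group
    rwa [this])
  have f3 : (QuotientGroup.mk h₁ : G ⧸ H) = QuotientGroup.mk ((c : G) * g⁻¹ * h₂) := f1.symm.trans f2
  rw [QuotientGroup.eq] at f3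
  have f4 : (c : G) * g⁻¹ ∈ H := by
    have := H.mul_mem (H.mul_mem hh₁ f3) (H.inv_mem hh₂)
    simpa [mul_assoc] using this
  refine ⟨((c : G) * g⁻¹)⁻¹, H.inv_mem f4, ?_⟩
  have hcx : (c : G) * x = x * c := (Subgroup.mem_centralizer_singleton_iff.mp c.2)
  have : ((c : G) * g⁻¹)⁻¹ = g * (c : G)⁻¹ := by group
  rw [this]
  have h7 : (c : G)⁻¹ * x * c = x := by rw [mul_assoc, ← hcx, inv_mul_cancel_left]
  calc g * (c : G)⁻¹ * x * (g * (c : G)⁻¹)⁻¹ = g * ((c : G)⁻¹ * x * c) * g⁻¹ := by group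
    _ = g * x * g⁻¹ := by rw [h7]

end Cfsg.Agent.S5438
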