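import Cfsg.Statements.S5439
import Cfsg.Agent.H28_Dih

set_option autoImplicit false
open Cfsg

namespace Cfsg.Agent.S5439

open Cfsg.Agent.H28.Basic Cfsg.Agent.H28.Dih

/-- Let I and J be two different conjugacy classes of involutions of the finite group G and H a subgroup such that every member of I ∪ J fixes exactly one coset in the action on the cosets of H, and such that for every a in I ∩ H and every b in (I ∪ J) ∩ H different from a and commuting with it, the centralizer of a b lies in H. Then H = G. -/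
theorem result {G : Type*} [Group G] [Finite G] (I J : Set G) (a₀ b₀ : G) (ha₀ : orderOf a₀ = 2) (hb₀ : orderOf b₀ = 2) (hI : I = {x | IsConj a₀ x}) (hJ : J = {x | IsConj b₀ x}) (hIJ : I ≠ J) (H : Subgroup G) (hfix : ∀ x ∈ I ∪ J, ∃! c : G ⧸ H, x • c = c) (hcent : ∀ a ∈ I, a ∈ H → ∀ b ∈ I ∪ J, b ∈ H → a ≠ b → a * b = b * a → Subgroup.centralizer ({a * b} : Set G) ≤ H) : H = ⊤ := by
  have hfixc : ∀ x g : G, x • (QuotientGroup.mk g : G ⧸ H) = QuotientGroup.mk g ↔ g⁻¹ * x * g ∈ H := by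
    intro x g
    rw [MulAction.Quotient.smul_mk, eq_comm, QuotientGroup.eq, smul_eq_mul, mul_assoc]
  have hfix1 : ∀ x : G, x • (QuotientGroup.mk 1 : G ⧸ H) = QuotientGroup.mk 1 ↔ x ∈ H := by
    intro x
    rw [hfixc]; simp
  -- uniqueness
  have huniq : ∀ x ∈ I ∪ J, x ∈ H → ∀ c : G ⧸ H, x • c = c → c = QuotientGroup.mk 1 := by
    intro x hx hxH c hc
    exact (hfix x hx).unique hc ((hfix1 x).mpr hxH)
  have haa₀ := mul_self_of_orderOf ha₀
  have hbb₀ := mul_self_of_orderOf hb₀
  have hI2 : ∀ a ∈ I, a * a = 1 := by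
    intro a ha; rw [hI] at ha; exact isConj_mul_self haa₀ ha
  have hJ2 : ∀ a ∈ J, a * a = 1 := by
    intro a ha; rw [hJ] at ha; exact isConj_mul_self hbb₀ ha
  have hIc : ∀ a ∈ I, ∀ b, IsConj a b → b ∈ I := by
    intro a ha b hab
    rw [hI] at ha ⊢
    exact IsConj.trans ha hab
  have hJc : ∀ a ∈ J, ∀ b, IsConj a b → b ∈ J := by
    intro a ha b hab
    rw [hJ] at ha ⊢
    exact IsConj.trans ha hab
  have hnc : ∀ a ∈ I, ∀ b ∈ J, ¬ IsConj a b := by
    intro a ha b hb hab
    apply hIJ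
    rw [hI] at ha
    rw [hJ] at hb
    have h0 : IsConj a₀ b₀ := (IsConj.trans ha hab).trans (IsConj.symm hb)
    rw [hI, hJ]
    ext x
    exact ⟨fun h => h0.symm.trans h, fun h => h0.trans h⟩
  by_contra hne
  -- some b in J outside H
  have hbex : ∃ b ∈ J, b ∉ H := by
    by_contra hcon
    push Not at hcon
    apply hne
    have hb₀J : b₀ ∈ J := by rw [hJ]; exact IsConj.refl b₀
    rw [eq_top_iff]
    intro g _
    have h1 : b₀ • (QuotientGroup.mk g : G ⧸ H) = QuotientGroup.mk g := by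
      rw [hfixc]
      apply hcon
      apply hJc b₀ hb₀J
      rw [isConj_iff]
      exact ⟨g⁻¹, by group⟩
    have h2 := huniq b₀ (Or.inr hb₀J) (hcon _ hb₀J) _ h1
    rw [eq_comm, QuotientGroup.eq] at h2
    simpa using h2
  obtain ⟨b, hbJ, hbH⟩ := hbex
  -- some a in I inside H
  have haex : ∃ a ∈ I, a ∈ H := by
    have ha₀I : a₀ ∈ I := by rw [hI]; exact IsConj.refl a₀
    obtain ⟨c, hc, _⟩ := hfix a₀ (Or.inl ha₀I)
    obtain ⟨g, rfl⟩ := QuotientGroup.mk_surjective c
    beta_reduce at hc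
    rw [hfixc] at hc
    refine ⟨_, hIc a₀ ha₀I _ ?_, hc⟩
    rw [isConj_iff]
    exact ⟨g⁻¹, by group⟩
  obtain ⟨a, haI, haH⟩ := haex
  have haa := hI2 a haI
  have hbb := hJ2 b hbJ
  have heven : Even (orderOf (a * b)) := by
    rw [← Nat.not_odd_iff_even]
    intro hodd
    exact hnc a haI b hbJ (isConj_of_odd haa hbb hodd)
  obtain ⟨k, hk⟩ := heven
  have hpos := orderOf_pos (a * b)
  obtain ⟨h1, h2, h3, h4, h5⟩ := even_central haa hbb k (by omega) (by omega)
  set t := (a * b) ^ k with ht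
  have hat : a * t ∈ I ∪ J := by
    rcases h5 with h | h
    · exact Or.inl (hIc a haI _ h)
    · exact Or.inr (hJc b hbJ _ h)
  have hatH : a * t ∈ H := by
    rw [← hfix1]
    apply huniq a (Or.inl haI) haH
    rw [← mul_smul, show a * (a * t) = (a * t) * a by rw [mul_assoc, h3.eq], mul_smul,
      (hfix1 a).mpr haH]
  have hle := hcent a haI haH (a * t) hat hatH (by
    intro h
    apply h2
    exact (mul_eq_left (a := a) (b := t)).mp h.symm) (by rw [mul_assoc, h3.eq])
  apply hbH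
  apply hle
  have hatt : a * (a * t) = t := by rw [← mul_assoc, haa, one_mul]
  rw [hatt, Subgroup.mem_centralizer_singleton_iff]
  exact h4.eq

end Cfsg.Agent.S5439
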