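import Cfsg.Statements.S5459

set_option autoImplicit false
open Cfsg

namespace Cfsg.Agent.S5459

open Cfsg Cfsg.Agent

/-- reachability in the commuting graph -/
def R {G : Type*} [Group G] (D : Set G) (x y : G) : Prop :=
  ∃ (hx : x ∈ D) (hy : y ∈ D), (Cfsg.commutingGraph D).Reachable ⟨x, hx⟩ ⟨y, hy⟩

theorem R.trans {G : Type*} [Group G] {D : Set G} {x y z : G} (h : R D x y) (h' : R D y z) : R D x z := by
  obtain ⟨hx, hy, h1⟩ := h
  obtain ⟨hy', hz, h2⟩ := h'
  exact ⟨hx, hz, h1.trans h2⟩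

theorem R.of_comm {G : Type*} [Group G] {D : Set G} {x y : G} (hx : x ∈ D) (hy : y ∈ D) (h : Commute x y) : R D x y := by
  refine ⟨hx, hy, ?_⟩
  by_cases hxy : x = y
  · subst hxy; exact SimpleGraph.Reachable.refl _
  · apply SimpleGraph.Adj.reachable
    rw [Cfsg.commutingGraph, SimpleGraph.fromRel_adj]
    exact ⟨fun h => hxy (congrArg Subtype.val h), Or.inl h⟩

/-- induction on reachability -/
theorem reach_induct {G : Type*} [Group G] {D : Set G} {P : G → G → Prop} (hrefl : ∀ x ∈ D, P x x)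
    (hstep : ∀ x y z, x ∈ D → y ∈ D → z ∈ D → P x y → Commute y z → P x z) {x y : D}
    (h : (Cfsg.commutingGraph D).Reachable x y) : P (x : G) (y : G) := by
  obtain ⟨w⟩ := h
  have key : ∀ (u v : D) (w : (Cfsg.commutingGraph D).Walk u v) (x : G), x ∈ D → P x u → P x v := by
    intro u v w
    induction w with
    | nil => intro x _ h; exact h
    | @cons u v' v hadj _ ih =>
      intro x hx h
      apply ih x hx
      rw [Cfsg.commutingGraph, SimpleGraph.fromRel_adj] at hadj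
      refine hstep x u v' hx u.2 v'.2 h ?_
      rcases hadj.2 with h' | h'
      · exact h'
      · exact h'.symm
  exact key x y w x x.2 (hrefl x x.2)

/-- Let G be a finite group with a quasisimple normal subgroup L and an involution d such that G is generated by L and d, the centre of L has odd order, and d inverts every element of the centre of L. If the commuting graph on the conjugacy class of the image of d in G modulo the centre of L is connected, then the commuting graph on the conjugacy class of d is connected. -/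
theorem result {G : Type*} [Group G] [Finite G] (L : Subgroup G) [L.Normal] (hL : Cfsg.IsQuasisimple ↥L) (d : G) (hd : orderOf d = 2) (hgen : L ⊔ Subgroup.zpowers d = ⊤) (hodd : Odd (Nat.card ↥(Subgroup.center ↥L))) (hinv : ∀ c ∈ (Subgroup.center ↥L).map L.subtype, d * c * d⁻¹ = c⁻¹) [hn : ((Subgroup.center ↥L).map L.subtype).Normal] (hconn : (Cfsg.commutingGraph (conjugatesOf (QuotientGroup.mk d : G ⧸ (Subgroup.center ↥L).map L.subtype))).Connected) : (Cfsg.commutingGraph (conjugatesOf d)).Connected := by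
  set Z := (Subgroup.center ↥L).map L.subtype with hZ
  have hLZ : ∀ l ∈ L, ∀ c ∈ Z, Commute l c := by
    rintro l hl _ ⟨c, hc, rfl⟩
    have := (Subgroup.mem_center_iff.1 hc) ⟨l, hl⟩
    exact congrArg Subtype.val this
  have hZL : Z ≤ L := by rintro _ ⟨c, -, rfl⟩; exact c.2
  have hd2 : d * d = 1 := by rw [← pow_two, ← hd]; exact pow_orderOf_eq_one d
  have memD : ∀ x, x ∈ conjugatesOf d ↔ ∃ g : G, x = g * d * g⁻¹ := by
    intro x
    constructor
    · intro h
      obtain ⟨g, hg⟩ := isConj_iff.1 (show IsConj d x from h)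
      exact ⟨g, hg.symm⟩
    · rintro ⟨g, rfl⟩; exact isConj_iff.2 ⟨g, rfl⟩
  have conjD : ∀ (g : G) (x : G), x ∈ conjugatesOf d → g * x * g⁻¹ ∈ conjugatesOf d := by
    intro g x hx
    obtain ⟨h, rfl⟩ := (memD x).1 hx
    exact (memD _).2 ⟨g * h, by group⟩
  have sqD : ∀ x ∈ conjugatesOf d, x * x = 1 := by
    intro x hx
    obtain ⟨g, rfl⟩ := (memD x).1 hx
    calc g * d * g⁻¹ * (g * d * g⁻¹) = g * (d * d) * g⁻¹ := by group
      _ = 1 := by rw [hd2]; group
  have invD : ∀ x ∈ conjugatesOf d, x⁻¹ = x := fun x hx => inv_eq_of_mul_eq_one_right (sqD x hx)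
  have actD : ∀ x ∈ conjugatesOf d, ∀ c ∈ Z, x * c * x⁻¹ = c⁻¹ := by
    intro x hx c hc
    obtain ⟨g, rfl⟩ := (memD x).1 hx
    have h1 := hinv (g⁻¹ * c * g) (by have := hn.conj_mem c hc g⁻¹; rwa [inv_inv] at this)
    calc g * d * g⁻¹ * c * (g * d * g⁻¹)⁻¹ = g * (d * (g⁻¹ * c * g) * d⁻¹) * g⁻¹ := by group
      _ = c⁻¹ := by rw [h1]; group
  have hsqrt : ∀ z ∈ Z, ∃ w ∈ Z, w * w = z := by
    intro z hz
    have hcard : Nat.card Z = Nat.card (Subgroup.center L) := by
      rw [hZ]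
      exact (Nat.card_congr (Subgroup.equivMapOfInjective _ _ L.subtype_injective).toEquiv).symm
    obtain ⟨k, hk⟩ := hodd
    rw [← hcard] at hk
    have h1 : z ^ Nat.card Z = 1 := by
      have := pow_card_eq_one' (x := (⟨z, hz⟩ : Z))
      exact congrArg Subtype.val this
    refine ⟨z ^ (k + 1), Z.pow_mem hz _, ?_⟩
    rw [← pow_add, show k + 1 + (k + 1) = Nat.card Z + 1 by omega, pow_succ, h1, one_mul]
  have fiber : ∀ x ∈ conjugatesOf d, ∀ z ∈ Z, ∃ w ∈ Z, x * z = w * x * w⁻¹ := by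
    intro x hx z hz
    obtain ⟨w, hw, hwz⟩ := hsqrt z hz
    refine ⟨w⁻¹, Z.inv_mem hw, ?_⟩
    have h1 := actD x hx w hw
    have h2 : x * w = w⁻¹ * x := by rw [← h1]; group
    rw [inv_inv, ← hwz, ← mul_assoc, h2]
  -- lifting adjacency
  have mkeq : ∀ x y : G, (QuotientGroup.mk x : G ⧸ Z) = QuotientGroup.mk y → ∃ z ∈ Z, y = x * z := by
    intro x y h
    exact ⟨x⁻¹ * y, QuotientGroup.eq.1 h, by group⟩
  have lift : ∀ x ∈ conjugatesOf d, ∀ y ∈ conjugatesOf d, Commute (QuotientGroup.mk x : G ⧸ Z) (QuotientGroup.mk y) →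
      ∃ y' ∈ conjugatesOf d, (QuotientGroup.mk y' : G ⧸ Z) = QuotientGroup.mk y ∧ Commute x y' := by
    intro x hx y hy hc
    have hx2 := sqD x hx
    have hy2 := sqD y hy
    have hz : x * y * x * y ∈ Z := by
      rw [← QuotientGroup.eq_one_iff]
      have h1 : (QuotientGroup.mk (x * y * x * y) : G ⧸ Z) = QuotientGroup.mk x * QuotientGroup.mk y * QuotientGroup.mk x * QuotientGroup.mk y := rfl
      rw [h1, hc.eq, mul_assoc (QuotientGroup.mk y : G ⧸ Z), ← QuotientGroup.mk_mul, hx2, QuotientGroup.mk_one, mul_one, ← QuotientGroup.mk_mul, hy2]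
      rfl
    obtain ⟨w, hw, hwz⟩ := hsqrt _ (Z.inv_mem hz)
    obtain ⟨v, hv, hyv⟩ := fiber y hy w hw
    refine ⟨y * w, ?_, ?_, ?_⟩
    · rw [hyv]; exact conjD v y hy
    · rw [QuotientGroup.mk_mul, (QuotientGroup.eq_one_iff w).2 hw, mul_one]
    · have h1 : (y * w) * (y * w) = 1 := by
        rw [hyv]
        calc v * y * v⁻¹ * (v * y * v⁻¹) = v * (y * y) * v⁻¹ := by group
          _ = 1 := by rw [hy2]; group
      have h2 : w * (x * y) = (x * y) * w := by
        have e1 := actD y hy w hw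
        have e2 := actD x hx _ (Z.inv_mem hw)
        rw [inv_inv] at e2
        have e3 : y * w = w⁻¹ * y := by rw [← e1]; group
        have e4 : x * w⁻¹ = w * x := by
          calc x * w⁻¹ = (x * w⁻¹ * x⁻¹) * x := by group
            _ = w * x := by rw [e2]
        calc w * (x * y) = (w * x) * y := by group
          _ = x * (w⁻¹ * y) := by rw [← e4]; group
          _ = (x * y) * w := by rw [← e3]; group
      have h3 : (x * (y * w)) * (x * (y * w)) = 1 := by
        calc (x * (y * w)) * (x * (y * w)) = x * y * (w * (x * y)) * w := by group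
          _ = (x * y * x * y) * (w * w) := by rw [h2]; group
          _ = 1 := by rw [hwz, mul_inv_cancel]
      show x * (y * w) = (y * w) * x
      calc x * (y * w) = (x * (y * w))⁻¹ := (inv_eq_of_mul_eq_one_right h3).symm
        _ = (y * w)⁻¹ * x⁻¹ := mul_inv_rev _ _
        _ = (y * w) * x := by rw [inv_eq_of_mul_eq_one_right h1, invD x hx]
  have hdD : d ∈ conjugatesOf d := (memD d).2 ⟨1, by group⟩
  -- reach an element of every fibre
  have memDbar : ∀ xb : G ⧸ Z, xb ∈ conjugatesOf (QuotientGroup.mk d : G ⧸ Z) → ∃ x ∈ conjugatesOf d, (QuotientGroup.mk x : G ⧸ Z) = xb := by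
    intro xb hx
    obtain ⟨g, hg⟩ := isConj_iff.1 (show IsConj (QuotientGroup.mk d : G ⧸ Z) xb from hx)
    obtain ⟨g, rfl⟩ := QuotientGroup.mk_surjective g
    exact ⟨g * d * g⁻¹, (memD _).2 ⟨g, rfl⟩, hg⟩
  have mkD : ∀ x ∈ conjugatesOf d, (QuotientGroup.mk x : G ⧸ Z) ∈ conjugatesOf (QuotientGroup.mk d : G ⧸ Z) := by
    intro x hx
    obtain ⟨g, rfl⟩ := (memD x).1 hx
    exact isConj_iff.2 ⟨QuotientGroup.mk g, rfl⟩
  have reach : ∀ g : G, ∃ y, (QuotientGroup.mk y : G ⧸ Z) = QuotientGroup.mk (g * d * g⁻¹) ∧ R (conjugatesOf d) d y := by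
    intro g
    have h1 := hconn.preconnected ⟨QuotientGroup.mk d, mkD d hdD⟩ ⟨QuotientGroup.mk (g * d * g⁻¹), mkD _ ((memD _).2 ⟨g, rfl⟩)⟩
    have h2 := reach_induct (P := fun x y => x = QuotientGroup.mk d → ∃ y', (QuotientGroup.mk y' : G ⧸ Z) = y ∧ R (conjugatesOf d) d y')
      (by
        rintro x - rfl
        exact ⟨d, rfl, R.of_comm hdD hdD (Commute.refl _)⟩)
      (by
        rintro x y z - hy hz hP hcomm hx
        obtain ⟨y', hy', hR⟩ := hP hx
        obtain ⟨-, hy'D, -⟩ := id hR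
        obtain ⟨z', hz', hz''⟩ := memDbar z hz
        rw [← hy', ← hz''] at hcomm
        obtain ⟨z1, hz1, hz2, hz3⟩ := lift y' hy'D z' hz' hcomm
        exact ⟨z1, by rw [hz2, hz''], hR.trans (R.of_comm hy'D hz1 hz3)⟩) h1
    exact h2 rfl
  -- conjugation invariance
  have Rconj : ∀ (g x y : G), R (conjugatesOf d) x y → R (conjugatesOf d) (g * x * g⁻¹) (g * y * g⁻¹) := by
    rintro g x y ⟨hx, hy, h⟩
    exact reach_induct (P := fun x y => R (conjugatesOf d) (g * x * g⁻¹) (g * y * g⁻¹))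
      (fun x hx => R.of_comm (conjD g x hx) (conjD g x hx) (Commute.refl _))
      (fun x y z _ hy hz hP hc => hP.trans (R.of_comm (conjD g y hy) (conjD g z hz) (by
        show g * y * g⁻¹ * (g * z * g⁻¹) = g * z * g⁻¹ * (g * y * g⁻¹)
        calc g * y * g⁻¹ * (g * z * g⁻¹) = g * (y * z) * g⁻¹ := by group
          _ = _ := by rw [hc.eq]; group))) h
  have Rsymm : ∀ x y, R (conjugatesOf d) x y → R (conjugatesOf d) y x := by
    rintro x y ⟨hx, hy, h⟩; exact ⟨hy, hx, h.symm⟩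
  let N : Subgroup G :=
    { carrier := {g | R (conjugatesOf d) d (g * d * g⁻¹)}
      mul_mem' := by
        intro g h hg hh
        have h1 := Rconj g _ _ hh
        have h2 : R (conjugatesOf d) d ((g * h) * d * (g * h)⁻¹) := by
          have e : (g * h) * d * (g * h)⁻¹ = g * (h * d * h⁻¹) * g⁻¹ := by group
          rw [e]; exact R.trans hg h1
        exact h2
      one_mem' := by
        show R (conjugatesOf d) d (1 * d * 1⁻¹)
        rw [one_mul, inv_one, mul_one]; exact R.of_comm hdD hdD (Commute.refl _)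
      inv_mem' := by
        intro g hg
        have h1 := Rconj g⁻¹ _ _ hg
        have e : g⁻¹ * (g * d * g⁻¹) * g⁻¹⁻¹ = d := by group
        rw [e] at h1
        exact Rsymm _ _ h1 }
  have hNZ : ∀ g : G, ∃ w ∈ Z, w * g ∈ N := by
    intro g
    obtain ⟨y, hy, hR⟩ := reach g
    obtain ⟨z, hz, rfl⟩ := mkeq _ _ hy.symm
    obtain ⟨w, hw, hw2⟩ := fiber _ ((memD _).2 ⟨g, rfl⟩) z hz
    refine ⟨w, hw, ?_⟩
    show R (conjugatesOf d) d ((w * g) * d * (w * g)⁻¹)
    have e : (w * g) * d * (w * g)⁻¹ = w * (g * d * g⁻¹) * w⁻¹ := by group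
    rw [e, ← hw2]; exact hR
  have hLN : L ≤ N := by
    have h4 : ⁅L, L⁆ = L := Subgroup.isPerfect_iff.1 hL.1
    rw [← h4, Subgroup.commutator_le]
    intro l1 hl1 l2 hl2
    obtain ⟨w1, hw1, h1⟩ := hNZ l1
    obtain ⟨w2, hw2, h2⟩ := hNZ l2
    have c1 := hLZ l2 hl2 w1 hw1
    have c2 := hLZ l1 hl1 w2 hw2
    have c3 := hLZ w1 (hZL hw1) w2 hw2
    have c4 := hLZ l1 hl1 w1 hw1
    have c5 := hLZ l2 hl2 w2 hw2
    have e : l1 * l2 * l1⁻¹ * l2⁻¹ = (w1 * l1) * (w2 * l2) * (w1 * l1)⁻¹ * (w2 * l2)⁻¹ := by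
      have k1 : Commute (w1 * l1) w2 := (c3.mul_left c2)
      have k2 : Commute w1 (w2 * l2) := (c3.mul_right c1.symm)
      calc l1 * l2 * l1⁻¹ * l2⁻¹ = (l1 * l2 * l1⁻¹) * l2⁻¹ := by group
        _ = l1 * l2 * l1⁻¹ * (w1⁻¹ * w1) * l2⁻¹ * (w2⁻¹ * w2) := by group
        _ = (w1 * l1) * (w2 * l2) * (w1 * l1)⁻¹ * (w2 * l2)⁻¹ := by
            have m1 : (w1 * l1) * (w2 * l2) = w1 * w2 * (l1 * l2) := by
              calc (w1 * l1) * (w2 * l2) = w1 * (l1 * w2) * l2 := by group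
                _ = _ := by rw [c2.eq]; group
            have m2 : (w2 * l2) * (w1 * l1) = w2 * w1 * (l2 * l1) := by
              calc (w2 * l2) * (w1 * l1) = w2 * (l2 * w1) * l1 := by group
                _ = _ := by rw [c1.eq]; group
            have m3 : (w1 * l1) * (w2 * l2) * (w1 * l1)⁻¹ * (w2 * l2)⁻¹ = ((w1 * l1) * (w2 * l2)) * ((w2 * l2) * (w1 * l1))⁻¹ := by group
            rw [m3, m1, m2, c3.eq]
            have c6 : Commute (w2 * w1) (l1 * l2 * (l2 * l1)⁻¹) :=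
              ((c2.symm.mul_left c4.symm).mul_right (c5.symm.mul_left c1.symm)).mul_right
                ((c5.symm.mul_left c1.symm).mul_right (c2.symm.mul_left c4.symm)).inv_right
            calc l1 * l2 * l1⁻¹ * (w1⁻¹ * w1) * l2⁻¹ * (w2⁻¹ * w2) = l1 * l2 * (l2 * l1)⁻¹ := by group
              _ = (l1 * l2 * (l2 * l1)⁻¹) * (w2 * w1) * (w2 * w1)⁻¹ := by group
              _ = (w2 * w1) * (l1 * l2 * (l2 * l1)⁻¹) * (w2 * w1)⁻¹ := by rw [← c6.eq]
              _ = _ := by group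
    rw [commutatorElement_def, e]
    exact N.mul_mem (N.mul_mem (N.mul_mem h1 h2) (N.inv_mem h1)) (N.inv_mem h2)
  have hall : ∀ g : G, g ∈ N := by
    intro g
    obtain ⟨w, hw, h⟩ := hNZ g
    have := N.mul_mem (N.inv_mem (hLN (hZL hw))) h
    rwa [inv_mul_cancel_left] at this
  haveI : Nonempty (conjugatesOf d) := ⟨⟨d, hdD⟩⟩
  refine ⟨?_⟩
  rintro ⟨x, hx⟩ ⟨y, hy⟩
  obtain ⟨g, rfl⟩ := (memD x).1 hx
  obtain ⟨h, rfl⟩ := (memD y).1 hy
  obtain ⟨_, _, h1⟩ := (hall g : R (conjugatesOf d) d (g * d * g⁻¹))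
  obtain ⟨_, _, h2⟩ := (hall h : R (conjugatesOf d) d (h * d * h⁻¹))
  exact h1.symm.trans h2

end Cfsg.Agent.S5459
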