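import Cfsg.Statements.S5471
import Cfsg.Agent.H28_Rel5

set_option autoImplicit false
open Cfsg

namespace Cfsg.Agent.S5471

open Cfsg.Agent.H28.Basic Cfsg.Agent.H28.VW Cfsg.Agent.H28.Rel

/-- a commuting triple is determined by its product -/
theorem triple {G : Type*} [Group G] {D : Set G} (hD : IsThreeTranspositionSet D) (hR : RelFree D 6) {a b c a' b' c' : G}
    (ha : a ∈ D) (hb : b ∈ D) (hc : c ∈ D) (ha' : a' ∈ D) (hb' : b' ∈ D) (hc' : c' ∈ D)
    (nab : a ≠ b) (nac : a ≠ c) (nbc : b ≠ c) (cab : Commute a b) (cac : Commute a c) (cbc : Commute b c)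
    (nab' : a' ≠ b') (nac' : a' ≠ c') (nbc' : b' ≠ c') (cab' : Commute a' b') (cac' : Commute a' c') (cbc' : Commute b' c')
    (h : a * b * c = a' * b' * c') : ∀ x, x ∈ [a, b, c] ↔ x ∈ [a', b', c'] := by
  have hl : ∀ x ∈ [a, b, c], x ∈ D := by simp [ha, hb, hc]
  have hl' : ∀ x ∈ [a', b', c'], x ∈ D := by simp [ha', hb', hc']
  have hcm : ∀ x ∈ [a, b, c], ∀ y ∈ [a, b, c], Commute x y := by
    simp only [List.mem_cons, List.not_mem_nil, or_false]
    rintro x (rfl | rfl | rfl) y (rfl | rfl | rfl)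
    exacts [Commute.refl _, cab, cac, cab.symm, Commute.refl _, cbc, cac.symm, cbc.symm, Commute.refl _]
  have hcm' : ∀ x ∈ [a', b', c'], ∀ y ∈ [a', b', c'], Commute x y := by
    simp only [List.mem_cons, List.not_mem_nil, or_false]
    rintro x (rfl | rfl | rfl) y (rfl | rfl | rfl)
    exacts [Commute.refl _, cab', cac', cab'.symm, Commute.refl _, cbc', cac'.symm, cbc'.symm, Commute.refl _]
  have hn : [a, b, c].Nodup := by simp [nab, nac, nbc]
  have hn' : [a', b', c'].Nodup := by simp [nab', nac', nbc']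
  have hp : [a, b, c].prod = [a', b', c'].prod := by simpa [mul_assoc] using h
  refine uniq_fact hD hR _ _ hn hn' hl hl' hcm hcm' ?_ (by simp) hp
  intro x hx y hy
  refine comm_list hD [a, b, c] hn (by simp) hl hcm (hl' y hy) ?_ x hx
  rw [hp]
  exact Commute.list_prod_left _ _ fun z hz => hcm' z hz y hy

/-- Let G be a finite group with trivial centre generated by a conjugation-invariant set D of 3-transpositions on which it acts primitively, such that for some d in D the subgroup generated by the members of D other than d commuting with d has central largest normal 2- and 3-subgroups, and suppose G with D is of type M(23). Let d₁, d₂, d₃ be distinct pairwise commuting members of D and j their product. Then the joint centralizer of d₁, d₂, d₃ is normal in the centralizer of j with quotient isomorphic to the symmetric group of degree 3. -/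
theorem result {G : Type*} [Group G] [Finite G] {D : Set G} (hD : Cfsg.IsThreeTranspositionGroup D) (hprim : Cfsg.IsPrimitiveUnderConj D) (d₀ : G) (hd₀ : d₀ ∈ D) (h3 : Cfsg.pCore 3 ↥(Subgroup.closure {y : G | y ∈ D ∧ y ≠ d₀ ∧ Commute d₀ y}) ≤ Subgroup.center ↥(Subgroup.closure {y : G | y ∈ D ∧ y ≠ d₀ ∧ Commute d₀ y})) (h2 : Cfsg.pCore 2 ↥(Subgroup.closure {y : G | y ∈ D ∧ y ≠ d₀ ∧ Commute d₀ y}) ≤ Subgroup.center ↥(Subgroup.closure {y : G | y ∈ D ∧ y ≠ d₀ ∧ Commute d₀ y})) (h23 : Cfsg.IsOfTypeM23 G D) (d₁ d₂ d₃ : G) (h₁ : d₁ ∈ D) (h₂ : d₂ ∈ D) (h₃ : d₃ ∈ D) (h12 : d₁ ≠ d₂) (h13 : d₁ ≠ d₃) (h23 : d₂ ≠ d₃) (c12 : Commute d₁ d₂) (c13 : Commute d₁ d₃) (c23 : Commute d₂ d₃) (K C : Subgroup G) (hK : K = Subgroup.centralizer ({d₁, d₂, d₃} : Set G)) (hC : C = Subgroup.centralizer ({d₁ * d₂ * d₃} : Set G)) : K ≤ C ∧ ∃ _ : (K.subgroupOf C).Normal, Nonempty (↥C ⧸ K.subgroupOf C ≃* Equiv.Perm (Fin 3)) := by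
  classical
  rename_i hM23
  subst hK hC
  have h2' : pCore 2 ↥(Hd D d₀) ≤ Subgroup.center ↥(Hd D d₀) := h2
  have hR := relFree_M23 hD hprim hd₀ h2' hM23
  have hle : Subgroup.centralizer ({d₁, d₂, d₃} : Set G) ≤ Subgroup.centralizer ({d₁ * d₂ * d₃} : Set G) := by
    intro g hg
    rw [Subgroup.mem_centralizer_iff] at hg
    rw [Subgroup.mem_centralizer_singleton_iff]
    have e1 := hg d₁ (by simp)
    have e2 := hg d₂ (by simp)
    have e3 := hg d₃ (by simp)
    have c1 : Commute (d₁ * d₂ * d₃) g := (Commute.mul_left (Commute.mul_left e1 e2) e3)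
    exact c1.symm.eq
  refine ⟨hle, ?_⟩
  set C := Subgroup.centralizer ({d₁ * d₂ * d₃} : Set G) with hC
  let X : Type _ := {x : G // x ∈ [d₁, d₂, d₃]}
  have hact : ∀ g ∈ C, ∀ x ∈ [d₁, d₂, d₃], g * x * g⁻¹ ∈ [d₁, d₂, d₃] := by
    intro g hg x hx
    have hg' := Subgroup.mem_centralizer_singleton_iff.mp hg
    have h4 := triple hD.1 hR (hD.2.1 g d₁ h₁) (hD.2.1 g d₂ h₂) (hD.2.1 g d₃ h₃) h₁ h₂ h₃ (by simpa using h12) (by simpa using h13) (by simpa using h23)
      ((commute_conj_iff g _ _).mpr c12) ((commute_conj_iff g _ _).mpr c13) ((commute_conj_iff g _ _).mpr c23) h12 h13 h23 c12 c13 c23 (by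
        calc g * d₁ * g⁻¹ * (g * d₂ * g⁻¹) * (g * d₃ * g⁻¹) = (g * (d₁ * d₂ * d₃)) * g⁻¹ := by group
          _ = d₁ * d₂ * d₃ := by rw [hg']; group)
    rw [← h4]
    simp only [List.mem_cons, List.not_mem_nil, or_false] at hx ⊢
    rcases hx with rfl | rfl | rfl
    · left; rfl
    · right; left; rfl
    · right; right; rfl
  letI act : MulAction ↥C X :=
    { smul := fun g x => ⟨g * x.1 * (g : G)⁻¹, hact g g.2 x.1 x.2⟩
      one_smul := fun x => Subtype.ext (by show (1 : G) * x.1 * (1 : G)⁻¹ = x.1; group)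
      mul_smul := fun g h x => Subtype.ext (by
        show ((g : G) * h) * x.1 * ((g : G) * h)⁻¹ = g * (h * x.1 * (h : G)⁻¹) * (g : G)⁻¹; group) }
  let φ : ↥C →* Equiv.Perm X := MulAction.toPermHom ↥C X
  have hφ : ∀ (g : ↥C) (x : X), ((φ g x : X) : G) = g * x.1 * (g : G)⁻¹ := fun g x => rfl
  have hker : φ.ker = (Subgroup.centralizer ({d₁, d₂, d₃} : Set G)).subgroupOf C := by
    ext g
    rw [MonoidHom.mem_ker, Subgroup.mem_subgroupOf, Subgroup.mem_centralizer_iff]
    constructor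
    · intro h x hx
      have hx' : x ∈ [d₁, d₂, d₃] := by simpa using hx
      have h4 : ((φ g ⟨x, hx'⟩ : X) : G) = x := by rw [h]; rfl
      rw [hφ, mul_inv_eq_iff_eq_mul] at h4
      exact h4.symm
    · intro h
      ext x
      rw [hφ]
      have := h x.1 (by simpa using x.2)
      rw [← this]; simp
  have hn : ((Subgroup.centralizer ({d₁, d₂, d₃} : Set G)).subgroupOf C).Normal := by rw [← hker]; infer_instance
  refine ⟨hn, ?_⟩
  -- the swaps
  have m1 : d₁ ∈ [d₁, d₂, d₃] := by simp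
  have m2 : d₂ ∈ [d₁, d₂, d₃] := by simp
  have m3 : d₃ ∈ [d₁, d₂, d₃] := by simp
  have hj : ∀ g : G, (∀ x ∈ [d₁, d₂, d₃], g * x * g⁻¹ ∈ [d₁, d₂, d₃]) → g ∈ C := by
    intro g hg
    rw [hC, Subgroup.mem_centralizer_singleton_iff]
    have e1 : (g * d₁ * g⁻¹) * (g * d₂ * g⁻¹) * (g * d₃ * g⁻¹) = d₁ * d₂ * d₃ := by
      have hp : [g * d₁ * g⁻¹, g * d₂ * g⁻¹, g * d₃ * g⁻¹].Perm [d₁, d₂, d₃] := by
        rw [List.perm_ext_iff_of_nodup (by simp [h12, h13, h23]) (by simp [h12, h13, h23])]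
        intro x
        have hinj : Function.Injective (fun x : X => (⟨g * x.1 * g⁻¹, hg x.1 x.2⟩ : X)) := by
          intro x y hxy
          have h5 := congrArg Subtype.val hxy
          have h5 : g * x.1 * g⁻¹ = g * y.1 * g⁻¹ := h5
          apply Subtype.ext
          simpa using h5
        haveI : Finite X := inferInstance
        have hsurj := Finite.surjective_of_injective hinj
        constructor
        · intro hx
          simp only [List.mem_cons, List.not_mem_nil, or_false] at hx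
          rcases hx with rfl | rfl | rfl
          · exact hg _ m1
          · exact hg _ m2
          · exact hg _ m3
        · intro hx
          obtain ⟨⟨y, hy⟩, hyx⟩ := hsurj ⟨x, hx⟩
          have h5 : g * y * g⁻¹ = x := congrArg Subtype.val hyx
          rw [← h5]
          simp only [List.mem_cons, List.not_mem_nil, or_false] at hy ⊢
          rcases hy with rfl | rfl | rfl
          · left; rfl
          · right; left; rfl
          · right; right; rfl
      have h6 := hp.prod_eq' (by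
        simp only [List.pairwise_cons, List.mem_cons, List.not_mem_nil, or_false, forall_eq_or_imp, forall_eq, List.Pairwise.nil, and_true,
          IsEmpty.forall_iff, implies_true]
        exact ⟨⟨(commute_conj_iff g _ _).mpr c12, (commute_conj_iff g _ _).mpr c13⟩, (commute_conj_iff g _ _).mpr c23⟩)
      simpa [mul_assoc] using h6
    calc g * (d₁ * d₂ * d₃) = (g * d₁ * g⁻¹) * (g * d₂ * g⁻¹) * (g * d₃ * g⁻¹) * g := by group
      _ = _ := by rw [e1]
  have hsw : ∀ x y : X, x ≠ y → ∃ g : ↥C, φ g = Equiv.swap x y := by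
    have hgen : ∀ a b c : G, a ∈ D → b ∈ D → c ∈ D → a ≠ b → a ≠ c → b ≠ c → Commute a b → Commute a c → Commute b c →
        (∀ x, x ∈ [d₁, d₂, d₃] ↔ (x = a ∨ x = b ∨ x = c)) → ∀ (hma : a ∈ [d₁, d₂, d₃]) (hmb : b ∈ [d₁, d₂, d₃]),
        ∃ g : ↥C, φ g = Equiv.swap ⟨a, hma⟩ ⟨b, hmb⟩ := by
      intro a b c ha hb hc nab nac nbc cab cac cbc hm hma hmb
      obtain ⟨g, e1, e2, e3⟩ := exists_swap hD hprim hd₀ h2' hM23 ha hb hc nab nac nbc cab cac cbc
      have hgC : g ∈ C := hj g (by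
        intro x hx
        rw [hm] at hx
        rcases hx with rfl | rfl | rfl
        · rw [e1]; exact hmb
        · rw [e2]; exact hma
        · rw [e3, hm]; right; right; rfl)
      refine ⟨⟨g, hgC⟩, ?_⟩
      ext ⟨x, hx⟩
      rw [hφ]
      show g * x * g⁻¹ = _
      rcases (hm x).mp hx with rfl | rfl | rfl
      · rw [e1, Equiv.swap_apply_left]
      · rw [e2, Equiv.swap_apply_right]
      · rw [e3, Equiv.swap_apply_of_ne_of_ne]
        · intro h; exact nac (congrArg Subtype.val h).symm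
        · intro h; exact nbc (congrArg Subtype.val h).symm
    rintro ⟨x, hx⟩ ⟨y, hy⟩ hxy
    have hxy' : x ≠ y := fun h => hxy (Subtype.ext h)
    have hmem : ∀ x, x ∈ [d₁, d₂, d₃] ↔ (x = d₁ ∨ x = d₂ ∨ x = d₃) := by simp
    rcases (hmem x).mp hx with rfl | rfl | rfl <;> rcases (hmem y).mp hy with rfl | rfl | rfl
    · exact absurd rfl hxy'
    · exact hgen _ _ d₃ h₁ h₂ h₃ h12 h13 h23 c12 c13 c23 (fun z => by rw [hmem]) _ _
    · exact hgen _ _ d₂ h₁ h₃ h₂ h13 h12 h23.symm c13 c12 c23.symm (fun z => by rw [hmem]; tauto) _ _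
    · exact hgen _ _ d₃ h₂ h₁ h₃ h12.symm h23 h13 c12.symm c23 c13 (fun z => by rw [hmem]; tauto) _ _
    · exact absurd rfl hxy'
    · exact hgen _ _ d₁ h₂ h₃ h₁ h23 h12.symm h13.symm c23 c12.symm c13.symm (fun z => by rw [hmem]; tauto) _ _
    · exact hgen _ _ d₂ h₃ h₁ h₂ h13.symm h23.symm h12 c13.symm c23.symm c12 (fun z => by rw [hmem]; tauto) _ _
    · exact hgen _ _ d₁ h₃ h₂ h₁ h23.symm h13.symm h12.symm c23.symm c13.symm c12.symm (fun z => by rw [hmem]; tauto) _ _
    · exact absurd rfl hxy'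
  have hsurj : Function.Surjective φ := by
    rw [← MonoidHom.range_eq_top, eq_top_iff, ← Equiv.Perm.closure_isSwap, Subgroup.closure_le]
    rintro σ ⟨x, y, hxy, rfl⟩
    exact hsw x y hxy
  have hX : Nonempty (X ≃ Fin 3) := by
    refine ⟨(Equiv.subtypeEquivRight (fun x => by simp : ∀ x, x ∈ [d₁, d₂, d₃] ↔ x ∈ ({d₁, d₂, d₃} : Finset G))).trans ?_⟩
    refine Finset.equivFinOfCardEq ?_
    rw [Finset.card_insert_of_notMem (by simp [h12, h13]), Finset.card_insert_of_notMem (by simp [h23]), Finset.card_singleton]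
  obtain ⟨eX⟩ := hX
  exact ⟨(QuotientGroup.quotientMulEquivOfEq hker.symm).trans ((QuotientGroup.quotientKerEquivOfSurjective φ hsurj).trans (eX.permCongrHom))⟩

end Cfsg.Agent.S5471
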