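import Cfsg.Statements.S5541

set_option autoImplicit false
open Cfsg

namespace Cfsg.Agent.S5541

open Cfsg Cfsg.Agent



/-- Let ρ be a representation of a group H on a finite-dimensional real vector space U whose only ρ-invariant subspaces are the zero subspace and U, and suppose U carries a non-zero ρ-invariant symmetric bilinear form. Then the following are equivalent: (1) there is a non-zero ρ-equivariant commutative bilinear product on U of which every ρ-equivariant bilinear product is a scalar multiple; (2) there is a non-zero ρ-invariant trilinear form on U that is symmetric under all permutations of its arguments and of which every ρ-invariant trilinear form is a scalar multiple. -/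
theorem result {H : Type*} [Group H] {U : Type*} [AddCommGroup U] [Module ℝ U] [FiniteDimensional ℝ U] (ρ : Representation ℝ H U) (hirr : ∀ W : Submodule ℝ U, (∀ g : H, W.map (ρ g) ≤ W) → W = ⊥ ∨ W = ⊤) (B : LinearMap.BilinForm ℝ U) (hB0 : B ≠ 0) (hBs : ∀ u v, B u v = B v u) (hBi : ∀ (g : H) (u v : U), B (ρ g u) (ρ g v) = B u v) : (∃ m : U →ₗ[ℝ] U →ₗ[ℝ] U, m ≠ 0 ∧ (∀ u v, m u v = m v u) ∧ (∀ (g : H) (u v : U), m (ρ g u) (ρ g v) = ρ g (m u v)) ∧ ∀ m' : U →ₗ[ℝ] U →ₗ[ℝ] U, (∀ (g : H) (u v : U), m' (ρ g u) (ρ g v) = ρ g (m' u v)) → ∃ c : ℝ, m' = c • m) ↔ (∃ t : U →ₗ[ℝ] U →ₗ[ℝ] U →ₗ[ℝ] ℝ, t ≠ 0 ∧ (∀ u v w, t u v w = t v u w ∧ t u v w = t u w v) ∧ (∀ (g : H) (u v w : U), t (ρ g u) (ρ g v) (ρ g w) = t u v w) ∧ ∀ t' : U →ₗ[ℝ] U →ₗ[ℝ] U →ₗ[ℝ] ℝ, (∀ (g : H) (u v w : U), t' (ρ g u) (ρ g v) (ρ g w) = t' u v w) → ∃ c : ℝ, t' = c • t) := by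
  have hrr : ∀ (g : H) (w : U), ρ g (ρ g⁻¹ w) = w := by
    intro g w
    have : ρ g (ρ g⁻¹ w) = (ρ g * ρ g⁻¹) w := rfl
    rw [this, ← map_mul, mul_inv_cancel, map_one]; rfl
  have hker : LinearMap.ker B = ⊥ := by
    rcases hirr (LinearMap.ker B) (by
      intro g
      rintro _ ⟨u, hu, rfl⟩
      rw [SetLike.mem_coe, LinearMap.mem_ker] at hu
      rw [LinearMap.mem_ker]
      ext w
      rw [← hrr g w, hBi, hu]; rfl) with h | h
    · exact h
    · exfalso; apply hB0
      ext u w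
      have : u ∈ LinearMap.ker B := by rw [h]; trivial
      rw [LinearMap.mem_ker.1 this]; rfl
  have hBinj : ∀ u v : U, (∀ w, B u w = B v w) → u = v := by
    intro u v h
    have : u - v ∈ LinearMap.ker B := by
      rw [LinearMap.mem_ker, map_sub, sub_eq_zero]; ext w; exact h w
    rw [hker, Submodule.mem_bot] at this
    exact sub_eq_zero.1 this
  have hinj : Function.Injective B := LinearMap.ker_eq_bot.1 hker
  let e : U ≃ₗ[ℝ] (U →ₗ[ℝ] ℝ) := LinearEquiv.ofInjectiveOfFinrankEq B hinj (Subspace.dual_finrank_eq (K := ℝ) (V := U)).symm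
  have he : ∀ u w, e u w = B u w := fun u w => rfl
  have hes : ∀ f w, B (e.symm f) w = f w := by
    intro f w; rw [← he, e.apply_symm_apply]
  -- the two directions of equivariance
  have eq1 : ∀ m : U →ₗ[ℝ] U →ₗ[ℝ] U, (∀ (g : H) (u v : U), m (ρ g u) (ρ g v) = ρ g (m u v)) →
      ∀ (g : H) (u v w : U), (m.compr₂ B) (ρ g u) (ρ g v) (ρ g w) = (m.compr₂ B) u v w := by
    intro m hm g u v w
    rw [LinearMap.compr₂_apply, LinearMap.compr₂_apply, hm, hBi]
  have eq2 : ∀ t : U →ₗ[ℝ] U →ₗ[ℝ] U →ₗ[ℝ] ℝ, (∀ (g : H) (u v w : U), t (ρ g u) (ρ g v) (ρ g w) = t u v w) →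
      ∀ (g : H) (u v : U), (t.compr₂ e.symm.toLinearMap) (ρ g u) (ρ g v) = ρ g ((t.compr₂ e.symm.toLinearMap) u v) := by
    intro t ht g u v
    rw [LinearMap.compr₂_apply, LinearMap.compr₂_apply]
    apply hBinj
    intro w
    show B (e.symm (t (ρ g u) (ρ g v))) w = B (ρ g (e.symm (t u v))) w
    rw [hes, ← hrr g w, ht, hBi, hes]
  constructor
  · rintro ⟨m, hm0, hmc, hmi, hmu⟩
    have hsym1 : ∀ u v w, (m.compr₂ B) u v w = (m.compr₂ B) v u w := by
      intro u v w; rw [LinearMap.compr₂_apply, LinearMap.compr₂_apply, hmc]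
    have huniq : ∀ t' : U →ₗ[ℝ] U →ₗ[ℝ] U →ₗ[ℝ] ℝ, (∀ (g : H) (u v w : U), t' (ρ g u) (ρ g v) (ρ g w) = t' u v w) →
        ∃ c : ℝ, t' = c • (m.compr₂ B) := by
      intro t' ht'
      obtain ⟨c, hc⟩ := hmu _ (eq2 t' ht')
      refine ⟨c, ?_⟩
      ext u v w
      have h1 := congrArg (fun m' : U →ₗ[ℝ] U →ₗ[ℝ] U => B (m' u v) w) hc
      simp only [LinearMap.compr₂_apply, LinearMap.smul_apply, map_smul] at h1 ⊢
      rw [← h1]
      exact (hes _ _).symm
    have ht0 : m.compr₂ B ≠ 0 := by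
      intro h
      apply hm0
      ext u v
      apply hBinj
      intro w
      have := congrArg (fun t : U →ₗ[ℝ] U →ₗ[ℝ] U →ₗ[ℝ] ℝ => t u v w) h
      simp only [LinearMap.compr₂_apply, LinearMap.zero_apply] at this
      rw [this]; simp
    -- swap of the last two arguments
    let t' : U →ₗ[ℝ] U →ₗ[ℝ] U →ₗ[ℝ] ℝ := LinearMap.mk₂ ℝ (fun u v => ((m.compr₂ B) u).flip v)
      (by intro u u' v; ext w; simp) (by intro c u v; ext w; simp) (by intro u v v'; ext w; simp) (by intro c u v; ext w; simp)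
    have ht' : ∀ u v w, t' u v w = (m.compr₂ B) u w v := fun u v w => rfl
    obtain ⟨c, hc⟩ := huniq t' (by intro g u v w; rw [ht', ht', eq1 m hmi])
    have hc' : ∀ u v w, (m.compr₂ B) u w v = c * (m.compr₂ B) u v w := by
      intro u v w
      rw [← ht' u v w, hc]; rfl
    have hex : ∃ u v w, (m.compr₂ B) u v w ≠ 0 := by
      by_contra hcon
      push Not at hcon
      apply ht0; ext u v w; exact hcon u v w
    obtain ⟨u0, v0, w0, h0⟩ := hex
    have hcc : c * c = 1 := by
      have h1 := hc' u0 v0 w0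
      have h2 := hc' u0 w0 v0
      rw [h1, ← mul_assoc] at h2
      have : (c * c - 1) * (m.compr₂ B) u0 v0 w0 = 0 := by linarith
      rcases mul_eq_zero.1 this with h | h
      · linarith
      · exact absurd h h0
    have hc1 : c = 1 := by
      rcases mul_self_eq_one_iff.1 hcc with h | h
      · exact h
      · exfalso
        apply h0
        have s1 : ∀ u v w, (m.compr₂ B) u w v = -(m.compr₂ B) u v w := by
          intro u v w; rw [hc', h]; ring
        -- t(u,v,w) = t(v,u,w) = -t(v,w,u) = -t(w,v,u) = t(w,u,v) = t(u,w,v) = -t(u,v,w)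
        have r1 := hsym1 u0 v0 w0
        have r2 := s1 v0 w0 u0
        have r3 := hsym1 v0 w0 u0
        have r4 := s1 w0 u0 v0
        have r5 := hsym1 w0 u0 v0
        have r6 := s1 u0 v0 w0
        linarith
    refine ⟨m.compr₂ B, ht0, ?_, eq1 m hmi, huniq⟩
    intro u v w
    refine ⟨hsym1 u v w, ?_⟩
    rw [hc' u v w, hc1, one_mul]
  · rintro ⟨t, ht0, hts, hti, htu⟩
    have hm : ∀ u v w, B ((t.compr₂ e.symm.toLinearMap) u v) w = t u v w := by
      intro u v w
      rw [LinearMap.compr₂_apply]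
      exact hes _ _
    refine ⟨t.compr₂ e.symm.toLinearMap, ?_, ?_, eq2 t hti, ?_⟩
    · intro h
      apply ht0
      ext u v w
      rw [← hm, h]; simp
    · intro u v
      apply hBinj
      intro w
      rw [hm, hm, (hts u v w).1]
    · intro m' hm'
      obtain ⟨c, hc⟩ := htu _ (eq1 m' hm')
      refine ⟨c, ?_⟩
      ext u v
      apply hBinj
      intro w
      have h1 := congrArg (fun t : U →ₗ[ℝ] U →ₗ[ℝ] U →ₗ[ℝ] ℝ => t u v w) hc
      simp only [LinearMap.compr₂_apply, LinearMap.smul_apply] at h1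
      rw [h1, LinearMap.smul_apply, LinearMap.smul_apply, map_smul, LinearMap.smul_apply, hm]

end Cfsg.Agent.S5541
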