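import Cfsg.Statements.S5543
import Cfsg.Agent.H28_Maj

set_option autoImplicit false
open Cfsg

namespace Cfsg.Agent.S5543

open Cfsg Cfsg.Agent Cfsg.Agent.H28 Cfsg.Axial



/-- Let V be a finite-dimensional real vector space with a commutative bilinear product and a positive-definite symmetric bilinear form that associates with the product and satisfies the Norton inequality (the Majorana setting of the definitions). Let X be a group of linear automorphisms of V in which every element squares to the identity, and suppose every non-identity element x of X is a Majorana involution with an axial vector a(x) of squared length 1, such that for any two distinct non-identity x, y the product a(x) ∘ a(y) equals (1/8)(a(x) + a(y) − a(xy)) (the dihedral subalgebra of type 2A whose third axis belongs to the involution xy). Then X has order at most 4. -/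
theorem result {V : Type*} [AddCommGroup V] [Module ℝ V] [FiniteDimensional ℝ V] (mul : V →ₗ[ℝ] V →ₗ[ℝ] V) (B : LinearMap.BilinForm ℝ V) (hV : Cfsg.Axial.IsMajoranaAmbient mul B) (X : Subgroup (V ≃ₗ[ℝ] V)) (hX : ∀ x ∈ X, x * x = 1) (ax : (V ≃ₗ[ℝ] V) → V) (hax : ∀ x ∈ X, x ≠ 1 → Cfsg.Axial.IsMajoranaPair mul B x (ax x)) (h1 : ∀ x ∈ X, x ≠ 1 → B (ax x) (ax x) = 1) (h2A : ∀ x ∈ X, ∀ y ∈ X, x ≠ 1 → y ≠ 1 → x ≠ y → mul (ax x) (ax y) = (1 / 8 : ℝ) • (ax x + ax y - ax (x * y))) : Nat.card ↥X ≤ 4 := by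
  by_contra hcard
  push Not at hcard
  haveI : Finite X := Nat.finite_of_card_ne_zero (by omega)
  have hcm : IsCommMul mul := hV.1
  -- choose x, y, z
  have pick : ∀ S : Finset (V ≃ₗ[ℝ] V), S.card ≤ 4 → ∃ x ∈ X, x ∉ S := by
    intro S hS
    by_contra hcon
    push Not at hcon
    have h2 : (X : Set (V ≃ₗ[ℝ] V)).ncard ≤ (S : Set (V ≃ₗ[ℝ] V)).ncard :=
      Set.ncard_le_ncard (fun x hx => hcon x hx) (Finset.finite_toSet S)
    rw [Set.ncard_coe_finset] at h2
    have h3 : (X : Set (V ≃ₗ[ℝ] V)).ncard = Nat.card X := rfl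
    omega
  classical
  obtain ⟨x, hxX, hx⟩ := pick {1} (by simp)
  obtain ⟨y, hyX, hy⟩ := pick {1, x} (Finset.card_le_two.trans (by norm_num))
  obtain ⟨z, hzX, hz⟩ := pick {1, x, y, x * y} Finset.card_le_four
  simp only [Finset.mem_singleton, Finset.mem_insert, not_or] at hx hy hz
  obtain ⟨hy1, hyx⟩ := hy
  obtain ⟨hz1, hzx, hzy, hzxy⟩ := hz
  have sq := hX
  have inv : ∀ u ∈ X, u⁻¹ = u := fun u hu => inv_eq_of_mul_eq_one_right (hX u hu)
  have comm : ∀ u ∈ X, ∀ v ∈ X, u * v = v * u := by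
    intro u hu v hv
    have := hX _ (X.mul_mem hu hv)
    calc u * v = (u * v)⁻¹ := (inv_eq_of_mul_eq_one_right this).symm
      _ = v * u := by rw [mul_inv_rev, inv u hu, inv v hv]
  have cancel : ∀ u ∈ X, ∀ v : V ≃ₗ[ℝ] V, u * (u * v) = v := by
    intro u hu v; rw [← mul_assoc, hX u hu, one_mul]
  have ne_mul : ∀ u ∈ X, ∀ v ∈ X, u ≠ v → u * v ≠ 1 := by
    intro u hu v hv huv h
    apply huv
    have := eq_inv_of_mul_eq_one_left h
    rw [this, inv v hv]
  have hxyX := X.mul_mem hxX hyX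
  have hxzX := X.mul_mem hxX hzX
  have hyzX := X.mul_mem hyX hzX
  have hxyzX := X.mul_mem hxX hyzX
  have hxy1 : x * y ≠ 1 := ne_mul x hxX y hyX (fun h => hyx h.symm)
  have hxz1 : x * z ≠ 1 := ne_mul x hxX z hzX (fun h => hzx h.symm)
  have hyz1 : y * z ≠ 1 := ne_mul y hyX z hzX (fun h => hzy h.symm)
  have hxyz : x ≠ y * z := by
    intro h
    apply hzxy
    rw [h, mul_assoc, comm z hzX y hyX, cancel y hyX]
  have hxyz1 : x * (y * z) ≠ 1 := ne_mul x hxX _ hyzX hxyz
  have q : ∀ w ∈ X, w ≠ 1 → w ≠ x → mul (ax x) (ax w - ax (x * w)) = (1 / 4 : ℝ) • (ax w - ax (x * w)) := by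
    intro w hw hw1 hwx
    have hxw := X.mul_mem hxX hw
    have hxw1 := ne_mul x hxX w hw (fun h => hwx h.symm)
    have hne : x ≠ x * w := fun h => hw1 (mul_left_cancel (a := x) (by rw [← h, mul_one]))
    rw [map_sub, h2A x hxX w hw hx hw1 (fun h => hwx h.symm), h2A x hxX (x * w) hxw hx hxw1 hne, cancel x hxX]
    module
  have p1 := q y hyX hy1 hyx
  have p2 := q z hzX hz1 hzx
  have p3 := q (y * z) hyzX hyz1 (fun h => hxyz h.symm)
  have hP := hax x hxX hx
  obtain ⟨t, w, h4, h5⟩ := Maj.fus44 hP p1 p2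
  have yxz : y * (x * z) = x * (y * z) := by rw [← mul_assoc, comm y hyX x hxX, mul_assoc]
  have h6 : mul (ax y - ax (x * y)) (ax z - ax (x * z)) = (-(1 / 4) : ℝ) • (ax (y * z) - ax (x * (y * z))) := by
    have n1 : y ≠ x * z := by
      intro h; apply hzxy
      rw [h, cancel x hxX]
    have n2 : x * y ≠ x * z := fun h => hzy (mul_left_cancel h).symm
    have e1 : x * y * z = x * (y * z) := mul_assoc _ _ _
    have e2 : x * y * (x * z) = y * z := by rw [mul_assoc, yxz, cancel x hxX]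
    simp only [map_sub, LinearMap.sub_apply]
    rw [h2A y hyX z hzX hy1 hz1 (fun h => hzy h.symm),
      h2A (x * y) hxyX z hzX hxy1 hz1 (fun h => hzxy h.symm), h2A y hyX (x * z) hxzX hy1 hxz1 n1,
      h2A (x * y) hxyX (x * z) hxzX hxy1 hxz1 n2, yxz, e1, e2]
    module
  have h7 : mul (ax x) (mul (ax y - ax (x * y)) (ax z - ax (x * z))) = (1 / 4 : ℝ) • mul (ax y - ax (x * y)) (ax z - ax (x * z)) := by
    rw [h6, map_smul, p3, smul_comm]
  rw [h4, map_add, map_smul, Maj.idem hP, h5, add_zero] at h7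
  -- t a = 1/4 (t a + w)
  have h8 := congrArg (mul (ax x)) h7
  rw [map_smul, map_smul, map_add, map_smul, Maj.idem hP, h5, add_zero] at h8
  have h9 : t • ax x = 0 := by
    have : t • ax x = (4 / 3 : ℝ) • (t • ax x - (1 / 4 : ℝ) • t • ax x) := by module
    rw [this, ← h8, sub_self, smul_zero]
  rw [h9] at h7
  have h10 : w = 0 := by
    have : w = (4 : ℝ) • ((1 / 4 : ℝ) • (0 + w)) := by module
    rw [this, ← h7, smul_zero]
  rw [h9, h10, add_zero, h6] at h4
  have h11 : ax (y * z) = ax (x * (y * z)) := by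
    have h12 : ax (y * z) - ax (x * (y * z)) = (-4 : ℝ) • ((-(1 / 4) : ℝ) • (ax (y * z) - ax (x * (y * z)))) := by module
    rw [h4, smul_zero] at h12
    exact sub_eq_zero.1 h12
  have hPw := hax (y * z) hyzX hyz1
  have n3 : y * z ≠ x * (y * z) := by
    intro h; apply hx
    have := mul_right_cancel (b := y * z) (a := 1) (c := x) (by rw [one_mul]; exact h)
    exact this.symm
  have h12 := h2A (y * z) hyzX (x * (y * z)) hxyzX hyz1 hxyz1 n3
  have e3 : y * z * (x * (y * z)) = x := by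
    rw [comm _ hyzX _ hxyzX, mul_assoc, hX _ hyzX, mul_one]
  rw [← h11, e3, Maj.idem hPw] at h12
  have h13 : ax x = (-6 : ℝ) • ax (y * z) := by
    have : ax x = (-8 : ℝ) • ((1 / 8 : ℝ) • (ax (y * z) + ax (y * z) - ax x)) + (2 : ℝ) • ax (y * z) := by module
    rw [← h12] at this
    rw [this]; module
  have h14 := Maj.idem hP
  rw [h13] at h14
  simp only [map_smul, LinearMap.smul_apply] at h14
  rw [Maj.idem hPw] at h14
  have h15 : (42 : ℝ) • ax (y * z) = 0 := by
    have : (42 : ℝ) • ax (y * z) = (-6 : ℝ) • ((-6 : ℝ) • ax (y * z)) - (-6 : ℝ) • ax (y * z) := by module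
    rw [this, h14, sub_self]
  rcases smul_eq_zero.1 h15 with h | h
  · norm_num at h
  · exact Maj.ne_zero hPw h

end Cfsg.Agent.S5543
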