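import Cfsg.Statements.S5544
import Cfsg.Agent.H28_Sak5

set_option autoImplicit false
open Cfsg

namespace Cfsg.Agent.S5544

open Cfsg.Axial Cfsg.Agent.H28.Maj

/-- automorphisms of the ambient -/
def AutS {V : Type*} [AddCommGroup V] [Module ℝ V] (mul : V →ₗ[ℝ] V →ₗ[ℝ] V) (B : LinearMap.BilinForm ℝ V) : Subgroup (V ≃ₗ[ℝ] V) where
  carrier := {g | (∀ u v, g (mul u v) = mul (g u) (g v)) ∧ ∀ u v, B (g u) (g v) = B u v}
  one_mem' := ⟨fun _ _ => rfl, fun _ _ => rfl⟩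
  mul_mem' := by
    rintro g h ⟨g1, g2⟩ ⟨h1, h2⟩
    refine ⟨fun u v => ?_, fun u v => ?_⟩
    · show g (h (mul u v)) = mul (g (h u)) (g (h v))
      rw [h1, g1]
    · show B (g (h u)) (g (h v)) = B u v
      rw [g2, h2]
  inv_mem' := by
    rintro g ⟨g1, g2⟩
    refine ⟨fun u v => ?_, fun u v => ?_⟩
    · apply g.injective
      rw [g1]
      show g (g.symm (mul u v)) = mul (g (g.symm u)) (g (g.symm v))
      rw [g.apply_symm_apply, g.apply_symm_apply, g.apply_symm_apply]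
    · rw [← g2]
      show B (g (g.symm u)) (g (g.symm v)) = B u v
      rw [g.apply_symm_apply, g.apply_symm_apply]

theorem uniq {V : Type*} [AddCommGroup V] [Module ℝ V] {mul : V →ₗ[ℝ] V →ₗ[ℝ] V} {B : LinearMap.BilinForm ℝ V}
    {μ μ' : V ≃ₗ[ℝ] V} {a : V} (h : IsMajoranaPair mul B μ a) (h' : IsMajoranaPair mul B μ' a) : μ = μ' := by
  apply LinearEquiv.ext
  intro v
  obtain ⟨t, y, z, w, rfl, hy, hz, hw⟩ := decomp h v
  rw [mu_decomp h hy hz hw, mu_decomp h' hy hz hw]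

/-- Let V be a finite-dimensional real vector space with a commutative bilinear product and a positive-definite symmetric bilinear form that associates with the product and satisfies the Norton inequality (the Majorana setting of the definitions). Let μ₀ and μ₁ be Majorana involutions with axial vectors a₀ and a₁ of squared length 1, each involution having no other axial vector. Then the product μ₀μ₁ has order at most 6: some power (μ₀μ₁)^n with 1 ≤ n ≤ 6 is the identity (so the two involutions generate a dihedral group of order at most 12). This is the 6-transposition property of Majorana involutions. -/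
theorem result {V : Type*} [AddCommGroup V] [Module ℝ V] [FiniteDimensional ℝ V] (mul : V →ₗ[ℝ] V →ₗ[ℝ] V) (B : LinearMap.BilinForm ℝ V) (hV : Cfsg.Axial.IsMajoranaAmbient mul B) (μ₀ μ₁ : V ≃ₗ[ℝ] V) (a₀ a₁ : V) (h₀ : Cfsg.Axial.IsMajoranaPair mul B μ₀ a₀) (h₁ : Cfsg.Axial.IsMajoranaPair mul B μ₁ a₁) (hu₀ : ∀ a : V, Cfsg.Axial.IsMajoranaPair mul B μ₀ a → a = a₀) (hu₁ : ∀ a : V, Cfsg.Axial.IsMajoranaPair mul B μ₁ a → a = a₁) (hn₀ : B a₀ a₀ = 1) (hn₁ : B a₁ a₁ = 1) : ∃ n : ℕ, 1 ≤ n ∧ n ≤ 6 ∧ (μ₀ * μ₁) ^ n = 1 := by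
  set ρ : V ≃ₗ[ℝ] V := μ₁ * μ₀ with hρ
  have q0 : μ₀ * μ₀ = 1 := LinearEquiv.ext fun v => mu_sq h₀ v
  have q1 : μ₁ * μ₁ = 1 := LinearEquiv.ext fun v => mu_sq h₁ v
  have i0 : μ₀⁻¹ = μ₀ := inv_eq_of_mul_eq_one_left q0
  have i1 : μ₁⁻¹ = μ₁ := inv_eq_of_mul_eq_one_left q1
  have hconj : μ₀ * ρ * μ₀⁻¹ = ρ⁻¹ := by
    rw [hρ, mul_inv_rev, i0, i1]
    calc μ₀ * (μ₁ * μ₀) * μ₀ = μ₀ * μ₁ * (μ₀ * μ₀) := by group
      _ = μ₀ * μ₁ := by rw [q0, mul_one]
  have hconjk : ∀ k : ℤ, μ₀ * ρ ^ k = ρ ^ (-k) * μ₀ := by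
    intro k
    have h1 : μ₀ * ρ ^ k * μ₀⁻¹ = (ρ⁻¹) ^ k := by rw [← hconj, conj_zpow]
    rw [inv_zpow', mul_inv_eq_iff_eq_mul] at h1
    exact h1
  have hA₀ : μ₀ ∈ AutS mul B := ⟨h₀.1, h₀.2.1⟩
  have hA₁ : μ₁ ∈ AutS mul B := ⟨h₁.1, h₁.2.1⟩
  have hAut : ∀ k : ℤ, ρ ^ k ∈ AutS mul B := fun k =>
    Subgroup.zpow_mem _ (Subgroup.mul_mem _ hA₁ hA₀) k
  let A : ℤ → V := fun i => if i % 2 = 0 then (ρ ^ (i / 2)) a₀ else (ρ ^ (i / 2)) a₁
  have hA0 : ∀ k : ℤ, A (2 * k) = (ρ ^ k) a₀ := by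
    intro k
    have e1 : (2 * k) % 2 = 0 := by omega
    have e2 : (2 * k) / 2 = k := by omega
    show (if (2 * k) % 2 = 0 then (ρ ^ ((2 * k) / 2)) a₀ else (ρ ^ ((2 * k) / 2)) a₁) = _
    rw [if_pos e1, e2]
  have hA1 : ∀ k : ℤ, A (2 * k + 1) = (ρ ^ k) a₁ := by
    intro k
    have e1 : ¬ (2 * k + 1) % 2 = 0 := by omega
    have e2 : (2 * k + 1) / 2 = k := by omega
    show (if (2 * k + 1) % 2 = 0 then (ρ ^ ((2 * k + 1) / 2)) a₀ else (ρ ^ ((2 * k + 1) / 2)) a₁) = _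
    rw [if_neg e1, e2]
  let S : Sq mul B :=
    { a := A
      τ := fun i => ρ ^ i * μ₀
      pair := by
        intro i
        rcases Int.even_or_odd' i with ⟨k, rfl | rfl⟩
        · rw [hA0]
          have h1 := transport h₀ (ρ ^ k) (hAut k).1 (hAut k).2
          have e : ρ ^ k * μ₀ * (ρ ^ k)⁻¹ = ρ ^ (2 * k) * μ₀ := by
            rw [mul_assoc, ← zpow_neg, hconjk, neg_neg, ← mul_assoc, ← zpow_add]
            congr 2; ring
          rw [e] at h1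
          exact h1
        · rw [hA1]
          have h1 := transport h₁ (ρ ^ k) (hAut k).1 (hAut k).2
          have e : ρ ^ k * μ₁ * (ρ ^ k)⁻¹ = ρ ^ (2 * k + 1) * μ₀ := by
            have e1 : μ₁ = ρ ^ (1 : ℤ) * μ₀ := by rw [zpow_one, hρ, mul_assoc, q0, mul_one]
            rw [mul_assoc, ← zpow_neg, e1, mul_assoc (ρ ^ (1 : ℤ)), hconjk, neg_neg, ← mul_assoc, ← mul_assoc, ← zpow_add, ← zpow_add]
            congr 2; ring
          rw [e] at h1
          exact h1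
      nrm := by
        intro i
        rcases Int.even_or_odd' i with ⟨k, rfl | rfl⟩
        · rw [hA0, (hAut k).2, hn₀]
        · rw [hA1, (hAut k).2, hn₁]
      refl := by
        intro i j
        rcases Int.even_or_odd' j with ⟨k, rfl | rfl⟩
        · rw [hA0, show 2 * i - 2 * k = 2 * (i - k) by ring, hA0]
          show (ρ ^ i * μ₀ * ρ ^ k) a₀ = _
          rw [mul_assoc, hconjk, ← mul_assoc, ← zpow_add, show i + -k = i - k by ring]
          show (ρ ^ (i - k)) (μ₀ a₀) = _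
          rw [mu_a h₀]
        · rw [hA1, show 2 * i - (2 * k + 1) = 2 * (i - k - 1) + 1 by ring, hA1]
          show (ρ ^ i * μ₀ * ρ ^ k) a₁ = _
          rw [mul_assoc, hconjk, ← mul_assoc, ← zpow_add]
          have e : μ₀ = ρ ^ (-1 : ℤ) * μ₁ := by
            rw [zpow_neg, zpow_one, hρ, mul_inv_rev, i0, i1, mul_assoc, q1, mul_one]
          show (ρ ^ (i + -k) * μ₀) a₁ = _
          nth_rw 1 [e]
          rw [← mul_assoc, ← zpow_add, show i + -k + -1 = i - k - 1 by ring]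
          show (ρ ^ (i - k - 1)) (μ₁ a₁) = _
          rw [mu_a h₁] }
  obtain ⟨i, j, hij, hpos, hle⟩ := S.nine hV
  have h1 := S.pair i
  rw [hij] at h1
  have h2 : ρ ^ i * μ₀ = ρ ^ j * μ₀ := uniq h1 (S.pair j)
  have h3 : ρ ^ (j - i) = 1 := by
    rw [zpow_sub, ← mul_right_cancel h2, mul_inv_cancel]
  obtain ⟨n, hn⟩ : ∃ n : ℕ, j - i = n := ⟨(j - i).toNat, by omega⟩
  refine ⟨n, by omega, by omega, ?_⟩
  have h4 : μ₀ * μ₁ = ρ⁻¹ := by rw [hρ, mul_inv_rev, i0, i1]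
  rw [h4, inv_pow, ← zpow_natCast, ← hn, h3, inv_one]

end Cfsg.Agent.S5544
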