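import Cfsg.Statements.S5545
import Cfsg.Agent.H28_Maj2

set_option autoImplicit false
open Cfsg

namespace Cfsg.Agent.S5545

open Cfsg Cfsg.Agent Cfsg.Agent.H28 Cfsg.Axial



/-- Let V be a finite-dimensional real vector space with a commutative bilinear product and a positive-definite symmetric bilinear form that associates with the product and satisfies the Norton inequality (the Majorana setting of the definitions). Let μ₀, μ₁ be commuting Majorana involutions with distinct axial vectors a₀ ≠ a₁ of squared length 1, each involution having no other axial vector. Then either a₀ and a₁ are orthogonal with a₀ ∘ a₁ = 0 (type 2B), or their inner product is 1/8 and, with a₂ = a₀ + a₁ − 8 a₀ ∘ a₁, the vector a₂ is an idempotent and a₀ ∘ a₂ = (1/8)(a₀ + a₂ − a₁), a₁ ∘ a₂ = (1/8)(a₁ + a₂ − a₀) (type 2A: the three idempotents span a subalgebra with aᵢ ∘ aⱼ = (1/8)(aᵢ + aⱼ − aₖ)).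 -/
theorem result {V : Type*} [AddCommGroup V] [Module ℝ V] [FiniteDimensional ℝ V] (mul : V →ₗ[ℝ] V →ₗ[ℝ] V) (B : LinearMap.BilinForm ℝ V) (hV : Cfsg.Axial.IsMajoranaAmbient mul B) (μ₀ μ₁ : V ≃ₗ[ℝ] V) (a₀ a₁ : V) (h₀ : Cfsg.Axial.IsMajoranaPair mul B μ₀ a₀) (h₁ : Cfsg.Axial.IsMajoranaPair mul B μ₁ a₁) (hu₀ : ∀ a : V, Cfsg.Axial.IsMajoranaPair mul B μ₀ a → a = a₀) (hu₁ : ∀ a : V, Cfsg.Axial.IsMajoranaPair mul B μ₁ a → a = a₁) (hn₀ : B a₀ a₀ = 1) (hn₁ : B a₁ a₁ = 1) (hc : μ₀ * μ₁ = μ₁ * μ₀) (hne : a₀ ≠ a₁) : (B a₀ a₁ = 0 ∧ mul a₀ a₁ = 0) ∨ (B a₀ a₁ = 1 / 8 ∧ mul (a₀ + a₁ - (8 : ℝ) • mul a₀ a₁) (a₀ + a₁ - (8 : ℝ) • mul a₀ a₁) = a₀ + a₁ - (8 : ℝ) • mul a₀ a₁ ∧ mul a₀ (a₀ + a₁ - (8 : ℝ) • mul a₀ a₁) = (1 / 8 : ℝ) • (a₀ + (a₀ + a₁ - (8 : ℝ) • mul a₀ a₁) - a₁) ∧ mul a₁ (a₀ + a₁ - (8 : ℝ) • mul a₀ a₁) = (1 / 8 : ℝ) • (a₁ + (a₀ + a₁ - (8 : ℝ) • mul a₀ a₁) - a₀)) := by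
  have hcm := hV.1
  have conj : ∀ {μ ν : V ≃ₗ[ℝ] V}, μ * ν = ν * μ → μ * ν * μ⁻¹ = ν := by
    intro μ ν h; rw [h, mul_inv_cancel_right]
  have f1 : μ₁ a₀ = a₀ := by
    have h := Maj.transport h₀ μ₁ h₁.1 h₁.2.1
    rw [conj hc.symm] at h
    exact hu₀ _ h
  have f0 : μ₀ a₁ = a₁ := by
    have h := Maj.transport h₁ μ₀ h₀.1 h₀.2.1
    rw [conj hc] at h
    exact hu₁ _ h
  obtain ⟨e1, e2, e3⟩ := Maj.half hV h₀ hn₀ (Maj.idem h₁) f0
  obtain ⟨e1', e2', e3'⟩ := Maj.half hV h₁ hn₁ (Maj.idem h₀) f1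
  rw [hcm a₁ a₀, hV.2.1 a₁ a₀] at e1' e2' e3'
  set l := B a₀ a₁ with hl
  set s := mul a₀ a₁ with hs
  -- e2 : a1 s + 7 l a0 s - l s - 3 l^2 a0 - 4 s s = ...
  rw [e1, e1'] at e2 e2'
  have key : (l * (1 / 4 - 2 * l)) • (a₀ - a₁) = 0 := by
    have : (l * (1 / 4 - 2 * l)) • (a₀ - a₁) =
        (((1 / 4 : ℝ) • s + (3 / 4 * l) • a₀ + (7 * l) • ((1 / 4 : ℝ) • s + (3 / 4 * l) • a₁) - l • s - (3 * l ^ 2) • a₁ - (4 : ℝ) • mul s s)
          - (((2 - l) / 4) • (s - l • a₁))) -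
        (((1 / 4 : ℝ) • s + (3 / 4 * l) • a₁ + (7 * l) • ((1 / 4 : ℝ) • s + (3 / 4 * l) • a₀) - l • s - (3 * l ^ 2) • a₀ - (4 : ℝ) • mul s s)
          - (((2 - l) / 4) • (s - l • a₀))) := by module
    rw [this, e2, e2', sub_self, sub_self, sub_self]
  rcases smul_eq_zero.1 key with h | h
  · rcases mul_eq_zero.1 h with h | h
    · left
      exact ⟨h, e3 h⟩
    · right
      have hl8 : l = 1 / 8 := by linarith
      have ss : (4 : ℝ) • mul s s = (-(1 / 8) : ℝ) • s + (3 / 32 : ℝ) • (a₀ + a₁) := by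
        have e4 : (4 : ℝ) • mul s s = (1 / 4 : ℝ) • s + (3 / 4 * l) • a₁ + (7 * l) • ((1 / 4 : ℝ) • s + (3 / 4 * l) • a₀) - l • s - (3 * l ^ 2) • a₀
          - ((2 - l) / 4) • (s - l • a₀) := by rw [← e2]; module
        rw [e4, hl8]; module
      have ss' : mul s s = (-(1 / 32) : ℝ) • s + (3 / 128 : ℝ) • (a₀ + a₁) := by
        have : mul s s = (1 / 4 : ℝ) • ((4 : ℝ) • mul s s) := by module
        rw [this, ss]; module
      rw [hl8] at e1 e1'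
      have i0 := Maj.idem h₀
      have i1 := Maj.idem h₁
      refine ⟨hl8, ?_, ?_, ?_⟩
      · simp only [map_add, map_sub, map_smul, LinearMap.add_apply, LinearMap.sub_apply, LinearMap.smul_apply]
        rw [i0, i1, hcm a₁ a₀, ← hs, hcm s a₀, hcm s a₁, e1, e1', ss']
        module
      · simp only [map_add, map_sub, map_smul]
        rw [i0, ← hs, e1]; module
      · simp only [map_add, map_sub, map_smul]
        rw [i1, hcm a₁ a₀, ← hs, e1']; module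
  · exact absurd (sub_eq_zero.1 h) hne

end Cfsg.Agent.S5545
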