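import Cfsg.Statements.S5546
import Cfsg.Agent.H28_M2S

set_option autoImplicit false
open Cfsg

namespace Cfsg.Agent.S5546

open Cfsg Cfsg.Agent.H7.Co Cfsg.Agent.H7.Co3

abbrev K := ZMod 13

instance : Fact (Nat.Prime 13) := ⟨by norm_num⟩

/-- reduction -/
def red (x : leechLattice) : GolayPt → K := fun i => ((x : GolayPt → ℤ) i : K)

def mat (g : Co0) : Matrix GolayPt GolayPt K := fun i j => 5 * red (g • O8 j) i

theorem mat_mul_red (g : Co0) (x : leechLattice) : (mat g).mulVec (red x) = red (g • x) := by
  funext i
  have h := smul_eight g x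
  have h1 := congrArg (fun v : leechLattice => (((v : GolayPt → ℤ) i : ℤ) : K)) h
  simp only [AddSubgroup.coe_zsmul, AddSubmonoidClass.coe_finsetSum, Finset.sum_apply, Pi.smul_apply, smul_eq_mul, Int.cast_mul, Int.cast_sum] at h1
  show ∑ j, mat g i j * red x j = red (g • x) i
  have h2 : ∑ j, mat g i j * red x j = 5 * ∑ j, (((x : GolayPt → ℤ) j : ℤ) : K) * (((g • O8 j : leechLattice) : GolayPt → ℤ) i : ℤ) := by
    rw [Finset.mul_sum]
    apply Finset.sum_congr rfl
    intro j _
    show 5 * ((((g • O8 j : leechLattice) : GolayPt → ℤ) i : ℤ) : K) * (((x : GolayPt → ℤ) j : ℤ) : K) = _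
    ring
  rw [h2, ← h1]
  show (5 : K) * (((8 : ℤ) : K) * (((g • x : leechLattice) : GolayPt → ℤ) i : ℤ)) = (((g • x : leechLattice) : GolayPt → ℤ) i : ℤ)
  rw [← mul_assoc]
  have : (5 : K) * ((8 : ℤ) : K) = 1 := by decide
  rw [this, one_mul]

theorem mat_one : mat 1 = 1 := by
  funext i j
  show (5 : K) * ((((1 : Co0) • O8 j : leechLattice) : GolayPt → ℤ) i : ℤ) = _
  rw [one_smul, O8_coe]
  by_cases h : i = j
  · subst h
    rw [Pi.single_eq_same, Matrix.one_apply_eq]
    decide
  · rw [Pi.single_eq_of_ne h, Matrix.one_apply_ne h]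
    simp

theorem mat_mul (g h : Co0) : mat (g * h) = mat g * mat h := by
  funext i j
  have h1 := congrFun (mat_mul_red g (h • O8 j)) i
  rw [Matrix.mul_apply]
  show 5 * red ((g * h) • O8 j) i = ∑ k, mat g i k * mat h k j
  rw [mul_smul, ← h1]
  show 5 * ∑ k, mat g i k * red (h • O8 j) k = ∑ k, mat g i k * (5 * red (h • O8 j) k)
  rw [Finset.mul_sum]
  apply Finset.sum_congr rfl
  intro k _
  ring

/-- the functional -/
def ell : (GolayPt → K) →ₗ[K] K := LinearMap.proj (R := K) (φ := fun _ : GolayPt => K) none + LinearMap.proj (R := K) (φ := fun _ : GolayPt => K) (some 0)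

theorem ell_apply (x : GolayPt → K) : ell x = x none + x (some 0) := rfl

theorem dt_U (x : leechLattice) : Dt x Spor.leechU = 4 * ((x : GolayPt → ℤ) none + (x : GolayPt → ℤ) (some 0)) := by
  show ∑ i, (x : GolayPt → ℤ) i * Spor.vecU i = _
  have h : ∀ i, (x : GolayPt → ℤ) i * Spor.vecU i = (if i = none then 4 * (x : GolayPt → ℤ) i else 0) + (if i = some 0 then 4 * (x : GolayPt → ℤ) i else 0) := by
    intro i
    unfold Spor.vecU
    by_cases h1 : i = none
    · subst h1
      simp
      ring
    · by_cases h2 : i = some 0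
      · subst h2
        simp
        ring
      · simp [h1, h2]
  rw [Finset.sum_congr rfl (fun i _ => h i), Finset.sum_add_distrib, Finset.sum_ite_eq', Finset.sum_ite_eq']
  simp
  ring

theorem ell_mat {g : Co0} (hg : g • Spor.leechU = Spor.leechU) (x : GolayPt → K) : ell ((mat g).mulVec x) = ell x := by
  have key : ∀ j, mat g none j + mat g (some 0) j = (if j = none then 1 else 0) + (if j = some 0 then 1 else 0) := by
    intro j
    have h1 := dt_U (g • O8 j)
    have h2 := dt_U (O8 j)
    rw [← dt_smul g (O8 j) Spor.leechU, hg, h1, O8_coe] at h2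
    have h3 : ((g • O8 j : leechLattice) : GolayPt → ℤ) none + ((g • O8 j : leechLattice) : GolayPt → ℤ) (some 0) =
      (Pi.single j 8 : GolayPt → ℤ) none + (Pi.single j 8 : GolayPt → ℤ) (some 0) := by omega
    have h4 := congrArg (fun a : ℤ => (5 : K) * (a : K)) h3
    show 5 * ((((g • O8 j : leechLattice) : GolayPt → ℤ) none : ℤ) : K) + 5 * ((((g • O8 j : leechLattice) : GolayPt → ℤ) (some 0) : ℤ) : K) = _
    rw [← mul_add, ← Int.cast_add]
    refine h4.trans ?_
    show (5 : K) * (((Pi.single j 8 : GolayPt → ℤ) none + (Pi.single j 8 : GolayPt → ℤ) (some 0) : ℤ) : K) = _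
    rw [Pi.single_apply, Pi.single_apply]
    by_cases a : j = none
    · subst a
      simp
      decide
    · by_cases b : j = some 0
      · subst b
        simp
        decide
      · have a' : ¬ none = j := fun h => a h.symm
        have b' : ¬ some 0 = j := fun h => b h.symm
        simp [a, b, a', b']
  rw [ell_apply, ell_apply]
  show ∑ j, mat g none j * x j + ∑ j, mat g (some 0) j * x j = _
  rw [← Finset.sum_add_distrib]
  have : ∀ j, mat g none j * x j + mat g (some 0) j * x j = (if j = none then x j else 0) + (if j = some 0 then x j else 0) := by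
    intro j
    rw [← add_mul, key, add_mul, ite_mul, ite_mul, one_mul, zero_mul]
  rw [Finset.sum_congr rfl (fun j _ => this j), Finset.sum_add_distrib, Finset.sum_ite_eq', Finset.sum_ite_eq']
  simp

abbrev W : Submodule K (GolayPt → K) := LinearMap.ker ell

theorem finrank_W : Module.finrank K W = 23 := by
  have h := LinearMap.finrank_range_add_finrank_ker ell
  have hs : LinearMap.range ell = ⊤ := by
    rw [LinearMap.range_eq_top]
    intro a
    exact ⟨Pi.single none a, by rw [ell_apply, Pi.single_eq_same, Pi.single_eq_of_ne (by decide), add_zero]⟩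
  rw [hs, finrank_top, Module.finrank_self, Module.finrank_fintype_fun_eq_card, show Fintype.card GolayPt = 24 from by decide] at h
  show Module.finrank K (LinearMap.ker ell) = 23
  omega

/-- the inclusion -/
def io : Spor.Co2 →* Co0 := Subgroup.inclusion inf_le_left

theorem io_U (γ : Spor.Co2) : io γ • Spor.leechU = Spor.leechU := γ.2.2

def act (γ : Spor.Co2) : Module.End K W :=
  ((mat (io γ)).mulVecLin).restrict (fun x hx => by
    rw [LinearMap.mem_ker] at hx ⊢
    rw [Matrix.mulVecLin_apply, ell_mat (io_U γ), hx])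

theorem act_apply (γ : Spor.Co2) (x : W) : ((act γ x : W) : GolayPt → K) = (mat (io γ)).mulVec x := rfl

def actH : Spor.Co2 →* Module.End K W where
  toFun := act
  map_one' := by
    apply LinearMap.ext
    intro x
    apply Subtype.ext
    rw [act_apply, map_one, mat_one, Matrix.one_mulVec]
    rfl
  map_mul' := by
    intro a b
    apply LinearMap.ext
    intro x
    apply Subtype.ext
    rw [act_apply, map_mul, mat_mul, ← Matrix.mulVec_mulVec]
    rfl

theorem bound {x : leechLattice} (hx : Nm x = 64) (i : GolayPt) : -8 ≤ (x : GolayPt → ℤ) i ∧ (x : GolayPt → ℤ) i ≤ 8 := by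
  have h : (x : GolayPt → ℤ) i ^ 2 ≤ 64 := by
    rw [← hx]
    exact Finset.single_le_sum (f := fun i => (x : GolayPt → ℤ) i ^ 2) (fun i _ => sq_nonneg _) (Finset.mem_univ i)
  constructor <;> nlinarith

theorem inj (γ : Spor.Co2) (h : actH γ = 1) : γ = 1 := by
  have h1 : ∀ x ∈ W, (mat (io γ)).mulVec x = x := by
    intro x hx
    have := congrArg (fun f : Module.End K W => ((f ⟨x, hx⟩ : W) : GolayPt → K)) h
    exact this
  have hU : (mat (io γ)).mulVec (red Spor.leechU) = red Spor.leechU := by
    rw [mat_mul_red, io_U]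
  have hell : ell (red Spor.leechU) = 8 := by
    rw [ell_apply]
    show ((Spor.vecU none : ℤ) : K) + ((Spor.vecU (some 0) : ℤ) : K) = 8
    decide
  have h2 : ∀ x, (mat (io γ)).mulVec x = x := by
    intro x
    have h3 : x - (5 * ell x) • red Spor.leechU ∈ W := by
      rw [LinearMap.mem_ker, map_sub, map_smul, hell, smul_eq_mul, mul_assoc, mul_comm (ell x), ← mul_assoc]
      have : (5 : K) * 8 = 1 := by decide
      rw [this, one_mul, sub_self]
    have h4 := h1 _ h3
    rw [Matrix.mulVec_sub, Matrix.mulVec_smul, hU] at h4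
    exact sub_left_injective h4
  have h5 : io γ = 1 := by
    apply ext8
    intro j
    rw [one_smul]
    have hn : Nm (io γ • O8 j) = 64 := by rw [nm_smul, nm_O8]
    have h6 : red (io γ • O8 j) = red (O8 j) := by rw [← mat_mul_red, h2]
    apply Subtype.ext
    have h7 : ∀ i, i ≠ j → ((io γ • O8 j : leechLattice) : GolayPt → ℤ) i = 0 := by
      intro i hi
      have h8 := congrFun h6 i
      have h9 : ((((io γ • O8 j : leechLattice) : GolayPt → ℤ) i : ℤ) : K) = 0 := by
        refine h8.trans ?_
        show (((Pi.single j 8 : GolayPt → ℤ) i : ℤ) : K) = 0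
        rw [Pi.single_eq_of_ne hi]; rfl
      rw [ZMod.intCast_zmod_eq_zero_iff_dvd] at h9
      have := bound hn i
      omega
    have h10 : ((io γ • O8 j : leechLattice) : GolayPt → ℤ) = Pi.single j (((io γ • O8 j : leechLattice) : GolayPt → ℤ) j) := by
      funext i
      by_cases hi : i = j
      · subst hi; rw [Pi.single_eq_same]
      · rw [h7 i hi, Pi.single_eq_of_ne hi]
    have h11 : (((io γ • O8 j : leechLattice) : GolayPt → ℤ) j) ^ 2 = 64 := by
      have : sqNorm ((io γ • O8 j : leechLattice) : GolayPt → ℤ) = 64 := hn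
      rw [h10, H7.L4.sqNorm_single] at this
      exact this
    have h12 := congrFun h6 j
    have h13 : ((((io γ • O8 j : leechLattice) : GolayPt → ℤ) j : ℤ) : K) = ((8 : ℤ) : K) := by
      refine h12.trans ?_
      show (((Pi.single j 8 : GolayPt → ℤ) j : ℤ) : K) = _
      rw [Pi.single_eq_same]
    rw [ZMod.intCast_eq_intCast_iff_dvd_sub] at h13
    have h14 := bound hn j
    have h15 : ((io γ • O8 j : leechLattice) : GolayPt → ℤ) j = 8 := by
      have : ((io γ • O8 j : leechLattice) : GolayPt → ℤ) j = 8 ∨ ((io γ • O8 j : leechLattice) : GolayPt → ℤ) j = -5 := by omega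
      rcases this with h | h
      · exact h
      · rw [h] at h11; norm_num at h11
    rw [h10, h15, O8_coe]
  exact Subgroup.inclusion_injective inf_le_left (h5.trans (map_one io).symm)

/-- The second Conway group (the stabilizer in the Leech lattice automorphism group of the short vector fixed in the definitions) is isomorphic to a subgroup of the general linear group of degree 23 over the field with 13 elements: there is an injective homomorphism into it. -/
theorem result : ∃ f : ↥Cfsg.Spor.Co2 →* GL (Fin 23) (ZMod 13), Function.Injective f := by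
  let b : Module.Basis (Fin 23) K W := Module.finBasisOfFinrankEq K W finrank_W
  let φ : Module.End K W ≃* Matrix (Fin 23) (Fin 23) K := (LinearMap.toMatrixAlgEquiv b).toMulEquiv
  refine ⟨(φ.toMonoidHom.comp actH).toHomUnits, ?_⟩
  rw [injective_iff_map_eq_one]
  intro γ hγ
  apply inj
  apply φ.injective
  rw [map_one]
  exact congrArg Units.val hγ

end Cfsg.Agent.S5546
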