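import Cfsg.Statements.S5548
import Cfsg.Agent.H28_Mod

set_option autoImplicit false
open Cfsg

namespace Cfsg.Agent.S5548

open Cfsg.Agent.H7.Golay Cfsg.Agent.H7.Oct Cfsg.Agent.H7.M24 Cfsg.Agent.H28.Mod
open scoped Pointwise



/-- For the automorphism group of the length-24 binary Golay code of the definitions (the Mathieu group of degree 24) acting on binary words of length 24 by permuting coordinates, the only invariant subspaces of the space of all words are: zero, the span of the all-ones word, the code itself, the even-weight words, and the whole space. (So the permutation module has a unique composition series.) -/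
theorem result (W : Submodule (ZMod 2) (Cfsg.GolayPt → ZMod 2)) (hW : ∀ σ ∈ Cfsg.M24, ∀ w ∈ W, (fun p => w (σ.symm p)) ∈ W) : W = ⊥ ∨ W = Submodule.span (ZMod 2) {fun _ => (1 : ZMod 2)} ∨ W = Cfsg.golayCode ∨ (W : Set (Cfsg.GolayPt → ZMod 2)) = {w | ∑ p, w p = 0} ∨ W = ⊤ := by
  have hW' : H28.Mod.Inv W := hW
  have h24 : Fintype.card GolayPt = 24 := by decide
  have hcode_even : ∀ s ∈ supports (golayCode : Set (GolayPt → ZMod 2)), Even s.card := by
    intro s hs
    rcases supports_weight hs with h | h | h | h | h <;> rw [h] <;> decide
  by_cases hle : W ≤ golayCode
  · by_cases h : ∃ w ∈ W, w ≠ 0 ∧ w ≠ fun _ => (1 : ZMod 2)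
    · right; right; left
      obtain ⟨w, hw, hw0, hw1⟩ := h
      apply le_antisymm hle
      refine code_le_of_word hW' (s := support₂ w) ?_ ?_ ?_ ?_
      · exact ⟨w, hle hw, rfl⟩
      · intro h0
        apply hw0
        rw [← ind_support w, h0, ind_empty]
      · intro h0
        apply hw1
        rw [← ind_support w, h0, ind_univ]
      · rw [ind_support]; exact hw
    · push Not at h
      by_cases h1 : (fun _ => (1 : ZMod 2)) ∈ W
      · right; left
        apply le_antisymm
        · intro w hw
          by_cases hw0 : w = 0
          · rw [hw0]; exact Submodule.zero_mem _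
          · rw [h w hw hw0]
            exact Submodule.mem_span_singleton_self _
        · rw [Submodule.span_singleton_le_iff_mem]
          exact h1
      · left
        rw [eq_bot_iff]
        intro w hw
        rw [Submodule.mem_bot]
        by_contra hw0
        rw [h w hw hw0] at hw
        exact h1 hw
  · obtain ⟨w, hw, hwc⟩ := Set.not_subset.1 hle
    have hwc' : support₂ w ∉ supports (golayCode : Set (GolayPt → ZMod 2)) := by
      intro hc
      rw [← ind_mem_code, ind_support] at hc
      exact hwc hc
    have hev := even_le_of_not_code hW' (w := support₂ w) (by rw [ind_support]; exact hw) hwc'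
    by_cases hodd : ∃ v ∈ W, ∑ p, v p ≠ 0
    · right; right; right; right
      obtain ⟨v, hv, hv1⟩ := hodd
      rw [eq_top_iff]
      intro x _
      by_cases hx : ∑ p, x p = 0
      · rw [← ind_support x, even_iff] at hx
        rw [← ind_support x]
        exact hev _ hx
      · have h1 : ∑ p, (x + v) p = 0 := by
          simp only [Pi.add_apply, Finset.sum_add_distrib]
          have : ∀ a b : ZMod 2, a ≠ 0 → b ≠ 0 → a + b = 0 := by decide
          exact this _ _ hx hv1
        rw [← ind_support (x + v), even_iff] at h1
        have h2 := hev _ h1
        rw [ind_support] at h2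
        have h3 := W.sub_mem h2 hv
        rwa [add_sub_cancel_right] at h3
    · right; right; right; left
      push Not at hodd
      ext x
      constructor
      · intro hx
        exact hodd x hx
      · intro hx
        rw [Set.mem_setOf_eq, ← ind_support x, even_iff] at hx
        rw [← ind_support x]
        exact hev _ hx

end Cfsg.Agent.S5548
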