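import Cfsg.Statements.S5549
import Cfsg.Agent.H28_Mod
import Cfsg.Agent.H28_Six
import Cfsg.Agent.H7_M24d
import Cfsg.Agent.H28_Cls
import Cfsg.Agent.H7_L1

set_option autoImplicit false
open Cfsg

namespace Cfsg.Agent.S5549

open Cfsg.Agent.H7.Golay Cfsg.Agent.H7.Oct Cfsg.Agent.H7.M24 Cfsg.Agent.H7.M24d Cfsg.Agent.H28.Mod Cfsg.Agent.H28.Six Cfsg.Agent.H28.Sxt Cfsg.Agent.H28.Cls
open scoped Pointwise

abbrev CW : Set (Finset GolayPt) := supports (golayCode : Set (GolayPt → ZMod 2))

/-- the pairing of a word and a set -/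
noncomputable def pr (c : GolayPt → ZMod 2) (t : Finset GolayPt) : ZMod 2 := ∑ i, c i * ind t i

theorem pr_symmDiff (c : GolayPt → ZMod 2) (s t : Finset GolayPt) : pr c (symmDiff s t) = pr c s + pr c t := by
  unfold pr
  rw [ind_symmDiff, ← Finset.sum_add_distrib]
  apply Finset.sum_congr rfl
  intro i _
  rw [Pi.add_apply, mul_add]

theorem pr_pair (c : GolayPt → ZMod 2) {p q : GolayPt} (h : p ≠ q) : pr c {p, q} = c p + c q := by
  unfold pr
  have h1 : ∀ i, c i * ind {p, q} i = (if i = p then c i else 0) + (if i = q then c i else 0) := by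
    intro i
    simp only [ind, Finset.mem_insert, Finset.mem_singleton]
    by_cases h1 : i = p
    · subst h1; simp [h]
    · by_cases h2 : i = q
      · subst h2; simp [h1]
      · simp [h1, h2]
  rw [Finset.sum_congr rfl (fun i _ => h1 i), Finset.sum_add_distrib]
  simp

theorem pr_ind (s t : Finset GolayPt) : pr (ind s) t = ((s ∩ t).card : ZMod 2) := by
  unfold pr
  have h1 : ∀ i, ind s i * ind t i = ind (s ∩ t) i := by
    intro i
    simp only [ind, Finset.mem_inter]
    by_cases h1 : i ∈ s <;> by_cases h2 : i ∈ t <;> simp [h1, h2]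
  rw [Finset.sum_congr rfl (fun i _ => h1 i), ind_sum]

theorem pr_ind_zero {s t : Finset GolayPt} : pr (ind s) t = 0 ↔ Even (s ∩ t).card := by
  rw [pr_ind, ZMod.natCast_eq_zero_iff_even]

theorem pr_code {c : GolayPt → ZMod 2} (hc : c ∈ golayCode) {d : Finset GolayPt} (hd : d ∈ CW) : pr c d = 0 := by
  rw [← ind_support c, pr_ind_zero, Nat.even_iff]
  exact H7.L1.card_inter_mod2 ⟨c, hc, rfl⟩ hd

/-! ### counting -/

def NS (t : Finset GolayPt) : Set (Finset GolayPt) := {s | s ∈ CW ∧ (s.card = 8 ∨ s.card = 16) ∧ Even (s ∩ t).card}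

noncomputable def NN (t : Finset GolayPt) : ℕ := (NS t).ncard

theorem NN_smul {g : Equiv.Perm GolayPt} (hg : g ∈ M24) (t : Finset GolayPt) : NN (g • t) = NN t := by
  symm
  apply ncard_transport g
  intro s
  unfold NS
  simp only [Set.mem_setOf_eq]
  rw [smul_mem_supports_iff hg, Finset.card_smul_finset, ← Finset.smul_finset_inter, Finset.card_smul_finset]

def N8 : List ℕ := codeL.filter fun m => Nat.beq (pc m) 8 || Nat.beq (pc m) 16

def cntN (m : ℕ) : ℕ := (N8.filter fun a => Nat.beq (Nat.mod (pc (Nat.land a m)) 2) 0).length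

theorem NN_mask (m : ℕ) : NN (ofMask m) = cntN m := by
  apply ncard_of_list
  · exact (codeL_nodup.filter _).filter _
  · intro a ha
    exact codeL_lt (List.mem_filter.1 (List.mem_filter.1 ha).1).1
  · intro s
    unfold NS N8
    rw [List.mem_filter, List.mem_filter, Set.mem_setOf_eq, mem_supports_iff', and_assoc]
    apply and_congr Iff.rfl
    apply and_congr
    · rw [Bool.or_eq_true, Nat.beq_eq, Nat.beq_eq, pc_mask]
    · rw [Nat.beq_eq, Nat.even_iff]
      have h1 : (s ∩ ofMask m).card = pc (Nat.land (mask s) m) := by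
        rw [← card_ofMask]
        have : ofMask (Nat.land (mask s) m) = ofMask (mask s) ∩ ofMask m := ofMask_and _ _
        rw [this, ofMask_mask]
      rw [h1]
      rfl

theorem exists_std {t : Finset GolayPt} (ht : t.card ≤ 4) : ∃ g ∈ M24, g • t = ofMask (2 ^ t.card - 1) := by
  have e : Fin t.card ≃ ↥t := (Fintype.equivFinOfCardEq (by rw [Fintype.card_coe])).symm
  obtain ⟨g, hg, h⟩ := H7.M24b.ktrans t.card (by omega) (fun i => (e i : GolayPt)) (fun i => pt i.val)
    (fun i j h => e.injective (Subtype.ext h)) (pt_injective _ (by omega))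
  refine ⟨g, hg, ?_⟩
  ext p
  rw [Finset.mem_smul_finset, mem_ofMask, Nat.testBit_two_pow_sub_one, decide_eq_true_iff]
  constructor
  · rintro ⟨q, hq, rfl⟩
    have h1 := h (e.symm ⟨q, hq⟩)
    simp only [Equiv.apply_symm_apply] at h1
    show ix (g q) < _
    rw [h1, ix_pt _ (by omega)]
    exact (e.symm ⟨q, hq⟩).2
  · intro hp
    refine ⟨e ⟨ix p, hp⟩, (e ⟨ix p, hp⟩).2, ?_⟩
    have h1 := h ⟨ix p, hp⟩
    show g _ = p
    rw [h1]
    exact pt_ix p

theorem NN_val {t : Finset GolayPt} (ht : t.card ≤ 4) : NN t = cntN (2 ^ t.card - 1) := by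
  obtain ⟨g, hg, h⟩ := exists_std ht
  rw [← NN_smul hg t, h, NN_mask]

theorem cnt_vals : cntN 0 = 1518 ∧ cntN 1 ≠ 1518 ∧ cntN 3 = 814 ∧ cntN 7 ≠ 1518 ∧ cntN 15 = 750 := by
  decide +kernel

theorem small_dual {t : Finset GolayPt} (ht : t.card ≤ 6) (h : ∀ c ∈ golayCode, pr c t = 0) : t = ∅ := by
  obtain ⟨t', ht', hc⟩ := coset_leader t
  have h' : ∀ c ∈ golayCode, pr c t' = 0 := by
    intro c hcc
    have h1 := pr_code hcc hc
    rw [pr_symmDiff, h c hcc, zero_add] at h1
    exact h1
  have h0 : NN t' = NN ∅ := by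
    unfold NN
    congr 1
    ext s
    unfold NS
    simp only [Set.mem_setOf_eq, Finset.inter_empty, Finset.card_empty]
    constructor
    · rintro ⟨h1, h2, _⟩
      exact ⟨h1, h2, by decide⟩
    · rintro ⟨h1, h2, _⟩
      exact ⟨h1, h2, pr_ind_zero.1 (h' _ (ind_mem_code.2 h1))⟩
  have h1 : NN ∅ = 1518 := by
    rw [NN_val (t := ∅) (by simp)]
    simp only [Finset.card_empty]
    exact cnt_vals.1
  have ht0 : t' = ∅ := by
    rw [h1, NN_val ht'] at h0
    have h3 : t'.card = 0 ∨ t'.card = 1 ∨ t'.card = 2 ∨ t'.card = 3 ∨ t'.card = 4 := by omega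
    rcases h3 with h3 | h3 | h3 | h3 | h3
    · exact Finset.card_eq_zero.1 h3
    · rw [h3] at h0; exact absurd h0 cnt_vals.2.1
    · rw [h3] at h0
      have := cnt_vals.2.2.1
      norm_num at h0
      omega
    · rw [h3] at h0; exact absurd h0 cnt_vals.2.2.2.1
    · rw [h3] at h0
      have := cnt_vals.2.2.2.2
      norm_num at h0
      omega
  subst ht0
  have e : symmDiff t ∅ = t := symmDiff_bot t
  rw [e] at hc
  have := supports_weight hc
  exact Finset.card_eq_zero.1 (by omega)

theorem small_unique {t t' : Finset GolayPt} (ht : t.card + t'.card ≤ 6) (h : ∀ c ∈ golayCode, pr c t = pr c t') : t = t' := by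
  have h1 : symmDiff t t' = ∅ := by
    apply small_dual
    · have := card_symmDiff' t t'
      omega
    · intro c hc
      rw [pr_symmDiff, h c hc, CharTwo.add_self_eq_zero]
  exact symmDiff_eq_bot.1 h1

theorem one_mem : (fun _ => (1 : ZMod 2)) ∈ golayCode := by
  rw [← ind_univ, ind_mem_code, mem_supports_iff']
  decide +kernel

/-- linear functionals on the code are given by small sets -/
theorem repr (f : ↥golayCode →ₗ[ZMod 2] ZMod 2) : ∃ t : Finset GolayPt, t.card ≤ 4 ∧
    ∀ c : ↥golayCode, f c = pr (c : GolayPt → ZMod 2) t := by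
  obtain ⟨g, hg⟩ := LinearMap.exists_extend f
  set s : Finset GolayPt := Finset.univ.filter fun i => g (fun j => if i = j then 1 else 0) ≠ 0 with hs
  obtain ⟨t, ht, hc⟩ := coset_leader s
  refine ⟨t, ht, fun c => ?_⟩
  have h1 : f c = g (c : GolayPt → ZMod 2) := by
    rw [← hg]; rfl
  have h2 : g (c : GolayPt → ZMod 2) = pr (c : GolayPt → ZMod 2) s := by
    rw [LinearMap.pi_apply_eq_sum_univ]
    unfold pr
    apply Finset.sum_congr rfl
    intro i _
    rw [smul_eq_mul]
    congr 1
    simp only [ind, hs, Finset.mem_filter, Finset.mem_univ, true_and]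
    have : ∀ a : ZMod 2, a = if a ≠ 0 then 1 else 0 := by decide
    exact this _
  have h3 := pr_code c.2 hc
  rw [pr_symmDiff] at h3
  rw [h1, h2]
  have : ∀ a b : ZMod 2, a + b = 0 → a = b := by decide
  exact this _ _ h3

section
variable {x : ↥golayCode ≃ₗ[ZMod 2] ↥golayCode}
  (horb : ∀ c : ↥Cfsg.golayCode, ∃ σ ∈ Cfsg.M24, ((x c : ↥Cfsg.golayCode) : (Cfsg.GolayPt → ZMod 2)) =
    (fun p => (c : (Cfsg.GolayPt → ZMod 2)) (σ.symm p)) ∨ ((x c : ↥Cfsg.golayCode) : (Cfsg.GolayPt → ZMod 2)) =
    (fun p => (c : (Cfsg.GolayPt → ZMod 2)) (σ.symm p)) + fun _ => (1 : ZMod 2))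
  (h1 : ∀ e : ↥Cfsg.golayCode, (e : (Cfsg.GolayPt → ZMod 2)) = (fun _ => (1 : ZMod 2)) → x e = e)

include horb in
theorem weight (c : ↥golayCode) : ((support₂ (x c : GolayPt → ZMod 2)).card = 8 ∨
    (support₂ (x c : GolayPt → ZMod 2)).card = 16) ↔
    ((support₂ (c : GolayPt → ZMod 2)).card = 8 ∨ (support₂ (c : GolayPt → ZMod 2)).card = 16) := by
  obtain ⟨σ, hσ, h⟩ := horb c
  have h2 := ind_smul σ (support₂ (c : GolayPt → ZMod 2))
  rw [ind_support] at h2
  have h24 : Fintype.card GolayPt = 24 := by decide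
  rcases h with h | h
  · rw [h, h2, support_ind, Finset.card_smul_finset]
  · have h3 : (x c : GolayPt → ZMod 2) = ind ((σ • support₂ (c : GolayPt → ZMod 2))ᶜ) := by
      rw [h, h2, ← ind_univ, ← ind_symmDiff]
      congr 1
      ext p
      simp only [Finset.mem_symmDiff, Finset.mem_univ, Finset.mem_compl]
      tauto
    rw [h3, support_ind, Finset.card_compl, h24, Finset.card_smul_finset]
    have := Finset.card_le_univ (support₂ (c : GolayPt → ZMod 2))
    rw [h24] at this
    omega

include horb in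
theorem NN_eq {p q : GolayPt} (hpq : p ≠ q) {t : Finset GolayPt}
    (ht : ∀ c : ↥golayCode, (x c : GolayPt → ZMod 2) p + (x c : GolayPt → ZMod 2) q = pr (c : GolayPt → ZMod 2) t) :
    NN t = NN {p, q} := by
  classical
  unfold NN
  let φ : Finset GolayPt → Finset GolayPt := fun s => if h : ind s ∈ golayCode then
    support₂ (x ⟨ind s, h⟩ : GolayPt → ZMod 2) else s
  have hφ : ∀ s (h : ind s ∈ golayCode), φ s = support₂ (x ⟨ind s, h⟩ : GolayPt → ZMod 2) := by
    intro s h
    simp only [φ, h, dif_pos]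
  have himg : φ '' NS t = NS {p, q} := by
    ext s'
    constructor
    · rintro ⟨s, ⟨hs, hw, he⟩, rfl⟩
      have hc : ind s ∈ golayCode := ind_mem_code.2 hs
      rw [hφ s hc]
      refine ⟨⟨_, (x ⟨ind s, hc⟩).2, rfl⟩, ?_, ?_⟩
      · rw [weight horb]
        simp only [support_ind]
        exact hw
      · rw [← pr_ind_zero, ind_support, pr_pair _ hpq, ht, pr_ind_zero]
        exact he
    · rintro ⟨hs, hw, he⟩
      have hc : ind s' ∈ golayCode := ind_mem_code.2 hs
      set c := x.symm ⟨ind s', hc⟩ with hcdef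
      have hxc : x c = ⟨ind s', hc⟩ := by rw [hcdef, LinearEquiv.apply_symm_apply]
      have hcc : ind (support₂ (c : GolayPt → ZMod 2)) ∈ golayCode := by rw [ind_support]; exact c.2
      have hce : (⟨ind (support₂ (c : GolayPt → ZMod 2)), hcc⟩ : ↥golayCode) = c := Subtype.ext (ind_support _)
      refine ⟨support₂ (c : GolayPt → ZMod 2), ⟨⟨_, c.2, rfl⟩, ?_, ?_⟩, ?_⟩
      · rw [← weight horb, hxc]
        simp only [support_ind]
        exact hw
      · rw [← pr_ind_zero, ind_support, ← ht, hxc]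
        simp only
        rw [← pr_pair _ hpq, pr_ind_zero]
        exact he
      · rw [hφ _ hcc, hce, hxc, support_ind]
  rw [← himg]
  symm
  apply Set.ncard_image_of_injOn
  rintro s ⟨hs, _, _⟩ s' ⟨hs', _, _⟩ h
  have hc : ind s ∈ golayCode := ind_mem_code.2 hs
  have hc' : ind s' ∈ golayCode := ind_mem_code.2 hs'
  rw [hφ s hc, hφ s' hc'] at h
  have h2 : (x ⟨ind s, hc⟩ : GolayPt → ZMod 2) = x ⟨ind s', hc'⟩ := by
    rw [← ind_support (x ⟨ind s, hc⟩ : GolayPt → ZMod 2), h, ind_support]
  exact ind_inj (congrArg Subtype.val (x.injective (Subtype.ext h2)))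

include horb h1 in
theorem pairs {p q : GolayPt} (hpq : p ≠ q) : ∃ t : Finset GolayPt, t.card = 2 ∧
    ∀ c : ↥golayCode, (x c : GolayPt → ZMod 2) p + (x c : GolayPt → ZMod 2) q = pr (c : GolayPt → ZMod 2) t := by
  let f : ↥golayCode →ₗ[ZMod 2] ZMod 2 :=
    (((LinearMap.proj (R := ZMod 2) (φ := fun _ : GolayPt => ZMod 2) p) +
      (LinearMap.proj (R := ZMod 2) (φ := fun _ : GolayPt => ZMod 2) q)).comp golayCode.subtype).comp
      x.toLinearMap
  obtain ⟨t, ht, hf⟩ := repr f
  have hf' : ∀ c : ↥golayCode, (x c : GolayPt → ZMod 2) p + (x c : GolayPt → ZMod 2) q = pr (c : GolayPt → ZMod 2) t := hf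
  refine ⟨t, ?_, hf'⟩
  have he : Even t.card := by
    have h2 := hf' ⟨_, one_mem⟩
    rw [h1 ⟨_, one_mem⟩ rfl] at h2
    have h3 : pr (fun _ => (1 : ZMod 2)) t = 0 := by
      rw [← h2]
      show (1 : ZMod 2) + 1 = 0
      decide
    rw [← ind_univ, pr_ind_zero, Finset.univ_inter] at h3
    exact h3
  have hN := NN_eq horb hpq hf'
  rw [NN_val ht, NN_val (t := {p, q}) (by rw [Finset.card_pair hpq]; norm_num), Finset.card_pair hpq] at hN
  have c3 : cntN (2 ^ 2 - 1) = 814 := cnt_vals.2.2.1
  rw [c3] at hN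
  have h3 : t.card = 0 ∨ t.card = 2 ∨ t.card = 4 := by
    obtain ⟨k, hk⟩ := he
    omega
  rcases h3 with h3 | h3 | h3
  · rw [h3] at hN
    have c0 : cntN (2 ^ 0 - 1) = 1518 := cnt_vals.1
    rw [c0] at hN
    omega
  · exact h3
  · rw [h3] at hN
    have c0 : cntN (2 ^ 4 - 1) = 750 := cnt_vals.2.2.2.2
    rw [c0] at hN
    omega

end

/-- Let X be a group of linear automorphisms of the length-24 binary Golay code of the definitions that fix the all-ones word, containing the coordinate-permutation action of every element of the code's automorphism group (the Mathieu group of degree 24), and such that every element of X sends each codeword into its orbit under that Mathieu group up to adding the all-ones word (X has the same orbits as the Mathieu group on the code modulo the all-ones word). Then every element of X agrees, modulo the all-ones word, with the action of a single element of the Mathieu group: X induces exactly the Mathieu group on the code modulo the all-ones word. -/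
theorem result (X : Subgroup (↥Cfsg.golayCode ≃ₗ[ZMod 2] ↥Cfsg.golayCode)) (h1 : ∀ x ∈ X, ∀ e : ↥Cfsg.golayCode, (e : (Cfsg.GolayPt → ZMod 2)) = (fun _ => (1 : ZMod 2)) → x e = e) (hM : ∀ σ ∈ Cfsg.M24, ∃ x ∈ X, ∀ c : ↥Cfsg.golayCode, ((x c : ↥Cfsg.golayCode) : (Cfsg.GolayPt → ZMod 2)) = fun p => (c : (Cfsg.GolayPt → ZMod 2)) (σ.symm p)) (horb : ∀ x ∈ X, ∀ c : ↥Cfsg.golayCode, ∃ σ ∈ Cfsg.M24, ((x c : ↥Cfsg.golayCode) : (Cfsg.GolayPt → ZMod 2)) = (fun p => (c : (Cfsg.GolayPt → ZMod 2)) (σ.symm p)) ∨ ((x c : ↥Cfsg.golayCode) : (Cfsg.GolayPt → ZMod 2)) = (fun p => (c : (Cfsg.GolayPt → ZMod 2)) (σ.symm p)) + fun _ => (1 : ZMod 2)) (x : ↥Cfsg.golayCode ≃ₗ[ZMod 2] ↥Cfsg.golayCode) (hx : x ∈ X) : ∃ σ ∈ Cfsg.M24, ∀ c : ↥Cfsg.golayCode, ((x c : ↥Cfsg.golayCode) : (Cfsg.GolayPt → ZMod 2)) = (fun p => (c : (Cfsg.GolayPt → ZMod 2)) (σ.symm p)) ∨ ((x c : ↥Cfsg.golayCode) : (Cfsg.GolayPt → ZMod 2)) = (fun p => (c : (Cfsg.GolayPt → ZMod 2)) (σ.symm p)) + fun _ => (1 : ZMod 2) := by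
  have horb' := horb x hx
  have h1' := h1 x hx
  have hT : ∀ p q : GolayPt, ∃ t : Finset GolayPt, p ≠ q → (t.card = 2 ∧
      ∀ c : ↥golayCode, (x c : GolayPt → ZMod 2) p + (x c : GolayPt → ZMod 2) q = pr (c : GolayPt → ZMod 2) t) := by
    intro p q
    by_cases h : p = q
    · exact ⟨∅, fun hc => absurd h hc⟩
    · obtain ⟨t, ht⟩ := pairs horb' h1' h
      exact ⟨t, fun _ => ht⟩
  choose τ hτ using hT
  have A1 : ∀ p q, p ≠ q → τ p q = τ q p := by
    intro p q h
    apply small_unique
    · rw [(hτ p q h).1, (hτ q p h.symm).1]; norm_num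
    · intro c hc
      have e1 := (hτ p q h).2 ⟨c, hc⟩
      have e2 := (hτ q p h.symm).2 ⟨c, hc⟩
      rw [← e1, ← e2, add_comm]
  have A2 : ∀ p q r, p ≠ q → p ≠ r → q ≠ r → τ p r = symmDiff (τ p q) (τ q r) := by
    intro p q r hpq hpr hqr
    have h0 : symmDiff (τ p r) (symmDiff (τ p q) (τ q r)) = ∅ := by
      apply small_dual
      · have e1 := card_symmDiff' (τ p r) (symmDiff (τ p q) (τ q r))
        have e2 := card_symmDiff' (τ p q) (τ q r)
        rw [(hτ p q hpq).1, (hτ q r hqr).1] at e2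
        rw [(hτ p r hpr).1] at e1
        omega
      · intro c hc
        rw [pr_symmDiff, pr_symmDiff]
        have e1 := (hτ p q hpq).2 ⟨c, hc⟩
        have e2 := (hτ p r hpr).2 ⟨c, hc⟩
        have e3 := (hτ q r hqr).2 ⟨c, hc⟩
        simp only at e1 e2 e3
        rw [← e1, ← e2, ← e3]
        have : ∀ a b c : ZMod 2, a + c + (a + b + (b + c)) = 0 := by decide
        exact this _ _ _
    exact symmDiff_eq_bot.1 h0
  have A3 : ∀ p q r s, p ≠ q → r ≠ s → τ p q = τ r s → ({p, q} : Finset GolayPt) = {r, s} := by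
    intro p q r s hpq hrs h
    apply small_unique
    · rw [Finset.card_pair hpq, Finset.card_pair hrs]; norm_num
    · intro c hc
      rw [pr_pair _ hpq, pr_pair _ hrs]
      have e1 := (hτ p q hpq).2 (x.symm ⟨c, hc⟩)
      have e2 := (hτ r s hrs).2 (x.symm ⟨c, hc⟩)
      rw [LinearEquiv.apply_symm_apply] at e1 e2
      simp only at e1 e2
      rw [e1, e2, h]
  have hstar : ∀ p, ∃ a, ∀ q, p ≠ q → a ∈ τ p q := by
    intro p
    obtain ⟨q, hq⟩ := exists_ne p
    obtain ⟨r, hr⟩ : ∃ r, r ≠ p ∧ r ≠ q := by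
      have : (({p, q} : Finset GolayPt)ᶜ).Nonempty := by
        rw [← Finset.card_pos, Finset.card_compl, Finset.card_pair hq.symm]; decide
      obtain ⟨r, hr⟩ := this
      simp only [Finset.mem_compl, Finset.mem_insert, Finset.mem_singleton, not_or] at hr
      exact ⟨r, hr⟩
    have hpq : p ≠ q := hq.symm
    have hpr : p ≠ r := hr.1.symm
    have hqr : q ≠ r := hr.2.symm
    have cq := (hτ p q hpq).1
    have cr := (hτ p r hpr).1
    have cqr := (hτ q r hqr).1
    have key : ∀ u v, p ≠ u → p ≠ v → u ≠ v → (τ p u ∩ τ p v).card = 1 := by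
      intro u v hu hv huv
      have e1 := card_symmDiff' (τ p u) (τ p v)
      have e2 := A2 u p v hu.symm huv hv
      rw [A1 u p hu.symm] at e2
      rw [← e2, (hτ u v huv).1, (hτ p u hu).1, (hτ p v hv).1] at e1
      omega
    obtain ⟨a, ha⟩ := Finset.card_eq_one.1 (key q r hpq hpr hqr)
    have haq : a ∈ τ p q := (Finset.mem_inter.1 (by rw [ha]; exact Finset.mem_singleton_self a)).1
    have har : a ∈ τ p r := (Finset.mem_inter.1 (by rw [ha]; exact Finset.mem_singleton_self a)).2
    refine ⟨a, fun s hs => ?_⟩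
    by_cases hsq : s = q
    · rw [hsq]; exact haq
    by_cases hsr : s = r
    · rw [hsr]; exact har
    by_contra hc
    have e : τ p s = τ q r := by
      have e2 := A2 q p r hq hqr hpr
      rw [A1 q p hq] at e2
      rw [e2]
      obtain ⟨b, hb⟩ := Finset.card_eq_one.1 (key s q hs hpq hsq)
      obtain ⟨c, hcc⟩ := Finset.card_eq_one.1 (key s r hs hpr hsr)
      have hb1 := Finset.mem_inter.1 (show b ∈ τ p s ∩ τ p q by rw [hb]; exact Finset.mem_singleton_self b)
      have hc1 := Finset.mem_inter.1 (show c ∈ τ p s ∩ τ p r by rw [hcc]; exact Finset.mem_singleton_self c)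
      have hba : b ≠ a := fun h => hc (h ▸ hb1.1)
      have hca : c ≠ a := fun h => hc (h ▸ hc1.1)
      have hbc : b ≠ c := by
        intro h
        have : b ∈ τ p q ∩ τ p r := Finset.mem_inter.2 ⟨hb1.2, h ▸ hc1.2⟩
        rw [ha, Finset.mem_singleton] at this
        exact hba this
      have f1 : τ p s = {b, c} := by
        symm
        apply Finset.eq_of_subset_of_card_le
        · intro y hy
          rw [Finset.mem_insert, Finset.mem_singleton] at hy
          rcases hy with rfl | rfl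
          · exact hb1.1
          · exact hc1.1
        · rw [(hτ p s hs).1, Finset.card_pair hbc]
      have f2 : τ p q = {a, b} := by
        symm
        apply Finset.eq_of_subset_of_card_le
        · intro y hy
          rw [Finset.mem_insert, Finset.mem_singleton] at hy
          rcases hy with rfl | rfl
          · exact haq
          · exact hb1.2
        · rw [cq, Finset.card_pair hba.symm]
      have f3 : τ p r = {a, c} := by
        symm
        apply Finset.eq_of_subset_of_card_le
        · intro y hy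
          rw [Finset.mem_insert, Finset.mem_singleton] at hy
          rcases hy with rfl | rfl
          · exact har
          · exact hc1.2
        · rw [cr, Finset.card_pair hca.symm]
      rw [f1, f2, f3]
      ext y
      simp only [Finset.mem_symmDiff, Finset.mem_insert, Finset.mem_singleton]
      by_cases y1 : y = a
      · subst y1; simp [hba.symm, hca.symm]
      · by_cases y2 : y = b
        · subst y2; simp [hba, hbc]
        · by_cases y3 : y = c
          · subst y3; simp [hca, hbc.symm]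
          · simp [y1, y2, y3]
    have h3 := A3 p s q r hs hqr e
    have h4 : p ∈ ({q, r} : Finset GolayPt) := by rw [← h3]; simp
    simp only [Finset.mem_insert, Finset.mem_singleton] at h4
    rcases h4 with h4 | h4
    · exact hpq h4
    · exact hpr h4
  choose f hf using hstar
  have hfinj : Function.Injective f := by
    intro p q h
    by_contra hpq
    obtain ⟨r, hr⟩ : ∃ r, r ≠ p ∧ r ≠ q := by
      have : (({p, q} : Finset GolayPt)ᶜ).Nonempty := by
        rw [← Finset.card_pos, Finset.card_compl, Finset.card_pair hpq]; decide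
      obtain ⟨r, hr⟩ := this
      simp only [Finset.mem_compl, Finset.mem_insert, Finset.mem_singleton, not_or] at hr
      exact ⟨r, hr⟩
    have e := A2 p r q hr.1.symm hpq hr.2
    have m1 : f p ∈ τ p q := hf p q hpq
    have m2 : f p ∈ τ p r := hf p r hr.1.symm
    have m3 : f p ∈ τ r q := by
      rw [A1 r q hr.2, h]
      exact hf q r hr.2.symm
    rw [e, Finset.mem_symmDiff] at m1
    tauto
  have hτf : ∀ p q, p ≠ q → τ p q = {f p, f q} := by
    intro p q hpq
    symm
    apply Finset.eq_of_subset_of_card_le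
    · intro y hy
      rw [Finset.mem_insert, Finset.mem_singleton] at hy
      rcases hy with rfl | rfl
      · exact hf p q hpq
      · rw [A1 p q hpq]; exact hf q p (Ne.symm hpq)
    · rw [(hτ p q hpq).1, Finset.card_pair (fun h => hpq (hfinj h))]
  have hmain : ∀ (c : ↥golayCode) p q, (x c : GolayPt → ZMod 2) p + (x c : GolayPt → ZMod 2) q =
      (c : GolayPt → ZMod 2) (f p) + (c : GolayPt → ZMod 2) (f q) := by
    intro c p q
    by_cases hpq : p = q
    · rw [hpq, CharTwo.add_self_eq_zero, CharTwo.add_self_eq_zero]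
    · rw [(hτ p q hpq).2 c, hτf p q hpq, pr_pair _ (fun h => hpq (hfinj h))]
  let σ : Equiv.Perm GolayPt := (Equiv.ofBijective f (Finite.injective_iff_bijective.1 hfinj)).symm
  have hσ : ∀ p, σ.symm p = f p := fun p => rfl
  have hres : ∀ c : ↥golayCode, ((x c : ↥golayCode) : (GolayPt → ZMod 2)) = (fun p => (c : (GolayPt → ZMod 2)) (σ.symm p)) ∨
      ((x c : ↥golayCode) : (GolayPt → ZMod 2)) = (fun p => (c : (GolayPt → ZMod 2)) (σ.symm p)) + fun _ => (1 : ZMod 2) := by
    intro c
    have hk : ∀ p, (x c : GolayPt → ZMod 2) p = (c : GolayPt → ZMod 2) (f p) +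
        ((x c : GolayPt → ZMod 2) none + (c : GolayPt → ZMod 2) (f none)) := by
      intro p
      have h2 := hmain c p none
      have : ∀ a b d e : ZMod 2, a + b = d + e → a = d + (b + e) := by decide
      exact this _ _ _ _ h2
    have h01 : ∀ a : ZMod 2, a = 0 ∨ a = 1 := by decide
    rcases h01 ((x c : GolayPt → ZMod 2) none + (c : GolayPt → ZMod 2) (f none)) with h | h
    · left
      funext p
      rw [hk p, h, add_zero]
      rfl
    · right
      funext p
      rw [hk p, h]
      rfl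
  refine ⟨σ, ?_, hres⟩
  rw [mem_M24_iff]
  intro s hs
  have hc : ind s ∈ golayCode := ind_mem_code.2 hs
  rw [← ind_mem_code, ← ind_smul]
  rcases hres ⟨ind s, hc⟩ with h | h
  · rw [← h]; exact (x ⟨ind s, hc⟩).2
  · have h2 : (fun p => ind s (σ.symm p)) = (x ⟨ind s, hc⟩ : GolayPt → ZMod 2) - (fun _ => (1 : ZMod 2)) := by
      rw [h]; simp
    rw [h2]
    exact golayCode.sub_mem (x ⟨ind s, hc⟩).2 one_mem

end Cfsg.Agent.S5549
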