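import Cfsg.Statements.S5550
import Cfsg.Agent.H28_Mod
import Cfsg.Agent.H28_Six
import Cfsg.Agent.H7_M24d
import Cfsg.Agent.H28_Cls

set_option autoImplicit false
open Cfsg

namespace Cfsg.Agent.S5550

open Cfsg.Agent.H7.Golay Cfsg.Agent.H7.Oct Cfsg.Agent.H7.M24 Cfsg.Agent.H7.M24d Cfsg.Agent.H28.Mod Cfsg.Agent.H28.Six Cfsg.Agent.H28.Sxt Cfsg.Agent.H28.Cls
open scoped Pointwise

theorem move3 {t : Finset GolayPt} (ht : t.card ≤ 3) {σ : Equiv.Perm GolayPt} {a : GolayPt} (ha : a ∈ t) (hb : σ a ∉ t) :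
    symmDiff t (σ • t) ∉ supports (golayCode : Set (GolayPt → ZMod 2)) := by
  intro h
  have h1 := card_symmDiff' t (σ • t)
  rw [Finset.card_smul_finset] at h1
  have h2 := supports_weight h
  have h3 : (symmDiff t (σ • t)).card = 0 := by omega
  have h4 : t = σ • t := symmDiff_eq_bot.1 (Finset.card_eq_zero.1 h3)
  apply hb
  rw [h4]
  exact Finset.smul_mem_smul_finset ha

theorem move4 {U t D : Finset GolayPt} (ht : t.card = 4) (hD : 8 ≤ D.card)
    (h2 : ∀ a ∈ D, ∀ b ∈ D, ∀ c ∈ D, a ≠ b → a ≠ c → b ≠ c → ∃ σ ∈ M24, σ • U = U ∧ σ a = a ∧ σ b = c) :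
    ∃ σ ∈ M24, σ • U = U ∧ symmDiff t (σ • t) ∉ supports (golayCode : Set (GolayPt → ZMod 2)) := by
  by_contra hcon
  push Not at hcon
  set S := sx (syn (mask t)) with hS
  have hmem : ∀ T, T ∈ S ↔ T.card = 4 ∧ symmDiff T t ∈ supports (golayCode : Set (GolayPt → ZMod 2)) := by
    intro T
    rw [hS, mem_sx, syn_iff]
  have hinv : ∀ σ ∈ M24, σ • U = U → ∀ T ∈ S, σ • T ∈ S := by
    intro σ hσ hU T hT
    rw [hmem] at hT ⊢
    refine ⟨by rw [Finset.card_smul_finset]; exact hT.1, ?_⟩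
    have h3 := (smul_mem_supports_iff hσ).2 hT.2
    rw [Finset.smul_finset_symmDiff] at h3
    have h4 := symmDiff_mem_supports h3 (hcon σ hσ hU)
    have e : symmDiff (symmDiff (σ • T) (σ • t)) (symmDiff t (σ • t)) = symmDiff (σ • T) t := by
      ext p
      simp only [Finset.mem_symmDiff]
      tauto
    rw [e] at h4
    exact h4
  have hf : ∀ p : GolayPt, ∃ T ∈ S, p ∈ T := fun p => sx_cover ht p
  choose f hfS hfp using hf
  obtain ⟨a, ha, b, hb, hab, hfab⟩ := Finset.exists_ne_map_eq_of_card_lt_of_maps_to (s := D) (t := S) (f := f)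
    (by rw [hS, sx_card ht]; omega) (fun p _ => hfS p)
  have hbT : b ∈ f a := by rw [hfab]; exact hfp b
  obtain ⟨c, hc⟩ : (D \ f a).Nonempty := by
    rw [← Finset.card_pos]
    have h3 := Finset.le_card_sdiff (f a) D
    have h4 := ((hmem (f a)).1 (hfS a)).1
    omega
  rw [Finset.mem_sdiff] at hc
  obtain ⟨σ, hσ, hU, h3, h4⟩ := h2 a ha b hb c hc.1 hab (fun h => hc.2 (h ▸ hfp a)) (fun h => hc.2 (h ▸ hbT))
  have h5 := hinv σ hσ hU (f a) (hfS a)
  have h6 : a ∈ σ • f a := by
    have : σ • a ∈ σ • f a := Finset.smul_mem_smul_finset (hfp a)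
    rwa [show σ • a = a from h3] at this
  have h7 : σ • f a = f a := by
    by_contra hne
    exact Finset.disjoint_left.1 (sx_disj h5 (hfS a) hne) h6 (hfp a)
  have h8 : σ • b ∈ σ • f a := Finset.smul_mem_smul_finset hbT
  rw [h7, show σ • b = c from h4] at h8
  exact hc.2 h8

theorem swapO {o : Finset GolayPt} (ho : o ∈ octads) : ∀ a ∈ o, ∀ b ∈ o, ∀ c ∈ o, a ≠ b → a ≠ c → b ≠ c →
    ∃ σ ∈ M24, σ • o = o ∧ σ a = a ∧ σ b = c := by
  intro a ha b hb c hc hab hac hbc
  have h8 : o.card = 8 := (mem_octads.1 ho).2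
  have h3 : ({a, b, c} : Finset GolayPt).card = 3 := by
    rw [Finset.card_insert_of_notMem (by simp [hab, hac]), Finset.card_insert_of_notMem (by simp [hbc]),
      Finset.card_singleton]
  obtain ⟨d, hd, e, he, hde⟩ : ∃ d ∈ o \ {a, b, c}, ∃ e ∈ o \ {a, b, c}, d ≠ e := by
    apply Finset.one_lt_card.1
    have := Finset.le_card_sdiff ({a, b, c} : Finset GolayPt) o
    omega
  simp only [Finset.mem_sdiff, Finset.mem_insert, Finset.mem_singleton, not_or] at hd he
  obtain ⟨g, hg, hx⟩ := H7.M24b.ktrans 5 (by norm_num) ![a, b, c, d, e] ![a, c, b, d, e]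
    (inj5 hab hac (Ne.symm hd.2.1) hbc (Ne.symm hd.2.2.1) (Ne.symm hd.2.2.2) (Ne.symm he.2.1) (Ne.symm he.2.2.1)
      (Ne.symm he.2.2.2) hde)
    (inj5 hac hab (Ne.symm hd.2.1) hbc.symm (Ne.symm hd.2.2.2) (Ne.symm hd.2.2.1) (Ne.symm he.2.1) (Ne.symm he.2.2.2)
      (Ne.symm he.2.2.1) hde)
  have x0 : g a = a := hx 0
  have x1 : g b = c := hx 1
  have x2 : g c = b := hx 2
  have x3 : g d = d := hx 3
  have x4 : g e = e := hx 4
  refine ⟨g, hg, ?_, x0, x1⟩
  apply eq_of_five ((smul_mem_octads_iff hg).2 ho) ho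
  have h5 : ({a, b, c, d, e} : Finset GolayPt) ⊆ g • o ∩ o := by
    intro p hp
    simp only [Finset.mem_insert, Finset.mem_singleton] at hp
    have hm : ∀ q ∈ o, g q ∈ g • o := fun q hq => Finset.smul_mem_smul_finset hq
    rw [Finset.mem_inter]
    rcases hp with rfl | rfl | rfl | rfl | rfl
    · exact ⟨x0 ▸ hm _ ha, ha⟩
    · have := hm _ hc; rw [x2] at this; exact ⟨this, hb⟩
    · have := hm _ hb; rw [x1] at this; exact ⟨this, hc⟩
    · have := hm _ hd.1; rw [x3] at this; exact ⟨this, hd.1⟩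
    · have := hm _ he.1; rw [x4] at this; exact ⟨this, he.1⟩
  have h6 := Finset.card_le_card h5
  have h7 : ({a, b, c, d, e} : Finset GolayPt).card = 5 := by
    rw [Finset.card_insert_of_notMem (by simp [hab, hac, Ne.symm hd.2.1, Ne.symm he.2.1]),
      Finset.card_insert_of_notMem (by simp [hbc, Ne.symm hd.2.2.1, Ne.symm he.2.2.1]),
      Finset.card_insert_of_notMem (by simp [Ne.symm hd.2.2.2, Ne.symm he.2.2.2]),
      Finset.card_insert_of_notMem (by simp [hde]), Finset.card_singleton]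
  omega

theorem outO {o : Finset GolayPt} (ho : o ∈ octads) {a b : GolayPt} (ha : a ∉ o) (hb : b ∉ o) :
    ∃ σ ∈ M24, σ • o = o ∧ σ a = b := by
  have h8 : o.card = 8 := (mem_octads.1 ho).2
  obtain ⟨F, hF, hF5⟩ := Finset.exists_subset_card_eq (s := o) (n := 5) (by omega)
  have haF : a ∉ F := fun h => ha (hF h)
  have hbF : b ∉ F := fun h => hb (hF h)
  let e : Fin 5 ≃ ↥F := (Fintype.equivFinOfCardEq (by rw [Fintype.card_coe, hF5])).symm
  have hi : ∀ c : GolayPt, c ∉ F → Function.Injective (Fin.snoc (fun i => (e i : GolayPt)) c : Fin 6 → GolayPt) := by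
    intro c hc
    rw [Fin.snoc_injective_iff]
    refine ⟨fun i j h => e.injective (Subtype.ext h), ?_⟩
    rintro ⟨i, hi⟩
    exact hc (hi ▸ (e i).2)
  have hno : ∀ c : GolayPt, c ∉ o → ¬ ∃ o' ∈ octads, ∀ i, (Fin.snoc (fun i => (e i : GolayPt)) c : Fin 6 → GolayPt) i ∈ o' := by
    rintro c hc ⟨o', ho', h⟩
    have h1 : o = o' := by
      apply eq_of_five ho ho'
      have h2 : F ⊆ o ∩ o' := by
        intro p hp
        rw [Finset.mem_inter]
        refine ⟨hF hp, ?_⟩
        have h3 := h (Fin.castSucc (e.symm ⟨p, hp⟩))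
        rw [Fin.snoc_castSucc, Equiv.apply_symm_apply] at h3
        exact h3
      have := Finset.card_le_card h2
      omega
    apply hc
    rw [h1]
    have h3 := h (Fin.last 5)
    rwa [Fin.snoc_last] at h3
  obtain ⟨g, hg, hx⟩ := six_trans _ _ (hi a haF) (hi b hbF) (iff_of_false (hno a ha) (hno b hb))
  refine ⟨g, hg, ?_, ?_⟩
  · apply eq_of_five ((smul_mem_octads_iff hg).2 ho) ho
    have h2 : F ⊆ g • o ∩ o := by
      intro p hp
      rw [Finset.mem_inter]
      refine ⟨?_, hF hp⟩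
      have h3 := hx (Fin.castSucc (e.symm ⟨p, hp⟩))
      rw [Fin.snoc_castSucc, Fin.snoc_castSucc, Equiv.apply_symm_apply] at h3
      have h4 : g • p ∈ g • o := Finset.smul_mem_smul_finset (hF hp)
      rwa [show g • p = p from h3] at h4
    have := Finset.card_le_card h2
    omega
  · have h3 := hx (Fin.last 5)
    rwa [Fin.snoc_last, Fin.snoc_last] at h3

theorem octad_case {o t : Finset GolayPt} (ho : o ∈ octads) (ht : t.card ≤ 4) (ht0 : t ≠ ∅) :
    ∃ σ ∈ M24, σ • o = o ∧ symmDiff t (σ • t) ∉ supports (golayCode : Set (GolayPt → ZMod 2)) := by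
  have h8 : o.card = 8 := (mem_octads.1 ho).2
  have h24 : Fintype.card GolayPt = 24 := by decide
  by_cases h4 : t.card = 4
  · exact move4 (D := o) h4 (by omega) (swapO ho)
  · have h3 : t.card ≤ 3 := by omega
    obtain ⟨a, ha⟩ := Finset.nonempty_iff_ne_empty.2 ht0
    by_cases hao : a ∈ o
    · obtain ⟨b, hb⟩ : (o \ t).Nonempty := by
        rw [← Finset.card_pos]
        have := Finset.le_card_sdiff t o
        omega
      rw [Finset.mem_sdiff] at hb
      have hab : a ≠ b := fun h => hb.2 (h ▸ ha)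
      obtain ⟨c, hc⟩ : (o \ {a, b}).Nonempty := by
        rw [← Finset.card_pos]
        have h1 := Finset.le_card_sdiff {a, b} o
        have h2 := Finset.card_le_two (a := a) (b := b)
        omega
      simp only [Finset.mem_sdiff, Finset.mem_insert, Finset.mem_singleton, not_or] at hc
      obtain ⟨σ, hσ, hU, _, hσb⟩ := swapO ho c hc.1 a hao b hb.1 hc.2.1 hc.2.2 hab
      exact ⟨σ, hσ, hU, move3 h3 ha (by rw [hσb]; exact hb.2)⟩
    · obtain ⟨b, hb⟩ : ((o ∪ t)ᶜ).Nonempty := by
        rw [← Finset.card_pos, Finset.card_compl, h24]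
        have := Finset.card_union_le o t
        omega
      rw [Finset.mem_compl, Finset.mem_union, not_or] at hb
      obtain ⟨σ, hσ, hU, hσb⟩ := outO ho hao hb.1
      exact ⟨σ, hσ, hU, move3 h3 ha (by rw [hσb]; exact hb.2)⟩

theorem dod_case' {d t : Finset GolayPt} (hd : d ∈ dodecads) (ht : t.card ≤ 4) {a : GolayPt} (ha : a ∈ t) (had : a ∈ d) :
    ∃ σ ∈ M24, σ • d = d ∧ symmDiff t (σ • t) ∉ supports (golayCode : Set (GolayPt → ZMod 2)) := by
  have h12 : d.card = 12 := (mem_dodecads.1 hd).2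
  have h2 : ∀ a ∈ d, ∀ b ∈ d, ∀ c ∈ d, a ≠ b → a ≠ c → b ≠ c → ∃ σ ∈ M24, σ • d = d ∧ σ a = a ∧ σ b = c := by
    intro a ha b hb c hc hab hac _
    obtain ⟨g, hg, hgd, hx⟩ := dodecad_five_trans hd 2 (by norm_num) ![a, b] ![a, c]
      (by intro i; fin_cases i <;> simp [ha, hb]) (by intro i; fin_cases i <;> simp [ha, hc])
      (by intro i j hij; fin_cases i <;> fin_cases j <;> simp_all)
      (by intro i j hij; fin_cases i <;> fin_cases j <;> simp_all)
    exact ⟨g, hg, hgd, hx 0, hx 1⟩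
  by_cases h4 : t.card = 4
  · exact move4 (D := d) h4 (by omega) h2
  · have h3 : t.card ≤ 3 := by omega
    obtain ⟨b, hb⟩ : (d \ t).Nonempty := by
      rw [← Finset.card_pos]
      have := Finset.le_card_sdiff t d
      omega
    rw [Finset.mem_sdiff] at hb
    obtain ⟨g, hg, hgd, hx⟩ := dodecad_five_trans hd 1 (by norm_num) ![a] ![b]
      (by intro i; fin_cases i; exact had) (by intro i; fin_cases i; exact hb.1)
      (by intro i j _; exact Subsingleton.elim _ _) (by intro i j _; exact Subsingleton.elim _ _)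
    have hga : g a = b := hx 0
    exact ⟨g, hg, hgd, move3 h3 ha (by rw [hga]; exact hb.2)⟩

theorem main {U t : Finset GolayPt} (hU : U ∈ supports (golayCode : Set (GolayPt → ZMod 2))) (ht : t.card ≤ 4)
    (ht0 : t ≠ ∅) : ∃ σ ∈ M24, σ • U = U ∧ symmDiff t (σ • t) ∉ supports (golayCode : Set (GolayPt → ZMod 2)) := by
  have h24 : Fintype.card GolayPt = 24 := by decide
  have hall : ∃ σ ∈ M24, symmDiff t (σ • t) ∉ supports (golayCode : Set (GolayPt → ZMod 2)) := by
    obtain ⟨σ, hσ, _, h⟩ := octad_case ((ofMask_mem_octads (by norm_num)).2 octad0_mem) ht ht0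
    exact ⟨σ, hσ, h⟩
  rcases supports_weight hU with h | h | h | h | h
  · obtain ⟨σ, hσ, h1⟩ := hall
    refine ⟨σ, hσ, ?_, h1⟩
    rw [Finset.card_eq_zero.1 h, Finset.smul_finset_empty]
  · exact octad_case (mem_octads.2 ⟨hU, h⟩) ht ht0
  · obtain ⟨a, ha⟩ := Finset.nonempty_iff_ne_empty.2 ht0
    by_cases haU : a ∈ U
    · exact dod_case' (mem_dodecads.2 ⟨hU, h⟩) ht ha haU
    · have hc : Uᶜ ∈ dodecads := mem_dodecads.2 ⟨compl_mem_supports hU, by rw [Finset.card_compl, h24, h]⟩
      obtain ⟨σ, hσ, h1, h2⟩ := dod_case' hc ht ha (Finset.mem_compl.2 haU)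
      refine ⟨σ, hσ, ?_, h2⟩
      rw [smul_compl'] at h1
      exact compl_injective h1
  · have hc : Uᶜ ∈ octads := mem_octads.2 ⟨compl_mem_supports hU, by rw [Finset.card_compl, h24, h]⟩
    obtain ⟨σ, hσ, h1, h2⟩ := octad_case hc ht ht0
    refine ⟨σ, hσ, ?_, h2⟩
    rw [smul_compl'] at h1
    exact compl_injective h1
  · obtain ⟨σ, hσ, h1⟩ := hall
    refine ⟨σ, hσ, ?_, h1⟩
    have hUu : U = Finset.univ := Finset.eq_univ_of_card _ (by rw [h, h24])
    rw [hUu, Finset.smul_finset_univ]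

/-- Let u be a word of the length-24 binary Golay code of the definitions (possibly zero or all-ones) and w any binary word of length 24 outside the code. Then some automorphism of the code (a coordinate permutation preserving it) fixes u but moves w to a word not congruent to w modulo the code: the stabilizer of a codeword fixes no non-zero element of the quotient of the space of all words by the code. -/
theorem result (u : (Cfsg.GolayPt → ZMod 2)) (hu : u ∈ Cfsg.golayCode) (w : (Cfsg.GolayPt → ZMod 2)) (hw : w ∉ Cfsg.golayCode) : ∃ σ ∈ Cfsg.M24, (fun p => u (σ.symm p)) = u ∧ (fun p => w (σ.symm p)) - w ∉ Cfsg.golayCode := by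
  have hwc : support₂ w ∉ supports (golayCode : Set (GolayPt → ZMod 2)) := by
    intro hc
    rw [← ind_mem_code, ind_support] at hc
    exact hw hc
  obtain ⟨t, ht, hc⟩ := coset_leader (support₂ w)
  have ht0 : t ≠ ∅ := by
    rintro rfl
    have : symmDiff (support₂ w) ∅ = support₂ w := symmDiff_bot _
    rw [this] at hc
    exact hwc hc
  obtain ⟨σ, hσ, hσU, hσt⟩ := main (U := support₂ u) ⟨u, hu, rfl⟩ ht ht0
  refine ⟨σ, hσ, ?_, ?_⟩
  · have h1 := ind_smul σ (support₂ u)
    rw [hσU, ind_support] at h1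
    exact h1
  · intro h
    apply hσt
    have h1 := ind_smul σ (support₂ w)
    rw [ind_support] at h1
    have h2 : ind (σ • support₂ w) - ind (support₂ w) ∈ golayCode := by
      rw [← h1, ind_support]; exact h
    have h3 : ind (σ • support₂ w) - ind (support₂ w) = ind (symmDiff (σ • support₂ w) (support₂ w)) := by
      rw [ind_symmDiff, CharTwo.sub_eq_add]
    rw [h3, ind_mem_code] at h2
    have h4 := symmDiff_mem_supports (symmDiff_mem_supports hc ((smul_mem_supports_iff hσ).2 hc)) h2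
    rw [Finset.smul_finset_symmDiff] at h4
    have e : symmDiff (symmDiff (symmDiff (support₂ w) t) (symmDiff (σ • support₂ w) (σ • t)))
        (symmDiff (σ • support₂ w) (support₂ w)) = symmDiff t (σ • t) := by
      ext p
      simp only [Finset.mem_symmDiff]
      tauto
    rw [e] at h4
    exact h4

end Cfsg.Agent.S5550
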