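import Cfsg.Statements.S5553
import Cfsg.Agent.H28_M2S
import Cfsg.Agent.H28_Mod

set_option autoImplicit false
open Cfsg

namespace Cfsg.Agent.S5553

open Cfsg Cfsg.Agent.H7.Golay Cfsg.Agent.H7.L1 Cfsg.Agent.H7.L2 Cfsg.Agent.H7.LV Cfsg.Agent.H7.Co3 Cfsg.Agent.H28.Mod

theorem same_parity {x : GolayPt → ℤ} (hx : x ∈ leechLattice) (i j : GolayPt) : x i % 2 = x j % 2 := by
  rcases mem_leech_iff.1 hx with h | h
  · rw [h.1 i, h.1 j]
  · rw [h.1 i, h.1 j]

/-- the homomorphism with kernel the sublattice -/
def chi : leechLattice →+ (GolayPt → ZMod 2) where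
  toFun x := fun i => (((x : GolayPt → ℤ) i - (x : GolayPt → ℤ) none) / 2 + (x : GolayPt → ℤ) none : ℤ)
  map_zero' := by
    funext i
    simp
  map_add' := by
    intro x y
    funext i
    have h1 := same_parity x.2 i none
    have h2 := same_parity y.2 i none
    show (((((x : GolayPt → ℤ) i + (y : GolayPt → ℤ) i) - ((x : GolayPt → ℤ) none + (y : GolayPt → ℤ) none)) / 2 + ((x : GolayPt → ℤ) none + (y : GolayPt → ℤ) none) : ℤ) : ZMod 2) =
      (((((x : GolayPt → ℤ) i - (x : GolayPt → ℤ) none) / 2 + (x : GolayPt → ℤ) none : ℤ) : ZMod 2)) + (((y : GolayPt → ℤ) i - (y : GolayPt → ℤ) none) / 2 + (y : GolayPt → ℤ) none : ℤ)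
    rw [← Int.cast_add]
    congr 1
    omega

theorem chi_apply (x : leechLattice) (i : GolayPt) :
    chi x i = ((((x : GolayPt → ℤ) i - (x : GolayPt → ℤ) none) / 2 + (x : GolayPt → ℤ) none : ℤ) : ZMod 2) := rfl

theorem cast_eq_iff (a b : ℤ) : ((a : ℤ) : ZMod 2) = b ↔ a % 2 = b % 2 := by
  rw [ZMod.intCast_eq_intCast_iff]; rfl

theorem chi_zero_iff (x : leechLattice) : chi x = 0 ↔ ∀ i, (x : GolayPt → ℤ) i % 2 = 0 ∧ ((x : GolayPt → ℤ) i - (x : GolayPt → ℤ) none) % 4 = 0 := by
  constructor
  · intro h i
    have h1 := congrFun h i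
    have h2 := congrFun h none
    rw [chi_apply, Pi.zero_apply, ← Int.cast_zero, cast_eq_iff] at h1 h2
    have h3 := same_parity x.2 i none
    omega
  · intro h
    funext i
    rw [chi_apply, Pi.zero_apply, ← Int.cast_zero, cast_eq_iff]
    have h1 := h i
    have h2 := h none
    omega

theorem ind_apply (s : Finset GolayPt) (i : GolayPt) : ind s i = if i ∈ s then 1 else 0 := rfl

theorem univ_mem : (Finset.univ : Finset GolayPt) ∈ Cw := by
  have h : (Finset.univ : Finset GolayPt) = ofMask 16777215 := by
    have := ofMask_compl 0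
    rw [ofMask_zero] at this
    rw [← Finset.compl_empty, ← this]
    rfl
  rw [h]
  exact (ofMask_mem_supports (by norm_num)).2 (mem_codeL_iff.2 (by decide +kernel))

theorem one_mem' : (fun _ => 1 : GolayPt → ZMod 2) ∈ golayCode := by
  rw [← ind_univ, ind_mem_code]
  exact univ_mem

theorem chi_mem (x : leechLattice) : chi x ∈ golayCode := by
  rcases mem_leech_iff.1 x.2 with h | h
  · have h1 : ind (cls (x : GolayPt → ℤ) 2) ∈ golayCode := ind_mem_code.2 h.2.2
    by_cases h0 : (x : GolayPt → ℤ) none % 4 = 2
    · have : chi x = ind (cls (x : GolayPt → ℤ) 2) + (fun _ => 1 : GolayPt → ZMod 2) := by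
        funext i
        rw [chi_apply, Pi.add_apply, ind_apply]
        have h2 := h.1 i
        have h3 := h.1 none
        by_cases hi : i ∈ cls (x : GolayPt → ℤ) 2
        · rw [if_pos hi]
          rw [mem_cls] at hi
          rw [show (1 : ZMod 2) + 1 = ((0 : ℤ) : ZMod 2) by rfl, cast_eq_iff]
          omega
        · rw [if_neg hi]
          rw [mem_cls] at hi
          rw [show (0 : ZMod 2) + 1 = ((1 : ℤ) : ZMod 2) by rfl, cast_eq_iff]
          omega
      rw [this]
      exact golayCode.add_mem h1 one_mem'
    · have : chi x = ind (cls (x : GolayPt → ℤ) 2) := by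
        funext i
        rw [chi_apply, ind_apply]
        have h2 := h.1 i
        have h3 := h.1 none
        by_cases hi : i ∈ cls (x : GolayPt → ℤ) 2
        · rw [if_pos hi]
          rw [mem_cls] at hi
          rw [show (1 : ZMod 2) = ((1 : ℤ) : ZMod 2) by rfl, cast_eq_iff]
          omega
        · rw [if_neg hi]
          rw [mem_cls] at hi
          rw [show (0 : ZMod 2) = ((0 : ℤ) : ZMod 2) by rfl, cast_eq_iff]
          omega
      rw [this]
      exact h1
  · have h1 : ind (cls (x : GolayPt → ℤ) 1) ∈ golayCode := ind_mem_code.2 h.2.2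
    by_cases h0 : (x : GolayPt → ℤ) none % 4 = 1
    · have : chi x = ind (cls (x : GolayPt → ℤ) 1) := by
        funext i
        rw [chi_apply, ind_apply]
        have h2 := h.1 i
        have h3 := h.1 none
        by_cases hi : i ∈ cls (x : GolayPt → ℤ) 1
        · rw [if_pos hi]
          rw [mem_cls] at hi
          rw [show (1 : ZMod 2) = ((1 : ℤ) : ZMod 2) by rfl, cast_eq_iff]
          omega
        · rw [if_neg hi]
          rw [mem_cls] at hi
          rw [show (0 : ZMod 2) = ((0 : ℤ) : ZMod 2) by rfl, cast_eq_iff]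
          omega
      rw [this]
      exact h1
    · have : chi x = ind (cls (x : GolayPt → ℤ) 1) + (fun _ => 1 : GolayPt → ZMod 2) := by
        funext i
        rw [chi_apply, Pi.add_apply, ind_apply]
        have h2 := h.1 i
        have h3 := h.1 none
        by_cases hi : i ∈ cls (x : GolayPt → ℤ) 1
        · rw [if_pos hi]
          rw [mem_cls] at hi
          rw [show (1 : ZMod 2) + 1 = ((0 : ℤ) : ZMod 2) by rfl, cast_eq_iff]
          omega
        · rw [if_neg hi]
          rw [mem_cls] at hi
          rw [show (0 : ZMod 2) + 1 = ((1 : ℤ) : ZMod 2) by rfl, cast_eq_iff]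
          omega
      rw [this]
      exact golayCode.add_mem h1 one_mem'

/-- twice a code word -/
theorem two_ind_mem {s : Finset GolayPt} (hs : s ∈ Cw) : (fun i => if i ∈ s then (2 : ℤ) else 0) ∈ leechLattice := by
  rw [mem_leech_iff]
  left
  refine ⟨fun i => ?_, ?_, ?_⟩
  · show (if i ∈ s then (2 : ℤ) else 0) % 2 = 0
    split_ifs <;> norm_num
  · rw [Finset.sum_ite_mem, Finset.univ_inter, Finset.sum_const]
    have := weight4 hs
    simp only [smul_eq_mul, nsmul_eq_mul]
    omega
  · have : cls (fun i => if i ∈ s then (2 : ℤ) else 0) 2 = s := by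
      ext i
      rw [mem_cls]
      by_cases h : i ∈ s
      · simp [h]
      · simp [h]
    rw [this]
    exact hs

def yv : leechLattice := mkv 3006217073160557815924628966641476788075299138647399335611338541041938778355501188923742093571357659375677800457 (by decide +kernel) (by decide +kernel)

theorem chi_y : chi yv = fun _ => 1 := by
  funext i
  rw [chi_apply, show (yv : GolayPt → ℤ) = dec _ from rfl]
  revert i
  decide +kernel

theorem mem_range (c : GolayPt → ZMod 2) (hc : c ∈ golayCode) : ∃ x, chi x = c := by
  have key : ∀ c : GolayPt → ZMod 2, c ∈ golayCode → c none = 0 → ∃ x, chi x = c := by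
    intro c hc h0
    have hs : support₂ c ∈ Cw := by
      rw [← ind_mem_code, ind_support]; exact hc
    refine ⟨⟨_, two_ind_mem hs⟩, ?_⟩
    conv_rhs => rw [← ind_support c]
    have hn : none ∉ support₂ c := by
      intro h
      have h1 : ind (support₂ c) none = 1 := by rw [ind_apply, if_pos h]
      rw [ind_support, h0] at h1
      exact absurd h1 (by decide)
    funext i
    rw [chi_apply, ind_apply]
    show ((((if i ∈ support₂ c then (2 : ℤ) else 0) - (if none ∈ support₂ c then (2 : ℤ) else 0)) / 2 + (if none ∈ support₂ c then (2 : ℤ) else 0) : ℤ) : ZMod 2) = _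
    rw [if_neg hn]
    by_cases h : i ∈ support₂ c
    · rw [if_pos h, if_pos h]; rfl
    · rw [if_neg h, if_neg h]; rfl
  by_cases h0 : c none = 0
  · exact key c hc h0
  · have h1 : c none = 1 := by
      generalize c none = a at h0
      revert a; decide
    obtain ⟨x, hx⟩ := key (c + fun _ => 1) (golayCode.add_mem hc one_mem') (by
      show c none + 1 = 0
      rw [h1]; rfl)
    refine ⟨x + yv, ?_⟩
    rw [map_add, hx, chi_y]
    funext i
    show c i + 1 + 1 = c i
    generalize c i = a
    revert a; decide

theorem card_code : Nat.card golayCode = 4096 := by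
  rw [← ncard_Cw]
  have hinj : Function.Injective (support₂ : (GolayPt → ZMod 2) → Finset GolayPt) := by
    intro a b h
    rw [← ind_support a, h, ind_support]
  have : Cw = support₂ '' (golayCode : Set (GolayPt → ZMod 2)) := by
    ext s
    constructor
    · intro h
      exact ⟨ind s, ind_mem_code.2 h, support_ind s⟩
    · rintro ⟨c, hc, rfl⟩
      show support₂ c ∈ Cw
      rw [← ind_mem_code, ind_support]; exact hc
  rw [this, Set.ncard_image_of_injective _ hinj]
  rfl

/-- the sublattice -/
def AA : AddSubgroup (GolayPt → ℤ) where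
  carrier := {x | x ∈ leechLattice ∧ ∀ i, x i % 2 = 0 ∧ (x i - x none) % 4 = 0}
  zero_mem' := ⟨leechLattice.zero_mem, fun i => by simp⟩
  add_mem' := by
    rintro x y ⟨hx, hx'⟩ ⟨hy, hy'⟩
    refine ⟨leechLattice.add_mem hx hy, fun i => ?_⟩
    have h1 := hx' i
    have h2 := hy' i
    have h3 := hx' none
    have h4 := hy' none
    show (x i + y i) % 2 = 0 ∧ ((x i + y i) - (x none + y none)) % 4 = 0
    omega
  neg_mem' := by
    rintro x ⟨hx, hx'⟩
    refine ⟨leechLattice.neg_mem hx, fun i => ?_⟩
    have h1 := hx' i
    show (-x i) % 2 = 0 ∧ (-x i - -x none) % 4 = 0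
    omega

/-- The Leech lattice of the definitions has an additive subgroup A containing twice the lattice, of index 2^12 in the lattice, all of whose vectors have squared length divisible by 32: the invariant quadratic form 'squared length over 16 modulo 2' on the lattice modulo twice the lattice (a 24-dimensional space over the field with two elements) vanishes on a 12-dimensional subspace, so it is of plus type. -/
theorem result : ∃ A : AddSubgroup (Cfsg.GolayPt → ℤ), A ≤ Cfsg.leechLattice ∧ (∀ v ∈ Cfsg.leechLattice, (2 : ℤ) • v ∈ A) ∧ (A.addSubgroupOf Cfsg.leechLattice).index = 2 ^ 12 ∧ ∀ v ∈ A, (32 : ℤ) ∣ Cfsg.sqNorm v := by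
  refine ⟨AA, fun x hx => hx.1, ?_, ?_, ?_⟩
  · intro v hv
    refine ⟨by rw [two_smul]; exact leechLattice.add_mem hv hv, fun i => ?_⟩
    have h := same_parity hv i none
    show (2 * v i) % 2 = 0 ∧ (2 * v i - 2 * v none) % 4 = 0
    omega
  · have h1 : AA.addSubgroupOf leechLattice = chi.ker := by
      ext x
      rw [AddMonoidHom.mem_ker, chi_zero_iff]
      constructor
      · intro h; exact h.2
      · intro h; exact ⟨x.2, h⟩
    rw [h1, AddSubgroup.index_ker]
    have h2 : Nat.card chi.range = Nat.card golayCode := by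
      apply Nat.card_congr
      apply Equiv.setCongr
      ext c
      constructor
      · rintro ⟨x, rfl⟩; exact chi_mem x
      · intro hc; exact mem_range c hc
    rw [h2, card_code]
    norm_num
  · rintro v ⟨hv, hv'⟩
    rw [show Cfsg.sqNorm v = ∑ i, v i ^ 2 from rfl]
    rcases mem_leech_iff.1 hv with h | h
    · by_cases h0 : v none % 4 = 0
      · have h1 : ∀ i, v i ^ 2 % 32 = (4 * v i) % 32 := by
          intro i
          have h2 := hv' i
          obtain ⟨y, hy⟩ : ∃ y, v i = 4 * y := ⟨v i / 4, by omega⟩
          rw [hy]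
          have h3 : (y * y - y) % 2 = 0 := by
            rcases Int.even_or_odd' y with ⟨k, rfl | rfl⟩
            · ring_nf; omega
            · ring_nf; omega
          have h4 : (4 * y) ^ 2 = 16 * (y * y) := by ring
          rw [h4]
          omega
        have h2 := sum_emod Finset.univ (fun i => v i ^ 2) (fun i => 4 * v i) 32 (fun i _ => h1 i)
        rw [← Finset.mul_sum] at h2
        have h3 := h.2.1
        omega
      · have h1 : ∀ i, v i ^ 2 % 32 = (4 : ℤ) % 32 := by
          intro i
          have h2 := hv' i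
          have h2' := hv' none
          obtain ⟨y, hy⟩ : ∃ y, v i = 4 * y + 2 := ⟨v i / 4, by omega⟩
          rw [hy]
          have h3 : (y * y - y) % 2 = 0 := by
            rcases Int.even_or_odd' y with ⟨k, rfl | rfl⟩
            · ring_nf; omega
            · ring_nf; omega
          have h4 : (4 * y + 2) ^ 2 = 16 * (y * y) + 16 * y + 4 := by ring
          rw [h4]
          omega
        have h2 := sum_emod Finset.univ (fun i => v i ^ 2) (fun _ => (4 : ℤ)) 32 (fun i _ => h1 i)
        have h3 : ∑ _i : Cfsg.GolayPt, (4 : ℤ) = 96 := by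
          rw [Finset.sum_const, Finset.card_univ, show Fintype.card Cfsg.GolayPt = 24 from by decide]
          norm_num
        rw [h3] at h2
        omega
    · exfalso
      have h1 := h.1 none
      have h2 := hv' none
      omega

end Cfsg.Agent.S5553
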