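import Cfsg.Statements.S5588
import Cfsg.Agent.H28_SpD

set_option autoImplicit false
open Cfsg

namespace Cfsg.Agent.S5588

open Cfsg.Agent.H8 Cfsg.Agent.H8.CE Cfsg.Agent.H8.Act Cfsg.Agent.H8.Cox Cfsg.Agent.H28 Cfsg.Agent.H28.Sp Cfsg.Agent.H28.SpN

/-- letters -/
def idx : List ℕ := [1, 2, 3, 4, 5, 6, 7, 8, 9, 10, 11]

def spi : List ℕ := powW [4, 3, 2, 4, 5, 6, 4, 9, 10] 10

/-- shape of the relators -/
def isC (w : List ℕ) : Bool := (idx.any fun i => w == [i, i]) ||
  ((idx.any fun i => idx.any fun j => (!(i == j)) && w == coxW i j (lb i j)) || w == spi)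

theorem allC : (allrels.all isC) = true := by decide +kernel

theorem allrels_of {K : Type*} [Group K] (u : ℕ → K) (hsq : ∀ i ∈ idx, u i * u i = 1)
    (hcox : ∀ i ∈ idx, ∀ j ∈ idx, i ≠ j → (u i * u j) ^ (lb i j) = 1) (hs : ev u spi = 1) :
    ∀ w ∈ allrels, ev u w = 1 := by
  intro w hw
  have h := allC
  rw [List.all_eq_true] at h
  have h1 := h w hw
  simp only [isC, Bool.or_eq_true, List.any_eq_true, Bool.and_eq_true, Bool.not_eq_true', beq_eq_false_iff_ne, beq_iff_eq] at h1
  rcases h1 with ⟨i, hi, rfl⟩ | ⟨i, hi, j, hj, hij, rfl⟩ | rfl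
  · simpa using hsq i hi
  · rw [ev_coxW]; exact hcox i hi j hj hij
  · exact hs

theorem comm_pw {K : Type*} [Group K] {a b : K} (ha : a * a = 1) (hb : b * b = 1) (h : (a * b) ^ 2 = 1) : a * b = b * a := by
  rw [pow_two] at h
  have h4 : a * b = (a * b)⁻¹ := mul_eq_one_iff_eq_inv.1 h
  rw [h4, mul_inv_rev, ← mul_eq_one_iff_eq_inv.1 ha, ← mul_eq_one_iff_eq_inv.1 hb]

/-- the two E7 relations with the Coxeter elements of the definitions -/
theorem e7 {K : Type*} [Group K] (u : ℕ → K) (hsq : ∀ i ∈ idx, u i * u i = 1)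
    (hcox : ∀ i ∈ idx, ∀ j ∈ idx, i ≠ j → (u i * u j) ^ (lb i j) = 1) (hs : ev u spi = 1) :
    u 11 = (u 4 * u 5 * u 9 * u 3 * u 6 * u 10 * u 7) ^ 9 ∧ u 11 = (u 4 * u 5 * u 3 * u 9 * u 6 * u 2 * u 7) ^ 9 := by
  have hf := final u (allrels_of u hsq hcox hs)
  have cm : ∀ i ∈ idx, ∀ j ∈ idx, i ≠ j → lb i j = 2 → u i * u j = u j * u i := by
    intro i hi j hj hij hl
    refine comm_pw (hsq i hi) (hsq j hj) ?_
    rw [← hl]; exact hcox i hi j hj hij
  have c2 := cm 2 (by decide) 11 (by decide) (by decide) (by decide)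
  have c3 := cm 3 (by decide) 11 (by decide) (by decide) (by decide)
  have s2 := hsq 2 (by decide)
  have s3 := hsq 3 (by decide)
  -- conjugation
  have cj : ∀ (g C : K), g * u 11 = u 11 * g → C ^ 9 = u 11 → (g⁻¹ * C * g) ^ 9 = u 11 := by
    intro g C hg hC
    have : g⁻¹ * C * g = g⁻¹ * C * (g⁻¹)⁻¹ := by rw [inv_inv]
    rw [this, conj_pow, hC, inv_inv, mul_assoc, ← hg, ← mul_assoc, inv_mul_cancel, one_mul]
  have m : ∀ i ∈ idx, ∀ j ∈ idx, (i == j) = false → (lb i j == 2) = true → ∀ t : K, u i * (u j * t) = u j * (u i * t) := by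
    intro i hi j hj hij hl t
    rw [← mul_assoc, cm i hi j hj (by simpa using hij) (by simpa using hl), mul_assoc]
  constructor
  · have h1 : (u 3 * u 4 * u 5 * u 6 * u 7 * u 9 * u 10) ^ 9 = u 11 := by
      rw [hf.2, w1, ev_powW]
      simp only [ev_cons, ev_nil, mul_one, mul_assoc]
    have h2 := cj (u 3) _ c3 h1
    rw [← h2]
    congr 1
    have e1 : (u 3)⁻¹ * (u 3 * u 4 * u 5 * u 6 * u 7 * u 9 * u 10) * u 3 =
        u 4 * (u 5 * (u 6 * (u 7 * (u 9 * (u 10 * u 3))))) := by group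
    rw [e1, cm 10 (by decide) 3 (by decide) (by decide) (by decide)]
    simp only [mul_assoc]
    rw [m 9 (by decide) 3 (by decide) (by decide) (by decide), m 7 (by decide) 3 (by decide) (by decide) (by decide),
      m 7 (by decide) 9 (by decide) (by decide) (by decide), m 6 (by decide) 3 (by decide) (by decide) (by decide),
      m 6 (by decide) 9 (by decide) (by decide) (by decide), cm 7 (by decide) 10 (by decide) (by decide) (by decide),
      m 3 (by decide) 9 (by decide) (by decide) (by decide)]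
  · have h1 : (u 2 * u 3 * u 4 * u 5 * u 6 * u 7 * u 9) ^ 9 = u 11 := by
      rw [hf.1, w0, ev_powW]
      simp only [ev_cons, ev_nil, mul_one, mul_assoc]
    have h2 := cj (u 2 * u 3 * u 2) _ (by
      calc u 2 * u 3 * u 2 * u 11 = u 2 * u 3 * (u 2 * u 11) := by group
        _ = u 2 * (u 3 * u 11) * u 2 := by rw [c2]; group
        _ = (u 2 * u 11) * u 3 * u 2 := by rw [c3]; group
        _ = u 11 * (u 2 * u 3 * u 2) := by rw [c2]; group) h1
    rw [← h2]
    congr 1
    have i2 : (u 2)⁻¹ = u 2 := (mul_eq_one_iff_eq_inv.1 s2).symm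
    have e1 : (u 2 * u 3 * u 2)⁻¹ * (u 2 * u 3 * u 4 * u 5 * u 6 * u 7 * u 9) * (u 2 * u 3 * u 2) =
        (u 2)⁻¹ * (u 4 * (u 5 * (u 6 * (u 7 * (u 9 * (u 2 * (u 3 * u 2))))))) := by group
    rw [e1, i2, m 9 (by decide) 2 (by decide) (by decide) (by decide), m 7 (by decide) 2 (by decide) (by decide) (by decide),
      m 6 (by decide) 2 (by decide) (by decide) (by decide), m 5 (by decide) 2 (by decide) (by decide) (by decide),
      m 4 (by decide) 2 (by decide) (by decide) (by decide), ← mul_assoc (u 2) (u 2), s2, one_mul]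
    simp only [mul_assoc]
    rw [m 9 (by decide) 3 (by decide) (by decide) (by decide), m 7 (by decide) 3 (by decide) (by decide) (by decide),
      m 6 (by decide) 3 (by decide) (by decide) (by decide), m 7 (by decide) 9 (by decide) (by decide) (by decide),
      m 6 (by decide) 9 (by decide) (by decide) (by decide), cm 7 (by decide) 2 (by decide) (by decide) (by decide)]

open Cfsg.Spor

abbrev RB : Set (FreeGroup Bimonster.Gen) := coxRelators Bimonster.edges ∪ {r' | r' ∈ [(Bimonster.a * Bimonster.b1 * Bimonster.c1 * Bimonster.a * Bimonster.b2 * Bimonster.c2 * Bimonster.a * Bimonster.b3 * Bimonster.c3) ^ 10]}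

/-- generators -/
noncomputable def kk (g : Bimonster.Gen) : PresentedGroup RB := PresentedGroup.of g

theorem kcox (p q : Bimonster.Gen) : (kk p * kk q) ^ (coxLabel Bimonster.edges p q) = 1 := by
  have h := (cox_iff Bimonster.edges (PresentedGroup.of (rels := RB))).1 (fun r hr => lift_of_rel RB r (Or.inl hr))
  have hn : ∀ g : Bimonster.Gen, g ∈ coxNodes Bimonster.edges := by
    intro g; cases g <;> decide
  exact h p (hn p) q (hn q)

theorem ksq (p : Bimonster.Gen) : kk p * kk p = 1 := by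
  have h := kcox p p
  have : coxLabel Bimonster.edges p p = 1 := by cases p <;> decide
  rw [this, pow_one] at h
  exact h

theorem kspi : (kk .a * kk .b1 * kk .c1 * kk .a * kk .b2 * kk .c2 * kk .a * kk .b3 * kk .c3) ^ 10 = 1 := by
  have h := lift_of_rel RB ((Bimonster.a * Bimonster.b1 * Bimonster.c1 * Bimonster.a * Bimonster.b2 * Bimonster.c2 * Bimonster.a * Bimonster.b3 * Bimonster.c3) ^ 10) (Or.inr (by simp))
  simp only [map_mul, map_pow, FreeGroup.lift_apply_of] at h
  exact h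

theorem rot10 {K : Type*} [Group K] (a b : K) (h : (a * b) ^ 10 = 1) : (b * a) ^ 10 = 1 := pow_swap _ _ _ h

/-- the relations from a choice of letters -/
theorem e7k (s : List Bimonster.Gen)
    (hl : (idx.all fun i => idx.all fun j => (i == j) || (coxLabel Bimonster.edges (s.getD i .a) (s.getD j .a) == lb i j)) = true)
    (hs : ev (fun y => kk (s.getD y .a)) spi = 1) :
    kk (s.getD 11 .a) = (kk (s.getD 4 .a) * kk (s.getD 5 .a) * kk (s.getD 9 .a) * kk (s.getD 3 .a) * kk (s.getD 6 .a) * kk (s.getD 10 .a) * kk (s.getD 7 .a)) ^ 9 ∧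
    kk (s.getD 11 .a) = (kk (s.getD 4 .a) * kk (s.getD 5 .a) * kk (s.getD 3 .a) * kk (s.getD 9 .a) * kk (s.getD 6 .a) * kk (s.getD 2 .a) * kk (s.getD 7 .a)) ^ 9 := by
  refine e7 (fun y => kk (s.getD y .a)) (fun i _ => ksq _) ?_ hs
  intro i hi j hj hij
  rw [List.all_eq_true] at hl
  have h1 := hl i hi
  rw [List.all_eq_true] at h1
  have h2 := h1 j hj
  rw [Bool.or_eq_true, beq_iff_eq, beq_iff_eq] at h2
  rcases h2 with h2 | h2
  · exact absurd h2 hij
  · rw [← h2]; exact kcox _ _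

theorem r1 : kk .f1 = (kk .a * kk .b1 * kk .b2 * kk .b3 * kk .c1 * kk .c2 * kk .d1) ^ 9 ∧
    kk .f1 = (kk .a * kk .b1 * kk .b3 * kk .b2 * kk .c1 * kk .c3 * kk .d1) ^ 9 := by
  refine e7k [.a, .d3, .c3, .b3, .a, .b1, .c1, .d1, .e1, .b2, .c2, .f1] (by decide +kernel) ?_
  rw [spi, ev_powW]
  have h := rot10 (kk .a * kk .b1 * kk .c1 * kk .a * kk .b2 * kk .c2) (kk .a * kk .b3 * kk .c3)
    (by simpa only [mul_assoc] using kspi)
  simpa [mul_assoc] using h

theorem r2 : kk .f2 = (kk .a * kk .b2 * kk .b3 * kk .b1 * kk .c2 * kk .c3 * kk .d2) ^ 9 ∧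
    kk .f2 = (kk .a * kk .b2 * kk .b1 * kk .b3 * kk .c2 * kk .c1 * kk .d2) ^ 9 := by
  refine e7k [.a, .d1, .c1, .b1, .a, .b2, .c2, .d2, .e2, .b3, .c3, .f2] (by decide +kernel) ?_
  rw [spi, ev_powW]
  simpa [mul_assoc] using kspi

theorem r3 : kk .f3 = (kk .a * kk .b3 * kk .b1 * kk .b2 * kk .c3 * kk .c1 * kk .d3) ^ 9 ∧
    kk .f3 = (kk .a * kk .b3 * kk .b2 * kk .b1 * kk .c3 * kk .c2 * kk .d3) ^ 9 := by
  refine e7k [.a, .d2, .c2, .b2, .a, .b3, .c3, .d3, .e3, .b1, .c1, .f3] (by decide +kernel) ?_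
  rw [spi, ev_powW]
  have h := rot10 (kk .a * kk .b1 * kk .c1) (kk .a * kk .b2 * kk .c2 * kk .a * kk .b3 * kk .c3)
    (by simpa only [mul_assoc] using kspi)
  simpa [mul_assoc] using h

/-- In the group presented by the sixteen involutions of the Y₅₅₅ Coxeter diagram subject only to the Coxeter relations and the single spider relation (a b₁ c₁ a b₂ c₂ a b₃ c₃)^10 = 1, each of the further relators used in the definitions' presentation of the Bimonster (each end node equals the ninth power of the Coxeter element of a sub-diagram of type E₇) already holds. Equivalently, the Y₅₅₅ diagram with the spider relation alone presents the Bimonster. -/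
theorem result :
    ∀ r ∈ Cfsg.Spor.Bimonster.extra,
      (PresentedGroup.mk (Cfsg.Spor.coxRelators Cfsg.Spor.Bimonster.edges ∪ {r' | r' ∈ [(Cfsg.Spor.Bimonster.a * Cfsg.Spor.Bimonster.b1 * Cfsg.Spor.Bimonster.c1 * Cfsg.Spor.Bimonster.a * Cfsg.Spor.Bimonster.b2 * Cfsg.Spor.Bimonster.c2 * Cfsg.Spor.Bimonster.a * Cfsg.Spor.Bimonster.b3 * Cfsg.Spor.Bimonster.c3) ^ 10]}) r) = 1 := by
  intro r hr
  have key : ∀ r : FreeGroup Bimonster.Gen, FreeGroup.lift kk r = 1 → PresentedGroup.mk RB r = 1 := by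
    intro r h
    rw [← lift_of_eq_mk]
    exact h
  apply key
  simp only [Bimonster.extra, List.mem_cons, List.not_mem_nil, or_false] at hr
  rcases hr with rfl | rfl | rfl | rfl | rfl | rfl | rfl
  · simp only [map_mul, map_pow, map_inv, FreeGroup.lift_apply_of]
    exact kspi
  · simp only [map_mul, map_pow, map_inv, FreeGroup.lift_apply_of]
    rw [← r1.1, mul_inv_cancel]
  · simp only [map_mul, map_pow, map_inv, FreeGroup.lift_apply_of]
    rw [← r1.2, mul_inv_cancel]
  · simp only [map_mul, map_pow, map_inv, FreeGroup.lift_apply_of]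
    rw [← r2.2, mul_inv_cancel]
  · simp only [map_mul, map_pow, map_inv, FreeGroup.lift_apply_of]
    rw [← r2.1, mul_inv_cancel]
  · simp only [map_mul, map_pow, map_inv, FreeGroup.lift_apply_of]
    rw [← r3.1, mul_inv_cancel]
  · simp only [map_mul, map_pow, map_inv, FreeGroup.lift_apply_of]
    rw [← r3.2, mul_inv_cancel]

end Cfsg.Agent.S5588
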