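import Cfsg.Statements.S5592
import Cfsg.Agent.H28_L1

set_option autoImplicit false
open Cfsg

namespace Cfsg.Agent.S5592

open Cfsg.Agent.H7.L1 Cfsg.Agent.H28.L1



/-- In the Leech lattice (integer coordinates, sum of squares equal to 8 times the customary norm, so the shortest non-zero vectors have sum of squares 32): if two distinct vectors of sum of squares at most 64 are congruent modulo twice the lattice, then either they are negatives of each other, or both have sum of squares 64 and they are orthogonal. -/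
theorem result (x y : Cfsg.GolayPt → ℤ) (hx : x ∈ Cfsg.leechLattice) (hy : y ∈ Cfsg.leechLattice) (hxy : x ≠ y) (hxn : Cfsg.sqNorm x ≤ 64) (hyn : Cfsg.sqNorm y ≤ 64) (hc : (∃ z ∈ Cfsg.leechLattice, x - y = 2 • z)) :
    x = -y ∨ (Cfsg.sqNorm x = 64 ∧ Cfsg.sqNorm y = 64 ∧ Cfsg.dotInt x y = 0) := by
  refine short_cong hx hy hxy hxn hyn ?_
  obtain ⟨z, hz, h⟩ := hc
  refine ⟨z, hz, ?_⟩
  rw [h]
  first | rfl | (rw [two_smul, two_smul])

end Cfsg.Agent.S5592
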