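import Cfsg.Statements.S5594
import Cfsg.Agent.H28_M2S
import Cfsg.Agent.H28_Cls

set_option autoImplicit false
open Cfsg

namespace Cfsg.Agent.S5594

open Cfsg Cfsg.Agent.H7.Golay Cfsg.Agent.H7.M24 Cfsg.Agent.H7.L1 Cfsg.Agent.H7.Co Cfsg.Agent.H7.Co3 Cfsg.Agent.H7.Co4 Cfsg.Agent.H7.Co5 Cfsg.Agent.H7.Co6 Cfsg.Agent.H28.M2N Cfsg.Agent.H28.Cls

theorem cm : ofMask 13099110 ∈ Cw := (ofMask_mem_supports (by norm_num)).2 (mem_codeL_iff.2 (by decide +kernel))

theorem exists_sqrt : ∃ g : Co0, g * g = m1 := by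
  obtain ⟨g, hg⟩ := exists_mono zB_mem cm
  refine ⟨g, ?_⟩
  apply co_ext
  intro v
  have hz : ∀ i, ix (zB i) = lB.getD (ix i) 0 := rep_zB.2
  have hzz : zB * zB = 1 := by
    apply Equiv.ext
    intro i
    rw [← pt_ix (( zB * zB) i), ← pt_ix ((1 : Equiv.Perm GolayPt) i)]
    congr 1
    show ix (zB (zB i)) = ix i
    rw [hz, hz]
    revert i
    decide +kernel
  have hsym : ∀ i, zB.symm i = zB i := by
    intro i
    rw [Equiv.symm_apply_eq]
    have := congrArg (fun σ : Equiv.Perm GolayPt => σ i) hzz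
    exact this.symm
  have hc : ∀ i, (i ∈ ofMask 13099110) ≠ (zB.symm i ∈ ofMask 13099110) := by
    intro i
    rw [hsym, mem_ofMask, mem_ofMask, hz]
    revert i
    decide +kernel
  rw [mul_smul, hg, hg, signedPerm_mul, m1_smul]
  funext i
  rw [if_pos (hc i), hzz]
  rfl

/-- The automorphism group of the Leech lattice contains the negation map, and the subgroup of order 2 it generates has no complement: the automorphism group is a non-split extension of its quotient by that subgroup (it is not the direct product of a group of order 2 with the first Conway group). -/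
theorem result :
    ∃ n : ↥Cfsg.Co0, (∀ v : ↥Cfsg.leechLattice, ((n • v : ↥Cfsg.leechLattice) : Cfsg.GolayPt → ℤ) = -(v : Cfsg.GolayPt → ℤ)) ∧
    ∀ K : Subgroup ↥Cfsg.Co0, ¬ (Subgroup.zpowers n).IsComplement' K := by
  refine ⟨m1, fun v => by rw [m1_smul]; rfl, ?_⟩
  intro K hK
  obtain ⟨g, hg⟩ := exists_sqrt
  have hm : m1 ∉ K := by
    intro h
    have h1 : m1 ∈ (Subgroup.zpowers m1 ⊓ K : Subgroup Co0) := ⟨Subgroup.mem_zpowers _, h⟩
    rw [hK.disjoint.eq_bot] at h1
    exact m1_ne (Subgroup.mem_bot.1 h1)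
  obtain ⟨⟨⟨a, ha⟩, ⟨k, hk⟩⟩, hak, -⟩ := Function.Bijective.existsUnique hK g
  have hak' : a * k = g := hak
  obtain ⟨n, rfl⟩ := Subgroup.mem_zpowers_iff.1 ha
  have hcm : Commute m1 k := (Subgroup.mem_center_iff.1 ((center_eq m1).2 (Or.inr rfl)) k).symm
  have h2 : m1 * m1 = (1 : Co0) := by
    apply ext32
    intro x _
    rw [mul_smul, m1_smul, m1_smul, neg_neg, one_smul]
  have h3 : g * g = k * k := by
    rw [← hak']
    have h4 : (m1 ^ n : Co0) * m1 ^ n = 1 := by
      rw [← zpow_add, ← two_mul, zpow_mul, zpow_two, h2, one_zpow]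
    calc (m1 ^ n * k) * (m1 ^ n * k) = m1 ^ n * (k * m1 ^ n) * k := by group
      _ = m1 ^ n * (m1 ^ n * k) * k := by rw [(hcm.zpow_left n).eq]
      _ = (m1 ^ n * m1 ^ n) * (k * k) := by group
      _ = k * k := by rw [h4, one_mul]
  apply hm
  rw [← hg, h3]
  exact K.mul_mem hk hk

end Cfsg.Agent.S5594
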