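import Cfsg.Statements.S5599
import Cfsg.Agent.H28_Cls2

set_option autoImplicit false
open scoped Pointwise
open Cfsg

namespace Cfsg.Agent.S5599

open Cfsg.Agent.H7.Golay Cfsg.Agent.H7.Oct Cfsg.Agent.H7.M24 
open scoped Pointwise

theorem inv_eq {g : Equiv.Perm GolayPt} {p q : GolayPt} (h : g p = q) : g⁻¹ q = p := by
  rw [Equiv.Perm.inv_eq_iff_eq]; exact h.symm

/-- In the automorphism group of the length-24 code, the two-point Mathieu group (permutations of the code's group fixing the extra point and the residue 0) has index 2 in the setwise stabiliser of that pair of points, and an element of the code's group interchanging the two points normalises the two-point group and induces on it, by conjugation, an automorphism that is not inner. -/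
theorem result (g : Equiv.Perm Cfsg.GolayPt) (hg : g ∈ Cfsg.M24) (h₁ : g none = some 0) (h₂ : g (some 0) = none) : Cfsg.Spor.M22.relIndex (Cfsg.M24 ⊓ MulAction.stabilizer (Equiv.Perm Cfsg.GolayPt) ({none, some 0} : Finset Cfsg.GolayPt)) = 2 ∧ (∀ x ∈ Cfsg.Spor.M22, g * x * g⁻¹ ∈ Cfsg.Spor.M22) ∧ ¬ ∃ h ∈ Cfsg.Spor.M22, ∀ x ∈ Cfsg.Spor.M22, g * x * g⁻¹ = h * x * h⁻¹ := by
  have hp0 : pt 0 = some 0 := by decide
  have hp23 : pt 23 = none := by decide
  have hM : ∀ x : Equiv.Perm GolayPt, x ∈ Cfsg.Spor.M22 ↔ (x ∈ Cfsg.M24 ∧ x none = none) ∧ x (some 0) = some 0 :=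
    fun x => Iff.rfl
  have hst : ∀ x : Equiv.Perm GolayPt, x ∈ MulAction.stabilizer (Equiv.Perm GolayPt) ({none, some 0} : Finset GolayPt) ↔
      (x none = none ∧ x (some 0) = some 0) ∨ (x none = some 0 ∧ x (some 0) = none) := by
    intro x
    rw [MulAction.mem_stabilizer_iff]
    constructor
    · intro h
      have h1 : x none ∈ ({none, some 0} : Finset GolayPt) := by
        rw [← h]; exact Finset.mem_smul_finset.2 ⟨none, by simp, rfl⟩
      have h2 : x (some 0) ∈ ({none, some 0} : Finset GolayPt) := by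
        rw [← h]; exact Finset.mem_smul_finset.2 ⟨some 0, by simp, rfl⟩
      have h3 : x none ≠ x (some 0) := fun e => by
        have := x.injective e
        simp at this
      rw [Finset.mem_insert, Finset.mem_singleton] at h1 h2
      rcases h1 with h1 | h1 <;> rcases h2 with h2 | h2
      · rw [h1, h2] at h3; exact absurd rfl h3
      · exact Or.inl ⟨h1, h2⟩
      · exact Or.inr ⟨h1, h2⟩
      · rw [h1, h2] at h3; exact absurd rfl h3
    · intro h
      rw [Finset.smul_finset_insert, Finset.smul_finset_singleton]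
      rcases h with ⟨a, b⟩ | ⟨a, b⟩
      · rw [Equiv.Perm.smul_def, Equiv.Perm.smul_def, a, b]
      · rw [Equiv.Perm.smul_def, Equiv.Perm.smul_def, a, b]; exact Finset.pair_comm _ _
  refine ⟨?_, ?_, ?_⟩
  · rw [Subgroup.relIndex_eq_two_iff]
    refine ⟨g, Subgroup.mem_inf.2 ⟨hg, (hst g).2 (Or.inr ⟨h₁, h₂⟩)⟩, fun b hb => ?_⟩
    obtain ⟨hb1, hb2⟩ := Subgroup.mem_inf.1 hb
    rw [hst] at hb2
    rcases hb2 with ⟨a1, a2⟩ | ⟨a1, a2⟩
    · right
      refine ⟨(hM b).2 ⟨⟨hb1, a1⟩, a2⟩, fun h => ?_⟩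
      have := ((hM _).1 h).1.2
      rw [Equiv.Perm.mul_apply, h₁, a2] at this
      simp at this
    · left
      refine ⟨(hM _).2 ⟨⟨mul_mem hb1 hg, by rw [Equiv.Perm.mul_apply, h₁, a2]⟩,
        by rw [Equiv.Perm.mul_apply, h₂, a1]⟩, fun h => ?_⟩
      have := ((hM _).1 h).1.2
      rw [a1] at this
      simp at this
  · intro x hx
    obtain ⟨⟨hx1, hx2⟩, hx3⟩ := (hM x).1 hx
    refine (hM _).2 ⟨⟨mul_mem (mul_mem hg hx1) (inv_mem hg), ?_⟩, ?_⟩
    · rw [Equiv.Perm.mul_apply, Equiv.Perm.mul_apply, inv_eq h₂, hx3, h₂]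
    · rw [Equiv.Perm.mul_apply, Equiv.Perm.mul_apply, inv_eq h₁, hx2, h₁]
  · rintro ⟨h, hh, hx⟩
    obtain ⟨⟨hh1, hh2⟩, hh3⟩ := (hM h).1 hh
    have hk : ∀ x ∈ Cfsg.Spor.M22, (h⁻¹ * g) * x = x * (h⁻¹ * g) := by
      intro x hxm
      have e := hx x hxm
      calc (h⁻¹ * g) * x = h⁻¹ * (g * x * g⁻¹) * g := by group
        _ = h⁻¹ * (h * x * h⁻¹) * g := by rw [e]
        _ = x * (h⁻¹ * g) := by group
    generalize hkk : h⁻¹ * g = k at hk
    have hkM : k ∈ Cfsg.M24 := by rw [← hkk]; exact mul_mem (inv_mem hh1) hg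
    have k1 : k none = some 0 := by rw [← hkk, Equiv.Perm.mul_apply, h₁]; exact inv_eq hh3
    have k2 : k (some 0) = none := by rw [← hkk, Equiv.Perm.mul_apply, h₂]; exact inv_eq hh2
    have hfix : ∀ p, p ≠ none → p ≠ some 0 → k p = p := by
      intro p p1 p2
      by_contra hne
      have q1 : k p ≠ none := fun e => p2 (k.injective (by rw [e, k2]))
      have q2 : k p ≠ some 0 := fun e => p1 (k.injective (by rw [e, k1]))
      obtain ⟨q, hq⟩ : ∃ q : GolayPt, q ∉ ({none, some 0, p, k p} : Finset GolayPt) := by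
        by_contra hcon
        push Not at hcon
        have h24 : (Finset.univ : Finset GolayPt).card = 24 := by decide
        have := Finset.card_le_card (fun q _ => hcon q : (Finset.univ : Finset GolayPt) ⊆ {none, some 0, p, k p})
        have h4 := Finset.card_le_four (a := none) (b := some 0) (c := p) (d := k p)
        omega
      simp only [Finset.mem_insert, Finset.mem_singleton, not_or] at hq
      obtain ⟨x, hxM, hx4⟩ := H7.M24b.ktrans 4 (by norm_num) ![none, some 0, p, k p] ![none, some 0, p, q]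
        (Cfsg.Agent.H28.Cls.inj4 (by simp) (Ne.symm p1) (Ne.symm q1) (Ne.symm p2) (Ne.symm q2) (Ne.symm hne))
        (Cfsg.Agent.H28.Cls.inj4 (by simp) (Ne.symm p1) (Ne.symm hq.1) (Ne.symm p2) (Ne.symm hq.2.1) (Ne.symm hq.2.2.1))
      have x0 : x none = none := hx4 0
      have x1 : x (some 0) = some 0 := hx4 1
      have x2 : x p = p := hx4 2
      have x3 : x (k p) = q := hx4 3
      have e := congrArg (fun f : Equiv.Perm GolayPt => f p) (hk x ((hM x).2 ⟨⟨hxM, x0⟩, x1⟩))
      simp only [Equiv.Perm.mul_apply, x2, x3] at e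
      exact hq.2.2.2 e.symm
    have hk1 : k = 1 := by
      apply H7.M24c.fix_nine hkM ({none, some 0} : Finset GolayPt)ᶜ
      · rw [Finset.card_compl]
        have : Fintype.card GolayPt = 24 := by decide
        have h2 : ({none, some 0} : Finset GolayPt).card ≤ 2 := Finset.card_le_two
        omega
      · intro p hp
        rw [Finset.mem_compl, Finset.mem_insert, Finset.mem_singleton, not_or] at hp
        exact hfix p hp.1 hp.2
    rw [hk1] at k1
    simp at k1

end Cfsg.Agent.S5599
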