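import Cfsg.Statements.S5601
import Cfsg.Agent.H28_Cls2

set_option autoImplicit false
open scoped Pointwise
open Cfsg

namespace Cfsg.Agent.S5601

open Cfsg.Agent.H7.Golay Cfsg.Agent.H7.Oct Cfsg.Agent.H28.Cls

theorem exists_gen (X : Subgroup ↥Cfsg.M24) (hX : Nat.card X = 3) : ∃ x : ↥Cfsg.M24, orderOf (x : Equiv.Perm GolayPt) = 3 ∧
    X = Subgroup.zpowers x ∧
    {p : Cfsg.GolayPt | ∀ x ∈ X, ((x : ↥Cfsg.M24) : Equiv.Perm Cfsg.GolayPt) p = p}.ncard =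
      (fixF (x : Equiv.Perm GolayPt)).card := by
  have : Fact (Nat.Prime 3) := ⟨Nat.prime_three⟩
  haveI : IsCyclic X := isCyclic_of_prime_card hX
  obtain ⟨g, hg⟩ := IsCyclic.exists_generator (α := X)
  have hX' : X = Subgroup.zpowers (g : ↥Cfsg.M24) := by
    ext y
    constructor
    · intro hy
      obtain ⟨n, hn⟩ := Subgroup.mem_zpowers_iff.1 (hg ⟨y, hy⟩)
      rw [Subgroup.mem_zpowers_iff]
      exact ⟨n, by rw [← Subgroup.coe_zpow, hn]⟩
    · intro hy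
      obtain ⟨n, rfl⟩ := Subgroup.mem_zpowers_iff.1 hy
      exact X.zpow_mem g.2 n
  refine ⟨g, ?_, hX', ?_⟩
  · have h1 := orderOf_eq_card_of_forall_mem_zpowers hg
    rw [hX] at h1
    rw [Subgroup.orderOf_coe, Subgroup.orderOf_coe, h1]
  · rw [← Set.ncard_coe_finset]
    congr 1
    ext p
    simp only [Set.mem_setOf_eq, Finset.mem_coe, mem_fixF]
    constructor
    · intro h
      exact h _ g.2
    · intro h y hy
      rw [hX'] at hy
      obtain ⟨n, rfl⟩ := Subgroup.mem_zpowers_iff.1 hy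
      rw [Subgroup.coe_zpow]
      have : ((g : ↥Cfsg.M24) : Equiv.Perm GolayPt) ∈ MulAction.stabilizer (Equiv.Perm GolayPt) p := h
      exact (MulAction.stabilizer (Equiv.Perm GolayPt) p).zpow_mem this n

theorem mk_group {z : Equiv.Perm GolayPt} (hz : z ∈ Cfsg.M24) (h : orderOf z = 3) :
    ∃ X : Subgroup ↥Cfsg.M24, Nat.card X = 3 ∧
    {p : Cfsg.GolayPt | ∀ x ∈ X, ((x : ↥Cfsg.M24) : Equiv.Perm Cfsg.GolayPt) p = p}.ncard = (fixF z).card := by
  refine ⟨Subgroup.zpowers (⟨z, hz⟩ : ↥Cfsg.M24), ?_, ?_⟩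
  · rw [Nat.card_zpowers, ← Subgroup.orderOf_coe]; exact h
  · rw [← Set.ncard_coe_finset]
    congr 1
    ext p
    simp only [Set.mem_setOf_eq, Finset.mem_coe, mem_fixF]
    constructor
    · intro h
      exact h _ (Subgroup.mem_zpowers _)
    · intro h y hy
      obtain ⟨n, rfl⟩ := Subgroup.mem_zpowers_iff.1 hy
      rw [Subgroup.coe_zpow]
      have : z ∈ MulAction.stabilizer (Equiv.Perm GolayPt) p := h
      exact (MulAction.stabilizer (Equiv.Perm GolayPt) p).zpow_mem this n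

/-- The group of the length-24 code has exactly two conjugacy classes of subgroups of order 3: a subgroup of order 3 fixes either exactly 6 of the 24 points or none of them, both cases occur, and two subgroups of order 3 with the same number of fixed points are conjugate. -/
theorem result : (∀ X : Subgroup ↥Cfsg.M24, Nat.card X = 3 → {p : Cfsg.GolayPt | ∀ x ∈ X, ((x : ↥Cfsg.M24) : Equiv.Perm Cfsg.GolayPt) p = p}.ncard = 6 ∨ {p : Cfsg.GolayPt | ∀ x ∈ X, ((x : ↥Cfsg.M24) : Equiv.Perm Cfsg.GolayPt) p = p}.ncard = 0) ∧ (∃ X : Subgroup ↥Cfsg.M24, Nat.card X = 3 ∧ {p : Cfsg.GolayPt | ∀ x ∈ X, ((x : ↥Cfsg.M24) : Equiv.Perm Cfsg.GolayPt) p = p}.ncard = 6) ∧ (∃ X : Subgroup ↥Cfsg.M24, Nat.card X = 3 ∧ {p : Cfsg.GolayPt | ∀ x ∈ X, ((x : ↥Cfsg.M24) : Equiv.Perm Cfsg.GolayPt) p = p}.ncard = 0) ∧ ∀ X Y : Subgroup ↥Cfsg.M24, Nat.card X = 3 → Nat.card Y = 3 → {p : Cfsg.GolayPt | ∀ x ∈ X, ((x : ↥Cfsg.M24)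 : Equiv.Perm Cfsg.GolayPt) p = p}.ncard = {p : Cfsg.GolayPt | ∀ x ∈ Y, ((x : ↥Cfsg.M24) : Equiv.Perm Cfsg.GolayPt) p = p}.ncard → ∃ k : ↥Cfsg.M24, MulAut.conj k • X = Y := by
  refine ⟨fun X hX => ?_, ?_, ?_, fun X Y hX hY h => ?_⟩
  · obtain ⟨x, hx, -, h⟩ := exists_gen X hX
    rw [h]
    exact three_fix x.2 hx
  · rw [← card_fix_zC]; exact mk_group zC_mem order_zC
  · rw [← card_fix_zD]; exact mk_group zD_mem order_zD
  · obtain ⟨x, hx, hXx, e1⟩ := exists_gen X hX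
    obtain ⟨y, hy, hYy, e2⟩ := exists_gen Y hY
    rw [e1, e2] at h
    obtain ⟨k, hk, hkk⟩ := three_conj x.2 y.2 hx hy h
    refine ⟨⟨k, hk⟩, ?_⟩
    have e : (⟨k, hk⟩ : ↥Cfsg.M24) * x * (⟨k, hk⟩ : ↥Cfsg.M24)⁻¹ = y := Subtype.ext hkk
    rw [hXx, hYy, ← e]
    ext z
    rw [Subgroup.mem_pointwise_smul_iff_inv_smul_mem, Subgroup.mem_zpowers_iff, Subgroup.mem_zpowers_iff]
    constructor
    · rintro ⟨n, hn⟩
      refine ⟨n, ?_⟩
      rw [conj_zpow, hn]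
      simp [MulAut.smul_def, mul_assoc]
    · rintro ⟨n, hn⟩
      refine ⟨n, ?_⟩
      rw [conj_zpow] at hn
      rw [← hn]
      simp [MulAut.smul_def, mul_assoc]

end Cfsg.Agent.S5601
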