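import Cfsg.Statements.S5608
import Cfsg.Agent.H28_Cls2
import Cfsg.Agent.H14_M24Eng

set_option autoImplicit false
open scoped Pointwise
open Cfsg

namespace Cfsg.Agent.S5608

open Cfsg.Agent.H7.Golay Cfsg.Agent.H7.Oct Cfsg.Agent.H7.M24 Cfsg.Agent.H28.Tree Cfsg.Agent.H28.Cls
open Cfsg.Agent.H14.M24Eng (invl rep_inv)
open scoped Pointwise

def tree1 : Tr := (.split 0 2 (.inv (.split 2 2 (.inv (.split 3 2 (.inv (.split 4 2 (.inv (.split 1 1 (.inv (.bad 2)) (.split 1 4 (.inv (.bad 0)) (.split 1 8 (.inv (.bad 0)) (.split 1 16 (.inv (.bad 0)) (.inv (.bad 0))))))) (.inv (.split 5 2 (.inv (.bad 4)) (.inv (.split 1 1 (.inv (.bad 2)) (.split 1 4 (.inv (.bad 0)) (.inv (.bad 0))))))))) (.split 3 16 (.inv (.split 5 2 (.inv (.split 4 2 (.inv (.bad 3)) (.inv (.split 1 1 (.inv (.bad 2)) (.split 1 4 (.inv (.bad 0)) (.inv (.bad 0))))))) (.inv (.split 1 1 (.inv (.bad 2)) (.split 1 4 (.inv (.bad 0)) (.inv (.bad 0)))))))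 (.inv (.split 4 2 (.inv (.split 5 2 (.inv (.bad 3)) (.inv (.split 1 1 (.inv (.bad 2)) (.split 1 4 (.inv (.bad 0)) (.inv (.bad 0))))))) (.inv (.split 1 1 (.inv (.bad 2)) (.split 1 4 (.inv (.bad 0)) (.inv (.bad 0)))))))))) (.split 2 8 (.inv (.split 4 2 (.inv (.split 5 2 (.inv (.split 3 2 (.inv (.bad 2)) (.inv (.split 1 1 (.inv (.bad 4)) (.split 1 16 (.inv (.bad 0)) (.inv (.bad 0))))))) (.inv (.split 1 1 (.inv (.bad 4)) (.split 1 8 (.inv (.bad 0)) (.inv (.bad 0))))))) (.split 4 8 (.inv (.split 5 2 (.inv (.split 1 1 (.inv (.bad 5)) (.split 1 8 (.inv (.bad 0)) (.inv (.bad 0))))) (.inv (.split 1 1 (.inv (.split 3 4 (.inv (.bad 4)) (.split 3 16 (.inv (.bad 2)) (.inv (.bad 2))))) (.inv (.bad 0)))))) (.inv (.split 1 1 (.inv (.split 3 4 (.oct 757 758 47 (.oct 681 505 61 (.inv (.oct 737 753 59 (.split 6 512 (.inv (.comm 0 (.comm 0 (.oct 450 586 851974 (.bad 14))))) (.split 6 262144 (.inv (.comm 0 (.comm 0 (.oct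 586 457 2686985 (.bad 14))))) (.inv (.comm 0 (.comm 0 (.oct 450 599 851974 (.bad 14))))))))))) (.inv (.bad 2)))) (.split 1 8 (.inv (.bad 0)) (.inv (.bad 0)))))))) (.split 2 16 (.inv (.split 3 2 (.inv (.split 5 2 (.inv (.split 4 2 (.inv (.bad 2)) (.inv (.split 1 1 (.inv (.bad 3)) (.split 1 8 (.inv (.bad 0)) (.inv (.bad 0))))))) (.inv (.split 1 1 (.inv (.bad 3)) (.split 1 8 (.inv (.bad 0)) (.inv (.bad 0))))))) (.split 3 16 (.inv (.split 5 2 (.inv (.split 1 1 (.inv (.bad 5)) (.split 1 16 (.inv (.bad 0)) (.inv (.bad 0))))) (.inv (.split 1 1 (.inv (.split 4 4 (.inv (.bad 3)) (.split 4 8 (.inv (.bad 2)) (.inv (.bad 2))))) (.inv (.bad 0)))))) (.inv (.split 1 1 (.inv (.split 4 4 (.oct 757 737 47 (.oct 681 505 61 (.inv (.oct 753 758 55 (.split 6 16384 (.inv (.comm 0 (.comm 0 (.oct 450 575 8470534 (.bad 18))))) (.split 6 131072 (.inv (.comm 0 (.comm 0 (.oct 626 396 212997 (.bad 15))))) (.inv (.comm 0 (.comm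 0 (.oct 626 384 212997 (.bad 15))))))))))) (.inv (.bad 2)))) (.split 1 16 (.inv (.bad 0)) (.inv (.bad 0)))))))) (.inv (.split 3 2 (.inv (.split 4 2 (.inv (.split 5 2 (.inv (.bad 2)) (.inv (.split 1 1 (.inv (.bad 3)) (.split 1 8 (.inv (.bad 0)) (.inv (.bad 0))))))) (.inv (.split 1 1 (.inv (.bad 3)) (.split 1 8 (.inv (.bad 0)) (.inv (.bad 0))))))) (.split 3 16 (.inv (.split 1 1 (.inv (.split 4 8 (.oct 757 753 47 (.oct 681 505 61 (.inv (.oct 737 758 59 (.split 6 128 (.inv (.comm 0 (.comm 0 (.oct 710 725 69651 (.bad 15))))) (.split 6 1024 (.inv (.comm 0 (.oct 722 714 2101259 (.bad 15)))) (.inv (.comm 0 (.comm 0 (.oct 722 716 2101259 (.bad 15))))))))))) (.inv (.bad 3)))) (.split 1 16 (.inv (.bad 0)) (.inv (.bad 0))))) (.inv (.split 4 2 (.inv (.split 1 1 (.inv (.bad 4)) (.split 1 16 (.inv (.bad 0)) (.inv (.bad 0))))) (.inv (.split 1 1 (.inv (.split 5 4 (.inv (.bad 3)) (.split 5 8 (.inv (.bad 2)) (.inv (.bad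 2))))) (.inv (.bad 0))))))))))))) (.split 0 4 (.inv (.split 1 4 (.inv (.split 3 4 (.inv (.split 4 4 (.inv (.split 2 1 (.inv (.bad 1)) (.split 2 2 (.inv (.bad 0)) (.split 2 8 (.inv (.bad 0)) (.split 2 16 (.inv (.bad 0)) (.inv (.bad 0))))))) (.inv (.split 5 4 (.inv (.bad 4)) (.inv (.split 2 1 (.inv (.bad 1)) (.split 2 2 (.inv (.bad 0)) (.inv (.bad 0))))))))) (.split 3 16 (.inv (.split 5 4 (.inv (.split 4 4 (.inv (.bad 3)) (.inv (.split 2 1 (.inv (.bad 1)) (.split 2 2 (.inv (.bad 0)) (.inv (.bad 0))))))) (.inv (.split 2 1 (.inv (.bad 1)) (.split 2 2 (.inv (.bad 0)) (.inv (.bad 0))))))) (.inv (.split 4 4 (.inv (.split 5 4 (.inv (.bad 3)) (.inv (.split 2 1 (.inv (.bad 1)) (.split 2 2 (.inv (.bad 0)) (.inv (.bad 0))))))) (.inv (.split 2 1 (.inv (.bad 1)) (.split 2 2 (.inv (.bad 0)) (.inv (.bad 0)))))))))) (.split 1 8 (.inv (.split 4 4 (.inv (.split 5 4 (.inv (.split 3 2 (.inv (.split 2 1 (.inv (.bad 4))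 (.split 2 16 (.inv (.bad 0)) (.inv (.bad 0))))) (.inv (.bad 1)))) (.inv (.split 2 1 (.inv (.bad 4)) (.split 2 8 (.inv (.bad 0)) (.inv (.bad 0))))))) (.split 4 8 (.inv (.split 5 4 (.inv (.split 2 1 (.inv (.bad 5)) (.split 2 8 (.inv (.bad 0)) (.inv (.bad 0))))) (.inv (.split 2 1 (.inv (.split 3 2 (.inv (.bad 4)) (.split 3 16 (.inv (.bad 1)) (.inv (.bad 1))))) (.inv (.bad 0)))))) (.inv (.split 2 1 (.inv (.split 3 2 (.inv (.oct 757 758 47 (.oct 681 753 61 (.inv (.oct 737 505 59 (.split 6 256 (.inv (.comm 0 (.comm 0 (.oct 586 453 2170889 (.bad 14))))) (.split 6 2048 (.inv (.comm 0 (.comm 0 (.oct 586 454 2170889 (.bad 14))))) (.inv (.comm 0 (.comm 0 (.oct 429 445 73770 (.bad 15)))))))))))) (.inv (.bad 1)))) (.split 2 8 (.inv (.bad 0)) (.inv (.bad 0)))))))) (.split 1 16 (.inv (.split 3 4 (.inv (.split 5 4 (.inv (.split 4 2 (.inv (.split 2 1 (.inv (.bad 3)) (.split 2 8 (.inv (.bad 0)) (.inv (.bad 0))))) (.inv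 (.bad 1)))) (.inv (.split 2 1 (.inv (.bad 3)) (.split 2 8 (.inv (.bad 0)) (.inv (.bad 0))))))) (.split 3 16 (.inv (.split 5 4 (.inv (.split 2 1 (.inv (.bad 5)) (.split 2 16 (.inv (.bad 0)) (.inv (.bad 0))))) (.inv (.split 2 1 (.inv (.split 4 2 (.inv (.bad 3)) (.split 4 8 (.inv (.bad 1)) (.inv (.bad 1))))) (.inv (.bad 0)))))) (.inv (.split 2 1 (.inv (.split 4 2 (.oct 757 681 47 (.oct 737 505 59 (.inv (.oct 753 758 55 (.split 6 256 (.inv (.comm 0 (.comm 0 (.oct 586 244 2170889 (.bad 14))))) (.split 6 2048 (.inv (.comm 0 (.comm 0 (.oct 586 250 2170889 (.bad 14))))) (.inv (.comm 0 (.comm 0 (.oct 429 207 73770 (.bad 15))))))))))) (.inv (.bad 1)))) (.split 2 16 (.inv (.bad 0)) (.inv (.bad 0)))))))) (.inv (.split 3 4 (.inv (.split 4 4 (.inv (.split 5 2 (.inv (.split 2 1 (.inv (.bad 3)) (.split 2 8 (.inv (.bad 0)) (.inv (.bad 0))))) (.inv (.bad 1)))) (.inv (.split 2 1 (.inv (.bad 3)) (.split 2 8 (.inv (.bad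 0)) (.inv (.bad 0))))))) (.split 3 16 (.inv (.split 2 1 (.inv (.split 4 8 (.oct 757 753 47 (.oct 681 758 61 (.inv (.oct 737 505 59 (.split 6 256 (.inv (.comm 0 (.comm 0 (.oct 586 272 2170889 (.bad 14))))) (.split 6 2048 (.inv (.comm 0 (.comm 0 (.oct 586 266 2170889 (.bad 14))))) (.inv (.comm 0 (.comm 0 (.oct 429 408 73770 (.bad 15))))))))))) (.inv (.bad 3)))) (.split 2 16 (.inv (.bad 0)) (.inv (.bad 0))))) (.inv (.split 4 4 (.inv (.split 2 1 (.inv (.bad 4)) (.split 2 16 (.inv (.bad 0)) (.inv (.bad 0))))) (.inv (.split 2 1 (.inv (.split 5 2 (.inv (.bad 3)) (.split 5 8 (.inv (.bad 1)) (.inv (.bad 1))))) (.inv (.bad 0))))))))))))) (.split 0 8 (.inv (.split 1 4 (.inv (.split 4 4 (.inv (.split 5 4 (.inv (.split 3 1 (.inv (.split 2 2 (.inv (.bad 4)) (.split 2 16 (.inv (.bad 1)) (.inv (.bad 1))))) (.inv (.bad 0)))) (.inv (.split 2 2 (.inv (.bad 4)) (.split 2 8 (.inv (.bad 1)) (.inv (.bad 1))))))) (.split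 4 8 (.inv (.split 5 4 (.inv (.split 2 2 (.inv (.bad 5)) (.split 2 8 (.inv (.bad 1)) (.inv (.bad 1))))) (.inv (.split 2 2 (.inv (.split 3 1 (.inv (.bad 4)) (.split 3 16 (.inv (.bad 0)) (.inv (.bad 0))))) (.inv (.bad 1)))))) (.inv (.split 2 2 (.inv (.split 3 1 (.oct 757 758 47 (.oct 681 737 61 (.inv (.oct 753 505 55 (.split 6 32768 (.inv (.comm 0 (.comm 0 (.oct 626 427 1146885 (.bad 14))))) (.split 6 1048576 (.inv (.comm 0 (.comm 0 (.oct 410 630 2195466 (.bad 14))))) (.inv (.comm 0 (.comm 0 (.oct 626 410 1146885 (.bad 14))))))))))) (.inv (.bad 0)))) (.split 2 8 (.inv (.bad 1)) (.inv (.bad 1)))))))) (.split 1 8 (.inv (.split 2 8 (.inv (.split 4 8 (.inv (.split 3 1 (.inv (.bad 1)) (.split 3 2 (.inv (.bad 0)) (.split 3 4 (.inv (.bad 0)) (.split 3 16 (.inv (.bad 0)) (.inv (.bad 0))))))) (.inv (.split 5 8 (.inv (.bad 4)) (.inv (.split 3 1 (.inv (.bad 1)) (.split 3 2 (.inv (.bad 0)) (.inv (.bad 0)))))))))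 (.split 2 16 (.inv (.split 5 8 (.inv (.split 4 4 (.inv (.split 3 1 (.inv (.bad 1)) (.split 3 2 (.inv (.bad 0)) (.inv (.bad 0))))) (.inv (.bad 2)))) (.inv (.split 3 1 (.inv (.bad 1)) (.split 3 2 (.inv (.bad 0)) (.inv (.bad 0))))))) (.inv (.split 4 8 (.inv (.split 5 4 (.inv (.split 3 1 (.inv (.bad 1)) (.split 3 2 (.inv (.bad 0)) (.inv (.bad 0))))) (.inv (.bad 2)))) (.inv (.split 3 1 (.inv (.bad 1)) (.split 3 2 (.inv (.bad 0)) (.inv (.bad 0)))))))))) (.split 1 16 (.inv (.split 2 8 (.inv (.split 5 8 (.inv (.split 4 2 (.inv (.split 3 1 (.inv (.bad 2)) (.split 3 4 (.inv (.bad 0)) (.inv (.bad 0))))) (.inv (.bad 1)))) (.inv (.split 3 1 (.inv (.bad 2)) (.split 3 4 (.inv (.bad 0)) (.inv (.bad 0))))))) (.split 2 16 (.inv (.split 5 8 (.inv (.split 3 1 (.inv (.bad 5)) (.split 3 16 (.inv (.bad 0)) (.inv (.bad 0))))) (.inv (.split 3 1 (.inv (.split 4 2 (.inv (.bad 2)) (.split 4 4 (.inv (.bad 1)) (.inv (.bad 1)))))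 (.inv (.bad 0)))))) (.inv (.split 3 1 (.inv (.split 4 2 (.oct 757 681 47 (.oct 737 758 59 (.inv (.oct 753 505 55 (.split 6 128 (.inv (.comm 0 (.comm 0 (.oct 710 441 69651 (.bad 15))))) (.split 6 1024 (.inv (.comm 0 (.oct 722 619 2101259 (.bad 15)))) (.inv (.comm 0 (.comm 0 (.oct 722 620 2101259 (.bad 15))))))))))) (.inv (.bad 1)))) (.split 3 16 (.inv (.bad 0)) (.inv (.bad 0)))))))) (.inv (.split 2 8 (.inv (.split 4 8 (.inv (.split 5 2 (.inv (.split 3 1 (.inv (.bad 2)) (.split 3 4 (.inv (.bad 0)) (.inv (.bad 0))))) (.inv (.bad 1)))) (.inv (.split 3 1 (.inv (.bad 2)) (.split 3 4 (.inv (.bad 0)) (.inv (.bad 0))))))) (.split 2 16 (.inv (.split 3 1 (.inv (.split 4 4 (.oct 757 737 47 (.oct 681 758 61 (.inv (.oct 753 505 55 (.split 6 16384 (.inv (.comm 0 (.comm 0 (.oct 450 124 8470534 (.bad 18))))) (.split 6 131072 (.inv (.comm 0 (.comm 0 (.oct 626 195 212997 (.bad 15))))) (.inv (.comm 0 (.comm 0 (.oct 626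 187 212997 (.bad 15))))))))))) (.inv (.bad 2)))) (.split 3 16 (.inv (.bad 0)) (.inv (.bad 0))))) (.inv (.split 4 8 (.inv (.split 3 1 (.inv (.bad 4)) (.split 3 16 (.inv (.bad 0)) (.inv (.bad 0))))) (.inv (.split 3 1 (.inv (.split 5 2 (.inv (.bad 2)) (.split 5 4 (.inv (.bad 1)) (.inv (.bad 1))))) (.inv (.bad 0))))))))))))) (.split 0 16 (.inv (.split 1 4 (.inv (.split 3 4 (.inv (.split 5 4 (.inv (.split 4 1 (.inv (.split 2 2 (.inv (.bad 3)) (.split 2 8 (.inv (.bad 1)) (.inv (.bad 1))))) (.inv (.bad 0)))) (.inv (.split 2 2 (.inv (.bad 3)) (.split 2 8 (.inv (.bad 1)) (.inv (.bad 1))))))) (.split 3 16 (.inv (.split 5 4 (.inv (.split 2 2 (.inv (.bad 5)) (.split 2 16 (.inv (.bad 1)) (.inv (.bad 1))))) (.inv (.split 2 2 (.inv (.split 4 1 (.inv (.bad 3)) (.split 4 8 (.inv (.bad 0)) (.inv (.bad 0))))) (.inv (.bad 1)))))) (.inv (.split 2 2 (.inv (.split 4 1 (.oct 757 505 47 (.oct 681 737 61 (.inv (.oct 753 758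 55 (.split 6 32768 (.inv (.comm 0 (.comm 0 (.oct 626 400 1146885 (.bad 14))))) (.split 6 1048576 (.inv (.comm 0 (.comm 0 (.oct 410 243 2195466 (.bad 14))))) (.inv (.comm 0 (.comm 0 (.oct 626 386 1146885 (.bad 14))))))))))) (.inv (.bad 0)))) (.split 2 16 (.inv (.bad 1)) (.inv (.bad 1)))))))) (.split 1 8 (.inv (.split 2 8 (.inv (.split 5 8 (.inv (.split 4 1 (.inv (.split 3 2 (.inv (.bad 2)) (.split 3 4 (.inv (.bad 1)) (.inv (.bad 1))))) (.inv (.bad 0)))) (.inv (.split 3 2 (.inv (.bad 2)) (.split 3 4 (.inv (.bad 1)) (.inv (.bad 1))))))) (.split 2 16 (.inv (.split 5 8 (.inv (.split 3 2 (.inv (.bad 5)) (.split 3 16 (.inv (.bad 1)) (.inv (.bad 1))))) (.inv (.split 3 2 (.inv (.split 4 1 (.inv (.bad 2)) (.split 4 4 (.inv (.bad 0)) (.inv (.bad 0))))) (.inv (.bad 1)))))) (.inv (.split 3 2 (.inv (.split 4 1 (.oct 757 505 47 (.oct 681 753 61 (.inv (.oct 737 758 59 (.split 6 128 (.inv (.comm 0 (.comm 0 (.oct 710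 616 69651 (.bad 15))))) (.split 6 1024 (.inv (.comm 0 (.oct 722 443 2101259 (.bad 15)))) (.inv (.comm 0 (.comm 0 (.oct 722 445 2101259 (.bad 15))))))))))) (.inv (.bad 0)))) (.split 3 16 (.inv (.bad 1)) (.inv (.bad 1)))))))) (.split 1 16 (.inv (.split 2 8 (.inv (.split 5 8 (.inv (.split 3 4 (.inv (.bad 5)) (.split 3 16 (.inv (.bad 2)) (.inv (.bad 2))))) (.inv (.split 3 4 (.inv (.split 4 1 (.inv (.bad 1)) (.split 4 2 (.inv (.bad 0)) (.inv (.bad 0))))) (.inv (.bad 2)))))) (.split 2 16 (.inv (.split 3 16 (.inv (.split 4 1 (.inv (.bad 1)) (.split 4 2 (.inv (.bad 0)) (.split 4 4 (.inv (.bad 0)) (.split 4 8 (.inv (.bad 0)) (.inv (.bad 0))))))) (.inv (.split 5 8 (.inv (.split 4 1 (.inv (.bad 1)) (.split 4 2 (.inv (.bad 0)) (.inv (.bad 0))))) (.inv (.bad 3)))))) (.inv (.split 3 16 (.inv (.split 5 4 (.inv (.split 4 1 (.inv (.bad 1)) (.split 4 2 (.inv (.bad 0)) (.inv (.bad 0))))) (.inv (.bad 2)))) (.inv (.split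 4 1 (.inv (.bad 1)) (.split 4 2 (.inv (.bad 0)) (.inv (.bad 0)))))))))) (.inv (.split 2 8 (.inv (.split 3 4 (.inv (.split 4 1 (.oct 757 505 47 (.oct 681 758 61 (.inv (.oct 737 753 59 (.split 6 512 (.inv (.comm 0 (.comm 0 (.oct 450 164 851974 (.bad 14))))) (.split 6 262144 (.inv (.comm 0 (.comm 0 (.oct 586 273 2686985 (.bad 14))))) (.inv (.comm 0 (.comm 0 (.oct 450 177 851974 (.bad 14))))))))))) (.inv (.bad 0)))) (.split 3 16 (.inv (.bad 2)) (.inv (.bad 2))))) (.split 2 16 (.inv (.split 3 16 (.inv (.split 5 2 (.inv (.split 4 1 (.inv (.bad 2)) (.split 4 4 (.inv (.bad 0)) (.inv (.bad 0))))) (.inv (.bad 1)))) (.inv (.split 4 1 (.inv (.bad 2)) (.split 4 4 (.inv (.bad 0)) (.inv (.bad 0))))))) (.inv (.split 3 16 (.inv (.split 4 1 (.inv (.bad 3)) (.split 4 8 (.inv (.bad 0)) (.inv (.bad 0))))) (.inv (.split 4 1 (.inv (.split 5 2 (.inv (.bad 2)) (.split 5 4 (.inv (.bad 1)) (.inv (.bad 1))))) (.inv (.bad 0)))))))))))))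 (.inv (.split 1 4 (.inv (.split 3 4 (.inv (.split 4 4 (.inv (.split 5 1 (.inv (.split 2 2 (.inv (.bad 3)) (.split 2 8 (.inv (.bad 1)) (.inv (.bad 1))))) (.inv (.bad 0)))) (.inv (.split 2 2 (.inv (.bad 3)) (.split 2 8 (.inv (.bad 1)) (.inv (.bad 1))))))) (.split 3 16 (.inv (.split 2 2 (.inv (.split 4 8 (.oct 757 753 47 (.oct 681 737 61 (.inv (.oct 758 505 31 (.split 6 32768 (.inv (.comm 0 (.comm 0 (.oct 626 376 1146885 (.bad 14))))) (.split 6 1048576 (.inv (.comm 0 (.comm 0 (.oct 410 271 2195466 (.bad 14))))) (.inv (.comm 0 (.comm 0 (.oct 626 368 1146885 (.bad 14))))))))))) (.inv (.bad 3)))) (.split 2 16 (.inv (.bad 1)) (.inv (.bad 1))))) (.inv (.split 4 4 (.inv (.split 2 2 (.inv (.bad 4)) (.split 2 16 (.inv (.bad 1)) (.inv (.bad 1))))) (.inv (.split 2 2 (.inv (.split 5 1 (.inv (.bad 3)) (.split 5 8 (.inv (.bad 0)) (.inv (.bad 0))))) (.inv (.bad 1))))))))) (.split 1 8 (.inv (.split 2 8 (.inv (.split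 4 8 (.inv (.split 5 1 (.inv (.split 3 2 (.inv (.bad 2)) (.split 3 4 (.inv (.bad 1)) (.inv (.bad 1))))) (.inv (.bad 0)))) (.inv (.split 3 2 (.inv (.bad 2)) (.split 3 4 (.inv (.bad 1)) (.inv (.bad 1))))))) (.split 2 16 (.inv (.split 3 2 (.inv (.split 4 4 (.oct 757 737 47 (.oct 681 753 61 (.inv (.oct 758 505 31 (.split 6 16384 (.inv (.comm 0 (.comm 0 (.oct 450 198 8470534 (.bad 18))))) (.split 6 131072 (.inv (.comm 0 (.comm 0 (.oct 626 129 212997 (.bad 15))))) (.inv (.comm 0 (.comm 0 (.oct 626 119 212997 (.bad 15))))))))))) (.inv (.bad 2)))) (.split 3 16 (.inv (.bad 1)) (.inv (.bad 1))))) (.inv (.split 4 8 (.inv (.split 3 2 (.inv (.bad 4)) (.split 3 16 (.inv (.bad 1)) (.inv (.bad 1))))) (.inv (.split 3 2 (.inv (.split 5 1 (.inv (.bad 2)) (.split 5 4 (.inv (.bad 0)) (.inv (.bad 0))))) (.inv (.bad 1))))))))) (.split 1 16 (.inv (.split 2 8 (.inv (.split 3 4 (.inv (.split 4 2 (.oct 757 681 47 (.oct 737 753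 59 (.inv (.oct 758 505 31 (.split 6 512 (.inv (.comm 0 (.comm 0 (.oct 450 187 851974 (.bad 14))))) (.split 6 262144 (.inv (.comm 0 (.comm 0 (.oct 586 248 2686985 (.bad 14))))) (.inv (.comm 0 (.comm 0 (.oct 450 200 851974 (.bad 14))))))))))) (.inv (.bad 1)))) (.split 3 16 (.inv (.bad 2)) (.inv (.bad 2))))) (.split 2 16 (.inv (.split 3 16 (.inv (.split 5 1 (.inv (.split 4 2 (.inv (.bad 2)) (.split 4 4 (.inv (.bad 1)) (.inv (.bad 1))))) (.inv (.bad 0)))) (.inv (.split 4 2 (.inv (.bad 2)) (.split 4 4 (.inv (.bad 1)) (.inv (.bad 1))))))) (.inv (.split 3 16 (.inv (.split 4 2 (.inv (.bad 3)) (.split 4 8 (.inv (.bad 1)) (.inv (.bad 1))))) (.inv (.split 4 2 (.inv (.split 5 1 (.inv (.bad 2)) (.split 5 4 (.inv (.bad 0)) (.inv (.bad 0))))) (.inv (.bad 1))))))))) (.inv (.split 2 8 (.inv (.split 4 8 (.inv (.split 3 4 (.inv (.bad 4)) (.split 3 16 (.inv (.bad 2)) (.inv (.bad 2))))) (.inv (.split 3 4 (.inv (.split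 5 1 (.inv (.bad 1)) (.split 5 2 (.inv (.bad 0)) (.inv (.bad 0))))) (.inv (.bad 2)))))) (.split 2 16 (.inv (.split 3 16 (.inv (.split 4 4 (.inv (.bad 3)) (.split 4 8 (.inv (.bad 2)) (.inv (.bad 2))))) (.inv (.split 4 4 (.inv (.split 5 1 (.inv (.bad 1)) (.split 5 2 (.inv (.bad 0)) (.inv (.bad 0))))) (.inv (.bad 2)))))) (.inv (.split 3 16 (.inv (.split 4 8 (.inv (.split 5 1 (.inv (.bad 1)) (.split 5 2 (.inv (.bad 0)) (.inv (.bad 0))))) (.inv (.bad 3)))) (.inv (.split 5 1 (.inv (.bad 1)) (.split 5 2 (.inv (.bad 0)) (.split 5 4 (.inv (.bad 0)) (.split 5 8 (.inv (.bad 0)) (.inv (.bad 0))))))))))))))))))))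

def invC : List ℕ := invl l3A

theorem rel_zC : Rep zC⁻¹ invC := rep_inv rep_zC

theorem tree1_ok : check [(invC, l3A)] 2 (fun _ _ => false) tree1 (cuts ((List.range 24).map fun i =>
    (i, Nat.xor (if i < 6 then 63 else 16777152) (2 ^ i)))) = true := by decide +kernel

theorem no_one {s : Equiv.Perm GolayPt} (hs : s ∈ M24) (h2 : s * s = 1) (hc : s * zC = zC * s) (h0 : ∀ p, s p ≠ p) :
    False := by
  have hpres : ∀ p, p ∈ fixF zC ↔ s p ∈ fixF zC := by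
    intro p
    rw [mem_fixF, mem_fixF]
    have h1 : s (zC p) = zC (s p) := congrArg (fun f : Equiv.Perm GolayPt => f p) hc
    rw [← h1]
    exact (s.injective.eq_iff).symm
  obtain ⟨l, k, _, h⟩ := check_spec hs (R := [(invC, l3A)]) (by
      intro r hr
      rw [List.mem_singleton] at hr
      subst hr
      exact ⟨zC, zC, rel_zC, rep_zC, hc⟩) (e := 2) (fun _ => h2) (fun h => absurd h (by norm_num)) _ tree1 _ tree1_ok
      (val_cuts _ (by
        intro x hx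
        rw [List.mem_map] at hx
        obtain ⟨i, hi, rfl⟩ := hx
        rw [List.mem_range] at hi
        have h3 : ix (s (pt i)) ≠ i := by
          intro h
          apply h0 (pt i)
          apply ix_injective
          rw [h, ix_pt i hi]
        have h4 := hpres (pt i)
        rw [fix_zC, mem_ofMask, mem_ofMask, ix_pt i hi] at h4
        have h5 : ∀ i < 24, ∀ j < 24, j ≠ i → (Nat.testBit 63 i = true ↔ Nat.testBit 63 j = true) →
            Nat.testBit (Nat.xor (if i < 6 then 63 else 16777152) (2 ^ i)) j = true := by decide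
        exact h5 i hi _ (ix_lt _) h3 h4))
  exact absurd h (by decide)

theorem modThree {x : Equiv.Perm GolayPt} (h3 : orderOf x = 3) {F : Finset GolayPt} (hF : ∀ p, p ∈ F ↔ x p ∈ F)
    (h0 : ∀ p ∈ F, x p ≠ p) : F.card % 3 = 0 := by
  haveI : Fact (Nat.Prime 3) := ⟨Nat.prime_three⟩
  let f : Function.End ↥F := fun p => ⟨x p.1, (hF p.1).1 p.2⟩
  have hf : f ^ 3 ^ 1 = 1 := by
    have h1 : x ^ 3 = 1 := by rw [← h3]; exact pow_orderOf_eq_one x
    funext p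
    apply Subtype.ext
    have h2 : ∀ n : ℕ, (((f ^ n) p : ↥F) : GolayPt) = (x ^ n) p := by
      intro n
      induction n with
      | zero => rfl
      | succ n ih => rw [pow_succ', pow_succ', Equiv.Perm.mul_apply, ← ih]; rfl
    rw [h2, pow_one, h1]; rfl
  have h4 := Equiv.Perm.card_fixedPoints_modEq hf
  have h5 : Fintype.card (Function.fixedPoints f) = 0 := by
    rw [Fintype.card_eq_zero_iff]
    constructor
    rintro ⟨p, hp⟩
    exact h0 p.1 p.2 (congrArg Subtype.val hp)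
  rw [h5, Fintype.card_coe] at h4
  exact h4

/-- If an element of order 3 and an involution of the group of the length-24 code commute, then either the element of order 3 has exactly 6 fixed points and the involution exactly 8, or both are fixed-point-free. -/
theorem result (x s : Equiv.Perm Cfsg.GolayPt) (hx : x ∈ Cfsg.M24) (hs : s ∈ Cfsg.M24) (h₃ : orderOf x = 3) (h₂ : orderOf s = 2) (hc : Commute x s) : ((Finset.univ.filter fun p => x p = p).card = 6 ∧ (Finset.univ.filter fun p => s p = p).card = 8) ∨ ((Finset.univ.filter fun p => x p = p).card = 0 ∧ (Finset.univ.filter fun p => s p = p).card = 0) := by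
  obtain ⟨hx3, hx1⟩ := orderOf_three h₃
  obtain ⟨hs2, hs1⟩ := orderOf_two h₂
  obtain ⟨c, hcM, hcx⟩ := three_class hx h₃
  have hfx := three_fix hx h₃
  have hfs := inv_fix hs h₂
  have hcom : ∀ p, x (s p) = s (x p) := fun p => congrArg (fun f : Equiv.Perm GolayPt => f p) hc.eq
  have e1 : (Finset.univ.filter fun p => x p = p) = fixF x := by ext p; simp [mem_fixF]
  have e2 : (Finset.univ.filter fun p => s p = p) = fixF s := by ext p; simp [mem_fixF]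
  rw [e1, e2]
  rcases hfs with hs8 | hs0
  · have h8 : (fixF s).card = 8 := hs8.2
    left
    refine ⟨?_, h8⟩
    rcases hfx with h | h
    · exact h
    · exfalso
      have h9 := modThree h₃ (F := fixF s) (fun p => by
        rw [mem_fixF, mem_fixF, ← hcom]
        exact x.injective.eq_iff.symm) (fun p _ => card_zero_iff.1 h p)
      rw [h8] at h9
      omega
  · right
    refine ⟨?_, hs0⟩
    rcases hfx with h | h
    · exfalso
      obtain ⟨c, hcM, hcx⟩ := class_C hx h₃ (by rw [h]; norm_num)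
      have h1 : c * s * c⁻¹ ∈ M24 := mul_mem (mul_mem hcM hs) (inv_mem hcM)
      apply no_one h1
      · have : c * s * c⁻¹ * (c * s * c⁻¹) = c * (s * s) * c⁻¹ := by group
        rw [this, hs2]; group
      · rw [← hcx]
        have e3 : c * s * c⁻¹ * (c * x * c⁻¹) = c * (s * x) * c⁻¹ := by group
        have e4 : c * x * c⁻¹ * (c * s * c⁻¹) = c * (x * s) * c⁻¹ := by group
        rw [e3, e4, hc.eq]
      · have h2 : (fixF (c * s * c⁻¹)).card = 0 := by rw [card_fix_conj, hs0]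
        exact card_zero_iff.1 h2
    · exact h

end Cfsg.Agent.S5608
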