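import Cfsg.Statements.S5609
import Cfsg.Agent.H28_Orb
import Cfsg.Agent.H7_PairUse

set_option autoImplicit false
open scoped Pointwise
open Cfsg

namespace Cfsg.Agent.S5609

open Cfsg.Agent.H28.Orb Cfsg.Agent.H7.Golay Cfsg.Agent.H7.Oct Cfsg.Agent.H7.M24 Cfsg.Agent.H7.PairFacts
open scoped Pointwise

theorem adj_iff {o o' : ↥Cfsg.octads} : (Cfsg.blockGraph Cfsg.octads).Adj o o' ↔ ((o : Finset GolayPt) ∩ o').card = 0 := by
  unfold Cfsg.blockGraph
  rw [SimpleGraph.fromRel_adj, Finset.card_eq_zero, ← Finset.disjoint_iff_inter_eq_empty]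
  constructor
  · rintro ⟨_, h | h⟩
    · exact h
    · exact h.symm
  · intro h
    refine ⟨fun hne => ?_, Or.inl h⟩
    rw [hne] at h
    have h1 : (o' : Finset GolayPt) = ∅ := by simpa using h
    have h2 := o'.2.2
    rw [h1] at h2
    simp at h2

theorem std_pair (k m : ℕ) (hm : m ∈ octL) (hk : (O0 ∩ ofMask m).card = k)
    (htr : ∀ {o : Finset GolayPt}, o ∈ Cfsg.octads → ∀ s ∈ DD o k, ∀ s' ∈ DD o k, ∃ g ∈ Cfsg.M24, g • o = o ∧ g • s = s')
    {o o' : Finset GolayPt} (ho : o ∈ Cfsg.octads) (ho' : o' ∈ Cfsg.octads) (h : (o ∩ o').card = k) :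
    ∃ g ∈ Cfsg.M24, g • O0 = o ∧ g • ofMask m = o' := by
  obtain ⟨g, hg, h1⟩ := std_o ho
  have h2 : g • o' ∈ DD O0 k := by
    refine ⟨mem_octads_iff.1 ((smul_mem_octads_iff hg).2 ho'), ?_⟩
    rw [← h1, ← Finset.smul_finset_inter, Finset.card_smul_finset, h]
  have h3 : ofMask m ∈ DD O0 k := ⟨by rw [mask_ofMask (octL_lt hm)]; exact hm, hk⟩
  obtain ⟨g', hg', h4, h5⟩ := htr O0_mem _ h3 _ h2
  refine ⟨g⁻¹ * g', mul_mem (inv_mem hg) hg', ?_, ?_⟩
  · rw [mul_smul, h4, inv_smul_eq_iff, h1]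
  · rw [mul_smul, h5, inv_smul_smul]

theorem smul_card_inter (g : Equiv.Perm GolayPt) (s t : Finset GolayPt) : ((g • s) ∩ (g • t)).card = (s ∩ t).card := by
  rw [← Finset.smul_finset_inter, Finset.card_smul_finset]

theorem mem_oct {m : ℕ} (h : (isCode m && Nat.beq (pc m) 8) = true) : m ∈ octL := by
  rw [Bool.and_eq_true] at h
  exact mem_octL.2 ⟨mem_codeL_iff.2 h.1, Nat.eq_of_beq_eq_true h.2⟩

theorem four {o o' : Finset GolayPt} (ho : o ∈ Cfsg.octads) (ho' : o' ∈ Cfsg.octads) (h : (o ∩ o').card = 4) :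
    ∃ a ∈ Cfsg.octads, (o ∩ a).card = 0 ∧ (a ∩ o').card = 0 := by
  have hm : 2220640 ∈ octL := mem_oct (by decide +kernel)
  obtain ⟨g, hg, h1, h2⟩ := std_pair 4 5902343 (mem_oct (by decide +kernel))
    (by rw [show O0 = ofMask 5279 from rfl, inter_card]; decide +kernel) (fun h => tr4 h) ho ho' h
  refine ⟨g • ofMask 2220640, (smul_mem_octads_iff hg).2 ((ofMask_mem_octads (octL_lt hm)).2 hm), ?_, ?_⟩
  · rw [← h1, smul_card_inter, show O0 = ofMask 5279 from rfl, inter_card]; decide +kernel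
  · rw [← h2, smul_card_inter, inter_card]; decide +kernel

theorem two {o o' : Finset GolayPt} (ho : o ∈ Cfsg.octads) (ho' : o' ∈ Cfsg.octads) (h : (o ∩ o').card = 2) :
    ∃ a ∈ Cfsg.octads, ∃ b ∈ Cfsg.octads, (o ∩ a).card = 0 ∧ (a ∩ b).card = 0 ∧ (b ∩ o').card = 0 := by
  have hm : 11952160 ∈ octL := mem_oct (by decide +kernel)
  have hm' : 525274 ∈ octL := mem_oct (by decide +kernel)
  obtain ⟨g, hg, h1, h2⟩ := std_pair 2 13062145 (mem_oct (by decide +kernel))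
    (by rw [show O0 = ofMask 5279 from rfl, inter_card]; decide +kernel) (fun h => tr2 h) ho ho' h
  refine ⟨g • ofMask 11952160, (smul_mem_octads_iff hg).2 ((ofMask_mem_octads (octL_lt hm)).2 hm),
    g • ofMask 525274, (smul_mem_octads_iff hg).2 ((ofMask_mem_octads (octL_lt hm')).2 hm'), ?_, ?_, ?_⟩
  · rw [← h1, smul_card_inter, show O0 = ofMask 5279 from rfl, inter_card]; decide +kernel
  · rw [smul_card_inter, inter_card]; decide +kernel
  · rw [← h2, smul_card_inter, inter_card]; decide +kernel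

theorem no_two {o o' a : Finset GolayPt} (ho : o ∈ Cfsg.octads) (ho' : o' ∈ Cfsg.octads) (ha : a ∈ Cfsg.octads)
    (h : (o ∩ o').card = 2) (h1 : (o ∩ a).card = 0) (h2 : (a ∩ o').card = 0) : False := by
  rw [Finset.card_eq_zero] at h1 h2
  have hs := compl_mem_supports (symmDiff_mem_supports ho.1 ha.1)
  have hd : Disjoint o a := Finset.disjoint_iff_inter_eq_empty.2 h1
  have hd' : Disjoint a o' := Finset.disjoint_iff_inter_eq_empty.2 h2
  have e : symmDiff o a = o ∪ a := by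
    rw [symmDiff_eq_sup_sdiff_inf, Finset.inf_eq_inter, h1, Finset.sdiff_empty, Finset.sup_eq_union]
  rw [e] at hs
  have h24 : Fintype.card GolayPt = 24 := by decide
  have hb : (o ∪ a)ᶜ ∈ Cfsg.octads := by
    refine mem_octads.2 ⟨hs, ?_⟩
    rw [Finset.card_compl, Finset.card_union_of_disjoint hd, ho.2, ha.2, h24]
  have h3 := Cfsg.Agent.H7.PairUse.octad_inter hb ho'
  have h4 : o' = (o' ∩ o) ∪ (o' ∩ (o ∪ a)ᶜ) := by
    ext p
    simp only [Finset.mem_union, Finset.mem_inter, Finset.mem_compl]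
    constructor
    · intro hp
      by_cases hpo : p ∈ o
      · exact Or.inl ⟨hp, hpo⟩
      · refine Or.inr ⟨hp, ?_⟩
        rintro (h | h)
        · exact hpo h
        · exact Finset.disjoint_left.1 hd' h hp
    · rintro (h | h)
      · exact h.1
      · exact h.1
  have h5 : Disjoint (o' ∩ o) (o' ∩ (o ∪ a)ᶜ) := by
    rw [Finset.disjoint_left]
    intro p hp hp'
    simp only [Finset.mem_inter, Finset.mem_compl, Finset.mem_union] at hp hp'
    exact hp'.2 (Or.inl hp.2)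
  have h6 := congrArg Finset.card h4
  rw [Finset.card_union_of_disjoint h5, ho'.2, Finset.inter_comm o' o, h, Finset.inter_comm o'] at h6
  omega

theorem reach (u v : ↥Cfsg.octads) : ∃ p : (Cfsg.blockGraph Cfsg.octads).Walk u v,
    p.length ≤ 3 ∧ (((u : Finset GolayPt) ∩ v).card = 4 → p.length = 2) := by
  rcases Cfsg.Agent.H7.PairUse.octad_inter u.2 v.2 with h | h | h | h
  · exact ⟨SimpleGraph.Walk.cons (adj_iff.2 h) SimpleGraph.Walk.nil, by simp, fun h' => by omega⟩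
  · obtain ⟨a, ha, b, hb, h1, h2, h3⟩ := two u.2 v.2 h
    exact ⟨SimpleGraph.Walk.cons (v := ⟨a, ha⟩) (adj_iff.2 h1) (SimpleGraph.Walk.cons (v := ⟨b, hb⟩) (adj_iff.2 h2)
      (SimpleGraph.Walk.cons (adj_iff.2 h3) SimpleGraph.Walk.nil)), by simp, fun h' => by omega⟩
  · obtain ⟨a, ha, h1, h2⟩ := four u.2 v.2 h
    exact ⟨SimpleGraph.Walk.cons (v := ⟨a, ha⟩) (adj_iff.2 h1) (SimpleGraph.Walk.cons (adj_iff.2 h2)
      SimpleGraph.Walk.nil), by simp, fun _ => by simp⟩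
  · have : u = v := Subtype.ext (Cfsg.Agent.H7.PairUse.octad_inter_eight u.2 v.2 h)
    subst this
    exact ⟨SimpleGraph.Walk.nil, by simp, fun h' => by omega⟩

/-- In the graph on the 759 octads of the length-24 code in which two octads are adjacent when they are disjoint, the graph is connected (of diameter 3) and two distinct octads are at distance 1, 2 or 3 exactly when they meet in 0, 4 or 2 points respectively. -/
theorem result (o o' : Finset Cfsg.GolayPt) (ho : o ∈ Cfsg.octads) (ho' : o' ∈ Cfsg.octads) (hne : o ≠ o') : (Cfsg.blockGraph Cfsg.octads).Connected ∧ ((Cfsg.blockGraph Cfsg.octads).dist ⟨o, ho⟩ ⟨o', ho'⟩ = 1 ↔ (o ∩ o').card = 0) ∧ ((Cfsg.blockGraph Cfsg.octads).dist ⟨o, ho⟩ ⟨o', ho'⟩ = 2 ↔ (o ∩ o').card = 4) ∧ ((Cfsg.blockGraph Cfsg.octads).dist ⟨o, ho⟩ ⟨o', ho'⟩ = 3 ↔ (o ∩ o').card = 2) := by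
  have hconn : (Cfsg.blockGraph Cfsg.octads).Connected := by
    haveI : Nonempty ↥Cfsg.octads := ⟨⟨o, ho⟩⟩
    refine ⟨fun u v => ?_⟩
    obtain ⟨p, _⟩ := reach u v
    exact ⟨p⟩
  have h1 : (Cfsg.blockGraph Cfsg.octads).dist ⟨o, ho⟩ ⟨o', ho'⟩ = 1 ↔ (o ∩ o').card = 0 := by
    rw [SimpleGraph.dist_eq_one_iff_adj, adj_iff]
  have h0 : (Cfsg.blockGraph Cfsg.octads).dist ⟨o, ho⟩ ⟨o', ho'⟩ ≠ 0 := by
    rw [Ne, hconn.dist_eq_zero_iff]
    intro h
    exact hne (congrArg Subtype.val h)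
  obtain ⟨p, hp, hp4⟩ := reach ⟨o, ho⟩ ⟨o', ho'⟩
  have hle : (Cfsg.blockGraph Cfsg.octads).dist ⟨o, ho⟩ ⟨o', ho'⟩ ≤ 3 := (SimpleGraph.dist_le p).trans hp
  have h2 : (o ∩ o').card = 4 → (Cfsg.blockGraph Cfsg.octads).dist ⟨o, ho⟩ ⟨o', ho'⟩ = 2 := by
    intro h
    have h3 := SimpleGraph.dist_le p
    rw [hp4 h] at h3
    have h4 : (Cfsg.blockGraph Cfsg.octads).dist ⟨o, ho⟩ ⟨o', ho'⟩ ≠ 1 := by
      rw [Ne, h1]; omega
    omega
  have h3 : (o ∩ o').card = 2 → (Cfsg.blockGraph Cfsg.octads).dist ⟨o, ho⟩ ⟨o', ho'⟩ ≠ 2 := by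
    intro h hd
    obtain ⟨q, hq⟩ := hconn.exists_walk_length_eq_dist ⟨o, ho⟩ ⟨o', ho'⟩
    rw [hd] at hq
    match q, hq with
    | SimpleGraph.Walk.cons (v := a) e1 (SimpleGraph.Walk.cons e2 SimpleGraph.Walk.nil), _ =>
      exact no_two ho ho' a.2 h (adj_iff.1 e1) (adj_iff.1 e2)
  have h8 : (o ∩ o').card ≠ 8 := fun h => hne (Cfsg.Agent.H7.PairUse.octad_inter_eight ho ho' h)
  refine ⟨hconn, h1, ?_, ?_⟩
  · constructor
    · intro h
      rcases Cfsg.Agent.H7.PairUse.octad_inter ho ho' with h' | h' | h' | h'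
      · have := h1.2 h'; omega
      · exact absurd h (h3 h')
      · exact h'
      · exact absurd h' h8
    · exact h2
  · constructor
    · intro h
      rcases Cfsg.Agent.H7.PairUse.octad_inter ho ho' with h' | h' | h' | h'
      · have := h1.2 h'; omega
      · exact h'
      · have := h2 h'; omega
      · exact absurd h' h8
    · intro h
      have h4 : (Cfsg.blockGraph Cfsg.octads).dist ⟨o, ho⟩ ⟨o', ho'⟩ ≠ 1 := by
        rw [Ne, h1]; omega
      have := h3 h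
      omega

end Cfsg.Agent.S5609
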