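import Cfsg.Statements.S5610
import Cfsg.Agent.H28_OrbO

set_option autoImplicit false
open scoped Pointwise
open Cfsg

namespace Cfsg.Agent.S5610

open Cfsg.Agent.H28.OrbO

/-- The stabiliser of an octad in the group of the length-24 code has exactly three orbits on the 3795 trios, of sizes 15, 420 and 3360, and exactly three orbits on the 1771 sextets, of sizes 35, 840 and 896. -/
theorem result (o : Finset Cfsg.GolayPt) (ho : o ∈ Cfsg.octads) : (∃ X₁ ∈ Cfsg.trios, ∃ X₂ ∈ Cfsg.trios, ∃ X₃ ∈ Cfsg.trios, (MulAction.orbit ↥(MulAction.stabilizer Cfsg.M24 o) X₁).ncard = 15 ∧ (MulAction.orbit ↥(MulAction.stabilizer Cfsg.M24 o) X₂).ncard = 420 ∧ (MulAction.orbit ↥(MulAction.stabilizer Cfsg.M24 o) X₃).ncard = 3360 ∧ Cfsg.trios = MulAction.orbit ↥(MulAction.stabilizer Cfsg.M24 o) X₁ ∪ MulAction.orbit ↥(MulAction.stabilizer Cfsg.M24 o) X₂ ∪ MulAction.orbit ↥(MulAction.stabilizer Cfsg.M24 o)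 X₃) ∧ (∃ Y₁ ∈ Cfsg.sextets, ∃ Y₂ ∈ Cfsg.sextets, ∃ Y₃ ∈ Cfsg.sextets, (MulAction.orbit ↥(MulAction.stabilizer Cfsg.M24 o) Y₁).ncard = 35 ∧ (MulAction.orbit ↥(MulAction.stabilizer Cfsg.M24 o) Y₂).ncard = 840 ∧ (MulAction.orbit ↥(MulAction.stabilizer Cfsg.M24 o) Y₃).ncard = 896 ∧ Cfsg.sextets = MulAction.orbit ↥(MulAction.stabilizer Cfsg.M24 o) Y₁ ∪ MulAction.orbit ↥(MulAction.stabilizer Cfsg.M24 o) Y₂ ∪ MulAction.orbit ↥(MulAction.stabilizer Cfsg.M24 o) Y₃) := by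
  have hX := std ho
  obtain ⟨YT1, mT1, -, cT1, oT1⟩ := orbT1 hX
  obtain ⟨YT2, mT2, -, cT2, oT2⟩ := orbT2 hX
  obtain ⟨YT3, mT3, -, cT3, oT3⟩ := orbT3 hX
  obtain ⟨YS2, mS2, -, cS2, oS2⟩ := orbS2 hX
  obtain ⟨YS4, mS4, -, cS4, oS4⟩ := orbS4 hX
  obtain ⟨YS6, mS6, -, cS6, oS6⟩ := orbS6 hX
  refine ⟨⟨YT1, mT1, YT2, mT2, YT3, mT3, cT1, cT2, cT3, ?_⟩,
    ⟨YS2, mS2, YS4, mS4, YS6, mS6, cS2, cS4, cS6, ?_⟩⟩
  · rw [oT1, oT2, oT3]
    ext s
    simp only [Set.mem_union, Set.mem_setOf_eq]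
    constructor
    · intro hs
      have h := allT hX (s := s) hs
      simp only [List.mem_cons, List.not_mem_nil, or_false] at h
      rcases h with h | h | h
      · exact Or.inl (Or.inl ⟨hs, h⟩)
      · exact Or.inl (Or.inr ⟨hs, h⟩)
      · exact Or.inr ⟨hs, h⟩
    · rintro ((h | h) | h) <;> exact h.1
  · rw [oS2, oS4, oS6]
    ext s
    simp only [Set.mem_union, Set.mem_setOf_eq]
    constructor
    · intro hs
      have h := allS hX (s := s) hs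
      simp only [List.mem_cons, List.not_mem_nil, or_false] at h
      rcases h with h | h | h
      · exact Or.inl (Or.inl ⟨hs, h⟩)
      · exact Or.inl (Or.inr ⟨hs, h⟩)
      · exact Or.inr ⟨hs, h⟩
    · rintro ((h | h) | h) <;> exact h.1

end Cfsg.Agent.S5610
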