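import Cfsg.Statements.S5611
import Cfsg.Agent.H28_OrbStd

set_option autoImplicit false
open scoped Pointwise
open Cfsg

namespace Cfsg.Agent.S5611

open Cfsg.Agent.H28.OrbStd

/-- The stabiliser of a sextet in the group of the length-24 code has exactly three orbits on the 759 octads, of sizes 15, 360 and 384, and exactly four orbits on the 3795 trios, of sizes 15, 180, 720 and 2880. -/
theorem result (S : Finset (Finset Cfsg.GolayPt)) (hS : S ∈ Cfsg.sextets) : (∃ X₁ ∈ Cfsg.octads, ∃ X₂ ∈ Cfsg.octads, ∃ X₃ ∈ Cfsg.octads, (MulAction.orbit ↥(MulAction.stabilizer Cfsg.M24 S) X₁).ncard = 15 ∧ (MulAction.orbit ↥(MulAction.stabilizer Cfsg.M24 S) X₂).ncard = 360 ∧ (MulAction.orbit ↥(MulAction.stabilizer Cfsg.M24 S) X₃).ncard = 384 ∧ Cfsg.octads = MulAction.orbit ↥(MulAction.stabilizer Cfsg.M24 S) X₁ ∪ MulAction.orbit ↥(MulAction.stabilizer Cfsg.M24 S) X₂ ∪ MulAction.orbit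 ↥(MulAction.stabilizer Cfsg.M24 S) X₃) ∧ (∃ Y₁ ∈ Cfsg.trios, ∃ Y₂ ∈ Cfsg.trios, ∃ Y₃ ∈ Cfsg.trios, ∃ Y₄ ∈ Cfsg.trios, (MulAction.orbit ↥(MulAction.stabilizer Cfsg.M24 S) Y₁).ncard = 15 ∧ (MulAction.orbit ↥(MulAction.stabilizer Cfsg.M24 S) Y₂).ncard = 180 ∧ (MulAction.orbit ↥(MulAction.stabilizer Cfsg.M24 S) Y₃).ncard = 720 ∧ (MulAction.orbit ↥(MulAction.stabilizer Cfsg.M24 S) Y₄).ncard = 2880 ∧ Cfsg.trios = MulAction.orbit ↥(MulAction.stabilizer Cfsg.M24 S) Y₁ ∪ MulAction.orbit ↥(MulAction.stabilizer Cfsg.M24 S) Y₂ ∪ MulAction.orbit ↥(MulAction.stabilizer Cfsg.M24 S) Y₃ ∪ MulAction.orbit ↥(MulAction.stabilizer Cfsg.M24 S) Y₄) := by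
  have hX := std_S hS Cfsg.Agent.H28.OrbS.N0_mem
  obtain ⟨YO2, mO2, -, cO2, oO2⟩ := Cfsg.Agent.H28.OrbS.orbO2 hX
  obtain ⟨YO4, mO4, -, cO4, oO4⟩ := Cfsg.Agent.H28.OrbS.orbO4 hX
  obtain ⟨YO6, mO6, -, cO6, oO6⟩ := Cfsg.Agent.H28.OrbS.orbO6 hX
  obtain ⟨YT6, mT6, -, cT6, oT6⟩ := Cfsg.Agent.H28.OrbS.orbT6 hX
  obtain ⟨YT10, mT10, -, cT10, oT10⟩ := Cfsg.Agent.H28.OrbS.orbT10 hX
  obtain ⟨YT12, mT12, -, cT12, oT12⟩ := Cfsg.Agent.H28.OrbS.orbT12 hX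
  obtain ⟨YT16, mT16, -, cT16, oT16⟩ := Cfsg.Agent.H28.OrbS.orbT16 hX
  refine ⟨⟨YO2, mO2, YO4, mO4, YO6, mO6, cO2, cO4, cO6, ?_⟩,
    ⟨YT6, mT6, YT10, mT10, YT12, mT12, YT16, mT16, cT6, cT10, cT12, cT16, ?_⟩⟩
  · rw [oO2, oO4, oO6]
    ext s
    simp only [Set.mem_union, Set.mem_setOf_eq]
    constructor
    · intro hs
      have h := Cfsg.Agent.H28.OrbS.allO hX (s := s) hs
      simp only [List.mem_cons, List.not_mem_nil, or_false] at h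
      rcases h with h | h | h
      · exact Or.inl (Or.inl (⟨hs, h⟩))
      · exact Or.inl (Or.inr ⟨hs, h⟩)
      · exact Or.inr ⟨hs, h⟩
    · rintro ((h | h) | h) <;> exact h.1
  · rw [oT6, oT10, oT12, oT16]
    ext s
    simp only [Set.mem_union, Set.mem_setOf_eq]
    constructor
    · intro hs
      have h := Cfsg.Agent.H28.OrbS.allT hX (s := s) hs
      simp only [List.mem_cons, List.not_mem_nil, or_false] at h
      rcases h with h | h | h | h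
      · exact Or.inl (Or.inl (Or.inl (⟨hs, h⟩)))
      · exact Or.inl (Or.inl (Or.inr ⟨hs, h⟩))
      · exact Or.inl (Or.inr ⟨hs, h⟩)
      · exact Or.inr ⟨hs, h⟩
    · rintro (((h | h) | h) | h) <;> exact h.1

end Cfsg.Agent.S5611
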