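import Cfsg.Statements.S5612
import Cfsg.Agent.H28_OrbStd

set_option autoImplicit false
open scoped Pointwise
open Cfsg

namespace Cfsg.Agent.S5612

open Cfsg.Agent.H28.OrbStd

/-- The stabiliser of a trio in the group of the length-24 code has exactly three orbits on the 759 octads, of sizes 3, 84 and 672, and exactly four orbits on the 1771 sextets, of sizes 7, 84, 336 and 1344. -/
theorem result (T : Finset (Finset Cfsg.GolayPt)) (hT : T ∈ Cfsg.trios) : (∃ X₁ ∈ Cfsg.octads, ∃ X₂ ∈ Cfsg.octads, ∃ X₃ ∈ Cfsg.octads, (MulAction.orbit ↥(MulAction.stabilizer Cfsg.M24 T) X₁).ncard = 3 ∧ (MulAction.orbit ↥(MulAction.stabilizer Cfsg.M24 T) X₂).ncard = 84 ∧ (MulAction.orbit ↥(MulAction.stabilizer Cfsg.M24 T) X₃).ncard = 672 ∧ Cfsg.octads = MulAction.orbit ↥(MulAction.stabilizer Cfsg.M24 T) X₁ ∪ MulAction.orbit ↥(MulAction.stabilizer Cfsg.M24 T) X₂ ∪ MulAction.orbit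 ↥(MulAction.stabilizer Cfsg.M24 T) X₃) ∧ (∃ Y₁ ∈ Cfsg.sextets, ∃ Y₂ ∈ Cfsg.sextets, ∃ Y₃ ∈ Cfsg.sextets, ∃ Y₄ ∈ Cfsg.sextets, (MulAction.orbit ↥(MulAction.stabilizer Cfsg.M24 T) Y₁).ncard = 7 ∧ (MulAction.orbit ↥(MulAction.stabilizer Cfsg.M24 T) Y₂).ncard = 84 ∧ (MulAction.orbit ↥(MulAction.stabilizer Cfsg.M24 T) Y₃).ncard = 336 ∧ (MulAction.orbit ↥(MulAction.stabilizer Cfsg.M24 T) Y₄).ncard = 1344 ∧ Cfsg.sextets = MulAction.orbit ↥(MulAction.stabilizer Cfsg.M24 T) Y₁ ∪ MulAction.orbit ↥(MulAction.stabilizer Cfsg.M24 T) Y₂ ∪ MulAction.orbit ↥(MulAction.stabilizer Cfsg.M24 T) Y₃ ∪ MulAction.orbit ↥(MulAction.stabilizer Cfsg.M24 T) Y₄) := by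
  have hX := std_T hT Cfsg.Agent.H28.OrbT.n0_mem
  obtain ⟨YO1, mO1, -, cO1, oO1⟩ := Cfsg.Agent.H28.OrbT.orbO1 hX
  obtain ⟨YO2, mO2, -, cO2, oO2⟩ := Cfsg.Agent.H28.OrbT.orbO2 hX
  obtain ⟨YO3, mO3, -, cO3, oO3⟩ := Cfsg.Agent.H28.OrbT.orbO3 hX
  obtain ⟨YS6, mS6, -, cS6, oS6⟩ := Cfsg.Agent.H28.OrbT.orbS6 hX
  obtain ⟨YS10, mS10, -, cS10, oS10⟩ := Cfsg.Agent.H28.OrbT.orbS10 hX
  obtain ⟨YS12, mS12, -, cS12, oS12⟩ := Cfsg.Agent.H28.OrbT.orbS12 hX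
  obtain ⟨YS16, mS16, -, cS16, oS16⟩ := Cfsg.Agent.H28.OrbT.orbS16 hX
  refine ⟨⟨YO1, mO1, YO2, mO2, YO3, mO3, cO1, cO2, cO3, ?_⟩,
    ⟨YS6, mS6, YS10, mS10, YS12, mS12, YS16, mS16, cS6, cS10, cS12, cS16, ?_⟩⟩
  · rw [oO1, oO2, oO3]
    ext s
    simp only [Set.mem_union, Set.mem_setOf_eq]
    constructor
    · intro hs
      have h := Cfsg.Agent.H28.OrbT.allO hX (s := s) hs
      simp only [List.mem_cons, List.not_mem_nil, or_false] at h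
      rcases h with h | h | h
      · exact Or.inl (Or.inl (⟨hs, h⟩))
      · exact Or.inl (Or.inr ⟨hs, h⟩)
      · exact Or.inr ⟨hs, h⟩
    · rintro ((h | h) | h) <;> exact h.1
  · rw [oS6, oS10, oS12, oS16]
    ext s
    simp only [Set.mem_union, Set.mem_setOf_eq]
    constructor
    · intro hs
      have h := Cfsg.Agent.H28.OrbT.allS hX (s := s) hs
      simp only [List.mem_cons, List.not_mem_nil, or_false] at h
      rcases h with h | h | h | h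
      · exact Or.inl (Or.inl (Or.inl (⟨hs, h⟩)))
      · exact Or.inl (Or.inl (Or.inr ⟨hs, h⟩))
      · exact Or.inl (Or.inr ⟨hs, h⟩)
      · exact Or.inr ⟨hs, h⟩
    · rintro (((h | h) | h) | h) <;> exact h.1

end Cfsg.Agent.S5612
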