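import Cfsg.Statements.S5614
import Cfsg.Agent.H28_Orb
import Cfsg.Agent.H7_PairUse
import Cfsg.Agent.H28_OctV

set_option autoImplicit false
open scoped Pointwise
open Cfsg

namespace Cfsg.Agent.S5614

open Cfsg.Agent.H28.Orb Cfsg.Agent.H7.Golay Cfsg.Agent.H7.Oct Cfsg.Agent.H7.M24 Cfsg.Agent.H7.PairFacts Cfsg.Agent.H28.Tree Cfsg.Agent.H28.Sxt Cfsg.Agent.H28.OctV
open scoped Pointwise

/-- test -/
noncomputable def Q6 (l _k : List ℕ) : Bool := !(Nat.beq (act l 11654144) 11654144) || beqL l (List.range 24)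

theorem tree6_ok : check [] 0 Q6 treeV (imgs [(0, 0), (1, 1), (2, 2), (3, 3), (4, 4), (7, 7)]) = true := by
  decide +kernel

theorem one_of_fix {g : Equiv.Perm GolayPt} (hM : g ∈ M24) (hf : ∀ i ∈ [7, 4, 3, 2, 1, 0], g (pt i) = pt i)
    (ho' : g • ofMask 11654144 = ofMask 11654144) : g = 1 := by
  obtain ⟨l, k, hl, hQ⟩ := check_spec hM (rels_nil g) (e := 0) (fun h => absurd h (by norm_num))
    (fun h => absurd h (by norm_num)) Q6 treeV _ tree6_ok (val_imgs _ (by
      intro x hx
      simp only [List.mem_cons, List.not_mem_nil, or_false] at hx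
      rcases hx with rfl | rfl | rfl | rfl | rfl | rfl
      · exact ⟨by norm_num, hf 0 (by decide)⟩
      · exact ⟨by norm_num, hf 1 (by decide)⟩
      · exact ⟨by norm_num, hf 2 (by decide)⟩
      · exact ⟨by norm_num, hf 3 (by decide)⟩
      · exact ⟨by norm_num, hf 4 (by decide)⟩
      · exact ⟨by norm_num, hf 7 (by decide)⟩))
  rw [Q6, Bool.or_eq_true, Bool.not_eq_true'] at hQ
  have h1 : act l 11654144 = 11654144 := by
    have h2 := mask_smul hl (ofMask 11654144)
    rw [ho', mask_ofMask (by norm_num)] at h2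
    exact h2.symm
  rcases hQ with hQ | hQ
  · rw [h1] at hQ
    exact absurd hQ (by decide)
  · have h2 := beqL_eq hQ
    apply Equiv.ext
    intro p
    apply ix_injective
    rw [hl.2, h2]
    have : ∀ i < 24, (List.range 24).getD i 0 = i := by decide
    exact this _ (ix_lt p)

theorem std_pair (k m : ℕ) (hm : m ∈ octL) (hk : (O0 ∩ ofMask m).card = k)
    (htr : ∀ {o : Finset GolayPt}, o ∈ Cfsg.octads → ∀ s ∈ DD o k, ∀ s' ∈ DD o k, ∃ g ∈ Cfsg.M24, g • o = o ∧ g • s = s')
    {o o' : Finset GolayPt} (ho : o ∈ Cfsg.octads) (ho' : o' ∈ Cfsg.octads) (h : (o ∩ o').card = k) :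
    ∃ g ∈ Cfsg.M24, g • O0 = o ∧ g • ofMask m = o' := by
  obtain ⟨g, hg, h1⟩ := std_o ho
  have h2 : g • o' ∈ DD O0 k := by
    refine ⟨mem_octads_iff.1 ((smul_mem_octads_iff hg).2 ho'), ?_⟩
    rw [← h1, ← Finset.smul_finset_inter, Finset.card_smul_finset, h]
  have h3 : ofMask m ∈ DD O0 k := ⟨by rw [mask_ofMask (octL_lt hm)]; exact hm, hk⟩
  obtain ⟨g', hg', h4, h5⟩ := htr O0_mem _ h3 _ h2
  refine ⟨g⁻¹ * g', mul_mem (inv_mem hg) hg', ?_, ?_⟩
  · rw [mul_smul, h4, inv_smul_eq_iff, h1]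
  · rw [mul_smul, h5, inv_smul_smul]

theorem mem_oct {m : ℕ} (h : (isCode m && Nat.beq (pc m) 8) = true) : m ∈ octL := by
  rw [Bool.and_eq_true] at h
  exact mem_octL.2 ⟨mem_codeL_iff.2 h.1, Nat.eq_of_beq_eq_true h.2⟩

theorem inj_aux {o o' : Finset GolayPt} (ho : o ∈ Cfsg.octads) (ho' : o' ∈ Cfsg.octads) (h : (o ∩ o').card = 2)
    {g : Equiv.Perm GolayPt} (hg : g ∈ M24) (hgo : g • o' = o') (hf : ∀ p ∈ o \ o', g p = p) : g = 1 := by
  obtain ⟨c, hc, h1, h2⟩ := std_pair 2 11654144 (mem_oct (by decide +kernel))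
    (by rw [show O0 = ofMask 5279 from rfl, inter_card]; decide +kernel) (fun h => tr2 h) ho ho' h
  have h3 : c⁻¹ * g * c = 1 := by
    apply one_of_fix (mul_mem (mul_mem (inv_mem hc) hg) hc)
    · intro i hi
      have hi24 : i < 24 := by
        have : ∀ i ∈ [7, 4, 3, 2, 1, 0], i < 24 := by decide
        exact this i hi
      have h4 : c (pt i) ∈ o \ o' := by
        rw [Finset.mem_sdiff, ← h1, ← h2]
        constructor
        · apply Finset.smul_mem_smul_finset
          rw [show O0 = ofMask 5279 from rfl, mem_ofMask, ix_pt i hi24]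
          have : ∀ i ∈ [7, 4, 3, 2, 1, 0], Nat.testBit 5279 i = true := by decide
          exact this i hi
        · intro hc'
          have h5 := (Finset.smul_mem_smul_finset_iff c).1 hc'
          rw [mem_ofMask, ix_pt i hi24] at h5
          have : ∀ i ∈ [7, 4, 3, 2, 1, 0], Nat.testBit 11654144 i = false := by decide
          rw [this i hi] at h5
          exact absurd h5 (by decide)
      show c⁻¹ (g (c (pt i))) = pt i
      rw [hf _ h4]; exact c.symm_apply_apply _
    · rw [mul_smul, mul_smul, h2, hgo, inv_smul_eq_iff, h2]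
  have h4 : g = c * (c⁻¹ * g * c) * c⁻¹ := by group
  rw [h4, h3]; group

noncomputable def rHom (o o' : Finset GolayPt) : ↥(MulAction.stabilizer Cfsg.M24 o ⊓ MulAction.stabilizer Cfsg.M24 o') →*
    Equiv.Perm ↥(o \ o') :=
  MonoidHom.mk' (fun g => (g.1.1 : Equiv.Perm GolayPt).subtypePerm (fun p => by
    have h : (g.1.1 : Equiv.Perm GolayPt) • o = o := g.2.1
    have h' : (g.1.1 : Equiv.Perm GolayPt) • o' = o' := g.2.2
    have h2 : g.1.1 • (o \ o') = o \ o' := by
      rw [Finset.smul_finset_sdiff, h, h']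
    constructor
    · intro hp
      have : g.1.1 • p ∈ g.1.1 • (o \ o') := by rw [h2]; exact hp
      exact (Finset.smul_mem_smul_finset_iff _).1 this
    · intro hp
      have : g.1.1 • p ∈ g.1.1 • (o \ o') := Finset.smul_mem_smul_finset hp
      rw [h2] at this
      exact this)) (fun g g' => by ext p; rfl)

/-- In the group of the length-24 code, the joint stabiliser of two octads meeting in exactly two points is isomorphic to the symmetric group of degree 6. -/
theorem result (o o' : Finset Cfsg.GolayPt) (ho : o ∈ Cfsg.octads) (ho' : o' ∈ Cfsg.octads) (h₂ : (o ∩ o').card = 2) : Nonempty (↥(MulAction.stabilizer Cfsg.M24 o ⊓ MulAction.stabilizer Cfsg.M24 o') ≃* Equiv.Perm (Fin 6)) := by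
  have hinj : Function.Injective (rHom o o') := by
    rw [injective_iff_map_eq_one]
    intro g hg
    apply Subtype.ext
    apply Subtype.ext
    apply inj_aux ho ho' h₂ g.1.2 g.2.2
    intro p hp
    exact congrArg (fun f : Equiv.Perm ↥(o \ o') => ((f ⟨p, hp⟩ : ↥(o \ o')) : GolayPt)) hg
  have hcard : Nat.card ↥(MulAction.stabilizer Cfsg.M24 o ⊓ MulAction.stabilizer Cfsg.M24 o') = 720 := by
    have h1 := card_inf_stab o (DD o 2) (tr2 ho) (inv_DD o 2) (y := o') ⟨mem_octads_iff.1 ho', h₂⟩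
    rw [card_stab_o ho, card2 ho] at h1
    omega
  have h6 : (o \ o').card = 6 := by
    have h1 := Finset.card_sdiff_add_card_inter o o'
    rw [h₂, ho.2] at h1
    omega
  have hc2 : Nat.card (Equiv.Perm ↥(o \ o')) = 720 := by
    rw [Nat.card_perm, Nat.card_eq_fintype_card, Fintype.card_coe, h6]
    rfl
  have hbij : Function.Bijective (rHom o o') := by
    haveI : Finite ↥(MulAction.stabilizer Cfsg.M24 o ⊓ MulAction.stabilizer Cfsg.M24 o') :=
      Nat.finite_of_card_ne_zero (by rw [hcard]; norm_num)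
    rw [Nat.bijective_iff_injective_and_card]
    exact ⟨hinj, by rw [hcard, hc2]⟩
  have e : ↥(o \ o') ≃ Fin 6 := Fintype.equivFinOfCardEq (by rw [Fintype.card_coe, h6])
  exact ⟨(MulEquiv.ofBijective (rHom o o') hbij).trans (e.permCongrHom)⟩

end Cfsg.Agent.S5614
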