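import Cfsg.Statements.S5615
import Cfsg.Agent.H28_OctV

set_option autoImplicit false
open scoped Pointwise
open Cfsg

namespace Cfsg.Agent.S5615

open Cfsg.Agent.H28.OctV Cfsg.Agent.H28.OrbK Cfsg.Agent.H28.Sxt Cfsg.Agent.H28.SxtOrb Cfsg.Agent.H7.Golay
open scoped Pointwise

theorem step {o : Finset GolayPt} (ho : o ∈ Cfsg.octads) {T T' : Finset (Finset GolayPt)} (hT : T ∈ Cfsg.trios)
    (hT' : T' ∈ Cfsg.trios) (h : o ∈ T) (h' : o ∈ T') : ∃ g ∈ Cfsg.M24, g • o = o ∧ g • T = T' :=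
  H28.OrbO.transT1 (H28.OrbO.std ho) hT hT' ((nm_one_iff ho hT).2 h) ((nm_one_iff ho hT').2 h')

theorem stdP {o : Finset GolayPt} (ho : o ∈ Cfsg.octads) {T : Finset (Finset GolayPt)} (hT : T ∈ Cfsg.trios) (h : o ∈ T) :
    ∃ g ∈ Cfsg.M24, g • ((o, T) : Finset GolayPt × Finset (Finset GolayPt)) = (ofMask 5279, tr 88575001088) := by
  obtain ⟨g, hg, h1⟩ := H28.OrbO.std ho
  have hO : ofMask 5279 ∈ Cfsg.octads := by rw [← h1]; exact (H7.M24.smul_mem_octads_iff hg).2 ho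
  have hm : (88575001088 : ℕ) ∈ trioL := H28.OrbP.n1_mem
  have h2 : ofMask 5279 ∈ tr 88575001088 := (mem_L15 hm).1 (by decide)
  obtain ⟨g', hg', h3, h4⟩ := step hO ((smul_mem_trios_iff hg).2 hT) (trio_iff.2 ⟨_, hm, rfl⟩)
    (by rw [← h1]; exact Finset.smul_mem_smul_finset h) h2
  refine ⟨g' * g, mul_mem hg' hg, ?_⟩
  rw [Prod.smul_mk, mul_smul, mul_smul, h1, h3, h4]

/-- An octad of the length-24 code lies in exactly 15 trios; the stabiliser of the octad in the code's group acts doubly transitively on these 15 trios, and the kernel of this action is the pointwise stabiliser of the octad. -/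
theorem result (o : Finset Cfsg.GolayPt) (ho : o ∈ Cfsg.octads) : {T : Finset (Finset Cfsg.GolayPt) | T ∈ Cfsg.trios ∧ o ∈ T}.ncard = 15 ∧ (∀ T₁ T₂ T₁' T₂' : Finset (Finset Cfsg.GolayPt), T₁ ∈ Cfsg.trios → T₂ ∈ Cfsg.trios → T₁' ∈ Cfsg.trios → T₂' ∈ Cfsg.trios → o ∈ T₁ → o ∈ T₂ → o ∈ T₁' → o ∈ T₂' → T₁ ≠ T₂ → T₁' ≠ T₂' → ∃ g ∈ Cfsg.M24, g • o = o ∧ g • T₁ = T₁' ∧ g • T₂ = T₂') ∧ ∀ g ∈ Cfsg.M24, g • o = o → ((∀ T ∈ Cfsg.trios, o ∈ T → g • T = T) ↔ ∀ p ∈ o, g p = p) := by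
  refine ⟨?_, ?_, fun g hg hgo => trios_iff ho hg hgo⟩
  · have h1 := H28.OrbO.countT1 (H28.OrbO.std ho)
    have h2 : {T : Finset (Finset Cfsg.GolayPt) | T ∈ Cfsg.trios ∧ o ∈ T} = {s | s ∈ FT.X ∧ nm o s = 1} := by
      ext T
      simp only [Set.mem_setOf_eq]
      constructor
      · rintro ⟨h3, h4⟩; exact ⟨h3, (nm_one_iff ho h3).2 h4⟩
      · rintro ⟨h3, h4⟩; exact ⟨h3, (nm_one_iff ho h3).1 h4⟩
    rw [h2, h1]
  · intro T₁ T₂ T₁' T₂' m1 m2 m1' m2' o1 o2 o1' o2' h12 h12'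
    obtain ⟨g, hg, hgo, hg1⟩ := step ho m1 m1' o1 o1'
    have hX := stdP ho m1' o1'
    have h3 : g • T₂ ∈ Cfsg.trios := (smul_mem_trios_iff hg).2 m2
    have h4 : o ∈ g • T₂ := by
      have : g • o ∈ g • T₂ := Finset.smul_mem_smul_finset o2
      rwa [hgo] at this
    have h5 : g • T₂ ≠ T₁' := by
      rw [← hg1, Ne, smul_left_cancel_iff]; exact Ne.symm h12
    obtain ⟨k, hk, hk1, hk2⟩ := H28.OrbP.transT1 hX (s := g • T₂) (s' := T₂') h3 m2'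
      (by simp only [H28.OrbP.ivP]; rw [if_pos ⟨h4, h5⟩])
      (by simp only [H28.OrbP.ivP]; rw [if_pos ⟨o2', Ne.symm h12'⟩])
    rw [Prod.smul_mk, Prod.mk.injEq] at hk1
    refine ⟨k * g, mul_mem hk hg, ?_, ?_, ?_⟩
    · rw [mul_smul, hgo, hk1.1]
    · rw [mul_smul, hg1, hk1.2]
    · rw [mul_smul, hk2]

end Cfsg.Agent.S5615
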