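import Cfsg.Statements.S5617
import Cfsg.Agent.H28_OrbStd

set_option autoImplicit false
open scoped Pointwise
open Cfsg

namespace Cfsg.Agent.S5617

open Cfsg.Agent.H28.OrbStd

/-- The setwise stabiliser, in the group of the length-24 code, of a complementary pair of dodecads has exactly three orbits on the 1771 sextets, of sizes 396, 495 and 880. -/
theorem result (d : Finset Cfsg.GolayPt) (hd : d ∈ Cfsg.dodecads) : ∃ X₁ ∈ Cfsg.sextets, ∃ X₂ ∈ Cfsg.sextets, ∃ X₃ ∈ Cfsg.sextets, (MulAction.orbit ↥(MulAction.stabilizer Cfsg.M24 ({d, Finset.univ \ d} : Finset (Finset Cfsg.GolayPt))) X₁).ncard = 396 ∧ (MulAction.orbit ↥(MulAction.stabilizer Cfsg.M24 ({d, Finset.univ \ d} : Finset (Finset Cfsg.GolayPt))) X₂).ncard = 495 ∧ (MulAction.orbit ↥(MulAction.stabilizer Cfsg.M24 ({d, Finset.univ \ d} : Finset (Finset Cfsg.GolayPt))) X₃).ncard = 880 ∧ Cfsg.sextets = MulAction.orbit ↥(MulAction.stabilizer Cfsg.M24 ({d, Finset.univ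 \ d} : Finset (Finset Cfsg.GolayPt))) X₁ ∪ MulAction.orbit ↥(MulAction.stabilizer Cfsg.M24 ({d, Finset.univ \ d} : Finset (Finset Cfsg.GolayPt))) X₂ ∪ MulAction.orbit ↥(MulAction.stabilizer Cfsg.M24 ({d, Finset.univ \ d} : Finset (Finset Cfsg.GolayPt))) X₃ := by
  have hX := std_D hd
  obtain ⟨YS6, mS6, -, cS6, oS6⟩ := Cfsg.Agent.H28.OrbD.orbS6 hX
  obtain ⟨YS4, mS4, -, cS4, oS4⟩ := Cfsg.Agent.H28.OrbD.orbS4 hX
  obtain ⟨YS0, mS0, -, cS0, oS0⟩ := Cfsg.Agent.H28.OrbD.orbS0 hX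
  refine ⟨YS6, mS6, YS4, mS4, YS0, mS0, cS6, cS4, cS0, ?_⟩
  · rw [oS6, oS4, oS0]
    ext s
    simp only [Set.mem_union, Set.mem_setOf_eq]
    constructor
    · intro hs
      have h := Cfsg.Agent.H28.OrbD.allS hX (s := s) hs
      simp only [List.mem_cons, List.not_mem_nil, or_false] at h
      rcases h with h | h | h
      · exact Or.inr ⟨hs, h⟩
      · exact Or.inl (Or.inr ⟨hs, h⟩)
      · exact Or.inl (Or.inl (⟨hs, h⟩))
    · rintro ((h | h) | h) <;> exact h.1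

end Cfsg.Agent.S5617
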