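import Cfsg.Statements.S5618
import Cfsg.Agent.H28_Six
import Cfsg.Agent.H7_PairUse
import Cfsg.Agent.H7_M24d
import Cfsg.Agent.H28_Sxt

set_option autoImplicit false
open scoped Pointwise
open Cfsg

namespace Cfsg.Agent.S5618

open Cfsg.Agent.H28.Six Cfsg.Agent.H7.Golay Cfsg.Agent.H7.Oct Cfsg.Agent.H7.M24 Cfsg.Agent.H7.PairFacts Cfsg.Agent.H7.M24d
open scoped Pointwise

noncomputable def rHom (d C : Finset GolayPt) : ↥(MulAction.stabilizer Cfsg.M24 d ⊓ MulAction.stabilizer Cfsg.M24 C) →*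
    Equiv.Perm ↥C :=
  MonoidHom.mk' (fun g => (g.1.1 : Equiv.Perm GolayPt).subtypePerm (fun p => by
    have h' : (g.1.1 : Equiv.Perm GolayPt) • C = C := g.2.2
    constructor
    · intro hp
      have : g.1.1 • p ∈ g.1.1 • C := by rw [h']; exact hp
      exact (Finset.smul_mem_smul_finset_iff _).1 this
    · intro hp
      have : g.1.1 • p ∈ g.1.1 • C := Finset.smul_mem_smul_finset hp
      rw [h'] at this
      exact this)) (fun g g' => by ext p; rfl)

theorem fix_of_sub {d E : Finset GolayPt} (hd : d ∈ dodecads) (hE : E.card = 6) (hEd : E ⊆ d)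
    (g : ↥Cfsg.M24) (hg : g ∈ MulAction.stabilizer Cfsg.M24 d) (h : ∀ p ∈ E, (g : Equiv.Perm GolayPt) p = p) : g = 1 := by
  obtain ⟨x, hx, hx'⟩ := enum6 E hE
  apply Subtype.ext
  exact dodecad_five_fix hd (fun i : Fin 5 => x i.castSucc) (fun i => hEd ((hx' _).2 ⟨_, rfl⟩))
    (fun i j h => Fin.castSucc_injective _ (hx h)) g.2 hg (fun i => h _ ((hx' _).2 ⟨_, rfl⟩))

theorem surj {d C : Finset GolayPt} (hd : d ∈ dodecads) (hC : C ∈ Cfsg.hexadsOn d) :
    Function.Surjective (rHom d C) := by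
  intro σ
  obtain ⟨hC6, o, ho, hoC⟩ := hC
  have hCd : C ⊆ d := by rw [← hoC]; exact Finset.inter_subset_right
  have hCo : C ⊆ o := by rw [← hoC]; exact Finset.inter_subset_left
  obtain ⟨x, hx, hx'⟩ := enum6 C hC6
  have hxC : ∀ i, x i ∈ C := fun i => (hx' _).2 ⟨i, rfl⟩
  set y : Fin 6 → GolayPt := fun i => (σ ⟨x i, hxC i⟩ : ↥C) with hy
  have hyC : ∀ i, y i ∈ C := fun i => (σ ⟨x i, hxC i⟩).2
  have hyi : Function.Injective y := by
    intro i j h
    have h1 := σ.injective (Subtype.ext h)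
    exact hx (congrArg Subtype.val h1)
  obtain ⟨g, hg, hgd, hgx⟩ := dodecad_five_trans hd 5 le_rfl (fun i : Fin 5 => x i.castSucc) (fun i : Fin 5 => y i.castSucc)
    (fun i => hCd (hxC _)) (fun i => hCd (hyC _)) (fun i j h => Fin.castSucc_injective _ (hx h))
    (fun i j h => Fin.castSucc_injective _ (hyi h))
  have hgo : g • o = o := by
    have hgo' := (smul_mem_octads_iff (s := o) hg).2 ho
    have h5 : 5 ≤ ((g • o) ∩ o).card := by
      have h6 : (Finset.univ.image fun i : Fin 5 => y i.castSucc) ⊆ (g • o) ∩ o := by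
        intro p hp
        rw [Finset.mem_image] at hp
        obtain ⟨i, _, rfl⟩ := hp
        rw [Finset.mem_inter]
        refine ⟨?_, hCo (hyC _)⟩
        rw [← hgx i]
        exact Finset.smul_mem_smul_finset (hCo (hxC _))
      have h7 := Finset.card_le_card h6
      rw [Finset.card_image_of_injective _ (fun i j h => Fin.castSucc_injective _ (hyi h)), Finset.card_univ,
        Fintype.card_fin] at h7
      exact h7
    rcases Cfsg.Agent.H7.PairUse.octad_inter hgo' ho with h | h | h | h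
    · omega
    · omega
    · omega
    · exact Cfsg.Agent.H7.PairUse.octad_inter_eight hgo' ho h
  have hgC : g • C = C := by
    rw [← hoC, Finset.smul_finset_inter, hgo, hgd]
  refine ⟨⟨⟨g, hg⟩, hgd, hgC⟩, ?_⟩
  have key : ∀ i : Fin 5, g (x i.castSucc) = y i.castSucc := hgx
  have h5 : g (x 5) = y 5 := by
    have h1 : g (x 5) ∈ C := by
      rw [← hgC]; exact Finset.smul_mem_smul_finset (hxC 5)
    have hyS : Function.Surjective (fun i => (⟨y i, hyC i⟩ : ↥C)) := by
      have hb : Function.Bijective (fun i => (⟨y i, hyC i⟩ : ↥C)) := by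
        rw [Fintype.bijective_iff_injective_and_card]
        refine ⟨fun i j h => hyi (congrArg Subtype.val h), ?_⟩
        rw [Fintype.card_fin, Fintype.card_coe, hC6]
      exact hb.2
    obtain ⟨j, hj⟩ := hyS ⟨_, h1⟩
    have hj' : y j = g (x 5) := congrArg Subtype.val hj
    rcases Fin.eq_castSucc_or_eq_last j with ⟨i, rfl⟩ | rfl
    · rw [← key i] at hj'
      have h2 := hx (g.injective hj')
      exact absurd h2 (Fin.castSucc_lt_last i).ne
    · exact hj'.symm
  apply Equiv.ext
  intro p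
  apply Subtype.ext
  show g p = σ p
  obtain ⟨i, hi⟩ := (hx' p.1).1 p.2
  have hp : p = ⟨x i, hxC i⟩ := Subtype.ext hi.symm
  rw [hp]
  show g (x i) = y i
  rcases Fin.eq_castSucc_or_eq_last i with ⟨j, rfl⟩ | rfl
  · exact key j
  · exact h5

/-- For a dodecad d of the length-24 code and a hexad C on it (a 6-point intersection of d with an octad): the joint stabiliser of d and C in the code's group is isomorphic to the symmetric group of degree 6, and it acts faithfully both on the six points of C and on the six points of d outside C. -/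
theorem result (d : Finset Cfsg.GolayPt) (hd : d ∈ Cfsg.dodecads) (C : Finset Cfsg.GolayPt) (hC : C ∈ Cfsg.hexadsOn d) : Nonempty (↥(MulAction.stabilizer Cfsg.M24 d ⊓ MulAction.stabilizer Cfsg.M24 C) ≃* Equiv.Perm (Fin 6)) ∧ (∀ g ∈ MulAction.stabilizer Cfsg.M24 d ⊓ MulAction.stabilizer Cfsg.M24 C, (∀ p ∈ C, ((g : ↥Cfsg.M24) : Equiv.Perm Cfsg.GolayPt) p = p) → g = 1) ∧ ∀ g ∈ MulAction.stabilizer Cfsg.M24 d ⊓ MulAction.stabilizer Cfsg.M24 C, (∀ p ∈ d \ C, ((g : ↥Cfsg.M24) : Equiv.Perm Cfsg.GolayPt) p = p) → g = 1 := by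
  have hC' := hC
  obtain ⟨hC6, o, ho, hoC⟩ := hC'
  have hCd : C ⊆ d := by rw [← hoC]; exact Finset.inter_subset_right
  have hd12 : d.card = 12 := (mem_dodecads.1 hd).2
  refine ⟨?_, ?_, ?_⟩
  · have hinj : Function.Injective (rHom d C) := by
      rw [injective_iff_map_eq_one]
      intro g hg
      apply Subtype.ext
      apply fix_of_sub hd hC6 hCd g.1 g.2.1
      intro p hp
      exact congrArg (fun f : Equiv.Perm ↥C => ((f ⟨p, hp⟩ : ↥C) : GolayPt)) hg
    have e : ↥C ≃ Fin 6 := Fintype.equivFinOfCardEq (by rw [Fintype.card_coe, hC6])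
    exact ⟨(MulEquiv.ofBijective (rHom d C) ⟨hinj, surj hd hC⟩).trans e.permCongrHom⟩
  · intro g hg h
    exact fix_of_sub hd hC6 hCd g hg.1 h
  · intro g hg h
    refine fix_of_sub (E := d \ C) hd ?_ Finset.sdiff_subset g hg.1 h
    have h1 := Finset.card_sdiff_add_card_eq_card hCd
    omega

end Cfsg.Agent.S5618
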