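import Cfsg.Statements.S5619
import Cfsg.Agent.H28_Orb
import Cfsg.Agent.H7_M24d
import Cfsg.Agent.H7_M24b
import Cfsg.Agent.H14_M24Eng
import Cfsg.Agent.H28_Tree
import Cfsg.Agent.H23_PQuat

set_option autoImplicit false
open scoped Pointwise
open Cfsg

namespace Cfsg.Agent.S5619

open Cfsg.Agent.H28.Orb Cfsg.Agent.H7.Golay Cfsg.Agent.H7.Oct Cfsg.Agent.H7.M24 Cfsg.Agent.H7.M24b Cfsg.Agent.H7.M24c Cfsg.Agent.H7.M24d Cfsg.Agent.H28.Tree Cfsg.Agent.H14.M24Eng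
open scoped Pointwise

set_option maxRecDepth 100000 in
def L72 : List (List ℕ) := [[0, 1, 2, 3, 4, 5, 6, 7, 8, 9, 10, 11, 12, 13, 14, 15, 16, 17, 18, 19, 20, 21, 22, 23], [0, 19, 2, 3, 4, 15, 7, 13, 11, 14, 6, 9, 17, 10, 8, 5, 21, 1, 23, 12, 22, 18, 20, 16], [0, 18, 2, 3, 4, 22, 8, 14, 13, 6, 11, 7, 16, 9, 10, 20, 1, 23, 12, 21, 15, 17, 5, 19], [0, 16, 2, 3, 4, 22, 9, 11, 6, 13, 14, 10, 18, 8, 7, 20, 12, 21, 1, 23, 15, 19, 5, 17], [0, 17, 2, 3, 4, 15, 10, 6, 14, 11, 13, 8, 19, 7, 9, 5, 23, 12, 21, 1, 22, 16, 20, 18], [0, 23, 2, 3, 4, 20, 11, 8, 10, 7, 9, 13, 21, 14, 6, 22, 19, 16, 17, 18, 5, 1, 15, 12], [0, 12, 2, 3, 4, 5, 13, 10, 9, 8, 7, 14, 1, 6, 11, 15, 18, 19, 16, 17, 20, 23, 22, 21], [0, 21, 2, 3, 4, 20, 14, 9, 7, 10, 8, 6, 23, 11, 13, 22, 17, 18, 19, 16, 5, 12, 15, 1], [0, 1, 2, 3, 6, 16, 4, 11, 14, 10, 9, 7, 22, 13, 8, 23, 5, 19, 18, 17, 20, 21, 12, 15], [0, 15, 2, 3, 6, 20, 7,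 14, 9, 11, 10, 13, 21, 8, 4, 12, 17, 5, 19, 18, 16, 1, 23, 22], [0, 21, 2, 3, 6, 20, 8, 10, 11, 9, 14, 4, 15, 7, 13, 12, 19, 18, 17, 5, 16, 22, 23, 1], [0, 19, 2, 3, 6, 23, 9, 4, 8, 7, 13, 14, 17, 11, 10, 16, 15, 22, 21, 1, 12, 5, 20, 18], [0, 5, 2, 3, 6, 12, 10, 7, 4, 13, 8, 9, 18, 14, 11, 20, 22, 21, 1, 15, 23, 17, 16, 19], [0, 17, 2, 3, 6, 23, 11, 13, 7, 8, 4, 10, 19, 9, 14, 16, 21, 1, 15, 22, 12, 18, 20, 5], [0, 22, 2, 3, 6, 16, 13, 9, 10, 14, 11, 8, 1, 4, 7, 23, 18, 17, 5, 19, 20, 15, 12, 21], [0, 18, 2, 3, 6, 12, 14, 8, 13, 4, 7, 11, 5, 10, 9, 20, 1, 15, 22, 21, 23, 19, 16, 17], [0, 19, 2, 3, 7, 21, 4, 9, 8, 6, 14, 13, 20, 10, 11, 16, 15, 12, 23, 1, 22, 18, 17, 5], [0, 15, 2, 3, 7, 17, 6, 13, 4, 10, 11, 14, 23, 8, 9, 22, 20, 18, 19, 5, 16, 1, 21, 12], [0, 23, 2, 3, 7, 17, 8, 11, 10, 4, 13, 9, 15, 6, 14, 22, 19, 5, 20, 18, 16, 12, 21, 1], [0, 1, 2, 3, 7, 16, 9, 10, 13, 11, 4, 6, 12,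 14, 8, 21, 18, 19, 5, 20, 17, 23, 22, 15], [0, 20, 2, 3, 7, 21, 10, 14, 6, 8, 9, 11, 19, 4, 13, 16, 23, 1, 15, 12, 22, 5, 17, 18], [0, 18, 2, 3, 7, 22, 11, 6, 9, 14, 8, 4, 5, 13, 10, 17, 12, 23, 1, 15, 21, 20, 16, 19], [0, 5, 2, 3, 7, 22, 13, 8, 14, 9, 6, 10, 18, 11, 4, 17, 1, 15, 12, 23, 21, 19, 16, 20], [0, 12, 2, 3, 7, 16, 14, 4, 11, 13, 10, 8, 1, 9, 6, 21, 5, 20, 18, 19, 17, 15, 22, 23], [0, 18, 2, 3, 8, 1, 4, 7, 10, 11, 6, 14, 5, 9, 13, 19, 22, 21, 12, 23, 15, 17, 16, 20], [0, 21, 2, 3, 8, 19, 6, 4, 13, 14, 9, 10, 23, 7, 11, 1, 20, 5, 17, 18, 16, 22, 15, 12], [0, 23, 2, 3, 8, 19, 7, 9, 14, 13, 4, 11, 21, 6, 10, 1, 17, 18, 20, 5, 16, 12, 15, 22], [0, 5, 2, 3, 8, 1, 9, 6, 11, 10, 7, 13, 18, 4, 14, 19, 12, 23, 22, 21, 15, 20, 16, 17], [0, 12, 2, 3, 8, 16, 10, 13, 9, 4, 14, 7, 22, 11, 6, 15, 18, 20, 5, 17, 19, 21, 1, 23], [0, 22, 2, 3, 8, 16, 11, 14, 4, 9, 13, 6, 12, 10, 7, 15, 5, 17, 18,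 20, 19, 23, 1, 21], [0, 17, 2, 3, 8, 15, 13, 11, 7, 6, 10, 4, 20, 14, 9, 16, 21, 12, 23, 22, 1, 5, 19, 18], [0, 20, 2, 3, 8, 15, 14, 10, 6, 7, 11, 9, 17, 13, 4, 16, 23, 22, 21, 12, 1, 18, 19, 5], [0, 16, 2, 3, 9, 12, 4, 10, 7, 14, 13, 11, 5, 8, 6, 17, 22, 23, 1, 21, 15, 19, 18, 20], [0, 19, 2, 3, 9, 15, 6, 14, 10, 13, 7, 4, 20, 11, 8, 18, 23, 1, 21, 22, 12, 5, 17, 16], [0, 1, 2, 3, 9, 18, 7, 6, 8, 4, 11, 10, 22, 14, 13, 15, 16, 20, 5, 19, 17, 23, 12, 21], [0, 5, 2, 3, 9, 12, 8, 13, 14, 7, 10, 6, 16, 4, 11, 17, 1, 21, 22, 23, 15, 20, 18, 19], [0, 21, 2, 3, 9, 17, 10, 8, 11, 6, 4, 14, 23, 13, 7, 12, 19, 16, 20, 5, 18, 1, 15, 22], [0, 20, 2, 3, 9, 15, 11, 7, 13, 10, 14, 8, 19, 6, 4, 18, 21, 22, 23, 1, 12, 16, 17, 5], [0, 23, 2, 3, 9, 17, 13, 4, 6, 11, 8, 7, 21, 10, 14, 12, 20, 5, 19, 16, 18, 22, 15, 1], [0, 22, 2, 3, 9, 18, 14, 11, 4, 8, 6, 13, 1, 7, 10, 15, 5, 19, 16, 20, 17, 21, 12, 23],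 [0, 17, 2, 3, 10, 23, 4, 8, 9, 13, 11, 6, 20, 7, 14, 18, 15, 1, 21, 12, 22, 16, 19, 5], [0, 5, 2, 3, 10, 22, 6, 9, 11, 8, 13, 7, 16, 14, 4, 19, 12, 15, 1, 21, 23, 17, 18, 20], [0, 20, 2, 3, 10, 23, 7, 11, 13, 9, 8, 14, 17, 4, 6, 18, 21, 12, 15, 1, 22, 5, 19, 16], [0, 12, 2, 3, 10, 18, 8, 7, 6, 14, 4, 13, 1, 11, 9, 23, 16, 17, 5, 20, 19, 21, 22, 15], [0, 21, 2, 3, 10, 19, 9, 14, 7, 4, 6, 8, 15, 13, 11, 22, 17, 5, 20, 16, 18, 1, 23, 12], [0, 1, 2, 3, 10, 18, 11, 4, 14, 6, 7, 9, 12, 8, 13, 23, 5, 20, 16, 17, 19, 15, 22, 21], [0, 15, 2, 3, 10, 19, 13, 6, 4, 7, 14, 11, 21, 9, 8, 22, 20, 16, 17, 5, 18, 12, 23, 1], [0, 16, 2, 3, 10, 22, 14, 13, 8, 11, 9, 4, 5, 6, 7, 19, 1, 21, 12, 15, 23, 20, 18, 17], [0, 23, 2, 3, 11, 19, 4, 13, 6, 9, 7, 8, 15, 14, 10, 12, 20, 18, 17, 16, 5, 1, 21, 22], [0, 17, 2, 3, 11, 21, 6, 10, 14, 4, 8, 13, 20, 9, 7, 5, 23, 22, 15, 1, 12, 18, 19, 16], [0, 18, 2, 3, 11, 12,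 7, 4, 10, 8, 14, 6, 16, 13, 9, 19, 22, 15, 1, 23, 21, 20, 5, 17], [0, 22, 2, 3, 11, 5, 8, 6, 7, 13, 9, 14, 1, 10, 4, 21, 16, 20, 18, 17, 19, 23, 12, 15], [0, 20, 2, 3, 11, 21, 9, 8, 4, 14, 10, 7, 17, 6, 13, 5, 15, 1, 23, 22, 12, 16, 19, 18], [0, 1, 2, 3, 11, 5, 10, 9, 13, 7, 6, 4, 22, 8, 14, 21, 18, 17, 16, 20, 19, 15, 12, 23], [0, 16, 2, 3, 11, 12, 13, 14, 8, 10, 4, 9, 18, 7, 6, 19, 1, 23, 22, 15, 21, 17, 5, 20], [0, 15, 2, 3, 11, 19, 14, 7, 9, 6, 13, 10, 23, 4, 8, 12, 17, 16, 20, 18, 5, 22, 21, 1], [0, 12, 2, 3, 13, 18, 4, 14, 11, 7, 8, 10, 22, 6, 9, 21, 5, 17, 16, 19, 20, 23, 1, 15], [0, 22, 2, 3, 13, 18, 6, 8, 7, 11, 14, 9, 12, 4, 10, 21, 16, 19, 5, 17, 20, 15, 1, 23], [0, 5, 2, 3, 13, 1, 7, 10, 4, 6, 9, 8, 16, 11, 14, 20, 22, 23, 12, 15, 21, 19, 18, 17], [0, 17, 2, 3, 13, 21, 8, 4, 9, 10, 6, 11, 19, 14, 7, 18, 15, 22, 23, 12, 1, 5, 20, 16], [0, 23, 2, 3, 13, 20, 9, 7, 14, 8, 11, 4,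 15, 10, 6, 1, 17, 16, 19, 5, 18, 22, 21, 12], [0, 15, 2, 3, 13, 20, 10, 11, 8, 14, 7, 6, 23, 9, 4, 1, 19, 5, 17, 16, 18, 12, 21, 22], [0, 16, 2, 3, 13, 1, 11, 9, 6, 4, 10, 14, 5, 7, 8, 20, 12, 15, 22, 23, 21, 17, 18, 19], [0, 19, 2, 3, 13, 21, 14, 6, 10, 9, 4, 7, 17, 8, 11, 18, 23, 12, 15, 22, 1, 16, 20, 5], [0, 21, 2, 3, 14, 17, 4, 6, 13, 8, 10, 9, 15, 11, 7, 1, 20, 16, 19, 18, 5, 12, 23, 22], [0, 18, 2, 3, 14, 1, 6, 11, 9, 7, 4, 8, 16, 10, 13, 17, 12, 21, 22, 15, 23, 19, 5, 20], [0, 12, 2, 3, 14, 5, 7, 8, 6, 10, 13, 4, 22, 9, 11, 23, 16, 19, 18, 20, 17, 15, 1, 21], [0, 20, 2, 3, 14, 23, 8, 9, 4, 11, 7, 10, 19, 13, 6, 5, 15, 12, 21, 22, 1, 18, 17, 16], [0, 22, 2, 3, 14, 5, 9, 13, 10, 6, 8, 11, 12, 7, 4, 23, 18, 20, 16, 19, 17, 21, 1, 15], [0, 16, 2, 3, 14, 1, 10, 4, 7, 9, 11, 13, 18, 6, 8, 17, 22, 15, 12, 21, 23, 20, 5, 19], [0, 15, 2, 3, 14, 17, 11, 10, 8, 13, 6, 7, 21, 4, 9, 1, 19, 18,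 20, 16, 5, 22, 23, 12], [0, 19, 2, 3, 14, 23, 13, 7, 11, 4, 9, 6, 20, 8, 10, 5, 21, 22, 15, 12, 1, 16, 17, 18]]

theorem L72_ok : L72.all (fun l => isM24 l && (Nat.beq (act l 28637) 28637 && (Nat.beq (l.getD 0 0) 0 &&
    (Nat.beq (l.getD 2 0) 2 && Nat.beq (l.getD 3 0) 3)))) = true := by decide +kernel

theorem L72_cover : (List.range 24).all (fun i => (List.range 24).all fun j =>
    !(Nat.testBit 28637 i && (Nat.testBit 28637 j && !(Nat.beq i j || [0, 2, 3].contains i || [0, 2, 3].contains j))) ||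
    L72.any fun l => Nat.beq (l.getD 4 0) i && Nat.beq (l.getD 6 0) j) = true := by decide +kernel

def isId (l : List ℕ) : Bool := beqL l (List.range 24)

theorem L72_three : ((L72.filter fun l => isId (powl l 3)).all fun a => (L72.filter fun l => isId (powl l 3)).all
    fun b => isId (powl (comp a b) 3)) = true := by decide +kernel

theorem L72_two : ((L72.filter fun l => isId (powl l 2) && !(isId l)).all fun a => (L72.filter fun l =>
    isId (powl l 2) && !(isId l)).all fun b => isId (powl (comp a b) 3)) = true := by decide +kernel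

theorem L72_ord : (L72.all fun l => (!(isId (powl l 9)) || isId (powl l 3)) && (!(isId (powl l 8)) || isId (powl l 4)))
    = true := by decide +kernel

theorem isId_iff {g : Equiv.Perm GolayPt} {l : List ℕ} (h : Rep g l) : isId l = true ↔ g = 1 := by
  constructor
  · intro hl
    have := beqL_eq hl
    subst this
    exact h.unique rep_one
  · rintro rfl
    have := rep_eq_list h rep_one
    subst this
    exact beqL_refl _

theorem rep72 {g : Equiv.Perm GolayPt} (hg : g ∈ M24) (hd : g • ofMask 28637 = ofMask 28637) (h0 : g (pt 0) = pt 0)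
    (h2 : g (pt 2) = pt 2) (h3 : g (pt 3) = pt 3) : ∃ l ∈ L72, Rep g l := by
  have hD : ofMask 28637 ∈ dodecads := D0_mem
  have hin : ∀ i < 24, Nat.testBit 28637 i = true → Nat.testBit 28637 (ix (g (pt i))) = true := by
    intro i hi h
    have h1 : g • (pt i) ∈ g • ofMask 28637 := Finset.smul_mem_smul_finset (by rw [mem_ofMask, ix_pt i hi]; exact h)
    rw [hd, mem_ofMask] at h1
    exact h1
  have hne : ∀ i < 24, ∀ j < 24, i ≠ j → ix (g (pt i)) ≠ ix (g (pt j)) := by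
    intro i hi j hj hij h
    have h1 := g.injective (ix_injective h)
    have h2 := congrArg ix h1
    rw [ix_pt i hi, ix_pt j hj] at h2
    exact hij h2
  have hc := L72_cover
  simp only [List.all_eq_true, List.mem_range] at hc
  have hc1 := hc _ (ix_lt (g (pt 4))) _ (ix_lt (g (pt 6)))
  have e0 : ix (g (pt 0)) = 0 := by rw [h0]; exact ix_pt 0 (by norm_num)
  have e2 : ix (g (pt 2)) = 2 := by rw [h2]; exact ix_pt 2 (by norm_num)
  have e3 : ix (g (pt 3)) = 3 := by rw [h3]; exact ix_pt 3 (by norm_num)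
  have n40 := hne 4 (by norm_num) 0 (by norm_num) (by norm_num)
  have n42 := hne 4 (by norm_num) 2 (by norm_num) (by norm_num)
  have n43 := hne 4 (by norm_num) 3 (by norm_num) (by norm_num)
  have n60 := hne 6 (by norm_num) 0 (by norm_num) (by norm_num)
  have n62 := hne 6 (by norm_num) 2 (by norm_num) (by norm_num)
  have n63 := hne 6 (by norm_num) 3 (by norm_num) (by norm_num)
  have n46 := hne 4 (by norm_num) 6 (by norm_num) (by norm_num)
  rw [e0] at n40 n60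
  rw [e2] at n42 n62
  rw [e3] at n43 n63
  rw [hin 4 (by norm_num) (by decide), hin 6 (by norm_num) (by decide)] at hc1
  have b1 : Nat.beq (ix (g (pt 4))) (ix (g (pt 6))) = false := by
    rw [Bool.eq_false_iff]; intro h; exact n46 (Nat.eq_of_beq_eq_true h)
  have b2 : [0, 2, 3].contains (ix (g (pt 4))) = false := by
    rw [Bool.eq_false_iff]; intro h; rw [List.contains_iff_mem] at h
    simp only [List.mem_cons, List.not_mem_nil, or_false] at h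
    rcases h with h | h | h
    · exact n40 h
    · exact n42 h
    · exact n43 h
  have b3 : [0, 2, 3].contains (ix (g (pt 6))) = false := by
    rw [Bool.eq_false_iff]; intro h; rw [List.contains_iff_mem] at h
    simp only [List.mem_cons, List.not_mem_nil, or_false] at h
    rcases h with h | h | h
    · exact n60 h
    · exact n62 h
    · exact n63 h
  rw [b1, b2, b3] at hc1
  simp only [Bool.or_self, Bool.not_false, Bool.and_self, Bool.not_true, Bool.false_or, List.any_eq_true,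
    Bool.and_eq_true] at hc1
  obtain ⟨l, hl, h4, h6⟩ := hc1
  have hok := L72_ok
  rw [List.all_eq_true] at hok
  have hl' := hok l hl
  simp only [Bool.and_eq_true] at hl'
  obtain ⟨hM, hact, hl0, hl2, hl3⟩ := hl'
  obtain ⟨g', hg', hr⟩ := exists_M24 hM
  refine ⟨l, hl, ?_⟩
  have hx : ∀ i < 24, Nat.beq (l.getD i 0) (ix (g (pt i))) = true → g' (pt i) = g (pt i) := by
    intro i hi h
    apply ix_injective
    rw [hr.2, ix_pt i hi]
    exact Nat.eq_of_beq_eq_true h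
  have key : g⁻¹ * g' = 1 := by
    have hf : ∀ i < 24, g' (pt i) = g (pt i) → (g⁻¹ * g') (pt i) = pt i := by
      intro i hi h
      show g⁻¹ (g' (pt i)) = pt i
      rw [h]; exact g.symm_apply_apply _
    have f0 := hf 0 (by norm_num) (hx 0 (by norm_num) (by rw [e0]; exact hl0))
    have f2 := hf 2 (by norm_num) (hx 2 (by norm_num) (by rw [e2]; exact hl2))
    have f3 := hf 3 (by norm_num) (hx 3 (by norm_num) (by rw [e3]; exact hl3))
    have f4 := hf 4 (by norm_num) (hx 4 (by norm_num) h4)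
    have f6 := hf 6 (by norm_num) (hx 6 (by norm_num) h6)
    have hlt : ∀ i : Fin 5, [0, 2, 3, 4, 6].getD i.1 0 < 24 := by decide
    refine dodecad_five_fix hD (fun i : Fin 5 => pt ([0, 2, 3, 4, 6].getD i.1 0)) ?_ ?_
      (mul_mem (inv_mem hg) hg') ?_ ?_
    · intro i
      rw [mem_ofMask, ix_pt _ (hlt i)]
      revert i; decide
    · intro i j h
      have h1 := congrArg ix h
      simp only at h1
      rw [ix_pt _ (hlt i), ix_pt _ (hlt j)] at h1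
      revert h1; revert i j; decide
    · have h1 : g' • ofMask 28637 = ofMask 28637 := by
        rw [hr.smul_ofMask, Nat.eq_of_beq_eq_true hact]
      rw [mul_smul, h1, inv_smul_eq_iff, hd]
    · intro i
      fin_cases i
      · exact f0
      · exact f2
      · exact f3
      · exact f4
      · exact f6
  have : g = g' := by
    rw [inv_mul_eq_one] at key
    exact key
  rw [this]; exact hr

/-- the elementwise properties of the standard group -/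
theorem props {g h : Equiv.Perm GolayPt} (hg : ∃ l ∈ L72, Rep g l) (hh : ∃ l ∈ L72, Rep h l) :
    (g ^ 3 = 1 → h ^ 3 = 1 → (g * h) ^ 3 = 1) ∧ (g ^ 2 = 1 → h ^ 2 = 1 → g ≠ 1 → h ≠ 1 → (g * h) ^ 3 = 1) ∧
    (g ^ 9 = 1 → g ^ 3 = 1) ∧ (g ^ 8 = 1 → g ^ 4 = 1) := by
  obtain ⟨a, ha, hra⟩ := hg
  obtain ⟨b, hb, hrb⟩ := hh
  have h3 := L72_three
  have h2 := L72_two
  have ho := L72_ord
  rw [List.all_eq_true] at h3 h2 ho
  have ho' := ho a ha
  simp only [Bool.and_eq_true, Bool.or_eq_true, Bool.not_eq_true'] at ho'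
  refine ⟨fun h h' => ?_, fun h h' hn hn' => ?_, fun h => ?_, fun h => ?_⟩
  · have h4 := h3 a (List.mem_filter.2 ⟨ha, (isId_iff (rep_powl hra 3)).2 h⟩)
    rw [List.all_eq_true] at h4
    have h5 := h4 b (List.mem_filter.2 ⟨hb, (isId_iff (rep_powl hrb 3)).2 h'⟩)
    exact (isId_iff (rep_powl (rep_mul hra hrb) 3)).1 h5
  · have hna : isId a = false := by
      rw [Bool.eq_false_iff]; intro hc; exact hn ((isId_iff hra).1 hc)
    have hnb : isId b = false := by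
      rw [Bool.eq_false_iff]; intro hc; exact hn' ((isId_iff hrb).1 hc)
    have h4 := h2 a (List.mem_filter.2 ⟨ha, by rw [(isId_iff (rep_powl hra 2)).2 h, hna]; rfl⟩)
    rw [List.all_eq_true] at h4
    have h5 := h4 b (List.mem_filter.2 ⟨hb, by rw [(isId_iff (rep_powl hrb 2)).2 h', hnb]; rfl⟩)
    exact (isId_iff (rep_powl (rep_mul hra hrb) 3)).1 h5
  · rcases ho'.1 with h1 | h1
    · rw [(isId_iff (rep_powl hra 9)).2 h] at h1
      exact absurd h1 (by decide)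
    · exact (isId_iff (rep_powl hra 3)).1 h1
  · rcases ho'.2 with h1 | h1
    · rw [(isId_iff (rep_powl hra 8)).2 h] at h1
      exact absurd h1 (by decide)
    · exact (isId_iff (rep_powl hra 4)).1 h1

/-- the abstract group theory -/
theorem abstract72 {G : Type} [Group G] [Finite G] (hG : Nat.card G = 72)
    (h3 : ∀ g h : G, g ^ 3 = 1 → h ^ 3 = 1 → (g * h) ^ 3 = 1) (h2 : ∀ g h : G, g ^ 2 = 1 → h ^ 2 = 1 → g ≠ 1 → h ≠ 1 → (g * h) ^ 3 = 1)
    (h9 : ∀ g : G, g ^ 9 = 1 → g ^ 3 = 1) (h8 : ∀ g : G, g ^ 8 = 1 → g ^ 4 = 1) :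
    (∀ Q : Sylow 3 G, (Q : Subgroup G).Normal ∧ Nat.card ↥Q = 9 ∧ ∀ x ∈ (Q : Subgroup G), x ^ 3 = 1) ∧
    ∀ P : Sylow 2 G, Nonempty (↥P ≃* QuaternionGroup 2) := by
  haveI : Fact (Nat.Prime 3) := ⟨Nat.prime_three⟩
  haveI : Fact (Nat.Prime 2) := ⟨Nat.prime_two⟩
  let N : Subgroup G :=
    { carrier := {x | x ^ 3 = 1}
      mul_mem' := fun {a b} ha hb => h3 a b ha hb
      one_mem' := one_pow 3
      inv_mem' := fun {x} hx => by
        show x⁻¹ ^ 3 = 1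
        rw [inv_pow, show x ^ 3 = 1 from hx, inv_one] }
  have hNn : N.Normal := ⟨fun n hn g => by
    show (g * n * g⁻¹) ^ 3 = 1
    rw [conj_pow, show n ^ 3 = 1 from hn]; group⟩
  have hNp : IsPGroup 3 N := fun x => ⟨1, by
    apply Subtype.ext
    exact x.2⟩
  constructor
  · intro Q
    have hc : Nat.card ↥Q = 9 := by
      show Nat.card ↥(Q : Subgroup G) = 9
      rw [Sylow.card_eq_multiplicity, hG, show (72 : ℕ) = 2 ^ 3 * 3 ^ 2 by norm_num,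
        Nat.factorization_mul (by norm_num) (by norm_num), Nat.Prime.factorization_pow Nat.prime_two,
        Nat.Prime.factorization_pow Nat.prime_three]
      simp
    have hx : ∀ x ∈ (Q : Subgroup G), x ^ 3 = 1 := by
      intro x hx
      apply h9
      have h1 : (⟨x, hx⟩ : ↥Q) ^ Nat.card ↥Q = 1 := pow_card_eq_one'
      rw [hc] at h1
      exact congrArg Subtype.val h1
    have hQN : N = (Q : Subgroup G) := Q.is_maximal' hNp (fun x hx' => hx x hx')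
    refine ⟨?_, hc, hx⟩
    rw [← hQN]; exact hNn
  · intro P
    have hc : Nat.card ↥P = 8 := by
      show Nat.card ↥(P : Subgroup G) = 8
      rw [Sylow.card_eq_multiplicity, hG, show (72 : ℕ) = 2 ^ 3 * 3 ^ 2 by norm_num,
        Nat.factorization_mul (by norm_num) (by norm_num), Nat.Prime.factorization_pow Nat.prime_two,
        Nat.Prime.factorization_pow Nat.prime_three]
      simp
    have hpow : ∀ x : ↥P, x ^ 8 = 1 := by
      intro x
      rw [← hc]; exact pow_card_eq_one'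
    have huniq : ∀ H K : Subgroup ↥P, Nat.card H = 2 → Nat.card K = 2 → H = K := by
      intro H K hH hK
      have key : ∀ x ∈ H, ∀ y ∈ K, x ≠ 1 → y ≠ 1 → x = y := by
        intro x hx y hy hx1 hy1
        have hx2 : x ^ 2 = 1 := by
          have h1 : (⟨x, hx⟩ : H) ^ Nat.card H = 1 := pow_card_eq_one'
          rw [hH] at h1
          exact congrArg Subtype.val h1
        have hy2 : y ^ 2 = 1 := by
          have h1 : (⟨y, hy⟩ : K) ^ Nat.card K = 1 := pow_card_eq_one'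
          rw [hK] at h1
          exact congrArg Subtype.val h1
        have hxy : (x * y) ^ 3 = 1 := by
          apply Subtype.ext
          exact h2 x.1 y.1 (congrArg Subtype.val hx2) (congrArg Subtype.val hy2) (fun h => hx1 (Subtype.ext h))
            (fun h => hy1 (Subtype.ext h))
        have hxy8 := hpow (x * y)
        have hxy1 : x * y = 1 := by
          have h1 : orderOf (x * y) ∣ Nat.gcd 3 8 :=
            Nat.dvd_gcd (orderOf_dvd_of_pow_eq_one hxy) (orderOf_dvd_of_pow_eq_one hxy8)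
          rw [show Nat.gcd 3 8 = 1 by norm_num, Nat.dvd_one, orderOf_eq_one_iff] at h1
          exact h1
        have hy' : y⁻¹ = y := by
          rw [inv_eq_iff_mul_eq_one, ← pow_two]; exact hy2
        rw [mul_eq_one_iff_eq_inv, hy'] at hxy1
        exact hxy1
      have hle : ∀ (H K : Subgroup ↥P), Nat.card H = 2 → Nat.card K = 2 →
          (∀ x ∈ H, ∀ y ∈ K, x ≠ 1 → y ≠ 1 → x = y) → H ≤ K := by
        intro H K hH hK hk x hx
        by_cases hx1 : x = 1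
        · rw [hx1]; exact one_mem _
        · haveI : Nontrivial K := Finite.one_lt_card_iff_nontrivial.1 (by rw [hK]; norm_num)
          obtain ⟨y, hy⟩ := exists_ne (1 : K)
          rw [hk x hx y.1 y.2 hx1 (fun h => hy (Subtype.ext h))]
          exact y.2
      exact le_antisymm (hle H K hH hK key) (hle K H hK hH (fun x hx y hy hx1 hy1 => (key y hy x hx hy1 hx1).symm))
    have hnc : ¬ IsCyclic ↥P := by
      intro hcyc
      obtain ⟨g, hg⟩ := hcyc.exists_generator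
      have h1 : orderOf g = 8 := by
        rw [← hc]; exact orderOf_eq_card_of_forall_mem_zpowers hg
      have h4 : g ^ 4 = 1 := by
        apply Subtype.ext
        exact h8 g.1 (congrArg Subtype.val (hpow g))
      have := orderOf_dvd_of_pow_eq_one h4
      rw [h1] at this
      omega
    obtain ⟨n, ⟨e⟩⟩ := Cfsg.Agent.H23.PQuat.quaternion_of_unique P.2 huniq hnc
    have h5 : Nat.card (QuaternionGroup (2 ^ n)) = 8 := by rw [← hc]; exact (Nat.card_congr e.toEquiv).symm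
    haveI : NeZero (2 ^ n) := ⟨by positivity⟩
    rw [Nat.card_eq_fintype_card, QuaternionGroup.card] at h5
    have h6 : 2 ^ n = 2 := by omega
    rw [h6] at e
    exact ⟨e⟩

theorem inj3 {α : Type} {a b c : α} (hab : a ≠ b) (hac : a ≠ c) (hbc : b ≠ c) :
    Function.Injective (![a, b, c] : Fin 3 → α) := by
  intro i j hij
  fin_cases i <;> fin_cases j
  · rfl
  · exact absurd hij hab
  · exact absurd hij hac
  · exact absurd hij.symm hab
  · rfl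
  · exact absurd hij hbc
  · exact absurd hij.symm hac
  · exact absurd hij.symm hbc
  · rfl

abbrev KK (d : Finset GolayPt) (p q r : GolayPt) : Subgroup ↥Cfsg.M24 :=
  MulAction.stabilizer Cfsg.M24 d ⊓ MulAction.stabilizer Cfsg.M24 p ⊓ MulAction.stabilizer Cfsg.M24 q ⊓ MulAction.stabilizer Cfsg.M24 r

theorem mem_KK {d : Finset GolayPt} {p q r : GolayPt} {g : ↥Cfsg.M24} : g ∈ KK d p q r ↔
    (g : Equiv.Perm GolayPt) • d = d ∧ (g : Equiv.Perm GolayPt) p = p ∧ (g : Equiv.Perm GolayPt) q = q ∧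
    (g : Equiv.Perm GolayPt) r = r := by
  unfold KK
  rw [Subgroup.mem_inf, Subgroup.mem_inf, Subgroup.mem_inf]
  constructor
  · rintro ⟨⟨⟨h1, h2⟩, h3⟩, h4⟩
    exact ⟨h1, h2, h3, h4⟩
  · rintro ⟨h1, h2, h3, h4⟩
    exact ⟨⟨⟨h1, h2⟩, h3⟩, h4⟩

theorem props_KK {d : Finset Cfsg.GolayPt} (hd : d ∈ Cfsg.dodecads) {p q r : Cfsg.GolayPt} (hp : p ∈ d) (hq : q ∈ d)
    (hr : r ∈ d) (hpq : p ≠ q) (hpr : p ≠ r) (hqr : q ≠ r) (g h : ↥(KK d p q r)) :
    (g ^ 3 = 1 → h ^ 3 = 1 → (g * h) ^ 3 = 1) ∧ (g ^ 2 = 1 → h ^ 2 = 1 → g ≠ 1 → h ≠ 1 → (g * h) ^ 3 = 1) ∧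
    (g ^ 9 = 1 → g ^ 3 = 1) ∧ (g ^ 8 = 1 → g ^ 4 = 1) := by
  obtain ⟨c1, hc1, hcd⟩ := dodecad_trans D0_mem hd
  have hx0 : ∀ i < 24, Nat.testBit 28637 i = true → c1 (pt i) ∈ d := by
    intro i hi h
    rw [← hcd]
    exact Finset.smul_mem_smul_finset (by show pt i ∈ ofMask 28637; rw [mem_ofMask, ix_pt i hi]; exact h)
  obtain ⟨c2, hc2, hc2d, hc2x⟩ := dodecad_five_trans hd 3 (by norm_num) ![c1 (pt 0), c1 (pt 2), c1 (pt 3)] ![p, q, r]
    (by
      intro i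
      fin_cases i
      · exact hx0 0 (by norm_num) (by decide)
      · exact hx0 2 (by norm_num) (by decide)
      · exact hx0 3 (by norm_num) (by decide))
    (by
      intro i
      fin_cases i
      · exact hp
      · exact hq
      · exact hr)
    (by
      have h02 : c1 (pt 0) ≠ c1 (pt 2) := fun h => absurd (c1.injective h) (by decide)
      have h03 : c1 (pt 0) ≠ c1 (pt 3) := fun h => absurd (c1.injective h) (by decide)
      have h23 : c1 (pt 2) ≠ c1 (pt 3) := fun h => absurd (c1.injective h) (by decide)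
      exact inj3 h02 h03 h23)
    (inj3 hpq hpr hqr)
  set c := c2 * c1 with hc
  have hcM : c ∈ M24 := mul_mem hc2 hc1
  have hcD : c • ofMask 28637 = d := by
    rw [hc, mul_smul]
    have : c1 • ofMask 28637 = d := hcd
    rw [this, hc2d]
  have c0 : c (pt 0) = p := hc2x 0
  have c2' : c (pt 2) = q := hc2x 1
  have c3 : c (pt 3) = r := hc2x 2
  have conj : ∀ g : ↥(KK d p q r), ∃ l ∈ L72, Rep (c⁻¹ * (g : Equiv.Perm GolayPt) * c) l := by
    intro g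
    obtain ⟨h1, h2, h3, h4⟩ := mem_KK.1 g.2
    have hfix : ∀ (i : ℕ) (s : GolayPt), c (pt i) = s → (g : Equiv.Perm GolayPt) s = s →
        (c⁻¹ * (g : Equiv.Perm GolayPt) * c) (pt i) = pt i := by
      intro i s hs hgs
      show c⁻¹ ((g : Equiv.Perm GolayPt) (c (pt i))) = pt i
      rw [hs, hgs, ← hs]
      exact c.symm_apply_apply _
    apply rep72 (mul_mem (mul_mem (inv_mem hcM) g.1.2) hcM)
    · rw [mul_smul, mul_smul, hcD, h1, inv_smul_eq_iff, hcD]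
    · exact hfix 0 p c0 h2
    · exact hfix 2 q c2' h3
    · exact hfix 3 r c3 h4
  have hpw : ∀ (g : ↥(KK d p q r)) (n : ℕ), g ^ n = 1 ↔ (c⁻¹ * (g : Equiv.Perm GolayPt) * c) ^ n = 1 := by
    intro g n
    have e : (c⁻¹ * (g : Equiv.Perm GolayPt) * c) ^ n = c⁻¹ * (g : Equiv.Perm GolayPt) ^ n * c := by
      have := conj_pow (i := n) (a := c⁻¹) (b := (g : Equiv.Perm GolayPt))
      rw [inv_inv] at this
      exact this
    rw [e]
    constructor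
    · intro h
      have h1 : (g : Equiv.Perm GolayPt) ^ n = 1 := congrArg (fun x : ↥(KK d p q r) => (x : Equiv.Perm GolayPt)) h
      rw [h1]; group
    · intro h
      apply Subtype.ext
      apply Subtype.ext
      show (g : Equiv.Perm GolayPt) ^ n = 1
      have h1 : (g : Equiv.Perm GolayPt) ^ n = c * (c⁻¹ * (g : Equiv.Perm GolayPt) ^ n * c) * c⁻¹ := by group
      rw [h1, h]; group
  have hmul : (c⁻¹ * (g : Equiv.Perm GolayPt) * c) * (c⁻¹ * (h : Equiv.Perm GolayPt) * c) =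
      c⁻¹ * ((g * h : ↥(KK d p q r)) : Equiv.Perm GolayPt) * c := by
    show _ = c⁻¹ * ((g : Equiv.Perm GolayPt) * (h : Equiv.Perm GolayPt)) * c
    group
  have hp := props (conj g) (conj h)
  rw [hmul] at hp
  rw [← hpw, ← hpw, ← hpw, ← hpw, ← hpw, ← hpw, ← hpw, ← hpw] at hp
  have h1 : ∀ g : ↥(KK d p q r), g ≠ 1 → c⁻¹ * (g : Equiv.Perm GolayPt) * c ≠ 1 := by
    intro g hg hc1
    apply hg
    have := (hpw g 1).2 (by rw [pow_one]; exact hc1)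
    rwa [pow_one] at this
  exact ⟨hp.1, fun a b hg hh => hp.2.1 a b (h1 g hg) (h1 h hh), hp.2.2.1, hp.2.2.2⟩

theorem card_KK {d : Finset Cfsg.GolayPt} (hd : d ∈ Cfsg.dodecads) {p q r : Cfsg.GolayPt} (hp : p ∈ d) (hq : q ∈ d)
    (hr : r ∈ d) (hpq : p ≠ q) (hpr : p ≠ r) (hqr : q ≠ r) : Nat.card ↥(KK d p q r) = 72 := by
  have hyi : Function.Injective (![p, q, r] : Fin 3 → GolayPt) := inj3 hpq hpr hqr
  have h := card_inf_stab (α := Finset GolayPt) (β := Fin 3 → GolayPt) d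
    {y : Fin 3 → GolayPt | Function.Injective y ∧ ∀ i, y i ∈ d}
    (by
      rintro s ⟨hs, hs'⟩ s' ⟨hs1, hs1'⟩
      obtain ⟨g, hg, hgd, hgx⟩ := dodecad_five_trans hd 3 (by norm_num) s s' hs' hs1' hs hs1
      exact ⟨g, hg, hgd, funext hgx⟩)
    (by
      rintro g hg hgd s ⟨hs, hs'⟩
      refine ⟨fun i j h => hs (g.injective h), fun i => ?_⟩
      have h1 : g • s i ∈ g • d := Finset.smul_mem_smul_finset (hs' i)
      rw [hgd] at h1
      exact h1) (y := ![p, q, r]) ⟨hyi, by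
        intro i
        fin_cases i
        · exact hp
        · exact hq
        · exact hr⟩
  rw [ncard_injective_mem, (mem_dodecads.1 hd).2] at h
  have h1 : Nat.card ↥(MulAction.stabilizer M24 d) = 95040 := by
    rw [← card_stab_dodecad hd]
    exact Nat.card_congr ⟨fun g => ⟨g.1.1, g.1.2, g.2⟩, fun g => ⟨⟨g.1, g.2.1⟩, g.2.2⟩, fun _ => rfl, fun _ => rfl⟩
  have h2 : MulAction.stabilizer M24 d ⊓ MulAction.stabilizer M24 (![p, q, r] : Fin 3 → GolayPt) = KK d p q r := by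
    ext g
    rw [mem_KK, Subgroup.mem_inf]
    constructor
    · rintro ⟨h3, h4⟩
      have h5 : ∀ i, (g : Equiv.Perm GolayPt) ((![p, q, r] : Fin 3 → GolayPt) i) = (![p, q, r] : Fin 3 → GolayPt) i :=
        fun i => congrFun h4 i
      exact ⟨h3, h5 0, h5 1, h5 2⟩
    · rintro ⟨h3, h4, h5, h6⟩
      refine ⟨h3, ?_⟩
      funext i
      fin_cases i
      · exact h4
      · exact h5
      · exact h6
  rw [h1, h2] at h
  have h3 : Nat.descFactorial 12 3 = 1320 := by decide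
  rw [h3] at h
  omega

/-- In the group of the length-24 code, the subgroup fixing a dodecad setwise and three of its points individually (a group of order 72) has a normal Sylow 3-subgroup that is elementary abelian of order 9, and its Sylow 2-subgroups are quaternion of order 8. -/
theorem result (d : Finset Cfsg.GolayPt) (hd : d ∈ Cfsg.dodecads) (p q r : Cfsg.GolayPt) (hp : p ∈ d) (hq : q ∈ d) (hr : r ∈ d) (hpq : p ≠ q) (hpr : p ≠ r) (hqr : q ≠ r) : (∀ Q : Sylow 3 ↥(MulAction.stabilizer Cfsg.M24 d ⊓ MulAction.stabilizer Cfsg.M24 p ⊓ MulAction.stabilizer Cfsg.M24 q ⊓ MulAction.stabilizer Cfsg.M24 r), (Q : Subgroup ↥(MulAction.stabilizer Cfsg.M24 d ⊓ MulAction.stabilizer Cfsg.M24 p ⊓ MulAction.stabilizer Cfsg.M24 q ⊓ MulAction.stabilizer Cfsg.M24 r)).Normal ∧ Nat.card ↥Q = 9 ∧ ∀ x ∈ (Q : Subgroup ↥(MulAction.stabilizer Cfsg.M24 d ⊓ MulAction.stabilizer Cfsg.M24 p ⊓ MulAction.stabilizer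 Cfsg.M24 q ⊓ MulAction.stabilizer Cfsg.M24 r)), x ^ 3 = 1) ∧ ∀ P : Sylow 2 ↥(MulAction.stabilizer Cfsg.M24 d ⊓ MulAction.stabilizer Cfsg.M24 p ⊓ MulAction.stabilizer Cfsg.M24 q ⊓ MulAction.stabilizer Cfsg.M24 r), Nonempty (↥P ≃* QuaternionGroup 2) := by
  haveI : Finite ↥(KK d p q r) := Nat.finite_of_card_ne_zero (by rw [card_KK hd hp hq hr hpq hpr hqr]; norm_num)
  exact abstract72 (card_KK hd hp hq hr hpq hpr hqr) (fun g h => (props_KK hd hp hq hr hpq hpr hqr g h).1)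
    (fun g h => (props_KK hd hp hq hr hpq hpr hqr g h).2.1) (fun g => (props_KK hd hp hq hr hpq hpr hqr g g).2.2.1)
    (fun g => (props_KK hd hp hq hr hpq hpr hqr g g).2.2.2)

end Cfsg.Agent.S5619
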