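import Cfsg.Statements.S5620
import Cfsg.Agent.H14_M24Gen
import Cfsg.Agent.H7_M24d

set_option autoImplicit false
open scoped Pointwise
open Cfsg

namespace Cfsg.Agent.S5620

open Cfsg.Agent.H7.Golay Cfsg.Agent.H7.Oct Cfsg.Agent.H7.M24 Cfsg.Agent.H7.M24d Cfsg.Agent.H14.M24Gen
open scoped Pointwise

def lg : List ℕ := [23, 22, 11, 15, 17, 9, 19, 13, 20, 5, 16, 2, 21, 7, 18, 3, 10, 4, 14, 6, 8, 12, 1, 0]

theorem lg_ok : isM24 lg = true := by decide +kernel

theorem compl_sq : ofMask 16436384 = Finset.univ \ ofMask sqM := by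
  rw [← Finset.compl_eq_univ_sdiff]
  ext p
  rw [Finset.mem_compl, mem_ofMask, mem_ofMask]
  have : ∀ i < 24, Nat.testBit 16436384 i = !(Nat.testBit sqM i) := by decide
  rw [this _ (ix_lt p)]
  simp

theorem exists_g : ∃ g ∈ M24, g • ofMask sqM = Finset.univ \ ofMask sqM ∧ g (pt 0) = pt 23 := by
  obtain ⟨g, hg, hr⟩ := exists_M24 lg_ok
  refine ⟨g, hg, ?_, ?_⟩
  · rw [hr.smul_ofMask, ← compl_sq, show act lg sqM = 16436384 by decide +kernel]
  · rw [hr.apply_pt (by norm_num)]; rfl

theorem smul_compl (g : Equiv.Perm GolayPt) (s : Finset GolayPt) : g • (Finset.univ \ s) = Finset.univ \ (g • s) := by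
  rw [Finset.smul_finset_sdiff, Finset.smul_finset_univ]

theorem univ_sdiff_inj {s t : Finset GolayPt} (h : Finset.univ \ s = Finset.univ \ t) : s = t := by
  rw [← Finset.compl_eq_univ_sdiff, ← Finset.compl_eq_univ_sdiff] at h
  exact compl_injective h

theorem pt23 : pt 23 = (none : GolayPt) := by decide
theorem pt00 : pt 0 = (some 0 : GolayPt) := by decide

theorem conj_eq {g : Equiv.Perm GolayPt} (hg : g ∈ M24) (h1 : g • ofMask sqM = Finset.univ \ ofMask sqM)
    (h2 : g (pt 0) = pt 23) : MulAut.conj g • Cfsg.Spor.M11 =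
      Cfsg.Spor.M12 ⊓ MulAction.stabilizer (Equiv.Perm Cfsg.GolayPt) (none : Cfsg.GolayPt) := by
  ext x
  rw [Subgroup.mem_pointwise_smul_iff_inv_smul_mem, mem_M11, Subgroup.mem_inf, mem_M12, MulAction.mem_stabilizer_iff]
  have e : (MulAut.conj g)⁻¹ • x = g⁻¹ * x * g := by
    rw [← map_inv]
    show MulAut.conj g⁻¹ x = _
    rw [MulAut.conj_apply, inv_inv]
  rw [e]
  have a1 : g⁻¹ * x * g ∈ M24 ↔ x ∈ M24 := by
    constructor
    · intro h
      have : x = g * (g⁻¹ * x * g) * g⁻¹ := by group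
      rw [this]
      exact mul_mem (mul_mem hg h) (inv_mem hg)
    · intro h
      exact mul_mem (mul_mem (inv_mem hg) h) hg
  have a2 : (g⁻¹ * x * g) • ofMask sqM = ofMask sqM ↔ x • ofMask sqM = ofMask sqM := by
    rw [mul_smul, mul_smul, inv_smul_eq_iff, h1, smul_compl]
    constructor
    · intro h; exact univ_sdiff_inj h
    · intro h; rw [h]
  have a3 : (g⁻¹ * x * g) (pt 0) = pt 0 ↔ x • (none : GolayPt) = none := by
    show g⁻¹ • (x • (g (pt 0))) = pt 0 ↔ _
    rw [h2, inv_smul_eq_iff, pt23]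
    show _ = g (pt 0) ↔ _
    rw [h2, pt23]
  exact and_congr (and_congr a1 a2) a3

/-- Inside the stabiliser of the dodecad of squares (a Mathieu group of degree 12), the stabiliser of the residue 0 (a point of the dodecad) and the stabiliser of the extra point (a point outside the dodecad) are isomorphic but not conjugate; conjugation by a suitable element of the code's group that maps the dodecad of squares onto its complement carries the first onto the second. -/
theorem result : Nonempty (↥(Cfsg.Spor.M12 ⊓ MulAction.stabilizer (Equiv.Perm Cfsg.GolayPt) (none : Cfsg.GolayPt)) ≃* ↥Cfsg.Spor.M11) ∧ (¬ ∃ k ∈ Cfsg.Spor.M12, MulAut.conj k • Cfsg.Spor.M11 = Cfsg.Spor.M12 ⊓ MulAction.stabilizer (Equiv.Perm Cfsg.GolayPt) (none : Cfsg.GolayPt)) ∧ ∃ g ∈ Cfsg.M24, g • Cfsg.Spor.squareDodecad = Finset.univ \ Cfsg.Spor.squareDodecad ∧ MulAut.conj g • Cfsg.Spor.M11 = Cfsg.Spor.M12 ⊓ MulAction.stabilizer (Equiv.Perm Cfsg.GolayPt) (none : Cfsg.GolayPt) := by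
  obtain ⟨g, hg, h1, h2⟩ := exists_g
  have hc := conj_eq hg h1 h2
  refine ⟨?_, ?_, g, hg, ?_, hc⟩
  · rw [← hc]
    exact ⟨(Subgroup.equivSMul (MulAut.conj g) Cfsg.Spor.M11).symm⟩
  · rintro ⟨k, hk, hkc⟩
    have hd : ofMask sqM ∈ dodecads := by
      rw [ofMask_mem_dodecads (by decide), mem_dodL, mem_codeL_iff]
      decide +kernel
    have hd' : Finset.univ \ ofMask sqM ∈ dodecads := by
      rw [← h1]
      exact (smul_mem_dodecads_iff hg).2 hd
    rw [mem_M12] at hk
    set q := k (pt 0) with hq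
    have hqs : q ∈ ofMask sqM := by
      rw [← hk.2]
      apply Finset.smul_mem_smul_finset
      rw [mem_ofMask]; decide
    have hfix : ∀ x ∈ Cfsg.Spor.M12 ⊓ MulAction.stabilizer (Equiv.Perm Cfsg.GolayPt) (none : Cfsg.GolayPt), x q = q := by
      intro x hx
      rw [← hkc, Subgroup.mem_pointwise_smul_iff_inv_smul_mem, mem_M11] at hx
      have h3 := hx.2
      have e : (MulAut.conj k)⁻¹ • x = k⁻¹ * x * k := by
        rw [← map_inv]
        show MulAut.conj k⁻¹ x = _
        rw [MulAut.conj_apply, inv_inv]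
      rw [e] at h3
      have h4 : k⁻¹ • (x • (k (pt 0))) = pt 0 := h3
      rw [inv_smul_eq_iff] at h4
      exact h4
    obtain ⟨q', hq', hne⟩ : ∃ q' ∈ ofMask sqM, q' ≠ q := by
      by_cases h : q = pt 0
      · refine ⟨pt 1, by rw [mem_ofMask]; decide, ?_⟩
        rw [h]; decide
      · exact ⟨pt 0, by rw [mem_ofMask]; decide, fun h' => h h'.symm⟩
    have hns : (none : GolayPt) ∈ Finset.univ \ ofMask sqM := by
      rw [← pt23, ← compl_sq, mem_ofMask]; decide
    obtain ⟨x, hx, hxd, hxn, hxq⟩ := M11_compl_trans hd' hns 1 (by norm_num) (fun _ => q) (fun _ => q')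
      (fun _ => by simpa using hqs) (fun _ => by simpa using hq') (fun a b _ => Subsingleton.elim _ _)
      (fun a b _ => Subsingleton.elim _ _)
    have h5 := hfix x (by
      rw [Subgroup.mem_inf, mem_M12]
      refine ⟨⟨hx, ?_⟩, hxn⟩
      rw [smul_compl] at hxd
      exact univ_sdiff_inj hxd)
    rw [hxq 0] at h5
    exact hne h5
  · rw [squareDodecad_eq]; exact h1

end Cfsg.Agent.S5620
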