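import Cfsg.Statements.S5623
import Cfsg.Agent.H28_Gol

set_option autoImplicit false
open Cfsg

namespace Cfsg.Agent.S5623

open Cfsg.Agent.H28.Gol

theorem zneg (x : W24) : -x = x := by
  funext i
  show - x i = x i
  generalize x i = a
  revert a; decide

theorem inS {C : Submodule (ZMod 2) W24} {u u' w : W24} (h1 : u - w ∈ C) (h2 : u' - w ∈ C) : u + u' ∈ C := by
  have := C.sub_mem h1 h2
  have h3 : u - w - (u' - w) = u - u' := by abel
  rw [h3, sub_eq_add_neg, zneg] at this
  exact this

/-- Let C be a self-dual binary code of length 24 with minimum weight at least 8 (a 12-dimensional subspace of the 24-dimensional space over the field with two elements, any two of whose words have dot product zero, with no non-zero word of weight below 8 — an abstract extended binary Golay code). Then every coset w + C of C in the ambient space contains either exactly one word of weight at most 4, which then has weight at most 3, or exactly six words of weight at most 4, all of weight exactly 4 and with pairwise disjoint supports (a sextet). -/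
theorem result (C : Submodule (ZMod 2) (Fin 24 → ZMod 2)) (hdim : Module.finrank (ZMod 2) C = 12) (horth : ∀ v ∈ C, ∀ w ∈ C, ∑ i, v i * w i = 0) (hmin : ∀ w ∈ C, w ≠ 0 → 8 ≤ hammingNorm w) (w : Fin 24 → ZMod 2) : (∃ u : Fin 24 → ZMod 2, {u : Fin 24 → ZMod 2 | u - w ∈ C ∧ hammingNorm u ≤ 4} = {u} ∧ hammingNorm u ≤ 3) ∨ ({u : Fin 24 → ZMod 2 | u - w ∈ C ∧ hammingNorm u ≤ 4}.ncard = 6 ∧ ∀ u ∈ {u : Fin 24 → ZMod 2 | u - w ∈ C ∧ hammingNorm u ≤ 4}, hammingNorm u = 4 ∧ ∀ u' ∈ {u : Fin 24 → ZMod 2 | u - w ∈ C ∧ hammingNorm u ≤ 4}, u ≠ u' → Disjoint (Finset.univ.filter fun i => u i ≠ 0) (Finset.univ.filter fun i => u' i ≠ 0)) := by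
  classical
  have h : SD C := ⟨hdim, horth, hmin⟩
  obtain ⟨u, hu, hu4⟩ := h.exists_leader w
  -- any two members
  have key : ∀ a b : W24, a - w ∈ C → b - w ∈ C → (sp a).card ≤ 4 → (sp b).card ≤ 4 → a ≠ b →
      (sp a).card = 4 ∧ (sp b).card = 4 ∧ Disjoint (sp a) (sp b) := by
    intro a b ha hb ha4 hb4 hab
    have h1 := inS ha hb
    have h0 : a + b ≠ 0 := by
      intro h0
      apply hab
      rw [add_eq_zero_iff_eq_neg, zneg] at h0
      exact h0
    have h2 := h.min8 h1 h0
    have h3 := card_add a b
    refine ⟨by omega, by omega, ?_⟩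
    rw [Finset.disjoint_iff_inter_eq_empty, ← Finset.card_eq_zero]
    omega
  by_cases h3 : (sp u).card ≤ 3
  · left
    refine ⟨u, ?_, h3⟩
    ext a
    constructor
    · rintro ⟨ha, ha4⟩
      by_contra hne
      have := (key u a hu ha hu4 ha4 (fun h => hne h.symm)).1
      omega
    · rintro rfl
      exact ⟨hu, hu4⟩
  · right
    have hu4' : (sp u).card = 4 := by omega
    have hall : ∀ a, a - w ∈ C → (sp a).card ≤ 4 → (sp a).card = 4 := by
      intro a ha ha4
      by_cases hau : a = u
      · rw [hau]; exact hu4'
      · exact (key a u ha hu ha4 hu4 hau).1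
    constructor
    · -- the number of members
      have hst : ((Finset.univ.filter fun b : Finset (Fin 24) => b ∈ Cfsg.wordsOfWeight (C : Set (Fin 24 → ZMod 2)) 8).filter (sp u ⊆ ·)).card * 4 = 20 := by
        have hst := steiner_count h.steiner (sp u) (by omega)
        rw [hu4', Fintype.card_fin] at hst
        have e1 : Nat.choose (8 - 4) (5 - 4) = 4 := rfl
        have e2 : Nat.choose (24 - 4) (5 - 4) = 20 := rfl
        rw [e1, e2] at hst
        convert hst
      have hcnt : ((Finset.univ.filter fun b : Finset (Fin 24) => b ∈ Cfsg.wordsOfWeight (C : Set (Fin 24 → ZMod 2)) 8).filter (sp u ⊆ ·)).card = 5 := by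
        omega
      set F := ((Finset.univ.filter fun b : Finset (Fin 24) => b ∈ Cfsg.wordsOfWeight (C : Set (Fin 24 → ZMod 2)) 8).filter (sp u ⊆ ·)) with hF
      have hmemF : ∀ b, b ∈ F ↔ (∃ v ∈ C, (sp v).card = 8 ∧ sp v = b) ∧ sp u ⊆ b := by
        intro b
        rw [hF, Finset.mem_filter, Finset.mem_filter, ← SD.mem_words]
        simp
      have hset : {u : Fin 24 → ZMod 2 | u - w ∈ C ∧ hammingNorm u ≤ 4} = insert u ((fun b => u + iw b) '' (F : Set (Finset (Fin 24)))) := by
        ext a
        constructor
        · rintro ⟨ha, ha4⟩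
          by_cases hau : a = u
          · left; exact hau
          · right
            have hk := key a u ha hu ha4 hu4 hau
            refine ⟨sp (u + a), ?_, ?_⟩
            · rw [Finset.mem_coe, hmemF]
              refine ⟨⟨u + a, inS hu ha, ?_, rfl⟩, ?_⟩
              · have := card_add u a
                have h5 : (sp u ∩ sp a).card = 0 := by
                  rw [Finset.card_eq_zero, ← Finset.disjoint_iff_inter_eq_empty]; exact hk.2.2.symm
                omega
              · intro i hi
                rw [sp_add, Finset.mem_symmDiff]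
                left
                exact ⟨hi, fun h' => (Finset.disjoint_left.1 hk.2.2) h' hi⟩
            · show u + iw (sp (u + a)) = a
              rw [iw_sp, ← add_assoc]
              have : u + u = 0 := by rw [add_eq_zero_iff_eq_neg, zneg]
              rw [this, zero_add]
        · rintro (rfl | ⟨b, hb, rfl⟩)
          · exact ⟨hu, hu4⟩
          · rw [Finset.mem_coe, hmemF] at hb
            obtain ⟨⟨v, hv, h8, rfl⟩, hub⟩ := hb
            refine ⟨?_, ?_⟩
            · show u + iw (sp v) - w ∈ C
              rw [iw_sp, show u + v - w = (u - w) + v by abel]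
              exact C.add_mem hu hv
            · show hammingNorm (u + iw (sp v)) ≤ 4
              rw [iw_sp, hn_eq]
              have := card_add u v
              have h5 : (sp u ∩ sp v).card = 4 := by
                rw [Finset.inter_eq_left.2 hub]; exact hu4'
              omega
      rw [hset, Set.ncard_insert_of_notMem, Set.ncard_image_of_injOn, Set.ncard_coe_finset, hcnt]
      · intro b hb b' hb' hbb
        have h1 : iw b = iw b' := add_left_cancel hbb
        rw [← sp_iw b, h1, sp_iw]
      · rintro ⟨b, hb, h1⟩
        have h2 : iw b = 0 := by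
          have h3 : u + iw b = u + 0 := by rw [add_zero]; exact h1
          exact add_left_cancel h3
        rw [Finset.mem_coe, hmemF] at hb
        obtain ⟨⟨v, hv, h8, rfl⟩, _⟩ := hb
        rw [iw_sp] at h2
        rw [h2, sp_zero] at h8
        exact absurd h8 (by decide)
    · rintro a ⟨ha, ha4⟩
      refine ⟨hall a ha ha4, ?_⟩
      rintro b ⟨hb, hb4⟩ hab
      exact (key a b ha hb ha4 hb4 hab).2.2

end Cfsg.Agent.S5623
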