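import Cfsg.Statements.S5625
import Cfsg.Agent.H28_Gol

set_option autoImplicit false
open Cfsg

namespace Cfsg.Agent.S5625

open Cfsg.Agent.H28.Gol

open Classical in
theorem moment {α : Type*} [Fintype α] [DecidableEq α] {B : Set (Finset α)} (hB : Cfsg.IsSteinerSystem 5 8 B) (Y : Finset α) (m l : ℕ)
    (hm : m ≤ 5) (hl : l * (8 - m).choose (5 - m) = (Fintype.card α - m).choose (5 - m)) :
    ∑ b ∈ Finset.univ.filter (fun b : Finset α => b ∈ B), (b ∩ Y).card.choose m = Y.card.choose m * l := by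
  have h1 : ∀ b : Finset α, (b ∩ Y).card.choose m = ∑ M ∈ Finset.powersetCard m Y, if M ⊆ b then 1 else 0 := by
    intro b
    rw [← Finset.card_powersetCard, Finset.sum_ite, Finset.sum_const_zero, add_zero, Finset.sum_const, smul_eq_mul, mul_one]
    congr 1
    ext T
    rw [Finset.mem_filter, Finset.mem_powersetCard, Finset.mem_powersetCard, Finset.subset_inter_iff]
    tauto
  rw [Finset.sum_congr rfl (fun b _ => h1 b), Finset.sum_comm]
  have h2 : ∀ M ∈ Finset.powersetCard m Y, (∑ b ∈ Finset.univ.filter (fun b : Finset α => b ∈ B), if M ⊆ b then 1 else 0) = l := by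
    intro M hM
    rw [Finset.mem_powersetCard] at hM
    rw [Finset.sum_ite, Finset.sum_const_zero, add_zero, Finset.sum_const, smul_eq_mul, mul_one]
    have h3 := steiner_count hB M (by omega)
    rw [hM.2] at h3
    have h4 : 0 < (8 - m).choose (5 - m) := Nat.choose_pos (by omega)
    have h5 := Nat.eq_of_mul_eq_mul_right h4 (h3.trans hl.symm)
    convert h5
  rw [Finset.sum_congr rfl h2, Finset.sum_const, Finset.card_powersetCard, smul_eq_mul]

/-- In any Steiner system S(5, 8, 24) and for any set Y of three points, the blocks meeting Y in exactly 3, 2, 1 and 0 points number 21, 168, 360 and 210 respectively (so there are 759 blocks in all). -/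
theorem result (α : Type*) [Fintype α] [DecidableEq α] (hα : Fintype.card α = 24) (B : Set (Finset α)) (hB : Cfsg.IsSteinerSystem 5 8 B) (Y : Finset α) (hY : Y.card = 3) : {b : Finset α | b ∈ B ∧ (b ∩ Y).card = 3}.ncard = 21 ∧ {b : Finset α | b ∈ B ∧ (b ∩ Y).card = 2}.ncard = 168 ∧ {b : Finset α | b ∈ B ∧ (b ∩ Y).card = 1}.ncard = 360 ∧ {b : Finset α | b ∈ B ∧ (b ∩ Y).card = 0}.ncard = 210 := by
  classical
  have m0 := moment hB Y 0 759 (by norm_num) (by rw [hα]; decide)
  have m1 := moment hB Y 1 253 (by norm_num) (by rw [hα]; decide)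
  have m2 := moment hB Y 2 77 (by norm_num) (by rw [hα]; decide)
  have m3 := moment hB Y 3 21 (by norm_num) (by rw [hα]; decide)
  rw [hY] at m0 m1 m2 m3
  set F : Finset (Finset α) := Finset.univ.filter (fun b : Finset α => b ∈ B) with hF
  have hle : ∀ b ∈ F, (b ∩ Y).card ≤ 3 := by
    intro b _
    rw [← hY]; exact Finset.card_le_card Finset.inter_subset_right
  have hn : ∀ i : ℕ, {b : Finset α | b ∈ B ∧ (b ∩ Y).card = i}.ncard = ∑ b ∈ F, if (b ∩ Y).card = i then 1 else 0 := by
    intro i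
    rw [Finset.sum_ite, Finset.sum_const_zero, add_zero, Finset.sum_const, smul_eq_mul, mul_one]
    have : {b : Finset α | b ∈ B ∧ (b ∩ Y).card = i} = ((F.filter fun b => (b ∩ Y).card = i : Finset (Finset α)) : Set (Finset α)) := by
      ext b
      simp [hF]
    rw [this, Set.ncard_coe_finset]
  rw [hn, hn, hn, hn]
  have s3 : ∑ b ∈ F, (b ∩ Y).card.choose 3 = ∑ b ∈ F, if (b ∩ Y).card = 3 then 1 else 0 := by
    apply Finset.sum_congr rfl
    intro b hb
    have := hle b hb
    interval_cases (b ∩ Y).card <;> rfl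
  have s2 : ∑ b ∈ F, (b ∩ Y).card.choose 2 = (∑ b ∈ F, if (b ∩ Y).card = 2 then 1 else 0) + 3 * ∑ b ∈ F, if (b ∩ Y).card = 3 then 1 else 0 := by
    rw [Finset.mul_sum, ← Finset.sum_add_distrib]
    apply Finset.sum_congr rfl
    intro b hb
    have := hle b hb
    interval_cases (b ∩ Y).card <;> rfl
  have s1 : ∑ b ∈ F, (b ∩ Y).card.choose 1 = (∑ b ∈ F, if (b ∩ Y).card = 1 then 1 else 0) + 2 * (∑ b ∈ F, if (b ∩ Y).card = 2 then 1 else 0) + 3 * ∑ b ∈ F, if (b ∩ Y).card = 3 then 1 else 0 := by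
    rw [Finset.mul_sum, Finset.mul_sum, ← Finset.sum_add_distrib, ← Finset.sum_add_distrib]
    apply Finset.sum_congr rfl
    intro b hb
    have := hle b hb
    interval_cases (b ∩ Y).card <;> rfl
  have s0 : ∑ b ∈ F, (b ∩ Y).card.choose 0 = (∑ b ∈ F, if (b ∩ Y).card = 0 then 1 else 0) + (∑ b ∈ F, if (b ∩ Y).card = 1 then 1 else 0) + (∑ b ∈ F, if (b ∩ Y).card = 2 then 1 else 0) + ∑ b ∈ F, if (b ∩ Y).card = 3 then 1 else 0 := by
    rw [← Finset.sum_add_distrib, ← Finset.sum_add_distrib, ← Finset.sum_add_distrib]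
    apply Finset.sum_congr rfl
    intro b hb
    have := hle b hb
    interval_cases (b ∩ Y).card <;> rfl
  rw [s0] at m0
  rw [s1] at m1
  rw [s2] at m2
  rw [s3] at m3
  have c0 : Nat.choose 3 0 = 1 := rfl
  have c1 : Nat.choose 3 1 = 3 := rfl
  have c2 : Nat.choose 3 2 = 3 := rfl
  have c3 : Nat.choose 3 3 = 1 := rfl
  rw [c0] at m0
  rw [c1] at m1
  rw [c2] at m2
  rw [c3] at m3
  omega

end Cfsg.Agent.S5625
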