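import Cfsg.Statements.S5627
import Cfsg.Agent.H28_Pl

set_option autoImplicit false
open Cfsg

namespace Cfsg.Agent.S5627

open Cfsg.Agent.H28.Pl



/-- In a projective plane of order 4 (a Steiner system S(2, 5, 21)), call a set of points independent when no line meets it in more than two points. There are exactly 2520 independent 4-sets and exactly 168 independent 6-sets (hyperovals), and every independent 4-set lies in exactly one hyperoval. -/
theorem result {α : Type*} [Fintype α] [DecidableEq α] (hα : Fintype.card α = 21) (L : Set (Finset α)) (hL : Cfsg.IsSteinerSystem 2 5 L) : {S : Finset α | (S.card = 4 ∧ ∀ l ∈ L, (l ∩ S).card ≤ 2)}.ncard = 2520 ∧ {H : Finset α | (H.card = 6 ∧ ∀ l ∈ L, (l ∩ H).card ≤ 2)}.ncard = 168 ∧ ∀ S : Finset α, (S.card = 4 ∧ ∀ l ∈ L, (l ∩ S).card ≤ 2) → ∃! H : Finset α, (H.card = 6 ∧ ∀ l ∈ L, (l ∩ H).card ≤ 2) ∧ S ⊆ H := by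
  classical
  have P : Pl L := ⟨hα, hL⟩
  refine ⟨?_, ?_, ?_⟩
  · have : {S : Finset α | (S.card = 4 ∧ ∀ l ∈ L, (l ∩ S).card ≤ 2)} = ((Pl.I L 4 : Finset (Finset α)) : Set (Finset α)) := by
      ext S
      rw [Finset.mem_coe, Pl.mem_I]; rfl
    rw [this, Set.ncard_coe_finset, P.card_I4]
  · have : {S : Finset α | (S.card = 6 ∧ ∀ l ∈ L, (l ∩ S).card ≤ 2)} = ((Pl.I L 6 : Finset (Finset α)) : Set (Finset α)) := by
      ext S
      rw [Finset.mem_coe, Pl.mem_I]; rfl
    rw [this, Set.ncard_coe_finset, P.card_I6]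
  · rintro S ⟨h4, hS⟩
    have hS' : Ind L S := hS
    have h2 := P.ext4 hS' h4
    have hpos : 0 < (Finset.univ.filter fun x => x ∉ S ∧ Ind L (insert x S)).card := by rw [h2]; norm_num
    obtain ⟨x, hx⟩ := Finset.card_pos.1 hpos
    simp only [Finset.mem_filter, Finset.mem_univ, true_and] at hx
    have h5 : (insert x S).card = 5 := by rw [Finset.card_insert_of_notMem hx.1, h4]
    have h1 := P.ext5 hx.2 h5
    obtain ⟨y, hy⟩ := Finset.card_pos.1 (by rw [h1]; norm_num : 0 < (Finset.univ.filter fun y => y ∉ insert x S ∧ Ind L (insert y (insert x S))).card)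
    simp only [Finset.mem_filter, Finset.mem_univ, true_and] at hy
    have h6 : (insert y (insert x S)).card = 6 := by rw [Finset.card_insert_of_notMem hy.1, h5]
    refine ⟨insert y (insert x S), ⟨⟨h6, hy.2⟩, (Finset.subset_insert _ _).trans (Finset.subset_insert _ _)⟩, ?_⟩
    rintro H ⟨⟨hH6, hH⟩, hSH⟩
    have hext : ∀ K : Finset α, K.card = 6 → Ind L K → S ⊆ K → K = S ∪ (Finset.univ.filter fun x => x ∉ S ∧ Ind L (insert x S)) := by
      intro K hK6 hK hSK
      apply Finset.eq_of_subset_of_card_le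
      · intro w hw
        rw [Finset.mem_union]
        by_cases hwS : w ∈ S
        · left; exact hwS
        · right
          simp only [Finset.mem_filter, Finset.mem_univ, true_and]
          exact ⟨hwS, hK.mono (by rw [Finset.insert_subset_iff]; exact ⟨hw, hSK⟩)⟩
      · rw [hK6]
        refine (Finset.card_union_le _ _).trans ?_
        rw [h2, h4]
    rw [hext H hH6 hH hSH, hext _ h6 hy.2 ((Finset.subset_insert _ _).trans (Finset.subset_insert _ _))]

end Cfsg.Agent.S5627
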