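import Cfsg.Statements.S5628
import Cfsg.Agent.H28_Pl2

set_option autoImplicit false
open Cfsg
open scoped Pointwise

namespace Cfsg.Agent.S5628

open Cfsg.Agent.H28.Pl

theorem mem_aut {α : Type*} [Fintype α] [DecidableEq α] {L : Set (Finset α)} {g : Equiv.Perm α} :
    g ∈ Cfsg.setSystemAut L ↔ (fun b : Finset α => b.image g) '' L = L := by
  unfold Cfsg.setSystemAut
  rw [MulAction.mem_stabilizer_iff]
  constructor
  · intro h
    rw [← h]
    conv_rhs => rw [← h]
    rfl
  · intro h
    conv_rhs => rw [← h]
    rfl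

/-- In a projective plane of order 4 (a Steiner system S(2, 5, 21)), every permutation of the six points of a hyperoval (a 6-set met by no line in more than two points) is the restriction of exactly one automorphism of the plane. In particular the stabiliser of a hyperoval in the automorphism group is isomorphic to the symmetric group of degree 6 acting faithfully on the hyperoval. -/
theorem result {α : Type*} [Fintype α] [DecidableEq α] (hα : Fintype.card α = 21) (L : Set (Finset α)) (hL : Cfsg.IsSteinerSystem 2 5 L) (H : Finset α) (hH : (H.card = 6 ∧ ∀ l ∈ L, (l ∩ H).card ≤ 2)) (σ : Equiv.Perm ↥H) : ∃! g : Equiv.Perm α, g ∈ Cfsg.setSystemAut L ∧ ∀ p : ↥H, g p = σ p := by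
  classical
  have P : Pl L := ⟨hα, hL⟩
  obtain ⟨h6, hI⟩ := hH
  have hc : Fintype.card (Fin 6) = Fintype.card H := by rw [Fintype.card_coe, h6, Fintype.card_fin]
  let e : Fin 6 ≃ H := Fintype.equivOfCardEq hc
  let h : Fin 6 → α := fun i => (e i : α)
  let h' : Fin 6 → α := fun i => (σ (e i) : α)
  have him : Finset.univ.image h = H := by
    ext x
    simp only [Finset.mem_image, Finset.mem_univ, true_and]
    constructor
    · rintro ⟨i, rfl⟩; exact (e i).2
    · intro hx; exact ⟨e.symm ⟨x, hx⟩, by simp [h]⟩
  have him' : Finset.univ.image h' = H := by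
    ext x
    simp only [Finset.mem_image, Finset.mem_univ, true_and]
    constructor
    · rintro ⟨i, rfl⟩; exact (σ (e i)).2
    · intro hx; exact ⟨e.symm (σ.symm ⟨x, hx⟩), by simp [h']⟩
  have Hh : Hy L h := ⟨P, fun i j hij => e.injective (Subtype.ext hij), by rw [him]; exact hI⟩
  have Hh' : Hy L h' := ⟨P, fun i j hij => e.injective (σ.injective (Subtype.ext hij)), by rw [him']; exact hI⟩
  obtain ⟨g, hg, hg2⟩ := Hh.exists_iso Hh'
  refine ⟨g, ⟨mem_aut.2 hg, fun p => ?_⟩, ?_⟩
  · have := hg2 (e.symm p)
    simp only [h, h', Equiv.apply_symm_apply] at this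
    exact this
  · rintro g' ⟨h1, h2⟩
    refine Hh.iso_unique P (mem_aut.1 h1) hg fun i => ?_
    rw [hg2 i]
    exact h2 (e i)

end Cfsg.Agent.S5628
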