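import Cfsg.Statements.S5630
import Cfsg.Agent.H29_AscR
import Cfsg.Agent.H29_AscV
import Cfsg.Agent.H29_Trv2

set_option autoImplicit false
open Cfsg

namespace Cfsg.Agent.S5630

open Matrix Cfsg.Geo Cfsg.Agent.H29.Asc


/-- Subgroup structure of the finite linear groups in dimension at least 3. Let F be a finite field, n ≥ 3, and let H be a subgroup of SL_n(F) (the kernel of the determinant inside GL_n(F)) whose product with the scalar matrices of determinant one is not all of SL_n(F), i.e. H does not cover PSL_n(F). Then either H is contained in a member of one of the eight geometric classes of subgroups of GL_n(F) (reducible, imprimitive, extension field, tensor product, subfield, symplectic-type normaliser, tensor wreath, similarity group of a form, with the conditions built into InLinearClass), or H is in the residual class: modulo scalars it is almost simple, and the perfect preimage of its socle acts absolutely irreducibly, is realisable over no proper subfield, and fixes no non-degenerate quadratic,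 symplectic or unitary form. (Dimension 2, where the linear and symplectic groups coincide, is left to the classical list of subgroups of PSL_2.) -/
theorem result {F : Type*} [Field F] [Fintype F] (n : ℕ) (hn : 3 ≤ n) (H : Subgroup (Matrix.GeneralLinearGroup (Fin n) F)) (hH : H ≤ Cfsg.Geo.specialLinear (Fin n) F) (hproper : H ⊔ (Cfsg.Geo.scalars (Fin n) F ⊓ Cfsg.Geo.specialLinear (Fin n) F) ≠ Cfsg.Geo.specialLinear (Fin n) F) : (∃ M : Subgroup (Matrix.GeneralLinearGroup (Fin n) F), Cfsg.Geo.InLinearClass n F M ∧ H ≤ M) ∨ Cfsg.Geo.InLinearResidualClass H := by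
  by_cases hM : ∃ M : Subgroup (Matrix.GeneralLinearGroup (Fin n) F), Cfsg.Geo.InLinearClass n F M ∧ H ≤ M
  · exact Or.inl hM
  · right
    push Not at hM
    apply NonGeom.residual hn
    refine ⟨?_, ?_, ?_, ?_, ?_, ?_, ?_, ?_, ?_, ?_⟩
    · intro W hW
      by_contra hcon
      push Not at hcon
      refine hM (subspaceStabilizer W) (Or.inl ⟨W, hcon.1, hcon.2, rfl⟩) (fun g hg => ?_)
      rw [Cfsg.Agent.H29.Trv.mem_stab_iff]
      intro w hw
      exact hW _ ⟨g, hg, rfl⟩ ⟨w, hw, rfl⟩
    · intro m t D ht hD hle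
      exact hM _ (Or.inr (Or.inr (Or.inr (Or.inl ⟨t, m, D, hD, rfl⟩)))) hle
    · intro r K hr hK hle
      exact hM _ (Or.inr (Or.inr (Or.inr (Or.inr (Or.inl ⟨r, K, hr, hK, rfl⟩))))) hle
    · intro n₁ n₂ e P h1 h2 hle
      exact hM _ (Or.inr (Or.inr (Or.inr (Or.inr (Or.inr (Or.inl ⟨n₁, n₂, e, P, h1, h2, rfl⟩)))))) hle
    · intro F₀ r P hr hcard hle
      exact hM _ (Or.inr (Or.inr (Or.inr (Or.inr (Or.inr (Or.inr (Or.inl ⟨F₀, r, P, hr, hcard, rfl⟩))))))) hle
    · intro r m R _ hR hle
      exact hM _ (Or.inr (Or.inr (Or.inr (Or.inr (Or.inr (Or.inr (Or.inr (Or.inl ⟨r, R, hR, rfl⟩)))))))) hle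
    · intro m t e P h1 h2 hle
      exact hM _ (Or.inr (Or.inr (Or.inr (Or.inr (Or.inr (Or.inr (Or.inr (Or.inr (Or.inl
        ⟨m, t, e, P, h1, h2, rfl⟩))))))))) hle
    · intro f hf hle
      have he := even_of_symp hf
      refine hM _ (Or.inr (Or.inr (Or.inr (Or.inr (Or.inr (Or.inr (Or.inr (Or.inr (Or.inr (Or.inl
        ⟨f, hf, he, ?_, rfl⟩)))))))))) hle
      obtain ⟨k, hk⟩ := he
      omega
    · intro σ f hf hle
      exact hM _ (Or.inr (Or.inr (Or.inr (Or.inr (Or.inr (Or.inr (Or.inr (Or.inr (Or.inr (Or.inr (Or.inl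
        ⟨σ, f, hf, hn, rfl⟩))))))))))) hle
    · intro Q hQ ho hle
      exact hM _ (Or.inr (Or.inr (Or.inr (Or.inr (Or.inr (Or.inr (Or.inr (Or.inr (Or.inr (Or.inr (Or.inr
        ⟨Q, hQ, ho, hn, rfl⟩))))))))))) hle

end Cfsg.Agent.S5630
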