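import Cfsg.Statements.S5631
import Cfsg.Agent.H29_Trv2

set_option autoImplicit false
open Cfsg

namespace Cfsg.Agent.S5631


open Cfsg.Agent.H29.Trv Matrix

/-- For a finite field F and n ≥ 13, the stabiliser in SL_n(F) of any proper non-zero subspace W of F^n is a maximal subgroup of SL_n(F). Here SL_n(F) is the kernel of the determinant inside GL_n(F) and the stabiliser is the set of elements of determinant one mapping W onto itself. -/
theorem result {F : Type*} [Field F] [Fintype F] (n : ℕ) (hn : 13 ≤ n) (W : Submodule F (Fin n → F)) (hW0 : W ≠ ⊥) (hW1 : W ≠ ⊤) : Cfsg.Geo.IsMaximalIn (Cfsg.Geo.specialLinear (Fin n) F) (Cfsg.Geo.subspaceStabilizer W ⊓ Cfsg.Geo.specialLinear (Fin n) F) := by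
  refine isMaximalIn_of inf_le_right (fun h => not_SL_le_stab hW0 hW1 (h.trans inf_le_left)) ?_
  intro M hM1 hM2 g hgM hgH
  apply SL_le_of_ctr
  have hgst : g ∉ Cfsg.Geo.subspaceStabilizer W := fun h => hgH ⟨h, hM2 hgM⟩
  rw [mem_stab_iff] at hgst
  push Not at hgst
  obtain ⟨w, hw, hgw⟩ := hgst
  have hWc : ∀ v ∈ W, v ∈ ctr M := by
    intro v hv φ hφ
    exact (T_inf (T_stab_of_left W hv hφ) (T_SL v φ hφ)).mono hM1
  have hu := ctr_conj (hWc w hw) hgM
  set u := (g : Matrix (Fin n) (Fin n) F) *ᵥ w with hudef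
  obtain ⟨φ, h1, h2⟩ := exists_functional W u hgw
  have hker : ∀ y, φ y = 0 → y ∈ ctr M := by
    intro y hy
    obtain ⟨-, t, ht, h3⟩ := (T_inf (T_stab_of_right W hy h2) (T_SL y φ hy)).mono hM1
    have h4 := ctr_conj hu ht
    rw [h3, h1, one_smul] at h4
    exact ((ctr M).add_mem_iff_right hu).1 h4
  rw [eq_top_iff]
  intro x _
  have h5 : x = (x - φ x • u) + φ x • u := by simp
  rw [h5]
  apply (ctr M).add_mem
  · apply hker
    simp [h1]
  · exact (ctr M).smul_mem _ hu

end Cfsg.Agent.S5631
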