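import Cfsg.Statements.S5632
import Cfsg.Agent.H29_Trv2

set_option autoImplicit false
open Cfsg

namespace Cfsg.Agent.S5632


open Cfsg.Agent.H29.Trv Matrix

/-- For a finite field F and subspaces 0 < W < U of F^n with dim W + dim U = n, the elements of SL_n(F) stabilising both W and U form a subgroup that is not maximal in SL_n(F): some subgroup lies strictly between it and SL_n(F). -/
theorem result {F : Type*} [Field F] [Fintype F] (n : ℕ) (W U : Submodule F (Fin n → F)) (hW0 : W ≠ ⊥) (hWU : W < U) (hdim : Module.finrank F W + Module.finrank F U = n) : ∃ K : Subgroup (Matrix.GeneralLinearGroup (Fin n) F), Cfsg.Geo.subspaceStabilizer W ⊓ Cfsg.Geo.subspaceStabilizer U ⊓ Cfsg.Geo.specialLinear (Fin n) F < K ∧ K < Cfsg.Geo.specialLinear (Fin n) F := by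
  refine ⟨Cfsg.Geo.subspaceStabilizer W ⊓ Cfsg.Geo.specialLinear (Fin n) F, ?_, ?_⟩
  · refine lt_of_le_of_ne (inf_le_inf_right _ inf_le_left) ?_
    intro heq
    obtain ⟨u, hu, huW⟩ := SetLike.exists_of_lt hWU
    obtain ⟨φ, hφu, hφW⟩ := exists_functional W u huW
    have hU : U ≠ ⊤ := by
      rintro rfl
      rw [finrank_top, Module.finrank_fintype_fun_eq_card, Fintype.card_fin] at hdim
      have : Module.finrank F W = 0 := by omega
      exact hW0 (Submodule.finrank_eq_zero.1 this)
    obtain ⟨v0, hv0⟩ : ∃ v0, v0 ∉ U := by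
      by_contra hcon
      push Not at hcon
      exact hU (eq_top_iff.2 fun x _ => hcon x)
    set v := v0 - φ v0 • u with hv
    have hφv : φ v = 0 := by simp [hv, hφu]
    have hvU : v ∉ U := by
      intro h
      apply hv0
      have := U.add_mem h (U.smul_mem (φ v0) hu)
      rwa [hv, sub_add_cancel] at this
    have hmem : trv v φ hφv ∈ Cfsg.Geo.subspaceStabilizer W ⊓ Cfsg.Geo.specialLinear (Fin n) F :=
      ⟨(trv_mem_iff hφv).2 (T_stab_of_right W hφv hφW), trv_mem_SL v φ hφv⟩
    rw [← heq] at hmem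
    have h1 := (mem_stab_iff U _).1 hmem.1.2 u hu
    rw [trv_apply, hφu, one_smul] at h1
    exact hvU ((U.add_mem_iff_right hu).1 h1)
  · refine lt_of_le_of_ne inf_le_right ?_
    intro heq
    exact not_SL_le_stab hW0 (fun h => by
      rw [h] at hWU
      exact not_top_lt hWU) (heq.ge.trans inf_le_left)

end Cfsg.Agent.S5632
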