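import Cfsg.Statements.S5633
import Cfsg.Agent.H29_Trv2

set_option autoImplicit false
open Cfsg

namespace Cfsg.Agent.S5633


open Cfsg.Agent.H29.Trv Matrix

/-- For a finite field F and complementary non-zero subspaces W ⊕ U = F^n with dim W < dim U, the elements of SL_n(F) stabilising both W and U form a subgroup that is not maximal in SL_n(F): some subgroup lies strictly between it and SL_n(F). -/
theorem result {F : Type*} [Field F] [Fintype F] (n : ℕ) (W U : Submodule F (Fin n → F)) (hW0 : W ≠ ⊥) (hWU : W ⊓ U = ⊥) (hWU' : W ⊔ U = ⊤) (hdim : Module.finrank F W < Module.finrank F U) : ∃ K : Subgroup (Matrix.GeneralLinearGroup (Fin n) F), Cfsg.Geo.subspaceStabilizer W ⊓ Cfsg.Geo.subspaceStabilizer U ⊓ Cfsg.Geo.specialLinear (Fin n) F < K ∧ K < Cfsg.Geo.specialLinear (Fin n) F := by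
  have hU0 : U ≠ ⊥ := by
    rintro rfl
    rw [finrank_bot] at hdim
    omega
  obtain ⟨v, hv, hv0⟩ := W.ne_bot_iff.1 hW0
  obtain ⟨u, hu, hu0⟩ := U.ne_bot_iff.1 hU0
  refine ⟨Cfsg.Geo.subspaceStabilizer W ⊓ Cfsg.Geo.specialLinear (Fin n) F, ?_, ?_⟩
  · refine lt_of_le_of_ne (inf_le_inf_right _ inf_le_left) ?_
    intro heq
    have huv : u ∉ Submodule.span F {v} := by
      intro h
      have h1 : u ∈ W ⊓ U := ⟨(Submodule.span_singleton_le_iff_mem v W).2 hv h, hu⟩
      rw [hWU] at h1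
      exact hu0 (by simpa using h1)
    obtain ⟨φ, hφu, hφ⟩ := exists_functional _ u huv
    have hφv : φ v = 0 := hφ v (Submodule.mem_span_singleton_self v)
    have hmem : trv v φ hφv ∈ Cfsg.Geo.subspaceStabilizer W ⊓ Cfsg.Geo.specialLinear (Fin n) F :=
      ⟨(trv_mem_iff hφv).2 (T_stab_of_left W hv hφv), trv_mem_SL v φ hφv⟩
    rw [← heq] at hmem
    have h1 := (mem_stab_iff U _).1 hmem.1.2 u hu
    rw [trv_apply, hφu, one_smul] at h1
    have h2 : v ∈ W ⊓ U := ⟨hv, (U.add_mem_iff_right hu).1 h1⟩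
    rw [hWU] at h2
    exact hv0 (by simpa using h2)
  · refine lt_of_le_of_ne inf_le_right ?_
    intro heq
    refine not_SL_le_stab hW0 (fun h => ?_) (heq.ge.trans inf_le_left)
    rw [h, top_inf_eq] at hWU
    exact hU0 hWU

end Cfsg.Agent.S5633
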