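import Cfsg.Statements.S5634
import Cfsg.Agent.GV8
open Cfsg.Agent.H21.GV Cfsg.Agent.H29.Trv

set_option autoImplicit false
open Cfsg

namespace Cfsg.Agent.S5634



/-- For a finite field F with q elements and n ≥ 13, let D be a decomposition of F^n into t ≥ 2 independent subspaces of equal dimension m ≥ 1 spanning F^n. Unless m = 1 and q ≤ 4, or m = 2 and q = 2, the elements of SL_n(F) permuting the members of D form a maximal subgroup of SL_n(F). -/
theorem result {F : Type*} [Field F] [Fintype F] (n : ℕ) (hn : 13 ≤ n) {t : ℕ} (m : ℕ) (D : Fin t → Submodule F (Fin n → F)) (hD : Cfsg.Geo.IsMDecomposition m D) (h1 : ¬ (m = 1 ∧ Fintype.card F ≤ 4)) (h2 : ¬ (m = 2 ∧ Fintype.card F = 2)) : Cfsg.Geo.IsMaximalIn (Cfsg.Geo.specialLinear (Fin n) F) (Cfsg.Geo.decompositionStabilizer D ⊓ Cfsg.Geo.specialLinear (Fin n) F) := by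
  refine isMaximalIn_of inf_le_right (fun hle => not_SL_le_dec hD (hle.trans inf_le_left)) ?_
  intro M hHM hMN g hg hgH
  have hgn : g ∉ Cfsg.Geo.decompositionStabilizer D := fun h => hgH ⟨h, hMN hg⟩
  by_cases hm : m = 1
  · subst hm
    refine main1 hn hD ?_ hHM hg hgn
    by_contra hq
    exact h1 ⟨rfl, by omega⟩
  · have hm2 : 2 ≤ m := by
      have := hD.pos
      omega
    refine main2 hn hD hm2 (fun h => ?_) hHM hg hgn
    have hq : 2 < Fintype.card F := by
      have h3 : 1 < Fintype.card F := Fintype.one_lt_card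
      have h4 : Fintype.card F ≠ 2 := fun h5 => h2 ⟨h, h5⟩
      omega
    classical
    by_contra hcon
    push Not at hcon
    have h5 : (Finset.univ : Finset F) ⊆ {0, 1} := by
      intro a _
      rw [Finset.mem_insert, Finset.mem_singleton]
      by_cases ha : a = 0
      · exact Or.inl ha
      · exact Or.inr (hcon a ha)
    have h6 := (Finset.card_le_card h5).trans Finset.card_le_two
    rw [Finset.card_univ] at h6
    omega

end Cfsg.Agent.S5634
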