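import Cfsg.Statements.S5635
import Cfsg.Agent.H29_Nm5

set_option autoImplicit false
open Cfsg

namespace Cfsg.Agent.S5635

open Cfsg.Geo Cfsg.Agent.H29.Asc Cfsg.Agent.H29.Fm Matrix Module Cfsg.Agent.H29.Trv Cfsg.Agent.H29.AscT


/-- For a finite field F with q elements and n ≥ 13, let D be a decomposition of F^n into t ≥ 2 independent subspaces of equal dimension m spanning F^n, where m = 1 and q ≤ 4, or m = 2 and q = 2. Then the elements of SL_n(F) permuting the members of D form a subgroup that is not maximal: some subgroup lies strictly between it and SL_n(F). -/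
theorem result {F : Type*} [Field F] [Fintype F] (n : ℕ) (hn : 13 ≤ n) {t : ℕ} (m : ℕ) (D : Fin t → Submodule F (Fin n → F)) (hD : Cfsg.Geo.IsMDecomposition m D) (h : (m = 1 ∧ Fintype.card F ≤ 4) ∨ (m = 2 ∧ Fintype.card F = 2)) : ∃ K : Subgroup (Matrix.GeneralLinearGroup (Fin n) F), Cfsg.Geo.decompositionStabilizer D ⊓ Cfsg.Geo.specialLinear (Fin n) F < K ∧ K < Cfsg.Geo.specialLinear (Fin n) F := by
  classical
  rcases h with ⟨rfl, hq⟩ | ⟨rfl, hq⟩
  · exact lines_nonmax (by omega) hq hD
  · obtain ⟨f, hf, hle⟩ := planes_two hq hD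
    have hs := SpF.of_symp hf
    have hTV : TV f (similarityGroup f ⊓ specialLinear (Fin n) F) := by
      intro v hv hvv
      have h3 : fn hs.sfm v v = 0 := hvv
      refine ⟨1, one_ne_zero, _, ⟨⟨1, fun x y => ?_⟩, trv_mem_SL v (fn hs.sfm v) h3⟩, fun x => ?_⟩
      · rw [trv_apply, trv_apply, fn_apply, fn_apply, hs.sfm.add_left, hs.sfm.add_right, hs.sfm.add_right, hs.sfm.smul_left,
          hs.sfm.smul_left, hs.sfm.smul_right, hs.sfm.smul_right, hvv, hs.skew v y, Units.val_one]
        simp only [RingEquiv.refl_apply]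
        ring
      · rw [trv_apply, fn_apply, one_mul]
    refine nonmax_of (M := similarityGroup f) inf_le_right (inf_le_left.trans hle)
      (not_SL_le_sim (by omega) hf.bilinear.add_right (fun v hv => (hf.nondegenerate v hv).1)) ?_
    have h1 := not_le_dec hs.sfm hTV hs.spn hD (le_refl 2)
    obtain ⟨g, hg, hgn⟩ := Set.not_subset.1 h1
    exact ⟨g, hg.2, hg.1, fun h => hgn h.1⟩

end Cfsg.Agent.S5635
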