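import Cfsg.Statements.S5639
import Cfsg.Agent.GUv4
open Cfsg.Agent.H21.GUv Cfsg.Agent.H21.GUt Cfsg.Agent.H29.Trv Matrix Module Cfsg.Geo

set_option autoImplicit false
open Cfsg

namespace Cfsg.Agent.S5639



/-- For a finite field F, a subfield F₀ with |F| = |F₀| ^ r for a prime r, and n ≥ 13, the subfield group (the conjugate by any P of the product of GL_n(F₀) with the non-zero scalars of F, intersected with SL_n(F)) is a maximal subgroup of SL_n(F). -/
theorem result {F : Type*} [Field F] [Fintype F] (n : ℕ) (hn : 13 ≤ n) (F₀ : Subfield F) (r : ℕ) (hr : r.Prime) (hcard : Fintype.card F = Nat.card F₀ ^ r) (P : Matrix.GeneralLinearGroup (Fin n) F) : Cfsg.Geo.IsMaximalIn (Cfsg.Geo.specialLinear (Fin n) F) (Cfsg.Geo.subfieldSubgroup F₀ P ⊓ Cfsg.Geo.specialLinear (Fin n) F) := by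
  have hcn : 4 ≤ Fintype.card (Fin n) := by rw [Fintype.card_fin]; omega
  have hconj : ∀ x : GL (Fin n) F, x ∈ subfieldSubgroup F₀ (1 : GL (Fin n) F) ↔ P * x * P⁻¹ ∈ subfieldSubgroup F₀ P := by
    intro x
    rw [mem_subfield_iff, mem_subfield_iff]
    have e1 : (1 : GL (Fin n) F)⁻¹ * x * 1 = x := by group
    have e2 : P⁻¹ * (P * x * P⁻¹) * P = x := by group
    rw [e1, e2]
  have hSL : ∀ x : GL (Fin n) F, x ∈ specialLinear (Fin n) F → ∀ Q : GL (Fin n) F, Q * x * Q⁻¹ ∈ specialLinear (Fin n) F := by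
    intro x hx Q
    rw [mem_SL_iff] at hx ⊢
    rw [Units.val_mul, Units.val_mul, Matrix.det_mul, Matrix.det_mul, hx, mul_one, ← Matrix.det_mul, ← Units.val_mul, mul_inv_cancel,
      Units.val_one, Matrix.det_one]
  have hne : ∃ x : F, x ∉ F₀ := by
    by_contra hcon
    push Not at hcon
    have h1 : Nat.card F₀ = Nat.card F := by
      apply Nat.card_congr
      exact ⟨fun x => x.1, fun x => ⟨x, hcon x⟩, fun _ => rfl, fun _ => rfl⟩
    rw [Nat.card_eq_fintype_card (α := F)] at h1
    rw [h1] at hcard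
    have h2 : 1 < Fintype.card F := Fintype.one_lt_card
    have h3 : Fintype.card F ^ 1 = Fintype.card F ^ r := by rw [pow_one]; exact hcard
    have h4 := Nat.pow_right_injective h2 h3
    exact hr.one_lt.ne h4
  refine isMaximalIn_of inf_le_right ?_ ?_
  · intro hle
    obtain ⟨x, hx⟩ := hne
    let i : Fin n := ⟨0, by omega⟩
    let j : Fin n := ⟨1, by omega⟩
    have hij : i ≠ j := by
      intro h
      have := congrArg Fin.val h
      simp [i, j] at this
    have h0 : ((x • (LinearMap.proj j : (Fin n → F) →ₗ[F] F)) ∘ₗ lin P⁻¹) ((P : Matrix (Fin n) (Fin n) F) *ᵥ Pi.single i 1) = 0 := by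
      rw [LinearMap.comp_apply, lin_apply, inv_mulVec_self, LinearMap.smul_apply, proj_single hij, smul_zero]
    have h1 := T_SL ((P : Matrix (Fin n) (Fin n) F) *ᵥ Pi.single i 1) _ h0
    have h2 : T (subfieldSubgroup F₀ P) _ _ := h1.mono (fun y hy => (hle hy).1)
    have h3 := T_sub_rat h2 (Rt.basis i) (by
      intro h4
      have h5 : (Pi.single i 1 : Fin n → F) = 0 := mulVec_inj (g := P) (by rw [h4, mulVec_zero])
      have h6 := congrFun h5 i
      rw [Pi.single_eq_same, Pi.zero_apply] at h6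
      exact one_ne_zero h6) (Rt.basis j)
    rw [LinearMap.comp_apply, lin_apply, inv_mulVec_self, LinearMap.smul_apply, Cfsg.Agent.H21.GUv.proj_self, smul_eq_mul, mul_one] at h3
    exact hx h3
  · intro M hHM hMN g hg hgH
    have key := core (M := M.comap (MulAut.conj P).toMonoidHom) hr hcard hcn (by
      intro x hx
      show P * x * P⁻¹ ∈ M
      exact hHM ⟨(hconj x).1 hx.1, hSL x hx.2 P⟩) (g := P⁻¹ * g * P) (by
      show P * (P⁻¹ * g * P) * P⁻¹ ∈ M
      have e : P * (P⁻¹ * g * P) * P⁻¹ = g := by group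
      rwa [e]) (by
      rw [hconj]
      have e : P * (P⁻¹ * g * P) * P⁻¹ = g := by group
      rw [e]
      exact fun h => hgH ⟨h, hMN hg⟩)
    intro x hx
    have h1 : P⁻¹ * x * P ∈ specialLinear (Fin n) F := by
      have := hSL x hx P⁻¹
      rwa [inv_inv] at this
    have h2 : P * (P⁻¹ * x * P) * P⁻¹ ∈ M := key h1
    have e : P * (P⁻¹ * x * P) * P⁻¹ = x := by group
    rwa [e] at h2

end Cfsg.Agent.S5639
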