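import Cfsg.Statements.S5642
import Cfsg.Agent.H29_TrvFrm

set_option autoImplicit false
open Cfsg

namespace Cfsg.Agent.S5642


open Cfsg.Agent.H29.Trv Matrix

theorem not_SL_le_sim {ι : Type} [Fintype ι] [DecidableEq ι] {F : Type*} [Field F] [Finite F]
    (h3 : 3 ≤ Fintype.card ι) {f : (ι → F) → (ι → F) → F} (hf : Alt f) :
    ¬ Cfsg.Geo.specialLinear ι F ≤ Cfsg.Geo.similarityGroup f := by
  intro hle
  haveI : Nonempty ι := Fintype.card_pos_iff.1 (by omega)
  obtain ⟨i⟩ := ‹Nonempty ι›
  set u : ι → F := Pi.single i 1 with hu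
  have hu0 : u ≠ 0 := by
    intro h
    have := congrFun h i
    simp [hu] at this
  -- a vector orthogonal to u, not in the span of u
  obtain ⟨z, hz, hzu⟩ : ∃ z, f u z = 0 ∧ z ∉ Submodule.span F {u} := by
    by_contra hcon
    push Not at hcon
    have hker : LinearMap.ker (fr hf.toLL u) ≤ Submodule.span F {u} := by
      intro z hz
      apply hcon
      rw [hf.skew]
      have : f z u = 0 := hz
      rw [this, neg_zero]
    have h1 := Submodule.finrank_mono hker
    have h2 := finrank_span_singleton (K := F) hu0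
    have h4 := LinearMap.finrank_range_add_finrank_ker (fr hf.toLL u)
    have h5 : Module.finrank F (LinearMap.range (fr hf.toLL u)) ≤ 1 := by
      have := Submodule.finrank_le (LinearMap.range (fr hf.toLL u))
      simpa using this
    rw [Module.finrank_fintype_fun_eq_card] at h4
    omega
  have hz0 : (fr hf.toLL z) u = 0 := hz
  obtain ⟨c, hc⟩ := hle (trv_mem_SL u (fr hf.toLL z) hz0)
  -- c = 1
  obtain ⟨y, hy⟩ := hf.nondeg u hu0
  have huz : z ∉ Submodule.span F {u} := hzu
  obtain ⟨x, hx1, hx2⟩ := exists_sep' hf _ huz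
  have hx3 := hx2 u (Submodule.mem_span_singleton_self u)
  have e1 := hc y u
  rw [trv_apply, trv_apply] at e1
  simp only [fr_apply, hz, zero_smul, add_zero, hf.add_left, hf.smul_left, hf.self, mul_zero] at e1
  have hc1 : (c : F) = 1 := by
    have : ((c : F) - 1) * f y u = 0 := by linear_combination -e1
    rcases mul_eq_zero.1 this with h | h
    · linear_combination h
    · exact absurd h hy
  have e2 := hc y x
  rw [trv_apply, trv_apply, hc1] at e2
  simp only [fr_apply, hf.add_left, hf.add_right, hf.smul_left, hf.smul_right, hf.self, mul_zero,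
    hx1, hf.skew u x, hx3] at e2
  apply hy
  linear_combination e2

/-- For a finite field F and n ≥ 13, let f be a non-degenerate symplectic form on F^n (so n is even). Then the elements of SL_n(F) that are similarities of f (f(gu, gv) = c f(u, v) for a non-zero scalar c depending on g) form a maximal subgroup of SL_n(F). -/
theorem result {F : Type*} [Field F] [Fintype F] (n : ℕ) (hn : 13 ≤ n) (f : (Fin n → F) → (Fin n → F) → F) (hf : Cfsg.Geo.IsSymplecticForm f) : Cfsg.Geo.IsMaximalIn (Cfsg.Geo.specialLinear (Fin n) F) (Cfsg.Geo.similarityGroup f ⊓ Cfsg.Geo.specialLinear (Fin n) F) := by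
  have hA := Alt.of_symp hf
  refine isMaximalIn_of inf_le_right
    (fun h => not_SL_le_sim (by simpa using by omega) hA (h.trans inf_le_left)) ?_
  intro M hM1 hM2 g hgM hgH
  apply SL_le_of_ctr
  have hgst : g ∉ Cfsg.Geo.similarityGroup f := fun h => hgH ⟨h, hM2 hgM⟩
  have hfull : ∀ v, Full hA M v := by
    intro v a
    have h0 : (a • fr hA.toLL v) v = 0 := by simp [hA.self]
    refine (T_inf ((trv_mem_iff h0).1 ?_) (T_SL v _ h0)).mono hM1
    refine ⟨1, fun x y => ?_⟩
    rw [trv_apply, trv_apply]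
    simp only [LinearMap.smul_apply, fr_apply, smul_eq_mul, Units.val_one, one_mul]
    exact hA.isom v a x y
  -- the operator comparing the two forms
  let B : (Fin n → F) → (Fin n → F) := fun u =>
    Function.surjInv (fr_surjective hA.toLL)
      ((fr hA.toLL (((g⁻¹ : GL (Fin n) F) : Matrix (Fin n) (Fin n) F) *ᵥ u)) ∘ₗ lin g⁻¹)
  have hB : ∀ u x, f x (B u) = f (((g⁻¹ : GL (Fin n) F) : Matrix (Fin n) (Fin n) F) *ᵥ x)
      (((g⁻¹ : GL (Fin n) F) : Matrix (Fin n) (Fin n) F) *ᵥ u) := by
    intro u x
    have := Function.surjInv_eq (fr_surjective hA.toLL)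
      ((fr hA.toLL (((g⁻¹ : GL (Fin n) F) : Matrix (Fin n) (Fin n) F) *ᵥ u)) ∘ₗ lin g⁻¹)
    exact LinearMap.congr_fun this x
  let A : (Fin n → F) →ₗ[F] (Fin n → F) :=
    { toFun := B
      map_add' := by
        intro u v
        apply fr_injective hA.toLL
        ext1 i
        ext1
        simp only [LinearMap.comp_apply, fr_apply, hA.add_right, hB, mulVec_add]
      map_smul' := by
        intro c u
        apply fr_injective hA.toLL
        ext1 i
        ext1
        simp only [LinearMap.comp_apply, fr_apply, hA.smul_right, hB, mulVec_smul,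
          RingHom.id_apply] }
  have hAs : ∀ c : F, A ≠ c • LinearMap.id := by
    intro c hc
    apply hgst
    have h1 : ∀ u x, f (((g⁻¹ : GL (Fin n) F) : Matrix (Fin n) (Fin n) F) *ᵥ x)
      (((g⁻¹ : GL (Fin n) F) : Matrix (Fin n) (Fin n) F) *ᵥ u) = c * f x u := by
      intro u x
      rw [← hB u x]
      have : B u = c • u := by
        have := LinearMap.congr_fun hc u
        exact this
      rw [this, hA.smul_right]
    have hc0 : c ≠ 0 := by
      rintro rfl
      have hn0 : 0 < n := by omega
      have hu0 : (Pi.single (⟨0, hn0⟩ : Fin n) 1 : Fin n → F) ≠ 0 := by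
        intro h
        have := congrFun h ⟨0, hn0⟩
        simp at this
      obtain ⟨y, hy⟩ := hA.nondeg _ hu0
      have := h1 ((g : Matrix (Fin n) (Fin n) F) *ᵥ (Pi.single (⟨0, hn0⟩ : Fin n) 1))
        ((g : Matrix (Fin n) (Fin n) F) *ᵥ y)
      rw [inv_mulVec_self, inv_mulVec_self, zero_mul] at this
      exact hy this
    have : g⁻¹ ∈ Cfsg.Geo.similarityGroup f := ⟨Units.mk0 c hc0, fun x y => h1 y x⟩
    have := (Cfsg.Geo.similarityGroup f).inv_mem this
    rwa [inv_inv] at this
  obtain ⟨u, hu0, hu⟩ := exists_not_span A hAs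
  refine hA.ctr_eq_top hfull hu hu0 ?_
  have h1 := (hfull (((g⁻¹ : GL (Fin n) F) : Matrix (Fin n) (Fin n) F) *ᵥ u) 1).conj hgM
  rw [self_inv_mulVec, one_smul] at h1
  have h2 : fr hA.toLL (A u) =
      fr hA.toLL (((g⁻¹ : GL (Fin n) F) : Matrix (Fin n) (Fin n) F) *ᵥ u) ∘ₗ lin g⁻¹ := by
    ext1 i
    ext1
    simp only [LinearMap.comp_apply, fr_apply, lin_apply]
    exact hB u _
  rw [h2]
  exact h1

end Cfsg.Agent.S5642
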