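import Cfsg.Statements.S5643
import Cfsg.Agent.GUt4
open Cfsg.Agent.H21.GUt Cfsg.Agent.H29.Trv Cfsg.Agent.H29.Fm Matrix Module Cfsg.Geo

set_option autoImplicit false
open Cfsg

namespace Cfsg.Agent.S5643



/-- For a finite field F and n ≥ 13, let σ be a field automorphism of F of order two and f a non-degenerate unitary form on F^n with respect to σ. Then the elements of SL_n(F) that are similarities of f form a maximal subgroup of SL_n(F). -/
theorem result {F : Type*} [Field F] [Fintype F] (n : ℕ) (hn : 13 ≤ n) (σ : F ≃+* F) (f : (Fin n → F) → (Fin n → F) → F) (hf : Cfsg.Geo.IsUnitaryForm σ f) : Cfsg.Geo.IsMaximalIn (Cfsg.Geo.specialLinear (Fin n) F) (Cfsg.Geo.similarityGroup f ⊓ Cfsg.Geo.specialLinear (Fin n) F) := by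
  have h : UF σ f := { toSFm := SFm.of_unitary hf, ne := hf.ne_refl }
  obtain ⟨κ, hκ, hκ2⟩ := h.tz
  have hn0 : (Pi.single (⟨0, by omega⟩ : Fin n) 1 : Fin n → F) ≠ 0 := by
    intro h0
    have := congrFun h0 ⟨0, by omega⟩
    simp at this
  refine isMaximalIn_of inf_le_right ?_ ?_
  · intro hle
    obtain ⟨u, -, hu0, huu⟩ := h.exists_iso (U := ⊤) (by
      rw [finrank_top, Module.finrank_fintype_fun_eq_card, Fintype.card_fin]; omega)
    obtain ⟨z, hz1, hz2⟩ : ∃ z ∈ perp h.toSFm (Submodule.span F {u}), z ∉ Submodule.span F {u} := by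
      by_contra hcon
      push Not at hcon
      have h1 : perp h.toSFm (Submodule.span F {u}) ≤ Submodule.span F {u} := fun x hx => hcon x hx
      have h2 := Submodule.finrank_mono h1
      have h3 := finrank_perp h.toSFm (Submodule.span F {u})
      have h4 := finrank_span_singleton (K := F) hu0
      omega
    have hzu : f z u = 0 := hz1 u (Submodule.mem_span_singleton_self u)
    have hz0 : (fr h.LL z) u = 0 := h.zero_symm hzu
    have hsim := hle (trv_mem_SL u (fr h.LL z) hz0)
    obtain ⟨c, hc⟩ := hsim.1
    have hc' : ∀ x y, f x y + f z y * f x u + f x z * f u y = c * f x y := by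
      intro x y
      have h1 := hc x y
      rw [trv_apply, trv_apply, fr_apply, fr_apply, h.add_left, h.toSFm.add_right, h.toSFm.add_right, h.smul_left,
        h.smul_left, h.toSFm.smul_right, h.toSFm.smul_right, huu, h.sw] at h1
      linear_combination h1
    obtain ⟨x₀, hx₀⟩ := h.nd u hu0
    have hc1 : (c : F) = 1 := by
      have h1 := hc' x₀ u
      rw [hzu, huu] at h1
      have h2 : ((c : F) - 1) * f x₀ u = 0 := by linear_combination -h1
      rcases mul_eq_zero.1 h2 with h3 | h3
      · linear_combination h3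
      · exact absurd h3 hx₀
    obtain ⟨x, hx1, hx2⟩ := exists_sep h.LL _ hz2
    have hxz : f x z = 1 := by rw [← h.sw, hx1, map_one]
    have hxu : f x u = 0 := h.zero_symm (hx2 u (Submodule.mem_span_singleton_self u))
    obtain ⟨y, hy⟩ := h.nd' u hu0
    have h1 := hc' x y
    rw [hxu, hxz, hc1] at h1
    apply hy
    linear_combination h1
  · intro M hM1 hM2 g hgM hgH
    apply SL_le_of_ctr
    have hgst : g ∉ similarityGroup f := fun hh => hgH ⟨hh, hM2 hgM⟩
    have hFull : ∀ v, f v v = 0 → FT h M v := by
      intro v hv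
      exact (T_GU (K := similarityGroup f) h (fun g hg => ⟨1, fun x y => by rw [hg]; simp⟩) hv).mono hM1
    -- the operator comparing the two forms
    let B : (Fin n → F) → (Fin n → F) := fun u =>
      Function.surjInv (fr_surjective h.LL)
        ((fr h.LL (((g⁻¹ : GL (Fin n) F) : Matrix (Fin n) (Fin n) F) *ᵥ u)) ∘ₗ lin g⁻¹)
    have hB : ∀ u x, f x (B u) = f (((g⁻¹ : GL (Fin n) F) : Matrix (Fin n) (Fin n) F) *ᵥ x)
        (((g⁻¹ : GL (Fin n) F) : Matrix (Fin n) (Fin n) F) *ᵥ u) := by
      intro u x
      have := Function.surjInv_eq (fr_surjective h.LL)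
        ((fr h.LL (((g⁻¹ : GL (Fin n) F) : Matrix (Fin n) (Fin n) F) *ᵥ u)) ∘ₗ lin g⁻¹)
      exact LinearMap.congr_fun this x
    let A : (Fin n → F) →ₗ[F] (Fin n → F) :=
      { toFun := B
        map_add' := by
          intro u v
          apply fr_injective h.LL
          ext1 i
          ext1
          simp only [LinearMap.comp_apply, fr_apply, h.toSFm.add_right, hB, mulVec_add]
        map_smul' := by
          intro c u
          apply fr_injective h.LL
          ext1 i
          ext1
          simp only [LinearMap.comp_apply, fr_apply, h.toSFm.smul_right, hB, mulVec_smul,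
            RingHom.id_apply] }
    have hAB : ∀ u, A u = B u := fun u => rfl
    -- the second form
    set G' := ((g⁻¹ : GL (Fin n) F) : Matrix (Fin n) (Fin n) F) with hG'
    set f' : (Fin n → F) → (Fin n → F) → F := fun x y => f (G' *ᵥ x) (G' *ᵥ y) with hf'
    have h' : UF σ f' :=
      { eps := Or.inl rfl
        inv := h.inv
        add_left := fun x y v => by simp only [hf', mulVec_add, h.add_left]
        smul_left := fun c x v => by simp only [hf', mulVec_smul, h.smul_left]
        herm := fun u v => by simp only [hf']; rw [one_mul, h.sw]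
        nd := by
          intro v hv
          obtain ⟨x, hx⟩ := h.nd (G' *ᵥ v) (by
            intro h0
            exact hv (mulVec_inj (g := g⁻¹) (by rw [mulVec_zero]; exact h0)))
          refine ⟨(g : Matrix (Fin n) (Fin n) F) *ᵥ x, ?_⟩
          simp only [hf']
          rw [hG', inv_mulVec_self]
          exact hx
        ne := h.ne }
    have hff' : ∀ x u, f x (A u) = f' x u := fun x u => hB u x
    -- an isotropic vector which is not an eigenvector
    obtain ⟨u, huu, hu⟩ : ∃ u, f' u u = 0 ∧ A u ∉ Submodule.span F {u} := by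
      by_contra hcon
      push Not at hcon
      obtain ⟨u₀, -, hu₀, hu₀u₀⟩ := h'.exists_iso (U := ⊤) (by
        rw [finrank_top, Module.finrank_fintype_fun_eq_card, Fintype.card_fin]; omega)
      obtain ⟨c, hc⟩ := Submodule.mem_span_singleton.1 (hcon u₀ hu₀u₀)
      let W : Submodule F (Fin n → F) := LinearMap.ker (A - c • LinearMap.id)
      have hW : ∀ v, v ∈ W ↔ A v = c • v := by
        intro v
        rw [LinearMap.mem_ker, LinearMap.sub_apply, LinearMap.smul_apply, LinearMap.id_apply, sub_eq_zero]
      have hW1 : ∀ z, f' z u₀ ≠ 0 → z ∈ W := by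
        intro z hz
        obtain ⟨a, ha⟩ := h'.adj hu₀u₀ hz (l := 0) (map_zero σ)
        have hz' : f' (z + a • u₀) u₀ ≠ 0 := by
          rw [h'.add_left, h'.smul_left, hu₀u₀, mul_zero, add_zero]; exact hz
        obtain ⟨z', hz'def⟩ : ∃ z', z' = z + a • u₀ := ⟨_, rfl⟩
        rw [← hz'def] at hz' ha
        have hz's := h'.ne_symm hz'
        set b := κ / f' u₀ z' with hb
        have hb0 : b ≠ 0 := div_ne_zero hκ hz's
        have hz'' : f' (z' + b • u₀) (z' + b • u₀) = 0 := by
          rw [h'.add_left, h'.toSFm.add_right, h'.toSFm.add_right, h'.smul_left, h'.smul_left, h'.toSFm.smul_right,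
            h'.toSFm.smul_right, ha, hu₀u₀, hb, map_div₀, h'.sw, div_mul_cancel₀ _ hz', div_mul_cancel₀ _ hz's]
          linear_combination hκ2
        obtain ⟨c₁, hc₁⟩ := Submodule.mem_span_singleton.1 (hcon z' ha)
        obtain ⟨c₂, hc₂⟩ := Submodule.mem_span_singleton.1 (hcon _ hz'')
        rw [map_add, map_smul, ← hc₁, ← hc] at hc₂
        -- c₂ (z' + b u₀) = c₁ z' + b c u₀
        have e1 := congrArg (fun x => f' x u₀) hc₂
        beta_reduce at e1
        rw [h'.smul_left, h'.add_left, h'.add_left, h'.smul_left, h'.smul_left, h'.smul_left, h'.smul_left, hu₀u₀] at e1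
        have e2 : c₂ = c₁ := by
          have : (c₂ - c₁) * f' z' u₀ = 0 := by linear_combination e1
          rcases mul_eq_zero.1 this with h3 | h3
          · exact sub_eq_zero.1 h3
          · exact absurd h3 hz'
        rw [e2, smul_add, add_right_inj, smul_smul, smul_smul] at hc₂
        have e3 : c₁ = c := by
          have e4 : (c₁ * b - b * c) • u₀ = 0 := by rw [sub_smul, hc₂, sub_self]
          rcases smul_eq_zero.1 e4 with h5 | h5
          · have : b * (c₁ - c) = 0 := by linear_combination h5
            exact sub_eq_zero.1 ((mul_eq_zero.1 this).resolve_left hb0)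
          · exact absurd h5 hu₀
        have hz'W : z' ∈ W := (hW z').2 (by rw [← e3]; exact hc₁.symm)
        have hu₀W : u₀ ∈ W := (hW u₀).2 hc.symm
        rw [hz'def] at hz'W
        exact (W.add_mem_iff_left (W.smul_mem a hu₀W)).1 hz'W
      obtain ⟨z₀, hz₀⟩ := h'.nd u₀ hu₀
      have hWtop : ∀ z, z ∈ W := by
        intro z
        by_cases h0 : f' z u₀ = 0
        · have h2 := hW1 (z + z₀) (by rw [h'.add_left, h0, zero_add]; exact hz₀)
          exact (W.add_mem_iff_left (hW1 z₀ hz₀)).1 h2
        · exact hW1 z h0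
      apply hgst
      have h1 : ∀ x u, f (G' *ᵥ x) (G' *ᵥ u) = σ c * f x u := by
        intro x u
        have := hff' x u
        rw [(hW u).1 (hWtop u), h.toSFm.smul_right] at this
        exact this.symm
      have hc0 : σ c ≠ 0 := by
        intro h0
        obtain ⟨y, hy⟩ := h'.nd _ hu₀
        apply hy
        show f (G' *ᵥ y) (G' *ᵥ u₀) = 0
        rw [h1, h0, zero_mul]
      have : g⁻¹ ∈ similarityGroup f := ⟨Units.mk0 (σ c) hc0, fun x y => h1 x y⟩
      have := (similarityGroup f).inv_mem this
      rwa [inv_inv] at this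
    have hu0 : u ≠ 0 := by
      rintro rfl
      rw [map_zero] at hu
      exact hu (Submodule.zero_mem _)
    have hAu0 : A u ≠ 0 := by
      intro h0
      rw [h0] at hu
      exact hu (Submodule.zero_mem _)
    have hFTu : T M u (κ • fr h.LL (A u)) := by
      have h1 := (hFull (G' *ᵥ u) huu κ hκ2).conj hgM
      rw [hG', self_inv_mulVec] at h1
      have e : κ • fr h.LL (A u) = (κ • fr h.LL (((g⁻¹ : GL (Fin n) F) : Matrix (Fin n) (Fin n) F) *ᵥ u)) ∘ₗ lin g⁻¹ := by
        apply LinearMap.ext
        intro x
        show κ * f x (A u) = κ * f (G' *ᵥ x) (G' *ᵥ u)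
        rw [hff']
      rw [e]
      exact h1
    have huA : u ∉ Submodule.span F {A u} := by
      intro hm
      obtain ⟨t, ht⟩ := Submodule.mem_span_singleton.1 hm
      apply hu
      have ht0 : t ≠ 0 := by
        rintro rfl
        rw [zero_smul] at ht
        exact hu0 ht.symm
      exact Submodule.mem_span_singleton.2 ⟨t⁻¹, (inv_smul_eq_iff₀ ht0).2 ht.symm⟩
    obtain ⟨y, hyy, hyA, hyu⟩ := h.iso_sep (by omega) hAu0 huA
    have hy0 : y ≠ 0 := by
      rintro rfl
      rw [h.toSFm.zero_left] at hyu
      exact hyu rfl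
    have h1 := T.comm hFTu (hFull y hyy κ hκ2) (by
      rw [LinearMap.smul_apply, fr_apply, hyA, smul_zero])
    rw [LinearMap.smul_apply, fr_apply, smul_smul, smul_eq_mul] at h1
    set d := κ * f u y * κ with hd
    have hd0 : d ≠ 0 := mul_ne_zero (mul_ne_zero hκ (h.ne_symm hyu)) hκ
    have h2 : T M y (fr h.LL (σ d • A u)) := by rwa [fr_smulU h, h.inv]
    refine ctr_top (by omega) hFull hy0 hyy ?_ h2
    intro hm
    have hAy := (Submodule.smul_mem_iff _ ((map_ne_zero σ).2 hd0)).1 hm
    obtain ⟨t, ht⟩ := Submodule.mem_span_singleton.1 hAy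
    have h3 := hFTu.1
    rw [LinearMap.smul_apply, fr_apply, smul_eq_mul] at h3
    have h4 := (mul_eq_zero.1 h3).resolve_left hκ
    rw [← ht, h.toSFm.smul_right] at h4
    rcases mul_eq_zero.1 h4 with h5 | h5
    · rw [(map_eq_zero σ).1 h5, zero_smul] at ht
      exact hAu0 ht.symm
    · exact h.ne_symm hyu h5

end Cfsg.Agent.S5643
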