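import Cfsg.Statements.S5644
import Cfsg.Agent.GUo2
open Cfsg.Agent.H21.GUo Cfsg.Agent.H29.Trv Cfsg.Agent.H29.Fm Matrix Module Cfsg.Geo

set_option autoImplicit false
open Cfsg

namespace Cfsg.Agent.S5644



/-- For a finite field F of odd order and n ≥ 13, let Q be a non-degenerate quadratic form on F^n (its polar form is non-degenerate). Then the elements of SL_n(F) that are similarities of Q (Q(gv) = c Q(v) for a non-zero scalar c depending on g) form a maximal subgroup of SL_n(F). -/
theorem result {F : Type*} [Field F] [Fintype F] (n : ℕ) (hn : 13 ≤ n) (hodd : Odd (Fintype.card F)) (Q : (Fin n → F) → F) (hQ : Cfsg.Geo.IsNondegenerateQuadraticForm Q) : Cfsg.Geo.IsMaximalIn (Cfsg.Geo.specialLinear (Fin n) F) (Cfsg.Geo.quadSimilarityGroup Q ⊓ Cfsg.Geo.specialLinear (Fin n) F) := by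
  classical
  have h2 : (2 : F) ≠ 0 := by
    intro h0
    have hch : CharP F 2 := CharTwo.of_one_ne_zero_of_two_eq_zero one_ne_zero h0
    have := FiniteField.even_card_iff_char_two.1 ((ringChar.eq_iff).2 hch)
    rw [Nat.odd_iff] at hodd
    omega
  set f : (Fin n → F) → (Fin n → F) → F := QuadraticMap.polar Q with hfdef
  have hsym : ∀ x y, f x y = f y x := fun x y => QuadraticMap.polar_comm Q x y
  have h : OF f :=
    { eps := Or.inl rfl
      inv := fun _ => rfl
      add_left := hQ.polar_bilinear.add_left
      smul_left := hQ.polar_bilinear.smul_left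
      herm := fun u v => by rw [one_mul]; exact hsym u v
      nd := fun v hv => (hQ.nondegenerate v hv).1
      two := h2 }
  have hself : ∀ v, f v v = 2 * Q v := by
    intro v
    show Q (v + v) - Q v - Q v = 2 * Q v
    rw [← two_smul F v, hQ.smul]
    ring
  have hQf : ∀ v, Q v = f v v / 2 := by
    intro v
    rw [hself]
    field_simp
  have hsim : ∀ (g : GL (Fin n) F) (c : Fˣ), (∀ x y, f ((g : Matrix (Fin n) (Fin n) F) *ᵥ x)
      ((g : Matrix (Fin n) (Fin n) F) *ᵥ y) = c * f x y) → g ∈ quadSimilarityGroup Q := by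
    intro g c hg
    refine ⟨c, fun v => ?_⟩
    rw [hQf, hg, hQf v]
    ring
  have hsim' : ∀ g : GL (Fin n) F, g ∈ quadSimilarityGroup Q → ∃ c : Fˣ, ∀ x y, f ((g : Matrix (Fin n) (Fin n) F) *ᵥ x)
      ((g : Matrix (Fin n) (Fin n) F) *ᵥ y) = c * f x y := by
    rintro g ⟨c, hc⟩
    refine ⟨c, fun x y => ?_⟩
    show Q (_ + _) - Q _ - Q _ = c * (Q (x + y) - Q x - Q y)
    rw [← mulVec_add, hc, hc, hc]
    ring
  refine isMaximalIn_of inf_le_right ?_ ?_
  · intro hle
    obtain ⟨u, huu, -, huW⟩ := h.iso_avoid hodd (Y := (⊥ : Submodule F (Fin n → F))) (W := ⊥) (by rw [finrank_bot]; omega)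
    have hu0 : u ≠ 0 := by
      rintro rfl
      exact huW (Submodule.zero_mem _)
    obtain ⟨z, hz, hzY, hzW⟩ := h.iso_avoid hodd (Y := Submodule.span F {u}) (W := Submodule.span F {u}) (by
      have := finrank_span_one (F := F) u
      omega)
    have hzu : f z u = 0 := hzY u (Submodule.mem_span_singleton_self u)
    have hz0 : (fr h.LL z) u = 0 := h.toSFm.comm_zero hzu
    obtain ⟨c, hc⟩ := hsim' _ (hle (trv_mem_SL u (fr h.LL z) hz0)).1
    have hc' : ∀ x y, f x y + f y z * f x u + f x z * f u y = c * f x y := by
      intro x y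
      have h1 := hc x y
      rw [trv_apply, trv_apply, fr_apply, fr_apply, h.add_left, h.toSFm.add_right, h.toSFm.add_right, h.smul_left,
        h.smul_left, h.sr, h.sr, huu] at h1
      linear_combination h1
    obtain ⟨x₀, hx₀⟩ := h.nd u hu0
    have hc1 : (c : F) = 1 := by
      have h1 := hc' x₀ u
      rw [h.sy u z, hzu, huu] at h1
      have h3 : ((c : F) - 1) * f x₀ u = 0 := by linear_combination -h1
      rcases mul_eq_zero.1 h3 with h4 | h4
      · linear_combination h4
      · exact absurd h4 hx₀
    obtain ⟨x, hx1, hx2⟩ := exists_sep h.LL _ hzW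
    have hxu : f x u = 0 := h.toSFm.comm_zero (hx2 u (Submodule.mem_span_singleton_self u))
    obtain ⟨y, hy⟩ := h.nd' u hu0
    have h1 := hc' x y
    rw [hxu, h.sy x z, hx1, hc1] at h1
    apply hy
    linear_combination h1
  · intro M hM1 hM2 g hgM hgH
    apply SL_le_of_ctr
    have hgst : g ∉ quadSimilarityGroup Q := fun hh => hgH ⟨hh, hM2 hgM⟩
    have hR : RM f M := by
      intro a b haa hbb hab
      obtain ⟨k, hk1, hk2, hk3⟩ := exists_rho h haa hbb hab
      exact ⟨k, hM1 ⟨hsim k 1 (fun x y => by rw [hk3, Units.val_one, one_mul]), hk1⟩, hk2, hk3⟩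
    -- the operator comparing the two forms
    let B : (Fin n → F) → (Fin n → F) := fun u =>
      Function.surjInv (fr_surjective h.LL)
        ((fr h.LL (((g⁻¹ : GL (Fin n) F) : Matrix (Fin n) (Fin n) F) *ᵥ u)) ∘ₗ lin g⁻¹)
    have hB : ∀ u x, f x (B u) = f (((g⁻¹ : GL (Fin n) F) : Matrix (Fin n) (Fin n) F) *ᵥ x)
        (((g⁻¹ : GL (Fin n) F) : Matrix (Fin n) (Fin n) F) *ᵥ u) := by
      intro u x
      have := Function.surjInv_eq (fr_surjective h.LL)
        ((fr h.LL (((g⁻¹ : GL (Fin n) F) : Matrix (Fin n) (Fin n) F) *ᵥ u)) ∘ₗ lin g⁻¹)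
      exact LinearMap.congr_fun this x
    let A : (Fin n → F) →ₗ[F] (Fin n → F) :=
      { toFun := B
        map_add' := by
          intro u v
          apply fr_injective h.LL
          ext1 i
          ext1
          simp only [LinearMap.comp_apply, fr_apply, h.toSFm.add_right, hB, mulVec_add]
        map_smul' := by
          intro c u
          apply fr_injective h.LL
          ext1 i
          ext1
          simp only [LinearMap.comp_apply, fr_apply, h.sr, hB, mulVec_smul,
            RingHom.id_apply] }
    -- the second form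
    set G' := ((g⁻¹ : GL (Fin n) F) : Matrix (Fin n) (Fin n) F) with hG'
    set f' : (Fin n → F) → (Fin n → F) → F := fun x y => f (G' *ᵥ x) (G' *ᵥ y) with hf'
    have h' : OF f' :=
      { eps := Or.inl rfl
        inv := fun _ => rfl
        add_left := fun x y v => by simp only [hf', mulVec_add, h.add_left]
        smul_left := fun c x v => by simp only [hf', mulVec_smul, h.smul_left]
        herm := fun u v => by simp only [hf']; rw [one_mul]; exact hsym _ _
        nd := by
          intro v hv
          obtain ⟨x, hx⟩ := h.nd (G' *ᵥ v) (by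
            intro h0
            exact hv (mulVec_inj (g := g⁻¹) (by rw [mulVec_zero]; exact h0)))
          refine ⟨(g : Matrix (Fin n) (Fin n) F) *ᵥ x, ?_⟩
          simp only [hf']
          rw [hG', inv_mulVec_self]
          exact hx
        two := h2 }
    have hff' : ∀ x u, f x (A u) = f' x u := fun x u => hB u x
    -- a bad pair
    obtain ⟨u, v, huu, hvv, huv, hvu, hnot⟩ : ∃ u v, f' u u = 0 ∧ f' v v = 0 ∧ f' u v = 0 ∧ v ∉ Submodule.span F {u} ∧
        A u ∉ Submodule.span F {u, v} := by
      by_contra hcon
      push Not at hcon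
      have heig : ∀ u, f' u u = 0 → A u ∈ Submodule.span F {u} := by
        intro u hu
        obtain ⟨v₁, hv₁, hv₁Y, hv₁W⟩ := h'.iso_avoid hodd (Y := Submodule.span F {u}) (W := Submodule.span F {u}) (by
          have := finrank_span_one (F := F) u
          omega)
        obtain ⟨v₂, hv₂, hv₂Y, hv₂W⟩ := h'.iso_avoid hodd (Y := Submodule.span F {u, v₁}) (W := Submodule.span F {u, v₁}) (by
          have := finrank_span_two (F := F) u v₁
          omega)
        have e1 : f' u v₁ = 0 := h'.toSFm.comm_zero (hv₁Y u (Submodule.mem_span_singleton_self u))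
        have e2 : f' u v₂ = 0 := h'.toSFm.comm_zero (hv₂Y u (Submodule.subset_span (by simp)))
        obtain ⟨a, b, hab⟩ := Submodule.mem_span_pair.1 (hcon u v₁ hu hv₁ e1 hv₁W)
        obtain ⟨a', b', hab'⟩ := Submodule.mem_span_pair.1 (hcon u v₂ hu hv₂ e2 (fun hm => hv₂W
          (Submodule.span_mono (by intro x hx; simp at hx ⊢; tauto) hm)))
        by_cases hb' : b' = 0
        · rw [hb', zero_smul, add_zero] at hab'
          exact Submodule.mem_span_singleton.2 ⟨a', hab'⟩
        · exfalso
          apply hv₂W
          have : v₂ = b'⁻¹ • ((a - a') • u + b • v₁) := by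
            have h3 : b' • v₂ = (a - a') • u + b • v₁ := by
              have h4 : b' • v₂ = A u - a' • u := by rw [← hab']; abel
              rw [h4, ← hab]
              module
            rw [← h3, smul_smul, inv_mul_cancel₀ hb', one_smul]
          rw [this]
          exact Submodule.smul_mem _ _ (Submodule.add_mem _ (Submodule.smul_mem _ _ (Submodule.subset_span (by simp)))
            (Submodule.smul_mem _ _ (Submodule.subset_span (by simp))))
      obtain ⟨u₀, hu₀, -, hu₀W⟩ := h'.iso_avoid hodd (Y := (⊥ : Submodule F (Fin n → F))) (W := ⊥) (by rw [finrank_bot]; omega)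
      have hu₀0 : u₀ ≠ 0 := by
        rintro rfl
        exact hu₀W (Submodule.zero_mem _)
      obtain ⟨c, hc⟩ := Submodule.mem_span_singleton.1 (heig u₀ hu₀)
      -- orthogonal isotropic vectors have the same eigenvalue
      have same : ∀ u v : Fin n → F, u ≠ 0 → f' u u = 0 → f' v v = 0 → f' u v = 0 → v ∉ Submodule.span F {u} → ∀ c : F,
          A u = c • u → A v = c • v := by
        intro u v hu0 hu hv huv hvu c hcu
        obtain ⟨c₁, hc₁⟩ := Submodule.mem_span_singleton.1 (heig v hv)
        obtain ⟨c₂, hc₂⟩ := Submodule.mem_span_singleton.1 (heig (u + v) (by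
          rw [h'.add_left, h'.toSFm.add_right, h'.toSFm.add_right, hu, hv, huv, h'.sy v u, huv]; ring))
        rw [map_add, hcu, ← hc₁, smul_add] at hc₂
        have h3 : (c₂ - c₁) • v = (c - c₂) • u := by
          have : (c₂ - c₁) • v = (c₂ • u + c₂ • v) - c₂ • u - c₁ • v := by module
          rw [this, hc₂]
          module
        have h4 : c₂ - c₁ = 0 := by
          by_contra h0
          apply hvu
          refine Submodule.mem_span_singleton.2 ⟨(c₂ - c₁)⁻¹ * (c - c₂), ?_⟩
          rw [← smul_smul, ← h3, smul_smul, inv_mul_cancel₀ h0, one_smul]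
        rw [h4, zero_smul] at h3
        have h5 : c - c₂ = 0 := (smul_eq_zero.1 h3.symm).resolve_right hu0
        rw [← hc₁]
        congr 1
        linear_combination -h4 - h5
      have hall : ∀ u, f' u u = 0 → A u = c • u := by
        intro u hu
        by_cases hu0 : u = 0
        · rw [hu0, map_zero, smul_zero]
        obtain ⟨w, hw, hwY, hwW⟩ := h'.iso_avoid hodd (Y := Submodule.span F {u₀, u}) (W := Submodule.span F {u₀, u}) (by
          have := finrank_span_two (F := F) u₀ u
          omega)
        have hw0 : w ≠ 0 := by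
          rintro rfl
          exact hwW (Submodule.zero_mem _)
        have e1 : f' w u₀ = 0 := hwY u₀ (Submodule.subset_span (by simp))
        have e2 : f' w u = 0 := hwY u (Submodule.subset_span (by simp))
        have e3 := same u₀ w hu₀0 hu₀ hw (by rw [h'.sy]; exact e1) (fun hm => hwW
          (Submodule.span_mono (by intro x hx; simp at hx ⊢; tauto) hm)) c hc.symm
        refine same w u hw0 hw hu e2 (fun hm => ?_) c e3
        obtain ⟨t, ht⟩ := Submodule.mem_span_singleton.1 hm
        have ht0 : t ≠ 0 := by
          rintro rfl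
          rw [zero_smul] at ht
          exact hu0 ht.symm
        apply hwW
        have : w = t⁻¹ • u := by rw [← ht, smul_smul, inv_mul_cancel₀ ht0, one_smul]
        rw [this]
        exact Submodule.smul_mem _ _ (Submodule.subset_span (by simp))
      let W : Submodule F (Fin n → F) := LinearMap.ker (A - c • LinearMap.id)
      have hW : ∀ x, x ∈ W ↔ A x = c • x := by
        intro x
        show (A - c • (LinearMap.id : (Fin n → F) →ₗ[F] (Fin n → F))) x = 0 ↔ _
        rw [LinearMap.sub_apply, LinearMap.smul_apply, LinearMap.id_apply, sub_eq_zero]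
      obtain ⟨z₀, hz₀⟩ := h'.nd u₀ hu₀0
      have hle := h'.span_iso (U := ⊤) (W := W) (x := u₀) (z₀ := z₀) trivial hu₀ trivial hz₀
        (fun v _ hv => (hW v).2 (hall v hv))
      apply hgst
      have h1 : ∀ x u, f (G' *ᵥ x) (G' *ᵥ u) = c * f x u := by
        intro x u
        have := hff' x u
        rw [(hW u).1 (hle trivial), h.sr] at this
        exact this.symm
      have hc0 : c ≠ 0 := by
        intro h0
        apply hz₀
        show f (G' *ᵥ z₀) (G' *ᵥ u₀) = 0
        rw [h1, h0, zero_mul]
      have := hsim g⁻¹ (Units.mk0 c hc0) (fun x y => h1 x y)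
      have := (quadSimilarityGroup Q).inv_mem this
      rwa [inv_inv] at this
    obtain ⟨b, hbb, hbY, hbA⟩ := h.iso_sep hodd (Y := Submodule.span F {u, v}) (by
      have := finrank_span_two (F := F) u v
      omega) hnot
    have hbu : f b u = 0 := hbY u (Submodule.subset_span (by simp))
    have hbv : f b v = 0 := hbY v (Submodule.subset_span (by simp))
    have hfive : finrank F (Submodule.span F ({u, v, b, A u, A v} : Set (Fin n → F))) ≤ 5 := by
      have h1 := finrank_span_finset_le_card (R := F) ({u, v, b, A u, A v} : Finset (Fin n → F))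
      have h2 : (({u, v, b, A u, A v} : Finset (Fin n → F)) : Set (Fin n → F)) = {u, v, b, A u, A v} := by
        simp
      rw [h2] at h1
      exact h1.trans Finset.card_le_five
    obtain ⟨a, haa, haY, haW⟩ := h.iso_avoid hodd (Y := Submodule.span F {u, v, b, A u, A v}) (W := Submodule.span F {u, v}) (by
      have := finrank_span_two (F := F) u v
      omega)
    have hau : f a u = 0 := haY u (Submodule.subset_span (by simp))
    have hav : f a v = 0 := haY v (Submodule.subset_span (by simp))
    have hab : f a b = 0 := haY b (Submodule.subset_span (by simp))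
    have haAu : f a (A u) = 0 := haY (A u) (Submodule.subset_span (by simp))
    have haAv : f a (A v) = 0 := haY (A v) (Submodule.subset_span (by simp))
    have hba : f b a = 0 := by rw [h.sy]; exact hab
    obtain ⟨k, hk, hkx, -⟩ := hR a b haa hbb hab
    obtain ⟨k', hk', hkx', -⟩ := hR (G' *ᵥ u) (G' *ᵥ v) huu hvv huv
    set m := g * k' * g⁻¹ with hm
    have hmM : m ∈ M := M.mul_mem (M.mul_mem hgM hk') (M.inv_mem hgM)
    have hmx : ∀ x, (m : Matrix (Fin n) (Fin n) F) *ᵥ x = x + f x (A u) • v - f x (A v) • u := by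
      intro x
      rw [hm, Cfsg.Agent.H29.Trv.mul_apply, Cfsg.Agent.H29.Trv.mul_apply, hkx', mulVec_sub, mulVec_add, mulVec_smul, mulVec_smul, self_inv_mulVec, hG',
        self_inv_mulVec, self_inv_mulVec, hff', hff']
    have f1 : f u (A u) = 0 := by rw [hff']; exact huu
    have f2 : f v (A v) = 0 := by rw [hff']; exact hvv
    have f3 : f u (A v) = 0 := by rw [hff']; exact huv
    have f4 : f v (A u) = 0 := by rw [hff', h'.sy]; exact huv
    have hki : ∀ x, ((k⁻¹ : GL (Fin n) F) : Matrix (Fin n) (Fin n) F) *ᵥ x = x - f x a • b + f x b • a := by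
      intro x
      have : (k : Matrix (Fin n) (Fin n) F) *ᵥ (x - f x a • b + f x b • a) = x := by
        rw [hkx]
        simp only [h.toSFm.sub_left, h.add_left, h.smul_left, haa, hbb, hab, hba]
        module
      conv_lhs => rw [← this]
      rw [inv_mulVec_self]
    have hmi : ∀ x, ((m⁻¹ : GL (Fin n) F) : Matrix (Fin n) (Fin n) F) *ᵥ x = x - f x (A u) • v + f x (A v) • u := by
      intro x
      have : (m : Matrix (Fin n) (Fin n) F) *ᵥ (x - f x (A u) • v + f x (A v) • u) = x := by
        rw [hmx]
        simp only [h.toSFm.sub_left, h.add_left, h.smul_left, f1, f2, f3, f4]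
        module
      conv_lhs => rw [← this]
      rw [inv_mulVec_self]
    set c := f b (A u) • v - f b (A v) • u with hc
    have hT : T M c (fr h.LL a) := by
      refine ⟨?_, m * k * m⁻¹ * k⁻¹, M.mul_mem (M.mul_mem (M.mul_mem hmM hk) (M.inv_mem hmM)) (M.inv_mem hk), ?_⟩
      · rw [fr_apply, hc, h.toSFm.sub_left, h.smul_left, h.smul_left, h.sy v a, h.sy u a, hau, hav]
        simp
      · intro x
        rw [Cfsg.Agent.H29.Trv.mul_apply, Cfsg.Agent.H29.Trv.mul_apply, Cfsg.Agent.H29.Trv.mul_apply, hki, hmi, hkx, hmx, fr_apply, hc]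
        simp only [h.toSFm.sub_left, h.add_left, h.smul_left, haa, hbb, hab, hba, haAu, haAv, f1, f2, f3, f4,
          h.sy u a, h.sy v a, h.sy u b, h.sy v b, hau, hav, hbu, hbv]
        module
    have hcW : c ∈ Submodule.span F {u, v} := by
      rw [hc]
      exact Submodule.sub_mem _ (Submodule.smul_mem _ _ (Submodule.subset_span (by simp)))
        (Submodule.smul_mem _ _ (Submodule.subset_span (by simp)))
    have hc0 : c ≠ 0 := by
      intro h0
      apply hvu
      refine Submodule.mem_span_singleton.2 ⟨(f b (A u))⁻¹ * f b (A v), ?_⟩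
      rw [hc, sub_eq_zero] at h0
      rw [← smul_smul, ← h0, smul_smul, inv_mul_cancel₀ hbA, one_smul]
    refine ctr_all hodd hn h hR hc0 (ctr_mem hodd hn h hR hT (fun hm => haW ?_))
    exact (Submodule.span_singleton_le_iff_mem _ _).2 hcW hm

end Cfsg.Agent.S5644
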