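import Cfsg.Statements.S5645
import Cfsg.Agent.H29_TrvSp2

set_option autoImplicit false
open Cfsg

namespace Cfsg.Agent.S5645


open Cfsg.Agent.H29.Trv Matrix

/-- For a finite field F and m ≥ 7, in the symplectic group Sp_2m(F) of the standard alternating form on F^(2m) (as a subgroup of GL_2m(F)), the stabiliser of any non-zero subspace on which the form vanishes identically is a maximal subgroup. -/
theorem result {F : Type*} [Field F] [Fintype F] (m : ℕ) (hm : 7 ≤ m) (W : Submodule F (Fin m ⊕ Fin m → F)) (hW0 : W ≠ ⊥) (hW : Cfsg.Geo.IsTotallySingularFor (Cfsg.sympForm m F) W) : Cfsg.Geo.IsMaximalIn (Cfsg.spGL m F) (Cfsg.Geo.subspaceStabilizer W ⊓ Cfsg.spGL m F) := by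
  have hA := altStd m F
  set f := Cfsg.sympForm m F with hfdef
  have hWperp : ∀ v, (∀ w ∈ W, f w v = 0) → Full hA (Cfsg.Geo.subspaceStabilizer W ⊓ Cfsg.spGL m F) v := by
    intro v hv a
    have h0 : (a • fr hA.toLL v) v = 0 := by simp [hA.self]
    refine T_inf (T_stab_of_right W h0 fun w hw => ?_) (T_spGL v a)
    simp [hv w hw]
  refine isMaximalIn_of inf_le_right ?_ ?_
  · intro hle
    obtain ⟨w, hw, hw0⟩ := W.ne_bot_iff.1 hW0
    obtain ⟨u, hu⟩ := hA.nondeg w hw0
    have h0 : ((1 : F) • fr hA.toLL u) u = 0 := by simp [hA.self]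
    have h1 := hle ((trv_mem_iff h0).2 (T_spGL u 1))
    have h2 := (mem_stab_iff W _).1 h1.1 w hw
    rw [trv_apply] at h2
    simp only [one_smul, fr_apply] at h2
    have h3 := (W.add_mem_iff_right hw).1 h2
    have hwu : f w u ≠ 0 := by rw [hA.skew]; exact neg_ne_zero.2 hu
    have h4 := (W.smul_mem_iff hwu).1 h3
    exact hu (hW u h4 w hw)
  · intro M hM1 hM2 g hgM hgH
    apply Sp_le_of_full
    have hiso := (mem_spGL_iff g).1 (hM2 hgM)
    have hgst : g ∉ Cfsg.Geo.subspaceStabilizer W := fun h => hgH ⟨h, hM2 hgM⟩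
    obtain ⟨y, hy, w0, hw0, hgy⟩ := hA.exists_perp_moved hiso hgst
    have hFperp : ∀ v, (∀ w ∈ W, f w v = 0) → Full hA M v := fun v hv a => (hWperp v hv a).mono hM1
    have hu := (hFperp y hy).conj hA hgM hiso
    set u := (g : Matrix (Fin m ⊕ Fin m) (Fin m ⊕ Fin m) F) *ᵥ y with hudef
    have hu1 : ∃ w ∈ W, f u w ≠ 0 := ⟨w0, hw0, by rw [hA.skew]; exact neg_ne_zero.2 hgy⟩
    intro x
    by_cases hx : ∀ w ∈ W, f w x = 0
    · exact hFperp x hx
    push Not at hx
    obtain ⟨w1, hw1, hxw⟩ := hx
    obtain ⟨w, hw, hw2, hw3⟩ := hA.exists_both W hu1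
      ⟨w1, hw1, by rw [hA.skew]; exact neg_ne_zero.2 hxw⟩
    -- scale x
    set x' := (f u w / f x w) • x with hx'
    have hx'w : f x' w = f u w := by
      rw [hx', hA.smul_left, div_mul_cancel₀ _ hw3]
    set w' := (f u w)⁻¹ • w with hw'
    have hw'W : w' ∈ W := W.smul_mem _ hw
    have huw' : f u w' = 1 := by rw [hw', hA.smul_right, inv_mul_cancel₀ hw2]
    have hxw' : f x' w' = 1 := by rw [hw', hA.smul_right, hx'w, inv_mul_cancel₀ hw2]
    set z := x' - u with hz
    have hzw : f w' z = 0 := by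
      rw [hA.skew, hz, sub_eq_add_neg, hA.add_left]
      have : f (-u) w' = - f u w' := by
        have := hA.smul_left (-1) u w'
        simpa using this
      rw [this, hxw', huw']
      ring
    obtain ⟨k, hk⟩ := hA.exists_GL
      (LinearMap.id + LinearMap.smulRight (fr hA.toLL w') z + LinearMap.smulRight (fr hA.toLL z) w')
      (fun p q => by
        simp only [LinearMap.add_apply, LinearMap.id_apply, LinearMap.smulRight_apply, fr_apply]
        exact hA.isom2 hzw p q)
    simp only [LinearMap.add_apply, LinearMap.id_apply, LinearMap.smulRight_apply, fr_apply] at hk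
    have hkiso : ∀ p q, f ((k : Matrix _ _ F) *ᵥ p) ((k : Matrix _ _ F) *ᵥ q) = f p q := by
      intro p q
      rw [hk, hk]
      exact hA.isom2 hzw p q
    have hkM : k ∈ M := by
      apply hM1
      refine ⟨?_, hkiso⟩
      show k ∈ Cfsg.Geo.subspaceStabilizer W
      rw [mem_stab_iff]
      intro p hp
      rw [hk, hW p hp w' hw'W, zero_smul, add_zero]
      exact W.add_mem hp (W.smul_mem _ hw'W)
    have h5 := hu.conj hA hkM hkiso
    rw [hk, huw', one_smul] at h5
    have h6 : u + z + f u z • w' = x' + f u z • w' := by rw [hz]; abel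
    rw [h6] at h5
    have hw'F : Full hA M w' := hFperp w' (fun p hp => hW p hp w' hw'W)
    have h7 : f (x' + f u z • w') w' ≠ 0 := by
      rw [hA.add_left, hxw', hA.smul_left, hA.self, mul_zero, add_zero]
      exact one_ne_zero
    have h8 := Full.move hA hw'F h5 (-(f u z)) h7
    have h9 : x' + f u z • w' + -(f u z) • w' = x' := by module
    rw [h9] at h8
    have h10 := h8.smul hA (f x w / f u w)
    have h11 : (f x w / f u w) • x' = x := by
      rw [hx', smul_smul, div_mul_div_cancel₀ hw2, div_self hw3, one_smul]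
    rwa [h11] at h10

end Cfsg.Agent.S5645
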