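import Cfsg.Statements.S5646
import Cfsg.Agent.H29_TrvSp2

set_option autoImplicit false
open Cfsg

namespace Cfsg.Agent.S5646


open Cfsg.Agent.H29.Trv Matrix

/-- For a finite field F and m ≥ 7, in the symplectic group Sp_2m(F) of the standard alternating form on F^(2m), the stabiliser of any non-zero subspace W on which the form is non-degenerate and with dim W < m is a maximal subgroup. -/
theorem result {F : Type*} [Field F] [Fintype F] (m : ℕ) (hm : 7 ≤ m) (W : Submodule F (Fin m ⊕ Fin m → F)) (hW0 : W ≠ ⊥) (hW : Cfsg.Geo.IsNondegenerateOn (Cfsg.sympForm m F) W) (hdim : Module.finrank F W < m) : Cfsg.Geo.IsMaximalIn (Cfsg.spGL m F) (Cfsg.Geo.subspaceStabilizer W ⊓ Cfsg.spGL m F) := by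
  have hA := altStd m F
  set f := Cfsg.sympForm m F with hfdef
  have hWperp : ∀ v, (∀ w ∈ W, f w v = 0) → Full hA (Cfsg.Geo.subspaceStabilizer W ⊓ Cfsg.spGL m F) v := by
    intro v hv a
    have h0 : (a • fr hA.toLL v) v = 0 := by simp [hA.self]
    refine T_inf (T_stab_of_right W h0 fun w hw => ?_) (T_spGL v a)
    simp [hv w hw]
  have hWW : ∀ v ∈ W, Full hA (Cfsg.Geo.subspaceStabilizer W ⊓ Cfsg.spGL m F) v := by
    intro v hv a
    have h0 : (a • fr hA.toLL v) v = 0 := by simp [hA.self]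
    exact T_inf (T_stab_of_left W hv h0) (T_spGL v a)
  -- the orthogonal complement
  let P : Submodule F (Fin m ⊕ Fin m → F) :=
    { carrier := {y | ∀ w ∈ W, f w y = 0}
      zero_mem' := fun w _ => hA.zero_right w
      add_mem' := fun {a b} ha hb w hw => by rw [hA.add_right, ha w hw, hb w hw, add_zero]
      smul_mem' := fun c a ha w hw => by rw [hA.smul_right, ha w hw, mul_zero] }
  have hPmem : ∀ y, y ∈ P ↔ ∀ w ∈ W, f w y = 0 := fun y => Iff.rfl
  -- representation of functionals on W by elements of W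
  have hrep : ∀ x, ∃ w ∈ W, ∀ v ∈ W, f v (x - w) = 0 := by
    intro x
    let L : W →ₗ[F] Module.Dual F W :=
      { toFun := fun w => (fr hA.toLL (w : Fin m ⊕ Fin m → F)).comp W.subtype
        map_add' := by
          intro a b
          ext v
          simp [hA.add_right]
        map_smul' := by
          intro c a
          ext v
          simp [hA.smul_right] }
    have hLinj : Function.Injective L := by
      rw [injective_iff_map_eq_zero]
      intro w hw
      by_contra h0
      have h0' : (w : Fin m ⊕ Fin m → F) ≠ 0 := fun h => h0 (Subtype.ext h)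
      obtain ⟨⟨y, hy, hyw⟩, -⟩ := hW w w.2 h0'
      exact hyw (LinearMap.congr_fun hw ⟨y, hy⟩)
    have hLsurj : Function.Surjective L :=
      (LinearMap.injective_iff_surjective_of_finrank_eq_finrank
        (Subspace.dual_finrank_eq (K := F) (V := W)).symm).1 hLinj
    obtain ⟨w, hw⟩ := hLsurj ((fr hA.toLL x).comp W.subtype)
    refine ⟨w, w.2, fun v hv => ?_⟩
    have h1 : f v w = f v x := LinearMap.congr_fun hw ⟨v, hv⟩
    rw [sub_eq_add_neg, hA.add_right, hA.neg_right, h1, add_neg_cancel]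
  have hPnd : ∀ w ∈ P, w ≠ 0 → ∃ x ∈ P, f w x ≠ 0 := by
    intro w hw hw0
    obtain ⟨x, hx⟩ := hA.nondeg w hw0
    obtain ⟨v, hv, hxv⟩ := hrep x
    refine ⟨x - v, hxv, ?_⟩
    rw [sub_eq_add_neg, hA.add_right, hA.neg_right, hA.skew w v, (hPmem w).1 hw v hv, hA.skew w x]
    simpa using hx
  have hWnd : ∀ w ∈ W, w ≠ 0 → ∃ x ∈ W, f w x ≠ 0 := fun w hw h0 => (hW w hw h0).2
  refine isMaximalIn_of inf_le_right ?_ ?_
  · intro hle
    obtain ⟨w, hw, hw0⟩ := W.ne_bot_iff.1 hW0
    -- an element of P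
    obtain ⟨v, hvP, hv0⟩ : ∃ v ∈ P, v ≠ 0 := by
      by_contra hcon
      push Not at hcon
      have hWt : W = ⊤ := by
        rw [eq_top_iff]
        intro x _
        obtain ⟨v, hv, hxv⟩ := hrep x
        have : x - v = 0 := hcon _ hxv
        rw [sub_eq_zero.1 this]
        exact hv
      rw [hWt, finrank_top, Module.finrank_fintype_fun_eq_card] at hdim
      simp at hdim
    obtain ⟨u, hu, hwu⟩ := hWnd w hw hw0
    have h0 : ((1 : F) • fr hA.toLL (w + v)) (w + v) = 0 := by simp [hA.self]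
    have h1 := hle ((trv_mem_iff h0).2 (T_spGL (w + v) 1))
    have h2 := (mem_stab_iff W _).1 h1.1 u hu
    rw [trv_apply] at h2
    simp only [one_smul, fr_apply] at h2
    have h3 := (W.add_mem_iff_right hu).1 h2
    have h4 : f u (w + v) ≠ 0 := by
      rw [hA.add_right, (hPmem v).1 hvP u hu, add_zero, hA.skew]
      exact neg_ne_zero.2 hwu
    have h5 := (W.smul_mem_iff h4).1 h3
    have h6 : v ∈ W := (W.add_mem_iff_right hw).1 h5
    obtain ⟨x, hx, hvx⟩ := hWnd v h6 hv0
    exact hvx (by rw [hA.skew, (hPmem v).1 hvP x hx, neg_zero])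
  · intro M hM1 hM2 g hgM hgH
    apply Sp_le_of_full
    have hiso := (mem_spGL_iff g).1 (hM2 hgM)
    have hgst : g ∉ Cfsg.Geo.subspaceStabilizer W := fun h => hgH ⟨h, hM2 hgM⟩
    have hFP : ∀ v ∈ P, Full hA M v := fun v hv a => (hWperp v hv a).mono hM1
    have hFW : ∀ v ∈ W, Full hA M v := fun v hv a => (hWW v hv a).mono hM1
    obtain ⟨y1, hy1, w0, hw0, hgy1⟩ := hA.exists_perp_moved hiso hgst
    -- an element of P not sent into W
    obtain ⟨y2, hy2P, hy2⟩ : ∃ y ∈ P, (g : Matrix _ _ F) *ᵥ y ∉ W := by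
      by_contra hcon
      push Not at hcon
      have h1 : P.map (linE g : (Fin m ⊕ Fin m → F) →ₗ[F] _) ≤ W := by
        rintro _ ⟨y, hy, rfl⟩
        exact hcon y hy
      have h2 := Submodule.finrank_mono h1
      rw [LinearEquiv.finrank_map_eq] at h2
      have h3 : W ⊔ P = ⊤ := by
        rw [eq_top_iff]
        intro x _
        obtain ⟨v, hv, hxv⟩ := hrep x
        exact Submodule.mem_sup.2 ⟨v, hv, x - v, hxv, by abel⟩
      have h4 := Submodule.finrank_add_le_finrank_add_finrank W P
      rw [h3, finrank_top, Module.finrank_fintype_fun_eq_card] at h4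
      simp at h4
      omega
    -- a full vector outside both
    obtain ⟨u, huF, huW, huP⟩ : ∃ u, Full hA M u ∧ u ∉ W ∧ u ∉ P := by
      have hg1P : (g : Matrix _ _ F) *ᵥ y1 ∉ P := fun h => hgy1 (h w0 hw0)
      by_cases h1 : (g : Matrix _ _ F) *ᵥ y1 ∈ W
      · by_cases h2 : (g : Matrix _ _ F) *ᵥ y2 ∈ P
        · refine ⟨_, (hFP (y1 + y2) (P.add_mem hy1 hy2P)).conj hA hgM hiso, ?_, ?_⟩
          · rw [mulVec_add]
            exact fun h => hy2 ((W.add_mem_iff_right h1).1 h)
          · rw [mulVec_add]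
            exact fun h => hg1P ((P.add_mem_iff_left h2).1 h)
        · exact ⟨_, (hFP y2 hy2P).conj hA hgM hiso, hy2, h2⟩
      · exact ⟨_, (hFP y1 hy1).conj hA hgM hiso, h1, hg1P⟩
    obtain ⟨w, hw, huw⟩ := hrep u
    have hw0 : w ≠ 0 := by
      rintro rfl
      rw [sub_zero] at huw
      exact huP huw
    have hv0 : u - w ≠ 0 := by
      intro h
      rw [sub_eq_zero.1 h] at huW
      exact huW hw
    intro x
    obtain ⟨a, ha, hxa⟩ := hrep x
    by_cases ha0 : a = 0
    · subst ha0
      rw [sub_zero] at hxa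
      exact hFP x hxa
    by_cases hb0 : x - a = 0
    · rw [sub_eq_zero.1 hb0]
      exact hFW a ha
    have h1 : Full hA M (w + (u - w)) := by
      have : w + (u - w) = u := by abel
      rwa [this]
    have h2 := Full.replace hA hFW hWnd (r := u - w)
      (fun v hv => by rw [hA.skew, huw v hv, neg_zero]) hw hw0 ha ha0 h1
    rw [add_comm] at h2
    have h3 := Full.replace hA hFP hPnd (r := a) (fun v hv => (hPmem v).1 hv a ha)
      huw hv0 hxa hb0 h2
    have h4 : x - a + a = x := by abel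
    rwa [h4] at h3

end Cfsg.Agent.S5646
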