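import Cfsg.Statements.S5647
import Cfsg.Agent.H29_TrvBlk

set_option autoImplicit false
open Cfsg

namespace Cfsg.Agent.S5647


open Cfsg.Agent.H29.Trv Matrix

/-- For a finite field F with q elements and m ≥ 7, let D be a decomposition of F^(2m) into t ≥ 2 pairwise orthogonal subspaces of equal dimension k on each of which the standard alternating form is non-degenerate, spanning F^(2m). Unless k = 2 and q = 2, the elements of Sp_2m(F) permuting the members of D form a maximal subgroup of Sp_2m(F). -/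
theorem result {F : Type*} [Field F] [Fintype F] (m : ℕ) (hm : 7 ≤ m) {t : ℕ} (k : ℕ) (D : Fin t → Submodule F (Fin m ⊕ Fin m → F)) (hD : Cfsg.Geo.IsNondegenerateMDecomposition (Cfsg.sympForm m F) k D) (hex : ¬ (k = 2 ∧ Fintype.card F = 2)) : Cfsg.Geo.IsMaximalIn (Cfsg.spGL m F) (Cfsg.Geo.decompositionStabilizer D ⊓ Cfsg.spGL m F) := by
  have hA := altStd m F
  set f := Cfsg.sympForm m F with hfdef
  have horth : ∀ i j, i ≠ j → ∀ u ∈ D i, ∀ v ∈ D j, f u v = 0 :=
    fun i j hij u hu v hv => hD.orthogonal i j hij u hu v hv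
  have hnd : ∀ i, ND f (D i) := fun i w hw h0 => (hD.nondegenerate i w hw h0).2
  have hk := hD.decomp.finrank_eq
  have hkpos := hD.decomp.pos
  have ht := hD.decomp.two_le
  have htop := hD.decomp.iSup_eq_top
  have hne : ∀ i, ∃ v ∈ D i, v ≠ 0 := by
    intro i
    have h1 : D i ≠ ⊥ := by
      intro h
      have := hk i
      rw [h, finrank_bot] at this
      omega
    exact (D i).ne_bot_iff.1 h1
  -- blocks have dimension at least 2
  have hk2 : 2 ≤ k := by
    by_contra hlt
    have hk1 : k = 1 := by omega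
    obtain ⟨v, hv, hv0⟩ := hne ⟨0, by omega⟩
    obtain ⟨x, hx, hvx⟩ := hnd _ v hv hv0
    have h1 := hk ⟨0, by omega⟩
    rw [hk1, finrank_eq_one_iff_of_nonzero' ⟨v, hv⟩ (fun h => hv0 (congrArg Subtype.val h))] at h1
    obtain ⟨c, hc⟩ := h1 ⟨x, hx⟩
    have hc' : c • v = x := congrArg Subtype.val hc
    rw [← hc', hA.smul_right, hA.self, mul_zero] at hvx
    exact hvx rfl
  have hE2 : ∀ i, ∀ c ∈ D i, c ≠ 0 → ∃ u ∈ D i, f u c = 0 ∧ u ≠ 0 ∧ u ≠ c := by
    intro i c hc hc0
    by_cases hF : Fintype.card F = 2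
    · have hk3 : 3 ≤ k := by
        have : k ≠ 2 := fun h => hex ⟨h, hF⟩
        omega
      -- kernel of f(·, c) on D i
      let φ : D i →ₗ[F] F := (fr hA.toLL c).comp (D i).subtype
      have h1 := LinearMap.finrank_range_add_finrank_ker φ
      have h2 : Module.finrank F (LinearMap.range φ) ≤ 1 := by
        have := Submodule.finrank_le (LinearMap.range φ)
        simpa using this
      have h3 : ¬ LinearMap.ker φ ≤ Submodule.span F {(⟨c, hc⟩ : D i)} := by
        intro hle
        have h4 := Submodule.finrank_mono hle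
        have h5 := finrank_span_singleton (K := F) (v := (⟨c, hc⟩ : D i))
          (fun h => hc0 (congrArg Subtype.val h))
        rw [hk i] at h1
        omega
      obtain ⟨u, hu, hus⟩ := SetLike.not_le_iff_exists.1 h3
      refine ⟨u, u.2, hu, fun h => hus ?_, fun h => hus ?_⟩
      · have : u = 0 := Subtype.ext h
        rw [this]; exact Submodule.zero_mem _
      · have : u = ⟨c, hc⟩ := Subtype.ext h
        rw [this]; exact Submodule.mem_span_singleton_self _
    · have hF3 : 2 < Fintype.card F := by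
        have : 1 < Fintype.card F := Fintype.one_lt_card
        omega
      obtain ⟨l, hl0, hl1⟩ : ∃ l : F, l ≠ 0 ∧ l ≠ 1 := by
        classical
        obtain ⟨l, -, hl⟩ := Finset.exists_mem_notMem_of_card_lt_card
          (s := ({0, 1} : Finset F)) (t := Finset.univ) (by
            rw [Finset.card_univ]
            exact lt_of_le_of_lt (Finset.card_le_two) hF3)
        simp only [Finset.mem_insert, Finset.mem_singleton, not_or] at hl
        exact ⟨l, hl.1, hl.2⟩
      refine ⟨l • c, (D i).smul_mem _ hc, by rw [hA.smul_left, hA.self, mul_zero],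
        smul_ne_zero hl0 hc0, fun h => hl1 ?_⟩
      have : (l - 1) • c = 0 := by rw [sub_smul, one_smul, h, sub_self]
      rcases smul_eq_zero.1 this with h' | h'
      · exact sub_eq_zero.1 h'
      · exact absurd h' hc0
  have hdisj : ∀ i j, i ≠ j → ∀ x, x ∈ D i → x ∈ D j → x = 0 := by
    intro i j hij x hi hj
    have h1 := hD.decomp.indep.pairwiseDisjoint hij
    have h2 : x ∈ D i ⊓ D j := ⟨hi, hj⟩
    have h3 : D i ⊓ D j = ⊥ := h1.eq_bot
    rw [h3] at h2
    simpa using h2
  have hblk : ∀ i, ∀ v ∈ D i, Full hA (Cfsg.Geo.decompositionStabilizer D ⊓ Cfsg.spGL m F) v :=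
    fun i v hv a => T_inf (block_trv_mem hA horth hv a) (T_spGL v a)
  refine isMaximalIn_of inf_le_right ?_ ?_
  · intro hle
    obtain ⟨v1, hv1, hv10⟩ := hne ⟨0, by omega⟩
    obtain ⟨v2, hv2, hv20⟩ := hne ⟨1, by omega⟩
    have h01 : (⟨0, by omega⟩ : Fin t) ≠ ⟨1, by omega⟩ := by simp
    obtain ⟨x, hx, hvx⟩ := hnd _ v1 hv1 hv10
    have hxv : f x v1 ≠ 0 := by rw [hA.skew]; exact neg_ne_zero.2 hvx
    have h0 : ((1 : F) • fr hA.toLL (v1 + v2)) (v1 + v2) = 0 := by simp [hA.self]
    obtain ⟨σ, hσ⟩ := (hle ((trv_mem_iff h0).2 (T_spGL (v1 + v2) 1))).1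
    have h1 : (trv (v1 + v2) _ h0 : Matrix _ _ F) *ᵥ x ∈ D (σ ⟨0, by omega⟩) := by
      rw [← hσ, ← Matrix.toLin'_apply]
      exact Submodule.mem_map_of_mem hx
    rw [trv_apply] at h1
    have h2 : ((1 : F) • fr hA.toLL (v1 + v2)) x = f x v1 := by
      simp only [one_smul, fr_apply, hA.add_right, horth _ _ h01 x hx v2 hv2, add_zero]
    rw [h2, smul_add, ← add_assoc] at h1
    -- two nonzero components
    have hc1 : x + f x v1 • v1 ∈ D ⟨0, by omega⟩ := (D _).add_mem hx ((D _).smul_mem _ hv1)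
    have hc2 : f x v1 • v2 ∈ D ⟨1, by omega⟩ := (D _).smul_mem _ hv2
    have hc20 : f x v1 • v2 ≠ 0 := smul_ne_zero hxv hv20
    have hc10 : x + f x v1 • v1 ≠ 0 := by
      intro h
      have : f (x + f x v1 • v1) v1 = 0 := by rw [h, hA.zero_left]
      rw [hA.add_left, hA.smul_left, hA.self, mul_zero, add_zero] at this
      exact hxv this
    by_cases hl : σ ⟨0, by omega⟩ = ⟨0, by omega⟩
    · rw [hl] at h1
      exact hc20 (hdisj _ _ h01 _ (((D _).add_mem_iff_right hc1).1 h1) hc2)
    · -- orthogonality with the first block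
      obtain ⟨y, hy, hcy⟩ := hnd _ _ hc1 hc10
      have h3 := horth _ _ hl _ h1 y hy
      rw [hA.add_left, horth _ _ h01.symm _ hc2 y hy, add_zero] at h3
      exact hcy h3
  · intro M hM1 hM2 g hgM hgH
    apply Sp_le_of_full
    have hiso := (mem_spGL_iff g).1 (hM2 hgM)
    have hgst : g ∉ Cfsg.Geo.decompositionStabilizer D := fun h => hgH ⟨h, hM2 hgM⟩
    have hDf : ∀ i, ∀ v ∈ D i, Full hA M v := fun i v hv a => (hblk i v hv a).mono hM1
    obtain ⟨i, v, hv, hgv⟩ : ∃ i, ∃ v ∈ D i, ∀ j, (g : Matrix _ _ F) *ᵥ v ∉ D j := by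
      by_contra hcon
      push Not at hcon
      exact hgst (mem_decomp_of hk hne hD.decomp.indep hcon)
    intro y
    exact all_full hA (by omega) htop horth hnd hk
      (fun g hg hgd => hM1 ⟨hgd, hg⟩) hE2 hne hDf ((hDf i v hv).conj hA hgM hiso) hgv y

end Cfsg.Agent.S5647
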