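import Cfsg.Statements.S5648
import Cfsg.Agent.H29_TrvRep

set_option autoImplicit false
open Cfsg

namespace Cfsg.Agent.S5648


open Cfsg.Agent.H29.Trv Matrix

section
variable {ι : Type} [Fintype ι] [DecidableEq ι] {F : Type*} [Field F] [Fintype F]
variable {f : (ι → F) → (ι → F) → F} {t : ℕ}

theorem zero_or_one (hq : Fintype.card F = 2) (a : F) : a = 0 ∨ a = 1 := by
  classical
  by_contra h
  push Not at h
  have h1 : ({0, 1, a} : Finset F).card = 3 := by
    rw [Finset.card_insert_of_notMem, Finset.card_insert_of_notMem, Finset.card_singleton]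
    · simpa using fun h' : (1 : F) = a => h.2 h'.symm
    · simp only [Finset.mem_insert, Finset.mem_singleton, not_or]
      exact ⟨zero_ne_one, fun h' => h.1 h'.symm⟩
  have h2 := Finset.card_le_univ ({0, 1, a} : Finset F)
  rw [h1, hq] at h2
  omega

open Classical in
/-- indicator of nonzero vectors -/
noncomputable def q (v : ι → F) : F := if v = 0 then 0 else 1

theorem q_zero : q (0 : ι → F) = 0 := by simp [q]

theorem q_ne {v : ι → F} (h : v ≠ 0) : q v = 1 := by simp [q, h]

theorem q_add (hq : Fintype.card F = 2) (h2 : (2 : F) = 0) (hf : Alt f)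
    {U : Submodule F (ι → F)} (hU : ND f U)
    (hdim : Module.finrank F U = 2) {u w : ι → F} (hu : u ∈ U) (hw : w ∈ U) :
    q (u + w) = q u + q w + f u w := by
  by_cases hu0 : u = 0
  · rw [hu0, zero_add, q_zero, hf.zero_left]; ring
  by_cases hw0 : w = 0
  · rw [hw0, add_zero, q_zero, hf.zero_right]; ring
  by_cases huw : u = w
  · subst huw
    have h3 : u + u = 0 := by
      have : u + u = (2 : F) • u := by rw [two_smul]
      rw [this, h2, zero_smul]
    rw [h3, q_zero, q_ne hu0, hf.self]
    linear_combination -h2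
  · have h3 : u + w ≠ 0 := by
      intro h
      apply huw
      have h4 : w + w = 0 := by
        have : w + w = (2 : F) • w := by rw [two_smul]
        rw [this, h2, zero_smul]
      have : u + w = w + w := by rw [h, h4]
      exact add_right_cancel this
    rw [q_ne h3, q_ne hu0, q_ne hw0]
    rcases zero_or_one hq (f u w) with h4 | h4
    · exfalso
      obtain ⟨y, hy, huy⟩ := hU u hu hu0
      have huy1 : f u y = 1 := (zero_or_one hq (f u y)).resolve_left huy
      have h5 := perp2_finrank hf hu hy huy1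
      have h6 : perp2 hf U u y = ⊥ := Submodule.finrank_eq_zero.1 (by omega)
      have h7 := perp2_decomp hf hu hy huy1 hw
      rw [h6, Submodule.mem_bot, hf.skew w u, h4, neg_zero, zero_smul, add_zero, sub_eq_zero] at h7
      rcases zero_or_one hq (f w y) with h8 | h8
      · rw [h8, zero_smul] at h7; exact hw0 h7
      · rw [h8, one_smul] at h7; exact huw h7.symm
    · rw [h4]
      linear_combination -h2

/-- the number of nonzero components modulo 2 -/
noncomputable def QQ (hf : Alt f) {D : Fin t → Submodule F (ι → F)} (hnd : ∀ i, ND f (D i))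
    (x : ι → F) : F := ∑ i, q (prj hf (hnd i) x)

theorem prj_sum (hf : Alt f) {D : Fin t → Submodule F (ι → F)} (hnd : ∀ i, ND f (D i))
    (horth : ∀ i j, i ≠ j → ∀ u ∈ D i, ∀ v ∈ D j, f u v = 0) {c : Fin t → (ι → F)}
    (hc : ∀ i, c i ∈ D i) (j : Fin t) : prj hf (hnd j) (∑ i, c i) = c j := by
  apply prj_unique hf (hnd j) (hc j)
  intro v hv
  rw [hf.skew, hf.skew v, orth_sum hf horth hc j hv]

theorem sum_prj (hf : Alt f) {D : Fin t → Submodule F (ι → F)} (hnd : ∀ i, ND f (D i))
    (horth : ∀ i j, i ≠ j → ∀ u ∈ D i, ∀ v ∈ D j, f u v = 0) (htop : iSup D = ⊤) (x : ι → F) :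
    x = ∑ i, prj hf (hnd i) x := by
  obtain ⟨c, hc, rfl⟩ := exists_comp htop x
  exact Finset.sum_congr rfl fun j _ => (prj_sum hf hnd horth hc j).symm

theorem QQ_add (hq : Fintype.card F = 2) (h2 : (2 : F) = 0) (hf : Alt f)
    {D : Fin t → Submodule F (ι → F)} (hnd : ∀ i, ND f (D i))
    (horth : ∀ i j, i ≠ j → ∀ u ∈ D i, ∀ v ∈ D j, f u v = 0) (htop : iSup D = ⊤)
    (hdim : ∀ i, Module.finrank F (D i) = 2) (x y : ι → F) :
    QQ hf hnd (x + y) = QQ hf hnd x + QQ hf hnd y + f x y := by
  have h1 : f x y = ∑ i, f (prj hf (hnd i) x) (prj hf (hnd i) y) := by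
    conv_lhs => rw [sum_prj hf hnd horth htop x]
    rw [sum_left hf]
    apply Finset.sum_congr rfl
    intro i _
    rw [prj_spec hf (hnd i) y _ (prj_mem hf (hnd i) x)]
  rw [h1]
  unfold QQ
  rw [← Finset.sum_add_distrib, ← Finset.sum_add_distrib]
  apply Finset.sum_congr rfl
  intro i _
  rw [prj_add]
  exact q_add hq h2 hf (hnd i) (hdim i) (prj_mem hf (hnd i) x) (prj_mem hf (hnd i) y)

theorem QQ_inv (hf : Alt f) {D : Fin t → Submodule F (ι → F)} (hnd : ∀ i, ND f (D i))
    {g : GL ι F} (hg : ∀ x y, f ((g : Matrix ι ι F) *ᵥ x) ((g : Matrix ι ι F) *ᵥ y) = f x y)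
    (hgD : g ∈ Cfsg.Geo.decompositionStabilizer D) (x : ι → F) :
    QQ hf hnd ((g : Matrix ι ι F) *ᵥ x) = QQ hf hnd x := by
  obtain ⟨σ, hσ⟩ := hgD
  unfold QQ
  rw [← Equiv.sum_comp σ]
  apply Finset.sum_congr rfl
  intro i _
  have h1 : prj hf (hnd (σ i)) ((g : Matrix ι ι F) *ᵥ x) =
      (g : Matrix ι ι F) *ᵥ (prj hf (hnd i) x) := by
    apply prj_unique
    · rw [← hσ i, ← Matrix.toLin'_apply]
      exact Submodule.mem_map_of_mem (prj_mem hf (hnd i) x)
    · intro v hv
      rw [← hσ i] at hv
      obtain ⟨u, hu, rfl⟩ := hv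
      rw [Matrix.toLin'_apply, hg, hg, prj_spec hf (hnd i) x u hu]
  rw [h1]
  by_cases h0 : prj hf (hnd i) x = 0
  · rw [h0, mulVec_zero]
  · rw [q_ne h0, q_ne]
    intro h
    exact h0 (mulVec_inj (g := g) (by rw [h, mulVec_zero]))

end

/-- Over the field with 2 elements and for m ≥ 7, let D be a decomposition of F^(2m) into t pairwise orthogonal non-degenerate 2-dimensional subspaces for the standard alternating form (t = m ≥ 2). Then the elements of Sp_2m(2) permuting the members of D form a subgroup that is not maximal: some subgroup lies strictly between it and Sp_2m(2). -/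
theorem result {F : Type*} [Field F] [Fintype F] (m : ℕ) (hm : 7 ≤ m) (hq : Fintype.card F = 2) {t : ℕ} (D : Fin t → Submodule F (Fin m ⊕ Fin m → F)) (hD : Cfsg.Geo.IsNondegenerateMDecomposition (Cfsg.sympForm m F) 2 D) : ∃ K : Subgroup (Matrix.GeneralLinearGroup (Fin m ⊕ Fin m) F), Cfsg.Geo.decompositionStabilizer D ⊓ Cfsg.spGL m F < K ∧ K < Cfsg.spGL m F := by
  have two0 : (2 : F) = 0 := by
    rcases zero_or_one hq (2 : F) with h | h
    · exact h
    · exfalso
      have : (1 : F) = 0 := by linear_combination h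
      exact one_ne_zero this
  have hA := altStd m F
  set f := Cfsg.sympForm m F with hfdef
  have horth : ∀ i j, i ≠ j → ∀ u ∈ D i, ∀ v ∈ D j, f u v = 0 :=
    fun i j hij u hu v hv => hD.orthogonal i j hij u hu v hv
  have hnd : ∀ i, ND f (D i) := fun i w hw h0 => (hD.nondegenerate i w hw h0).2
  have hk := hD.decomp.finrank_eq
  have htop := hD.decomp.iSup_eq_top
  have ht3 : 3 ≤ t := by
    have := card_le_of_top htop hk
    simp at this
    omega
  have hne : ∀ i, ∃ v ∈ D i, v ≠ 0 := by
    intro i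
    have h1 : D i ≠ ⊥ := by
      intro h
      have := hk i
      rw [h, finrank_bot] at this
      omega
    exact (D i).ne_bot_iff.1 h1
  have hE : QE (QQ hA hnd) f :=
    { alt := hA
      two := two0
      smul := by
        intro c v
        rcases zero_or_one hq c with rfl | rfl
        · rw [zero_smul]
          have : QQ hA hnd 0 = 0 := by
            unfold QQ
            apply Finset.sum_eq_zero
            intro i _
            rw [prj_zero, q_zero]
          rw [this]; ring
        · rw [one_smul]; ring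
      add := QQ_add hq two0 hA hnd horth htop hk }
  have hcs : ∀ c : Fˣ, (c : F) = 1 := fun c => (zero_or_one hq (c : F)).resolve_left c.ne_zero
  choose e he he0 using hne
  let i0 : Fin t := ⟨0, by omega⟩
  let i1 : Fin t := ⟨1, by omega⟩
  let i2 : Fin t := ⟨2, by omega⟩
  have h01 : i0 ≠ i1 := by simp [i0, i1]
  have h02 : i0 ≠ i2 := by simp [i0, i2]
  have h12 : i1 ≠ i2 := by simp [i1, i2]
  -- Q of partial sums
  have hQe : ∀ i, ∀ v ∈ D i, v ≠ 0 → QQ hA hnd v = 1 := by
    intro i v hv hv0
    classical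
    have h1 : v = ∑ j, (if j = i then v else 0) := by simp
    have h2 : ∀ j, prj hA (hnd j) v = if j = i then v else 0 := by
      intro j
      conv_lhs => rw [h1]
      refine prj_sum hA hnd horth (c := fun j => if j = i then v else 0) ?_ j
      intro l
      by_cases hl : l = i
      · subst hl; simpa using hv
      · simp [hl]
    unfold QQ
    rw [Finset.sum_eq_single i]
    · rw [h2, if_pos rfl, q_ne hv0]
    · intro j _ hj
      rw [h2, if_neg hj, q_zero]
    · simp
  have hx0 : ∃ x ∈ D i0, f x (e i0) = 1 := by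
    obtain ⟨x, hx, hex⟩ := hnd i0 (e i0) (he i0) (he0 i0)
    refine ⟨x, hx, ?_⟩
    have : f x (e i0) ≠ 0 := by rw [hA.skew]; exact neg_ne_zero.2 hex
    exact (zero_or_one hq _).resolve_left this
  obtain ⟨x, hx, hxe⟩ := hx0
  refine ⟨Cfsg.Geo.quadSimilarityGroup (QQ hA hnd) ⊓ Cfsg.spGL m F, ?_, ?_⟩
  · refine lt_of_le_of_ne ?_ ?_
    · rintro g ⟨hg1, hg2⟩
      refine ⟨⟨1, fun v => ?_⟩, hg2⟩
      rw [Units.val_one, one_mul]
      exact QQ_inv hA hnd ((mem_spGL_iff g).1 hg2) hg1 v
    · intro heq
      -- transvection with three components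
      set v := e i0 + e i1 + e i2 with hv
      have hQv : QQ hA hnd v = 1 := by
        rw [hv, hE.add, hE.add, hQe _ _ (he _) (he0 _), hQe _ _ (he _) (he0 _),
          hQe _ _ (he _) (he0 _), hA.add_left, horth _ _ h01 _ (he _) _ (he _),
          horth _ _ h02 _ (he _) _ (he _), horth _ _ h12 _ (he _) _ (he _)]
        linear_combination two0
      have hxv : f x v = 1 := by
        rw [hv, hA.add_right, hA.add_right, hxe, horth _ _ h01 _ hx _ (he _),
          horth _ _ h02 _ hx _ (he _)]
        ring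
      have h0 : ((1 : F) • fr hA.toLL v) v = 0 := by simp [hA.self]
      have hmem : trv v _ h0 ∈ Cfsg.Geo.quadSimilarityGroup (QQ hA hnd) ⊓ Cfsg.spGL m F := by
        refine ⟨⟨1, fun y => ?_⟩, (trv_mem_iff h0).2 (T_spGL v 1)⟩
        rw [trv_apply, LinearMap.smul_apply, fr_apply, smul_eq_mul, hE.Q_trans, hQv]
        have : (1 : F) * 1 + 1 = 0 := by linear_combination two0
        rw [this, mul_zero, add_zero, Units.val_one, one_mul]
      rw [← heq] at hmem
      obtain ⟨σ, hσ⟩ := hmem.1
      have h1 : (trv v _ h0 : Matrix _ _ F) *ᵥ x ∈ D (σ i0) := by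
        rw [← hσ, ← Matrix.toLin'_apply]
        exact Submodule.mem_map_of_mem hx
      rw [trv_apply] at h1
      simp only [one_smul, fr_apply, hxv] at h1
      -- there is i in {i1, i2} different from σ i0
      obtain ⟨i, hi0, hi1, hi2⟩ : ∃ i, i ≠ i0 ∧ i ≠ σ i0 ∧ (i = i1 ∨ i = i2) := by
        by_cases h3 : σ i0 = i1
        · exact ⟨i2, h02.symm, by rw [h3]; exact h12.symm, Or.inr rfl⟩
        · exact ⟨i1, h01.symm, fun h => h3 h.symm, Or.inl rfl⟩
      obtain ⟨y, hy, hey⟩ := hnd i (e i) (he i) (he0 i)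
      have h4 := horth _ _ hi1.symm _ h1 y hy
      rw [hv, hA.add_left, hA.add_left, hA.add_left, horth _ _ hi0.symm _ hx y hy,
        horth _ _ hi0.symm _ (he i0) y hy] at h4
      rcases hi2 with rfl | rfl
      · rw [horth _ _ h12.symm _ (he i2) y hy] at h4
        apply hey
        linear_combination h4
      · rw [horth _ _ h12 _ (he i1) y hy] at h4
        apply hey
        linear_combination h4
  · refine lt_of_le_of_ne inf_le_right ?_
    intro heq
    set v := e i0 + e i1 with hv
    have hQv : QQ hA hnd v = 0 := by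
      rw [hv, hE.add, hQe _ _ (he _) (he0 _), hQe _ _ (he _) (he0 _),
        horth _ _ h01 _ (he _) _ (he _)]
      linear_combination two0
    have hxv : f x v = 1 := by
      rw [hv, hA.add_right, hxe, horth _ _ h01 _ hx _ (he _)]
      ring
    have h0 : ((1 : F) • fr hA.toLL v) v = 0 := by simp [hA.self]
    have hmem : trv v _ h0 ∈ Cfsg.spGL m F := (trv_mem_iff h0).2 (T_spGL v 1)
    rw [← heq] at hmem
    obtain ⟨c, hc⟩ := hmem.1
    have h1 := hc x
    rw [trv_apply, LinearMap.smul_apply, fr_apply, smul_eq_mul, hE.Q_trans, hQv, hxv, hcs] at h1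
    exact one_ne_zero (α := F) (by linear_combination h1)

end Cfsg.Agent.S5648
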