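import Cfsg.Statements.S5649
import Cfsg.Agent.GUp4
import Cfsg.Agent.H29_TrvSp
open Cfsg.Agent.H21.GUp Cfsg.Agent.H29.Trv Matrix Module Cfsg.Geo

set_option autoImplicit false
open Cfsg

namespace Cfsg.Agent.S5649



/-- For a finite field F of odd order and m ≥ 7, let D be a decomposition of F^(2m) into two complementary subspaces of dimension m on each of which the standard alternating form vanishes identically. Then the elements of Sp_2m(F) preserving or interchanging the two subspaces form a maximal subgroup of Sp_2m(F). -/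
theorem result {F : Type*} [Field F] [Fintype F] (m : ℕ) (hm : 7 ≤ m) (hodd : Odd (Fintype.card F)) (D : Fin 2 → Submodule F (Fin m ⊕ Fin m → F)) (hD : Cfsg.Geo.IsMDecomposition m D) (hts : ∀ i, Cfsg.Geo.IsTotallySingularFor (Cfsg.sympForm m F) (D i)) : Cfsg.Geo.IsMaximalIn (Cfsg.spGL m F) (Cfsg.Geo.decompositionStabilizer D ⊓ Cfsg.spGL m F) := by
  have hA := altStd m F
  have h2 : (2 : F) ≠ 0 := by
    intro h0
    have hch : CharP F 2 := CharTwo.of_one_ne_zero_of_two_eq_zero one_ne_zero h0
    have := FiniteField.even_card_iff_char_two.1 ((ringChar.eq_iff).2 hch)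
    rw [Nat.odd_iff] at hodd
    omega
  have h : SG (RingEquiv.refl F) (-1) (Cfsg.sympForm m F) :=
    { toLL := hA.toLL
      eps := Or.inr rfl
      inv := fun _ => rfl
      sr := fun c v x => hA.smul_right c v x
      herm := fun u v => by
        rw [hA.skew u v]
        simp }
  have hP := Pr.of_decomp hD hts
  refine maximal h (by omega) hP (fun g hg => (mem_spGL_iff g).1 hg) (fun c _ => ⟨-(c / 2), ?_⟩) (c₀ := 1) one_ne_zero ?_ ?_ ?_ ?_
  · simp only [RingEquiv.refl_apply]
    field_simp
    ring
  · simp
  · intro u _ c _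
    exact T_spGL u c
  · intro u v hu hv huv
    obtain ⟨g, -, hg, hg2⟩ := exists_K h hu hv huv
    exact ⟨g, (mem_spGL_iff g).2 hg2, hg⟩
  · intro M _ hM
    exact Sp_le_of_full (fun v a => hM v (hA.self v) a (by simp))

end Cfsg.Agent.S5649
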