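import Cfsg.Statements.S5650
import Cfsg.Agent.GUt10
open Cfsg.Agent.H21.GUt Cfsg.Agent.H29.Trv Matrix Module Cfsg.Geo

set_option autoImplicit false
open Cfsg

namespace Cfsg.Agent.S5650



/-- For a finite field F, a subfield F₀ with |F| = |F₀| ^ r for a prime r, and m ≥ 7, let P be an invertible matrix and ζ a non-zero scalar such that ζ times the standard alternating form takes values in F₀ on the F₀-span of the columns of P. Then the elements of Sp_2m(F) lying in the subfield group of P (the conjugate by P of the product of GL_2m(F₀) with the scalars) form a maximal subgroup of Sp_2m(F). -/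
theorem result {F : Type*} [Field F] [Fintype F] (m : ℕ) (hm : 7 ≤ m) (F₀ : Subfield F) (r : ℕ) (hr : r.Prime) (hcard : Fintype.card F = Nat.card F₀ ^ r) (P : Matrix.GeneralLinearGroup (Fin m ⊕ Fin m) F) (ζ : F) (hζ : ζ ≠ 0) (hP : Cfsg.Geo.IsFormRationalStructure (Cfsg.sympForm m F) F₀ ζ P) : Cfsg.Geo.IsMaximalIn (Cfsg.spGL m F) (Cfsg.Geo.subfieldSubgroup F₀ P ⊓ Cfsg.spGL m F) := by
  have hA := altStd m F
  set f := Cfsg.sympForm m F with hf
  -- the scaled form
  set g : (Fin m ⊕ Fin m → F) → (Fin m ⊕ Fin m → F) → F := fun x y => ζ * f x y with hgdef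
  have hg : Alt g :=
    { add_left := fun x y v => by simp only [hgdef, hA.add_left]; ring
      smul_left := fun c x v => by simp only [hgdef, hA.smul_left]; ring
      add_right := fun v x y => by simp only [hgdef, hA.add_right]; ring
      nondeg := fun v hv => by
        obtain ⟨x, hx⟩ := hA.nondeg v hv
        exact ⟨x, mul_ne_zero hζ hx⟩
      smul_right := fun c v x => by simp only [hgdef, hA.smul_right]; ring
      self := fun v => by simp only [hgdef, hA.self, mul_zero] }
  have hRat : ∀ x y, Rt F₀ P x → Rt F₀ P y → g x y ∈ F₀ := by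
    intro x y hx hy
    obtain ⟨u, hu, rfl⟩ := hx.exists_vec
    obtain ⟨v, hv, rfl⟩ := hy.exists_vec
    exact hP u v hu hv
  have hgf : ∀ x y x' y', g x y = g x' y' ↔ f x y = f x' y' := by
    intro x y x' y'
    simp only [hgdef]
    exact mul_right_inj' hζ
  have hF0ne : ∃ b : F, b ∉ F₀ := by
    by_contra hcon
    push Not at hcon
    have h1 : Nat.card F₀ = Fintype.card F := by
      rw [← Nat.card_eq_fintype_card]
      exact Nat.card_congr (Equiv.subtypeUnivEquiv hcon)
    have h2 : 1 < Nat.card F₀ := Finite.one_lt_card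
    rw [← h1] at hcard
    have h3 : Nat.card F₀ ^ 1 = Nat.card F₀ ^ r := by rw [pow_one]; exact hcard
    have h4 := Nat.pow_right_injective h2 h3
    exact hr.one_lt.ne h4
  have hEE : ∀ (M : Subgroup (GL (Fin m ⊕ Fin m) F)) (v : Fin m ⊕ Fin m → F) (b : F), T M v ((b * ζ) • fr hA.toLL v) ↔
      Cfsg.Agent.H21.GUt.E hg M v b := by
    intro M v b
    have e : (b * ζ) • fr hA.toLL v = b • fr hg.toLL v := by
      apply LinearMap.ext
      intro x
      show b * ζ * f x v = b * (ζ * f x v)
      ring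
    rw [e]
    rfl
  have hHE : ∀ v, Rt F₀ P v → ∀ b ∈ F₀, Cfsg.Agent.H21.GUt.E hg (subfieldSubgroup F₀ P ⊓ Cfsg.spGL m F) v b := by
    intro v hv b hb
    rw [← hEE]
    have h1 := T_spGL v (b * ζ)
    refine T_inf (T_sub h1.1 hv ?_) h1
    intro x hx
    have h2 := F₀.mul_mem hb (hRat x v hx hv)
    have e : ((b * ζ) • fr hA.toLL v) x = b * g x v := by
      show b * ζ * f x v = b * (ζ * f x v)
      ring
    rw [e]
    exact h2
  refine isMaximalIn_of inf_le_right ?_ ?_
  · intro hle
    obtain ⟨b, hb⟩ := hF0ne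
    -- a rational vector
    set v : Fin m ⊕ Fin m → F := (P : Matrix (Fin m ⊕ Fin m) (Fin m ⊕ Fin m) F) *ᵥ Pi.single (Sum.inl ⟨0, by omega⟩) 1 with hv
    have hvR : Rt F₀ P v := Rt.basis _
    have hv0 : v ≠ 0 := by
      intro h0
      have h1 : (Pi.single (Sum.inl ⟨0, by omega⟩) 1 : Fin m ⊕ Fin m → F) = 0 := by
        apply mulVec_inj (g := P)
        rw [mulVec_zero]
        exact h0
      have := congrFun h1 (Sum.inl ⟨0, by omega⟩)
      simp at this
    obtain ⟨x, hx, -, hxv⟩ := (Alt.rf hg hRat).sep (B := ∅) (by simp) (a := v) (by simpa using hv0)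
    have hxv' : g x v ≠ 0 := by rw [hg.skew]; exact neg_ne_zero.2 hxv
    have h1 := (T_spGL v (b * ζ)).mono (hle.trans inf_le_left)
    have h2 := T_sub_rat h1 hvR hv0 hx
    have e : ((b * ζ) • fr hA.toLL v) x = b * g x v := by
      show b * ζ * f x v = b * (ζ * f x v)
      ring
    rw [e] at h2
    apply hb
    have := F₀.div_mem h2 (hRat x v hx hvR)
    rwa [mul_div_cancel_right₀ _ hxv'] at this
  · intro M hM1 hM2 k hkM hkH
    apply Sp_le_of_full
    have hiso : ∀ x y, g ((k : Matrix (Fin m ⊕ Fin m) (Fin m ⊕ Fin m) F) *ᵥ x)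
        ((k : Matrix (Fin m ⊕ Fin m) (Fin m ⊕ Fin m) F) *ᵥ y) = g x y := by
      intro x y
      rw [hgf]
      exact (mem_spGL_iff k).1 (hM2 hkM) x y
    have hkst : k ∉ subfieldSubgroup F₀ P := fun hh => hkH ⟨hh, hM2 hkM⟩
    have C : Cx hg F₀ P M :=
      { R := hRat
        E := fun v hv b hb => (hHE v hv b hb).mono hM1
        iso := by
          intro s hs hsR
          apply hM1
          refine ⟨mem_subfield_of one_ne_zero (fun i => ?_), ?_⟩
          · rw [one_smul]
            exact hsR _ (Rt.basis i)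
          · show s ∈ Cfsg.spGL m F
            rw [mem_spGL_iff]
            intro x y
            exact (hgf _ _ _ _).1 (hs x y)
        card := by simp; omega }
    obtain ⟨v₀, hv₀, hv₀0, hv₀i⟩ := exists_irr hkst
    have hu := (C.E v₀ hv₀ 1 F₀.one_mem).conj hkM hiso
    have hu0 : (k : Matrix (Fin m ⊕ Fin m) (Fin m ⊕ Fin m) F) *ᵥ v₀ ≠ 0 := by
      intro h0
      exact hv₀0 (mulVec_inj (g := k) (by rw [mulVec_zero]; exact h0))
    have hall := cx_full C (cx_all C hr hcard hu0 hv₀i hu)
    intro v a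
    have h1 := (hEE M v (a / ζ)).2 (hall v (a / ζ))
    rwa [div_mul_cancel₀ _ hζ] at h1

end Cfsg.Agent.S5650
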