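import Cfsg.Statements.S5652
import Cfsg.Agent.H29_TrvQ

set_option autoImplicit false
open Cfsg

namespace Cfsg.Agent.S5652


open Cfsg.Agent.H29.Trv Matrix

theorem two_eq_zero {F : Type*} [Field F] [Fintype F] (heven : ¬ Odd (Fintype.card F)) :
    (2 : F) = 0 := by
  by_contra h2
  apply heven
  have h1 : ringChar F ≠ 2 := by
    intro h
    apply h2
    have := ringChar.Nat.cast_ringChar (R := F)
    rw [h] at this
    exact_mod_cast this
  rw [Nat.odd_iff]
  exact FiniteField.odd_card_of_char_ne_two h1

/-- For a finite field F of characteristic two and m ≥ 7, let Q be a non-degenerate quadratic form on F^(2m) whose polar form is the standard alternating form. Then the elements of Sp_2m(F) that are similarities of Q (they are exactly the isometries of Q) form a maximal subgroup of Sp_2m(F). -/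
theorem result {F : Type*} [Field F] [Fintype F] (m : ℕ) (hm : 7 ≤ m) (heven : ¬ Odd (Fintype.card F)) (Q : (Fin m ⊕ Fin m → F) → F) (hQ : Cfsg.Geo.IsNondegenerateQuadraticForm Q) (hpol : ∀ u v, QuadraticMap.polar Q u v = Cfsg.sympForm m F u v) : Cfsg.Geo.IsMaximalIn (Cfsg.spGL m F) (Cfsg.Geo.quadSimilarityGroup Q ⊓ Cfsg.spGL m F) := by
  have two0 := two_eq_zero (F := F) heven
  have hA := altStd m F
  have hE : QE Q (Cfsg.sympForm m F) :=
    { alt := hA
      two := two0
      smul := hQ.smul
      add := by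
        intro u v
        rw [← hpol]
        unfold QuadraticMap.polar
        ring }
  have hcard : 6 < Fintype.card (Fin m ⊕ Fin m) := by simp; omega
  have hQH : ∀ v a, a * Q v = 1 →
      T (Cfsg.Geo.quadSimilarityGroup Q ⊓ Cfsg.spGL m F) v (a • fr hE.alt.toLL v) := by
    intro v a hav
    have h0 : (a • fr hE.alt.toLL v) v = 0 := by simp [hA.self]
    refine T_inf ((trv_mem_iff h0).1 ?_) (T_spGL v a)
    refine ⟨1, fun x => ?_⟩
    rw [trv_apply, LinearMap.smul_apply, fr_apply, smul_eq_mul, hE.Q_trans, hav]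
    have : (1 : F) + 1 = 0 := by linear_combination two0
    rw [this, mul_zero, add_zero, Units.val_one, one_mul]
  refine isMaximalIn_of inf_le_right ?_ ?_
  · intro hle
    have hdim0 : 2 * Module.finrank F (⊥ : Submodule F (Fin m ⊕ Fin m → F)) <
        Fintype.card (Fin m ⊕ Fin m) := by
      rw [finrank_bot]; omega
    obtain ⟨u1, hu1, hu1b⟩ := hA.exists_perp_notMem ⊥ hdim0
    obtain ⟨u2, hu2, -⟩ := exists_sep' hA ⊥ hu1b
    have hdim2 : 2 * Module.finrank F (Submodule.span F (Set.range ![u1, u2])) <
        Fintype.card (Fin m ⊕ Fin m) := by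
      have := finrank_range_le_card (R := F) ![u1, u2]
      have h3 : Set.finrank F (Set.range ![u1, u2]) ≤ 2 := by simpa using this
      unfold Set.finrank at h3
      omega
    obtain ⟨u3, hu3, hQ3⟩ := hE.univ _ hdim2 (Q u1)
    have h13 : Cfsg.sympForm m F u1 u3 = 0 := hu3 u1 (Submodule.subset_span ⟨0, rfl⟩)
    have h23 : Cfsg.sympForm m F u2 u3 = 0 := hu3 u2 (Submodule.subset_span ⟨1, rfl⟩)
    set v := u1 + u3 with hv
    have hQv : Q v = 0 := by
      rw [hv, hE.add, hQ3, h13]
      linear_combination (Q u1) * two0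
    have hv2 : Cfsg.sympForm m F u2 v = 1 := by rw [hv, hA.add_right, hu2, h23, add_zero]
    have h0 : ((1 : F) • fr hA.toLL v) v = 0 := by simp [hA.self]
    obtain ⟨c, hc⟩ := (hle ((trv_mem_iff h0).2 (T_spGL v 1))).1
    have hdim1 : 2 * Module.finrank F (Submodule.span F {v}) <
        Fintype.card (Fin m ⊕ Fin m) := by
      have := finrank_span_le_card (R := F) ({v} : Set (Fin m ⊕ Fin m → F))
      simp at this
      omega
    obtain ⟨u, hu, hQu⟩ := hE.univ _ hdim1 1
    have hvu := hu v (Submodule.mem_span_singleton_self v)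
    have e1 := hc u
    rw [trv_apply, LinearMap.smul_apply, fr_apply, smul_eq_mul, hE.Q_trans, hE.symm u v, hvu,
      hQu] at e1
    have hc1 : (c : F) = 1 := by linear_combination -e1
    have e2 := hc u2
    rw [trv_apply, LinearMap.smul_apply, fr_apply, smul_eq_mul, hE.Q_trans, hv2, hQv, hc1] at e2
    exact one_ne_zero (α := F) (by linear_combination e2)
  · intro M hM1 hM2 g hgM hgH
    apply Sp_le_of_full
    have hgst : g ∉ Cfsg.Geo.quadSimilarityGroup Q := fun h => hgH ⟨h, hM2 hgM⟩
    have hgQ : ∃ v, Q ((g : Matrix _ _ F) *ᵥ v) ≠ Q v := by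
      by_contra hcon
      push Not at hcon
      exact hgst ⟨1, fun v => by rw [hcon, Units.val_one, one_mul]⟩
    intro v
    exact hE.all_full hcard (fun g hg => (mem_spGL_iff g).1 (hM2 hg))
      (fun v a hav => (hQH v a hav).mono hM1) hgM hgQ v

end Cfsg.Agent.S5652
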