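import Cfsg.Statements.S5653
import Cfsg.Agent.GUt2
open Cfsg.Agent.H21.GUt Cfsg.Agent.H29.Trv Cfsg.Agent.H29.Fm Matrix Module Cfsg.Geo

set_option autoImplicit false
open Cfsg

namespace Cfsg.Agent.S5653



/-- Let F be the field with q² elements and n ≥ 13, and let SU_n(q) be the group of matrices of determinant one preserving the standard unitary form Σ u_i v_i^q on F^n (the intersection of the unitary group GU_n with the kernel of the determinant). The elements of SU_n(q) stabilising a non-zero subspace on which the form vanishes identically form a maximal subgroup of SU_n(q). -/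
theorem result {F : Type*} [Field F] [Fintype F] (n q : ℕ) (hF : Fintype.card F = q ^ 2) (hn : 13 ≤ n) (W : Submodule F (Fin n → F)) (hW0 : W ≠ ⊥) (hW : Cfsg.Geo.IsTotallySingularFor (Cfsg.hermForm n F q) W) : Cfsg.Geo.IsMaximalIn (Cfsg.GU n F q ⊓ Cfsg.Geo.specialLinear (Fin n) F) (Cfsg.Geo.subspaceStabilizer W ⊓ (Cfsg.GU n F q ⊓ Cfsg.Geo.specialLinear (Fin n) F)) := by
  have h := uf_herm (n := n) hF
  set f := Cfsg.hermForm n F q with hf
  have hq2 : ¬ (n = 3 ∧ q = 2) := by omega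
  have hSU : ∀ v, f v v = 0 → FT h (SUg n F q) v := fun v hv => FT_SU hF hv
  have hWperp : ∀ v, f v v = 0 → (∀ w ∈ W, f w v = 0) → FT h (subspaceStabilizer W ⊓ SUg n F q) v :=
    fun v hv hvW => (hSU v hv).stab_perp hvW
  have hsep : ∀ u : Fin n → F, u ∉ W → ∃ z, f u z = 1 ∧ ∀ w ∈ W, f w z = 0 := fun u hu => exists_sep h.LL W hu
  refine isMaximalIn_of inf_le_right ?_ ?_
  · intro hle
    obtain ⟨w, hw, hw0⟩ := W.ne_bot_iff.1 hW0
    obtain ⟨u, hu⟩ := h.nd' w hw0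
    have huw : f u w ≠ 0 := by
      rw [← h.sw]
      exact (map_ne_zero _).2 hu
    obtain ⟨a, ha⟩ := h.adj (hW w hw w hw) huw (l := 0) (map_zero _)
    set u' := u + a • w with hu'
    have hwu' : f w u' ≠ 0 := by
      rw [hu', h.toSFm.add_right, h.toSFm.smul_right, hW w hw w hw, mul_zero, add_zero]
      exact hu
    have hu'W : u' ∉ W := fun hc => hwu' (hW w hw u' hc)
    obtain ⟨κ, hκ, hκ2⟩ := h.tz
    obtain ⟨-, g, hg, hgx⟩ := hSU u' ha κ hκ2
    have h1 := (mem_stab_iff W _).1 (hle hg).1 w hw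
    rw [hgx] at h1
    have h2 := (W.add_mem_iff_right hw).1 h1
    rw [LinearMap.smul_apply, fr_apply] at h2
    exact hu'W ((W.smul_mem_iff (mul_ne_zero hκ hwu')).1 h2)
  · intro M hM1 hM2 g hgM hgH
    apply SU_le_of_FT hF (by omega) hq2
    have hiso : ∀ x y, f ((g : Matrix (Fin n) (Fin n) F) *ᵥ x) ((g : Matrix (Fin n) (Fin n) F) *ᵥ y) = f x y :=
      (mem_GU g).1 (hM2 hgM).1
    have hgst : g ∉ subspaceStabilizer W := fun hh => hgH ⟨hh, hM2 hgM⟩
    have hFperp : ∀ v, f v v = 0 → (∀ w ∈ W, f w v = 0) → FT h M v := fun v hv hvW => (hWperp v hv hvW).mono hM1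
    -- a moved vector
    obtain ⟨y, hyy, hy, w0, hw0, hgy⟩ : ∃ y, f y y = 0 ∧ (∀ w ∈ W, f w y = 0) ∧
        ∃ w ∈ W, f w ((g : Matrix (Fin n) (Fin n) F) *ᵥ y) ≠ 0 := by
      by_contra hcon
      push Not at hcon
      let S : Set (Fin n → F) := {y | f y y = 0 ∧ ∀ w ∈ W, f w y = 0}
      have hS : ∀ x ∈ S, (g : Matrix (Fin n) (Fin n) F) *ᵥ x ∈ S := by
        rintro y ⟨hy1, hy2⟩
        exact ⟨by rw [hiso]; exact hy1, hcon y hy1 hy2⟩
      apply hgst
      rw [mem_stab_iff]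
      intro w hw
      by_contra hgw
      obtain ⟨z, hz1, hz2⟩ := hsep _ hgw
      -- z is orthogonal to W and not to g w; adjust it
      have hwS : w ∈ S := ⟨hW w hw w hw, fun w' hw' => hW w' hw' w hw⟩
      have hgwS := hS _ hwS
      have hgww : f ((g : Matrix (Fin n) (Fin n) F) *ᵥ w) ((g : Matrix (Fin n) (Fin n) F) *ᵥ w) = 0 := hgwS.1
      obtain ⟨a, ha⟩ := h.adj (z := z) hgww (by rw [← h.sw, hz1, map_one]; exact one_ne_zero) (l := 0) (map_zero _)
      have hz'S : z + a • ((g : Matrix (Fin n) (Fin n) F) *ᵥ w) ∈ S := by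
        refine ⟨ha, fun w' hw' => ?_⟩
        rw [h.toSFm.add_right, h.toSFm.smul_right, hz2 w' hw', hgwS.2 w' hw', mul_zero, add_zero]
      obtain ⟨s, hs, hsz⟩ := surjOn_of_mapsTo hS hz'S
      have h1 : f ((g : Matrix (Fin n) (Fin n) F) *ᵥ w) (z + a • ((g : Matrix (Fin n) (Fin n) F) *ᵥ w)) = 0 := by
        rw [← hsz, hiso]
        exact hs.2 w hw
      rw [h.toSFm.add_right, h.toSFm.smul_right, hgww, hz1, mul_zero, add_zero] at h1
      exact one_ne_zero h1
    have hu := (hFperp y hyy hy).conj hgM hiso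
    set u := (g : Matrix (Fin n) (Fin n) F) *ᵥ y with hudef
    intro x hxx
    change f x x = 0 at hxx
    by_cases hx : ∀ w ∈ W, f w x = 0
    · exact hFperp x hxx hx
    push Not at hx
    obtain ⟨w1, hw1, hxw⟩ := hx
    -- common nonorthogonal vector
    obtain ⟨w, hw, hw2, hw3⟩ : ∃ w ∈ W, f w u ≠ 0 ∧ f w x ≠ 0 := by
      by_cases h3 : f w0 x = 0
      · by_cases h4 : f w1 u = 0
        · refine ⟨w0 + w1, W.add_mem hw0 hw1, ?_, ?_⟩
          · rw [h.add_left, h4, add_zero]; exact hgy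
          · rw [h.add_left, h3, zero_add]; exact hxw
        · exact ⟨w1, hw1, h4, hxw⟩
      · exact ⟨w0, hw0, hgy, h3⟩
    -- scale
    have hwuu : f u w ≠ 0 := by
      rw [← h.sw]; exact (map_ne_zero _).2 hw2
    have hwxx : f x w ≠ 0 := by
      rw [← h.sw]; exact (map_ne_zero _).2 hw3
    obtain ⟨u₁, hu₁, hu₁F, hu₁w⟩ : ∃ u₁, u₁ = (f u w)⁻¹ • u ∧ FT h M u₁ ∧ f u₁ w = 1 :=
      ⟨_, rfl, hu.smul _, by rw [h.smul_left, inv_mul_cancel₀ hwuu]⟩
    obtain ⟨x₁, hx₁, hx₁w⟩ : ∃ x₁, x₁ = (f x w)⁻¹ • x ∧ f x₁ w = 1 :=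
      ⟨_, rfl, by rw [h.smul_left, inv_mul_cancel₀ hwxx]⟩
    have hx₁x₁ : f x₁ x₁ = 0 := by
      rw [hx₁, h.smul_left, h.toSFm.smul_right, hxx, mul_zero, mul_zero]
    have hww := hW w hw w hw
    have hwF : FT h M w := hFperp w hww (fun w' hw' => hW w' hw' w hw)
    set z := x₁ - u₁ with hz
    have hzw : f z w = 0 := by rw [hz, h.toSFm.sub_left, hu₁w, hx₁w, sub_self]
    obtain ⟨b, hb⟩ := h.tr (h.fix z)
    obtain ⟨k, hk1, hk2, hk3⟩ := siegel h hww hzw hb
    have hkM : k ∈ M := by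
      apply hM1
      refine ⟨?_, (mem_GU k).2 hk3, hk1⟩
      show k ∈ subspaceStabilizer W
      rw [mem_stab_iff]
      intro p hp
      rw [hk2, hW p hp w hw, zero_smul, add_zero, mul_zero, zero_smul, sub_zero]
      exact W.sub_mem hp (W.smul_mem _ hw)
    have h5 := hu₁F.conj hkM hk3
    rw [hk2, hu₁w, one_smul, mul_one] at h5
    have h6 : u₁ + z - f u₁ z • w - b • w = x₁ + (-(f u₁ z + b)) • w := by rw [hz]; module
    rw [h6] at h5
    have h7 : f (x₁ + (-(f u₁ z + b)) • w) w ≠ 0 := by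
      rw [h.add_left, hx₁w, h.smul_left, hww, mul_zero, add_zero]
      exact one_ne_zero
    have h9 : x₁ + (-(f u₁ z + b)) • w + (f u₁ z + b) • w = x₁ := by module
    have h8 := h5.line hwF h7 (a := f u₁ z + b) (by rw [h9]; exact hx₁x₁)
    rw [h9, hx₁] at h8
    exact h8.of_smul (inv_ne_zero hwxx)

end Cfsg.Agent.S5653
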