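import Cfsg.Statements.S5654
import Cfsg.Agent.GUz2
import Cfsg.Agent.H29_Un1
open Cfsg.Agent.H21.GUz Cfsg.Agent.H21.GUt Cfsg.Agent.H29.Trv Cfsg.Agent.H29.Fm Matrix Module Cfsg.Geo

set_option autoImplicit false
open Cfsg

namespace Cfsg.Agent.S5654



/-- Let F be the field with q² elements and n ≥ 13. In SU_n(q) (determinant-one isometries of the standard unitary form on F^n) the stabiliser of a non-zero subspace W on which the form is non-degenerate and with 2 dim W < n is a maximal subgroup. -/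
theorem result {F : Type*} [Field F] [Fintype F] (n q : ℕ) (hF : Fintype.card F = q ^ 2) (hn : 13 ≤ n) (W : Submodule F (Fin n → F)) (hW0 : W ≠ ⊥) (hW : Cfsg.Geo.IsNondegenerateOn (Cfsg.hermForm n F q) W) (hdim : 2 * Module.finrank F W < n) : Cfsg.Geo.IsMaximalIn (Cfsg.GU n F q ⊓ Cfsg.Geo.specialLinear (Fin n) F) (Cfsg.Geo.subspaceStabilizer W ⊓ (Cfsg.GU n F q ⊓ Cfsg.Geo.specialLinear (Fin n) F)) := by
  have h := uf_herm (n := n) hF
  have hfr := finrank_perp h.toSFm W
  have hdisj : ∀ x ∈ W, (∀ w ∈ W, Cfsg.hermForm n F q x w = 0) → x = 0 := by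
    intro x hx hxx
    by_contra h0
    obtain ⟨-, y, hy, hxy⟩ := hW x hx h0
    exact hxy (hxx y hy)
  have hinf : perp h.toSFm W ⊓ W = ⊥ := by
    rw [eq_bot_iff]
    rintro x ⟨hx1, hx2⟩
    exact (Submodule.mem_bot F).2 (hdisj x hx2 hx1)
  have hsup : perp h.toSFm W ⊔ W = ⊤ := by
    apply Submodule.eq_top_of_finrank_eq
    have h1 := Submodule.finrank_sup_add_finrank_inf_eq (perp h.toSFm W) W
    rw [hinf, finrank_bot] at h1
    rw [Module.finrank_fintype_fun_eq_card, Fintype.card_fin]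
    omega
  have horth : ∀ u ∈ perp h.toSFm W, ∀ w ∈ W, Cfsg.hermForm n F q u w = 0 := fun u hu w hw => hu w hw
  have hSS : ∀ M, subspaceStabilizer W ⊓ (Cfsg.GU n F q ⊓ specialLinear (Fin n) F) ≤ M → SS h M (perp h.toSFm W) W := by
    intro M hM
    refine ⟨horth, fun x => ?_, by omega, ?_, ?_, ?_⟩
    · have hx : x ∈ perp h.toSFm W ⊔ W := by rw [hsup]; trivial
      obtain ⟨u, hu, w, hw, e⟩ := Submodule.mem_sup.1 hx
      exact ⟨u, hu, w, hw, e.symm⟩
    · intro g hg1 hg2 hg3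
      exact hM ⟨(mem_stab_iff W g).2 hg3, (mem_GU g).2 hg1, (mem_SL_iff g).2 hg2⟩
    · intro v hv hvv
      exact ((FT_SU hF hvv).stab_perp (W := W) (fun w hw => by
        rw [← h.sw, horth v hv w hw, map_zero])).mono hM
    · intro v hv hvv
      exact ((FT_SU hF hvv).stab_mem (W := W) hv).mono hM
  refine isMaximalIn_of inf_le_right ?_ ?_
  · intro hle
    refine not_le_stab h.toSFm (tv_su hF) (spn_su hF (by omega)) hW0 ?_ (hle.trans inf_le_left)
    rintro rfl
    rw [finrank_top, Module.finrank_fintype_fun_eq_card, Fintype.card_fin] at hdim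
    omega
  · intro M hM1 hM2 g hgM hgH
    have s := hSS M hM1
    have hiso : ∀ x y, Cfsg.hermForm n F q ((g : Matrix (Fin n) (Fin n) F) *ᵥ x) ((g : Matrix (Fin n) (Fin n) F) *ᵥ y) =
        Cfsg.hermForm n F q x y := (mem_GU g).1 (hM2 hgM).1
    obtain ⟨v, hv, hvv, h1, h2⟩ := s.moved (by omega) hiso (fun hst => hgH ⟨(mem_stab_iff W g).2 hst, hM2 hgM⟩)
    have hFv := (s.ftU v hv hvv).conj hgM hiso
    obtain ⟨u, hu, w, hw, e⟩ := s.sum ((g : Matrix (Fin n) (Fin n) F) *ᵥ v)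
    rw [e] at hFv h1 h2
    apply SU_le_of_FT hF (by omega) (by omega)
    refine s.all hu hw ?_ ?_ hFv
    · rintro rfl
      rw [zero_add] at h2
      exact h2 hw
    · rintro rfl
      rw [add_zero] at h1
      exact h1 hu

end Cfsg.Agent.S5654
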