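import Cfsg.Statements.S5656
import Cfsg.Agent.H29_Un7
import Cfsg.Agent.GUt2
open Matrix Module Cfsg.Geo Cfsg.Agent.H29.Fm Cfsg.Agent.H29.Trv Cfsg.Agent.H21.GUt Cfsg.Agent.H29.AscT Cfsg.Agent.H29.Asc Cfsg.Agent.H29.AscF

set_option autoImplicit false
open Cfsg

namespace Cfsg.Agent.S5656



/-- Let F be the field with 4 elements (q = 2) and n ≥ 13. Let D be a decomposition of F^n into t pairwise orthogonal 2-dimensional subspaces, each non-degenerate for the standard unitary form Σ u_i v_i². Then the elements of SU_n(2) permuting the members of D form a subgroup that is not maximal: some subgroup lies strictly between it and SU_n(2). -/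
theorem result {F : Type*} [Field F] [Fintype F] (n : ℕ) (hF : Fintype.card F = 4) (hn : 13 ≤ n) {t : ℕ} (D : Fin t → Submodule F (Fin n → F)) (hD : Cfsg.Geo.IsNondegenerateMDecomposition (Cfsg.hermForm n F 2) 2 D) : ∃ K : Subgroup (Matrix.GeneralLinearGroup (Fin n) F), Cfsg.Geo.decompositionStabilizer D ⊓ (Cfsg.GU n F 2 ⊓ Cfsg.Geo.specialLinear (Fin n) F) < K ∧ K < (Cfsg.GU n F 2 ⊓ Cfsg.Geo.specialLinear (Fin n) F) := by
  classical
  have hF' : Fintype.card F = 2 ^ 2 := by rw [hF]; norm_num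
  have hU := uf_herm (n := n) hF'
  have h := hU.toSFm
  set f := Cfsg.hermForm n F 2 with hf
  have hτ2 := fq_apply hF'
  have hτ := fq_ne hF'
  obtain ⟨v, hvD, hv, hspan⟩ := dec_onb_exists h hτ hD
  have htm := dec_card hD.decomp
  have ht := hD.decomp.two_le
  have h2 := two_zero_of_four hF
  let u : Fin (t * 2) × Fin 1 → (Fin n → F) := fun p => v (finProdFinEquiv.symm p.1)
  have hu : ∀ p q, f (u p) (u q) = if p = q then 1 else 0 := by
    intro p q
    show f (v (finProdFinEquiv.symm p.1)) (v (finProdFinEquiv.symm q.1)) = _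
    rw [hv]
    congr 1
    apply propext
    rw [EmbeddingLike.apply_eq_iff_eq]
    constructor
    · intro h1
      exact Prod.ext h1 (Subsingleton.elim _ _)
    · intro h1
      rw [h1]
  have hdec := dec_onb h one_ne_zero hu (by omega) (by omega) one_pos
  have hu' : ∀ x : Fin t × Fin 2, u (finProdFinEquiv x, 0) = v x := by
    intro x
    show v (finProdFinEquiv.symm (finProdFinEquiv x)) = v x
    rw [Equiv.symm_apply_apply]
  refine ⟨decompositionStabilizer (fun i => Submodule.span F (Set.range (fun a => u (i, a)))) ⊓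
    (Cfsg.GU n F 2 ⊓ Cfsg.Geo.specialLinear (Fin n) F), ?_, ?_⟩
  · have hle : decompositionStabilizer D ⊓ (Cfsg.GU n F 2 ⊓ Cfsg.Geo.specialLinear (Fin n) F) ≤
        decompositionStabilizer (fun i => Submodule.span F (Set.range (fun a => u (i, a)))) ⊓
        (Cfsg.GU n F 2 ⊓ Cfsg.Geo.specialLinear (Fin n) F) := by
      rintro g ⟨hgD, hgU⟩
      refine ⟨?_, hgU⟩
      have hgf : ∀ x y, f ((g : Matrix (Fin n) (Fin n) F) *ᵥ x) ((g : Matrix (Fin n) (Fin n) F) *ᵥ y) = f x y := (mem_GU g).1 hgU.1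
      obtain ⟨σ, hσ⟩ := hgD
      apply mem_frame h one_ne_zero hu (by omega) (by omega)
      intro i
      obtain ⟨⟨i', a⟩, rfl⟩ := finProdFinEquiv.surjective i
      have h1 : (g : Matrix (Fin n) (Fin n) F) *ᵥ v (i', a) ∈ D (σ i') := by
        rw [← hσ i']
        exact ⟨_, hvD i' a, rfl⟩
      obtain ⟨c, hc⟩ := hspan _ _ h1
      rw [Fin.sum_univ_two] at hc
      have h3 : f ((g : Matrix (Fin n) (Fin n) F) *ᵥ v (i', a)) ((g : Matrix (Fin n) (Fin n) F) *ᵥ v (i', a)) = 1 := by
        rw [hgf, hv, if_pos rfl]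
      rw [hc, h.add_left, h.add_right, h.add_right, h.smul_left, h.smul_left, h.smul_left, h.smul_left, h.smul_right,
        h.smul_right, h.smul_right, h.smul_right, hv, hv, hv, hv, if_pos rfl, if_pos rfl,
        if_neg (fun h => absurd (congrArg Prod.snd h) zero_ne_one),
        if_neg (fun h => absurd (congrArg Prod.snd h) one_ne_zero)] at h3
      by_cases h0 : c 0 = 0
      · refine ⟨finProdFinEquiv (σ i', 1), c 1, ?_⟩
        rw [hu', hu', hc, h0, zero_smul, zero_add]
      · by_cases h1' : c 1 = 0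
        · refine ⟨finProdFinEquiv (σ i', 0), c 0, ?_⟩
          rw [hu', hu', hc, h1', zero_smul, add_zero]
        · exfalso
          have e0 := norm_four (τ := fq hF') hF hτ2 h0
          have e1 := norm_four (τ := fq hF') hF hτ2 h1'
          have : (1 : F) = 0 := by linear_combination -h3 + e0 + e1 + h2
          exact one_ne_zero this
    refine lt_of_le_of_ne hle (fun heq => ?_)
    let i0 : Fin t := ⟨0, by omega⟩
    let i1 : Fin t := ⟨1, by omega⟩
    have h01 : i0 ≠ i1 := by simp [i0, i1]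
    set w := v (i0, 0) + v (i1, 0) with hw
    have hww : f w w = 0 := by
      rw [hw, h.add_left, h.add_right, h.add_right, hv, hv, hv, hv, if_pos rfl, if_pos rfl,
        if_neg (fun h => h01 (congrArg Prod.fst h)), if_neg (fun h => h01 (congrArg Prod.fst h).symm)]
      linear_combination h2
    obtain ⟨-, g, hg, hgx⟩ := FT_SU hF' hww 1 (by rw [map_one]; linear_combination h2)
    have hgx' : ∀ x, (g : Matrix (Fin n) (Fin n) F) *ᵥ x = x + f x w • w := by
      intro x
      rw [hgx, one_smul]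
      rfl
    have e1 : ∀ p, f (v p) w = (if p = (i0, 0) then 1 else 0) + if p = (i1, 0) then 1 else 0 := by
      intro p
      rw [hw, h.add_right, hv, hv]
    have hgi0 : (g : Matrix (Fin n) (Fin n) F) *ᵥ v (i0, 0) = v (i1, 0) := by
      rw [hgx', e1, if_pos rfl, if_neg (fun h => h01 (congrArg Prod.fst h)), add_zero, one_smul, hw]
      have e3 : v (i0, 0) + (v (i0, 0) + v (i1, 0)) = (2 : F) • v (i0, 0) + v (i1, 0) := by module
      rw [e3, h2, zero_smul, zero_add]
    have hgi1 : (g : Matrix (Fin n) (Fin n) F) *ᵥ v (i1, 0) = v (i0, 0) := by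
      rw [hgx', e1, if_pos rfl, if_neg (fun h => h01 (congrArg Prod.fst h).symm), zero_add, one_smul, hw]
      have e3 : v (i1, 0) + (v (i0, 0) + v (i1, 0)) = (2 : F) • v (i1, 0) + v (i0, 0) := by module
      rw [e3, h2, zero_smul, zero_add]
    have hgo : ∀ p, p ≠ (i0, 0) → p ≠ (i1, 0) → (g : Matrix (Fin n) (Fin n) F) *ᵥ v p = v p := by
      intro p hp0 hp1
      rw [hgx', e1, if_neg hp0, if_neg hp1, add_zero, zero_smul, add_zero]
    have hgm : g ∈ decompositionStabilizer (fun i => Submodule.span F (Set.range (fun a => u (i, a)))) := by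
      apply mem_frame h one_ne_zero hu (by omega) (by omega)
      intro i
      obtain ⟨p, rfl⟩ := finProdFinEquiv.surjective i
      by_cases hp0 : p = (i0, 0)
      · refine ⟨finProdFinEquiv (i1, 0), 1, ?_⟩
        rw [hu', hu', hp0, hgi0, one_smul]
      · by_cases hp1 : p = (i1, 0)
        · refine ⟨finProdFinEquiv (i0, 0), 1, ?_⟩
          rw [hu', hu', hp1, hgi1, one_smul]
        · refine ⟨finProdFinEquiv p, 1, ?_⟩
          rw [hu', hgo p hp0 hp1, one_smul]
    have hgm2 : g ∈ decompositionStabilizer D ⊓ (Cfsg.GU n F 2 ⊓ Cfsg.Geo.specialLinear (Fin n) F) := by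
      rw [heq]
      exact ⟨hgm, hg⟩
    obtain ⟨σ, hσ⟩ := hgm2.1
    have k1 : v (i1, 0) ∈ D (σ i0) := by
      rw [← hσ i0, ← hgi0]
      exact ⟨_, hvD i0 0, rfl⟩
    have k2 : v (i0, 1) ∈ D (σ i0) := by
      have e4 := hgo (i0, 1) (fun h => absurd (congrArg Prod.snd h) one_ne_zero) (fun h => absurd (congrArg Prod.snd h) one_ne_zero)
      rw [← hσ i0, ← e4]
      exact ⟨_, hvD i0 1, rfl⟩
    have k3 : ∀ p j, v p ∈ D j → j = p.1 := by
      intro p j hp
      by_contra hne
      have h4 := hD.orthogonal j p.1 hne _ hp _ (hvD p.1 p.2)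
      have h5 : f (v p) (v (p.1, p.2)) = 1 := by rw [hv, if_pos rfl]
      exact one_ne_zero (h5.symm.trans h4)
    have k4 := k3 _ _ k1
    have k5 := k3 _ _ k2
    exact h01 (k5.symm.trans k4)
  · refine lt_of_le_of_ne inf_le_right (fun heq => ?_)
    refine not_le_frame (X := Cfsg.GU n F 2 ⊓ Cfsg.Geo.specialLinear (Fin n) F) h hτ (tv_su hF') hdec (Or.inr ⟨by omega, h2⟩) ?_
    intro x hx
    rw [← heq] at hx
    exact hx.1

end Cfsg.Agent.S5656
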