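import Cfsg.Statements.S5657
import Cfsg.Agent.GUp4
open Cfsg.Agent.H21.GUp Cfsg.Agent.H21.GUt Cfsg.Agent.H29.Trv Matrix Module Cfsg.Geo

set_option autoImplicit false
open Cfsg

namespace Cfsg.Agent.S5657



/-- Let F be the field with q² elements and n = 2k ≥ 13. Let D be a decomposition of F^n into two complementary subspaces of dimension k on each of which the standard unitary form vanishes identically. Then the elements of SU_n(q) preserving or interchanging the two subspaces form a maximal subgroup of SU_n(q). -/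
theorem result {F : Type*} [Field F] [Fintype F] (n q : ℕ) (hF : Fintype.card F = q ^ 2) (hn : 13 ≤ n) (k : ℕ) (hk : 2 * k = n) (D : Fin 2 → Submodule F (Fin n → F)) (hD : Cfsg.Geo.IsMDecomposition k D) (hts : ∀ i, Cfsg.Geo.IsTotallySingularFor (Cfsg.hermForm n F q) (D i)) : Cfsg.Geo.IsMaximalIn (Cfsg.GU n F q ⊓ Cfsg.Geo.specialLinear (Fin n) F) (Cfsg.Geo.decompositionStabilizer D ⊓ (Cfsg.GU n F q ⊓ Cfsg.Geo.specialLinear (Fin n) F)) := by
  have hU := uf_herm (n := n) hF
  set τ := Cfsg.Agent.H29.Fm.fq hF with hτ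
  have h : SG τ 1 (Cfsg.hermForm n F q) :=
    { toLL := hU.LL
      eps := Or.inl rfl
      inv := hU.inv
      sr := fun c v x => hU.toSFm.smul_right c v x
      herm := hU.herm }
  have hP := Pr.of_decomp hD hts
  obtain ⟨κ, hκ, hκ2⟩ := hU.tz
  refine maximal h (by omega) hP (fun g hg => (mem_GU g).1 hg.1) ?_ hκ (by linear_combination hκ2) ?_ ?_ ?_
  · intro c hc
    obtain ⟨l, hl⟩ := hU.tr (a := 1) (map_one _)
    refine ⟨l * c, ?_⟩
    rw [map_mul, hc]
    linear_combination (-c) * hl
  · intro u hu c hc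
    exact FT_SU hF hu c (by rw [hc]; ring)
  · intro u v hu hv huv
    obtain ⟨g, hg1, hg, hg2⟩ := exists_K h hu hv huv
    exact ⟨g, ⟨(mem_GU g).2 hg2, hg1⟩, hg⟩
  · intro M _ hM
    refine SU_le_of_FT hF (by omega) (by omega) (fun v hv c hc => hM v hv c ?_)
    linear_combination hc

end Cfsg.Agent.S5657
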