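import Cfsg.Statements.S5658
import Cfsg.Agent.GUw7
import Cfsg.Agent.GUt2
import Cfsg.Agent.GUr3
open Cfsg.Agent.H21.GUw Cfsg.Agent.H21.GUp Cfsg.Agent.H21.GUt Cfsg.Agent.H29.Trv Cfsg.Agent.H29.Fm Matrix Module Cfsg.Geo
open Cfsg.Agent.H21.GUr (Ph Ph_add Ph_smul Ph_zero Ph_neg Ph_sub Ph_inj Ph_ne rt_iff Ph_rt)

set_option autoImplicit false
open Cfsg

namespace Cfsg.Agent.S5658

/-- prime field of two elements -/
theorem bot2 {E : Type*} [Field E] (h2 : (2 : E) = 0) {K : Subfield E} (hK : ∀ e ∈ K, e ∈ (⊥ : Subfield E)) {c : E} (hc : c ∈ K) :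
    c = 0 ∨ c = 1 := by
  haveI : CharP E 2 := CharTwo.of_one_ne_zero_of_two_eq_zero one_ne_zero h2
  haveI : Fact (Nat.Prime 2) := ⟨Nat.prime_two⟩
  have h1 := hK c hc
  rw [← ZMod.fieldRange_castHom_eq_bot 2] at h1
  obtain ⟨z, rfl⟩ := h1
  fin_cases z
  · left; exact map_zero _
  · right; exact map_one _

theorem bot3 {E : Type*} [Field E] (h3 : (3 : E) = 0) {K : Subfield E} (hK : ∀ e ∈ K, e ∈ (⊥ : Subfield E)) :
    Nat.card K = 3 := by
  haveI : CharP E 3 := by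
    haveI : Fact (Nat.Prime 3) := ⟨Nat.prime_three⟩
    refine (CharP.charP_iff_prime_eq_zero Nat.prime_three).2 ?_
    exact_mod_cast h3
  haveI : Fact (Nat.Prime 3) := ⟨Nat.prime_three⟩
  have h1 : K = ⊥ := le_antisymm (fun e he => hK e he) bot_le
  rw [h1]
  exact Subfield.card_bot E 3

theorem mod5 {r : ℕ} (hr : Odd r) : ¬ 5 ∣ 3 ^ r * (3 ^ r - 1) * (3 ^ r + 1) := by
  obtain ⟨k, rfl⟩ := hr
  intro h
  have e9 : 3 ^ (2 * k + 1) * 3 ^ (2 * k + 1) = 9 * 81 ^ k := by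
    rw [← pow_add, show (81 : ℕ) = 3 ^ 4 by norm_num, show (9 : ℕ) = 3 ^ 2 by norm_num, ← pow_mul, ← pow_add]
    congr 1
    ring
  have h1 : 1 ≤ 3 ^ (2 * k + 1) := Nat.one_le_pow _ _ (by norm_num)
  have h81 : 81 ^ k % 5 = 1 := by
    rw [Nat.pow_mod]; norm_num
  have e : (3 ^ (2 * k + 1) - 1) * (3 ^ (2 * k + 1) + 1) + 1 = 9 * 81 ^ k := by
    rw [← e9]
    obtain ⟨m, hm⟩ := Nat.exists_eq_add_of_le h1
    rw [hm]
    rw [Nat.add_sub_cancel_left]
    ring
  rcases (Nat.Prime.dvd_mul Nat.prime_five).1 h with h | h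
  · rcases (Nat.Prime.dvd_mul Nat.prime_five).1 h with h | h
    · have := (Nat.Prime.dvd_of_dvd_pow Nat.prime_five h)
      omega
    · have h5 : 5 ∣ (3 ^ (2 * k + 1) - 1) * (3 ^ (2 * k + 1) + 1) := Dvd.dvd.mul_right h _
      omega
  · have h5 : 5 ∣ (3 ^ (2 * k + 1) - 1) * (3 ^ (2 * k + 1) + 1) := Dvd.dvd.mul_left h _
    omega

/-- Let F be the field with q² elements, n ≥ 13, and F₀ a subfield with |F| = |F₀| ^ r for an odd prime r. Let P be an invertible matrix such that the standard unitary form takes values in F₀ on the F₀-span of the columns of P. Then the elements of SU_n(q) lying in the subfield group of P (the conjugate by P of the product of GL_n(F₀) with the scalars) form a maximal subgroup of SU_n(q). -/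
theorem result {F : Type*} [Field F] [Fintype F] (n q : ℕ) (hF : Fintype.card F = q ^ 2) (hn : 13 ≤ n) (F₀ : Subfield F) (r : ℕ) (hr : r.Prime) (hro : Odd r) (hcard : Fintype.card F = Nat.card F₀ ^ r) (P : Matrix.GeneralLinearGroup (Fin n) F) (hP : Cfsg.Geo.IsFormRationalStructure (Cfsg.hermForm n F q) F₀ 1 P) : Cfsg.Geo.IsMaximalIn (Cfsg.GU n F q ⊓ Cfsg.Geo.specialLinear (Fin n) F) (Cfsg.Geo.subfieldSubgroup F₀ P ⊓ (Cfsg.GU n F q ⊓ Cfsg.Geo.specialLinear (Fin n) F)) := by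
  have hU := uf_herm (n := n) hF
  set f := Cfsg.hermForm n F q with hf
  have hq1 : 1 < q := Cfsg.Agent.H5.Fld.one_lt_q hF
  have hτ : ∀ x : F, fq hF x = x ^ q := fq_apply hF
  have hr3 : 3 ≤ r := by
    rcases hro with ⟨k, hk⟩
    have := hr.two_le
    omega
  have hF0ne : F₀ ≠ ⊤ := by
    rintro rfl
    have h1 : Nat.card (⊤ : Subfield F) = Fintype.card F := by
      rw [← Nat.card_eq_fintype_card]
      exact Nat.card_congr (Subfield.topEquiv (K := F)).toEquiv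
    rw [h1] at hcard
    have h2 : 1 < Fintype.card F := Fintype.one_lt_card
    have h3 : Fintype.card F ^ 1 < Fintype.card F ^ r := Nat.pow_lt_pow_right h2 (by omega)
    rw [pow_one] at h3
    omega
  have h : UX (fq hF) f F₀ P :=
    { toUF := hU
      stab := fun x hx => by
        rw [subfield_mem_iff] at hx ⊢
        rw [← map_pow, hx]
      mv := by
        by_contra hcon
        push Not at hcon
        have hle : F₀ ≤ Ef (fq hF) := fun x hx => mem_Ef.2 (hcon x hx)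
        have h1 := card_fix (fq hF) hU.inv hU.moved
        have h2 : Nat.card (E0 (fq hF) F₀) = Nat.card F₀ := by
          apply Nat.card_congr
          refine ⟨fun x => ⟨x.1.1, x.2⟩, fun x => ⟨⟨x.1, hle x.2⟩, x.2⟩, fun _ => rfl, fun _ => rfl⟩
        haveI : Fintype (Ef (fq hF)) := Fintype.ofFinite _
        haveI : Fintype (E0 (fq hF) F₀) := Fintype.ofFinite _
        have h3 : Fintype.card (Ef (fq hF)) = Fintype.card (E0 (fq hF) F₀) ^ finrank (E0 (fq hF) F₀) (Ef (fq hF)) :=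
          Module.card_eq_pow_finrank
        rw [← Nat.card_eq_fintype_card, ← Nat.card_eq_fintype_card, h2] at h3
        rw [← Nat.card_eq_fintype_card, h1, h3, ← pow_mul] at hcard
        have h4 : 1 < Nat.card F₀ := Finite.one_lt_card
        have h5 := Nat.pow_right_injective h4 hcard
        rw [← h5] at hro
        exact (Nat.not_odd_iff_even.2 ⟨finrank (E0 (fq hF) F₀) (Ef (fq hF)), by ring⟩) hro
      rat := fun x y => by
        have := hP (fun i => (x i : F)) (fun i => (y i : F)) (fun i => (x i).2) (fun i => (y i).2)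
        rwa [one_mul] at this }
  have hcE := card_Ef h hcard
  refine isMaximalIn_of inf_le_right (fun hle => su_not_sub hF (by omega) hF0ne P (hle.trans inf_le_left)) ?_
  intro M hM1 hM2 g hgM hgH
  have hi : Cfsg.Agent.H21.GUp.Iso f M := fun g hg => (mem_GU g).1 (hM2 hg).1
  have hgst : g ∉ subfieldSubgroup F₀ P := fun hh => hgH ⟨hh, hM2 hgM⟩
  have hK : ∀ a b, f0 h a a = 0 → f0 h b b = 0 → f0 h a b = 0 → KM f 1 M (Ph F₀ P a) (Ph F₀ P b) := by
    intro a b ha hb hab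
    obtain ⟨k, hk1, hkx, hk2⟩ := exists_K h.sg (congrArg Subtype.val ha) (congrArg Subtype.val hb) (congrArg Subtype.val hab)
    refine ⟨k, hM1 ⟨?_, (mem_GU k).2 hk2, hk1⟩, hkx⟩
    apply mem_subfield_of one_ne_zero
    intro i
    rw [one_smul]
    obtain ⟨y, hy⟩ := rt_iff.1 (Rt.basis (F₀ := F₀) (P := P) i)
    rw [hy, hkx, one_mul]
    exact ((Ph_rt y).add ((Ph_rt a).smul (h.rat y b))).sub ((Ph_rt b).smul (h.rat y a))
  have hR : ∀ y, f0 h y y = 0 → ∀ c ∈ F₀, c + fq hF c = 0 → T M (Ph F₀ P y) (c • fr h.toUF.LL (Ph F₀ P y)) := by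
    intro y hy c hc hcc
    have hyy : f (Ph F₀ P y) (Ph F₀ P y) = 0 := congrArg Subtype.val hy
    have h1 : T (SUg n F q) (Ph F₀ P y) (c • fr h.toUF.LL (Ph F₀ P y)) := FT_SU hF hyy c hcc
    have h2 : T (subfieldSubgroup F₀ P) (Ph F₀ P y) (c • fr h.toUF.LL (Ph F₀ P y)) := by
      apply T_sub
      · rw [LinearMap.smul_apply, fr_apply, hyy, smul_zero]
      · exact Ph_rt y
      · intro x hx
        obtain ⟨z, rfl⟩ := rt_iff.1 hx
        rw [LinearMap.smul_apply, fr_apply, smul_eq_mul]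
        exact F₀.mul_mem hc (h.rat z y)
    exact (T_inf h2 h1).mono hM1
  haveI : Fintype F₀ := Fintype.ofFinite _
  obtain ⟨κ₀, hκ0, hκ2⟩ := h.uF.tz
  have hκ0' : (κ₀ : F) ≠ 0 := fun h0 => hκ0 (Subtype.ext h0)
  have hκ2' : (κ₀ : F) + fq hF κ₀ = 0 := congrArg Subtype.val hκ2
  obtain ⟨x, hx, hx0, hxg⟩ := exists_irr_iso h (by omega) hgst
  have hxx : f (Ph F₀ P x) (Ph F₀ P x) = 0 := congrArg Subtype.val hx
  have hu0 : (g : Matrix (Fin n) (Fin n) F) *ᵥ Ph F₀ P x ≠ 0 := by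
    intro h0
    exact (Ph_ne (P := P) hx0) (mulVec_inj (h0.trans (mulVec_zero _).symm))
  have huu : f ((g : Matrix (Fin n) (Fin n) F) *ᵥ Ph F₀ P x) ((g : Matrix (Fin n) (Fin n) F) *ᵥ Ph F₀ P x) = 0 := by
    rw [hi g hgM, hxx]
  have hT : ∀ c ∈ F₀, c + fq hF c = 0 → T M ((g : Matrix (Fin n) (Fin n) F) *ᵥ Ph F₀ P x)
      (c • fr h.toUF.LL ((g : Matrix (Fin n) (Fin n) F) *ᵥ Ph F₀ P x)) := fun c hc hcc => T_conjS h.sg hi (hR x hx c hc hcc) hgM
  obtain ⟨y, hy0, hy, hyT⟩ : ∃ y : Fin n → F₀, y ≠ 0 ∧ f0 h y y = 0 ∧ FT h.toUF M (Ph F₀ P y) := by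
    by_cases hE : ∃ e ∈ E0 (fq hF) F₀, e ∉ (⊥ : Subfield (Ef (fq hF)))
    · exact caseI h (by omega) hr hcard hR κ₀.2 hκ0' hκ2' huu hu0 hxg (hT κ₀ κ₀.2 hκ2') (Or.inl hE)
    push Not at hE
    by_cases h2 : (2 : F) = 0
    · have h2' : (2 : Ef (fq hF)) = 0 := Subtype.ext h2
      have hone : (1 : F) + fq hF 1 = 0 := by
        rw [map_one]
        linear_combination h2
      exact caseII h (by omega) hr hr3 hcard h2 hi (fun y hy => hR y hy 1 F₀.one_mem hone) hK (fun c hc => bot2 h2' hE hc) huu hu0 hxg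
        (hT 1 F₀.one_mem hone)
    · refine caseI h (by omega) hr hcard hR κ₀.2 hκ0' hκ2' huu hu0 hxg (hT κ₀ κ₀.2 hκ2') (Or.inr ⟨h2, fun h3 => ?_⟩)
      have h3' : (3 : Ef (fq hF)) = 0 := Subtype.ext h3
      rw [hcE, bot3 h3' hE]
      exact mod5 hro
  exact SU_le_of_FT hF (by omega) (by omega) (stageD h (by omega) hi (stageC h (by omega) hi hK hy0 hy hyT))

end Cfsg.Agent.S5658
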