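import Cfsg.Statements.S5659
import Cfsg.Agent.GUr3
open Cfsg.Agent.H21.GUr Cfsg.Agent.H21.GUp Cfsg.Agent.H21.GUo Cfsg.Agent.H21.GUt Cfsg.Agent.H29.Trv Cfsg.Agent.H29.Fm Matrix Module Cfsg.Geo

set_option autoImplicit false
open Cfsg

namespace Cfsg.Agent.S5659



/-- Let F be the field with q² elements, q odd, n ≥ 13, and F₀ the subfield with q elements. Let P be an invertible matrix such that the standard unitary form takes values in F₀ on the F₀-span of the columns of P (so it restricts to a non-degenerate symmetric bilinear form there). Then the elements of SU_n(q) lying in the subfield group of P form a maximal subgroup of SU_n(q). -/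
theorem result {F : Type*} [Field F] [Fintype F] (n q : ℕ) (hF : Fintype.card F = q ^ 2) (hn : 13 ≤ n) (hodd : Odd q) (F₀ : Subfield F) (hcard : Fintype.card F = Nat.card F₀ ^ 2) (P : Matrix.GeneralLinearGroup (Fin n) F) (hP : Cfsg.Geo.IsFormRationalStructure (Cfsg.hermForm n F q) F₀ 1 P) : Cfsg.Geo.IsMaximalIn (Cfsg.GU n F q ⊓ Cfsg.Geo.specialLinear (Fin n) F) (Cfsg.Geo.subfieldSubgroup F₀ P ⊓ (Cfsg.GU n F q ⊓ Cfsg.Geo.specialLinear (Fin n) F)) := by
  have hU := uf_herm (n := n) hF
  set f := Cfsg.hermForm n F q with hf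
  have hq1 : 1 < q := Cfsg.Agent.H5.Fld.one_lt_q hF
  have hcard0 : Nat.card F₀ = q := by
    have h1 : q ^ 2 = Nat.card F₀ ^ 2 := hF.symm.trans hcard
    exact (Nat.pow_left_injective (by norm_num : 2 ≠ 0) h1).symm
  have hτ : ∀ x : F, fq hF x = x ^ q := fq_apply hF
  have hmem : ∀ x : F, x ∈ F₀ ↔ fq hF x = x := by
    intro x
    rw [subfield_mem_iff, hcard0, hτ]
  have h2 : (2 : F) ≠ 0 := by
    intro h0
    have hch : CharP F 2 := CharTwo.of_one_ne_zero_of_two_eq_zero one_ne_zero h0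
    have h3 := FiniteField.even_card_iff_char_two.1 ((ringChar.eq_iff).2 hch)
    rw [hF] at h3
    have h4 : Odd (q ^ 2) := hodd.pow
    rw [Nat.odd_iff] at h4
    omega
  obtain ⟨κ, hκ, hκ2⟩ := hU.tz
  have hκτ : fq hF κ = -κ := eq_neg_of_add_eq_zero_right hκ2
  have hκF : κ ∉ F₀ := by
    intro hm
    have h3 := (hmem κ).1 hm
    rw [hκτ] at h3
    have h4 : 2 * κ = 0 := by linear_combination -h3
    exact (mul_ne_zero h2 hκ) h4
  have hF0ne : F₀ ≠ ⊤ := by
    intro ht
    apply hκF
    rw [ht]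
    trivial
  have hdec1 : ∀ x : F, ∃ s t : F₀, x = s + κ * t := by
    have hinj : Function.Injective (fun p : F₀ × F₀ => (p.1 : F) + κ * p.2) := by
      rintro ⟨s, t⟩ ⟨s', t'⟩ he
      simp only at he
      by_cases ht : (t : F) = t'
      · have hs : (s : F) = s' := by rw [ht] at he; exact add_right_cancel he
        exact Prod.ext (Subtype.ext hs) (Subtype.ext ht)
      · exfalso
        apply hκF
        have h1 : κ = (s' - s) / (t - t') := by
          rw [eq_div_iff (sub_ne_zero.2 ht)]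
          linear_combination he
        rw [h1]
        exact F₀.div_mem (F₀.sub_mem s'.2 s.2) (F₀.sub_mem t.2 t'.2)
    have hbij : Function.Bijective (fun p : F₀ × F₀ => (p.1 : F) + κ * p.2) := by
      rw [Nat.bijective_iff_injective_and_card]
      refine ⟨hinj, ?_⟩
      rw [Nat.card_prod, hcard0, Nat.card_eq_fintype_card, hF, sq]
    intro x
    obtain ⟨⟨s, t⟩, hst⟩ := hbij.2 x
    exact ⟨s, t, hst.symm⟩
  have h : Cx (fq hF) f F₀ P κ :=
    { toUF := hU
      mem := hmem
      two := h2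
      k0 := hκ
      tk := hκτ
      dec := hdec1
      rat := fun x y => by
        have := hP (fun i => (x i : F)) (fun i => (y i : F)) (fun i => (x i).2) (fun i => (y i).2)
        rwa [one_mul] at this }
  refine isMaximalIn_of inf_le_right (fun hle => su_not_sub hF (by omega) hF0ne P (hle.trans inf_le_left)) ?_
  intro M hM1 hM2 g hgM hgH
  have hi : Cfsg.Agent.H21.GUp.Iso f M := fun g hg => (mem_GU g).1 (hM2 hg).1
  have hgst : g ∉ subfieldSubgroup F₀ P := fun hh => hgH ⟨hh, hM2 hgM⟩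
  have hK : ∀ a b, f0 h a a = 0 → f0 h b b = 0 → f0 h a b = 0 → KM f 1 M (Ph F₀ P a) (Ph F₀ P b) := by
    intro a b ha hb hab
    obtain ⟨k, hk1, hkx, hk2⟩ := exists_K h.sg (congrArg Subtype.val ha) (congrArg Subtype.val hb) (congrArg Subtype.val hab)
    refine ⟨k, hM1 ⟨?_, (mem_GU k).2 hk2, hk1⟩, hkx⟩
    apply mem_subfield_of one_ne_zero
    intro i
    rw [one_smul]
    obtain ⟨y, hy⟩ := rt_iff.1 (Rt.basis (F₀ := F₀) (P := P) i)
    rw [hy, hkx, one_mul]
    exact ((Ph_rt y).add ((Ph_rt a).smul (h.rat y b))).sub ((Ph_rt b).smul (h.rat y a))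
  obtain ⟨u, hu0, hu, hT⟩ := stageB h hn hi hK hgM hgst
  exact SU_le_of_FT hF (by omega) (by omega) (stageD h hn (stageC h hn hi hK hu0 hu hT))

end Cfsg.Agent.S5659
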