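import Cfsg.Statements.S5660
import Cfsg.Agent.GUt2
import Cfsg.Agent.GUt3
open Cfsg.Agent.H21.GUt Cfsg.Agent.H29.Trv Cfsg.Agent.H29.Fm Matrix Module Cfsg.Geo

set_option autoImplicit false
open Cfsg

namespace Cfsg.Agent.S5660



/-- Let F be the field with q² elements, n ≥ 13 even, and F₀ the subfield with q elements. Let ζ be a non-zero element with ζ + ζ^q = 0 and P an invertible matrix such that ζ times the standard unitary form takes values in F₀ on the F₀-span of the columns of P and the form vanishes on every pair (u, u) of that span (so ζ times the form restricts to a non-degenerate alternating form there). Then the elements of SU_n(q) lying in the subfield group of P form a maximal subgroup of SU_n(q). -/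
theorem result {F : Type*} [Field F] [Fintype F] (n q : ℕ) (hF : Fintype.card F = q ^ 2) (hn : 13 ≤ n) (heven : Even n) (F₀ : Subfield F) (hcard : Fintype.card F = Nat.card F₀ ^ 2) (ζ : F) (hζ0 : ζ ≠ 0) (hζ : ζ + ζ ^ q = 0) (P : Matrix.GeneralLinearGroup (Fin n) F) (hP : Cfsg.Geo.IsFormRationalStructure (Cfsg.hermForm n F q) F₀ ζ P) (halt : ∀ u : Fin n → F, (∀ i, u i ∈ F₀) → Cfsg.hermForm n F q (Matrix.mulVec (P : Matrix (Fin n) (Fin n) F) u) (Matrix.mulVec (P : Matrix (Fin n) (Fin n) F) u) = 0) : Cfsg.Geo.IsMaximalIn (Cfsg.GU n F q ⊓ Cfsg.Geo.specialLinear (Fin n) F) (Cfsg.Geo.subfieldSubgroup F₀ P ⊓ (Cfsg.GU n F q ⊓ Cfsg.Geo.specialLinear (Fin n) F)) := by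
  have h := uf_herm (n := n) hF
  set f := Cfsg.hermForm n F q with hf
  have hq2 : ¬ (n = 3 ∧ q = 2) := by omega
  have hq1 : 1 < q := Cfsg.Agent.H5.Fld.one_lt_q hF
  have hcard0 : Nat.card F₀ = q := by
    have h1 : q ^ 2 = Nat.card F₀ ^ 2 := hF.symm.trans hcard
    exact (Nat.pow_left_injective (by norm_num : 2 ≠ 0) h1).symm
  have hτ : ∀ x : F, fq hF x = x ^ q := fq_apply hF
  have hmem : ∀ x : F, x ∈ F₀ ↔ fq hF x = x := by
    intro x
    rw [subfield_mem_iff, hcard0, hτ]
  have hζτ : fq hF ζ = -ζ := by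
    rw [hτ]
    linear_combination hζ
  have R : RF (fq hF) f F₀ P ζ :=
    { h.LL with
      smul_right := fun c x v => h.toSFm.smul_right c x v
      z0 := hζ0
      rat := by
        intro x y hx hy
        obtain ⟨u, hu, rfl⟩ := hx.exists_vec
        obtain ⟨v, hv, rfl⟩ := hy.exists_vec
        exact hP u v hu hv }
  have halt' : ∀ x, Rt F₀ P x → f x x = 0 := by
    intro x hx
    obtain ⟨u, hu, rfl⟩ := hx.exists_vec
    exact halt u hu
  have hskew : ∀ a b, Rt F₀ P a → Rt F₀ P b → f b a = - f a b := by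
    intro a b ha hb
    have h1 := halt' _ (ha.add hb)
    rw [h.add_left, h.toSFm.add_right, h.toSFm.add_right, halt' a ha, halt' b hb] at h1
    linear_combination h1
  have hF0ne : F₀ ≠ ⊤ := by
    intro ht
    have h1 : Nat.card (⊤ : Subfield F) = Fintype.card F := by
      rw [← Nat.card_eq_fintype_card]
      exact Nat.card_congr (Equiv.subtypeUnivEquiv fun x => trivial)
    rw [← ht, hcard0, hF] at h1
    nlinarith
  obtain ⟨η, hη⟩ : ∃ η : F, η ∉ F₀ := by
    by_contra hcon
    push Not at hcon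
    exact hF0ne (eq_top_iff.2 fun x _ => hcon x)
  have hdec1 : ∀ x : F, ∃ s ∈ F₀, ∃ t ∈ F₀, x = s + η * t := by
    have hinj : Function.Injective (fun p : F₀ × F₀ => (p.1 : F) + η * p.2) := by
      rintro ⟨s, t⟩ ⟨s', t'⟩ he
      simp only at he
      by_cases ht : (t : F) = t'
      · have hs : (s : F) = s' := by rw [ht] at he; exact add_right_cancel he
        exact Prod.ext (Subtype.ext hs) (Subtype.ext ht)
      · exfalso
        apply hη
        have h1 : η = (s' - s) / (t - t') := by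
          rw [eq_div_iff (sub_ne_zero.2 ht)]
          linear_combination he
        rw [h1]
        exact F₀.div_mem (F₀.sub_mem s'.2 s.2) (F₀.sub_mem t.2 t'.2)
    have hbij : Function.Bijective (fun p : F₀ × F₀ => (p.1 : F) + η * p.2) := by
      rw [Nat.bijective_iff_injective_and_card]
      refine ⟨hinj, ?_⟩
      rw [Nat.card_prod, hcard0, Nat.card_eq_fintype_card, hF, sq]
    intro x
    obtain ⟨⟨s, t⟩, hst⟩ := hbij.2 x
    exact ⟨s, s.2, t, t.2, hst.symm⟩
  have hdec : ∀ x : Fin n → F, ∃ a b, Rt F₀ P a ∧ Rt F₀ P b ∧ x = a + η • b := by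
    intro x
    have h1 := fun i => hdec1 ((((P⁻¹ : GL (Fin n) F) : Matrix (Fin n) (Fin n) F) *ᵥ x) i)
    choose s hs t ht hst using h1
    refine ⟨(P : Matrix (Fin n) (Fin n) F) *ᵥ s, (P : Matrix (Fin n) (Fin n) F) *ᵥ t, Rt.mulVec hs, Rt.mulVec ht, ?_⟩
    rw [← mulVec_smul, ← mulVec_add]
    have h2 : s + η • t = ((P⁻¹ : GL (Fin n) F) : Matrix (Fin n) (Fin n) F) *ᵥ x := by
      funext i
      rw [Pi.add_apply, Pi.smul_apply, smul_eq_mul, hst]
    rw [h2, self_inv_mulVec]
  -- isotropic vectors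
  have hiso2 : ∀ a b, Rt F₀ P a → Rt F₀ P b → (f (a + η • b) (a + η • b) = 0 ↔ f a b = 0) := by
    intro a b ha hb
    have e : f (a + η • b) (a + η • b) = (fq hF η - η) * f a b := by
      rw [h.add_left, h.toSFm.add_right, h.toSFm.add_right, h.smul_left, h.smul_left, h.toSFm.smul_right,
        h.toSFm.smul_right, halt' a ha, halt' b hb, hskew a b ha hb]
      ring
    rw [e]
    have hne : fq hF η - η ≠ 0 := fun h0 => hη ((hmem η).2 (sub_eq_zero.1 h0))
    exact ⟨fun h0 => (mul_eq_zero.1 h0).resolve_left hne, fun h0 => by rw [h0, mul_zero]⟩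
  have hFTR : ∀ v, Rt F₀ P v → FT h (subfieldSubgroup F₀ P ⊓ SUg n F q) v := by
    intro v hv c hc
    have h1 := FT_SU hF (halt' v hv) c hc
    refine T_inf (T_sub h1.1 hv ?_) h1
    intro x hx
    have h2 : c / ζ ∈ F₀ := by
      rw [hmem, map_div₀, hζτ, eq_neg_of_add_eq_zero_right hc, neg_div_neg_eq]
    have h3 := F₀.mul_mem h2 (R.rat x v hx hv)
    rw [LinearMap.smul_apply, fr_apply, smul_eq_mul]
    have e : c * f x v = c / ζ * (ζ * f x v) := by field_simp
    rw [e]
    exact h3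
  refine isMaximalIn_of inf_le_right (fun hle => su_not_sub hF (by omega) hF0ne P (hle.trans inf_le_left)) ?_
  intro M hM1 hM2 g hgM hgH
  apply SU_le_of_FT hF (by omega) hq2
  have hiso : ∀ x y, f ((g : Matrix (Fin n) (Fin n) F) *ᵥ x) ((g : Matrix (Fin n) (Fin n) F) *ᵥ y) = f x y :=
    (mem_GU g).1 (hM2 hgM).1
  have hgst : g ∉ subfieldSubgroup F₀ P := fun hh => hgH ⟨hh, hM2 hgM⟩
  have hFM : ∀ v, Rt F₀ P v → FT h M v := fun v hv => (hFTR v hv).mono hM1
  obtain ⟨v₀, hv₀, hv₀0, hv₀i⟩ := exists_irr hgst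
  have hu := (hFM v₀ hv₀).conj hgM hiso
  set u := (g : Matrix (Fin n) (Fin n) F) *ᵥ v₀ with hudef
  have hu0 : u ≠ 0 := by
    intro h0
    exact hv₀0 (mulVec_inj (g := g) (by rw [mulVec_zero]; exact h0))
  -- pairs
  have key : ∀ a b, a + η • b ≠ 0 → (∀ c : F, c ≠ 0 → ¬ Rt F₀ P (c • (a + η • b))) → Rt F₀ P a → Rt F₀ P b →
      a ∉ Submodule.span F {b} ∧ b ∉ Submodule.span F {a} := by
    intro a b hne hirr ha hb
    constructor
    · intro hm
      obtain ⟨c, rfl⟩ := Submodule.mem_span_singleton.1 hm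
      have e : c • b + η • b = (c + η) • b := by rw [add_smul]
      rw [e] at hne hirr
      have hc : c + η ≠ 0 := by
        intro h0
        rw [h0, zero_smul] at hne
        exact hne rfl
      refine hirr (c + η)⁻¹ (inv_ne_zero hc) ?_
      rw [smul_smul, inv_mul_cancel₀ hc, one_smul]
      exact hb
    · intro hm
      obtain ⟨c, rfl⟩ := Submodule.mem_span_singleton.1 hm
      have e : a + η • c • a = (1 + η * c) • a := by rw [add_smul, one_smul, smul_smul]
      rw [e] at hne hirr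
      have hc : 1 + η * c ≠ 0 := by
        intro h0
        rw [h0, zero_smul] at hne
        exact hne rfl
      refine hirr (1 + η * c)⁻¹ (inv_ne_zero hc) ?_
      rw [smul_smul, inv_mul_cancel₀ hc, one_smul]
      exact ha
  obtain ⟨a, b, ha, hb, hab⟩ := hdec u
  rw [hab] at hu hu0 hv₀i
  have hiab := (hiso2 a b ha hb).1 hu.iso
  obtain ⟨hia, hib⟩ := key a b hu0 hv₀i ha hb
  -- moves
  have mv1 : ∀ a b v, Rt F₀ P a → Rt F₀ P b → Rt F₀ P v → f b v = 0 → f a v ≠ 0 → f a b = 0 → FT h M (a + η • b) →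
      FT h M (a + v + η • b) := by
    intro a b v ha hb hv hbv hav hab hFT
    have e : a + v + η • b = a + η • b + (1 : F) • v := by rw [one_smul]; abel
    rw [e]
    refine hFT.line (hFM v hv) ?_ ?_
    · rw [h.add_left, h.smul_left, hbv, mul_zero, add_zero]; exact hav
    · rw [← e, hiso2 _ _ (ha.add hv) hb, h.add_left, hab, hskew b v hb hv, hbv, neg_zero, add_zero]
  have mv2 : ∀ a b v, Rt F₀ P a → Rt F₀ P b → Rt F₀ P v → f a v = 0 → f b v ≠ 0 → f a b = 0 → FT h M (a + η • b) →
      FT h M (a + η • (b + v)) := by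
    intro a b v ha hb hv hav hbv hab hFT
    have hη0 : η ≠ 0 := fun h0 => hη (h0 ▸ F₀.zero_mem)
    have e : a + η • (b + v) = a + η • b + η • v := by rw [smul_add]; abel
    rw [e]
    refine hFT.line (hFM v hv) ?_ ?_
    · rw [h.add_left, h.smul_left, hav, zero_add]; exact mul_ne_zero hη0 hbv
    · rw [← e, hiso2 _ _ ha (hb.add hv), h.toSFm.add_right, hab, hav, add_zero]
  have sep1 : ∀ a b, Rt F₀ P b → a ∉ Submodule.span F {b} → ∃ z, Rt F₀ P z ∧ f b z = 0 ∧ f a z ≠ 0 := by
    intro a b hb hab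
    obtain ⟨z, h1, h2, h3⟩ := R.sep (B := {b}) (fun x hx => by rw [Set.mem_singleton_iff.1 hx]; exact hb) hab
    exact ⟨z, h1, h2 b rfl, h3⟩
  have both : ∀ a a' b, Rt F₀ P b → a ∉ Submodule.span F {b} → a' ∉ Submodule.span F {b} →
      ∃ z, Rt F₀ P z ∧ f b z = 0 ∧ f a z ≠ 0 ∧ f a' z ≠ 0 := by
    intro a a' b hb h1 h2
    obtain ⟨z1, hz1, hbz1, haz1⟩ := sep1 a b hb h1
    obtain ⟨z2, hz2, hbz2, haz2⟩ := sep1 a' b hb h2
    by_cases h3 : f a' z1 = 0
    · by_cases h4 : f a z2 = 0
      · refine ⟨z1 + z2, hz1.add hz2, ?_, ?_, ?_⟩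
        · rw [h.toSFm.add_right, hbz1, hbz2, add_zero]
        · rw [h.toSFm.add_right, h4, add_zero]; exact haz1
        · rw [h.toSFm.add_right, h3, zero_add]; exact haz2
      · exact ⟨z2, hz2, hbz2, h4, haz2⟩
    · exact ⟨z1, hz1, hbz1, haz1, h3⟩
  have sub_r : ∀ x a b, f x (b - a) = f x b - f x a := fun x a b => h.toSFm.sub_right _ _ _
  have c1 : ∀ a b a', Rt F₀ P a → Rt F₀ P b → Rt F₀ P a' → f a b = 0 → f a' b = 0 → a ∉ Submodule.span F {b} →
      a' ∉ Submodule.span F {b} → FT h M (a + η • b) → FT h M (a' + η • b) := by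
    have step : ∀ a b a', Rt F₀ P a → Rt F₀ P b → Rt F₀ P a' → f a b = 0 → f a' b = 0 → f a a' ≠ 0 →
        FT h M (a + η • b) → FT h M (a' + η • b) := by
      intro a b a' ha hb ha' hab ha'b hne hFT
      have := mv1 a b (a' - a) ha hb (ha'.sub ha) (by rw [sub_r, hskew a' b ha' hb, hskew a b ha hb, hab, ha'b]; ring)
        (by rw [sub_r, halt' a ha, sub_zero]; exact hne) hab hFT
      rwa [add_sub_cancel] at this
    intro a b a' ha hb ha' hab ha'b hia hia' hFT
    obtain ⟨z, hz, hbz, haz, ha'z⟩ := both a a' b hb hia hia'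
    have hzb : f z b = 0 := by rw [hskew b z hb hz, hbz, neg_zero]
    exact step z b a' hz hb ha' hzb ha'b (by rw [hskew a' z ha' hz]; exact neg_ne_zero.2 ha'z)
      (step a b z ha hb hz hab hzb haz hFT)
  have c2 : ∀ a b b', Rt F₀ P a → Rt F₀ P b → Rt F₀ P b' → f a b = 0 → f a b' = 0 → b ∉ Submodule.span F {a} →
      b' ∉ Submodule.span F {a} → FT h M (a + η • b) → FT h M (a + η • b') := by
    have step : ∀ a b b', Rt F₀ P a → Rt F₀ P b → Rt F₀ P b' → f a b = 0 → f a b' = 0 → f b b' ≠ 0 →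
        FT h M (a + η • b) → FT h M (a + η • b') := by
      intro a b b' ha hb hb' hab hab' hne hFT
      have := mv2 a b (b' - b) ha hb (hb'.sub hb) (by rw [sub_r, hab, hab', sub_zero])
        (by rw [sub_r, halt' b hb, sub_zero]; exact hne) hab hFT
      rwa [add_sub_cancel] at this
    intro a b b' ha hb hb' hab hab' hib hib' hFT
    obtain ⟨z, hz, haz, hbz, hb'z⟩ := both b b' a ha hib hib'
    exact step a z b' ha hz hb' haz hab' (by rw [hskew b' z hb' hz]; exact neg_ne_zero.2 hb'z)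
      (step a b z ha hb hz hab haz hbz hFT)
  intro x hx
  change f x x = 0 at hx
  obtain ⟨a', b', ha', hb', hab'⟩ := hdec x
  rw [hab'] at hx ⊢
  have hiab' := (hiso2 a' b' ha' hb').1 hx
  by_cases hne : a' + η • b' = 0
  · rw [hne]; exact hFM 0 Rt.zero
  by_cases hrat : ∀ c : F, c ≠ 0 → ¬ Rt F₀ P (c • (a' + η • b'))
  · obtain ⟨hia', hib'⟩ := key a' b' hne hrat ha' hb'
    -- the intermediate vector
    obtain ⟨e, he1, he2⟩ : ∃ e ∈ perp h.toSFm (Submodule.span F {b, b'}), e ∉ Submodule.span F {b, b'} := by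
      by_contra hcon
      push Not at hcon
      have h1 : perp h.toSFm (Submodule.span F {b, b'}) ≤ Submodule.span F {b, b'} := fun x hx => hcon x hx
      have h2 := Submodule.finrank_mono h1
      have h3 := finrank_perp h.toSFm (Submodule.span F {b, b'})
      have h4 : finrank F (Submodule.span F {b, b'}) ≤ 2 := by
        classical
        have := finrank_span_finset_le_card (R := F) ({b, b'} : Finset (Fin n → F))
        rw [Finset.coe_pair] at this
        exact this.trans Finset.card_le_two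
      omega
    obtain ⟨c, hc, hcB, hec⟩ := R.sep (B := {b, b'}) (fun x hx => by
      rcases hx with rfl | hx
      · exact hb
      · rw [Set.mem_singleton_iff.1 hx]; exact hb') he2
    have hbc : f b c = 0 := hcB b (by simp)
    have hb'c : f b' c = 0 := hcB b' (by simp)
    have heb : f e b = 0 := he1 b (Submodule.subset_span (by simp))
    have heb' : f e b' = 0 := he1 b' (Submodule.subset_span (by simp))
    have hb0 : b ≠ 0 := by
      rintro rfl
      exact hib (Submodule.zero_mem _)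
    have hb'0 : b' ≠ 0 := by
      rintro rfl
      exact hib' (Submodule.zero_mem _)
    have hcb : c ∉ Submodule.span F {b} := by
      intro hm
      obtain ⟨t, rfl⟩ := Submodule.mem_span_singleton.1 hm
      rw [h.toSFm.smul_right, heb, mul_zero] at hec
      exact hec rfl
    have hcb' : c ∉ Submodule.span F {b'} := by
      intro hm
      obtain ⟨t, rfl⟩ := Submodule.mem_span_singleton.1 hm
      rw [h.toSFm.smul_right, heb', mul_zero] at hec
      exact hec rfl
    have swap : ∀ x y : Fin n → F, y ≠ 0 → x ∉ Submodule.span F {y} → y ∉ Submodule.span F {x} := by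
      intro x y hy hxy hm
      obtain ⟨t, rfl⟩ := Submodule.mem_span_singleton.1 hm
      apply hxy
      have ht : t ≠ 0 := by
        rintro rfl
        exact hy (zero_smul _ _)
      exact Submodule.mem_span_singleton.2 ⟨t⁻¹, by rw [smul_smul, inv_mul_cancel₀ ht, one_smul]⟩
    have hcb0 : f c b = 0 := by rw [hskew b c hb hc, hbc, neg_zero]
    have hcb'0 : f c b' = 0 := by rw [hskew b' c hb' hc, hb'c, neg_zero]
    have s1 := c1 a b c ha hb hc hiab hcb0 hia hcb hu
    have s2 := c2 c b b' hc hb hb' hcb0 hcb'0 (swap _ _ hb0 hcb) (swap _ _ hb'0 hcb') s1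
    exact c1 c b' a' hc hb' ha' hcb'0 hiab' hcb' hia' s2
  · push Not at hrat
    obtain ⟨c, hc, hcR⟩ := hrat
    exact (hFM _ hcR).of_smul hc

end Cfsg.Agent.S5660
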