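import Cfsg.Statements.S5663
import Cfsg.Agent.H29_Wr8

set_option autoImplicit false
open Cfsg

namespace Cfsg.Agent.S5663

open Cfsg.Geo Cfsg.Agent.H29.Asc Cfsg.Agent.H29.Fm Matrix Module
open scoped commutatorElement


/-- Subgroup structure of the finite unitary groups. Let F be the field with q² elements and n ≥ 3 with (n, q) ≠ (3, 2), and let SU_n(q) be the group of matrices of determinant one preserving the standard unitary form Σ u_i v_i^q on F^n. Let H be a subgroup of SU_n(q) whose product with the scalar matrices in SU_n(q) is not all of SU_n(q) (H does not cover PSU_n(q)). Then either H is contained in a member of one of the geometric classes of subgroups of the unitary group GU_n(q) (with the conditions built into InUnitaryClass), or H is in the residual class: modulo scalars it is almost simple, and the perfect preimage of its socle acts absolutely irreducibly, is realisable over no proper subfield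 of F, and fixes no non-degenerate quadratic form and no non-degenerate symplectic form on F^n. -/
theorem result {F : Type*} [Field F] [Fintype F] (n q : ℕ) (hF : Fintype.card F = q ^ 2) (hn : 3 ≤ n) (hex : ¬ (n = 3 ∧ q = 2)) (H : Subgroup (Matrix.GeneralLinearGroup (Fin n) F)) (hH : H ≤ (Cfsg.GU n F q ⊓ Cfsg.Geo.specialLinear (Fin n) F)) (hproper : H ⊔ (Cfsg.Geo.scalars (Fin n) F ⊓ (Cfsg.GU n F q ⊓ Cfsg.Geo.specialLinear (Fin n) F)) ≠ (Cfsg.GU n F q ⊓ Cfsg.Geo.specialLinear (Fin n) F)) : (∃ M : Subgroup (Matrix.GeneralLinearGroup (Fin n) F), Cfsg.Geo.InUnitaryClass n F q M ∧ H ≤ M) ∨ Cfsg.Geo.InUnitaryResidualClass H := by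
  classical
  by_contra hcon
  push Not at hcon
  obtain ⟨hcls, hres⟩ := hcon
  have hn0 : 0 < n := by omega
  have hHG : H ≤ Cfsg.GU n F q := fun g hg => (hH hg).1
  have hf : SFm (fq hF) 1 (Cfsg.hermForm n F q) := sfm_herm hF
  have hne := fq_ne hF
  have hfix : Fx (Cfsg.hermForm n F q) H := fun g hg => fx_GU g (hHG hg)
  have hfqe : (fun x : F => x ^ q) = (fq hF : F → F) := by
    funext x
    rw [fq_apply]
  have cls : ∀ M : Subgroup (Matrix.GeneralLinearGroup (Fin n) F), InUnitaryClass n F q (M ⊓ Cfsg.GU n F q) → ¬ H ≤ M :=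
    fun M hM hle => hcls _ hM (le_inf hle hHG)
  apply hres
  have s1 : ∀ (F₀ : Subfield F) (r : ℕ) (P : Matrix.GeneralLinearGroup (Fin n) F), r.Prime → Odd r → Fintype.card F = Nat.card F₀ ^ r →
      IsFormRationalStructure (Cfsg.hermForm n F q) F₀ 1 P → ¬ H ≤ subfieldSubgroup F₀ P := fun F₀ r P h1 h2 h3 h4 =>
    cls _ (Or.inl (Or.inr (Or.inr (Or.inr (Or.inr (Or.inl ⟨F₀, r, P, h1, h2, h3, h4, rfl⟩))))))
  have s2 : ∀ (F₀ : Subfield F) (P : Matrix.GeneralLinearGroup (Fin n) F), Odd q → Fintype.card F = Nat.card F₀ ^ 2 →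
      IsFormRationalStructure (Cfsg.hermForm n F q) F₀ 1 P → ¬ H ≤ subfieldSubgroup F₀ P := fun F₀ P h1 h2 h3 =>
    cls _ (Or.inl (Or.inr (Or.inr (Or.inr (Or.inr (Or.inr (Or.inl ⟨F₀, P, h1, h2, h3, rfl⟩)))))))
  have s3 : ∀ (F₀ : Subfield F) (P : Matrix.GeneralLinearGroup (Fin n) F) (ζ : F), Even n → Fintype.card F = Nat.card F₀ ^ 2 → ζ ≠ 0 →
      ζ + ζ ^ q = 0 → IsFormRationalStructure (Cfsg.hermForm n F q) F₀ ζ P →
      (∀ u : Fin n → F, (∀ i, u i ∈ F₀) → (Cfsg.hermForm n F q) ((P : Matrix (Fin n) (Fin n) F) *ᵥ u)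
        ((P : Matrix (Fin n) (Fin n) F) *ᵥ u) = 0) → ¬ H ≤ subfieldSubgroup F₀ P := fun F₀ P ζ h1 h2 h3 h4 h5 h6 =>
    cls _ (Or.inl (Or.inr (Or.inr (Or.inr (Or.inr (Or.inr (Or.inr (Or.inl ⟨F₀, P, ζ, h1, h2, h3, h4, h5, h6, rfl⟩))))))))
  have s4 : ∀ (r : ℕ) (R : Subgroup (Matrix.GeneralLinearGroup (Fin n) F)) (p e k : ℕ), IsSymplecticTypeGroup r R →
        ActsAbsolutelyIrreducibly (matrixSet R) → R ≤ similarityGroup (Cfsg.hermForm n F q) → r ≠ p →
        IsMinimalFieldFor (Nat.card (Subgroup.center R)) p e F →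
        ((Odd r ∧ Nat.card (Subgroup.center R) = r ∧ 1 ≤ k ∧ Nat.card R = r ^ (1 + 2 * k)) ∨
         (r = 2 ∧ e = 2 ∧ Nat.card (Subgroup.center R) = 4 ∧ Nat.card R = 2 ^ (2 + 2 * k))) → n = r ^ k →
        env R = ⊤ → (∀ x ∈ R, ∀ y ∈ R, ⁅x, y⁆ ∈ scalars (Fin n) F) → ¬ H ≤ subgroupNormalizer R :=
    fun r R p e k h1 h2 h3 h4 h5 h6 _ _ _ =>
    cls _ (Or.inl (Or.inr (Or.inr (Or.inr (Or.inr (Or.inr (Or.inr (Or.inr ⟨r, R, p, e, k, h1, h2, h3, h4, h5, h6, rfl⟩))))))))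
  apply NU.residual (q := q) (τ := fq hF) (f := Cfsg.hermForm n F q) hn
  refine ⟨⟨hf, hfix, ?_, ?_, ?_, ?_, ?_⟩, hF, fq_apply hF, hne, ?_, s1, s2, s3, s4, ?_, ?_⟩
  · intro W h1 h2
    exact cls _ (Or.inl (Or.inl ⟨W, h1, h2, rfl⟩))
  · intro W h1 h2 h3
    exact cls _ (Or.inl (Or.inr (Or.inl ⟨W, h1, h2, h3, rfl⟩)))
  · intro t k D hD
    exact cls _ (Or.inl (Or.inr (Or.inr (Or.inl ⟨t, k, D, hD, rfl⟩))))
  · intro k D hD hts
    exact cls _ (Or.inl (Or.inr (Or.inr (Or.inr (Or.inl ⟨k, D, by rw [dec_card hD], hD, hts, rfl⟩)))))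
  · intro r K hr hodd hK hadj
    exact cls _ (Or.inr (Or.inl ⟨r, K, hr, hodd hne, hK, hadj, rfl⟩))
  · intro n₁ n₂ e P f₁ f₂ h1 h2 hf₁ hf₂ hst
    rw [← hfqe] at hst
    exact cls _ (Or.inr (Or.inr (Or.inl ⟨n₁, n₂, e, P, f₁, f₂, h1, h2, hf₁, hf₂, hst, rfl⟩)))
  · intro k t e P f₁ h1 h2 h3 hf₁ hst
    rw [← hfqe] at hst
    exact cls _ (Or.inr (Or.inr (Or.inr ⟨k, t, e, P, f₁, h1, h2, h3, hf₁, hst, rfl⟩)))
  · intro hq
    subst hq
    exact wr23_of hn hf hne hF (fq_apply hF) hfix s1 s2 s3 s4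

end Cfsg.Agent.S5663
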