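import Cfsg.Statements.S5665
import Cfsg.Agent.GUs4
open Cfsg.Agent.H21.GUp Cfsg.Agent.H21.GUs Cfsg.Agent.H29.Trv Matrix Module Cfsg.Geo

set_option autoImplicit false
open Cfsg

namespace Cfsg.Agent.S5665



/-- For a finite field F of odd order and m ≥ 7, let K be a subfield of the algebra of 2m × 2m matrices over F containing the scalars, of degree 2 over F, that is closed under adjoints for the standard alternating form on F^(2m) but whose elements are not all self-adjoint (so the adjoint map induces the automorphism of order two of K). Then the elements of Sp_2m(F) normalising K form a maximal subgroup of Sp_2m(F). -/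
theorem result {F : Type*} [Field F] [Fintype F] (m : ℕ) (hm : 7 ≤ m) (hodd : Odd (Fintype.card F)) (K : Subalgebra F (Matrix (Fin m ⊕ Fin m) (Fin m ⊕ Fin m) F)) (hK : Cfsg.Geo.IsFieldSubalgebra 2 K) (hac : Cfsg.Geo.IsAdjointClosedFor (Cfsg.sympForm m F) K) (hnsa : ¬ Cfsg.Geo.IsSelfAdjointFor (Cfsg.sympForm m F) K) : Cfsg.Geo.IsMaximalIn (Cfsg.spGL m F) (Cfsg.Geo.subalgebraNormalizer K ⊓ Cfsg.spGL m F) := by
  have hA := altStd m F
  have h2 : (2 : F) ≠ 0 := by
    intro h0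
    have hch : CharP F 2 := CharTwo.of_one_ne_zero_of_two_eq_zero one_ne_zero h0
    have := FiniteField.even_card_iff_char_two.1 ((ringChar.eq_iff).2 hch)
    rw [Nat.odd_iff] at hodd
    omega
  have hSG : SG (RingEquiv.refl F) (-1) (Cfsg.sympForm m F) :=
    { toLL := hA.toLL
      eps := Or.inr rfl
      inv := fun _ => rfl
      sr := fun c v x => hA.smul_right c v x
      herm := fun u v => by
        rw [hA.skew u v]
        simp }
  obtain ⟨JM, δ, hJK, hspan, h⟩ := exists_J hA h2 hK hac hnsa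
  have hn : 14 ≤ Fintype.card (Fin m ⊕ Fin m) := by
    rw [Fintype.card_sum, Fintype.card_fin]
    omega
  have hJd : ∀ x, Matrix.mulVecLin JM x = JM *ᵥ x := fun x => Matrix.mulVecLin_apply JM x
  set J := Matrix.mulVecLin JM with hJ
  set f := Cfsg.sympForm m F with hf
  have hNT : ∀ v, Full h.toAlt (Cfsg.spGL m F) v := fun v => T_spGL v
  have hNK : ∀ u v, f u v = 0 → KM f (-1) (Cfsg.spGL m F) u v := by
    intro u v huv
    obtain ⟨g, -, hg, hg2⟩ := exists_K hSG (hA.self u) (hA.self v) huv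
    exact ⟨g, (mem_spGL_iff g).2 hg2, hg⟩
  have o := h.og
  refine isMaximalIn_of inf_le_right ?_ ?_
  · intro hle
    obtain ⟨x, hx, -, hxW⟩ := o.iso_avoid hodd (Y := (⊥ : Submodule F (Fin m ⊕ Fin m → F))) (W := ⊥) (by rw [finrank_bot]; omega)
    have hx0 : x ≠ 0 := by
      rintro rfl
      exact hxW (Submodule.zero_mem _)
    obtain ⟨-, g, hg, hgx⟩ := hNT x 1
    have hgK := ((hle hg).1 JM).1 hJK
    obtain ⟨a, b, hab⟩ := hspan _ hgK
    have hgg' : ((g⁻¹ : GL (Fin m ⊕ Fin m) F) : Matrix (Fin m ⊕ Fin m) (Fin m ⊕ Fin m) F) * (g : Matrix (Fin m ⊕ Fin m) (Fin m ⊕ Fin m) F) = 1 := by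
      rw [← Units.val_mul, inv_mul_cancel, Units.val_one]
    have hgJ : (g : Matrix (Fin m ⊕ Fin m) (Fin m ⊕ Fin m) F) * JM = (a • (1 : Matrix (Fin m ⊕ Fin m) (Fin m ⊕ Fin m) F) + b • JM) * g := by
      rw [← hab, mul_assoc, hgg', mul_one]
    have hgy : ∀ y, J y + f (J y) x • x = a • (y + f y x • x) + b • (J y + f y x • J x) := by
      intro y
      have h3 := congrArg (fun A : Matrix (Fin m ⊕ Fin m) (Fin m ⊕ Fin m) F => A *ᵥ y) hgJ
      simp only [← mulVec_mulVec, add_mulVec, smul_mulVec, one_mulVec, hgx, ← hJd, LinearMap.smul_apply, fr_apply,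
        smul_eq_mul, one_mul, map_add, map_smul] at h3
      exact h3
    obtain ⟨y, hy, hyY, hyW⟩ := o.iso_avoid hodd (Y := Submodule.span F {x, J x}) (W := ⊥) (by
      have := fr2 (F := F) x (J x)
      rw [finrank_bot]
      omega)
    have hy0 : y ≠ 0 := by
      rintro rfl
      exact hyW (Submodule.zero_mem _)
    have y1 : f y (J x) = 0 := hyY x (Submodule.subset_span (by simp))
    have y2 : f y x = 0 := by
      have h3 : f y (J (J x)) = 0 := hyY (J x) (Submodule.subset_span (by simp))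
      rw [h.sq, h.smul_right] at h3
      exact (mul_eq_zero.1 h3).resolve_left h.d0
    have y3 : f (J y) x = 0 := by rw [h.adj, y1, neg_zero]
    have h4 := hgy y
    simp only [y2, y3, zero_smul, add_zero] at h4
    have hab2 : a = 0 ∧ 1 - b = 0 := by
      have hmem : y ∈ Submodule.span F {(0 : Fin m ⊕ Fin m → F), J 0} ∨ ¬ (-a ≠ 0 ∨ 1 - b ≠ 0) := by
        by_cases hor : (-a ≠ 0 ∨ 1 - b ≠ 0)
        · left
          apply h.mem_swap hor
          have e : -a • y + (1 - b) • J y = J y - (a • y + b • J y) := by module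
          rw [e, ← h4, sub_self]
          exact Submodule.zero_mem _
        · right; exact hor
      rcases hmem with h5 | h5
      · exfalso
        apply hy0
        rw [map_zero] at h5
        simpa using h5
      · push Not at h5
        exact ⟨neg_eq_zero.1 h5.1, h5.2⟩
    obtain ⟨z, hz⟩ := h.nondeg x hx0
    have hz' : f z x ≠ 0 := hz
    have h5 := hgy z
    have hb : b = 1 := (sub_eq_zero.1 hab2.2).symm
    rw [hab2.1, hb, zero_smul, zero_add, one_smul] at h5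
    have h6 := add_left_cancel h5
    have h7 : J x = (f (J z) x / f z x) • x := by
      rw [div_eq_inv_mul, ← smul_smul, h6, smul_smul, inv_mul_cancel₀ hz', one_smul]
    apply h.ns (f (J z) x / f z x)
    have h8 := h.sq x
    rw [h7, map_smul, h7, smul_smul] at h8
    have h9 : (f (J z) x / f z x * (f (J z) x / f z x) - δ) • x = 0 := by rw [sub_smul, h8, sub_self]
    exact sub_eq_zero.1 ((smul_eq_zero.1 h9).resolve_right hx0)
  · intro M hHM hMN g hg hgH
    have hi : Cfsg.Agent.H21.GUp.Iso f M := fun k hk => (mem_spGL_iff k).1 (hMN hk)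
    have hX : XM f J δ M := by
      intro c w hw
      obtain ⟨k, hk, hk1, hk2⟩ := exists_X h hNT c hw
      refine ⟨k, hHM ⟨mem_norm hJK hspan (s := 1) (one_mul 1) (fun x => ?_), hk⟩, hk1⟩
      rw [one_smul, ← hJd, ← hJd]
      exact hk2 x
    have hE : EM f J M := by
      intro c u v hu hv huv huJv
      obtain ⟨k, hk, hk1, hk2⟩ := exists_E h hNK c hu hv huv huJv
      refine ⟨k, hHM ⟨mem_norm hJK hspan (s := 1) (one_mul 1) (fun x => ?_), hk⟩, hk1⟩
      rw [one_smul, ← hJd, ← hJd]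
      exact hk2 x
    have hgi : ∀ x, (g : Matrix (Fin m ⊕ Fin m) (Fin m ⊕ Fin m) F) *ᵥ
        (((g⁻¹ : GL (Fin m ⊕ Fin m) F) : Matrix (Fin m ⊕ Fin m) (Fin m ⊕ Fin m) F) *ᵥ x) = x := by
      intro x
      rw [mulVec_mulVec, ← Units.val_mul, mul_inv_cancel, Units.val_one, one_mulVec]
    have hig : ∀ x, ((g⁻¹ : GL (Fin m ⊕ Fin m) F) : Matrix (Fin m ⊕ Fin m) (Fin m ⊕ Fin m) F) *ᵥ
        ((g : Matrix (Fin m ⊕ Fin m) (Fin m ⊕ Fin m) F) *ᵥ x) = x := by
      intro x
      rw [mulVec_mulVec, ← Units.val_mul, inv_mul_cancel, Units.val_one, one_mulVec]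
    have hgf := hi g hg
    set J' : (Fin m ⊕ Fin m → F) →ₗ[F] (Fin m ⊕ Fin m → F) := Matrix.mulVecLin ((g : Matrix (Fin m ⊕ Fin m) (Fin m ⊕ Fin m) F) * JM *
      ((g⁻¹ : GL (Fin m ⊕ Fin m) F) : Matrix (Fin m ⊕ Fin m) (Fin m ⊕ Fin m) F)) with hJ'
    have hJ'x : ∀ x, J' x = (g : Matrix (Fin m ⊕ Fin m) (Fin m ⊕ Fin m) F) *ᵥ
        (J (((g⁻¹ : GL (Fin m ⊕ Fin m) F) : Matrix (Fin m ⊕ Fin m) (Fin m ⊕ Fin m) F) *ᵥ x)) := by
      intro x
      rw [hJ', Matrix.mulVecLin_apply, hJd, ← mulVec_mulVec, ← mulVec_mulVec]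
    have hfg : ∀ x y, f ((g : Matrix (Fin m ⊕ Fin m) (Fin m ⊕ Fin m) F) *ᵥ x) y =
        f x (((g⁻¹ : GL (Fin m ⊕ Fin m) F) : Matrix (Fin m ⊕ Fin m) (Fin m ⊕ Fin m) F) *ᵥ y) := by
      intro x y
      rw [← hgf x, hgi]
    have hfg' : ∀ x y, f x ((g : Matrix (Fin m ⊕ Fin m) (Fin m ⊕ Fin m) F) *ᵥ y) =
        f (((g⁻¹ : GL (Fin m ⊕ Fin m) F) : Matrix (Fin m ⊕ Fin m) (Fin m ⊕ Fin m) F) *ᵥ x) y := by
      intro x y
      rw [← hgf _ y, hgi]
    have h' : JX f J' δ :=
      { toAlt := hA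
        two := h2
        sq := by
          intro x
          rw [hJ'x, hJ'x, hig, h.sq, mulVec_smul, hgi]
        ns := h.ns
        adj := by
          intro x y
          rw [hJ'x, hJ'x, hfg, hfg', h.adj] }
    have hX' : XM f J' δ M := by
      intro c w hw
      rw [hJ'x, hfg'] at hw
      obtain ⟨k, hk, hk1⟩ := hX c _ hw
      refine ⟨g * k * g⁻¹, M.mul_mem (M.mul_mem hg hk) (M.inv_mem hg), fun x => ?_⟩
      rw [Cfsg.Agent.H29.Trv.mul_apply, Cfsg.Agent.H29.Trv.mul_apply, hk1, mulVec_sub, mulVec_add, mulVec_smul, mulVec_smul, hgi, hgi,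
        ← hJ'x]
      have e1 : f (((g⁻¹ : GL (Fin m ⊕ Fin m) F) : Matrix (Fin m ⊕ Fin m) (Fin m ⊕ Fin m) F) *ᵥ x)
          (J (((g⁻¹ : GL (Fin m ⊕ Fin m) F) : Matrix (Fin m ⊕ Fin m) (Fin m ⊕ Fin m) F) *ᵥ w)) = f x (J' w) := by
        rw [hJ'x, hfg']
      have e2 : f (((g⁻¹ : GL (Fin m ⊕ Fin m) F) : Matrix (Fin m ⊕ Fin m) (Fin m ⊕ Fin m) F) *ᵥ x)
          (((g⁻¹ : GL (Fin m ⊕ Fin m) F) : Matrix (Fin m ⊕ Fin m) (Fin m ⊕ Fin m) F) *ᵥ w) = f x w := by
        rw [← hfg', hgi]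
      rw [e1, e2]
    have hne : ¬ ((∀ x, J' x = J x) ∨ (∀ x, J' x = - J x)) := by
      intro hor
      apply hgH
      refine ⟨?_, hMN hg⟩
      rcases hor with hor | hor
      · refine mem_norm hJK hspan (s := 1) (one_mul 1) (fun x => ?_)
        have h3 := hor ((g : Matrix (Fin m ⊕ Fin m) (Fin m ⊕ Fin m) F) *ᵥ x)
        rw [hJ'x, hig, hJd, hJd] at h3
        rw [h3, one_smul]
      · refine mem_norm hJK hspan (s := -1) (by ring) (fun x => ?_)
        have h3 := hor ((g : Matrix (Fin m ⊕ Fin m) (Fin m ⊕ Fin m) F) *ᵥ x)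
        rw [hJ'x, hig, hJd, hJd] at h3
        rw [h3, neg_one_smul]
    obtain ⟨u, hu0, hu, hF⟩ := Cfsg.Agent.H21.GUs.stage1 h h' hodd hn hi hE hX' hne
    exact Sp_le_of_full (S4 h hodd hn (S3 h hodd hn hi hX hF hu hu0))

end Cfsg.Agent.S5665
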