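import Cfsg.Statements.S5667
import Cfsg.Agent.H29_Nm2

set_option autoImplicit false
open Cfsg

namespace Cfsg.Agent.S5667

open Cfsg.Geo Cfsg.Agent.H29.Asc Cfsg.Agent.H29.Fm Cfsg.Agent.H29.Rx Cfsg.Agent.H29.Trv Matrix Module


/-- Over the field with 3 elements and for m ≥ 7, suppose the standard alternating form on F^(2m) is similar, through P and e, to the tensor product of a non-degenerate symplectic form f₁ on F^(n₁) and a non-degenerate symmetric bilinear form f₂ on F^3. Then the elements of Sp_2m(3) in the stabiliser of this tensor decomposition form a subgroup that is not maximal: some subgroup lies strictly between it and Sp_2m(3). -/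
theorem result {F : Type*} [Field F] [Fintype F] (m : ℕ) (hm : 7 ≤ m) (hq : Fintype.card F = 3) (n₁ : ℕ) (e : (Fin m ⊕ Fin m) ≃ Fin n₁ × Fin 3) (P : Matrix.GeneralLinearGroup (Fin m ⊕ Fin m) F) (f₁ : (Fin n₁ → F) → (Fin n₁ → F) → F) (f₂ : (Fin 3 → F) → (Fin 3 → F) → F) (hf₁ : Cfsg.Geo.IsSymplecticForm f₁) (hf₂ : Cfsg.Geo.IsSymmetricForm f₂) (hT : Cfsg.Geo.IsTensorFormStructure id (Cfsg.sympForm m F) f₁ f₂ e P) : ∃ K : Subgroup (Matrix.GeneralLinearGroup (Fin m ⊕ Fin m) F), Cfsg.Geo.tensorProductSubgroup n₁ 3 e P ⊓ Cfsg.spGL m F < K ∧ K < Cfsg.spGL m F := by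
  classical
  apply nonmax_pull (e2 m).symm
  set f' := pf (e2 m).symm (Cfsg.sympForm m F) with hf'
  set X' := cR (e2 m).symm (Cfsg.spGL m F) with hX'
  have hsp : SpF f' := sp_std m F
  have hTVa : TVa f' X' := tva_sp m F
  have hTV : TV f' X' := hTVa.tv
  have hSP : SPN f' := hsp.spn
  have hn0 : 0 < m + m := by omega
  have hfixX : Fx f' X' := by
    intro g hg u v
    have hg' : glReindex (e2 m).symm g ∈ Cfsg.spGL m F := hg
    rw [mem_spGL_iff] at hg'
    have h2 := hg' (L (e2 m).symm u) (L (e2 m).symm v)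
    rw [act, act] at h2
    exact h2
  have hst := tpf_pull (e2 m).symm hT
  rw [← hf'] at hst
  have hcard : n₁ * 3 = m + m := by
    have := Fintype.card_congr ((e2 m).symm.trans e)
    rw [Fintype.card_prod, Fintype.card_fin, Fintype.card_fin, Fintype.card_fin] at this
    exact this.symm
  have hn1 : 2 ≤ n₁ := by omega
  have hs1 := SpF.of_symp hf₁
  obtain ⟨c, hc, hform⟩ := hst
  obtain ⟨hdA, hA⟩ := gram_facts hs1.sfm
  obtain ⟨hdB, hB⟩ := gram_facts (SFm.of_symm hf₂)
  obtain ⟨D, hD, h⟩ := tens_three hsp.sfm hq (by omega) (e := (e2 m).symm.trans e) (P := glReindex (e2 m).symm.symm P)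
    (A := gramMatrix f₁) (C := gramMatrix f₂) hc hdA
    (symm_gram hf₂) hdB (by
      intro x y
      have h1 := hform x y
      rw [fog_id] at h1
      exact h1)
  have hle : cR (e2 m).symm (tensorProductSubgroup n₁ 3 e P ⊓ Cfsg.spGL m F) ≤
      tensorProductSubgroup n₁ 3 ((e2 m).symm.trans e) (glReindex (e2 m).symm.symm P) := by
    intro g hg
    exact (tp_iff _).1 hg.1
  have hleX : cR (e2 m).symm (tensorProductSubgroup n₁ 3 e P ⊓ Cfsg.spGL m F) ≤ X' := fun g hg => hg.2
  refine nonmax_of (M := decompositionStabilizer D) hleX (h _ (hfixX.mono hleX) hle)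
    (not_le_dec hsp.sfm hTV hSP hD.decomp hn1) ?_
  obtain ⟨v, hvD, hv⟩ : ∃ v ∈ D 0, v ≠ 0 := by
    apply Submodule.exists_mem_ne_zero_of_ne_bot
    intro h0
    have := hD.decomp.finrank_eq 0
    rw [h0, finrank_bot] at this
    omega
  obtain ⟨a, ha, g, hg, hgx⟩ := hTV v hv (hsp.alt v)
  refine ⟨g, hg, trv_dec hsp.sfm hD hvD hgx, fun hgT => ?_⟩
  refine no_trv_tens hn1 (by norm_num) (φ := a • fn hsp.sfm v) ?_ hv (fun x => by rw [hgx]; rfl) (hle hgT)
  intro h0
  obtain ⟨x, hx⟩ := hsp.sfm.nd v hv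
  have := LinearMap.congr_fun h0 x
  exact (mul_ne_zero ha hx) this

end Cfsg.Agent.S5667
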