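import Cfsg.Statements.S5671
import Cfsg.Agent.H29_Nm1

set_option autoImplicit false
open Cfsg

namespace Cfsg.Agent.S5671

open Cfsg.Geo Cfsg.Agent.H29.Asc Cfsg.Agent.H29.Fm Matrix Module


/-- Let F be the field with 4 elements (q = 2) and n = 2 n₂ ≥ 13. Suppose the standard unitary form Σ u_i v_i² on F^n is similar, through P and e, to the tensor product of non-degenerate unitary forms f₁ on F^2 and f₂ on F^(n₂). Then the elements of SU_n(2) in the stabiliser of this tensor decomposition form a subgroup that is not maximal: some subgroup lies strictly between it and SU_n(2). -/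
theorem result {F : Type*} [Field F] [Fintype F] (n : ℕ) (hF : Fintype.card F = 4) (hn : 13 ≤ n) (n₂ : ℕ) (e : Fin n ≃ Fin 2 × Fin n₂) (P : Matrix.GeneralLinearGroup (Fin n) F) (f₁ : (Fin 2 → F) → (Fin 2 → F) → F) (f₂ : (Fin n₂ → F) → (Fin n₂ → F) → F) (hf₁ : Cfsg.Geo.IsUnitaryFormPow 2 f₁) (hf₂ : Cfsg.Geo.IsUnitaryFormPow 2 f₂) (hT : Cfsg.Geo.IsTensorFormStructure (fun x : F => x ^ 2) (Cfsg.hermForm n F 2) f₁ f₂ e P) : ∃ K : Subgroup (Matrix.GeneralLinearGroup (Fin n) F), Cfsg.Geo.tensorProductSubgroup 2 n₂ e P ⊓ (Cfsg.GU n F 2 ⊓ Cfsg.Geo.specialLinear (Fin n) F) < K ∧ K < (Cfsg.GU n F 2 ⊓ Cfsg.Geo.specialLinear (Fin n) F) := by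
  classical
  obtain ⟨c, hc, hform⟩ := hT
  have hF' : Fintype.card F = 2 ^ 2 := by rw [hF]; norm_num
  have hcard : 2 * n₂ = n := by
    have := Fintype.card_congr e
    rw [Fintype.card_prod, Fintype.card_fin, Fintype.card_fin, Fintype.card_fin] at this
    exact this.symm
  have hf : SFm (fq hF') 1 (Cfsg.hermForm n F 2) := sfm_herm hF'
  have hTV : TV (Cfsg.hermForm n F 2) (SUg n F 2) := tv_su hF'
  have hSP : SPN (Cfsg.hermForm n F 2) := spn_su hF' (by omega)
  have hne := fq_ne hF'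
  have hfqe : (fun x : F => x ^ 2) = (fq hF' : F → F) := by
    funext x
    rw [fq_apply]
  rw [hfqe] at hform
  obtain ⟨hA, hdA⟩ := upow_gram hF' hf₁
  obtain ⟨hB, hdB⟩ := upow_gram hF' hf₂
  obtain ⟨Q, hQ, hQf⟩ := tens_orth hne hf.inv hA hB hdA hdB hform
  obtain ⟨D, hD, h⟩ := tens_two hf hF (fq_apply hF') (by omega) hc hQf
  have hle : tensorProductSubgroup 2 n₂ e P ⊓ SUg n F 2 ≤ SUg n F 2 := inf_le_right
  refine nonmax_of (M := decompositionStabilizer D) hle ?_ (not_le_dec hf hTV hSP hD.decomp (by omega)) ?_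
  · exact h _ (fun g hg => fx_GU g hg.2.1) (inf_le_left.trans hQ)
  · obtain ⟨v, hvD, hv, hvv⟩ := iso_block hf hne hD (by omega) 0
    obtain ⟨a, ha, g, hg, hgx⟩ := hTV v hv hvv
    refine ⟨g, hg, trv_dec hf hD hvD hgx, fun hgT => ?_⟩
    refine no_trv_tens (by norm_num) (by omega) (φ := a • fn hf v) ?_ hv (fun x => by rw [hgx]; rfl) hgT.1
    intro h0
    obtain ⟨x, hx⟩ := hf.nd v hv
    have := LinearMap.congr_fun h0 x
    exact (mul_ne_zero ha hx) this

end Cfsg.Agent.S5671
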