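import Cfsg.Statements.S5674
import Cfsg.Agent.H29_Sg2
import Cfsg.Agent.H16_Std

set_option autoImplicit false
open Cfsg

namespace Cfsg.Agent.S5674

open Matrix Module Cfsg.Geo Cfsg.Agent.H16.Quad Cfsg.Agent.H29.Sg
open QuadraticMap (polar)


/-- Let F be a finite field of odd order, m ≥ 6, Q the standard quadratic form x₀² + Σ x_i y_i on F^(2m+1) and Ω the commutator subgroup of its isometry group inside GL_(2m+1)(F). The elements of Ω stabilising a non-zero subspace on which Q vanishes form a maximal subgroup of Ω. -/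
theorem result {F : Type*} [Field F] [Fintype F] (hodd : Odd (Fintype.card F)) (m : ℕ) (hm : 6 ≤ m) (W : Submodule F (Unit ⊕ (Fin m ⊕ Fin m) → F)) (hW0 : W ≠ ⊥) (hW : Cfsg.Geo.IsTotallySingularQuad (Cfsg.quadFormOdd m F) W) : Cfsg.Geo.IsMaximalIn (Cfsg.Geo.omegaGL (Cfsg.quadFormOdd m F)) (Cfsg.Geo.subspaceStabilizer W ⊓ Cfsg.Geo.omegaGL (Cfsg.quadFormOdd m F)) := by
  rw [← coe_oddQ]
  rw [← coe_oddQ] at hW
  have h2 : (2 : F) ≠ 0 := two_ne_zero_of_odd_card rfl hodd
  have hnd : (QuadraticMap.polarBilin (oddQ F m)).Nondegenerate := by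
    exact nd_oddQ h2 m
  have hc : Fintype.card (Unit ⊕ (Fin m ⊕ Fin m)) = 2 * m + 1 := by
    simp only [Fintype.card_sum, Fintype.card_fin, Fintype.card_unit]; omega
  refine par_max hnd (by omega) hW hW0 ?_
  intro U hU hlt
  have h1 := Submodule.finrank_lt_finrank_of_lt hlt
  have h2 := ts_finrank_le hnd hU
  rw [Module.finrank_fintype_fun_eq_card, hc] at h2
  rw [hc]
  omega


end Cfsg.Agent.S5674
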