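import Cfsg.Statements.S5675
import Cfsg.Agent.H29_Sg7
import Cfsg.Agent.H16_Std

set_option autoImplicit false
open Cfsg

namespace Cfsg.Agent.S5675

open Matrix Module Cfsg.Geo Cfsg.Agent.H16.Quad Cfsg.Agent.H29.Sg
open QuadraticMap (polar)


/-- Let F be a finite field of odd order q, m ≥ 6, Q the standard quadratic form on F^(2m+1) and Ω the commutator subgroup of its isometry group. Let W be a non-zero subspace of even dimension on which the polar form of Q is non-degenerate; exclude the case q = 3, dim W = 2 with Q vanishing on some line of W (a plus-type plane). Then the elements of Ω stabilising W (equivalently, stabilising its orthogonal complement, of odd dimension) form a maximal subgroup of Ω. -/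
theorem result {F : Type*} [Field F] [Fintype F] (hodd : Odd (Fintype.card F)) (m : ℕ) (hm : 6 ≤ m) (W : Submodule F (Unit ⊕ (Fin m ⊕ Fin m) → F)) (hW0 : W ≠ ⊥) (hev : Even (Module.finrank F W)) (hW : Cfsg.Geo.IsNondegenerateOn (QuadraticMap.polar (Cfsg.quadFormOdd m F)) W) (hex : ¬ (Fintype.card F = 3 ∧ Module.finrank F W = 2 ∧ Cfsg.Geo.IsPlusTypeOn (Cfsg.quadFormOdd m F) W)) : Cfsg.Geo.IsMaximalIn (Cfsg.Geo.omegaGL (Cfsg.quadFormOdd m F)) (Cfsg.Geo.subspaceStabilizer W ⊓ Cfsg.Geo.omegaGL (Cfsg.quadFormOdd m F)) := by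
  rw [← coe_oddQ]
  rw [← coe_oddQ] at hW hex
  have h2 : (2 : F) ≠ 0 := two_ne_zero_of_odd_card rfl hodd
  have hnd : (QuadraticMap.polarBilin (oddQ F m)).Nondegenerate := by
    exact nd_oddQ h2 m
  have hc : Fintype.card (Unit ⊕ (Fin m ⊕ Fin m)) = 2 * m + 1 := by
    simp only [Fintype.card_sum, Fintype.card_fin, Fintype.card_unit]; omega
  have hd := disj_of hW
  have hfr := finrank_add_finrank_perp hnd W
  rw [Module.finrank_fintype_fun_eq_card, hc] at hfr
  have hev' := hev
  obtain ⟨j, hj⟩ := hev'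
  refine nd_max' hnd (by omega) hd hW0 ?_ (fun h => by omega) ?_
  · rintro rfl
    rw [finrank_top, Module.finrank_fintype_fun_eq_card, hc] at hj
    omega
  rintro U hU ⟨h3, h4, w, hw, hw0, hQw⟩
  rw [Nat.card_eq_fintype_card] at h3
  rcases hU with rfl | rfl
  · apply hex
    refine ⟨?_, h4, plus_vec h4 hw hw0 hQw⟩
    have h5 := Fintype.one_lt_card (α := F)
    obtain ⟨i, hi⟩ := hodd
    omega
  · omega


end Cfsg.Agent.S5675
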