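import Cfsg.Statements.S5676
import Cfsg.Agent.H29_Nm3

set_option autoImplicit false
open Cfsg

namespace Cfsg.Agent.S5676

open Cfsg.Geo Cfsg.Agent.H29.Asc Cfsg.Agent.H29.Fm Cfsg.Agent.H29.Rx Matrix Module


/-- Let F be the field with 3 elements, m ≥ 6, Q the standard quadratic form on F^(2m+1) and Ω the commutator subgroup of its isometry group. Let W be a 2-dimensional subspace on which the polar form is non-degenerate and which contains a line on which Q vanishes. Then the elements of Ω stabilising W form a subgroup that is not maximal: some subgroup lies strictly between it and Ω. -/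
theorem result {F : Type*} [Field F] [Fintype F] (hq : Fintype.card F = 3) (m : ℕ) (hm : 6 ≤ m) (W : Submodule F (Unit ⊕ (Fin m ⊕ Fin m) → F)) (hdim : Module.finrank F W = 2) (hW : Cfsg.Geo.IsNondegenerateOn (QuadraticMap.polar (Cfsg.quadFormOdd m F)) W) (hplus : Cfsg.Geo.IsPlusTypeOn (Cfsg.quadFormOdd m F) W) : ∃ K : Subgroup (Matrix.GeneralLinearGroup (Unit ⊕ (Fin m ⊕ Fin m)) F), Cfsg.Geo.subspaceStabilizer W ⊓ Cfsg.Geo.omegaGL (Cfsg.quadFormOdd m F) < K ∧ K < Cfsg.Geo.omegaGL (Cfsg.quadFormOdd m F) := by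
  classical
  have h2 : (2 : F) ≠ 0 := two_ne_of_odd (by rw [hq]; decide)
  apply nonmax_pull (e3 m).symm
  set f' := pf (e3 m).symm (fo m F) with hf'
  set X' := cR (e3 m).symm (omegaGL (Cfsg.quadFormOdd m F)) with hX'
  have hor : OrF f' := or_std h2
  have hSG : SG f' X' := sg_std h2 (by omega)
  have hn5 : 5 ≤ 1 + (m + m) := by omega
  have hfixX : Fx f' X' := fx_std
  set W' := cW (e3 m).symm W with hW'
  have hfr : finrank F W' = 2 := by rw [hW', finrank_cW]; exact hdim
  have hnd : IsNondegenerateOn f' W' := nd_pull _ hW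
  obtain ⟨z, hzW, hz0, hzz⟩ : ∃ z ∈ W', z ≠ 0 ∧ f' z z = 0 := by
    obtain ⟨U, hU1, hU2, hU3⟩ := hplus
    have hUne : U ≠ ⊥ := by
      rintro rfl
      rw [finrank_bot, hdim] at hU3
      omega
    obtain ⟨z, hz, hz0⟩ := Submodule.exists_mem_ne_zero_of_ne_bot hUne
    refine ⟨L (e3 m) z, ?_, fun h0 => hz0 ((L (e3 m)).map_eq_zero_iff.1 h0), ?_⟩
    · show L (e3 m).symm (L (e3 m) z) ∈ W
      rw [L_L]
      exact hU1 hz
    · show fo m F (L (e3 m).symm (L (e3 m) z)) (L (e3 m).symm (L (e3 m) z)) = 0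
      rw [L_L, fo_self, hU2 z hz, mul_zero]
  have hle : cR (e3 m).symm (subspaceStabilizer W ⊓ omegaGL (Cfsg.quadFormOdd m F)) ≤ subspaceStabilizer W' := by
    intro g hg
    exact (stab_iff _).1 hg.1
  have hleX : cR (e3 m).symm (subspaceStabilizer W ⊓ omegaGL (Cfsg.quadFormOdd m F)) ≤ X' := fun g hg => hg.2
  obtain ⟨a, ha, hlea⟩ := plus_three hor hq (hfixX.mono hleX) hfr hnd hzW hz0 hzz hle
  have ha0 : a ≠ 0 := by
    rintro rfl
    exact ha (hor.sfm.zero_left _)
  obtain ⟨g, hg, hg1, hg2⟩ := move_plane hor (by omega) hSG hfr hnd ha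
  refine nonmax_of (M := subspaceStabilizer (Submodule.span F {a})) hleX hlea
    (hSG.not_le_stab hor hn5 ?_ ?_) ⟨g, hg, hg1, fun h => hg2 (hle h)⟩
  · rw [Ne, Submodule.span_singleton_eq_bot]; exact ha0
  · intro h0
    have hfa := finrank_span_singleton (K := F) ha0
    rw [h0, finrank_top, Module.finrank_fintype_fun_eq_card, Fintype.card_fin] at hfa
    omega

end Cfsg.Agent.S5676
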