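import Cfsg.Statements.S5677
import Cfsg.Agent.H29_Sg23
import Cfsg.Agent.H29_Sg7
import Cfsg.Agent.H16_Std

set_option autoImplicit false
open Cfsg

namespace Cfsg.Agent.S5677

open Matrix Module Cfsg.Geo Cfsg.Agent.H16.Quad Cfsg.Agent.H29.Sg
open QuadraticMap (polar)


/-- Let F be a finite field of odd order q, m ≥ 6, Q the standard quadratic form on F^(2m+1) and Ω the commutator subgroup of its isometry group. Let D be a decomposition of F^(2m+1) into t ≥ 2 pairwise orthogonal, pairwise Q-isometric subspaces of equal dimension k > 1 on which the polar form is non-degenerate. Unless q = 3 and k = 3, the elements of Ω permuting the members of D form a maximal subgroup of Ω. -/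
theorem result {F : Type*} [Field F] [Fintype F] (hodd : Odd (Fintype.card F)) (m : ℕ) (hm : 6 ≤ m) {t : ℕ} (k : ℕ) (hk : 1 < k) (D : Fin t → Submodule F (Unit ⊕ (Fin m ⊕ Fin m) → F)) (hD : Cfsg.Geo.IsOrthogonalMDecomposition (Cfsg.quadFormOdd m F) k D) (hex : ¬ (Fintype.card F = 3 ∧ k = 3)) : Cfsg.Geo.IsMaximalIn (Cfsg.Geo.omegaGL (Cfsg.quadFormOdd m F)) (Cfsg.Geo.decompositionStabilizer D ⊓ Cfsg.Geo.omegaGL (Cfsg.quadFormOdd m F)) := by
  have h2 : (2 : F) ≠ 0 := two_ne_zero_of_odd_card rfl hodd
  have hnd := nd_oddQ (F := F) h2 m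
  have hcoe : Cfsg.quadFormOdd m F = ⇑(oddQ F m) := (coe_oddQ F m).symm
  rw [hcoe] at hD ⊢
  have hdec := hD.decomp.decomp
  have hcard : t * k = 2 * m + 1 := by
    classical
    have hint : DirectSum.IsInternal D :=
      (DirectSum.isInternal_submodule_iff_iSupIndep_and_iSup_eq_top D).2 ⟨hdec.indep, hdec.iSup_eq_top⟩
    let v : ∀ i, Module.Basis (Fin k) F (D i) := fun i => Module.finBasisOfFinrankEq F (D i) (hdec.finrank_eq i)
    let b := (hint.collectedBasis v).reindex (Equiv.sigmaEquivProd (Fin t) (Fin k))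
    have h3 := Module.finrank_eq_card_basis b
    rw [Module.finrank_fintype_fun_eq_card, Fintype.card_prod, Fintype.card_fin, Fintype.card_fin] at h3
    simp only [Fintype.card_sum, Fintype.card_fin, Fintype.card_unit] at h3
    omega
  have hodd2 : Odd (t * k) := ⟨m, hcard⟩
  obtain ⟨t', ht'⟩ := (Nat.odd_mul.1 hodd2).1
  obtain ⟨k', hk'⟩ := (Nat.odd_mul.1 hodd2).2
  have ht2 := hdec.two_le
  obtain ⟨q', hq'⟩ := hodd
  have hc1 := Fintype.one_lt_card (α := F)
  apply od_max hnd h2 (k := k)
  · simp only [Fintype.card_sum, Fintype.card_fin, Fintype.card_unit]; omega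
  · omega
  · rw [Nat.card_eq_fintype_card]
    by_cases hk3 : k = 3
    · left
      by_contra hcon
      exact hex ⟨by omega, hk3⟩
    · right; omega
  · exact ht2
  · exact hdec.finrank_eq
  · exact fun i => disj_of (hD.decomp.nondegenerate i)
  · exact fun i j hij x hx y hy => hD.decomp.orthogonal i j hij x hx y hy
  · exact hdec.iSup_eq_top
  · exact hD.isometric

end Cfsg.Agent.S5677
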