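import Cfsg.Statements.S5678
import Cfsg.Agent.H29_Nm4

set_option autoImplicit false
open Cfsg

namespace Cfsg.Agent.S5678

open Cfsg.Geo Cfsg.Agent.H29.Asc Cfsg.Agent.H29.Fm Cfsg.Agent.H29.Rx Matrix Module
open scoped commutatorElement


/-- Let F be the field with 3 elements, m ≥ 6, Q the standard quadratic form on F^(2m+1) and Ω the commutator subgroup of its isometry group. Let D be a decomposition of F^(2m+1) into t pairwise orthogonal, pairwise Q-isometric 3-dimensional subspaces on which the polar form is non-degenerate. Then the elements of Ω permuting the members of D form a subgroup that is not maximal: some subgroup lies strictly between it and Ω. -/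
theorem result {F : Type*} [Field F] [Fintype F] (hq : Fintype.card F = 3) (m : ℕ) (hm : 6 ≤ m) {t : ℕ} (D : Fin t → Submodule F (Unit ⊕ (Fin m ⊕ Fin m) → F)) (hD : Cfsg.Geo.IsOrthogonalMDecomposition (Cfsg.quadFormOdd m F) 3 D) : ∃ K : Subgroup (Matrix.GeneralLinearGroup (Unit ⊕ (Fin m ⊕ Fin m)) F), Cfsg.Geo.decompositionStabilizer D ⊓ Cfsg.Geo.omegaGL (Cfsg.quadFormOdd m F) < K ∧ K < Cfsg.Geo.omegaGL (Cfsg.quadFormOdd m F) := by
  classical
  have h2 : (2 : F) ≠ 0 := two_ne_of_odd (by rw [hq]; decide)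
  apply nonmax_pull (e3 m).symm
  set f' := pf (e3 m).symm (fo m F) with hf'
  set X' := cR (e3 m).symm (omegaGL (Cfsg.quadFormOdd m F)) with hX'
  have hor : OrF f' := or_std h2
  have hSG : SG f' X' := sg_std h2 (by omega)
  have hn5 : 5 ≤ 1 + (m + m) := by omega
  have hfixX : Fx f' X' := fx_std
  set D' : Fin t → Submodule F (Fin (1 + (m + m)) → F) := fun i => cW (e3 m).symm (D i) with hD'
  have hnd : IsNondegenerateMDecomposition f' 3 D' := ndec_pull _ hD.decomp
  have hiso : ∀ i j, AreIsometricFor (fun v => f' v v) (D' i) (D' j) := fun i j => isom_push (hD.isometric i j)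
  have htm := dec_card hnd.decomp
  obtain ⟨ε, v, hε, hvD, hv, D₁, hD₁, hdec, hiso₁, hall⟩ := refine_three_onb hor hq hnd hiso
  have hle : cR (e3 m).symm (decompositionStabilizer D ⊓ omegaGL (Cfsg.quadFormOdd m F)) ≤ decompositionStabilizer D' := by
    intro g hg
    exact (decStab_iff _).1 hg.1
  have hleX : cR (e3 m).symm (decompositionStabilizer D ⊓ omegaGL (Cfsg.quadFormOdd m F)) ≤ X' := fun g hg => hg.2
  let i₀ : Fin t := ⟨0, by omega⟩
  let i₁ : Fin t := ⟨1, by omega⟩
  let i₂ : Fin t := ⟨2, by omega⟩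
  have h01 : i₀ ≠ i₁ := by intro h; exact absurd (congrArg Fin.val h) (by simp [i₀, i₁])
  have h02 : i₀ ≠ i₂ := by intro h; exact absurd (congrArg Fin.val h) (by simp [i₀, i₂])
  have h12 : i₁ ≠ i₂ := by intro h; exact absurd (congrArg Fin.val h) (by simp [i₁, i₂])
  obtain ⟨g₁, hg₁, g₂, hg₂, π, hπ1, hπ2, hπ3⟩ := three_cycle hor hε hv (by
    rw [Fintype.card_prod, Fintype.card_fin, Fintype.card_fin, htm]) (p := (i₀, (0 : Fin 3))) (q := (i₁, 0)) (r := (i₂, 0))
    (fun h => h01 (congrArg Prod.fst h)) (fun h => h12 (congrArg Prod.fst h)) (fun h => h02 (congrArg Prod.fst h))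
  have hvne : ∀ p, v p ≠ 0 := by
    intro p h0
    have h1 := hv p p
    rw [h0, hor.sfm.zero_left, if_pos rfl] at h1
    exact hε h1.symm
  have hdisj : ∀ i j x, x ∈ D' i → x ∈ D' j → x ≠ 0 → i = j := by
    intro i j x hi hj hx
    by_contra hij
    have := disjoint_iff.1 (hnd.decomp.indep.pairwiseDisjoint hij)
    apply hx
    have h1 : x ∈ D' i ⊓ D' j := ⟨hi, hj⟩
    rwa [this] at h1
  refine nonmax_of (M := decompositionStabilizer D₁) hleX (hall _ (hfixX.mono hleX) hle)
    (hSG.not_le_dec hor hn5 hdec.decomp) ⟨⁅g₁, g₂⁆, comm_std h2 hg₁ hg₂,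
      perm_dec finProdFinEquiv hD₁ hπ3, fun hgH => ?_⟩
  obtain ⟨σ, hσ⟩ := hle hgH
  have h3 : v (i₂, 0) ∈ D' (σ i₀) := by
    rw [← hσ i₀]
    refine ⟨v (i₀, 0), hvD _ _, ?_⟩
    rw [Matrix.toLin'_apply, hπ3, hπ1]
  have h4 : v (i₀, 1) ∈ D' (σ i₀) := by
    rw [← hσ i₀]
    refine ⟨v (i₀, 1), hvD _ _, ?_⟩
    rw [Matrix.toLin'_apply, hπ3, hπ2]
    · intro h; exact absurd (congrArg Prod.snd h) (by simp)
    · intro h; exact absurd (congrArg Prod.snd h) (by simp)
    · intro h; exact absurd (congrArg Prod.snd h) (by simp)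
  have h5 := hdisj _ _ _ h3 (hvD i₂ 0) (hvne _)
  have h6 := hdisj _ _ _ h4 (hvD i₀ 1) (hvne _)
  exact h02 (h6.symm.trans h5)

end Cfsg.Agent.S5678
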