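import Cfsg.Statements.S5682
import Cfsg.Agent.H29_Nm3

set_option autoImplicit false
open Cfsg

namespace Cfsg.Agent.S5682

open Cfsg.Geo Cfsg.Agent.H29.Asc Cfsg.Agent.H29.Fm Cfsg.Agent.H29.Rx Matrix Module


/-- Let F be the field with 3 elements, m ≥ 6, Q the standard quadratic form on F^(2m+1) and Ω the commutator subgroup of its isometry group. Suppose the polar form of Q is similar, through P and e, to the tensor product of non-degenerate symmetric bilinear forms f₁ on F^3 and f₂ on F^(n₂) with 3 < n₂. Then the elements of Ω in the stabiliser of this tensor decomposition form a subgroup that is not maximal: some subgroup lies strictly between it and Ω. -/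
theorem result {F : Type*} [Field F] [Fintype F] (hq : Fintype.card F = 3) (m : ℕ) (hm : 6 ≤ m) (n₂ : ℕ) (h2 : 3 < n₂) (e : (Unit ⊕ (Fin m ⊕ Fin m)) ≃ Fin 3 × Fin n₂) (P : Matrix.GeneralLinearGroup (Unit ⊕ (Fin m ⊕ Fin m)) F) (f₁ : (Fin 3 → F) → (Fin 3 → F) → F) (f₂ : (Fin n₂ → F) → (Fin n₂ → F) → F) (hf₁ : Cfsg.Geo.IsSymmetricForm f₁) (hf₂ : Cfsg.Geo.IsSymmetricForm f₂) (hT : Cfsg.Geo.IsTensorFormStructure id (QuadraticMap.polar (Cfsg.quadFormOdd m F)) f₁ f₂ e P) : ∃ K : Subgroup (Matrix.GeneralLinearGroup (Unit ⊕ (Fin m ⊕ Fin m)) F), Cfsg.Geo.tensorProductSubgroup 3 n₂ e P ⊓ Cfsg.Geo.omegaGL (Cfsg.quadFormOdd m F) < K ∧ K < Cfsg.Geo.omegaGL (Cfsg.quadFormOdd m F) := by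
  classical
  have h2 : (2 : F) ≠ 0 := two_ne_of_odd (by rw [hq]; decide)
  apply nonmax_pull (e3 m).symm
  set f' := pf (e3 m).symm (fo m F) with hf'
  set X' := cR (e3 m).symm (omegaGL (Cfsg.quadFormOdd m F)) with hX'
  have hor : OrF f' := or_std h2
  have hSG : SG f' X' := sg_std h2 (by omega)
  have hn5 : 5 ≤ 1 + (m + m) := by omega
  have hfixX : Fx f' X' := fx_std
  have hst := tpf_pull (e3 m).symm hT
  have hst' : IsTensorFormStructure id f' f₁ f₂ ((e3 m).symm.trans e) (glReindex (e3 m).symm.symm P) := hst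
  have hcard : 3 * n₂ = 1 + (m + m) := by
    have := Fintype.card_congr ((e3 m).symm.trans e)
    rw [Fintype.card_prod, Fintype.card_fin, Fintype.card_fin, Fintype.card_fin] at this
    exact this.symm
  obtain ⟨c, hc, hform⟩ := hst'
  obtain ⟨hdA, hA⟩ := gram_facts (SFm.of_symm hf₁)
  obtain ⟨hdB, hB⟩ := gram_facts (SFm.of_symm hf₂)
  obtain ⟨D, hD, h⟩ := tens_three hor.sfm hq (by omega)
    (e := ((e3 m).symm.trans e).trans (Equiv.prodComm _ _)) (P := glReindex (e3 m).symm.symm P)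
    (A := gramMatrix f₂) (C := gramMatrix f₁) hc hdB
    (symm_gram hf₁) hdA (form_swap hform)
  have hle : cR (e3 m).symm (tensorProductSubgroup 3 n₂ e P ⊓ omegaGL (Cfsg.quadFormOdd m F)) ≤
      tensorProductSubgroup 3 n₂ ((e3 m).symm.trans e) (glReindex (e3 m).symm.symm P) := by
    intro g hg
    exact (tp_iff _).1 hg.1
  have hleX : cR (e3 m).symm (tensorProductSubgroup 3 n₂ e P ⊓ omegaGL (Cfsg.quadFormOdd m F)) ≤ X' := fun g hg => hg.2
  refine nonmax_of (M := decompositionStabilizer D) hleX (h _ (hfixX.mono hleX) (hle.trans (tensor_swap _ _)))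
    (hSG.not_le_dec hor hn5 hD.decomp) ?_
  obtain ⟨z, hzD, x, hxD, hz0, hxz, hzz, hxx, hzx⟩ := sing_plane hor (U := D 0)
    (by rw [hD.decomp.finrank_eq]; omega) (hD.nondegenerate 0)
  obtain ⟨g, hg, hgx⟩ := hSG z x hzz hxx hzx
  refine ⟨g, hg, sieg_dec hor hD hzD hxD hgx, fun hgT => ?_⟩
  refine no_sieg_tens (by norm_num) (by omega) (φ := fn hor.sfm z) (ψ := fn hor.sfm x) (fun v => by rw [hgx]; rfl) ?_ (hle hgT)
  intro h1
  obtain ⟨v, hv⟩ := hor.sfm.nd z hz0
  have h3 := hgx v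
  rw [h1, Units.val_one, Matrix.one_mulVec] at h3
  have h4 : f' v z • x - f' v x • z = 0 := by
    have := congrArg (fun y => y - v) h3
    simp only [sub_self, add_sub_cancel_left] at this
    exact this.symm
  apply hxz ((f' v z)⁻¹ * f' v x)
  rw [mul_smul, ← sub_eq_zero.1 h4, smul_smul, inv_mul_cancel₀ hv, one_smul]

end Cfsg.Agent.S5682
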