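import Cfsg.Statements.S5687
import Cfsg.Agent.H29_Sg2

set_option autoImplicit false
open Cfsg

namespace Cfsg.Agent.S5687

open Matrix Module Cfsg.Geo Cfsg.Agent.H16.Quad Cfsg.Agent.H29.Sg
open QuadraticMap (polar)


/-- Let F be a finite field with q elements, n ≥ 13 even, Q a non-degenerate quadratic form on F^n of minus type (no subspace of dimension n/2 is totally singular), and Ω the commutator subgroup of the isometry group of Q, viewed inside GL_n(F). The elements of Ω stabilising a non-zero subspace on which Q vanishes form a maximal subgroup of Ω. -/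
theorem result {F : Type*} [Field F] [Fintype F] {n : ℕ} (hn : 13 ≤ n) (heven : Even n) (Q : (Fin n → F) → F) (hQ : Cfsg.Geo.IsNondegenerateQuadraticForm Q) (hminus : ¬ Cfsg.Geo.IsPlusTypeOn Q ⊤) (W : Submodule F (Fin n → F)) (hW0 : W ≠ ⊥) (hW : Cfsg.Geo.IsTotallySingularQuad Q W) : Cfsg.Geo.IsMaximalIn (Cfsg.Geo.omegaGL Q) (Cfsg.Geo.subspaceStabilizer W ⊓ Cfsg.Geo.omegaGL Q) := by
  obtain ⟨Q', rfl, hnd⟩ := exists_qf hQ
  have hc : Fintype.card (Fin n) = n := Fintype.card_fin n
  refine par_max hnd (by omega) hW hW0 ?_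
  intro U hU hlt
  have h1 := Submodule.finrank_lt_finrank_of_lt hlt
  have h2 := ts_finrank_le hnd hU
  rw [Module.finrank_fintype_fun_eq_card, hc] at h2
  rw [hc]
  have h3 : 2 * finrank F U ≠ n := by
    intro h3
    apply hminus
    refine ⟨U, le_top, hU, ?_⟩
    rw [h3, finrank_top, Module.finrank_fintype_fun_eq_card, hc]
  obtain ⟨j, hj⟩ := heven
  omega


end Cfsg.Agent.S5687
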