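import Cfsg.Statements.S5693
import Cfsg.Agent.H29_Np3
import Cfsg.Agent.H29_Max5
import Cfsg.Agent.H29_Us1

set_option autoImplicit false
open Cfsg

namespace Cfsg.Agent.S5693

open Cfsg.Geo Cfsg.Agent.H29.Asc Cfsg.Agent.H29.Fm Cfsg.Agent.H29.Rx Cfsg.Agent.H29.Np Matrix Module
open Cfsg.Agent.H29.Sg (exists_qf)
open QuadraticMap (polar)

/-- hyperbolic planes over the field of five elements -/
theorem plane_five {F : Type*} [Field F] [Fintype F] (hF : Fintype.card F = 5) {n : ℕ} {Q : QuadraticForm F (Fin n → F)}
    {W : Submodule F (Fin n → F)} {e f : Fin n → F} (he : e ∈ W) (hf : f ∈ W) (hQe : Q e = 0) (hQf : Q f = 0)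
    (hef : polar ⇑Q e f = 1) (hsp : ∀ v ∈ W, ∃ a b : F, v = a • e + b • f) :
    ∃ b : Fin 2 → W, (∀ a c, polar ⇑Q (b a : Fin n → F) (b c) = if a = c then 2 else 0) ∧
      ∀ x : W, ∃ c : Fin 2 → F, x = ∑ a, c a • b a := by
  have h5 : (5 : F) = 0 := by
    have h : ((Fintype.card F : ℕ) : F) = 0 := FiniteField.cast_card_eq_zero F
    rw [hF] at h
    exact_mod_cast h
  have hee : polar ⇑Q e e = 0 := by rw [QuadraticMap.polar_self, hQe, smul_zero]
  have hff : polar ⇑Q f f = 0 := by rw [QuadraticMap.polar_self, hQf, smul_zero]
  have hfe : polar ⇑Q f e = 1 := by rw [QuadraticMap.polar_comm, hef]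
  have hv : ∀ a b c d : F, polar ⇑Q (a • e + b • f) (c • e + d • f) = a * d + b * c := by
    intro a b c d
    simp only [QuadraticMap.polar_add_left, QuadraticMap.polar_add_right, QuadraticMap.polar_smul_left,
      QuadraticMap.polar_smul_right, hee, hff, hef, hfe, smul_eq_mul]
    ring
  refine ⟨![⟨(1 : F) • e + (1 : F) • f, W.add_mem (W.smul_mem _ he) (W.smul_mem _ hf)⟩,
    ⟨(2 : F) • e + (-2 : F) • f, W.add_mem (W.smul_mem _ he) (W.smul_mem _ hf)⟩], ?_, ?_⟩
  · intro a c
    fin_cases a <;> fin_cases c
    · refine (hv _ _ _ _).trans ?_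
      rw [if_pos rfl]
      ring
    · refine (hv _ _ _ _).trans ?_
      rw [if_neg (by decide)]
      ring
    · refine (hv _ _ _ _).trans ?_
      rw [if_neg (by decide)]
      ring
    · refine (hv _ _ _ _).trans ?_
      rw [if_pos rfl]
      linear_combination -2 * h5
  · rintro ⟨x, hx⟩
    obtain ⟨a, b, rfl⟩ := hsp x hx
    refine ⟨![3 * (a + b), -(a - b)], ?_⟩
    apply Subtype.ext
    rw [Fin.sum_univ_two]
    show a • e + b • f = (3 * (a + b)) • ((1 : F) • e + (1 : F) • f) + (-(a - b)) • ((2 : F) • e + (-2 : F) • f)
    have e1 : (3 * (a + b)) * 1 + (-(a - b)) * 2 = a := by linear_combination b * h5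
    have e2 : (3 * (a + b)) * 1 + (-(a - b)) * (-2) = b := by linear_combination a * h5
    calc a • e + b • f = ((3 * (a + b)) * 1 + (-(a - b)) * 2) • e + ((3 * (a + b)) * 1 + (-(a - b)) * (-2)) • f := by
          rw [e1, e2]
      _ = _ := by
          simp only [smul_add, add_smul, smul_smul]
          abel


/-- Let F be a finite field with q elements, n ≥ 13 even, Q a non-degenerate quadratic form on F^n of plus type (some subspace of dimension n/2 is totally singular), and Ω the commutator subgroup of the isometry group of Q, viewed inside GL_n(F). Let D be a decomposition of F^n into t ≥ 2 pairwise orthogonal, pairwise Q-isometric subspaces of equal dimension k on which the polar form is non-degenerate (with, for even k, all members of plus type or t even; for odd k, q odd and square discriminant), in one of the cases: k = 2 with q = 3; k = 2 with plus-type members and q ∈ {2, 4, 5}; k = 3 with q = 3; k = 4 with plus-type members and q = 2. Then the elements of Ω permuting the members of D form a subgroup that is not maximal: some subgroup lies strictly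 between it and Ω. -/
theorem result {F : Type*} [Field F] [Fintype F] {n : ℕ} (hn : 13 ≤ n) (heven : Even n) (Q : (Fin n → F) → F) (hQ : Cfsg.Geo.IsNondegenerateQuadraticForm Q) (hplus : Cfsg.Geo.IsPlusTypeOn Q ⊤) {t : ℕ} (k : ℕ) (D : Fin t → Submodule F (Fin n → F)) (hD : Cfsg.Geo.IsOrthogonalMDecomposition Q k D) (hke : Even k → ((∀ i, Cfsg.Geo.IsPlusTypeOn Q (D i)) ∨ Even t)) (hko : Odd k → (Odd (Fintype.card F) ∧ Cfsg.Geo.HasSquareDiscriminant Q)) (hcase : ((k = 2 ∧ (Fintype.card F = 3 ∨ ((∀ i, Cfsg.Geo.IsPlusTypeOn Q (D i)) ∧ (Fintype.card F = 2 ∨ Fintype.card F = 4 ∨ Fintype.card F = 5)))) ∨ (k = 3 ∧ Fintype.card F = 3) ∨ (k = 4 ∧ Fintype.card F = 2 ∧ ∀ i, Cfsg.Geo.IsPlusTypeOn Q (D i)))) : ∃ K : Subgroup (Matrix.GeneralLinearGroup (Fin n) F), Cfsg.Geo.decompositionStabilizer D ⊓ Cfsg.Geo.omegaGL Q < K ∧ K < Cfsg.Geo.omegaGL Q := by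
  classical
  obtain ⟨Q', rfl, hnd⟩ := exists_qf hQ
  have htm := dec_card hD.decomp.decomp
  have hnd' := hD.decomp
  rcases hcase with ⟨rfl, hc⟩ | ⟨rfl, hq⟩ | ⟨rfl, hq, hpl⟩
  · have ht6 : 6 ≤ t := by omega
    rcases hc with hq | ⟨hpl, hq | hq | hq⟩
    · have h2 : (2 : F) ≠ 0 := two_ne_of_odd (by rw [hq]; decide)
      have h30 := three_zero hq
      by_cases hpl : ∀ i, IsPlusTypeOn ⇑Q' (D i)
      · refine span_case hnd (by omega) ht6 hnd' hpl ?_ (c := 1) (by linear_combination h30)
        intro a b hab
        rcases three_cases hq a with h | h | h <;> rcases three_cases hq b with h' | h' | h' <;> rw [h, h'] at hab ⊢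
        · exfalso; apply one_ne_zero (α := F); linear_combination -hab
        · exfalso; apply one_ne_zero (α := F); linear_combination -hab
        · exfalso; apply one_ne_zero (α := F); linear_combination -hab
        · exfalso; apply h2; linear_combination -hab
        · exfalso; apply one_ne_zero (α := F); linear_combination -hab
        · exfalso; apply h2; linear_combination -hab
      · push Not at hpl
        obtain ⟨i₀, hmin⟩ := hpl
        have hor := or_quad hQ h2
        have hiso : ∀ i j, AreIsometricFor (fun v => QuadraticMap.polar Q' v v) (D i) (D j) :=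
          fun i j => isom_quad hQ (hD.isometric i j)
        have han : ∀ x ∈ D i₀, QuadraticMap.polar Q' x x = 0 → x = 0 := by
          intro x hx hxx
          by_contra hx0
          apply hmin
          refine ⟨Submodule.span F {x}, ?_, ?_, ?_⟩
          · rw [Submodule.span_singleton_le_iff_mem]
            exact hx
          · intro w hw
            obtain ⟨c, rfl⟩ := Submodule.mem_span_singleton.1 hw
            rw [polar_self' hQ] at hxx
            rw [hQ.smul, (mul_eq_zero.1 hxx).resolve_left h2, mul_zero]
          · rw [finrank_span_singleton hx0, hD.decomp.decomp.finrank_eq]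
        obtain ⟨ε, b, hε, hb, hbs⟩ := plane_onb hor hq (hD.decomp.decomp.finrank_eq i₀) han
        obtain ⟨v, hvD, hv, D₁, hD₁, hdec, hall⟩ := refine_onb hor (by norm_num) hD.decomp hiso hε hb hbs (by
          intro c hc
          rw [Fin.sum_univ_two] at hc
          by_cases h0 : c 0 = 0
          · refine ⟨1, fun b hb => ?_⟩
            fin_cases b
            · exact h0
            · exact absurd rfl hb
          by_cases h1 : c 1 = 0
          · refine ⟨0, fun b hb => ?_⟩
            fin_cases b
            · exact absurd rfl hb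
            · exact h1
          exfalso
          rcases three_cases hq (c 0) with a0 | a0 | a0 <;> rcases three_cases hq (c 1) with a1 | a1 | a1 <;>
            first
            | exact h0 a0
            | exact h1 a1
            | (rw [a0, a1] at hc
               apply one_ne_zero (α := F)
               linear_combination hc))
        exact onb_nonmax hQ h2 (by omega) (le_refl 2) (by omega) hD hε hvD hv hD₁ hdec hall
    · have hc2 := two_eq_zero hq
      refine span_case hnd (by omega) ht6 hnd' hpl ?_ (c := 0) (by linear_combination hc2)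
      intro a b hab
      rcases eq_zero_or_one hq a with h | h <;> rcases eq_zero_or_one hq b with h' | h' <;> rw [h, h'] at hab ⊢
      · exfalso; apply one_ne_zero (α := F); linear_combination -hab
      · exfalso; apply one_ne_zero (α := F); linear_combination -hab
    · have hq' : Fintype.card F = 2 ^ 2 := by rw [hq]; norm_num
      obtain ⟨w, hw⟩ := Cfsg.Agent.H29.Us.exists_om hq'
      have hc2 := Cfsg.Agent.H29.Us.char2 hq'
      have h2 : (2 : F) = 0 := by linear_combination hc2
      refine four_case hq hnd (by omega) ht6 hnd' hpl (w := w) (by linear_combination hw + (w + 1) * h2) h2 ?_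
      intro x
      rcases Cfsg.Agent.H29.Us.four_cases hq' hw x with h | h | h | h
      · exact Or.inl h
      · exact Or.inr (Or.inl h)
      · exact Or.inr (Or.inr (Or.inl h))
      · exact Or.inr (Or.inr (Or.inr (by rw [h, add_comm])))
    · have h5 : (5 : F) = 0 := by
        have h : ((Fintype.card F : ℕ) : F) = 0 := FiniteField.cast_card_eq_zero F
        rw [hq] at h
        exact_mod_cast h
      have h2 : (2 : F) ≠ 0 := two_ne_of_odd (by rw [hq]; decide)
      have hor := or_quad hQ h2
      have hiso : ∀ i j, AreIsometricFor (fun v => QuadraticMap.polar Q' v v) (D i) (D j) :=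
        fun i j => isom_quad hQ (hD.isometric i j)
      let i₀ : Fin t := ⟨0, by omega⟩
      obtain ⟨e, f, he, hf, hQe, hQf, hef, hsp⟩ := hyp2 (hnd'.nondegenerate i₀) (hnd'.decomp.finrank_eq i₀) (hpl i₀)
      obtain ⟨b, hb, hbs⟩ := plane_five hq he hf hQe hQf hef hsp
      have hsq : ∀ x : F, x ≠ 0 → x * x = 1 ∨ x * x = -1 := by
        intro x hx
        have h4 := FiniteField.pow_card_sub_one_eq_one x hx
        rw [hq] at h4
        have h6 : (x * x - 1) * (x * x + 1) = 0 := by linear_combination h4
        rcases mul_eq_zero.1 h6 with h7 | h7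
        · left; linear_combination h7
        · right; linear_combination h7
      obtain ⟨v, hvD, hv, D₁, hD₁, hdec, hall⟩ := refine_onb hor (by norm_num) hD.decomp hiso h2 hb hbs (by
        intro c hc
        rw [Fin.sum_univ_two] at hc
        by_cases h0 : c 0 = 0
        · refine ⟨1, fun b hb => ?_⟩
          fin_cases b
          · exact h0
          · exact absurd rfl hb
        by_cases h1 : c 1 = 0
        · refine ⟨0, fun b hb => ?_⟩
          fin_cases b
          · exact absurd rfl hb
          · exact h1
        exfalso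
        apply one_ne_zero (α := F)
        rcases hsq _ h0 with a0 | a0 <;> rcases hsq _ h1 with a1 | a1 <;> rw [a0, a1] at hc
        · linear_combination hc
        · linear_combination -hc
        · linear_combination -hc
        · linear_combination -2 * hc - h5)
      exact onb_nonmax hQ h2 (by omega) (le_refl 2) (by omega) hD h2 hvD hv hD₁ hdec hall
  · have h2 : (2 : F) ≠ 0 := two_ne_of_odd (by rw [hq]; decide)
    have hor := or_quad hQ h2
    have hiso : ∀ i j, AreIsometricFor (fun v => QuadraticMap.polar Q' v v) (D i) (D j) :=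
      fun i j => isom_quad hQ (hD.isometric i j)
    obtain ⟨ε, v, hε, hvD, hv, D₁, hD₁, hdec, hiso₁, hall⟩ := refine_three_onb hor hq hD.decomp hiso
    exact onb_nonmax hQ h2 (by omega) (by norm_num) (by omega) hD hε hvD hv hD₁ hdec hall
  · exact four_two (eq_zero_or_one hq) (two_eq_zero hq) hnd (by omega) hnd' hpl

end Cfsg.Agent.S5693
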