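import Cfsg.Statements.S5695
import Cfsg.Agent.H29_No1

set_option autoImplicit false
open Cfsg

namespace Cfsg.Agent.S5695

open Cfsg.Geo Cfsg.Agent.H29.Asc Cfsg.Agent.H29.Fm Cfsg.Agent.H29.Rx Matrix Module


/-- Let F be a finite field with q elements, n ≥ 13 even, Q a non-degenerate quadratic form on F^n of minus type (no subspace of dimension n/2 is totally singular), and Ω the commutator subgroup of the isometry group of Q, viewed inside GL_n(F). Suppose q = 3 and let D be a decomposition of F^n into t ≥ 2 pairwise orthogonal, pairwise Q-isometric subspaces of equal dimension k ∈ {2, 3} on which the polar form is non-degenerate (for k = 3 the discriminant of Q is a square; for k = 2, t is odd and no member is of plus type). Then the elements of Ω permuting the members of D form a subgroup that is not maximal: some subgroup lies strictly between it and Ω. -/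
theorem result {F : Type*} [Field F] [Fintype F] {n : ℕ} (hn : 13 ≤ n) (heven : Even n) (Q : (Fin n → F) → F) (hQ : Cfsg.Geo.IsNondegenerateQuadraticForm Q) (hminus : ¬ Cfsg.Geo.IsPlusTypeOn Q ⊤) (hq : Fintype.card F = 3) {t : ℕ} (k : ℕ) (hk : k = 2 ∨ k = 3) (D : Fin t → Submodule F (Fin n → F)) (hD : Cfsg.Geo.IsOrthogonalMDecomposition Q k D) (hko : Odd k → Cfsg.Geo.HasSquareDiscriminant Q) (hke : Even k → (Odd t ∧ ∀ i, ¬ Cfsg.Geo.IsPlusTypeOn Q (D i))) : ∃ K : Subgroup (Matrix.GeneralLinearGroup (Fin n) F), Cfsg.Geo.decompositionStabilizer D ⊓ Cfsg.Geo.omegaGL Q < K ∧ K < Cfsg.Geo.omegaGL Q := by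
  classical
  have h2 : (2 : F) ≠ 0 := two_ne_of_odd (by rw [hq]; decide)
  have hor := or_quad hQ h2
  have hiso : ∀ i j, AreIsometricFor (fun v => QuadraticMap.polar Q v v) (D i) (D j) :=
    fun i j => isom_quad hQ (hD.isometric i j)
  have htm := dec_card hD.decomp.decomp
  have h30 := three_zero hq
  rcases hk with rfl | rfl
  · obtain ⟨-, hmin⟩ := hke (by decide)
    let i₀ : Fin t := ⟨0, by omega⟩
    have han : ∀ x ∈ D i₀, QuadraticMap.polar Q x x = 0 → x = 0 := by
      intro x hx hxx
      by_contra hx0
      apply hmin i₀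
      refine ⟨Submodule.span F {x}, ?_, ?_, ?_⟩
      · rw [Submodule.span_singleton_le_iff_mem]
        exact hx
      · intro w hw
        obtain ⟨c, rfl⟩ := Submodule.mem_span_singleton.1 hw
        rw [polar_self' hQ] at hxx
        rw [hQ.smul, (mul_eq_zero.1 hxx).resolve_left h2, mul_zero]
      · rw [finrank_span_singleton hx0, hD.decomp.decomp.finrank_eq]
    obtain ⟨ε, b, hε, hb, hbs⟩ := plane_onb hor hq (hD.decomp.decomp.finrank_eq i₀) han
    obtain ⟨v, hvD, hv, D₁, hD₁, hdec, hall⟩ := refine_onb hor (by norm_num) hD.decomp hiso hε hb hbs (by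
      intro c hc
      rw [Fin.sum_univ_two] at hc
      by_cases h0 : c 0 = 0
      · refine ⟨1, fun b hb => ?_⟩
        fin_cases b
        · exact h0
        · exact absurd rfl hb
      by_cases h1 : c 1 = 0
      · refine ⟨0, fun b hb => ?_⟩
        fin_cases b
        · exact absurd rfl hb
        · exact h1
      exfalso
      rcases three_cases hq (c 0) with a0 | a0 | a0 <;> rcases three_cases hq (c 1) with a1 | a1 | a1 <;>
        first
        | exact h0 a0
        | exact h1 a1
        | (rw [a0, a1] at hc
           apply one_ne_zero (α := F)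
           linear_combination hc))
    exact onb_nonmax hQ h2 (by omega) (le_refl 2) (by omega) hD hε hvD hv hD₁ hdec hall
  · obtain ⟨ε, v, hε, hvD, hv, D₁, hD₁, hdec, hiso₁, hall⟩ := refine_three_onb hor hq hD.decomp hiso
    exact onb_nonmax hQ h2 (by omega) (by norm_num) (by omega) hD hε hvD hv hD₁ hdec hall

end Cfsg.Agent.S5695
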