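import Cfsg.Statements.S5699
import Cfsg.Agent.H29_Sg8

set_option autoImplicit false
open Cfsg

namespace Cfsg.Agent.S5699

open Matrix Module Cfsg.Geo Cfsg.Agent.H16.Quad Cfsg.Agent.H29.Sg Cfsg.Agent.H29.Trv
open QuadraticMap (polar)

theorem iso_of_map {F : Type*} [Field F] [Finite F] {n : ℕ} {Q : QuadraticForm F (Fin n → F)} {W W' : Submodule F (Fin n → F)}
    {g : GL (Fin n) F} (hg : g ∈ omegaGL ⇑Q) (h : W.map (Matrix.toLin' (g : Matrix (Fin n) (Fin n) F)) = W') :
    AreIsometricFor ⇑Q W W' := by
  subst h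
  refine ⟨Submodule.equivMapOfInjective _ (gl_inj g) W, fun w => ?_⟩
  rw [Submodule.coe_equivMapOfInjective_apply]
  exact omega_iso hg w


/-- Let F be a finite field with q elements, n ≥ 13 even, Q a non-degenerate quadratic form on F^n (of either type), and Ω the commutator subgroup of the isometry group of Q, viewed inside GL_n(F). Let D be a decomposition of F^n into two orthogonal subspaces of odd dimension n/2 on which the polar form is non-degenerate and which are not Q-isometric to each other. Then the elements of Ω permuting (necessarily fixing) the two subspaces form a maximal subgroup of Ω. -/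
theorem result {F : Type*} [Field F] [Fintype F] {n : ℕ} (hn : 13 ≤ n) (heven : Even n) (Q : (Fin n → F) → F) (hQ : Cfsg.Geo.IsNondegenerateQuadraticForm Q) (k : ℕ) (hk : 2 * k = n) (hko : Odd k) (D : Fin 2 → Submodule F (Fin n → F)) (hD : Cfsg.Geo.IsNondegenerateMDecomposition (QuadraticMap.polar Q) k D) (hni : ¬ Cfsg.Geo.AreIsometricFor Q (D 0) (D 1)) : Cfsg.Geo.IsMaximalIn (Cfsg.Geo.omegaGL Q) (Cfsg.Geo.decompositionStabilizer D ⊓ Cfsg.Geo.omegaGL Q) := by
  obtain ⟨Q', rfl, hnd⟩ := exists_qf hQ
  have hc : Fintype.card (Fin n) = n := Fintype.card_fin n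
  have hsup : D 0 ⊔ D 1 = ⊤ := by
    have h := hD.decomp.iSup_eq_top
    rw [← h]
    apply le_antisymm
    · exact sup_le (le_iSup D 0) (le_iSup D 1)
    · apply iSup_le
      intro i
      fin_cases i
      · exact le_sup_left
      · exact le_sup_right
  have hd := disj_of (hD.nondegenerate 0)
  have hk0 := hD.decomp.finrank_eq 0
  have hk1 := hD.decomp.finrank_eq 1
  have hperp : perp Q' (D 0) = D 1 := by
    symm
    apply Submodule.eq_of_le_of_finrank_eq
    · intro x hx
      rw [mem_perp]
      intro y hy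
      exact hD.orthogonal 0 1 (by decide) y hy x hx
    · have := finrank_add_finrank_perp hnd (D 0)
      rw [Module.finrank_fintype_fun_eq_card, hc] at this
      omega
  have hnot : ∀ g ∈ omegaGL ⇑Q', (D 0).map (Matrix.toLin' (g : Matrix (Fin n) (Fin n) F)) ≠ D 1 := by
    intro g hg h
    exact hni (iso_of_map hg h)
  have hst : decompositionStabilizer D ⊓ omegaGL ⇑Q' = subspaceStabilizer (D 0) ⊓ omegaGL ⇑Q' := by
    apply le_antisymm
    · intro g hg
      obtain ⟨hg1, hg2⟩ := Subgroup.mem_inf.1 hg
      refine Subgroup.mem_inf.2 ⟨?_, hg2⟩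
      obtain ⟨σ, hσ⟩ := hg1
      apply stab_of_map
      rw [hσ 0]
      rcases (show σ 0 = 0 ∨ σ 0 = 1 by omega) with h | h
      · rw [h]
      · exfalso
        apply hnot g hg2
        rw [hσ 0, h]
    · intro g hg
      obtain ⟨hg1, hg2⟩ := Subgroup.mem_inf.1 hg
      refine Subgroup.mem_inf.2 ⟨?_, hg2⟩
      have hg3 : g ∈ subspaceStabilizer (perp Q' (D 0)) ⊓ omegaGL ⇑Q' := by
        rw [stab_perp hnd]
        exact hg
      rw [hperp] at hg3
      have hg4 := (Subgroup.mem_inf.1 hg3).1
      refine ⟨1, fun i => ?_⟩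
      rw [Equiv.Perm.one_apply]
      rcases (show i = 0 ∨ i = 1 by omega) with rfl | rfl
      · exact map_eq_of_stab hg1
      · exact map_eq_of_stab hg4
  rw [hst]
  refine nd_max' hnd (by omega) hd ?_ ?_ ?_ ?_
  · intro h
    rw [h, finrank_bot] at hk0
    omega
  · intro h
    rw [h, finrank_top, Module.finrank_fintype_fun_eq_card, hc] at hk0
    omega
  · intro _ g hg
    rw [hperp]
    exact hnot g hg
  · rintro U hU ⟨-, h2, -⟩
    rw [hperp] at hU
    rcases hU with rfl | rfl <;> omega


end Cfsg.Agent.S5699
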