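import Cfsg.Statements.S5702
import Cfsg.Agent.H29_Sg18

set_option autoImplicit false
open Cfsg

namespace Cfsg.Agent.S5702

open Matrix Module Cfsg.Geo Cfsg.Agent.H16.Quad Cfsg.Agent.H29.Sg
open QuadraticMap (polar)

theorem omega_scale {F : Type*} [Field F] {n : ℕ} (Q : (Fin n → F) → F) {ζ : F} (hζ : ζ ≠ 0) :
    omegaGL (fun v => ζ * Q v) = omegaGL Q := by
  have h1 : Cfsg.isometryGroup F (fun v => ζ * Q v) = Cfsg.isometryGroup F Q := by
    ext g
    rw [mem_isometryGroup, mem_isometryGroup]
    constructor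
    · intro h x; exact mul_left_cancel₀ hζ (h x)
    · intro h x; exact congrArg (fun t => ζ * t) (h x)
  have h2 : ∀ Q' : (Fin n → F) → F, omegaGL Q' =
      (commutator (Cfsg.isometryGroup F Q')).map (Cfsg.isometryGroup F Q').subtype := fun _ => rfl
  rw [h2, h2, h1]


/-- Let F be a finite field with q elements, n ≥ 13 even, Q a non-degenerate quadratic form on F^n (of either type), and Ω the commutator subgroup of the isometry group of Q, viewed inside GL_n(F). Let F₀ be a subfield with |F| = |F₀| ^ r for a prime r, ζ a non-zero scalar and P an invertible matrix such that ζ·Q takes values in F₀ on the F₀-span of the columns of P. Then the elements of Ω lying in the subfield group of P (the conjugate by P of the product of GL_n(F₀) with the scalars) form a maximal subgroup of Ω. -/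
theorem result {F : Type*} [Field F] [Fintype F] {n : ℕ} (hn : 13 ≤ n) (heven : Even n) (Q : (Fin n → F) → F) (hQ : Cfsg.Geo.IsNondegenerateQuadraticForm Q) (F₀ : Subfield F) (r : ℕ) (hr : r.Prime) (hcard : Fintype.card F = Nat.card F₀ ^ r) (P : Matrix.GeneralLinearGroup (Fin n) F) (ζ : F) (hζ : ζ ≠ 0) (hP : Cfsg.Geo.IsQuadFormRationalStructure (fun v : Fin n → F => ζ * Q v) F₀ P) : Cfsg.Geo.IsMaximalIn (Cfsg.Geo.omegaGL Q) (Cfsg.Geo.subfieldSubgroup F₀ P ⊓ Cfsg.Geo.omegaGL Q) := by
  obtain ⟨Q', rfl, hnd⟩ := exists_qf hQ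
  have hc : Fintype.card (Fin n) = n := Fintype.card_fin n
  rw [← omega_scale ⇑Q' hζ]
  have hpol : ∀ x y, polar (ζ • Q') x y = ζ * polar Q' x y := by
    intro x y
    simp only [QuadraticMap.polar, QuadraticMap.smul_apply, smul_eq_mul]
    ring
  have hnd' : (QuadraticMap.polarBilin (ζ • Q')).Nondegenerate := by
    apply nd_of
    intro x hx
    apply nd_eq_zero hnd
    intro y
    have := hx y
    rw [hpol] at this
    exact (mul_eq_zero.1 this).resolve_left hζ
  exact subfield_max (Q := ζ • Q') hnd' (by rw [hc]; exact hn) F₀ (finrank_prime_of_card hr hcard) P hP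

end Cfsg.Agent.S5702
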