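import Cfsg.Statements.S5705
import Cfsg.Agent.H29_No3
import Cfsg.Agent.H29_Sq4

set_option autoImplicit false
open Cfsg

namespace Cfsg.Agent.S5705

open Cfsg.Geo Cfsg.Agent.H29.Asc Cfsg.Agent.H29.Fm Matrix Module
open Cfsg.Agent.H29.Sg (exists_qf)
open scoped Kronecker


/-- Let F be the field with 2 elements, n = 2 n₂ ≥ 13 even, Q a non-degenerate quadratic form on F^n of plus type and Ω the commutator subgroup of its isometry group. Suppose that, through P and e, the polar form of Q is similar to the tensor product of non-degenerate symplectic forms f₁ on F^2 and f₂ on F^(n₂), and Q vanishes on the images of all pure tensors. Then the elements of Ω in the stabiliser of this tensor decomposition form a subgroup that is not maximal: some subgroup lies strictly between it and Ω. -/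
theorem result {F : Type*} [Field F] [Fintype F] {n : ℕ} (hn : 13 ≤ n) (heven : Even n) (Q : (Fin n → F) → F) (hQ : Cfsg.Geo.IsNondegenerateQuadraticForm Q) (hplus : Cfsg.Geo.IsPlusTypeOn Q ⊤) (hq : Fintype.card F = 2) (n₂ : ℕ) (h2 : 2 < n₂) (e : (Fin n) ≃ Fin 2 × Fin n₂) (P : Matrix.GeneralLinearGroup (Fin n) F) (f₁ : (Fin 2 → F) → (Fin 2 → F) → F) (f₂ : (Fin n₂ → F) → (Fin n₂ → F) → F) (hf₁ : Cfsg.Geo.IsSymplecticForm f₁) (hf₂ : Cfsg.Geo.IsSymplecticForm f₂) (hT : Cfsg.Geo.IsTensorFormStructure id (QuadraticMap.polar Q) f₁ f₂ e P) (hpure : (∀ (x₁ : Fin 2 → F) (x₂ : Fin n₂ → F), Q (Matrix.mulVec (P : Matrix (Fin n) (Fin n) F) ((fun a : Fin 2 × Fin n₂ => x₁ a.1 * x₂ a.2) ∘ e)) = 0)) : ∃ K : Subgroup (Matrix.GeneralLinearGroup (Fin n) F), Cfsg.Geo.tensorProductSubgroup 2 n₂ e P ⊓ Cfsg.Geo.omegaGL Q < K ∧ K < Cfsg.Geo.omegaGL Q := by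
  classical
  obtain ⟨Q', rfl, hnd⟩ := exists_qf hQ
  have hc2 := two_eq_zero hq
  have hcard : 2 * n₂ = n := by
    have := Fintype.card_congr e
    rw [Fintype.card_prod, Fintype.card_fin, Fintype.card_fin, Fintype.card_fin] at this
    exact this.symm
  obtain ⟨c, hc, hform⟩ := hT
  have hc1 : c = 1 := by
    rcases eq_zero_or_one hq c with h | h
    · exact absurd h hc
    · exact h
  subst hc1
  obtain ⟨hdA, hA⟩ := gram_facts (SFm.of_symp hf₁)
  obtain ⟨hdB, hB⟩ := gram_facts (SFm.of_symp hf₂)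
  have g00 : gramMatrix f₁ 0 0 = 0 := hf₁.alternating _
  have g11 : gramMatrix f₁ 1 1 = 0 := hf₁.alternating _
  have g10 : gramMatrix f₁ 1 0 = gramMatrix f₁ 0 1 := by
    have h1 : gramMatrix f₁ 1 0 = - gramMatrix f₁ 0 1 := hf₁.skew _ _
    have h3 : - gramMatrix f₁ 0 1 = gramMatrix f₁ 0 1 := by linear_combination -(gramMatrix f₁ 0 1) * hc2
    rw [h1, h3]
  have g01 : gramMatrix f₁ 0 1 = 1 := by
    rcases eq_zero_or_one hq (gramMatrix f₁ 0 1) with h | h
    · exfalso
      apply hdA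
      rw [Matrix.det_fin_two, g00, g11, h, g10, h]
      ring
    · exact h
  have hpol : ∀ s t s' t', QuadraticMap.polar Q' (ce e P (T2 s t)) (ce e P (T2 s' t')) = f₂ s t' + f₂ t s' := by
    intro s t s' t'
    have h1 := hform (T2 s t) (T2 s' t')
    rw [fog_T2, g00, g11, g10, g01, ← hB, ← hB, ← hB, ← hB] at h1
    refine h1.trans ?_
    ring
  have hp1 : ∀ s, Q' (ce e P (T2 s 0)) = 0 := by
    intro s
    have h1 := hpure ![1, 0] s
    have h3 : (fun a : Fin 2 × Fin n₂ => (![1, 0] : Fin 2 → F) a.1 * s a.2) = T2 s 0 := by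
      funext ⟨i, j⟩
      fin_cases i
      · exact one_mul _
      · exact zero_mul _
    rw [h3] at h1
    exact h1
  have hp2 : ∀ t, Q' (ce e P (T2 0 t)) = 0 := by
    intro t
    have h1 := hpure ![0, 1] t
    have h3 : (fun a : Fin 2 × Fin n₂ => (![0, 1] : Fin 2 → F) a.1 * t a.2) = T2 0 t := by
      funext ⟨i, j⟩
      fin_cases i
      · exact zero_mul _
      · exact one_mul _
    rw [h3] at h1
    exact h1
  have hQQ : ∀ s t, Q' (ce e P (T2 s t)) = f₂ s t := by
    intro s t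
    have h1 : T2 s t = T2 s 0 + T2 0 t := by rw [T2_add, add_zero, zero_add]
    have h3 : f₂ (0 : Fin n₂ → F) 0 = 0 := hf₂.alternating 0
    rw [h1, map_add, QuadraticMap.map_add ⇑Q', hp1, hp2, hpol, h3]
    ring
  exact ten_two_omega hq (by omega) (by omega) hnd e P hf₂ hpol hQQ

end Cfsg.Agent.S5705
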