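import Cfsg.Statements.S5775
import Cfsg.Agent.H29_Lc2

set_option autoImplicit false
open Cfsg

namespace Cfsg.Agent.S5775

open Cfsg.Geo Cfsg.Agent.H29.Asc Cfsg.Agent.H29.Fm


/-- Every maximal subgroup of SL_3(q) is of one of the listed geometric types or lies in the residual class. Let F be a finite field with q elements and H a maximal subgroup of SL_3(F) (viewed inside GL_3(F)). Then H is the intersection with SL_3(F) of one of: the stabiliser of a proper non-zero subspace; for q ≥ 5, the stabiliser of a decomposition of F^3 into three independent lines; for q ≠ 4, the normaliser of a degree-3 subfield of the matrix algebra; a subfield group for a subfield F₀ with |F| = |F₀|^r, r prime; for q = p ≡ 1 mod 3 prime, the normaliser of an absolutely irreducible 3-subgroup R of exponent 3 with centre of order 3, all of whose characteristic abelian subgroups are cyclic, of order 3^(1+2m) for some m ≥ 1, with F the smallest field of characteristic p containing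 the cube roots of unity (so R is extraspecial of order 27); for q odd, the similarity group of a non-degenerate quadratic form; the similarity group of a non-degenerate unitary form — or else H lies in the residual class of the linear case (modulo scalars H is almost simple, with absolutely irreducible perfect socle preimage realisable over no proper subfield and fixing no non-degenerate quadratic, symplectic or unitary form). -/
theorem result {F : Type*} [Field F] [Fintype F] (H : Subgroup (Matrix.GeneralLinearGroup (Fin 3) F)) (hH : Cfsg.Geo.IsMaximalIn (Cfsg.Geo.specialLinear (Fin 3) F) H) :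
    (∃ W : Submodule F (Fin 3 → F), W ≠ ⊥ ∧ W ≠ ⊤ ∧ H = Cfsg.Geo.subspaceStabilizer W ⊓ Cfsg.Geo.specialLinear (Fin 3) F) ∨
    (5 ≤ Fintype.card F ∧ ∃ D : Fin 3 → Submodule F (Fin 3 → F), Cfsg.Geo.IsMDecomposition 1 D ∧ H = Cfsg.Geo.decompositionStabilizer D ⊓ Cfsg.Geo.specialLinear (Fin 3) F) ∨
    (Fintype.card F ≠ 4 ∧ ∃ K : Subalgebra F (Matrix (Fin 3) (Fin 3) F), Cfsg.Geo.IsFieldSubalgebra 3 K ∧ H = Cfsg.Geo.subalgebraNormalizer K ⊓ Cfsg.Geo.specialLinear (Fin 3) F) ∨
    (∃ (F₀ : Subfield F) (r : ℕ) (P : Matrix.GeneralLinearGroup (Fin 3) F), r.Prime ∧ Fintype.card F = Nat.card F₀ ^ r ∧ H = Cfsg.Geo.subfieldSubgroup F₀ P ⊓ Cfsg.Geo.specialLinear (Fin 3) F) ∨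
    (∃ (p : ℕ) (R : Subgroup (Matrix.GeneralLinearGroup (Fin 3) F)), p.Prime ∧ Fintype.card F = p ∧ p % 3 = 1 ∧ Cfsg.Geo.IsLinearSymplecticTypeData 3 R ∧ H = Cfsg.Geo.subgroupNormalizer R ⊓ Cfsg.Geo.specialLinear (Fin 3) F) ∨
    (Odd (Fintype.card F) ∧ ∃ Q : (Fin 3 → F) → F, Cfsg.Geo.IsNondegenerateQuadraticForm Q ∧ H = Cfsg.Geo.quadSimilarityGroup Q ⊓ Cfsg.Geo.specialLinear (Fin 3) F) ∨
    (∃ (σ : F ≃+* F) (f : (Fin 3 → F) → (Fin 3 → F) → F), Cfsg.Geo.IsUnitaryForm σ f ∧ H = Cfsg.Geo.similarityGroup f ⊓ Cfsg.Geo.specialLinear (Fin 3) F) ∨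
    Cfsg.Geo.InLinearResidualClass H := by
  have hq := Fintype.one_lt_card (α := F)
  rcases SLmax (by norm_num) hH with ⟨W, h1, h2, h3⟩ | ⟨t, m, D, htm, ht, e1, e2, e3, hD, h⟩ | ⟨r, K, hr, hrn, hK, h⟩ |
    ⟨n₁, n₂, e, P, h1, h2, h12, h3, h⟩ | h5 | ⟨r, m, R, hr, hnm, hR, h⟩ | ⟨m, t, e, P, h1, h2, h3, h⟩ | h8 | ⟨f, hf, he, h⟩ | h10 | h11
  · exact Or.inl ⟨W, h1, h2, h3⟩
  · have hm : m ∣ 3 := ⟨t, by rw [mul_comm]; exact htm.symm⟩
    have hmle := Nat.le_of_dvd (by norm_num) hm
    have hmpos : 0 < m := hD.pos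
    have hmc : (m = 1 ∧ t = 3) ∨ (m = 3 ∧ t = 1) := by
      interval_cases m <;> omega
    rcases hmc with ⟨rfl, rfl⟩ | ⟨rfl, rfl⟩
    · exact Or.inr (Or.inl ⟨by omega, D, hD, h⟩)
    · omega
  · have hrle := Nat.le_of_dvd (by norm_num) hrn
    have h2 := hr.two_le
    have hrc : r = 3 := by
      interval_cases r <;> first | omega | (exfalso; revert hr; decide)
    subst hrc
    by_cases h4 : Fintype.card F = 4
    · obtain ⟨F₀, r, P, hr, hcard, hle⟩ := singer_four h4 hK
      exact Or.inr (Or.inr (Or.inr (Or.inl ⟨F₀, r, P, hr, hcard, sub_of_le (by norm_num) hH hr hcard (h.le.trans hle)⟩)))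
    · exact Or.inr (Or.inr (Or.inl ⟨h4, K, hK, h⟩))
  · have hd : n₁ ∣ 3 := ⟨n₂, h12.symm⟩
    have hdle := Nat.le_of_dvd (by norm_num) hd
    exfalso
    interval_cases n₁ <;> omega
  · exact Or.inr (Or.inr (Or.inr (Or.inl h5)))
  · have a1 := prime_of_pow hr (by norm_num : Nat.Prime 3) hnm (by norm_num)
    subst a1
    obtain ⟨p, hp, hc, hmod⟩ := sty_small (by norm_num) hR
    exact Or.inr (Or.inr (Or.inr (Or.inr (Or.inl ⟨p, R, hp, hc, hmod, hR, h⟩))))
  · obtain ⟨rfl, rfl, h9⟩ := wr_small h1 h2 h3 (by norm_num)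
    omega
  · exact Or.inr (Or.inr (Or.inr (Or.inr (Or.inr (Or.inl h8)))))
  · exact absurd he (by decide)
  · exact Or.inr (Or.inr (Or.inr (Or.inr (Or.inr (Or.inr (Or.inl h10))))))
  · exact Or.inr (Or.inr (Or.inr (Or.inr (Or.inr (Or.inr (Or.inr (h11)))))))

end Cfsg.Agent.S5775
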