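import Cfsg.Statements.S5784
import Cfsg.Agent.H29_Vf5
import Cfsg.Agent.H29_Vf3
import Cfsg.Agent.H29_Un9

set_option autoImplicit false
open Cfsg

namespace Cfsg.Agent.S5784

open Cfsg.Geo Cfsg.Agent.H29.Asc Cfsg.Agent.H29.Fm

theorem threeLe {F : Type*} [Fintype F] [Nontrivial F] {q : ℕ} (hF : Fintype.card F = q ^ 2) (h2 : q ≠ 2) : 3 ≤ q := by
  have h1 := Fintype.one_lt_card (α := F)
  rw [hF] at h1
  have h0 : q ≠ 0 := by rintro rfl; norm_num at h1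
  have h3 : q ≠ 1 := by rintro rfl; norm_num at h1
  omega

theorem absurd_max {F : Type*} [Field F] [Fintype F] {q : ℕ} {H K : Subgroup (Matrix.GeneralLinearGroup (Fin 4) F)}
    (hH : Cfsg.Geo.IsMaximalIn (Cfsg.GU 4 F q ⊓ Cfsg.Geo.specialLinear (Fin 4) F) H)
    (h : H = K ⊓ (Cfsg.GU 4 F q ⊓ Cfsg.Geo.specialLinear (Fin 4) F))
    (hM : ∃ M : Subgroup (Matrix.GeneralLinearGroup (Fin 4) F), K ⊓ SUg 4 F q < M ∧ M < SUg 4 F q) : False := by
  obtain ⟨M, hM1, hM2⟩ := hM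
  have hM1' : H < M := by rw [h]; exact hM1
  rcases hH.2 M hM1'.le hM2.le with h5 | h5
  · exact absurd h5 (ne_of_gt hM1')
  · exact absurd h5 (ne_of_lt hM2)

theorem arith4 {F : Type*} [Field F] [Fintype F] {q p : ℕ} (hF : Fintype.card F = q ^ 2) (hp2 : 2 ≠ p)
    (hmin : IsMinimalFieldFor 4 p 2 F) : p.Prime ∧ q = p ∧ p % 4 = 3 := by
  obtain ⟨hp, -, hc, -, hd⟩ := hmin
  have hqp : q = p := by
    rw [hF] at hc
    exact Nat.pow_left_injective (n := 2) (by norm_num) hc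
  have h1 := hd 1 one_pos (by norm_num)
  rw [pow_one] at h1
  have hodd : p % 2 = 1 := by
    rcases hp.eq_two_or_odd with h | h
    · exact absurd h.symm hp2
    · exact h
  have h0 := hp.two_le
  refine ⟨hp, hqp, ?_⟩
  by_contra hcon
  apply h1
  exact ⟨p / 4, by omega⟩


/-- Every maximal subgroup of SU_4(q) is of one of the listed geometric types or lies in the residual class. Let F be the field with q² elements, f the standard unitary form Σ u_i v_i^q on F^4, and H a maximal subgroup of SU_4(q) (inside GL_4(F)). Then H is the intersection with SU_4(q) of one of: the stabiliser of a non-zero subspace on which f vanishes; the stabiliser of a non-degenerate 1-space; for q ≠ 3, the stabiliser of a decomposition into four mutually orthogonal non-degenerate 1-spaces; for q ≥ 3, of a decomposition into two orthogonal non-degenerate 2-spaces; for q ≥ 4, of a decomposition into two totally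 isotropic 2-spaces; a subfield group of odd prime index whose F₀-structure carries f; a subfield group of index 2 whose F₀-structure carries ζ f, vanishing on pairs (u, u), for some non-zero ζ with ζ + ζ^q = 0; for q odd, a subfield group of index 2 whose F₀-structure carries f; for q = p ≡ 3 mod 4 prime, the normaliser of an absolutely irreducible symplectic-type 2-group of exponent 4, order 64 and centre of order 4 inside the similarity group of f — or else H lies in the residual class of the unitary case. -/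
theorem result {F : Type*} [Field F] [Fintype F] (q : ℕ) (hF : Fintype.card F = q ^ 2) (H : Subgroup (Matrix.GeneralLinearGroup (Fin 4) F)) (hH : Cfsg.Geo.IsMaximalIn (Cfsg.GU 4 F q ⊓ Cfsg.Geo.specialLinear (Fin 4) F) H) :
    (∃ W : Submodule F (Fin 4 → F), W ≠ ⊥ ∧ Cfsg.Geo.IsTotallySingularFor (Cfsg.hermForm 4 F q) W ∧ H = Cfsg.Geo.subspaceStabilizer W ⊓ (Cfsg.GU 4 F q ⊓ Cfsg.Geo.specialLinear (Fin 4) F)) ∨
    (∃ W : Submodule F (Fin 4 → F), W ≠ ⊥ ∧ Cfsg.Geo.IsNondegenerateOn (Cfsg.hermForm 4 F q) W ∧ 2 * Module.finrank F W < 4 ∧ H = Cfsg.Geo.subspaceStabilizer W ⊓ (Cfsg.GU 4 F q ⊓ Cfsg.Geo.specialLinear (Fin 4) F)) ∨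
    (q ≠ 3 ∧ ∃ D : Fin 4 → Submodule F (Fin 4 → F), Cfsg.Geo.IsNondegenerateMDecomposition (Cfsg.hermForm 4 F q) 1 D ∧ H = Cfsg.Geo.decompositionStabilizer D ⊓ (Cfsg.GU 4 F q ⊓ Cfsg.Geo.specialLinear (Fin 4) F)) ∨
    (3 ≤ q ∧ ∃ D : Fin 2 → Submodule F (Fin 4 → F), Cfsg.Geo.IsNondegenerateMDecomposition (Cfsg.hermForm 4 F q) 2 D ∧ H = Cfsg.Geo.decompositionStabilizer D ⊓ (Cfsg.GU 4 F q ⊓ Cfsg.Geo.specialLinear (Fin 4) F)) ∨
    (4 ≤ q ∧ ∃ D : Fin 2 → Submodule F (Fin 4 → F), Cfsg.Geo.IsMDecomposition 2 D ∧ (∀ i, Cfsg.Geo.IsTotallySingularFor (Cfsg.hermForm 4 F q) (D i)) ∧ H = Cfsg.Geo.decompositionStabilizer D ⊓ (Cfsg.GU 4 F q ⊓ Cfsg.Geo.specialLinear (Fin 4) F)) ∨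
    (∃ (F₀ : Subfield F) (r : ℕ) (P : Matrix.GeneralLinearGroup (Fin 4) F), r.Prime ∧ Odd r ∧ Fintype.card F = Nat.card F₀ ^ r ∧ Cfsg.Geo.IsFormRationalStructure (Cfsg.hermForm 4 F q) F₀ 1 P ∧ H = Cfsg.Geo.subfieldSubgroup F₀ P ⊓ (Cfsg.GU 4 F q ⊓ Cfsg.Geo.specialLinear (Fin 4) F)) ∨
    (∃ (F₀ : Subfield F) (P : Matrix.GeneralLinearGroup (Fin 4) F) (ζ : F), Fintype.card F = Nat.card F₀ ^ 2 ∧ ζ ≠ 0 ∧ ζ + ζ ^ q = 0 ∧ Cfsg.Geo.IsFormRationalStructure (Cfsg.hermForm 4 F q) F₀ ζ P ∧ (∀ u : Fin 4 → F, (∀ i, u i ∈ F₀) → (Cfsg.hermForm 4 F q) (Matrix.mulVec (P : Matrix (Fin 4) (Fin 4) F) u) (Matrix.mulVec (P : Matrix (Fin 4) (Fin 4) F) u) = 0) ∧ H = Cfsg.Geo.subfieldSubgroup F₀ P ⊓ (Cfsg.GU 4 F q ⊓ Cfsg.Geo.specialLinear (Fin 4) F)) ∨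
    (Odd q ∧ ∃ (F₀ : Subfield F) (P : Matrix.GeneralLinearGroup (Fin 4) F), Fintype.card F = Nat.card F₀ ^ 2 ∧ Cfsg.Geo.IsFormRationalStructure (Cfsg.hermForm 4 F q) F₀ 1 P ∧ H = Cfsg.Geo.subfieldSubgroup F₀ P ⊓ (Cfsg.GU 4 F q ⊓ Cfsg.Geo.specialLinear (Fin 4) F)) ∨
    (∃ (p : ℕ) (R : Subgroup (Matrix.GeneralLinearGroup (Fin 4) F)), p.Prime ∧ q = p ∧ p % 4 = 3 ∧ Cfsg.Geo.IsSymplecticTypeGroup 2 R ∧ Cfsg.Geo.ActsAbsolutelyIrreducibly (Cfsg.Geo.matrixSet R) ∧ R ≤ Cfsg.Geo.similarityGroup (Cfsg.hermForm 4 F q) ∧ Nat.card R = 64 ∧ Nat.card (Subgroup.center R) = 4 ∧ H = Cfsg.Geo.subgroupNormalizer R ⊓ (Cfsg.GU 4 F q ⊓ Cfsg.Geo.specialLinear (Fin 4) F)) ∨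
    Cfsg.Geo.InUnitaryResidualClass H := by
  rcases SUmax4 hF (le_refl 4) hH with ⟨W, h1, h2, h⟩ | ⟨W, h1, h2, h3, h⟩ | ⟨t, m, D, htm, ht, hmq, hD, h⟩ | ⟨m, D, hm, hD, hts, h⟩ |
    ⟨r, K, hr, hro, hrn, hK, hadj, h⟩ | ⟨n₁, n₂, e, P, f₁, f₂, h2, h12, hmul, hnq, hf₁, hf₂, hst, h⟩ | h7 |
    ⟨hq, F₀, P, hc, hst, h⟩ | ⟨hev, F₀, P, ζ, hc, hζ0, hζ, hst, hiso, h⟩ |
    ⟨r, R, p, e, k, hR, habs, hsim, hrp, hmin, hcases, hn, h⟩ | ⟨k, t, e, P, f₁, hk3, ht2, hn, hnq, hf₁, hst, h⟩ | h12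
  · exact Or.inl ⟨W, h1, h2, h⟩
  · exact Or.inr (Or.inl ⟨W, h1, h2, h3, h⟩)
  · have hd : t ∣ 4 := ⟨m, htm.symm⟩
    have hdle := Nat.le_of_dvd (by norm_num) hd
    have hc : (t = 2 ∧ m = 2) ∨ (t = 4 ∧ m = 1) := by
      interval_cases t <;> omega
    rcases hc with ⟨rfl, rfl⟩ | ⟨rfl, rfl⟩
    · have hq2 : q ≠ 2 := fun h2 => hmq ⟨rfl, h2⟩
      exact Or.inr (Or.inr (Or.inr (Or.inl ⟨threeLe hF hq2, D, hD, h⟩)))
    · by_cases hq3 : q = 3
      · subst hq3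
        exact absurd (Cfsg.Agent.H29.Vf.nonmaxF3 hF hD) (fun hM => absurd_max hH h hM)
      · exact Or.inr (Or.inr (Or.inl ⟨hq3, D, hD, h⟩))
  · have hm2 : m = 2 := by omega
    subst hm2
    by_cases hq : q = 2 ∨ q = 3
    · exact absurd (Cfsg.Agent.H29.Vf.nonmaxTI hF hq hD hts) (fun hM => absurd_max hH h hM)
    · push Not at hq
      have h3 := threeLe hF hq.1
      have h4 : 4 ≤ q := by
        have := hq.2
        omega
      exact Or.inr (Or.inr (Or.inr (Or.inr (Or.inl ⟨h4, D, hD, hts, h⟩))))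
  · exfalso
    have hrle := Nat.le_of_dvd (by norm_num) hrn
    have h2 := hr.two_le
    interval_cases r
    · revert hro; decide
    · revert hrn; decide
    · revert hro; decide
  · exfalso
    have hd : n₁ ∣ 4 := ⟨n₂, hmul.symm⟩
    have hdle := Nat.le_of_dvd (by norm_num) hd
    interval_cases n₁ <;> omega
  · exact Or.inr (Or.inr (Or.inr (Or.inr (Or.inr (Or.inl h7)))))
  · exact Or.inr (Or.inr (Or.inr (Or.inr (Or.inr (Or.inr (Or.inr (Or.inl ⟨hq, F₀, P, hc, hst, h⟩)))))))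
  · exact Or.inr (Or.inr (Or.inr (Or.inr (Or.inr (Or.inr (Or.inl ⟨F₀, P, ζ, hc, hζ0, hζ, hst, hiso, h⟩))))))
  · have a1 : r = 2 := by
      have h1 : r ∣ 4 := by
        rw [hn]
        exact dvd_pow_self r (by rintro rfl; norm_num at hn)
      have h3 : r ∣ 2 ^ 2 := by
        norm_num
        exact h1
      exact (Nat.prime_dvd_prime_iff_eq hR.prime Nat.prime_two).1 (hR.prime.dvd_of_dvd_pow h3)
    subst a1
    have hk : k = 2 := by
      have h0 : 2 ^ k = 2 ^ 2 := by omega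
      exact Nat.pow_right_injective (le_refl 2) h0
    subst hk
    rcases hcases with ⟨ho, -⟩ | ⟨-, he, hc, hcR⟩
    · exact absurd ho (by decide)
    · subst he
      rw [hc] at hmin
      obtain ⟨hp, hqp, hp4⟩ := arith4 hF hrp hmin
      exact Or.inr (Or.inr (Or.inr (Or.inr (Or.inr (Or.inr (Or.inr (Or.inr (Or.inl ⟨p, R, hp, hqp, hp4, hR, habs, hsim, by rw [hcR]; norm_num, hc, h⟩))))))))
  · exfalso
    have h3 : 3 ^ 2 ≤ k ^ 2 := Nat.pow_le_pow_left hk3 2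
    have h4 : k ^ 2 ≤ k ^ t := Nat.pow_le_pow_right (by omega) ht2
    omega
  · exact Or.inr (Or.inr (Or.inr (Or.inr (Or.inr (Or.inr (Or.inr (Or.inr (Or.inr (h12)))))))))

end Cfsg.Agent.S5784
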