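import Cfsg.Statements.S5787
import Cfsg.Agent.H29_Sq6
import Cfsg.Agent.H29_Pq6
import Cfsg.Agent.H29_Pq4
import Cfsg.Agent.H29_Pq5

set_option autoImplicit false
open Cfsg

namespace Cfsg.Agent.S5787

open Cfsg.Geo Cfsg.Agent.H29.Asc Cfsg.Agent.H29.Fm Cfsg.Agent.H29.Trv

theorem fiveLe {F : Type*} [Fintype F] [Nontrivial F] (h : Odd (Fintype.card F)) (h3 : Fintype.card F ≠ 3) : 5 ≤ Fintype.card F := by
  have h1 := Fintype.one_lt_card (α := F)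
  rcases h with ⟨k, hk⟩
  omega

theorem stab_cases {F : Type*} [Field F] {D : Fin 2 → Submodule F (Fin 2 ⊕ Fin 2 → F)}
    {g : Matrix.GeneralLinearGroup (Fin 2 ⊕ Fin 2) F} (hg : g ∈ decompositionStabilizer D) :
    ((∀ x ∈ D 0, Matrix.mulVec (g : Matrix (Fin 2 ⊕ Fin 2) (Fin 2 ⊕ Fin 2) F) x ∈ D 0) ∧
      (∀ x ∈ D 1, Matrix.mulVec (g : Matrix (Fin 2 ⊕ Fin 2) (Fin 2 ⊕ Fin 2) F) x ∈ D 1)) ∨
    ((∀ x ∈ D 0, Matrix.mulVec (g : Matrix (Fin 2 ⊕ Fin 2) (Fin 2 ⊕ Fin 2) F) x ∈ D 1) ∧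
      (∀ x ∈ D 1, Matrix.mulVec (g : Matrix (Fin 2 ⊕ Fin 2) (Fin 2 ⊕ Fin 2) F) x ∈ D 0)) := by
  obtain ⟨σ, hσ⟩ := hg
  have hmem : ∀ i, ∀ x ∈ D i, Matrix.mulVec (g : Matrix (Fin 2 ⊕ Fin 2) (Fin 2 ⊕ Fin 2) F) x ∈ D (σ i) := by
    intro i x hx
    rw [← hσ i]
    exact ⟨x, hx, by rw [Matrix.toLin'_apply]⟩
  have hne : σ 0 ≠ σ 1 := fun h => absurd (σ.injective h) (by decide)
  have h01 : ∀ i : Fin 2, i = 0 ∨ i = 1 := by decide
  rcases h01 (σ 0) with h | h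
  · left
    have h1 : σ 1 = 1 := by
      rcases h01 (σ 1) with h' | h'
      · exact absurd (h.trans h'.symm) hne
      · exact h'
    exact ⟨fun x hx => h ▸ hmem 0 x hx, fun x hx => h1 ▸ hmem 1 x hx⟩
  · right
    have h1 : σ 1 = 0 := by
      rcases h01 (σ 1) with h' | h'
      · exact h'
      · exact absurd (h.trans h'.symm) hne
    exact ⟨fun x hx => h ▸ hmem 0 x hx, fun x hx => h1 ▸ hmem 1 x hx⟩


/-- Every maximal subgroup of Sp_4(q), q odd, is of one of the listed geometric types or lies in the residual class. Let F be a finite field of odd order q, f the standard alternating form on F^4 (coordinates Fin 2 ⊕ Fin 2), and H a maximal subgroup of the isometry group Sp_4(F) (inside GL_4(F)). Then H is the intersection with Sp_4(F) of one of: the stabiliser of a non-zero totally isotropic subspace; the stabiliser of a decomposition into two orthogonal non-degenerate 2-spaces;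 for q ≥ 5, of a decomposition into two totally isotropic 2-spaces; the normaliser of a degree-2 subfield K of the matrix algebra, self-adjoint with f(k v, v) = 0; for q ≥ 5, the normaliser of a degree-2 subfield closed under adjoints but not self-adjoint; a subfield group whose F₀-structure carries a non-zero multiple of f, |F| = |F₀|^r with r prime; for q = p prime, the normaliser of an absolutely irreducible symplectic-type 2-group of exponent 4, order 32, centre of order 2 and minus type inside the similarity group of f — or else H lies in the residual class of the symplectic case. -/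
theorem result {F : Type*} [Field F] [Fintype F] (hodd : Odd (Fintype.card F)) (H : Subgroup (Matrix.GeneralLinearGroup (Fin 2 ⊕ Fin 2) F)) (hH : Cfsg.Geo.IsMaximalIn (Cfsg.spGL 2 F) H) :
    (∃ W : Submodule F (Fin 2 ⊕ Fin 2 → F), W ≠ ⊥ ∧ Cfsg.Geo.IsTotallySingularFor (Cfsg.sympForm 2 F) W ∧ H = Cfsg.Geo.subspaceStabilizer W ⊓ Cfsg.spGL 2 F) ∨
    (∃ D : Fin 2 → Submodule F (Fin 2 ⊕ Fin 2 → F), Cfsg.Geo.IsNondegenerateMDecomposition (Cfsg.sympForm 2 F) 2 D ∧ H = Cfsg.Geo.decompositionStabilizer D ⊓ Cfsg.spGL 2 F) ∨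
    (5 ≤ Fintype.card F ∧ ∃ D : Fin 2 → Submodule F (Fin 2 ⊕ Fin 2 → F), Cfsg.Geo.IsMDecomposition 2 D ∧ (∀ i, Cfsg.Geo.IsTotallySingularFor (Cfsg.sympForm 2 F) (D i)) ∧ H = Cfsg.Geo.decompositionStabilizer D ⊓ Cfsg.spGL 2 F) ∨
    (∃ K : Subalgebra F (Matrix (Fin 2 ⊕ Fin 2) (Fin 2 ⊕ Fin 2) F), Cfsg.Geo.IsFieldSubalgebra 2 K ∧ Cfsg.Geo.IsSelfAdjointFor (Cfsg.sympForm 2 F) K ∧ (∀ k ∈ K, ∀ v : (Fin 2 ⊕ Fin 2 → F), (Cfsg.sympForm 2 F) (Matrix.mulVec k v) v = 0) ∧ H = Cfsg.Geo.subalgebraNormalizer K ⊓ Cfsg.spGL 2 F) ∨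
    (5 ≤ Fintype.card F ∧ ∃ K : Subalgebra F (Matrix (Fin 2 ⊕ Fin 2) (Fin 2 ⊕ Fin 2) F), Cfsg.Geo.IsFieldSubalgebra 2 K ∧ Cfsg.Geo.IsAdjointClosedFor (Cfsg.sympForm 2 F) K ∧ ¬ Cfsg.Geo.IsSelfAdjointFor (Cfsg.sympForm 2 F) K ∧ H = Cfsg.Geo.subalgebraNormalizer K ⊓ Cfsg.spGL 2 F) ∨
    (∃ (F₀ : Subfield F) (r : ℕ) (P : Matrix.GeneralLinearGroup (Fin 2 ⊕ Fin 2) F) (ζ : F), r.Prime ∧ Fintype.card F = Nat.card F₀ ^ r ∧ ζ ≠ 0 ∧ Cfsg.Geo.IsFormRationalStructure (Cfsg.sympForm 2 F) F₀ ζ P ∧ H = Cfsg.Geo.subfieldSubgroup F₀ P ⊓ Cfsg.spGL 2 F) ∨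
    (∃ (p : ℕ) (R : Subgroup (Matrix.GeneralLinearGroup (Fin 2 ⊕ Fin 2) F)), p.Prime ∧ Fintype.card F = p ∧ Cfsg.Geo.IsSymplecticTypeGroup 2 R ∧ Cfsg.Geo.ActsAbsolutelyIrreducibly (Cfsg.Geo.matrixSet R) ∧ R ≤ Cfsg.Geo.similarityGroup (Cfsg.sympForm 2 F) ∧ Nat.card R = 32 ∧ Nat.card (Subgroup.center R) = 2 ∧ Cfsg.Geo.IsOfMinusType 2 R ∧ H = Cfsg.Geo.subgroupNormalizer R ⊓ Cfsg.spGL 2 F) ∨
    Cfsg.Geo.InSymplecticResidualClass H := by
  have hodd' := hodd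
  have hι : Fintype.card (Fin 2 ⊕ Fin 2) = 4 := by simp
  have hsy : IsSymplecticForm (Cfsg.sympForm 2 F) := Cfsg.Agent.H29.Fm.symp_std 2 F
  have hSp : ∀ g : Matrix.GeneralLinearGroup (Fin 2 ⊕ Fin 2) F, g ∈ Cfsg.spGL 2 F ↔ ∀ x y,
      Cfsg.sympForm 2 F (Matrix.mulVec (g : Matrix (Fin 2 ⊕ Fin 2) (Fin 2 ⊕ Fin 2) F) x)
        (Matrix.mulVec (g : Matrix (Fin 2 ⊕ Fin 2) (Fin 2 ⊕ Fin 2) F) y) = Cfsg.sympForm 2 F x y := fun g => mem_spGL_iff g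
  rcases SPmax le_rfl hH with ⟨W, h1, h2, h⟩ | ⟨W, h1, h2, h3, hev, h⟩ | ⟨t, k, D, htk, ht, hev, hk0, hkq, hD, h⟩ |
    ⟨-, D, hD, hts, h⟩ | ⟨r, K, hr, hrm, hK, hsa, halt, h⟩ | ⟨-, K, hK, hadj, hns, h⟩ |
    ⟨-, n₁, n₂, e, P, f₁, f₂, hev, h2, h3, h12, hnq, hf₁, hf₂, hst, h⟩ | h8 |
    ⟨p, R, k, hp, hpo, hpc, hR, habs, hsim, hcR, hcZ, hmin, hnk, h⟩ | ⟨-, k, t, e, P, f₁, hk2, hot, ht3, hkt, hne, hf₁, hst, h⟩ | ⟨hnodd, Q, hQ, hpol, h⟩ | h12
  · exact Or.inl ⟨W, h1, h2, h⟩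
  · exfalso
    rcases hev with ⟨j, hj⟩
    have h0 : Module.finrank F W = 0 := by omega
    exact h1 (Submodule.finrank_eq_zero.1 h0)
  · have hk : k ∣ 4 := ⟨t, by rw [mul_comm]; exact htk.symm⟩
    have hkle := Nat.le_of_dvd (by norm_num) hk
    rcases hev with ⟨j, hj⟩
    have hkc : k = 2 ∧ t = 2 := by
      have hj0 : 0 < j := by omega
      have hjm : j ≤ 2 := by omega
      subst hj
      interval_cases j <;> omega
    obtain ⟨rfl, rfl⟩ := hkc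
    exact Or.inr (Or.inl ⟨D, hD, h⟩)
  · by_cases hq3 : Fintype.card F = 3
    · exfalso
      have hsup : D 0 ⊔ D 1 = ⊤ := by
        rw [eq_top_iff, ← hD.iSup_eq_top]
        apply iSup_le
        intro i
        have h01 : i = 0 ∨ i = 1 := by revert i; decide
        rcases h01 with rfl | rfl
        · exact le_sup_left
        · exact le_sup_right
      have hle : H ≤ Cfsg.spGL 2 F := hH.1.le
      obtain ⟨K, hK1, hK2⟩ := Cfsg.Agent.H29.Pq.nonmaxD hq3 hι hsy (hts 0) (hts 1) hsup (hD.finrank_eq 0) (hD.finrank_eq 1) hSp hle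
        (fun g hg => stab_cases (Subgroup.mem_inf.1 (h ▸ hg)).1)
      rcases hH.2 K hK1.le hK2.le with h5 | h5
      · exact absurd h5 (ne_of_gt hK1)
      · exact absurd h5 (ne_of_lt hK2)
    · exact Or.inr (Or.inr (Or.inl ⟨fiveLe hodd hq3, D, hD, hts, h⟩))
  · have hrle := Nat.le_of_dvd (by norm_num) hrm
    have h2 := hr.two_le
    obtain rfl : r = 2 := by omega
    exact Or.inr (Or.inr (Or.inr (Or.inl ⟨K, hK, hsa, halt, h⟩)))
  · by_cases hq3 : Fintype.card F = 3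
    · exfalso
      obtain ⟨M, hM1, hM2⟩ := Cfsg.Agent.H29.Pq.nonmaxK hq3 hι hsy hK hadj hns hSp
      rw [← h] at hM1
      rcases hH.2 M hM1.le hM2.le with h5 | h5
      · exact absurd h5 (ne_of_gt hM1)
      · exact absurd h5 (ne_of_lt hM2)
    · exact Or.inr (Or.inr (Or.inr (Or.inr (Or.inl ⟨fiveLe hodd hq3, K, hK, hadj, hns, h⟩))))
  · exfalso
    have h4 : 2 * 3 ≤ n₁ * n₂ := Nat.mul_le_mul h2 h3
    omega
  · exact Or.inr (Or.inr (Or.inr (Or.inr (Or.inr (Or.inl h8)))))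
  · have hk : k = 2 := by
      have h0 : 2 ^ k = 2 ^ 2 := by omega
      exact Nat.pow_right_injective (by norm_num) h0
    subst hk
    exact Or.inr (Or.inr (Or.inr (Or.inr (Or.inr (Or.inr (Or.inl ⟨p, R, hp, hpc, hR, habs, hsim, by rw [hcR]; norm_num, hcZ, hmin, h⟩))))))
  · exfalso
    have h3 : k ^ 3 ≤ k ^ t := Nat.pow_le_pow_right (by omega) ht3
    have h4 : 2 ^ 3 ≤ k ^ 3 := Nat.pow_le_pow_left hk2 3
    omega
  · exact absurd hodd hnodd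
  · exact Or.inr (Or.inr (Or.inr (Or.inr (Or.inr (Or.inr (Or.inr (h12)))))))

end Cfsg.Agent.S5787
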