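import Cfsg.Statements.S5790
import Cfsg.Agent.H29_Sq6

set_option autoImplicit false
open Cfsg

namespace Cfsg.Agent.S5790

open Cfsg.Geo Cfsg.Agent.H29.Asc Cfsg.Agent.H29.Fm


/-- Every maximal subgroup of Sp_4(q), q ≥ 4 even, is of one of the listed geometric types or lies in the residual class. Let F be a finite field of even order q ≥ 4, f the standard alternating form on F^4 (coordinates Fin 2 ⊕ Fin 2), and H a maximal subgroup of Sp_4(F) (inside GL_4(F)). Then H is the intersection with Sp_4(F) of one of: the stabiliser of a non-zero totally isotropic subspace; the stabiliser of a decomposition into two orthogonal non-degenerate 2-spaces; the normaliser of a degree-2 subfield K of the matrix algebra, self-adjoint with f(k v, v) = 0; a subfield group whose F₀-structure carries a non-zero multiple of f, |F| = |F₀|^r with r prime; the similarity group of a non-degenerate quadratic form whose polar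 form is f — or else H lies in the residual class of the symplectic case. -/
theorem result {F : Type*} [Field F] [Fintype F] (heven : ¬ Odd (Fintype.card F)) (h4 : 4 ≤ Fintype.card F) (H : Subgroup (Matrix.GeneralLinearGroup (Fin 2 ⊕ Fin 2) F)) (hH : Cfsg.Geo.IsMaximalIn (Cfsg.spGL 2 F) H) :
    (∃ W : Submodule F (Fin 2 ⊕ Fin 2 → F), W ≠ ⊥ ∧ Cfsg.Geo.IsTotallySingularFor (Cfsg.sympForm 2 F) W ∧ H = Cfsg.Geo.subspaceStabilizer W ⊓ Cfsg.spGL 2 F) ∨
    (∃ D : Fin 2 → Submodule F (Fin 2 ⊕ Fin 2 → F), Cfsg.Geo.IsNondegenerateMDecomposition (Cfsg.sympForm 2 F) 2 D ∧ H = Cfsg.Geo.decompositionStabilizer D ⊓ Cfsg.spGL 2 F) ∨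
    (∃ K : Subalgebra F (Matrix (Fin 2 ⊕ Fin 2) (Fin 2 ⊕ Fin 2) F), Cfsg.Geo.IsFieldSubalgebra 2 K ∧ Cfsg.Geo.IsSelfAdjointFor (Cfsg.sympForm 2 F) K ∧ (∀ k ∈ K, ∀ v : (Fin 2 ⊕ Fin 2 → F), (Cfsg.sympForm 2 F) (Matrix.mulVec k v) v = 0) ∧ H = Cfsg.Geo.subalgebraNormalizer K ⊓ Cfsg.spGL 2 F) ∨
    (∃ (F₀ : Subfield F) (r : ℕ) (P : Matrix.GeneralLinearGroup (Fin 2 ⊕ Fin 2) F) (ζ : F), r.Prime ∧ Fintype.card F = Nat.card F₀ ^ r ∧ ζ ≠ 0 ∧ Cfsg.Geo.IsFormRationalStructure (Cfsg.sympForm 2 F) F₀ ζ P ∧ H = Cfsg.Geo.subfieldSubgroup F₀ P ⊓ Cfsg.spGL 2 F) ∨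
    (∃ Q : (Fin 2 ⊕ Fin 2 → F) → F, Cfsg.Geo.IsNondegenerateQuadraticForm Q ∧ (∀ u v : (Fin 2 ⊕ Fin 2 → F), QuadraticMap.polar Q u v = (Cfsg.sympForm 2 F) u v) ∧ H = Cfsg.Geo.quadSimilarityGroup Q ⊓ Cfsg.spGL 2 F) ∨
    Cfsg.Geo.InSymplecticResidualClass H := by
  rcases SPmax (by norm_num) hH with ⟨W, h1, h2, h⟩ | ⟨W, h1, h2, h3, hev, h⟩ | ⟨t, k, D, htk, ht, hev, hk0, hkq, hD, h⟩ |
    ⟨hodd, D, hD, hts, h⟩ | ⟨r, K, hr, hrm, hK, hsa, halt, h⟩ | ⟨hodd, K, hK, hadj, hns, h⟩ |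
    ⟨hodd, n₁, n₂, e, P, f₁, f₂, hev, h2, h3, h12, hnq, hf₁, hf₂, hst, h⟩ | h8 |
    ⟨p, R, k, hp, hpo, hpc, hR, habs, hsim, hcR, hcZ, hmin, hnk, h⟩ | ⟨hodd, k, t, e, P, f₁, hk2, hot, ht3, hkt, hne, hf₁, hst, h⟩ | ⟨hnodd, Q, hQ, hpol, h⟩ | h12
  · exact Or.inl ⟨W, h1, h2, h⟩
  · exfalso
    rcases hev with ⟨j, hj⟩
    have h4 : Module.finrank F W = 0 := by omega
    exact h1 (Submodule.finrank_eq_zero.1 h4)
  · have hk : k ∣ 4 := ⟨t, by rw [mul_comm]; exact htk.symm⟩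
    have hkle := Nat.le_of_dvd (by norm_num) hk
    rcases hev with ⟨j, hj⟩
    have hkc : (k = 2 ∧ t = 2) := by
      have hj0 : 0 < j := by omega
      have hjm : j ≤ 2 := by omega
      subst hj
      interval_cases j <;> omega
    rcases hkc with ⟨rfl, rfl⟩
    · exact Or.inr (Or.inl ⟨D, hD, h⟩)
  · exact absurd hodd heven
  · have hrle := Nat.le_of_dvd (by norm_num) hrm
    have h2 := hr.two_le
    have hrc : r = 2 := by
      interval_cases r <;> first | omega | (exfalso; revert hr; decide)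
    rcases hrc with rfl
    · exact Or.inr (Or.inr (Or.inl ⟨K, hK, hsa, halt, h⟩))
  · exact absurd hodd heven
  · exact absurd hodd heven
  · exact Or.inr (Or.inr (Or.inr (Or.inl h8)))
  · exact absurd (hpc ▸ hpo) heven
  · exact absurd hodd heven
  · exact Or.inr (Or.inr (Or.inr (Or.inr (Or.inl ⟨Q, hQ, hpol, h⟩))))
  · exact Or.inr (Or.inr (Or.inr (Or.inr (Or.inr (h12)))))

end Cfsg.Agent.S5790
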