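import Cfsg.Statements.S5793
import Cfsg.Agent.H29_Max7

set_option autoImplicit false
open Cfsg

namespace Cfsg.Agent.S5793

open Cfsg.Geo Cfsg.Agent.H29.Asc


/-- Every maximal subgroup of SL_5(q) is of one of the listed geometric types or lies in the residual class. Let F be a finite field with q elements (p its characteristic) and H a maximal subgroup of SL_5(F) (inside GL_5(F)). Then H is the intersection with SL_5(F) of one of: the stabiliser of a proper non-zero subspace; for q ≥ 5, the stabiliser of a decomposition into 5 independent 1-spaces; the normaliser of a degree-5 subfield of the matrix algebra; a subfield group for a subfield F₀ with |F| = |F₀|^r, r prime; for q = p prime with p ≡ 1 mod 5, the normaliser of an absolutely irreducible 5-subgroup R of exponent 5 and order 5^(1+2m) with centre of order 5, all of whose characteristic abelian subgroups are cyclic, F being the smallest field of characteristic p containing the fifth roots of unity (here R is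 extraspecial of order 125); for q odd, the similarity group of a non-degenerate quadratic form; the similarity group of a non-degenerate unitary form — or else H lies in the residual class of the linear case (modulo scalars H is almost simple, with absolutely irreducible perfect socle preimage realisable over no proper subfield and fixing no non-degenerate quadratic, symplectic or unitary form). -/
theorem result {F : Type*} [Field F] [Fintype F] (H : Subgroup (Matrix.GeneralLinearGroup (Fin 5) F)) (hH : Cfsg.Geo.IsMaximalIn (Cfsg.Geo.specialLinear (Fin 5) F) H) :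
    (∃ W : Submodule F (Fin 5 → F), W ≠ ⊥ ∧ W ≠ ⊤ ∧ H = Cfsg.Geo.subspaceStabilizer W ⊓ Cfsg.Geo.specialLinear (Fin 5) F) ∨
    (5 ≤ Fintype.card F ∧ ∃ D : Fin 5 → Submodule F (Fin 5 → F), Cfsg.Geo.IsMDecomposition 1 D ∧ H = Cfsg.Geo.decompositionStabilizer D ⊓ Cfsg.Geo.specialLinear (Fin 5) F) ∨
    (∃ K : Subalgebra F (Matrix (Fin 5) (Fin 5) F), Cfsg.Geo.IsFieldSubalgebra 5 K ∧ H = Cfsg.Geo.subalgebraNormalizer K ⊓ Cfsg.Geo.specialLinear (Fin 5) F) ∨
    (∃ (F₀ : Subfield F) (r : ℕ) (P : Matrix.GeneralLinearGroup (Fin 5) F), r.Prime ∧ Fintype.card F = Nat.card F₀ ^ r ∧ H = Cfsg.Geo.subfieldSubgroup F₀ P ⊓ Cfsg.Geo.specialLinear (Fin 5) F) ∨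
    ((∃ p : ℕ, p.Prime ∧ Fintype.card F = p ∧ (p % 5 = 1)) ∧ ∃ R : Subgroup (Matrix.GeneralLinearGroup (Fin 5) F), Cfsg.Geo.IsLinearSymplecticTypeData 5 R ∧ H = Cfsg.Geo.subgroupNormalizer R ⊓ Cfsg.Geo.specialLinear (Fin 5) F) ∨
    (Odd (Fintype.card F) ∧ ∃ Q : (Fin 5 → F) → F, Cfsg.Geo.IsNondegenerateQuadraticForm Q ∧ H = Cfsg.Geo.quadSimilarityGroup Q ⊓ Cfsg.Geo.specialLinear (Fin 5) F) ∨
    (∃ (σ : F ≃+* F) (f : (Fin 5 → F) → (Fin 5 → F) → F), Cfsg.Geo.IsUnitaryForm σ f ∧ H = Cfsg.Geo.similarityGroup f ⊓ Cfsg.Geo.specialLinear (Fin 5) F) ∨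
    Cfsg.Geo.InLinearResidualClass H := by
  have hq := Fintype.one_lt_card (α := F)
  rcases SLmax (by norm_num) hH with ⟨W, h1, h2, h3⟩ | ⟨t, m, D, htm, ht, e1, e2, e3, hD, h⟩ | ⟨r, K, hr, hrn, hK, h⟩ |
    ⟨n₁, n₂, e, P, h1, h2, h12, h3, h⟩ | h5 | ⟨r, m, R, hr, hnm, hR, h⟩ | ⟨m, t, e, P, h1, h2, h3, h⟩ | h8 | ⟨f, hf, he, h⟩ | h10 | h11
  · exact Or.inl ⟨W, h1, h2, h3⟩
  · have hm : m ∣ 5 := ⟨t, by rw [mul_comm]; exact htm.symm⟩
    have hmle := Nat.le_of_dvd (by norm_num) hm
    have hmpos : 0 < m := hD.pos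
    have hmc : (m = 1 ∧ t = 5) ∨ (m = 5 ∧ t = 1) := by
      interval_cases m <;> omega
    rcases hmc with ⟨rfl, rfl⟩ | ⟨rfl, rfl⟩
    · exact Or.inr (Or.inl ⟨by omega, D, hD, h⟩)
    · omega
  · have hrle := Nat.le_of_dvd (by norm_num) hrn
    have h2 := hr.two_le
    have hrc : r = 5 := by
      interval_cases r <;> first | omega | (exfalso; revert hr; decide)
    rcases hrc with rfl
    · exact Or.inr (Or.inr (Or.inl ⟨K, hK, h⟩))
  · have hd : n₁ ∣ 5 := ⟨n₂, h12.symm⟩
    have hdle := Nat.le_of_dvd (by norm_num) hd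
    exfalso
    interval_cases n₁ <;> omega
  · exact Or.inr (Or.inr (Or.inr (Or.inl h5)))
  · skip
    have a1 := prime_of_pow hr (by norm_num : Nat.Prime 5) hnm (by norm_num)
    subst a1
    obtain ⟨p, hp, hc, hmod⟩ := sty_small (by norm_num) hR
    exact Or.inr (Or.inr (Or.inr (Or.inr (Or.inl ⟨⟨p, hp, hc, hmod⟩, R, hR, h⟩))))
  · obtain ⟨rfl, rfl, h9⟩ := wr_small h1 h2 h3 (by norm_num)
    omega
  · exact Or.inr (Or.inr (Or.inr (Or.inr (Or.inr (Or.inl h8)))))
  · exact absurd he (by decide)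
  · exact Or.inr (Or.inr (Or.inr (Or.inr (Or.inr (Or.inr (Or.inl h10))))))
  · exact Or.inr (Or.inr (Or.inr (Or.inr (Or.inr (Or.inr (Or.inr (h11)))))))

end Cfsg.Agent.S5793
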