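import Cfsg.Statements.S5796
import Cfsg.Agent.H29_Wr8
import Cfsg.Agent.H29_Ut6
import Cfsg.Agent.H29_Un9

set_option autoImplicit false
open Cfsg

namespace Cfsg.Agent.S5796

open Cfsg.Geo Cfsg.Agent.H29.Asc Cfsg.Agent.H29.Fm

theorem threeLe {F : Type*} [Fintype F] [Nontrivial F] {q : ℕ} (hF : Fintype.card F = q ^ 2) (h2 : q ≠ 2) : 3 ≤ q := by
  have h1 := Fintype.one_lt_card (α := F)
  rw [hF] at h1
  have h0 : q ≠ 0 := by rintro rfl; norm_num at h1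
  have h3 : q ≠ 1 := by rintro rfl; norm_num at h1
  omega


/-- Every maximal subgroup of SU_5(q) is of one of the listed geometric types or lies in the residual class. Let F be the field with q² elements (characteristic p), f the standard unitary form Σ u_i v_i^q on F^5, and H a maximal subgroup of SU_5(q) (inside GL_5(F)). Then H is the intersection with SU_5(q) of one of: the stabiliser of a non-zero totally isotropic subspace; the stabiliser of a non-degenerate 1-space or 2-space; the stabiliser of a decomposition into five mutually orthogonal non-degenerate 1-spaces; for q ≥ 3, the normaliser of an adjoint-closed degree-5 subfield of the matrix algebra; a subfield group of odd prime index whose F₀-structure carries f; for q odd, a subfield group of index 2 whose F₀-structure carries f; for q = p ≡ 4 mod 5 or q = p² with p ≡ 2, 3 mod 5, the normaliser of an absolutely irreducible 5-group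 of exponent 5, order 125 and centre of order 5 with all characteristic abelian subgroups cyclic inside the similarity group of f — or else H lies in the residual class of the unitary case. -/
theorem result {F : Type*} [Field F] [Fintype F] (q : ℕ) (hF : Fintype.card F = q ^ 2) (H : Subgroup (Matrix.GeneralLinearGroup (Fin 5) F)) (hH : Cfsg.Geo.IsMaximalIn (Cfsg.GU 5 F q ⊓ Cfsg.Geo.specialLinear (Fin 5) F) H) :
    (∃ W : Submodule F (Fin 5 → F), W ≠ ⊥ ∧ Cfsg.Geo.IsTotallySingularFor (Cfsg.hermForm 5 F q) W ∧ H = Cfsg.Geo.subspaceStabilizer W ⊓ (Cfsg.GU 5 F q ⊓ Cfsg.Geo.specialLinear (Fin 5) F)) ∨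
    (∃ W : Submodule F (Fin 5 → F), W ≠ ⊥ ∧ Cfsg.Geo.IsNondegenerateOn (Cfsg.hermForm 5 F q) W ∧ 2 * Module.finrank F W < 5 ∧ H = Cfsg.Geo.subspaceStabilizer W ⊓ (Cfsg.GU 5 F q ⊓ Cfsg.Geo.specialLinear (Fin 5) F)) ∨
    (∃ D : Fin 5 → Submodule F (Fin 5 → F), Cfsg.Geo.IsNondegenerateMDecomposition (Cfsg.hermForm 5 F q) 1 D ∧ H = Cfsg.Geo.decompositionStabilizer D ⊓ (Cfsg.GU 5 F q ⊓ Cfsg.Geo.specialLinear (Fin 5) F)) ∨
    (3 ≤ q ∧ ∃ K : Subalgebra F (Matrix (Fin 5) (Fin 5) F), Cfsg.Geo.IsFieldSubalgebra 5 K ∧ Cfsg.Geo.IsAdjointClosedFor (Cfsg.hermForm 5 F q) K ∧ H = Cfsg.Geo.subalgebraNormalizer K ⊓ (Cfsg.GU 5 F q ⊓ Cfsg.Geo.specialLinear (Fin 5) F)) ∨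
    (∃ (F₀ : Subfield F) (r : ℕ) (P : Matrix.GeneralLinearGroup (Fin 5) F), r.Prime ∧ Odd r ∧ Fintype.card F = Nat.card F₀ ^ r ∧ Cfsg.Geo.IsFormRationalStructure (Cfsg.hermForm 5 F q) F₀ 1 P ∧ H = Cfsg.Geo.subfieldSubgroup F₀ P ⊓ (Cfsg.GU 5 F q ⊓ Cfsg.Geo.specialLinear (Fin 5) F)) ∨
    (Odd q ∧ ∃ (F₀ : Subfield F) (P : Matrix.GeneralLinearGroup (Fin 5) F), Fintype.card F = Nat.card F₀ ^ 2 ∧ Cfsg.Geo.IsFormRationalStructure (Cfsg.hermForm 5 F q) F₀ 1 P ∧ H = Cfsg.Geo.subfieldSubgroup F₀ P ⊓ (Cfsg.GU 5 F q ⊓ Cfsg.Geo.specialLinear (Fin 5) F)) ∨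
    (∃ (p : ℕ) (R : Subgroup (Matrix.GeneralLinearGroup (Fin 5) F)), p.Prime ∧ CharP F p ∧ ((q = p ∧ p % 5 = 4) ∨ (q = p ^ 2 ∧ (p % 5 = 2 ∨ p % 5 = 3))) ∧ Cfsg.Geo.IsSymplecticTypeGroup 5 R ∧ Cfsg.Geo.ActsAbsolutelyIrreducibly (Cfsg.Geo.matrixSet R) ∧ R ≤ Cfsg.Geo.similarityGroup (Cfsg.hermForm 5 F q) ∧ Nat.card R = 125 ∧ Nat.card (Subgroup.center R) = 5 ∧ H = Cfsg.Geo.subgroupNormalizer R ⊓ (Cfsg.GU 5 F q ⊓ Cfsg.Geo.specialLinear (Fin 5) F)) ∨
    Cfsg.Geo.InUnitaryResidualClass H := by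
  rcases SUmax' hF (by norm_num) hH with ⟨W, h1, h2, h⟩ | ⟨W, h1, h2, h3, h⟩ | ⟨t, m, D, htm, ht, hmq, hD, h⟩ | ⟨m, D, hm, hD, hts, h⟩ |
    ⟨r, K, hr, hro, hrn, hK, hadj, h⟩ | ⟨n₁, n₂, e, P, f₁, f₂, h2, h12, hmul, hnq, hf₁, hf₂, hst, h⟩ | h7 |
    ⟨hq, F₀, P, hc, hst, h⟩ | ⟨hev, F₀, P, ζ, hc, hζ0, hζ, hst, hiso, h⟩ |
    ⟨r, R, p, e, k, hR, habs, hsim, hrp, hmin, hcases, hn, h⟩ | ⟨k, t, e, P, f₁, hk3, ht2, hn, hnq, hf₁, hst, h⟩ | h12
  · exact Or.inl ⟨W, h1, h2, h⟩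
  · exact Or.inr (Or.inl ⟨W, h1, h2, h3, h⟩)
  · have hd : t ∣ 5 := ⟨m, htm.symm⟩
    have hdle := Nat.le_of_dvd (by norm_num) hd
    have hc : t = 5 ∧ m = 1 := by
      interval_cases t <;> omega
    obtain ⟨rfl, rfl⟩ := hc
    exact Or.inr (Or.inr (Or.inl ⟨D, hD, h⟩))
  · exfalso; omega
  · have hrle := Nat.le_of_dvd (by norm_num) hrn
    have h2 := hr.two_le
    have hrc : r = 5 := by
      interval_cases r <;> first | rfl | (exfalso; revert hro; decide) | (exfalso; revert hrn; decide)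
    subst hrc
    by_cases hq2 : q = 2
    · exfalso
      subst hq2
      obtain ⟨M, hM1, hM2⟩ := Cfsg.Agent.H29.Ut.nonmax5 hF hK hadj
      rw [← h] at hM1
      rcases hH.2 M hM1.le hM2.le with h5 | h5
      · exact absurd h5 (ne_of_gt hM1)
      · exact absurd h5 (ne_of_lt hM2)
    · exact Or.inr (Or.inr (Or.inr (Or.inl ⟨threeLe hF hq2, K, hK, hadj, h⟩)))
  · exfalso
    have hd : n₁ ∣ 5 := ⟨n₂, hmul.symm⟩
    have hdle := Nat.le_of_dvd (by norm_num) hd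
    interval_cases n₁ <;> omega
  · exact Or.inr (Or.inr (Or.inr (Or.inr (Or.inl h7))))
  · exact Or.inr (Or.inr (Or.inr (Or.inr (Or.inr (Or.inl ⟨hq, F₀, P, hc, hst, h⟩)))))
  · exfalso; revert hev; decide
  · have a1 := prime_of_pow hR.prime (by norm_num : Nat.Prime 5) hn (by norm_num)
    subst a1
    have hk : k = 1 := by
      have h0 : 5 ^ k = 5 ^ 1 := by omega
      exact Nat.pow_right_injective (by norm_num) h0
    subst hk
    rcases hcases with ⟨ho, hc, -, hcR⟩ | ⟨h2, -⟩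
    · rw [hc] at hmin
      obtain ⟨hp, hch, hqp⟩ := su_five hF hrp hmin
      exact Or.inr (Or.inr (Or.inr (Or.inr (Or.inr (Or.inr (Or.inl ⟨p, R, hp, hch, hqp, hR, habs, hsim, by rw [hcR]; norm_num, hc, h⟩))))))
    · exact absurd h2 (by norm_num)
  · exfalso
    have h3 : 3 ^ 2 ≤ k ^ 2 := Nat.pow_le_pow_left hk3 2
    have h4 : k ^ 2 ≤ k ^ t := Nat.pow_le_pow_right (by omega) ht2
    omega
  · exact Or.inr (Or.inr (Or.inr (Or.inr (Or.inr (Or.inr (Or.inr (h12)))))))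

end Cfsg.Agent.S5796
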