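import Cfsg.Statements.S5802
import Cfsg.Agent.H29_Wr8
import Cfsg.Agent.H29_Us8

set_option autoImplicit false
open Cfsg

namespace Cfsg.Agent.S5802

open Cfsg.Geo Cfsg.Agent.H29.Asc Cfsg.Agent.H29.Fm

theorem threeLe {F : Type*} [Fintype F] [Nontrivial F] {q : ℕ} (hF : Fintype.card F = q ^ 2) (h2 : q ≠ 2) : 3 ≤ q := by
  have h1 := Fintype.one_lt_card (α := F)
  rw [hF] at h1
  have h0 : q ≠ 0 := by rintro rfl; norm_num at h1
  have h3 : q ≠ 1 := by rintro rfl; norm_num at h1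
  omega


/-- Every maximal subgroup of SU_6(q) is of one of the listed geometric types or lies in the residual class. Let F be the field with q² elements, f the standard unitary form Σ u_i v_i^q on F^6, and H a maximal subgroup of SU_6(q) (inside GL_6(F)). Then H is the intersection with SU_6(q) of one of: the stabiliser of a non-zero totally isotropic subspace; the stabiliser of a non-degenerate 1- or 2-space; for q ≥ 3, the stabiliser of a decomposition into six mutually orthogonal non-degenerate 1-spaces; for q ≥ 3, of a decomposition into three mutually orthogonal non-degenerate 2-spaces; of a decomposition into two orthogonal non-degenerate 3-spaces; of a decomposition into two totally isotropic 3-spaces; for q ≥ 3, the normaliser of an adjoint-closed degree-3 subfield of the matrix algebra; for q ≥ 3, the stabiliser of a tensor decomposition of f into unitary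 forms on F^2 and F^3; a subfield group of odd prime index whose F₀-structure carries f; a subfield group of index 2 and symplectic type; for q odd, a subfield group of index 2 and orthogonal type — or else H lies in the residual class of the unitary case. -/
theorem result {F : Type*} [Field F] [Fintype F] (q : ℕ) (hF : Fintype.card F = q ^ 2) (H : Subgroup (Matrix.GeneralLinearGroup (Fin 6) F)) (hH : Cfsg.Geo.IsMaximalIn (Cfsg.GU 6 F q ⊓ Cfsg.Geo.specialLinear (Fin 6) F) H) :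
    (∃ W : Submodule F (Fin 6 → F), W ≠ ⊥ ∧ Cfsg.Geo.IsTotallySingularFor (Cfsg.hermForm 6 F q) W ∧ H = Cfsg.Geo.subspaceStabilizer W ⊓ (Cfsg.GU 6 F q ⊓ Cfsg.Geo.specialLinear (Fin 6) F)) ∨
    (∃ W : Submodule F (Fin 6 → F), W ≠ ⊥ ∧ Cfsg.Geo.IsNondegenerateOn (Cfsg.hermForm 6 F q) W ∧ 2 * Module.finrank F W < 6 ∧ H = Cfsg.Geo.subspaceStabilizer W ⊓ (Cfsg.GU 6 F q ⊓ Cfsg.Geo.specialLinear (Fin 6) F)) ∨
    (3 ≤ q ∧ ∃ D : Fin 6 → Submodule F (Fin 6 → F), Cfsg.Geo.IsNondegenerateMDecomposition (Cfsg.hermForm 6 F q) 1 D ∧ H = Cfsg.Geo.decompositionStabilizer D ⊓ (Cfsg.GU 6 F q ⊓ Cfsg.Geo.specialLinear (Fin 6) F)) ∨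
    (3 ≤ q ∧ ∃ D : Fin 3 → Submodule F (Fin 6 → F), Cfsg.Geo.IsNondegenerateMDecomposition (Cfsg.hermForm 6 F q) 2 D ∧ H = Cfsg.Geo.decompositionStabilizer D ⊓ (Cfsg.GU 6 F q ⊓ Cfsg.Geo.specialLinear (Fin 6) F)) ∨
    (∃ D : Fin 2 → Submodule F (Fin 6 → F), Cfsg.Geo.IsNondegenerateMDecomposition (Cfsg.hermForm 6 F q) 3 D ∧ H = Cfsg.Geo.decompositionStabilizer D ⊓ (Cfsg.GU 6 F q ⊓ Cfsg.Geo.specialLinear (Fin 6) F)) ∨
    (∃ D : Fin 2 → Submodule F (Fin 6 → F), Cfsg.Geo.IsMDecomposition 3 D ∧ (∀ i, Cfsg.Geo.IsTotallySingularFor (Cfsg.hermForm 6 F q) (D i)) ∧ H = Cfsg.Geo.decompositionStabilizer D ⊓ (Cfsg.GU 6 F q ⊓ Cfsg.Geo.specialLinear (Fin 6) F)) ∨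
    (3 ≤ q ∧ ∃ K : Subalgebra F (Matrix (Fin 6) (Fin 6) F), Cfsg.Geo.IsFieldSubalgebra 3 K ∧ Cfsg.Geo.IsAdjointClosedFor (Cfsg.hermForm 6 F q) K ∧ H = Cfsg.Geo.subalgebraNormalizer K ⊓ (Cfsg.GU 6 F q ⊓ Cfsg.Geo.specialLinear (Fin 6) F)) ∨
    (3 ≤ q ∧ ∃ (e : Fin 6 ≃ Fin 2 × Fin 3) (P : Matrix.GeneralLinearGroup (Fin 6) F) (f₁ : (Fin 2 → F) → (Fin 2 → F) → F) (f₂ : (Fin 3 → F) → (Fin 3 → F) → F), Cfsg.Geo.IsUnitaryFormPow q f₁ ∧ Cfsg.Geo.IsUnitaryFormPow q f₂ ∧ Cfsg.Geo.IsTensorFormStructure (fun x : F => x ^ q) (Cfsg.hermForm 6 F q) f₁ f₂ e P ∧ H = Cfsg.Geo.tensorProductSubgroup 2 3 e P ⊓ (Cfsg.GU 6 F q ⊓ Cfsg.Geo.specialLinear (Fin 6) F)) ∨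
    (∃ (F₀ : Subfield F) (r : ℕ) (P : Matrix.GeneralLinearGroup (Fin 6) F), r.Prime ∧ Odd r ∧ Fintype.card F = Nat.card F₀ ^ r ∧ Cfsg.Geo.IsFormRationalStructure (Cfsg.hermForm 6 F q) F₀ 1 P ∧ H = Cfsg.Geo.subfieldSubgroup F₀ P ⊓ (Cfsg.GU 6 F q ⊓ Cfsg.Geo.specialLinear (Fin 6) F)) ∨
    (∃ (F₀ : Subfield F) (P : Matrix.GeneralLinearGroup (Fin 6) F) (ζ : F), Fintype.card F = Nat.card F₀ ^ 2 ∧ ζ ≠ 0 ∧ ζ + ζ ^ q = 0 ∧ Cfsg.Geo.IsFormRationalStructure (Cfsg.hermForm 6 F q) F₀ ζ P ∧ (∀ u : Fin 6 → F, (∀ i, u i ∈ F₀) → (Cfsg.hermForm 6 F q) (Matrix.mulVec (P : Matrix (Fin 6) (Fin 6) F) u) (Matrix.mulVec (P : Matrix (Fin 6) (Fin 6) F) u) = 0) ∧ H = Cfsg.Geo.subfieldSubgroup F₀ P ⊓ (Cfsg.GU 6 F q ⊓ Cfsg.Geo.specialLinear (Fin 6) F)) ∨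
    (Odd q ∧ ∃ (F₀ : Subfield F) (P : Matrix.GeneralLinearGroup (Fin 6) F), Fintype.card F = Nat.card F₀ ^ 2 ∧ Cfsg.Geo.IsFormRationalStructure (Cfsg.hermForm 6 F q) F₀ 1 P ∧ H = Cfsg.Geo.subfieldSubgroup F₀ P ⊓ (Cfsg.GU 6 F q ⊓ Cfsg.Geo.specialLinear (Fin 6) F)) ∨
    Cfsg.Geo.InUnitaryResidualClass H := by
  rcases SUmax' hF (by norm_num) hH with ⟨W, h1, h2, h⟩ | ⟨W, h1, h2, h3, h⟩ | ⟨t, m, D, htm, ht, hmq, hD, h⟩ | ⟨m, D, hm, hD, hts, h⟩ |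
    ⟨r, K, hr, hro, hrn, hK, hadj, h⟩ | ⟨n₁, n₂, e, P, f₁, f₂, h2, h12, hmul, hnq, hf₁, hf₂, hst, h⟩ | h7 |
    ⟨hq, F₀, P, hc, hst, h⟩ | ⟨hev, F₀, P, ζ, hc, hζ0, hζ, hst, hiso, h⟩ |
    ⟨r, R, p, e, k, hR, habs, hsim, hrp, hmin, hcases, hn, h⟩ | ⟨k, t, e, P, f₁, hk3, ht2, hn, hnq, hf₁, hst, h⟩ | h12
  · exact Or.inl ⟨W, h1, h2, h⟩
  · exact Or.inr (Or.inl ⟨W, h1, h2, h3, h⟩)
  · have hd : t ∣ 6 := ⟨m, htm.symm⟩
    have hdle := Nat.le_of_dvd (by norm_num) hd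
    have hc : (t = 2 ∧ m = 3) ∨ (t = 3 ∧ m = 2) ∨ (t = 6 ∧ m = 1) := by
      interval_cases t <;> omega
    rcases hc with ⟨rfl, rfl⟩ | ⟨rfl, rfl⟩ | ⟨rfl, rfl⟩
    · exact Or.inr (Or.inr (Or.inr (Or.inr (Or.inl ⟨D, hD, h⟩))))
    · exact Or.inr (Or.inr (Or.inr (Or.inl ⟨threeLe hF (fun h => hmq ⟨rfl, h⟩), D, hD, h⟩)))
    · by_cases hq2 : q = 2
      · exfalso
        subst hq2
        obtain ⟨M, hM1, hM2⟩ := Cfsg.Agent.H29.Us.nonmaxF hF hD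
        rw [← h] at hM1
        rcases hH.2 M hM1.le hM2.le with h5 | h5
        · exact absurd h5 (ne_of_gt hM1)
        · exact absurd h5 (ne_of_lt hM2)
      · exact Or.inr (Or.inr (Or.inl ⟨threeLe hF hq2, D, hD, h⟩))
  · obtain rfl : m = 3 := by omega
    exact Or.inr (Or.inr (Or.inr (Or.inr (Or.inr (Or.inl ⟨D, hD, hts, h⟩)))))
  · have hrle := Nat.le_of_dvd (by norm_num) hrn
    have h2 := hr.two_le
    have hrc : r = 3 := by
      interval_cases r <;> first | rfl | (exfalso; revert hro; decide) | (exfalso; revert hrn; decide)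
    subst hrc
    by_cases hq2 : q = 2
    · exfalso
      subst hq2
      obtain ⟨M, hM1, hM2⟩ := Cfsg.Agent.H29.Us.nonmaxC hF hK hadj
      rw [← h] at hM1
      rcases hH.2 M hM1.le hM2.le with h5 | h5
      · exact absurd h5 (ne_of_gt hM1)
      · exact absurd h5 (ne_of_lt hM2)
    · exact Or.inr (Or.inr (Or.inr (Or.inr (Or.inr (Or.inr (Or.inl ⟨threeLe hF hq2, K, hK, hadj, h⟩))))))
  · have hd : n₁ ∣ 6 := ⟨n₂, hmul.symm⟩
    have hdle := Nat.le_of_dvd (by norm_num) hd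
    have hc : n₁ = 2 ∧ n₂ = 3 := by
      interval_cases n₁ <;> omega
    obtain ⟨rfl, rfl⟩ := hc
    exact Or.inr (Or.inr (Or.inr (Or.inr (Or.inr (Or.inr (Or.inr (Or.inl ⟨threeLe hF (fun h => hnq ⟨rfl, h⟩), e, P, f₁, f₂, hf₁, hf₂, hst, h⟩)))))))
  · exact Or.inr (Or.inr (Or.inr (Or.inr (Or.inr (Or.inr (Or.inr (Or.inr (Or.inl h7))))))))
  · exact Or.inr (Or.inr (Or.inr (Or.inr (Or.inr (Or.inr (Or.inr (Or.inr (Or.inr (Or.inr (Or.inl ⟨hq, F₀, P, hc, hst, h⟩))))))))))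
  · exact Or.inr (Or.inr (Or.inr (Or.inr (Or.inr (Or.inr (Or.inr (Or.inr (Or.inr (Or.inl ⟨F₀, P, ζ, hc, hζ0, hζ, hst, hiso, h⟩)))))))))
  · exfalso
    have hrp' : r.Prime := hR.prime
    have h2r : 2 ∣ r ^ k := by rw [← hn]; norm_num
    have h3r : 3 ∣ r ^ k := by rw [← hn]; norm_num
    have e2 := (Nat.prime_dvd_prime_iff_eq Nat.prime_two hrp').1 (Nat.prime_two.dvd_of_dvd_pow h2r)
    have e3 := (Nat.prime_dvd_prime_iff_eq Nat.prime_three hrp').1 (Nat.prime_three.dvd_of_dvd_pow h3r)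
    omega
  · exfalso
    have h3 : 3 ^ 2 ≤ k ^ 2 := Nat.pow_le_pow_left hk3 2
    have h4 : k ^ 2 ≤ k ^ t := Nat.pow_le_pow_right (by omega) ht2
    omega
  · exact Or.inr (Or.inr (Or.inr (Or.inr (Or.inr (Or.inr (Or.inr (Or.inr (Or.inr (Or.inr (Or.inr (h12)))))))))))

end Cfsg.Agent.S5802
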