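import Cfsg.Statements.S5811
import Cfsg.Agent.H29_Un9

set_option autoImplicit false
open Cfsg

namespace Cfsg.Agent.S5811

open Cfsg.Geo Cfsg.Agent.H29.Asc Cfsg.Agent.H29.Fm


/-- Every maximal subgroup of SU_7(q) is of one of the listed geometric types or lies in the residual class. Let F be the field with q² elements (characteristic p), f the standard unitary form Σ u_i v_i^q on F^7, and H a maximal subgroup of SU_7(q) (inside GL_7(F)). Then H is the intersection with SU_7(q) of one of: the stabiliser of a non-zero totally isotropic subspace; the stabiliser of a non-degenerate 1-, 2- or 3-space; the stabiliser of a decomposition into seven mutually orthogonal non-degenerate 1-spaces; the normaliser of an adjoint-closed degree-7 subfield of the matrix algebra; a subfield group of odd prime index whose F₀-structure carries f; for q odd, a subfield group of index 2 whose F₀-structure carries f; for q = p prime with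 p ≡ 6 mod 7, or q = p³ with p ≡ 3 or 5 mod 7, the normaliser of an absolutely irreducible 7-group R of exponent 7, order 343 and centre of order 7, all of whose characteristic abelian subgroups are cyclic, contained in the similarity group of f — or else H lies in the residual class of the unitary case (modulo scalars H is almost simple, with absolutely irreducible perfect socle preimage realisable over no proper subfield and fixing no non-degenerate quadratic or symplectic form). -/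
theorem result {F : Type*} [Field F] [Fintype F] (q : ℕ) (hF : Fintype.card F = q ^ 2) (H : Subgroup (Matrix.GeneralLinearGroup (Fin 7) F)) (hH : Cfsg.Geo.IsMaximalIn (Cfsg.GU 7 F q ⊓ Cfsg.Geo.specialLinear (Fin 7) F) H) :
    (∃ W : Submodule F (Fin 7 → F), W ≠ ⊥ ∧ Cfsg.Geo.IsTotallySingularFor (Cfsg.hermForm 7 F q) W ∧ H = Cfsg.Geo.subspaceStabilizer W ⊓ (Cfsg.GU 7 F q ⊓ Cfsg.Geo.specialLinear (Fin 7) F)) ∨
    (∃ W : Submodule F (Fin 7 → F), W ≠ ⊥ ∧ Cfsg.Geo.IsNondegenerateOn (Cfsg.hermForm 7 F q) W ∧ 2 * Module.finrank F W < 7 ∧ H = Cfsg.Geo.subspaceStabilizer W ⊓ (Cfsg.GU 7 F q ⊓ Cfsg.Geo.specialLinear (Fin 7) F)) ∨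
    (∃ D : Fin 7 → Submodule F (Fin 7 → F), Cfsg.Geo.IsNondegenerateMDecomposition (Cfsg.hermForm 7 F q) 1 D ∧ H = Cfsg.Geo.decompositionStabilizer D ⊓ (Cfsg.GU 7 F q ⊓ Cfsg.Geo.specialLinear (Fin 7) F)) ∨
    (∃ K : Subalgebra F (Matrix (Fin 7) (Fin 7) F), Cfsg.Geo.IsFieldSubalgebra 7 K ∧ Cfsg.Geo.IsAdjointClosedFor (Cfsg.hermForm 7 F q) K ∧ H = Cfsg.Geo.subalgebraNormalizer K ⊓ (Cfsg.GU 7 F q ⊓ Cfsg.Geo.specialLinear (Fin 7) F)) ∨
    (∃ (F₀ : Subfield F) (r : ℕ) (P : Matrix.GeneralLinearGroup (Fin 7) F), r.Prime ∧ Odd r ∧ Fintype.card F = Nat.card F₀ ^ r ∧ Cfsg.Geo.IsFormRationalStructure (Cfsg.hermForm 7 F q) F₀ 1 P ∧ H = Cfsg.Geo.subfieldSubgroup F₀ P ⊓ (Cfsg.GU 7 F q ⊓ Cfsg.Geo.specialLinear (Fin 7) F)) ∨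
    (Odd q ∧ ∃ (F₀ : Subfield F) (P : Matrix.GeneralLinearGroup (Fin 7) F), Fintype.card F = Nat.card F₀ ^ 2 ∧ Cfsg.Geo.IsFormRationalStructure (Cfsg.hermForm 7 F q) F₀ 1 P ∧ H = Cfsg.Geo.subfieldSubgroup F₀ P ⊓ (Cfsg.GU 7 F q ⊓ Cfsg.Geo.specialLinear (Fin 7) F)) ∨
    (∃ (p : ℕ) (R : Subgroup (Matrix.GeneralLinearGroup (Fin 7) F)), p.Prime ∧ CharP F p ∧ ((q = p ∧ p % 7 = 6) ∨ (q = p ^ 3 ∧ (p % 7 = 3 ∨ p % 7 = 5))) ∧ Cfsg.Geo.IsSymplecticTypeGroup 7 R ∧ Cfsg.Geo.ActsAbsolutelyIrreducibly (Cfsg.Geo.matrixSet R) ∧ R ≤ Cfsg.Geo.similarityGroup (Cfsg.hermForm 7 F q) ∧ Nat.card R = 343 ∧ Nat.card (Subgroup.center R) = 7 ∧ H = Cfsg.Geo.subgroupNormalizer R ⊓ (Cfsg.GU 7 F q ⊓ Cfsg.Geo.specialLinear (Fin 7) F)) ∨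
    Cfsg.Geo.InUnitaryResidualClass H := by
  have hq := Cfsg.Agent.H5.Fld.one_lt_q hF
  rcases SUmax hF (by norm_num) (by intro _ t ht h; exact absurd h (su_np (by norm_num) (by norm_num) (by norm_num) ht)) hH with ⟨W, h1, h2, h⟩ | ⟨W, h1, h2, h3, h⟩ | ⟨t, m, D, htm, ht, e1, hD, h⟩ |
    ⟨m, D, hm, hD, hts, h⟩ | ⟨r, K, hr, hodd, hrn, hK, hadj, h⟩ | ⟨n₁, n₂, e, P, f₁, f₂, h1, h2, h12, h3, h4, h5, h6, h⟩ | h7 | h8 |
    ⟨hev, h9⟩ | ⟨r, R, p, e, k, hR, habs, hsim, hrp, hmin, hcase, hnk, h⟩ | ⟨k, t, e, P, f₁, h1, h2, h3, h4, h5, h6, h⟩ | h12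
  · exact Or.inl ⟨W, h1, h2, h⟩
  · exact Or.inr (Or.inl ⟨W, h1, h2, h3, h⟩)
  · have hm : m ∣ 7 := ⟨t, by rw [mul_comm]; exact htm.symm⟩
    have hmle := Nat.le_of_dvd (by norm_num) hm
    have hmpos : 0 < m := hD.decomp.pos
    have hmc : (m = 1 ∧ t = 7) ∨ (m = 7 ∧ t = 1) := by
      interval_cases m <;> omega
    rcases hmc with ⟨rfl, rfl⟩ | ⟨rfl, rfl⟩
    · exact Or.inr (Or.inr (Or.inl ⟨D, hD, h⟩))
    · omega
  · omega
  · have hrle := Nat.le_of_dvd (by norm_num) hrn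
    have h2 := hr.two_le
    have hrc : r = 7 := by
      interval_cases r <;> first | omega | (exfalso; revert hr; decide) | (exfalso; revert hodd; decide)
    rcases hrc with rfl
    · exact Or.inr (Or.inr (Or.inr (Or.inl ⟨K, hK, hadj, h⟩)))
  · have hd : n₁ ∣ 7 := ⟨n₂, h12.symm⟩
    have hdle := Nat.le_of_dvd (by norm_num) hd
    exfalso
    interval_cases n₁ <;> omega
  · exact Or.inr (Or.inr (Or.inr (Or.inr (Or.inl h7))))
  · exact Or.inr (Or.inr (Or.inr (Or.inr (Or.inr (Or.inl h8)))))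
  · exact absurd hev (by decide)
  · have a1 := prime_of_pow hR.prime (by norm_num : Nat.Prime 7) hnk (by norm_num)
    subst a1
    have hk : k = 1 := by
      have h0 : 7 ^ k = 7 ^ 1 := by omega
      exact Nat.pow_right_injective (by norm_num) h0
    subst hk
    rcases hcase with ⟨ho, hc, -, hcR⟩ | ⟨h2, -⟩
    · rw [hc] at hmin
      obtain ⟨hp, hch, hqp⟩ := su_seven hF hrp hmin
      exact Or.inr (Or.inr (Or.inr (Or.inr (Or.inr (Or.inr (Or.inl ⟨p, R, hp, hch, hqp, hR, habs, hsim, by rw [hcR]; norm_num, hc, h⟩))))))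
    · exact absurd h2 (by norm_num)
  · obtain ⟨rfl, rfl, h9⟩ := wr_small h1 h2 h3 (by norm_num)
    omega
  · exact Or.inr (Or.inr (Or.inr (Or.inr (Or.inr (Or.inr (Or.inr (h12)))))))

end Cfsg.Agent.S5811
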