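import Cfsg.Statements.S5814
import Cfsg.Agent.H29_Or12

set_option autoImplicit false
open Cfsg

namespace Cfsg.Agent.S5814

open Cfsg.Geo Cfsg.Agent.H29.Fm

/-- Every maximal subgroup of Ω_7(q), q odd, is of one of the listed geometric types or lies in the residual class. Let F be a finite field of odd order q, Q the standard quadratic form x₀² + Σ x_i y_i on F^7 (coordinates Unit ⊕ (Fin 3 ⊕ Fin 3)), Ω the commutator subgroup of its isometry group, and H a maximal subgroup of Ω (inside GL_7(F)). Then H is the intersection with Ω of one of: the stabiliser of a non-zero totally singular subspace; the stabiliser of a non-zero non-degenerate subspace of even dimension (not a plus-type plane when q = 3); for q prime, the stabiliser of a decomposition into seven pairwise orthogonal, pairwise isometric non-degenerate 1-spaces; a subfield group (|F| = |F₀|^r, r prime) whose F₀-structure carries Q — or else H lies in the residual class of the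 orthogonal case (modulo scalars H is almost simple, with absolutely irreducible perfect socle preimage realisable over no proper subfield and fixing no non-degenerate unitary form). -/
theorem result {F : Type*} [Field F] [Fintype F] (hodd : Odd (Fintype.card F)) (H : Subgroup (Matrix.GeneralLinearGroup (Unit ⊕ (Fin 3 ⊕ Fin 3)) F)) (hH : Cfsg.Geo.IsMaximalIn (Cfsg.Geo.omegaGL (Cfsg.quadFormOdd 3 F)) H) :
    (∃ W : Submodule F (Unit ⊕ (Fin 3 ⊕ Fin 3) → F), W ≠ ⊥ ∧ Cfsg.Geo.IsTotallySingularQuad (Cfsg.quadFormOdd 3 F) W ∧ H = Cfsg.Geo.subspaceStabilizer W ⊓ Cfsg.Geo.omegaGL (Cfsg.quadFormOdd 3 F)) ∨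
    (∃ W : Submodule F (Unit ⊕ (Fin 3 ⊕ Fin 3) → F), W ≠ ⊥ ∧ Even (Module.finrank F W) ∧ Cfsg.Geo.IsNondegenerateOn (QuadraticMap.polar (Cfsg.quadFormOdd 3 F)) W ∧ ¬ (Fintype.card F = 3 ∧ Module.finrank F W = 2 ∧ Cfsg.Geo.IsPlusTypeOn (Cfsg.quadFormOdd 3 F) W) ∧ H = Cfsg.Geo.subspaceStabilizer W ⊓ Cfsg.Geo.omegaGL (Cfsg.quadFormOdd 3 F)) ∨
    ((Fintype.card F).Prime ∧ ∃ D : Fin 7 → Submodule F (Unit ⊕ (Fin 3 ⊕ Fin 3) → F), Cfsg.Geo.IsOrthogonalMDecomposition (Cfsg.quadFormOdd 3 F) 1 D ∧ H = Cfsg.Geo.decompositionStabilizer D ⊓ Cfsg.Geo.omegaGL (Cfsg.quadFormOdd 3 F)) ∨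
    (∃ (F₀ : Subfield F) (r : ℕ) (P : Matrix.GeneralLinearGroup (Unit ⊕ (Fin 3 ⊕ Fin 3)) F), r.Prime ∧ Fintype.card F = Nat.card F₀ ^ r ∧ Cfsg.Geo.IsQuadFormRationalStructure (Cfsg.quadFormOdd 3 F) F₀ P ∧ H = Cfsg.Geo.subfieldSubgroup F₀ P ⊓ Cfsg.Geo.omegaGL (Cfsg.quadFormOdd 3 F)) ∨
    Cfsg.Geo.InOrthogonalResidualClass H := by
  have h2 := two_ne_of_odd hodd
  rcases OOmax (m := 3) h2 (by norm_num) (by
      intro n₁ n₂ h1 h3 h4
      have h5 : n₁ ≤ 3 := by nlinarith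
      interval_cases n₁ <;> omega) (by
      intro k t hk ht h
      have hk2 : k ^ 2 ≤ k ^ t := Nat.pow_le_pow_right (by omega) ht
      have hk3 : k ≤ 3 := by nlinarith
      have hk4 : k = 3 := by omega
      subst hk4
      by_contra hne
      have ht3 : 3 ≤ t := by omega
      have h27 : 3 ^ 3 ≤ 3 ^ t := Nat.pow_le_pow_right (by norm_num) ht3
      omega) hH with
    ⟨W, h1, h3, h⟩ | ⟨W, h1, h3, h4, h5, h⟩ | ⟨hF, t, D, ht, hD, h⟩ | ⟨t, k, D, htk, ht, hk, hne, hD, h⟩ |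
    ⟨r, K, hr, hrd, hne, hK, hsa, h⟩ | h6 | ⟨k, t, e, P, f₁, hk, ht, hkt, hne, hf, hst, h⟩ | h8
  · exact Or.inl ⟨W, h1, h3, h⟩
  · exact Or.inr (Or.inl ⟨W, h1, h3, h4, h5, h⟩)
  · subst ht
    exact Or.inr (Or.inr (Or.inl ⟨hF, D, hD, h⟩))
  · exfalso
    have h1 : t ≤ 3 := by nlinarith
    interval_cases t <;> omega
  · exfalso
    have hp : Nat.Prime 7 := by norm_num
    rcases (Nat.dvd_prime hp).1 hrd with h1 | h1
    · exact hr.one_lt.ne' h1
    · exact hne h1.symm
  · exact Or.inr (Or.inr (Or.inr (Or.inl h6)))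
  · exfalso
    subst ht
    have hk3 : k ≤ 3 := by nlinarith
    interval_cases k; omega
  · exact Or.inr (Or.inr (Or.inr (Or.inr (h8))))


end Cfsg.Agent.S5814
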