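import Cfsg.Statements.S5835
import Cfsg.Agent.H29_Or12

set_option autoImplicit false
open Cfsg

namespace Cfsg.Agent.S5835

open Cfsg.Geo Cfsg.Agent.H29.Fm

/-- Every maximal subgroup of Ω_9(q), q odd, is of one of the listed geometric types or lies in the residual class. Let F be a finite field of odd order q, Q the standard quadratic form x₀² + Σ x_i y_i on F^9 (coordinates Unit ⊕ (Fin 4 ⊕ Fin 4)), Ω the commutator subgroup of its isometry group, and H a maximal subgroup of Ω (inside GL_9(F)). Then H is the intersection with Ω of one of: the stabiliser of a non-zero totally singular subspace; the stabiliser of a non-zero non-degenerate subspace of even dimension (not a plus-type plane when q = 3); for q prime, the stabiliser of a decomposition into nine pairwise orthogonal, pairwise isometric non-degenerate 1-spaces; for q ≥ 5, the stabiliser of a decomposition into three pairwise orthogonal, pairwise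 isometric non-degenerate 3-spaces; the normaliser of a degree-3 subfield of the matrix algebra, self-adjoint for the polar form; a subfield group (|F| = |F₀|^r, r prime) whose F₀-structure carries Q; for q ≥ 5, the stabiliser of a tensor decomposition of the polar form as a tensor square of a symmetric form on F^3 — or else H lies in the residual class of the orthogonal case (modulo scalars H is almost simple, with absolutely irreducible perfect socle preimage realisable over no proper subfield and fixing no non-degenerate unitary form). -/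
theorem result {F : Type*} [Field F] [Fintype F] (hodd : Odd (Fintype.card F)) (H : Subgroup (Matrix.GeneralLinearGroup (Unit ⊕ (Fin 4 ⊕ Fin 4)) F)) (hH : Cfsg.Geo.IsMaximalIn (Cfsg.Geo.omegaGL (Cfsg.quadFormOdd 4 F)) H) :
    (∃ W : Submodule F (Unit ⊕ (Fin 4 ⊕ Fin 4) → F), W ≠ ⊥ ∧ Cfsg.Geo.IsTotallySingularQuad (Cfsg.quadFormOdd 4 F) W ∧ H = Cfsg.Geo.subspaceStabilizer W ⊓ Cfsg.Geo.omegaGL (Cfsg.quadFormOdd 4 F)) ∨
    (∃ W : Submodule F (Unit ⊕ (Fin 4 ⊕ Fin 4) → F), W ≠ ⊥ ∧ Even (Module.finrank F W) ∧ Cfsg.Geo.IsNondegenerateOn (QuadraticMap.polar (Cfsg.quadFormOdd 4 F)) W ∧ ¬ (Fintype.card F = 3 ∧ Module.finrank F W = 2 ∧ Cfsg.Geo.IsPlusTypeOn (Cfsg.quadFormOdd 4 F) W) ∧ H = Cfsg.Geo.subspaceStabilizer W ⊓ Cfsg.Geo.omegaGL (Cfsg.quadFormOdd 4 F)) ∨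
    ((Fintype.card F).Prime ∧ ∃ D : Fin 9 → Submodule F (Unit ⊕ (Fin 4 ⊕ Fin 4) → F), Cfsg.Geo.IsOrthogonalMDecomposition (Cfsg.quadFormOdd 4 F) 1 D ∧ H = Cfsg.Geo.decompositionStabilizer D ⊓ Cfsg.Geo.omegaGL (Cfsg.quadFormOdd 4 F)) ∨
    (5 ≤ Fintype.card F ∧ ∃ D : Fin 3 → Submodule F (Unit ⊕ (Fin 4 ⊕ Fin 4) → F), Cfsg.Geo.IsOrthogonalMDecomposition (Cfsg.quadFormOdd 4 F) 3 D ∧ H = Cfsg.Geo.decompositionStabilizer D ⊓ Cfsg.Geo.omegaGL (Cfsg.quadFormOdd 4 F)) ∨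
    (∃ K : Subalgebra F (Matrix (Unit ⊕ (Fin 4 ⊕ Fin 4)) (Unit ⊕ (Fin 4 ⊕ Fin 4)) F), Cfsg.Geo.IsFieldSubalgebra 3 K ∧ Cfsg.Geo.IsSelfAdjointFor (QuadraticMap.polar (Cfsg.quadFormOdd 4 F)) K ∧ H = Cfsg.Geo.subalgebraNormalizer K ⊓ Cfsg.Geo.omegaGL (Cfsg.quadFormOdd 4 F)) ∨
    (∃ (F₀ : Subfield F) (r : ℕ) (P : Matrix.GeneralLinearGroup (Unit ⊕ (Fin 4 ⊕ Fin 4)) F), r.Prime ∧ Fintype.card F = Nat.card F₀ ^ r ∧ Cfsg.Geo.IsQuadFormRationalStructure (Cfsg.quadFormOdd 4 F) F₀ P ∧ H = Cfsg.Geo.subfieldSubgroup F₀ P ⊓ Cfsg.Geo.omegaGL (Cfsg.quadFormOdd 4 F)) ∨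
    (5 ≤ Fintype.card F ∧ ∃ (e : (Unit ⊕ (Fin 4 ⊕ Fin 4)) ≃ (Fin 2 → Fin 3)) (P : Matrix.GeneralLinearGroup (Unit ⊕ (Fin 4 ⊕ Fin 4)) F) (f₁ : (Fin 3 → F) → (Fin 3 → F) → F), Cfsg.Geo.IsSymmetricForm f₁ ∧ Cfsg.Geo.IsTensorPowerFormStructure id (QuadraticMap.polar (Cfsg.quadFormOdd 4 F)) f₁ e P ∧ H = Cfsg.Geo.tensorWreathSubgroup 3 2 e P ⊓ Cfsg.Geo.omegaGL (Cfsg.quadFormOdd 4 F)) ∨
    Cfsg.Geo.InOrthogonalResidualClass H := by
  have h2 := two_ne_of_odd hodd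
  rcases OOmax (m := 4) h2 (by norm_num) (by
      intro n₁ n₂ h1 h3 h4
      have h5 : n₁ ≤ 3 := by nlinarith
      interval_cases n₁ <;> omega) (by
      intro k t hk ht h
      have hk2 : k ^ 2 ≤ k ^ t := Nat.pow_le_pow_right (by omega) ht
      have hk3 : k ≤ 3 := by nlinarith
      have hk4 : k = 3 := by omega
      subst hk4
      by_contra hne
      have ht3 : 3 ≤ t := by omega
      have h27 : 3 ^ 3 ≤ 3 ^ t := Nat.pow_le_pow_right (by norm_num) ht3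
      omega) hH with
    ⟨W, h1, h3, h⟩ | ⟨W, h1, h3, h4, h5, h⟩ | ⟨hF, t, D, ht, hD, h⟩ | ⟨t, k, D, htk, ht, hk, hne, hD, h⟩ |
    ⟨r, K, hr, hrd, hne, hK, hsa, h⟩ | h6 | ⟨k, t, e, P, f₁, hk, ht, hkt, hne, hf, hst, h⟩ | h8
  · exact Or.inl ⟨W, h1, h3, h⟩
  · exact Or.inr (Or.inl ⟨W, h1, h3, h4, h5, h⟩)
  · subst ht
    exact Or.inr (Or.inr (Or.inl ⟨hF, D, hD, h⟩))
  · have hk3 : k = 3 ∧ t = 3 := by
      have h1 : t ≤ 4 := by nlinarith
      have h3 : 2 ≤ t := ht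
      interval_cases t <;> omega
    obtain ⟨rfl, rfl⟩ := hk3
    have hc := Fintype.one_lt_card (α := F)
    have hc3 : Fintype.card F ≠ 3 := fun h => hne ⟨rfl, h⟩
    have h5 : 5 ≤ Fintype.card F := by
      rcases hodd with ⟨a, ha⟩
      omega
    exact Or.inr (Or.inr (Or.inr (Or.inl ⟨h5, D, hD, h⟩)))
  · have hr3 : r = 3 := by
      have h1 : r ∣ 3 := hr.dvd_of_dvd_pow (n := 2) (by norm_num; exact hrd)
      exact (Nat.prime_dvd_prime_iff_eq hr Nat.prime_three).1 h1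
    subst hr3
    exact Or.inr (Or.inr (Or.inr (Or.inr (Or.inl ⟨K, hK, hsa, h⟩))))
  · exact Or.inr (Or.inr (Or.inr (Or.inr (Or.inr (Or.inl h6)))))
  · subst ht
    have hk3 : k = 3 := by nlinarith
    subst hk3
    have hc := Fintype.one_lt_card (α := F)
    have hc3 : Fintype.card F ≠ 3 := fun h => hne ⟨h, rfl⟩
    have h5 : 5 ≤ Fintype.card F := by
      rcases hodd with ⟨a, ha⟩
      omega
    exact Or.inr (Or.inr (Or.inr (Or.inr (Or.inr (Or.inr (Or.inl ⟨h5, e, P, f₁, hf, hst, h⟩))))))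
  · exact Or.inr (Or.inr (Or.inr (Or.inr (Or.inr (Or.inr (Or.inr (h8)))))))


end Cfsg.Agent.S5835
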