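import Cfsg.Statements.S5876
import Cfsg.Agent.H29_Clifford

set_option autoImplicit false
open Cfsg

namespace Cfsg.Agent.S5876

open Cfsg.Geo Cfsg.Agent.H29.Clifford
open scoped commutatorElement

/-- Structure of a finite solvable group: a maximal abelian normal subgroup `A` and a subgroup `E`
centralising `A`, abelian modulo `A`, with centraliser inside `A`. -/
theorem exists_AE {G : Type*} [Group G] [Finite G] (hsol : IsSolvable G) :
    ∃ A E : Subgroup G, A.Normal ∧ E.Normal ∧ A ≤ E ∧ (∀ a ∈ A, ∀ e ∈ E, a * e = e * a) ∧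
      (∀ x ∈ E, ∀ y ∈ E, x * y * x⁻¹ * y⁻¹ ∈ A) ∧ (∀ g : G, (∀ e ∈ E, g * e = e * g) → g ∈ A) := by
  classical
  -- A: maximal abelian normal
  obtain ⟨A, hA⟩ := (Set.toFinite {A : Subgroup G | A.Normal ∧ ∀ a ∈ A, ∀ b ∈ A, a * b = b * a}).exists_maximal
    ⟨⊥, by
      refine ⟨inferInstance, ?_⟩
      intro a ha b hb
      rw [Subgroup.mem_bot] at ha hb
      rw [ha, hb]⟩
  obtain ⟨⟨hAn, hAc⟩, hAmax⟩ := hA
  -- E
  obtain ⟨E, hE⟩ := (Set.toFinite {E : Subgroup G | E.Normal ∧ A ≤ E ∧ (∀ a ∈ A, ∀ e ∈ E, a * e = e * a) ∧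
      (∀ x ∈ E, ∀ y ∈ E, x * y * x⁻¹ * y⁻¹ ∈ A)}).exists_maximal
    ⟨A, hAn, le_rfl, hAc, by
      intro x hx y hy
      exact A.mul_mem (A.mul_mem (A.mul_mem hx hy) (A.inv_mem hx)) (A.inv_mem hy)⟩
  obtain ⟨⟨hEn, hAE, hEc, hEE⟩, hEmax⟩ := hE
  refine ⟨A, E, hAn, hEn, hAE, hEc, hEE, ?_⟩
  -- D = centraliser of E
  let D : Subgroup G := Subgroup.centralizer (E : Set G)
  have hDn : D.Normal := by
    show (Subgroup.centralizer (E : Set G)).Normal
    infer_instance
  have hAD : A ≤ D := by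
    intro a ha
    rw [Subgroup.mem_centralizer_iff]
    intro e he
    exact (hEc a ha e he).symm
  suffices hDA : D ≤ A by
    intro g hg
    apply hDA
    rw [Subgroup.mem_centralizer_iff]
    intro e he
    exact (hg e he).symm
  by_contra hDA
  -- derived series of D inside G
  let s : ℕ → Subgroup G := fun k => (derivedSeries D k).map D.subtype
  have hsn : ∀ k, (s k).Normal := by
    intro k
    show ((derivedSeries D k).map D.subtype).Normal
    have hchar : (derivedSeries D k).Characteristic := inferInstance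
    exact ConjAct.normal_of_characteristic_of_normal
  have hs0 : s 0 = D := by
    show ((derivedSeries D 0).map D.subtype) = D
    rw [derivedSeries_zero]
    exact (MonoidHom.range_eq_map D.subtype).symm.trans D.range_subtype
  have hsD : ∀ k, s k ≤ D := by
    intro k
    rintro _ ⟨x, _, rfl⟩
    exact x.2
  have hsolG : Group.IsSolvable G := hsol
  have hsolD : Group.IsSolvable D := inferInstance
  obtain ⟨m, hm⟩ := (Group.isSolvable_def D).1 hsolD
  have hsm : s m ≤ A := by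
    show ((derivedSeries D m).map D.subtype) ≤ A
    rw [hm]; simp
  have hex : ∃ k, s k ≤ A := ⟨m, hsm⟩
  obtain ⟨k, hk, hkm⟩ : ∃ k, s k ≤ A ∧ ∀ j < k, ¬ s j ≤ A := ⟨Nat.find hex, Nat.find_spec hex, fun j hj => Nat.find_min hex hj⟩
  have hk0 : k ≠ 0 := by
    rintro rfl
    rw [hs0] at hk
    exact hDA hk
  obtain ⟨j, rfl⟩ := Nat.exists_eq_succ_of_ne_zero hk0
  have hj := hkm j (Nat.lt_succ_self j)
  -- commutators of s j lie in A
  have hcomm : ∀ x ∈ s j, ∀ y ∈ s j, x * y * x⁻¹ * y⁻¹ ∈ A := by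
    rintro _ ⟨x, hx, rfl⟩ _ ⟨y, hy, rfl⟩
    apply hk
    refine ⟨⁅x, y⁆, ?_, ?_⟩
    · rw [derivedSeries_succ]
      exact Subgroup.commutator_mem_commutator hx hy
    · simp [commutatorElement_def]
  -- B = s j ⊔ A ≤ E
  have hBE : s j ≤ E := by
    have hmem : (s j ⊔ E) ∈ {E : Subgroup G | E.Normal ∧ A ≤ E ∧ (∀ a ∈ A, ∀ e ∈ E, a * e = e * a) ∧
      (∀ x ∈ E, ∀ y ∈ E, x * y * x⁻¹ * y⁻¹ ∈ A)} := by
      have hsjn := hsn j
      have hmul : ∀ z ∈ s j ⊔ E, ∃ x ∈ s j, ∃ e ∈ E, x * e = z := by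
        intro z hz
        rw [Subgroup.mem_sup_of_normal_right] at hz
        exact hz
      have hDE : ∀ x ∈ s j, ∀ e ∈ E, x * e = e * x := by
        intro x hx e he
        have := hsD j hx
        rw [Subgroup.mem_centralizer_iff] at this
        exact (this e he).symm
      refine ⟨inferInstance, le_trans hAE le_sup_right, ?_, ?_⟩
      · intro a ha z hz
        obtain ⟨x, hx, e, he, rfl⟩ := hmul z hz
        have h1 : a * x = x * a := (hDE x hx a (hAE ha)).symm
        rw [← mul_assoc, h1, mul_assoc, hEc a ha e he, mul_assoc]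
      · intro z hz w hw
        obtain ⟨x, hx, e, he, rfl⟩ := hmul z hz
        obtain ⟨y, hy, f, hf, rfl⟩ := hmul w hw
        have hD1 : Commute x e := hDE x hx e he
        have hD2 : Commute x f := hDE x hx f hf
        have hD3 : Commute y e := hDE y hy e he
        have hD4 : Commute y f := hDE y hy f hf
        have : x * e * (y * f) * (x * e)⁻¹ * (y * f)⁻¹ = (x * y * x⁻¹ * y⁻¹) * (e * f * e⁻¹ * f⁻¹) := by
          have e1 : x * e * (y * f) = (x * y) * (e * f) := by
            calc x * e * (y * f) = x * (e * y) * f := by group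
              _ = x * (y * e) * f := by rw [hD3.eq]
              _ = _ := by group
          have e2 : (x * e)⁻¹ * (y * f)⁻¹ = (x⁻¹ * y⁻¹) * (e⁻¹ * f⁻¹) := by
            have c1 : Commute x⁻¹ e⁻¹ := hD1.inv_inv
            have c2 : Commute y⁻¹ e⁻¹ := hD3.inv_inv
            have c3 : Commute y⁻¹ f⁻¹ := hD4.inv_inv
            calc (x * e)⁻¹ * (y * f)⁻¹ = (e⁻¹ * x⁻¹) * (f⁻¹ * y⁻¹) := by group
              _ = (x⁻¹ * e⁻¹) * (y⁻¹ * f⁻¹) := by rw [c1.eq, c3.eq]
              _ = x⁻¹ * (e⁻¹ * y⁻¹) * f⁻¹ := by group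
              _ = x⁻¹ * (y⁻¹ * e⁻¹) * f⁻¹ := by rw [c2.eq]
              _ = _ := by group
          have c4 : Commute (e * f) (x⁻¹ * y⁻¹) := by
            have d1 : Commute e x⁻¹ := hD1.symm.inv_right
            have d2 : Commute f x⁻¹ := hD2.symm.inv_right
            have d3 : Commute e y⁻¹ := hD3.symm.inv_right
            have d4 : Commute f y⁻¹ := hD4.symm.inv_right
            exact (d1.mul_right d3).mul_left (d2.mul_right d4)
          calc x * e * (y * f) * (x * e)⁻¹ * (y * f)⁻¹ = (x * e * (y * f)) * ((x * e)⁻¹ * (y * f)⁻¹) := by group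
            _ = (x * y) * (e * f) * ((x⁻¹ * y⁻¹) * (e⁻¹ * f⁻¹)) := by rw [e1, e2]
            _ = (x * y) * ((e * f) * (x⁻¹ * y⁻¹)) * (e⁻¹ * f⁻¹) := by group
            _ = (x * y) * ((x⁻¹ * y⁻¹) * (e * f)) * (e⁻¹ * f⁻¹) := by rw [c4.eq]
            _ = _ := by group
        rw [this]
        exact A.mul_mem (hcomm x hx y hy) (hEE e he f hf)
    exact le_trans le_sup_left (hEmax hmem le_sup_right)
  -- then s j ⊔ A is abelian normal
  have hmem : (s j ⊔ A) ∈ {A : Subgroup G | A.Normal ∧ ∀ a ∈ A, ∀ b ∈ A, a * b = b * a} := by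
    have hsjn := hsn j
    refine ⟨inferInstance, ?_⟩
    have h1 : s j ⊔ A ≤ E := sup_le hBE hAE
    have h2 : s j ⊔ A ≤ D := sup_le (hsD j) hAD
    intro a ha b hb
    have := h2 ha
    rw [Subgroup.mem_centralizer_iff] at this
    exact (this b (h1 hb)).symm
  exact hj (le_trans le_sup_left (hAmax hmem le_sup_right))

variable {F : Type*} [Field F] {n : ℕ}

/-- fixed space -/
noncomputable abbrev fixS (g : GL (Fin n) F) : Submodule F (Fin n → F) :=
  Module.End.eigenspace (Matrix.toLin' (g : Matrix (Fin n) (Fin n) F)) 1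

theorem mem_fixS (g : GL (Fin n) F) (v : Fin n → F) :
    v ∈ fixS g ↔ (g : Matrix (Fin n) (Fin n) F).mulVec v = v := by
  rw [Module.End.mem_eigenspace_iff, one_smul, Matrix.toLin'_apply]

theorem finrank_conj (g x : GL (Fin n) F) :
    Module.finrank F (fixS (x * g * x⁻¹)) = Module.finrank F (fixS g) := by
  have : fixS (x * g * x⁻¹) = (fixS g).map ((glEquiv x : (Fin n → F) ≃ₗ[F] (Fin n → F)) : (Fin n → F) →ₗ[F] (Fin n → F)) := by
    ext v
    rw [mem_fixS, Submodule.mem_map]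
    constructor
    · intro h
      refine ⟨((x⁻¹ : GL (Fin n) F) : Matrix (Fin n) (Fin n) F).mulVec v, ?_, ?_⟩
      · rw [mem_fixS]
        have := congrArg (fun w => ((x⁻¹ : GL (Fin n) F) : Matrix (Fin n) (Fin n) F).mulVec w) h
        simp only [Matrix.mulVec_mulVec, ← Units.val_mul] at this
        rw [Matrix.mulVec_mulVec, ← Units.val_mul]
        convert this using 3
        group
      · rw [glEquiv_coe, Matrix.toLin'_apply, Matrix.mulVec_mulVec, ← Units.val_mul, mul_inv_cancel,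
          Units.val_one, Matrix.one_mulVec]
    · rintro ⟨w, hw, rfl⟩
      rw [mem_fixS] at hw
      rw [glEquiv_coe, Matrix.toLin'_apply, Matrix.mulVec_mulVec, ← Units.val_mul, inv_mul_cancel_right,
        Units.val_mul, ← Matrix.mulVec_mulVec, hw]
  rw [this]
  exact LinearEquiv.finrank_map_eq (glEquiv x) _

theorem dim_comm (g x : GL (Fin n) F) :
    2 * Module.finrank F (fixS g) ≤ n + Module.finrank F (fixS (g * x * g⁻¹ * x⁻¹)) := by
  have h1 : fixS g ⊓ fixS (x * g * x⁻¹) ≤ fixS (g * x * g⁻¹ * x⁻¹) := by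
    rintro v ⟨h1, h2⟩
    have h1' : (g : Matrix (Fin n) (Fin n) F).mulVec v = v := (mem_fixS g v).1 h1
    have h2' : ((x * g * x⁻¹ : GL (Fin n) F) : Matrix (Fin n) (Fin n) F).mulVec v = v := (mem_fixS _ v).1 h2
    rw [mem_fixS]
    have h3 : ((x * g⁻¹ * x⁻¹ : GL (Fin n) F) : Matrix (Fin n) (Fin n) F).mulVec v = v := by
      have := congrArg (fun w => ((x * g⁻¹ * x⁻¹ : GL (Fin n) F) : Matrix (Fin n) (Fin n) F).mulVec w) h2'
      simp only [Matrix.mulVec_mulVec, ← Units.val_mul] at this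
      rw [← this]
      have e : (x * g⁻¹ * x⁻¹ * (x * g * x⁻¹)) = 1 := by group
      rw [e, Units.val_one, Matrix.one_mulVec]
    have e : g * x * g⁻¹ * x⁻¹ = g * (x * g⁻¹ * x⁻¹) := by group
    rw [e, Units.val_mul, ← Matrix.mulVec_mulVec, h3, h1']
  have h2 := Submodule.finrank_sup_add_finrank_inf_eq (fixS g) (fixS (x * g * x⁻¹))
  have h3 : Module.finrank F ↥(fixS g ⊔ fixS (x * g * x⁻¹)) ≤ n := by
    have := Submodule.finrank_le (fixS g ⊔ fixS (x * g * x⁻¹))
    rwa [Module.finrank_fin_fun] at this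
  have h4 := Submodule.finrank_mono h1
  rw [finrank_conj] at h2
  omega

theorem result {F : Type*} [Field F] [Fintype F] {n : ℕ} (G : Subgroup (Matrix.GeneralLinearGroup (Fin n) F)) (hsol : IsSolvable G) (hirr : Cfsg.Geo.ActsIrreducibly (Cfsg.Geo.matrixSet G)) (hprim : ∀ (m t : ℕ) (D : Fin t → Submodule F (Fin n → F)), 2 ≤ t → Cfsg.Geo.IsMDecomposition m D → ¬ G ≤ Cfsg.Geo.decompositionStabilizer D) (g : Matrix.GeneralLinearGroup (Fin n) F) (hg : g ∈ G) (hg1 : g ≠ 1) :
    4 * Module.finrank F (Module.End.eigenspace (Matrix.toLin' (g : Matrix (Fin n) (Fin n) F)) 1) ≤ 3 * n := by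
  classical
  obtain ⟨A, E, hAn, hEn, hAE, hEc, hEE, hcent⟩ := exists_AE hsol
  -- elements of A act fixed-point-freely
  have hfpf : ∀ a : G, a ∈ A → (a : GL (Fin n) F) ≠ 1 → Module.finrank F (fixS (a : GL (Fin n) F)) = 0 := by
    intro a ha ha1
    have hmem : (a : GL (Fin n) F) ∈ ((fun x : G => (x : GL (Fin n) F)) '' (A : Set G)) := ⟨a, ha, rfl⟩
    have hbot : ∀ v ∈ fixS (a : GL (Fin n) F), v = 0 := by
      intro v hv
      rw [mem_fixS] at hv
      refine abelian_fpf G hirr hprim ((fun x : G => (x : GL (Fin n) F)) '' (A : Set G)) ?_ ?_ (a : GL (Fin n) F) hmem ha1 v hv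
      · rintro x hx _ ⟨y, hy, rfl⟩
        have hc : (⟨x, hx⟩ : G) * y * (⟨x, hx⟩ : G)⁻¹ ∈ (A : Set G) := hAn.conj_mem y hy (⟨x, hx⟩ : G)
        refine ⟨_, hc, ?_⟩
        simp only [Subgroup.coe_mul, Subgroup.coe_inv]
      · rintro _ ⟨x, hx, rfl⟩ _ ⟨y, hy, rfl⟩
        have h7 : ((x * y : G) : GL (Fin n) F) = ((y * x : G) : GL (Fin n) F) := by rw [hEc x hx y (hAE hy)]
        rw [Subgroup.coe_mul, Subgroup.coe_mul] at h7
        exact h7
    have hb : fixS (a : GL (Fin n) F) = ⊥ := (Submodule.eq_bot_iff _).2 hbot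
    rw [hb]; exact finrank_bot F (Fin n → F)
  show 4 * Module.finrank F (fixS g) ≤ 3 * n
  by_cases hgA : (⟨g, hg⟩ : G) ∈ A
  · have := hfpf ⟨g, hg⟩ hgA hg1
    have h2 : Module.finrank F (fixS g) = 0 := this
    omega
  · -- some e ∈ E not commuting with g
    have h1 : ∃ e ∈ E, (⟨g, hg⟩ : G) * e ≠ e * ⟨g, hg⟩ := by
      by_contra hcon
      push Not at hcon
      exact hgA (hcent _ hcon)
    obtain ⟨e, he, hne⟩ := h1
    let h : G := (⟨g, hg⟩ : G) * e * (⟨g, hg⟩ : G)⁻¹ * e⁻¹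
    have hh1 : h ≠ 1 := by
      intro hh
      apply hne
      have : (⟨g, hg⟩ : G) * e * (⟨g, hg⟩ : G)⁻¹ * e⁻¹ = 1 := hh
      rw [mul_inv_eq_one, mul_inv_eq_iff_eq_mul] at this
      exact this
    have hhE : h ∈ E := E.mul_mem (hEn.conj_mem e he _) (E.inv_mem he)
    have hd1 := dim_comm g (e : GL (Fin n) F)
    have hd1' : 2 * Module.finrank F (fixS g) ≤ n + Module.finrank F (fixS (h : GL (Fin n) F)) := hd1
    have hhne : (h : GL (Fin n) F) ≠ 1 := fun hc => hh1 (Subtype.ext hc)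
    by_cases hhA : h ∈ A
    · have := hfpf h hhA hhne
      omega
    · have h2 : ∃ f ∈ E, h * f ≠ f * h := by
        by_contra hcon
        push Not at hcon
        exact hhA (hcent _ hcon)
      obtain ⟨f, hf, hne2⟩ := h2
      let k : G := h * f * h⁻¹ * f⁻¹
      have hk1 : k ≠ 1 := by
        intro hh
        apply hne2
        have : h * f * h⁻¹ * f⁻¹ = 1 := hh
        rw [mul_inv_eq_one, mul_inv_eq_iff_eq_mul] at this
        exact this
      have hkA : k ∈ A := hEE h hhE f hf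
      have hd2 : 2 * Module.finrank F (fixS (h : GL (Fin n) F)) ≤ n + Module.finrank F (fixS (k : GL (Fin n) F)) :=
        dim_comm (h : GL (Fin n) F) (f : GL (Fin n) F)
      have hkne : (k : GL (Fin n) F) ≠ 1 := fun hc => hk1 (Subtype.ext hc)
      have := hfpf k hkA hkne
      omega

end Cfsg.Agent.S5876
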