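import Cfsg.Statements.S5938
import Mathlib
import Cfsg.Agent.H5_DkN

set_option autoImplicit false
open Cfsg

namespace Cfsg.Agent.S5938

open Cfsg.Agent.H5 Cfsg.Agent.H5.SL2 Cfsg.Agent.H5.V4 Cfsg.Agent.H5.Dk
open scoped Pointwise

theorem emb : ∃ φ : alternatingGroup (Fin 4) →* Equiv.Perm (Fin 4), Function.Injective φ :=
  ⟨(alternatingGroup (Fin 4)).subtype, (alternatingGroup (Fin 4)).subtype_injective⟩

/-- Let p be a prime with p ≡ ±1 (mod 8) and F a field with p elements. Then PSL_2(F) has a maximal subgroup isomorphic to the symmetric group S_4. -/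
theorem result {F : Type*} [Field F] [Fintype F] (p : ℕ) [Fact p.Prime] (hF : Fintype.card F = p) (hp : p % 8 = 1 ∨ p % 8 = 7) : ∃ H : Subgroup (Matrix.ProjectiveSpecialLinearGroup (Fin 2) F), IsCoatom H ∧ Nonempty (H ≃* Equiv.Perm (Fin 4)) := by
  have hpp : p.Prime := Fact.out
  have hodd : Fintype.card F % 2 = 1 := by rw [hF]; omega
  have hPS := card_PS_mul (F := F)
  have hdc := DihPS.gcd_cases (F := F)
  obtain ⟨H, ⟨e⟩⟩ := (S0803.result (F := F) rfl).mpr (by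
    rw [hF, sq, Nat.mul_mod]
    have h16 : p % 16 = 1 ∨ p % 16 = 7 ∨ p % 16 = 9 ∨ p % 16 = 15 := by omega
    rcases h16 with h | h | h | h <;> rw [h])
  have hcH : Nat.card H = 24 := by rw [Nat.card_congr e.toEquiv, card_S4]
  have hp7 : 7 ≤ p := by
    have := hpp.two_le
    omega
  have hRich : Rich H := by
    obtain ⟨φ, hφ⟩ := emb
    exact rich_A4 hodd (e.symm.toMonoidHom.comp φ) (e.symm.injective.comp hφ)
  refine ⟨H, ⟨?_, ?_⟩, ⟨e⟩⟩
  · intro h
    rw [h, Subgroup.card_top] at hcH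
    change Nat.card (PS F) = 24 at hcH
    rw [hcH, hF] at hPS
    have h1 : 7 * 6 * 8 ≤ p * (p - 1) * (p + 1) := Nat.mul_le_mul (Nat.mul_le_mul hp7 (by omega)) (by omega)
    rcases hdc with h | h
    · omega
    · rw [hF] at h; omega
  · intro M hHM
    by_contra hM
    obtain ⟨h1, h2⟩ := sub_lt hHM
    rw [hcH] at h1 h2
    rcases (hRich.mono hHM.le).list hM with ⟨⟨e'⟩⟩ | ⟨⟨e'⟩⟩ | ⟨⟨e'⟩⟩ | ⟨L, _, _, m, hm, hmq, ⟨e'⟩⟩ | ⟨L, _, _, m, hm, -, hmq, ⟨e'⟩⟩
    · rw [Nat.card_congr e'.toEquiv, card_A4] at h1; omega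
    · rw [Nat.card_congr e'.toEquiv, card_S4] at h2; omega
    · rw [Nat.card_congr e'.toEquiv, card_A5] at h1; omega
    · exact no_sub_prime (by rw [hF]; exact hpp) hm hmq
    · exact no_sub_prime (by rw [hF]; exact hpp) hm hmq

end Cfsg.Agent.S5938
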