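import Cfsg.Statements.S5941
import Mathlib
import Cfsg.Agent.H5_DkN

set_option autoImplicit false
open Cfsg

namespace Cfsg.Agent.S5941

open Cfsg.Agent.H5 Cfsg.Agent.H5.SL2 Cfsg.Agent.H5.V4 Cfsg.Agent.H5.Dk
open scoped Pointwise

/-- Let K and F be finite fields of odd characteristic with #F = (#K)². Then PSL_2(F) has a maximal subgroup isomorphic to PGL_2(K). -/
theorem result {F K : Type*} [Field F] [Fintype F] [Field K] [Fintype K] (q : ℕ) (hK : Fintype.card K = q) (hF : Fintype.card F = q ^ 2) (hq : Odd q) : ∃ H : Subgroup (Matrix.ProjectiveSpecialLinearGroup (Fin 2) F), IsCoatom H ∧ Nonempty (H ≃* Matrix.ProjGenLinGroup (Fin 2) K) := by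
  subst hK
  have hq1 : 1 < Fintype.card K := Fintype.one_lt_card
  have hq3 : 3 ≤ Fintype.card K := by
    obtain ⟨k, hk⟩ := hq; omega
  have hoddK : Fintype.card K % 2 = 1 := Nat.odd_iff.mp hq
  have hodd : Fintype.card F % 2 = 1 := by rw [hF]; exact Nat.odd_iff.mp hq.pow
  have hPS := card_PS_mul (F := F)
  have hdc := DihPS.gcd_cases (F := F)
  have hPSK := card_PS_mul (F := K)
  have hdcK := DihPS.gcd_cases (F := K)
  obtain ⟨H, ⟨e⟩⟩ := ((S0805.result (F := F) (K := K) rfl (Nat.odd_iff.mpr hodd) 2 (by norm_num) hF.symm).2).mpr even_two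
  have hcH : Nat.card H = Fintype.card K * (Fintype.card K * Fintype.card K - 1) := by rw [Nat.card_congr e.toEquiv, card_PGL2, sq_sub_eq]
  have hRich : Rich H := by
    obtain ⟨p, hp⟩ := CharP.exists K
    have hpp : Fact p.Prime := ⟨CharP.char_is_prime K p⟩
    obtain ⟨b, hb, hKb⟩ := GL2.exists_card_eq (F := K) p
    obtain ⟨H', ⟨e'⟩⟩ := (S0802.result (F := K) p b hKb).mpr (by
      rintro ⟨rfl, -⟩
      rw [hKb] at hoddK
      obtain ⟨c, rfl⟩ : ∃ c, b = c + 1 := ⟨b - 1, by omega⟩
      rw [pow_succ] at hoddK; omega)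
    exact rich_A4 hodd (e.symm.toMonoidHom.comp (Matrix.ProjectiveSpecialLinearGroup.toPGL.comp (H'.subtype.comp e'.symm.toMonoidHom)))
      (e.symm.injective.comp (Matrix.ProjectiveSpecialLinearGroup.toPGL_injective.comp (H'.subtype_injective.comp e'.symm.injective)))
  have hd2 : Nat.gcd 2 (Fintype.card F - 1) = 2 := by rcases hdc with h | h <;> omega
  have hdK2 : Nat.gcd 2 (Fintype.card K - 1) = 2 := by rcases hdcK with h | h <;> omega
  rw [hd2, sq_sub_eq] at hPS
  rw [hdK2, sq_sub_eq] at hPSK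
  have hkk : 9 ≤ Fintype.card K * Fintype.card K := Nat.mul_le_mul hq3 hq3
  have hmono : ∀ l : ℕ, l ≤ Fintype.card K → l * (l * l - 1) ≤ Fintype.card K * (Fintype.card K * Fintype.card K - 1) := fun l hl =>
    Nat.mul_le_mul hl (Nat.sub_le_sub_right (Nat.mul_le_mul hl hl) 1)
  have hpos : 0 < Fintype.card K * (Fintype.card K * Fintype.card K - 1) := Nat.mul_pos (by omega) (by omega)
  refine ⟨H, ⟨?_, ?_⟩, ⟨e⟩⟩
  · intro h
    rw [h, Subgroup.card_top] at hcH
    change Nat.card (PS F) = _ at hcH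
    rw [hcH, hF, sq] at hPS
    have h1 : Fintype.card K * (Fintype.card K * Fintype.card K - 1) * 3 ≤
        Fintype.card K * Fintype.card K * (Fintype.card K * Fintype.card K * (Fintype.card K * Fintype.card K) - 1) := by
      have h2 : Fintype.card K * 3 ≤ Fintype.card K * Fintype.card K := Nat.mul_le_mul_left _ hq3
      have h3 : Fintype.card K * Fintype.card K - 1 ≤ Fintype.card K * Fintype.card K * (Fintype.card K * Fintype.card K) - 1 := by
        apply Nat.sub_le_sub_right
        exact Nat.le_mul_of_pos_right _ (by omega)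
      calc Fintype.card K * (Fintype.card K * Fintype.card K - 1) * 3 = Fintype.card K * 3 * (Fintype.card K * Fintype.card K - 1) := by ring
        _ ≤ _ := Nat.mul_le_mul h2 h3
    omega
  · intro M hHM
    by_contra hM
    obtain ⟨h1, h2⟩ := sub_lt hHM
    have hlt : Nat.card H < Nat.card M := lt_of_le_of_ne (Nat.le_of_dvd Nat.card_pos h1) h2
    have hL : ∀ (L : Type) [Field L] [Fintype L] (m : ℕ), 2 ≤ m → Fintype.card L ^ m = Fintype.card F → Fintype.card L ≤ Fintype.card K := by
      intro L _ _ m hm hmq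
      have hl1 : 1 < Fintype.card L := Fintype.one_lt_card
      have h3 : Fintype.card L ^ 2 ≤ Fintype.card K ^ 2 := by
        rw [← hF, ← hmq]; exact Nat.pow_le_pow_right (by omega) hm
      exact (Nat.pow_le_pow_iff_left two_ne_zero).mp h3
    rw [hcH] at h1 h2 hlt
    have h60 : ∀ n : ℕ, n ≤ 60 → Fintype.card K * (Fintype.card K * Fintype.card K - 1) ∣ n → Fintype.card K * (Fintype.card K * Fintype.card K - 1) < n → n = 48 := by
      intro n hn hd hl
      have h4 : Fintype.card K < 4 := by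
        by_contra hcon
        have h5 : 4 * 15 ≤ Fintype.card K * (Fintype.card K * Fintype.card K - 1) :=
          Nat.mul_le_mul (by omega) (by
            have : 4 * 4 ≤ Fintype.card K * Fintype.card K := Nat.mul_le_mul (by omega) (by omega)
            omega)
        omega
      have h5 : Fintype.card K = 3 := by omega
      rw [h5] at hd hl
      omega
    rcases (hRich.mono hHM.le).list hM with ⟨⟨e'⟩⟩ | ⟨⟨e'⟩⟩ | ⟨⟨e'⟩⟩ | ⟨L, _, _, m, hm, hmq, ⟨e'⟩⟩ | ⟨L, _, _, m, hm, -, hmq, ⟨e'⟩⟩
    · rw [Nat.card_congr e'.toEquiv, card_A4] at h1 hlt; have := h60 12 (by norm_num) h1 hlt; omega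
    · rw [Nat.card_congr e'.toEquiv, card_S4] at h1 hlt; have := h60 24 (by norm_num) h1 hlt; omega
    · rw [Nat.card_congr e'.toEquiv, card_A5] at h1 hlt; have := h60 60 (by norm_num) h1 hlt; omega
    · have h3 := hmono _ (hL L m hm hmq)
      have h4 := card_PS_mul (F := L)
      rw [← Nat.card_congr e'.toEquiv, sq_sub_eq] at h4
      change _ * Nat.card M = _ at h4
      have h5 : 1 * Nat.card M ≤ Nat.gcd 2 (Fintype.card L - 1) * Nat.card M := Nat.mul_le_mul_right _ (Nat.gcd_pos_of_pos_left _ (by norm_num))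
      omega
    · have h3 := hmono _ (hL L m hm hmq)
      rw [Nat.card_congr e'.toEquiv, card_PGL2, sq_sub_eq] at hlt
      omega

end Cfsg.Agent.S5941
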