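import Cfsg.Statements.S5942
import Mathlib
import Cfsg.Agent.H5_DkN

set_option autoImplicit false
open Cfsg

namespace Cfsg.Agent.S5942

open Cfsg.Agent.H5 Cfsg.Agent.H5.SL2 Cfsg.Agent.H5.V4 Cfsg.Agent.H5.Dk
open scoped Pointwise

/-- Let K and F be finite fields of odd characteristic with #F = (#K)^r for an odd prime r. Then PSL_2(F) has a maximal subgroup isomorphic to PSL_2(K). -/
theorem result {F K : Type*} [Field F] [Fintype F] [Field K] [Fintype K] (q r : ℕ) (hK : Fintype.card K = q) (hF : Fintype.card F = q ^ r) (hq : Odd q) (hr : r.Prime) (hr2 : r ≠ 2) : ∃ H : Subgroup (Matrix.ProjectiveSpecialLinearGroup (Fin 2) F), IsCoatom H ∧ Nonempty (H ≃* Matrix.ProjectiveSpecialLinearGroup (Fin 2) K) := by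
  subst hK
  have hq1 : 1 < Fintype.card K := Fintype.one_lt_card
  have hq3 : 3 ≤ Fintype.card K := by
    obtain ⟨k, hk⟩ := hq; omega
  have hr3 : 3 ≤ r := by have := hr.two_le; omega
  have hrodd : r % 2 = 1 := by
    rcases hr.eq_two_or_odd with h | h
    · exact absurd h hr2
    · exact h
  have hoddK : Fintype.card K % 2 = 1 := Nat.odd_iff.mp hq
  have hodd : Fintype.card F % 2 = 1 := by rw [hF]; exact Nat.odd_iff.mp hq.pow
  have hPS := card_PS_mul (F := F)
  have hdc := DihPS.gcd_cases (F := F)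
  have hPSK := card_PS_mul (F := K)
  have hdcK := DihPS.gcd_cases (F := K)
  obtain ⟨H, ⟨e⟩⟩ := (S0805.result (F := F) (K := K) rfl (Nat.odd_iff.mpr hodd) r (by omega) hF.symm).1
  have hd2 : Nat.gcd 2 (Fintype.card F - 1) = 2 := by rcases hdc with h | h <;> omega
  have hdK2 : Nat.gcd 2 (Fintype.card K - 1) = 2 := by rcases hdcK with h | h <;> omega
  rw [hd2, sq_sub_eq] at hPS
  rw [hdK2, sq_sub_eq] at hPSK
  have hcH : 2 * Nat.card H = Fintype.card K * (Fintype.card K * Fintype.card K - 1) := by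
    rw [← hPSK, Nat.card_congr e.toEquiv]
  have hRich : Rich H := by
    obtain ⟨p, hp⟩ := CharP.exists K
    have hpp : Fact p.Prime := ⟨CharP.char_is_prime K p⟩
    obtain ⟨b, hb, hKb⟩ := GL2.exists_card_eq (F := K) p
    obtain ⟨H', ⟨e'⟩⟩ := (S0802.result (F := K) p b hKb).mpr (by
      rintro ⟨rfl, -⟩
      rw [hKb] at hoddK
      obtain ⟨c, rfl⟩ : ∃ c, b = c + 1 := ⟨b - 1, by omega⟩
      rw [pow_succ] at hoddK; omega)
    exact rich_A4 hodd (e.symm.toMonoidHom.comp (H'.subtype.comp e'.symm.toMonoidHom))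
      (e.symm.injective.comp (H'.subtype_injective.comp e'.symm.injective))
  have hkk : 9 ≤ Fintype.card K * Fintype.card K := Nat.mul_le_mul hq3 hq3
  have hlt1 : Fintype.card K < Fintype.card F := by
    rw [hF]
    calc Fintype.card K = Fintype.card K ^ 1 := (pow_one _).symm
      _ < Fintype.card K ^ r := Nat.pow_lt_pow_right hq1 (by omega)
  refine ⟨H, ⟨?_, ?_⟩, ⟨e⟩⟩
  · intro h
    rw [h, Subgroup.card_top] at hcH
    change 2 * Nat.card (PS F) = _ at hcH
    rw [hPS] at hcH
    have h1 : Fintype.card K * (Fintype.card K * Fintype.card K - 1) < Fintype.card F * (Fintype.card F * Fintype.card F - 1) :=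
      Nat.mul_lt_mul_of_lt_of_le hlt1 (Nat.sub_le_sub_right (Nat.mul_le_mul hlt1.le hlt1.le) 1) (by
        have : 9 ≤ Fintype.card F * Fintype.card F := Nat.mul_le_mul (by omega : 3 ≤ _) (by omega : 3 ≤ _)
        omega)
    omega
  · intro M hHM
    by_contra hM
    obtain ⟨h1, h2⟩ := sub_lt hHM
    have hlt : Nat.card H < Nat.card M := lt_of_le_of_ne (Nat.le_of_dvd Nat.card_pos h1) h2
    have hqF : Fintype.card K = 3 → (Fintype.card F * Fintype.card F) % 80 = 9 % 80 ∨ (Fintype.card F * Fintype.card F) % 80 = 9 ^ 3 % 80 := by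
      intro h3
      rw [hF, h3, ← mul_pow]
      obtain ⟨s, hs⟩ : ∃ s, r = 2 * s + 1 := ⟨r / 2, by omega⟩
      rw [hs, pow_succ, pow_mul]
      have : (3 * 3) ^ 2 = 81 := by norm_num
      rw [this]
      left
      rw [Nat.mul_mod, Nat.pow_mod]
      norm_num
    rcases (hRich.mono hHM.le).list hM with ⟨⟨e'⟩⟩ | ⟨⟨e'⟩⟩ | ⟨⟨e'⟩⟩ | ⟨L, _, _, m, hm, hmq, ⟨e'⟩⟩ | ⟨L, _, _, m, hm, -, hmq, ⟨e'⟩⟩
    · rw [Nat.card_congr e'.toEquiv, card_A4] at h1 hlt
      have h4 : 3 * 8 ≤ Fintype.card K * (Fintype.card K * Fintype.card K - 1) := Nat.mul_le_mul hq3 (by omega)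
      omega
    · rw [Nat.card_congr e'.toEquiv, card_S4] at h1 hlt
      have h3 : Fintype.card K = 3 := by
        by_contra hcon
        have h4 : 4 * 15 ≤ Fintype.card K * (Fintype.card K * Fintype.card K - 1) :=
          Nat.mul_le_mul (by omega) (by
            have : 4 * 4 ≤ Fintype.card K * Fintype.card K := Nat.mul_le_mul (by omega) (by omega)
            omega)
        omega
      have h4 := (S0803.result (F := F) rfl).mp ⟨M, ⟨e'⟩⟩
      rw [sq] at h4
      have := hqF h3
      omega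
    · rw [Nat.card_congr e'.toEquiv, card_A5] at h1 hlt
      have h3 : Fintype.card K = 3 := by
        by_contra hcon
        have h4 : 5 * 24 ≤ Fintype.card K * (Fintype.card K * Fintype.card K - 1) :=
          Nat.mul_le_mul (by omega) (by
            have : 5 * 5 ≤ Fintype.card K * Fintype.card K := Nat.mul_le_mul (by omega) (by omega)
            omega)
        omega
      have h4 := (S0804.result (F := F) rfl).mp ⟨M, ⟨e'⟩⟩
      have h5 := hqF h3
      rw [sq] at h4
      have h9 : 9 ≤ Fintype.card F * Fintype.card F := Nat.mul_le_mul (by omega : 3 ≤ _) (by omega : 3 ≤ _)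
      rcases (Nat.Prime.dvd_mul (by norm_num)).mp h4 with h6 | h6
      · have h7 : 5 ∣ Fintype.card F * Fintype.card F := Dvd.dvd.mul_left h6 _
        omega
      · omega
    · have h4 := card_PS_mul (F := L)
      rw [gcd_sub (F := F) (L := L) (m := m) (by omega) hmq, hd2, ← Nat.card_congr e'.toEquiv, sq_sub_eq] at h4
      obtain ⟨h5, h6⟩ := deg_eq (K := K) hr hF hm hmq (by
        rw [← h4, ← hcH]
        exact Dvd.dvd.mul_left (Nat.mul_dvd_mul_left _ h1) _)
      rw [h6] at h4
      change 2 * Nat.card M = _ at h4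
      omega
    · have h4 : Nat.card M = Fintype.card L * (Fintype.card L * Fintype.card L - 1) := by
        rw [Nat.card_congr e'.toEquiv, card_PGL2, sq_sub_eq]
      obtain ⟨h5, h6⟩ := deg_eq (K := K) hr hF hm hmq (by
        rw [← h4, ← hcH]
        exact Nat.mul_dvd_mul_left _ h1)
      have h7 := ((S0805.result (F := F) (K := L) rfl (Nat.odd_iff.mpr hodd) m (by omega) hmq).2).mp ⟨M, ⟨e'⟩⟩
      rw [h5, Nat.even_iff] at h7
      omega

end Cfsg.Agent.S5942
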