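import Cfsg.Statements.S5943
import Mathlib
import Cfsg.Agent.H5_DkN

set_option autoImplicit false
open Cfsg

namespace Cfsg.Agent.S5943

open Cfsg.Agent.H5 Cfsg.Agent.H5.SL2 Cfsg.Agent.H5.V4 Cfsg.Agent.H5.Dk
open scoped Pointwise

/-- Let K and F be finite fields of characteristic 2 with #K = q > 2 and #F = q^r for a prime r. Then PSL_2(F) has a maximal subgroup isomorphic to PSL_2(K) (which equals PGL_2(K) in characteristic 2). -/
theorem result {F K : Type*} [Field F] [Fintype F] [Field K] [Fintype K] (q r : ℕ) (hK : Fintype.card K = q) (hF : Fintype.card F = q ^ r) (hq : Even q) (hq2 : q ≠ 2) (hr : r.Prime) : ∃ H : Subgroup (Matrix.ProjectiveSpecialLinearGroup (Fin 2) F), IsCoatom H ∧ Nonempty (H ≃* Matrix.ProjectiveSpecialLinearGroup (Fin 2) K) := by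
  subst hK
  have hq1 : 1 < Fintype.card K := Fintype.one_lt_card
  have hevK : Fintype.card K % 2 = 0 := Nat.even_iff.mp hq
  have hq4 : 4 ≤ Fintype.card K := by omega
  have hr2 : 2 ≤ r := hr.two_le
  have hev : Fintype.card F % 2 = 0 := by rw [hF]; exact Nat.even_iff.mp (Nat.even_pow.mpr ⟨hq, by omega⟩)
  have hPS := card_PS_mul (F := F)
  have hdc := DihPS.gcd_cases (F := F)
  have hPSK := card_PS_mul (F := K)
  have hdcK := DihPS.gcd_cases (F := K)
  obtain ⟨ι, hι⟩ := FF.exists_embedding (F := F) (K := K) (q := Fintype.card K) (r := r) rfl hF (by omega)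
  have e : _ ≃* PS K := (ψe 1 ι).symm
  set H := (ψ 1 ι).range with hH
  have hd2 : Nat.gcd 2 (Fintype.card F - 1) = 1 := by rcases hdc with h | h <;> omega
  have hdK2 : Nat.gcd 2 (Fintype.card K - 1) = 1 := by rcases hdcK with h | h <;> omega
  rw [hd2, sq_sub_eq, one_mul] at hPS
  rw [hdK2, sq_sub_eq, one_mul] at hPSK
  have hcH : Nat.card H = Fintype.card K * (Fintype.card K * Fintype.card K - 1) := by
    rw [← hPSK, Nat.card_congr e.toEquiv]
  have hRich : Rich H := rich_PS hev hevK hq4 e.symm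
  have hkk : 16 ≤ Fintype.card K * Fintype.card K := Nat.mul_le_mul hq4 hq4
  have hlt1 : Fintype.card K < Fintype.card F := by
    rw [hF]
    calc Fintype.card K = Fintype.card K ^ 1 := (pow_one _).symm
      _ < Fintype.card K ^ r := Nat.pow_lt_pow_right hq1 (by omega)
  refine ⟨H, ⟨?_, ?_⟩, ⟨e⟩⟩
  · intro h
    rw [h, Subgroup.card_top] at hcH
    change Nat.card (PS F) = _ at hcH
    rw [hPS] at hcH
    have h1 : Fintype.card K * (Fintype.card K * Fintype.card K - 1) < Fintype.card F * (Fintype.card F * Fintype.card F - 1) :=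
      Nat.mul_lt_mul_of_lt_of_le hlt1 (Nat.sub_le_sub_right (Nat.mul_le_mul hlt1.le hlt1.le) 1) (by
        have : 9 ≤ Fintype.card F * Fintype.card F := Nat.mul_le_mul (by omega : 3 ≤ _) (by omega : 3 ≤ _)
        omega)
    omega
  · intro M hHM
    by_contra hM
    obtain ⟨h1, h2⟩ := sub_lt hHM
    have hlt : Nat.card H < Nat.card M := lt_of_le_of_ne (Nat.le_of_dvd Nat.card_pos h1) h2
    have h60 : 4 * 15 ≤ Fintype.card K * (Fintype.card K * Fintype.card K - 1) := Nat.mul_le_mul hq4 (by omega)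
    rcases (hRich.mono hHM.le).list hM with ⟨⟨e'⟩⟩ | ⟨⟨e'⟩⟩ | ⟨⟨e'⟩⟩ | ⟨L, _, _, m, hm, hmq, ⟨e'⟩⟩ | ⟨L, _, _, m, hm, hod, hmq, ⟨e'⟩⟩
    · rw [Nat.card_congr e'.toEquiv, card_A4] at h1 hlt
      omega
    · rw [Nat.card_congr e'.toEquiv, card_S4] at h1 hlt
      omega
    · rw [Nat.card_congr e'.toEquiv, card_A5] at h1 hlt
      omega
    · have h4 := card_PS_mul (F := L)
      rw [gcd_sub (F := F) (L := L) (m := m) (by omega) hmq, hd2, ← Nat.card_congr e'.toEquiv, sq_sub_eq, one_mul] at h4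
      obtain ⟨h5, h6⟩ := deg_eq (K := K) hr hF hm hmq (by
        rw [← h4, ← hcH]
        exact Dvd.dvd.mul_left h1 _)
      rw [h6] at h4
      omega
    · omega

end Cfsg.Agent.S5943
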