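import Cfsg.Statements.S5944
import Cfsg.Agent.H19_SymIdx

set_option autoImplicit false
open Cfsg

namespace Cfsg.Agent.S5944

open Equiv MulAction Subgroup

/-- For n ≠ 4, every proper subgroup of the symmetric group S_n other than the alternating group A_n has index at least n. -/
theorem result (n : ℕ) (hn : n ≠ 4) (H : Subgroup (Equiv.Perm (Fin n))) (hH : H ≠ ⊤) (hA : H ≠ alternatingGroup (Fin n)) : n ≤ H.index := by
  classical
  by_contra hlt
  push Not at hlt
  have hpos : H.index ≠ 0 := Subgroup.index_ne_zero_of_finite
  have h1 : H.index ≠ 1 := fun h => hH (Subgroup.index_eq_one.1 h)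
  have h2 : 2 ≤ n → H.index ≠ 2 := by
    intro hn2 h
    haveI : Nontrivial (Fin n) := Fin.nontrivial_iff_two_le.2 hn2
    exact hA (Equiv.Perm.eq_alternatingGroup_of_index_eq_two h)
  rcases Nat.lt_or_ge n 5 with hn5 | hn5
  · have : n ≤ 3 := by omega
    interval_cases n
    · omega
    · omega
    · omega
    · have := h2 (by norm_num)
      omega
  · have hcore := H19.SymIdx.core_bot (Ω := Fin n) (by simpa using hn5) H h1 (h2 (by omega))
    have hinj := H19.SymIdx.toPerm_inj H hcore
    have hc := Nat.card_le_card_of_injective _ hinj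
    rw [Nat.card_perm, Nat.card_perm, ← Subgroup.index_eq_card, Nat.card_eq_fintype_card, Fintype.card_fin] at hc
    have := (Nat.factorial_lt (by omega : 0 < H.index)).2 hlt
    omega

end Cfsg.Agent.S5944
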