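import Cfsg.Statements.S5945
import Cfsg.Agent.H19_SymIdx2

set_option autoImplicit false
open Cfsg

namespace Cfsg.Agent.S5945

open Equiv MulAction Subgroup

/-- The symmetric group S_6 has exactly 12 subgroups of index 6; each of them is isomorphic to S_5, and at least one of them is not the stabilizer of any point. -/
theorem result : Nat.card {H : Subgroup (Equiv.Perm (Fin 6)) // H.index = 6} = 12 ∧ (∀ H : Subgroup (Equiv.Perm (Fin 6)), H.index = 6 → Nonempty (H ≃* Equiv.Perm (Fin 5))) ∧ ∃ H : Subgroup (Equiv.Perm (Fin 6)), H.index = 6 ∧ ∀ a : Fin 6, H ≠ MulAction.stabilizer (Equiv.Perm (Fin 6)) a := by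
  classical
  have h6 : Fintype.card (Fin 6) = 6 := by simp
  obtain ⟨H₂, h2, hn2⟩ := H19.SymIdx.exists_exotic (Ω := Fin 6) h6
  refine ⟨?_, ?_, H₂, h2, hn2⟩
  · obtain ⟨φ, hφ⟩ := H19.SymIdx.exists_iso (Ω := Fin 6) (by omega) H₂ (h2.trans h6.symm)
    letI : Fintype (Perm (Fin 6) ⧸ H₂) := Fintype.ofFinite _
    have hcX : Fintype.card (Perm (Fin 6) ⧸ H₂) = 6 := by
      rw [← Nat.card_eq_fintype_card, ← Subgroup.index_eq_card, h2]
    have hidx : ∀ x : Perm (Fin 6) ⧸ H₂, ((stabilizer (Perm (Perm (Fin 6) ⧸ H₂)) x).comap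
        (φ : Perm (Fin 6) →* Perm (Perm (Fin 6) ⧸ H₂))).index = 6 := by
      intro x
      rw [Subgroup.index_comap_of_surjective _ φ.surjective,
        index_stabilizer_of_transitive (Perm (Perm (Fin 6) ⧸ H₂)) x, Nat.card_eq_fintype_card, hcX]
    have hnot : ∀ (x : Perm (Fin 6) ⧸ H₂) (y : Fin 6), (stabilizer (Perm (Perm (Fin 6) ⧸ H₂)) x).comap
        (φ : Perm (Fin 6) →* Perm (Perm (Fin 6) ⧸ H₂)) ≠ stabilizer (Perm (Fin 6)) y := by
      intro x y hxy
      obtain ⟨g, hg⟩ : ∃ g : Perm (Fin 6), φ g = swap x ((1 : Perm (Fin 6)) : Perm (Fin 6) ⧸ H₂) :=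
        ⟨φ.symm _, φ.apply_symm_apply _⟩
      have h3 := H19.SymIdx.conj_comap φ g x
      rw [hxy, hg, swap_apply_left, ← hφ, H19.SymIdx.conj_stab] at h3
      exact hn2 _ h3.symm
    let f : Fin 6 ⊕ (Perm (Fin 6) ⧸ H₂) → {H : Subgroup (Perm (Fin 6)) // H.index = 6} := fun w =>
      match w with
      | Sum.inl a => ⟨stabilizer (Perm (Fin 6)) a, by
          rw [index_stabilizer_of_transitive (Perm (Fin 6)) a, Nat.card_eq_fintype_card, h6]⟩
      | Sum.inr x => ⟨_, hidx x⟩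
    have hf : Function.Bijective f := by
      constructor
      · rintro (a | x) (b | y) h
        · have h3 : stabilizer (Perm (Fin 6)) a = stabilizer (Perm (Fin 6)) b := congrArg Subtype.val h
          rw [H19.SymIdx.stab_injective (by simp) h3]
        · exact absurd (congrArg Subtype.val h).symm (hnot y a)
        · exact absurd (congrArg Subtype.val h) (hnot x b)
        · have h3 := congrArg Subtype.val h
          have h4 := Subgroup.comap_injective (f := (φ : Perm (Fin 6) →* Perm (Perm (Fin 6) ⧸ H₂)))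
            φ.surjective h3
          rw [H19.SymIdx.stab_injective (by rw [hcX]; norm_num) h4]
      · rintro ⟨H, hH⟩
        by_cases h : ∃ y : Fin 6, H = stabilizer (Perm (Fin 6)) y
        · obtain ⟨y, rfl⟩ := h
          exact ⟨Sum.inl y, rfl⟩
        · push Not at h
          obtain ⟨g, hg⟩ := H19.SymIdx.conj_of_not h6 H₂ H h2 hH hn2 h
          refine ⟨Sum.inr (φ g ((1 : Perm (Fin 6)) : Perm (Fin 6) ⧸ H₂)), ?_⟩
          apply Subtype.ext
          show (stabilizer (Perm (Perm (Fin 6) ⧸ H₂)) _).comap _ = H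
          rw [← H19.SymIdx.conj_comap, ← hφ, hg]
    rw [← Nat.card_congr (Equiv.ofBijective f hf), Nat.card_sum, Nat.card_eq_fintype_card,
      Nat.card_eq_fintype_card, hcX, h6]
  · intro H hH
    obtain ⟨φ, hφ⟩ := H19.SymIdx.exists_iso (Ω := Fin 6) (by omega) H (hH.trans h6.symm)
    letI : Fintype (Perm (Fin 6) ⧸ H) := Fintype.ofFinite _
    have hcX : Fintype.card (Perm (Fin 6) ⧸ H) = 6 := by
      rw [← Nat.card_eq_fintype_card, ← Subgroup.index_eq_card, hH]
    obtain ⟨e⟩ := H19.SymIdx.stab_iso (X := Perm (Fin 6) ⧸ H) ((1 : Perm (Fin 6)) : Perm (Fin 6) ⧸ H) 5 hcX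
    have e1 : ((stabilizer (Perm (Perm (Fin 6) ⧸ H)) ((1 : Perm (Fin 6)) : Perm (Fin 6) ⧸ H)).comap
        (φ : Perm (Fin 6) →* Perm (Perm (Fin 6) ⧸ H))) ≃*
        stabilizer (Perm (Perm (Fin 6) ⧸ H)) ((1 : Perm (Fin 6)) : Perm (Fin 6) ⧸ H) := by
      have h1 := φ.subgroupMap ((stabilizer (Perm (Perm (Fin 6) ⧸ H)) ((1 : Perm (Fin 6)) : Perm (Fin 6) ⧸ H)).comap
        (φ : Perm (Fin 6) →* Perm (Perm (Fin 6) ⧸ H)))
      refine h1.trans (MulEquiv.subgroupCongr ?_)
      exact Subgroup.map_comap_eq_self_of_surjective φ.surjective _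
    exact ⟨((MulEquiv.subgroupCongr hφ).trans e1).trans e⟩

end Cfsg.Agent.S5945
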