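import Cfsg.Statements.S5950
import Mathlib
import Cfsg.Agent.H5_Spa2
import Cfsg.Agent.H5_Jor
import Cfsg.Agent.S5949

set_option autoImplicit false
open scoped MatrixGroups
open Cfsg

namespace Cfsg.Agent.S5950

open Matrix Module Cfsg.Agent.H5.Fld Cfsg.Agent.H5.Spa Cfsg.Agent.H5.Jor

theorem card_compl_one {F V : Type*} [Field F] [Fintype F] [AddCommGroup V] [Module F V] [FiniteDimensional F V]
    {q : ℕ} (hq : Fintype.card F = q) (U : Submodule F V) :
    Nat.card {W : Submodule F V // IsCompl U W} = q ^ ((finrank F V - finrank F U) * finrank F U) := by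
  classical
  haveI : Finite V := Module.finite_of_finite F
  obtain ⟨W₀, hW₀⟩ := Submodule.exists_isCompl U
  rw [Nat.card_congr (Submodule.isComplEquivProj U)]
  obtain ⟨f₀, hf₀⟩ := (Submodule.isComplEquivProj U) ⟨W₀, hW₀⟩
  let e : {f : V →ₗ[F] U // ∀ x : U, f x = x} ≃ ((V ⧸ U) →ₗ[F] U) :=
    { toFun := fun f => U.liftQ (f.1 - f₀) (by
        intro u hu
        rw [LinearMap.mem_ker, LinearMap.sub_apply, f.2 ⟨u, hu⟩, hf₀ ⟨u, hu⟩, sub_self])
      invFun := fun g => ⟨f₀ + g.comp U.mkQ, by
        intro x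
        rw [LinearMap.add_apply, hf₀, LinearMap.comp_apply, Submodule.mkQ_apply,
          (Submodule.Quotient.mk_eq_zero U).2 x.2, map_zero, add_zero]⟩
      left_inv := fun f => by
        apply Subtype.ext
        ext v
        simp
      right_inv := fun g => by
        ext v
        simp }
  haveI : Fintype ((V ⧸ U) →ₗ[F] U) := by
    haveI : Finite ((V ⧸ U) →ₗ[F] U) := Module.finite_of_finite F
    exact Fintype.ofFinite _
  rw [Nat.card_congr e, Nat.card_eq_fintype_card, Module.card_eq_pow_finrank (K := F), hq, Module.finrank_linearMap]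
  have := Submodule.finrank_quotient_add_finrank U
  congr 2
  omega

theorem card_compl {F V : Type*} [Field F] [Fintype F] [AddCommGroup V] [Module F V] [FiniteDimensional F V]
    {q : ℕ} (hq : Fintype.card F = q) (m : ℕ) :
    Nat.card {P : Submodule F V × Submodule F V // IsCompl P.1 P.2 ∧ finrank F ↥P.1 = m} =
      Nat.card {W : Submodule F V // finrank F W = m} * q ^ ((finrank F V - m) * m) := by
  classical
  haveI : Finite V := Module.finite_of_finite F
  have hfin2 : Finite (Submodule F V) := Finite.of_injective (fun W : Submodule F V => (W : Set V))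
    SetLike.coe_injective
  let e : {P : Submodule F V × Submodule F V // IsCompl P.1 P.2 ∧ finrank F ↥P.1 = m} ≃
      (Σ U : {U : Submodule F V // finrank F U = m}, {W : Submodule F V // IsCompl U.1 W}) :=
    { toFun := fun P => ⟨⟨P.1.1, P.2.2⟩, ⟨P.1.2, P.2.1⟩⟩
      invFun := fun p => ⟨(p.1.1, p.2.1), p.2.2, p.1.2⟩
      left_inv := fun P => rfl
      right_inv := fun p => rfl }
  have hfin3 : Fintype {W : Submodule F V // Module.finrank F W = m} := Fintype.ofFinite _
  rw [Nat.card_congr e, Nat.card_sigma]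
  rw [Finset.sum_congr rfl (fun U _ => (card_compl_one hq U.1).trans (by rw [U.2])), Finset.sum_const, Finset.card_univ,
    smul_eq_mul, Nat.card_eq_fintype_card]

theorem exists_inv_compl {F V : Type*} [Field F] [AddCommGroup V] [Module F V] [FiniteDimensional F V] {r : ℕ}
    (hr : (r : F) ≠ 0) {z : F} (hz : z ≠ 0) (y : Module.End F V) (hy : y ^ r = z • 1) (U : Submodule F V)
    (hU : U ≤ U.comap y) : ∃ W : Submodule F V, IsCompl U W ∧ W ≤ W.comap y := by
  have h1 : y.IsSemisimple := by
    apply Module.End.isSemisimple_of_squarefree_aeval_eq_zero (Polynomial.separable_X_pow_sub_C z hr hz).squarefree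
    simp [hy, Algebra.algebraMap_eq_smul_one]
  obtain ⟨W, hW, hUW⟩ := (Module.End.isSemisimple_iff.1 h1) U hU
  exact ⟨W, hUW, hW⟩

theorem pow_sub_one {F V : Type*} [Field F] [AddCommGroup V] [Module F V] {p : ℕ} [Fact p.Prime]
    [CharP F p] (y : Module.End F V) (hy : y ^ p = 1) : (y - 1) ^ p = 0 := by
  by_cases hV : Nontrivial V
  · haveI : CharP (Module.End F V) p :=
      charP_of_injective_algebraMap (algebraMap F (Module.End F V)).injective p
    rw [sub_pow_char_of_commute _ (Commute.one_right y), hy, one_pow, sub_self]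
  · rw [not_nontrivial_iff_subsingleton] at hV
    apply LinearMap.ext
    intro v
    exact Subsingleton.elim _ _

theorem not_dvd_sub {F : Type*} [Field F] [Fintype F] {p : ℕ} [Fact p.Prime] [CharP F p] : ¬ p ∣ Fintype.card F - 1 := by
  intro h
  exact ne_char (r := p) (t := 1) (F := F) rfl one_ne_zero (by rwa [pow_one]) rfl

theorem two_case (n m : ℕ) (hmn : 2 * m < n) : (∀ μ : Multiset ℕ, (∀ a ∈ μ, 0 < a ∧ a ≤ 2) → μ.sum = n →
    ∃ ν : Multiset ℕ, ν ≤ μ ∧ ν.sum = m) ↔ (Odd n ∨ Even m) := by
  classical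
  constructor
  · intro h
    by_contra hno
    rw [not_or, Nat.not_odd_iff_even, Nat.not_even_iff_odd] at hno
    obtain ⟨⟨k, hk⟩, ho⟩ := hno
    obtain ⟨ν, hν, hν2⟩ := h (Multiset.replicate k 2) (by
      intro a ha
      rw [Multiset.eq_of_mem_replicate ha]; omega) (by simp; omega)
    obtain ⟨j, hj, rfl⟩ := (Multiset.le_replicate_iff).1 hν
    rw [Multiset.sum_replicate, smul_eq_mul] at hν2
    rw [← hν2] at ho
    rw [Nat.odd_iff] at ho
    omega
  · intro h μ hμ hs
    have h1 : μ = Multiset.replicate (μ.count 1) 1 + Multiset.replicate (μ.count 2) 2 := by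
      apply Multiset.ext.2
      intro a
      rw [Multiset.count_add, Multiset.count_replicate, Multiset.count_replicate]
      by_cases ha : a ∈ μ
      · have := hμ a ha
        have h2 : a = 1 ∨ a = 2 := by omega
        rcases h2 with rfl | rfl <;> simp
      · rw [Multiset.count_eq_zero_of_notMem ha]
        by_cases ha1 : 1 = a
        · rw [if_pos ha1, if_neg (by omega), ha1, Multiset.count_eq_zero_of_notMem ha]
        · rw [if_neg ha1]
          by_cases ha2 : 2 = a
          · rw [if_pos ha2, ha2, Multiset.count_eq_zero_of_notMem ha]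
          · rw [if_neg ha2]
    have h2 : μ.count 1 + 2 * μ.count 2 = n := by
      have := congrArg Multiset.sum h1
      rw [hs, Multiset.sum_add, Multiset.sum_replicate, Multiset.sum_replicate, smul_eq_mul, smul_eq_mul] at this
      omega
    have h3 : m % 2 ≤ μ.count 1 := by
      rcases h with h | h
      · rw [Nat.odd_iff] at h; omega
      · rw [Nat.even_iff] at h; omega
    refine ⟨Multiset.replicate (m - 2 * min (μ.count 2) (m / 2)) 1 + Multiset.replicate (min (μ.count 2) (m / 2)) 2, ?_, ?_⟩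
    · conv_rhs => rw [h1]
      apply add_le_add
      · rw [Multiset.replicate_le_replicate]; omega
      · rw [Multiset.replicate_le_replicate]; omega
    · rw [Multiset.sum_add, Multiset.sum_replicate, Multiset.sum_replicate, smul_eq_mul, smul_eq_mul]
      omega

/-- Elements of prime order of PSL_n(q) fixing no decomposition `F^n = U ⊕ W` with `dim U = m`. Here `T = PSL_n(F)` for a field `F` with `q = p^f` elements (`n ≥ 2`, `(n, q) ≠ (2, 2), (2, 3)`); an element of `T` of prime order `r` is represented by a matrix `x` of determinant 1 with `x^r` scalar and `x` not scalar; `i` denotes the multiplicative order of `q` modulo `r` (when `r ≠ p`), and `(a)_r` the `r`-part of `a`. Let `n ≥ 3`, `1 ≤ m < n/2`, and let `r` be a prime dividing the number of such decompositions (unordered pairs `{U, W}` of complementary subspaces with `dim U = m`; since `m ≠ n − m` these are the ordered pairs with `dim U = m`). Then every element of `T` of order `r` fixes such a pair (fixes both `U` and `W` for some complementary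 `U, W` with `dim U = m`) if and only if one of: (i) `r = p > 2` and every partition of `n` into parts of size at most `p` contains, as a sub-multiset, a partition of `m`; (ii) `r = p = 2` and `n` is odd or `m` is even; (iii) `r ≠ p`, `i = 1`, and `r ∣ m` or `(q−1)_r ≥ (n)_r` (with `q ≡ 1 (mod 4)` required when `r = 2` and `n` is even); (iv) `r ≠ p`, `2 ≤ i ≤ m` and `n mod i ≥ m mod i`. -/
theorem result {F : Type*} [Field F] [Fintype F] {p : ℕ} [Fact p.Prime] [CharP F p] {q : ℕ} (hq : Fintype.card F = q)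
    (n m : ℕ) (hn : 3 ≤ n) (hm : 1 ≤ m) (hmn : 2 * m < n)
    (r : ℕ) [Fact r.Prime]
    (hrΩ : r ∣ Nat.card {P : Submodule F (Fin n → F) × Submodule F (Fin n → F) // IsCompl P.1 P.2 ∧ Module.finrank F ↥P.1 = m}) :
    (∀ x : Matrix.SpecialLinearGroup (Fin n) F,
      (∃ c : F, ((x ^ r : Matrix.SpecialLinearGroup (Fin n) F) : Matrix (Fin n) (Fin n) F) = c • (1 : Matrix (Fin n) (Fin n) F)) →
      (∀ c : F, (x : Matrix (Fin n) (Fin n) F) ≠ c • (1 : Matrix (Fin n) (Fin n) F)) →
      ∃ U W : Submodule F (Fin n → F), IsCompl U W ∧ Module.finrank F ↥U = m ∧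
        U.map (Matrix.toLin' (x : Matrix (Fin n) (Fin n) F)) ≤ U ∧ W.map (Matrix.toLin' (x : Matrix (Fin n) (Fin n) F)) ≤ W) ↔
    ((r = p ∧ 2 < p ∧ (∀ μ : Multiset ℕ, (∀ a ∈ μ, 0 < a ∧ a ≤ p) → μ.sum = n → ∃ ν : Multiset ℕ, ν ≤ μ ∧ ν.sum = m)) ∨
     (r = p ∧ p = 2 ∧ (Odd n ∨ Even m)) ∨
     (r ≠ p ∧
      ((orderOf (q : ZMod r) = 1 ∧ (r ∣ m ∨ (padicValNat r n ≤ padicValNat r (q - 1) ∧ (r = 2 → Even n → q % 4 = 1)))) ∨
       (2 ≤ orderOf (q : ZMod r) ∧ orderOf (q : ZMod r) ≤ m ∧ m % orderOf (q : ZMod r) ≤ n % orderOf (q : ZMod r))))) := by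
  classical
  have hr : r.Prime := Fact.out
  have hq2 : 2 ≤ q := by rw [← hq]; exact Fintype.one_lt_card
  have hfn : finrank F (Fin n → F) = n := by rw [Module.finrank_fintype_fun_eq_card, Fintype.card_fin]
  by_cases hrp : r = p
  · subst hrp
    have key : (∀ x : Matrix.SpecialLinearGroup (Fin n) F,
        (∃ c : F, ((x ^ r : Matrix.SpecialLinearGroup (Fin n) F) : Matrix (Fin n) (Fin n) F) = c • (1 : Matrix (Fin n) (Fin n) F)) →
        (∀ c : F, (x : Matrix (Fin n) (Fin n) F) ≠ c • (1 : Matrix (Fin n) (Fin n) F)) →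
        ∃ U W : Submodule F (Fin n → F), IsCompl U W ∧ Module.finrank F ↥U = m ∧
          U.map (Matrix.toLin' (x : Matrix (Fin n) (Fin n) F)) ≤ U ∧ W.map (Matrix.toLin' (x : Matrix (Fin n) (Fin n) F)) ≤ W) ↔
        (∀ μ : Multiset ℕ, (∀ a ∈ μ, 0 < a ∧ a ≤ r) → μ.sum = n → ∃ ν : Multiset ℕ, ν ≤ μ ∧ ν.sum = m) := by
      constructor
      · intro H μ hμ hs
        obtain ⟨x, hx, hN, hker⟩ := exists_unip (F := F) r n (by omega) μ (fun a ha => (hμ a ha).2) hs
        obtain ⟨U, W, hUW, hU, hUx, hWx⟩ : ∃ U W : Submodule F (Fin n → F), IsCompl U W ∧ Module.finrank F ↥U = m ∧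
            U.map (Matrix.toLin' (x : Matrix (Fin n) (Fin n) F)) ≤ U ∧
            W.map (Matrix.toLin' (x : Matrix (Fin n) (Fin n) F)) ≤ W := by
          by_cases hsc : ∃ c : F, (x : Matrix (Fin n) (Fin n) F) = c • (1 : Matrix (Fin n) (Fin n) F)
          · obtain ⟨c, hc⟩ := hsc
            obtain ⟨U, hU⟩ := exists_sub_dim (F := F) (V := Fin n → F) (n := m) (by rw [hfn]; omega)
            obtain ⟨W, hW⟩ := Submodule.exists_isCompl U
            have h1 : ∀ A : Submodule F (Fin n → F), A.map (Matrix.toLin' (x : Matrix (Fin n) (Fin n) F)) ≤ A := by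
              intro A
              rw [Submodule.map_le_iff_le_comap]
              intro v hv
              rw [Submodule.mem_comap, Matrix.toLin'_apply, hc, Matrix.smul_mulVec, Matrix.one_mulVec]
              exact A.smul_mem c hv
            exact ⟨U, W, hW, hU, h1 U, h1 W⟩
          · push Not at hsc
            exact H x ⟨1, by rw [hx, one_smul]; rfl⟩ hsc
        rw [Submodule.map_le_iff_le_comap] at hUx hWx
        have hinv : ∀ A : Submodule F (Fin n → F), A ≤ A.comap (Matrix.toLin' (x : Matrix (Fin n) (Fin n) F)) →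
            A ≤ A.comap (Matrix.toLin' (x : Matrix (Fin n) (Fin n) F) - 1) := fun A hA v hv => A.sub_mem (hA hv) hv
        obtain ⟨ν, h1, h2⟩ := sub_type _ hN μ (fun a ha => (hμ a ha).1) hker U W hUW (hinv U hUx) (hinv W hWx)
        exact ⟨ν, h1, by rw [h2, hU]⟩
      · rintro H x ⟨c, hc⟩ hns
        obtain ⟨d, rfl⟩ := exists_pow_of_not (F := F) hr not_dvd_sub c
        obtain ⟨y, hy, hyU⟩ := scaled (by omega) x d hr.ne_zero hc
        obtain ⟨μ, h1, h2, h3, h4⟩ := exists_type r _ _ (y - 1) (pow_sub_one y hy) rfl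
        rw [hfn] at h2
        obtain ⟨ν, hν, hνs⟩ := H μ h1 h2
        obtain ⟨U, W, hUW, hU, hW, hUd⟩ := h4 ν hν
        have hinv : ∀ A : Submodule F (Fin n → F), A ≤ A.comap (y - 1) → A ≤ A.comap y := by
          intro A hA v hv
          have := A.add_mem (hA hv) hv
          rw [LinearMap.sub_apply, Module.End.one_apply, sub_add_cancel] at this
          exact this
        exact ⟨U, W, hUW, by rw [hUd, hνs], hyU U (hinv U hU), hyU W (hinv W hW)⟩
    rw [key]
    rcases Nat.lt_or_ge 2 r with h2 | h2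
    · constructor
      · intro h; exact Or.inl ⟨rfl, h2, h⟩
      · rintro (⟨-, -, h⟩ | ⟨-, h, -⟩ | ⟨h, -⟩)
        · exact h
        · omega
        · exact absurd rfl h
    · have h3 : r = 2 := le_antisymm h2 hr.two_le
      subst h3
      rw [two_case n m hmn]
      constructor
      · intro h; exact Or.inr (Or.inl ⟨rfl, rfl, h⟩)
      · rintro (⟨-, h, -⟩ | ⟨-, -, h⟩ | ⟨h, -⟩)
        · omega
        · exact h
        · exact absurd rfl h
  · have hrF : (r : F) ≠ 0 := by
      intro h
      exact hrp (((Nat.prime_dvd_prime_iff_eq (Fact.out : p.Prime) hr).1 ((CharP.cast_eq_zero_iff F p r).1 h)).symm)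
    have hΩ' : r ∣ Nat.card {W : Submodule F (Fin n → F) // Module.finrank F ↥W = m} := by
      rw [card_compl hq] at hrΩ
      rcases hr.dvd_mul.1 hrΩ with h | h
      · exact h
      · exfalso
        have h1 := hr.dvd_of_dvd_pow h
        obtain ⟨e, -, he⟩ := FiniteField.card F p
        rw [← hq, he] at h1
        exact hrp ((Nat.prime_dvd_prime_iff_eq hr (Fact.out : p.Prime)).1 (hr.dvd_of_dvd_pow h1))
    have h0 := Cfsg.Agent.S5949.result (F := F) (p := p) hq n m (by omega) ⟨by intro h; have := congrArg Prod.fst h; simp at this; omega,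
      by intro h; have := congrArg Prod.fst h; simp at this; omega⟩ hm (by omega) r hΩ'
    have h1 : (∀ x : Matrix.SpecialLinearGroup (Fin n) F,
        (∃ c : F, ((x ^ r : Matrix.SpecialLinearGroup (Fin n) F) : Matrix (Fin n) (Fin n) F) = c • (1 : Matrix (Fin n) (Fin n) F)) →
        (∀ c : F, (x : Matrix (Fin n) (Fin n) F) ≠ c • (1 : Matrix (Fin n) (Fin n) F)) →
        ∃ U W : Submodule F (Fin n → F), IsCompl U W ∧ Module.finrank F ↥U = m ∧
          U.map (Matrix.toLin' (x : Matrix (Fin n) (Fin n) F)) ≤ U ∧ W.map (Matrix.toLin' (x : Matrix (Fin n) (Fin n) F)) ≤ W) ↔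
        (∀ x : Matrix.SpecialLinearGroup (Fin n) F,
        (∃ c : F, ((x ^ r : Matrix.SpecialLinearGroup (Fin n) F) : Matrix (Fin n) (Fin n) F) = c • (1 : Matrix (Fin n) (Fin n) F)) →
        (∀ c : F, (x : Matrix (Fin n) (Fin n) F) ≠ c • (1 : Matrix (Fin n) (Fin n) F)) →
        ∃ W : Submodule F (Fin n → F), Module.finrank F ↥W = m ∧ W.map (Matrix.toLin' (x : Matrix (Fin n) (Fin n) F)) ≤ W) := by
      constructor
      · intro H x hx hns
        obtain ⟨U, W, -, hU, hUx, -⟩ := H x hx hns
        exact ⟨U, hU, hUx⟩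
      · intro H x hx hns
        obtain ⟨U, hU, hUx⟩ := H x hx hns
        obtain ⟨z, hz⟩ := hx
        have hz0 : z ≠ 0 := by
          rintro rfl
          have := scalar_root (by omega : 0 < n) hz
          rw [zero_pow (by omega)] at this
          exact zero_ne_one this
        have hxr : (x : Matrix (Fin n) (Fin n) F) ^ r = z • 1 := by rw [← Matrix.SpecialLinearGroup.coe_pow]; exact hz
        obtain ⟨W, hUW, hWx⟩ := exists_inv_compl hrF hz0 _ (toLin_pow _ z hxr) U (by
          rwa [Submodule.map_le_iff_le_comap] at hUx)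
        exact ⟨U, W, hUW, hU, hUx, by rw [Submodule.map_le_iff_le_comap]; exact hWx⟩
    rw [h1, h0]
    constructor
    · intro h; exact Or.inr (Or.inr h)
    · rintro (⟨h, -⟩ | ⟨h, -⟩ | h)
      · exact absurd h hrp
      · exact absurd h hrp
      · exact h

end Cfsg.Agent.S5950
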