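import Cfsg.Statements.S5951
import Mathlib
import Cfsg.Agent.H5_Spa2

set_option autoImplicit false
open scoped MatrixGroups
open Cfsg

namespace Cfsg.Agent.S5951

open Matrix Module Cfsg.Agent.H5.Fld Cfsg.Agent.H5.Spa

/-- Elements of prime order of PSL_n(q) fixing no pair of subspaces `U < W` with `dim U = m`, `dim W = n − m`. Here `T = PSL_n(F)` for a field `F` with `q = p^f` elements (`n ≥ 2`, `(n, q) ≠ (2, 2), (2, 3)`); an element of `T` of prime order `r` is represented by a matrix `x` of determinant 1 with `x^r` scalar and `x` not scalar; `i` denotes the multiplicative order of `q` modulo `r` (when `r ≠ p`), and `(a)_r` the `r`-part of `a`. Let `1 ≤ m < n/2` and let `r` be a prime dividing the number of such pairs. Then every element of `T` of order `r` fixes such a pair (both `U` and `W`) if and only if `r ≠ p` and either (i) `i = 1` and (`r ∣ m`, or `(q−1)_r ≥ (n)_r` with `q ≡ 1 (mod 4)` required when `r = 2` and `n` is even), or (ii) `2 ≤ i ≤ m` and `n mod i ≥ 2 (m mod i)`.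 -/
theorem result {F : Type*} [Field F] [Fintype F] {p : ℕ} [Fact p.Prime] [CharP F p] {q : ℕ} (hq : Fintype.card F = q)
    (n m : ℕ) (hn : 2 ≤ n) (hT : (n, q) ≠ (2, 2) ∧ (n, q) ≠ (2, 3)) (hm : 1 ≤ m) (hmn : 2 * m < n)
    (r : ℕ) [Fact r.Prime]
    (hrΩ : r ∣ Nat.card {P : Submodule F (Fin n → F) × Submodule F (Fin n → F) //
        P.1 ≤ P.2 ∧ Module.finrank F ↥P.1 = m ∧ Module.finrank F ↥P.2 = n - m}) :
    (∀ x : Matrix.SpecialLinearGroup (Fin n) F,
      (∃ c : F, ((x ^ r : Matrix.SpecialLinearGroup (Fin n) F) : Matrix (Fin n) (Fin n) F) = c • (1 : Matrix (Fin n) (Fin n) F)) →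
      (∀ c : F, (x : Matrix (Fin n) (Fin n) F) ≠ c • (1 : Matrix (Fin n) (Fin n) F)) →
      ∃ U W : Submodule F (Fin n → F), U ≤ W ∧ Module.finrank F ↥U = m ∧ Module.finrank F ↥W = n - m ∧
        U.map (Matrix.toLin' (x : Matrix (Fin n) (Fin n) F)) ≤ U ∧ W.map (Matrix.toLin' (x : Matrix (Fin n) (Fin n) F)) ≤ W) ↔
    (r ≠ p ∧
      ((orderOf (q : ZMod r) = 1 ∧ (r ∣ m ∨ (padicValNat r n ≤ padicValNat r (q - 1) ∧ (r = 2 → Even n → q % 4 = 1)))) ∨
       (2 ≤ orderOf (q : ZMod r) ∧ orderOf (q : ZMod r) ≤ m ∧ 2 * (m % orderOf (q : ZMod r)) ≤ n % orderOf (q : ZMod r)))) := by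
  classical
  have hr : r.Prime := Fact.out
  have hq2 : 2 ≤ q := by rw [← hq]; exact Fintype.one_lt_card
  have hfn : finrank F (Fin n → F) = n := by rw [Module.finrank_fintype_fun_eq_card, Fintype.card_fin]
  have h1 := card_flag (F := F) (V := Fin n → F) hq m (by rw [hfn]; omega)
  rw [hfn] at h1
  obtain ⟨t, ht1, ht2, ht3⟩ := dvd_of_dvd_fac hq2 hr (by omega : 2 * m ≤ n) _ _ h1 hrΩ
  have hrp : r ≠ p := ne_char hq (by omega : t ≠ 0) ht3
  have hit := order_dvd hq2 ht3
  have hi0 : 0 < orderOf (q : ZMod r) := Nat.pos_of_dvd_of_pos hit (by omega)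
  have hiN : orderOf (q : ZMod r) ≤ n := (Nat.le_of_dvd (by omega) hit).trans ht2
  constructor
  · intro H
    refine ⟨hrp, ?_⟩
    by_contra hno
    rw [not_or] at hno
    obtain ⟨hno1, hno2⟩ := hno
    by_cases hi1 : orderOf (q : ZMod r) = 1
    · have h2 : ¬ r ∣ m := fun h => hno1 ⟨hi1, Or.inl h⟩
      have h3 : ¬ (padicValNat r n ≤ padicValNat r (q - 1) ∧ (r = 2 → Even n → q % 4 = 1)) := fun h => hno1 ⟨hi1, Or.inr h⟩
      obtain ⟨x, z, hx, hz⟩ := exists_nonpow_elt (r := r) hq (by omega : 0 < n) ((order_one_iff hq2).1 hi1) h3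
      obtain ⟨U, W, hUW, hU, hW, hUx, hWx⟩ := H x ⟨z, hx⟩ (by
        intro c hc
        rw [Matrix.SpecialLinearGroup.coe_pow, hc, smul_pow, one_pow] at hx
        have h5 := congrFun (congrFun hx ⟨0, by omega⟩) ⟨0, by omega⟩
        apply hz c
        simpa using h5)
      rw [Submodule.map_le_iff_le_comap] at hUx
      apply h2
      have := dvd_of_root_stable hr hz _ (toLin_pow (x : Matrix (Fin n) (Fin n) F) z (by
        rw [← Matrix.SpecialLinearGroup.coe_pow]; exact hx)) U hUx
      rwa [hU] at this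
    · have hi2 : 2 ≤ orderOf (q : ZMod r) := by omega
      obtain ⟨x, hx, hk, hns⟩ := exists_ord_elt (r := r) hq hi2 hiN
      have hx' : (x : Matrix (Fin n) (Fin n) F) ^ r = (1 : F) • 1 := by
        rw [← Matrix.SpecialLinearGroup.coe_pow, hx, one_smul, Matrix.SpecialLinearGroup.coe_one]
      obtain ⟨U, W, hUW, hU, hW, hUx, hWx⟩ := H x ⟨1, by rw [Matrix.SpecialLinearGroup.coe_pow]; exact hx'⟩ hns
      rw [Submodule.map_le_iff_le_comap] at hUx hWx
      have hy := toLin_pow _ (1 : F) hx'
      rw [one_smul] at hy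
      have hrF : (r : F) ≠ 0 := by
        intro h
        exact hrp (((Nat.prime_dvd_prime_iff_eq (Fact.out : p.Prime) hr).1 ((CharP.cast_eq_zero_iff F p r).1 h)).symm)
      obtain ⟨b, hb⟩ := dim_split_sub hq (Matrix.toLin' (x : Matrix (Fin n) (Fin n) F)) hy hrF U hUx
      obtain ⟨b', hb'⟩ := dim_split_sub hq (Matrix.toLin' (x : Matrix (Fin n) (Fin n) F)) hy hrF W hWx
      have hle := Submodule.finrank_mono (inf_le_right : W ⊓ LinearMap.ker (Matrix.toLin' (x : Matrix (Fin n) (Fin n) F) - 1) ≤ _)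
      have hle2 := Submodule.finrank_mono (inf_le_inf_right (LinearMap.ker (Matrix.toLin' (x : Matrix (Fin n) (Fin n) F) - 1)) hUW)
      rw [hk] at hle
      rw [hU] at hb
      rw [hW] at hb'
      set c := finrank F (U ⊓ LinearMap.ker (Matrix.toLin' (x : Matrix (Fin n) (Fin n) F) - 1) : Submodule F (Fin n → F)) with hc
      set c' := finrank F (W ⊓ LinearMap.ker (Matrix.toLin' (x : Matrix (Fin n) (Fin n) F) - 1) : Submodule F (Fin n → F)) with hc'
      set i := orderOf (q : ZMod r) with hi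
      have hmd := Nat.mod_add_div n i
      have h6 : m % i ≤ c := by
        conv_lhs => rw [hb]
        rw [Nat.add_mul_mod_self_right]
        exact Nat.mod_le _ _
      have h6' : m % i ≤ n % i - c' := by
        have h7 : m + b' * i = (n % i - c') + i * (n / i) := by omega
        have h8 : m % i = (n % i - c') % i := by
          have := congrArg (· % i) h7
          simp only [Nat.add_mul_mod_self_right, Nat.add_mul_mod_self_left] at this
          exact this
        rw [h8]; exact Nat.mod_le _ _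
      have h9 : 2 * (m % i) ≤ n % i := by omega
      by_cases him : i ≤ m
      · exact hno2 ⟨hi2, him, h9⟩
      · rw [Nat.mod_eq_of_lt (by omega : m < i)] at h9
        obtain ⟨s, hs⟩ := hit
        have h7 : n % i = (n - t) % i := by
          conv_lhs => rw [show n = (n - t) + i * s by omega]
          rw [Nat.add_mul_mod_self_left]
        have h8 := Nat.mod_le (n - t) i
        omega
  · rintro ⟨-, hcase⟩ x ⟨c, hc⟩ hns
    by_cases hp : ∃ d : F, d ^ r = c
    · obtain ⟨d, rfl⟩ := hp
      obtain ⟨y, hy, hyU⟩ := scaled (by omega) x d hr.ne_zero hc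
      obtain ⟨U, W, hUW, hU, hW, hUy, hWy⟩ := exists_flag hq hrp y hy hi0 m (by rw [hfn]; omega) (by
        rw [hfn]
        rcases hcase with ⟨h, -⟩ | ⟨-, -, h⟩
        · rw [h, Nat.mod_one, Nat.mod_one]
        · exact h)
      rw [hfn] at hW
      exact ⟨U, W, hUW, hU, hW, hyU U hUy, hyU W hWy⟩
    · push Not at hp
      have hrq : r ∣ q - 1 := by
        by_contra h
        obtain ⟨d, hd⟩ := exists_pow_of_not hr (by rw [hq]; exact h) c
        exact hp d hd
      have hi1 := (order_one_iff hq2).2 hrq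
      rcases hcase with ⟨-, h⟩ | ⟨h, -⟩
      · have hxr : (x : Matrix (Fin n) (Fin n) F) ^ r = c • 1 := by rw [← Matrix.SpecialLinearGroup.coe_pow]; exact hc
        have hnn := nonpow_not hq (by omega : 0 < n) _ hxr x.2 hp
        rcases h with ⟨a, rfl⟩ | h
        · obtain ⟨k, rfl⟩ := hnn.1
          have hak : 2 * a ≤ k := by
            have : r * (2 * a) ≤ r * k := by rw [← mul_assoc, mul_comm r 2, mul_assoc]; omega
            exact Nat.le_of_mul_le_mul_left this hr.pos
          obtain ⟨U, W, hUW, hU, hW, hUy, hWy⟩ := exists_flag_root hr hp _ (toLin_pow _ c hxr) a (k - a) (by omega) (by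
            rw [hfn, mul_comm]; exact Nat.mul_le_mul_left r (by omega))
          refine ⟨U, W, hUW, by rw [hU, mul_comm], ?_, by rw [Submodule.map_le_iff_le_comap]; exact hUy,
            by rw [Submodule.map_le_iff_le_comap]; exact hWy⟩
          rw [hW, Nat.sub_mul, mul_comm k, mul_comm a]
        · exact absurd h hnn.2
      · omega

end Cfsg.Agent.S5951
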