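import Cfsg.Statements.S5952
import Mathlib

set_option autoImplicit false
open Cfsg

namespace Cfsg.Agent.S5952

variable {F V : Type*} [Field F] [AddCommGroup V] [Module F V] [FiniteDimensional F V]

theorem step (f : V →ₗ[F] V) {A U W : Submodule F V} (hA : A.map f ≤ A) (hU : U.map f ≤ U) (hW : W.map f ≤ W)
    (hirr : ∀ W : Submodule F V, W ≤ U → W.map f ≤ W → W = ⊥ ∨ W = U) (hd : Disjoint A U) :
    Module.finrank F ↥(W ⊓ (A ⊔ U)) = Module.finrank F ↥(W ⊓ A) ∨
      Module.finrank F ↥(W ⊓ (A ⊔ U)) = Module.finrank F ↥(W ⊓ A) + Module.finrank F ↥U := by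
  have hB : (A ⊔ U).map f ≤ A ⊔ U := by
    rw [Submodule.map_sup]
    exact sup_le_sup hA hU
  have hinf : ∀ {X Y : Submodule F V}, X.map f ≤ X → Y.map f ≤ Y → (X ⊓ Y).map f ≤ X ⊓ Y := by
    intro X Y hX hY
    exact (Submodule.map_inf_le f).trans (inf_le_inf hX hY)
  have hsup : ∀ {X Y : Submodule F V}, X.map f ≤ X → Y.map f ≤ Y → (X ⊔ Y).map f ≤ X ⊔ Y := by
    intro X Y hX hY
    rw [Submodule.map_sup]
    exact sup_le_sup hX hY
  have h1 := Submodule.finrank_sup_add_finrank_inf_eq (W ⊓ (A ⊔ U)) A
  have h2 : W ⊓ (A ⊔ U) ⊓ A = W ⊓ A := by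
    rw [inf_assoc, inf_eq_right.mpr (le_sup_left : A ≤ A ⊔ U)]
  rw [h2] at h1
  have h3 := Submodule.finrank_sup_add_finrank_inf_eq A U
  rw [hd.eq_bot, finrank_bot] at h3
  set X := W ⊓ (A ⊔ U) ⊔ A with hX
  have hXA : A ≤ X := le_sup_right
  have hXB : X ≤ A ⊔ U := sup_le inf_le_right le_sup_left
  have h4 : X = A ⊔ U ⊓ X := by
    rw [← sup_inf_assoc_of_le U hXA, inf_eq_right.mpr hXB]
  rcases hirr (U ⊓ X) inf_le_left (hinf hU (hsup (hinf hW hB) hA)) with h5 | h5
  · rw [h5, sup_bot_eq] at h4
    rw [h4] at h1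
    left
    omega
  · rw [h5] at h4
    rw [h4] at h1
    right
    omega

theorem exists_sub (C : Submodule F V) (d : ℕ) (hd : d ≤ Module.finrank F C) :
    ∃ D ≤ C, Module.finrank F D = d := by
  let b := Module.finBasis F C
  let g : Fin d → V := fun i => (b (Fin.castLE hd i) : V)
  have hg : LinearIndependent F g := by
    have h1 := (b.linearIndependent.comp (Fin.castLE hd) (Fin.castLE_injective hd)).map' C.subtype
      (Submodule.ker_subtype C)
    exact h1
  refine ⟨Submodule.span F (Set.range g), ?_, ?_⟩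
  · rw [Submodule.span_le]
    rintro _ ⟨i, rfl⟩
    exact (b (Fin.castLE hd i)).2
  · rw [finrank_span_eq_card hg, Fintype.card_fin]

/-- Which dimensions of invariant subspaces a semisimple linear map has. -/
theorem result {F V : Type*} [Field F] [AddCommGroup V] [Module F V]
    [FiniteDimensional F V] (f : V →ₗ[F] V) (hf : Function.Bijective f) (hss : Module.End.IsSemisimple f)
    {s a : ℕ} (ha : 1 ≤ a) (U : Fin s → Submodule F V)
    (hUinv : ∀ j, (U j).map f ≤ U j) (hUdim : ∀ j, Module.finrank F ↥(U j) = a)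
    (hUirr : ∀ j, ∀ W : Submodule F V, W ≤ U j → W.map f ≤ W → W = ⊥ ∨ W = U j)
    (hdec : DirectSum.IsInternal (fun o : Option (Fin s) => o.elim (Module.End.eigenspace f 1) U))
    (m : ℕ) (hm : 0 < m) (hmV : m < Module.finrank F V) :
    (∃ W : Submodule F V, Module.finrank F ↥W = m ∧ W.map f ≤ W) ↔
    (m ≤ Module.finrank F ↥(Module.End.eigenspace f 1) ∨
      (a ≤ m ∧ m % a ≤ Module.finrank F ↥(Module.End.eigenspace f 1))) := by
  classical
  set C := Module.End.eigenspace f 1 with hC
  have hCf : ∀ x ∈ C, f x = x := by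
    intro x hx
    have := Module.End.mem_eigenspace_iff.mp hx
    rwa [one_smul] at this
  have hsubC : ∀ D ≤ C, D.map f ≤ D := by
    rintro D hD _ ⟨x, hx, rfl⟩
    rw [hCf x (hD hx)]
    exact hx
  have hind := hdec.submodule_iSupIndep
  have htop := hdec.submodule_iSup_eq_top
  have hdis : ∀ (S : Finset (Fin s)) (j : Fin s), j ∉ S → Disjoint (C ⊔ S.sup U) (U j) := by
    intro S j hj
    have h1 := (hind (some j)).symm
    refine h1.mono_left (sup_le ?_ (Finset.sup_le ?_))
    · exact le_iSup₂_of_le (f := fun (o : Option (Fin s)) (_ : o ≠ some j) => o.elim C U) none (by simp) le_rfl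
    · intro i hi
      exact le_iSup₂_of_le (f := fun (o : Option (Fin s)) (_ : o ≠ some j) => o.elim C U) (some i)
        (by rintro h; cases h; exact hj hi) le_rfl
  have huniv : C ⊔ (Finset.univ : Finset (Fin s)).sup U = ⊤ := by
    rw [eq_top_iff, ← htop]
    refine iSup_le ?_
    rintro (_ | i)
    · exact le_sup_left
    · exact le_sup_of_le_right (Finset.le_sup (f := U) (Finset.mem_univ i))
  have hSinv : ∀ (D : Submodule F V) (hD : D ≤ C) (S : Finset (Fin s)), (D ⊔ S.sup U).map f ≤ D ⊔ S.sup U := by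
    intro D hD S
    rw [Submodule.map_sup]
    refine sup_le_sup (hsubC D hD) ?_
    rw [Submodule.map_le_iff_le_comap]
    refine Finset.sup_le fun i hi => ?_
    rw [← Submodule.map_le_iff_le_comap]
    exact (hUinv i).trans (Finset.le_sup (f := U) hi)
  have hdimS : ∀ (D : Submodule F V) (hD : D ≤ C) (S : Finset (Fin s)),
      Module.finrank F ↥(D ⊔ S.sup U) = Module.finrank F D + S.card * a := by
    intro D hD S
    induction S using Finset.induction_on with
    | empty => rw [Finset.sup_empty, sup_bot_eq, Finset.card_empty, zero_mul, add_zero]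
    | insert j S hj ih =>
      have h1 : D ⊔ (insert j S).sup U = (D ⊔ S.sup U) ⊔ U j := by
        rw [Finset.sup_insert, sup_comm (U j), sup_assoc]
      rw [h1]
      have h2 := Submodule.finrank_sup_add_finrank_inf_eq (D ⊔ S.sup U) (U j)
      rw [((hdis S j hj).mono_left (sup_le_sup_right hD _)).eq_bot, finrank_bot, ih, hUdim] at h2
      rw [Finset.card_insert_of_notMem hj]
      rw [add_zero] at h2
      rw [h2]
      ring
  have hV : Module.finrank F V = Module.finrank F C + s * a := by
    have := hdimS C le_rfl Finset.univ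
    rw [huniv, finrank_top, Finset.card_univ, Fintype.card_fin] at this
    exact this
  constructor
  · rintro ⟨W, rfl, hW⟩
    have key : ∀ S : Finset (Fin s), ∃ k, Module.finrank F ↥(W ⊓ (C ⊔ S.sup U)) =
        Module.finrank F ↥(W ⊓ C) + k * a := by
      intro S
      induction S using Finset.induction_on with
      | empty => exact ⟨0, by rw [Finset.sup_empty, sup_bot_eq, zero_mul, add_zero]⟩
      | insert j S hj ih =>
        obtain ⟨k, hk⟩ := ih
        have h1 : C ⊔ (insert j S).sup U = (C ⊔ S.sup U) ⊔ U j := by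
          rw [Finset.sup_insert, sup_comm (U j), sup_assoc]
        rw [h1]
        rcases step f (hSinv C le_rfl S) (hUinv j) hW (hUirr j) (hdis S j hj) with h | h
        · exact ⟨k, by rw [h, hk]⟩
        · refine ⟨k + 1, ?_⟩
          rw [h, hk, hUdim]
          ring
    obtain ⟨k, hk⟩ := key Finset.univ
    rw [huniv, inf_top_eq] at hk
    have hWC : Module.finrank F ↥(W ⊓ C) ≤ Module.finrank F C := Submodule.finrank_mono inf_le_right
    rcases Nat.eq_zero_or_pos k with rfl | hk0
    · left
      rw [hk]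
      simpa using hWC
    · right
      rw [hk]
      constructor
      · calc a = 1 * a := (one_mul a).symm
          _ ≤ k * a := Nat.mul_le_mul_right a hk0
          _ ≤ _ := Nat.le_add_left _ _
      · rw [Nat.add_mul_mod_self_right]
        exact (Nat.mod_le _ _).trans hWC
  · intro h
    have hex : ∃ k ≤ s, k * a ≤ m ∧ m - k * a ≤ Module.finrank F C := by
      rcases h with h | ⟨h1, h2⟩
      · exact ⟨0, Nat.zero_le _, by simp, by simpa using h⟩
      · by_cases hq : m / a ≤ s
        · refine ⟨m / a, hq, Nat.div_mul_le_self m a, ?_⟩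
          have h3 := Nat.div_add_mod m a
          rw [mul_comm] at h3
          omega
        · refine ⟨s, le_rfl, ?_, ?_⟩
          · push Not at hq
            calc s * a ≤ m / a * a := Nat.mul_le_mul_right a hq.le
              _ ≤ m := Nat.div_mul_le_self m a
          · omega
    obtain ⟨k, hks, hkm, hkc⟩ := hex
    obtain ⟨D, hD, hDd⟩ := exists_sub C (m - k * a) hkc
    obtain ⟨S, -, hS⟩ := Finset.exists_subset_card_eq (s := (Finset.univ : Finset (Fin s))) (n := k)
      (by rw [Finset.card_univ, Fintype.card_fin]; exact hks)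
    refine ⟨D ⊔ S.sup U, ?_, hSinv D hD S⟩
    rw [hdimS D hD S, hDd, hS]
    omega

end Cfsg.Agent.S5952
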