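import Cfsg.Statements.S5957
import Mathlib
import Cfsg.Agent.H5_Der2

set_option autoImplicit false
open scoped MatrixGroups
open Cfsg

namespace Cfsg.Agent.S5957

/-- Involutions of PSL_n(q) and imprimitive subgroups. Here `T = PSL_n(F)` for a field `F` with `q = p^f` elements (`n ≥ 2`, `(n, q) ≠ (2, 2), (2, 3)`), `n = a·t` with `t ≥ 2`, and Ω is the set of direct-sum decompositions of `F^n` into `t` subspaces of dimension `a` (unordered; their number is the number of ordered ones divided by `t!`), whose stabilizers are the imprimitive subgroups of type GL_a(q) ≀ S_t (maximal except in some small cases; maximality is not assumed); an element of `T` of prime order `r` (a matrix `x` of determinant 1 with `x^r` scalar, `x` not scalar) fixes a point of Ω when it permutes the summands of some such decomposition. If the number of such decompositions is even, then every involution of `T` stabilizes one of them (the action is 2-elusive). -/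
theorem result {F : Type*} [Field F] [Fintype F] {p : ℕ} [Fact p.Prime] [CharP F p] {q : ℕ} (hq : Fintype.card F = q)
    (n a t : ℕ) (hn : 2 ≤ n) (hT : (n, q) ≠ (2, 2) ∧ (n, q) ≠ (2, 3)) (hat : n = a * t) (ha : 1 ≤ a) (ht : 2 ≤ t)
    (hΩ : 2 ∣ Nat.card {D : Fin t → Submodule F (Fin n → F) // Cfsg.Geo.IsMDecomposition a D} / Nat.factorial t)
    (x : Matrix.SpecialLinearGroup (Fin n) F)
    (hx1 : ∃ z : F, ((x ^ 2 : Matrix.SpecialLinearGroup (Fin n) F) : Matrix (Fin n) (Fin n) F) = z • (1 : Matrix (Fin n) (Fin n) F))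
    (hx2 : ∀ z : F, (x : Matrix (Fin n) (Fin n) F) ≠ z • (1 : Matrix (Fin n) (Fin n) F)) :
    ∃ D : Fin t → Submodule F (Fin n → F), Cfsg.Geo.IsMDecomposition a D ∧
        ∃ σ : Equiv.Perm (Fin t), ∀ j, (D j).map (Matrix.toLin' (x : Matrix (Fin n) (Fin n) F)) = D (σ j) := by
  have hz : ∃ z : F, z ≠ 0 ∧ ∀ v, Matrix.toLin' (x : Matrix (Fin n) (Fin n) F) (Matrix.toLin' (x : Matrix (Fin n) (Fin n) F) v) = z • v := by
    obtain ⟨z, hz⟩ := hx1
    have h1 : ((x : Matrix (Fin n) (Fin n) F)) * (x : Matrix (Fin n) (Fin n) F) = z • (1 : Matrix (Fin n) (Fin n) F) := by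
      rw [← hz, pow_two, Matrix.SpecialLinearGroup.coe_mul]
    refine ⟨z, ?_, fun v => ?_⟩
    · rintro rfl
      have h2 := congrArg Matrix.det h1
      haveI : Nonempty (Fin n) := ⟨⟨0, by omega⟩⟩
      rw [Matrix.det_mul, x.2, zero_smul, Matrix.det_zero, mul_one] at h2
      exact one_ne_zero h2
    · rw [Matrix.toLin'_apply, Matrix.toLin'_apply, Matrix.mulVec_mulVec, h1, Matrix.smul_mulVec, Matrix.one_mulVec]
  obtain ⟨z, hz0, hz⟩ := hz
  obtain ⟨κ, hκ, b, τ, hτ, hb⟩ := Cfsg.Agent.H5.Der.exists_lines n (Matrix.toLin' (x : Matrix (Fin n) (Fin n) F)) z hz0 hz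
    (by rw [Module.finrank_fin_fun])
  classical
  have hcard : Fintype.card κ = a * t := by
    rw [← hat, ← Module.finrank_eq_card_basis b, Module.finrank_fin_fun]
  obtain ⟨D, h1, h2, h3, h4, σ, h5⟩ := Cfsg.Agent.H5.Der.blocks τ hτ a t Finset.univ (by rw [Finset.card_univ, hcard])
    (fun x _ => Finset.mem_univ _)
  set W : Fin t → Submodule F (Fin n → F) := fun j => Submodule.span F (b '' (D j : Set κ)) with hW
  have hWr : ∀ j, Module.finrank F (W j) = a := fun j => by rw [hW, Cfsg.Agent.H5.Der.finrank_span_basis, h1]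
  have hWi : iSupIndep W := Cfsg.Agent.H5.Der.indep_of_basis b (fun j => (D j : Set κ)) (fun i j hij => Finset.disjoint_coe.2 (h3 i j hij))
  have hWt : iSup W = ⊤ := Cfsg.Agent.H5.Der.top_of_basis b (fun j => (D j : Set κ)) (fun x => by
    obtain ⟨j, hj⟩ := h4 x (Finset.mem_univ _)
    exact ⟨j, hj⟩)
  have hinj : Function.Injective (Matrix.toLin' (x : Matrix (Fin n) (Fin n) F)) := by
    intro u v huv
    have := congrArg (Matrix.toLin' (x : Matrix (Fin n) (Fin n) F)) huv
    rw [hz, hz] at this
    exact smul_right_injective _ hz0 this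
  have hmap : ∀ j, (W j).map (Matrix.toLin' (x : Matrix (Fin n) (Fin n) F)) = W (σ j) := by
    intro j
    apply Submodule.eq_of_le_of_finrank_eq
    · rw [hW, Submodule.map_span, Submodule.span_le]
      rintro _ ⟨_, ⟨i, hi, rfl⟩, rfl⟩
      obtain ⟨c, hc⟩ := hb i
      rw [hc]
      exact Submodule.smul_mem _ _ (Submodule.subset_span ⟨τ i, h5 j i hi, rfl⟩)
    · rw [(Submodule.equivMapOfInjective _ hinj (W j)).finrank_eq.symm, hWr, hWr]
  have hσ : Function.Injective σ := by
    intro i j hij
    by_contra hne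
    have h6 : W i = W j := by
      apply Submodule.map_injective_of_injective hinj
      rw [hmap, hmap, hij]
    have h7 := hWi.pairwiseDisjoint hne
    rw [Function.onFun, h6, disjoint_self] at h7
    have h8 := hWr j
    rw [h7, finrank_bot] at h8
    omega
  exact ⟨W, ⟨ht, ha, hWr, hWi, hWt⟩, Equiv.ofBijective σ (Finite.injective_iff_bijective.1 hσ), hmap⟩

end Cfsg.Agent.S5957
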