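import Cfsg.Statements.S5959
import Mathlib
import Cfsg.Agent.H5_Spa2
import Cfsg.Agent.H5_Jor

set_option autoImplicit false
open scoped MatrixGroups
open Cfsg

namespace Cfsg.Agent.S5959

open Matrix Module Cfsg.Agent.H5.Fld Cfsg.Agent.H5.Spa Cfsg.Agent.H5.Jor

/-- the `(p-1)`-st power of `y - 1` in characteristic `p` -/
theorem pow_pred {F V : Type*} [Field F] [AddCommGroup V] [Module F V] {p : ℕ} [Fact p.Prime]
    [CharP F p] (y : Module.End F V) : (y - 1) ^ (p - 1) = ∑ s ∈ Finset.range p, y ^ s := by
  have hp : p.Prime := Fact.out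
  have h1 : ((Polynomial.X : Polynomial F) - 1) ^ (p - 1) = ∑ s ∈ Finset.range p, (Polynomial.X : Polynomial F) ^ s := by
    have h0 : (Polynomial.X : Polynomial F) - 1 ≠ 0 := by
      rw [← Polynomial.C_1]; exact Polynomial.X_sub_C_ne_zero 1
    apply mul_left_cancel₀ h0
    rw [← pow_succ', Nat.sub_add_cancel hp.one_lt.le, sub_pow_char, one_pow, mul_geom_sum]
  have h2 := congrArg (Polynomial.aeval y) h1
  simpa using h2

theorem mem_D {F V : Type*} [Field F] [AddCommGroup V] [Module F V] {t : ℕ}
    (D : Fin t → Submodule F V) (T : Module.End F V) (σ : Equiv.Perm (Fin t)) (h : ∀ j, (D j).map T = D (σ j)) (j : Fin t)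
    (v : V) (hv : v ∈ D j) (s : ℕ) : (T ^ s) v ∈ D ((σ ^ s) j) := by
  induction s with
  | zero => exact hv
  | succ s ih =>
    rw [pow_succ' T, Module.End.mul_apply, pow_succ' σ, Equiv.Perm.mul_apply, ← h]
    exact ⟨_, ih, rfl⟩

/-- Elements of order `p` of PSL_n(q) and imprimitive subgroups: a necessary condition. Here `T = PSL_n(F)` for a field `F` with `q = p^f` elements (`n ≥ 2`, `(n, q) ≠ (2, 2), (2, 3)`), `n = a·t` with `t ≥ 2`, and Ω is the set of direct-sum decompositions of `F^n` into `t` subspaces of dimension `a` (unordered; their number is the number of ordered ones divided by `t!`), whose stabilizers are the imprimitive subgroups of type GL_a(q) ≀ S_t (maximal except in some small cases; maximality is not assumed); an element of `T` of prime order `r` (a matrix `x` of determinant 1 with `x^r` scalar, `x` not scalar) fixes a point of Ω when it permutes the summands of some such decomposition. Suppose `p > 2` divides the number of such decompositions. If every element of `T` of order `p` stabilizes such a decomposition,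 then every partition of `n` into parts of size at most `p` in which the part `p` occurs fewer than `a` times contains (as a sub-multiset) a partition of `a`. -/
theorem result {F : Type*} [Field F] [Fintype F] {p : ℕ} [Fact p.Prime] [CharP F p] {q : ℕ} (hq : Fintype.card F = q)
    (n a t : ℕ) (hn : 2 ≤ n) (hT : (n, q) ≠ (2, 2) ∧ (n, q) ≠ (2, 3)) (hat : n = a * t) (ha : 1 ≤ a) (ht : 2 ≤ t)
    (hp : 2 < p) (hΩ : p ∣ Nat.card {D : Fin t → Submodule F (Fin n → F) // Cfsg.Geo.IsMDecomposition a D} / Nat.factorial t)
    (h : ∀ x : Matrix.SpecialLinearGroup (Fin n) F,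
      (∃ z : F, ((x ^ p : Matrix.SpecialLinearGroup (Fin n) F) : Matrix (Fin n) (Fin n) F) = z • (1 : Matrix (Fin n) (Fin n) F)) →
      (∀ z : F, (x : Matrix (Fin n) (Fin n) F) ≠ z • (1 : Matrix (Fin n) (Fin n) F)) →
      ∃ D : Fin t → Submodule F (Fin n → F), Cfsg.Geo.IsMDecomposition a D ∧
        ∃ σ : Equiv.Perm (Fin t), ∀ j, (D j).map (Matrix.toLin' (x : Matrix (Fin n) (Fin n) F)) = D (σ j)) :
    (∀ μ : Multiset ℕ, (∀ b ∈ μ, 0 < b ∧ b ≤ p) → μ.sum = n → μ.count p < a → ∃ ν : Multiset ℕ, ν ≤ μ ∧ ν.sum = a) := by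
  classical
  intro μ hμ hs hcount
  have hp' : p.Prime := Fact.out
  have hfn : finrank F (Fin n → F) = n := by rw [Module.finrank_fintype_fun_eq_card, Fintype.card_fin]
  have han : a ≤ n := by rw [hat]; exact Nat.le_mul_of_pos_right a (by omega)
  obtain ⟨x, hx, hN, hker⟩ := exists_unip (F := F) p n (by omega) μ (fun b hb => (hμ b hb).2) hs
  have hinv : ∀ A : Submodule F (Fin n → F), A ≤ A.comap (Matrix.toLin' (x : Matrix (Fin n) (Fin n) F)) →
      A ≤ A.comap (Matrix.toLin' (x : Matrix (Fin n) (Fin n) F) - 1) := fun A hA v hv => A.sub_mem (hA hv) hv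
  have fin : ∀ U W : Submodule F (Fin n → F), IsCompl U W → finrank F U = a →
      U ≤ U.comap (Matrix.toLin' (x : Matrix (Fin n) (Fin n) F)) → W ≤ W.comap (Matrix.toLin' (x : Matrix (Fin n) (Fin n) F)) →
      ∃ ν : Multiset ℕ, ν ≤ μ ∧ ν.sum = a := by
    intro U W hUW hU hUx hWx
    obtain ⟨ν, h1, h2⟩ := sub_type _ hN μ (fun b hb => (hμ b hb).1) hker U W hUW (hinv U hUx) (hinv W hWx)
    exact ⟨ν, h1, by rw [h2, hU]⟩
  by_cases hsc : ∃ c : F, (x : Matrix (Fin n) (Fin n) F) = c • (1 : Matrix (Fin n) (Fin n) F)
  · obtain ⟨c, hc⟩ := hsc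
    obtain ⟨U, hU⟩ := exists_sub_dim (F := F) (V := Fin n → F) (n := a) (by rw [hfn]; omega)
    obtain ⟨W, hW⟩ := Submodule.exists_isCompl U
    have h1 : ∀ A : Submodule F (Fin n → F), A ≤ A.comap (Matrix.toLin' (x : Matrix (Fin n) (Fin n) F)) := by
      intro A v hv
      rw [Submodule.mem_comap, Matrix.toLin'_apply, hc, Matrix.smul_mulVec, Matrix.one_mulVec]
      exact A.smul_mem c hv
    exact fin U W hW hU (h1 U) (h1 W)
  · push Not at hsc
    obtain ⟨D, hD, σ, hσ⟩ := h x ⟨1, by rw [hx, one_smul]; rfl⟩ hsc
    set T := Matrix.toLin' (x : Matrix (Fin n) (Fin n) F) with hT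
    have hTp : T ^ p = 1 := by
      have := toLin_pow (x : Matrix (Fin n) (Fin n) F) (1 : F) (r := p) (by
        rw [← Matrix.SpecialLinearGroup.coe_pow, hx, one_smul]; rfl)
      rwa [one_smul] at this
    let j : Fin t := ⟨0, by omega⟩
    have hdisj : D j ⊓ (⨆ i, ⨆ (_ : i ≠ j), D i) = ⊥ := (hD.indep j).eq_bot
    by_cases hj : σ j = j
    · apply fin (D j) (⨆ i, ⨆ (_ : i ≠ j), D i) _ (hD.finrank_eq j)
      · intro v hv
        rw [Submodule.mem_comap]
        have : T v ∈ (D j).map T := ⟨v, hv, rfl⟩
        rwa [hσ, hj] at this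
      · rw [← Submodule.map_le_iff_le_comap, Submodule.map_iSup]
        apply iSup_le
        intro i
        rw [Submodule.map_iSup]
        apply iSup_le
        intro hi
        rw [hσ]
        have h1 : σ i ≠ j := by
          intro h2
          exact hi (σ.injective (h2.trans hj.symm))
        exact le_iSup₂_of_le (σ i) h1 le_rfl
      · refine ⟨hD.indep j, ?_⟩
        rw [codisjoint_iff, eq_top_iff, ← hD.iSup_eq_top]
        apply iSup_le
        intro i
        by_cases hi : i = j
        · rw [hi]; exact le_sup_left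
        · exact le_sup_of_le_right (le_iSup₂_of_le i hi le_rfl)
    · exfalso
      -- p-cycle
      have hinjD : Function.Injective D := hD.indep.injective (fun i hi => by
        have := hD.finrank_eq i
        rw [hi, finrank_bot] at this
        omega)
      have hσp : (σ ^ p) j = j := by
        apply hinjD
        apply (Submodule.eq_of_le_of_finrank_eq _ _).symm
        · intro v hv
          have := mem_D D T σ hσ j v hv p
          rwa [hTp] at this
        · rw [hD.finrank_eq, hD.finrank_eq]
      have hne : ∀ s, 0 < s → s < p → (σ ^ s) j ≠ j := by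
        intro s hs0 hsp h1
        have h2 : Function.IsPeriodicPt σ s j := by
          rw [Function.IsPeriodicPt, Function.IsFixedPt, ← Equiv.Perm.coe_pow]; exact h1
        have h3 : Function.IsPeriodicPt σ p j := by
          rw [Function.IsPeriodicPt, Function.IsFixedPt, ← Equiv.Perm.coe_pow]; exact hσp
        have h4 : s.Coprime p := (Nat.Coprime.symm ((Nat.Prime.coprime_iff_not_dvd hp').2 (fun h5 => by
          have := Nat.le_of_dvd hs0 h5; omega)))
        have h5 := h2.gcd h3
        rw [h4.gcd_eq_one] at h5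
        exact hj h5
      have hinjN : Disjoint (D j) (LinearMap.ker ((T - 1) ^ (p - 1))) := by
        rw [Submodule.disjoint_def]
        intro v hv hv2
        rw [LinearMap.mem_ker, pow_pred, LinearMap.sum_apply, Finset.sum_range_eq_add_Ico _ hp'.pos] at hv2
        have h1 : v = - ∑ s ∈ Finset.Ico 1 p, (T ^ s) v := by
          rw [pow_zero, Module.End.one_apply] at hv2
          exact eq_neg_of_add_eq_zero_left hv2
        have h2 : v ∈ ⨆ i, ⨆ (_ : i ≠ j), D i := by
          rw [h1]
          apply Submodule.neg_mem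
          apply Submodule.sum_mem
          intro s hs
          rw [Finset.mem_Ico] at hs
          have h6 : D ((σ ^ s) j) ≤ ⨆ i, ⨆ (_ : i ≠ j), D i :=
            le_iSup₂_of_le (f := fun i (_ : i ≠ j) => D i) ((σ ^ s) j) (hne s (by omega) hs.2) le_rfl
          exact h6 (mem_D D T σ hσ j v hv s)
        have h3 : v ∈ D j ⊓ (⨆ i, ⨆ (_ : i ≠ j), D i) := ⟨hv, h2⟩
        rw [hdisj] at h3
        exact h3
      have h1 := Submodule.finrank_add_finrank_le_of_disjoint hinjN
      rw [hD.finrank_eq, hfn, hker] at h1
      have h2 := sum_min_succ μ (p - 1)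
      rw [Nat.sub_add_cancel hp'.one_lt.le] at h2
      have h3 : (μ.map (min p)).sum = n := by
        rw [← hs]
        congr 1
        conv_rhs => rw [← Multiset.map_id μ]
        apply Multiset.map_congr rfl
        intro b hb
        exact min_eq_right (hμ b hb).2
      have h4 : μ.countP (fun b => p ≤ b) = μ.count p := by
        rw [Multiset.count]
        apply Multiset.countP_congr rfl
        intro b hb
        have := (hμ b hb).2
        simp only [eq_iff_iff]
        constructor
        · intro h5; omega
        · intro h5; omega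
      omega

end Cfsg.Agent.S5959
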