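import Cfsg.Statements.S5960
import Mathlib
import Cfsg.Agent.H5_Der3

set_option autoImplicit false
open scoped MatrixGroups
open Cfsg

namespace Cfsg.Agent.S5960

/-- Involutions of PSp_n(q) and imprimitive subgroups. Here `T = PSp_n(q)`, `n = 2d ≥ 4`, `(n, q) ≠ (4, 2)`, realised through the symplectic matrices over the field `F` with `q` elements and the standard alternating form; `n = a·t` with `a` even and `t ≥ 2`, and Ω is the (nonempty) set of orthogonal decompositions of `F^n` into `t` nondegenerate subspaces of dimension `a` (unordered; counted as ordered ones divided by `t!`), whose stabilizers are the imprimitive subgroups of type Sp_a(q) ≀ S_t (maximality is not assumed); an element of `T` of prime order `r` (a symplectic matrix `x` with `x^r` scalar, `x` not scalar) fixes a point of Ω when it permutes the summands of some such decomposition. If the number of such decompositions is even, then every involution of `T` stabilizes one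 of them (the action is 2-elusive). -/
theorem result {F : Type*} [Field F] [Fintype F] {p : ℕ} [Fact p.Prime] [CharP F p] {q : ℕ} (hq : Fintype.card F = q)
    (d : ℕ) (hd : 2 ≤ d) (hT : (d, q) ≠ (2, 2))
    (a t : ℕ) (hat : 2 * d = a * t) (ha : 2 ≤ a) (hae : Even a) (ht : 2 ≤ t) (hΩ : 2 ∣ Nat.card {D : Fin t → Submodule F (Fin d ⊕ Fin d → F) // (Cfsg.Geo.IsMDecomposition a D ∧ (∀ j, ∀ u ∈ D j, u ≠ 0 → ∃ v ∈ D j, Cfsg.sympForm d F u v ≠ 0) ∧
          (∀ j j', j ≠ j' → ∀ u ∈ D j, ∀ v ∈ D j', Cfsg.sympForm d F u v = 0))} / Nat.factorial t)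
    (x : ↥(Matrix.symplecticGroup (Fin d) F))
    (hx1 : ∃ z : F, ((x ^ 2 : ↥(Matrix.symplecticGroup (Fin d) F)) : Matrix (Fin d ⊕ Fin d) (Fin d ⊕ Fin d) F) = z • (1 : Matrix (Fin d ⊕ Fin d) (Fin d ⊕ Fin d) F))
    (hx2 : ∀ z : F, (x : Matrix (Fin d ⊕ Fin d) (Fin d ⊕ Fin d) F) ≠ z • (1 : Matrix (Fin d ⊕ Fin d) (Fin d ⊕ Fin d) F)) :
    ∃ D : Fin t → Submodule F (Fin d ⊕ Fin d → F), (Cfsg.Geo.IsMDecomposition a D ∧ (∀ j, ∀ u ∈ D j, u ≠ 0 → ∃ v ∈ D j, Cfsg.sympForm d F u v ≠ 0) ∧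
          (∀ j j', j ≠ j' → ∀ u ∈ D j, ∀ v ∈ D j', Cfsg.sympForm d F u v = 0)) ∧
        ∃ σ : Equiv.Perm (Fin t), ∀ j, (D j).map (Matrix.toLin' (x : Matrix (Fin d ⊕ Fin d) (Fin d ⊕ Fin d) F)) = D (σ j) := by
  set A := Cfsg.Agent.H5.Conc.sympFrm d F with hA
  set X := Matrix.toLin' (x : Matrix (Fin d ⊕ Fin d) (Fin d ⊕ Fin d) F) with hX
  have hn : A.Nondeg := Cfsg.Agent.H5.Conc.sympFrm_nondeg d F
  have hQ : ∀ v, A.B v v = 0 := fun v => A.B_self_of_Q rfl
  have hx : ∀ u v, A.B (X u) (X v) = A.B u v := Cfsg.Agent.H5.Der.sp_isom x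
  obtain ⟨z, hz0, hzz, hxx⟩ := Cfsg.Agent.H5.Der.sp_sq (by omega) x hx1
  have hz : z = 1 ∨ z = -1 := by
    rcases mul_eq_zero.1 (show (z - 1) * (z + 1) = 0 by linear_combination hzz) with h | h
    · exact Or.inl (sub_eq_zero.1 h)
    · exact Or.inr (eq_neg_of_add_eq_zero_left h)
  have hinj : Function.Injective X := by
    intro u v huv
    have := congrArg X huv
    rw [hxx, hxx] at this
    exact smul_right_injective _ hz0 this
  have main : ∃ (κ : Type) (_ : Fintype κ) (e f : κ → (Fin d ⊕ Fin d → F)) (τ : κ → κ),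
      Cfsg.Agent.H5.Der.Good Set.univ Set.univ A X e f τ ∧
      ∀ v, v ∈ Submodule.span F (Set.range e ∪ Set.range f) := by
    have gmono : ∀ (S1 S2 : Set (F × F)) (V : Type _) [AddCommGroup V] [Module F V] (A : Cfsg.Agent.H5.Der.SF F V)
        (x : V →ₗ[F] V) (κ : Type) (e f : κ → V) (τ : κ → κ), Cfsg.Agent.H5.Der.Good S1 S2 A x e f τ →
        Cfsg.Agent.H5.Der.Good Set.univ Set.univ A x e f τ := by
      intro S1 S2 V _ _ A x κ e f τ hg
      exact ⟨hg.ee, hg.ff, hg.ef, hg.ef', hg.inv, fun i => (hg.xe i).imp (fun _ h => ⟨trivial, h.2⟩),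
        fun i => (hg.xf i).imp (fun _ h => ⟨trivial, h.2⟩)⟩
    by_cases h2 : (2 : F) = 0
    · haveI : CharP F 2 := CharTwo.of_one_ne_zero_of_two_eq_zero one_ne_zero h2
      have hz1 : z = 1 := by
        rcases hz with h | h
        · exact h
        · rw [h, CharTwo.neg_eq]
      subst hz1
      exact Cfsg.Agent.H5.Der.hyp_induct Set.univ Set.univ 1 one_ne_zero
        (fun V _ _ _ A hA hQ x hx hxx _ => Cfsg.Agent.H5.Der.step_two A hA hQ x hx (fun v => by rw [hxx, one_smul])) _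
        (Fin d ⊕ Fin d → F) A hn hQ X hx hxx rfl
    · rcases hz with rfl | rfl
      · obtain ⟨κ, i1, e, f, τ, hg, hsp⟩ := Cfsg.Agent.H5.Der.hyp_induct {p : F × F | p.2 = 0} {p : F × F | p.1 = 0} 1 one_ne_zero
          (fun V _ _ _ A hA hQ x hx hxx _ => Cfsg.Agent.H5.Der.step_one A h2 hA hQ x hx (fun v => by rw [hxx, one_smul])) _
          (Fin d ⊕ Fin d → F) A hn hQ X hx hxx rfl
        exact ⟨κ, i1, e, f, τ, gmono _ _ _ _ _ _ _ _ _ hg, hsp⟩
      · obtain ⟨κ, i1, e, f, τ, hg, hsp⟩ := Cfsg.Agent.H5.Der.hyp_induct {p : F × F | p.1 = 0} {p : F × F | p.2 = 0} (-1)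
          (neg_ne_zero.2 one_ne_zero)
          (fun V _ _ _ A hA hQ x hx hxx _ => Cfsg.Agent.H5.Der.step_neg A h2 hA hQ x hx hxx) _
          (Fin d ⊕ Fin d → F) A hn hQ X hx hxx rfl
        exact ⟨κ, i1, e, f, τ, gmono _ _ _ _ _ _ _ _ _ hg, hsp⟩
  obtain ⟨κ, _, e, f, τ, hg, hsp⟩ := main
  obtain ⟨b, hb1, hb2⟩ := hg.basis hsp
  obtain ⟨a', ha'⟩ := hae
  have hcard : Fintype.card κ = a' * t := by
    have h1 := Module.finrank_eq_card_basis b
    rw [Module.finrank_pi, Fintype.card_sum, Fintype.card_sum, Fintype.card_fin] at h1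
    have h2 : 2 * Fintype.card κ = 2 * (a' * t) := by
      calc 2 * Fintype.card κ = Fintype.card κ + Fintype.card κ := by ring
        _ = d + d := h1.symm
        _ = 2 * d := by ring
        _ = a * t := hat
        _ = 2 * (a' * t) := by rw [ha']; ring
    omega
  classical
  obtain ⟨D, h1, h2, h3, h4, σ, h5⟩ := Cfsg.Agent.H5.Der.blocks τ hg.inv a' t Finset.univ (by rw [Finset.card_univ, hcard])
    (fun x _ => Finset.mem_univ _)
  set E : Fin t → Finset (κ ⊕ κ) := fun j => (D j).disjSum (D j) with hE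
  set W : Fin t → Submodule F (Fin d ⊕ Fin d → F) := fun j => Submodule.span F (b '' (E j : Set (κ ⊕ κ))) with hW
  have hWr : ∀ j, Module.finrank F (W j) = a := fun j => by
    rw [hW, Cfsg.Agent.H5.Der.finrank_span_basis, hE, Finset.card_disjSum, h1, ha']
  have hEd : ∀ i j, i ≠ j → Disjoint (E i : Set (κ ⊕ κ)) (E j : Set (κ ⊕ κ)) := by
    intro i j hij
    rw [Finset.disjoint_coe, Finset.disjoint_left]
    rintro (k | k) hk hk'
    · rw [hE, Finset.inl_mem_disjSum] at hk hk'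
      exact Finset.disjoint_left.1 (h3 i j hij) hk hk'
    · rw [hE, Finset.inr_mem_disjSum] at hk hk'
      exact Finset.disjoint_left.1 (h3 i j hij) hk hk'
  have hWi : iSupIndep W := Cfsg.Agent.H5.Der.indep_of_basis b (fun j => (E j : Set (κ ⊕ κ))) hEd
  have hWt : iSup W = ⊤ := Cfsg.Agent.H5.Der.top_of_basis b (fun j => (E j : Set (κ ⊕ κ))) (fun x => by
    rcases x with k | k
    · obtain ⟨j, hj⟩ := h4 k (Finset.mem_univ _)
      exact ⟨j, Finset.mem_coe.2 (Finset.inl_mem_disjSum.2 hj)⟩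
    · obtain ⟨j, hj⟩ := h4 k (Finset.mem_univ _)
      exact ⟨j, Finset.mem_coe.2 (Finset.inr_mem_disjSum.2 hj)⟩)
  have heW : ∀ j, ∀ k ∈ D j, e k ∈ W j := fun j k hk => Submodule.subset_span
    ⟨Sum.inl k, Finset.mem_coe.2 (Finset.inl_mem_disjSum.2 hk), hb1 k⟩
  have hfW : ∀ j, ∀ k ∈ D j, f k ∈ W j := fun j k hk => Submodule.subset_span
    ⟨Sum.inr k, Finset.mem_coe.2 (Finset.inr_mem_disjSum.2 hk), hb2 k⟩
  have hmap : ∀ j, (W j).map X = W (σ j) := by
    intro j
    apply Submodule.eq_of_le_of_finrank_eq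
    · rw [hW, Submodule.map_span, Submodule.span_le]
      rintro _ ⟨_, ⟨i, hi, rfl⟩, rfl⟩
      rcases i with k | k
      · have hk := Finset.inl_mem_disjSum.1 (Finset.mem_coe.1 hi)
        obtain ⟨p, _, hp⟩ := hg.xe k
        rw [hb1, hp]
        exact Submodule.add_mem _ (Submodule.smul_mem _ _ (heW _ _ (h5 j k hk)))
          (Submodule.smul_mem _ _ (hfW _ _ (h5 j k hk)))
      · have hk := Finset.inr_mem_disjSum.1 (Finset.mem_coe.1 hi)
        obtain ⟨p, _, hp⟩ := hg.xf k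
        rw [hb2, hp]
        exact Submodule.add_mem _ (Submodule.smul_mem _ _ (heW _ _ (h5 j k hk)))
          (Submodule.smul_mem _ _ (hfW _ _ (h5 j k hk)))
    · rw [(Submodule.equivMapOfInjective _ hinj (W j)).finrank_eq.symm, hWr, hWr]
  have hσ : Function.Injective σ := by
    intro i j hij
    by_contra hne
    have h6 : W i = W j := by
      apply Submodule.map_injective_of_injective hinj
      rw [hmap, hmap, hij]
    have h7 := hWi.pairwiseDisjoint hne
    rw [Function.onFun, h6, disjoint_self] at h7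
    have h8 := hWr j
    rw [h7, finrank_bot] at h8
    omega
  have hfe' : ∀ i j, i ≠ j → A.B (f i) (e j) = 0 := fun i j hij => by
    rw [Cfsg.Agent.H5.Der.bneg, hg.ef' j i (Ne.symm hij), neg_zero]
  have horth : ∀ j j', j ≠ j' → ∀ u ∈ W j, ∀ v ∈ W j', A.B u v = 0 := by
    intro j j' hjj u hu v hv
    refine Cfsg.Agent.H5.Der.bspan ?_ hu hv
    rintro _ ⟨k, hk, rfl⟩ _ ⟨k', hk', rfl⟩
    have hne : ∀ l l', l ∈ D j → l' ∈ D j' → l ≠ l' := by
      rintro l l' h6 h7 rfl
      exact Finset.disjoint_left.1 (h3 j j' hjj) h6 h7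
    rcases k with k | k <;> rcases k' with k' | k'
    · rw [hb1, hb1, hg.ee]
    · rw [hb1, hb2, hg.ef' _ _ (hne _ _ (Finset.inl_mem_disjSum.1 (Finset.mem_coe.1 hk)) (Finset.inr_mem_disjSum.1 (Finset.mem_coe.1 hk')))]
    · rw [hb2, hb1, hfe' _ _ (hne _ _ (Finset.inr_mem_disjSum.1 (Finset.mem_coe.1 hk)) (Finset.inl_mem_disjSum.1 (Finset.mem_coe.1 hk')))]
    · rw [hb2, hb2, hg.ff]
  refine ⟨W, ⟨⟨ht, by omega, hWr, hWi, hWt⟩, ?_, ?_⟩, Equiv.ofBijective σ (Finite.injective_iff_bijective.1 hσ), hmap⟩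
  · intro j u hu hu0
    by_contra hcon
    push Not at hcon
    apply hu0
    apply hn
    intro y
    have h6 : iSup W ≤ LinearMap.ker (A.B u) := by
      apply iSup_le
      intro k v hv
      rw [LinearMap.mem_ker]
      by_cases hjk : j = k
      · subst hjk
        have := hcon v hv
        rwa [← Cfsg.Agent.H5.Conc.sympFrm_B] at this
      · exact horth j k hjk u hu v hv
    have h7 := h6 (hWt ▸ Submodule.mem_top : y ∈ iSup W)
    exact h7
  · intro j j' hjj u hu v hv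
    rw [← Cfsg.Agent.H5.Conc.sympFrm_B]
    exact horth j j' hjj u hu v hv

end Cfsg.Agent.S5960
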