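import Cfsg.Statements.S5962
import Mathlib
import Cfsg.Agent.H5_Der3

set_option autoImplicit false
open scoped MatrixGroups
open Cfsg

namespace Cfsg.Agent.S5962

/-- Involutions of PSp_n(q), q odd, and the subgroups GL_{n/2}(q).2. Here `T = PSp_n(q)`, `n = 2d ≥ 4`, `q` odd, realised through the symplectic matrices over the field `F` with `q` elements; Ω is the set of unordered pairs `{U, W}` of complementary totally isotropic `d`-spaces (`F^n = U ⊕ W`), whose stabilizers are the subgroups of type GL_d(q).2 (maximal except in some small cases; maximality is not assumed); an element of `T` of prime order `r` (a symplectic matrix `x` with `x^r` scalar, `x` not scalar) fixes such a pair when it fixes or interchanges `U` and `W`. If the number of such pairs is even, every involution of `T` fixes one of them (the action is 2-elusive). -/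
theorem result {F : Type*} [Field F] [Fintype F] {p : ℕ} [Fact p.Prime] [CharP F p] {q : ℕ} (hq : Fintype.card F = q)
    (d : ℕ) (hd : 2 ≤ d) (hT : (d, q) ≠ (2, 2)) (hodd : Odd q)
    (hΩ : 2 ∣ Nat.card {P : Submodule F (Fin d ⊕ Fin d → F) × Submodule F (Fin d ⊕ Fin d → F) // IsCompl P.1 P.2 ∧ (∀ u ∈ P.1, ∀ v ∈ P.1, Cfsg.sympForm d F u v = 0) ∧ (∀ u ∈ P.2, ∀ v ∈ P.2, Cfsg.sympForm d F u v = 0)} / 2)
    (x : ↥(Matrix.symplecticGroup (Fin d) F))
    (hx1 : ∃ z : F, ((x ^ 2 : ↥(Matrix.symplecticGroup (Fin d) F)) : Matrix (Fin d ⊕ Fin d) (Fin d ⊕ Fin d) F) = z • (1 : Matrix (Fin d ⊕ Fin d) (Fin d ⊕ Fin d) F))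
    (hx2 : ∀ z : F, (x : Matrix (Fin d ⊕ Fin d) (Fin d ⊕ Fin d) F) ≠ z • (1 : Matrix (Fin d ⊕ Fin d) (Fin d ⊕ Fin d) F)) :
    ∃ U W : Submodule F (Fin d ⊕ Fin d → F), IsCompl U W ∧ (∀ u ∈ U, ∀ v ∈ U, Cfsg.sympForm d F u v = 0) ∧ (∀ u ∈ W, ∀ v ∈ W, Cfsg.sympForm d F u v = 0) ∧
        ((U.map (Matrix.toLin' (x : Matrix (Fin d ⊕ Fin d) (Fin d ⊕ Fin d) F)) = U ∧ W.map (Matrix.toLin' (x : Matrix (Fin d ⊕ Fin d) (Fin d ⊕ Fin d) F)) = W) ∨
         (U.map (Matrix.toLin' (x : Matrix (Fin d ⊕ Fin d) (Fin d ⊕ Fin d) F)) = W ∧ W.map (Matrix.toLin' (x : Matrix (Fin d ⊕ Fin d) (Fin d ⊕ Fin d) F)) = U)) := by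
  set A := Cfsg.Agent.H5.Conc.sympFrm d F with hA
  set X := Matrix.toLin' (x : Matrix (Fin d ⊕ Fin d) (Fin d ⊕ Fin d) F) with hX
  have hn : A.Nondeg := Cfsg.Agent.H5.Conc.sympFrm_nondeg d F
  have hQ : ∀ v, A.B v v = 0 := fun v => A.B_self_of_Q rfl
  have hx : ∀ u v, A.B (X u) (X v) = A.B u v := Cfsg.Agent.H5.Der.sp_isom x
  have h2 : (2 : F) ≠ 0 := Cfsg.Agent.H5.Der.two_ne (by rw [hq]; exact hodd)
  obtain ⟨z, hz0, hzz, hxx⟩ := Cfsg.Agent.H5.Der.sp_sq (by omega) x hx1
  have hz : z = 1 ∨ z = -1 := by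
    rcases mul_eq_zero.1 (show (z - 1) * (z + 1) = 0 by linear_combination hzz) with h | h
    · exact Or.inl (sub_eq_zero.1 h)
    · exact Or.inr (eq_neg_of_add_eq_zero_left h)
  have hinj : Function.Injective X := by
    intro u v huv
    have := congrArg X huv
    rw [hxx, hxx] at this
    exact smul_right_injective _ hz0 this
  have fin : ∀ (κ : Type) (e f : κ → (Fin d ⊕ Fin d → F)), (∀ i j, A.B (e i) (e j) = 0) → (∀ i j, A.B (f i) (f j) = 0) →
      (∀ v, v ∈ Submodule.span F (Set.range e ∪ Set.range f)) →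
      IsCompl (Submodule.span F (Set.range e)) (Submodule.span F (Set.range f)) ∧
      (∀ u ∈ Submodule.span F (Set.range e), ∀ v ∈ Submodule.span F (Set.range e), Cfsg.sympForm d F u v = 0) ∧
      (∀ u ∈ Submodule.span F (Set.range f), ∀ v ∈ Submodule.span F (Set.range f), Cfsg.sympForm d F u v = 0) := by
    intro κ e f h1 h3 h4
    have h5 : ∀ (g : κ → (Fin d ⊕ Fin d → F)), (∀ i j, A.B (g i) (g j) = 0) →
        ∀ u ∈ Submodule.span F (Set.range g), ∀ v ∈ Submodule.span F (Set.range g), A.B u v = 0 := by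
      intro g hg u hu v hv
      induction hu using Submodule.span_induction with
      | mem a ha =>
        obtain ⟨i, rfl⟩ := ha
        induction hv using Submodule.span_induction with
        | mem b hb =>
          obtain ⟨j, rfl⟩ := hb
          exact hg i j
        | zero => rw [LinearMap.map_zero]
        | add b c _ _ hb hc => rw [Cfsg.Agent.H5.Der.bar, hb, hc, add_zero]
        | smul c b _ hb => rw [Cfsg.Agent.H5.Der.bsr, hb, mul_zero]
      | zero => rw [LinearMap.map_zero, LinearMap.zero_apply]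
      | add b c _ _ hb hc => rw [Cfsg.Agent.H5.Der.bal, hb, hc, add_zero]
      | smul c b _ hb => rw [Cfsg.Agent.H5.Der.bsl, hb, mul_zero]
    have h6 := h5 e h1
    have h7 := h5 f h3
    have htop : Submodule.span F (Set.range e) ⊔ Submodule.span F (Set.range f) = ⊤ := by
      rw [eq_top_iff]
      intro v _
      rw [← Submodule.span_union]
      exact h4 v
    refine ⟨⟨?_, codisjoint_iff.2 htop⟩, fun u hu v hv => ?_, fun u hu v hv => ?_⟩
    · rw [Submodule.disjoint_def]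
      intro v hv hv'
      apply hn
      intro y
      have hy : y ∈ Submodule.span F (Set.range e) ⊔ Submodule.span F (Set.range f) := htop ▸ Submodule.mem_top
      obtain ⟨a, ha, b, hb, rfl⟩ := Submodule.mem_sup.1 hy
      rw [Cfsg.Agent.H5.Der.bar, h6 v hv a ha, h7 v hv' b hb, add_zero]
    · rw [← Cfsg.Agent.H5.Conc.sympFrm_B]; exact h6 u hu v hv
    · rw [← Cfsg.Agent.H5.Conc.sympFrm_B]; exact h7 u hu v hv
  have mp : ∀ (κ : Type) (e f : κ → (Fin d ⊕ Fin d → F)), (∀ i, X (e i) ∈ Submodule.span F (Set.range f)) →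
      (Submodule.span F (Set.range e)).map X ≤ Submodule.span F (Set.range f) := by
    intro κ e f h
    rw [Submodule.map_span, Submodule.span_le]
    rintro _ ⟨_, ⟨i, rfl⟩, rfl⟩
    exact h i
  have eqm : ∀ U W : Submodule F (Fin d ⊕ Fin d → F), U.map X ≤ W → W.map X ≤ U → U.map X = W := by
    intro U W h1 h3
    refine le_antisymm h1 (fun w hw => ?_)
    refine ⟨z⁻¹ • X w, U.smul_mem _ (h3 ⟨w, hw, rfl⟩), ?_⟩
    rw [LinearMap.map_smul, hxx, smul_smul, inv_mul_cancel₀ hz0, one_smul]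
  rcases hz with rfl | rfl
  · obtain ⟨κ, _, e, f, τ, hg, hsp⟩ := Cfsg.Agent.H5.Der.hyp_induct {p : F × F | p.2 = 0} {p : F × F | p.1 = 0} 1 one_ne_zero
      (fun V _ _ _ A hA hQ x hx hxx _ => Cfsg.Agent.H5.Der.step_one A h2 hA hQ x hx (fun v => by rw [hxx, one_smul])) _
      (Fin d ⊕ Fin d → F) A hn hQ X hx hxx rfl
    obtain ⟨h1, h3, h4⟩ := fin κ e f hg.ee hg.ff hsp
    have h5 : (Submodule.span F (Set.range e)).map X ≤ Submodule.span F (Set.range e) := mp κ e e (fun i => by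
      obtain ⟨p, hp, h⟩ := hg.xe i
      rw [h, show p.2 = 0 from hp, zero_smul, add_zero]
      exact Submodule.smul_mem _ _ (Submodule.subset_span ⟨_, rfl⟩))
    have h6 : (Submodule.span F (Set.range f)).map X ≤ Submodule.span F (Set.range f) := mp κ f f (fun i => by
      obtain ⟨p, hp, h⟩ := hg.xf i
      rw [h, show p.1 = 0 from hp, zero_smul, zero_add]
      exact Submodule.smul_mem _ _ (Submodule.subset_span ⟨_, rfl⟩))
    exact ⟨_, _, h1, h3, h4, Or.inl ⟨eqm _ _ h5 h5, eqm _ _ h6 h6⟩⟩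
  · obtain ⟨κ, _, e, f, τ, hg, hsp⟩ := Cfsg.Agent.H5.Der.hyp_induct {p : F × F | p.1 = 0} {p : F × F | p.2 = 0} (-1)
      (neg_ne_zero.2 one_ne_zero)
      (fun V _ _ _ A hA hQ x hx hxx _ => Cfsg.Agent.H5.Der.step_neg A h2 hA hQ x hx hxx) _
      (Fin d ⊕ Fin d → F) A hn hQ X hx hxx rfl
    obtain ⟨h1, h3, h4⟩ := fin κ e f hg.ee hg.ff hsp
    have h5 : (Submodule.span F (Set.range e)).map X ≤ Submodule.span F (Set.range f) := mp κ e f (fun i => by
      obtain ⟨p, hp, h⟩ := hg.xe i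
      rw [h, show p.1 = 0 from hp, zero_smul, zero_add]
      exact Submodule.smul_mem _ _ (Submodule.subset_span ⟨_, rfl⟩))
    have h6 : (Submodule.span F (Set.range f)).map X ≤ Submodule.span F (Set.range e) := mp κ f e (fun i => by
      obtain ⟨p, hp, h⟩ := hg.xf i
      rw [h, show p.2 = 0 from hp, zero_smul, add_zero]
      exact Submodule.smul_mem _ _ (Submodule.subset_span ⟨_, rfl⟩))
    exact ⟨_, _, h1, h3, h4, Or.inr ⟨eqm _ _ h5 h6, eqm _ _ h6 h5⟩⟩

end Cfsg.Agent.S5962
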