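import Cfsg.Statements.S5963
import Mathlib
import Cfsg.Agent.H5_Der6

set_option autoImplicit false
open scoped MatrixGroups
open Cfsg

namespace Cfsg.Agent.S5963

/-- Derangements of odd prime order of PSp_n(q), q odd, on pairs of complementary totally isotropic subspaces. Here `T = PSp_n(q)`, `n = 2d ≥ 4`, `q` odd, realised through the symplectic matrices over the field `F` with `q` elements; Ω is the set of unordered pairs `{U, W}` of complementary totally isotropic `d`-spaces (`F^n = U ⊕ W`), whose stabilizers are the subgroups of type GL_d(q).2 (maximal except in some small cases; maximality is not assumed); an element of `T` of prime order `r` (a symplectic matrix `x` with `x^r` scalar, `x` not scalar) fixes such a pair when it fixes or interchanges `U` and `W`. For every odd prime `r ≠ p` dividing the number of such pairs, some element of `T` of order `r` fixes no such pair (the action is never `r`-elusive for odd `r ≠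 p`). -/
theorem result {F : Type*} [Field F] [Fintype F] {p : ℕ} [Fact p.Prime] [CharP F p] {q : ℕ} (hq : Fintype.card F = q)
    (d : ℕ) (hd : 2 ≤ d) (hT : (d, q) ≠ (2, 2)) (hodd : Odd q)
    (r : ℕ) [Fact r.Prime] (hr2 : r ≠ 2) (hrp : r ≠ p) (hΩ : r ∣ Nat.card {P : Submodule F (Fin d ⊕ Fin d → F) × Submodule F (Fin d ⊕ Fin d → F) // IsCompl P.1 P.2 ∧ (∀ u ∈ P.1, ∀ v ∈ P.1, Cfsg.sympForm d F u v = 0) ∧ (∀ u ∈ P.2, ∀ v ∈ P.2, Cfsg.sympForm d F u v = 0)} / 2) :
    ∃ x : ↥(Matrix.symplecticGroup (Fin d) F),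
      (∃ z : F, ((x ^ r : ↥(Matrix.symplecticGroup (Fin d) F)) : Matrix (Fin d ⊕ Fin d) (Fin d ⊕ Fin d) F) = z • (1 : Matrix (Fin d ⊕ Fin d) (Fin d ⊕ Fin d) F)) ∧
      (∀ z : F, (x : Matrix (Fin d ⊕ Fin d) (Fin d ⊕ Fin d) F) ≠ z • (1 : Matrix (Fin d ⊕ Fin d) (Fin d ⊕ Fin d) F)) ∧
      ¬ (∃ U W : Submodule F (Fin d ⊕ Fin d → F), IsCompl U W ∧ (∀ u ∈ U, ∀ v ∈ U, Cfsg.sympForm d F u v = 0) ∧ (∀ u ∈ W, ∀ v ∈ W, Cfsg.sympForm d F u v = 0) ∧
        ((U.map (Matrix.toLin' (x : Matrix (Fin d ⊕ Fin d) (Fin d ⊕ Fin d) F)) = U ∧ W.map (Matrix.toLin' (x : Matrix (Fin d ⊕ Fin d) (Fin d ⊕ Fin d) F)) = W) ∨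
         (U.map (Matrix.toLin' (x : Matrix (Fin d ⊕ Fin d) (Fin d ⊕ Fin d) F)) = W ∧ W.map (Matrix.toLin' (x : Matrix (Fin d ⊕ Fin d) (Fin d ⊕ Fin d) F)) = U))) := by
  have hrp' : r.Prime := Fact.out
  have hdpos : 0 < d := by omega
  have hodd' : Odd (Fintype.card F) := by rw [hq]; exact hodd
  have hrq : ¬ r ∣ Fintype.card F := by
    intro h
    obtain ⟨k, hpp, hk⟩ := FiniteField.card F p
    rw [hk] at h
    exact hrp ((Nat.prime_dvd_prime_iff_eq hrp' hpp).1 (hrp'.dvd_of_dvd_pow h))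
  have hΩ' : r ∣ Nat.card (Cfsg.Agent.H5.Der.Prs d F) := by
    have h1 := Cfsg.Agent.H5.Der.prs_even (F := F) hdpos hodd'
    obtain ⟨k, hk⟩ := h1
    have h2 : Nat.card (Cfsg.Agent.H5.Der.Prs d F) = 2 * (Nat.card (Cfsg.Agent.H5.Der.Prs d F) / 2) := by omega
    rw [h2]
    exact Dvd.dvd.mul_left hΩ 2
  obtain ⟨i, hi, hri⟩ := Cfsg.Agent.H5.Der.prs_dvd hdpos hrp' hrq hΩ'
  obtain ⟨V₁, _, _, _, B₁, f₁, hV₁, hs₁, hn₁, hf₁, hfix₁, hfr₁⟩ := Cfsg.Agent.H5.Der.exists_alt_elt F hrp' hri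
  set n2 := d - (i + 1) with hn2
  let B : LinearMap.BilinForm F (V₁ × (Fin n2 ⊕ Fin n2 → F)) :=
    B₁.compl₁₂ (LinearMap.fst F V₁ (Fin n2 ⊕ Fin n2 → F)) (LinearMap.fst F V₁ (Fin n2 ⊕ Fin n2 → F)) +
    (Cfsg.Agent.H5.Conc.sympB n2 F).compl₁₂ (LinearMap.snd F V₁ (Fin n2 ⊕ Fin n2 → F)) (LinearMap.snd F V₁ (Fin n2 ⊕ Fin n2 → F))
  have hB : ∀ u v, B u v = B₁ u.1 v.1 + Cfsg.sympForm n2 F u.2 v.2 := fun u v => by
    rw [← Cfsg.Agent.H5.Conc.sympB_apply]; rfl
  let f : (V₁ × (Fin n2 ⊕ Fin n2 → F)) →ₗ[F] (V₁ × (Fin n2 ⊕ Fin n2 → F)) := f₁.prodMap LinearMap.id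
  have hf : ∀ v, f v = (f₁ v.1, v.2) := fun v => rfl
  have hs0 : ∀ x, Cfsg.sympForm n2 F x x = 0 := fun x => by
    rw [← Cfsg.Agent.H5.Conc.sympB_apply]; exact Cfsg.Agent.H5.Conc.sympB_alt n2 F x
  have hz0 : ∀ x, Cfsg.sympForm n2 F x 0 = 0 := fun x => by
    rw [← Cfsg.Agent.H5.Conc.sympB_apply, LinearMap.map_zero]
  obtain ⟨X, E, hE1, hE2⟩ := Cfsg.Agent.H5.Der.realize (F := F) (d := d) (V := V₁ × (Fin n2 ⊕ Fin n2 → F))
    (by rw [Module.finrank_prod, hV₁, Cfsg.Agent.H5.Der.vrank]; omega) B (fun x => by rw [hB, hs₁, hs0, add_zero])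
    (fun x hx => by
      apply Prod.ext
      · apply hn₁
        intro y
        have := hx (y, 0)
        rwa [hB, hz0, add_zero] at this
      · apply Cfsg.Agent.H5.Conc.sympFrm_nondeg n2 F
        intro y
        have := hx (0, y)
        rw [hB, LinearMap.map_zero, zero_add] at this
        rw [Cfsg.Agent.H5.Conc.sympFrm_B]
        exact this) f
    (fun u v => by rw [hB, hB, hf, hf, hf₁])
  have hpow : ∀ (n : ℕ) v, E (((X : Matrix (Fin d ⊕ Fin d) (Fin d ⊕ Fin d) F) ^ n).mulVec v) = ((f₁ ^ n) (E v).1, (E v).2) := by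
    intro n
    induction n with
    | zero => intro v; rw [pow_zero, pow_zero, Matrix.one_mulVec]; rfl
    | succ n ih =>
      intro v
      rw [pow_succ', ← Matrix.mulVec_mulVec, hE2, hf, ih, pow_succ', Module.End.mul_apply]
  have hXr : (X : Matrix (Fin d ⊕ Fin d) (Fin d ⊕ Fin d) F) ^ r = 1 := by
    apply Cfsg.Agent.H16.Quad.mat_ext
    intro v
    apply E.injective
    rw [hpow, hfr₁, Matrix.one_mulVec]
    rfl
  have hcoe : ∀ n, ((X ^ n : ↥(Matrix.symplecticGroup (Fin d) F)) : Matrix (Fin d ⊕ Fin d) (Fin d ⊕ Fin d) F) =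
      (X : Matrix (Fin d ⊕ Fin d) (Fin d ⊕ Fin d) F) ^ n := fun n => rfl
  obtain ⟨c, hc⟩ : ∃ c, r = 2 * c + 1 := by
    rcases hrp'.eq_two_or_odd' with h | h
    · exact absurd h hr2
    · exact h
  haveI : Nontrivial V₁ := Module.nontrivial_of_finrank_pos (R := F) (by rw [hV₁]; omega)
  obtain ⟨v₁, hv₁⟩ := exists_ne (0 : V₁)
  refine ⟨X, ⟨1, by rw [hcoe, hXr, one_smul]⟩, fun z hz => ?_, ?_⟩
  · have h1 : ∀ v : V₁, f₁ v = z • v := by
      intro v
      have h2 := hE2 (E.symm (v, 0))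
      rw [hz, Matrix.smul_mulVec, Matrix.one_mulVec, LinearEquiv.map_smul, LinearEquiv.apply_symm_apply, hf] at h2
      exact (congrArg Prod.fst h2).symm
    have h3 : z * z = 1 := by
      obtain ⟨w, hw⟩ : ∃ w, B₁ v₁ w ≠ 0 := by
        by_contra h
        push Not at h
        exact hv₁ (hn₁ v₁ h)
      have h4 := hf₁ v₁ w
      rw [h1, h1, LinearMap.map_smul, LinearMap.map_smul, LinearMap.smul_apply, smul_eq_mul, smul_eq_mul, ← mul_assoc] at h4
      exact mul_right_cancel₀ hw (by rw [h4, one_mul])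
    have h5 : z ^ r = 1 := by
      have h6 : ∀ n, (f₁ ^ n) v₁ = z ^ n • v₁ := by
        intro n
        induction n with
        | zero => rw [pow_zero, pow_zero, one_smul]; rfl
        | succ n ih => rw [pow_succ', Module.End.mul_apply, ih, LinearMap.map_smul, h1, smul_smul, pow_succ]
      have h7 := h6 r
      rw [hfr₁] at h7
      have h8 : (1 : F) • v₁ = z ^ r • v₁ := by rw [one_smul]; exact h7
      exact (smul_left_injective F hv₁ h8).symm
    have h6 : z = 1 := by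
      rw [hc, pow_succ, pow_mul, pow_two, h3, one_pow, one_mul] at h5
      exact h5
    exact hv₁ (hfix₁ v₁ (by rw [h1, h6, one_smul]))
  · rintro ⟨U, W, hcomp, hU, hW, hUW⟩
    have hfixd : U.map (Matrix.toLin' (X : Matrix (Fin d ⊕ Fin d) (Fin d ⊕ Fin d) F)) = U ∧
        W.map (Matrix.toLin' (X : Matrix (Fin d ⊕ Fin d) (Fin d ⊕ Fin d) F)) = W := by
      rcases hUW with h | ⟨h1, h2⟩
      · exact h
      · exfalso
        have h3 : ∀ n, U.map (Matrix.toLin' ((X : Matrix (Fin d ⊕ Fin d) (Fin d ⊕ Fin d) F) ^ (2 * n))) = U := by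
          intro n
          induction n with
          | zero => rw [mul_zero, pow_zero, Matrix.toLin'_one, Submodule.map_id]
          | succ n ih =>
            rw [show 2 * (n + 1) = 1 + (1 + 2 * n) by ring, pow_add, pow_add, pow_one, Matrix.toLin'_mul,
              Matrix.toLin'_mul, Submodule.map_comp, Submodule.map_comp, ih, h1, h2]
        have h4 : U.map (Matrix.toLin' ((X : Matrix (Fin d ⊕ Fin d) (Fin d ⊕ Fin d) F) ^ r)) = W := by
          rw [hc, show 2 * c + 1 = 1 + 2 * c by ring, pow_add, pow_one, Matrix.toLin'_mul, Submodule.map_comp, h3, h1]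
        rw [hXr, Matrix.toLin'_one, Submodule.map_id] at h4
        have h5 := hcomp.disjoint
        rw [h4, disjoint_self] at h5
        have h6 := hcomp.sup_eq_top
        rw [h4, h5, sup_idem] at h6
        have h7 := Cfsg.Agent.H5.Der.vrank d F
        rw [← finrank_top F, ← h6, finrank_bot] at h7
        omega
    have hmapc : IsCompl (U.map (E : (Fin d ⊕ Fin d → F) →ₗ[F] (V₁ × (Fin n2 ⊕ Fin n2 → F)))) (W.map (E : (Fin d ⊕ Fin d → F) →ₗ[F] (V₁ × (Fin n2 ⊕ Fin n2 → F)))) := by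
      have := (Submodule.orderIsoMapComap E).isCompl hcomp
      exact this
    have hdv := Cfsg.Agent.H5.Der.no_pair (V₂ := (Fin n2 ⊕ Fin n2 → F)) hrp' B₁ hs₁ hn₁ f₁ hfr₁ hfix₁ (k := i + 1) hV₁ hmapc
      (fun u v hu hv => by
        obtain ⟨u', hu', hu''⟩ := hu
        obtain ⟨v', hv', hv''⟩ := hv
        have h1 := hU u' hu' v' hv'
        rw [← hE1, hB] at h1
        have h2 : E u' = (u, 0) := hu''
        have h3 : E v' = (v, 0) := hv''
        rwa [h2, h3, hz0, add_zero] at h1)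
      (fun u v hu hv => by
        obtain ⟨u', hu', hu''⟩ := hu
        obtain ⟨v', hv', hv''⟩ := hv
        have h1 := hW u' hu' v' hv'
        rw [← hE1, hB] at h1
        have h2 : E u' = (u, 0) := hu''
        have h3 : E v' = (v, 0) := hv''
        rwa [h2, h3, hz0, add_zero] at h1)
      (by
        rintro _ ⟨u, hu, rfl⟩
        refine ⟨(X : Matrix (Fin d ⊕ Fin d) (Fin d ⊕ Fin d) F).mulVec u, ?_, ?_⟩
        · rw [← hfixd.1]
          exact ⟨u, hu, rfl⟩
        · exact hE2 u)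
      (by
        rintro _ ⟨u, hu, rfl⟩
        refine ⟨(X : Matrix (Fin d ⊕ Fin d) (Fin d ⊕ Fin d) F).mulVec u, ?_, ?_⟩
        · rw [← hfixd.2]
          exact ⟨u, hu, rfl⟩
        · exact hE2 u)
    exact Cfsg.Agent.H5.Der.nt1 hrp' hr2 hri hdv

end Cfsg.Agent.S5963
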