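import Cfsg.Statements.S5964
import Mathlib
import Cfsg.Agent.H5_Fld2
import Cfsg.Agent.H5_Der3
import Cfsg.Agent.H5_GL

set_option autoImplicit false
open scoped MatrixGroups
open Cfsg

namespace Cfsg.Agent.S5964

open Matrix Module Cfsg.Geo Cfsg.Agent.H5.Fld

theorem odd_quot {a b k : ℕ} (ha : Odd a) (hb : Odd b) (hba : b ≤ a) (hk : Odd k) : ∃ t, Odd t ∧ a ^ k - b ^ k = t * (a - b) := by
  refine ⟨∑ i ∈ Finset.range k, a ^ i * b ^ (k - 1 - i), ?_, ?_⟩
  · rw [← ZMod.natCast_eq_one_iff_odd]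
    rw [← ZMod.natCast_eq_one_iff_odd] at ha hb hk
    push_cast
    rw [ha, hb]
    simp [hk]
  · have h1 : b ^ k ≤ a ^ k := Nat.pow_le_pow_left hba k
    zify [h1, hba]
    have := (Commute.all (a : ℤ) (b : ℤ)).geom_sum₂_mul k
    rw [← this]

theorem prod_odd {ι : Type*} [Fintype ι] {f g : ι → ℕ} (h : ∀ i, ∃ t, Odd t ∧ f i = t * g i) :
    ∃ t, Odd t ∧ ∏ i, f i = t * ∏ i, g i := by
  choose t ht hf using h
  refine ⟨∏ i, t i, Finset.prod_induction _ Odd (fun a b => Odd.mul) odd_one (fun i _ => ht i), ?_⟩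
  rw [← Finset.prod_mul_distrib]
  exact Finset.prod_congr rfl (fun i _ => hf i)

theorem index_odd {F : Type*} [Field F] [Fintype F] {q : ℕ} (hq : Fintype.card F = q) (n : ℕ) (hn : 2 ≤ n)
    (F₀ : Subfield F) (k q₀ : ℕ) (hF₀ : Nat.card ↥F₀ = q₀) (hqk : q = q₀ ^ k) (hk : Odd k) (hodd : Odd q) :
    ¬ 2 ∣ ((Cfsg.Geo.subfieldSubgroup F₀ 1).comap (Matrix.SpecialLinearGroup.toGL : Matrix.SpecialLinearGroup (Fin n) F →* GL (Fin n) F)).index := by
  classical
  set H := ((Cfsg.Geo.subfieldSubgroup F₀ 1).comap (Matrix.SpecialLinearGroup.toGL : Matrix.SpecialLinearGroup (Fin n) F →* GL (Fin n) F)) with hH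
  haveI : Fintype F₀ := Fintype.ofFinite F₀
  have hq₀o : Odd q₀ := by
    by_contra hno
    rw [Nat.not_odd_iff_even] at hno
    rw [hqk] at hodd
    exact (Nat.not_even_iff_odd.2 hodd) (Nat.even_pow.2 ⟨hno, by rintro rfl; exact absurd hk (by decide)⟩)
  have hq₀1 : 1 < q₀ := by
    rw [← hF₀, Nat.card_eq_fintype_card]; exact Fintype.one_lt_card
  have e1 := Cfsg.Agent.H5.GL.card_SL (F := F) hq n (by omega)
  have e2 := Cfsg.Agent.H5.GL.card_SL (F := F₀) (q := q₀) (by rw [← hF₀, Nat.card_eq_fintype_card]) n (by omega)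
  obtain ⟨t, ht, hte⟩ : ∃ t, Odd t ∧ ∏ i : Fin n, (q ^ n - q ^ (i : ℕ)) = t * ∏ i : Fin n, (q₀ ^ n - q₀ ^ (i : ℕ)) := by
    apply prod_odd
    intro i
    rw [hqk, ← pow_mul, ← pow_mul, mul_comm k n, mul_comm k, pow_mul, pow_mul]
    exact odd_quot (hq₀o.pow) (hq₀o.pow) (Nat.pow_le_pow_right (by omega) i.2.le) hk
  obtain ⟨t', ht', hte'⟩ := odd_quot hq₀o odd_one (by omega) hk
  rw [one_pow, ← hqk] at hte'
  have hdvd : Nat.card (Matrix.SpecialLinearGroup (Fin n) F₀) ∣ Nat.card H := by
    let φ : Matrix.SpecialLinearGroup (Fin n) F₀ →* H :=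
      (Matrix.SpecialLinearGroup.map (F₀.subtype : F₀ →+* F)).codRestrict H (by
        intro g
        rw [hH, Subgroup.mem_comap]
        apply mem_sub_of F₀ _ 1 one_ne_zero ((g : Matrix (Fin n) (Fin n) F₀).map (F₀.subtype : F₀ →+* F))
        · intro i j
          exact (g i j).2
        · rw [one_smul]; rfl)
    apply Subgroup.card_dvd_of_injective φ
    intro g h hgh
    have h1 := congrArg (fun u : H => ((u : Matrix.SpecialLinearGroup (Fin n) F) : Matrix (Fin n) (Fin n) F)) hgh
    ext i j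
    have h2 := congrFun (congrFun h1 i) j
    exact h2
  obtain ⟨s, hs⟩ := hdvd
  have e3 := Subgroup.card_mul_index H
  rw [hs] at e3
  intro h2
  have hc0 : 0 < Nat.card (Matrix.SpecialLinearGroup (Fin n) F₀) := Nat.card_pos
  have e4 : t' * (s * H.index) = t := by
    rw [hte, ← e2, ← e3, hte'] at e1
    have h5 : (q₀ - 1) * Nat.card (Matrix.SpecialLinearGroup (Fin n) F₀) ≠ 0 := by
      apply mul_ne_zero
      · omega
      · exact hc0.ne'
    apply Nat.eq_of_mul_eq_mul_left (Nat.pos_of_ne_zero h5)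
    rw [mul_comm _ t, ← e1]
    ring
  rw [← e4] at ht
  have h6 := (Nat.odd_mul.1 (Nat.odd_mul.1 ht).2).2
  rw [Nat.odd_iff] at h6
  omega

theorem blk_neg {F : Type*} [Field F] {a b : ℕ} (u : Fin a → F) (w : Fin b → F) :
    (Matrix.fromBlocks 1 0 0 (-1) : Matrix (Fin a ⊕ Fin b) (Fin a ⊕ Fin b) F) *ᵥ (Sum.elim u w) = Sum.elim u (-w) := by
  rw [Matrix.fromBlocks_mulVec]
  simp [Matrix.neg_mulVec]

/-- the model of a square root of a scalar -/
theorem exists_root_model {F : Type*} [Field F] (m : ℕ) (z : F) : ∃ X : Matrix (Fin (2 * m)) (Fin (2 * m)) F,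
    X * X = z • 1 ∧ X.det = (-z) ^ m := by
  refine ⟨Matrix.reindexAlgEquiv F F finProdFinEquiv (Matrix.blockDiagonal (fun _ : Fin m => !![0, z; 1, 0])), ?_, ?_⟩
  · rw [← map_mul, ← Matrix.blockDiagonal_mul]
    have h1 : (fun _ : Fin m => (!![0, z; 1, 0] : Matrix (Fin 2) (Fin 2) F) * !![0, z; 1, 0]) = z • 1 := by
      funext k
      ext i j
      fin_cases i <;> fin_cases j <;> simp [Matrix.mul_apply]
    rw [h1, Matrix.blockDiagonal_smul, Matrix.blockDiagonal_one, map_smul, map_one]
  · rw [Matrix.reindexAlgEquiv_apply, Matrix.det_reindex_self, Matrix.det_blockDiagonal]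
    simp

theorem sq_of_sub {F : Type*} [Field F] [Fintype F] {q : ℕ} (hq : Fintype.card F = q)
    (F₀ : Subfield F) (q₀ : ℕ) (hF₀ : Nat.card ↥F₀ = q₀) (hqk : q = q₀ ^ 2) (hodd : Odd q) (a : F₀) : ∃ d : F, d ^ 2 = a := by
  have h2 : (2 : F) ≠ 0 := Cfsg.Agent.H5.Der.two_ne (by rw [hq]; exact hodd)
  by_cases ha : a = 0
  · exact ⟨0, by rw [ha]; simp⟩
  have hch : ringChar F ≠ 2 := by
    intro h
    apply h2
    have := (ringChar.spec F 2).2 (by rw [h])
    exact_mod_cast this
  have ha' : (a : F) ≠ 0 := fun h => ha (Subtype.ext h)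
  haveI : Fintype F₀ := Fintype.ofFinite F₀
  have h1 : a ^ (q₀ - 1) = 1 := by
    have := FiniteField.pow_card_sub_one_eq_one a ha
    rwa [← Nat.card_eq_fintype_card, hF₀] at this
  have h3 : (a : F) ^ (q₀ - 1) = 1 := by exact_mod_cast congrArg Subtype.val h1
  have hq₀o : Odd q₀ := by
    by_contra hno
    rw [Nat.not_odd_iff_even] at hno
    rw [hqk] at hodd
    exact (Nat.not_even_iff_odd.2 hodd) (Nat.even_pow.2 ⟨hno, by norm_num⟩)
  obtain ⟨r, hr⟩ := hq₀o
  have hsq : IsSquare (a : F) := by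
    rw [FiniteField.isSquare_iff hch ha', hq, hqk]
    have : q₀ ^ 2 / 2 = (q₀ - 1) * (r + 1) := by
      rw [hr, show 2 * r + 1 - 1 = 2 * r by omega]
      have : (2 * r + 1) ^ 2 = 2 * (2 * r * (r + 1)) + 1 := by ring
      rw [this]; omega
    rw [this, pow_mul, h3, one_pow]
  obtain ⟨d, hd⟩ := hsq
  exact ⟨d, by rw [hd, pow_two]⟩

/-- Involutions of PSL_n(q) and subfield subgroups. Here `T = PSL_n(F)` for a field `F` with `q = p^f` elements (`n ≥ 2`, `(n, q) ≠ (2, 2), (2, 3)`), `F₀` is the subfield with `q₀` elements where `q = q₀^k` for a prime `k`, and `H` is the subgroup of matrices of determinant 1 lying in the subfield group of `F₀` (invertible matrices over `F₀` times scalars) — a maximal subgroup of type GL_n(q₀) (the case `n = 2`, `q₀ = 2` is excluded); Ω is the set of `T`-conjugates of `H` (cosets of `H`), so an element of `T` of prime order `r` (a matrix `x` of determinant 1 with `x^r` scalar, `x` not scalar) fixes a point of Ω when some conjugate of `x` by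 a matrix of determinant 1 lies in `H`. Suppose the index of `H` is even. Then every involution of `T` is conjugate in `T` into `H` if and only if either `q` is even, or `k = 2` and `(n)_2 ≤ (q − 1)_2`. (For `q` odd and `k` odd the index of `H` is odd, so that case does not arise.) -/
theorem result {F : Type*} [Field F] [Fintype F] {p : ℕ} [Fact p.Prime] [CharP F p] {q : ℕ} (hq : Fintype.card F = q)
    (n : ℕ) (hn : 2 ≤ n) (hT : (n, q) ≠ (2, 2) ∧ (n, q) ≠ (2, 3))
    (F₀ : Subfield F) (k q₀ : ℕ) (hk : k.Prime) (hF₀ : Nat.card ↥F₀ = q₀) (hqk : q = q₀ ^ k) (hC5 : ¬ (n = 2 ∧ q₀ = 2)) (hΩ : 2 ∣ ((Cfsg.Geo.subfieldSubgroup F₀ 1).comap (Matrix.SpecialLinearGroup.toGL : Matrix.SpecialLinearGroup (Fin n) F →* GL (Fin n) F)).index) :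
    (∀ x : Matrix.SpecialLinearGroup (Fin n) F,
      (∃ z : F, ((x ^ 2 : Matrix.SpecialLinearGroup (Fin n) F) : Matrix (Fin n) (Fin n) F) = z • (1 : Matrix (Fin n) (Fin n) F)) →
      (∀ z : F, (x : Matrix (Fin n) (Fin n) F) ≠ z • (1 : Matrix (Fin n) (Fin n) F)) →
      ∃ P : Matrix.SpecialLinearGroup (Fin n) F, P⁻¹ * x * P ∈ ((Cfsg.Geo.subfieldSubgroup F₀ 1).comap (Matrix.SpecialLinearGroup.toGL : Matrix.SpecialLinearGroup (Fin n) F →* GL (Fin n) F))) ↔
    (Odd q → (k = 2 ∧ padicValNat 2 n ≤ padicValNat 2 (q - 1))) := by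
  have hn0 : 0 < n := by omega
  have hk1 := hk.one_lt
  constructor
  · intro hall hodd
    have h2 : (2 : F) ≠ 0 := Cfsg.Agent.H5.Der.two_ne (by rw [hq]; exact hodd)
    have hk2 : k = 2 := by
      rcases hk.eq_two_or_odd' with h | h
      · exact h
      · exact absurd hΩ (index_odd hq n hn F₀ k q₀ hF₀ hqk h hodd)
    refine ⟨hk2, ?_⟩
    subst hk2
    by_contra hcon
    push Not at hcon
    have hq1 : 1 < q := by rw [← hq]; exact Fintype.one_lt_card
    set s := padicValNat 2 (q - 1) with hs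
    have hs1 : 2 ^ s ∣ q - 1 := pow_padicValNat_dvd
    have hn1 : 2 ^ (s + 1) ∣ n := (padicValNat_dvd_iff_le (by omega)).2 hcon
    obtain ⟨m', hm'⟩ := hn1
    obtain ⟨m, hm, hsm⟩ : ∃ m, n = 2 * m ∧ 2 ^ s ∣ m := ⟨2 ^ s * m', by rw [hm']; ring, ⟨m', rfl⟩⟩
    subst hm
    have hs0 : 1 ≤ s := by
      have h3 : 2 ^ 1 ∣ q - 1 := by
        rw [pow_one]; obtain ⟨r, hr⟩ := hodd; omega
      exact (padicValNat_dvd_iff_le (by omega)).1 h3
    obtain ⟨w, hw⟩ := Cfsg.Agent.H21.GLo.exists_order (E := F) (m := 2 ^ s) (by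
      rw [Nat.card_eq_fintype_card, hq]; exact hs1)
    have hw1 : w ^ 2 ^ s = 1 := by rw [← hw, pow_orderOf_eq_one]
    have hwns : ∀ b : F, b ^ 2 ≠ w := by
      intro b hb
      have h3 : b ^ 2 ^ (s + 1) = 1 := by rw [pow_succ', pow_mul, hb, hw1]
      have h4 : b ^ 2 ^ s ≠ 1 := by
        intro h
        obtain ⟨t, ht⟩ := Nat.exists_eq_add_of_le hs0
        rw [ht, pow_add, pow_one, pow_mul, hb] at h
        have := orderOf_dvd_of_pow_eq_one h
        rw [hw, ht] at this
        have := (Nat.pow_dvd_pow_iff_le_right (by norm_num)).1 this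
        omega
      have h5 : orderOf b = 2 ^ (s + 1) := orderOf_eq_prime_pow h4 h3
      have hb0 : b ≠ 0 := by
        rintro rfl
        rw [zero_pow (by positivity)] at h3
        exact zero_ne_one h3
      have h6 : orderOf b ∣ q - 1 := by
        rw [← hq]; exact orderOf_dvd_of_pow_eq_one (FiniteField.pow_card_sub_one_eq_one _ hb0)
      rw [h5] at h6
      have := (padicValNat_dvd_iff_le (by omega)).1 h6
      omega
    obtain ⟨i, hi⟩ := sq_of_sub hq F₀ q₀ hF₀ hqk hodd (-1)
    have hi' : i ^ 2 = -1 := by rw [hi]; simp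
    have hi0 : i ≠ 0 := by
      rintro rfl
      rw [zero_pow (by norm_num)] at hi'
      exact one_ne_zero (neg_eq_zero.1 hi'.symm)
    have hzns : ∀ b : F, b ^ 2 ≠ -w := by
      intro b hb
      apply hwns (b * i)
      rw [mul_pow, hb, hi']; ring
    obtain ⟨X, hX1, hX2⟩ := exists_root_model (F := F) m (-w)
    rw [neg_neg] at hX2
    have hXd : X.det = 1 := by
      obtain ⟨t, ht⟩ := hsm
      rw [hX2, ht, pow_mul, hw1, one_pow]
    obtain ⟨x, hx⟩ : ∃ x : Matrix.SpecialLinearGroup (Fin (2 * m)) F, (x : Matrix (Fin (2 * m)) (Fin (2 * m)) F) = X :=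
      ⟨⟨X, hXd⟩, rfl⟩
    obtain ⟨P, hP⟩ := hall x ⟨-w, by rw [Matrix.SpecialLinearGroup.coe_pow, hx, pow_two, hX1]⟩ (by
      intro z hz
      rw [hx] at hz
      rw [hz, smul_mul_smul_comm, mul_one] at hX1
      have h3 := congrFun (congrFun hX1 ⟨0, hn0⟩) ⟨0, hn0⟩
      apply hzns z
      simpa [pow_two] using h3)
    rw [Subgroup.mem_comap] at hP
    obtain ⟨c, M, hc0, hcM⟩ := of_mem_sub F₀ _ hP
    have hcM' : ((P⁻¹ * x * P : Matrix.SpecialLinearGroup (Fin (2 * m)) F) : Matrix (Fin (2 * m)) (Fin (2 * m)) F) =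
        c • M.map (F₀.subtype : F₀ →+* F) := hcM
    have h5 : ((P⁻¹ * x * P : Matrix.SpecialLinearGroup (Fin (2 * m)) F) : Matrix (Fin (2 * m)) (Fin (2 * m)) F) *
        ((P⁻¹ * x * P : Matrix.SpecialLinearGroup (Fin (2 * m)) F) : Matrix (Fin (2 * m)) (Fin (2 * m)) F) = (-w) • 1 := by
      rw [← Matrix.SpecialLinearGroup.coe_mul]
      have h6 : P⁻¹ * x * P * (P⁻¹ * x * P) = P⁻¹ * (x * x) * P := by group
      rw [h6, Matrix.SpecialLinearGroup.coe_mul, Matrix.SpecialLinearGroup.coe_mul, Matrix.SpecialLinearGroup.coe_mul, hx, hX1,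
        mul_smul_comm, mul_one, smul_mul_assoc, ← Matrix.SpecialLinearGroup.coe_mul, inv_mul_cancel,
        Matrix.SpecialLinearGroup.coe_one]
    rw [hcM', smul_mul_smul_comm] at h5
    have h6 : M.map (F₀.subtype : F₀ →+* F) * M.map (F₀.subtype : F₀ →+* F) = (M * M).map (F₀.subtype : F₀ →+* F) :=
      (Matrix.map_mul).symm
    rw [h6] at h5
    have h7 := congrFun (congrFun h5 ⟨0, hn0⟩) ⟨0, hn0⟩
    obtain ⟨d, hd⟩ := sq_of_sub hq F₀ q₀ hF₀ hqk hodd ((M * M) ⟨0, hn0⟩ ⟨0, hn0⟩)
    apply hzns (c * d)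
    rw [mul_pow, hd]
    have h8 : (c * c) * (((M * M) ⟨0, hn0⟩ ⟨0, hn0⟩ : F₀) : F) = -w := by
      simpa using h7
    rw [← h8]; ring
  · intro h x ⟨z, hz⟩ hns
    have hx2 : (x : Matrix (Fin n) (Fin n) F) * (x : Matrix (Fin n) (Fin n) F) = z • 1 := by
      rw [← hz, Matrix.SpecialLinearGroup.coe_pow, pow_two]
    have hz0 : z ≠ 0 := by
      intro hz0
      have hdz := congrArg Matrix.det hz
      haveI : Nonempty (Fin n) := ⟨⟨0, hn0⟩⟩
      rw [Matrix.SpecialLinearGroup.det_coe, hz0, zero_smul, Matrix.det_zero] at hdz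
      exact one_ne_zero hdz
    have hsq : ∃ b : F, b ^ 2 = z := by
      by_cases h2 : (2 : F) = 0
      · haveI : CharP F 2 := CharTwo.of_one_ne_zero_of_two_eq_zero one_ne_zero h2
        obtain ⟨e, he⟩ := FiniteField.isSquare_of_char_two (F := F) (ringChar.eq_iff.2 inferInstance) z
        exact ⟨e, by rw [he, pow_two]⟩
      by_contra hns2
      push Not at hns2
      have hodd : Odd q := by rw [← hq]; exact odd_card h2
      obtain ⟨hk2, hle⟩ := h hodd
      subst hk2
      have hzn := scalar_root hn0 hz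
      have hev : Even n := by
        by_contra hno
        rw [Nat.not_even_iff_odd] at hno
        obtain ⟨t, ht⟩ := hno
        apply hns2 (z ^ (t + 1))
        rw [← pow_mul, show (t + 1) * 2 = n + 1 by omega, pow_succ, hzn, one_mul]
      obtain ⟨m, hm⟩ := hev
      obtain ⟨X, hX1, hX2⟩ := exists_root_model (F := F) m z
      have hA : ∀ v, Matrix.toLin' (x : Matrix (Fin n) (Fin n) F) (Matrix.toLin' (x : Matrix (Fin n) (Fin n) F) v) = z • v := by
        intro v
        rw [Matrix.toLin'_apply, Matrix.toLin'_apply, Matrix.mulVec_mulVec, hx2, Matrix.smul_mulVec, Matrix.one_mulVec]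
      have hB : ∀ v, Matrix.toLin' X (Matrix.toLin' X v) = z • v := by
        intro v
        rw [Matrix.toLin'_apply, Matrix.toLin'_apply, Matrix.mulVec_mulVec, hX1, Matrix.smul_mulVec, Matrix.one_mulVec]
      obtain ⟨⟨P₁, hP₁⟩, -⟩ := intertwine_sq z hns2 (Matrix.toLin' (x : Matrix (Fin n) (Fin n) F)) (Matrix.toLin' X) hA hB
        (by simp; omega)
      have h3 : Matrix.toLin' X = (P₁ : (Fin n → F) →ₗ[F] (Fin (2 * m) → F)) ∘ₗ
          (Matrix.toLin' (x : Matrix (Fin n) (Fin n) F)) ∘ₗ (P₁.symm : (Fin (2 * m) → F) →ₗ[F] (Fin n → F)) := by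
        apply LinearMap.ext
        intro v
        show _ = P₁ (Matrix.toLin' (x : Matrix (Fin n) (Fin n) F) (P₁.symm v))
        rw [hP₁, LinearEquiv.apply_symm_apply]
      have h4 : (-z) ^ m = 1 := by
        rw [← hX2, ← LinearMap.det_toLin', h3, LinearMap.det_conj, LinearMap.det_toLin', Matrix.SpecialLinearGroup.det_coe]
      obtain ⟨i, hi⟩ := sq_of_sub hq F₀ q₀ hF₀ hqk hodd (-1)
      have hi' : i ^ 2 = -1 := by rw [hi]; simp
      have hwns : ¬ IsSquare (-z) := by
        rintro ⟨b, hb⟩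
        apply hns2 (b * i)
        rw [mul_pow, hi', pow_two, ← hb]; ring
      have hch : ringChar F ≠ 2 := by
        intro h
        apply h2
        have := (ringChar.spec F 2).2 (by rw [h])
        exact_mod_cast this
      have hq1 : 1 < q := by rw [← hq]; exact Fintype.one_lt_card
      have h5 : (-z) ^ (q / 2) = -1 := by
        have h6 := FiniteField.pow_dichotomy hch (neg_ne_zero.2 hz0)
        rw [hq] at h6
        refine h6.resolve_left (fun h7 => hwns ?_)
        rw [FiniteField.isSquare_iff hch (neg_ne_zero.2 hz0), hq]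
        exact h7
      have hm0 : m ≠ 0 := by omega
      obtain ⟨m', hm'⟩ := pow_padicValNat_dvd (p := 2) (n := m)
      have hmo : Odd m' := by
        by_contra hcon
        rw [Nat.not_odd_iff_even] at hcon
        obtain ⟨t, ht⟩ := hcon
        have h3 : 2 ^ (padicValNat 2 m + 1) ∣ m := by
          refine ⟨t, ?_⟩
          conv_lhs => rw [hm']
          rw [ht]; ring
        have := (padicValNat_dvd_iff_le hm0).1 h3
        omega
      have h6 : 2 ^ (padicValNat 2 m + 1) ∣ q - 1 := by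
        rw [padicValNat_dvd_iff_le (by omega)]
        refine le_trans ?_ hle
        rw [← padicValNat_dvd_iff_le (by omega)]
        exact ⟨m', by rw [hm]; conv_lhs => rw [hm']
                      ring⟩
      obtain ⟨r, hr⟩ := h6
      have h7 : q / 2 = 2 ^ padicValNat 2 m * r := by
        have h8 : q = 2 * (2 ^ padicValNat 2 m * r) + 1 := by
          have : q - 1 = 2 * (2 ^ padicValNat 2 m * r) := by rw [hr]; ring
          omega
        omega
      have h8 : ((-z) ^ (q / 2)) ^ m' = 1 := by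
        rw [h7, ← pow_mul, show 2 ^ padicValNat 2 m * r * m' = (2 ^ padicValNat 2 m * m') * r by ring, ← hm', pow_mul,
          h4, one_pow]
      rw [h5, hmo.neg_one_pow] at h8
      exact h2 (by linear_combination -h8)
    obtain ⟨c, hc⟩ := hsq
    have hc0 : c ≠ 0 := by
      rintro rfl
      exact hz0 (by rw [← hc]; ring)
    have hxy : (x : Matrix (Fin n) (Fin n) F) = c • (c⁻¹ • (x : Matrix (Fin n) (Fin n) F)) := by
      rw [smul_smul, mul_inv_cancel₀ hc0, one_smul]
    have hyy : (c⁻¹ • (x : Matrix (Fin n) (Fin n) F)) * (c⁻¹ • (x : Matrix (Fin n) (Fin n) F)) = 1 := by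
      rw [smul_mul_smul_comm, hx2, smul_smul, ← hc]
      rw [show c⁻¹ * c⁻¹ * c ^ 2 = 1 by field_simp, one_smul]
    set y0 := c⁻¹ • (x : Matrix (Fin n) (Fin n) F) with hy0
    by_cases h2 : (2 : F) = 0
    · set N : (Fin n → F) →ₗ[F] (Fin n → F) := Matrix.toLin' (y0 - 1) with hN
      have hNN : ∀ v, N (N v) = 0 := by
        intro v
        rw [hN, Matrix.toLin'_apply, Matrix.toLin'_apply, Matrix.mulVec_mulVec]
        have : (y0 - 1) * (y0 - 1) = (2 : F) • (1 - y0) := by
          rw [sub_mul, mul_sub, hyy, mul_one, one_mul, two_smul]; abel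
        rw [this, h2, zero_smul, Matrix.zero_mulVec]
      obtain ⟨a, b, Φ, hΦ⟩ := nil_struct N hNN
      have ha : 0 < a := by
        rcases Nat.eq_zero_or_pos a with h | h
        · exfalso
          subst h
          apply hns c
          rw [hxy]
          congr 1
          have h3 : ∀ v, N v = 0 := by
            intro v
            obtain ⟨w, rfl⟩ := Φ.surjective v
            rw [hΦ]
            have : (((0, w.1.1), 0) : ((Fin 0 → F) × (Fin 0 → F)) × (Fin b → F)) = 0 := by
              apply Prod.ext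
              · exact Subsingleton.elim _ _
              · rfl
            rw [this, map_zero]
          have h4 : N = 0 := LinearMap.ext h3
          have h5 : y0 - 1 = 0 := Matrix.toLin'.injective (by rw [map_zero]; exact h4)
          exact sub_eq_zero.1 h5
        · exact h
      let y : Module.End F (((Fin a → F) × (Fin a → F)) × (Fin b → F)) :=
        { toFun := fun w => c • ((w.1.1, w.1.2 + w.1.1), w.2)
          map_add' := by
            intro u v
            rw [← smul_add]
            congr 1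
            refine Prod.ext (Prod.ext rfl ?_) rfl
            show u.1.2 + v.1.2 + (u.1.1 + v.1.1) = u.1.2 + u.1.1 + (v.1.2 + v.1.1)
            abel
          map_smul' := by
            intro s u
            rw [RingHom.id_apply, smul_comm s c]
            congr 1
            refine Prod.ext (Prod.ext rfl ?_) rfl
            show s • u.1.2 + s • u.1.1 = s • (u.1.2 + u.1.1)
            rw [smul_add] }
      refine sub_into' F₀ x y Φ.symm ?_
        (((LinearEquiv.sumArrowLequivProdArrow (Fin a) (Fin a) F F).symm.prodCongr (LinearEquiv.refl F (Fin b → F))).trans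
          (LinearEquiv.sumArrowLequivProdArrow (Fin a ⊕ Fin a) (Fin b) F F).symm)
        (Matrix.fromBlocks (Matrix.fromBlocks 1 0 1 1) 0 0 1)
        (fromBlocks_rat F₀ (fromBlocks_rat F₀ (one_rat F₀) (fun _ _ => F₀.zero_mem) (one_rat F₀) (one_rat F₀))
          (fun _ _ => F₀.zero_mem) (fun _ _ => F₀.zero_mem) (one_rat F₀)) c hc0 ?_ (det_nil ha h2 c y (fun _ => rfl))
      · intro v
        obtain ⟨w, rfl⟩ := Φ.surjective v
        have h3 : (x : Matrix (Fin n) (Fin n) F) *ᵥ (Φ w) = Φ (c • ((w.1.1, w.1.2 + w.1.1), w.2)) := by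
          have h4 : y0 *ᵥ (Φ w) = N (Φ w) + Φ w := by
            rw [hN, Matrix.toLin'_apply, Matrix.sub_mulVec, Matrix.one_mulVec, sub_add_cancel]
          rw [hxy, Matrix.smul_mulVec, h4, hΦ, ← map_add, ← map_smul]
          congr 2
          refine Prod.ext (Prod.ext ?_ ?_) ?_
          · show 0 + w.1.1 = w.1.1
            rw [zero_add]
          · show w.1.1 + w.1.2 = w.1.2 + w.1.1
            rw [add_comm]
          · show 0 + w.2 = w.2
            rw [zero_add]
        rw [h3, LinearEquiv.symm_apply_apply, LinearEquiv.symm_apply_apply]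
        rfl
      · intro w
        have h3 : ∀ w, y w = c • ((w.1.1, w.1.2 + w.1.1), w.2) := fun _ => rfl
        rw [h3, map_smul]
        congr 1
        rw [Matrix.fromBlocks_mulVec, Matrix.fromBlocks_mulVec]
        funext i
        rcases i with (i | i) | i
        · show w.1.1 i = _
          simp
          rfl
        · show w.1.2 i + w.1.1 i = _
          simp
          exact add_comm _ _
        · show w.2 i = _
          simp
    · set e := Submodule.prodEquivOfIsCompl _ _ (isCompl_of_sq h2 y0 hyy) with he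
      let e₁ : (LinearMap.ker (Matrix.toLin' (y0 - 1))) ≃ₗ[F] (Fin (finrank F (LinearMap.ker (Matrix.toLin' (y0 - 1)))) → F) :=
        LinearEquiv.ofFinrankEq _ _ (by simp)
      let e₂ : (LinearMap.ker (Matrix.toLin' (y0 + 1))) ≃ₗ[F] (Fin (finrank F (LinearMap.ker (Matrix.toLin' (y0 + 1)))) → F) :=
        LinearEquiv.ofFinrankEq _ _ (by simp)
      refine sub_into' F₀ x (c • LinearMap.prodMap LinearMap.id (-LinearMap.id)) e.symm ?_
        ((LinearEquiv.prodCongr e₁ e₂).trans (LinearEquiv.sumArrowLequivProdArrow _ _ F F).symm)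
        (Matrix.fromBlocks 1 0 0 (-1))
        (fromBlocks_rat F₀ (one_rat F₀) (fun _ _ => F₀.zero_mem) (fun _ _ => F₀.zero_mem)
          (fun i j => by rw [Matrix.neg_apply]; exact F₀.neg_mem (one_rat F₀ i j))) c hc0 ?_
        (det_split (by
          have := e.finrank_eq
          rw [Module.finrank_fintype_fun_eq_card, Fintype.card_fin] at this
          rw [this]; exact hn0) c)
      · intro v
        obtain ⟨p, rfl⟩ := e.surjective v
        rw [hxy, Matrix.smul_mulVec, split_apply h2 y0 hyy, map_smul]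
        rw [LinearEquiv.symm_apply_apply, LinearEquiv.symm_apply_apply]
        rfl
      · intro w
        rw [LinearMap.smul_apply, map_smul]
        congr 1
        show Sum.elim (e₁ w.1) (e₂ (-w.2)) = (Matrix.fromBlocks 1 0 0 (-1)) *ᵥ (Sum.elim (e₁ w.1) (e₂ w.2))
        rw [blk_neg, map_neg]

end Cfsg.Agent.S5964
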