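import Cfsg.Statements.S5966
import Mathlib
import Cfsg.Agent.H5_Fld2
import Cfsg.Agent.H5_Der3

set_option autoImplicit false
open scoped MatrixGroups
open Cfsg

namespace Cfsg.Agent.S5966

open Matrix Module Cfsg.Geo Cfsg.Agent.H5.Fld

theorem odd_quot {a b k : ℕ} (ha : Odd a) (hb : Odd b) (hba : b ≤ a) (hk : Odd k) : ∃ t, Odd t ∧ a ^ k - b ^ k = t * (a - b) := by
  refine ⟨∑ i ∈ Finset.range k, a ^ i * b ^ (k - 1 - i), ?_, ?_⟩
  · rw [← ZMod.natCast_eq_one_iff_odd]
    rw [← ZMod.natCast_eq_one_iff_odd] at ha hb hk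
    push_cast
    rw [ha, hb]
    simp [hk]
  · have h1 : b ^ k ≤ a ^ k := Nat.pow_le_pow_left hba k
    zify [h1, hba]
    have := (Commute.all (a : ℤ) (b : ℤ)).geom_sum₂_mul k
    rw [← this]

theorem sq_of_sub {F : Type*} [Field F] [Fintype F] {q : ℕ} (hq : Fintype.card F = q)
    (F₀ : Subfield F) (q₀ : ℕ) (hF₀ : Nat.card ↥F₀ = q₀) (hqk : q = q₀ ^ 2) (hodd : Odd q) (a : F₀) : ∃ d : F, d ^ 2 = a := by
  have h2 : (2 : F) ≠ 0 := Cfsg.Agent.H5.Der.two_ne (by rw [hq]; exact hodd)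
  by_cases ha : a = 0
  · exact ⟨0, by rw [ha]; simp⟩
  have hch : ringChar F ≠ 2 := by
    intro h
    apply h2
    have := (ringChar.spec F 2).2 (by rw [h])
    exact_mod_cast this
  have ha' : (a : F) ≠ 0 := fun h => ha (Subtype.ext h)
  haveI : Fintype F₀ := Fintype.ofFinite F₀
  have h1 : a ^ (q₀ - 1) = 1 := by
    have := FiniteField.pow_card_sub_one_eq_one a ha
    rwa [← Nat.card_eq_fintype_card, hF₀] at this
  have h3 : (a : F) ^ (q₀ - 1) = 1 := by exact_mod_cast congrArg Subtype.val h1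
  have hq₀o : Odd q₀ := by
    by_contra hno
    rw [Nat.not_odd_iff_even] at hno
    rw [hqk] at hodd
    exact (Nat.not_even_iff_odd.2 hodd) (Nat.even_pow.2 ⟨hno, by norm_num⟩)
  obtain ⟨r, hr⟩ := hq₀o
  have hsq : IsSquare (a : F) := by
    rw [FiniteField.isSquare_iff hch ha', hq, hqk]
    have : q₀ ^ 2 / 2 = (q₀ - 1) * (r + 1) := by
      rw [hr, show 2 * r + 1 - 1 = 2 * r by omega]
      have : (2 * r + 1) ^ 2 = 2 * (2 * r * (r + 1)) + 1 := by ring
      rw [this]; omega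
    rw [this, pow_mul, h3, one_pow]
  obtain ⟨d, hd⟩ := hsq
  exact ⟨d, by rw [hd, pow_two]⟩

theorem exists_nonsq_sub {F : Type*} [Field F] [Fintype F] {q : ℕ} (hq : Fintype.card F = q)
    (F₀ : Subfield F) (k q₀ : ℕ) (hF₀ : Nat.card ↥F₀ = q₀) (hqk : q = q₀ ^ k) (hk : Odd k) (hodd : Odd q) :
    ∃ a : F, a ∈ F₀ ∧ ¬ IsSquare a := by
  have h2 : (2 : F) ≠ 0 := Cfsg.Agent.H5.Der.two_ne (by rw [hq]; exact hodd)
  have hch : ringChar F ≠ 2 := by
    intro h
    apply h2
    have := (ringChar.spec F 2).2 (by rw [h])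
    exact_mod_cast this
  have h20 : (2 : F₀) ≠ 0 := fun h => h2 (congrArg Subtype.val h)
  have hch0 : ringChar F₀ ≠ 2 := by
    intro h
    apply h20
    have := (ringChar.spec F₀ 2).2 (by rw [h])
    exact_mod_cast this
  haveI : Fintype F₀ := Fintype.ofFinite F₀
  obtain ⟨a, ha⟩ := FiniteField.exists_nonsquare hch0
  have ha0 : a ≠ 0 := by
    rintro rfl
    exact ha ⟨0, by simp⟩
  have hcard : Fintype.card F₀ = q₀ := by rw [← Nat.card_eq_fintype_card, hF₀]
  have hq₀o : Odd q₀ := by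
    by_contra hno
    rw [Nat.not_odd_iff_even] at hno
    rw [hqk] at hodd
    exact (Nat.not_even_iff_odd.2 hodd) (Nat.even_pow.2 ⟨hno, by rintro rfl; exact absurd hk (by decide)⟩)
  have hq₀1 : 1 < q₀ := by
    rw [← hcard]; exact Fintype.one_lt_card
  refine ⟨a, a.2, ?_⟩
  have ha' : (a : F) ≠ 0 := fun h => ha0 (Subtype.ext h)
  rw [FiniteField.isSquare_iff hch ha', hq]
  have h1 : a ^ (q₀ / 2) = -1 := by
    have h6 := FiniteField.pow_dichotomy hch0 ha0
    rw [hcard] at h6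
    refine h6.resolve_left (fun h7 => ha ?_)
    rw [FiniteField.isSquare_iff hch0 ha0, hcard]
    exact h7
  obtain ⟨t, ht, hte⟩ := odd_quot hq₀o odd_one (by omega) hk
  rw [one_pow, ← hqk] at hte
  have h3 : q / 2 = (q₀ / 2) * t := by
    obtain ⟨r, hr⟩ := hq₀o
    have h4 : q - 1 = 2 * (r * t) := by rw [hte, hr]; simp; ring
    have h5 : q₀ / 2 = r := by omega
    rw [h5]
    have : 1 < q := by rw [← hq]; exact Fintype.one_lt_card
    omega
  intro h4
  rw [h3, pow_mul] at h4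
  have h5 : (a : F) ^ (q₀ / 2) = -1 := by exact_mod_cast congrArg Subtype.val h1
  rw [h5, ht.neg_one_pow] at h4
  exact h2 (by linear_combination -h4)

theorem fromCols_rat {F : Type*} [Field F] (F₀ : Subfield F) {a b c : Type*} {A : Matrix a b F} {B : Matrix a c F}
    (hA : ∀ i j, A i j ∈ F₀) (hB : ∀ i j, B i j ∈ F₀) (i j) : Matrix.fromCols A B i j ∈ F₀ := by
  rcases j with j | j
  · exact hA i j
  · exact hB i j

/-- the model of `c (1 + N)` -/
def yy {F : Type*} [Field F] (a b m : ℕ) (c : F) : Module.End F ((((Fin a → F) × (Fin a → F)) × (Fin a → F)) × (((Fin b → F) × (Fin b → F)) × (Fin m → F))) :=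
  { toFun := fun w => c • (((w.1.1.1, w.1.1.2 + w.1.1.1), w.1.2 + w.1.1.2), ((w.2.1.1, w.2.1.2 + w.2.1.1), w.2.2))
    map_add' := by
      intro u v
      rw [← smul_add]
      congr 1
      refine Prod.ext (Prod.ext (Prod.ext rfl ?_) ?_) (Prod.ext (Prod.ext rfl ?_) rfl)
      · show u.1.1.2 + v.1.1.2 + (u.1.1.1 + v.1.1.1) = u.1.1.2 + u.1.1.1 + (v.1.1.2 + v.1.1.1)
        abel
      · show u.1.2 + v.1.2 + (u.1.1.2 + v.1.1.2) = u.1.2 + u.1.1.2 + (v.1.2 + v.1.1.2)
        abel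
      · show u.2.1.2 + v.2.1.2 + (u.2.1.1 + v.2.1.1) = u.2.1.2 + u.2.1.1 + (v.2.1.2 + v.2.1.1)
        abel
    map_smul' := by
      intro s u
      rw [RingHom.id_apply, smul_comm s c]
      congr 1
      refine Prod.ext (Prod.ext (Prod.ext rfl ?_) ?_) (Prod.ext (Prod.ext rfl ?_) rfl)
      · exact (smul_add s u.1.1.2 u.1.1.1).symm
      · exact (smul_add s u.1.2 u.1.1.2).symm
      · exact (smul_add s u.2.1.2 u.2.1.1).symm }

theorem yy_apply {F : Type*} [Field F] (a b m : ℕ) (c : F) (w) : yy a b m c w =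
    c • (((w.1.1.1, w.1.1.2 + w.1.1.1), w.1.2 + w.1.1.2), ((w.2.1.1, w.2.1.2 + w.2.1.1), w.2.2)) := rfl

/-- the coordinates -/
def SS {F : Type*} [Field F] (a b m : ℕ) : ((((Fin a → F) × (Fin a → F)) × (Fin a → F)) × (((Fin b → F) × (Fin b → F)) × (Fin m → F))) ≃ₗ[F]
    (((Fin a ⊕ Fin a) ⊕ Fin a) ⊕ ((Fin b ⊕ Fin b) ⊕ Fin m) → F) :=
  ((((LinearEquiv.sumArrowLequivProdArrow (Fin a) (Fin a) F F).symm.prodCongr (LinearEquiv.refl F (Fin a → F))).trans
    (LinearEquiv.sumArrowLequivProdArrow (Fin a ⊕ Fin a) (Fin a) F F).symm).prodCongr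
  (((LinearEquiv.sumArrowLequivProdArrow (Fin b) (Fin b) F F).symm.prodCongr (LinearEquiv.refl F (Fin m → F))).trans
    (LinearEquiv.sumArrowLequivProdArrow (Fin b ⊕ Fin b) (Fin m) F F).symm)).trans
  (LinearEquiv.sumArrowLequivProdArrow ((Fin a ⊕ Fin a) ⊕ Fin a) ((Fin b ⊕ Fin b) ⊕ Fin m) F F).symm

theorem SS_apply {F : Type*} [Field F] (a b m : ℕ) (w) : SS (F := F) a b m w =
    Sum.elim (Sum.elim (Sum.elim w.1.1.1 w.1.1.2) w.1.2) (Sum.elim (Sum.elim w.2.1.1 w.2.1.2) w.2.2) := rfl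

def MM (F : Type*) [Field F] (a b m : ℕ) : Matrix (((Fin a ⊕ Fin a) ⊕ Fin a) ⊕ ((Fin b ⊕ Fin b) ⊕ Fin m)) (((Fin a ⊕ Fin a) ⊕ Fin a) ⊕ ((Fin b ⊕ Fin b) ⊕ Fin m)) F :=
  Matrix.fromBlocks (Matrix.fromBlocks (Matrix.fromBlocks 1 0 1 1) 0 (Matrix.fromCols 0 1) 1) 0 0
    (Matrix.fromBlocks (Matrix.fromBlocks 1 0 1 1) 0 0 1)

theorem MM_apply {F : Type*} [Field F] (a b m : ℕ) (w : ((((Fin a → F) × (Fin a → F)) × (Fin a → F)) × (((Fin b → F) × (Fin b → F)) × (Fin m → F)))) :
    MM F a b m *ᵥ (SS a b m w) = SS a b m (((w.1.1.1, w.1.1.2 + w.1.1.1), w.1.2 + w.1.1.2), ((w.2.1.1, w.2.1.2 + w.2.1.1), w.2.2)) := by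
  rw [SS_apply, SS_apply, MM, Matrix.fromBlocks_mulVec]
  simp only [Sum.elim_comp_inl, Sum.elim_comp_inr, Matrix.fromBlocks_mulVec, Matrix.zero_mulVec, Matrix.one_mulVec, add_zero, zero_add,
    Matrix.fromCols_mulVec]
  rw [add_comm w.1.1.1, add_comm w.1.1.2 w.1.2, add_comm w.2.1.1]

/-- determinants commuting with the model -/
theorem gg {F : Type*} [Field F] (a b m : ℕ) (c : F) (h : (Fin a → F) ≃ₗ[F] (Fin a → F)) (k : (Fin b → F) ≃ₗ[F] (Fin b → F))
    (l : (Fin m → F) ≃ₗ[F] (Fin m → F)) : ∃ g : ((((Fin a → F) × (Fin a → F)) × (Fin a → F)) × (((Fin b → F) × (Fin b → F)) × (Fin m → F))) ≃ₗ[F]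
      ((((Fin a → F) × (Fin a → F)) × (Fin a → F)) × (((Fin b → F) × (Fin b → F)) × (Fin m → F))),
      (∀ v, g (yy a b m c v) = yy a b m c (g v)) ∧
      LinearMap.det (g : ((((Fin a → F) × (Fin a → F)) × (Fin a → F)) × (((Fin b → F) × (Fin b → F)) × (Fin m → F))) →ₗ[F]
      ((((Fin a → F) × (Fin a → F)) × (Fin a → F)) × (((Fin b → F) × (Fin b → F)) × (Fin m → F)))) =
      LinearMap.det (h : (Fin a → F) →ₗ[F] (Fin a → F)) ^ 3 * LinearMap.det (k : (Fin b → F) →ₗ[F] (Fin b → F)) ^ 2 *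
        LinearMap.det (l : (Fin m → F) →ₗ[F] (Fin m → F)) := by
  refine ⟨((h.prodCongr h).prodCongr h).prodCongr ((k.prodCongr k).prodCongr l), fun v => ?_, ?_⟩
  · rw [yy_apply, yy_apply, map_smul]
    congr 1
    show (((h v.1.1.1, h (v.1.1.2 + v.1.1.1)), h (v.1.2 + v.1.1.2)), ((k v.2.1.1, k (v.2.1.2 + v.2.1.1)), l v.2.2)) =
      (((h v.1.1.1, h v.1.1.2 + h v.1.1.1), h v.1.2 + h v.1.1.2), ((k v.2.1.1, k v.2.1.2 + k v.2.1.1), l v.2.2))
    rw [map_add, map_add, map_add]
  · have : ∀ (A : ((((Fin a → F) × (Fin a → F)) × (Fin a → F)) × (((Fin b → F) × (Fin b → F)) × (Fin m → F))) →ₗ[F]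
      ((((Fin a → F) × (Fin a → F)) × (Fin a → F)) × (((Fin b → F) × (Fin b → F)) × (Fin m → F)))),
      A = LinearMap.prodMap (LinearMap.prodMap (LinearMap.prodMap (h : (Fin a → F) →ₗ[F] (Fin a → F)) (h : (Fin a → F) →ₗ[F] (Fin a → F)))
          (h : (Fin a → F) →ₗ[F] (Fin a → F)))
        (LinearMap.prodMap (LinearMap.prodMap (k : (Fin b → F) →ₗ[F] (Fin b → F)) (k : (Fin b → F) →ₗ[F] (Fin b → F)))
          (l : (Fin m → F) →ₗ[F] (Fin m → F))) → LinearMap.det A = LinearMap.det (h : (Fin a → F) →ₗ[F] (Fin a → F)) ^ 3 * LinearMap.det (k : (Fin b → F) →ₗ[F] (Fin b → F)) ^ 2 *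
        LinearMap.det (l : (Fin m → F) →ₗ[F] (Fin m → F)) := by
      intro A hA
      rw [hA, LinearMap.det_prodMap, LinearMap.det_prodMap, LinearMap.det_prodMap, LinearMap.det_prodMap, LinearMap.det_prodMap]
      ring
    exact this _ rfl

/-- Elements of order 3 of PSL_n(q) in characteristic 3 and subfield subgroups. Here `T = PSL_n(F)` for a field `F` with `q` elements, `q` a power of 3 (`n ≥ 2`, `(n, q) ≠ (2, 2), (2, 3)`), `F₀` is the subfield with `q₀` elements where `q = q₀^k` for a prime `k`, and `H` is the subgroup of matrices of determinant 1 lying in the subfield group of `F₀` (invertible matrices over `F₀` times scalars) — a maximal subgroup of type GL_n(q₀) (the case `n = 2`, `q₀ = 2` is excluded); Ω is the set of `T`-conjugates of `H` (cosets of `H`), so an element of `T` of prime order `r` (a matrix `x` of determinant 1 with `x^r` scalar, `x` not scalar) fixes a point of Ω when some conjugate of `x` by a matrix of determinant 1 lies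 in `H`. Suppose 3 divides the index of `H`. Then every element of `T` of order 3 is conjugate in `T` into `H` if and only if `n` is odd, or `n` is even and `k > 2`. -/
theorem result {F : Type*} [Field F] [Fintype F] [CharP F 3] {q : ℕ} (hq : Fintype.card F = q)
    (n : ℕ) (hn : 2 ≤ n) (hT : (n, q) ≠ (2, 3))
    (F₀ : Subfield F) (k q₀ : ℕ) (hk : k.Prime) (hF₀ : Nat.card ↥F₀ = q₀) (hqk : q = q₀ ^ k) (hC5 : ¬ (n = 2 ∧ q₀ = 2)) (hΩ : 3 ∣ ((Cfsg.Geo.subfieldSubgroup F₀ 1).comap (Matrix.SpecialLinearGroup.toGL : Matrix.SpecialLinearGroup (Fin n) F →* GL (Fin n) F)).index) :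
    (∀ x : Matrix.SpecialLinearGroup (Fin n) F,
      (∃ z : F, ((x ^ 3 : Matrix.SpecialLinearGroup (Fin n) F) : Matrix (Fin n) (Fin n) F) = z • (1 : Matrix (Fin n) (Fin n) F)) →
      (∀ z : F, (x : Matrix (Fin n) (Fin n) F) ≠ z • (1 : Matrix (Fin n) (Fin n) F)) →
      ∃ P : Matrix.SpecialLinearGroup (Fin n) F, P⁻¹ * x * P ∈ ((Cfsg.Geo.subfieldSubgroup F₀ 1).comap (Matrix.SpecialLinearGroup.toGL : Matrix.SpecialLinearGroup (Fin n) F →* GL (Fin n) F))) ↔
    (Odd n ∨ (Even n ∧ 2 < k)) := by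
  have hn0 : 0 < n := by omega
  have hk1 := hk.one_lt
  have h3 : (3 : F) = 0 := by exact_mod_cast CharP.cast_eq_zero F 3
  have h2 : (2 : F) ≠ 0 := by
    intro h2
    have : (1 : F) = 0 := by linear_combination h3 - h2
    exact one_ne_zero this
  have hodd : Odd q := by rw [← hq]; exact odd_card h2
  haveI : Fact (Nat.Prime 3) := ⟨Nat.prime_three⟩
  have hch : ringChar F ≠ 2 := by
    intro h
    apply h2
    have := (ringChar.spec F 2).2 (by rw [h])
    exact_mod_cast this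
  have hcube : ∀ d : F, ∃ e : F, e ^ 3 = d := fun d => (bijective_frobenius F 3).2 d
  constructor
  · intro hall
    by_contra hcon
    push Not at hcon
    obtain ⟨hno, hcon⟩ := hcon
    have hev : Even n := Nat.not_odd_iff_even.1 hno
    have hk2 : k = 2 := by
      have := hcon hev
      omega
    subst hk2
    obtain ⟨m, rfl⟩ := hev
    have hm0 : 0 < m := by omega
    obtain ⟨ν, hν⟩ := FiniteField.exists_nonsquare hch
    have hν0 : ν ≠ 0 := by
      rintro rfl
      exact hν ⟨0, by simp⟩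
    set D : Matrix (Fin m) (Fin m) F := Matrix.diagonal (Function.update (fun _ => 1) ⟨0, hm0⟩ ν) with hD
    have hDdet : D.det = ν := by
      rw [hD, Matrix.det_diagonal, Finset.prod_update_of_mem (Finset.mem_univ _)]
      simp
    set X₀ : Matrix (Fin m ⊕ Fin m) (Fin m ⊕ Fin m) F := Matrix.fromBlocks 1 0 D 1 with hX₀
    have hX3 : X₀ ^ 3 = 1 := by
      rw [pow_succ, pow_two, hX₀, Matrix.fromBlocks_multiply, Matrix.fromBlocks_multiply]
      simp only [mul_one, one_mul, mul_zero, zero_mul, add_zero, zero_add]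
      have : D + D + D = 0 := by
        have : D + D + D = (3 : F) • D := by
          rw [show (3 : F) = 1 + 1 + 1 by norm_num, add_smul, add_smul, one_smul]
        rw [this, h3, zero_smul]
      rw [this, Matrix.fromBlocks_one]
    set ρ := Matrix.reindexAlgEquiv F F (finSumFinEquiv : Fin m ⊕ Fin m ≃ Fin (m + m)) with hρ
    have hdρ : ∀ A, (ρ A).det = A.det := fun A => by
      rw [hρ, Matrix.reindexAlgEquiv_apply, Matrix.det_reindex_self]
    obtain ⟨x, hx⟩ : ∃ x : Matrix.SpecialLinearGroup (Fin (m + m)) F, (x : Matrix (Fin (m + m)) (Fin (m + m)) F) = ρ X₀ :=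
      ⟨⟨ρ X₀, by rw [hdρ, hX₀, Matrix.det_fromBlocks_zero₁₂, Matrix.det_one, mul_one]⟩, rfl⟩
    have hx3 : x ^ 3 = 1 := by
      apply Subtype.ext
      rw [Matrix.SpecialLinearGroup.coe_pow, hx, ← map_pow, hX3, map_one, Matrix.SpecialLinearGroup.coe_one]
    obtain ⟨P, hP⟩ := hall x ⟨1, by rw [hx3, Matrix.SpecialLinearGroup.coe_one, one_smul]⟩ (by
      intro z hz
      rw [hx] at hz
      have h4 : X₀ = z • 1 := by
        apply ρ.injective
        rw [hz, map_smul, map_one]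
      have h5 := congrFun (congrFun h4 (Sum.inr ⟨0, hm0⟩)) (Sum.inl ⟨0, hm0⟩)
      rw [hX₀, Matrix.fromBlocks_apply₂₁, hD, Matrix.diagonal_apply_eq, Function.update_self] at h5
      apply hν0
      rw [h5]
      simp)
    rw [Subgroup.mem_comap] at hP
    obtain ⟨c, M, hc0, hcM⟩ := of_mem_sub F₀ _ hP
    have hcM' : ((P⁻¹ * x * P : Matrix.SpecialLinearGroup (Fin (m + m)) F) : Matrix (Fin (m + m)) (Fin (m + m)) F) =
        c • M.map (F₀.subtype : F₀ →+* F) := hcM
    set Pm := ρ.symm (P : Matrix (Fin (m + m)) (Fin (m + m)) F) with hPm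
    set X' := ρ.symm ((P⁻¹ * x * P : Matrix.SpecialLinearGroup (Fin (m + m)) F) : Matrix (Fin (m + m)) (Fin (m + m)) F) with hX'
    have hPX : Pm * X' = X₀ * Pm := by
      apply ρ.injective
      rw [map_mul, map_mul, hPm, hX', AlgEquiv.apply_symm_apply, AlgEquiv.apply_symm_apply, ← hx,
        ← Matrix.SpecialLinearGroup.coe_mul, ← Matrix.SpecialLinearGroup.coe_mul]
      have h4 : P * (P⁻¹ * x * P) = x * P := by group
      rw [h4]
    have hPd : Pm.det = 1 := by
      rw [← hdρ, hPm, AlgEquiv.apply_symm_apply, Matrix.SpecialLinearGroup.det_coe]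
    have hX'3 : X' ^ 3 = 1 := by
      rw [hX', ← map_pow, ← Matrix.SpecialLinearGroup.coe_pow]
      have : (P⁻¹ * x * P) ^ 3 = 1 := by
        have h := conj_pow (a := P⁻¹) (b := x) (i := 3)
        rw [inv_inv] at h
        rw [h, hx3, mul_one, inv_mul_cancel]
      rw [this, Matrix.SpecialLinearGroup.coe_one, map_one]
    set M₀ : Matrix (Fin m ⊕ Fin m) (Fin m ⊕ Fin m) F₀ := M.submatrix finSumFinEquiv finSumFinEquiv with hM₀
    have hXM : X' = c • M₀.map (F₀.subtype : F₀ →+* F) := by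
      rw [hX', hcM', map_smul]
      rfl
    set i0 : Fin m ⊕ Fin m := Sum.inl ⟨0, hm0⟩ with hi0
    have hc3 : c ^ 3 * (((M₀ ^ 3) i0 i0 : F₀) : F) = 1 := by
      rw [hXM, smul_pow] at hX'3
      have h4 : (M₀.map (F₀.subtype : F₀ →+* F)) ^ 3 = (M₀ ^ 3).map (F₀.subtype : F₀ →+* F) :=
        (map_pow (F₀.subtype : F₀ →+* F).mapMatrix M₀ 3).symm
      rw [h4] at hX'3
      have h5 := congrFun (congrFun hX'3 i0) i0
      rw [Matrix.smul_apply, Matrix.one_apply_eq] at h5
      exact h5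
    haveI : CharP F₀ 3 := RingHom.charP (F₀.subtype : F₀ →+* F) (F₀.subtype : F₀ →+* F).injective 3
    obtain ⟨c₀, hc₀⟩ := (bijective_frobenius F₀ 3).2 (((M₀ ^ 3) i0 i0)⁻¹)
    have hcc : c = c₀ := by
      have h4 : (c₀ : F) ^ 3 * (((M₀ ^ 3) i0 i0 : F₀) : F) = 1 := by
        have h5 : c₀ ^ 3 = ((M₀ ^ 3) i0 i0)⁻¹ := hc₀
        have h6 : (M₀ ^ 3) i0 i0 ≠ 0 := by
          intro h
          rw [h] at hc3
          simp at hc3
        have h7 : c₀ ^ 3 * (M₀ ^ 3) i0 i0 = 1 := by rw [h5, inv_mul_cancel₀ h6]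
        exact_mod_cast congrArg Subtype.val h7
      have h5 : (((M₀ ^ 3) i0 i0 : F₀) : F) ≠ 0 := by
        intro h
        rw [h, mul_zero] at hc3
        exact zero_ne_one hc3
      have h6 : c ^ 3 = (c₀ : F) ^ 3 := mul_right_cancel₀ h5 (hc3.trans h4.symm)
      have h7 : (c - c₀) ^ 3 = 0 := by rw [sub_pow_char, h6, sub_self]
      exact sub_eq_zero.1 (pow_eq_zero_iff (by norm_num) |>.1 h7)
    have hXrat : ∀ i j, X' i j ∈ F₀ := by
      intro i j
      rw [hXM, hcc]
      exact F₀.mul_mem c₀.2 (M₀ i j).2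
    -- choose columns
    set v : (Fin m ⊕ Fin m) → (Fin m → F) := fun j i => Pm (Sum.inl i) j with hv
    have hvtop : Submodule.span F (Set.range v) = ⊤ := by
      rw [eq_top_iff]
      intro u _
      have hu : IsUnit Pm := (Matrix.isUnit_iff_isUnit_det _).2 (by rw [hPd]; exact isUnit_one)
      obtain ⟨w, hw⟩ := Matrix.mulVec_surjective_iff_isUnit.2 hu (Sum.elim u 0)
      have h4 : u = ∑ j, w j • v j := by
        funext i
        have h5 := congrFun hw (Sum.inl i)
        rw [Sum.elim_inl] at h5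
        rw [← h5, Finset.sum_apply]
        simp only [Matrix.mulVec, dotProduct, Pi.smul_apply, smul_eq_mul, hv]
        exact Finset.sum_congr rfl (fun j _ => mul_comm _ _)
      rw [h4]
      exact Submodule.sum_mem _ (fun j _ => Submodule.smul_mem _ _ (Submodule.subset_span ⟨j, rfl⟩))
    obtain ⟨κ, a, ha, hspan, hli⟩ := exists_linearIndependent' F v
    rw [hvtop] at hspan
    haveI : Finite κ := Finite.of_injective a ha
    haveI : Fintype κ := Fintype.ofFinite κ
    have hcκ : Fintype.card κ = m := by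
      have := Module.finrank_eq_card_basis (Basis.mk hli hspan.ge)
      simpa using this.symm
    set ε : Fin m ≃ κ := Fintype.equivOfCardEq (by rw [hcκ, Fintype.card_fin]) with hε
    set s : Fin m → Fin m ⊕ Fin m := a ∘ ε with hs
    set A : Matrix (Fin m) (Fin m) F := Matrix.of (fun i k => Pm (Sum.inl i) (s k)) with hA
    have hAdet : A.det ≠ 0 := by
      have h4 : LinearIndependent F A.col := by
        have : A.col = (v ∘ a) ∘ ε := by
          funext k
          rfl
        rw [this]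
        exact hli.comp ε ε.injective
      exact ((Matrix.isUnit_iff_isUnit_det _).1 (Matrix.linearIndependent_cols_iff_isUnit.1 h4)).ne_zero
    set B : Matrix (Fin m ⊕ Fin m) (Fin m ⊕ Fin m) F := Matrix.fromCols ((1 : Matrix (Fin m ⊕ Fin m) (Fin m ⊕ Fin m) F).submatrix id s)
      ((X' - 1).submatrix id s) with hB
    have hBrat : ∀ i j, B i j ∈ F₀ := by
      apply fromCols_rat
      · intro i j
        exact one_rat F₀ _ _
      · intro i j
        exact F₀.sub_mem (hXrat _ _) (one_rat F₀ _ _)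
    have hPB : Pm * B = Matrix.fromBlocks A 0 (Matrix.of fun i k => Pm (Sum.inr i) (s k)) (D * A) := by
      have h4 : Pm * (X' - 1) = (X₀ - 1) * Pm := by rw [mul_sub, sub_mul, hPX, mul_one, one_mul]
      have h5 : X₀ - 1 = Matrix.fromBlocks 0 0 D 0 := by
        have h6 : X₀ = 1 + Matrix.fromBlocks 0 0 D 0 := by
          rw [hX₀, ← Matrix.fromBlocks_one, Matrix.fromBlocks_add]
          simp
        rw [h6, add_sub_cancel_left]
      rw [hB, Matrix.mul_fromCols]
      ext i j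
      rcases j with j | j
      · rw [Matrix.fromCols_apply_inl]
        have h6 : (Pm * (1 : Matrix (Fin m ⊕ Fin m) (Fin m ⊕ Fin m) F).submatrix id s) i j = Pm i (s j) := by
          have : (Pm * (1 : Matrix (Fin m ⊕ Fin m) (Fin m ⊕ Fin m) F).submatrix id s) i j =
            (Pm * (1 : Matrix (Fin m ⊕ Fin m) (Fin m ⊕ Fin m) F)) i (s j) := rfl
          rw [this, mul_one]
        rw [h6]
        rcases i with i | i
        · rfl
        · rfl
      · rw [Matrix.fromCols_apply_inr]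
        have h6 : (Pm * (X' - 1).submatrix id s) i j = (Pm * (X' - 1)) i (s j) := rfl
        rw [h6, h4, h5]
        rcases i with i | i
        · rw [Matrix.fromBlocks_apply₁₂, Matrix.mul_apply]
          simp
        · rw [Matrix.fromBlocks_apply₂₂, Matrix.mul_apply, Fintype.sum_sum_type, Matrix.mul_apply]
          simp [hA]
    have hdB : B.det = A.det * (ν * A.det) := by
      have h4 := congrArg Matrix.det hPB
      rw [Matrix.det_mul, hPd, one_mul, Matrix.det_fromBlocks_zero₁₂, Matrix.det_mul, hDdet] at h4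
      exact h4
    set B₀ : Matrix (Fin m ⊕ Fin m) (Fin m ⊕ Fin m) F₀ := Matrix.of (fun i j => ⟨B i j, hBrat i j⟩) with hB₀
    have hdB₀ : (B₀.det : F) = B.det := by
      have : (F₀.subtype : F₀ →+* F) B₀.det = B.det := by
        rw [RingHom.map_det]; rfl
      exact this
    obtain ⟨d, hd⟩ := sq_of_sub hq F₀ q₀ hF₀ hqk hodd B₀.det
    apply hν
    refine ⟨d / A.det, ?_⟩
    rw [hdB₀, hdB] at hd
    field_simp
    linear_combination -hd
  · intro h x ⟨z, hz⟩ hns
    have hx3 : (x : Matrix (Fin n) (Fin n) F) ^ 3 = z • 1 := by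
      rw [← hz, Matrix.SpecialLinearGroup.coe_pow]
    have hz0 : z ≠ 0 := by
      intro hz0
      have hdz := congrArg Matrix.det hz
      haveI : Nonempty (Fin n) := ⟨⟨0, hn0⟩⟩
      rw [Matrix.SpecialLinearGroup.det_coe, hz0, zero_smul, Matrix.det_zero] at hdz
      exact one_ne_zero hdz
    obtain ⟨c, hc⟩ := hcube z
    have hc0 : c ≠ 0 := by
      rintro rfl
      exact hz0 (by rw [← hc]; ring)
    have hxy : (x : Matrix (Fin n) (Fin n) F) = c • (c⁻¹ • (x : Matrix (Fin n) (Fin n) F)) := by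
      rw [smul_smul, mul_inv_cancel₀ hc0, one_smul]
    have hyy : (c⁻¹ • (x : Matrix (Fin n) (Fin n) F)) ^ 3 = 1 := by
      rw [smul_pow, hx3, smul_smul, ← hc, ← mul_pow, inv_mul_cancel₀ hc0, one_pow, one_smul]
    set y0 := c⁻¹ • (x : Matrix (Fin n) (Fin n) F) with hy0
    haveI : Nonempty (Fin n) := ⟨⟨0, hn0⟩⟩
    have hN3 : (y0 - 1) ^ 3 = 0 := by
      have := sub_pow_char_of_commute (p := 3) (Commute.one_right y0)
      rw [this, hyy, one_pow, sub_self]
    set N : (Fin n → F) →ₗ[F] (Fin n → F) := Matrix.toLin' (y0 - 1) with hN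
    have hNNN : ∀ v, N (N (N v)) = 0 := by
      intro v
      rw [hN, Matrix.toLin'_apply, Matrix.toLin'_apply, Matrix.toLin'_apply, Matrix.mulVec_mulVec, Matrix.mulVec_mulVec]
      have : (y0 - 1) * ((y0 - 1) * (y0 - 1)) = 0 := by rw [← hN3]; noncomm_ring
      rw [mul_assoc, this, Matrix.zero_mulVec]
    obtain ⟨a, b, m, Φ, hΦ⟩ := cube_struct N hNNN
    have hdim : a + a + a + (b + b + m) = n := by
      have := Φ.finrank_eq
      simpa using this
    refine sub_into3 hn0 F₀ x (yy a b m c) Φ.symm ?_ (SS a b m) (MM F a b m) ?_ c hc0 ?_ ?_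
    · intro v
      obtain ⟨w, rfl⟩ := Φ.surjective v
      have h3 : (x : Matrix (Fin n) (Fin n) F) *ᵥ (Φ w) = Φ (yy a b m c w) := by
        have h4 : y0 *ᵥ (Φ w) = N (Φ w) + Φ w := by
          rw [hN, Matrix.toLin'_apply, Matrix.sub_mulVec, Matrix.one_mulVec, sub_add_cancel]
        rw [hxy, Matrix.smul_mulVec, h4, hΦ, ← map_add, ← map_smul, yy_apply]
        congr 2
        refine Prod.ext (Prod.ext (Prod.ext ?_ ?_) ?_) (Prod.ext (Prod.ext ?_ ?_) ?_)
        · show 0 + w.1.1.1 = w.1.1.1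
          rw [zero_add]
        · show w.1.1.1 + w.1.1.2 = w.1.1.2 + w.1.1.1
          rw [add_comm]
        · show w.1.1.2 + w.1.2 = w.1.2 + w.1.1.2
          rw [add_comm]
        · show 0 + w.2.1.1 = w.2.1.1
          rw [zero_add]
        · show w.2.1.1 + w.2.1.2 = w.2.1.2 + w.2.1.1
          rw [add_comm]
        · show 0 + w.2.2 = w.2.2
          rw [zero_add]
      rw [h3, LinearEquiv.symm_apply_apply, LinearEquiv.symm_apply_apply]
    · rw [MM]
      exact fromBlocks_rat F₀ (fromBlocks_rat F₀ (fromBlocks_rat F₀ (one_rat F₀) (fun _ _ => F₀.zero_mem) (one_rat F₀) (one_rat F₀))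
        (fun _ _ => F₀.zero_mem) (fromCols_rat F₀ (fun _ _ => F₀.zero_mem) (one_rat F₀)) (one_rat F₀))
        (fun _ _ => F₀.zero_mem) (fun _ _ => F₀.zero_mem)
        (fromBlocks_rat F₀ (fromBlocks_rat F₀ (one_rat F₀) (fun _ _ => F₀.zero_mem) (one_rat F₀) (one_rat F₀))
        (fun _ _ => F₀.zero_mem) (fun _ _ => F₀.zero_mem) (one_rat F₀))
    · intro w
      rw [MM_apply, yy_apply, map_smul]
    · intro d hd
      by_cases hm : 0 < m
      · obtain ⟨l, hl⟩ := exists_det_any (V := Fin m → F) (by simpa using hm) d hd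
        obtain ⟨g, hg1, hg2⟩ := gg a b m c (LinearEquiv.refl F _) (LinearEquiv.refl F _) l
        refine ⟨1, F₀.one_mem, one_ne_zero, g, hg1, ?_⟩
        rw [hg2, hl, LinearEquiv.refl_toLinearMap, LinearMap.det_id, LinearEquiv.refl_toLinearMap, LinearMap.det_id]
        ring
      by_cases ha : 0 < a
      · obtain ⟨e, he⟩ := hcube d
        obtain ⟨l, hl⟩ := exists_det_any (V := Fin a → F) (by simpa using ha) e (by
          rintro rfl
          exact hd (by rw [← he]; ring))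
        obtain ⟨g, hg1, hg2⟩ := gg a b m c l (LinearEquiv.refl F _) (LinearEquiv.refl F _)
        refine ⟨1, F₀.one_mem, one_ne_zero, g, hg1, ?_⟩
        rw [hg2, hl, LinearEquiv.refl_toLinearMap, LinearMap.det_id, LinearEquiv.refl_toLinearMap, LinearMap.det_id, ← he]
        ring
      have hb : 0 < b := by omega
      have hev : Even n := ⟨b, by omega⟩
      have hk2 : 2 < k := by
        rcases h with h | h
        · exact absurd hev (Nat.not_even_iff_odd.2 h)
        · exact h.2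
      have hko : Odd k := hk.odd_of_ne_two (by omega)
      obtain ⟨ν, hν1, hν2⟩ := exists_nonsq_sub hq F₀ k q₀ hF₀ hqk hko hodd
      have hν0 : ν ≠ 0 := by
        rintro rfl
        exact hν2 ⟨0, by simp⟩
      obtain ⟨l, hl1, hl0, e, he⟩ : ∃ l ∈ F₀, l ≠ 0 ∧ ∃ e : F, e ^ 2 = d * l := by
        by_cases hds : IsSquare d
        · obtain ⟨e, he⟩ := hds
          exact ⟨1, F₀.one_mem, one_ne_zero, e, by rw [he]; ring⟩
        · have h4 : IsSquare (d * ν) := by
            have h5 := FiniteField.pow_dichotomy hch hd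
            have h6 := FiniteField.pow_dichotomy hch hν0
            rw [FiniteField.isSquare_iff hch hd] at hds
            rw [FiniteField.isSquare_iff hch hν0] at hν2
            rw [FiniteField.isSquare_iff hch (mul_ne_zero hd hν0), mul_pow, h5.resolve_left hds, h6.resolve_left hν2]
            ring
          obtain ⟨e, he⟩ := h4
          exact ⟨ν, hν1, hν0, e, by rw [he]; ring⟩
      obtain ⟨g₀, hg₀⟩ := exists_det_any (V := Fin b → F) (by simpa using hb) e (by
          rintro rfl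
          rw [zero_pow (by norm_num)] at he
          exact mul_ne_zero hd hl0 he.symm)
      obtain ⟨g, hg1, hg2⟩ := gg a b m c (LinearEquiv.refl F _) g₀ (LinearEquiv.refl F _)
      refine ⟨l, hl1, hl0, g, hg1, ?_⟩
      rw [hg2, hg₀, LinearEquiv.refl_toLinearMap, LinearMap.det_id, LinearEquiv.refl_toLinearMap, LinearMap.det_id, ← he]
      ring

end Cfsg.Agent.S5966
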