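import Cfsg.Statements.S5967
import Mathlib
import Cfsg.Agent.H5_Fld2

set_option autoImplicit false
open scoped MatrixGroups
open Cfsg

namespace Cfsg.Agent.S5967

open Matrix Module Cfsg.Geo Cfsg.Agent.H5.Fld

/-- Involutions of PSL_n(q) and the symplectic-type subgroups. Here `T = PSL_n(F)` for a field `F` with `q` elements, `n ≥ 4` even, `f` is a nondegenerate alternating form on `F^n`, and `H` is the subgroup of matrices of determinant 1 preserving `f` up to a scalar — a maximal subgroup of type Sp_n(q); Ω is the set of `T`-conjugates of `H` (cosets of `H`), so an element of `T` of prime order `r` (a matrix `x` of determinant 1 with `x^r` scalar, `x` not scalar) fixes a point of Ω when some conjugate of `x` by a matrix of determinant 1 preserves `f` up to a scalar. Suppose the index of `H` is even. Then every involution of `T` is conjugate in `T` into `H` if and only if `(q − 1)_2 ≤ (n)_2`. -/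
theorem result {F : Type*} [Field F] [Fintype F] {p : ℕ} [Fact p.Prime] [CharP F p] {q : ℕ} (hq : Fintype.card F = q)
    (n : ℕ) (hn : 4 ≤ n) (he : Even n) (f : (Fin n → F) → (Fin n → F) → F) (hf : Cfsg.Geo.IsSymplecticForm f)
    (hΩ : 2 ∣ ((Cfsg.Geo.similarityGroup f).comap (Matrix.SpecialLinearGroup.toGL : Matrix.SpecialLinearGroup (Fin n) F →* GL (Fin n) F)).index) :
    (∀ x : Matrix.SpecialLinearGroup (Fin n) F,
      (∃ z : F, ((x ^ 2 : Matrix.SpecialLinearGroup (Fin n) F) : Matrix (Fin n) (Fin n) F) = z • (1 : Matrix (Fin n) (Fin n) F)) →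
      (∀ z : F, (x : Matrix (Fin n) (Fin n) F) ≠ z • (1 : Matrix (Fin n) (Fin n) F)) →
      ∃ P : Matrix.SpecialLinearGroup (Fin n) F, P⁻¹ * x * P ∈ ((Cfsg.Geo.similarityGroup f).comap (Matrix.SpecialLinearGroup.toGL : Matrix.SpecialLinearGroup (Fin n) F →* GL (Fin n) F))) ↔
    padicValNat 2 (q - 1) ≤ padicValNat 2 n := by
  have hn0 : 0 < n := by omega
  obtain ⟨m, hm⟩ := he
  constructor
  · intro hall
    by_contra hcon
    push Not at hcon
    have hq2 : (2 : F) ≠ 0 := by
      intro h2
      haveI : CharP F 2 := CharTwo.of_one_ne_zero_of_two_eq_zero one_ne_zero h2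
      have h3 := FiniteField.even_card_iff_char_two.1 (ringChar.eq_iff.2 (inferInstance : CharP F 2))
      rw [hq] at h3
      have h4 : padicValNat 2 (q - 1) = 0 := by
        apply padicValNat.eq_zero_of_not_dvd
        have : 1 < q := by rw [← hq]; exact Fintype.one_lt_card
        omega
      omega
    rw [← hq] at hcon
    obtain ⟨c, hc⟩ := (neg_one_pow_iff hq2 (by omega)).2 hcon
    have hc0 : c ≠ 0 := by
      rintro rfl
      rw [zero_pow (by omega)] at hc
      exact one_ne_zero (neg_eq_zero.1 hc.symm)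
    have hne : (-1 : F) ≠ 1 := fun h => hq2 (by linear_combination -h)
    set i0 : Fin n := ⟨0, by omega⟩ with hi0
    set i1 : Fin n := ⟨1, by omega⟩ with hi1
    set i2 : Fin n := ⟨2, by omega⟩ with hi2
    have h01 : i1 ≠ i0 := by intro h; simp [hi0, hi1] at h
    have h02 : i2 ≠ i0 := by intro h; simp [hi0, hi2] at h
    have h12 : i2 ≠ i1 := by intro h; simp [hi1, hi2] at h
    obtain ⟨x, hx⟩ := exists_refl (F := F) i0 c (-1) (by rw [hc]; ring)
    have hk := ker_refl _ _ _ hc0 hne _ hx
    obtain ⟨P, hP⟩ := hall x ⟨c ^ 2, by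
      rw [Matrix.SpecialLinearGroup.coe_pow, hx, smul_pow, pow_two (Matrix.diagonal _), Matrix.diagonal_mul_diagonal]
      congr 1
      rw [← Matrix.diagonal_one]
      congr 1
      funext i
      by_cases hi : i = i0
      · rw [hi]; simp
      · simp [Function.update_of_ne hi]⟩ (not_scalar_of_ker one_pos (by omega) hk)
    rw [Subgroup.mem_comap] at hP
    obtain ⟨μ, hμ⟩ := hP
    set Qi := ((P⁻¹ : Matrix.SpecialLinearGroup (Fin n) F) : Matrix (Fin n) (Fin n) F) with hPi
    have hPP : Qi * (P : Matrix (Fin n) (Fin n) F) = 1 := by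
      rw [hPi, ← Matrix.SpecialLinearGroup.coe_mul, inv_mul_cancel, Matrix.SpecialLinearGroup.coe_one]
    have hPP2 : (P : Matrix (Fin n) (Fin n) F) * Qi = 1 := by
      rw [hPi, ← Matrix.SpecialLinearGroup.coe_mul, mul_inv_cancel, Matrix.SpecialLinearGroup.coe_one]
    have hμ' : ∀ u v, f (Qi *ᵥ ((x : Matrix (Fin n) (Fin n) F) *ᵥ u)) (Qi *ᵥ ((x : Matrix (Fin n) (Fin n) F) *ᵥ v)) =
        μ * f (Qi *ᵥ u) (Qi *ᵥ v) := by
      intro u v
      have h1 := hμ (Qi *ᵥ u) (Qi *ᵥ v)
      have h2 : ∀ w, ((Matrix.SpecialLinearGroup.toGL (P⁻¹ * x * P) : GL (Fin n) F) : Matrix (Fin n) (Fin n) F) *ᵥ (Qi *ᵥ w) =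
          Qi *ᵥ ((x : Matrix (Fin n) (Fin n) F) *ᵥ w) := by
        intro w
        have h3 : ((Matrix.SpecialLinearGroup.toGL (P⁻¹ * x * P) : GL (Fin n) F) : Matrix (Fin n) (Fin n) F) =
            Qi * (x : Matrix (Fin n) (Fin n) F) * (P : Matrix (Fin n) (Fin n) F) := by
          show ((P⁻¹ * x * P : Matrix.SpecialLinearGroup (Fin n) F) : Matrix (Fin n) (Fin n) F) = _
          rw [Matrix.SpecialLinearGroup.coe_mul, Matrix.SpecialLinearGroup.coe_mul]
        rw [h3, Matrix.mulVec_mulVec, mul_assoc, hPP2, mul_one, Matrix.mulVec_mulVec]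
      rw [h2, h2] at h1
      exact h1
    set f' : (Fin n → F) → (Fin n → F) → F := fun u v => f (Qi *ᵥ u) (Qi *ᵥ v) with hf'
    have fadd : ∀ u v w, f' u (v + w) = f' u v + f' u w := fun u v w => by
      rw [hf']; dsimp only; rw [Matrix.mulVec_add, hf.bilinear.add_right]
    have fsmul : ∀ (a : F) u v, f' u (a • v) = a * f' u v := fun a u v => by
      rw [hf']; dsimp only; rw [Matrix.mulVec_smul, hf.bilinear.smul_right]
    have fadd' : ∀ u v w, f' (u + v) w = f' u w + f' v w := fun u v w => by
      rw [hf']; dsimp only; rw [Matrix.mulVec_add, hf.bilinear.add_left]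
    have fsmul' : ∀ (a : F) u v, f' (a • u) v = a * f' u v := fun a u v => by
      rw [hf']; dsimp only; rw [Matrix.mulVec_smul, hf.bilinear.smul_left]
    have falt : ∀ u, f' u u = 0 := fun u => hf.alternating _
    have fnd : ∀ u, (∀ v, f' u v = 0) → u = 0 := by
      intro u hu
      by_contra h0
      have h1 : Qi *ᵥ u ≠ 0 := by
        intro h
        apply h0
        have h2 := congrArg (fun w => (P : Matrix (Fin n) (Fin n) F) *ᵥ w) h
        simp only [Matrix.mulVec_mulVec, Matrix.mulVec_zero] at h2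
        rwa [hPP2, Matrix.one_mulVec] at h2
      obtain ⟨-, w, hw⟩ := hf.nondegenerate _ h1
      apply hw
      have h2 := hu ((P : Matrix (Fin n) (Fin n) F) *ᵥ w)
      rw [hf'] at h2
      dsimp only at h2
      rwa [Matrix.mulVec_mulVec, hPP, Matrix.one_mulVec] at h2
    -- x acts as c on the hyperplane and as -c on e_0
    have hxv : ∀ v : Fin n → F, v i0 = 0 → (x : Matrix (Fin n) (Fin n) F) *ᵥ v = c • v := by
      intro v hv
      rw [hx, Matrix.smul_mulVec]
      congr 1
      funext j
      rw [Matrix.mulVec_diagonal]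
      by_cases hj : j = i0
      · rw [hj, hv, mul_zero]
      · rw [Function.update_of_ne hj, one_mul]
    have hxe : (x : Matrix (Fin n) (Fin n) F) *ᵥ (Pi.single i0 1) = (-c) • (Pi.single i0 1 : Fin n → F) := by
      rw [hx, Matrix.smul_mulVec, neg_smul, ← smul_neg]
      congr 1
      funext j
      rw [Matrix.mulVec_diagonal, Pi.neg_apply]
      by_cases hj : j = i0
      · rw [hj, Function.update_self, Pi.single_eq_same, mul_one]
      · rw [Pi.single_eq_of_ne hj, mul_zero, neg_zero]
    have hdec : ∀ v : Fin n → F, v = v i0 • (Pi.single i0 1 : Fin n → F) + (v - v i0 • (Pi.single i0 1 : Fin n → F)) := by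
      intro v; abel
    have hdec0 : ∀ v : Fin n → F, (v - v i0 • (Pi.single i0 1 : Fin n → F)) i0 = 0 := by
      intro v; simp
    -- the form does not vanish on the hyperplane
    have hnz : ∃ u v : Fin n → F, u i0 = 0 ∧ v i0 = 0 ∧ f' u v ≠ 0 := by
      by_contra hno
      push Not at hno
      have key : ∀ u : Fin n → F, u i0 = 0 → f' u (Pi.single i0 1) = 0 → u = 0 := by
        intro u hu hu'
        apply fnd
        intro v
        rw [hdec v, fadd, fsmul, hu', hno _ _ hu (hdec0 v)]
        ring
      have e1 : (Pi.single i1 1 : Fin n → F) i0 = 0 := Pi.single_eq_of_ne h01.symm _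
      have e2 : (Pi.single i2 1 : Fin n → F) i0 = 0 := Pi.single_eq_of_ne h02.symm _
      set a1 := f' (Pi.single i1 1) (Pi.single i0 1) with ha1
      set a2 := f' (Pi.single i2 1) (Pi.single i0 1) with ha2
      have h3 := key (a2 • (Pi.single i1 1 : Fin n → F) + (-a1) • (Pi.single i2 1 : Fin n → F)) (by simp [e1, e2]) (by
        rw [fadd', fsmul', fsmul', ← ha1, ← ha2]; ring)
      have h4 := congrFun h3 i1
      simp [h12.symm] at h4
      have h5 := key (Pi.single i2 1) e2 (by rw [← ha2, h4])
      have h6 := congrFun h5 i2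
      simp at h6
    obtain ⟨u, v, hu, hv, huv⟩ := hnz
    have h1 := hμ' u v
    rw [hxv u hu, hxv v hv] at h1
    have h2 : f' (c • u) (c • v) = μ * f' u v := h1
    rw [fsmul, fsmul'] at h2
    have hμc : (μ : F) = c * c := by
      have : (c * c) * f' u v = μ * f' u v := by rw [← h2]; ring
      exact (mul_right_cancel₀ huv this).symm
    have h5 : (Pi.single i0 1 : Fin n → F) = 0 := by
      apply fnd
      intro w
      rw [hdec w, fadd, fsmul, falt, mul_zero, zero_add]
      set w' := w - w i0 • (Pi.single i0 1 : Fin n → F) with hw'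
      have h3 := hμ' (Pi.single i0 1) w'
      rw [hxe, hxv w' (hdec0 w)] at h3
      have h4 : f' ((-c) • (Pi.single i0 1 : Fin n → F)) (c • w') = μ * f' (Pi.single i0 1) w' := h3
      rw [fsmul, fsmul', hμc] at h4
      have h5 : (2 * (c * c)) * f' (Pi.single i0 1) w' = 0 := by linear_combination -h4
      exact (mul_eq_zero.1 h5).resolve_left (mul_ne_zero hq2 (mul_ne_zero hc0 hc0))
    have h6 := congrFun h5 i0
    simp at h6
  · intro hle x ⟨z, hz⟩ hns
    have hx2 : (x : Matrix (Fin n) (Fin n) F) * (x : Matrix (Fin n) (Fin n) F) = z • 1 := by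
      rw [← hz, Matrix.SpecialLinearGroup.coe_pow, pow_two]
    have hz0 : z ≠ 0 := by
      intro hz0
      have hdz := congrArg Matrix.det hz
      haveI : Nonempty (Fin n) := ⟨⟨0, hn0⟩⟩
      rw [Matrix.SpecialLinearGroup.det_coe, hz0, zero_smul, Matrix.det_zero] at hdz
      exact one_ne_zero hdz
    by_cases hsq : ∃ b : F, b ^ 2 = z
    swap
    · push Not at hsq
      -- non-square case
      let y : Module.End F ((Fin m → F) × (Fin m → F)) :=
        { toFun := fun u => (z • u.2, u.1)
          map_add' := by intro u v; simp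
          map_smul' := by
            intro a u
            show (z • a • u.2, a • u.1) = a • (z • u.2, u.1)
            rw [smul_comm z a]; rfl }
      have hy : ∀ u, y (y u) = z • u := by intro u; rfl
      have hA : ∀ v, Matrix.toLin' (x : Matrix (Fin n) (Fin n) F) (Matrix.toLin' (x : Matrix (Fin n) (Fin n) F) v) = z • v := by
        intro v
        rw [Matrix.toLin'_apply, Matrix.toLin'_apply, Matrix.mulVec_mulVec, hx2, Matrix.smul_mulVec, Matrix.one_mulVec]
      obtain ⟨⟨P₁, hP₁⟩, -⟩ := intertwine_sq z hsq (Matrix.toLin' (x : Matrix (Fin n) (Fin n) F)) y hA hy (by simp; omega)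
      obtain ⟨-, hg⟩ := intertwine_sq z hsq y y hy hy rfl
      refine sim_into hf x y P₁ (fun v => by rw [← hP₁, Matrix.toLin'_apply]) (dblB m F) (dblB_alt m) (dblB_nd m) (-z)
        (neg_ne_zero.2 hz0) ?_ (hg (by simp; omega))
      intro u v
      rw [dblB_apply, dblB_apply]
      show (z • u.2) ⬝ᵥ v.1 - u.1 ⬝ᵥ (z • v.2) = -z * (u.1 ⬝ᵥ v.2 - u.2 ⬝ᵥ v.1)
      rw [smul_dotProduct, dotProduct_smul, smul_eq_mul, smul_eq_mul]
      ring
    obtain ⟨c, hc⟩ := hsq
    have hc0 : c ≠ 0 := by
      rintro rfl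
      exact hz0 (by rw [← hc]; ring)
    have hxy : (x : Matrix (Fin n) (Fin n) F) = c • (c⁻¹ • (x : Matrix (Fin n) (Fin n) F)) := by
      rw [smul_smul, mul_inv_cancel₀ hc0, one_smul]
    have hyy : (c⁻¹ • (x : Matrix (Fin n) (Fin n) F)) * (c⁻¹ • (x : Matrix (Fin n) (Fin n) F)) = 1 := by
      rw [smul_mul_smul_comm, hx2, smul_smul, ← hc]
      rw [show c⁻¹ * c⁻¹ * c ^ 2 = 1 by field_simp, one_smul]
    set y0 := c⁻¹ • (x : Matrix (Fin n) (Fin n) F) with hy0
    by_cases h2 : (2 : F) = 0
    · -- characteristic two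
      set N : (Fin n → F) →ₗ[F] (Fin n → F) := Matrix.toLin' (y0 - 1) with hN
      have hNN : ∀ v, N (N v) = 0 := by
        intro v
        rw [hN, Matrix.toLin'_apply, Matrix.toLin'_apply, Matrix.mulVec_mulVec]
        have : (y0 - 1) * (y0 - 1) = (2 : F) • (1 - y0) := by
          rw [sub_mul, mul_sub, hyy, mul_one, one_mul, two_smul]; abel
        rw [this, h2, zero_smul, Matrix.zero_mulVec]
      obtain ⟨a, b, Φ, hΦ⟩ := nil_struct N hNN
      have hdim : a + a + b = n := by
        have := Φ.finrank_eq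
        simpa using this
      obtain ⟨b', hb'⟩ : ∃ b', b = b' + b' := ⟨m - a, by omega⟩
      have ha : 0 < a := by
        rcases Nat.eq_zero_or_pos a with h | h
        · exfalso
          subst h
          apply hns c
          rw [hxy]
          congr 1
          have h3 : ∀ v, N v = 0 := by
            intro v
            obtain ⟨w, rfl⟩ := Φ.surjective v
            rw [hΦ]
            have : (((0, w.1.1), 0) : ((Fin 0 → F) × (Fin 0 → F)) × (Fin b → F)) = 0 := by
              apply Prod.ext
              · exact Subsingleton.elim _ _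
              · rfl
            rw [this, map_zero]
          have h4 : N = 0 := LinearMap.ext h3
          have h5 : y0 - 1 = 0 := Matrix.toLin'.injective (by rw [map_zero]; exact h4)
          exact sub_eq_zero.1 h5
        · exact h
      let e₂ : (Fin b → F) ≃ₗ[F] ((Fin b' → F) × (Fin b' → F)) := LinearEquiv.ofFinrankEq _ _ (by simp [hb'])
      let y : Module.End F (((Fin a → F) × (Fin a → F)) × ((Fin b' → F) × (Fin b' → F))) :=
        { toFun := fun w => c • ((w.1.1, w.1.2 + w.1.1), w.2)
          map_add' := by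
            intro u v
            rw [← smul_add]
            congr 1
            refine Prod.ext (Prod.ext rfl ?_) rfl
            show u.1.2 + v.1.2 + (u.1.1 + v.1.1) = u.1.2 + u.1.1 + (v.1.2 + v.1.1)
            abel
          map_smul' := by
            intro s u
            rw [RingHom.id_apply, smul_comm s c]
            congr 1
            refine Prod.ext (Prod.ext rfl ?_) rfl
            show s • u.1.2 + s • u.1.1 = s • (u.1.2 + u.1.1)
            rw [smul_add] }
      refine sim_into hf x y (Φ.symm.trans ((LinearEquiv.refl F ((Fin a → F) × (Fin a → F))).prodCongr e₂)) ?_ (sumB (dblB a F) (dblB b' F))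
        (sumB_alt (dblB_alt a) (dblB_alt b')) (sumB_nd (dblB_nd a) (dblB_nd b')) (c * c) (mul_ne_zero hc0 hc0) ?_
        (det_nil ha h2 c y (fun _ => rfl))
      · intro v
        obtain ⟨w, rfl⟩ := Φ.surjective v
        have h3 : (x : Matrix (Fin n) (Fin n) F) *ᵥ (Φ w) = Φ (c • ((w.1.1, w.1.2 + w.1.1), w.2)) := by
          have h4 : y0 *ᵥ (Φ w) = N (Φ w) + Φ w := by
            rw [hN, Matrix.toLin'_apply, Matrix.sub_mulVec, Matrix.one_mulVec, sub_add_cancel]
          rw [hxy, Matrix.smul_mulVec, h4, hΦ, ← map_add, ← map_smul]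
          congr 2
          refine Prod.ext (Prod.ext ?_ ?_) ?_
          · show 0 + w.1.1 = w.1.1
            rw [zero_add]
          · show w.1.1 + w.1.2 = w.1.2 + w.1.1
            rw [add_comm]
          · show 0 + w.2 = w.2
            rw [zero_add]
        rw [h3]
        show ((LinearEquiv.refl F ((Fin a → F) × (Fin a → F))).prodCongr e₂) (Φ.symm (Φ (c • ((w.1.1, w.1.2 + w.1.1), w.2)))) =
          y (((LinearEquiv.refl F ((Fin a → F) × (Fin a → F))).prodCongr e₂) (Φ.symm (Φ w)))
        rw [LinearEquiv.symm_apply_apply, LinearEquiv.symm_apply_apply, map_smul]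
        rfl
      · intro u v
        have h3 : ∀ u, y u = c • ((u.1.1, u.1.2 + u.1.1), u.2) := fun _ => rfl
        rw [h3, h3, LinearMap.map_smul₂, map_smul, smul_smul, smul_eq_mul]
        congr 1
        rw [sumB_apply, sumB_apply, dblB_apply, dblB_apply]
        congr 1
        show u.1.1 ⬝ᵥ (v.1.2 + v.1.1) - (u.1.2 + u.1.1) ⬝ᵥ v.1.1 = u.1.1 ⬝ᵥ v.1.2 - u.1.2 ⬝ᵥ v.1.1
        rw [dotProduct_add, add_dotProduct]
        ring
    · have hd := det_of_sq h2 _ hyy
      have hdx := congrArg Matrix.det hxy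
      rw [Matrix.SpecialLinearGroup.det_coe, Matrix.det_smul, hd, Fintype.card_fin] at hdx
      have hev : Even (finrank F (LinearMap.ker (Matrix.toLin' (y0 + 1)))) := by
        by_contra hno
        rw [Nat.not_even_iff_odd] at hno
        rw [hno.neg_one_pow] at hdx
        have := (neg_one_pow_iff h2 (n := n) (by omega)).1 ⟨c, by linear_combination hdx⟩
        rw [hq] at this
        omega
      have hsum := Submodule.finrank_add_eq_of_isCompl (isCompl_of_sq h2 _ hyy)
      rw [Module.finrank_fintype_fun_eq_card, Fintype.card_fin] at hsum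
      obtain ⟨b, hb⟩ := hev
      obtain ⟨a, ha⟩ : ∃ a, finrank F (LinearMap.ker (Matrix.toLin' (y0 - 1))) = a + a := ⟨m - b, by omega⟩
      set e := Submodule.prodEquivOfIsCompl _ _ (isCompl_of_sq h2 y0 hyy) with he
      let e₁ : (LinearMap.ker (Matrix.toLin' (y0 - 1))) ≃ₗ[F] ((Fin a → F) × (Fin a → F)) :=
        LinearEquiv.ofFinrankEq _ _ (by rw [ha]; simp)
      let e₂ : (LinearMap.ker (Matrix.toLin' (y0 + 1))) ≃ₗ[F] ((Fin b → F) × (Fin b → F)) :=
        LinearEquiv.ofFinrankEq _ _ (by rw [hb]; simp)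
      refine sim_into hf x (c • LinearMap.prodMap LinearMap.id (-LinearMap.id)) (e.symm.trans (LinearEquiv.prodCongr e₁ e₂)) ?_
        (sumB (dblB a F) (dblB b F))
        (sumB_alt (dblB_alt a) (dblB_alt b)) (sumB_nd (dblB_nd a) (dblB_nd b)) (c * c) (mul_ne_zero hc0 hc0) ?_
        (det_split (by simp; omega) c)
      · intro v
        obtain ⟨p, rfl⟩ := e.surjective v
        rw [hxy, Matrix.smul_mulVec, split_apply h2 y0 hyy, map_smul]
        show c • (LinearEquiv.prodCongr e₁ e₂) (e.symm (e (p.1, -p.2))) =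
          c • (LinearMap.prodMap LinearMap.id (-LinearMap.id)) ((LinearEquiv.prodCongr e₁ e₂) (e.symm (e p)))
        rw [LinearEquiv.symm_apply_apply, LinearEquiv.symm_apply_apply]
        congr 1
        show (e₁ p.1, e₂ (-p.2)) = (e₁ p.1, -(e₂ p.2))
        rw [map_neg]
      · intro u v
        rw [LinearMap.smul_apply, LinearMap.smul_apply, LinearMap.map_smul₂, map_smul, smul_smul, smul_eq_mul]
        congr 1
        rw [sumB_apply, sumB_apply]
        show dblB a F u.1 v.1 + dblB b F (-u.2) (-v.2) = _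
        rw [map_neg, map_neg, LinearMap.neg_apply, neg_neg]

end Cfsg.Agent.S5967
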