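import Cfsg.Statements.S5968
import Mathlib
import Cfsg.Agent.H5_Fld3

set_option autoImplicit false
open scoped MatrixGroups
open Cfsg

namespace Cfsg.Agent.S5968

open Matrix Module Cfsg.Geo Cfsg.Agent.H5.Fld

section
variable {F : Type*} [Field F] {n : ℕ}

theorem rad_zero {b : (Fin n → F) →ₗ[F] (Fin n → F) →ₗ[F] F} (hn : ∀ v, (∀ w, b v w = 0) → v = 0) (v : Fin n → F)
    (h : ∀ j, b v (Pi.single j 1) = 0) : v = 0 := by
  apply hn
  intro w
  have h1 : b v = 0 := by
    apply LinearMap.pi_ext'
    intro j
    apply LinearMap.ext_ring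
    exact h j
  rw [h1]; rfl

theorem pair_card {b : (Fin n → F) →ₗ[F] (Fin n → F) →ₗ[F] F} (hn : ∀ v, (∀ w, b v w = 0) → v = 0) (S T : Finset (Fin n))
    (h : ∀ i ∈ S, ∀ j, j ∉ T → b (Pi.single i 1) (Pi.single j 1) = 0) : S.card ≤ T.card := by
  classical
  let L : (S → F) →ₗ[F] (T → F) :=
    { toFun := fun c j => ∑ i : S, c i * b (Pi.single (i : Fin n) 1) (Pi.single (j : Fin n) 1)
      map_add' := by
        intro c d
        funext j
        simp [add_mul, Finset.sum_add_distrib]
      map_smul' := by
        intro a c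
        funext j
        simp [mul_assoc, Finset.mul_sum] }
  have hinj : Function.Injective L := by
    rw [← LinearMap.ker_eq_bot, LinearMap.ker_eq_bot']
    intro c hc
    set v : Fin n → F := ∑ i : S, c i • (Pi.single (i : Fin n) 1 : Fin n → F) with hv
    have hv0 : v = 0 := by
      apply rad_zero hn
      intro j
      rw [hv, map_sum, LinearMap.sum_apply]
      simp only [map_smul, LinearMap.smul_apply, smul_eq_mul]
      by_cases hj : j ∈ T
      · exact congrFun hc ⟨j, hj⟩
      · apply Finset.sum_eq_zero
        intro i _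
        rw [h i i.2 j hj, mul_zero]
    funext i
    have h1 := congrFun hv0 (i : Fin n)
    rw [hv, Finset.sum_apply, Finset.sum_eq_single i] at h1
    · simpa using h1
    · intro k _ hk
      rw [Pi.smul_apply, Pi.single_eq_of_ne (fun h => hk (Subtype.ext h.symm)), smul_zero]
    · intro h; exact absurd (Finset.mem_univ _) h
  have := LinearMap.finrank_le_finrank_of_injective hinj
  simpa using this

theorem exists_diag3 (i0 i1 i2 : Fin n) (h01 : i0 ≠ i1) (h02 : i0 ≠ i2) (h12 : i1 ≠ i2) (α β γ : F) (h : α * β * γ = 1) :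
    ∃ x : Matrix.SpecialLinearGroup (Fin n) F, (x : Matrix (Fin n) (Fin n) F) =
      Matrix.diagonal (fun i => if i = i0 then α else if i = i1 then β else if i = i2 then γ else 1) := by
  refine ⟨⟨Matrix.diagonal (fun i => if i = i0 then α else if i = i1 then β else if i = i2 then γ else 1), ?_⟩, rfl⟩
  rw [Matrix.det_diagonal, ← Finset.prod_subset (Finset.subset_univ {i0, i1, i2})]
  · rw [Finset.prod_insert (by simp [h01, h02]), Finset.prod_insert (by simp [h12]), Finset.prod_singleton]
    simp [h01.symm, h02.symm, h12.symm, ← mul_assoc, h]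
  · intro i _ hi
    simp only [Finset.mem_insert, Finset.mem_singleton, not_or] at hi
    simp [hi.1, hi.2.1, hi.2.2]

theorem diag_pair {b : (Fin n → F) →ₗ[F] (Fin n → F) →ₗ[F] F} {μ : F} {d : Fin n → F}
    (h : ∀ u v, b (Matrix.diagonal d *ᵥ u) (Matrix.diagonal d *ᵥ v) = μ * b u v) (i j : Fin n)
    (hij : b (Pi.single i 1) (Pi.single j 1) ≠ 0) : d i * d j = μ := by
  have hd : ∀ i, Matrix.diagonal d *ᵥ (Pi.single i 1) = d i • (Pi.single i 1 : Fin n → F) := by
    intro i
    funext k
    rw [Matrix.mulVec_diagonal]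
    by_cases hk : k = i
    · rw [hk]; simp
    · simp [Pi.single_eq_of_ne hk]
  have h1 := h (Pi.single i 1) (Pi.single j 1)
  rw [hd, hd, map_smul, map_smul, LinearMap.smul_apply, smul_eq_mul, smul_eq_mul] at h1
  have h2 : (d i * d j) * b (Pi.single i 1) (Pi.single j 1) = μ * b (Pi.single i 1) (Pi.single j 1) := by
    rw [← h1]; ring
  exact mul_right_cancel₀ hij h2

theorem fix_even {b : (Fin n → F) →ₗ[F] (Fin n → F) →ₗ[F] F} (hs : ∀ v, b v v = 0) (hn : ∀ v, (∀ w, b v w = 0) → v = 0)
    (M : Matrix (Fin n) (Fin n) F) (h : ∀ u v, b (M *ᵥ u) (M *ᵥ v) = b u v) {r : ℕ} (hr : (r : F) ≠ 0) (hM : M ^ r = 1) :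
    Even (finrank F (LinearMap.ker (Matrix.toLin' (M - (1 : F) • 1)))) := by
  set K := LinearMap.ker (Matrix.toLin' (M - (1 : F) • 1)) with hK
  have hKm : ∀ v, v ∈ K ↔ M *ᵥ v = v := by
    intro v
    rw [hK, LinearMap.mem_ker, Matrix.toLin'_apply, one_smul, Matrix.sub_mulVec, Matrix.one_mulVec, sub_eq_zero]
  have hpow : ∀ (j : ℕ) u v, b (M ^ j *ᵥ u) (M ^ j *ᵥ v) = b u v := by
    intro j
    induction j with
    | zero => intro u v; rw [pow_zero, Matrix.one_mulVec, Matrix.one_mulVec]
    | succ j ih =>
      intro u v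
      rw [pow_succ', ← Matrix.mulVec_mulVec, ← Matrix.mulVec_mulVec, h, ih]
  have hfix : ∀ (j : ℕ) u, u ∈ K → M ^ j *ᵥ u = u := by
    intro j
    induction j with
    | zero => intro u _; rw [pow_zero, Matrix.one_mulVec]
    | succ j ih =>
      intro u hu
      rw [pow_succ', ← Matrix.mulVec_mulVec, ih u hu, (hKm u).1 hu]
  apply alt_even' (b.compl₁₂ K.subtype K.subtype) (fun v => hs _)
  rintro ⟨u, hu⟩ huK
  have hu0 : u = 0 := by
    apply hn
    intro v
    set s : Fin n → F := ∑ j ∈ Finset.range r, M ^ j *ᵥ v with hs'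
    have hsK : s ∈ K := by
      rw [hKm, hs', Matrix.mulVec_sum]
      have h1 : ∀ j, M *ᵥ (M ^ j *ᵥ v) = M ^ (j + 1) *ᵥ v := fun j => by rw [Matrix.mulVec_mulVec, ← pow_succ']
      simp only [h1]
      have h2 := Finset.sum_range_succ (fun j => M ^ j *ᵥ v) r
      have h3 := Finset.sum_range_succ' (fun j => M ^ j *ᵥ v) r
      rw [h2, hM, pow_zero] at h3
      exact (add_right_cancel h3).symm
    have h4 : b u s = 0 := huK ⟨s, hsK⟩
    rw [hs', map_sum] at h4
    have h5 : ∀ j ∈ Finset.range r, b u (M ^ j *ᵥ v) = b u v := by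
      intro j _
      conv_lhs => rw [← hfix j u hu]
      exact hpow j u v
    rw [Finset.sum_congr rfl h5, Finset.sum_const, Finset.card_range, nsmul_eq_mul] at h4
    exact (mul_eq_zero.1 h4).resolve_left hr
  exact Subtype.ext hu0

end

/-- Derangements of odd prime order of PSL_n(q) on the cosets of a symplectic-type subgroup. Here `T = PSL_n(F)` for a field `F` with `q` elements, `n ≥ 4` even, `f` is a nondegenerate alternating form on `F^n`, and `H` is the subgroup of matrices of determinant 1 preserving `f` up to a scalar — a maximal subgroup of type Sp_n(q); Ω is the set of `T`-conjugates of `H` (cosets of `H`), so an element of `T` of prime order `r` (a matrix `x` of determinant 1 with `x^r` scalar, `x` not scalar) fixes a point of Ω when some conjugate of `x` by a matrix of determinant 1 preserves `f` up to a scalar. For every odd prime `r` dividing the index of `H`, with `(n, r) ≠ (6, 3)`, there is an element of `T` of order `r` with no conjugate in `H`. (For `n = 6`, `r = 3` this can fail: when `(q − 1)_3 = 3` every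 element of order 3 is conjugate into `H`.) -/
theorem result {F : Type*} [Field F] [Fintype F] {p : ℕ} [Fact p.Prime] [CharP F p] {q : ℕ} (hq : Fintype.card F = q)
    (n : ℕ) (hn : 4 ≤ n) (he : Even n) (f : (Fin n → F) → (Fin n → F) → F) (hf : Cfsg.Geo.IsSymplecticForm f)
    (r : ℕ) [Fact r.Prime] (hr2 : r ≠ 2) (hgap : ¬ (n = 6 ∧ r = 3)) (hΩ : r ∣ ((Cfsg.Geo.similarityGroup f).comap (Matrix.SpecialLinearGroup.toGL : Matrix.SpecialLinearGroup (Fin n) F →* GL (Fin n) F)).index) :
    ∃ x : Matrix.SpecialLinearGroup (Fin n) F,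
      (∃ z : F, ((x ^ r : Matrix.SpecialLinearGroup (Fin n) F) : Matrix (Fin n) (Fin n) F) = z • (1 : Matrix (Fin n) (Fin n) F)) ∧
      (∀ z : F, (x : Matrix (Fin n) (Fin n) F) ≠ z • (1 : Matrix (Fin n) (Fin n) F)) ∧
      ∀ P : Matrix.SpecialLinearGroup (Fin n) F, P⁻¹ * x * P ∉ ((Cfsg.Geo.similarityGroup f).comap (Matrix.SpecialLinearGroup.toGL : Matrix.SpecialLinearGroup (Fin n) F →* GL (Fin n) F)) := by
  have hn0 : 0 < n := by omega
  obtain ⟨m, hm⟩ := he
  have hrp : r.Prime := Fact.out
  have hpp : p.Prime := Fact.out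
  obtain ⟨k, -, hk⟩ := FiniteField.card F p
  have hq1 : 1 < q := by rw [← hq]; exact Fintype.one_lt_card
  have hr3 : 3 ≤ r := by
    have := hrp.two_le
    omega
  set i0 : Fin n := ⟨0, by omega⟩ with hi0
  set i1 : Fin n := ⟨1, by omega⟩ with hi1
  set i2 : Fin n := ⟨2, by omega⟩ with hi2
  have h01 : i0 ≠ i1 := by intro h; simp [hi0, hi1] at h
  have h02 : i0 ≠ i2 := by intro h; simp [hi0, hi2] at h
  have h12 : i1 ≠ i2 := by intro h; simp [hi1, hi2] at h
  by_cases hrq : r ∣ q
  · -- unipotent case
    have hrp' : r = p := by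
      rw [← hq, hk] at hrq
      exact (Nat.prime_dvd_prime_iff_eq hrp hpp).1 (hrp.dvd_of_dvd_pow hrq)
    subst hrp'
    obtain ⟨x, hx⟩ : ∃ x : Matrix.SpecialLinearGroup (Fin n) F, (x : Matrix (Fin n) (Fin n) F) =
        Matrix.transvection i0 i1 1 * Matrix.transvection i1 i2 1 :=
      ⟨⟨_, by rw [Matrix.det_mul, Matrix.det_transvection_of_ne _ _ h01, Matrix.det_transvection_of_ne _ _ h12, mul_one]⟩, rfl⟩
    set N : Matrix (Fin n) (Fin n) F := Matrix.single i0 i1 1 + Matrix.single i1 i2 1 + Matrix.single i0 i2 1 with hN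
    have hxN : (x : Matrix (Fin n) (Fin n) F) = 1 + N := by
      rw [hx, Matrix.transvection, Matrix.transvection, mul_add, mul_one, add_mul, one_mul, Matrix.single_mul_single_same, mul_one, hN]
      abel
    have hN2 : N * N = Matrix.single i0 i2 1 := by
      rw [hN]
      simp only [mul_add, add_mul, Matrix.single_mul_single_same, Matrix.single_mul_single_of_ne _ _ _ _ h01.symm,
        Matrix.single_mul_single_of_ne _ _ _ _ h02.symm, Matrix.single_mul_single_of_ne _ _ _ _ h12.symm]
      simp [Matrix.single_mul_single_of_ne, h01, h02, h12, h01.symm, h02.symm, h12.symm]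
    have hN3 : N ^ 3 = 0 := by
      rw [pow_succ, pow_two, hN2, hN]
      simp [mul_add, Matrix.single_mul_single_of_ne, h01, h02, h12, h01.symm, h02.symm, h12.symm]
    have hxr : x ^ r = 1 := by
      apply Subtype.ext
      rw [Matrix.SpecialLinearGroup.coe_pow, Matrix.SpecialLinearGroup.coe_one, hxN]
      haveI : Nonempty (Fin n) := ⟨i0⟩
      haveI : CharP (Matrix (Fin n) (Fin n) F) r := inferInstance
      rw [add_pow_char_of_commute (p := r) (Commute.one_left N), one_pow]
      obtain ⟨t, ht⟩ := Nat.exists_eq_add_of_le hr3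
      rw [ht, pow_add, hN3, zero_mul, add_zero]
    have hcol : ∀ j k, ((x : Matrix (Fin n) (Fin n) F) *ᵥ (Pi.single j 1)) k = (if k = j then 1 else 0) +
        ((if i0 = k ∧ i1 = j then 1 else 0) + (if i1 = k ∧ i2 = j then 1 else 0) + (if i0 = k ∧ i2 = j then 1 else 0)) := by
      intro j k
      rw [hxN, hN, Matrix.mulVec_single_one]
      show (1 + (Matrix.single i0 i1 1 + Matrix.single i1 i2 1 + Matrix.single i0 i2 1) : Matrix (Fin n) (Fin n) F) k j = _
      simp only [Matrix.add_apply, Matrix.one_apply, Matrix.single_apply]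
    have hxe0 : (x : Matrix (Fin n) (Fin n) F) *ᵥ (Pi.single i0 1) = Pi.single i0 1 := by
      funext k
      rw [hcol, Pi.single_apply]
      simp [h01.symm, h02.symm]
    have hxe1 : (x : Matrix (Fin n) (Fin n) F) *ᵥ (Pi.single i1 1) = Pi.single i1 1 + Pi.single i0 1 := by
      funext k
      rw [hcol, Pi.add_apply, Pi.single_apply, Pi.single_apply]
      simp [h12.symm, eq_comm]
    have hxe2 : (x : Matrix (Fin n) (Fin n) F) *ᵥ (Pi.single i2 1) = Pi.single i2 1 + Pi.single i1 1 + Pi.single i0 1 := by
      funext k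
      rw [hcol, Pi.add_apply, Pi.add_apply, Pi.single_apply, Pi.single_apply, Pi.single_apply]
      simp [h12, eq_comm, add_assoc]
    have hxej : ∀ j, j ≠ i1 → j ≠ i2 → (x : Matrix (Fin n) (Fin n) F) *ᵥ (Pi.single j 1) = Pi.single j 1 := by
      intro j h1 h2
      funext k
      rw [hcol, Pi.single_apply]
      simp [h1.symm, h2.symm]
    refine ⟨x, ⟨1, by rw [hxr, Matrix.SpecialLinearGroup.coe_one, one_smul]⟩, ?_, ?_⟩
    · intro z hz
      rw [hz] at hxe1
      have h1 := congrFun hxe1 i0
      rw [Matrix.smul_mulVec, Matrix.one_mulVec] at h1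
      simp [h01] at h1
    · intro P hP
      obtain ⟨b, μ, hμ0, hs, hnd, hb⟩ := pull_back hf x P hP
      have hbp : ∀ (t : ℕ) u v, b ((x : Matrix (Fin n) (Fin n) F) ^ t *ᵥ u) ((x : Matrix (Fin n) (Fin n) F) ^ t *ᵥ v) = μ ^ t * b u v := by
        intro t
        induction t with
        | zero => intro u v; rw [pow_zero, Matrix.one_mulVec, Matrix.one_mulVec, pow_zero, one_mul]
        | succ t ih =>
          intro u v
          rw [pow_succ', ← Matrix.mulVec_mulVec, ← Matrix.mulVec_mulVec, hb, ih, pow_succ', mul_assoc]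
      have hne0 : (Pi.single i0 1 : Fin n → F) ≠ 0 := by
        intro h
        have := congrFun h i0
        simp at this
      have hμ1 : μ = 1 := by
        obtain ⟨w, hw⟩ : ∃ w, b (Pi.single i0 1) w ≠ 0 := by
          by_contra hno
          push Not at hno
          exact hne0 (hnd _ hno)
        have h1 := hbp r (Pi.single i0 1) w
        rw [← Matrix.SpecialLinearGroup.coe_pow, hxr, Matrix.SpecialLinearGroup.coe_one, Matrix.one_mulVec, Matrix.one_mulVec] at h1
        have h2 : μ ^ r = 1 := by
          have : μ ^ r * b (Pi.single i0 1) w = 1 * b (Pi.single i0 1) w := by rw [one_mul, ← h1]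
          exact mul_right_cancel₀ hw this
        have h3 : (μ - 1) ^ r = 0 := by
          rw [sub_pow_char, h2, one_pow, sub_self]
        exact sub_eq_zero.1 (pow_eq_zero_iff hrp.ne_zero |>.1 h3)
      rw [hμ1] at hb
      have hskew : ∀ u v, b u v = - b v u := by
        intro u v
        have h1 := hs (u + v)
        rw [LinearMap.map_add₂, map_add, map_add, hs, hs] at h1
        linear_combination h1
      -- kernel is orthogonal to the image
      have hort : ∀ k v, (x : Matrix (Fin n) (Fin n) F) *ᵥ k = k → b k ((x : Matrix (Fin n) (Fin n) F) *ᵥ v) = b k v := by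
        intro k v hk
        have h1 := hb k v
        rw [hk, one_mul] at h1
        exact h1
      apply hne0
      apply rad_zero hnd
      intro j
      have e01 : b (Pi.single i0 1) (Pi.single i1 1) = 0 := by
        have h1 := hort _ (Pi.single i2 1) hxe0
        rw [hxe2, map_add, map_add, hs] at h1
        linear_combination h1
      by_cases hj1 : j = i1
      · rw [hj1]; exact e01
      by_cases hj2 : j = i2
      · rw [hj2]
        have h1 := hb (Pi.single i1 1) (Pi.single i2 1)
        rw [hxe1, hxe2, LinearMap.map_add₂, map_add, map_add, map_add, map_add, hs, hs, hskew (Pi.single i1 1) (Pi.single i0 1), e01, one_mul] at h1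
        linear_combination h1
      · have h1 := hort _ (Pi.single i1 1) (hxej j hj1 hj2)
        rw [hxe1, map_add] at h1
        rw [hskew]
        linear_combination -h1
  have hi : ∃ i, 1 ≤ i ∧ i < m ∧ r ∣ Fintype.card F ^ (2 * i + 1) - 1 :=
    idx_sp hf m (by omega) (by omega) hrp (by rw [hq]; exact hrq) hΩ
  obtain ⟨i, hi1', him, hir⟩ := hi
  rw [hq] at hir
  have hrF : (r : F) ≠ 0 := by
    intro h
    have h1 := (CharP.cast_eq_zero_iff F p r).1 h
    have h2 := (Nat.prime_dvd_prime_iff_eq hpp hrp).1 h1
    apply hrq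
    rw [← hq, hk, ← h2]
    exact dvd_pow_self p k.ne_zero
  haveI : Fact r.Prime := ⟨hrp⟩
  by_cases hrq1 : r ∣ q - 1
  · -- scalars of order r
    obtain ⟨ζ, hζ⟩ := Cfsg.Agent.H21.GLo.exists_order (E := F) (m := r) (by rw [Nat.card_eq_fintype_card, hq]; exact hrq1)
    have hζr : ζ ^ r = 1 := by rw [← hζ, pow_orderOf_eq_one]
    have hζ0 : ζ ≠ 0 := by
      rintro rfl
      rw [zero_pow hrp.ne_zero] at hζr
      exact zero_ne_one hζr
    have hζd : ∀ t, 0 < t → ¬ r ∣ t → ζ ^ t ≠ 1 := by
      intro t _ ht h
      have := orderOf_dvd_of_pow_eq_one h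
      rw [hζ] at this
      exact ht this
    have hζ1 : ζ ≠ 1 := by
      have := hζd 1 one_pos (by
        intro h
        have := Nat.dvd_one.1 h
        omega)
      rwa [pow_one] at this
    have hζ2 : ζ ^ 2 ≠ 1 := hζd 2 (by norm_num) (by
      intro h
      have := (Nat.prime_dvd_prime_iff_eq hrp Nat.prime_two).1 h
      omega)
    by_cases hr3' : r = 3
    · subst hr3'
      have hζ3 : ζ * ζ * ζ = 1 := by rw [← hζr]; ring
      obtain ⟨x, hx⟩ := exists_diag3 i0 i1 i2 h01 h02 h12 ζ ζ ζ hζ3
      have hdT : ∀ i ∈ ({i0, i1, i2} : Finset (Fin n)), (fun i => if i = i0 then ζ else if i = i1 then ζ else if i = i2 then ζ else 1) i = ζ := by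
        intro i hi
        simp only [Finset.mem_insert, Finset.mem_singleton] at hi
        rcases hi with rfl | rfl | rfl <;> simp
      have hdT' : ∀ i, i ∉ ({i0, i1, i2} : Finset (Fin n)) → (fun i => if i = i0 then ζ else if i = i1 then ζ else if i = i2 then ζ else 1) i = 1 := by
        intro i hi
        simp only [Finset.mem_insert, Finset.mem_singleton, not_or] at hi
        simp [hi.1, hi.2.1, hi.2.2]
      set d : Fin n → F := fun i => if i = i0 then ζ else if i = i1 then ζ else if i = i2 then ζ else 1 with hd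
      have hcard : ({i0, i1, i2} : Finset (Fin n)).card = 3 := Finset.card_eq_three.2 ⟨i0, i1, i2, h01, h02, h12, rfl⟩
      have hcard' : (({i0, i1, i2} : Finset (Fin n))ᶜ).card = n - 3 := by
        rw [Finset.card_compl, hcard, Fintype.card_fin]
      refine ⟨x, ⟨1, ?_⟩, ?_, fun P hP => ?_⟩
      · rw [Matrix.SpecialLinearGroup.coe_pow, hx, one_smul, Matrix.diagonal_pow, ← Matrix.diagonal_one]
        congr 1
        funext i
        by_cases hi : i ∈ ({i0, i1, i2} : Finset (Fin n))
        · show (d i) ^ 3 = 1
          rw [hdT i hi, hζr]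
        · show (d i) ^ 3 = 1
          rw [hdT' i hi, one_pow]
      · intro z hz
        rw [hx] at hz
        have e0 := congrFun (congrFun hz i0) i0
        rw [Matrix.diagonal_apply_eq, Matrix.smul_apply, Matrix.one_apply_eq, hdT i0 (by simp)] at e0
        have hi3 : (⟨3, by omega⟩ : Fin n) ∉ ({i0, i1, i2} : Finset (Fin n)) := by
          simp [hi0, hi1, hi2]
        have e3 := congrFun (congrFun hz ⟨3, by omega⟩) ⟨3, by omega⟩
        rw [Matrix.diagonal_apply_eq, Matrix.smul_apply, Matrix.one_apply_eq, hdT' _ hi3] at e3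
        exact hζ1 (e0.trans e3.symm)
      · obtain ⟨b, μ, hμ0, hs, hnd, hb⟩ := pull_back hf x P hP
        rw [hx] at hb
        have hpair := diag_pair hb
        have hskew : ∀ u v, b u v = - b v u := by
          intro u v
          have h1 := hs (u + v)
          rw [LinearMap.map_add₂, map_add, map_add, hs, hs] at h1
          linear_combination h1
        have hne0 : (Pi.single i0 1 : Fin n → F) ≠ 0 := by
          intro h
          have := congrFun h i0
          simp at this
        obtain ⟨j, hj⟩ : ∃ j, b (Pi.single i0 1) (Pi.single j 1) ≠ 0 := by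
          by_contra hno
          push Not at hno
          exact hne0 (rad_zero hnd _ hno)
        have hμ := hpair _ _ hj
        rw [hdT i0 (by simp)] at hμ
        by_cases hjT : j ∈ ({i0, i1, i2} : Finset (Fin n))
        · rw [hdT j hjT] at hμ
          have hoff : ∀ k ∈ ({i0, i1, i2} : Finset (Fin n)), ∀ l, l ∉ ({i0, i1, i2} : Finset (Fin n)) → b (Pi.single k 1) (Pi.single l 1) = 0 := by
            intro k hk l hl
            by_contra hne
            have h1 := hpair _ _ hne
            rw [hdT k hk, hdT' l hl, ← hμ] at h1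
            exact hζ1 (mul_left_cancel₀ hζ0 h1).symm
          set v : Fin n → F := b (Pi.single i1 1) (Pi.single i2 1) • (Pi.single i0 1 : Fin n → F) +
            (-(b (Pi.single i0 1) (Pi.single i2 1))) • (Pi.single i1 1 : Fin n → F) +
            b (Pi.single i0 1) (Pi.single i1 1) • (Pi.single i2 1 : Fin n → F) with hv
          have hv0 : v = 0 := by
            apply rad_zero hnd
            intro l
            rw [hv, LinearMap.map_add₂, LinearMap.map_add₂, LinearMap.map_smul₂, LinearMap.map_smul₂, LinearMap.map_smul₂,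
              smul_eq_mul, smul_eq_mul, smul_eq_mul]
            by_cases hl : l ∈ ({i0, i1, i2} : Finset (Fin n))
            · simp only [Finset.mem_insert, Finset.mem_singleton] at hl
              rcases hl with rfl | rfl | rfl
              · rw [hs, hskew (Pi.single i1 1) (Pi.single i0 1), hskew (Pi.single i2 1) (Pi.single i0 1)]; ring
              · rw [hs, hskew (Pi.single i2 1) (Pi.single i1 1)]; ring
              · rw [hs]; ring
            · rw [hoff i0 (by simp) l hl, hoff i1 (by simp) l hl, hoff i2 (by simp) l hl]; ring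
          have c1 := congrFun hv0 i1
          have c2 := congrFun hv0 i2
          simp [hv, h01, h01.symm, h02, h02.symm, h12, h12.symm] at c1 c2
          simp only [Finset.mem_insert, Finset.mem_singleton] at hjT
          rcases hjT with rfl | rfl | rfl
          · exact hj (hs _)
          · exact hj c2
          · exact hj c1
        · rw [hdT' j hjT, mul_one] at hμ
          have g1 := pair_card hnd {i0, i1, i2} ({i0, i1, i2}ᶜ) (by
            intro k hk l hl
            rw [Finset.mem_compl, not_not] at hl
            by_contra hne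
            have h1 := hpair _ _ hne
            rw [hdT k hk, hdT l hl, ← hμ] at h1
            exact hζ1 (mul_left_cancel₀ hζ0 (by rw [h1, mul_one])))
          have g2 := pair_card hnd ({i0, i1, i2}ᶜ) {i0, i1, i2} (by
            intro k hk l hl
            rw [Finset.mem_compl] at hk
            by_contra hne
            have h1 := hpair _ _ hne
            rw [hdT' k hk, hdT' l hl, ← hμ, one_mul] at h1
            exact hζ1 h1.symm)
          rw [hcard, hcard'] at g1 g2
          exact hgap ⟨by omega, rfl⟩
    · have hζ3 : ζ ^ 3 ≠ 1 := hζd 3 (by norm_num) (by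
        intro h
        exact hr3' ((Nat.prime_dvd_prime_iff_eq hrp Nat.prime_three).1 h))
      have hζ4 : ζ ^ 4 ≠ 1 := hζd 4 (by norm_num) (by
        intro h
        have h1 : r ∣ 2 ^ 2 := h
        have := (Nat.prime_dvd_prime_iff_eq hrp Nat.prime_two).1 (hrp.dvd_of_dvd_pow h1)
        omega)
      obtain ⟨x, hx⟩ := exists_diag3 i0 i1 i2 h01 h02 h12 ((ζ⁻¹) ^ 2) ζ ζ (by field_simp)
      have hd0 : (fun i => if i = i0 then (ζ⁻¹) ^ 2 else if i = i1 then ζ else if i = i2 then ζ else 1) i0 = (ζ⁻¹) ^ 2 := by simp
      have hd12 : ∀ i ∈ ({i1, i2} : Finset (Fin n)), (fun i => if i = i0 then (ζ⁻¹) ^ 2 else if i = i1 then ζ else if i = i2 then ζ else 1) i = ζ := by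
        intro i hi
        simp only [Finset.mem_insert, Finset.mem_singleton] at hi
        rcases hi with rfl | rfl
        · simp [h01.symm]
        · simp [h02.symm]
      have hdT' : ∀ i, i ≠ i0 → i ∉ ({i1, i2} : Finset (Fin n)) → (fun i => if i = i0 then (ζ⁻¹) ^ 2 else if i = i1 then ζ else if i = i2 then ζ else 1) i = 1 := by
        intro i hi0 hi
        simp only [Finset.mem_insert, Finset.mem_singleton, not_or] at hi
        simp [hi0, hi.1, hi.2]
      set d : Fin n → F := fun i => if i = i0 then (ζ⁻¹) ^ 2 else if i = i1 then ζ else if i = i2 then ζ else 1 with hd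
      refine ⟨x, ⟨1, ?_⟩, ?_, fun P hP => ?_⟩
      · rw [Matrix.SpecialLinearGroup.coe_pow, hx, one_smul, Matrix.diagonal_pow, ← Matrix.diagonal_one]
        congr 1
        funext i
        show (d i) ^ r = 1
        by_cases hi : i = i0
        · rw [hi, hd0, ← pow_mul, mul_comm, pow_mul, inv_pow, hζr, inv_one, one_pow]
        by_cases hi' : i ∈ ({i1, i2} : Finset (Fin n))
        · rw [hd12 i hi', hζr]
        · rw [hdT' i hi hi', one_pow]
      · intro z hz
        rw [hx] at hz
        have e0 := congrFun (congrFun hz i1) i1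
        rw [Matrix.diagonal_apply_eq, Matrix.smul_apply, Matrix.one_apply_eq, hd12 i1 (by simp)] at e0
        have hi3 : (⟨3, by omega⟩ : Fin n) ∉ ({i1, i2} : Finset (Fin n)) := by
          simp [hi1, hi2]
        have e3 := congrFun (congrFun hz ⟨3, by omega⟩) ⟨3, by omega⟩
        rw [Matrix.diagonal_apply_eq, Matrix.smul_apply, Matrix.one_apply_eq, hdT' _ (by simp [hi0]) hi3] at e3
        exact hζ1 (e0.trans e3.symm)
      · obtain ⟨b, μ, hμ0, hs, hnd, hb⟩ := pull_back hf x P hP
        rw [hx] at hb
        have hpair := diag_pair hb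
        have hne0 : (Pi.single i0 1 : Fin n → F) ≠ 0 := by
          intro h
          have := congrFun h i0
          simp at this
        obtain ⟨j, hj⟩ : ∃ j, b (Pi.single i0 1) (Pi.single j 1) ≠ 0 := by
          by_contra hno
          push Not at hno
          exact hne0 (rad_zero hnd _ hno)
        have hμ := hpair _ _ hj
        rw [hd0] at hμ
        have hj0 : j ≠ i0 := by
          rintro rfl
          exact hj (hs _)
        by_cases hjT : j ∈ ({i1, i2} : Finset (Fin n))
        · rw [hd12 j hjT] at hμ
          have hμ' : μ * ζ = 1 := by rw [← hμ]; field_simp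
          have g1 := pair_card hnd {i1, i2} {i0} (by
            intro k hk l hl
            rw [Finset.mem_singleton] at hl
            by_contra hne
            have h1 := hpair _ _ hne
            rw [hd12 k hk] at h1
            by_cases hl2 : l ∈ ({i1, i2} : Finset (Fin n))
            · rw [hd12 l hl2] at h1
              apply hζ3
              rw [← hμ', ← h1]; ring
            · rw [hdT' l hl hl2] at h1
              apply hζ2
              rw [← hμ', ← h1]; ring)
          rw [Finset.card_pair h12, Finset.card_singleton] at g1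
          omega
        · rw [hdT' j hj0 hjT, mul_one] at hμ
          have hμ' : μ * ζ ^ 2 = 1 := by rw [← hμ]; field_simp
          have g1 := pair_card hnd {i1} ∅ (by
            intro k hk l _
            rw [Finset.mem_singleton] at hk
            by_contra hne
            have h1 := hpair _ _ hne
            rw [hk, hd12 i1 (by simp)] at h1
            by_cases hl0 : l = i0
            · rw [hl0, hd0] at h1
              apply hζ1
              have h2 : ζ * (ζ⁻¹) ^ 2 * ζ ^ 2 = 1 := by rw [h1]; exact hμ'
              rw [← h2]; field_simp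
            by_cases hl2 : l ∈ ({i1, i2} : Finset (Fin n))
            · rw [hd12 l hl2] at h1
              apply hζ4
              rw [← hμ', ← h1]; ring
            · rw [hdT' l hl0 hl2] at h1
              apply hζ3
              rw [← hμ', ← h1]; ring)
          rw [Finset.card_singleton, Finset.card_empty] at g1
          omega
  · -- irreducible blocks of odd dimension
    set e := orderOf ((q : ℕ) : ZMod r) with he
    have hone : ∀ i, r ∣ q ^ i - 1 ↔ ((q : ℕ) : ZMod r) ^ i = 1 := by
      intro i
      rw [← ZMod.natCast_eq_zero_iff, Nat.cast_sub (Nat.one_le_pow _ _ (by omega)), Nat.cast_pow, Nat.cast_one,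
        sub_eq_zero]
    have hei : e ∣ 2 * i + 1 := orderOf_dvd_of_pow_eq_one ((hone _).1 hir)
    have heo : Odd e := Odd.of_dvd_nat ⟨i, rfl⟩ hei
    have hen : e ≤ n - 1 := by
      have := Nat.le_of_dvd (by omega) hei
      omega
    have hre : r ∣ q ^ e - 1 := (hone _).2 (pow_orderOf_eq_one _)
    have he0 : e ≠ 0 := by
      rintro h
      rw [h] at heo
      exact absurd heo (by decide)
    obtain ⟨Y, hY1, hY2⟩ := Cfsg.Agent.H5.Der.exists_fpf F he0 hrp (by rw [hq]; exact hre)
    have hYd : Y.det = 1 := by
      apply root_trivial hrp (by rw [hq]; exact hrq1)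
      rw [← Matrix.det_pow, hY1, Matrix.det_one]
    obtain ⟨x, hx1, hx2⟩ := exists_block (n := n) (by omega) Y hY1 hYd hY2
    refine ⟨x, ⟨1, by rw [hx1, Matrix.SpecialLinearGroup.coe_one, one_smul]⟩,
      not_scalar_of_ker (Nat.pos_of_ne_zero he0) (by omega) hx2, fun P hP => ?_⟩
    obtain ⟨b, μ, hμ0, hs, hnd, hb⟩ := pull_back hf x P hP
    have hxr : (x : Matrix (Fin n) (Fin n) F) ^ r = 1 := by
      rw [← Matrix.SpecialLinearGroup.coe_pow, hx1, Matrix.SpecialLinearGroup.coe_one]
    have hbp : ∀ (t : ℕ) u v, b ((x : Matrix (Fin n) (Fin n) F) ^ t *ᵥ u) ((x : Matrix (Fin n) (Fin n) F) ^ t *ᵥ v) = μ ^ t * b u v := by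
      intro t
      induction t with
      | zero => intro u v; rw [pow_zero, Matrix.one_mulVec, Matrix.one_mulVec, pow_zero, one_mul]
      | succ t ih =>
        intro u v
        rw [pow_succ', ← Matrix.mulVec_mulVec, ← Matrix.mulVec_mulVec, hb, ih, pow_succ', mul_assoc]
    have hμ1 : μ = 1 := by
      have hne0 : (Pi.single i0 1 : Fin n → F) ≠ 0 := by
        intro h
        have := congrFun h i0
        simp at this
      obtain ⟨w, hw⟩ : ∃ w, b (Pi.single i0 1) w ≠ 0 := by
        by_contra hno
        push Not at hno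
        exact hne0 (hnd _ hno)
      have h1 := hbp r (Pi.single i0 1) w
      rw [hxr, Matrix.one_mulVec, Matrix.one_mulVec] at h1
      apply root_trivial hrp (by rw [hq]; exact hrq1)
      have : μ ^ r * b (Pi.single i0 1) w = 1 * b (Pi.single i0 1) w := by rw [one_mul, ← h1]
      exact mul_right_cancel₀ hw this
    have hev := fix_even hs hnd (x : Matrix (Fin n) (Fin n) F) (fun u v => by rw [hb, hμ1, one_mul]) hrF hxr
    obtain ⟨a, ha⟩ := hev
    obtain ⟨c, hc⟩ := heo
    omega

end Cfsg.Agent.S5968
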