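import Cfsg.Statements.S5969
import Mathlib
import Cfsg.Agent.H5_Fld1
import Cfsg.Agent.H5_Der3

set_option autoImplicit false
open scoped MatrixGroups
open Cfsg

namespace Cfsg.Agent.S5969

open Matrix Module Cfsg.Geo Cfsg.Agent.H5.Fld

/-- Involutions of PSL_n(q) and extension-field subgroups of degree 2. Here `T = PSL_n(F)` for a field `F` with `q = p^f` elements (`n ≥ 2`, `(n, q) ≠ (2, 2), (2, 3)`), `k` is a prime dividing `n`, `K` is a subalgebra of the `n × n` matrices that is a field of degree `k` over `F` (an extension-field structure F_{q^k} on `F^n`), and `H` is the subgroup of matrices of determinant 1 normalizing `K` — a subgroup of type GL_{n/k}(q^k) (maximal except in some small cases; maximality is not assumed); Ω is the set of cosets of `H` in `T`, so an element of `T` of prime order `r` (a matrix `x` of determinant 1 with `x^r` scalar, `x` not scalar) fixes a point of Ω when some conjugate of `x` by a matrix of determinant 1 normalizes `K`. Take `k = 2` and suppose the index of `H` is even.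 Then every involution of `T` is conjugate in `T` into `H` if and only if `n = 2`, or `q` is odd and `(q − 1)_2 ≤ (n)_2`. -/
theorem result {F : Type*} [Field F] [Fintype F] {p : ℕ} [Fact p.Prime] [CharP F p] {q : ℕ} (hq : Fintype.card F = q)
    (n : ℕ) (hn : 2 ≤ n) (hT : (n, q) ≠ (2, 2) ∧ (n, q) ≠ (2, 3))
    (k : ℕ) (hk : k.Prime) (hkn : k ∣ n) (K : Subalgebra F (Matrix (Fin n) (Fin n) F)) (hK : Cfsg.Geo.IsFieldSubalgebra k K) (hk2 : k = 2) (hΩ : 2 ∣ ((Cfsg.Geo.subalgebraNormalizer K).comap (Matrix.SpecialLinearGroup.toGL : Matrix.SpecialLinearGroup (Fin n) F →* GL (Fin n) F)).index) :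
    (∀ x : Matrix.SpecialLinearGroup (Fin n) F,
      (∃ z : F, ((x ^ 2 : Matrix.SpecialLinearGroup (Fin n) F) : Matrix (Fin n) (Fin n) F) = z • (1 : Matrix (Fin n) (Fin n) F)) →
      (∀ z : F, (x : Matrix (Fin n) (Fin n) F) ≠ z • (1 : Matrix (Fin n) (Fin n) F)) →
      ∃ P : Matrix.SpecialLinearGroup (Fin n) F, P⁻¹ * x * P ∈ ((Cfsg.Geo.subalgebraNormalizer K).comap (Matrix.SpecialLinearGroup.toGL : Matrix.SpecialLinearGroup (Fin n) F →* GL (Fin n) F))) ↔
    (n = 2 ∨ (Odd q ∧ padicValNat 2 (q - 1) ≤ padicValNat 2 n)) := by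
  subst hk2
  have hn0 : 0 < n := by omega
  obtain ⟨m, hm⟩ := hkn
  constructor
  · intro hall
    by_contra hcon
    push Not at hcon
    obtain ⟨hn2, hcon⟩ := hcon
    have hn4 : 4 ≤ n := by omega
    suffices ∃ (x : Matrix.SpecialLinearGroup (Fin n) F) (c : F),
        (∃ z : F, ((x ^ 2 : Matrix.SpecialLinearGroup (Fin n) F) : Matrix (Fin n) (Fin n) F) = z • (1 : Matrix (Fin n) (Fin n) F)) ∧
        (∀ z : F, (x : Matrix (Fin n) (Fin n) F) ≠ z • (1 : Matrix (Fin n) (Fin n) F)) ∧
        finrank F (LinearMap.ker (Matrix.toLin' ((x : Matrix (Fin n) (Fin n) F) - c • 1))) + 1 = n by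
      obtain ⟨x, c, h1, h2, h3⟩ := this
      obtain ⟨P, hP⟩ := hall x h1 h2
      exact no_conj hn0 two_ne_zero hK x c (by omega) (by omega) P hP
    have h01 : (⟨0, by omega⟩ : Fin n) ≠ ⟨1, by omega⟩ := by
      intro h; simp at h
    by_cases h2 : (2 : F) = 0
    · obtain ⟨x, hx⟩ := exists_trans (F := F) (⟨0, by omega⟩ : Fin n) ⟨1, by omega⟩ h01
      refine ⟨x, 1, ⟨1, ?_⟩, ?_, ker_trans _ _ _ hx⟩
      · rw [Matrix.SpecialLinearGroup.coe_pow, hx, one_smul]
        have := Matrix.transvection_mul_transvection_same (⟨0, by omega⟩ : Fin n) ⟨1, by omega⟩ h01 (1 : F) 1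
        rw [pow_two]
        have h3 : (1 : F) + 1 = 0 := by rw [one_add_one_eq_two]; exact h2
        rw [h3, Matrix.transvection_zero] at this
        exact this
      · intro z hz
        rw [hx] at hz
        have := congrFun (congrFun hz ⟨0, by omega⟩) ⟨1, by omega⟩
        simp [h01] at this
    · have hodd := odd_card h2
      have hlt := hcon (hq ▸ hodd)
      rw [← hq] at hlt
      obtain ⟨c, hc⟩ := (neg_one_pow_iff h2 (by omega)).2 hlt
      have hc0 : c ≠ 0 := by
        rintro rfl
        rw [zero_pow (by omega)] at hc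
        exact one_ne_zero (neg_eq_zero.1 hc.symm)
      have hne : (-1 : F) ≠ 1 := fun h => h2 (by linear_combination -h)
      obtain ⟨x, hx⟩ := exists_refl (F := F) (⟨0, by omega⟩ : Fin n) c (-1) (by rw [hc]; ring)
      refine ⟨x, c, ⟨c ^ 2, ?_⟩, ?_, ker_refl _ _ _ hc0 hne _ hx⟩
      · rw [Matrix.SpecialLinearGroup.coe_pow, hx, smul_pow, pow_two (Matrix.diagonal _), Matrix.diagonal_mul_diagonal]
        congr 1
        rw [← Matrix.diagonal_one]
        congr 1
        funext i
        by_cases hi : i = ⟨0, by omega⟩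
        · rw [hi]; simp
        · simp [Function.update_of_ne hi]
      · intro z hz
        rw [hx] at hz
        have e1 := congrFun (congrFun hz ⟨0, by omega⟩) ⟨0, by omega⟩
        have e2 := congrFun (congrFun hz ⟨1, by omega⟩) ⟨1, by omega⟩
        rw [Matrix.smul_apply, Matrix.smul_apply, Matrix.diagonal_apply_eq, Matrix.one_apply_eq, Function.update_self] at e1
        rw [Matrix.smul_apply, Matrix.smul_apply, Matrix.diagonal_apply_eq, Matrix.one_apply_eq,
          Function.update_of_ne h01.symm] at e2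
        rw [← e1] at e2
        simp only [smul_eq_mul, mul_one] at e2
        apply hne
        exact mul_left_cancel₀ hc0 (by rw [mul_one]; exact e2.symm)
  · intro h x ⟨z, hz⟩ hns
    have hx2 : (x : Matrix (Fin n) (Fin n) F) * (x : Matrix (Fin n) (Fin n) F) = z • 1 := by
      rw [← hz, Matrix.SpecialLinearGroup.coe_pow, pow_two]
    by_cases hsq : ∃ b : F, b ^ 2 = z
    swap
    · push Not at hsq
      exact conj_nonsq hn0 hK x z hsq hx2
    obtain ⟨c, hc⟩ := hsq
    have hc0 : c ≠ 0 := by
      rintro rfl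
      have hz0 : z = 0 := by rw [← hc]; ring
      have hdz := congrArg Matrix.det hz
      haveI : Nonempty (Fin n) := ⟨⟨0, hn0⟩⟩
      rw [Matrix.SpecialLinearGroup.det_coe, hz0, zero_smul, Matrix.det_zero] at hdz
      exact one_ne_zero hdz
    have hxy : (x : Matrix (Fin n) (Fin n) F) = c • (c⁻¹ • (x : Matrix (Fin n) (Fin n) F)) := by
      rw [smul_smul, mul_inv_cancel₀ hc0, one_smul]
    have hyy : (c⁻¹ • (x : Matrix (Fin n) (Fin n) F)) * (c⁻¹ • (x : Matrix (Fin n) (Fin n) F)) = 1 := by
      rw [smul_mul_smul_comm, hx2, smul_smul, ← hc]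
      rw [show c⁻¹ * c⁻¹ * c ^ 2 = 1 by field_simp, one_smul]
    rcases h with h | ⟨hodd, hle⟩
    · subst h
      apply frob_conj hn0 hK x c _ hxy (by rw [pow_two]; exact hyy)
      apply two_le_minpoly _ _ hn0
      intro w hw
      apply hns (c * w)
      rw [hxy, hw, smul_smul]
    · have h2 : (2 : F) ≠ 0 := Cfsg.Agent.H5.Der.two_ne (by rw [hq]; exact hodd)
      have hd := det_of_sq h2 _ hyy
      have hdx := congrArg Matrix.det hxy
      rw [Matrix.SpecialLinearGroup.det_coe, Matrix.det_smul, hd, Fintype.card_fin] at hdx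
      have hev : Even (finrank F (LinearMap.ker (Matrix.toLin' (c⁻¹ • (x : Matrix (Fin n) (Fin n) F) + 1)))) := by
        by_contra hno
        rw [Nat.not_even_iff_odd] at hno
        rw [hno.neg_one_pow] at hdx
        have := (neg_one_pow_iff h2 (n := n) (by omega)).1 ⟨c, by linear_combination hdx⟩
        rw [hq] at this
        omega
      have hsum := Submodule.finrank_add_eq_of_isCompl (isCompl_of_sq h2 _ hyy)
      rw [Module.finrank_fintype_fun_eq_card, Fintype.card_fin] at hsum
      have he := even_iff_two_dvd.1 hev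
      exact conj_split h2 hn0 two_ne_zero hK x c _ hxy hyy (by omega) he

end Cfsg.Agent.S5969
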