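import Cfsg.Statements.S5970
import Mathlib
import Cfsg.Agent.H5_Fld1
import Cfsg.Agent.H5_Der4

set_option autoImplicit false
open scoped MatrixGroups
open Cfsg

namespace Cfsg.Agent.S5970

open Matrix Module Cfsg.Geo Cfsg.Agent.H5.Fld

/-- Elements of order `n` of PSL_n(q), `n` prime, and the normalizer of a Singer cycle. Here `T = PSL_n(F)` for a field `F` with `q = p^f` elements (`n ≥ 2`, `(n, q) ≠ (2, 2), (2, 3)`), `k` is a prime dividing `n`, `K` is a subalgebra of the `n × n` matrices that is a field of degree `k` over `F` (an extension-field structure F_{q^k} on `F^n`), and `H` is the subgroup of matrices of determinant 1 normalizing `K` — a subgroup of type GL_{n/k}(q^k) (maximal except in some small cases; maximality is not assumed); Ω is the set of cosets of `H` in `T`, so an element of `T` of prime order `r` (a matrix `x` of determinant 1 with `x^r` scalar, `x` not scalar) fixes a point of Ω when some conjugate of `x` by a matrix of determinant 1 normalizes `K`. Take `k = n > 3` prime with `n ≠ p` (so `H`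 is the normalizer of a Singer cycle), and suppose `n` divides the index of `H`. Then every element of `T` of order `n` is conjugate in `T` into `H` if and only if the multiplicative order of `q` modulo `n` is `n − 1`. -/
theorem result {F : Type*} [Field F] [Fintype F] {p : ℕ} [Fact p.Prime] [CharP F p] {q : ℕ} (hq : Fintype.card F = q)
    (n : ℕ) (hn : 2 ≤ n) (hT : (n, q) ≠ (2, 2) ∧ (n, q) ≠ (2, 3))
    (k : ℕ) (hk : k.Prime) (hkn : k ∣ n) (K : Subalgebra F (Matrix (Fin n) (Fin n) F)) (hK : Cfsg.Geo.IsFieldSubalgebra k K) (hkn' : k = n) (hn3 : 3 < n) (hnp : n ≠ p) (hΩ : n ∣ ((Cfsg.Geo.subalgebraNormalizer K).comap (Matrix.SpecialLinearGroup.toGL : Matrix.SpecialLinearGroup (Fin n) F →* GL (Fin n) F)).index) :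
    (∀ x : Matrix.SpecialLinearGroup (Fin n) F,
      (∃ z : F, ((x ^ n : Matrix.SpecialLinearGroup (Fin n) F) : Matrix (Fin n) (Fin n) F) = z • (1 : Matrix (Fin n) (Fin n) F)) →
      (∀ z : F, (x : Matrix (Fin n) (Fin n) F) ≠ z • (1 : Matrix (Fin n) (Fin n) F)) →
      ∃ P : Matrix.SpecialLinearGroup (Fin n) F, P⁻¹ * x * P ∈ ((Cfsg.Geo.subalgebraNormalizer K).comap (Matrix.SpecialLinearGroup.toGL : Matrix.SpecialLinearGroup (Fin n) F →* GL (Fin n) F))) ↔
    orderOf (q : ZMod n) = n - 1 := by
  have hkn2 := hkn'.symm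
  subst hkn2
  have hn0 : 0 < n := by omega
  haveI : Fact n.Prime := ⟨hk⟩
  have hn4 : n ≠ 4 := by
    intro h
    rw [h] at hk
    exact absurd hk (by norm_num)
  have hpp : p.Prime := Fact.out
  obtain ⟨f, -, hf⟩ := FiniteField.card F p
  have hcop : p.Coprime n := (Nat.coprime_primes hpp hk).2 (Ne.symm hnp)
  have hqn : ((q : ℕ) : ZMod n) ≠ 0 := by
    rw [Ne, ZMod.natCast_eq_zero_iff]
    intro h
    rw [← hq, hf] at h
    exact hnp ((Nat.prime_dvd_prime_iff_eq hk hpp).1 (hk.dvd_of_dvd_pow h))
  have hq1 : 1 < q := by rw [← hq]; exact Fintype.one_lt_card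
  have hone : ∀ i, n ∣ q ^ i - 1 ↔ ((q : ℕ) : ZMod n) ^ i = 1 := by
    intro i
    rw [← ZMod.natCast_eq_zero_iff, Nat.cast_sub (Nat.one_le_pow _ _ (by omega)), Nat.cast_pow, Nat.cast_one,
      sub_eq_zero]
  constructor
  · intro hall
    by_contra hne
    set i := orderOf ((q : ℕ) : ZMod n) with hi
    have hi1 : i ∣ n - 1 := ZMod.orderOf_dvd_card_sub_one hqn
    have hi0 : i ≠ 0 := by
      intro h
      rw [h] at hi1
      have := Nat.eq_zero_of_zero_dvd hi1
      omega
    have hi2 : 2 * i ≤ n - 1 := by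
      obtain ⟨t, ht⟩ := hi1
      rcases t with _ | _ | t
      · omega
      · rw [zero_add, mul_one] at ht; exact absurd ht.symm hne
      · rw [ht]
        have : i * (t + 1 + 1) = 2 * i + i * t := by ring
        rw [this]; exact Nat.le_add_right _ _
    have hdv : n ∣ q ^ i - 1 := (hone i).2 (pow_orderOf_eq_one _)
    obtain ⟨d, hd0, hdn, Y, hY1, hY2, hY3⟩ : ∃ d, 0 < d ∧ 2 * d < n ∧ ∃ Y : Matrix (Fin d) (Fin d) F, Y ^ n = 1 ∧ Y.det = 1 ∧
        ∀ v, Y *ᵥ v = v → v = 0 := by
      by_cases h1 : i = 1
      · rw [h1, pow_one] at hdv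
        obtain ⟨ζ, hζ⟩ := Cfsg.Agent.H21.GLo.exists_order (E := F) (m := n) (by rw [Nat.card_eq_fintype_card, hq]; exact hdv)
        have hζn : ζ ^ n = 1 := by rw [← hζ, pow_orderOf_eq_one]
        have hζ1 : ζ ≠ 1 := by
          rintro rfl
          rw [orderOf_one] at hζ
          omega
        have hζ0 : ζ ≠ 0 := by
          rintro rfl
          rw [zero_pow hk.ne_zero] at hζn
          exact zero_ne_one hζn
        refine ⟨2, by norm_num, by omega, Matrix.diagonal ![ζ, ζ⁻¹], ?_, ?_, ?_⟩
        · rw [Matrix.diagonal_pow, ← Matrix.diagonal_one]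
          congr 1
          funext j
          fin_cases j
          · exact hζn
          · show (ζ⁻¹) ^ n = 1
            rw [inv_pow, hζn, inv_one]
        · rw [Matrix.det_diagonal, Fin.prod_univ_two]
          exact mul_inv_cancel₀ hζ0
        · intro v hv
          have e0 := congrFun hv 0
          have e1 := congrFun hv 1
          rw [Matrix.mulVec_diagonal] at e0 e1
          have e0' : ζ * v 0 = v 0 := e0
          have e1' : ζ⁻¹ * v 1 = v 1 := e1
          funext j
          fin_cases j
          · show v 0 = 0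
            have : (ζ - 1) * v 0 = 0 := by linear_combination e0'
            exact (mul_eq_zero.1 this).resolve_left (sub_ne_zero.2 hζ1)
          · show v 1 = 0
            have : (ζ⁻¹ - 1) * v 1 = 0 := by linear_combination e1'
            refine (mul_eq_zero.1 this).resolve_left (sub_ne_zero.2 ?_)
            intro h
            exact hζ1 (inv_eq_one.1 h)
      · obtain ⟨Y, hY1, hY2⟩ := Cfsg.Agent.H5.Der.exists_fpf F hi0 hk (by rw [hq]; exact hdv)
        refine ⟨i, Nat.pos_of_ne_zero hi0, by omega, Y, hY1, ?_, hY2⟩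
        apply root_trivial hk (r := n)
        · rw [hq]
          intro h
          have h2 := (hone 1).1 (by rw [pow_one]; exact h)
          have h3 := orderOf_dvd_of_pow_eq_one h2
          exact h1 (Nat.dvd_one.1 h3)
        · rw [← Matrix.det_pow, hY1, Matrix.det_one]
    obtain ⟨x, hx1, hx2⟩ := exists_block (n := n) (by omega) Y hY1 hY2 hY3
    obtain ⟨P, hP⟩ := hall x ⟨1, by rw [hx1, Matrix.SpecialLinearGroup.coe_one, one_smul]⟩
      (not_scalar_of_ker hd0 (by omega) hx2)
    refine no_conj hn0 hn0.ne' hK x 1 (by omega) ?_ P hP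
    intro h
    have := Nat.le_of_dvd (by omega) h
    omega
  · intro hord x ⟨z, hz⟩ hns
    have hnq : ¬ n ∣ Fintype.card F - 1 := by
      rw [hq]
      intro h
      have h2 := (hone 1).1 (by rw [pow_one]; exact h)
      have h3 := orderOf_dvd_of_pow_eq_one h2
      have := Nat.dvd_one.1 h3
      omega
    have hz1 : z = 1 := root_trivial hk hnq (scalar_root hn0 hz)
    rw [hz1, one_smul, Matrix.SpecialLinearGroup.coe_pow] at hz
    refine frob_conj hn0 hK x 1 x (one_smul _ _).symm hz (minpoly_full hk (by omega) ?_ _ hz ?_)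
    · exact cyclo_irr hk hnp (by rw [hq]; exact hord)
    · intro h
      exact hns 1 (by rw [h, one_smul])

end Cfsg.Agent.S5970
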