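import Cfsg.Statements.S5971
import Mathlib
import Cfsg.Agent.H5_Fld1

set_option autoImplicit false
open scoped MatrixGroups
open Cfsg

namespace Cfsg.Agent.S5971

open Matrix Module Cfsg.Geo Cfsg.Agent.H5.Fld Polynomial

theorem irr_det {F : Type*} [Field F] {M : Matrix (Fin 3) (Fin 3) F} {c : F} (hc : M ^ 3 = c • (1 : Matrix (Fin 3) (Fin 3) F))
    (hb : ∀ b : F, b ^ 3 ≠ c) : M.det = c := by
  have hirr := X_pow_sub_C_irreducible_of_prime Nat.prime_three hb
  have hmon : (Polynomial.X ^ 3 - Polynomial.C c : Polynomial F).Monic := Polynomial.monic_X_pow_sub_C c (by norm_num)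
  have h1 : minpoly F M = Polynomial.X ^ 3 - Polynomial.C c := by
    symm
    apply minpoly.eq_of_irreducible_of_monic hirr _ hmon
    rw [map_sub, map_pow, Polynomial.aeval_X, Polynomial.aeval_C, hc, Algebra.algebraMap_eq_smul_one, sub_self]
  have h2 : M.charpoly = Polynomial.X ^ 3 - Polynomial.C c := by
    apply Polynomial.eq_of_monic_of_dvd_of_natDegree_le hmon (Matrix.charpoly_monic M)
    · rw [← h1]
      exact Matrix.minpoly_dvd_charpoly M
    · rw [Matrix.charpoly_natDegree_eq_dim, Polynomial.natDegree_X_pow_sub_C, Fintype.card_fin]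
  rw [Matrix.det_eq_sign_charpoly_coeff, h2, Fintype.card_fin]
  simp
  ring

theorem ord32 : orderOf (2 : ZMod 3) = 3 - 1 := orderOf_eq_prime (p := 2) (by decide) (by decide)

/-- the second coefficient of the characteristic polynomial -/
def e2 {F : Type*} [Field F] (M : Matrix (Fin 3) (Fin 3) F) : F :=
  M 0 0 * M 1 1 - M 0 1 * M 1 0 + M 0 0 * M 2 2 - M 0 2 * M 2 0 + M 1 1 * M 2 2 - M 1 2 * M 2 1

theorem ch3 {F : Type*} [Field F] (M : Matrix (Fin 3) (Fin 3) F) :
    M ^ 3 - M.trace • M ^ 2 + e2 M • M - M.det • (1 : Matrix (Fin 3) (Fin 3) F) = 0 := by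
  have h3 : M ^ 3 = M * M * M := by rw [pow_succ, pow_two]
  rw [h3, pow_two]
  ext i j
  fin_cases i <;> fin_cases j <;>
    simp [Matrix.mul_apply, Fin.sum_univ_three, Matrix.det_fin_three, Matrix.trace_fin_three, e2] <;> ring

theorem det_sub {F : Type*} [Field F] (M : Matrix (Fin 3) (Fin 3) F) (a : F) :
    (M - a • (1 : Matrix (Fin 3) (Fin 3) F)).det = M.det - a * e2 M + a ^ 2 * M.trace - a ^ 3 := by
  rw [Matrix.det_fin_three, Matrix.det_fin_three, Matrix.trace_fin_three, e2]
  simp [Matrix.one_apply]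
  ring

theorem deg3 {F : Type*} [Field F] {w : F} (hw : w ^ 2 + w + 1 = 0) (h3 : (3 : F) ≠ 0) (M : Matrix (Fin 3) (Fin 3) F)
    (hM : M ^ 3 = 1) (hdet : M.det = 1) (hns : ∀ z : F, M ≠ z • 1) : 3 ≤ (minpoly F (Matrix.toLin' M)).natDegree := by
  have hch := ch3 M
  rw [hM, hdet, one_smul] at hch
  have h1 : M.trace • M ^ 2 = e2 M • M := by
    have : e2 M • M - M.trace • M ^ 2 = 0 := by rw [← hch]; abel
    exact (sub_eq_zero.1 this).symm
  have h2 : M.trace • M = e2 M • (1 : Matrix (Fin 3) (Fin 3) F) := by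
    have h4 := congrArg (fun X => X * M ^ 2) h1
    simp only [smul_mul_assoc] at h4
    rw [← pow_add, ← pow_succ', hM, show 2 + 2 = 3 + 1 from rfl, pow_succ, hM, one_mul] at h4
    exact h4
  have ht : M.trace = 0 := by
    by_contra h
    apply hns (M.trace⁻¹ * e2 M)
    rw [mul_smul, ← h2, smul_smul, inv_mul_cancel₀ h, one_smul]
  have he : e2 M = 0 := by
    rw [ht, zero_smul] at h2
    by_contra h
    have := (smul_eq_zero.1 h2.symm).resolve_left h
    exact one_ne_zero this
  have hroot : ∀ a : F, a ^ 3 = 1 → (minpoly F (Matrix.toLin' M)).IsRoot a := by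
    intro a ha
    apply Module.End.hasEigenvalue_iff_isRoot.1
    have h4 := det_sub M a
    rw [hdet, he, ht, ha] at h4
    have h5 : (M - a • (1 : Matrix (Fin 3) (Fin 3) F)).det = 0 := by rw [h4]; ring
    obtain ⟨v, hv0, hv⟩ := Matrix.exists_mulVec_eq_zero_iff.2 h5
    apply Module.End.hasEigenvalue_of_hasEigenvector (x := v)
    refine ⟨Module.End.mem_eigenspace_iff.2 ?_, hv0⟩
    rw [Matrix.sub_mulVec, Matrix.smul_mulVec, Matrix.one_mulVec, sub_eq_zero] at hv
    rw [Matrix.toLin'_apply, hv]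
  have hw3 : w ^ 3 = 1 := by linear_combination (w - 1) * hw
  have hw1 : w ≠ 1 := by
    rintro rfl
    apply h3
    linear_combination hw
  have hw0 : w ≠ 0 := by
    rintro rfl
    simp at hw
  have hww : w ^ 2 ≠ 1 := by
    intro h
    have : w = -2 := by linear_combination hw - h
    rw [this] at hw
    apply h3
    linear_combination hw
  have hww' : w ^ 2 ≠ w := by
    intro h
    rw [pow_two] at h
    exact hw1 (mul_left_cancel₀ hw0 (by rw [h, mul_one]))
  have hm0 : minpoly F (Matrix.toLin' M) ≠ 0 := minpoly.ne_zero (Algebra.IsIntegral.isIntegral _)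
  classical
  have hsub : ({1, w, w ^ 2} : Finset F) ⊆ (minpoly F (Matrix.toLin' M)).roots.toFinset := by
    intro a ha
    rw [Multiset.mem_toFinset, Polynomial.mem_roots hm0]
    simp only [Finset.mem_insert, Finset.mem_singleton] at ha
    rcases ha with rfl | rfl | rfl
    · exact hroot 1 (one_pow _)
    · exact hroot _ hw3
    · exact hroot _ (by rw [← pow_mul, mul_comm, pow_mul, hw3, one_pow])
  have hc := Finset.card_le_card hsub
  rw [Finset.card_eq_three.2 ⟨1, w, w ^ 2, hw1.symm, hww.symm, hww'.symm, rfl⟩] at hc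
  exact hc.trans ((Multiset.toFinset_card_le _).trans (Polynomial.card_roots' _))

/-- Elements of order 3 of PSL_3(q) and the normalizer of a Singer cycle. Here `T = PSL_n(F)` for a field `F` with `q = p^f` elements (`n ≥ 2`, `(n, q) ≠ (2, 2), (2, 3)`), `k` is a prime dividing `n`, `K` is a subalgebra of the `n × n` matrices that is a field of degree `k` over `F` (an extension-field structure F_{q^k} on `F^n`), and `H` is the subgroup of matrices of determinant 1 normalizing `K` — a subgroup of type GL_{n/k}(q^k) (maximal except in some small cases; maximality is not assumed); Ω is the set of cosets of `H` in `T`, so an element of `T` of prime order `r` (a matrix `x` of determinant 1 with `x^r` scalar, `x` not scalar) fixes a point of Ω when some conjugate of `x` by a matrix of determinant 1 normalizes `K`. Take `n = k = 3` and suppose 3 divides the index of `H`. Then every element of `T` of order 3 is conjugate in `T` into `H` if and only if `q ≡ 4, 7` or `8 (mod 9)`. -/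
theorem result {F : Type*} [Field F] [Fintype F] {p : ℕ} [Fact p.Prime] [CharP F p] {q : ℕ} (hq : Fintype.card F = q)
    (n : ℕ) (hn : n = 3) (k : ℕ) (hk : k.Prime) (hkn : k ∣ n) (K : Subalgebra F (Matrix (Fin n) (Fin n) F)) (hK : Cfsg.Geo.IsFieldSubalgebra k K) (hk3 : k = 3) (hΩ : 3 ∣ ((Cfsg.Geo.subalgebraNormalizer K).comap (Matrix.SpecialLinearGroup.toGL : Matrix.SpecialLinearGroup (Fin n) F →* GL (Fin n) F)).index) :
    (∀ x : Matrix.SpecialLinearGroup (Fin n) F,
      (∃ z : F, ((x ^ 3 : Matrix.SpecialLinearGroup (Fin n) F) : Matrix (Fin n) (Fin n) F) = z • (1 : Matrix (Fin n) (Fin n) F)) →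
      (∀ z : F, (x : Matrix (Fin n) (Fin n) F) ≠ z • (1 : Matrix (Fin n) (Fin n) F)) →
      ∃ P : Matrix.SpecialLinearGroup (Fin n) F, P⁻¹ * x * P ∈ ((Cfsg.Geo.subalgebraNormalizer K).comap (Matrix.SpecialLinearGroup.toGL : Matrix.SpecialLinearGroup (Fin n) F →* GL (Fin n) F))) ↔
    (q % 9 = 4 ∨ q % 9 = 7 ∨ q % 9 = 8) := by
  subst hn
  subst hk3
  haveI h3p : Fact (Nat.Prime 3) := ⟨Nat.prime_three⟩
  have hpp : p.Prime := Fact.out
  obtain ⟨f, -, hf⟩ := FiniteField.card F p
  have hq1 : 1 < q := by rw [← hq]; exact Fintype.one_lt_card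
  have hn0 : 0 < 3 := by norm_num
  -- existence of elements of order three when q = 2 mod 3
  have hcyc : q % 3 = 2 → Irreducible (Polynomial.cyclotomic 3 F) ∧ ¬ 3 ∣ Fintype.card F - 1 := by
    intro hq2
    constructor
    · apply cyclo_irr (p := p) Nat.prime_three
      · rintro rfl
        rw [← hq, hf] at hq2
        have : 3 ∣ 3 ^ (f : ℕ) := dvd_pow_self 3 f.ne_zero
        omega
      · rw [hq]
        have : ((q : ℕ) : ZMod 3) = 2 := by
          have h := ZMod.natCast_mod q 3
          rw [hq2] at h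
          rw [← h]; rfl
        rw [this]
        exact ord32
    · rw [hq]; omega
  constructor
  · intro hall
    by_contra hcon
    push Not at hcon
    obtain ⟨c4, c7, c8⟩ := hcon
    have hcases : q % 3 = 0 ∨ q % 9 = 1 ∨ (q % 3 = 2 ∧ (q % 9 = 2 ∨ q % 9 = 5)) := by omega
    have key : ∀ (x : Matrix.SpecialLinearGroup (Fin 3) F) (c : F),
        (∃ z : F, ((x ^ 3 : Matrix.SpecialLinearGroup (Fin 3) F) : Matrix (Fin 3) (Fin 3) F) = z • (1 : Matrix (Fin 3) (Fin 3) F)) →
        finrank F (LinearMap.ker (Matrix.toLin' ((x : Matrix (Fin 3) (Fin 3) F) - c • 1))) + 1 = 3 → False := by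
      intro x c h1 h2
      obtain ⟨P, hP⟩ := hall x h1 (not_scalar_of_ker one_pos (by norm_num) h2)
      exact no_conj hn0 (by norm_num) hK x c (by omega) (by omega) P hP
    rcases hcases with h0 | h1 | ⟨h2, h25⟩
    · -- characteristic three
      have hp3 : p = 3 := by
        have : 3 ∣ p ^ (f : ℕ) := by rw [← hf, hq]; omega
        exact ((Nat.prime_dvd_prime_iff_eq Nat.prime_three hpp).1 (Nat.prime_three.dvd_of_dvd_pow this)).symm
      subst hp3
      have h3 : (3 : F) = 0 := by exact_mod_cast CharP.cast_eq_zero F 3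
      obtain ⟨x, hx⟩ := exists_trans (F := F) (0 : Fin 3) 1 (by decide)
      refine key x 1 ⟨1, ?_⟩ (ker_trans _ _ _ hx)
      rw [Matrix.SpecialLinearGroup.coe_pow, hx, one_smul, pow_succ, pow_two]
      have h4 := Matrix.transvection_mul_transvection_same (0 : Fin 3) 1 (by decide) (1 : F) 1
      have h5 := Matrix.transvection_mul_transvection_same (0 : Fin 3) 1 (by decide) (1 + 1 : F) 1
      have h6 : (1 + Matrix.single 0 1 1 : Matrix (Fin 3) (Fin 3) F) = Matrix.transvection 0 1 1 := rfl
      rw [h6, h4, h5, show (1 + 1 + 1 : F) = 3 by norm_num, h3, Matrix.transvection_zero]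
    · obtain ⟨ζ, hζ⟩ := Cfsg.Agent.H21.GLo.exists_order (E := F) (m := 9) (by
        rw [Nat.card_eq_fintype_card, hq]; omega)
      have hζ9 : ζ ^ 9 = 1 := by rw [← hζ, pow_orderOf_eq_one]
      have hζ3 : ζ ^ 3 ≠ 1 := by
        intro h
        have := orderOf_dvd_of_pow_eq_one h
        rw [hζ] at this
        norm_num at this
      have hζ0 : ζ ≠ 0 := by
        rintro rfl
        norm_num at hζ9
      obtain ⟨x, hx⟩ := exists_refl (F := F) (0 : Fin 3) ζ (ζ ^ 6) (by rw [← pow_add, hζ9])
      have hne : ζ ^ 6 ≠ 1 := by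
        intro h
        apply hζ3
        calc ζ ^ 3 = ζ ^ 3 * ζ ^ 6 := by rw [h, mul_one]
          _ = 1 := by rw [← pow_add, hζ9]
      refine key x ζ ⟨ζ ^ 3, ?_⟩ (ker_refl _ _ _ hζ0 hne _ hx)
      rw [Matrix.SpecialLinearGroup.coe_pow, hx, _root_.smul_pow, Matrix.diagonal_pow]
      congr 1
      rw [← Matrix.diagonal_one]
      congr 1
      funext i
      by_cases hi : i = 0
      · rw [hi]
        show (Function.update (fun _ => (1 : F)) 0 (ζ ^ 6) 0) ^ 3 = 1
        rw [Function.update_self, ← pow_mul, show 6 * 3 = 9 * 2 from rfl, pow_mul, hζ9, one_pow]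
      · show (Function.update (fun _ => (1 : F)) 0 (ζ ^ 6) i) ^ 3 = 1
        rw [Function.update_of_ne hi, one_pow]
    · -- index not divisible by three
      obtain ⟨hirr, -⟩ := hcyc h2
      set y : Matrix (Fin 3) (Fin 3) F := !![0, 0, 1; 1, 0, 0; 0, 1, 0] with hy
      have hy3 : y ^ 3 = 1 := by
        rw [pow_succ, pow_two, hy]
        ext i j
        fin_cases i <;> fin_cases j <;> simp
      have hydet : y.det = 1 := by rw [hy, Matrix.det_fin_three]; simp
      have hy1 : y ≠ 1 := by
        intro h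
        have := congrFun (congrFun h 0) 0
        simp [hy] at this
      obtain ⟨P, hP⟩ := frob_conj hn0 hK ⟨y, hydet⟩ 1 y (one_smul _ _).symm hy3
        (minpoly_full Nat.prime_three (le_refl 3) hirr y hy3 hy1)
      set H := (subalgebraNormalizer K).comap (Matrix.SpecialLinearGroup.toGL : Matrix.SpecialLinearGroup (Fin 3) F →* GL (Fin 3) F) with hH
      set Y : Matrix.SpecialLinearGroup (Fin 3) F := ⟨y, hydet⟩ with hY
      have hY3 : Y ^ 3 = 1 := by
        apply Subtype.ext
        rw [Matrix.SpecialLinearGroup.coe_pow, Matrix.SpecialLinearGroup.coe_one]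
        exact hy3
      have hY1 : Y ≠ 1 := fun h => hy1 (congrArg Subtype.val h)
      have ho : orderOf (P⁻¹ * Y * P) = 3 := by
        apply orderOf_eq_prime
        · have : (P⁻¹ * Y * P) ^ 3 = P⁻¹ * Y ^ 3 * P := by
            have h := conj_pow (a := P⁻¹) (b := Y) (i := 3)
            rw [inv_inv] at h
            exact h
          rw [this, hY3, mul_one, inv_mul_cancel]
        · intro h
          apply hY1
          have : Y = P * (P⁻¹ * Y * P) * P⁻¹ := by group
          rw [this, h, mul_one, mul_inv_cancel]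
      have h3H : 3 ∣ Nat.card H := by
        have h4 := Subgroup.orderOf_dvd_natCard H hP
        rw [ho] at h4
        exact h4
      have h9 : 9 ∣ Nat.card (Matrix.SpecialLinearGroup (Fin 3) F) := by
        rw [← Subgroup.card_mul_index H]
        exact mul_dvd_mul h3H hΩ
      have h9' : 9 ∣ Nat.card (GL (Fin 3) F) := by
        have h5 : Nat.card (Matrix.SpecialLinearGroup (Fin 3) F) ∣ Nat.card (GL (Fin 3) F) :=
          Subgroup.card_dvd_of_injective _ Matrix.SpecialLinearGroup.toGL_injective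
        exact h9.trans h5
      rw [Matrix.card_GL_field, Fin.prod_univ_three, hq] at h9'
      have e1 : (q ^ 3 - q ^ ((0 : Fin 3) : ℕ)) * (q ^ 3 - q ^ ((1 : Fin 3) : ℕ)) * (q ^ 3 - q ^ ((2 : Fin 3) : ℕ)) =
          (q ^ 3 - 1) * (q ^ 3 - q) * (q ^ 3 - q ^ 2) := by
        simp
      rw [e1] at h9'
      have hqa : q ≤ q ^ 3 := Nat.le_self_pow (by norm_num) q
      have hqb : q ^ 2 ≤ q ^ 3 := Nat.pow_le_pow_right (by omega) (by norm_num)
      have hz : (9 : ℤ) ∣ ((q : ℤ) ^ 3 - 1) * ((q : ℤ) ^ 3 - q) * ((q : ℤ) ^ 3 - (q : ℤ) ^ 2) := by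
        have := Int.natCast_dvd_natCast.2 h9'
        push_cast [Nat.cast_sub hqa, Nat.cast_sub hqb, Nat.cast_sub (Nat.one_le_pow 3 q (by omega))] at this
        exact this
      have hmod : (((q : ℤ) ^ 3 - 1) * ((q : ℤ) ^ 3 - q) * ((q : ℤ) ^ 3 - (q : ℤ) ^ 2)) % 9 ≠ 0 := by
        rcases h25 with h | h
        · have hq' : (q : ℤ) ≡ 2 [ZMOD 9] := by
            show (q : ℤ) % 9 = 2 % 9
            omega
          have := (((hq'.pow 3).sub (Int.ModEq.refl 1)).mul ((hq'.pow 3).sub hq')).mul ((hq'.pow 3).sub (hq'.pow 2))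
          intro h0
          rw [this] at h0
          norm_num at h0
        · have hq' : (q : ℤ) ≡ 5 [ZMOD 9] := by
            show (q : ℤ) % 9 = 5 % 9
            omega
          have := (((hq'.pow 3).sub (Int.ModEq.refl 1)).mul ((hq'.pow 3).sub hq')).mul ((hq'.pow 3).sub (hq'.pow 2))
          intro h0
          rw [this] at h0
          norm_num at h0
      exact hmod (Int.emod_eq_zero_of_dvd hz)
  · intro hmod x ⟨z, hz⟩ hns
    have hz3 := scalar_root hn0 hz
    have hx3 : (x : Matrix (Fin 3) (Fin 3) F) ^ 3 = z • 1 := by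
      rw [← Matrix.SpecialLinearGroup.coe_pow]; exact hz
    have hz1 : z = 1 := by
      by_cases hcube : ∃ b : F, b ^ 3 = z
      · obtain ⟨b, hb⟩ := hcube
        have hb9 : b ^ 9 = 1 := by rw [show 9 = 3 * 3 from rfl, pow_mul, hb, hz3]
        have hb0 : b ≠ 0 := by
          rintro rfl
          norm_num at hb9
        have h1 : orderOf b ∣ 9 := orderOf_dvd_of_pow_eq_one hb9
        have h2 : orderOf b ∣ q - 1 := by
          rw [← hq]; exact orderOf_dvd_of_pow_eq_one (FiniteField.pow_card_sub_one_eq_one _ hb0)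
        have h3 : orderOf b ∣ Nat.gcd 9 (q - 1) := Nat.dvd_gcd h1 h2
        have h4 : Nat.gcd 9 (q - 1) ∣ 3 := by
          have h5 : Nat.gcd 9 (q - 1) ∣ 9 := Nat.gcd_dvd_left _ _
          have h6 : Nat.gcd 9 (q - 1) ∣ q - 1 := Nat.gcd_dvd_right _ _
          have h7 : Nat.gcd 9 (q - 1) = 1 ∨ Nat.gcd 9 (q - 1) = 3 ∨ Nat.gcd 9 (q - 1) = 9 := by
            have h8 : Nat.gcd 9 (q - 1) ∣ 3 ^ 2 := h5
            obtain ⟨t, ht, hte⟩ := (Nat.dvd_prime_pow Nat.prime_three).1 h8
            rw [hte]
            interval_cases t <;> simp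
          rcases h7 with h | h | h
          · rw [h]; norm_num
          · rw [h]
          · rw [h] at h6; omega
        rw [← hb]
        exact orderOf_dvd_iff_pow_eq_one.1 (h3.trans h4)
      · push Not at hcube
        have h := irr_det hx3 hcube
        rw [Matrix.SpecialLinearGroup.det_coe] at h
        exact h.symm
    rw [hz1, one_smul] at hx3
    refine frob_conj hn0 hK x 1 x (one_smul _ _).symm hx3 ?_
    have hx1 : (x : Matrix (Fin 3) (Fin 3) F) ≠ 1 := fun h => hns 1 (by rw [h, one_smul])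
    by_cases h2 : q % 3 = 2
    · exact minpoly_full Nat.prime_three (le_refl 3) (hcyc h2).1 _ hx3 hx1
    · have hq31 : q % 3 = 1 := by omega
      obtain ⟨w, hw⟩ := Cfsg.Agent.H21.GLo.exists_order (E := F) (m := 3) (by
        rw [Nat.card_eq_fintype_card, hq]; omega)
      have hw3 : w ^ 3 = 1 := by rw [← hw, pow_orderOf_eq_one]
      have hw1 : w ≠ 1 := by
        rintro rfl
        rw [orderOf_one] at hw
        norm_num at hw
      have hw2 : w ^ 2 + w + 1 = 0 := by
        have : (w - 1) * (w ^ 2 + w + 1) = 0 := by linear_combination hw3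
        exact (mul_eq_zero.1 this).resolve_left (sub_ne_zero.2 hw1)
      have h3 : (3 : F) ≠ 0 := by
        intro h3
        have : (w - 1) ^ 3 = 0 := by linear_combination hw3 + (- w ^ 2 + w) * h3
        exact hw1 (sub_eq_zero.1 (pow_eq_zero_iff (by norm_num) |>.1 this))
      exact deg3 hw2 h3 _ hx3 (Matrix.SpecialLinearGroup.det_coe x) hns

end Cfsg.Agent.S5971
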