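import Cfsg.Statements.S5985
import Mathlib
import Cfsg.Agent.H5_Der4

set_option autoImplicit false
open scoped MatrixGroups
open Cfsg

namespace Cfsg.Agent.S5985

/-- Elements of prime order of Ω⁺_n(q), q even, with no fixed nonsingular 1-space. Here `T = PΩ⁺_n(F)`, `n = 2d ≥ 8`, realised through `Ω⁺_n(q)`, the commutator subgroup of the isometry group of `Q = Σ xᵢyᵢ` over the field `F` with `q` elements; an element of `T` of prime order `r` is an element `x` of `Ω⁺_n(q)` with `x^r` scalar and `x` not scalar; `q` is even (so the centre is trivial). Let Ω be the set of 1-dimensional subspaces spanned by a vector `v` with `Q(v) ≠ 0`, and let `r` be a prime dividing their number. Then every element of `T` of order `r` fixes some nonsingular 1-space if and only if `r = 2` and `n ≡ 2 (mod 4)` (that is, `d` is odd). -/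
theorem result {F : Type*} [Field F] [Fintype F] {p : ℕ} [Fact p.Prime] [CharP F p] {q : ℕ} (hq : Fintype.card F = q)
    (hp : p = 2) (d : ℕ) (hd : 4 ≤ d) (r : ℕ) [Fact r.Prime]
    (hrΩ : r ∣ Nat.card {W : Submodule F (Fin d ⊕ Fin d → F) // Module.finrank F ↥W = 1 ∧ ∃ v ∈ W, Cfsg.quadFormPlus d F v ≠ 0}) :
    (∀ x : GL (Fin d ⊕ Fin d) F, x ∈ Cfsg.Geo.omegaGL (Cfsg.quadFormPlus d F) →
      (∃ z : F, ((x ^ r : GL (Fin d ⊕ Fin d) F) : Matrix (Fin d ⊕ Fin d) (Fin d ⊕ Fin d) F) = z • (1 : Matrix (Fin d ⊕ Fin d) (Fin d ⊕ Fin d) F)) →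
      (∀ z : F, (x : Matrix (Fin d ⊕ Fin d) (Fin d ⊕ Fin d) F) ≠ z • (1 : Matrix (Fin d ⊕ Fin d) (Fin d ⊕ Fin d) F)) →
      ∃ W : Submodule F (Fin d ⊕ Fin d → F), (Module.finrank F ↥W = 1 ∧ ∃ v ∈ W, Cfsg.quadFormPlus d F v ≠ 0) ∧ W.map (Matrix.toLin' (x : Matrix (Fin d ⊕ Fin d) (Fin d ⊕ Fin d) F)) ≤ W) ↔ (r = 2 ∧ Odd d) := by
  subst hp
  haveI : Nonempty (Fin d ⊕ Fin d) := ⟨Sum.inl ⟨0, by omega⟩⟩
  rw [Cfsg.Agent.H5.Der.card_plus_points hq (by omega)] at hrΩ
  have hrp : r.Prime := Fact.out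
  have hnd := Cfsg.Agent.H16.Quad.nd_plusQ (F := F) d
  have hfr : Module.finrank F (Fin d ⊕ Fin d → F) = 2 * d := by
    rw [Module.finrank_fintype_fun_eq_card, Fintype.card_sum, Fintype.card_fin]; ring
  have h4 : Nat.card F ≠ 2 ∨ Module.finrank F (Fin d ⊕ Fin d → F) ≠ 4 := by
    right; omega
  rw [← Cfsg.Agent.H16.Quad.coe_plusQ F d]
  constructor
  · intro hall
    by_cases hr2 : r = 2
    · subst hr2
      refine ⟨rfl, ?_⟩
      by_contra hodd
      rw [Nat.not_odd_iff_even] at hodd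
      refine Cfsg.Agent.H5.Der.ts_derange hnd h4 hfr (by omega) hodd (fun i => Pi.single (Sum.inl i) (1 : F)) ?_ ?_ hall
      · have h6 := (Pi.basisFun F (Fin d ⊕ Fin d)).linearIndependent.comp Sum.inl Sum.inl_injective
        have h7 : (⇑(Pi.basisFun F (Fin d ⊕ Fin d)) ∘ Sum.inl) = fun i => Pi.single (Sum.inl i) (1 : F) := by
          funext i
          rw [Function.comp_apply, Pi.basisFun_apply]
        rw [h7] at h6
        exact h6
      · intro v hv
        have h5 : ∀ i, v (Sum.inr i) = 0 := by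
          induction hv using Submodule.span_induction with
          | mem x hx =>
            obtain ⟨j, rfl⟩ := hx
            intro i
            simp
          | zero => intro i; rfl
          | add x y _ _ hx hy => intro i; rw [Pi.add_apply, hx, hy, add_zero]
          | smul c x _ hx => intro i; rw [Pi.smul_apply, hx, smul_zero]
        rw [Cfsg.Agent.H16.Quad.plusQ_apply, Cfsg.quadFormPlus]
        exact Finset.sum_eq_zero (fun i _ => by rw [h5, mul_zero])
    · exfalso
      have hq2 : ∃ k, q = 2 ^ k := by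
        obtain ⟨k, _, hk⟩ := FiniteField.card F 2
        exact ⟨k, by rw [← hq, hk]⟩
      obtain ⟨k, hk⟩ := hq2
      have h5 : r ∣ q ^ d - 1 := by
        rcases (Nat.Prime.dvd_mul hrp).1 hrΩ with h | h
        · exfalso
          have h6 := hrp.dvd_of_dvd_pow h
          rw [hk] at h6
          exact hr2 ((Nat.prime_dvd_prime_iff_eq hrp Nat.prime_two).1 (hrp.dvd_of_dvd_pow h6))
        · exact h
      obtain ⟨Y, Z, hYZ, hY, hZ, hYf, hZf⟩ := Cfsg.Agent.H5.Der.exists_fpf2 F (d := d) (r := r) (by omega) hrp (by rw [hq]; exact h5)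
      have hmv : ∀ v : Fin d ⊕ Fin d → F, (Matrix.fromBlocks Y 0 0 Z).mulVec v =
          Sum.elim (Y.mulVec (v ∘ Sum.inl)) (Z.mulVec (v ∘ Sum.inr)) := by
        intro v
        rw [Matrix.fromBlocks_mulVec, Matrix.zero_mulVec, Matrix.zero_mulVec, add_zero, zero_add]
      refine Cfsg.Agent.H5.Der.fpf_derange hnd h4 hfr hrp.pos (X := Matrix.fromBlocks Y 0 0 Z) ?_ ?_ ?_ hall
      · intro v
        rw [Cfsg.Agent.H16.Quad.plusQ_apply, Cfsg.Agent.H16.Quad.plusQ_apply, Cfsg.quadFormPlus, Cfsg.quadFormPlus, hmv]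
        simp only [Sum.elim_inl, Sum.elim_inr]
        change (Y.mulVec (v ∘ Sum.inl)) ⬝ᵥ (Z.mulVec (v ∘ Sum.inr)) = (v ∘ Sum.inl) ⬝ᵥ (v ∘ Sum.inr)
        rw [Matrix.dotProduct_mulVec, ← Matrix.vecMul_transpose, Matrix.vecMul_vecMul, hYZ, Matrix.vecMul_one]
      · intro v hv
        rw [hmv] at hv
        have h6 := hYf (v ∘ Sum.inl) (by
          funext i
          exact congrFun hv (Sum.inl i))
        have h7 := hZf (v ∘ Sum.inr) (by
          funext i
          exact congrFun hv (Sum.inr i))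
        funext i
        rcases i with i | i
        · exact congrFun h6 i
        · exact congrFun h7 i
      · rw [Matrix.fromBlocks_diagonal_pow, hY, hZ, Matrix.fromBlocks_one]
  · rintro ⟨rfl, hodd⟩ x hx hx1 hx2
    exact Cfsg.Agent.H5.Der.inv_fixes hnd h4 hfr (N' := d) (fun U hU => by
      have h1 := Cfsg.Agent.H16.Quad.ts_finrank_le hnd hU
      rw [hfr] at h1
      omega) (Or.inr ⟨rfl, hodd⟩) x hx hx1

end Cfsg.Agent.S5985
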