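import Cfsg.Statements.S5997
import Mathlib
import Cfsg.Agent.H15_M2

set_option autoImplicit false
open scoped MatrixGroups
open Cfsg

namespace Cfsg.Agent.S5997

open Matrix in
theorem ch2 {F : Type*} [Field F] (M : Matrix (Fin 2) (Fin 2) F) : M * M = M.trace • M - M.det • (1 : Matrix (Fin 2) (Fin 2) F) := by
  ext i j
  fin_cases i <;> fin_cases j <;>
    simp [Matrix.mul_apply, Fin.sum_univ_two, Matrix.trace_fin_two, Matrix.det_fin_two] <;> ring

/-- scalar from a relation -/
theorem scal {F : Type*} [Field F] {M : Matrix (Fin 2) (Fin 2) F} {t c : F} (ht : t ≠ 0)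
    (h : t • M = c • (1 : Matrix (Fin 2) (Fin 2) F)) : M = (t⁻¹ * c) • (1 : Matrix (Fin 2) (Fin 2) F) := by
  rw [mul_smul, ← h, smul_smul, inv_mul_cancel₀ ht, one_smul]

/-- the quaternion relations -/
theorem quat_rel {F : Type*} [Field F] (h2 : (2 : F) ≠ 0) (R : Subgroup (GL (Fin 2) F)) (hR : Nonempty (↥R ≃* QuaternionGroup 2)) :
    ∃ a b : GL (Fin 2) F, a ∈ R ∧ b ∈ R ∧ (∀ x ∈ R, ∃ (i j : ℕ), x = b ^ i * a ^ j) ∧ Nat.card R = 8 ∧
      (a : Matrix (Fin 2) (Fin 2) F) * a = -1 ∧ (b : Matrix (Fin 2) (Fin 2) F) * b = -1 ∧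
      (b : Matrix (Fin 2) (Fin 2) F) * a = - ((a : Matrix (Fin 2) (Fin 2) F) * b) := by
  obtain ⟨φ⟩ := hR
  set a0 : R := φ.symm (QuaternionGroup.a 1) with ha0
  set b0 : R := φ.symm (QuaternionGroup.xa 0) with hb0
  set c0 : R := φ.symm (QuaternionGroup.a 2) with hc0
  have e1 : a0 * a0 = c0 := by rw [ha0, ← map_mul, QuaternionGroup.a_mul_a]; rfl
  have e2 : b0 * b0 = c0 := by rw [hb0, ← map_mul, QuaternionGroup.xa_mul_xa]; rfl
  have e3 : c0 * c0 = 1 := by
    rw [hc0, ← map_mul, QuaternionGroup.a_mul_a]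
    exact map_one φ.symm
  have e4 : c0 ≠ 1 := by
    intro h
    rw [hc0, MulEquiv.map_eq_one_iff] at h
    revert h
    decide
  have e5 : b0 * a0 = c0 * (a0 * b0) := by
    rw [hb0, ha0, hc0, ← map_mul, ← map_mul, ← map_mul]
    congr 1
  have e6 : c0 * a0 = a0 * c0 := by rw [← e1, mul_assoc]
  have e7 : c0 * b0 = b0 * c0 := by rw [← e2, mul_assoc]
  set A : Matrix (Fin 2) (Fin 2) F := ((a0 : GL (Fin 2) F) : Matrix (Fin 2) (Fin 2) F) with hA
  set B : Matrix (Fin 2) (Fin 2) F := ((b0 : GL (Fin 2) F) : Matrix (Fin 2) (Fin 2) F) with hB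
  set C : Matrix (Fin 2) (Fin 2) F := ((c0 : GL (Fin 2) F) : Matrix (Fin 2) (Fin 2) F) with hC
  have v : ∀ x y : R, (((x * y : R) : GL (Fin 2) F) : Matrix (Fin 2) (Fin 2) F) =
      ((x : GL (Fin 2) F) : Matrix (Fin 2) (Fin 2) F) * ((y : GL (Fin 2) F) : Matrix (Fin 2) (Fin 2) F) := fun x y => rfl
  have f1 : A * A = C := by rw [hA, ← v, e1]
  have f2 : B * B = C := by rw [hB, ← v, e2]
  have f3 : C * C = 1 := by rw [hC, ← v, e3]; rfl
  have f5 : B * A = C * (A * B) := by rw [hA, hB, hC, ← v, ← v, ← v, e5]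
  have hAB : IsUnit (A * B) := ((a0 : GL (Fin 2) F) * (b0 : GL (Fin 2) F)).isUnit
  have f4 : C ≠ 1 := by
    intro h
    apply e4
    apply Subtype.ext
    apply Units.ext
    exact h
  have hdA : A.det ≠ 0 := ((Matrix.isUnit_iff_isUnit_det _).1 (a0 : GL (Fin 2) F).isUnit).ne_zero
  have hdB : B.det ≠ 0 := ((Matrix.isUnit_iff_isUnit_det _).1 (b0 : GL (Fin 2) F).isUnit).ne_zero
  have hCm : C = -1 := by
    have g1 := ch2 C
    rw [f3] at g1
    by_cases ht : C.trace = 0
    · exfalso
      have g2 : ∀ X : Matrix (Fin 2) (Fin 2) F, X * X = C → X.det ≠ 0 → ∃ s d : F, X = s • C + d • (1 : Matrix (Fin 2) (Fin 2) F) := by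
        intro X hX hd
        have g3 := ch2 X
        rw [hX] at g3
        by_cases htX : X.trace = 0
        · exfalso
          rw [htX, zero_smul, zero_sub] at g3
          rw [g3, Matrix.trace_neg, Matrix.trace_smul, Matrix.trace_one] at ht
          simp at ht
          rcases ht with h | h
          · exact hd h
          · exact h2 h
        · refine ⟨X.trace⁻¹, X.trace⁻¹ * X.det, ?_⟩
          have g4 : X.trace • X = C + X.det • (1 : Matrix (Fin 2) (Fin 2) F) := by
            have := eq_add_of_sub_eq g3.symm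
            exact this
          rw [mul_smul, ← smul_add, ← g4, smul_smul, inv_mul_cancel₀ htX, one_smul]
      obtain ⟨s, d, hAs⟩ := g2 A f1 hdA
      obtain ⟨s', d', hBs⟩ := g2 B f2 hdB
      have hcomm : B * A = A * B := by
        rw [hAs, hBs]
        simp only [add_mul, mul_add, Matrix.smul_mul, Matrix.mul_smul, Matrix.one_mul, Matrix.mul_one, f3]
        module
      rw [f5] at hcomm
      apply f4
      have : C * (A * B) = 1 * (A * B) := by rw [hcomm, one_mul]
      exact hAB.mul_right_cancel this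
    · have g2 : C.trace • C = (1 + C.det) • (1 : Matrix (Fin 2) (Fin 2) F) := by
        have := eq_add_of_sub_eq g1.symm
        rw [this, add_smul, one_smul]
      have g3 := scal ht g2
      set c := C.trace⁻¹ * (1 + C.det) with hc
      rw [g3] at f3 f4 ⊢
      have g4 : c * c = 1 := by
        have := congrFun (congrFun f3 0) 0
        simpa [Matrix.mul_apply, Fin.sum_univ_two] using this
      rcases mul_eq_zero.1 (show (c - 1) * (c + 1) = 0 by linear_combination g4) with h | h
      · exfalso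
        apply f4
        rw [sub_eq_zero.1 h, one_smul]
      · rw [eq_neg_of_add_eq_zero_left h, neg_one_smul]
  have hone : ∀ k : ZMod 4, ∃ n : ℕ, QuaternionGroup.a (n := 2) k = (QuaternionGroup.a (n := 2) 1) ^ n := by
    intro k
    refine ⟨k.val, ?_⟩
    rw [QuaternionGroup.a_one_pow, ZMod.natCast_zmod_val]
  refine ⟨a0, b0, a0.2, b0.2, ?_, ?_, by rw [← hA, f1, hCm], by rw [← hB, f2, hCm], by
    rw [← hA, ← hB, f5, hCm, neg_one_mul]⟩
  · intro x hx
    rcases h : φ ⟨x, hx⟩ with k | k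
    · obtain ⟨n, hn⟩ := hone k
      refine ⟨0, n, ?_⟩
      have h3 : (⟨x, hx⟩ : R) = a0 ^ n := by
        rw [ha0, ← map_pow, ← hn, ← h, MulEquiv.symm_apply_apply]
      rw [pow_zero, one_mul]
      exact congrArg Subtype.val h3
    · obtain ⟨n, hn⟩ := hone k
      refine ⟨1, n, ?_⟩
      have h3 : (⟨x, hx⟩ : R) = b0 * a0 ^ n := by
        rw [ha0, hb0, ← map_pow, ← hn, ← map_mul, QuaternionGroup.xa_mul_a, zero_add, ← h, MulEquiv.symm_apply_apply]
      rw [pow_one]
      exact congrArg Subtype.val h3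
  · rw [Nat.card_congr φ.toEquiv, Nat.card_eq_fintype_card, QuaternionGroup.card]

theorem mem_sl {F : Type*} [Field F] (x : GL (Fin 2) F) :
    x ∈ Cfsg.Geo.specialLinear (Fin 2) F ↔ (x : Matrix (Fin 2) (Fin 2) F).det = 1 := by
  rw [Cfsg.Geo.specialLinear, MonoidHom.mem_ker, Units.ext_iff]
  rfl

theorem conj_to {F : Type*} [Field F] [Finite F] (h2 : (2 : F) ≠ 0) {x h : GL (Fin 2) F}
    (hx : x ∈ Cfsg.Geo.specialLinear (Fin 2) F) (hh : h ∈ Cfsg.Geo.specialLinear (Fin 2) F)
    (ht : (x : Matrix (Fin 2) (Fin 2) F).trace = (h : Matrix (Fin 2) (Fin 2) F).trace)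
    (hd : (x : Matrix (Fin 2) (Fin 2) F).trace ^ 2 ≠ 4) :
    ∃ g ∈ Cfsg.Geo.specialLinear (Fin 2) F, g⁻¹ * x * g = h := by
  rw [mem_sl] at hx hh
  obtain ⟨c, hc⟩ := isConj_iff.1 (Cfsg.Agent.H15.M2.sl_conj_of_disc h2 (g := ⟨_, hx⟩) (h := ⟨_, hh⟩) ht hd)
  have h1 : ((Matrix.SpecialLinearGroup.toGL c : GL (Fin 2) F)) * x = h * Matrix.SpecialLinearGroup.toGL c := by
    apply Units.ext
    have h3 := congrArg (fun y => (y : Matrix.SpecialLinearGroup (Fin 2) F).1) (mul_inv_eq_iff_eq_mul.1 hc)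
    exact h3
  refine ⟨(Matrix.SpecialLinearGroup.toGL c)⁻¹, (Subgroup.inv_mem_iff _).2 ((mem_sl _).2 c.2), ?_⟩
  rw [inv_inv, h1, mul_inv_cancel_right]

section rel

variable {F : Type*} [Field F] {A B : Matrix (Fin 2) (Fin 2) F}

theorem tr0 (h2 : (2 : F) ≠ 0) (hA : A * A = -1) (hBA : B * A = - (A * B)) (hu : IsUnit (A * B)) :
    A.trace = 0 ∧ A.det = 1 := by
  have g1 := ch2 A
  rw [hA] at g1
  have g2 : A.trace • A = (A.det - 1) • (1 : Matrix (Fin 2) (Fin 2) F) := by
    have := eq_add_of_sub_eq g1.symm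
    rw [this, sub_smul, one_smul]
    abel
  have ht : A.trace = 0 := by
    by_contra ht
    have g3 := scal ht g2
    rw [g3, Matrix.mul_smul, Matrix.smul_mul, Matrix.one_mul, Matrix.mul_one] at hBA
    rw [g3, Matrix.smul_mul, Matrix.one_mul] at hu
    have h3 : (2 : F) • ((A.trace⁻¹ * (A.det - 1)) • B) = 0 := by
      rw [two_smul]
      nth_rw 1 [hBA]
      abel
    have h4 := (smul_eq_zero.1 h3).resolve_left h2
    rw [h4] at hu
    exact not_isUnit_zero hu
  refine ⟨ht, ?_⟩
  rw [ht, zero_smul] at g2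
  have := congrFun (congrFun g2 0) 0
  simp at this
  exact (sub_eq_zero.1 this.symm)

variable (A B) in
/-- the element of order six -/
noncomputable def om : Matrix (Fin 2) (Fin 2) F := (2 : F)⁻¹ • (1 + A + B + A * B)

theorem relABA (hA : A * A = -1) (hBA : B * A = - (A * B)) : A * B * A = B := by
  rw [mul_assoc, hBA, mul_neg, ← mul_assoc, hA, neg_one_mul, neg_neg]

theorem relBAB (hB : B * B = -1) (hBA : B * A = - (A * B)) : B * A * B = A := by
  rw [hBA, neg_mul, mul_assoc, hB, mul_neg_one, neg_neg]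

theorem om_A (hA : A * A = -1) (hB : B * B = -1) (hBA : B * A = - (A * B)) : om A B * A = B * om A B := by
  rw [om, Matrix.smul_mul, Matrix.mul_smul]
  congr 1
  rw [add_mul, add_mul, add_mul, mul_add, mul_add, mul_add, one_mul, mul_one, hA, hB, hBA, relABA hA hBA,
    ← mul_assoc, relBAB hB hBA]
  abel

theorem om_B (hA : A * A = -1) (hB : B * B = -1) (hBA : B * A = - (A * B)) : om A B * B = (A * B) * om A B := by
  rw [om, Matrix.smul_mul, Matrix.mul_smul]
  congr 1
  rw [add_mul, add_mul, add_mul, mul_add, mul_add, mul_add, one_mul, mul_one, hB, relABA hA hBA, mul_assoc A B B, hB,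
    ← mul_assoc (A * B) A B, relABA hA hBA, hB, mul_neg_one]
  abel

theorem om_tr (h2 : (2 : F) ≠ 0) (hA : A.trace = 0) (hB : B.trace = 0) (hBA : B * A = - (A * B)) : (om A B).trace = 1 := by
  have h3 : (A * B).trace = 0 := by
    have h4 := Matrix.trace_mul_comm A B
    rw [hBA, Matrix.trace_neg] at h4
    have h5 : (2 : F) * (A * B).trace = 0 := by linear_combination h4
    exact (mul_eq_zero.1 h5).resolve_left h2
  rw [om, Matrix.trace_smul, Matrix.trace_add, Matrix.trace_add, Matrix.trace_add, hA, hB, h3, Matrix.trace_one]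
  simp
  exact inv_mul_cancel₀ h2

theorem om_det (h2 : (2 : F) ≠ 0) (hA : A * A = -1) (hB : B * B = -1) (hBA : B * A = - (A * B)) 
    (hAt : A.trace = 0) (hBt : B.trace = 0) : (om A B).det = 1 := by
  have h3 : (1 + A + B + A * B) * (1 - A - B - A * B) = (4 : F) • (1 : Matrix (Fin 2) (Fin 2) F) := by
    have e1 : A * B * A = B := relABA hA hBA
    have e2 : A * B * B = - A := by rw [mul_assoc, hB, mul_neg_one]
    have e3 : A * (A * B) = - B := by rw [← mul_assoc, hA, neg_one_mul]
    have e4 : B * (A * B) = A := by rw [← mul_assoc, relBAB hB hBA]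
    have e5 : A * B * (A * B) = -1 := by rw [← mul_assoc, e1, hB]
    simp only [add_mul, mul_sub, one_mul, mul_one, hA, hB, hBA, e1, e2, e3, e4, e5]
    have : (4 : F) • (1 : Matrix (Fin 2) (Fin 2) F) = 1 + 1 + 1 + 1 := by
      rw [show (4 : F) = 1 + 1 + 1 + 1 by norm_num, add_smul, add_smul, add_smul, one_smul]
    rw [this]
    abel
  have h4 := om_tr h2 hAt hBt hBA
  have h5 := ch2 (om A B)
  rw [h4, one_smul] at h5
  have h6 : om A B * (om A B - 1) = - (om A B).det • (1 : Matrix (Fin 2) (Fin 2) F) := by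
    rw [mul_sub, mul_one, h5, neg_smul]
    abel
  have h7 : om A B - 1 = - ((2 : F)⁻¹ • (1 - A - B - A * B)) := by
    have h8 : (1 : Matrix (Fin 2) (Fin 2) F) = (2 : F)⁻¹ • (1 + 1) := by
      rw [← two_smul F (1 : Matrix (Fin 2) (Fin 2) F), smul_smul, inv_mul_cancel₀ h2, one_smul]
    calc om A B - 1 = om A B - (2 : F)⁻¹ • (1 + 1) := by rw [← h8]
      _ = - ((2 : F)⁻¹ • (1 - A - B - A * B)) := by
        rw [om, ← smul_neg, ← smul_sub]
        congr 1
        abel
  have h9 : om A B * (om A B - 1) = - (1 : Matrix (Fin 2) (Fin 2) F) := by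
    rw [h7, mul_neg, om, Matrix.smul_mul, Matrix.mul_smul, h3, smul_smul, smul_smul]
    have : (2 : F)⁻¹ * 2⁻¹ * 4 = 1 := by
      rw [show (4 : F) = 2 * 2 by norm_num]
      field_simp
    rw [this, one_smul]
  rw [h6] at h9
  have := congrFun (congrFun h9 0) 0
  simpa using this

theorem comm_scalar (h2 : (2 : F) ≠ 0) {M : Matrix (Fin 2) (Fin 2) F} (hA : A * A = -1) 
    (hBA : B * A = - (A * B)) (hu : IsUnit (A * B)) (hAt : A.trace = 0) (h1 : M * A = A * M) (h3 : M * B = B * M) :
    ∃ c : F, M = c • (1 : Matrix (Fin 2) (Fin 2) F) := by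
  set N := M - (M.trace / 2) • (1 : Matrix (Fin 2) (Fin 2) F) with hN
  have hNt : N.trace = 0 := by
    rw [hN, Matrix.trace_sub, Matrix.trace_smul, Matrix.trace_one]
    simp
    field_simp
    ring
  have hNA : N * A = A * N := by
    rw [hN, sub_mul, mul_sub, h1, Matrix.smul_mul, Matrix.mul_smul, one_mul, mul_one]
  have hNB : N * B = B * N := by
    rw [hN, sub_mul, mul_sub, h3, Matrix.smul_mul, Matrix.mul_smul, one_mul, mul_one]
  have h4 : N * A + A * N = (N * A).trace • (1 : Matrix (Fin 2) (Fin 2) F) := by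
    rw [Matrix.trace_fin_two] at hNt hAt
    ext i j
    fin_cases i <;> fin_cases j
    · simp [Matrix.mul_apply, Fin.sum_univ_two, Matrix.trace_fin_two]
      linear_combination (A 0 0) * hNt - (N 1 1) * hAt
    · simp [Matrix.mul_apply, Fin.sum_univ_two, Matrix.trace_fin_two]
      linear_combination (N 0 1) * hAt + (A 0 1) * hNt
    · simp [Matrix.mul_apply, Fin.sum_univ_two, Matrix.trace_fin_two]
      linear_combination (N 1 0) * hAt + (A 1 0) * hNt
    · simp [Matrix.mul_apply, Fin.sum_univ_two, Matrix.trace_fin_two]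
      linear_combination (A 1 1) * hNt - (N 0 0) * hAt
  have h5 : N * A = ((N * A).trace / 2) • (1 : Matrix (Fin 2) (Fin 2) F) := by
    rw [← hNA, ← two_smul F (N * A)] at h4
    have h6 := scal h2 h4
    rw [inv_mul_eq_div] at h6
    exact h6
  set k := (N * A).trace / 2 with hk
  have h6 : N = -(k • A) := by
    have h7 := congrArg (fun X => X * A) h5
    simp only [mul_assoc, hA, Matrix.smul_mul, one_mul, mul_neg, mul_one] at h7
    rw [← h7, neg_neg]
  have h8 : k = 0 := by
    rw [h6, neg_mul, mul_neg, Matrix.smul_mul, Matrix.mul_smul, hBA, smul_neg, neg_neg] at hNB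
    have h9 : (2 * k) • (A * B) = 0 := by
      rw [mul_smul, two_smul]
      nth_rw 1 [← hNB]
      abel
    rcases smul_eq_zero.1 h9 with h | h
    · exact (mul_eq_zero.1 h).resolve_left h2
    · rw [h] at hu
      exact absurd hu not_isUnit_zero
  rw [h8, zero_smul, neg_zero] at h6
  exact ⟨M.trace / 2, sub_eq_zero.1 h6⟩

end rel


/-- an element of prime order at least five normalising a group of order eight centralises it -/
theorem cent_of_order {G : Type*} [Group G] (R : Subgroup G) (hR : Nat.card R = 8) (c y : G) (hc : c ∈ R) (hc1 : c ≠ 1)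
    (hcy : y * c * y⁻¹ = c) (hy : ∀ x ∈ R, y * x * y⁻¹ ∈ R) {r : ℕ} (hr : r.Prime) (hr5 : 5 ≤ r) (hyr : y ^ r = 1) :
    ∀ x ∈ R, y * x * y⁻¹ = x := by
  classical
  haveI : Finite R := Nat.finite_of_card_ne_zero (by rw [hR]; norm_num)
  haveI := Fintype.ofFinite R
  haveI : Fact r.Prime := ⟨hr⟩
  let f : R → R := fun x => ⟨y * x * y⁻¹, hy x x.2⟩
  have h0 : ∀ (n : ℕ) (x : R), (((show Function.End R from f) ^ n : Function.End R) x : G) = y ^ n * x * (y ^ n)⁻¹ := by
    intro n
    induction n with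
    | zero => intro x; rw [pow_zero, pow_zero, one_mul, inv_one, mul_one]; rfl
    | succ n ih =>
      intro x
      rw [pow_succ', pow_succ']
      change y * (((show Function.End R from f) ^ n : Function.End R) x : G) * y⁻¹ = _
      rw [ih]
      group
  have h2 : (show Function.End R from f) ^ r ^ 1 = 1 := by
    rw [pow_one]
    funext x
    apply Subtype.ext
    rw [h0, hyr, one_mul, inv_one, mul_one]
    rfl
  have h3 := Equiv.Perm.card_fixedPoints_modEq h2
  let K : Subgroup R := (Subgroup.centralizer ({y} : Set G)).subgroupOf R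
  have hK : ∀ x : R, x ∈ K ↔ y * (x : G) * y⁻¹ = x := by
    intro x
    rw [Subgroup.mem_subgroupOf, Subgroup.mem_centralizer_singleton_iff, mul_inv_eq_iff_eq_mul]
    exact eq_comm
  have h4 : Fintype.card (Function.fixedPoints (show Function.End R from f)) = Nat.card K := by
    rw [← Nat.card_eq_fintype_card]
    refine Nat.card_congr (Equiv.subtypeEquivRight (fun x => ?_))
    rw [hK]
    exact ⟨fun h => congrArg Subtype.val h, fun h => Subtype.ext h⟩
  rw [h4, ← Nat.card_eq_fintype_card, hR] at h3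
  have h5 : Nat.card K ∣ 8 := hR ▸ Subgroup.card_subgroup_dvd_card K
  have h6 : 1 < Nat.card K := by
    rw [Subgroup.one_lt_card_iff_ne_bot]
    intro h
    have : (⟨c, hc⟩ : R) ∈ K := (hK _).2 hcy
    rw [h, Subgroup.mem_bot] at this
    exact hc1 (congrArg Subtype.val this)
  have h7 : Nat.card K = 8 := by
    have h8 : Nat.card K ∈ Nat.divisors 8 := Nat.mem_divisors.2 ⟨h5, by norm_num⟩
    have h9 : Nat.divisors 8 = {1, 2, 4, 8} := by decide
    rw [h9] at h8
    simp only [Finset.mem_insert, Finset.mem_singleton] at h8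
    have h10 : (r : ℤ) ∣ (Nat.card K : ℤ) - 8 := (Nat.modEq_iff_dvd).1 h3
    rcases h8 with h | h | h | h
    · omega
    · exfalso
      rw [h] at h10
      have h11 : (r : ℤ) ∣ 6 := by
        have := (dvd_neg (α := ℤ)).2 h10
        norm_num at this
        exact this
      have h12 : r ∣ 6 := by exact_mod_cast h11
      have h13 := Nat.le_of_dvd (by norm_num) h12
      interval_cases r
      · norm_num at h12
      · norm_num at hr
    · exfalso
      rw [h] at h10
      have h11 : (r : ℤ) ∣ 4 := by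
        have := (dvd_neg (α := ℤ)).2 h10
        norm_num at this
        exact this
      have h12 : r ∣ 4 := by exact_mod_cast h11
      have h13 := Nat.le_of_dvd (by norm_num) h12
      omega
    · exact h
  have h8 : K = ⊤ := Subgroup.eq_top_of_card_eq K (by rw [h7, hR])
  intro x hx
  have : (⟨x, hx⟩ : R) ∈ K := by rw [h8]; exact Subgroup.mem_top _
  exact (hK _).1 this

/-- Elements of prime order of PSL_2(p) and the normalizer of a quaternion subgroup. Here `T = PSL_2(F)` for the field `F` with `p` elements, `p ≥ 5` prime; `R` is a subgroup of GL_2(F) isomorphic to the quaternion group of order 8 (an absolutely irreducible 2-group of symplectic type), and `H` is the subgroup of matrices of determinant 1 normalizing `R` — a subgroup of type 2^{1+2}.O₂⁻(2), isomorphic modulo scalars to A₄ or S₄ (maximality is not assumed). Ω is the set of cosets of `H` in `T`, so an element of `T` of prime order `r` (a matrix `x` of determinant 1 with `x^r` scalar, `x` not scalar) fixes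 a point of Ω exactly when some conjugate of `x` by a matrix of determinant 1 normalizes `R`. Let `r` be a prime dividing the index of `H`. Then every element of `T` of order `r` fixes a point of Ω if and only if `r = 2` or `r = 3`. -/
theorem result {F : Type*} [Field F] [Fintype F] {p : ℕ} [Fact p.Prime] [CharP F p] (hF : Fintype.card F = p) (hp : 5 ≤ p)
    (R : Subgroup (GL (Fin 2) F)) (hR : Nonempty (↥R ≃* QuaternionGroup 2))
    (r : ℕ) [Fact r.Prime]
    (hΩ : r ∣ (Cfsg.Geo.subgroupNormalizer R).relIndex (Cfsg.Geo.specialLinear (Fin 2) F)) :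
    (∀ x ∈ Cfsg.Geo.specialLinear (Fin 2) F, (∃ z : F, ((x ^ r : GL (Fin 2) F) : Matrix (Fin 2) (Fin 2) F) = z • (1 : Matrix (Fin 2) (Fin 2) F)) →
      (∀ z : F, (x : Matrix (Fin 2) (Fin 2) F) ≠ z • (1 : Matrix (Fin 2) (Fin 2) F)) →
      ∃ g ∈ Cfsg.Geo.specialLinear (Fin 2) F, g⁻¹ * x * g ∈ Cfsg.Geo.subgroupNormalizer R) ↔ (r = 2 ∨ r = 3) := by
  classical
  have h2 : (2 : F) ≠ 0 := by
    intro h
    have h3 : ((2 : ℕ) : F) = 0 := by exact_mod_cast h
    have h4 := (CharP.cast_eq_zero_iff F p 2).1 h3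
    have := Nat.le_of_dvd (by norm_num) h4
    omega
  have h3F : (3 : F) ≠ 0 := by
    intro h
    have h3 : ((3 : ℕ) : F) = 0 := by exact_mod_cast h
    have h4 := (CharP.cast_eq_zero_iff F p 3).1 h3
    have := Nat.le_of_dvd (by norm_num) h4
    omega
  have hrp : r.Prime := Fact.out
  obtain ⟨a, b, haR, hbR, hgen, hcard, hA, hB, hBA⟩ := quat_rel h2 R hR
  have huAB : IsUnit ((a : Matrix (Fin 2) (Fin 2) F) * b) := (a * b).isUnit
  have hAB' : (a : Matrix (Fin 2) (Fin 2) F) * b = -((b : Matrix (Fin 2) (Fin 2) F) * a) := by rw [hBA, neg_neg]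
  obtain ⟨hAt, hAd⟩ := tr0 h2 hA hBA huAB
  obtain ⟨hBt, hBd⟩ := tr0 h2 hB hAB' (b * a).isUnit
  have haS : a ∈ Cfsg.Geo.specialLinear (Fin 2) F := (mem_sl a).2 hAd
  have hRN : R ≤ Cfsg.Geo.subgroupNormalizer R := Subgroup.le_normalizer
  have hm1 : (a * a : GL (Fin 2) F) ∈ R := R.mul_mem haR haR
  have hm1' : ((a * a : GL (Fin 2) F) : Matrix (Fin 2) (Fin 2) F) = -1 := hA
  -- omega
  have hHd := om_det h2 hA hB hBA hAt hBt
  have hHt := om_tr h2 hAt hBt hBA
  have hHu : IsUnit (om (a : Matrix (Fin 2) (Fin 2) F) b) := (Matrix.isUnit_iff_isUnit_det _).2 (by rw [hHd]; exact isUnit_one)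
  obtain ⟨h, hh⟩ := hHu
  have hhS : h ∈ Cfsg.Geo.specialLinear (Fin 2) F := (mem_sl h).2 (by rw [hh, hHd])
  have hha : h * a * h⁻¹ = b := by
    rw [mul_inv_eq_iff_eq_mul]
    apply Units.ext
    rw [Units.val_mul, Units.val_mul, hh]
    exact om_A hA hB hBA
  have hhb : h * b * h⁻¹ = a * b := by
    rw [mul_inv_eq_iff_eq_mul]
    apply Units.ext
    rw [Units.val_mul, Units.val_mul, Units.val_mul, hh]
    exact om_B hA hB hBA
  have hconj : ∀ x ∈ R, h * x * h⁻¹ ∈ R := by
    intro x hx
    obtain ⟨i, j, rfl⟩ := hgen x hx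
    have : h * (b ^ i * a ^ j) * h⁻¹ = (h * b * h⁻¹) ^ i * (h * a * h⁻¹) ^ j := by
      rw [conj_pow, conj_pow]
      group
    rw [this, hha, hhb]
    exact R.mul_mem (R.pow_mem (R.mul_mem haR hbR) _) (R.pow_mem hbR _)
  haveI : Finite R := Nat.finite_of_card_ne_zero (by rw [hcard]; norm_num)
  have hhN : h ∈ Cfsg.Geo.subgroupNormalizer R := by
    rw [Cfsg.Geo.subgroupNormalizer, Subgroup.mem_normalizer_iff]
    intro x
    refine ⟨hconj x, fun hx => ?_⟩
    let f : R → R := fun x => ⟨h * x * h⁻¹, hconj x x.2⟩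
    have hf : Function.Injective f := by
      intro x y hxy
      have h1 : h * (x : GL (Fin 2) F) * h⁻¹ = h * y * h⁻¹ := congrArg Subtype.val hxy
      exact Subtype.ext (mul_left_cancel (mul_right_cancel h1))
    obtain ⟨y, hy⟩ := (Finite.injective_iff_surjective.1 hf) ⟨_, hx⟩
    have h1 : h * (y : GL (Fin 2) F) * h⁻¹ = h * x * h⁻¹ := congrArg Subtype.val hy
    rw [← mul_left_cancel (mul_right_cancel h1)]
    exact y.2
  constructor
  · intro hall
    by_contra hcon
    push Not at hcon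
    obtain ⟨hr2, hr3⟩ := hcon
    have hr5 : 5 ≤ r := by
      have h1 := hrp.two_le
      by_contra h
      interval_cases r
      · exact hr2 rfl
      · exact hr3 rfl
      · norm_num at hrp
    haveI : Finite (Cfsg.Geo.specialLinear (Fin 2) F) := inferInstance
    have hdvd : r ∣ Nat.card (Cfsg.Geo.specialLinear (Fin 2) F) := hΩ.trans (Subgroup.relIndex_dvd_card _ _)
    obtain ⟨x, hx⟩ := exists_prime_orderOf_dvd_card' r hdvd
    have hxr : (x : GL (Fin 2) F) ^ r = 1 := by
      have := congrArg Subtype.val (orderOf_dvd_iff_pow_eq_one.1 hx.dvd)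
      exact this
    have hx1 : (x : GL (Fin 2) F) ≠ 1 := by
      intro h
      have h1 : x = 1 := Subtype.ext h
      rw [h1, orderOf_one] at hx
      omega
    have hscal : ∀ y : GL (Fin 2) F, y ∈ Cfsg.Geo.specialLinear (Fin 2) F → y ^ r = 1 → ∀ z : F,
        (y : Matrix (Fin 2) (Fin 2) F) = z • (1 : Matrix (Fin 2) (Fin 2) F) → y = 1 := by
      intro y hy hyr z hz
      have h1 := (mem_sl y).1 hy
      rw [hz, Matrix.det_smul, Matrix.det_one, Fintype.card_fin, mul_one] at h1
      have h4 : z ^ r = 1 := by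
        have h5 := congrArg (fun g : GL (Fin 2) F => (g : Matrix (Fin 2) (Fin 2) F)) hyr
        simp only [Units.val_pow_eq_pow_val, hz, smul_pow, one_pow, Units.val_one] at h5
        have := congrFun (congrFun h5 0) 0
        simpa using this
      have h5 : z = 1 := by
        obtain ⟨k, hk⟩ : Odd r := hrp.odd_of_ne_two hr2
        rw [hk, pow_succ, pow_mul, h1, one_pow, one_mul] at h4
        exact h4
      apply Units.ext
      rw [hz, h5, one_smul]
      rfl
    obtain ⟨g, hg, hgN⟩ := hall x x.2 ⟨1, by rw [hxr, one_smul]; rfl⟩ (fun z hz => hx1 (hscal x x.2 hxr z hz))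
    set y : GL (Fin 2) F := g⁻¹ * x * g with hy
    have hyr : y ^ r = 1 := by
      have : y = g⁻¹ * x * (g⁻¹)⁻¹ := by rw [inv_inv]
      rw [this, conj_pow, hxr, mul_one, mul_inv_cancel]
    have hyS : y ∈ Cfsg.Geo.specialLinear (Fin 2) F := Subgroup.mul_mem _ (Subgroup.mul_mem _ (Subgroup.inv_mem _ hg) x.2) hg
    have hcen := cent_of_order R hcard (a * a) y hm1 (by
        intro h
        rw [h, Units.val_one] at hm1'
        have := congrFun (congrFun hm1' 0) 0
        simp at this
        have h3 : (2 : F) = 0 := by linear_combination this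
        exact h2 h3) (by
        rw [mul_inv_eq_iff_eq_mul]
        apply Units.ext
        rw [Units.val_mul y, Units.val_mul (a * a) y, hm1', mul_neg_one, neg_one_mul])
      (fun x hx => ((Subgroup.mem_normalizer_iff.1 hgN) x).1 hx) hrp hr5 hyr
    have ha' := congrArg (fun g : GL (Fin 2) F => (g : Matrix (Fin 2) (Fin 2) F)) (mul_inv_eq_iff_eq_mul.1 (hcen a haR))
    have hb' := congrArg (fun g : GL (Fin 2) F => (g : Matrix (Fin 2) (Fin 2) F)) (mul_inv_eq_iff_eq_mul.1 (hcen b hbR))
    obtain ⟨c, hc⟩ := comm_scalar h2 hA hBA huAB hAt ha' hb'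
    have hy1 := hscal y hyS hyr c hc
    apply hx1
    rw [hy] at hy1
    have h1 : (x : GL (Fin 2) F) = g * (g⁻¹ * x * g) * g⁻¹ := by group
    rw [h1, hy1, mul_one, mul_inv_cancel]
  · intro hr x hx hx1 hx2
    have hxd := (mem_sl x).1 hx
    have hch := ch2 (x : Matrix (Fin 2) (Fin 2) F)
    rw [hxd, one_smul] at hch
    set t := (x : Matrix (Fin 2) (Fin 2) F).trace with ht
    obtain ⟨z, hz⟩ := hx1
    have hns : ∀ s c : F, s • (x : Matrix (Fin 2) (Fin 2) F) = c • (1 : Matrix (Fin 2) (Fin 2) F) → s = 0 := by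
      intro s c h
      by_contra hs
      exact hx2 _ (scal hs h)
    rcases hr with rfl | rfl
    · have h1 : t = 0 := by
        apply hns t (z + 1)
        rw [add_smul, one_smul, ← hz, Units.val_pow_eq_pow_val, pow_two, hch, sub_add_cancel]
      obtain ⟨g, hg, hg2⟩ := conj_to h2 hx haS (by rw [← ht, h1, hAt]) (by
        rw [← ht, h1]
        intro h
        apply h2
        have h3 : (2 : F) * 2 = 0 := by linear_combination -h
        exact mul_self_eq_zero.1 h3)
      exact ⟨g, hg, by rw [hg2]; exact hRN haR⟩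
    · have h1 : t ^ 2 = 1 := by
        have h4 : (t ^ 2 - 1) • (x : Matrix (Fin 2) (Fin 2) F) = (z + t) • (1 : Matrix (Fin 2) (Fin 2) F) := by
          have hx3 : (x : Matrix (Fin 2) (Fin 2) F) ^ 3 = (t ^ 2 - 1) • (x : Matrix (Fin 2) (Fin 2) F) - t • (1 : Matrix (Fin 2) (Fin 2) F) := by
            rw [show (x : Matrix (Fin 2) (Fin 2) F) ^ 3 = (x : Matrix (Fin 2) (Fin 2) F) * x * x by rw [pow_succ, pow_two],
              hch, sub_mul, Matrix.smul_mul, hch, one_mul, smul_sub, smul_smul, sub_smul, one_smul, pow_two]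
            abel
          rw [add_smul, ← hz, Units.val_pow_eq_pow_val, hx3, sub_add_cancel]
        exact sub_eq_zero.1 (hns _ _ h4)
      have h4 : t ^ 2 ≠ 4 := by
        rw [h1]
        intro h
        apply h3F
        linear_combination -h
      rcases mul_eq_zero.1 (show (t - 1) * (t + 1) = 0 by linear_combination h1) with h5 | h5
      · obtain ⟨g, hg, hg2⟩ := conj_to h2 hx hhS (by rw [← ht, hh, hHt]; exact sub_eq_zero.1 h5) h4
        exact ⟨g, hg, by rw [hg2]; exact hhN⟩
      · obtain ⟨g, hg, hg2⟩ := conj_to h2 (x := x) (h := a * a * h) hx (Subgroup.mul_mem _ (Subgroup.mul_mem _ haS haS) hhS) (by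
          rw [Units.val_mul, hm1', neg_one_mul, Matrix.trace_neg, ← ht, hh, hHt]
          exact eq_neg_of_add_eq_zero_left h5) h4
        exact ⟨g, hg, by rw [hg2]; exact Subgroup.mul_mem _ (hRN hm1) hhN⟩

end Cfsg.Agent.S5997
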